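import Cfsg.Agent.Lib.PhanE

/-! Phan amalgams without restriction on `q` in large dimension (helper35). -/

set_option autoImplicit false
set_option linter.unusedSectionVars false
set_option linter.unusedSimpArgs false
set_option linter.unusedVariables false

namespace Cfsg.Agent.Lib.Phan

open Module Matrix Cfsg Cfsg.Agent.Lib.UnTrans Cfsg.Agent.Lib.UnBridge Cfsg.Agent.Lib.ClUnSimple
open Cfsg.Agent.Lib.SpTrans (isom mem_isom)

section geo
variable {F V : Type*} [Field F] [AddCommGroup V] [Module F V] [FiniteDimensional F V] {σ : F →+* F} {f : V → V → F}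
variable (H : HS σ f)
include H

/-- a unit vector orthogonal to two given vectors -/
theorem exTwo {W : Submodule F V} (hW : Nd f W) (h5 : 5 ≤ finrank F W) {w1 w2 : V} (hw1 : w1 ∈ W) (hw2 : w2 ∈ W) :
    ∃ c ∈ W, f c c = 1 ∧ f c w1 = 0 ∧ f c w2 = 0 := by
  by_cases h2 : f w2 w2 = 0
  · obtain ⟨d, hd, hdd, hdw⟩ := exA H hW (by omega) hw1
    have hd0 : f d d ≠ 0 := by rw [hdd]; exact one_ne_zero
    by_cases h3 : f d w2 = 0
    · exact ⟨d, hd, hdd, hdw, h3⟩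
    have r1 := pp_rank H W d
    have hn1 := pp_nd H hW hd hd0
    have m1 : w1 ∈ pp H W d := by rw [mem_pp]; exact ⟨hw1, H.symm_zero hdw⟩
    have m2 := proj_mem H hd hdd hw2
    have n2 : f (w2 - f w2 d • d) (w2 - f w2 d • d) ≠ 0 := by
      rw [proj_nrm H hdd, h2, zero_sub, neg_ne_zero, mul_ne_zero_iff]
      exact ⟨H.symm_ne h3, H.sigma_ne (H.symm_ne h3)⟩
    obtain ⟨κ, hκ, hu⟩ := nrm_scale H n2
    set u := κ • (w2 - f w2 d • d) with hudef
    have hum : u ∈ pp H W d := Submodule.smul_mem _ _ m2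
    have hu0 : f u u ≠ 0 := by rw [hu]; exact one_ne_zero
    have r2 := pp_rank H (pp H W d) u
    have m3 := proj_mem H hum hu m1
    obtain ⟨c, hc, hcc, hcw⟩ := exA H (pp_nd H hn1 hum hu0) (by omega) m3
    rw [mem_pp, mem_pp] at hc
    refine ⟨c, hc.1.1, hcc, ?_, ?_⟩
    · rw [H.sub_right, H.smul_right, hc.2, mul_zero, sub_zero] at hcw
      exact hcw
    · have h4 := hc.2
      rw [hudef, H.smul_right, H.sub_right, H.smul_right, hc.1.2, mul_zero, sub_zero] at h4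
      exact (mul_eq_zero.1 h4).resolve_left (H.sigma_ne hκ)
  · obtain ⟨κ, hκ, hu⟩ := nrm_scale H h2
    have hum : κ • w2 ∈ W := W.smul_mem _ hw2
    have hu0 : f (κ • w2) (κ • w2) ≠ 0 := by rw [hu]; exact one_ne_zero
    have r1 := pp_rank H W (κ • w2)
    have m1 := proj_mem H hum hu hw1
    obtain ⟨c, hc, hcc, hcw⟩ := exA H (pp_nd H hW hum hu0) (by omega) m1
    rw [mem_pp] at hc
    have h4 := hc.2
    refine ⟨c, hc.1, hcc, ?_, ?_⟩
    · rw [H.sub_right, H.smul_right, h4, mul_zero, sub_zero] at hcw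
      exact hcw
    · rw [H.smul_right] at h4
      exact (mul_eq_zero.1 h4).resolve_left (H.sigma_ne hκ)

variable {X : Type*} {p : X → V} {R : X → X → Prop} (C : Cov f p R) (hnd : Nd f (⊤ : Submodule F V))
include C hnd

/-- quadrangles close up in dimension seven -/
theorem cq7 (h7 : 7 ≤ finrank F V) {x a z b : X} (h1 : R x a) (h2 : R a z) (h3 : R x b) (h4 : f (p b) (p z) = 0) : R z b := by
  have hx1 := C.nrm x
  have ha1 := C.nrm a
  have hx0 : f (p x) (p x) ≠ 0 := by rw [hx1]; exact one_ne_zero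
  have ha0 : f (p a) (p a) ≠ 0 := by rw [ha1]; exact one_ne_zero
  have oa := C.orth h1
  have r1 := pp_rank H (⊤ : Submodule F V) (p x)
  rw [finrank_top] at r1
  have ham : p a ∈ pp H ⊤ (p x) := by rw [mem_pp]; exact ⟨trivial, H.symm_zero oa⟩
  have r2 := pp_rank H (pp H ⊤ (p x)) (p a)
  have hW := pp_nd H (pp_nd H hnd trivial hx0) ham ha0
  have mz := proj_mem H ham ha1 (proj_mem H (W := ⊤) (x := p x) (y := p z) trivial hx1 trivial)
  have mb := proj_mem H ham ha1 (proj_mem H (W := ⊤) (x := p x) (y := p b) trivial hx1 trivial)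
  obtain ⟨c, hc, hcc, hcz, hcb⟩ := exTwo H hW (by omega) mz mb
  rw [mem_pp, mem_pp] at hc
  rw [H.sub_right, H.smul_right, hc.2, mul_zero, sub_zero, H.sub_right, H.smul_right, hc.1.2, mul_zero, sub_zero] at hcz hcb
  obtain ⟨y, hxy, rfl⟩ := C.lift x c hcc (H.symm_zero hc.1.2)
  have s1 : R a y := C.tri h1 hxy (H.symm_zero hc.2)
  have s2 : R z y := C.tri h2 s1 (H.symm_zero hcz)
  have s3 : R y b := C.tri hxy h3 hcb
  exact C.tri (C.symm s2) s3 (H.symm_zero h4)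

/-- coverings are trivial in dimension seven -/
theorem inj7 (h7 : 7 ≤ finrank F V) {x0 z w : X}
    (hz : Relation.ReflTransGen R x0 z) (hw : Relation.ReflTransGen R x0 w) (hzw : p z = p w) : z = w := by
  refine inj_of C H hnd (by omega) (cq7 H C hnd h7) ?_ hz hw hzw
  rintro u v ⟨y, h1, h2⟩ h3
  obtain ⟨c, hc, hcu, hcv, hcx⟩ := ex3 H hnd (by omega) (z := p x0) (C.nrm u) (C.nrm v) (C.orth h3)
  obtain ⟨c', r1, rfl⟩ := C.lift x0 c hc (H.symm_zero hcx)
  have r2 := cq7 H C hnd h7 h1 h2 r1 hcu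
  exact ⟨c', r1, C.symm (C.tri h3 r2 (H.symm_zero hcv))⟩

end geo

/-! ### restriction of the data -/

section res
variable {F V : Type*} [Field F] [AddCommGroup V] [Module F V] {f : V → V → F}
variable {L : Type*} [Group L] {π : L →* (V ≃ₗ[F] V)} {A C K : Subgroup L} {e e' e'' : V} {t c0 cs : L}

theorem Dat.res (D : Dat f π A C K e e' e'' t c0 cs) (M : Subgroup L) (hA : A ≤ M) (hK : K ≤ M) (h0 : c0 ∈ M) (hs : cs ∈ M) :
    Dat f (π.comp M.subtype) (A.subgroupOf M) (C.subgroupOf M) (K.subgroupOf M) e e' e'' ⟨t, hK D.tK⟩ ⟨c0, h0⟩ ⟨cs, hs⟩ where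
  iso g := D.iso g
  n0 := D.n0
  n1 := D.n1
  n2 := D.n2
  o1 := D.o1
  o2 := D.o2
  o3 := D.o3
  fixA h hh := D.fixA _ (Subgroup.mem_subgroupOf.1 hh)
  KC := fun x hx => Subgroup.mem_subgroupOf.2 (D.KC (Subgroup.mem_subgroupOf.1 hx))
  fixK k hk := D.fixK _ (Subgroup.mem_subgroupOf.1 hk)
  tK := Subgroup.mem_subgroupOf.2 D.tK
  te := D.te
  c0C := Subgroup.mem_subgroupOf.2 D.c0C
  c0e := D.c0e
  c0e' := D.c0e'
  csC := Subgroup.mem_subgroupOf.2 D.csC
  cse := D.cse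
  cse' := D.cse'
  T1 v h1 h2 := by
    obtain ⟨h, hh, e⟩ := D.T1 v h1 h2
    exact ⟨⟨h, hA hh⟩, Subgroup.mem_subgroupOf.2 hh, e⟩
  T2 v h1 h2 h3 := by
    obtain ⟨h, hh, e⟩ := D.T2 v h1 h2 h3
    exact ⟨⟨h, hA hh⟩, Subgroup.mem_subgroupOf.2 hh, e⟩
  TK a b h := by
    obtain ⟨k, hk, e⟩ := D.TK a b h
    exact ⟨⟨k, hK hk⟩, Subgroup.mem_subgroupOf.2 hk, e⟩
  CA c hc h := Subgroup.mem_subgroupOf.2 (D.CA _ (Subgroup.mem_subgroupOf.1 hc) h)
  comm h hh h1 k hk := Subtype.ext (D.comm _ (Subgroup.mem_subgroupOf.1 hh) h1 _ (Subgroup.mem_subgroupOf.1 hk))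

end res

variable {F : Type*} [Field F] {q m : ℕ} {G : Type*} [Group G]
variable [Fintype F] (hF : Fintype.card F = q ^ 2)
include hF

/-- generation by blocks for all `q` -/
theorem gen_step2 (hm : 1 ≤ m) : (blk (sh 0 (show 0 + (m + 2) ≤ m + 3 by omega)) : SU (m + 2) F q →* SU (m + 3) F q).range ⊔
      (blk (sh (m + 1) (show m + 1 + 2 ≤ m + 3 by omega)) : SU 2 F q →* SU (m + 3) F q).range = ⊤ := by
  refine gen_step hF fun x y hx hy => ?_
  have H := herm_HS (m + 3) hF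
  have hnd := herm_nd (m + 3) hF
  obtain ⟨c1, h1, h1x, h1y⟩ := ex2 H hnd (by rw [Module.finrank_fin_fun]; omega) (y := y) hx
  obtain ⟨c2, h2, h2y, h21⟩ := ex2 H hnd (by rw [Module.finrank_fin_fun]; omega) (y := c1) hy
  exact ⟨c1, c2, h1, h2, H.symm_zero h1x, H.symm_zero h21, h2y⟩

/-- the inductive step, for all `q` for which the coverings are trivial -/
theorem step_gen (hm : 1 ≤ m) (fH : SU (m + 2) F q →* G) (ψ : SU 3 F q →* G)
    (hcompat : ∀ s : SU 2 F q, fH (blk (sh m (by omega)) s) = ψ (blk (sh 0 (by omega)) s))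
    (hcomm : ∀ (h : SU (m + 1) F q) (k : SU 2 F q), fH (blk (sh 0 (by omega)) h) * ψ (blk (sh 1 (by omega)) k) =
      ψ (blk (sh 1 (by omega)) k) * fH (blk (sh 0 (by omega)) h))
    (hinj : (m = 1 ∧ 4 ≤ q) ∨ (2 ≤ m ∧ 3 ≤ q) ∨ 4 ≤ m) :
    ∃ Φ : SU (m + 3) F q →* G, (∀ h, Φ (blk (sh 0 (by omega)) h) = fH h) ∧
      (∀ k : SU 2 F q, Φ (blk (sh (m + 1) (by omega)) k) = ψ (blk (sh 1 (by omega)) k)) := by
  obtain ⟨t, c0, cs, D⟩ := step_dat hF hm fH ψ hcompat hcomm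
  set L := (gr1 fH).range ⊔ (gr2 m ψ).range with hL
  have H := herm_HS (m + 3) hF
  have hnd := herm_nd (m + 3) hF
  have i1 : ∀ h, gr1 fH h ∈ L := fun h => (le_sup_left : _ ≤ L) ⟨h, rfl⟩
  have i2 : ∀ c, gr2 m ψ c ∈ L := fun c => (le_sup_right : _ ≤ L) ⟨c, rfl⟩
  set A := (gr1 fH).range.subgroupOf L with hA
  set K := ((gr2 m ψ).comp (blk (sh 1 (show 1 + 2 ≤ 3 by omega)) : SU 2 F q →* SU 3 F q)).range.subgroupOf L with hK
  set M := A ⊔ K with hM
  have hAM : A ≤ M := le_sup_left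
  have hKM : K ≤ M := le_sup_right
  have D' := D.res M hAM hKM (hAM (D.CA _ D.c0C D.c0e)) (hAM (D.CA _ D.csC D.cse))
  have hgen : A.subgroupOf M ⊔ K.subgroupOf M = ⊤ := by
    rw [← Subgroup.subgroupOf_sup hAM hKM, Subgroup.subgroupOf_self]
  -- the stabilizer
  have hstab : ∀ g : M, act F q m G L g.1 (Pi.single ⟨m + 2, by omega⟩ 1) = Pi.single ⟨m + 2, by omega⟩ 1 → g ∈ A.subgroupOf M := by
    intro g hg
    refine mem_of_fix D' H hgen ?_ hg
    intro p R C x0 z w hz hw hzw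
    rcases hinj with ⟨h1, h2⟩ | ⟨h1, h2⟩ | h1
    · exact inj4 C H hnd (exists_B2 hF h2) (big hF h2) (by rw [Module.finrank_fin_fun]; omega) hz hw hzw
    · exact inj5 C H hnd (exists_B hF h2) (by rw [Module.finrank_fin_fun]; omega) hz hw hzw
    · exact inj7 H C hnd (by rw [Module.finrank_fin_fun]; omega) hz hw hzw
  -- the projection is bijective
  let pr : M →* SU (m + 3) F q := ((MonoidHom.fst _ _).comp L.subtype).comp M.subtype
  have hinj : Function.Injective pr := by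
    rw [injective_iff_map_eq_one]
    intro g hg
    have h1 : act F q m G L g.1 (Pi.single ⟨m + 2, by omega⟩ 1) = Pi.single ⟨m + 2, by omega⟩ 1 := by
      rw [act_apply]
      have h2 : g.1.1.1 = 1 := hg
      rw [h2]; exact Matrix.one_mulVec _
    obtain ⟨h, hh⟩ := Subgroup.mem_subgroupOf.1 (Subgroup.mem_subgroupOf.1 (hstab g h1))
    have h3 : blk (sh 0 (by omega)) h = (1 : SU (m + 3) F q) := by
      have : (gr1 fH h).1 = g.1.1.1 := by rw [hh]
      exact this.trans hg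
    have h4 : h = 1 := blk_inj _ (h3.trans (map_one _).symm)
    apply Subtype.ext
    apply Subtype.ext
    show g.1.1 = 1
    rw [← show gr1 fH h = g.1.1 from hh, h4, map_one]
  have j1 : ∀ h, (⟨gr1 fH h, i1 h⟩ : L) ∈ M := fun h => hAM (Subgroup.mem_subgroupOf.2 ⟨h, rfl⟩)
  have j2 : ∀ s : SU 2 F q, (⟨gr2 m ψ (blk (sh 1 (by omega)) s), i2 _⟩ : L) ∈ M := fun s => hKM (Subgroup.mem_subgroupOf.2 ⟨s, rfl⟩)
  have e2 : ∀ s : SU 2 F q, (gr2 m ψ (blk (sh 1 (by omega)) s)).1 = blk (sh (m + 1) (show m + 1 + 2 ≤ m + 3 by omega)) s := by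
    intro s
    show blk (sh m (show m + 3 ≤ m + 3 by omega)) (blk (sh 1 (show 1 + 2 ≤ 3 by omega)) s) = _
    rw [blk_sh]
  have hsurj : Function.Surjective pr := by
    rw [← MonoidHom.range_eq_top, eq_top_iff, ← gen_step2 (m := m) hF hm, sup_le_iff]
    constructor
    · rintro _ ⟨h, rfl⟩
      exact ⟨⟨⟨gr1 fH h, i1 h⟩, j1 h⟩, rfl⟩
    · rintro _ ⟨s, rfl⟩
      exact ⟨⟨⟨gr2 m ψ (blk (sh 1 (by omega)) s), i2 _⟩, j2 s⟩, e2 s⟩
  let E : M ≃* SU (m + 3) F q := MulEquiv.ofBijective pr ⟨hinj, hsurj⟩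
  let Φ : SU (m + 3) F q →* G := (((MonoidHom.snd _ _).comp L.subtype).comp M.subtype).comp E.symm.toMonoidHom
  have hΦ : ∀ x : M, Φ x.1.1.1 = x.1.1.2 := by
    intro x
    show (E.symm (E x)).1.1.2 = x.1.1.2
    rw [MulEquiv.symm_apply_apply]
  refine ⟨Φ, fun h => hΦ ⟨⟨gr1 fH h, i1 h⟩, j1 h⟩, fun k => ?_⟩
  have := hΦ ⟨⟨gr2 m ψ (blk (sh 1 (by omega)) k), i2 _⟩, j2 k⟩
  rw [← e2 k]
  exact this

end Cfsg.Agent.Lib.Phan
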