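import Mathlib
import Cfsg.Prelude.Def_Local
import Cfsg.Agent.Lib.Cores
import Cfsg.Agent.Lib.PLength
import Cfsg.Agent.Lib.PLengthOne
import Cfsg.Agent.Lib.H32PSolv
import Cfsg.Agent.Lib.PSolvDual

/-!
Powell's theorem, I: chains of normal subgroups whose factors are `p`-groups or `p'`-groups (helper11, S3792).
-/

set_option autoImplicit false
set_option linter.unusedSectionVars false

namespace Cfsg.Agent.Lib.PowA

open Subgroup Cfsg

universe u v

/-- numbers of type `p` (`true`) or `p'` (`false`) -/
def BN (p : ℕ) : Bool → ℕ → Prop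
  | true, n => ∃ k, n ∣ p ^ k
  | false, n => n.Coprime p

variable {p : ℕ}

theorem BN.of_dvd {b : Bool} {m n : ℕ} (h : BN p b n) (hmn : m ∣ n) : BN p b m := by
  cases b
  · exact Nat.Coprime.coprime_dvd_left hmn h
  · obtain ⟨k, hk⟩ := h
    exact ⟨k, hmn.trans hk⟩

theorem BN.mul {b : Bool} {m n : ℕ} (hm : BN p b m) (hn : BN p b n) : BN p b (m * n) := by
  cases b
  · exact Nat.Coprime.mul_left hm hn
  · obtain ⟨k, hk⟩ := hm
    obtain ⟨l, hl⟩ := hn
    exact ⟨k + l, by rw [pow_add]; exact mul_dvd_mul hk hl⟩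

theorem BN.one (b : Bool) : BN p b 1 := by
  cases b
  · exact Nat.coprime_one_left p
  · exact ⟨0, by simp⟩

theorem BN.coprime {b : Bool} {m n : ℕ} (hm : BN p b m) (hn : BN p (!b) n) : m.Coprime n := by
  cases b
  · obtain ⟨k, hk⟩ := hn
    exact Nat.Coprime.coprime_dvd_right hk (Nat.Coprime.pow_right k hm)
  · obtain ⟨k, hk⟩ := hm
    exact Nat.Coprime.coprime_dvd_left hk (Nat.Coprime.pow_left k (Nat.Coprime.symm hn))

theorem BN.coprime' {b : Bool} {m n : ℕ} (hm : BN p b m) (hn : BN p (!b) n) : n.Coprime m := (hm.coprime hn).symm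

section

variable {H : Type u} [Group H]

/-- chains of normal subgroups with factors of given types, types listed from the top. -/
inductive Ch (p : ℕ) {H : Type u} [Group H] : List Bool → Subgroup H → Subgroup H → Prop
  | nil (N : Subgroup H) (hN : N.Normal) : Ch p [] N N
  | cons (b : Bool) (l : List Bool) (N M M' : Subgroup H) (h : Ch p l N M) (hM' : M'.Normal) (hle : M ≤ M')
      (hb : BN p b (M.relIndex M')) : Ch p (b :: l) N M'

theorem Ch.normal_top {l : List Bool} {N M : Subgroup H} (h : Ch p l N M) : M.Normal := by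
  cases h
  · assumption
  · assumption

theorem Ch.normal_bot {l : List Bool} {N M : Subgroup H} (h : Ch p l N M) : N.Normal := by
  induction h with
  | nil N hN => exact hN
  | cons b l N M M' h hM' hle hb ih => exact ih

theorem Ch.le {l : List Bool} {N M : Subgroup H} (h : Ch p l N M) : N ≤ M := by
  induction h with
  | nil N hN => exact le_rfl
  | cons b l N M M' h hM' hle hb ih => exact ih.trans hle

theorem Ch.map {K : Type v} [Group K] (f : H →* K) (hf : Function.Surjective f) {l : List Bool} {N M : Subgroup H}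
    (h : Ch p l N M) : Ch p l (N.map f) (M.map f) := by
  induction h with
  | nil N hN => exact Ch.nil _ (hN.map f hf)
  | cons b l N M M' h hM' hle hb ih =>
    have := h.normal_top
    exact Ch.cons b l _ _ _ ih (hM'.map f hf) (map_mono hle) (hb.of_dvd (H32PSolv.relIndex_map_dvd f hf M M'))

theorem relIndex_comap_dvd {K : Type v} [Group K] (f : H →* K) {N M : Subgroup K} (hN : N.Normal) :
    (N.comap f).relIndex (M.comap f) ∣ N.relIndex M := by
  rw [Subgroup.relIndex_comap]
  exact H32PSolv.relIndex_dvd_of_normal N (map_comap_le f M)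

theorem Ch.comap {K : Type v} [Group K] (f : H →* K) {l : List Bool} {N M : Subgroup K}
    (h : Ch p l N M) : Ch p l (N.comap f) (M.comap f) := by
  induction h with
  | nil N hN => exact Ch.nil _ (hN.comap f)
  | cons b l N M M' h hM' hle hb ih =>
    exact Ch.cons b l _ _ _ ih (hM'.comap f) (comap_mono hle) (hb.of_dvd (relIndex_comap_dvd f h.normal_top))

theorem Ch.inf {l : List Bool} {N M : Subgroup H} (h : Ch p l N M) : ∀ {N' M' : Subgroup H}, Ch p l N' M' →
    Ch p l (N ⊓ N') (M ⊓ M') := by
  induction h with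
  | nil N hN =>
    intro N' M' h'
    cases h'
    exact Ch.nil _ inferInstance
  | cons b l N M M₂ h hM' hle hb ih =>
    intro N' M'' h'
    cases h' with
    | cons b l N' M' M₂' h' hM'' hle' hb' =>
    refine Ch.cons b l _ _ _ (ih h') inferInstance (inf_le_inf hle hle') ?_
    have h1 := Subgroup.relIndex_inf_mul_relIndex M M' (M₂ ⊓ M'')
    rw [← h1]
    have := h.normal_top
    have := h'.normal_top
    refine BN.mul ?_ ?_
    · exact hb.of_dvd (H32PSolv.relIndex_dvd_of_normal M (inf_le_right.trans inf_le_left))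
    · exact hb'.of_dvd (H32PSolv.relIndex_dvd_of_normal M' inf_le_right)

theorem Ch.top (l : List Bool) : Ch p l (⊤ : Subgroup H) ⊤ := by
  induction l with
  | nil => exact Ch.nil _ inferInstance
  | cons b l ih => exact Ch.cons b l _ _ _ ih inferInstance le_rfl (by rw [relIndex_self]; exact BN.one b)

theorem Ch.refl (l : List Bool) {N : Subgroup H} (hN : N.Normal) : Ch p l N N := by
  induction l with
  | nil => exact Ch.nil _ hN
  | cons b l ih => exact Ch.cons b l _ _ _ ih hN le_rfl (by rw [relIndex_self]; exact BN.one b)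

theorem Ch.finset_inf {ι : Type v} (s : Finset ι) {l : List Bool} {N M : ι → Subgroup H}
    (h : ∀ i ∈ s, Ch p l (N i) (M i)) : Ch p l (s.inf N) (s.inf M) := by
  classical
  induction s using Finset.induction_on with
  | empty => simpa using Ch.top l
  | insert i s hi ih =>
    rw [Finset.inf_insert, Finset.inf_insert]
    exact (h i (Finset.mem_insert_self i s)).inf (ih fun j hj => h j (Finset.mem_insert_of_mem hj))

/-- change of the bottom, same type -/
theorem Ch.bot_change {l : List Bool} {b : Bool} : ∀ {N N₁ M : Subgroup H}, Ch p (l ++ [b]) N M → N₁.Normal →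
    N₁ ≤ N → BN p b (N₁.relIndex N) → Ch p (l ++ [b]) N₁ M := by
  induction l with
  | nil =>
    intro N N₁ M h hN₁ hle hb
    cases h with
    | cons b l N M' M h hM hle' hb' =>
    cases h with
    | nil N hN =>
    refine Ch.cons _ _ _ _ _ (Ch.nil N₁ hN₁) hM (hle.trans hle') ?_
    rw [← Subgroup.relIndex_mul_relIndex N₁ _ M hle hle']
    exact hb.mul hb'
  | cons c l ih =>
    intro N N₁ M h hN₁ hle hb
    cases h with
    | cons b l N M' M h hM hle' hb' =>
    exact Ch.cons _ _ _ _ _ (ih h hN₁ hle hb) hM hle' hb'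

/-- adding a factor at the bottom -/
theorem Ch.append_bot {l : List Bool} {b : Bool} {N N₁ M : Subgroup H} (h : Ch p l N M) (hN₁ : N₁.Normal)
    (hle : N₁ ≤ N) (hb : BN p b (N₁.relIndex N)) : Ch p (l ++ [b]) N₁ M := by
  induction h with
  | nil N hN => exact Ch.cons _ _ _ _ _ (Ch.nil N₁ hN₁) hN hle hb
  | cons c l N M M' h hM' hle' hb' ih =>
    exact Ch.cons _ _ _ _ _ (ih hle hb) hM' hle' hb'

/-- splitting off the factor at the bottom -/
theorem Ch.split_bot {l : List Bool} {b : Bool} : ∀ {N₁ M : Subgroup H}, Ch p (l ++ [b]) N₁ M →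
    ∃ N : Subgroup H, Ch p l N M ∧ N₁ ≤ N ∧ BN p b (N₁.relIndex N) := by
  induction l with
  | nil =>
    intro N₁ M h
    cases h with
    | cons b l N M' M h hM hle' hb' =>
    cases h with
    | nil N hN => exact ⟨M, Ch.nil M hM, hle', hb'⟩
  | cons c l ih =>
    intro N₁ M h
    cases h with
    | cons b l N M' M h hM hle' hb' =>
    obtain ⟨N, h1, h2, h3⟩ := ih h
    exact ⟨N, Ch.cons _ _ _ _ _ h1 hM hle' hb', h2, h3⟩

theorem Ch.sup {l : List Bool} {N M : Subgroup H} (h : Ch p l N M) [Finite H] : ∀ {N' M' : Subgroup H}, Ch p l N' M' →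
    Ch p l (N ⊔ N') (M ⊔ M') := by
  induction h with
  | nil N hN =>
    intro N' M' h'
    cases h'
    exact Ch.nil _ inferInstance
  | cons b l N M M₂ h hM' hle hb ih =>
    intro N' M'' h'
    cases h' with
    | cons b l N' M' M₂' h' hM'' hle' hb' =>
    refine Ch.cons b l _ _ _ (ih h') inferInstance (sup_le_sup hle hle') ?_
    have := h.normal_top
    have := h'.normal_top
    rw [← H32PSolv.card_map_mk, Subgroup.map_sup]
    have : (M''.map (QuotientGroup.mk' (M ⊔ M'))).Normal := hM''.map _ (QuotientGroup.mk'_surjective _)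
    refine BN.of_dvd ?_ (Cores.card_sup_dvd _ _)
    rw [H32PSolv.card_map_mk, H32PSolv.card_map_mk]
    exact (hb.of_dvd (relIndex_dvd_of_le_left _ le_sup_left)).mul (hb'.of_dvd (relIndex_dvd_of_le_left _ le_sup_right))

/-- the largest subgroup at the top of a chain -/
def O (p : ℕ) (l : List Bool) (H : Type u) [Group H] : Subgroup H := sSup {M | Ch p l ⊥ M}

theorem ch_O (l : List Bool) (H : Type u) [Group H] [Finite H] : Ch p l (⊥ : Subgroup H) (O p l H) := by
  have := H32Cores.sSup_mem_of_closed {M : Subgroup H | Ch p l ⊥ M} (Ch.refl l inferInstance) (by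
    intro A hA B hB
    have := hA.sup hB
    rwa [bot_sup_eq] at this)
  exact this

theorem Ch.le_O {l : List Bool} {M : Subgroup H} (h : Ch p l ⊥ M) : M ≤ O p l H := le_sSup h

instance O_normal (l : List Bool) [Finite H] : (O p l H).Normal := (ch_O l H).normal_top

theorem O_nil : O p [] H = ⊥ := by
  rw [O, sSup_eq_bot]
  intro M hM
  cases hM
  rfl

theorem map_O_le {K : Type v} [Group K] [Finite H] (f : H →* K) (hf : Function.Surjective f) (l : List Bool) :
    (O p l H).map f ≤ O p l K := by
  apply Ch.le_O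
  have := (ch_O (p := p) l H).map f hf
  rwa [Subgroup.map_bot] at this

theorem comap_O_le {K : Type v} [Group K] [Finite K] (f : H →* K) (hf : Function.Injective f) (l : List Bool) :
    (O p l K).comap f ≤ O p l H := by
  apply Ch.le_O
  have := (ch_O (p := p) l K).comap f
  rwa [MonoidHom.comap_bot, (MonoidHom.ker_eq_bot_iff f).2 hf] at this

theorem O_char [Finite H] (l : List Bool) : (O p l H).Characteristic := by
  rw [characteristic_iff_map_le]
  intro e
  exact map_O_le e.toMonoidHom e.surjective l

theorem O_le_cons [Finite H] (b : Bool) (l : List Bool) : O p l H ≤ O p (b :: l) H := by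
  apply Ch.le_O
  exact Ch.cons _ _ _ _ _ (ch_O l H) inferInstance le_rfl (by rw [relIndex_self]; exact BN.one b)

theorem relIndex_O_cons [Finite H] (b : Bool) (l : List Bool) : BN p b ((O p l H).relIndex (O p (b :: l) H)) := by
  have h := ch_O (p := p) (b :: l) H
  cases h with
  | cons b l N M M' h hM' hle hb =>
  exact hb.of_dvd (relIndex_dvd_of_le_left _ h.le_O)

theorem ch_map_subtype [Finite H] (N : Subgroup H) [N.Normal] (l : List Bool) :
    Ch p l ⊥ ((O p l N).map N.subtype) := by
  induction l with
  | nil =>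
    rw [O_nil, Subgroup.map_bot]
    exact Ch.nil _ inferInstance
  | cons b l ih =>
    have hc := O_char (p := p) (H := N) (b :: l)
    refine Ch.cons _ _ _ _ _ ih (Cores.normal_map_subtype_of_characteristic _) (map_mono (O_le_cons b l)) ?_
    rw [Subgroup.relIndex_map_map_of_injective _ _ N.subtype_injective]
    exact relIndex_O_cons b l

end

end Cfsg.Agent.Lib.PowA
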