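import Mathlib
import Cfsg.Agent.Lib.PowA
import Cfsg.Agent.Lib.BaerSuzuki
import Cfsg.Agent.Lib.SchurZassenhaus

/-!
Powell's theorem, II: the local lemmas (helper11, S3792).
-/

set_option autoImplicit false
set_option linter.unusedSectionVars false

namespace Cfsg.Agent.Lib.PowB

open Subgroup Cfsg Cfsg.Agent.Lib.PowA

universe u v

variable {p : ℕ}

/-- the letters, from the top -/
def lt : ℕ → Bool
  | 0 => true
  | n + 1 => !(lt n)

theorem lt_add_two (n : ℕ) : lt (n + 2) = lt n := by simp [lt]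

/-- the alternating words -/
def R : ℕ → List Bool
  | 0 => []
  | n + 1 => R n ++ [lt n]

theorem R_add_two (n : ℕ) : R (n + 2) = true :: false :: R n := by
  induction n with
  | zero => rfl
  | succ n ih =>
    have : R (n + 1 + 2) = R (n + 2) ++ [lt (n + 2)] := rfl
    rw [this, ih, lt_add_two]
    rfl

section

variable {H : Type u} [Group H]

/-- the relative version -/
def OS (p : ℕ) (l : List Bool) (V : Subgroup H) : Subgroup H := (O p l V).map V.subtype

theorem OS_le (l : List Bool) (V : Subgroup H) : OS p l V ≤ V := map_subtype_le _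

theorem mem_OS_iff {l : List Bool} {V : Subgroup H} {x : V} : (x : H) ∈ OS p l V ↔ x ∈ O p l V := by
  constructor
  · rintro ⟨y, hy, hyx⟩
    have : y = x := Subtype.ext hyx
    rwa [← this]
  · intro h
    exact ⟨x, h, rfl⟩

theorem mem_OS_of_le {l : List Bool} {V W : Subgroup H} [Finite H] (h : V ≤ W) {z : H} (hz : z ∈ V)
    (hzW : z ∈ OS p l W) : z ∈ OS p l V := by
  have h1 : (⟨z, h hz⟩ : W) ∈ O p l W := mem_OS_iff.1 hzW
  have h2 : (⟨z, hz⟩ : V) ∈ O p l V := comap_O_le (inclusion h) (inclusion_injective h) l h1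
  exact mem_OS_iff.2 h2

theorem OS_map {K : Type v} [Group K] [Finite H] (f : H →* K) {l : List Bool} {V : Subgroup H} {z : H}
    (hz : z ∈ OS p l V) : f z ∈ OS p l (V.map f) := by
  obtain ⟨y, hy, rfl⟩ := hz
  have := map_O_le (f.subgroupMap V) (f.subgroupMap_surjective V) l ⟨y, hy, rfl⟩
  exact mem_OS_iff.2 this

theorem mem_OS_top {l : List Bool} [Finite H] {z : H} : z ∈ OS p l (⊤ : Subgroup H) ↔ z ∈ O p l H := by
  constructor
  · rintro ⟨y, hy, rfl⟩
    exact map_O_le (⊤ : Subgroup H).subtype (fun x => ⟨⟨x, mem_top x⟩, rfl⟩) l ⟨y, hy, rfl⟩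
  · intro h
    have : (⟨z, mem_top z⟩ : (⊤ : Subgroup H)) ∈ O p l (⊤ : Subgroup H) :=
      comap_O_le (⊤ : Subgroup H).subtype (⊤ : Subgroup H).subtype_injective l h
    exact mem_OS_iff.2 this

theorem le_normalizer_OS [Finite H] (l : List Bool) (V : Subgroup H) : V ≤ normalizer (OS p l V : Set H) :=
  Cores.le_normalizer_map_subtype _

theorem mem_OS_of_normal {l : List Bool} [Finite H] {N : Subgroup H} [N.Normal] {z : H} (hz : z ∈ OS p l N) :
    z ∈ O p l H := (ch_map_subtype N l).le_O hz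

/-- the counting lemma -/
theorem count_lemma [Finite H] {B N : Subgroup H} {z w : H}
    (h : ∀ b ∈ B, ∃ u ∈ B, u⁻¹ * z * u ∈ N ∧ u⁻¹ * (w * b) * u ∈ N) : ∀ u ∈ B, u⁻¹ * z * u ∈ N := by
  classical
  have : Fintype B := Fintype.ofFinite _
  set F : Finset B := Finset.univ.filter fun u : B => (u : H)⁻¹ * z * u ∈ N with hF
  set r : B → B → Prop := fun b u => (u : H)⁻¹ * (w * b) * u ∈ N with hr
  set S : Finset B := Finset.univ.filter fun s : B => (s : H) ∈ N with hS
  have key := Finset.card_mul_le_card_mul (s := (Finset.univ : Finset B)) (t := F) (m := S.card) (n := S.card) r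
    (by
      intro b _
      obtain ⟨u, huB, hu1, hu2⟩ := h b b.2
      refine Finset.card_le_card_of_injOn (fun s => (⟨u, huB⟩ : B) * s) ?_ ?_
      · intro s hs
        have hs' : (s : H) ∈ N := by simpa [hS] using hs
        have e1 : ((⟨u, huB⟩ : B) * s : B).1⁻¹ * z * ((⟨u, huB⟩ : B) * s : B).1 = (s : H)⁻¹ * (u⁻¹ * z * u) * s := by
          simp only [Subgroup.coe_mul]; group
        have e2 : ((⟨u, huB⟩ : B) * s : B).1⁻¹ * (w * b) * ((⟨u, huB⟩ : B) * s : B).1 =
            (s : H)⁻¹ * (u⁻¹ * (w * b) * u) * s := by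
          simp only [Subgroup.coe_mul]; group
        have h1 : ((⟨u, huB⟩ : B) * s : B).1⁻¹ * z * ((⟨u, huB⟩ : B) * s : B).1 ∈ N := by
          rw [e1]; exact mul_mem (mul_mem (inv_mem hs') hu1) hs'
        have h2 : ((⟨u, huB⟩ : B) * s : B).1⁻¹ * (w * b) * ((⟨u, huB⟩ : B) * s : B).1 ∈ N := by
          rw [e2]; exact mul_mem (mul_mem (inv_mem hs') hu2) hs'
        rw [Finset.mem_coe, Finset.mem_bipartiteAbove]
        exact ⟨by rw [hF, Finset.mem_filter]; exact ⟨Finset.mem_univ _, h1⟩, h2⟩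
      · intro s _ s' _ hss
        exact mul_left_cancel hss)
    (by
      intro u _
      by_cases hne : (Finset.bipartiteBelow r Finset.univ u).Nonempty
      · obtain ⟨b₀, hb₀⟩ := hne
        have hb₀' : (u : H)⁻¹ * (w * b₀) * u ∈ N := by
          rw [Finset.mem_bipartiteBelow] at hb₀; exact hb₀.2
        refine Finset.card_le_card_of_injOn (fun b => u⁻¹ * (b₀⁻¹ * b) * u) ?_ ?_
        · intro b hb
          rw [Finset.mem_coe, Finset.mem_bipartiteBelow] at hb
          have hb' : (u : H)⁻¹ * (w * b) * u ∈ N := hb.2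
          rw [Finset.mem_coe, hS, Finset.mem_filter]
          refine ⟨Finset.mem_univ _, ?_⟩
          have e : ((u⁻¹ * (b₀⁻¹ * b) * u : B) : H) = ((u : H)⁻¹ * (w * b₀) * u)⁻¹ * ((u : H)⁻¹ * (w * b) * u) := by
            push_cast; group
          rw [e]
          exact mul_mem (inv_mem hb₀') hb'
        · intro b _ b' _ hbb
          have h1 : u⁻¹ * (b₀⁻¹ * b) * u = u⁻¹ * (b₀⁻¹ * b') * u := hbb
          exact mul_left_cancel (mul_left_cancel (mul_right_cancel h1))
      · rw [Finset.not_nonempty_iff_eq_empty] at hne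
        rw [hne]; simp)
  have hSpos : 0 < S.card := Finset.card_pos.2 ⟨1, by rw [hS, Finset.mem_filter]; exact ⟨Finset.mem_univ _, one_mem N⟩⟩
  have h1 : (Finset.univ : Finset B).card ≤ F.card := Nat.le_of_mul_le_mul_right key hSpos
  have h2 : F = Finset.univ := Finset.eq_univ_of_card _ (le_antisymm (Finset.card_le_univ _) h1)
  intro u hu
  have : (⟨u, hu⟩ : B) ∈ F := by rw [h2]; exact Finset.mem_univ _
  rw [hF, Finset.mem_filter] at this
  exact this.2

/-- elements normalizing all the conjugates -/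
theorem comm_of_normalize [Finite H] {B T : Subgroup H} (hB : B.Normal) (hcop : (Nat.card T).Coprime (Nat.card B))
    (hC : centralizer (B : Set H) ≤ B) {z : H} (hz : ∀ u ∈ B, u⁻¹ * z * u ∈ normalizer (T : Set H)) :
    ∀ t ∈ T, t * z = z * t := by
  have hTB : T ⊓ B = ⊥ := (Subgroup.disjoint_of_coprime_natCard hcop).eq_bot
  have hzT : z ∈ normalizer (T : Set H) := by
    have := hz 1 (one_mem B)
    simpa using this
  -- elements of `N_B(T)` centralize `T`
  have hcen : ∀ c ∈ B, c ∈ normalizer (T : Set H) → ∀ t ∈ T, c * t = t * c := by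
    intro c hc hcT t ht
    have h1 : c * t * c⁻¹ * t⁻¹ ∈ T ⊓ B := by
      refine mem_inf.2 ⟨mul_mem ((mem_normalizer_iff.1 hcT t).1 ht) (inv_mem ht), ?_⟩
      have e : c * t * c⁻¹ * t⁻¹ = c * (t * c⁻¹ * t⁻¹) := by group
      rw [e]; exact mul_mem hc (hB.conj_mem _ (inv_mem hc) t)
    rw [hTB, mem_bot] at h1
    have h2 := mul_inv_eq_one.1 h1
    exact mul_inv_eq_iff_eq_mul.1 h2
  have hact : ∀ u ∈ B, ∃ c ∈ B, (∀ t ∈ T, c * t = t * c) ∧ z * u * z⁻¹ = u * c := by
    intro u hu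
    have h1 : u⁻¹ * z * u * z⁻¹ ∈ B := by
      have e : u⁻¹ * z * u * z⁻¹ = u⁻¹ * (z * u * z⁻¹) := by group
      rw [e]; exact mul_mem (inv_mem hu) (hB.conj_mem _ hu z)
    refine ⟨u⁻¹ * z * u * z⁻¹, h1, hcen _ h1 (mul_mem (hz u hu) (inv_mem hzT)), by group⟩
  have hact' : ∀ u ∈ B, ∃ c ∈ B, (∀ t ∈ T, c * t = t * c) ∧ z⁻¹ * u * z = u * c := by
    intro u hu
    have h1 : u⁻¹ * z⁻¹ * u * z ∈ B := by
      have e : u⁻¹ * z⁻¹ * u * z = u⁻¹ * (z⁻¹ * u * z⁻¹⁻¹) := by group
      rw [e]; exact mul_mem (inv_mem hu) (hB.conj_mem _ hu z⁻¹)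
    have h2 : u⁻¹ * z⁻¹ * u ∈ normalizer (T : Set H) := by
      have := inv_mem (hz u hu)
      have e : (u⁻¹ * z * u)⁻¹ = u⁻¹ * z⁻¹ * u := by group
      rwa [e] at this
    refine ⟨u⁻¹ * z⁻¹ * u * z, h1, hcen _ h1 (mul_mem h2 hzT), by group⟩
  intro t ht
  set s := t⁻¹ * (z⁻¹ * t * z) with hs
  have hsT : s ∈ T := by
    have h1 : z⁻¹ * t * z ∈ T := by
      have := (mem_normalizer_iff.1 (inv_mem hzT) t).1 ht
      simpa using this
    exact mul_mem (inv_mem ht) h1
  have hsB : s ∈ centralizer (B : Set H) := by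
    rw [mem_centralizer_iff]
    intro u hu
    have hu : u ∈ B := hu
    obtain ⟨c, hc, hcT, e1⟩ := hact u hu
    have htu : t * u * t⁻¹ ∈ B := hB.conj_mem u hu t
    obtain ⟨c₁, hc₁, hcT₁, e2⟩ := hact' (t * u * t⁻¹) htu
    obtain ⟨c₂, hc₂, hcT₂, e3⟩ := hact' c hc
    -- `s u s⁻¹ = u k`
    set k := c₁ * (c * c₂) with hk
    have hkB : k ∈ B := mul_mem hc₁ (mul_mem hc hc₂)
    have hkT : ∀ t ∈ T, k * t = t * k := by
      intro t ht
      have a1 : Commute c₁ t := hcT₁ t ht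
      have a2 : Commute c t := hcT t ht
      have a3 : Commute c₂ t := hcT₂ t ht
      exact (a1.mul_left (a2.mul_left a3)).eq
    have e4 : s * u * s⁻¹ = u * k := by
      have f1 : s * u * s⁻¹ = t⁻¹ * (z⁻¹ * (t * (z * u * z⁻¹) * t⁻¹) * z) * t := by rw [hs]; group
      have f2 : t * (u * c) * t⁻¹ = (t * u * t⁻¹) * c := by
        calc t * (u * c) * t⁻¹ = t * u * (c * t⁻¹) := by group
          _ = t * u * (t⁻¹ * c) := by rw [hcT _ (inv_mem ht)]
          _ = (t * u * t⁻¹) * c := by group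
      have f3 : z⁻¹ * ((t * u * t⁻¹) * c) * z = (z⁻¹ * (t * u * t⁻¹) * z) * (z⁻¹ * c * z) := by group
      have f4 : t⁻¹ * (t * u * t⁻¹ * c₁ * (c * c₂)) * t = u * (t⁻¹ * (k * t)) := by rw [hk]; group
      rw [f1, e1, f2, f3, e2, e3, f4, hkT t ht]
      group
    have hpow : ∀ n : ℕ, s ^ n * u * (s ^ n)⁻¹ = u * k ^ n := by
      intro n
      induction n with
      | zero => simp
      | succ n ih =>
        have f1 : s ^ (n + 1) * u * (s ^ (n + 1))⁻¹ = s * (s ^ n * u * (s ^ n)⁻¹) * s⁻¹ := by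
          rw [pow_succ']; group
        have f2 : Commute (k ^ n) s⁻¹ := (show Commute k s⁻¹ from hkT _ (inv_mem hsT)).pow_left n
        rw [f1, ih]
        calc s * (u * k ^ n) * s⁻¹ = s * u * (k ^ n * s⁻¹) := by group
          _ = s * u * (s⁻¹ * k ^ n) := by rw [f2.eq]
          _ = (s * u * s⁻¹) * k ^ n := by group
          _ = u * k * k ^ n := by rw [e4]
          _ = u * k ^ (n + 1) := by rw [pow_succ', mul_assoc]
    have hk1 : k ^ Nat.card T = 1 := by
      have h1 := hpow (Nat.card T)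
      have h2 : s ^ Nat.card T = 1 := by
        have h := orderOf_dvd_natCard (⟨s, hsT⟩ : T)
        rw [Subgroup.orderOf_mk] at h
        exact orderOf_dvd_iff_pow_eq_one.1 h
      rw [h2] at h1
      have h3 : u = u * k ^ Nat.card T := by simpa using h1
      exact left_eq_mul.1 h3
    have hk2 : k ^ Nat.card B = 1 := by
      have h := orderOf_dvd_natCard (⟨k, hkB⟩ : B)
      rw [Subgroup.orderOf_mk] at h
      exact orderOf_dvd_iff_pow_eq_one.1 h
    have hk3 : k = 1 := by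
      have h1 : orderOf k ∣ 1 := by
        rw [← hcop]
        exact Nat.dvd_gcd (orderOf_dvd_of_pow_eq_one hk1) (orderOf_dvd_of_pow_eq_one hk2)
      exact orderOf_eq_one_iff.1 (Nat.dvd_one.1 h1)
    rw [hk3, mul_one] at e4
    exact (mul_inv_eq_iff_eq_mul.1 e4).symm
  have hs1 : s = 1 := by
    have : s ∈ T ⊓ B := mem_inf.2 ⟨hsT, hC hsB⟩
    rwa [hTB, mem_bot] at this
  have h1 : t⁻¹ * (z⁻¹ * t * z) = 1 := by rw [← hs]; exact hs1
  have h2 : z⁻¹ * t * z = t := by
    have := inv_mul_eq_one.1 h1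
    exact this.symm
  calc t * z = z * (z⁻¹ * t * z) := by group
    _ = z * t := by rw [h2]

end

end Cfsg.Agent.Lib.PowB
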