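import Mathlib
import Cfsg.Agent.Lib.PowB

/-!
Powell's theorem, III: `z ∈ O_l(⟨z, w⟩)` for all `w` implies `z ∈ O_l(H)` in `p`-solvable groups (helper11, S3792).
-/

set_option autoImplicit false
set_option linter.unusedSectionVars false
set_option maxHeartbeats 400000

namespace Cfsg.Agent.Lib.PowC

open Subgroup Cfsg Cfsg.Agent.Lib.PowA Cfsg.Agent.Lib.PowB
open scoped Pointwise

universe u v

variable {p : ℕ}

theorem eq_one_of_coprime_pow {Y : Type u} [Group Y] {t : Y} {m n : ℕ} (h : m.Coprime n) (h1 : t ^ m = 1)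
    (h2 : t ^ n = 1) : t = 1 := by
  have h3 : orderOf t ∣ 1 := by
    rw [← h]
    exact Nat.dvd_gcd (orderOf_dvd_of_pow_eq_one h1) (orderOf_dvd_of_pow_eq_one h2)
  exact orderOf_eq_one_iff.1 (Nat.dvd_one.1 h3)

theorem pow_card_eq_one_of_mem {Y : Type u} [Group Y] {T : Subgroup Y} {t : Y} (ht : t ∈ T) : t ^ Nat.card T = 1 := by
  have h := orderOf_dvd_natCard (⟨t, ht⟩ : T)
  rw [Subgroup.orderOf_mk] at h
  exact orderOf_dvd_iff_pow_eq_one.1 h

theorem exists_compl {Y : Type u} [Group Y] [Finite Y] {Z₀ E : Subgroup Y} (hE : E.Normal) (hle : Z₀ ≤ E)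
    (hc : ∀ t ∈ Z₀, ∀ x ∈ E, t * x = x * t) {a : Bool} (ha : BN p a (Nat.card Z₀))
    (hb : BN p (!a) (Z₀.relIndex E)) : ∃ E₁ : Subgroup Y, E₁.Normal ∧ E₁ ≤ E ∧ BN p (!a) (Nat.card E₁) ∧
      BN p a (E₁.relIndex E) ∧ ∀ x ∈ E, BN p (!a) (orderOf x) → x ∈ E₁ := by
  have hn : (Z₀.subgroupOf E).Normal := by
    refine ⟨fun t ht x => ?_⟩
    rw [mem_subgroupOf] at ht ⊢
    have h1 : ((x * t * x⁻¹ : E) : Y) = (t : Y) := by
      push_cast
      rw [← hc _ ht _ x.2]; group
    rw [h1]; exact ht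
  have hcard : Nat.card (Z₀.subgroupOf E) = Nat.card Z₀ := Nat.card_congr (Subgroup.subgroupOfEquivOfLe hle).toEquiv
  obtain ⟨K, hK⟩ := Subgroup.exists_right_complement'_of_coprime (N := Z₀.subgroupOf E) (by
    rw [hcard]
    exact ha.coprime hb)
  have hKc : Nat.card K = Z₀.relIndex E := by
    have := hK.symm.index_eq_card
    rw [← this]; rfl
  have hKi : K.index = Nat.card Z₀ := by
    rw [← hcard]; exact hK.index_eq_card
  have hKbn : BN p (!a) (Nat.card K) := by rw [hKc]; exact hb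
  have hE₁c : Nat.card (K.map E.subtype) = Nat.card K := Cores.card_map_subtype K
  have hstar : ∀ x ∈ E, BN p (!a) (orderOf x) → x ∈ K.map E.subtype := by
    intro x hx hox
    have h1 : (⟨x, hx⟩ : E) ∈ (Z₀.subgroupOf E) ⊔ K := by rw [hK.sup_eq_top]; exact mem_top _
    obtain ⟨t, ht, k, hk, htk⟩ := mem_sup_of_normal_left.1 h1
    have htk' : (t : Y) * (k : Y) = x := congrArg Subtype.val htk
    have hcm : Commute (t : Y) (k : Y) := hc _ ht _ k.2
    have hx1 : x ^ (orderOf x * Nat.card K) = 1 := by rw [pow_mul, pow_orderOf_eq_one, one_pow]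
    have hk1 : (k : Y) ^ (orderOf x * Nat.card K) = 1 := by
      have h2 : (k : Y) ^ Nat.card K = 1 := by
        have h3 := pow_card_eq_one_of_mem hk
        simpa using congrArg Subtype.val h3
      rw [mul_comm, pow_mul, h2, one_pow]
    have ht1 : (t : Y) ^ (orderOf x * Nat.card K) = 1 := by
      have h5 : ((t : Y) * (k : Y)) ^ (orderOf x * Nat.card K) = 1 := by rw [htk']; exact hx1
      rw [hcm.mul_pow, hk1, mul_one] at h5
      exact h5
    have ht2 : (t : Y) ^ Nat.card Z₀ = 1 := pow_card_eq_one_of_mem ht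
    have ht3 : (t : Y) = 1 := eq_one_of_coprime_pow (ha.coprime (hox.mul hKbn)) ht2 ht1
    rw [ht3, one_mul] at htk'
    exact ⟨k, hk, htk'⟩
  refine ⟨K.map E.subtype, ?_, map_subtype_le _, by rw [hE₁c]; exact hKbn, ?_, hstar⟩
  · refine ⟨fun x hx y => ?_⟩
    have hxE : x ∈ E := map_subtype_le _ hx
    apply hstar _ (hE.conj_mem _ hxE y)
    have h1 : orderOf (y * x * y⁻¹) ∣ Nat.card K := by
      apply orderOf_dvd_of_pow_eq_one
      rw [conj_pow, ← hE₁c, pow_card_eq_one_of_mem hx]; group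
    exact hKbn.of_dvd h1
  · have h1 : (K.map E.subtype).relIndex E = K.index := by
      rw [relIndex]
      congr 1
      exact comap_map_eq_self_of_injective E.subtype_injective K
    rw [h1, hKi]; exact ha

theorem claimC {X : Type u} [Group X] [Finite X] {T M : Subgroup X} (m : ℕ) {z : X} (hT : T.Normal)
    (hTa : BN p (lt (m + 1)) (Nat.card T)) (hc : ∀ t ∈ T, t * z = z * t) (hz : ∃ k, z ^ p ^ k = 1)
    (hch : Ch p (R (m + 1)) T M) (hzM : z ∈ M) : z ∈ O p (R (m + 1)) X := by
  set Z := normalClosure ({z} : Set X) with hZ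
  have hzZ : z ∈ Z := subset_normalClosure (Set.mem_singleton z)
  have hZT : Z ≤ centralizer (T : Set X) := by
    apply normalClosure_le_normal
    rintro y rfl
    rw [SetLike.mem_coe, mem_centralizer_iff]
    intro t ht
    exact hc t ht
  have hcZ : ∀ t ∈ T.subgroupOf Z, ∀ x : Z, t * x = x * t := by
    intro t ht x
    apply Subtype.ext
    exact mem_centralizer_iff.1 (hZT x.2) _ ht
  have hTc : BN p (lt (m + 1)) (Nat.card (T.subgroupOf Z)) :=
    hTa.of_dvd (card_comap_dvd_of_injective T Z.subtype Z.subtype_injective)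
  have hch' : Ch p (R m ++ [lt m]) (T.subgroupOf Z) (M.subgroupOf Z) := hch.comap Z.subtype
  obtain ⟨E, hE, hTE, hEb⟩ := hch'.split_bot
  have hnn : (!(lt (m + 1))) = lt m := by simp [lt]
  obtain ⟨E₁, hE₁n, hE₁E, hE₁c, hE₁i, hstar⟩ := exists_compl (p := p) (a := lt (m + 1)) hE.normal_bot hTE
    (fun t ht x _ => hcZ t ht x) hTc (by rw [hnn]; exact hEb)
  rw [hnn] at hE₁c hstar
  have hzO : (⟨z, hzZ⟩ : Z) ∈ O p (R (m + 1)) Z := by
    cases m with
    | zero =>
      have hE' : Ch p [] E (M.subgroupOf Z) := hE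
      cases hE' with
      | nil N hN =>
      have h1 : (⟨z, hzZ⟩ : Z) ∈ E₁ := by
        apply hstar _ hzM
        obtain ⟨k, hk⟩ := hz
        refine ⟨k, orderOf_dvd_of_pow_eq_one ?_⟩
        exact Subtype.ext (by simpa using hk)
      have h2 : Ch p (R 0 ++ [lt 0]) ⊥ E₁ := (Ch.nil E₁ hE₁n).append_bot inferInstance bot_le (by
        rw [relIndex_bot_left]; exact hE₁c)
      exact h2.le_O h1
    | succ k =>
      have hE' : Ch p (R k ++ [lt k]) E (M.subgroupOf Z) := hE
      have h1 := hE'.bot_change hE₁n hE₁E (by rw [lt_add_two] at hE₁i; exact hE₁i)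
      have h2 : Ch p (R (k + 1) ++ [lt (k + 1)]) ⊥ (M.subgroupOf Z) :=
        Ch.append_bot h1 inferInstance bot_le (by rw [relIndex_bot_left]; exact hE₁c)
      exact h2.le_O hzM
  exact (ch_map_subtype Z (R (m + 1))).le_O ⟨_, hzO, rfl⟩

section

variable {H : Type u} [Group H] [Finite H]

theorem card_O (b : Bool) : BN p b (Nat.card (O p [b] H)) := by
  have h := ch_O (p := p) [b] H
  cases h with
  | cons b l N M M' h hM' hle hb =>
  cases h with
  | nil N hN => rwa [relIndex_bot_left] at hb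

theorem le_O {b : Bool} {N : Subgroup H} (hN : N.Normal) (h : BN p b (Nat.card N)) : N ≤ O p [b] H := by
  apply Ch.le_O
  exact Ch.cons _ _ _ _ _ (Ch.nil ⊥ inferInstance) hN bot_le (by rw [relIndex_bot_left]; exact h)

theorem O_quotient (b : Bool) : O p [b] (H ⧸ O p [b] H) = ⊥ := by
  set N := O p [b] H with hN
  have h1 : (O p [b] (H ⧸ N)).comap (QuotientGroup.mk' N) ≤ N := by
    apply le_O inferInstance
    rw [Cores.card_comap_mk]
    exact BN.mul (card_O b) (card_O b)
  have h2 := map_mono (f := QuotientGroup.mk' N) h1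
  rw [Subgroup.map_comap_eq_self_of_surjective (QuotientGroup.mk'_surjective N)] at h2
  rw [eq_bot_iff]
  refine h2.trans ?_
  rw [Subgroup.map_le_iff_le_comap, MonoidHom.comap_bot, QuotientGroup.ker_mk']

theorem O_true_eq [hp : Fact p.Prime] : O p [true] H = pCore p H := by
  apply le_antisymm
  · apply Cores.le_pCore inferInstance
    obtain ⟨k, hk⟩ := card_O (p := p) (H := H) true
    obtain ⟨j, -, hj⟩ := (Nat.dvd_prime_pow hp.out).1 hk
    exact IsPGroup.of_card hj
  · apply le_O inferInstance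
    obtain ⟨k, hk⟩ := IsPGroup.iff_card.1 (Cores.isPGroup_pCore p H)
    exact ⟨k, by rw [hk]⟩

theorem O_false_eq : O p [false] H = pPrimeCore p H := by
  apply le_antisymm
  · exact Cores.le_pPrimeCore inferInstance (card_O (p := p) (H := H) false)
  · exact le_O inferInstance (Cores.coprime_card_pPrimeCore p H)

theorem centralizer_O_le [hp : Fact p.Prime] (hs : IsPSolvable p H) {b : Bool} (h : O p [!b] H = ⊥) :
    centralizer (O p [b] H : Set H) ≤ O p [b] H := by
  cases b
  · have h' : O p [true] H = ⊥ := h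
    rw [O_true_eq] at h'
    rw [O_false_eq]
    exact PSolvDual.centralizer_pPrimeCore_le hs h'
  · have h' : O p [false] H = ⊥ := h
    rw [O_false_eq] at h'
    rw [O_true_eq]
    exact H32PSolv.centralizer_pCore_le hs h'

theorem solvable_of_BN [hp : Fact p.Prime] {B : Subgroup H} (h : BN p true (Nat.card B)) : Group.IsSolvable B := by
  obtain ⟨k, hk⟩ := h
  obtain ⟨j, -, hj⟩ := (Nat.dvd_prime_pow hp.out).1 hk
  have h1 : IsPGroup p B := IsPGroup.of_card hj
  have := h1.isNilpotent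
  infer_instance

theorem conj_mem_normalizer {T T' : Subgroup H} {u x : H} (h : MulAut.conj u • T = T')
    (hx : x ∈ normalizer (T' : Set H)) : u⁻¹ * x * u ∈ normalizer (T : Set H) := by
  apply H32Cores.mem_normalizer_of_conj_le
  intro t ht
  have h1 : u * t * u⁻¹ ∈ T' := by
    rw [← h]
    exact ⟨t, ht, rfl⟩
  have h2 := (mem_normalizer_iff.1 hx _).1 h1
  rw [← h, BaerSuzuki.mem_conj_smul_iff] at h2
  have e : u⁻¹ * x * u * t * (u⁻¹ * x * u)⁻¹ = u⁻¹ * (x * (u * t * u⁻¹) * x⁻¹) * u := by group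
  rw [e]; exact h2

end

end Cfsg.Agent.Lib.PowC
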