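import Mathlib
import Cfsg.Agent.Lib.PowC

/-!
Powell's theorem, IV: `z ∈ O_l(⟨z, w⟩)` for all `w` implies `z ∈ O_l(H)` in `p`-solvable groups, the induction
(helper11, S3792).
-/

set_option autoImplicit false
set_option linter.unusedSectionVars false
set_option maxHeartbeats 400000

namespace Cfsg.Agent.Lib.PowD

open Subgroup Cfsg Cfsg.Agent.Lib.PowA Cfsg.Agent.Lib.PowB Cfsg.Agent.Lib.PowC
open scoped Pointwise

universe u v

variable {p : ℕ} [hp : Fact p.Prime]

theorem step (n : ℕ) (ih : ∀ (H : Type u) [Group H] [Finite H], IsPSolvable p H → ∀ z : H, (∃ k, z ^ p ^ k = 1) →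
      (∀ w : H, z ∈ OS p (R (n + 1)) (closure {z, w})) → z ∈ O p (R (n + 1)) H)
    {H : Type u} [Group H] [Finite H] (hs : IsPSolvable p H) (hO : O p [lt (n + 1)] H = ⊥) {z : H}
    (hz : ∃ k, z ^ p ^ k = 1) (h : ∀ w : H, z ∈ OS p (R (n + 2)) (closure {z, w})) : z ∈ O p (R (n + 1)) H := by
  classical
  by_contra hcon
  set B := O p [lt n] H with hB
  have hBn : B.Normal := inferInstance
  have hBc : BN p (lt n) (Nat.card B) := card_O _
  have hCB : centralizer (B : Set H) ≤ B := centralizer_O_le hs hO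
  set π := QuotientGroup.mk' B with hπ
  -- `z` modulo `B`
  have hzB : π z ∉ O p (R (n + 1)) (H ⧸ B) := by
    intro h1
    have h2 : Ch p (R n ++ [lt n]) ((⊥ : Subgroup (H ⧸ B)).comap π) ((O p (R (n + 1)) (H ⧸ B)).comap π) :=
      (ch_O (p := p) (R (n + 1)) (H ⧸ B)).comap π
    rw [MonoidHom.comap_bot, hπ, QuotientGroup.ker_mk'] at h2
    have h3 := h2.bot_change (N₁ := ⊥) inferInstance bot_le (by rw [relIndex_bot_left]; exact hBc)
    exact hcon (h3.le_O h1)
  have hzp : ∃ k, (π z) ^ p ^ k = 1 := by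
    obtain ⟨k, hk⟩ := hz
    exact ⟨k, by rw [← map_pow, hk, map_one]⟩
  obtain ⟨w', hw'⟩ : ∃ w' : H ⧸ B, π z ∉ OS p (R (n + 1)) (closure {π z, w'}) := by
    by_contra hall
    push Not at hall
    exact hzB (ih _ (H32PSolv.isPSolvable_quotient hs B) _ hzp hall)
  obtain ⟨w, rfl⟩ := QuotientGroup.mk'_surjective B w'
  rw [← hπ] at hw'
  set Ab := closure ({π z, π w} : Set (H ⧸ B)) with hAb
  let X : B → Subgroup H := fun b => closure {z, w * b}
  have hXmap : ∀ b : B, (X b).map π = Ab := by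
    intro b
    have h1 : π (w * b) = π w := by
      rw [map_mul]
      have : π (b : H) = 1 := (QuotientGroup.eq_one_iff _).2 b.2
      rw [this, mul_one]
    change (closure {z, w * (b : H)}).map π = Ab
    rw [MonoidHom.map_closure, Set.image_pair, h1]
  have hXA : ∀ (b : B) (x : X b), (π.comp (X b).subtype) x ∈ Ab := by
    intro b x
    rw [← hXmap b]
    exact ⟨x, x.2, rfl⟩
  let φ : ∀ b : B, X b →* Ab := fun b => (π.comp (X b).subtype).codRestrict Ab (hXA b)
  have hφ : ∀ (b : B) (x : X b), ((φ b x : Ab) : H ⧸ B) = π (x : H) := fun b x => rfl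
  have hφs : ∀ b : B, Function.Surjective (φ b) := by
    rintro b ⟨y, hy⟩
    rw [← hXmap b] at hy
    obtain ⟨x, hx, hxy⟩ := hy
    exact ⟨⟨x, hx⟩, Subtype.ext hxy⟩
  have hzX : ∀ b : B, z ∈ X b := fun b => subset_closure (by simp)
  have hwX : ∀ b : B, w * b ∈ X b := fun b => subset_closure (by simp)
  have hT : ∀ b : B, ∃ T : Subgroup (X b), Ch p (R (n + 1)) T (O p (R (n + 2)) (X b)) ∧
      BN p (lt (n + 1)) (Nat.card T) := by
    intro b
    have h1 : Ch p (R (n + 1) ++ [lt (n + 1)]) ⊥ (O p (R (n + 2)) (X b)) := ch_O _ _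
    obtain ⟨T, h2, h3, h4⟩ := h1.split_bot
    rw [relIndex_bot_left] at h4
    exact ⟨T, h2, h4⟩
  choose T hTch hTc using hT
  have hzT : ∀ b : B, (⟨z, hzX b⟩ : X b) ∈ O p (R (n + 2)) (X b) := fun b => mem_OS_iff.1 (h (w * b))
  have : Fintype B := Fintype.ofFinite _
  set T₀ : Subgroup Ab := Finset.univ.inf (fun b => (T b).map (φ b)) with hT₀
  set M₀ : Subgroup Ab := Finset.univ.inf (fun b => (O p (R (n + 2)) (X b)).map (φ b)) with hM₀
  have hch₀ : Ch p (R (n + 1)) T₀ M₀ := Ch.finset_inf Finset.univ fun b _ => (hTch b).map (φ b) (hφs b)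
  have hT₀n : T₀.Normal := hch₀.normal_bot
  have hT₀le : ∀ b : B, T₀ ≤ (T b).map (φ b) := fun b => Finset.inf_le (Finset.mem_univ b)
  have hzA : π z ∈ Ab := subset_closure (by simp)
  have hzM₀ : (⟨π z, hzA⟩ : Ab) ∈ M₀ := by
    have h1 : zpowers (⟨π z, hzA⟩ : Ab) ≤ M₀ := by
      apply Finset.le_inf
      intro b _
      rw [zpowers_le]
      exact ⟨_, hzT b, Subtype.ext rfl⟩
    exact h1 (mem_zpowers _)
  let σ : ∀ b : B, Subgroup (X b) := fun b => T b ⊓ T₀.comap (φ b)
  have hσn : ∀ b : B, (σ b).Normal := by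
    intro b
    have := (hTch b).normal_bot
    have : (T₀.comap (φ b)).Normal := hT₀n.comap _
    exact inferInstance
  have hσc : ∀ b : B, BN p (lt (n + 1)) (Nat.card (σ b)) := fun b => (hTc b).of_dvd (card_dvd_of_le inf_le_left)
  let τ : B → Subgroup H := fun b => (σ b).map (X b).subtype
  have hτc : ∀ b : B, BN p (lt (n + 1)) (Nat.card (τ b)) := by
    intro b
    have : Nat.card (τ b) = Nat.card (σ b) := Cores.card_map_subtype _
    rw [this]; exact hσc b
  have hτn : ∀ b : B, X b ≤ normalizer (τ b : Set H) := by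
    intro b
    have := hσn b
    exact Cores.le_normalizer_map_subtype (σ b)
  set M : Subgroup H := (T₀.map Ab.subtype).comap π with hM
  have hBτ : ∀ b : B, B ⊔ τ b = M := by
    intro b
    apply le_antisymm
    · apply sup_le
      · intro x hx
        rw [hM, mem_comap]
        have : π x = 1 := (QuotientGroup.eq_one_iff _).2 hx
        rw [this]; exact one_mem _
      · rintro _ ⟨x, hx, rfl⟩
        rw [hM, mem_comap]
        exact ⟨φ b x, hx.2, rfl⟩
    · intro x hx
      rw [hM, mem_comap] at hx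
      obtain ⟨y, hy, hyx⟩ := hx
      obtain ⟨t, ht, hty⟩ := hT₀le b hy
      have h1 : π (t : H) = π x := by
        rw [← hyx, ← hty]; rfl
      have h2 : (t : H)⁻¹ * x ∈ B := by
        rw [← QuotientGroup.eq_one_iff]
        change π ((t : H)⁻¹ * x) = 1
        rw [map_mul, map_inv, h1, inv_mul_cancel]
      have h3 : (t : H) ∈ τ b := ⟨t, mem_inf.2 ⟨ht, (by rw [hty]; exact hy : φ b t ∈ T₀)⟩, rfl⟩
      have e : x = (t : H) * ((t : H)⁻¹ * x) := by group
      rw [e]
      exact mul_mem (le_sup_right (a := B) h3) (le_sup_left (b := τ b) h2)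
  have hcop : ∀ b : B, (Nat.card B).Coprime (Nat.card (τ b)) := fun b => hBc.coprime (hτc b)
  have hsol : Group.IsSolvable B ∨ Group.IsSolvable (τ 1) := by
    by_cases hl : lt n = true
    · left
      apply solvable_of_BN (p := p)
      rw [hl] at hBc; exact hBc
    · right
      apply solvable_of_BN (p := p)
      have h1 : lt (n + 1) = true := by simp [lt, hl]
      have h2 := hτc 1
      rw [h1] at h2; exact h2
  have hNB : ∀ b : B, τ b ≤ normalizer (B : Set H) := fun b => by rw [normalizer_eq_top]; exact le_top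
  have hcount : ∀ u ∈ B, u⁻¹ * z * u ∈ normalizer (τ 1 : Set H) := by
    apply count_lemma (w := w)
    intro b hb
    obtain ⟨u, hu, huτ⟩ := SchurZassenhaus.conj_of_solvable (hNB 1) (hNB ⟨b, hb⟩)
      (by rw [hBτ, hBτ]) (hcop 1) (hcop ⟨b, hb⟩) hsol
    exact ⟨u, hu, conj_mem_normalizer huτ (hτn ⟨b, hb⟩ (hzX ⟨b, hb⟩)),
      conj_mem_normalizer huτ (hτn ⟨b, hb⟩ (hwX ⟨b, hb⟩))⟩
  have hcomm := comm_of_normalize hBn (hcop 1).symm hCB hcount
  -- claim C
  have hch1 : Ch p (R n ++ [lt n]) (T₀.comap (φ 1)) (M₀.comap (φ 1)) := hch₀.comap (φ 1)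
  have hidx : BN p (lt n) ((σ 1).relIndex (T₀.comap (φ 1))) := by
    have h1 : T₀.comap (φ 1) ≤ σ 1 ⊔ (φ 1).ker := by
      intro x hx
      obtain ⟨t, ht, htx⟩ := hT₀le 1 hx
      have h2 : t⁻¹ * x ∈ (φ 1).ker := by
        rw [MonoidHom.mem_ker, map_mul, map_inv, htx, inv_mul_cancel]
      have h3 : t ∈ σ 1 := mem_inf.2 ⟨ht, (by rw [htx]; exact hx : φ 1 t ∈ T₀)⟩
      have e : x = t * (t⁻¹ * x) := by group
      rw [e]
      exact mul_mem (le_sup_left (b := (φ 1).ker) h3) (le_sup_right (a := σ 1) h2)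
    have hn1 := hσn 1
    have h2 : (σ 1).relIndex (T₀.comap (φ 1)) ∣ (σ 1).relIndex (σ 1 ⊔ (φ 1).ker) :=
      H32PSolv.relIndex_dvd_of_normal (σ 1) h1
    have h3 : (σ 1).relIndex (σ 1 ⊔ (φ 1).ker) = (σ 1).relIndex (φ 1).ker := by
      rw [Subgroup.relIndex_sup_left]
    have h4 : (σ 1).relIndex (φ 1).ker ∣ Nat.card (φ 1).ker := relIndex_dvd_card _ _
    have h5 : Nat.card (φ 1).ker ∣ Nat.card B := by
      have h6 : (φ 1).ker ≤ B.comap (X 1).subtype := by
        intro x hx
        rw [mem_comap]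
        rw [MonoidHom.mem_ker] at hx
        have h7 : π (x : H) = 1 := by rw [← hφ, hx]; rfl
        exact (QuotientGroup.eq_one_iff _).1 h7
      exact (card_dvd_of_le h6).trans (card_comap_dvd_of_injective B (X 1).subtype (X 1).subtype_injective)
    rw [h3] at h2
    exact hBc.of_dvd ((h2.trans h4).trans h5)
  have hch2 : Ch p (R (n + 1)) (σ 1) (M₀.comap (φ 1)) := hch1.bot_change (hσn 1) inf_le_right hidx
  have hfin : (⟨z, hzX 1⟩ : X 1) ∈ O p (R (n + 1)) (X 1) := by
    apply claimC n (hσn 1) (hσc 1) _ _ hch2 _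
    · intro t ht
      apply Subtype.ext
      exact hcomm _ ⟨t, ht, rfl⟩
    · obtain ⟨k, hk⟩ := hz
      exact ⟨k, Subtype.ext (by simpa using hk)⟩
    · rw [mem_comap]
      exact hzM₀
  apply hw'
  have h1 := map_O_le (φ 1) (hφs 1) (R (n + 1)) ⟨_, hfin, rfl⟩
  exact ⟨_, h1, rfl⟩

theorem D (n : ℕ) : ∀ (H : Type u) [Group H] [Finite H], IsPSolvable p H → ∀ z : H, (∃ k, z ^ p ^ k = 1) →
      (∀ w : H, z ∈ OS p (R (n + 1)) (closure {z, w})) → z ∈ O p (R (n + 1)) H := by
  induction n with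
  | zero =>
    intro H _ _ hs z hz h
    obtain ⟨N, hN, hNp, hle⟩ := BaerSuzuki.baer_suzuki (p := p) (zpowers z) (by
        obtain ⟨k, hk⟩ := hz
        rintro ⟨y, m, rfl⟩
        refine ⟨k, Subtype.ext ?_⟩
        change (z ^ m) ^ p ^ k = 1
        rw [← zpow_natCast, ← zpow_mul, mul_comm, zpow_mul, zpow_natCast, hk, one_zpow]) (by
      intro g
      have h1 := h g
      have h2 : closure {z, g} ≤ normalizer (OS p (R 1) (closure {z, g}) : Set H) := le_normalizer_OS _ _
      have h3 : IsPGroup p (OS p (R 1) (closure {z, g})) := by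
        have h4 : OS p (R 1) (closure {z, g}) = (pCore p (closure {z, g})).map (closure {z, g}).subtype := by
          have h5 : O p (R 1) (closure ({z, g} : Set H)) = pCore p (closure ({z, g} : Set H)) := O_true_eq
          rw [OS, h5]
        rw [h4]
        exact (Cores.isPGroup_pCore p _).map _
      apply h3.to_le
      apply sup_le
      · rw [zpowers_le]; exact h1
      · intro y hy
        rw [BaerSuzuki.mem_conj_smul_iff] at hy
        have h5 : g⁻¹ * y * g ∈ OS p (R 1) (closure {z, g}) := (zpowers_le.2 h1) hy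
        have h6 := (mem_normalizer_iff.1 (h2 (subset_closure (by simp : g ∈ ({z, g} : Set H)))) _).1 h5
        have e : g * (g⁻¹ * y * g) * g⁻¹ = y := by group
        rwa [e] at h6)
    have h1 : O p (R 1) H = pCore p H := O_true_eq
    rw [h1]
    exact Cores.le_pCore hN hNp (hle (mem_zpowers z))
  | succ n ih =>
    intro H _ _ hs z hz h
    set N := O p [lt (n + 1)] H with hN
    set π := QuotientGroup.mk' N with hπ
    have hzp : ∃ k, (π z) ^ p ^ k = 1 := by
      obtain ⟨k, hk⟩ := hz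
      exact ⟨k, by rw [← map_pow, hk, map_one]⟩
    have h1 : π z ∈ O p (R (n + 1)) (H ⧸ N) := by
      apply step n ih (H32PSolv.isPSolvable_quotient hs N) (O_quotient _) hzp
      intro w'
      obtain ⟨w, rfl⟩ := QuotientGroup.mk'_surjective N w'
      have h2 := OS_map π (h w)
      rwa [MonoidHom.map_closure, Set.image_pair] at h2
    have h2 : Ch p (R (n + 1)) ((⊥ : Subgroup (H ⧸ N)).comap π) ((O p (R (n + 1)) (H ⧸ N)).comap π) :=
      (ch_O (p := p) (R (n + 1)) (H ⧸ N)).comap π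
    rw [MonoidHom.comap_bot, hπ, QuotientGroup.ker_mk'] at h2
    have h3 : Ch p (R (n + 1) ++ [lt (n + 1)]) ⊥ ((O p (R (n + 1)) (H ⧸ N)).comap π) :=
      h2.append_bot inferInstance bot_le (by rw [relIndex_bot_left]; exact card_O _)
    exact h3.le_O h1

end Cfsg.Agent.Lib.PowD
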