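import Mathlib
import Cfsg.Agent.Lib.PowD
import Cfsg.Agent.Lib.TwoGenC

/-!
Powell's theorem, V: closure lemmas in the simple group (helper11, S3792).
-/

set_option autoImplicit false
set_option linter.unusedSectionVars false
set_option maxHeartbeats 400000

namespace Cfsg.Agent.Lib.PowE

open Subgroup Cfsg Cfsg.Agent.Lib.PowA Cfsg.Agent.Lib.PowB Cfsg.Agent.Lib.PowC Cfsg.Agent.Lib.PowD
open Cfsg.Agent.Lib.TwoGenA Cfsg.Agent.Lib.TwoGenB
open scoped Pointwise

universe u

variable {p : ℕ} [hp : Fact p.Prime]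

section

variable {G : Type u} [Group G] [Finite G]

/-- if a conjugation invariant set of `p`-elements is locally closed, it contains all the `p`-elements. -/
theorem all_good [hsimple : IsSimpleGroup G] (Good : G → Prop)
    (good_p : ∀ {y : G}, Good y → ∃ k : ℕ, y ^ p ^ k = 1)
    (good_conj : ∀ {y : G} (h : G), Good y → Good (h * y * h⁻¹))
    (good_inv : ∀ {y : G}, Good y → Good y⁻¹) (good_one : Good 1)
    (good_mul : ∀ S : Subgroup G, IsPGroup p S → ∀ x ∈ S, ∀ y ∈ S, Good x → Good y → Good (x * y))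
    (good_K : ∀ a b x : G, x ∈ closure ({a, b} : Set G) → Good x → x ∈ kOf p (closure ({a, b} : Set G)))
    (ex : ∃ x : G, x ≠ 1 ∧ Good x) : ∀ x : G, (∃ k : ℕ, x ^ p ^ k = 1) → Good x := by
  classical
  set E : G → Prop := fun x => ∀ y ∈ zpowers x, (∃ k : ℕ, y ^ p ^ k = 1) → Good y with hE
  have step : ∀ b x : G, Good b → E x → E (b * x) := by
    intro b x hb hx
    set V := closure ({b, x} : Set G) with hV
    have hbV : b ∈ V := subset_closure (by simp)
    have hxV : x ∈ V := subset_closure (by simp)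
    obtain ⟨S, hS⟩ := RelSylow.exists_syl (G := V) p ⊤
    have hSp : IsPGroup p (S.map V.subtype) := hS.2.1.map V.subtype
    let S₀ : Subgroup V :=
      { carrier := {s | s ∈ S ∧ Good (s : G)}
        mul_mem' := by
          rintro a c ⟨ha1, ha2⟩ ⟨hc1, hc2⟩
          exact ⟨mul_mem ha1 hc1, good_mul _ hSp _ ⟨a, ha1, rfl⟩ _ ⟨c, hc1, rfl⟩ ha2 hc2⟩
        one_mem' := ⟨one_mem S, good_one⟩
        inv_mem' := by
          rintro a ⟨ha1, ha2⟩
          exact ⟨inv_mem ha1, good_inv ha2⟩ }
    have h0 : S₀ ≤ S := fun s hs => hs.1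
    have hcl0 : ∀ x ∈ S₀, ∀ h : V, h * x * h⁻¹ ∈ S → h * x * h⁻¹ ∈ S₀ := by
      intro y hy h hh
      refine ⟨hh, ?_⟩
      have := good_conj (h : G) hy.2
      simpa using this
    have hK0 : S₀ ≤ pPrimePCore p V := by
      intro s hs
      obtain ⟨y, hy, hys⟩ := good_K b x s s.2 hs.2
      have : y = s := Subtype.ext hys
      rwa [← this]
    have hNn : (pPrimeCore p V ⊔ S₀).Normal := normal_sup_of_closed hS hK0 h0 hcl0
    have hgoodN : ∀ y : V, Good (y : G) → y ∈ pPrimeCore p V ⊔ S₀ := by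
      intro y hy
      obtain ⟨k, hk⟩ := good_p hy
      obtain ⟨h, hh⟩ := mem_conj_sylow hS (y := y) (k := k) (Subtype.ext (by simpa using hk))
      apply mem_of_conj (h := h)
      apply le_sup_right (a := pPrimeCore p V)
      refine ⟨hh, ?_⟩
      have := good_conj (h : G) hy
      simpa using this
    have hSle : S ≤ pPrimeCore p V ⊔ S₀ := by
      apply le_of_two hS.2.1 (b := ⟨b, hbV⟩) (x := ⟨x, hxV⟩)
      · rw [eq_top_iff]
        rintro ⟨v, hv⟩ -
        have h1 : (closure ({(⟨b, hbV⟩ : V), ⟨x, hxV⟩} : Set V)).map V.subtype = V := by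
          rw [MonoidHom.map_closure, Set.image_pair]
          rfl
        have h3 : v ∈ (closure ({(⟨b, hbV⟩ : V), ⟨x, hxV⟩} : Set V)).map V.subtype := by rw [h1]; exact hv
        obtain ⟨w, hw, hwv⟩ := h3
        have : w = ⟨v, hv⟩ := Subtype.ext hwv
        rwa [← this]
      · exact hgoodN _ hb
      · rintro y ⟨m, rfl⟩ ⟨k, hk⟩
        apply hgoodN
        apply hx
        · exact ⟨m, by simp⟩
        · refine ⟨k, ?_⟩
          have := congrArg Subtype.val hk
          simpa using this
    have hSS := le_of_le_sup hS.2.1 h0 hSle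
    rintro y ⟨m, rfl⟩ ⟨k, hk⟩
    have hyV : (b * x) ^ m ∈ V := zpow_mem (mul_mem hbV hxV) m
    have hk2 : ((b * x) ^ m) ^ p ^ k = 1 := hk
    obtain ⟨h, hh⟩ := mem_conj_sylow hS (y := ⟨(b * x) ^ m, hyV⟩) (k := k) (Subtype.ext (by simpa using hk2))
    have h1 := (hSS hh).2
    have h3 := good_conj (h : G)⁻¹ h1
    have e : (h : G)⁻¹ * ((h * ⟨(b * x) ^ m, hyV⟩ * h⁻¹ : V) : G) * (h : G)⁻¹⁻¹ = (b * x) ^ m := by
      push_cast
      group
    rw [e] at h3
    exact h3
  have E1 : E 1 := by
    intro y hy _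
    rw [zpowers_one_eq_bot, mem_bot] at hy
    rw [hy]; exact good_one
  have htop : closure {y : G | Good y} = ⊤ := by
    have hn : (closure {y : G | Good y}).Normal := by
      refine ⟨fun n hn g => ?_⟩
      refine closure_induction (p := fun n _ => g * n * g⁻¹ ∈ closure {y : G | Good y}) ?_ ?_ ?_ ?_ hn
      · intro x hx
        exact subset_closure (good_conj g hx)
      · simp
      · intro x y _ _ hx hy
        have : g * (x * y) * g⁻¹ = (g * x * g⁻¹) * (g * y * g⁻¹) := by group
        rw [this]; exact mul_mem hx hy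
      · intro x _ hx
        have : g * x⁻¹ * g⁻¹ = (g * x * g⁻¹)⁻¹ := by group
        rw [this]; exact inv_mem hx
    rcases hn.eq_bot_or_eq_top with h | h
    · exfalso
      obtain ⟨x, hx1, hx⟩ := ex
      apply hx1
      rw [← mem_bot, ← h]
      exact subset_closure hx
    · exact h
  have hall : ∀ x : G, E x := by
    intro x
    have hx : x ∈ closure {y : G | Good y} := by rw [htop]; exact mem_top x
    refine closure_induction_left (p := fun x _ => E x) E1 ?_ ?_ hx
    · intro b hb y _ hy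
      exact step b y hb hy
    · intro b hb y _ hy
      exact step b⁻¹ y (good_inv hb) hy
  intro x hx
  exact hall x x (mem_zpowers x) hx

/-- `p`-solvable groups are reached by chains -/
theorem ch_upper (V : Type u) [Group V] [Finite V] (j : ℕ) : Ch p (R (2 * j)) ⊥ ((upperPSeries p V (2 * j)).1) := by
  induction j with
  | zero => exact Ch.nil _ inferInstance
  | succ j ih =>
    have ha := PLength.upper_alt (p := p) (G := V)
    have h1 : 2 * (j + 1) = 2 * j + 2 := by ring
    rw [h1, R_add_two]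
    have h2 : Ch p (false :: R (2 * j)) ⊥ ((upperPSeries p V (2 * j + 1)).1) := by
      refine Ch.cons _ _ _ _ _ ih (upperPSeries p V (2 * j + 1)).2 (ha.mono (2 * j)) ?_
      exact ha.even (2 * j) (even_two_mul j)
    refine Ch.cons _ _ _ _ _ h2 (upperPSeries p V (2 * j + 2)).2 (ha.mono (2 * j + 1)) ?_
    obtain ⟨m, hm⟩ := ha.odd (2 * j + 1) (by simp)
    exact ⟨m, by rw [← hm]⟩

theorem exists_O_eq_top (V : Type u) [Group V] [Finite V] (h : IsPSolvable p V) : ∃ j, O p (R (2 * j)) V = ⊤ := by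
  obtain ⟨k, hk⟩ := PLength.exists_pLengthLE h
  refine ⟨k + 1, ?_⟩
  rw [eq_top_iff, ← hk]
  exact (PLength.upper_mono (by omega)).trans (ch_upper V (k + 1)).le_O

theorem O_mono_word (V : Type u) [Group V] [Finite V] (j : ℕ) : O p (R (2 * j)) V ≤ O p (R (2 * (j + 1))) V := by
  have h1 : 2 * (j + 1) = 2 * j + 2 := by ring
  rw [h1, R_add_two]
  exact (O_le_cons _ _).trans (O_le_cons _ _)

theorem O_mono_word' (V : Type u) [Group V] [Finite V] {i j : ℕ} (h : i ≤ j) : O p (R (2 * i)) V ≤ O p (R (2 * j)) V := by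
  induction j, h using Nat.le_induction with
  | base => exact le_rfl
  | succ j _ ih => exact ih.trans (O_mono_word V j)

/-- the height one subgroup is `O_{p'p}` -/
theorem O_two_eq (V : Type u) [Group V] [Finite V] : O p (R 2) V = pPrimePCore p V := by
  apply le_antisymm
  · have h := ch_O (p := p) (R 2) V
    have h' : Ch p [true, false] ⊥ (O p (R 2) V) := h
    cases h' with
    | cons b l N M M' h hM' hle hb =>
    cases h with
    | cons b l N M₁ M' h hM₂ hle' hb' =>
    cases h with
    | nil N hN =>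
    obtain ⟨k, hk⟩ := hb
    obtain ⟨j, -, hj⟩ := (Nat.dvd_prime_pow hp.out).1 hk
    have h1 : M ≤ (upperPSeries p V 1).1 := PLength.le_upper_even (n := 0) (by simp) bot_le hM₂ hb'
    have h2 : O p (R 2) V ≤ (upperPSeries p V 2).1 := PLength.le_upper_odd (n := 1) (by simp) h1 hM' ⟨j, hj⟩
    rwa [PLengthOne.upperPSeries_two] at h2
  · have h := ch_upper (p := p) V 1
    have h2 := PLengthOne.upperPSeries_two p V
    rw [mul_one, h2] at h
    exact h.le_O

end

end Cfsg.Agent.Lib.PowE
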