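import Mathlib
import Cfsg.Agent.Lib.PowE

/-!
Powell's theorem, VI: the descent; all `p`-elements are of height one (helper11, S3792).
-/

set_option autoImplicit false
set_option linter.unusedSectionVars false
set_option maxHeartbeats 400000

namespace Cfsg.Agent.Lib.PowF

open Subgroup Cfsg Cfsg.Agent.Lib.PowA Cfsg.Agent.Lib.PowB Cfsg.Agent.Lib.PowC Cfsg.Agent.Lib.PowD
open Cfsg.Agent.Lib.TwoGenA Cfsg.Agent.Lib.TwoGenB Cfsg.Agent.Lib.PowE
open scoped Pointwise

universe u

variable {p : ℕ} [hp : Fact p.Prime]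

/-- the standing hypotheses -/
structure C3 (p : ℕ) (G : Type u) [Group G] : Prop where
  simple : IsSimpleGroup G
  psol : ∀ H : Subgroup G, H ≠ ⊤ → IsPSolvable p H
  three : ∀ a b c : G, closure ({a, b, c} : Set G) ≠ ⊤
  dvd : p ∣ Nat.card G

section

variable {G : Type u} [Group G] [Finite G]

theorem mem_OS_of_map {K : Type u} [Group K] [Finite K] (f : G →* K) (hf : Function.Injective f) {l : List Bool}
    {V : Subgroup G} {z : G} (hz : z ∈ V) (h : f z ∈ OS p l (V.map f)) : z ∈ OS p l V := by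
  have h1 : (f.subgroupMap V) ⟨z, hz⟩ ∈ O p l (V.map f) := mem_OS_iff.1 h
  have hinj : Function.Injective (f.subgroupMap V) := by
    intro a b hab
    have := congrArg Subtype.val hab
    exact Subtype.ext (hf this)
  have h2 : (⟨z, hz⟩ : V) ∈ O p l V := comap_O_le (f.subgroupMap V) hinj l h1
  exact mem_OS_iff.2 h2

theorem F1 {U : Subgroup G} (hU : IsPSolvable p U) {x : G} (hxU : x ∈ U) (hx : ∃ k, x ^ p ^ k = 1) {n : ℕ}
    (h : ∀ g : G, x ∈ OS p (R (n + 1)) (closure {x, g})) : x ∈ OS p (R (n + 1)) U := by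
  have h1 : (⟨x, hxU⟩ : U) ∈ O p (R (n + 1)) U := by
    apply D n U hU
    · obtain ⟨k, hk⟩ := hx
      exact ⟨k, Subtype.ext (by simpa using hk)⟩
    · intro w
      apply mem_OS_of_map U.subtype U.subtype_injective (subset_closure (by simp))
      rw [MonoidHom.map_closure, Set.image_pair]
      exact h w
  exact mem_OS_iff.2 h1

theorem pow_relIndex_mem' {M K : Subgroup G} (hM : M.Normal) {x : G} (hx : x ∈ K) : x ^ (M.relIndex K) ∈ M := by
  rw [← QuotientGroup.eq_one_iff]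
  have h1 : (QuotientGroup.mk' M x) ^ Nat.card (K.map (QuotientGroup.mk' M)) = 1 :=
    pow_card_eq_one_of_mem ⟨x, hx, rfl⟩
  rw [H32PSolv.card_map_mk] at h1
  exact h1

theorem mem_of_pow_mem {M : Subgroup G} {x : G} {n : ℕ} (hn : n.Coprime (orderOf x)) (h : x ^ n ∈ M) : x ∈ M := by
  obtain ⟨m, hm⟩ := exists_pow_eq_self_of_coprime hn
  rw [← hm]; exact pow_mem h m

theorem descent (cx : C3 p G) {m : ℕ} {x g : G} (hx : ∃ k, x ^ p ^ k = 1)
    (h : ∀ g : G, x ∈ OS p (R (2 * (m + 1))) (closure {x, g})) (hno : x ∉ OS p (R 2) (closure {x, g})) :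
    ∃ y : G, y ≠ 1 ∧ (∃ k, y ^ p ^ k = 1) ∧ ∀ g : G, y ∈ OS p (R (2 * m)) (closure {y, g}) := by
  set V := closure ({x, g} : Set G) with hV
  have hxV : x ∈ V := subset_closure (by simp)
  set x' : V := ⟨x, hxV⟩ with hx'
  set N := normalClosure ({x'} : Set V) with hN
  have hNn : N.Normal := normalClosure_normal
  set Q : Subgroup V := closure {q | q ∈ N ∧ (orderOf q).Coprime p} with hQ
  have hQN : Q ≤ N := by
    rw [hQ, closure_le]
    intro q hq
    exact hq.1
  have hQn : Q.Normal := by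
    refine ⟨fun n hn v => ?_⟩
    refine closure_induction (p := fun n _ => v * n * v⁻¹ ∈ Q) ?_ ?_ ?_ ?_ hn
    · rintro q ⟨hq1, hq2⟩
      refine subset_closure ⟨hNn.conj_mem q hq1 v, ?_⟩
      have : orderOf (v * q * v⁻¹) = orderOf q := by
        have := orderOf_injective (MulAut.conj v).toMonoidHom (MulAut.conj v).injective q
        exact this
      rw [this]; exact hq2
    · simp
    · intro a b _ _ ha hb
      have : v * (a * b) * v⁻¹ = (v * a * v⁻¹) * (v * b * v⁻¹) := by group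
      rw [this]; exact mul_mem ha hb
    · intro a _ ha
      have : v * a⁻¹ * v⁻¹ = (v * a * v⁻¹)⁻¹ := by group
      rw [this]; exact inv_mem ha
  have hpQ : p ∣ Nat.card Q := by
    by_contra hnd
    apply hno
    have h1 : N ≤ pPrimePCore p V := by
      apply PLengthOne.le_pPrimePCore hQn hNn hnd
      intro y hy
      obtain ⟨a, m', hm', ho⟩ := Nat.exists_eq_pow_mul_and_not_dvd (orderOf_pos y).ne' p hp.out.ne_one
      refine ⟨a, subset_closure ⟨pow_mem hy _, ?_⟩⟩
      have h2 : (y ^ p ^ a) ^ m' = 1 := by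
        rw [← pow_mul, ← ho, pow_orderOf_eq_one]
      refine Nat.Coprime.coprime_dvd_left (orderOf_dvd_of_pow_eq_one h2) ?_
      exact ((hp.out.coprime_iff_not_dvd).2 hm').symm
    have h2 : x' ∈ O p (R 2) V := by
      rw [O_two_eq]
      exact h1 (subset_normalClosure (Set.mem_singleton x'))
    exact mem_OS_iff.2 h2
  obtain ⟨⟨y, hyQ⟩, hyo⟩ := exists_prime_orderOf_dvd_card' p hpQ
  rw [Subgroup.orderOf_mk] at hyo
  have hy1 : (y : G) ≠ 1 := by
    intro h1
    have : y = 1 := Subtype.ext h1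
    rw [this, orderOf_one] at hyo
    exact hp.out.one_lt.ne hyo
  have hyp : (y : G) ^ p ^ 1 = 1 := by
    have h1 := pow_orderOf_eq_one y
    rw [hyo] at h1
    rw [pow_one]
    simpa using congrArg Subtype.val h1
  refine ⟨y, hy1, ⟨1, hyp⟩, ?_⟩
  intro w
  set U := closure ({x, g, w} : Set G) with hU
  have hVU : V ≤ U := closure_mono (by
    rintro a (rfl | ha)
    · simp
    · rw [Set.mem_singleton_iff] at ha; subst ha; simp)
  have hUs : IsPSolvable p U := cx.psol U (cx.three x g w)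
  have hxU : x ∈ U := hVU hxV
  have h1 : x ∈ OS p (R (2 * m + 1 + 1)) U := F1 hUs hxU hx h
  have h2 : (⟨x, hxU⟩ : U) ∈ O p (R (2 * m + 2)) U := mem_OS_iff.1 h1
  have hch : Ch p (R (2 * m + 2)) ⊥ (O p (R (2 * m + 2)) U) := ch_O _ _
  set ι := inclusion hVU with hι
  have hKn : (O p (R (2 * m + 2)) U).Normal := inferInstance
  set K := O p (R (2 * m + 2)) U with hK
  rw [R_add_two] at hch
  cases hch with
  | cons b l N' M₂ M' hch' hM' hle hb =>
  cases hch' with
  | cons b l N' M₁ M' hch'' hM₂ hle' hb' =>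
  have hM₁ := hch''.normal_top
  have hNK : N ≤ K.comap ι := by
    apply normalClosure_le_normal
    rintro z rfl
    exact h2
  have hQM : Q ≤ M₂.comap ι := by
    rw [hQ, closure_le]
    rintro q ⟨hq1, hq2⟩
    have h3 : ι q ∈ K := hNK hq1
    have h4 := pow_relIndex_mem' hM₂ h3
    apply mem_of_pow_mem _ h4
    obtain ⟨k, hk⟩ := hb
    have h5 : orderOf (ι q) ∣ orderOf q := orderOf_map_dvd ι q
    exact Nat.Coprime.coprime_dvd_left hk (Nat.Coprime.coprime_dvd_right h5 ((hq2.symm).pow_left k))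
  have hyM : ι y ∈ M₁ := by
    have h3 : ι y ∈ M₂ := hQM hyQ
    have h4 := pow_relIndex_mem' hM₁ h3
    apply mem_of_pow_mem _ h4
    have h5 : orderOf (ι y) ∣ orderOf y := orderOf_map_dvd ι y
    rw [hyo] at h5
    exact Nat.Coprime.coprime_dvd_right h5 hb'
  have h3 : (y : G) ∈ OS p (R (2 * m)) U := ⟨ι y, hch''.le_O hyM, rfl⟩
  apply mem_OS_of_le _ (subset_closure (by simp)) h3
  rw [closure_le]
  rintro a (rfl | ha)
  · exact hVU y.2
  · rw [Set.mem_singleton_iff] at ha; subst ha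
    exact subset_closure (by simp)

theorem C3.two (cx : C3 p G) (a b : G) : closure ({a, b} : Set G) ≠ ⊤ := by
  have := cx.three a b b
  rwa [Set.pair_eq_singleton] at this

theorem C3.exists_good (cx : C3 p G) : ∃ x : G, x ≠ 1 ∧ (∃ k, x ^ p ^ k = 1) ∧ ∀ g : G, x ∈ OS p (R 2) (closure {x, g}) := by
  classical
  have hex : ∃ m : ℕ, ∃ x : G, x ≠ 1 ∧ (∃ k, x ^ p ^ k = 1) ∧ ∀ g : G, x ∈ OS p (R (2 * m)) (closure {x, g}) := by
    obtain ⟨x, hx⟩ := exists_prime_orderOf_dvd_card' p cx.dvd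
    have hj : ∀ g : G, ∃ j, O p (R (2 * j)) (closure ({x, g} : Set G)) = ⊤ := fun g =>
      exists_O_eq_top _ (cx.psol _ (cx.two x g))
    choose j hj using hj
    have : Fintype G := Fintype.ofFinite _
    refine ⟨Finset.univ.sup j, x, ?_, ⟨1, ?_⟩, ?_⟩
    · rintro rfl
      rw [orderOf_one] at hx
      exact hp.out.one_lt.ne hx
    · rw [pow_one, ← hx, pow_orderOf_eq_one]
    · intro g
      have hxV : x ∈ closure ({x, g} : Set G) := subset_closure (by simp)
      have h1 : (⟨x, hxV⟩ : closure ({x, g} : Set G)) ∈ O p (R (2 * Finset.univ.sup j)) (closure ({x, g} : Set G)) := by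
        apply O_mono_word' _ (Finset.le_sup (f := j) (Finset.mem_univ g))
        rw [hj]; exact mem_top _
      exact mem_OS_iff.2 h1
  obtain ⟨x, hx1, hxp, hx⟩ := Nat.find_spec hex
  set m₀ := Nat.find hex with hm₀
  rcases Nat.lt_trichotomy m₀ 1 with hlt | heq | hgt
  · exfalso
    have h0 : m₀ = 0 := by omega
    rw [h0] at hx
    have h1 := hx 1
    have h2 : OS p (R (2 * 0)) (closure ({x, 1} : Set G)) = ⊥ := by
      have : O p (R (2 * 0)) (closure ({x, 1} : Set G)) = ⊥ := O_nil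
      rw [OS, this, Subgroup.map_bot]
    rw [h2, mem_bot] at h1
    exact hx1 h1
  · rw [heq] at hx
    exact ⟨x, hx1, hxp, hx⟩
  · by_contra hcon
    push Not at hcon
    obtain ⟨g, hg⟩ := hcon x hx1 hxp
    obtain ⟨m, hm⟩ : ∃ m, m₀ = m + 1 := ⟨m₀ - 1, by omega⟩
    rw [hm] at hx
    obtain ⟨y, hy1, hyp, hy⟩ := descent cx hxp hx hg
    exact Nat.find_min hex (m := m) (by omega) ⟨y, hy1, hyp, hy⟩

theorem C3.height_one (cx : C3 p G) (x : G) (hx : ∃ k, x ^ p ^ k = 1) :
    ∀ g : G, x ∈ OS p (R 2) (closure {x, g}) := by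
  have := cx.simple
  have h := all_good (p := p) (fun x : G => (∃ k, x ^ p ^ k = 1) ∧ ∀ g : G, x ∈ OS p (R 2) (closure {x, g}))
    (fun h => h.1) ?_ ?_ ?_ ?_ ?_ ?_ x hx
  · exact h.2
  · rintro y h ⟨⟨k, hk⟩, hy⟩
    refine ⟨⟨k, by rw [conj_pow, hk]; group⟩, ?_⟩
    intro g
    have h1 := OS_map (MulAut.conj h).toMonoidHom (hy (h⁻¹ * g * h))
    rw [MonoidHom.map_closure, Set.image_pair] at h1
    have e1 : (MulAut.conj h).toMonoidHom y = h * y * h⁻¹ := rfl
    have e2 : (MulAut.conj h).toMonoidHom (h⁻¹ * g * h) = g := by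
      change h * (h⁻¹ * g * h) * h⁻¹ = g
      group
    rw [e1, e2] at h1
    exact h1
  · rintro y ⟨⟨k, hk⟩, hy⟩
    refine ⟨⟨k, by rw [inv_pow, hk, inv_one]⟩, ?_⟩
    intro g
    have h1 : y⁻¹ ∈ OS p (R 2) (closure {y, g}) := inv_mem (hy g)
    apply mem_OS_of_le _ (subset_closure (by simp)) h1
    rw [closure_le]
    rintro a (rfl | ha)
    · exact inv_mem (subset_closure (by simp))
    · rw [Set.mem_singleton_iff] at ha; subst ha
      exact subset_closure (by simp)
  · exact ⟨⟨0, one_pow _⟩, fun g => one_mem _⟩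
  · rintro S hS x hxS y hyS ⟨hxp, hx⟩ ⟨hyp, hy⟩
    refine ⟨?_, ?_⟩
    · obtain ⟨k, hk⟩ := hS ⟨x * y, mul_mem hxS hyS⟩
      exact ⟨k, by simpa using congrArg Subtype.val hk⟩
    · intro g
      have hs := cx.psol _ (cx.three x y g)
      have h1 : x ∈ OS p (R 2) (closure {x, y, g}) := F1 hs (subset_closure (by simp)) hxp hx
      have h2 : y ∈ OS p (R 2) (closure {x, y, g}) := F1 hs (subset_closure (by simp)) hyp hy
      apply mem_OS_of_le _ (subset_closure (by simp)) (mul_mem h1 h2)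
      rw [closure_le]
      rintro a (rfl | ha)
      · exact mul_mem (subset_closure (by simp)) (subset_closure (by simp))
      · rw [Set.mem_singleton_iff] at ha; subst ha
        exact subset_closure (by simp)
  · rintro a b x hxV ⟨hxp, hx⟩
    have h1 : x ∈ OS p (R 2) (closure {a, b}) := F1 (cx.psol _ (cx.two a b)) hxV hxp hx
    have h2 : OS p (R 2) (closure ({a, b} : Set G)) = kOf p (closure ({a, b} : Set G)) := by
      rw [OS, O_two_eq]; rfl
    rwa [h2] at h1
  · obtain ⟨x, h1, h2, h3⟩ := cx.exists_good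
    exact ⟨x, h1, h2, h3⟩

/-- all `p`-elements of a proper subgroup `U` lie in `O_{p'p}(U)`. -/
theorem C3.mem_kOf (cx : C3 p G) {U : Subgroup G} (hU : U ≠ ⊤) {x : G} (hxU : x ∈ U) (hx : ∃ k, x ^ p ^ k = 1) :
    x ∈ kOf p U := by
  have h1 : x ∈ OS p (R 2) U := F1 (cx.psol U hU) hxU hx (cx.height_one x hx)
  have h2 : OS p (R 2) U = kOf p U := by
    rw [OS, O_two_eq]; rfl
  rwa [h2] at h1

end

end Cfsg.Agent.Lib.PowF
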