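import Mathlib
import Cfsg.Agent.Lib.PowF
import Cfsg.Agent.Lib.ConjSylow

/-!
Powell's theorem, VII: the Sylow `p`-subgroups are abelian (helper11, S3792).
-/

set_option autoImplicit false
set_option linter.unusedSectionVars false
set_option maxHeartbeats 400000

namespace Cfsg.Agent.Lib.PowG

open Subgroup Cfsg Cfsg.Agent.Lib.PowF Cfsg.Agent.Lib.TwoGenB Cfsg.Agent.Lib.RelSylow Cfsg.Agent.Lib.SigCon
open scoped Pointwise

universe u

variable {p : ℕ} [hp : Fact p.Prime]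

section

variable {G : Type u} [Group G] [Finite G]

theorem _root_.Cfsg.Agent.Lib.PowF.C3.noncomm (cx : C3 p G) : ¬ ∀ a b : G, a * b = b * a := by
  intro h
  have := cx.simple
  obtain ⟨x, hx⟩ := exists_ne (1 : G)
  have hn : (closure ({x, x, x} : Set G)).Normal := by
    refine ⟨fun n hn g => ?_⟩
    rw [h g n, mul_inv_cancel_right]; exact hn
  rcases hn.eq_bot_or_eq_top with h1 | h1
  · apply hx
    rw [← mem_bot, ← h1]
    exact subset_closure (by simp)
  · exact cx.three x x x h1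

theorem _root_.Cfsg.Agent.Lib.PowF.C3.center_eq_bot (cx : C3 p G) : center G = ⊥ := by
  have := cx.simple
  rcases (inferInstance : (center G).Normal).eq_bot_or_eq_top with h | h
  · exact h
  · exfalso
    apply cx.noncomm
    intro a b
    have ha : a ∈ center G := by rw [h]; exact mem_top _
    exact (mem_center_iff.1 ha b).symm

theorem _root_.Cfsg.Agent.Lib.PowF.C3.centralizer_ne_top (cx : C3 p G) {x : G} (hx : x ≠ 1) : centralizer ({x} : Set G) ≠ ⊤ := by
  intro h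
  apply hx
  have : x ∈ center G := by
    rw [mem_center_iff]
    intro g
    have hg : g ∈ centralizer ({x} : Set G) := by rw [h]; exact mem_top _
    exact (mem_centralizer_singleton_iff.1 hg)
  rw [cx.center_eq_bot] at this
  exact mem_bot.1 this

theorem _root_.Cfsg.Agent.Lib.PowF.C3.ne_top_of_isPGroup (cx : C3 p G) {H : Subgroup G} (h : IsPGroup p H) : H ≠ ⊤ := by
  rintro rfl
  have := cx.simple
  have hG : IsPGroup p G := h.of_surjective (⊤ : Subgroup G).subtype (fun x => ⟨⟨x, mem_top x⟩, rfl⟩)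
  have h1 := hG.center_nontrivial
  rw [cx.center_eq_bot] at h1
  exact not_nontrivial _ h1

theorem _root_.Cfsg.Agent.Lib.PowF.C3.normalizer_ne_top (cx : C3 p G) {D : Subgroup G} (hD : IsPGroup p D) (hD1 : D ≠ ⊥) :
    normalizer (D : Set G) ≠ ⊤ := by
  intro h
  have := cx.simple
  have hn : D.Normal := normalizer_eq_top_iff.1 h
  rcases hn.eq_bot_or_eq_top with h1 | h1
  · exact hD1 h1
  · exact cx.ne_top_of_isPGroup hD h1

theorem _root_.Cfsg.Agent.Lib.PowF.C3.syl_le (cx : C3 p G) {V S : Subgroup G} (hV : V ≠ ⊤) (hS : IsSyl p S V) : S ≤ kOf p V := by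
  intro s hs
  apply cx.mem_kOf hV (hS.1 hs)
  obtain ⟨k, hk⟩ := hS.2.1 ⟨s, hs⟩
  exact ⟨k, by simpa using congrArg Subtype.val hk⟩

theorem exists_mul' {V S : Subgroup G} (hS : IsSyl p S V) (hSk : S ≤ kOf p V) {x : G} (hx : x ∈ kOf p V) :
    ∃ t ∈ oOf p V, ∃ s ∈ S, x = t * s := by
  obtain ⟨Q, hQ1, hQ2⟩ := hS.exists_sylow
  have hQK : (Q : Subgroup V) ≤ pPrimePCore p V := by
    rw [← hQ1] at hSk
    exact (map_le_map_iff_of_injective V.subtype_injective).1 hSk
  have hQ' : IsSyl p (Q : Subgroup V) (pPrimePCore p V) := (isSyl_top_iff Q).of_le hQK le_top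
  have hmap := PConstraint.map_sylow_eq hQ'
  obtain ⟨y, hy, rfl⟩ := hx
  have h1 : QuotientGroup.mk' (pPrimeCore p V) y ∈ (Q : Subgroup V).map (QuotientGroup.mk' (pPrimeCore p V)) := by
    rw [hmap]; exact hy
  obtain ⟨r, hr, hrn⟩ := h1
  have h2 : y * r⁻¹ ∈ pPrimeCore p V := by
    rw [← QuotientGroup.ker_mk' (pPrimeCore p V), MonoidHom.mem_ker, map_mul, map_inv, hrn, mul_inv_cancel]
  refine ⟨_, ⟨_, h2, rfl⟩, _, (by rw [← hQ1]; exact ⟨r, hr, rfl⟩ : V.subtype r ∈ S), ?_⟩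
  rw [← map_mul]; congr 1; group

/-- in the normalizer of a `p`-subgroup `D` the Sylow subgroups are conjugate under the centralizer of `D`. -/
theorem _root_.Cfsg.Agent.Lib.PowF.C3.exists_conj_le (cx : C3 p G) {D S S₁ : Subgroup G} (hD : IsPGroup p D) (hD1 : D ≠ ⊥)
    (hS : IsSyl p S (normalizer (D : Set G))) (hS₁ : IsPGroup p S₁) (hle : S₁ ≤ normalizer (D : Set G)) :
    ∃ k ∈ centralizer (D : Set G), S₁ ≤ S.map (MulAut.conj k).toMonoidHom := by
  set V := normalizer (D : Set G) with hV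
  have hVt : V ≠ ⊤ := cx.normalizer_ne_top hD hD1
  have hSk : S ≤ kOf p V := cx.syl_le hVt hS
  obtain ⟨v, hv, hv'⟩ := hS.exists_conj_le hS₁ hle
  have hSk' : IsSyl p S (kOf p V) := hS.of_le hSk (kOf_le _)
  obtain ⟨n, hn, y, hy, rfl⟩ := hSk'.frattini (le_normalizer_kOf _) hv
  obtain ⟨t, ht, s, hs, rfl⟩ := exists_mul' hS hSk hn
  refine ⟨t, ?_, ?_⟩
  · -- `O_{p'}(V)` centralizes `D`
    have hDO : D ⊓ oOf p V = ⊥ := by
      rw [inf_comm]
      exact disj_of_coprime hD (coprime_card_oOf V)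
    rw [mem_centralizer_iff]
    intro d hd
    have hdD : d ∈ D := hd
    have h1 : d * t * d⁻¹ * t⁻¹ ∈ D ⊓ oOf p V := by
      refine mem_inf.2 ⟨?_, ?_⟩
      · have e : d * t * d⁻¹ * t⁻¹ = d * (t * d⁻¹ * t⁻¹) := by group
        rw [e]
        exact mul_mem hdD ((mem_normalizer_iff.1 (oOf_le V ht) _).1 (inv_mem hdD))
      · exact mul_mem ((mem_normalizer_iff.1 (le_normalizer_oOf V (le_normalizer hdD)) _).1 ht) (inv_mem ht)
    rw [hDO, mem_bot] at h1
    have h2 := mul_inv_eq_one.1 h1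
    exact mul_inv_eq_iff_eq_mul.1 h2
  · have h1 : S.map (MulAut.conj (t * s * y)).toMonoidHom = S.map (MulAut.conj t).toMonoidHom := by
      rw [← conj_conj y (t * s), conj_eq_of_mem_normalizer hy, ← conj_conj s t, conj_eq_of_mem hs]
    rwa [h1] at hv'

/-- the center of a Sylow subgroup is strongly closed. -/
theorem _root_.Cfsg.Agent.Lib.PowF.C3.closed (cx : C3 p G) {P : Subgroup G} (hP : IsSyl p P ⊤) : ∀ x ∈ P ⊓ centralizer (P : Set G), ∀ g : G,
    g * x * g⁻¹ ∈ P → g * x * g⁻¹ ∈ P ⊓ centralizer (P : Set G) := by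
  classical
  intro x hx g₀ hg₀
  by_contra hcon
  set Z := P ⊓ centralizer (P : Set G) with hZ
  let Bad : Set G := {y | y ∈ P ∧ y ∉ Z ∧ ∃ g, y = g * x * g⁻¹}
  have hne : Bad.Nonempty := ⟨_, hg₀, hcon, g₀, rfl⟩
  obtain ⟨y, ⟨hyP, hyZ, g, hyg⟩, hmax⟩ := Set.exists_max_image Bad
    (fun y => Nat.card (P ⊓ centralizer ({y} : Set G) : Subgroup G)) (Set.toFinite _) hne
  set D := P ⊓ centralizer ({y} : Set G) with hD
  have hPp : IsPGroup p P := hP.2.1
  have hDp : IsPGroup p D := hPp.to_le inf_le_left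
  have hyD : y ∈ D := mem_inf.2 ⟨hyP, mem_centralizer_singleton_iff.2 rfl⟩
  have hy1 : y ≠ 1 := by
    rintro rfl
    exact hyZ (one_mem Z)
  have hD1 : D ≠ ⊥ := by
    intro h
    rw [h, mem_bot] at hyD
    exact hy1 hyD
  have hDlt : D < P := by
    refine lt_of_le_of_ne inf_le_left ?_
    intro h
    apply hyZ
    refine mem_inf.2 ⟨hyP, ?_⟩
    rw [mem_centralizer_iff]
    intro a ha
    have h1 : a ∈ D := by rw [h]; exact ha
    exact mem_centralizer_singleton_iff.1 h1.2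
  have hxP : ∀ a ∈ P, a * x = x * a := fun a ha => mem_centralizer_iff.1 hx.2 a ha
  -- the Sylow subgroup of the centralizer
  set P₀ := P.map (MulAut.conj g).toMonoidHom with hP₀
  have hP₀s : IsSyl p P₀ ⊤ := by
    have := hP.conj_isSyl g
    rwa [map_top_of_surjective _ (MulAut.conj g).surjective] at this
  have hP₀C : P₀ ≤ centralizer ({y} : Set G) := by
    rintro _ ⟨a, ha, rfl⟩
    rw [mem_centralizer_singleton_iff, hyg]
    change g * a * g⁻¹ * (g * x * g⁻¹) = g * x * g⁻¹ * (g * a * g⁻¹)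
    calc g * a * g⁻¹ * (g * x * g⁻¹) = g * (a * x) * g⁻¹ := by group
      _ = g * (x * a) * g⁻¹ := by rw [hxP a ha]
      _ = g * x * g⁻¹ * (g * a * g⁻¹) := by group
  have hP₀y : IsSyl p P₀ (centralizer ({y} : Set G)) := hP₀s.of_le hP₀C le_top
  obtain ⟨c, hc, hDc⟩ := hP₀y.exists_conj_le hDp inf_le_right
  set P₁ := P₀.map (MulAut.conj c).toMonoidHom with hP₁
  have hP₁C : P₁ ≤ centralizer ({y} : Set G) := by
    rw [hP₁, ← conj_eq_of_mem hc]
    exact map_mono hP₀C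
  have hP₁p : IsPGroup p P₁ := (hP₀s.2.1).map _
  have hcard : Nat.card P₁ = Nat.card P := by rw [hP₁, card_conj, hP₀, card_conj]
  have hDlt1 : D < P₁ := by
    refine lt_of_le_of_ne hDc ?_
    intro h
    have h1 : Nat.card D = Nat.card P := by rw [h, hcard]
    exact hDlt.ne (Subgroup.eq_of_le_of_card_ge hDlt.le h1.ge)
  set V := normalizer (D : Set G) with hV
  have hgrow : D < P ⊓ V := ConjSylow.lt_inf_normalizer hPp hDlt
  have hgrow1 : D < P₁ ⊓ V := ConjSylow.lt_inf_normalizer hP₁p hDlt1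
  obtain ⟨S, hPS, hS⟩ := exists_isSyl_ge (p := p) (Q := P ⊓ V) (H := V) (hPp.to_le inf_le_left) inf_le_right
  obtain ⟨k, hk, hle⟩ := cx.exists_conj_le hDp hD1 hS (S₁ := P₁ ⊓ V) (hP₁p.to_le inf_le_left) inf_le_right
  have hky : k * y = y * k := (mem_centralizer_iff.1 hk y hyD).symm
  -- the centralizer of `y` in `S` is large
  have hc1 : Nat.card (P₁ ⊓ V : Subgroup G) ≤ Nat.card (S ⊓ centralizer ({y} : Set G) : Subgroup G) := by
    have h1 : P₁ ⊓ V ≤ (S ⊓ centralizer ({y} : Set G)).map (MulAut.conj k).toMonoidHom := by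
      intro a ha
      have h2 : k⁻¹ * a * k ∈ S := mem_conj_iff.1 (hle ha)
      rw [mem_conj_iff]
      refine mem_inf.2 ⟨h2, ?_⟩
      rw [mem_centralizer_singleton_iff]
      have h3 : a * y = y * a := mem_centralizer_singleton_iff.1 (hP₁C ha.1)
      have c1 : Commute k y := hky
      have c2 : Commute a y := h3
      exact ((c1.inv_left.mul_left c2).mul_left c1).eq
    calc Nat.card (P₁ ⊓ V : Subgroup G) ≤ Nat.card ((S ⊓ centralizer ({y} : Set G)).map (MulAut.conj k).toMonoidHom) :=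
          Subgroup.card_le_of_le h1
      _ = _ := card_conj _ _
  have hc2 : Nat.card D < Nat.card (P₁ ⊓ V : Subgroup G) := by
    by_contra hcon
    exact hgrow1.ne (Subgroup.eq_of_le_of_card_ge hgrow1.le (not_lt.1 hcon))
  obtain ⟨h, -, hSh⟩ := hP.exists_conj_le hS.2.1 le_top
  have hyS : y ∈ S := hPS (mem_inf.2 ⟨hyP, le_normalizer hyD⟩)
  set y' := h⁻¹ * y * h with hy'
  have hy'P : y' ∈ P := mem_conj_iff.1 (hSh hyS)
  have hc3 : Nat.card (S ⊓ centralizer ({y} : Set G) : Subgroup G) ≤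
      Nat.card (P ⊓ centralizer ({y'} : Set G) : Subgroup G) := by
    have h1 : (S ⊓ centralizer ({y} : Set G)) ≤ (P ⊓ centralizer ({y'} : Set G)).map (MulAut.conj h).toMonoidHom := by
      intro a ha
      rw [mem_conj_iff]
      refine mem_inf.2 ⟨mem_conj_iff.1 (hSh ha.1), ?_⟩
      rw [mem_centralizer_singleton_iff, hy']
      have h3 : a * y = y * a := mem_centralizer_singleton_iff.1 ha.2
      calc h⁻¹ * a * h * (h⁻¹ * y * h) = h⁻¹ * (a * y) * h := by group
        _ = h⁻¹ * (y * a) * h := by rw [h3]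
        _ = h⁻¹ * y * h * (h⁻¹ * a * h) := by group
    calc Nat.card (S ⊓ centralizer ({y} : Set G) : Subgroup G) ≤
          Nat.card ((P ⊓ centralizer ({y'} : Set G)).map (MulAut.conj h).toMonoidHom) := Subgroup.card_le_of_le h1
      _ = _ := card_conj _ _
  have hy'Z : y' ∈ Z := by
    by_contra hcon
    have h1 := hmax y' ⟨hy'P, hcon, h⁻¹ * g, by rw [hy', hyg]; group⟩
    have h2 : Nat.card (P ⊓ centralizer ({y'} : Set G) : Subgroup G) ≤ Nat.card D := h1
    omega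
  have h4 : P ⊓ V ≤ D := by
    intro a ha
    refine mem_inf.2 ⟨ha.1, ?_⟩
    rw [mem_centralizer_singleton_iff]
    have h1 : h⁻¹ * a * h ∈ P := mem_conj_iff.1 (hSh (hPS ha))
    have h2 : (h⁻¹ * a * h) * y' = y' * (h⁻¹ * a * h) := mem_centralizer_iff.1 hy'Z.2 _ h1
    have e : y = h * y' * h⁻¹ := by rw [hy']; group
    rw [e]
    calc a * (h * y' * h⁻¹) = h * ((h⁻¹ * a * h) * y') * h⁻¹ := by group
      _ = h * (y' * (h⁻¹ * a * h)) * h⁻¹ := by rw [h2]
      _ = h * y' * h⁻¹ * a := by group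
  exact absurd hgrow (not_lt_of_ge h4)

/-- the Sylow subgroups are abelian. -/
theorem _root_.Cfsg.Agent.Lib.PowF.C3.sylow_comm (cx : C3 p G) {P : Subgroup G} (hP : IsSyl p P ⊤) : P ≤ centralizer (P : Set G) := by
  have := cx.simple
  set Z := P ⊓ centralizer (P : Set G) with hZ
  have hPp : IsPGroup p P := hP.2.1
  have hcl := cx.closed hP
  have hgoodP : ∀ y : G, (∃ g : G, g * y * g⁻¹ ∈ Z) → ∀ h : G, h * y * h⁻¹ ∈ P → h * y * h⁻¹ ∈ Z := by
    rintro y ⟨g, hg⟩ h hh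
    have e : h * y * h⁻¹ = (h * g⁻¹) * (g * y * g⁻¹) * (h * g⁻¹)⁻¹ := by group
    rw [e] at hh ⊢
    exact hcl _ hg _ hh
  have hpel : ∀ y : G, (∃ g : G, g * y * g⁻¹ ∈ Z) → ∃ k : ℕ, y ^ p ^ k = 1 := by
    rintro y ⟨g, hg⟩
    obtain ⟨k, hk⟩ := hPp ⟨_, hg.1⟩
    have hk' : (g * y * g⁻¹) ^ p ^ k = 1 := by simpa using congrArg Subtype.val hk
    refine ⟨k, ?_⟩
    rw [conj_pow] at hk'
    have : g * y ^ p ^ k = g := mul_inv_eq_one.1 hk'
    simpa using this
  have key := PowE.all_good (p := p) (fun y : G => ∃ g : G, g * y * g⁻¹ ∈ Z) (fun {y} h => hpel y h) ?_ ?_ ?_ ?_ ?_ ?_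
  · intro x hx
    obtain ⟨k, hk⟩ := hPp ⟨x, hx⟩
    have h1 := key x ⟨k, by simpa using congrArg Subtype.val hk⟩
    have h2 := hgoodP x h1 1 (by simpa using hx)
    have h3 : x ∈ Z := by simpa using h2
    exact h3.2
  · rintro y h ⟨g, hg⟩
    refine ⟨g * h⁻¹, ?_⟩
    have : g * h⁻¹ * (h * y * h⁻¹) * (g * h⁻¹)⁻¹ = g * y * g⁻¹ := by group
    rwa [this]
  · rintro y ⟨g, hg⟩
    refine ⟨g, ?_⟩
    have : g * y⁻¹ * g⁻¹ = (g * y * g⁻¹)⁻¹ := by group
    rw [this]; exact inv_mem hg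
  · exact ⟨1, by simp⟩
  · rintro S hS x hxS y hyS hx hy
    obtain ⟨h, -, hSh⟩ := hP.exists_conj_le hS le_top
    have h1 : h⁻¹ * x * h ∈ P := mem_conj_iff.1 (hSh hxS)
    have h2 : h⁻¹ * y * h ∈ P := mem_conj_iff.1 (hSh hyS)
    have h3 := hgoodP x hx h⁻¹ (by simpa using h1)
    have h4 := hgoodP y hy h⁻¹ (by simpa using h2)
    refine ⟨h⁻¹, ?_⟩
    have e : h⁻¹ * (x * y) * h⁻¹⁻¹ = (h⁻¹ * x * h⁻¹⁻¹) * (h⁻¹ * y * h⁻¹⁻¹) := by group
    rw [e]; exact mul_mem h3 h4
  · intro a b x hx hgx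
    exact cx.mem_kOf (cx.two a b) hx (hpel x hgx)
  · -- the center of `P` is nontrivial
    have hP1 : P ≠ ⊥ := by
      rintro rfl
      apply hP.2.2
      rw [relIndex_bot_left, card_top]
      exact cx.dvd
    have hnt : Nontrivial P := (Subgroup.nontrivial_iff_ne_bot P).2 hP1
    have h1 := hPp.center_nontrivial
    obtain ⟨⟨⟨z, hzP⟩, hzc⟩, hz1⟩ := exists_ne (1 : center P)
    refine ⟨z, ?_, 1, ?_⟩
    · rintro rfl
      exact hz1 rfl
    · have h2 : z ∈ Z := by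
        refine mem_inf.2 ⟨hzP, ?_⟩
        rw [mem_centralizer_iff]
        intro a ha
        have h3 := mem_center_iff.1 hzc ⟨a, ha⟩
        exact congrArg Subtype.val h3
      simpa using h2

theorem _root_.Cfsg.Agent.Lib.PowF.C3.abP (cx : C3 p G) : AbP p G := by
  intro S hS
  obtain ⟨P, hSP, hP⟩ := exists_isSyl_ge hS (le_top (a := S))
  exact (hSP.trans (cx.sylow_comm hP)).trans (centralizer_le hSP)

end

end Cfsg.Agent.Lib.PowG
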