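import Mathlib
import Cfsg.Agent.Lib.PowG
import Cfsg.Agent.Lib.TwoGenC

/-!
Powell's theorem, VIII: the signalizer lemma (adapted from helper9's TwoGenB; helper11, S3792).
-/

set_option autoImplicit false
set_option maxHeartbeats 400000
set_option linter.unusedSectionVars false

namespace Cfsg.Agent.Lib.PowH

open Subgroup Cfsg Cfsg.Agent.Lib.SigCon Cfsg.Agent.Lib.RelSylow Cfsg.Agent.Lib.TwoGenB
open Cfsg.Agent.Lib.PowF Cfsg.Agent.Lib.PowG
open scoped commutatorElement

universe u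

variable {G : Type u} [Group G] {p : ℕ} [Finite G] [hp : Fact p.Prime]

/-- `p'`-subgroups normalized by a Sylow subgroup -/
theorem le_oOf_of_invariant' {V : Subgroup G} (hV : IsPSolvable p V)
    {S : Subgroup G} (hS : IsSyl p S V) (hSk : S ≤ kOf p V) {X : Subgroup G} (hXV : X ≤ V) (hc : (Nat.card X).Coprime p)
    (hSX : S ≤ normalizer (X : Set G)) : X ≤ oOf p V := by
  obtain ⟨Q, hQ1, hQ2⟩ := hS.exists_sylow
  have hQK : (Q : Subgroup V) ≤ pPrimePCore p V := by
    rw [← hQ1] at hSk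
    exact (map_le_map_iff_of_injective V.subtype_injective).1 hSk
  have hQ' : IsSyl p (Q : Subgroup V) (pPrimePCore p V) := (isSyl_top_iff Q).of_le hQK le_top
  have hmap := PConstraint.map_sylow_eq hQ'
  set π := QuotientGroup.mk' (pPrimeCore p V) with hπ
  have hsq : IsPSolvable p (V ⧸ pPrimeCore p V) := H32PSolv.isPSolvable_quotient hV _
  have hcen : centralizer (pCore p (V ⧸ pPrimeCore p V) : Set (V ⧸ pPrimeCore p V)) ≤ pCore p (V ⧸ pPrimeCore p V) :=
    H32PSolv.centralizer_pCore_le hsq (Cores.pPrimeCore_quotient_pPrimeCore p V)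
  set X' := X.subgroupOf V with hX'
  have hcX' : (Nat.card X').Coprime p := by rwa [card_subgroupOf_of_le hXV]
  have hcm : (Nat.card (X'.map π)).Coprime p := Nat.Coprime.coprime_dvd_left (Cores.card_map_dvd' X' π) hcX'
  have hinf : X'.map π ⊓ pCore p (V ⧸ pPrimeCore p V) = ⊥ := disj_of_coprime (Cores.isPGroup_pCore p _) hcm
  have hnorm : ∀ s ∈ (Q : Subgroup V), ∀ x ∈ X', s * x * s⁻¹ ∈ X' := by
    intro s hs x hx
    have h1 : (s : G) ∈ S := by rw [← hQ1]; exact ⟨s, hs, rfl⟩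
    exact (mem_normalizer_iff.1 (hSX h1) _).1 hx
  have key : X'.map π ≤ pCore p (V ⧸ pPrimeCore p V) := by
    refine le_trans ?_ hcen
    rintro _ ⟨x, hx, rfl⟩
    rw [mem_centralizer_iff]
    intro c hc'
    rw [← hmap] at hc'
    obtain ⟨s, hs, rfl⟩ := hc'
    have h1 : π (s * x * s⁻¹ * x⁻¹) ∈ X'.map π ⊓ pCore p (V ⧸ pPrimeCore p V) := by
      refine mem_inf.2 ⟨⟨_, mul_mem (hnorm s hs x hx) (inv_mem hx), rfl⟩, ?_⟩
      have hpn : (pCore p (V ⧸ pPrimeCore p V)).Normal := inferInstance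
      have h2 : π s ∈ pCore p (V ⧸ pPrimeCore p V) := by rw [← hmap]; exact ⟨s, hs, rfl⟩
      have h3 : π (s * x * s⁻¹ * x⁻¹) = π s * (π x * (π s)⁻¹ * (π x)⁻¹) := by
        simp only [map_mul, map_inv]; group
      rw [h3]
      exact mul_mem h2 (hpn.conj_mem _ (inv_mem h2) _)
    rw [hinf, mem_bot] at h1
    simp only [map_mul, map_inv] at h1
    have h4 := mul_inv_eq_one.1 h1
    exact mul_inv_eq_iff_eq_mul.1 h4
  have h6 : X'.map π = ⊥ := by rw [← hinf]; exact (inf_eq_left.2 key).symm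
  have h7 : X' ≤ pPrimeCore p V := by
    intro x hx
    have : π x ∈ X'.map π := ⟨x, hx, rfl⟩
    rw [h6, mem_bot] at this
    exact (QuotientGroup.eq_one_iff _).1 this
  have h8 := Subgroup.map_mono (f := V.subtype) h7
  rwa [Subgroup.map_subgroupOf_eq_of_le hXV] at h8

/-- a normal closure type criterion: subgroup generated by `p`-elements. -/
theorem _root_.Cfsg.Agent.Lib.PowF.C3.closure_le_kOf (cx : C3 p G) {V : Subgroup G} (hV : V ≠ ⊤) {a b : G}
    (ha : a ∈ V) (hb : b ∈ V) (hap : a ^ p = 1) (hbp : b ^ p = 1) : closure ({a, b} : Set G) ≤ kOf p V := by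
  rw [closure_le]
  rintro x (rfl | hx)
  · exact cx.mem_kOf hV ha ⟨1, by rwa [pow_one]⟩
  · rw [Set.mem_singleton_iff] at hx
    subst hx
    exact cx.mem_kOf hV hb ⟨1, by rwa [pow_one]⟩

/-- **the signalizer lemma**. -/
theorem _root_.Cfsg.Agent.Lib.PowF.C3.claim (cx : C3 p G)
    {e e' : G} (he : e ^ p = 1) {k : ℕ} (he' : e' ^ p ^ k = 1) (hee : e * e' = e' * e) {X : Subgroup G}
    (hXc : (Nat.card X).Coprime p) (heX : e ∈ normalizer (X : Set G)) (he'X : e' ∈ normalizer (X : Set G))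
    {u c : G} (hu : u ∈ X) (hc : c ∈ oOf p (centralizer ({e} : Set G))) :
    ∃ X' : Subgroup G, (Nat.card X').Coprime p ∧ e ∈ normalizer (X' : Set G) ∧ e' ∈ normalizer (X' : Set G) ∧
      c * u ∈ X' := by
  classical
  have hep : (orderOf e) ∣ p := orderOf_dvd_of_pow_eq_one he
  set H₀ := closure ({e, u⁻¹ * e * u} : Set G) with hH₀
  have he0 : e ∈ H₀ := subset_closure (by simp)
  have heu0 : u⁻¹ * e * u ∈ H₀ := subset_closure (by simp)
  -- the element `d`
  obtain ⟨d, hd, hud⟩ : ∃ d ∈ H₀ ⊓ X, u * d ∈ centralizer {e} := by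
    apply CoprimeGen.exists_mul_commute (y := e)
    · exact inf_normalizer_le_normalizer_inf (mem_inf.2 ⟨le_normalizer he0, heX⟩)
    · refine Nat.Coprime.coprime_dvd_left hep ?_
      exact (Nat.Coprime.coprime_dvd_left (Subgroup.card_dvd_of_le inf_le_right) hXc).symm
    · refine mem_inf.2 ⟨?_, ?_⟩
      · have : u⁻¹ * (e * u * e⁻¹) = (u⁻¹ * e * u) * e⁻¹ := by group
        rw [this]; exact mul_mem heu0 (inv_mem he0)
      · exact mul_mem (inv_mem hu) ((mem_normalizer_iff.1 heX _).1 hu)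
  set c₁ := u * d with hc₁
  have hc₁X : c₁ ∈ X := mul_mem hu hd.2
  have hc₁e : c₁ * e = e * c₁ := mem_centralizer_singleton_iff.1 hud
  set c₂ := c * c₁ with hc₂
  set θ := oOf p (centralizer ({e} : Set G)) with hθ
  have hce : c * e = e * c := mem_centralizer_singleton_iff.1 (oOf_le _ hc)
  have hc₂e : c₂ * e = e * c₂ := by
    rw [hc₂, mul_assoc, hc₁e, ← mul_assoc, hce, mul_assoc]
  -- `Y`
  set Y := θ ⊔ (X ⊓ centralizer ({e} : Set G)) with hY
  have hYc : (Nat.card Y).Coprime p := by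
    apply Fitting.coprime_card_sup
    · exact inf_le_right.trans (le_normalizer_oOf _)
    · exact coprime_card_oOf _
    · exact Nat.Coprime.coprime_dvd_left (Subgroup.card_dvd_of_le inf_le_left) hXc
  have hc₂Y : c₂ ∈ Y := mul_mem (le_sup_left (b := X ⊓ centralizer ({e} : Set G)) hc)
    (le_sup_right (a := θ) (mem_inf.2 ⟨hc₁X, mem_centralizer_singleton_iff.2 hc₁e⟩))
  have he'C : e' ∈ centralizer ({e} : Set G) := mem_centralizer_singleton_iff.2 hee.symm
  have he'Y : e' ∈ normalizer (Y : Set G) := by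
    have h3 : zpowers e' ≤ normalizer (Y : Set G) := by
      apply LocBase.le_normalizer_sup
      · rw [zpowers_le]; exact le_normalizer_oOf _ he'C
      · rw [zpowers_le]; exact inf_normalizer_le_normalizer_inf (mem_inf.2 ⟨he'X, le_normalizer he'C⟩)
    exact h3 (mem_zpowers _)
  -- the two generated subgroup
  set V := closure ({e * c₂, e' * d⁻¹} : Set G) with hV
  have hVs : V ≠ ⊤ := cx.two _ _
  have hg1 : e * c₂ ∈ V := subset_closure (by simp)
  have hg2 : e' * d⁻¹ ∈ V := subset_closure (by simp)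
  have hcop : (orderOf e).Coprime (orderOf c₂) :=
    Nat.Coprime.coprime_dvd_left hep (coprime_orderOf hYc hc₂Y).symm
  have heV : e ∈ V := by
    have h3 := CentMaximal.mem_zpowers_mul (x := e) (y := c₂) hc₂e.symm hcop
    exact (zpowers_le.2 hg1) h3
  have hc₂V : c₂ ∈ V := by
    have := mul_mem (inv_mem heV) hg1
    simpa using this
  have heuV : u⁻¹ * e * u ∈ V := by
    have h3 : (e' * d⁻¹)⁻¹ * e * (e' * d⁻¹) = u⁻¹ * e * u := by
      have h4 : (e' * d⁻¹)⁻¹ * e * (e' * d⁻¹) = d * (e'⁻¹ * e * e') * d⁻¹ := by group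
      have h5' : e'⁻¹ * e * e' = e := by rw [mul_assoc, hee]; group
      have h6 : c₁ * e * c₁⁻¹ = e := by rw [hc₁e]; group
      have h7 : u * (d * e * d⁻¹) * u⁻¹ = e := by
        calc u * (d * e * d⁻¹) * u⁻¹ = (u * d) * e * (u * d)⁻¹ := by group
          _ = e := h6
      rw [h4, h5']
      calc d * e * d⁻¹ = u⁻¹ * (u * (d * e * d⁻¹) * u⁻¹) * u := by group
        _ = u⁻¹ * e * u := by rw [h7]
    rw [← h3]
    exact mul_mem (mul_mem (inv_mem hg2) heV) hg2
  have hH₀V : H₀ ≤ V := by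
    rw [hH₀, closure_le]
    rintro x (rfl | hx)
    · exact heV
    · rw [Set.mem_singleton_iff] at hx
      subst hx; exact heuV
  have hdV : d ∈ V := hH₀V hd.1
  have he'V : e' ∈ V := by
    have := mul_mem hg2 hdV
    simpa using this
  have hconj : (u⁻¹ * e * u) ^ p = 1 := by
    have := conj_pow (a := u⁻¹) (b := e) (i := p)
    rw [inv_inv] at this
    rw [this, he]; group
  have hH₀k : H₀ ≤ kOf p V := cx.closure_le_kOf hVs heV heuV he hconj
  have hdT : d ∈ oOf p V := by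
    have h3 : H₀ ⊓ X ≤ oOf p V := by
      apply le_oOf_of_le_kOf (inf_le_left.trans hH₀k)
      exact Nat.Coprime.coprime_dvd_left (Subgroup.card_dvd_of_le inf_le_right) hXc
    exact h3 hd
  -- `c₂`
  have he'k : e' ∈ kOf p V := cx.mem_kOf hVs he'V ⟨k, he'⟩
  have hcomm : e' * c₂ * e'⁻¹ * c₂⁻¹ ∈ oOf p V := by
    have h3 : Y ⊓ kOf p V ≤ oOf p V := by
      apply le_oOf_of_le_kOf inf_le_right
      exact Nat.Coprime.coprime_dvd_left (Subgroup.card_dvd_of_le inf_le_left) hYc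
    apply h3
    refine mem_inf.2 ⟨mul_mem ((mem_normalizer_iff.1 he'Y _).1 hc₂Y) (inv_mem hc₂Y), ?_⟩
    have h4 : e' * c₂ * e'⁻¹ * c₂⁻¹ = e' * (c₂ * e'⁻¹ * c₂⁻¹) := by group
    rw [h4]
    exact mul_mem he'k ((mem_normalizer_iff.1 (le_normalizer_kOf V hc₂V) _).1 (inv_mem he'k))
  set N := oOf p V ⊔ zpowers c₂ with hN
  have hc₂N : c₂ ∈ N := le_sup_right (a := oOf p V) (mem_zpowers c₂)
  have hTV : V ≤ normalizer (oOf p V : Set G) := le_normalizer_oOf V
  have hconjN : ∀ g ∈ V, g * c₂ * g⁻¹ ∈ N → g ∈ normalizer (N : Set G) := by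
    intro g hg hgc
    apply H32Cores.mem_normalizer_of_conj_le
    intro x hx
    have h4 : N ≤ N.comap (MulAut.conj g).toMonoidHom := by
      conv_lhs => rw [hN]
      apply sup_le
      · intro t ht
        exact le_sup_left (b := zpowers c₂) ((mem_normalizer_iff.1 (hTV hg) _).1 ht)
      · rw [zpowers_le]
        exact hgc
    exact h4 hx
  have hNe : e ∈ normalizer (N : Set G) := by
    apply hconjN e heV
    rw [← hc₂e]; simpa using hc₂N
  have hNe' : e' ∈ normalizer (N : Set G) := by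
    apply hconjN e' he'V
    have h3 : e' * c₂ * e'⁻¹ = (e' * c₂ * e'⁻¹ * c₂⁻¹) * c₂ := by group
    rw [h3]
    exact mul_mem (le_sup_left (b := zpowers c₂) hcomm) hc₂N
  have hNc₂ : c₂ ∈ normalizer (N : Set G) := le_normalizer hc₂N
  have hNd : d ∈ normalizer (N : Set G) := le_normalizer (le_sup_left (b := zpowers c₂) hdT)
  have hVN : V ≤ normalizer (N : Set G) := by
    rw [hV, closure_le]
    rintro x (rfl | hx)
    · exact mul_mem hNe hNc₂
    · rw [Set.mem_singleton_iff] at hx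
      subst hx; exact mul_mem hNe' (inv_mem hNd)
  have hNT : N ≤ oOf p V := by
    apply le_oOf _ hVN
    · apply Fitting.coprime_card_sup
      · rw [zpowers_le]; exact hTV hc₂V
      · exact coprime_card_oOf _
      · rw [Nat.card_zpowers]; exact coprime_orderOf hYc hc₂Y
    · exact sup_le (oOf_le V) (zpowers_le.2 hc₂V)
  refine ⟨oOf p V, coprime_card_oOf V, hTV heV, hTV he'V, ?_⟩
  have h3 : c * u = c₂ * d⁻¹ := by rw [hc₂, hc₁]; group
  rw [h3]
  exact mul_mem (hNT hc₂N) (inv_mem hdT)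

end Cfsg.Agent.Lib.PowH
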