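import Mathlib
import Cfsg.Agent.Lib.PowH

/-!
Powell's theorem, IX: completeness of the signalizer functor, the strongly embedded subgroup and the final
contradiction in the noncyclic case (adapted from helper9's TwoGenC; helper11, S3792).
-/

set_option autoImplicit false
set_option maxHeartbeats 400000
set_option linter.unusedSectionVars false

namespace Cfsg.Agent.Lib.PowI

open Subgroup Cfsg Cfsg.Agent.Lib.SigCon Cfsg.Agent.Lib.RelSylow Cfsg.Agent.Lib.TwoGenB
open Cfsg.Agent.Lib.TwoGenC Cfsg.Agent.Lib.PowF Cfsg.Agent.Lib.PowG Cfsg.Agent.Lib.PowH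
open scoped commutatorElement

universe u

variable {G : Type u} [Group G] [Finite G] {p : ℕ} [hp : Fact p.Prime]

/-- generation by centralizers, in the presence of a subgroup of rank two -/
theorem le_iSup_centralizer_gen {A K : Subgroup G} {r : ℕ} {x y : G} (hr : r.Prime)
    (hx : x ∈ A) (hy : y ∈ A) (hA : IsMulCommutative A) (hx1 : x ≠ 1) (hxr : x ^ r = 1)
    (hyr : y ^ r = 1) (hyx : y ∉ zpowers x) (hAK : A ≤ normalizer (K : Set G))
    (hcop : (Nat.card A).Coprime (Nat.card K)) :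
    K ≤ ⨆ a ∈ {a : G | a ∈ A ∧ a ≠ 1}, K ⊓ centralizer {a} := by
  set H : Subgroup G := ⨆ a ∈ {a : G | a ∈ A ∧ a ≠ 1}, K ⊓ centralizer {a} with hH
  have hHK : H ≤ K := iSup₂_le fun a _ => inf_le_left
  have hsA : Group.IsSolvable A :=
    Group.isSolvable_of_comm fun a b => (isMulCommutative_iff.mp hA) a b
  by_contra hne
  have hidx : H.relIndex K ≠ 1 := by
    intro h
    exact hne (relIndex_eq_one.mp h)
  obtain ⟨q, hq, hqdvd⟩ := Nat.exists_prime_and_dvd hidx
  have hq' : Fact q.Prime := ⟨hq⟩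
  obtain ⟨P, hPK, hPp, hPi, hPA⟩ := CoprimeAction.exists_invariant_sylow hAK hcop (Or.inl hsA) q
  have hPs : Group.IsSolvable P := by
    have := hPp.isNilpotent
    infer_instance
  have h1 := CoprimeGen.le_iSup_centralizer_of_solvable hr hx hy hA hx1 hxr hyr hyx _ P rfl hPs hPA
    (Nat.Coprime.coprime_dvd_right (card_dvd_of_le hPK) hcop)
  have hPH : P ≤ H := h1.trans (iSup₂_mono fun a _ => inf_le_inf_right _ hPK)
  apply hPi
  have h2 := relIndex_mul_relIndex P H K hPH hHK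
  exact hqdvd.trans ⟨_, by rw [mul_comm]; exact h2.symm⟩

section K

variable {P : Subgroup G} {e₁ e₂ : G}

theorem _root_.Cfsg.Agent.Lib.PowF.C3.mem_KK (cx : C3 p G) (hc : e₁ * e₂ = e₂ * e₁) (h1 : e₁ ^ p = 1) (h2 : e₂ ^ p = 1) {x : G}
    (hx : x ∈ KK p e₁ e₂) : ∃ X : Subgroup G, (Nat.card X).Coprime p ∧
      closure ({e₁, e₂} : Set G) ≤ normalizer (X : Set G) ∧ x ∈ X := by
  have step : ∀ c u : G, (∃ e ∈ closure ({e₁, e₂} : Set G), e ≠ 1 ∧ c ∈ oOf p (centralizer ({e} : Set G))) →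
      (∃ X : Subgroup G, (Nat.card X).Coprime p ∧
      closure ({e₁, e₂} : Set G) ≤ normalizer (X : Set G) ∧ u ∈ X) →
      (∃ X : Subgroup G, (Nat.card X).Coprime p ∧
      closure ({e₁, e₂} : Set G) ≤ normalizer (X : Set G) ∧ c * u ∈ X) := by
    rintro c u ⟨e, he, hne, hce⟩ ⟨X, hX1, hX2, hX3⟩
    obtain ⟨e', he', hle⟩ := exists_partner hc h1 h2 he hne
    have hep : e ^ p = 1 := pow_of_mem_closure hc h1 h2 he
    have he'p : e' ^ p ^ 1 = 1 := by rw [pow_one]; exact pow_of_mem_closure hc h1 h2 he'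
    have hcm : e * e' = e' * e := by
      obtain ⟨s, ⟨i, rfl⟩, t, ⟨j, rfl⟩, rfl⟩ := mem_closure_pair_of_comm hc he
      obtain ⟨s', ⟨i', rfl⟩, t', ⟨j', rfl⟩, rfl⟩ := mem_closure_pair_of_comm hc he'
      have hcc : Commute e₁ e₂ := hc
      have a1 : Commute (e₁ ^ i * e₂ ^ j) (e₁ ^ i' * e₂ ^ j') :=
        (((Commute.refl e₁).zpow_zpow i i').mul_right (hcc.zpow_zpow i j')).mul_left
          (((hcc.symm).zpow_zpow j i').mul_right ((Commute.refl e₂).zpow_zpow j j'))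
      exact a1
    obtain ⟨X', h3, h4, h5, h6⟩ := cx.claim hep he'p hcm hX1 (hX2 he) (hX2 he') hX3 hce
    refine ⟨X', h3, hle.trans ?_, h6⟩
    rw [closure_le]
    rintro y (rfl | hy)
    · exact h4
    · rw [Set.mem_singleton_iff] at hy
      subst hy; exact h5
  refine closure_induction_left (p := fun x _ => ∃ X : Subgroup G, (Nat.card X).Coprime p ∧
      closure ({e₁, e₂} : Set G) ≤ normalizer (X : Set G) ∧ x ∈ X) ?_ ?_ ?_ hx
  · refine ⟨⊥, by simp, ?_, one_mem _⟩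
    have : normalizer ((⊥ : Subgroup G) : Set G) = ⊤ := normalizer_eq_top (H := (⊥ : Subgroup G))
    rw [this]; exact le_top
  · intro c hc u _ hu
    exact step c u hc hu
  · rintro c ⟨e, he, hne, hc⟩ u _ hu
    exact step c⁻¹ u ⟨e, he, hne, inv_mem hc⟩ hu

theorem _root_.Cfsg.Agent.Lib.PowF.C3.coprime_KK (cx : C3 p G) (hc : e₁ * e₂ = e₂ * e₁) (h1 : e₁ ^ p = 1) (h2 : e₂ ^ p = 1) :
    (Nat.card (KK p e₁ e₂)).Coprime p := by
  rw [Nat.coprime_comm, Nat.Prime.coprime_iff_not_dvd hp.out]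
  intro hd
  obtain ⟨⟨x, hx⟩, hxo⟩ := exists_prime_orderOf_dvd_card' p hd
  rw [Subgroup.orderOf_mk] at hxo
  obtain ⟨X, hX1, -, hX3⟩ := cx.mem_KK hc h1 h2 hx
  have h3 := coprime_orderOf hX1 hX3
  rw [hxo] at h3
  exact hp.out.one_lt.ne' ((Nat.coprime_self p).1 h3)

theorem _root_.Cfsg.Agent.Lib.PowF.C3.oOf_le_KK_of_mem (cx : C3 p G) (hP : IsSyl p P ⊤) (hr : Rk p P e₁ e₂) {f : G} (hf : f ∈ P) (hf1 : f ≠ 1) :
    oOf p (centralizer ({f} : Set G)) ≤ KK p e₁ e₂ := by
  have hPp : IsPGroup p P := hP.2.1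
  have hc : e₁ * e₂ = e₂ * e₁ := AbP.comm cx.abP hPp hr.m1 hr.m2
  set E := closure ({e₁, e₂} : Set G) with hE
  have hEP : E ≤ P := by
    rw [hE, closure_le]
    rintro y (rfl | hy)
    · exact hr.m1
    · rw [Set.mem_singleton_iff] at hy
      subst hy; exact hr.m2
  have hEp : IsPGroup p E := hPp.to_le hEP
  have hPC : ∀ {f : G}, f ∈ P → P ≤ centralizer ({f} : Set G) := by
    intro f hf x hx
    exact mem_centralizer_singleton_iff.2 (AbP.comm cx.abP hPp hx hf)
  set Θ := oOf p (centralizer ({f} : Set G)) with hΘ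
  have hΘc : (Nat.card Θ).Coprime p := coprime_card_oOf _
  have hEm : IsMulCommutative E := by
    rw [← le_centralizer_iff_isMulCommutative]
    exact cx.abP E hEp
  have h1 := le_iSup_centralizer_gen (A := E) (r := p) (x := e₁) (y := e₂) hp.out
    (subset_closure (by simp)) (subset_closure (by simp)) hEm hr.ne hr.p1 hr.p2 hr.nz
    ((hEP.trans (hPC hf)).trans (le_normalizer_oOf _)) (coprime_of_pgroup hEp hΘc).symm
  refine h1.trans (iSup₂_le fun a ha => ?_)
  have ha1 : a ∈ E := ha.1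
  refine le_trans ?_ (oOf_le_KK ha1 ha.2)
  have haP : a ∈ P := hEP ha1
  have hPf : IsSyl p P (centralizer ({a} : Set G)) := hP.of_le (hPC haP) le_top
  apply le_oOf_of_invariant' (cx.psol _ (cx.centralizer_ne_top ha.2)) hPf
    (cx.syl_le (cx.centralizer_ne_top ha.2) hPf) inf_le_right
  · exact Nat.Coprime.coprime_dvd_left (Subgroup.card_dvd_of_le inf_le_left) hΘc
  · refine le_trans (le_inf ?_ ?_) inf_normalizer_le_normalizer_inf
    · exact (hPC hf).trans (le_normalizer_oOf _)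
    · exact (hPC haP).trans le_normalizer

theorem _root_.Cfsg.Agent.Lib.PowF.C3.normalizer_le_KK (cx : C3 p G) (hP : IsSyl p P ⊤) (hr : Rk p P e₁ e₂) :
    normalizer (P : Set G) ≤ normalizer (KK p e₁ e₂ : Set G) := by
  have hEP : closure ({e₁, e₂} : Set G) ≤ P := by
    rw [closure_le]
    rintro y (rfl | hy)
    · exact hr.m1
    · rw [Set.mem_singleton_iff] at hy
      subst hy; exact hr.m2
  intro n hn
  apply H32Cores.mem_normalizer_of_conj_le
  intro x hx
  have h4 : KK p e₁ e₂ ≤ (KK p e₁ e₂).comap (MulAut.conj n).toMonoidHom := by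
    conv_lhs => rw [KK]
    rw [closure_le]
    rintro c ⟨e, he, hne, hc⟩
    change n * c * n⁻¹ ∈ KK p e₁ e₂
    refine cx.oOf_le_KK_of_mem hP hr (f := n * e * n⁻¹) ?_ ?_ (conj_mem_oOf_cent hc)
    · exact (mem_normalizer_iff.1 hn _).1 (hEP he)
    · intro h
      apply hne
      have := mul_inv_eq_one.1 h
      simpa using this
  exact h4 hx

/-- the strongly embedded subgroup. -/
theorem _root_.Cfsg.Agent.Lib.PowF.C3.exists_gamma (cx : C3 p G) (hP : IsSyl p P ⊤) (hr : Rk p P e₁ e₂) : ∃ Γ : Subgroup G, Γ ≠ ⊤ ∧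
    normalizer (P : Set G) ≤ Γ ∧ ∀ f ∈ P, f ≠ 1 → centralizer ({f} : Set G) ≤ Γ := by
  have hPp : IsPGroup p P := hP.2.1
  have hc : e₁ * e₂ = e₂ * e₁ := AbP.comm cx.abP hPp hr.m1 hr.m2
  refine ⟨KK p e₁ e₂ ⊔ normalizer (P : Set G), ?_, le_sup_right, ?_⟩
  · intro htop
    have hn : (KK p e₁ e₂).Normal := by
      rw [← normalizer_eq_top_iff, eq_top_iff, ← htop]
      exact sup_le le_normalizer (cx.normalizer_le_KK hP hr)
    have := cx.simple
    rcases hn.eq_bot_or_eq_top with h | h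
    · rw [h, bot_sup_eq] at htop
      have hPn : P.Normal := normalizer_eq_top_iff.1 htop
      rcases hPn.eq_bot_or_eq_top with h | h
      · apply hr.ne
        have := hr.m1
        rw [h] at this
        exact mem_bot.1 this
      · exact cx.ne_top_of_isPGroup hPp h
    · have h3 := cx.coprime_KK hc hr.p1 hr.p2
      rw [h, card_top, Nat.coprime_comm, Nat.Prime.coprime_iff_not_dvd hp.out] at h3
      exact h3 cx.dvd
  · intro f hf hf1 x hx
    have hPC : P ≤ centralizer ({f} : Set G) := by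
      intro x hx
      exact mem_centralizer_singleton_iff.2 (AbP.comm cx.abP hPp hx hf)
    have hPs : IsSyl p P (centralizer ({f} : Set G)) := hP.of_le hPC le_top
    have hPk : P ≤ kOf p (centralizer ({f} : Set G)) := cx.syl_le (cx.centralizer_ne_top hf1) hPs
    have hPk' : IsSyl p P (kOf p (centralizer ({f} : Set G))) := hPs.of_le hPk (kOf_le _)
    obtain ⟨n, hn, y, hy, rfl⟩ := hPk'.frattini (le_normalizer_kOf _) hx
    refine mul_mem ?_ (le_sup_right (a := KK p e₁ e₂) hy)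
    obtain ⟨t, ht, s, hs, rfl⟩ := exists_mul' hPs hPk hn
    exact mul_mem (le_sup_left (b := normalizer (P : Set G)) (cx.oOf_le_KK_of_mem hP hr hf hf1 ht))
      (le_sup_right (a := KK p e₁ e₂) (le_normalizer hs))

end K

/-- **the final contradiction** in the noncyclic case. -/
theorem _root_.Cfsg.Agent.Lib.PowF.C3.false_of_rk (cx : C3 p G) {P : Subgroup G} {e e' : G} (hP : IsSyl p P ⊤) (hr : Rk p P e e') : False := by
  classical
  obtain ⟨Γ, hΓt, hNΓ, hCΓ⟩ := cx.exists_gamma hP hr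
  have hPp : IsPGroup p P := hP.2.1
  have hPΓ : P ≤ Γ := le_normalizer.trans hNΓ
  have hPsΓ : IsSyl p P Γ := hP.of_le hPΓ le_top
  -- (a)
  have ha : ∀ x ∈ Γ, x ≠ 1 → (∃ k : ℕ, x ^ p ^ k = 1) → centralizer ({x} : Set G) ≤ Γ := by
    rintro x hx hx1 ⟨k, hk⟩
    obtain ⟨γ, hγ, hle⟩ := hPsΓ.exists_conj_le (isPGroup_zpowers hk) (zpowers_le.2 hx)
    have h1 : γ⁻¹ * x * γ ∈ P := mem_conj_iff.1 (hle (mem_zpowers x))
    have h2 := hCΓ _ h1 (by
      intro h
      apply hx1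
      have h3 : x = γ * (γ⁻¹ * x * γ) * γ⁻¹ := by group
      rw [h3, h]; group)
    intro y hy
    have h3 : γ⁻¹ * y * γ ∈ centralizer ({γ⁻¹ * x * γ} : Set G) := by
      rw [mem_centralizer_singleton_iff] at hy ⊢
      calc γ⁻¹ * y * γ * (γ⁻¹ * x * γ) = γ⁻¹ * (y * x) * γ := by group
        _ = γ⁻¹ * (x * y) * γ := by rw [hy]
        _ = γ⁻¹ * x * γ * (γ⁻¹ * y * γ) := by group
    have h4 : y = γ * (γ⁻¹ * y * γ) * γ⁻¹ := by group
    rw [h4]
    exact mul_mem (mul_mem hγ (h2 h3)) (inv_mem hγ)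
  -- (b)
  have hb : ∀ g : G, g⁻¹ * e * g ∈ Γ → g ∈ Γ := by
    intro g hg
    have hne : g⁻¹ * e * g ≠ 1 := by
      intro h
      apply hr.ne
      have h3 : e = g * (g⁻¹ * e * g) * g⁻¹ := by group
      rw [h3, h]; group
    have hpow : (g⁻¹ * e * g) ^ p ^ 1 = 1 := by
      have := conj_pow (a := g⁻¹) (b := e) (i := p)
      rw [inv_inv] at this
      rw [pow_one, this, hr.p1]; group
    have h1 := ha _ hg hne ⟨1, hpow⟩
    have h2 : P.map (MulAut.conj g⁻¹).toMonoidHom ≤ Γ := by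
      rintro _ ⟨x, hx, rfl⟩
      apply h1
      rw [mem_centralizer_singleton_iff]
      have h3 := AbP.comm cx.abP hPp hx hr.m1
      change g⁻¹ * x * g⁻¹⁻¹ * (g⁻¹ * e * g) = g⁻¹ * e * g * (g⁻¹ * x * g⁻¹⁻¹)
      calc g⁻¹ * x * g⁻¹⁻¹ * (g⁻¹ * e * g) = g⁻¹ * (x * e) * g := by group
        _ = g⁻¹ * (e * x) * g := by rw [h3]
        _ = g⁻¹ * e * g * (g⁻¹ * x * g⁻¹⁻¹) := by group
    have h3 : IsSyl p (P.map (MulAut.conj g⁻¹).toMonoidHom) Γ := by
      have h4 := hP.conj_isSyl' (g := g⁻¹) (by rw [normalizer_eq_top]; exact mem_top _)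
      exact h4.of_le h2 le_top
    obtain ⟨γ, hγ, hγe⟩ := h3.conj hPsΓ
    rw [conj_conj] at hγe
    have h5 : γ * g⁻¹ ∈ normalizer (P : Set G) := mem_normalizer_iff_map.2 hγe
    have h6 := hNΓ h5
    have h7 : g = (γ * g⁻¹)⁻¹ * γ := by group
    rw [h7]
    exact mul_mem (inv_mem h6) hγ
  -- an element outside
  obtain ⟨g, hg⟩ : ∃ g : G, g ∉ Γ := by
    by_contra hcon
    push Not at hcon
    exact hΓt (eq_top_iff.2 fun x _ => hcon x)
  have heg : g⁻¹ * e * g ∉ Γ := fun h => hg (hb g h)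
  have hegp : (g⁻¹ * e * g) ^ p = 1 := by
    have := conj_pow (a := g⁻¹) (b := e) (i := p)
    rw [inv_inv] at this
    rw [this, hr.p1]; group
  set H := closure ({e, g⁻¹ * e * g} : Set G) with hH
  have hHs : H ≠ ⊤ := cx.two _ _
  have heH : e ∈ H := subset_closure (by simp)
  have hegH : g⁻¹ * e * g ∈ H := subset_closure (by simp)
  have hep1 : e ^ p ^ 1 = 1 := by rw [pow_one]; exact hr.p1
  obtain ⟨S, heS, hS⟩ := exists_isSyl_ge (isPGroup_zpowers hep1) (zpowers_le.2 heH)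
  have heS' : e ∈ S := heS (mem_zpowers e)
  have hSΓ : S ≤ Γ := by
    intro s hs
    apply hCΓ e hr.m1 hr.ne
    exact mem_centralizer_singleton_iff.2 (AbP.comm cx.abP hS.2.1 hs heS')
  have hHk : H ≤ kOf p H := cx.closure_le_kOf hHs heH hegH hr.p1 hegp
  set T := oOf p H with hT
  have hTc : (Nat.card T).Coprime p := coprime_card_oOf _
  -- generation by centralizers
  have gen : ∀ (A X : Subgroup G) (s : G), IsPGroup p A → A ≤ Γ → e ∈ A → s ∈ A → s ^ p = 1 → s ∉ zpowers e →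
      (Nat.card X).Coprime p → A ≤ normalizer (X : Set G) → X ≤ Γ := by
    intro A X s hA hAΓ heA hsA hsp hse hXc hAX
    have hAm : IsMulCommutative A := by
      rw [← le_centralizer_iff_isMulCommutative]
      exact cx.abP A hA
    have h1 := le_iSup_centralizer_gen (A := A) (r := p) (x := e) (y := s) hp.out
      heA hsA hAm hr.ne hr.p1 hsp hse hAX (coprime_of_pgroup hA hXc).symm
    refine h1.trans (iSup₂_le fun a haa => ?_)
    refine inf_le_right.trans (ha a (hAΓ haa.1) haa.2 ?_)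
    obtain ⟨k, hk⟩ := hA ⟨a, haa.1⟩
    exact ⟨k, by simpa using congrArg Subtype.val hk⟩
  by_cases hcase : ∃ s ∈ S, s ^ p = 1 ∧ s ∉ zpowers e
  · obtain ⟨s, hs, hsp, hse⟩ := hcase
    have hTΓ : T ≤ Γ := gen S T s hS.2.1 hSΓ heS' hs hsp hse hTc (hS.1.trans (le_normalizer_oOf H))
    apply heg
    obtain ⟨t, ht, s', hs', hts⟩ := exists_mul' hS (cx.syl_le hHs hS) (hHk hegH)
    rw [hts]
    exact mul_mem (hTΓ ht) (hSΓ hs')
  · push Not at hcase
    -- `g⁻¹ e g` is conjugate into `⟨e⟩`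
    obtain ⟨k, hk, hkz⟩ : ∃ k ∈ T, g⁻¹ * e * g ∈ zpowers (k⁻¹ * e * k) := by
      have hzp : IsPGroup p (zpowers (g⁻¹ * e * g)) := isPGroup_zpowers (k := 1) (by rw [pow_one]; exact hegp)
      obtain ⟨h, hh, hle⟩ := hS.exists_conj_le hzp (zpowers_le.2 hegH)
      have h1 : h⁻¹ * (g⁻¹ * e * g) * h ∈ S := mem_conj_iff.1 (hle (mem_zpowers _))
      set y := h⁻¹ * (g⁻¹ * e * g) * h with hy
      have hyp : y ^ p = 1 := by
        have := conj_pow (a := h⁻¹) (b := g⁻¹ * e * g) (i := p)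
        rw [inv_inv] at this
        rw [hy, this, hegp]; group
      have hye : y ∈ zpowers e := hcase y h1 hyp
      obtain ⟨t, ht, s, hs, hts⟩ := exists_mul' hS (cx.syl_le hHs hS) (hHk hh)
      refine ⟨t⁻¹, inv_mem ht, ?_⟩
      have hys : s * y = y * s := AbP.comm cx.abP hS.2.1 hs h1
      have h3 : g⁻¹ * e * g = t * y * t⁻¹ := by
        have h4 : g⁻¹ * e * g = h * y * h⁻¹ := by rw [hy]; group
        rw [h4, hts]
        calc t * s * y * (t * s)⁻¹ = t * (s * y) * s⁻¹ * t⁻¹ := by group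
          _ = t * (y * s) * s⁻¹ * t⁻¹ := by rw [hys]
          _ = t * y * t⁻¹ := by group
      rw [h3]
      obtain ⟨j, hj⟩ := hye
      have hj' : e ^ j = y := hj
      refine ⟨j, ?_⟩
      change (t⁻¹⁻¹ * e * t⁻¹) ^ j = t * y * t⁻¹
      rw [inv_inv, conj_zpow, hj']
    set V := closure ({e, e' * k} : Set G) with hV
    have hVs : V ≠ ⊤ := cx.two _ _
    have heV : e ∈ V := subset_closure (by simp)
    have hekV : e' * k ∈ V := subset_closure (by simp)
    have hkek : k⁻¹ * e * k ∈ V := by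
      have h3 : e * e' = e' * e := AbP.comm cx.abP hPp hr.m1 hr.m2
      have h4 : k⁻¹ * e * k = (e' * k)⁻¹ * e * (e' * k) := by
        calc k⁻¹ * e * k = k⁻¹ * (e'⁻¹ * (e' * e)) * k := by group
          _ = k⁻¹ * (e'⁻¹ * (e * e')) * k := by rw [h3]
          _ = (e' * k)⁻¹ * e * (e' * k) := by group
      rw [h4]
      exact mul_mem (mul_mem (inv_mem hekV) heV) hekV
    have hegV : g⁻¹ * e * g ∈ V := (zpowers_le.2 hkek) hkz
    have hHV : H ≤ V := by
      rw [hH, closure_le]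
      rintro x (rfl | hx)
      · exact heV
      · rw [Set.mem_singleton_iff] at hx
        subst hx; exact hegV
    have hkV : k ∈ V := hHV (oOf_le H hk)
    have he'V : e' ∈ V := by
      have := mul_mem hekV (inv_mem hkV)
      simpa using this
    have hHkV : H ≤ kOf p V := cx.closure_le_kOf hVs heV hegV hr.p1 hegp
    have hTV : T ≤ oOf p V := le_oOf_of_le_kOf ((oOf_le H).trans hHkV) hTc
    have hTVΓ : oOf p V ≤ Γ := gen (P ⊓ V) (oOf p V) e' (hPp.to_le inf_le_left) (inf_le_left.trans hPΓ)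
      (mem_inf.2 ⟨hr.m1, heV⟩) (mem_inf.2 ⟨hr.m2, he'V⟩) hr.p2 hr.nz (coprime_card_oOf _)
      (inf_le_right.trans (le_normalizer_oOf V))
    have hkΓ : k ∈ Γ := hTVΓ (hTV hk)
    apply heg
    have h5 : k⁻¹ * e * k ∈ Γ := mul_mem (mul_mem (inv_mem hkΓ) (hPΓ hr.m1)) hkΓ
    exact (zpowers_le.2 h5) hkz

end Cfsg.Agent.Lib.PowI
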