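import Mathlib
import Cfsg.Agent.Lib.PrCount4

/-!
(helper43) elements of prime order in projective groups: linear algebra and orbit counting.
-/

set_option autoImplicit false
set_option linter.unusedSectionVars false

namespace Cfsg.Agent.Lib.PrCount

open Polynomial Module Matrix
open scoped MatrixGroups

section Scale

variable {L : Type*} [Field L] {ι : Type*} [Fintype ι] [DecidableEq ι]

theorem charpoly_smul_mat {c : L} (hc : c ≠ 0) (M : Matrix ι ι L) :
    (c • M).charpoly = C (c ^ Fintype.card ι) * M.charpoly.comp (C c⁻¹ * X) := by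
  have h1 : (c • M).charmatrix = C c • (Polynomial.compRingHom (C c⁻¹ * X)).mapMatrix M.charmatrix := by
    ext1 i j
    rw [Matrix.smul_apply, RingHom.mapMatrix_apply, Matrix.map_apply, charmatrix_apply, charmatrix_apply, map_sub,
      Matrix.smul_apply, smul_eq_mul, smul_eq_mul]
    have h2 : Polynomial.compRingHom (C c⁻¹ * X) (C (M i j)) = C (M i j) := by
      rw [coe_compRingHom_apply, C_comp]
    rw [h2, mul_sub, ← C_mul]
    congr 1
    by_cases hij : i = j
    · subst hij
      rw [diagonal_apply_eq, coe_compRingHom_apply, X_comp, ← mul_assoc, ← C_mul, mul_inv_cancel₀ hc, C_1, one_mul]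
    · rw [diagonal_apply_ne _ hij, map_zero, mul_zero]
  rw [Matrix.charpoly, h1, Matrix.det_smul, ← RingHom.map_det, ← C_pow, coe_compRingHom_apply]
  rfl

variable {F : Type*} [Field F] [Fintype F] [IsAlgClosed L] [Algebra F L] {r : ℕ} [hr : Fact r.Prime] {ζ : L} (hζ : IsPrimitiveRoot ζ r)

include hζ

theorem cp_smul {A : Matrix ι ι F} (hA : RR L r A) {c : F} {a : ZMod r} (hc : algebraMap F L c = zp ζ a) :
    (c • A).charpoly.map (algebraMap F L) = fp ζ (fun k => mu ζ A (k - a)) := by
  have hne : zp ζ a ≠ 0 := zp_ne_zero hζ a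
  have h1 : (c • A).map (algebraMap F L) = zp ζ a • A.map (algebraMap F L) := by
    ext i j
    rw [Matrix.map_apply, Matrix.smul_apply, Matrix.smul_apply, Matrix.map_apply, smul_eq_mul, smul_eq_mul, map_mul, hc]
  rw [← Matrix.charpoly_map, h1, charpoly_smul_mat hne, Matrix.charpoly_map]
  have h2 : A.charpoly.map (algebraMap F L) = fp ζ (mu ζ A : ZMod r → ℕ) := cp_eq_fp hζ hA
  have h5 : fp ζ (fun k : ZMod r => mu ζ A (k - a)) = ∏ k : ZMod r, (X - C (zp ζ (k + a))) ^ mu ζ A k := by
    rw [fp, ← Equiv.prod_comp (Equiv.addRight a)]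
    refine Finset.prod_congr rfl fun k _ => ?_
    rw [Equiv.coe_addRight, add_sub_cancel_right]
  rw [h2, h5, fp, Polynomial.prod_comp]
  have h3 : ∀ k : ZMod r, ((X - C (zp ζ k)) ^ mu ζ A k).comp (C (zp ζ a)⁻¹ * X) =
      C ((zp ζ a)⁻¹ ^ mu ζ A k) * (X - C (zp ζ (k + a))) ^ mu ζ A k := by
    intro k
    rw [pow_comp, sub_comp, X_comp, C_comp, C_pow, ← mul_pow]
    congr 1
    rw [mul_sub, ← C_mul, zp_add hζ, mul_comm (zp ζ k), ← mul_assoc, inv_mul_cancel₀ hne, one_mul]
  rw [Finset.prod_congr rfl fun k _ => h3 k, Finset.prod_mul_distrib, ← mul_assoc]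
  have h4 : C (zp ζ a ^ Fintype.card ι) * ∏ k : ZMod r, C ((zp ζ a)⁻¹ ^ mu ζ A k) = (1 : L[X]) := by
    rw [← map_prod, Finset.prod_pow_eq_pow_sum, sum_mu hζ hA, ← C_mul, ← mul_pow, mul_inv_cancel₀ hne, one_pow, C_1]
  rw [h4, one_mul]

theorem mu_smul {A : Matrix ι ι F} (hA : RR L r A) {c : F} {a : ZMod r} (hc : algebraMap F L c = zp ζ a) (k : ZMod r) :
    mu ζ (c • A) k = mu ζ A (k - a) :=
  (RR_of_cp hζ (cp_smul hζ hA hc)).2 k

end Scale

section Irr

variable {F : Type*} [Field F] {n r : ℕ}

/-- matrices with `A ^ r = c`, `X ^ r - c` irreducible -/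
theorem charpoly_of_pow (hr : r.Prime) {c : F} (hc : ∀ b : F, b ^ r ≠ c) {ι : Type*} [Fintype ι] [DecidableEq ι] {A : Matrix ι ι F}
    (hA : A ^ r = Matrix.scalar ι c) : ∃ d, A.charpoly = (X ^ r - C c) ^ d ∧ Fintype.card ι = r * d := by
  have hirr : Irreducible (X ^ r - C c : F[X]) := X_pow_sub_C_irreducible_of_prime hr hc
  let L := AlgebraicClosure F
  have hroot : ∀ x ∈ (A.charpoly.map (algebraMap F L)).roots, x ^ r = algebraMap F L c := by
    intro x hx
    have h1 := (mem_roots'.1 hx).2
    rw [← Matrix.charpoly_map] at h1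
    set M := A.map (algebraMap F L) with hM
    have h2 : M ^ r = Matrix.scalar ι (algebraMap F L c) := by
      rw [hM, ← Matrix.map_pow, hA]
      ext i j
      rw [Matrix.map_apply, Matrix.scalar_apply, Matrix.scalar_apply]
      by_cases hij : i = j
      · subst hij; rw [diagonal_apply_eq, diagonal_apply_eq]
      · rw [diagonal_apply_ne _ hij, diagonal_apply_ne _ hij, map_zero]
    have h3 : Module.End.HasEigenvalue (Matrix.toLin' M) x := by
      rw [Module.End.hasEigenvalue_iff_isRoot_charpoly, Matrix.charpoly_toLin']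
      exact h1
    obtain ⟨v, hv⟩ := h3.exists_hasEigenvector
    have h4 : (Matrix.toLin' M ^ r) v = x ^ r • v := hv.pow_apply r
    rw [← Matrix.toLin'_pow, h2, Matrix.toLin'_apply] at h4
    have h6 : (Matrix.scalar ι (algebraMap F L c)) *ᵥ v = algebraMap F L c • v := by
      ext i
      rw [Matrix.scalar_apply, Matrix.mulVec_diagonal, Pi.smul_apply, smul_eq_mul]
    rw [h6] at h4
    have h5 : (x ^ r - algebraMap F L c) • v = 0 := by rw [sub_smul, ← h4, sub_self]
    exact sub_eq_zero.1 ((smul_eq_zero.1 h5).resolve_right hv.2)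
  have hmon := Matrix.charpoly_monic A
  have hdvd : A.charpoly ∣ (X ^ r - C c) ^ (Fintype.card ι) := by
    rw [← Polynomial.map_dvd_map' (algebraMap F L), Polynomial.map_pow]
    have hs := (IsAlgClosed.splits (A.charpoly.map (algebraMap F L))).eq_prod_roots_of_monic (hmon.map _)
    have hcard : (A.charpoly.map (algebraMap F L)).roots.card = Fintype.card ι := by
      rw [← (IsAlgClosed.splits (A.charpoly.map (algebraMap F L))).natDegree_eq_card_roots, natDegree_map, Matrix.charpoly_natDegree_eq_dim]
    rw [hs, ← hcard]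
    have key : ∀ (s : Multiset L), (∀ x ∈ s, x ^ r = algebraMap F L c) →
        (s.map fun a => X - C a).prod ∣ (((X ^ r - C c : F[X]).map (algebraMap F L))) ^ s.card := by
      intro s hs
      induction s using Multiset.induction_on with
      | empty => simp
      | cons a s ih =>
        rw [Multiset.map_cons, Multiset.prod_cons, Multiset.card_cons, pow_succ']
        refine mul_dvd_mul ?_ (ih fun x hx => hs x (Multiset.mem_cons_of_mem hx))
        rw [dvd_iff_isRoot, IsRoot.def, Polynomial.map_sub, Polynomial.map_pow, map_X, map_C, eval_sub, eval_pow, eval_X, eval_C,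
          hs a (Multiset.mem_cons_self a s), sub_self]
    exact key _ hroot
  obtain ⟨d, -, hd⟩ := (dvd_prime_pow hirr.prime _).1 hdvd
  have hmon2 : ((X ^ r - C c : F[X]) ^ d).Monic := (monic_X_pow_sub_C c hr.ne_zero).pow d
  have heq : A.charpoly = (X ^ r - C c) ^ d := eq_of_monic_of_associated hmon hmon2 hd
  refine ⟨d, heq, ?_⟩
  have h1 := congrArg natDegree heq
  rw [Matrix.charpoly_natDegree_eq_dim, natDegree_pow, natDegree_X_pow_sub_C, mul_comm] at h1
  exact h1

theorem exists_pow (hr : r.Prime) (c : F) (hn : r ∣ n) : ∃ A : Matrix (Fin n) (Fin n) F, A ^ r = Matrix.scalar (Fin n) c := by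
  classical
  obtain ⟨d, rfl⟩ := hn
  have hmon : (X ^ r - C c : F[X]).Monic := monic_X_pow_sub_C c hr.ne_zero
  let b := (AdjoinRoot.powerBasis' hmon).basis
  have hdim : (AdjoinRoot.powerBasis' hmon).dim = r := by
    rw [AdjoinRoot.powerBasis'_dim, natDegree_X_pow_sub_C]
  let B : Matrix (Fin (AdjoinRoot.powerBasis' hmon).dim) (Fin (AdjoinRoot.powerBasis' hmon).dim) F :=
    Algebra.leftMulMatrix b (AdjoinRoot.root (X ^ r - C c))
  have hB : B ^ r = Matrix.scalar _ c := by
    show (Algebra.leftMulMatrix b (AdjoinRoot.root (X ^ r - C c))) ^ r = _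
    rw [← map_pow]
    have h1 : (AdjoinRoot.root (X ^ r - C c)) ^ r = algebraMap F _ c := by
      have h2 := AdjoinRoot.eval₂_root (X ^ r - C c)
      rw [eval₂_sub, eval₂_pow, eval₂_X, eval₂_C, sub_eq_zero] at h2
      exact h2
    rw [h1, AlgHom.commutes]
    rfl
  let e : Fin (AdjoinRoot.powerBasis' hmon).dim × Fin d ≃ Fin (r * d) :=
    ((finCongr hdim).prodCongr (Equiv.refl _)).trans finProdFinEquiv
  refine ⟨Matrix.reindexRingEquiv F e (blockDiagonal fun _ => B), ?_⟩
  rw [← map_pow, ← blockDiagonal_pow]
  have h3 : ((fun _ : Fin d => B) ^ r) = fun _ => Matrix.scalar _ c := by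
    funext i
    rw [Pi.pow_apply, hB]
  rw [h3]
  ext i j
  rw [Matrix.coe_reindexRingEquiv, Matrix.reindex_apply, Matrix.submatrix_apply, blockDiagonal_apply, Matrix.scalar_apply, Matrix.scalar_apply]
  by_cases hij : i = j
  · subst hij
    rw [if_pos rfl, diagonal_apply_eq, diagonal_apply_eq]
  · rw [diagonal_apply_ne _ hij]
    split_ifs with h
    · rw [diagonal_apply_ne]
      intro h4
      exact hij (e.symm.injective (Prod.ext h4 h))
    · rfl

end Irr

section Orb

variable {r : ℕ} [hr : Fact r.Prime] {n : ℕ}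

/-- non-scalar multiplicity functions -/
abbrev XX (r n : ℕ) [Fact r.Prime] : Type := {m : ZMod r → ℕ // ∑ k, m k = n ∧ ∀ k, m k < n}

noncomputable instance : Finite (XX r n) := by
  have : Finite {m : ZMod r → ℕ // ∑ k, m k = n} := by
    classical
    exact Finite.of_equiv _ (Sym.equivNatSumOfFintype (ZMod r) n)
  exact Finite.of_injective (fun m : XX r n => (⟨m.1, m.2.1⟩ : {m : ZMod r → ℕ // ∑ k, m k = n})) (by
    intro a b h
    apply Subtype.ext
    exact congrArg (fun x : {m : ZMod r → ℕ // ∑ k, m k = n} => x.1) h)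

instance : MulAction (Multiplicative (ZMod r)) (XX r n) where
  smul a m := ⟨fun k => m.1 (k - a.toAdd), (Equiv.sum_comp (Equiv.subRight a.toAdd) m.1).trans m.2.1, fun k => m.2.2 _⟩
  one_smul m := by
    apply Subtype.ext
    funext k
    show m.1 (k - 0) = m.1 k
    rw [sub_zero]
  mul_smul a b m := by
    apply Subtype.ext
    funext k
    show m.1 (k - (a.toAdd + b.toAdd)) = m.1 (k - a.toAdd - b.toAdd)
    rw [sub_add_eq_sub_sub]

theorem smul_XX (a : Multiplicative (ZMod r)) (m : XX r n) (k : ZMod r) : (a • m).1 k = m.1 (k - a.toAdd) := rfl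

/-- the number of rotation orbits -/
theorem card_orb (hn : 1 ≤ n) : Nat.card (Quotient (MulAction.orbitRel (Multiplicative (ZMod r)) (XX r n))) * r =
    (Nat.choose (n + r - 1) (r - 1) - r) + (r - 1) * (if r ∣ n then 1 else 0) := by
  classical
  have := Fintype.ofFinite (XX r n)
  have h := MulAction.sum_card_fixedBy_eq_card_orbits_mul_card_group (Multiplicative (ZMod r)) (XX r n)
  rw [Nat.card_eq_fintype_card]
  have hc : Fintype.card (Multiplicative (ZMod r)) = r := by
    rw [Fintype.card_multiplicative, ZMod.card]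
  rw [hc] at h
  rw [← h, ← Finset.add_sum_erase _ _ (Finset.mem_univ (1 : Multiplicative (ZMod r)))]
  congr 1
  · -- all
    have h1 : Fintype.card (MulAction.fixedBy (XX r n) (1 : Multiplicative (ZMod r))) = Nat.card (XX r n) := by
      rw [← Nat.card_eq_fintype_card]
      refine Nat.card_congr ((Equiv.setCongr ?_).trans (Equiv.Set.univ _))
      ext m
      simp
    rw [h1]
    -- the functions with some value n
    have h2 : Nat.card {m : ZMod r → ℕ // ∑ k, m k = n} = Nat.choose (n + r - 1) (r - 1) := by
      rw [card_sum_eq, ZMod.card]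
      have hr1 := hr.out.one_lt
      rw [add_comm r n, ← Nat.choose_symm (by omega)]
      congr 1
      omega
    have h3 : {m : ZMod r → ℕ | ∑ k, m k = n ∧ ∀ k, m k < n} = {m : ZMod r → ℕ | ∑ k, m k = n} \ Set.range (fun a : ZMod r => Function.update (0 : ZMod r → ℕ) a n) := by
      ext m
      constructor
      · rintro ⟨h4, h5⟩
        refine ⟨h4, ?_⟩
        rintro ⟨a, rfl⟩
        have h7 : Function.update (0 : ZMod r → ℕ) a n a < n := h5 a
        rw [Function.update_self] at h7
        exact lt_irrefl _ h7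
      · rintro ⟨h4, h5⟩
        refine ⟨h4, fun k => ?_⟩
        have h4' : ∑ k, m k = n := h4
        have h6 : m k ≤ n := by
          rw [← h4']
          exact Finset.single_le_sum (fun _ _ => Nat.zero_le _) (Finset.mem_univ k)
        refine lt_of_le_of_ne h6 fun h7 => h5 ⟨k, ?_⟩
        funext j
        show Function.update (0 : ZMod r → ℕ) k n j = m j
        by_cases hj : j = k
        · rw [hj, Function.update_self, h7]
        · rw [Function.update_of_ne hj, Pi.zero_apply]
          have h8 : m k + m j ≤ n := by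
            rw [← h4', ← Finset.sum_pair (Ne.symm hj)]
            exact Finset.sum_le_sum_of_subset (Finset.subset_univ _)
          omega
    have hfin : {m : ZMod r → ℕ | ∑ k, m k = n}.Finite := by
      apply Set.Finite.subset (Set.finite_Iic (fun _ : ZMod r => n))
      intro m hm k
      have hm' : ∑ k, m k = n := hm
      rw [← hm']
      exact Finset.single_le_sum (fun _ _ => Nat.zero_le _) (Finset.mem_univ k)
    have hsub : Set.range (fun a : ZMod r => Function.update (0 : ZMod r → ℕ) a n) ⊆ {m : ZMod r → ℕ | ∑ k, m k = n} := by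
      rintro _ ⟨a, rfl⟩
      show ∑ k, Function.update (0 : ZMod r → ℕ) a n k = n
      rw [Finset.sum_update_of_mem (Finset.mem_univ a)]
      simp
    have hinj : Function.Injective (fun a : ZMod r => Function.update (0 : ZMod r → ℕ) a n) := by
      intro a b hab
      by_contra hne
      have h4 := congrFun hab a
      simp only [Function.update_self, Function.update_of_ne hne, Pi.zero_apply] at h4
      omega
    have h5 : Nat.card (XX r n) = Set.ncard {m : ZMod r → ℕ | ∑ k, m k = n ∧ ∀ k, m k < n} := Nat.card_coe_set_eq _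
    have h6 : Set.ncard {m : ZMod r → ℕ | ∑ k, m k = n} = Nat.choose (n + r - 1) (r - 1) := by
      rw [← h2, ← Nat.card_coe_set_eq]; rfl
    rw [h5, h3, Set.ncard_sdiff hsub (hfin.subset hsub), h6]
    congr 1
    rw [← Set.image_univ, Set.ncard_image_of_injective _ hinj, Set.ncard_univ, Nat.card_eq_fintype_card, ZMod.card]
  · have h1 : ∀ a ∈ Finset.univ.erase (1 : Multiplicative (ZMod r)), Fintype.card (MulAction.fixedBy (XX r n) a) = if r ∣ n then 1 else 0 := by
      intro a ha
      have ha1 : a.toAdd ≠ 0 := fun h => Finset.ne_of_mem_erase ha (by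
        rw [← toAdd_one] at h
        exact Multiplicative.toAdd.injective h)
      have hconst : ∀ m : XX r n, a • m = m → ∀ k, m.1 k = m.1 0 := by
        intro m hm
        have h2 : ∀ k, m.1 (k - a.toAdd) = m.1 k := fun k => congrFun (congrArg Subtype.val hm) k
        have h3 : ∀ (j : ℕ) (k : ZMod r), m.1 (k - j * a.toAdd) = m.1 k := by
          intro j
          induction j with
          | zero => intro k; rw [Nat.cast_zero, zero_mul, sub_zero]
          | succ j ih =>
            intro k
            have h4 := ih (k - a.toAdd)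
            rw [h2] at h4
            rw [← h4]
            have e : k - ((j + 1 : ℕ) : ZMod r) * a.toAdd = k - a.toAdd - j * a.toAdd := by push_cast; ring
            rw [e]
        intro k
        have h4 := h3 ((k * (a.toAdd)⁻¹).val) k
        rw [ZMod.natCast_zmod_val, mul_assoc, inv_mul_cancel₀ ha1, mul_one, sub_self] at h4
        exact h4.symm
      split_ifs with hd
      · rw [Fintype.card_eq_one_iff]
        obtain ⟨c, hc⟩ := hd
        have hr1 := hr.out.one_lt
        have hc0 : 0 < c := by
          rcases Nat.eq_zero_or_pos c with h | h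
          · rw [h] at hc; omega
          · exact h
        refine ⟨⟨⟨fun _ => c, ?_, ?_⟩, ?_⟩, ?_⟩
        · rw [Finset.sum_const, Finset.card_univ, ZMod.card, smul_eq_mul, hc]
        · intro k
          rw [hc]
          nlinarith
        · apply Subtype.ext
          funext k
          rfl
        · rintro ⟨m, hm⟩
          apply Subtype.ext
          apply Subtype.ext
          funext k
          have h2 := hconst m hm
          have h3 := m.2.1
          rw [Finset.sum_congr rfl fun k _ => h2 k, Finset.sum_const, Finset.card_univ, ZMod.card, smul_eq_mul] at h3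
          show m.1 k = c
          rw [h2 k]
          exact Nat.eq_of_mul_eq_mul_left hr.out.pos (h3.trans hc)
      · rw [Fintype.card_eq_zero_iff]
        refine ⟨?_⟩
        rintro ⟨m, hm⟩
        apply hd
        have h2 := hconst m hm
        have h3 := m.2.1
        rw [Finset.sum_congr rfl fun k _ => h2 k, Finset.sum_const, Finset.card_univ, ZMod.card, smul_eq_mul] at h3
        exact ⟨_, h3.symm⟩
    rw [Finset.sum_congr rfl h1, Finset.sum_const, Finset.card_erase_of_mem (Finset.mem_univ _), Finset.card_univ, hc, smul_eq_mul]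

end Orb

end Cfsg.Agent.Lib.PrCount
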