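import Mathlib
import Cfsg.Agent.Lib.PrProj1

/-!
(helper43) counting classes of elements of prime order in projective groups.
-/

set_option autoImplicit false
set_option linter.unusedSectionVars false

namespace Cfsg.Agent.Lib.PrCount

open Polynomial Module Matrix
open scoped MatrixGroups

theorem card_of_rel {G T : Type*} [Group G] (P : G → Prop) (R : G → T → Prop)
    (h1 : ∀ x, P x → ∃ t, R x t) (h2 : ∀ t, ∃ x, P x ∧ R x t)
    (h3 : ∀ x y t t', R x t → R y t' → (IsConj x y ↔ t = t')) :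
    Nat.card {C : ConjClasses G // ∃ g, ConjClasses.mk g = C ∧ P g} = Nat.card T := by
  classical
  choose f hf using h2
  symm
  refine Nat.card_congr (Equiv.ofBijective (fun t => ⟨ConjClasses.mk (f t), f t, rfl, (hf t).1⟩) ⟨?_, ?_⟩)
  · intro t t' h
    have h4 : ConjClasses.mk (f t) = ConjClasses.mk (f t') := congrArg Subtype.val h
    rw [ConjClasses.mk_eq_mk_iff_isConj] at h4
    exact (h3 _ _ _ _ (hf t).2 (hf t').2).1 h4
  · rintro ⟨C, g, rfl, hg⟩
    obtain ⟨t, ht⟩ := h1 g hg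
    refine ⟨t, Subtype.ext ?_⟩
    show ConjClasses.mk (f t) = ConjClasses.mk g
    rw [ConjClasses.mk_eq_mk_iff_isConj]
    exact (h3 _ _ _ _ (hf t).2 ht).2 rfl

section Cyc

variable {K : Type*} [Field K] [Fintype K] {r : ℕ} [hr : Fact r.Prime] (Λ : Subgroup Kˣ)

theorem cyc_root (hd : r ∣ Nat.card Λ) {c : Kˣ} (hc : c ∈ Λ) (h : c ^ (Nat.card Λ / r) = 1) : ∃ b ∈ Λ, b ^ r = c := by
  obtain ⟨w, hw⟩ := IsCyclic.exists_generator (α := Λ)
  obtain ⟨j, hj⟩ := (Subgroup.mem_zpowers_iff).1 (hw ⟨c, hc⟩)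
  obtain ⟨M, hM⟩ := hd
  have hpos : 0 < Nat.card Λ := Nat.card_pos
  have hM0 : 0 < M := by
    rcases Nat.eq_zero_or_pos M with h0 | h0
    · rw [h0] at hM; omega
    · exact h0
  have hdiv : Nat.card Λ / r = M := by rw [hM, Nat.mul_div_cancel_left _ hr.out.pos]
  rw [hdiv] at h
  have hord : orderOf w = r * M := by rw [← hM]; exact orderOf_eq_card_of_forall_mem_zpowers hw
  have h1 : w ^ (j * M) = 1 := by
    rw [_root_.zpow_mul, hj]
    apply Subtype.ext
    show (((⟨c, hc⟩ : Λ) ^ ((M : ℕ) : ℤ) : Λ) : Kˣ) = 1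
    rw [zpow_natCast]
    exact h
  rw [← orderOf_dvd_iff_zpow_eq_one, hord] at h1
  push_cast at h1
  have h2 : (r : ℤ) ∣ j := Int.dvd_of_mul_dvd_mul_right (by exact_mod_cast hM0.ne') h1
  obtain ⟨i, rfl⟩ := h2
  refine ⟨(w ^ i : Λ), (w ^ i : Λ).2, ?_⟩
  have h3 : (w ^ i) ^ r = (⟨c, hc⟩ : Λ) := by
    rw [← hj, ← zpow_natCast, ← _root_.zpow_mul, mul_comm]
  exact congrArg Subtype.val h3

theorem exists_zeta (hd : r ∣ Nat.card Λ) : ∃ z : Kˣ, z ∈ Λ ∧ IsPrimitiveRoot (z : K) r ∧ (∃ w ∈ Λ, w ^ (Nat.card Λ / r) = z) := by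
  obtain ⟨w, hw⟩ := IsCyclic.exists_generator (α := Λ)
  have hord : orderOf w = Nat.card Λ := orderOf_eq_card_of_forall_mem_zpowers hw
  obtain ⟨M, hM⟩ := hd
  have hpos : 0 < Nat.card Λ := Nat.card_pos
  have hdiv : Nat.card Λ / r = M := by rw [hM, Nat.mul_div_cancel_left _ hr.out.pos]
  have hM0 : 0 < M := by
    rcases Nat.eq_zero_or_pos M with h0 | h0
    · rw [h0] at hM; omega
    · exact h0
  rw [hdiv]
  refine ⟨(w ^ M : Λ), (w ^ M : Λ).2, ?_, ⟨w, w.2, rfl⟩⟩
  have h1 : orderOf (((w ^ M : Λ) : Kˣ) : K) = r := by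
    rw [orderOf_units, Subgroup.orderOf_coe, orderOf_pow, hord, hM, Nat.gcd_mul_left_left, Nat.mul_div_cancel _ hM0]
  rw [← h1]
  exact IsPrimitiveRoot.orderOf _

end Cyc

section Main

variable {K : Type*} [Field K] [Fintype K] {n r : ℕ} [hr : Fact r.Prime]

local notation "sc" => Matrix.GeneralLinearGroup.scalar (Fin n)

theorem sc_inj (hn : 1 ≤ n) {a b : Kˣ} (h : Matrix.GeneralLinearGroup.scalar (Fin n) a = Matrix.GeneralLinearGroup.scalar (Fin n) b) : a = b := by
  have := congrArg (fun g : GL (Fin n) K => (g : Matrix (Fin n) (Fin n) K) ⟨0, hn⟩ ⟨0, hn⟩) h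
  apply Units.ext
  simpa using this

theorem sc_mul_coe (a : Kˣ) (g : GL (Fin n) K) : ((sc a * g : GL (Fin n) K) : Matrix (Fin n) (Fin n) K) = (a : K) • (g : Matrix (Fin n) (Fin n) K) := by
  rw [Units.val_mul]
  show Matrix.scalar (Fin n) (a : K) * _ = _
  rw [Matrix.scalar_apply, ← Matrix.smul_eq_diagonal_mul]

theorem sc_mul_pow (a : Kˣ) (g : GL (Fin n) K) (k : ℕ) : (sc a * g) ^ k = sc (a ^ k) * g ^ k := by
  rw [(show Commute (sc a) g from Matrix.GeneralLinearGroup.scalar_commute a g).mul_pow, map_pow]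

variable (p : ℕ) [hp : Fact p.Prime] [CharP K p]

/-- number of classes of elements of order `r` modulo scalars -/
theorem proj_count (L : Type*) [Field L] [IsAlgClosed L] [Algebra K L] (hn : 1 ≤ n) (hrp : r ≠ p) (hK : r ∣ Fintype.card K - 1) (G : Subgroup (GL (Fin n) K)) (Λ : Subgroup Kˣ)
    (hcen : ∀ g : G, g ∈ Subgroup.center G ↔ ∃ c ∈ Λ, (g : GL (Fin n) K) = Matrix.GeneralLinearGroup.scalar (Fin n) c)
    (hsc : ∀ c ∈ Λ, Matrix.GeneralLinearGroup.scalar (Fin n) c ∈ G)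
    (hconj : ∀ g h : G, IsConj (g : GL (Fin n) K) (h : GL (Fin n) K) → IsConj g h)
    (hex : ∀ (A : GL (Fin n) K), ∀ c ∈ Λ, A ^ r = Matrix.GeneralLinearGroup.scalar (Fin n) c → ∃ g : G, IsConj A (g : GL (Fin n) K))
    (hroot : ∀ c ∈ Λ, c ^ (Nat.card Λ / r) ≠ 1 → ∀ b : K, b ^ r ≠ c)
    (hdvd : r ∣ Nat.card Λ) :
    Nat.card {C : ConjClasses (G ⧸ Subgroup.center G) // ∃ g : G ⧸ Subgroup.center G, ConjClasses.mk g = C ∧ orderOf g = r} =
      (Nat.choose (n + r - 1) (r - 1) - r - (if r ∣ n then 1 else 0)) / r + r * (if r ∣ n then 1 else 0) := by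
  classical
  obtain ⟨z, hzΛ, hz, w, hwΛ, hwz⟩ := exists_zeta Λ hdvd
  set M := Nat.card Λ / r with hM
  have hMr : M * r = Nat.card Λ := Nat.div_mul_cancel hdvd
  have hΛ : ∀ c ∈ Λ, c ^ (M * r) = 1 := by
    intro c hc
    rw [hMr]
    exact congrArg Subtype.val (pow_card_eq_one' (x := (⟨c, hc⟩ : Λ)))
  obtain ⟨ζ, hζ, hζz⟩ : ∃ ζ : L, IsPrimitiveRoot ζ r ∧ algebraMap K L (z : K) = ζ :=
    ⟨_, hz.map_of_injective (algebraMap K L).injective, rfl⟩
  -- powers of z
  have hzp : ∀ a : ZMod r, algebraMap K L (((z ^ a.val : Kˣ)) : K) = zp ζ a := by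
    intro a
    rw [Units.val_pow_eq_pow_val, map_pow, hζz]; rfl
  have hzinj : ∀ a b : ZMod r, z ^ a.val = z ^ b.val → a = b := by
    intro a b h
    apply zp_injective hζ
    rw [← hzp, ← hzp, h]
  have hroots : ∀ b : Kˣ, b ^ r = 1 → ∃ a : ZMod r, b = z ^ a.val := by
    intro b hb
    obtain ⟨i, hi, hib⟩ := hz.eq_pow_of_pow_eq_one (ξ := (b : K)) (by rw [← Units.val_pow_eq_pow_val, hb, Units.val_one])
    refine ⟨(i : ZMod r), ?_⟩
    rw [ZMod.val_natCast, Nat.mod_eq_of_lt hi]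
    exact Units.ext hib.symm
  have hz1 : z ^ r = 1 := Units.ext (by rw [Units.val_pow_eq_pow_val, hz.pow_eq_one, Units.val_one])
  have hza : ∀ a : ZMod r, (z ^ a.val) ^ r = 1 := by
    intro a
    rw [← pow_mul, mul_comm, pow_mul, hz1, one_pow]
  let π : G → G ⧸ Subgroup.center G := fun g => (g : G ⧸ Subgroup.center G)
  have hπmul : ∀ a b : G, π (a * b) = π a * π b := fun a b => rfl
  have hπsc : ∀ (c : Kˣ) (hc : c ∈ Λ) (g : G), π (⟨sc c, hsc c hc⟩ * g) = π g := by
    intro c hc g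
    rw [hπmul]
    have h1 : π ⟨sc c, hsc c hc⟩ = 1 := (QuotientGroup.eq_one_iff _).2 ((hcen _).2 ⟨c, hc, rfl⟩)
    rw [h1, one_mul]
  -- conjugacy in the quotient
  have hF1 : ∀ g h : G, IsConj (π g) (π h) ↔ ∃ b ∈ Λ, IsConj (g : GL (Fin n) K) (sc b * (h : GL (Fin n) K)) := by
    intro g h
    constructor
    · intro hc
      obtain ⟨k', hk⟩ := isConj_iff.1 hc
      obtain ⟨k, rfl⟩ := QuotientGroup.mk_surjective k'
      have h1 : (h * (k * g * k⁻¹)⁻¹ : G) ∈ Subgroup.center G := by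
        rw [← QuotientGroup.eq_one_iff]
        have h2 : π h * (π (k * g * k⁻¹))⁻¹ = 1 := by
          rw [mul_inv_eq_one, ← hk]; rfl
        exact h2
      obtain ⟨c, hc, hce⟩ := (hcen _).1 h1
      refine ⟨c⁻¹, Λ.inv_mem hc, ?_⟩
      rw [isConj_iff]
      refine ⟨(k : GL (Fin n) K), ?_⟩
      have h2 : (h : GL (Fin n) K) = sc c * (k * g * k⁻¹ : GL (Fin n) K) := by
        rw [← hce]
        show (h : GL (Fin n) K) = (h : GL (Fin n) K) * ((k : GL (Fin n) K) * g * (k : GL (Fin n) K)⁻¹)⁻¹ * ((k : GL (Fin n) K) * g * (k : GL (Fin n) K)⁻¹)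
        group
      rw [h2, ← mul_assoc (sc c⁻¹), ← map_mul, inv_mul_cancel, map_one, one_mul]
      rfl
    · rintro ⟨b, hb, hc⟩
      have h0 : (((⟨sc b, hsc b hb⟩ : G) * h : G) : GL (Fin n) K) = sc b * (h : GL (Fin n) K) := Subgroup.coe_mul _ _ _
      have h1 := hconj g ((⟨sc b, hsc b hb⟩ : G) * h) (by rw [h0]; exact hc)
      have h2 := (QuotientGroup.mk' (Subgroup.center G)).map_isConj h1
      rw [← hπsc b hb h]
      exact h2
  have hpw : ∀ (g : G) (k : ℕ), π (g ^ k) = π g ^ k := fun g k => rfl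
  have hone : ∀ g : G, π g = 1 ↔ ∃ c ∈ Λ, (g : GL (Fin n) K) = sc c := by
    intro g
    rw [← hcen]
    exact QuotientGroup.eq_one_iff g
  have hmat : ∀ {g : GL (Fin n) K}, g ^ r = 1 → (g : Matrix (Fin n) (Fin n) K) ^ r = 1 := by
    intro g hg
    rw [← Units.val_pow_eq_pow_val, hg]; rfl
  have hRR : ∀ {g : GL (Fin n) K}, g ^ r = 1 → RR L r (g : Matrix (Fin n) (Fin n) K) := fun {g} hg => RR_of_pow (hmat hg)
  have hshift : ∀ (g : GL (Fin n) K) (a : ZMod r), g ^ r = 1 → ∀ k : ZMod r,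
      mu ζ ((sc (z ^ a.val) * g : GL (Fin n) K) : Matrix (Fin n) (Fin n) K) k = mu ζ (g : Matrix (Fin n) (Fin n) K) (k - a) := by
    intro g a hg k
    rw [sc_mul_coe]
    exact mu_smul hζ (hRR hg) (hzp a) k
  -- scalars have a full multiplicity
  have hscal : ∀ a : ZMod r, ∀ k : ZMod r, mu ζ ((sc (z ^ a.val) : GL (Fin n) K) : Matrix (Fin n) (Fin n) K) k = if k = a then n else 0 := by
    intro a k
    have h1 := hshift 1 a (one_pow r) k
    rw [mul_one, Units.val_one, mu_one hζ, Fintype.card_fin] at h1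
    rw [h1]
    simp only [sub_eq_zero]
  have hsum : ∀ {g : GL (Fin n) K}, g ^ r = 1 → ∑ k : ZMod r, mu ζ (g : Matrix (Fin n) (Fin n) K) k = n := by
    intro g hg
    have := sum_mu hζ (hRR hg)
    rwa [Fintype.card_fin] at this
  have hsc1 : ∀ g : GL (Fin n) K, g ^ r = 1 → (∀ c ∈ Λ, g ≠ sc c) → ∀ k : ZMod r, mu ζ (g : Matrix (Fin n) (Fin n) K) k < n := by
    intro g hg hns a
    have h1 := hsum hg
    have h2 : mu ζ (g : Matrix (Fin n) (Fin n) K) a ≤ n :=
      le_of_le_of_eq (Finset.single_le_sum (f := fun k : ZMod r => mu ζ (g : Matrix (Fin n) (Fin n) K) k) (fun _ _ => Nat.zero_le _) (Finset.mem_univ a)) h1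
    refine lt_of_le_of_ne h2 fun h3 => ?_
    have h4 : ∀ k : ZMod r, mu ζ (g : Matrix (Fin n) (Fin n) K) k = if k = a then n else 0 := by
      intro k
      by_cases hk : k = a
      · rw [if_pos hk, hk, h3]
      · rw [if_neg hk]
        have h5 : mu ζ (g : Matrix (Fin n) (Fin n) K) a + mu ζ (g : Matrix (Fin n) (Fin n) K) k ≤ n := by
          refine le_of_le_of_eq ?_ h1
          rw [← Finset.sum_pair (f := fun k : ZMod r => mu ζ (g : Matrix (Fin n) (Fin n) K) k) (Ne.symm hk)]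
          exact Finset.sum_le_sum_of_subset (Finset.subset_univ _)
        omega
    have h5 : IsConj g (sc (z ^ a.val)) := by
      rw [conj_iff' hζ p hrp hg (by rw [← map_pow, hza, map_one])]
      intro k
      rw [h4, hscal]
    obtain ⟨c, hc⟩ := isConj_iff.1 h5
    apply hns (z ^ a.val) (Λ.pow_mem hzΛ _)
    have h6 : g = c⁻¹ * (sc (z ^ a.val)) * c := by rw [← hc]; group
    rw [h6, mul_assoc, Matrix.GeneralLinearGroup.scalar_commute, inv_mul_cancel_left]
  -- the relation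
  let T := Quotient (MulAction.orbitRel (Multiplicative (ZMod r)) (XX r n)) ⊕ {a : ZMod r // a ≠ 0 ∧ r ∣ n}
  let R : (G ⧸ Subgroup.center G) → T → Prop := fun x t =>
    Sum.elim (fun o => ∃ (g : G) (m : XX r n), π g = x ∧ (g : GL (Fin n) K) ^ r = 1 ∧
        (∀ k : ZMod r, mu ζ ((g : GL (Fin n) K) : Matrix (Fin n) (Fin n) K) k = m.1 k) ∧ Quotient.mk _ m = o)
      (fun a => ∃ (g : G) (c : Kˣ), π g = x ∧ c ∈ Λ ∧ (g : GL (Fin n) K) ^ r = sc c ∧ c ^ M = z ^ a.1.val) t
  have hcard : Nat.card T = Nat.card (Quotient (MulAction.orbitRel (Multiplicative (ZMod r)) (XX r n))) + (r - 1) * (if r ∣ n then 1 else 0) := by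
    rw [Nat.card_sum]
    congr 1
    split_ifs with h
    · have h1 : Nat.card {a : ZMod r // a ≠ 0 ∧ r ∣ n} = Nat.card {a : ZMod r // a ≠ 0} :=
        Nat.card_congr (Equiv.subtypeEquivRight fun a => by simp [h])
      rw [h1, Nat.card_eq_fintype_card, Fintype.card_subtype_compl, Fintype.card_subtype_eq, ZMod.card, mul_one]
    · have : IsEmpty {a : ZMod r // a ≠ 0 ∧ r ∣ n} := ⟨fun a => h a.2.2⟩
      rw [Nat.card_of_isEmpty, mul_zero]
  rw [card_of_rel (fun x : G ⧸ Subgroup.center G => orderOf x = r) R]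
  · rw [hcard]
    have h1 := card_orb (r := r) (n := n) hn
    set δ := if r ∣ n then 1 else 0 with hδ
    set N := Nat.card (Quotient (MulAction.orbitRel (Multiplicative (ZMod r)) (XX r n))) with hN
    set C' := Nat.choose (n + r - 1) (r - 1) - r with hC'
    have hr1 := hr.out.one_lt
    by_cases hd : r ∣ n
    · rw [if_pos hd] at hδ
      rw [hδ] at h1 ⊢
      have hN0 : N ≠ 0 := by
        intro h0
        rw [h0, zero_mul] at h1
        omega
      obtain ⟨N', hN'⟩ := Nat.exists_eq_succ_of_ne_zero hN0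
      have h2 : C' - 1 = N' * r := by
        rw [hN', Nat.succ_mul] at h1
        have : N' * r = C' - 1 := by omega
        exact this.symm
      rw [h2, Nat.mul_div_cancel _ hr.out.pos]
      omega
    · rw [if_neg hd] at hδ
      rw [hδ] at h1 ⊢
      rw [mul_zero, add_zero] at h1
      rw [Nat.sub_zero, ← h1, Nat.mul_div_cancel _ hr.out.pos, mul_zero, mul_zero]
  · -- every element of order `r` is related to something
    intro x hx
    obtain ⟨g, rfl⟩ := QuotientGroup.mk_surjective x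
    have hx' : orderOf (π g) = r := hx
    have h1 : π (g ^ r) = 1 := by rw [hpw, ← hx', pow_orderOf_eq_one]
    obtain ⟨c, hc, hgc⟩ := (hone _).1 h1
    have hgc' : (g : GL (Fin n) K) ^ r = sc c := by rw [← hgc]; exact (Subgroup.coe_pow _ _ _).symm
    have hns : ∀ b ∈ Λ, (g : GL (Fin n) K) ≠ sc b := by
      intro b hb h2
      have h3 : π g = 1 := (hone g).2 ⟨b, hb, h2⟩
      rw [h3, orderOf_one] at hx'
      exact hr.out.one_lt.ne hx'
    by_cases hcM : c ^ M = 1
    · obtain ⟨b, hb, hbc⟩ := cyc_root Λ hdvd hc hcM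
      have hg1 : (sc b⁻¹ * (g : GL (Fin n) K)) ^ r = 1 := by
        rw [sc_mul_pow, hgc', ← map_mul, inv_pow, hbc, inv_mul_cancel, map_one]
      have hns' : ∀ b' ∈ Λ, sc b⁻¹ * (g : GL (Fin n) K) ≠ sc b' := by
        intro b' hb' h2
        apply hns (b * b') (Λ.mul_mem hb hb')
        rw [map_mul, ← h2, ← mul_assoc, ← map_mul, mul_inv_cancel, map_one, one_mul]
      let g' : G := (⟨sc b⁻¹, hsc _ (Λ.inv_mem hb)⟩ : G) * g
      have hg' : (g' : GL (Fin n) K) = sc b⁻¹ * (g : GL (Fin n) K) := Subgroup.coe_mul _ _ _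
      let m : XX r n := ⟨fun k => mu ζ ((sc b⁻¹ * (g : GL (Fin n) K) : GL (Fin n) K) : Matrix (Fin n) (Fin n) K) k, hsum hg1, hsc1 _ hg1 hns'⟩
      refine ⟨Sum.inl (Quotient.mk _ m), g', m, hπsc _ (Λ.inv_mem hb) g, by rw [hg']; exact hg1, ?_, rfl⟩
      intro k
      rw [hg']
    · have hnr := hroot c hc hcM
      obtain ⟨d, -, hd⟩ := charpoly_of_pow hr.out hnr (A := ((g : GL (Fin n) K) : Matrix (Fin n) (Fin n) K)) (by
        rw [← Units.val_pow_eq_pow_val, hgc']; rfl)
      rw [Fintype.card_fin] at hd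
      obtain ⟨a, ha⟩ := hroots (c ^ M) (by rw [← pow_mul]; exact hΛ c hc)
      refine ⟨Sum.inr ⟨a, ?_, ⟨d, hd⟩⟩, g, c, rfl, hc, hgc', ha⟩
      rintro rfl
      rw [ZMod.val_zero, pow_zero] at ha
      exact hcM ha
  · -- everything occurs
    have hord : ∀ g : G, (∃ c ∈ Λ, (g : GL (Fin n) K) ^ r = sc c) → (∀ b ∈ Λ, (g : GL (Fin n) K) ≠ sc b) → orderOf (π g) = r := by
      rintro g ⟨c, hc, hgc⟩ hns
      refine orderOf_eq_prime ?_ ?_
      · rw [← hpw, hone]
        exact ⟨c, hc, by rw [← hgc]; exact Subgroup.coe_pow _ _ _⟩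
      · intro h
        obtain ⟨b, hb, hgb⟩ := (hone g).1 h
        exact hns b hb hgb
    rintro (o | ⟨a, ha0, hd⟩)
    · obtain ⟨m, rfl⟩ := Quotient.exists_rep o
      have hq : ((Fintype.card K : ℕ) : ZMod r) = 1 := by
        have h1 : 1 ≤ Fintype.card K := Fintype.card_pos
        have h2 : ((Fintype.card K - 1 : ℕ) : ZMod r) = 0 := (ZMod.natCast_eq_zero_iff _ _).2 hK
        rw [Nat.cast_sub h1, sub_eq_zero, Nat.cast_one] at h2
        exact h2
      obtain ⟨A, hA, -, hAm⟩ := exists_GL hζ p (n := n) (m := m.1) (by intro k; rw [hq, one_mul]) (by rw [hq]; exact one_ne_zero) m.2.1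
      obtain ⟨g, hg⟩ := hex A 1 Λ.one_mem (by rw [hA, map_one])
      have hgr : (g : GL (Fin n) K) ^ r = 1 := by
        obtain ⟨c, hc⟩ := isConj_iff.1 hg
        rw [← hc, conj_pow, hA, mul_one, mul_inv_cancel]
      have hgm : ∀ k : ZMod r, mu ζ ((g : GL (Fin n) K) : Matrix (Fin n) (Fin n) K) k = m.1 k := by
        intro k
        rw [← hAm, ← (conj_iff' hζ p hrp hA hgr).1 hg k]
      refine ⟨π g, ?_, ⟨g, m, rfl, hgr, hgm, rfl⟩⟩
      apply hord g ⟨1, Λ.one_mem, by rw [hgr, map_one]⟩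
      intro b hb hgb
      rw [hgb, ← map_pow, ← map_one (Matrix.GeneralLinearGroup.scalar (Fin n))] at hgr
      obtain ⟨a, rfl⟩ := hroots b (sc_inj hn hgr)
      have h3 := hgm a
      rw [hgb, hscal, if_pos rfl] at h3
      exact absurd h3.symm (m.2.2 a).ne
    · let c := w ^ a.val
      have hc : c ∈ Λ := Λ.pow_mem hwΛ _
      have hcM : c ^ M = z ^ a.val := by
        show (w ^ a.val) ^ M = _
        rw [← pow_mul, mul_comm, pow_mul, hwz]
      have hne : c ^ M ≠ 1 := by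
        rw [hcM]
        intro h
        apply ha0
        apply hzinj
        rw [h, ZMod.val_zero, pow_zero]
      have hnr := hroot c hc hne
      obtain ⟨A, hA⟩ := exists_pow (F := K) hr.out (c : K) hd
      have hAu : IsUnit A := by
        rw [← isUnit_pow_iff hr.out.ne_zero, hA]
        exact (sc c : GL (Fin n) K).isUnit
      obtain ⟨A', rfl⟩ := hAu
      have hA' : A' ^ r = sc c := Units.ext (by rw [Units.val_pow_eq_pow_val, hA]; rfl)
      obtain ⟨g, hg⟩ := hex A' c hc hA'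
      have hgr : (g : GL (Fin n) K) ^ r = sc c := by
        obtain ⟨k, hk⟩ := isConj_iff.1 hg
        rw [← hk, conj_pow, hA', ← Matrix.GeneralLinearGroup.scalar_commute, mul_assoc, mul_inv_cancel, mul_one]
      refine ⟨π g, ?_, ⟨g, c, rfl, hc, hgr, hcM⟩⟩
      apply hord g ⟨c, hc, hgr⟩
      intro b hb hgb
      rw [hgb, ← map_pow] at hgr
      apply hne
      rw [← sc_inj hn hgr, ← pow_mul, mul_comm]
      exact hΛ b hb
  · -- conjugacy
    have hpc : ∀ {x y : GL (Fin n) K} {c : Kˣ}, IsConj x y → y ^ r = sc c → x ^ r = sc c := by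
      intro x y c hxy hy
      obtain ⟨k, hk⟩ := isConj_iff.1 hxy.symm
      rw [← hk, conj_pow, hy, ← Matrix.GeneralLinearGroup.scalar_commute, mul_assoc, mul_inv_cancel, mul_one]
    have hmix : ∀ (g h : G) (c : Kˣ) (a : ZMod r), (g : GL (Fin n) K) ^ r = 1 → (h : GL (Fin n) K) ^ r = sc c → c ^ M = z ^ a.val → a ≠ 0 →
        ¬ IsConj (π g) (π h) := by
      intro g h c a hg hh hc ha hcon
      obtain ⟨b, hb, hcc⟩ := (hF1 g h).1 hcon
      have h1 := hpc hcc (c := b ^ r * c) (by rw [sc_mul_pow, hh, ← map_mul])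
      rw [hg, ← map_one (Matrix.GeneralLinearGroup.scalar (Fin n))] at h1
      have h2 := sc_inj hn h1
      apply ha
      apply hzinj
      rw [← hc, ZMod.val_zero, pow_zero]
      have h3 : (b ^ r * c) ^ M = 1 := by rw [← h2, one_pow]
      rw [mul_pow, ← pow_mul, mul_comm r M, hΛ b hb, one_mul] at h3
      exact h3
    rintro x y (o | ⟨a, ha⟩) (o' | ⟨a', ha'⟩) hx hy
    · obtain ⟨g, m, rfl, hg, hgm, rfl⟩ := hx
      obtain ⟨h, m', rfl, hh, hhm, rfl⟩ := hy
      rw [hF1]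
      constructor
      · rintro ⟨b, hb, hcc⟩
        have h1 := hpc hcc (c := b ^ r) (by rw [sc_mul_pow, hh, mul_one])
        rw [hg, ← map_one (Matrix.GeneralLinearGroup.scalar (Fin n))] at h1
        obtain ⟨a, rfl⟩ := hroots b (sc_inj hn h1).symm
        congr 1
        apply Quotient.sound
        rw [← Quotient.eq_iff_equiv, Quotient.eq, MulAction.orbitRel_apply, MulAction.mem_orbit_iff]
        refine ⟨Multiplicative.ofAdd a, ?_⟩
        apply Subtype.ext
        funext k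
        rw [smul_XX, toAdd_ofAdd, ← hhm, ← hgm, ← hshift _ _ hh]
        exact ((conj_iff' hζ p hrp hg (by rw [sc_mul_pow, hh, hza, map_one, mul_one])).1 hcc k).symm
      · intro h1
        have h2 := Quotient.exact (Sum.inl.inj h1)
        rw [← Quotient.eq_iff_equiv, Quotient.eq, MulAction.orbitRel_apply, MulAction.mem_orbit_iff] at h2
        obtain ⟨a, ha⟩ := h2
        refine ⟨z ^ a.toAdd.val, Λ.pow_mem hzΛ _, ?_⟩
        rw [conj_iff' hζ p hrp hg (by rw [sc_mul_pow, hh, hza, map_one, mul_one])]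
        intro k
        rw [hshift _ _ hh, hgm, hhm, ← ha, smul_XX]
    · obtain ⟨g, m, rfl, hg, hgm, rfl⟩ := hx
      obtain ⟨h, c, rfl, hc, hh, hcM⟩ := hy
      refine ⟨fun hcon => absurd hcon (hmix g h c a' hg hh hcM ha'.1), fun hcon => ?_⟩
      exact absurd hcon (by simp)
    · obtain ⟨h, c, rfl, hc, hh, hcM⟩ := hx
      obtain ⟨g, m, rfl, hg, hgm, rfl⟩ := hy
      refine ⟨fun hcon => absurd hcon.symm (hmix g h c a hg hh hcM ha.1), fun hcon => ?_⟩
      exact absurd hcon (by simp)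
    · obtain ⟨g, c, rfl, hc, hg, hcM⟩ := hx
      obtain ⟨h, c', rfl, hc', hh, hcM'⟩ := hy
      rw [hF1]
      constructor
      · rintro ⟨b, hb, hcc⟩
        have h1 := hpc hcc (c := b ^ r * c') (by rw [sc_mul_pow, hh, ← map_mul])
        rw [hg] at h1
        have h2 := sc_inj hn h1
        have h3 : z ^ a.val = z ^ a'.val := by
          rw [← hcM, ← hcM', h2, mul_pow, ← pow_mul, mul_comm r M, hΛ b hb, one_mul]
        have h4 := hzinj _ _ h3
        subst h4
        rfl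
      · intro h1
        have h2 : a = a' := congrArg Subtype.val (Sum.inr.inj h1)
        subst h2
        have h3 : (c * c'⁻¹) ^ M = 1 := by rw [mul_pow, inv_pow, hcM, hcM', mul_inv_cancel]
        obtain ⟨b, hb, hbc⟩ := cyc_root Λ hdvd (Λ.mul_mem hc (Λ.inv_mem hc')) h3
        refine ⟨b, hb, ?_⟩
        have hne : c ^ M ≠ 1 := by
          rw [hcM]
          intro h
          apply ha.1
          apply hzinj
          rw [h, ZMod.val_zero, pow_zero]
        have hnr := hroot c hc hne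
        have hbh : (sc b * (h : GL (Fin n) K)) ^ r = sc c := by
          rw [sc_mul_pow, hh, ← map_mul, hbc, inv_mul_cancel_right]
        have hcop : ∀ x : GL (Fin n) K, x ^ r = sc c → (orderOf x).Coprime p := by
          intro x hx
          have h4 : x ^ (r * (Fintype.card K - 1)) = 1 := by
            rw [pow_mul, hx, ← map_pow]
            have h5 : c ^ (Fintype.card K - 1) = 1 := by
              rw [← Fintype.card_units]; exact pow_card_eq_one
            rw [h5, map_one]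
          refine Nat.Coprime.coprime_dvd_left (orderOf_dvd_of_pow_eq_one h4) ?_
          refine Nat.Coprime.mul_left ((Nat.coprime_primes hr.out hp.out).2 hrp) ?_
          obtain ⟨e, -, he⟩ := FiniteField.card K p
          rw [he]
          have h6 : 1 ≤ p ^ (e : ℕ) := Nat.one_le_iff_ne_zero.2 (pow_ne_zero _ hp.out.ne_zero)
          have h7 : (p ^ (e : ℕ) - 1).Coprime (p ^ (e : ℕ)) := by
            have := Nat.coprime_self_sub_left (n := p ^ (e : ℕ)) h6
            rw [this]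
            exact Nat.coprime_one_left _
          exact Nat.Coprime.coprime_dvd_right (dvd_pow_self p e.2.ne') h7
        apply SSClass.conj_GL p _ _ (hcop _ hg) (hcop _ hbh)
        obtain ⟨d, hd1, hd2⟩ := charpoly_of_pow hr.out hnr (A := ((g : GL (Fin n) K) : Matrix (Fin n) (Fin n) K)) (by
          rw [← Units.val_pow_eq_pow_val, hg]; rfl)
        obtain ⟨d', hd1', hd2'⟩ := charpoly_of_pow hr.out hnr (A := ((sc b * (h : GL (Fin n) K) : GL (Fin n) K) : Matrix (Fin n) (Fin n) K)) (by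
          rw [← Units.val_pow_eq_pow_val, hbh]; rfl)
        have h8 : d = d' := Nat.eq_of_mul_eq_mul_left hr.out.pos (hd2.symm.trans hd2')
        rw [hd1, hd1', h8]

end Main

end Cfsg.Agent.Lib.PrCount
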