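import Mathlib
import Cfsg.Agent.Lib.PrProj2

/-!
(helper43) transfer of class counts along isomorphisms.
-/

set_option autoImplicit false

namespace Cfsg.Agent.Lib.PrCount

theorem classes_congr {A B : Type*} [Group A] [Group B] (e : A ≃* B) (r : ℕ) :
    Nat.card {C : ConjClasses A // ∃ g : A, ConjClasses.mk g = C ∧ orderOf g = r} =
      Nat.card {C : ConjClasses B // ∃ g : B, ConjClasses.mk g = C ∧ orderOf g = r} := by
  apply card_of_rel (fun g : A => orderOf g = r) (fun (x : A) (t : {C : ConjClasses B // ∃ g : B, ConjClasses.mk g = C ∧ orderOf g = r}) =>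
    ConjClasses.mk (e x) = t.1)
  · intro x hx
    exact ⟨⟨ConjClasses.mk (e x), e x, rfl, by rw [MulEquiv.orderOf_eq, hx]⟩, rfl⟩
  · rintro ⟨C, g, rfl, hg⟩
    refine ⟨e.symm g, ?_, ?_⟩
    · show orderOf (e.symm g) = r
      rw [MulEquiv.orderOf_eq, hg]
    · show ConjClasses.mk (e (e.symm g)) = ConjClasses.mk g
      rw [e.apply_symm_apply]
  · intro x y t t' hx hy
    have h1 : t = t' ↔ t.1 = t'.1 := Subtype.ext_iff
    rw [h1, ← hx, ← hy, ConjClasses.mk_eq_mk_iff_isConj]
    constructor
    · intro h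
      exact e.toMonoidHom.map_isConj h
    · intro h
      have h2 := e.symm.toMonoidHom.map_isConj h
      simpa using h2

end Cfsg.Agent.Lib.PrCount
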