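import Mathlib
import Cfsg.Agent.Lib.PrimNormal

/-!
helper8: primitive groups of degree 100 with a simple point stabiliser.
-/
set_option autoImplicit false

namespace Cfsg.Agent.Lib.Prim100

open MulAction

variable {G Ω : Type*} [Group G] [Finite G] [MulAction G Ω]

theorem card_eq_of_regular (N : Subgroup G) [IsPretransitive N Ω] (x : Ω)
    (h : ∀ n ∈ N, n • x = x → n = 1) : Nat.card N = Nat.card Ω := by
  have h1 : stabilizer N x = ⊥ := by
    rw [eq_bot_iff]
    rintro ⟨n, hn⟩ hs
    rw [Subgroup.mem_bot]
    exact Subtype.ext (h n hn hs)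
  have h2 := MulAction.index_stabilizer_of_transitive N x
  rw [h1, Subgroup.index_bot] at h2
  exact h2

theorem simple_of [FaithfulSMul G Ω] (hprim : IsPreprimitive G Ω) (x : Ω)
    (hs : IsSimpleGroup (stabilizer G x)) (hc : Nat.card Ω = 100) : IsSimpleGroup G := by
  have hfin : Finite Ω := Nat.finite_of_card_ne_zero (by rw [hc]; norm_num)
  have hnt : Nontrivial G := by
    obtain ⟨a, b, hab⟩ := hs.toNontrivial.exists_pair_ne
    exact ⟨a.1, b.1, fun h => hab (Subtype.ext h)⟩
  refine ⟨fun N hN => ?_⟩
  by_cases hbot : N = ⊥
  · exact Or.inl hbot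
  right
  have ht := PrimNormal.transitive_of_normal hprim N hbot
  have hnorm : (N.subgroupOf (stabilizer G x)).Normal := inferInstance
  rcases hs.eq_bot_or_eq_top_of_normal _ hnorm with h | h
  · exfalso
    have hreg : ∀ n ∈ N, n • x = x → n = 1 := by
      intro n hn hx
      have : (⟨n, hx⟩ : stabilizer G x) ∈ N.subgroupOf (stabilizer G x) := hn
      rw [h, Subgroup.mem_bot] at this
      exact congrArg Subtype.val this
    have hcN := card_eq_of_regular N x hreg
    rw [hc] at hcN
    haveI : Fact (Nat.Prime 5) := ⟨by norm_num⟩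
    obtain ⟨P⟩ : Nonempty (Sylow 5 N) := inferInstance
    have hP : Nat.card P = 25 := by
      rw [P.card_eq_multiplicity, hcN]
      have : (100 : ℕ).factorization 5 = 2 := by
        rw [show (100 : ℕ) = 5 ^ 2 * 4 by norm_num, Nat.factorization_mul (by norm_num) (by norm_num),
          Nat.Prime.factorization_pow (by norm_num)]
        simp [Nat.factorization_eq_zero_of_not_dvd (show ¬ 5 ∣ 4 by norm_num)]
      rw [this]
      norm_num
    have hidx : (P : Subgroup N).index = 4 := by
      have := (P : Subgroup N).card_mul_index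
      rw [hcN] at this
      have h25 : Nat.card (P : Subgroup N) = 25 := hP
      rw [h25] at this
      omega
    have hn1 : Nat.card (Sylow 5 N) = 1 := by
      have h1 := P.card_dvd_index
      rw [hidx] at h1
      have h2 := card_sylow_modEq_one 5 N
      have h3 := Nat.le_of_dvd (by norm_num) h1
      have h4 : 0 < Nat.card (Sylow 5 N) := Nat.card_pos
      interval_cases (Nat.card (Sylow 5 N))
      · rfl
      · exact absurd h2 (by decide)
      · exact absurd h2 (by decide)
      · exact absurd h2 (by decide)
    haveI : Subsingleton (Sylow 5 N) := (Nat.card_eq_one_iff_unique.mp hn1).1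
    haveI hchar : (P : Subgroup N).Characteristic := P.characteristic_of_subsingleton
    haveI hK : ((P : Subgroup N).map N.subtype).Normal := ConjAct.normal_of_characteristic_of_normal
    have hcK : Nat.card ((P : Subgroup N).map N.subtype) = 25 := by
      rw [Subgroup.card_map_of_injective N.subtype_injective]
      exact hP
    have hKne : (P : Subgroup N).map N.subtype ≠ ⊥ := by
      intro h
      rw [h, Subgroup.card_bot] at hcK
      norm_num at hcK
    have hKt := PrimNormal.transitive_of_normal hprim ((P : Subgroup N).map N.subtype) hKne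
    have hdvd := MulAction.index_stabilizer_of_transitive ((P : Subgroup N).map N.subtype) x
    have h5 := (stabilizer ((P : Subgroup N).map N.subtype) x).index_dvd_card
    rw [hdvd, hc, hcK] at h5
    norm_num at h5
  · rw [Subgroup.eq_top_iff']
    intro g
    obtain ⟨n, hn⟩ := exists_smul_eq N x (g • x)
    have h1 : (n : G)⁻¹ * g ∈ stabilizer G x := by
      rw [mem_stabilizer_iff, mul_smul, ← hn]
      exact inv_smul_smul (n : G) x
    have h2 : (⟨(n : G)⁻¹ * g, h1⟩ : stabilizer G x) ∈ N.subgroupOf (stabilizer G x) := by
      rw [h]; trivial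
    have h3 : (n : G)⁻¹ * g ∈ N := h2
    have := N.mul_mem n.2 h3
    rwa [mul_inv_cancel_left] at this

end Cfsg.Agent.Lib.Prim100
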