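import Mathlib

/-!
Groups in which centralizers of non-central elements are abelian with fusion number at most 2:
the class equation of the finite rotation groups (used for primitive groups of degree two).
-/

set_option autoImplicit false

namespace Cfsg.Agent.Lib.Prim2Grp

variable {G : Type*} [Group G]

/-- the arithmetic of the rotation groups -/
theorem arith3s {N e₁ e₂ e₃ f₁ f₂ f₃ : ℕ} (h1 : e₁ * f₁ = N) (h2 : e₂ * f₂ = N) (h3 : e₃ * f₃ = N)
    (he1 : 2 ≤ e₁) (he2 : 2 ≤ e₂) (he3 : 2 ≤ e₃) (hf1 : 3 ≤ f₁) (hf2 : 3 ≤ f₂) (hf3 : 3 ≤ f₃)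
    (h : N + 2 = f₁ + f₂ + f₃) (h12 : f₂ ≤ f₁) (h23 : f₃ ≤ f₂) : N = 12 ∨ N = 24 ∨ N = 60 := by
  -- e₁ = 2
  have he1' : e₁ = 2 := by
    by_contra hne
    have : 3 ≤ e₁ := by omega
    nlinarith
  subst he1'
  -- e₂ ∈ {2,3}
  have he2' : e₂ < 4 := by
    by_contra hne
    have : 4 ≤ e₂ := by omega
    nlinarith
  have he2'' : e₂ ≠ 2 := by
    rintro rfl
    omega
  have : e₂ = 3 := by omega
  subst this
  have he3' : e₃ < 6 := by
    by_contra hne
    have : 6 ≤ e₃ := by omega
    nlinarith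
  interval_cases e₃ <;> omega

theorem arith3 {N e₁ e₂ e₃ f₁ f₂ f₃ : ℕ} (h1 : e₁ * f₁ = N) (h2 : e₂ * f₂ = N) (h3 : e₃ * f₃ = N)
    (he1 : 2 ≤ e₁) (he2 : 2 ≤ e₂) (he3 : 2 ≤ e₃) (hf1 : 3 ≤ f₁) (hf2 : 3 ≤ f₂) (hf3 : 3 ≤ f₃)
    (h : N + 2 = f₁ + f₂ + f₃) : N = 12 ∨ N = 24 ∨ N = 60 := by
  rcases le_total f₁ f₂ with h12 | h12 <;> rcases le_total f₂ f₃ with h23 | h23 <;>
    rcases le_total f₁ f₃ with h13 | h13
  · exact arith3s h3 h2 h1 he3 he2 he1 hf3 hf2 hf1 (by omega) h23 h12
  · exact arith3s h3 h2 h1 he3 he2 he1 hf3 hf2 hf1 (by omega) h23 h12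
  · exact arith3s h2 h3 h1 he2 he3 he1 hf2 hf3 hf1 (by omega) h23 h13
  · exact arith3s h2 h1 h3 he2 he1 he3 hf2 hf1 hf3 (by omega) h12 h13
  · exact arith3s h3 h1 h2 he3 he1 he2 hf3 hf1 hf2 (by omega) h13 h12
  · exact arith3s h1 h3 h2 he1 he3 he2 hf1 hf3 hf2 (by omega) h13 h23
  · exact arith3s h1 h2 h3 he1 he2 he3 hf1 hf2 hf3 (by omega) h12 h23
  · exact arith3s h1 h2 h3 he1 he2 he3 hf1 hf2 hf3 (by omega) h12 h23

theorem arith2 {N e₁ e₂ f₁ f₂ : ℕ} (h1 : e₁ * f₁ = N) (h2 : e₂ * f₂ = N)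
    (he1 : 2 ≤ e₁) (he2 : 2 ≤ e₂) (hf1 : 3 ≤ f₁) (hf2 : 3 ≤ f₂)
    (h : N + 2 = 2 * f₁ + f₂) : N = 12 := by
  have he1' : e₁ < 4 := by
    by_contra hne
    have : 4 ≤ e₁ := by omega
    nlinarith
  have he1'' : e₁ ≠ 2 := by
    rintro rfl
    omega
  have : e₁ = 3 := by omega
  subst this
  have he2' : e₂ < 3 := by
    by_contra hne
    have : 3 ≤ e₂ := by omega
    nlinarith
  have : e₂ = 2 := by omega
  subst this
  omega

/-- noncentral elements commuting with some conjugate of `g` -/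
def X (g : G) : Set G := {x | x ∉ Subgroup.center G ∧ ∃ k : G, Commute x (k * g * k⁻¹)}

theorem not_center_conj {g : G} (hg : g ∉ Subgroup.center G) (k : G) :
    k * g * k⁻¹ ∉ Subgroup.center G := by
  intro h
  apply hg
  have := (inferInstance : (Subgroup.center G).Normal).conj_mem _ h k⁻¹
  have e : k⁻¹ * (k * g * k⁻¹) * k⁻¹⁻¹ = g := by group
  rwa [e] at this

theorem comm_conj {x y : G} (h : Commute x y) (k : G) : Commute (k * x * k⁻¹) (k * y * k⁻¹) := by
  have := h.map (MulAut.conj k).toMonoidHom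
  simpa [MulAut.conj_apply] using this

theorem comm_conj_iff {x y : G} (k : G) : Commute (k * x * k⁻¹) (k * y * k⁻¹) ↔ Commute x y := by
  refine ⟨fun h => ?_, fun h => comm_conj h k⟩
  have := comm_conj h k⁻¹
  have e1 : k⁻¹ * (k * x * k⁻¹) * k⁻¹⁻¹ = x := by group
  have e2 : k⁻¹ * (k * y * k⁻¹) * k⁻¹⁻¹ = y := by group
  rwa [e1, e2] at this

section Main

variable (hab : ∀ g : G, g ∉ Subgroup.center G → ∀ x y : G, Commute x g → Commute y g → Commute x y)

include hab in
theorem mem_X_trans {g h x : G} (hh : h ∉ Subgroup.center G) (h1 : x ∈ X g) (h2 : x ∈ X h) (hg : g ∉ Subgroup.center G) : h ∈ X g := by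
  obtain ⟨hx, k, hk⟩ := h1
  obtain ⟨-, l, hl⟩ := h2
  refine ⟨hh, l⁻¹ * k, ?_⟩
  -- l h l⁻¹ and k g k⁻¹ both commute with x
  have h3 : Commute (l * h * l⁻¹) (k * g * k⁻¹) := hab x hx _ _ hl.symm hk.symm
  rw [← comm_conj_iff l]
  have e : l * (l⁻¹ * k * g * (l⁻¹ * k)⁻¹) * l⁻¹ = k * g * k⁻¹ := by group
  rw [e]
  exact h3

include hab in
theorem card_X [Finite G] {g : G} (hg : g ∉ Subgroup.center G) :
    Nat.card G * (Nat.card (Subgroup.centralizer {g} : Subgroup G) - Nat.card (Subgroup.center G)) =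
      (X g).ncard * ({x : G | IsConj g x ∧ Commute x g}.ncard * Nat.card (Subgroup.centralizer {g} : Subgroup G)) := by
  classical
  have := Fintype.ofFinite G
  set C : Finset G := Finset.univ.filter fun c => c ∉ Subgroup.center G ∧ Commute c g with hC
  set XX : Finset G := Finset.univ.filter fun c => c ∈ X g with hXX
  set D : Finset G := Finset.univ.filter fun x => IsConj g x ∧ Commute x g with hD
  have hCcard : C.card = Nat.card (Subgroup.centralizer {g} : Subgroup G) - Nat.card (Subgroup.center G) := by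
    have e1 : Nat.card (Subgroup.centralizer {g} : Subgroup G) = (Finset.univ.filter fun c => Commute c g).card := by
      rw [Nat.card_eq_fintype_card, Fintype.card_subtype]
      congr 1
      ext c
      simp only [Finset.mem_filter, Finset.mem_univ, true_and, Subgroup.mem_centralizer_singleton_iff]
      exact Iff.rfl
    have e2 : Nat.card (Subgroup.center G) = (Finset.univ.filter fun c => c ∈ Subgroup.center G).card := by
      rw [Nat.card_eq_fintype_card, Fintype.card_subtype]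
    rw [e1, e2, ← Finset.card_sdiff_of_subset]
    · congr 1
      ext c
      simp only [hC, Finset.mem_filter, Finset.mem_univ, true_and, Finset.mem_sdiff]
      tauto
    · intro c hc
      simp only [Finset.mem_filter, Finset.mem_univ, true_and] at hc ⊢
      exact ((Subgroup.mem_center_iff.1 hc g).symm : c * g = g * c)
  -- the fibre count for conjugation of g
  have hfib : ∀ x : G, x ∈ D → (Finset.univ.filter fun m : G => m⁻¹ * g * m = x).card =
      Nat.card (Subgroup.centralizer {g} : Subgroup G) := by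
    intro x hx
    simp only [hD, Finset.mem_filter, Finset.mem_univ, true_and] at hx
    obtain ⟨⟨c, hc⟩, -⟩ : (∃ c, c * g * c⁻¹ = x) ∧ True := ⟨isConj_iff.1 hx.1, trivial⟩
    rw [Nat.card_eq_fintype_card, Fintype.card_subtype]
    refine Finset.card_bij' (fun m _ => m * c) (fun m _ => m * c⁻¹) ?_ ?_ ?_ ?_
    · intro m hm
      simp only [Finset.mem_filter, Finset.mem_univ, true_and, Subgroup.mem_centralizer_singleton_iff] at hm ⊢
      have : m⁻¹ * g * m = c * g * c⁻¹ := by rw [hm, hc]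
      calc m * c * g = m * (c * g * c⁻¹) * c := by group
        _ = m * (m⁻¹ * g * m) * c := by rw [this]
        _ = g * (m * c) := by group
    · intro m hm
      simp only [Finset.mem_filter, Finset.mem_univ, true_and, Subgroup.mem_centralizer_singleton_iff] at hm ⊢
      rw [← hc]
      calc (m * c⁻¹)⁻¹ * g * (m * c⁻¹) = c * m⁻¹ * (g * m) * c⁻¹ := by group
        _ = c * m⁻¹ * (m * g) * c⁻¹ := by rw [hm]
        _ = c * g * c⁻¹ := by group
    · intro m _; simp
    · intro m _; simp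
  have hM : (Finset.univ.filter fun m : G => Commute (m⁻¹ * g * m) g).card =
      D.card * Nat.card (Subgroup.centralizer {g} : Subgroup G) := by
    rw [Finset.card_eq_sum_card_fiberwise (f := fun m : G => m⁻¹ * g * m) (t := D)]
    · rw [Finset.sum_congr rfl (g := fun _ => Nat.card (Subgroup.centralizer {g} : Subgroup G)),
        Finset.sum_const, smul_eq_mul]
      intro x hx
      rw [← hfib x hx]
      congr 1
      ext m
      simp only [Finset.mem_filter, Finset.mem_univ, true_and]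
      constructor
      · exact fun h => h.2
      · intro h
        refine ⟨?_, h⟩
        rw [h]
        simp only [hD, Finset.mem_filter, Finset.mem_univ, true_and] at hx
        exact hx.2
    · intro m hm
      simp only [Finset.coe_filter, Finset.mem_univ, true_and, Set.mem_setOf_eq, hD] at hm ⊢
      refine ⟨isConj_iff.2 ⟨m⁻¹, by simp⟩, hm⟩
  -- main count
  have hmain : (Finset.univ ×ˢ C : Finset (G × G)).card = XX.card * (D.card * Nat.card (Subgroup.centralizer {g} : Subgroup G)) := by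
    rw [Finset.card_eq_sum_card_fiberwise (f := fun p : G × G => p.1 * p.2 * p.1⁻¹) (t := XX)]
    · rw [Finset.sum_congr rfl (g := fun _ => D.card * Nat.card (Subgroup.centralizer {g} : Subgroup G)),
        Finset.sum_const, smul_eq_mul]
      intro y hy
      rw [← hM]
      simp only [hXX, Finset.mem_filter, Finset.mem_univ, true_and, X, Set.mem_setOf_eq] at hy
      obtain ⟨hy0, k₀, hk₀⟩ := hy
      -- c₀ = k₀⁻¹ y k₀ commutes with g
      have hc₀ : Commute (k₀⁻¹ * y * k₀) g := by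
        rw [← comm_conj_iff k₀]
        have e : k₀ * (k₀⁻¹ * y * k₀) * k₀⁻¹ = y := by group
        rwa [e]
      have hc₀' : k₀⁻¹ * y * k₀ ∉ Subgroup.center G := by
        have := not_center_conj hy0 k₀⁻¹
        rwa [inv_inv] at this
      -- equivalence : m⁻¹ c₀ m commutes with g iff m⁻¹ g m commutes with g
      have key : ∀ m : G, Commute (m⁻¹ * (k₀⁻¹ * y * k₀) * m) g ↔ Commute (m⁻¹ * g * m) g := by
        intro m
        have h1 : Commute (m⁻¹ * (k₀⁻¹ * y * k₀) * m) (m⁻¹ * g * m) := by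
          have := comm_conj hc₀ m⁻¹
          rwa [inv_inv] at this
        have hn1 : m⁻¹ * (k₀⁻¹ * y * k₀) * m ∉ Subgroup.center G := by
          have := not_center_conj hc₀' m⁻¹
          rwa [inv_inv] at this
        have hn2 : m⁻¹ * g * m ∉ Subgroup.center G := by
          have := not_center_conj hg m⁻¹
          rwa [inv_inv] at this
        constructor
        · intro h
          exact hab _ hn1 _ _ h1.symm h.symm
        · intro h
          exact hab _ hn2 _ _ h1 h.symm
      refine Finset.card_bij' (fun p _ => k₀⁻¹ * p.1) (fun m _ => (k₀ * m, (k₀ * m)⁻¹ * y * (k₀ * m))) ?_ ?_ ?_ ?_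
      · rintro ⟨k, c⟩ hkc
        simp only [Finset.mem_filter, Finset.mem_product, Finset.mem_univ, true_and, hC] at hkc ⊢
        obtain ⟨⟨hc1, hc2⟩, hkc⟩ := hkc
        rw [← key]
        have e : (k₀⁻¹ * k)⁻¹ * (k₀⁻¹ * y * k₀) * (k₀⁻¹ * k) = c := by
          rw [← hkc]; group
        rwa [e]
      · intro m hm
        simp only [Finset.mem_filter, Finset.mem_product, Finset.mem_univ, true_and, hC] at hm ⊢
        have e : (k₀ * m)⁻¹ * y * (k₀ * m) = m⁻¹ * (k₀⁻¹ * y * k₀) * m := by group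
        refine ⟨⟨?_, ?_⟩, by group⟩
        · rw [e]
          have := not_center_conj hc₀' m⁻¹
          rwa [inv_inv] at this
        · rw [e, key]; exact hm
      · rintro ⟨k, c⟩ hkc
        simp only [Finset.mem_filter, Finset.mem_product, Finset.mem_univ, true_and, hC] at hkc
        have e : k₀ * (k₀⁻¹ * k) = k := by group
        simp only [e, Prod.mk.injEq, true_and]
        rw [← hkc.2]; group
      · intro m _
        simp
    · rintro ⟨k, c⟩ hkc
      simp only [Finset.coe_product, Set.mem_prod, Finset.mem_coe, Finset.mem_univ, true_and, hC, Finset.mem_filter] at hkc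
      simp only [hXX, Finset.coe_filter, Finset.mem_univ, true_and, Set.mem_setOf_eq, X]
      exact ⟨not_center_conj hkc.1 k, k, comm_conj hkc.2 k⟩
  rw [Finset.card_product, Finset.card_univ, hCcard, ← Nat.card_eq_fintype_card] at hmain
  rw [hmain]
  congr 1
  · rw [Set.ncard_eq_toFinset_card']
    congr 1
    ext x
    simp [hXX]
  · congr 1
    rw [Set.ncard_eq_toFinset_card']
    congr 1
    ext x
    simp [hD]

variable [Finite G]
  (hcj : ∀ g : G, g ∉ Subgroup.center G → ∀ x y : G, IsConj g x → IsConj g y → Commute x g →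
    Commute y g → x ≠ g → y ≠ g → x = y)
  (h2 : ∀ A : Subgroup G, (∀ x ∈ A, ∀ y ∈ A, x * y = y * x) → A.index ≠ 1 ∧ A.index ≠ 2)

include hab hcj h2 in
theorem data {g : G} (hg : g ∉ Subgroup.center G) : ∃ e f n : ℕ, e * f = (Subgroup.center G).index ∧
    2 ≤ e ∧ 3 ≤ f ∧ (n = 1 ∨ n = 2) ∧
    (X g).ncard * n = Nat.card (Subgroup.center G) * ((Subgroup.center G).index - f) := by
  set C : Subgroup G := Subgroup.centralizer {g} with hC
  have hZC : Subgroup.center G ≤ C := by
    intro x hx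
    rw [hC, Subgroup.mem_centralizer_singleton_iff]
    exact (Subgroup.mem_center_iff.1 hx g).symm
  obtain ⟨e, he⟩ : Nat.card (Subgroup.center G) ∣ Nat.card C := Subgroup.card_dvd_of_le hZC
  have hz : 0 < Nat.card (Subgroup.center G) := Nat.card_pos
  have hCpos : 0 < Nat.card C := Nat.card_pos
  have hf : e * C.index = (Subgroup.center G).index := by
    have h3 := C.card_mul_index
    have h4 := (Subgroup.center G).card_mul_index
    rw [he] at h3
    apply Nat.eq_of_mul_eq_mul_left hz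
    rw [h4, ← h3]; ring
  have hindex := h2 C (by
    intro x hx y hy
    rw [hC, Subgroup.mem_centralizer_singleton_iff] at hx hy
    exact hab g hg x y hx hy)
  have hipos : C.index ≠ 0 := Subgroup.index_ne_zero_of_finite
  have he2 : 2 ≤ e := by
    by_contra hlt
    have h5 : e = 0 ∨ e = 1 := by omega
    rcases h5 with rfl | rfl
    · omega
    · rw [mul_one] at he
      have h6 : Subgroup.center G = C := Subgroup.eq_of_le_of_card_ge hZC he.le
      apply hg
      rw [h6, hC, Subgroup.mem_centralizer_singleton_iff]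
  have hcX := card_X hab hg
  set n := {x : G | IsConj g x ∧ Commute x g}.ncard with hn
  have hn1 : 1 ≤ n := by
    rw [hn, Nat.one_le_iff_ne_zero]
    exact Set.ncard_ne_zero_of_mem (a := g) ⟨IsConj.refl g, Commute.refl g⟩
  have hn2 : n ≤ 2 := by
    by_cases hex : ∃ x, IsConj g x ∧ Commute x g ∧ x ≠ g
    · obtain ⟨x, hx1, hx2, hx3⟩ := hex
      have : {x : G | IsConj g x ∧ Commute x g} ⊆ {g, x} := by
        rintro y ⟨hy1, hy2⟩
        by_cases hyg : y = g
        · left; exact hyg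
        · right; exact hcj g hg y x hy1 hx1 hy2 hx2 hyg hx3
      calc n ≤ ({g, x} : Set G).ncard := Set.ncard_le_ncard this (Set.toFinite _)
        _ ≤ ({x} : Set G).ncard + 1 := Set.ncard_insert_le _ _
        _ = 2 := by rw [Set.ncard_singleton]
    · push Not at hex
      have : {x : G | IsConj g x ∧ Commute x g} ⊆ {g} := by
        rintro y ⟨hy1, hy2⟩
        exact hex y hy1 hy2
      calc n ≤ ({g} : Set G).ncard := Set.ncard_le_ncard this (Set.toFinite _)
        _ = 1 := Set.ncard_singleton _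
        _ ≤ 2 := by norm_num
  refine ⟨e, C.index, n, hf, he2, by omega, by omega, ?_⟩
  rw [← (Subgroup.center G).card_mul_index, ← hf] at hcX
  change _ * (Nat.card C - _) = _ * (_ * Nat.card C) at hcX
  rw [he] at hcX
  rw [← hf]
  have hpos : 0 < Nat.card (Subgroup.center G) * e := by positivity
  apply Nat.eq_of_mul_eq_mul_right hpos
  set z := Nat.card (Subgroup.center G)
  obtain ⟨e', rfl⟩ : ∃ e', e = e' + 1 := ⟨e - 1, by omega⟩
  have h7 : z * (e' + 1) - z = z * e' := by rw [mul_add, mul_one, Nat.add_sub_cancel]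
  have h8 : (e' + 1) * C.index - C.index = e' * C.index := by rw [add_mul, one_mul, Nat.add_sub_cancel]
  rw [h7] at hcX
  rw [h8]
  calc (X g).ncard * n * (z * (e' + 1)) = (X g).ncard * (n * (z * (e' + 1))) := by ring
    _ = z * ((e' + 1) * C.index) * (z * e') := hcX.symm
    _ = z * (e' * C.index) * (z * (e' + 1)) := by ring

set_option maxHeartbeats 1600000 in
include hab hcj h2 in
theorem main : (Subgroup.center G).index = 12 ∨ (Subgroup.center G).index = 24 ∨
    (Subgroup.center G).index = 60 := by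
  classical
  set N := (Subgroup.center G).index with hN
  set z := Nat.card (Subgroup.center G) with hz
  have hzpos : 0 < z := Nat.card_pos
  have hcardG : z * N = Nat.card G := (Subgroup.center G).card_mul_index
  have hself : ∀ g : G, g ∉ Subgroup.center G → g ∈ X g := fun g hg =>
    ⟨hg, 1, by simp⟩
  have hdis : ∀ g h : G, g ∉ Subgroup.center G → h ∉ Subgroup.center G → h ∉ X g → Disjoint (X g) (X h) := by
    intro g h hg hh hn
    rw [Set.disjoint_left]
    intro x hx1 hx2
    exact hn (mem_X_trans hab hh hx1 hx2 hg)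
  -- the number of noncentral elements
  have hcn : ({x : G | x ∉ Subgroup.center G} : Set G).ncard = z * (N - 1) := by
    have h3 : ({x : G | x ∉ Subgroup.center G} : Set G) = ((Subgroup.center G : Set G))ᶜ := rfl
    rw [h3, Set.ncard_compl, ← hcardG, Nat.mul_sub, mul_one]
    congr 1
  have hXsub : ∀ g : G, X g ⊆ {x : G | x ∉ Subgroup.center G} := fun g x hx => hx.1
  have hfin : ∀ s : Set G, s.Finite := fun s => Set.toFinite s
  obtain ⟨g₁, hg₁⟩ : ∃ g : G, g ∉ Subgroup.center G := by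
    by_contra hcon
    push Not at hcon
    refine (h2 ⊤ fun x _ y _ => ?_).1 Subgroup.index_top
    exact (Subgroup.mem_center_iff.1 (hcon x) y).symm
  obtain ⟨e₁, f₁, n₁, h11, h12, h13, h14, h15⟩ := data hab hcj h2 hg₁
  rw [← hN, ← hz] at h15
  rw [← hN] at h11
  have hf₁N : 2 * f₁ ≤ N := by nlinarith
  by_cases c1 : X g₁ = {x : G | x ∉ Subgroup.center G}
  · exfalso
    rw [c1, hcn] at h15
    have h6 : (N - 1) * n₁ = N - f₁ := by
      apply Nat.eq_of_mul_eq_mul_left hzpos
      rw [← mul_assoc]; exact h15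
    rcases h14 with rfl | rfl <;> omega
  obtain ⟨g₂, hg₂, hg₂'⟩ : ∃ g : G, g ∉ Subgroup.center G ∧ g ∉ X g₁ := by
    by_contra hcon
    push Not at hcon
    exact c1 (Set.Subset.antisymm (hXsub _) hcon)
  obtain ⟨e₂, f₂, n₂, h21, h22, h23, h24, h25⟩ := data hab hcj h2 hg₂
  rw [← hN, ← hz] at h25
  rw [← hN] at h21
  have hf₂N : 2 * f₂ ≤ N := by nlinarith
  have hd12 := hdis g₁ g₂ hg₁ hg₂ hg₂'
  have hu12 : (X g₁ ∪ X g₂).ncard = (X g₁).ncard + (X g₂).ncard :=
    Set.ncard_union_eq hd12 (hfin _) (hfin _)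
  by_cases c2 : X g₁ ∪ X g₂ = {x : G | x ∉ Subgroup.center G}
  · rw [c2, hcn] at hu12
    -- z (N-1) = x1 + x2
    have h6 : (N - 1) * (n₁ * n₂) = (N - f₁) * n₂ + (N - f₂) * n₁ := by
      apply Nat.eq_of_mul_eq_mul_left hzpos
      calc z * ((N - 1) * (n₁ * n₂)) = (z * (N - 1)) * (n₁ * n₂) := by ring
        _ = ((X g₁).ncard + (X g₂).ncard) * (n₁ * n₂) := by rw [hu12]
        _ = ((X g₁).ncard * n₁) * n₂ + ((X g₂).ncard * n₂) * n₁ := by ring
        _ = (z * (N - f₁)) * n₂ + (z * (N - f₂)) * n₁ := by rw [h15, h25]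
        _ = _ := by ring
    rcases h14 with rfl | rfl <;> rcases h24 with rfl | rfl
    · exfalso; omega
    · left; exact arith2 h11 h21 h12 h22 h13 h23 (by omega)
    · left; exact arith2 h21 h11 h22 h12 h23 h13 (by omega)
    · exfalso; omega
  obtain ⟨g₃, hg₃, hg₃'⟩ : ∃ g : G, g ∉ Subgroup.center G ∧ g ∉ X g₁ ∪ X g₂ := by
    by_contra hcon
    push Not at hcon
    exact c2 (Set.Subset.antisymm (Set.union_subset (hXsub _) (hXsub _)) hcon)
  obtain ⟨e₃, f₃, n₃, h31, h32, h33, h34, h35⟩ := data hab hcj h2 hg₃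
  rw [← hN, ← hz] at h35
  rw [← hN] at h31
  have hf₃N : 2 * f₃ ≤ N := by nlinarith
  have hd3 : Disjoint (X g₁ ∪ X g₂) (X g₃) := by
    rw [Set.disjoint_union_left]
    exact ⟨hdis g₁ g₃ hg₁ hg₃ fun h => hg₃' (Or.inl h), hdis g₂ g₃ hg₂ hg₃ fun h => hg₃' (Or.inr h)⟩
  have hu3 : (X g₁ ∪ X g₂ ∪ X g₃).ncard = (X g₁).ncard + (X g₂).ncard + (X g₃).ncard := by
    rw [Set.ncard_union_eq hd3 (hfin _) (hfin _), hu12]
  by_cases c3 : X g₁ ∪ X g₂ ∪ X g₃ = {x : G | x ∉ Subgroup.center G}
  · rw [c3, hcn] at hu3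
    have h6 : (N - 1) * (n₁ * n₂ * n₃) = (N - f₁) * (n₂ * n₃) + (N - f₂) * (n₁ * n₃) + (N - f₃) * (n₁ * n₂) := by
      apply Nat.eq_of_mul_eq_mul_left hzpos
      calc z * ((N - 1) * (n₁ * n₂ * n₃)) = (z * (N - 1)) * (n₁ * n₂ * n₃) := by ring
        _ = ((X g₁).ncard + (X g₂).ncard + (X g₃).ncard) * (n₁ * n₂ * n₃) := by rw [hu3]
        _ = ((X g₁).ncard * n₁) * (n₂ * n₃) + ((X g₂).ncard * n₂) * (n₁ * n₃) +
            ((X g₃).ncard * n₃) * (n₁ * n₂) := by ring
        _ = (z * (N - f₁)) * (n₂ * n₃) + (z * (N - f₂)) * (n₁ * n₃) + (z * (N - f₃)) * (n₁ * n₂) := by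
          rw [h15, h25, h35]
        _ = _ := by ring
    rcases h14 with rfl | rfl <;> rcases h24 with rfl | rfl <;> rcases h34 with rfl | rfl
    · exfalso; omega
    · exfalso; omega
    · exfalso; omega
    · exfalso; omega
    · exfalso; omega
    · exfalso; omega
    · exfalso; omega
    · exact arith3 h11 h21 h31 h12 h22 h32 h13 h23 h33 (by omega)
  exfalso
  obtain ⟨g₄, hg₄, hg₄'⟩ : ∃ g : G, g ∉ Subgroup.center G ∧ g ∉ X g₁ ∪ X g₂ ∪ X g₃ := by
    by_contra hcon
    push Not at hcon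
    exact c3 (Set.Subset.antisymm (Set.union_subset (Set.union_subset (hXsub _) (hXsub _)) (hXsub _)) hcon)
  obtain ⟨e₄, f₄, n₄, h41, h42, h43, h44, h45⟩ := data hab hcj h2 hg₄
  rw [← hN, ← hz] at h45
  rw [← hN] at h41
  have hf₄N : 2 * f₄ ≤ N := by nlinarith
  have hd4 : Disjoint (X g₁ ∪ X g₂ ∪ X g₃) (X g₄) := by
    rw [Set.disjoint_union_left, Set.disjoint_union_left]
    exact ⟨⟨hdis g₁ g₄ hg₁ hg₄ fun h => hg₄' (Or.inl (Or.inl h)), hdis g₂ g₄ hg₂ hg₄ fun h => hg₄' (Or.inl (Or.inr h))⟩,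
      hdis g₃ g₄ hg₃ hg₄ fun h => hg₄' (Or.inr h)⟩
  have hu4 : (X g₁ ∪ X g₂ ∪ X g₃ ∪ X g₄).ncard = (X g₁).ncard + (X g₂).ncard + (X g₃).ncard + (X g₄).ncard := by
    rw [Set.ncard_union_eq hd4 (hfin _) (hfin _), hu3]
  have hle : (X g₁ ∪ X g₂ ∪ X g₃ ∪ X g₄).ncard ≤ z * (N - 1) := by
    rw [← hcn]
    exact Set.ncard_le_ncard (Set.union_subset (Set.union_subset (Set.union_subset (hXsub _) (hXsub _)) (hXsub _)) (hXsub _)) (hfin _)
  -- each X has at least zN/4 elements
  have hbd : ∀ x n f : ℕ, (n = 1 ∨ n = 2) → x * n = z * (N - f) → 2 * f ≤ N → z * N ≤ 4 * x := by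
    intro x n f hn hx hf
    have h6 : z * N ≤ 2 * (z * (N - f)) := by
      have : N ≤ 2 * (N - f) := by omega
      calc z * N ≤ z * (2 * (N - f)) := Nat.mul_le_mul_left _ this
        _ = _ := by ring
    rw [← hx] at h6
    rcases hn with rfl | rfl <;> omega
  have b1 := hbd _ _ _ h14 h15 hf₁N
  have b2 := hbd _ _ _ h24 h25 hf₂N
  have b3 := hbd _ _ _ h34 h35 hf₃N
  have b4 := hbd _ _ _ h44 h45 hf₄N
  have h7 : z * (N - 1) + z = z * N := by
    have : N = (N - 1) + 1 := by omega
    conv_rhs => rw [this]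
    ring
  omega

end Main

end Cfsg.Agent.Lib.Prim2Grp
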