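import Cfsg.Agent.Lib.Prim2Grp
import Cfsg.Agent.Lib.CharValues
import Cfsg.Agent.Lib.Clifford
import Cfsg.Agent.Lib.CharBasic2
import Cfsg.Agent.Lib.BlockDeg
import Cfsg.Agent.Lib.IndFun

/-!
Faithful representations of degree 2: centralizers of noncentral elements are abelian, and a
noncentral element has at most two conjugates in its centralizer.
-/

set_option autoImplicit false
open Cfsg

namespace Cfsg.Agent.Lib.Prim2Rep

open Module

variable {G : Type*} [Group G] [Finite G]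

/-- diagonal form of a noncentral element -/
theorem eigen {ρ : Representation ℂ G (Fin 2 → ℂ)} (hf : ∀ g : G, ρ g = LinearMap.id → g = 1)
    {g : G} (hg : g ∉ Subgroup.center G) :
    ∃ (b : Basis (Fin 2) ℂ (Fin 2 → ℂ)) (μ : Fin 2 → ℂ), (∀ i, ρ g (b i) = μ i • b i) ∧ μ 0 ≠ μ 1 := by
  have hfr : finrank ℂ (Fin 2 → ℂ) = 2 := by simp
  obtain ⟨b', μ', h1, -⟩ := CharValues.exists_eigenbasis ρ g
  let e : Fin (finrank ℂ (Fin 2 → ℂ)) ≃ Fin 2 := finCongr hfr
  refine ⟨b'.reindex e, fun i => μ' (e.symm i), fun i => ?_, ?_⟩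
  · rw [Basis.reindex_apply]; exact h1 _
  · intro h
    apply hg
    rw [Subgroup.mem_center_iff]
    intro x
    have h2 : ρ g = (μ' (e.symm 0)) • LinearMap.id := by
      apply (b'.reindex e).ext
      intro i
      rw [Basis.reindex_apply, h1]
      have : μ' (e.symm i) = μ' (e.symm 0) := by
        fin_cases i
        · rfl
        · exact h.symm
      rw [this]; rfl
    have h3 : ρ ((x * g) * (g * x)⁻¹) = LinearMap.id := by
      have h4 : ρ (x * g) = ρ (g * x) := by
        rw [map_mul, map_mul, h2]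
        ext v
        simp
      rw [map_mul, h4, ← map_mul, mul_inv_cancel, map_one]; rfl
    exact mul_inv_eq_one.1 (hf _ h3)

omit [Finite G] in
/-- elements commuting with `g` are diagonal -/
theorem diag {ρ : Representation ℂ G (Fin 2 → ℂ)} {g : G}
    {b : Basis (Fin 2) ℂ (Fin 2 → ℂ)} {μ : Fin 2 → ℂ} (hb : ∀ i, ρ g (b i) = μ i • b i)
    (hne : μ 0 ≠ μ 1) {c : G} (hc : Commute c g) : ∃ ν : Fin 2 → ℂ, ∀ i, ρ c (b i) = ν i • b i := by
  have h : ∀ i, ∃ ν : ℂ, ρ c (b i) = ν • b i := by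
    intro i
    have h1 : ρ g (ρ c (b i)) = μ i • ρ c (b i) := by
      rw [← Module.End.mul_apply, ← map_mul, ← hc.eq, map_mul, Module.End.mul_apply, hb, map_smul]
    have h2 : ρ c (b i) = b.repr (ρ c (b i)) 0 • b 0 + b.repr (ρ c (b i)) 1 • b 1 := by
      conv_lhs => rw [← b.sum_repr (ρ c (b i))]
      rw [Fin.sum_univ_two]
    set x := b.repr (ρ c (b i)) 0
    set y := b.repr (ρ c (b i)) 1
    rw [h2, map_add, map_smul, map_smul, hb, hb] at h1
    have h3 : (x * (μ 0 - μ i)) • b 0 + (y * (μ 1 - μ i)) • b 1 = 0 := by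
      have : x • μ 0 • b 0 + y • μ 1 • b 1 - μ i • (x • b 0 + y • b 1) = 0 := by rw [h1, sub_self]
      rw [← this]; module
    have hli := b.linearIndependent
    rw [Fintype.linearIndependent_iff] at hli
    have h4 := hli ![x * (μ 0 - μ i), y * (μ 1 - μ i)] (by
      rw [Fin.sum_univ_two]; simpa using h3)
    have h5 := h4 0
    have h6 := h4 1
    simp only [Matrix.cons_val_zero, Matrix.cons_val_one, mul_eq_zero, sub_eq_zero] at h5 h6
    fin_cases i
    · refine ⟨x, ?_⟩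
      have : y = 0 := by
        rcases h6 with h | h
        · exact h
        · exact absurd h.symm hne
      rw [h2, this]; simp
    · refine ⟨y, ?_⟩
      have : x = 0 := by
        rcases h5 with h | h
        · exact h
        · exact absurd h hne
      rw [h2, this]; simp
  choose ν hν using h
  exact ⟨ν, hν⟩

omit [Finite G] in
theorem comm_of_diag {ρ : Representation ℂ G (Fin 2 → ℂ)} (hf : ∀ g : G, ρ g = LinearMap.id → g = 1)
    {b : Basis (Fin 2) ℂ (Fin 2 → ℂ)} {x y : G} {ν ν' : Fin 2 → ℂ} (hx : ∀ i, ρ x (b i) = ν i • b i)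
    (hy : ∀ i, ρ y (b i) = ν' i • b i) : Commute x y := by
  have h4 : ρ (x * y) = ρ (y * x) := by
    apply b.ext
    intro i
    rw [map_mul, map_mul, Module.End.mul_apply, Module.End.mul_apply, hx, hy, map_smul, map_smul, hx, hy,
      smul_comm]
  have h3 : ρ ((x * y) * (y * x)⁻¹) = LinearMap.id := by
    rw [map_mul, h4, ← map_mul, mul_inv_cancel, map_one]; rfl
  exact mul_inv_eq_one.1 (hf _ h3)

omit [Finite G] in
theorem eq_of_diag {ρ : Representation ℂ G (Fin 2 → ℂ)} (hf : ∀ g : G, ρ g = LinearMap.id → g = 1)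
    {b : Basis (Fin 2) ℂ (Fin 2 → ℂ)} {x y : G} {ν ν' : Fin 2 → ℂ} (hx : ∀ i, ρ x (b i) = ν i • b i)
    (hy : ∀ i, ρ y (b i) = ν' i • b i) (h0 : ν 0 = ν' 0) (h1 : ν 1 = ν' 1) : x = y := by
  have h4 : ρ x = ρ y := by
    apply b.ext
    intro i
    rw [hx, hy]
    fin_cases i
    · exact congrArg (· • b 0) h0
    · exact congrArg (· • b 1) h1
  have h3 : ρ (x * y⁻¹) = LinearMap.id := by
    rw [map_mul, h4, ← map_mul, mul_inv_cancel, map_one]; rfl
  exact mul_inv_eq_one.1 (hf _ h3)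

omit [Finite G] in
theorem trace_diag {ρ : Representation ℂ G (Fin 2 → ℂ)}
    {b : Basis (Fin 2) ℂ (Fin 2 → ℂ)} {x : G} {ν : Fin 2 → ℂ} (hx : ∀ i, ρ x (b i) = ν i • b i) :
    ρ.character x = ν 0 + ν 1 ∧ ρ.character (x * x) = ν 0 ^ 2 + ν 1 ^ 2 := by
  constructor
  · have := CharValues.trace_eq_sum_of_eigenbasis b (ρ x) ν hx
    rw [Fin.sum_univ_two] at this
    exact this
  · have := CharValues.trace_eq_sum_of_eigenbasis b (ρ (x * x)) (fun i => ν i ^ 2) (by
      intro i
      rw [map_mul, Module.End.mul_apply, hx, map_smul, hx, smul_smul, sq])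
    rw [Fin.sum_univ_two] at this
    exact this

theorem hab {ρ : Representation ℂ G (Fin 2 → ℂ)} (hf : ∀ g : G, ρ g = LinearMap.id → g = 1) :
    ∀ g : G, g ∉ Subgroup.center G → ∀ x y : G, Commute x g → Commute y g → Commute x y := by
  intro g hg x y hx hy
  obtain ⟨b, μ, hb, hne⟩ := eigen hf hg
  obtain ⟨ν, h1⟩ := diag hb hne hx
  obtain ⟨ν', h2⟩ := diag hb hne hy
  exact comm_of_diag hf h1 h2

theorem hcj {ρ : Representation ℂ G (Fin 2 → ℂ)} (hf : ∀ g : G, ρ g = LinearMap.id → g = 1) :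
    ∀ g : G, g ∉ Subgroup.center G → ∀ x y : G, IsConj g x → IsConj g y → Commute x g →
    Commute y g → x ≠ g → y ≠ g → x = y := by
  intro g hg x y cx cy hx hy nx ny
  obtain ⟨b, μ, hb, hne⟩ := eigen hf hg
  have key : ∀ x : G, IsConj g x → Commute x g → x ≠ g → ∃ ν : Fin 2 → ℂ, (∀ i, ρ x (b i) = ν i • b i) ∧
      ν 0 = μ 1 ∧ ν 1 = μ 0 := by
    intro x cx hx nx
    obtain ⟨ν, h1⟩ := diag hb hne hx
    refine ⟨ν, h1, ?_⟩
    obtain ⟨t1, t2⟩ := trace_diag hb
    obtain ⟨s1, s2⟩ := trace_diag h1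
    obtain ⟨c, hc⟩ := isConj_iff.1 cx
    have e1 : ρ.character x = ρ.character g := by rw [← hc]; exact ρ.char_conj g c
    have e2 : ρ.character (x * x) = ρ.character (g * g) := by
      have : x * x = c * (g * g) * c⁻¹ := by rw [← hc]; group
      rw [this]; exact ρ.char_conj (g * g) c
    rw [s1, t1] at e1
    rw [s2, t2] at e2
    have h3 : (ν 0 - μ 0) * (ν 0 - μ 1) = 0 := by
      have e3 : ν 1 = μ 0 + μ 1 - ν 0 := by linear_combination e1
      rw [e3] at e2
      linear_combination (1/2 : ℂ) * e2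
    rcases mul_eq_zero.1 h3 with h4 | h4
    · exfalso
      apply nx
      have h5 : ν 0 = μ 0 := sub_eq_zero.1 h4
      exact eq_of_diag hf h1 hb h5 (by linear_combination e1 - h5)
    · have h5 : ν 0 = μ 1 := sub_eq_zero.1 h4
      exact ⟨h5, by linear_combination e1 - h5⟩
  obtain ⟨ν, h1, h2, h3⟩ := key x cx hx nx
  obtain ⟨ν', h1', h2', h3'⟩ := key y cy hy ny
  exact eq_of_diag hf h1 h1' (h2.trans h2'.symm) (h3.trans h3'.symm)

theorem ind_of_index_two [Fintype G] {χ : G → ℂ} (hχ : IsIrrCharacter G χ) (h1 : χ 1 = 2)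
    {A : Subgroup G} (hA : ∀ x ∈ A, ∀ y ∈ A, x * y = y * x) (h2 : A.index = 2) :
    ∃ θ : A → ℂ, IsCharacter A θ ∧ χ = indFun A θ := by
  classical
  have := Fintype.ofFinite A
  have hr : IsCharacter A (fun a : A => χ a) := hχ.isCharacter.restrict A
  obtain ⟨θ, hθ⟩ := Clifford.exists_constituent hr (by
    intro h
    have := congrFun h 1
    simp only [OneMemClass.coe_one, Pi.zero_apply, h1] at this
    norm_num at this)
  have hθ1 : (θ : A → ℂ) 1 = 1 := θ.2.one_eq_one_of_comm (fun x y => Subtype.ext (hA x x.2 y y.2))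
  refine ⟨θ, θ.2.isCharacter, ?_⟩
  have hne : classInner (indFun A (θ : A → ℂ)) χ ≠ 0 := by
    rw [IndFun.frobenius_reciprocity A _ χ hχ.isClassFunction, ← CharBasic.conj_classInner]
    intro h
    exact hθ ((map_eq_zero _).1 h)
  have h3 := (Clifford.degree_le_of_constituent' (Clifford.isCharacter_indFun A θ.2.isCharacter) hχ hne
    (m := 2) (n := 2) (by rw [IndFun.indFun_one, h2, hθ1]; norm_num) (by rw [h1]; norm_num)).2 le_rfl
  exact h3.symm

theorem main [Fintype G] (χ : Cfsg.IrrCharacter G) (hfaith : ∀ g : G, (χ : G → ℂ) g = (χ : G → ℂ) 1 → g = 1)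
    (h2 : Cfsg.charDegree (χ : G → ℂ) = 2)
    (hprim : ∀ H : Subgroup G, H ≠ ⊤ → ∀ θ : H → ℂ, Cfsg.IsCharacter H θ → (χ : G → ℂ) ≠ Cfsg.indFun H θ) :
    (Subgroup.center G).index = 12 ∨ (Subgroup.center G).index = 24 ∨ (Subgroup.center G).index = 60 := by
  have hχ1 : (χ : G → ℂ) 1 = 2 := by
    rw [← BlockDeg.charDegree_cast_irr, h2]; norm_num
  obtain ⟨n, ρ, hirr, hρ⟩ := χ.2
  have hn : n = 2 := by
    have h3 : (χ : G → ℂ) 1 = n := by
      rw [← hρ, Representation.char_one]; simp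
    rw [hχ1] at h3
    exact_mod_cast h3.symm
  subst hn
  have hf : ∀ g : G, ρ g = LinearMap.id → g = 1 := by
    intro g hg
    apply hfaith
    rw [← hρ]
    unfold Representation.character
    rw [hg, map_one]; rfl
  refine Prim2Grp.main (hab hf) (hcj hf) ?_
  intro A hA
  refine ⟨fun hidx => ?_, fun hidx => ?_⟩
  · have htop : A = ⊤ := Subgroup.index_eq_one.1 hidx
    have h3 := χ.2.one_eq_one_of_comm (fun x y => hA x (htop ▸ Subgroup.mem_top x) y (htop ▸ Subgroup.mem_top y))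
    rw [hχ1] at h3
    norm_num at h3
  · obtain ⟨θ, hθ, h3⟩ := ind_of_index_two χ.2 hχ1 hA hidx
    refine hprim A ?_ θ hθ h3
    rintro rfl
    rw [Subgroup.index_top] at hidx
    norm_num at hidx

end Cfsg.Agent.Lib.Prim2Rep
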