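import Mathlib
import Cfsg.Prelude.Def_LocalEven
import Cfsg.Prelude.Def_Amalgam
import Cfsg.Agent.Lib.LocBase
import Cfsg.Agent.Lib.Layer
import Cfsg.Agent.Lib.Fitting
import Cfsg.Agent.Lib.Subnormal

/-!
# Primitive pairs and Bender's theorem (helper62)
-/

set_option autoImplicit false

namespace Cfsg.Agent.Lib.PrimPair

open Subgroup Cfsg
open Cfsg.Agent.Lib.LocBase
open scoped commutatorElement

variable {G : Type*} [Group G]

/-- `(M₁, M₂)` is a primitive pair (apart from `M₁ ≠ M₂`). -/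
def Prim (M₁ M₂ : Subgroup G) : Prop :=
  ∀ A : Subgroup G, A ≠ ⊥ → A ≤ M₁ ⊓ M₂ →
    (M₁ ≤ normalizer (A : Set G) → M₂ ⊓ normalizer (A : Set G) = M₁ ⊓ M₂) ∧
    (M₂ ≤ normalizer (A : Set G) → M₁ ⊓ normalizer (A : Set G) = M₁ ⊓ M₂)

theorem Prim.symm {M₁ M₂ : Subgroup G} (h : Prim M₁ M₂) : Prim M₂ M₁ := by
  intro A hA1 hA
  rw [inf_comm] at hA
  obtain ⟨h1, h2⟩ := h A hA1 hA
  refine ⟨fun h3 => ?_, fun h3 => ?_⟩
  · rw [h2 h3, inf_comm]
  · rw [h1 h3, inf_comm]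

theorem Prim.eq {M₁ M₂ : Subgroup G} (h : Prim M₁ M₂) {A : Subgroup G} (hA1 : A ≠ ⊥) (hA : A ≤ M₁ ⊓ M₂)
    (h₁ : M₁ ≤ normalizer (A : Set G)) (h₂ : M₂ ≤ normalizer (A : Set G)) : M₁ = M₂ := by
  have h3 := (h A hA1 hA).1 h₁
  have h4 := (h A hA1 hA).2 h₂
  rw [inf_eq_left.mpr h₂] at h3
  rw [inf_eq_left.mpr h₁] at h4
  rw [h4, ← h3]

/-! ### Relative subnormality -/

theorem subnormal_rel_trans {K F H : Subgroup G} (hKF : K ≤ F) (h1 : (K.subgroupOf F).IsSubnormal)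
    (h2 : (F.subgroupOf H).IsSubnormal) : (K.subgroupOf H).IsSubnormal := by
  refine IsSubnormal.trans (subgroupOf_mono _ hKF) ?_ h2
  let f : ↥(F.subgroupOf H) →* ↥F := MonoidHom.mk' (fun x => ⟨((x : H) : G), x.2⟩) (fun _ _ => rfl)
  exact h1.comap f

theorem isComponentOf_iff {K M : Subgroup G} (hKM : K ≤ M) :
    IsComponent (K.subgroupOf M) ↔ (K.subgroupOf M).IsSubnormal ∧ IsQuasisimple ↥K := by
  unfold IsComponent
  rw [Components.quasisimple_subgroupOf hKM]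

variable [Finite G]

/-- the generalized Fitting subgroup of `M`, in the ambient group. -/
def FS (M : Subgroup G) : Subgroup G := (generalizedFittingSubgroup ↥M).map M.subtype

theorem FS_le (M : Subgroup G) : FS M ≤ M := map_subtype_le _

theorem le_normalizer_map {M : Subgroup G} {K : Subgroup ↥M} (hK : K.Normal) :
    M ≤ normalizer ((K.map M.subtype : Subgroup G) : Set G) := by
  rw [le_normalizer_iff]
  rintro m hm _ ⟨k, hk, rfl⟩
  exact ⟨_, hK.conj_mem k hk ⟨m, hm⟩, rfl⟩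

theorem le_normalizer_FS (M : Subgroup G) : M ≤ normalizer (FS M : Set G) := by
  have := Layer.generalizedFittingSubgroup_characteristic ↥M
  exact le_normalizer_map inferInstance

theorem centralizer_FS_le (M : Subgroup G) : M ⊓ centralizer (FS M : Set G) ≤ FS M := by
  intro x hx
  have h1 : (⟨x, hx.1⟩ : M) ∈ centralizer (generalizedFittingSubgroup ↥M : Set M) := by
    rw [mem_centralizer_iff]
    intro y hy
    exact Subtype.ext (mem_centralizer_iff.mp hx.2 y ⟨y, hy, rfl⟩)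
  exact ⟨_, Layer.centralizer_genFitting_le h1, rfl⟩

/-- Step 1: components of `M₁` are components of `M₂`. -/
theorem component_step {M₁ M₂ : Subgroup G} (h₁ : FS M₁ ≤ M₂) (h₂ : FS M₂ ≤ M₁) {K : Subgroup G} (hKM : K ≤ M₁)
    (hK : IsComponent (K.subgroupOf M₁)) : K ≤ M₂ ∧ IsComponent (K.subgroupOf M₂) := by
  have hKF : K ≤ FS M₁ := by
    have h3 : K.subgroupOf M₁ ≤ generalizedFittingSubgroup ↥M₁ := (Layer.component_le_layer hK).trans le_sup_left
    have h4 := map_mono (f := M₁.subtype) h3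
    rwa [map_subgroupOf_eq_of_le hKM] at h4
  have hKM₂ : K ≤ M₂ := hKF.trans h₁
  obtain ⟨hKs, hKq⟩ := (isComponentOf_iff hKM).mp hK
  set H : Subgroup G := FS M₁ ⊔ FS M₂ with hH
  have hHn₁ : H ≤ normalizer (FS M₁ : Set G) :=
    sup_le le_normalizer (h₂.trans (le_normalizer_FS M₁))
  have hHn₂ : H ≤ normalizer (FS M₂ : Set G) :=
    sup_le (h₁.trans (le_normalizer_FS M₂)) le_normalizer
  have hKF₁ : (K.subgroupOf (FS M₁)).IsSubnormal := Subnormal.isSubnormal_subgroupOf_of_le (FS_le M₁) hKs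
  have hKH : K ≤ H := hKF.trans le_sup_left
  have hn₁ : ((FS M₁).subgroupOf H).Normal := normal_subgroupOf_of_le_normalizer hHn₁
  have hn₂ : ((FS M₂).subgroupOf H).Normal := normal_subgroupOf_of_le_normalizer hHn₂
  have hKHc : IsComponent (K.subgroupOf H) :=
    (isComponentOf_iff hKH).mpr ⟨subnormal_rel_trans hKF hKF₁ hn₁.isSubnormal, hKq⟩
  have hKF₂ : K ≤ FS M₂ := by
    rcases Components.component_le_or_le_centralizer hKHc hn₂.isSubnormal with h3 | h3
    · have h4 := map_mono (f := H.subtype) h3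
      rwa [map_subgroupOf_eq_of_le hKH, map_subgroupOf_eq_of_le le_sup_right] at h4
    · exfalso
      have h4 : K ≤ centralizer (FS M₂ : Set G) := by
        intro k hk
        rw [mem_centralizer_iff]
        intro y hy
        exact congrArg Subtype.val (mem_centralizer_iff.mp (h3 (show (⟨k, hKH hk⟩ : H) ∈ K.subgroupOf H from hk))
          (⟨y, (le_sup_right : FS M₂ ≤ H) hy⟩ : H) hy)
      have h5 : K ≤ FS M₂ := (le_inf hKM₂ h4).trans (centralizer_FS_le M₂)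
      have h6 : K ≤ centralizer (K : Set G) := h4.trans (centralizer_le h5)
      have h7 := (Components.le_centralizer_iff_commutator.mp h6)
      have h8 : ⁅K, K⁆ = K := Components.isPerfect_iff'.mp hKq.1
      have h9 := Components.nontrivial_of_quasisimple hKq
      rw [h8] at h7
      rw [h7] at h9
      exact not_subsingleton (⊥ : Subgroup G) inferInstance
  have h3 : (K.subgroupOf (FS M₂)).IsSubnormal :=
    Subnormal.isSubnormal_subgroupOf_of_le le_sup_right hKHc.1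
  have h4 : ((FS M₂).subgroupOf M₂).IsSubnormal :=
    (normal_subgroupOf_of_le_normalizer (le_normalizer_FS M₂)).isSubnormal
  exact ⟨hKM₂, (isComponentOf_iff hKM₂).mpr ⟨subnormal_rel_trans hKF₂ h3 h4, hKq⟩⟩

/-- the layer of `M`, in the ambient group. -/
def LY (M : Subgroup G) : Subgroup G := (layer ↥M).map M.subtype

theorem layer_step {M₁ M₂ : Subgroup G} (h₁ : FS M₁ ≤ M₂) (h₂ : FS M₂ ≤ M₁) : LY M₁ ≤ LY M₂ := by
  unfold LY
  rw [map_le_iff_le_comap]
  apply sSup_le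
  intro K hK
  rw [← map_le_iff_le_comap]
  have hKle : K.map M₁.subtype ≤ M₁ := map_subtype_le K
  have hK' : IsComponent ((K.map M₁.subtype).subgroupOf M₁) := by
    rwa [subgroupOf, comap_map_eq_self_of_injective M₁.subtype_injective]
  obtain ⟨h3, h4⟩ := component_step h₁ h₂ hKle hK'
  have h5 := map_mono (f := M₂.subtype) (Layer.component_le_layer h4)
  rwa [map_subgroupOf_eq_of_le h3] at h5

/-! ### The cores -/

theorem FS_eq_of_layer {M : Subgroup G} (h : LY M = ⊥) :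
    FS M = ⨆ r : Nat.Primes, pCoreOf (r : ℕ) M := by
  have h1 : layer ↥M = ⊥ := (map_eq_bot_iff_of_injective _ M.subtype_injective).mp h
  unfold FS generalizedFittingSubgroup
  rw [h1, bot_sup_eq, Fitting.fittingSubgroup_eq_iSup_pCore, Subgroup.map_iSup]
  rfl

theorem pCoreOf_le_FS {M : Subgroup G} (h : LY M = ⊥) (r : ℕ) [hr : Fact r.Prime] : pCoreOf r M ≤ FS M := by
  rw [FS_eq_of_layer h]
  exact le_iSup (fun r : Nat.Primes => pCoreOf (r : ℕ) M) ⟨r, hr.out⟩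

omit [Finite G] in
theorem commute_cores {D A B : Subgroup G} {p q : ℕ} [hp : Fact p.Prime] [hq : Fact q.Prime] (hpq : p ≠ q)
    (hA : IsPGroup p A) (hB : IsPGroup q B) (hAD : A ≤ D) (hBD : B ≤ D) (hDA : D ≤ normalizer (A : Set G))
    (hDB : D ≤ normalizer (B : Set G)) : A ≤ centralizer (B : Set G) := by
  rw [Components.le_centralizer_iff_commutator, eq_bot_iff]
  have h1 : A ⊓ B = ⊥ := by
    have h2 := IsPGroup.disjoint_of_ne p q hpq A B hA hB
    exact h2.eq_bot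
  rw [← h1, commutator_le]
  intro a ha b hb
  refine ⟨?_, ?_⟩
  · have h3 : ⁅a, b⁆ = a * (b * a⁻¹ * b⁻¹) := by rw [commutatorElement_def]; group
    rw [h3]
    exact A.mul_mem ha ((mem_normalizer_iff.mp (hDA (hBD hb)) _).mp (A.inv_mem ha))
  · rw [commutatorElement_def]
    exact B.mul_mem ((mem_normalizer_iff.mp (hDB (hAD ha)) _).mp hb) (B.inv_mem hb)

/-- Step 2. -/
theorem core_step {M₁ M₂ : Subgroup G} (h₁ : FS M₁ ≤ M₂) (h₂ : FS M₂ ≤ M₁) (hL : LY M₁ = ⊥) {p : ℕ} [hp : Fact p.Prime]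
    (h : pCoreOf p M₂ = ⊥) : pCoreOf p M₁ = ⊥ := by
  set P := pCoreOf p M₁ with hP
  have hPM₂ : P ≤ M₂ := (pCoreOf_le_FS hL p).trans h₁
  have hn : P ⊓ FS M₂ = ⊥ := by
    rw [eq_bot_iff, ← h]
    have h3 : P ⊓ FS M₂ ≤ pCoreOf p (FS M₂) := by
      apply le_pCoreOf inf_le_right _ (isPGroup_mono (isPGroup_pCoreOf p M₁) inf_le_left)
      exact le_normalizer_inf (h₂.trans (le_normalizer_pCoreOf p M₁)) le_normalizer
    refine h3.trans (le_pCoreOf ((pCoreOf_le _).trans (FS_le _)) ?_ (isPGroup_pCoreOf p _))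
    exact (le_normalizer_FS M₂).trans (normalizer_le_normalizer_pCoreOf p _)
  have hc : P ≤ centralizer (FS M₂ : Set G) := by
    rw [Components.le_centralizer_iff_commutator, eq_bot_iff, ← hn, commutator_le]
    intro a ha b hb
    have hb' : b ∈ normalizer (P : Set G) := le_normalizer_pCoreOf p M₁ (h₂ hb)
    have ha' : a ∈ normalizer (FS M₂ : Set G) := le_normalizer_FS M₂ (hPM₂ ha)
    refine ⟨?_, ?_⟩
    · have h3 : ⁅a, b⁆ = a * (b * a⁻¹ * b⁻¹) := by rw [commutatorElement_def]; group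
      rw [h3]
      exact P.mul_mem ha ((mem_normalizer_iff.mp hb' _).mp (P.inv_mem ha))
    · rw [commutatorElement_def]
      exact (FS M₂).mul_mem ((mem_normalizer_iff.mp ha' _).mp hb) ((FS M₂).inv_mem hb)
  have h4 : P ≤ FS M₂ := (le_inf hPM₂ hc).trans (centralizer_FS_le M₂)
  rwa [inf_eq_left.mpr h4] at hn

/-- The key step of Bender's theorem. -/
theorem key_step {M₁ M₂ : Subgroup G} (hP : Prim M₁ M₂) (h₁ : FS M₁ ≤ M₂) (h₂ : FS M₂ ≤ M₁)
    (hL₁ : LY M₁ = ⊥) (hL₂ : LY M₂ = ⊥) {p q : ℕ} [hp : Fact p.Prime] [hq : Fact q.Prime] (hpq : p ≠ q)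
    (hB : pCoreOf q M₂ ≠ ⊥) : pCoreOf p (M₁ ⊓ M₂) ≤ pCoreOf p M₁ := by
  set D : Subgroup G := M₁ ⊓ M₂ with hD
  set Rp := pCoreOf p D with hRp
  set Rq := pCoreOf q D with hRq
  have hRpD : Rp ≤ D := pCoreOf_le D
  have hRqD : Rq ≤ D := pCoreOf_le D
  have hDRp : D ≤ normalizer (Rp : Set G) := le_normalizer_pCoreOf p D
  have hDRq : D ≤ normalizer (Rq : Set G) := le_normalizer_pCoreOf q D
  have hDM₁ : D ≤ M₁ := inf_le_left
  have hDM₂ : D ≤ M₂ := inf_le_right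
  have hRpq : Rp ≤ centralizer (Rq : Set G) :=
    commute_cores hpq (isPGroup_pCoreOf p D) (isPGroup_pCoreOf q D) hRpD hRqD hDRp hDRq
  have hFD : FS M₁ ≤ D := le_inf (FS_le M₁) h₁
  have hA : pCoreOf p M₁ ≤ Rp :=
    le_pCoreOf ((pCoreOf_le_FS hL₁ p).trans hFD) (hDM₁.trans (le_normalizer_pCoreOf p M₁)) (isPGroup_pCoreOf p M₁)
  have hBq : pCoreOf q M₂ ≤ Rq :=
    le_pCoreOf ((pCoreOf_le_FS hL₂ q).trans (le_inf h₂ (FS_le M₂))) (hDM₂.trans (le_normalizer_pCoreOf q M₂))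
      (isPGroup_pCoreOf q M₂)
  -- (i)
  set Y : Subgroup G := M₁ ⊓ centralizer (Rq : Set G) with hY
  have hYD : Y ≤ D := by
    have h3 := (hP _ hB (hBq.trans hRqD)).2 (le_normalizer_pCoreOf q M₂)
    rw [hD, ← h3]
    exact le_inf inf_le_left (inf_le_right.trans ((centralizer_le hBq).trans (centralizer_le_normalizer _)))
  have hRpY : Rp ≤ Y := le_inf (hRpD.trans hDM₁) hRpq
  have hRpeq : Rp = pCoreOf p Y := by
    apply le_antisymm
    · exact le_pCoreOf hRpY (hYD.trans hDRp) (isPGroup_pCoreOf p D)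
    · apply le_pCoreOf ((pCoreOf_le Y).trans hYD) _ (isPGroup_pCoreOf p Y)
      have h3 : D ≤ normalizer (Y : Set G) :=
        le_normalizer_inf (hDM₁.trans le_normalizer) (le_normalizer_centralizer hDRq)
      exact h3.trans (normalizer_le_normalizer_pCoreOf p Y)
  have hi : M₁ ⊓ normalizer (Rq : Set G) ≤ normalizer (Rp : Set G) := by
    rw [hRpeq]
    refine le_trans ?_ (normalizer_le_normalizer_pCoreOf p Y)
    exact le_normalizer_inf (inf_le_left.trans le_normalizer) (le_normalizer_centralizer inf_le_right)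
  -- (ii)
  set Q₁ : Subgroup G := ⨆ r : {r : Nat.Primes // (r : ℕ) ≠ p}, pCoreOf (r : ℕ) M₁ with hQ₁
  have hFQ : FS M₁ ≤ pCoreOf p M₁ ⊔ Q₁ := by
    rw [FS_eq_of_layer hL₁]
    apply iSup_le
    intro r
    by_cases hr : (r : ℕ) = p
    · rw [hr]; exact le_sup_left
    · exact le_trans (le_iSup (fun r : {r : Nat.Primes // (r : ℕ) ≠ p} => pCoreOf ((r : Nat.Primes) : ℕ) M₁) ⟨r, hr⟩)
        le_sup_right
  have hM₁Q : M₁ ≤ normalizer (Q₁ : Set G) := by
    rw [le_normalizer_iff]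
    intro m hm x hx
    have h3 : ∀ y ∈ Q₁, m * y * m⁻¹ ∈ Q₁ := by
      intro y hy
      have h4 : Q₁ ≤ Q₁.comap (MulAut.conj m).toMonoidHom := by
        conv_lhs => rw [hQ₁]
        apply iSup_le
        intro r z hz
        change m * z * m⁻¹ ∈ Q₁
        have h5 : pCoreOf ((r : Nat.Primes) : ℕ) M₁ ≤ Q₁ :=
          le_iSup (fun r : {r : Nat.Primes // (r : ℕ) ≠ p} => pCoreOf ((r : Nat.Primes) : ℕ) M₁) r
        exact h5 ((mem_normalizer_iff.mp (le_normalizer_pCoreOf _ M₁ hm) z).mp hz)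
      exact h4 hy
    exact h3 x hx
  set C₁ : Subgroup G := M₁ ⊓ centralizer (Q₁ : Set G) with hC₁
  set K₁ : Subgroup G := M₁ ⊓ centralizer (pCoreOf p M₁ : Set G) with hK₁
  have hM₁C : M₁ ≤ normalizer (C₁ : Set G) := le_normalizer_inf le_normalizer (le_normalizer_centralizer hM₁Q)
  have hM₁K : M₁ ≤ normalizer (K₁ : Set G) :=
    le_normalizer_inf le_normalizer (le_normalizer_centralizer (le_normalizer_pCoreOf p M₁))
  set Z : Subgroup G := C₁ ⊓ K₁ with hZ
  have hM₁Z : M₁ ≤ normalizer (Z : Set G) := le_normalizer_inf hM₁C hM₁K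
  have hZD : Z ≤ D := by
    have h3 : Z ≤ M₁ ⊓ centralizer (FS M₁ : Set G) := by
      refine le_inf (inf_le_left.trans inf_le_left) ?_
      refine le_trans ?_ (centralizer_le hFQ)
      exact Components.le_centralizer_sup (inf_le_right.trans inf_le_right) (inf_le_left.trans inf_le_right)
    exact h3.trans ((centralizer_FS_le M₁).trans hFD)
  have hRpC : Rp ≤ C₁ := by
    refine le_inf (hRpD.trans hDM₁) ?_
    apply Components.le_centralizer_iSup
    rintro ⟨r, hr⟩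
    have : Fact (r : ℕ).Prime := ⟨r.2⟩
    exact commute_cores (Ne.symm hr) (isPGroup_pCoreOf p D) (isPGroup_pCoreOf _ M₁) hRpD
      ((pCoreOf_le_FS hL₁ _).trans hFD) hDRp (hDM₁.trans (le_normalizer_pCoreOf _ M₁))
  have hRqK : Rq ≤ K₁ :=
    le_inf (hRqD.trans hDM₁) ((Components.le_centralizer_comm hRpq).trans (centralizer_le hA))
  -- (iii)
  set W : Subgroup G := Z ⊔ Rq with hW
  have hWD : W ≤ D := sup_le hZD hRqD
  have hDW : D ≤ normalizer (W : Set G) := le_normalizer_sup (hDM₁.trans hM₁Z) hDRq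
  have hRqW : pCoreOf q W = Rq := by
    apply le_antisymm
    · exact le_pCoreOf ((pCoreOf_le W).trans hWD) (hDW.trans (normalizer_le_normalizer_pCoreOf q W))
        (isPGroup_pCoreOf q W)
    · exact le_pCoreOf le_sup_right (hWD.trans hDRq) (isPGroup_pCoreOf q D)
  have hCW : C₁ ≤ normalizer (W : Set G) := by
    intro c hc
    apply mem_normalizer_of_map_conj_le
    rw [hW, Subgroup.map_sup]
    refine sup_le ?_ ?_
    · rw [map_conj_eq_of_mem (hM₁Z hc.1)]
      exact le_sup_left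
    · rintro _ ⟨r, hr, rfl⟩
      change c * r * c⁻¹ ∈ _
      have h3 : c * r * c⁻¹ = ⁅c, r⁆ * r := by rw [commutatorElement_def]; group
      rw [h3]
      refine mul_mem (mem_sup_left ⟨?_, ?_⟩) (mem_sup_right hr)
      · have h4 : ⁅c, r⁆ = c * (r * c⁻¹ * r⁻¹) := by rw [commutatorElement_def]; group
        rw [h4]
        exact C₁.mul_mem hc ((mem_normalizer_iff.mp (hM₁C (hDM₁ (hRqD hr))) _).mp (C₁.inv_mem hc))
      · rw [commutatorElement_def]
        exact K₁.mul_mem ((mem_normalizer_iff.mp (hM₁K hc.1) _).mp (hRqK hr)) (K₁.inv_mem (hRqK hr))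
  have hCRq : C₁ ≤ normalizer (Rq : Set G) := by
    rw [← hRqW]
    exact hCW.trans (normalizer_le_normalizer_pCoreOf q W)
  have hCRp : C₁ ≤ normalizer (Rp : Set G) := (le_inf inf_le_left hCRq).trans hi
  have h3 : Rp ≤ pCoreOf p C₁ := le_pCoreOf hRpC hCRp (isPGroup_pCoreOf p D)
  refine h3.trans (le_pCoreOf ((pCoreOf_le C₁).trans inf_le_left) ?_ (isPGroup_pCoreOf p C₁))
  exact hM₁C.trans (normalizer_le_normalizer_pCoreOf p C₁)

theorem FS_le_pCoreOf {M : Subgroup G} (hL : LY M = ⊥) {p : ℕ} (h : ∀ q : ℕ, q.Prime → q ≠ p → pCoreOf q M = ⊥) :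
    FS M ≤ pCoreOf p M := by
  rw [FS_eq_of_layer hL]
  apply iSup_le
  intro r
  by_cases hr : (r : ℕ) = p
  · rw [hr]
  · rw [h r r.2 hr]; exact bot_le

theorem centralizer_pCore_le {M : Subgroup G} (hL : LY M = ⊥) {p : ℕ} [Fact p.Prime]
    (h : ∀ q : ℕ, q.Prime → q ≠ p → pCoreOf q M = ⊥) :
    centralizer (pCore p ↥M : Set ↥M) ≤ pCore p ↥M := by
  have h1 := FS_le_pCoreOf hL h
  have h2 : generalizedFittingSubgroup ↥M ≤ pCore p ↥M := (map_le_map_iff_of_injective M.subtype_injective).mp h1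
  have h3 : centralizer (pCore p ↥M : Set ↥M) ≤ generalizedFittingSubgroup ↥M :=
    (centralizer_le h2).trans Layer.centralizer_genFitting_le
  exact h3.trans h2

/-- **Bender's theorem on primitive pairs.** -/
theorem bender {M₁ M₂ : Subgroup G} (hne : M₁ ≠ M₂) (hP : Prim M₁ M₂) (h₁ : FS M₁ ≤ M₂) (h₂ : FS M₂ ≤ M₁) :
    ∃ p : ℕ, p.Prime ∧ centralizer (pCore p ↥M₁ : Set ↥M₁) ≤ pCore p ↥M₁ ∧
      centralizer (pCore p ↥M₂ : Set ↥M₂) ≤ pCore p ↥M₂ ∧
      (pCore p ↥M₁).map M₁.subtype ⊔ (pCore p ↥M₂).map M₂.subtype ≤ M₁ ⊓ M₂ := by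
  have hLeq : LY M₁ = LY M₂ := le_antisymm (layer_step h₁ h₂) (layer_step h₂ h₁)
  have hLn : ∀ M : Subgroup G, M ≤ normalizer (LY M : Set G) := by
    intro M
    have := Layer.layer_characteristic ↥M
    exact le_normalizer_map inferInstance
  have hLle : ∀ M : Subgroup G, LY M ≤ M := fun M => map_subtype_le _
  have hL₁ : LY M₁ = ⊥ := by
    by_contra hL
    exact hne (hP.eq hL (le_inf (hLle M₁) (hLeq ▸ hLle M₂)) (hLn M₁) (hLeq ▸ hLn M₂))
  have hL₂ : LY M₂ = ⊥ := hLeq ▸ hL₁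
  have hcore : ∀ q : ℕ, q.Prime → (pCoreOf q M₁ = ⊥ ↔ pCoreOf q M₂ = ⊥) := by
    intro q hq
    have : Fact q.Prime := ⟨hq⟩
    exact ⟨fun h => core_step h₂ h₁ hL₂ h, fun h => core_step h₁ h₂ hL₁ h⟩
  -- a prime with nontrivial core
  obtain ⟨p, hp, hp1⟩ : ∃ p : ℕ, p.Prime ∧ pCoreOf p M₁ ≠ ⊥ := by
    by_contra hcon
    push Not at hcon
    have hF : ∀ M : Subgroup G, LY M = ⊥ → (∀ q : ℕ, q.Prime → pCoreOf q M = ⊥) → M = ⊥ := by
      intro M hM hq
      have h3 : FS M = ⊥ := by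
        rw [FS_eq_of_layer hM, eq_bot_iff]
        exact iSup_le fun r => (hq r r.2).le
      have h4 := centralizer_FS_le M
      rw [h3] at h4
      rw [eq_bot_iff]
      refine le_trans (le_inf le_rfl ?_) h4
      intro x _
      rw [mem_centralizer_iff]
      intro y hy
      rw [SetLike.mem_coe, mem_bot] at hy
      rw [hy, one_mul, mul_one]
    exact hne ((hF M₁ hL₁ hcon).trans (hF M₂ hL₂ fun q hq => (hcore q hq).mp (hcon q hq)).symm)
  have hpf : Fact p.Prime := ⟨hp⟩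
  have hp2 : pCoreOf p M₂ ≠ ⊥ := fun h => hp1 ((hcore p hp).mpr h)
  -- uniqueness
  have hone : ∀ q : ℕ, q.Prime → q ≠ p → pCoreOf q M₁ = ⊥ := by
    intro q hq hqp
    by_contra hq1
    have hqf : Fact q.Prime := ⟨hq⟩
    have hq2 : pCoreOf q M₂ ≠ ⊥ := fun h => hq1 ((hcore q hq).mpr h)
    have hR1 := key_step hP h₁ h₂ hL₁ hL₂ (Ne.symm hqp) hq2
    have hR2 := key_step hP.symm h₂ h₁ hL₂ hL₁ (Ne.symm hqp) hq1
    rw [inf_comm] at hR2
    have hA1 : pCoreOf p M₁ ≤ pCoreOf p (M₁ ⊓ M₂) :=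
      le_pCoreOf (le_inf (pCoreOf_le _) ((pCoreOf_le_FS hL₁ p).trans h₁))
        (inf_le_left.trans (le_normalizer_pCoreOf p M₁)) (isPGroup_pCoreOf p M₁)
    have hA2 : pCoreOf p M₂ ≤ pCoreOf p (M₁ ⊓ M₂) :=
      le_pCoreOf (le_inf ((pCoreOf_le_FS hL₂ p).trans h₂) (pCoreOf_le _))
        (inf_le_right.trans (le_normalizer_pCoreOf p M₂)) (isPGroup_pCoreOf p M₂)
    have heq : pCoreOf p M₁ = pCoreOf p M₂ := le_antisymm (hA1.trans hR2) (hA2.trans hR1)
    exact hne (hP.eq hp1 (hA1.trans (pCoreOf_le _)) (le_normalizer_pCoreOf p M₁)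
      (heq ▸ le_normalizer_pCoreOf p M₂))
  refine ⟨p, hp, centralizer_pCore_le hL₁ hone, centralizer_pCore_le hL₂ (fun q hq hqp => (hcore q hq).mp (hone q hq hqp)),
    ?_⟩
  exact sup_le (le_inf (pCoreOf_le M₁) ((pCoreOf_le_FS hL₁ p).trans h₁))
    (le_inf ((pCoreOf_le_FS hL₂ p).trans h₂) (pCoreOf_le M₂))

end Cfsg.Agent.Lib.PrimPair
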