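import Cfsg.Agent.Lib.KInf6
import Cfsg.Agent.Lib.PStabInvolve
import Cfsg.Agent.Lib.ClsStab

/-!
K-infinity of a `p`-subgroup containing `O_p(G)` (not necessarily Sylow), for groups with abelian Sylow
2-subgroups; primitive pairs of characteristic `p`.
-/

set_option autoImplicit false

namespace Cfsg.Agent.Lib.PrimPairK

open Cfsg.Agent.Lib.CFSylow Cfsg.Agent.Lib.CFSection Cfsg.Agent.Lib.CFNorm2 Cfsg.Agent.Lib.KInf2
  Cfsg.Agent.Lib.KInf4 Cfsg.Agent.Lib.KInf5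
open Cfsg.Agent.Lib.KInf1 (cz map_inf_cz isChar_kInfLower)
open Cfsg.Agent.Lib.CFFusion (nz)
open Cfsg.Agent.Lib.ClsStab (mem_of_pow_coprime)
open scoped commutatorElement

universe u

section main
variable {G : Type u} [Group G] [Finite G] {p : ℕ} [Fact p.Prime]

/-- The theorem for a `p`-subgroup `S` between `T` and a Sylow subgroup `S₁`. -/
theorem kinf_main' {S S₁ T A : Subgroup G} (hS : SylIn p S₁ ⊤) (hSS : S ≤ S₁) (hTn : T.Normal) (hTS : T ≤ S)
    (hAn : A.Normal) (hAT : A ≤ T) (hA2 : A ∈ Cfsg.classTwoSubgroups G)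
    (hAZ : ⁅T, A⁆ ≤ A ⊓ cz A)
    (hfaith : ∀ N : Subgroup G, N.Normal → ¬ N ≤ T → ⁅A, kres p N⁆ ≠ ⊥)
    (hK : ¬ (Cfsg.inducedFunctor Cfsg.kInfLower S).Normal) :
    ∃ g ∈ S, g ∉ T ∧ ∃ D E : Subgroup G, Cfsg.IsChiefFactor D E ∧ D ≤ A ∧
        ⁅⁅D, Subgroup.zpowers g⁆, Subgroup.zpowers g⁆ ≤ E ∧ ¬ ⁅D, Subgroup.zpowers g⁆ ≤ E := by
  have hTp := hS.isPGroup.to_le (hTS.trans hSS)
  have hex : ∃ n, ¬ (Ev S n ≤ T ∧ Od S (n + 1) ≤ T) := by
    by_contra hno
    push Not at hno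
    exact hK (kInf_normal hTS hTn hTp hno).1
  rcases kcases hAT hTS hAn hA2 hAZ hex with ⟨R, B, hAR, hRS, hBS, hB, hBT⟩ | ⟨g, hgS, hgT, h1, h2⟩
  · obtain ⟨hZBB, hAB, hBBB⟩ := lower_facts hAn hAR hB
    by_cases hZB : B ⊓ cz B ≤ T
    · obtain ⟨D, E, hDE, hDA, g, hgB, hgT, h1, h2⟩ :=
        lower_case hS hTn (hTS.trans hSS) hAn hAT hAZ hAR (hBS.trans hSS) hB hBT hfaith hZB
      exact ⟨g, hBS hgB, hgT, D, E, hDE, hDA, h1, h2⟩
    · obtain ⟨g, hg, hgT⟩ := SetLike.not_le_iff_exists.1 hZB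
      obtain ⟨hgB, hgc⟩ := Subgroup.mem_inf.1 hg
      have hgB' : Subgroup.zpowers g ≤ B := by rw [Subgroup.zpowers_le]; exact hgB
      have hgc' : Subgroup.zpowers g ≤ cz B := by rw [Subgroup.zpowers_le]; exact hgc
      refine ⟨g, hBS hgB, hgT, case_one hTn hTp hAT hAn hfaith hgT ?_ ?_⟩
      · refine le_trans (le_of_eq ?_) bot_le
        rw [Subgroup.commutator_comm, Subgroup.commutator_eq_bot_iff_le_centralizer]
        exact hgc'.trans (Subgroup.centralizer_le ((Subgroup.commutator_mono le_rfl hgB').trans hAB))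
      · refine le_bot_iff.1 ?_
        rw [← hZBB]
        exact Subgroup.commutator_mono (Subgroup.commutator_mono le_rfl hgB') hgB'
  · exact ⟨g, hgS, hgT, case_one hTn hTp hAT hAn hfaith hgT h1 h2⟩

/-- For odd `p`, abelian Sylow 2-subgroups and `C_G(O_p(G)) ≤ O_p(G)`, `K_∞(S)` is normal for every
`p`-subgroup `S` containing `O_p(G)`. -/
theorem kinf_normal_of_abelian (hp2 : p ≠ 2) (hab : ∀ T : Sylow 2 G, IsMulCommutative T)
    (hc : cz (Cfsg.pCore p G) ≤ Cfsg.pCore p G) {S : Subgroup G} (hSp : IsPGroup p S)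
    (hTS : Cfsg.pCore p G ≤ S) : (Cfsg.inducedFunctor Cfsg.kInfLower S).Normal := by
  by_contra hK
  obtain ⟨P, hP⟩ := hSp.exists_le_sylow
  have hS : SylIn p (P : Subgroup G) ⊤ := sylIn_sylow P
  have hTn : (Cfsg.pCore p G).Normal := Cfsg.Agent.Lib.CFCore.pCore_normal p G
  have hTp : IsPGroup p (Cfsg.pCore p G) := hSp.to_le hTS
  obtain ⟨A, hAn, hAT, hA2, hTA, hTC, -, hf⟩ := exists_crit hTn hTp
  obtain ⟨g, hgS, hgT, D, E, hDE, hDA, h1, h2⟩ :=
    kinf_main' hS hP hTn hTS hAn hAT hA2 hTA (hf P hS rfl hc) hK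
  have hDn := hDE.2.1
  have hEn := hDE.2.2.1
  have hDS : D ≤ (P : Subgroup G) := ((hDA.trans hAT).trans hTS).trans hP
  have hst := Cfsg.Agent.Lib.PStabInvolve.isPStableOnSection hp2 Cfsg.Agent.Lib.PStabInvolve.obst_sl2
    (Cfsg.Agent.Lib.PStabInvolve.not_involves_sl2_of_abelian hp2 hab) D E (hS.isPGroup.to_le hDS)
  obtain ⟨K, hKn, hCK, ⟨k, hk⟩, hgK⟩ := hst g h1
  apply h2
  refine (Subgroup.commutator_mono le_rfl (?_ : Subgroup.zpowers g ≤ K)).trans
    (op_centralizes hS hDS hDE hKn ?_)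
  · rw [Subgroup.zpowers_le]; exact hgK
  · intro x hx hxo d hd
    have hCn : (Cfsg.sectionKernel D E).Normal := by
      unfold Cfsg.sectionKernel
      have : (D.map (QuotientGroup.mk' E)).Normal := hDn.map _ (QuotientGroup.mk'_surjective E)
      infer_instance
    have h3 : x ^ p ^ k ∈ Cfsg.sectionKernel D E := by
      rw [← hk]
      exact Cfsg.Agent.Lib.ClsStab.pow_relIndex_mem hx
    have h4 : x ∈ Cfsg.sectionKernel D E := by
      refine mem_of_pow_coprime (m := p ^ k) (n := orderOf x) ?_ h3 ?_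
      · exact (Nat.Coprime.pow_right k hxo).symm
      · rw [pow_orderOf_eq_one]; exact one_mem _
    have h5 : (QuotientGroup.mk' E x) ∈ Subgroup.centralizer ((D.map (QuotientGroup.mk' E) :
      Subgroup (G ⧸ E)) : Set (G ⧸ E)) := h4
    have h6 : QuotientGroup.mk' E ⁅d, x⁆ = 1 := by
      rw [map_commutatorElement, commutatorElement_eq_one_iff_mul_comm]
      exact Subgroup.mem_centralizer_iff.1 h5 _ ⟨d, hd, rfl⟩
    exact (QuotientGroup.eq_one_iff _).1 h6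

/-- version inside a subgroup `M`. -/
theorem kinf_sub_of_abelian (hp2 : p ≠ 2) {M : Subgroup G} (hab : ∀ T : Sylow 2 ↥M, IsMulCommutative T)
    (hc : Subgroup.centralizer (Cfsg.pCore p ↥M : Set ↥M) ≤ Cfsg.pCore p ↥M) {S : Subgroup G}
    (hSp : IsPGroup p S) (hSM : S ≤ M) (hTS : (Cfsg.pCore p ↥M).map M.subtype ≤ S) :
    M ≤ nz (Cfsg.inducedFunctor Cfsg.kInfLower S) := by
  have hSp' : IsPGroup p (S.subgroupOf M) := hSp.comap_of_injective _ M.subtype_injective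
  have hmap : (S.subgroupOf M).map M.subtype = S := map_subgroupOf hSM
  have h := kinf_normal_of_abelian (G := ↥M) hp2 hab hc hSp' (by
    intro x hx
    exact hTS ⟨x, hx, rfl⟩)
  have e1 : Cfsg.inducedFunctor Cfsg.kInfLower S =
      (Cfsg.inducedFunctor Cfsg.kInfLower (S.subgroupOf M)).map M.subtype := by
    conv_lhs => rw [← hmap]
    exact induced_map (isChar_kInfLower p) M.subtype hSp' (fun x _ hx => Subtype.ext hx)
  rw [e1]
  change M ≤ Subgroup.normalizer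
    (((Cfsg.inducedFunctor Cfsg.kInfLower (S.subgroupOf M)).map M.subtype : Subgroup G) : Set G)
  rw [le_normalizer_iff]
  rintro x hx _ ⟨y, hy, rfl⟩
  exact ⟨⟨x, hx⟩ * y * ⟨x, hx⟩⁻¹, h.conj_mem y hy _, rfl⟩

end main

end Cfsg.Agent.Lib.PrimPairK
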