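import Cfsg.Agent.Lib.PrimeDegreeThree

/-!
Subgroups of index `p` in transitive groups of prime degree `p` (helper12).
-/

set_option autoImplicit false

namespace Cfsg.Agent.Lib.PrimeDegreeIndex

open MulAction Cfsg.Agent.Lib.PermRepBasic Cfsg.Agent.Lib.PermRepPPower Cfsg.Agent.Lib.PolyFun
  Cfsg.Agent.Lib.PrimeDegree Cfsg.Agent.Lib.PermRepPairs Cfsg.Agent.Lib.PrimeDegreeThree

/-- comparison of orbit numbers from linear maps between permutation modules -/
theorem card_orbits_le {L : Type*} [Group L] {K : Type*} [Field K] {A B A' B' : Type*}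
    [Finite A] [Finite B] [Finite A'] [Finite B'] [MulAction L A] [MulAction L B] [MulAction L A']
    [MulAction L B'] (F : (A' → K) →ₗ[K] (A → K)) (hF : Function.Surjective F)
    (hFe : ∀ (g : L) v, F (Cfsg.permRep K L A' g v) = Cfsg.permRep K L A g (F v))
    (E : (B → K) →ₗ[K] (B' → K)) (hE : Function.Injective E)
    (hEe : ∀ (g : L) v, E (Cfsg.permRep K L B g v) = Cfsg.permRep K L B' g (E v)) :
    Nat.card (orbitRel.Quotient L (A × B)) ≤ Nat.card (orbitRel.Quotient L (A' × B')) := by
  classical
  have : Fintype A := Fintype.ofFinite A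
  have : Fintype A' := Fintype.ofFinite A'
  rw [← finrank_inv (K := K), ← finrank_inv (K := K)]
  let φ : ((Cfsg.permRep K L A).linHom (Cfsg.permRep K L B)).invariants →ₗ[K]
      ((Cfsg.permRep K L A').linHom (Cfsg.permRep K L B')).invariants :=
    { toFun := fun S => ⟨E ∘ₗ S.1 ∘ₗ F, by
        rw [mem_inv_iff]
        intro g v
        have hS := (mem_inv_iff S.1).mp S.2
        simp only [LinearMap.comp_apply]
        rw [hFe, hS, hEe]⟩
      map_add' := fun S T => by
        apply Subtype.ext
        apply LinearMap.ext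
        intro v
        show E ((S.1 + T.1) (F v)) = E (S.1 (F v)) + E (T.1 (F v))
        rw [LinearMap.add_apply, map_add]
      map_smul' := fun c T => by
        apply Subtype.ext
        apply LinearMap.ext
        intro v
        show E ((c • T.1) (F v)) = c • E (T.1 (F v))
        rw [LinearMap.smul_apply, map_smul] }
  have : FiniteDimensional K ((Cfsg.permRep K L A').linHom (Cfsg.permRep K L B')).invariants := by
    have : Finite (orbitRel.Quotient L (A' × B')) := Quotient.finite (orbitRel L (A' × B'))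
    exact LinearEquiv.finiteDimensional (invEquiv (G := L) (K := K) (Ω₁ := A') (Ω₂ := B')).symm
  apply LinearMap.finrank_le_finrank_of_injective (f := φ)
  intro S T hST
  apply Subtype.ext
  apply LinearMap.ext
  intro u
  obtain ⟨v, rfl⟩ := hF u
  have h1 := congrArg (fun X : ((Cfsg.permRep K L A').linHom (Cfsg.permRep K L B')).invariants =>
    X.1 v) hST
  exact hE h1

section iso

variable {G Ω Ω' : Type*} [Group G] [Finite G] [Finite Ω] [Finite Ω'] [MulAction G Ω]
  [MulAction G Ω'] [IsPretransitive G Ω] [IsPretransitive G Ω'] {p : ℕ} [hp : Fact p.Prime]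

/-- The permutation modules of two transitive actions of degree `p` are isomorphic in
characteristic `p`, if `p ^ 2` does not divide the group order. -/
theorem exists_iso (hΩ : Nat.card Ω = p) (hΩ' : Nat.card Ω' = p) (hG : ¬ p ^ 2 ∣ Nat.card G) :
    ∃ E : (Ω → ZMod p) ≃ₗ[ZMod p] (Ω' → ZMod p),
      ∀ (g : G) v, E (Cfsg.permRep (ZMod p) G Ω g v) = Cfsg.permRep (ZMod p) G Ω' g (E v) := by
  classical
  have : Fintype Ω := Fintype.ofFinite Ω
  have : Fintype Ω' := Fintype.ofFinite Ω'
  obtain ⟨a0⟩ : Nonempty Ω := (Nat.card_pos_iff.mp (by rw [hΩ]; exact hp.out.pos)).1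
  obtain ⟨x0⟩ : Nonempty Ω' := (Nat.card_pos_iff.mp (by rw [hΩ']; exact hp.out.pos)).1
  let q0 : orbitRel.Quotient G (Ω × Ω') := Quotient.mk'' (a0, x0)
  let T := (invEquiv (G := G) (K := ZMod p) (Ω₁ := Ω) (Ω₂ := Ω')).symm (Pi.single q0 1)
  have hTe := (mem_inv_iff T.1).mp T.2
  have hTv : ∀ v b, T.1 v b = ∑ a, (Pi.single q0 1 : orbitRel.Quotient G (Ω × Ω') → ZMod p)
      (Quotient.mk'' (a, b)) * v a := fun v b => rfl
  -- the row sum
  have hmem : ∀ x : Ω', (Quotient.mk'' (a0, x) : orbitRel.Quotient G (Ω × Ω')) = q0 ↔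
      x ∈ orbit (stabilizer G a0) x0 := by
    intro x
    constructor
    · intro h
      have h1 := Quotient.exact' h
      obtain ⟨g, hg⟩ := (orbitRel_apply (G := G)).mp h1
      have h2 : (g • a0, g • x0) = (a0, x) := hg
      exact ⟨⟨g, congrArg Prod.fst h2⟩, congrArg Prod.snd h2⟩
    · rintro ⟨⟨g, hg⟩, rfl⟩
      apply Quotient.sound'
      rw [orbitRel_apply]
      have hg' : g • a0 = a0 := hg
      refine ⟨g, ?_⟩
      show (g • a0, g • x0) = (a0, g • x0)
      rw [hg']
  have hsum : ∑ x, T.1 (Pi.single a0 1) x = ((orbit (stabilizer G a0) x0).ncard : ZMod p) := by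
    have h1 : ∀ x, T.1 (Pi.single a0 1) x = if x ∈ orbit (stabilizer G a0) x0 then 1 else 0 := by
      intro x
      rw [hTv, Finset.sum_eq_single a0]
      · rw [Pi.single_eq_same, mul_one]
        by_cases hx : x ∈ orbit (stabilizer G a0) x0
        · rw [if_pos hx, (hmem x).mpr hx, Pi.single_eq_same]
        · rw [if_neg hx, Pi.single_eq_of_ne]
          intro h
          exact hx ((hmem x).mp h)
      · intro a _ ha
        rw [Pi.single_eq_of_ne ha, mul_zero]
      · intro h; exact absurd (Finset.mem_univ _) h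
    rw [Finset.sum_congr rfl (fun x _ => h1 x), Finset.sum_boole]
    congr 1
    rw [Set.ncard_eq_toFinset_card']
    congr 1
    ext x
    simp
  have hsum0 : ∑ x, T.1 (Pi.single a0 1) x ≠ 0 := by
    rw [hsum]
    intro h
    rw [ZMod.natCast_eq_zero_iff] at h
    apply hG
    have h1 : (orbit (stabilizer G a0) x0).ncard ∣ Nat.card (stabilizer G a0) := by
      rw [← index_stabilizer]
      exact Subgroup.index_dvd_card _
    have h2 : Nat.card (stabilizer G a0) * (stabilizer G a0).index = Nat.card G :=
      Subgroup.card_mul_index _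
    rw [index_stabilizer_of_transitive, hΩ] at h2
    rw [← h2, sq]
    exact Nat.mul_dvd_mul_right (h.trans h1) p
  have hsurj : Function.Surjective T.1 := by
    rw [← LinearMap.range_eq_top]
    by_contra hne
    have h1 := le_sumZero (G := G) (p := p) (f := 1) (by rw [pow_one, ← Nat.card_eq_fintype_card]; exact hΩ')
      (LinearMap.range T.1) (by
        rintro g _ ⟨v, rfl⟩
        exact ⟨_, hTe g v⟩) hne
    exact hsum0 (h1 ⟨_, rfl⟩)
  have hfr : Module.finrank (ZMod p) (Ω → ZMod p) = Module.finrank (ZMod p) (Ω' → ZMod p) := by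
    rw [Module.finrank_fintype_fun_eq_card, Module.finrank_fintype_fun_eq_card,
      ← Nat.card_eq_fintype_card, ← Nat.card_eq_fintype_card, hΩ, hΩ']
  have hinj : Function.Injective T.1 :=
    (LinearMap.injective_iff_surjective_of_finrank_eq_finrank hfr).mpr hsurj
  exact ⟨LinearEquiv.ofBijective T.1 ⟨hinj, hsurj⟩, hTe⟩

end iso

/-- Lower bound for the number of orbits on pairs if there is an orbit of size and co-size at
least two. -/
theorem six_le {L X : Type*} [Group L] [Finite X] [MulAction L X] (D : Set X)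
    (hD : ∀ (g : L) (x : X), x ∈ D ↔ g • x ∈ D) {x y z w : X} (hx : x ∈ D) (hy : y ∈ D)
    (hz : z ∉ D) (hw : w ∉ D) (hxy : x ≠ y) (hzw : z ≠ w) :
    6 ≤ Nat.card (orbitRel.Quotient L (X × X)) := by
  classical
  have : Finite (orbitRel.Quotient L (X × X)) := Quotient.finite (orbitRel L (X × X))
  let dat : X × X → Bool × Bool × Bool := fun u =>
    (decide (u.1 ∈ D), decide (u.2 ∈ D), decide (u.1 = u.2))
  have hdat : ∀ u v : X × X, (orbitRel L (X × X)) u v → dat u = dat v := by
    rintro ⟨u1, u2⟩ ⟨v1, v2⟩ h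
    obtain ⟨g, hg⟩ := (orbitRel_apply (G := L)).mp h
    have h2 : (g • v1, g • v2) = (u1, u2) := hg
    have h3 : g • v1 = u1 := congrArg Prod.fst h2
    have h4 : g • v2 = u2 := congrArg Prod.snd h2
    show (decide (u1 ∈ D), decide (u2 ∈ D), decide (u1 = u2)) =
      (decide (v1 ∈ D), decide (v2 ∈ D), decide (v1 = v2))
    have e1 : (u1 ∈ D) = (v1 ∈ D) := by rw [← h3, ← hD g v1]
    have e2 : (u2 ∈ D) = (v2 ∈ D) := by rw [← h4, ← hD g v2]
    have e3 : (u1 = u2) = (v1 = v2) := by
      rw [← h3, ← h4]
      exact propext ⟨fun h => MulAction.injective g h, fun h => by rw [h]⟩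
    simp only [e1, e2, e3]
  let f : Fin 6 → X × X := ![(x, x), (x, y), (z, z), (z, w), (x, z), (z, x)]
  have hxz : x ≠ z := fun h => hz (h ▸ hx)
  have hinj : Function.Injective (fun i => (Quotient.mk'' (f i) : orbitRel.Quotient L (X × X))) := by
    intro i j hij
    have h1 := hdat _ _ (Quotient.exact' hij)
    have hv : ∀ i, dat (f i) = (![(true, true, true), (true, true, false), (false, false, true),
        (false, false, false), (true, false, false), (false, true, false)] :
        Fin 6 → Bool × Bool × Bool) i := by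
      intro i
      fin_cases i
      · simp [dat, f, hx]
      · simp [dat, f, hx, hy, hxy]
      · simp [dat, f, hz]
      · simp [dat, f, hz, hw, hzw]
      · simp [dat, f, hx, hz, hxz]
      · simp [dat, f, hx, hz, hxz.symm]
    rw [hv, hv] at h1
    clear hij
    revert h1
    revert i j
    decide
  have := Nat.card_le_card_of_injective _ hinj
  rwa [Nat.card_fin] at this

/-- In the stabiliser of a point of a triply transitive group there are at most five orbits on
pairs. -/
theorem le_five {G Ω : Type*} [Group G] [Finite Ω] [MulAction G Ω]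
    (h3 : IsMultiplyPretransitive G Ω 3) {a b c : Ω} (hab : a ≠ b) (hac : a ≠ c) (hbc : b ≠ c) :
    Nat.card (orbitRel.Quotient (stabilizer G a) (Ω × Ω)) ≤ 5 := by
  classical
  have htr : ∀ b' c' : Ω, a ≠ b' → a ≠ c' → b' ≠ c' →
      ∃ g : stabilizer G a, g • b = b' ∧ g • c = c' := by
    intro b' c' hb' hc' hbc'
    let x : Fin 3 ↪ Ω := ⟨![a, b, c], by
      intro i j hij
      fin_cases i <;> fin_cases j <;> simp_all⟩
    let y : Fin 3 ↪ Ω := ⟨![a, b', c'], by
      intro i j hij
      fin_cases i <;> fin_cases j <;> simp_all⟩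
    obtain ⟨g, hg⟩ := h3.exists_smul_eq x y
    have h0 : g • a = a := DFunLike.congr_fun hg 0
    have h1 : g • b = b' := DFunLike.congr_fun hg 1
    have h2 : g • c = c' := DFunLike.congr_fun hg 2
    exact ⟨⟨g, h0⟩, h1, h2⟩
  have : Finite (orbitRel.Quotient (stabilizer G a) (Ω × Ω)) :=
    Quotient.finite (orbitRel (stabilizer G a) (Ω × Ω))
  let f : Fin 5 → Ω × Ω := ![(a, a), (a, b), (b, a), (b, b), (b, c)]
  have hsurj : Function.Surjective
      (fun i => (Quotient.mk'' (f i) : orbitRel.Quotient (stabilizer G a) (Ω × Ω))) := by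
    intro q
    refine Quotient.inductionOn' q ?_
    rintro ⟨x, y⟩
    have hsound : ∀ (i : Fin 5) (g : stabilizer G a), (g • (f i).1 = x) → (g • (f i).2 = y) →
        ∃ i, (Quotient.mk'' (f i) : orbitRel.Quotient (stabilizer G a) (Ω × Ω)) =
          Quotient.mk'' (x, y) := by
      intro i g h1 h2
      refine ⟨i, Eq.symm ?_⟩
      apply Quotient.sound'
      rw [orbitRel_apply]
      exact ⟨g, Prod.ext h1 h2⟩
    by_cases hxa : x = a
    · by_cases hya : y = a
      · exact hsound 0 1 (by simp [f, hxa]) (by simp [f, hya])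
      · obtain ⟨z, hz⟩ : ∃ z, z ≠ a ∧ z ≠ y := by
          by_cases h : y = b
          · exact ⟨c, hac.symm, by rw [h]; exact hbc.symm⟩
          · exact ⟨b, hab.symm, fun h' => h h'.symm⟩
        obtain ⟨g, hg1, hg2⟩ := htr y z (Ne.symm hya) hz.1.symm hz.2.symm
        exact hsound 1 g (by rw [hxa]; exact g.2) hg1
    · by_cases hya : y = a
      · obtain ⟨z, hz⟩ : ∃ z, z ≠ a ∧ z ≠ x := by
          by_cases h : x = b
          · exact ⟨c, hac.symm, by rw [h]; exact hbc.symm⟩
          · exact ⟨b, hab.symm, fun h' => h h'.symm⟩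
        obtain ⟨g, hg1, hg2⟩ := htr x z (Ne.symm hxa) hz.1.symm hz.2.symm
        exact hsound 2 g hg1 (by rw [hya]; exact g.2)
      · by_cases hxy : x = y
        · obtain ⟨z, hz⟩ : ∃ z, z ≠ a ∧ z ≠ x := by
            by_cases h : x = b
            · exact ⟨c, hac.symm, by rw [h]; exact hbc.symm⟩
            · exact ⟨b, hab.symm, fun h' => h h'.symm⟩
          obtain ⟨g, hg1, hg2⟩ := htr x z (Ne.symm hxa) hz.1.symm hz.2.symm
          exact hsound 3 g hg1 (by rw [← hxy]; exact hg1)
        · obtain ⟨g, hg1, hg2⟩ := htr x y (Ne.symm hxa) (Ne.symm hya) hxy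
          exact hsound 4 g hg1 hg2
  have := Nat.card_le_card_of_surjective _ hsurj
  rwa [Nat.card_fin] at this

theorem not_sq_dvd {G Ω : Type*} [Group G] [Finite G] [Finite Ω] [MulAction G Ω]
    [FaithfulSMul G Ω] [IsPretransitive G Ω] {p : ℕ} [hp : Fact p.Prime] (hΩ : Nat.card Ω = p) :
    ¬ p ^ 2 ∣ Nat.card G := by
  intro h
  obtain ⟨P⟩ : Nonempty (Sylow p G) := inferInstance
  have h1 := P.pow_dvd_card_of_pow_dvd_card h
  rw [card_sylow hΩ P] at h1
  have h2 := Nat.le_of_dvd hp.out.pos h1
  have h3 := hp.out.one_lt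
  nlinarith

/-- The affine case. -/
theorem stabilizer_of_affine {G Ω : Type*} [Group G] [Finite G] [Finite Ω] [MulAction G Ω]
    [FaithfulSMul G Ω] [IsPretransitive G Ω] {p : ℕ} [hp : Fact p.Prime] (hΩ : Nat.card Ω = p)
    (e : ZMod p ≃ Ω) (haff : ∀ g : G, ∃ a b : ZMod p, ∀ j, g • e j = e (a * j + b))
    (H : Subgroup G) (hH : H.index = p) : ∃ x : Ω, H ≤ stabilizer G x := by
  classical
  choose A B hAB using haff
  have hA : ∀ g, A g = e.symm (g • e 1) - e.symm (g • e 0) := by
    intro g
    rw [hAB, hAB, Equiv.symm_apply_apply, Equiv.symm_apply_apply]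
    ring
  have hA1 : A 1 = 1 := by rw [hA, one_smul, one_smul]; simp
  have hAmul : ∀ g k, A (g * k) = A g * A k := by
    intro g k
    have h1 : ∀ j, (g * k) • e j = e (A g * (A k * j + B k) + B g) := by
      intro j; rw [mul_smul, hAB k, hAB g]
    rw [hA, h1, h1, Equiv.symm_apply_apply, Equiv.symm_apply_apply]
    ring
  -- elements with A = 1 in H are trivial
  have hpH : ¬ p ∣ Nat.card H := by
    intro h
    apply not_sq_dvd (G := G) hΩ
    rw [← Subgroup.card_mul_index H, hH, sq]
    exact Nat.mul_dvd_mul_right h p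
  have htriv : ∀ h ∈ H, A h = 1 → h = 1 := by
    intro h hh hAh
    have h1 : ∀ (n : ℕ) (j : ZMod p), h ^ n • e j = e (j + n * B h) := by
      intro n
      induction n with
      | zero => intro j; simp
      | succ n ih =>
        intro j
        rw [pow_succ', mul_smul, ih, hAB h, hAh]
        push_cast
        congr 1
        ring
    have h2 : h ^ p = 1 := by
      apply FaithfulSMul.eq_of_smul_eq_smul (α := Ω)
      intro x
      obtain ⟨j, rfl⟩ := e.surjective x
      rw [h1, one_smul]
      simp
    have h3 : orderOf h ∣ p := orderOf_dvd_of_pow_eq_one h2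
    have h4 : orderOf h ∣ Nat.card H := by
      have := orderOf_dvd_natCard (⟨h, hh⟩ : H)
      rwa [Subgroup.orderOf_mk] at this
    rcases (Nat.dvd_prime hp.out).mp h3 with h5 | h5
    · exact orderOf_eq_one_iff.mp h5
    · exact absurd (h5 ▸ h4) hpH
  by_cases hbot : ∀ h ∈ H, h = 1
  · refine ⟨e 0, ?_⟩
    intro h hh
    rw [hbot h hh]
    exact Subgroup.one_mem _
  · push Not at hbot
    obtain ⟨h, hh, hne⟩ := hbot
    have hA1' : A h ≠ 1 := fun h1 => hne (htriv h hh h1)
    have hA1'' : 1 - A h ≠ 0 := sub_ne_zero.mpr (Ne.symm hA1')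
    have hfix : ∀ j, h • e j = e j ↔ j = B h / (1 - A h) := by
      intro j
      rw [hAB]
      constructor
      · intro h1
        have h2 := e.injective h1
        rw [eq_div_iff hA1'']
        linear_combination (-1) * h2
      · intro h1
        congr 1
        rw [eq_div_iff hA1''] at h1
        linear_combination (-1) * h1
    refine ⟨e (B h / (1 - A h)), ?_⟩
    intro k hk
    have hcomm : k * h = h * k := by
      have h1 : (h * k)⁻¹ * (k * h) = 1 := by
        apply htriv
        · exact H.mul_mem (H.inv_mem (H.mul_mem hh hk)) (H.mul_mem hk hh)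
        · have h2 : A (h * k) * A ((h * k)⁻¹ * (k * h)) = A (k * h) := by
            rw [← hAmul]; congr 1; group
          have h3 : A (k * h) = A (h * k) := by rw [hAmul, hAmul, mul_comm]
          rw [h3] at h2
          have h4 : A (h * k) ≠ 0 := by
            intro h5
            have h6 : A (h * k) * A (h * k)⁻¹ = 1 := by rw [← hAmul, mul_inv_cancel, hA1]
            rw [h5, zero_mul] at h6
            exact zero_ne_one h6
          exact mul_left_cancel₀ h4 (by rw [h2, mul_one])
      exact (inv_mul_eq_one.mp h1).symm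
    obtain ⟨j, hj⟩ := e.surjective (k • e (B h / (1 - A h)))
    have h1 : h • (k • e (B h / (1 - A h))) = k • e (B h / (1 - A h)) := by
      rw [← mul_smul, ← hcomm, mul_smul, (hfix _).mpr rfl]
    rw [← hj, hfix] at h1
    rw [h1] at hj
    exact hj.symm

theorem eq_stabilizer {G Ω : Type*} [Group G] [Finite G] [Finite Ω] [MulAction G Ω]
    [FaithfulSMul G Ω] [IsPretransitive G Ω] {p : ℕ} [hp : Fact p.Prime] (hΩ : Nat.card Ω = p)
    (P : Sylow p G) (heven : Even (Nat.card (Subgroup.normalizer ((P : Subgroup G) : Set G))))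
    (H : Subgroup G) (hH : H.index = p) : ∃ x : Ω, H = stabilizer G x := by
  classical
  have : Fintype Ω := Fintype.ofFinite Ω
  obtain ⟨σ, hσP, e, hσ⟩ := exists_coord (G := G) (Ω := Ω) hΩ P
  -- it is enough to have an inclusion
  have hidx : ∀ x : Ω, (stabilizer G x).index = p := by
    intro x; rw [index_stabilizer_of_transitive, hΩ]
  have heq : ∀ (x : Ω) (H' : Subgroup G), H'.index = p → H' ≤ stabilizer G x →
      H' = stabilizer G x := by
    intro x H' hH' hle
    apply Subgroup.eq_of_le_of_card_ge hle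
    have h1 := Subgroup.card_mul_index H'
    have h2 := Subgroup.card_mul_index (stabilizer G x)
    rw [hH'] at h1
    rw [hidx, ← h1] at h2
    exact (Nat.eq_of_mul_eq_mul_right hp.out.pos h2).le
  by_cases haff : ∀ g : G, ∃ a b : ZMod p, ∀ j, g • e j = e (a * j + b)
  · obtain ⟨x, hx⟩ := stabilizer_of_affine hΩ e haff H hH
    exact ⟨x, heq x H hH hx⟩
  · have h3 := three_transitive_of_even' hΩ P hσP e hσ haff heven
    have hp2 := two_lt_of_not_affine (G := G) e haff
    have hfin : Finite (G ⧸ H) := inferInstance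
    have hcard' : Nat.card (G ⧸ H) = p := hH
    obtain ⟨E, hE⟩ := exists_iso (G := G) (Ω := Ω) (Ω' := G ⧸ H) hΩ hcard' (not_sq_dvd hΩ)
    set a := e 0 with ha
    have hab : a ≠ e 1 := by
      intro h
      exact zero_ne_one (e.injective h)
    have h2ne : (2 : ZMod p) ≠ 0 := by
      intro h
      have : ((2 : ℕ) : ZMod p) = 0 := by exact_mod_cast h
      rw [ZMod.natCast_eq_zero_iff] at this
      have := Nat.le_of_dvd (by omega) this
      omega
    have hac : a ≠ e 2 := by
      intro h
      exact h2ne (e.injective h).symm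
    have hbc : e 1 ≠ e 2 := by
      intro h
      have h1 := e.injective h
      have h2 : (2 : ZMod p) = 1 + 1 := by norm_num
      rw [h2] at h1
      have : (1 : ZMod p) = 0 := by linear_combination (-1) * h1
      exact one_ne_zero this
    have h5 := le_five h3 hab hac hbc
    set L := stabilizer G a with hL
    have h6 : Nat.card (orbitRel.Quotient L ((G ⧸ H) × (G ⧸ H))) ≤ 5 := by
      refine le_trans (card_orbits_le (K := ZMod p) (L := L) E.toLinearMap E.surjective
        (fun g v => hE g.1 v) E.symm.toLinearMap E.symm.injective (fun g v => ?_)) h5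
      show E.symm (Cfsg.permRep (ZMod p) G (G ⧸ H) g.1 v) =
        Cfsg.permRep (ZMod p) G Ω g.1 (E.symm v)
      rw [LinearEquiv.symm_apply_eq, hE, LinearEquiv.apply_symm_apply]
    -- L has a fixed point on G ⧸ H
    obtain ⟨x, hx⟩ : ∃ x : G ⧸ H, ∀ g : L, g • x = x := by
      by_contra hcon
      push Not at hcon
      -- the orbit of a point
      let x0 : G ⧸ H := ((1 : G) : G ⧸ H)
      let D := orbit L x0
      have hD : ∀ (g : L) (x : G ⧸ H), x ∈ D ↔ g • x ∈ D := by
        intro g x
        constructor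
        · rintro ⟨k, rfl⟩
          exact ⟨g * k, mul_smul g k x0⟩
        · rintro ⟨k, hk⟩
          refine ⟨g⁻¹ * k, ?_⟩
          have hk' : k • x0 = g • x := hk
          show (g⁻¹ * k) • x0 = x
          rw [mul_smul, hk', inv_smul_smul]
      obtain ⟨g1, hg1⟩ := hcon x0
      have hDne : D ≠ Set.univ := by
        intro huniv
        have h7 := index_stabilizer L x0
        have h8 : (orbit L x0).ncard = p := by
          have : orbit L x0 = Set.univ := huniv
          rw [this, Set.ncard_univ, hcard']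
        rw [h8] at h7
        have h9 : p ∣ Nat.card L := by
          rw [← h7]; exact Subgroup.index_dvd_card _
        apply not_sq_dvd (G := G) hΩ
        rw [← Subgroup.card_mul_index L, hidx, sq]
        exact Nat.mul_dvd_mul_right h9 p
      obtain ⟨z, hz⟩ : ∃ z, z ∉ D := by
        by_contra hcon2
        push Not at hcon2
        exact hDne (Set.eq_univ_of_forall hcon2)
      obtain ⟨g2, hg2⟩ := hcon z
      have h7 := six_le (L := L) D hD (x := x0) (y := g1 • x0) (z := z) (w := g2 • z)
        (mem_orbit_self x0) ((hD g1 x0).mp (mem_orbit_self x0)) hz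
        (fun h => hz ((hD g2 z).mpr h)) (Ne.symm hg1) (Ne.symm hg2)
      exact absurd (le_trans h7 h6) (by norm_num)
    -- conclude
    obtain ⟨g, rfl⟩ := QuotientGroup.mk_surjective x
    have hLH : ∀ l ∈ L, g⁻¹ * l * g ∈ H := by
      intro l hl
      have h7 := hx ⟨l, hl⟩
      have h8 : ((l * g : G) : G ⧸ H) = (g : G ⧸ H) := h7
      have h9 := QuotientGroup.eq.mp h8.symm
      rwa [← mul_assoc] at h9
    -- stabilizer of g⁻¹ • a is ≤ H
    have hle : stabilizer G (g⁻¹ • a) ≤ H := by
      intro k hk
      have h7 : k • g⁻¹ • a = g⁻¹ • a := hk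
      have h8 : g * k * g⁻¹ ∈ L := by
        show (g * k * g⁻¹) • a = a
        rw [mul_smul, mul_smul, h7, smul_inv_smul]
      have h9 := hLH _ h8
      have h10 : g⁻¹ * (g * k * g⁻¹) * g = k := by group
      rwa [h10] at h9
    refine ⟨g⁻¹ • a, ?_⟩
    symm
    apply Subgroup.eq_of_le_of_card_ge hle
    have h11 := Subgroup.card_mul_index H
    have h12 := Subgroup.card_mul_index (stabilizer G (g⁻¹ • a))
    rw [hidx] at h12
    rw [hH, ← h12] at h11
    exact (Nat.eq_of_mul_eq_mul_right hp.out.pos h11).le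

end Cfsg.Agent.Lib.PrimeDegreeIndex
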