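import Mathlib
import Cfsg.Agent.Lib.Sesq14

/-! Numbers of totally isotropic subspaces of symplectic spaces. (helper99) -/

set_option autoImplicit false

namespace Cfsg.Agent.Lib.SpTI

open Polynomial Module Cfsg.Agent.Lib.InvSub Cfsg.Agent.Lib.PrimeOrd Cfsg.Agent.Lib.Sesq

section count

variable {F V : Type*} [Field F] [Fintype F] [AddCommGroup V] [Module F V] [FiniteDimensional F V] {B : V →ₗ[F] V →ₗ[F] F}

/-- totally isotropic independent families -/
def TF (B : V →ₗ[F] V →ₗ[F] F) (m : ℕ) : Type _ := {s : Fin m → V // LinearIndependent F s ∧ ∀ i j, B (s i) (s j) = 0}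

lemma card_sub (W : Submodule F V) : Nat.card W = Fintype.card F ^ finrank F W := by
  rw [Module.natCard_eq_pow_finrank (K := F), Nat.card_eq_fintype_card]

lemma card_diff {U W : Submodule F V} (h : U ≤ W) :
    Nat.card {v : V // v ∈ W ∧ v ∉ U} = Fintype.card F ^ finrank F W - Fintype.card F ^ finrank F U := by
  classical
  have hfin : Finite V := Module.finite_of_finite F
  have : Fintype V := Fintype.ofFinite V
  rw [← card_sub, ← card_sub, Nat.card_eq_fintype_card, Nat.card_eq_fintype_card, Nat.card_eq_fintype_card,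
    Fintype.card_subtype, Fintype.card_subtype, Fintype.card_subtype, ← Finset.card_sdiff_of_subset]
  · congr 1
    ext v
    simp
  · intro v hv
    simp only [Finset.mem_filter, Finset.mem_univ, true_and] at hv ⊢
    exact h hv

theorem card_TF (hB : Alt B) (hnd : ND (σ := RingHom.id F) B ⊤) (m : ℕ) :
    Nat.card (TF B m) = ∏ j ∈ Finset.range m, (Fintype.card F ^ (finrank F V - j) - Fintype.card F ^ j) := by
  classical
  have hfin : Finite V := Module.finite_of_finite F
  induction m with
  | zero =>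
    rw [Finset.prod_range_zero, Nat.card_eq_one_iff_unique]
    refine ⟨⟨fun a b => Subtype.ext (Subsingleton.elim _ _)⟩, ⟨⟨fun i => i.elim0, ?_, fun i => i.elim0⟩⟩⟩
    exact linearIndependent_empty_type
  | succ m ih =>
    rw [Finset.prod_range_succ, ← ih]
    have hfT : ∀ k, Finite (TF B k) := fun k => Subtype.finite
    have := hfT m
    have := hfT (m + 1)
    let f : TF B (m + 1) → TF B m := fun s => ⟨Fin.tail s.1, by
      have h := s.2.1
      rw [← Fin.cons_self_tail s.1, linearIndependent_finCons] at h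
      exact ⟨h.1, fun i j => s.2.2 _ _⟩⟩
    apply card_of_fiber f
    intro s
    set U := Submodule.span F (Set.range s.1) with hU
    have hUti : TI (σ := RingHom.id F) B U := ti_span (by rintro _ ⟨i, rfl⟩ _ ⟨j, rfl⟩; exact s.2.2 i j)
    have hle : U ≤ perp (σ := RingHom.id F) B U := ti_iff.mp hUti
    have hUf : finrank F U = m := by rw [hU, finrank_span_eq_card s.2.1, Fintype.card_fin]
    have hPf := finrank_add_perp (σ := RingHom.id F) hnd U
    have hPf' : finrank F (perp (σ := RingHom.id F) B U) = finrank F V - m := by omega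
    have hdf := card_diff hle
    rw [hPf', hUf] at hdf
    rw [← hdf]
    apply Nat.card_congr
    refine
      { toFun := fun t => ⟨t.1.1 0, ?_, ?_⟩
        invFun := fun v => ⟨⟨Fin.cons v.1 s.1, ?_, ?_⟩, ?_⟩
        left_inv := ?_
        right_inv := ?_ }
    · have ht : Fin.tail t.1.1 = s.1 := congrArg Subtype.val t.2
      intro w hw
      have h1 : ∀ w ∈ Submodule.span F (Set.range s.1), ∀ v ∈ Submodule.span F {t.1.1 0}, B w v = 0 := by
        apply orth_span (σ := RingHom.id F)
        rintro _ ⟨j, rfl⟩ _ rfl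
        rw [← ht]
        exact t.1.2.2 _ _
      exact h1 w hw _ (Submodule.mem_span_singleton_self _)
    · have ht : Fin.tail t.1.1 = s.1 := congrArg Subtype.val t.2
      have h := t.1.2.1
      rw [← Fin.cons_self_tail t.1.1, linearIndependent_finCons, ht] at h
      exact h.2
    · rw [linearIndependent_finCons]; exact ⟨s.2.1, v.2.2⟩
    · intro i j
      have hm : ∀ k, s.1 k ∈ U := fun k => Submodule.subset_span ⟨k, rfl⟩
      refine Fin.cases ?_ (fun i => ?_) i
      · refine Fin.cases ?_ (fun j => ?_) j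
        · exact hB _
        · exact hB.refl _ _ (v.2.1 _ (hm j))
      · refine Fin.cases ?_ (fun j => ?_) j
        · exact v.2.1 _ (hm i)
        · exact s.2.2 i j
    · apply Subtype.ext
      funext i
      rfl
    · intro t
      have ht : Fin.tail t.1.1 = s.1 := congrArg Subtype.val t.2
      apply Subtype.ext
      apply Subtype.ext
      change Fin.cons (t.1.1 0) s.1 = t.1.1
      rw [← ht]
      exact Fin.cons_self_tail _
    · intro v
      rfl

/-- the number of totally isotropic `m`-spaces -/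
theorem card_ti (hB : Alt B) (hnd : ND (σ := RingHom.id F) B ⊤) (m : ℕ) :
    Nat.card {W : Submodule F V // finrank F W = m ∧ (∀ u ∈ W, ∀ v ∈ W, B u v = 0)} *
      ∏ i : Fin m, (Fintype.card F ^ m - Fintype.card F ^ i.val) =
    ∏ j ∈ Finset.range m, (Fintype.card F ^ (finrank F V - j) - Fintype.card F ^ j) := by
  classical
  have hfin : Finite V := Module.finite_of_finite F
  have hfs : Finite (Submodule F V) := Finite.of_injective (fun W => (W : Set V)) SetLike.coe_injective
  rw [← card_TF hB hnd m]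
  symm
  have hfT : Finite (TF B m) := Subtype.finite
  let f : TF B m → {W : Submodule F V // finrank F W = m ∧ (∀ u ∈ W, ∀ v ∈ W, B u v = 0)} := fun s =>
    ⟨Submodule.span F (Set.range s.1), by rw [finrank_span_eq_card s.2.1, Fintype.card_fin],
      ti_span (σ := RingHom.id F) (by rintro _ ⟨i, rfl⟩ _ ⟨j, rfl⟩; exact s.2.2 i j)⟩
  apply card_of_fiber f
  intro W
  have hF : Fintype W.1 := Fintype.ofFinite _
  have h1 := card_linearIndependent (K := F) (V := W.1) (k := m) (by rw [W.2.1])
  rw [W.2.1] at h1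
  rw [← h1]
  apply Nat.card_congr
  refine
    { toFun := fun t => ⟨fun i => ⟨t.1.1 i, ?_⟩, ?_⟩
      invFun := fun s => ⟨⟨fun i => (s.1 i : V), ?_, ?_⟩, ?_⟩
      left_inv := fun t => rfl
      right_inv := fun s => rfl }
  · have : Submodule.span F (Set.range t.1.1) = W.1 := congrArg Subtype.val t.2
    rw [← this]; exact Submodule.subset_span ⟨i, rfl⟩
  · exact LinearIndependent.of_comp W.1.subtype t.1.2.1
  · exact s.2.map' W.1.subtype (Submodule.ker_subtype W.1)
  · intro i j; exact W.2.2 _ (s.1 i).2 _ (s.1 j).2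
  · apply Subtype.ext
    apply Submodule.eq_of_le_of_finrank_eq
    · apply Submodule.span_le.mpr
      rintro _ ⟨i, rfl⟩
      exact (s.1 i).2
    · have h2 : LinearIndependent F (fun i => (s.1 i : V)) := s.2.map' W.1.subtype (Submodule.ker_subtype W.1)
      exact (finrank_span_eq_card h2).trans (by rw [Fintype.card_fin, W.2.1])

end count

section arith

/-- cancelled form of the count -/
theorem ti_formula {q n m N : ℕ} (hq : 2 ≤ q) (hmn : 2 * m ≤ n)
    (h : N * ∏ i : Fin m, (q ^ m - q ^ i.val) = ∏ j ∈ Finset.range m, (q ^ (n - j) - q ^ j)) :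
    N * ∏ j ∈ Finset.range m, (q ^ (m - j) - 1) = ∏ j ∈ Finset.range m, (q ^ (n - 2 * j) - 1) := by
  have h1 : ∏ i : Fin m, (q ^ m - q ^ i.val) = (∏ j ∈ Finset.range m, q ^ j) * ∏ j ∈ Finset.range m, (q ^ (m - j) - 1) := by
    rw [Fin.prod_univ_eq_prod_range (fun i => q ^ m - q ^ i) m, ← Finset.prod_mul_distrib]
    apply Finset.prod_congr rfl
    intro i hi
    rw [Finset.mem_range] at hi
    rw [Nat.mul_sub, mul_one, ← pow_add]
    congr 2
    omega
  have h2 : ∏ j ∈ Finset.range m, (q ^ (n - j) - q ^ j) = (∏ j ∈ Finset.range m, q ^ j) * ∏ j ∈ Finset.range m, (q ^ (n - 2 * j) - 1) := by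
    rw [← Finset.prod_mul_distrib]
    apply Finset.prod_congr rfl
    intro i hi
    rw [Finset.mem_range] at hi
    rw [Nat.mul_sub, mul_one, ← pow_add]
    congr 2
    omega
  rw [h1, h2] at h
  have hpos : 0 < ∏ j ∈ Finset.range m, q ^ j := Finset.prod_pos fun _ _ => Nat.pow_pos (by omega)
  apply Nat.eq_of_mul_eq_mul_left hpos
  rw [← h]; ring

variable {F : Type*} [Field F] [Fintype F] {p r : ℕ} [Fact p.Prime] [CharP F p] [Fact r.Prime]

theorem not_p_dvd {n m N : ℕ} (hmn : 2 * m ≤ n) 
    (h : N * ∏ j ∈ Finset.range m, (Fintype.card F ^ (m - j) - 1) = ∏ j ∈ Finset.range m, (Fintype.card F ^ (n - 2 * j) - 1)) (hr : r ∣ N) :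
    r ≠ p := by
  rintro rfl
  have h1 : r ∣ ∏ j ∈ Finset.range m, (Fintype.card F ^ (n - 2 * j) - 1) := by rw [← h]; exact Dvd.dvd.mul_right hr _
  obtain ⟨j, hj, h2⟩ := (Prime.dvd_finsetProd_iff (Fact.out : r.Prime).prime _).mp h1
  rw [Finset.mem_range] at hj
  obtain ⟨k, hk, hc⟩ := FiniteField.card F r
  have h3 : r ∣ Fintype.card F ^ (n - 2 * j) := by
    rw [hc, ← pow_mul]
    apply dvd_pow_self
    have := k.pos
    apply Nat.mul_ne_zero
    · omega
    · omega
  have h4 : 1 ≤ Fintype.card F ^ (n - 2 * j) := Nat.one_le_pow _ _ Fintype.card_pos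
  have h5 : r ∣ Fintype.card F ^ (n - 2 * j) - (Fintype.card F ^ (n - 2 * j) - 1) := Nat.dvd_sub h3 h2
  have h6 : Fintype.card F ^ (n - 2 * j) - (Fintype.card F ^ (n - 2 * j) - 1) = 1 := by omega
  rw [h6] at h5
  exact (Fact.out : r.Prime).one_lt.ne' (Nat.dvd_one.mp h5)

theorem csz_of_dvd {d m N : ℕ} (hmd : m ≤ d) (hm : 0 < m)
    (h : N * ∏ j ∈ Finset.range m, (Fintype.card F ^ (m - j) - 1) = ∏ j ∈ Finset.range m, (Fintype.card F ^ (2 * d - 2 * j) - 1))
    (hr : r ∣ N) : csz F r ≤ 2 * d ∧ ¬ (2 * m ≤ (2 * d) % csz F r) := by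
  have h1 : r ∣ ∏ j ∈ Finset.range m, (Fintype.card F ^ (2 * d - 2 * j) - 1) := by rw [← h]; exact Dvd.dvd.mul_right hr _
  obtain ⟨j, hj, h2⟩ := (Prime.dvd_finsetProd_iff (Fact.out : r.Prime).prime _).mp h1
  rw [Finset.mem_range] at hj
  have h3 := SubspaceCount.orderOf_dvd_of_dvd Fintype.card_pos h2
  have h4 : 2 * d - 2 * j = 2 * (d - j) := by omega
  rw [h4, ← csz_dvd_iff] at h3
  obtain ⟨u, hu⟩ := h3
  have hc0 : 0 < csz F r := by
    rcases Nat.eq_zero_or_pos (csz F r) with h0 | h0
    · rw [h0] at hu; omega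
    · exact h0
  have hu0 : 0 < u := by
    rcases Nat.eq_zero_or_pos u with h0 | h0
    · rw [h0] at hu; omega
    · exact h0
  have h5 : csz F r * 1 ≤ csz F r * u := Nat.mul_le_mul_left _ hu0
  refine ⟨by omega, fun hmod => ?_⟩
  have h7 := Nat.div_add_mod (2 * d) (csz F r)
  have h8 := Nat.mod_lt (2 * d) hc0
  have h9 : csz F r * (2 * d / csz F r) < csz F r * u := by omega
  have h10 : 2 * d / csz F r < u := Nat.lt_of_mul_lt_mul_left h9
  have h11 : csz F r * (2 * d / csz F r + 1) ≤ csz F r * u := Nat.mul_le_mul_left _ h10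
  rw [Nat.mul_add, mul_one] at h11
  omega

end arith

end Cfsg.Agent.Lib.SpTI
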