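import Mathlib
import Cfsg.Agent.Lib.SpTI4
import Cfsg.Agent.Lib.SpTI2

/-! The criterion for totally isotropic subspaces. (helper99) -/

set_option autoImplicit false

namespace Cfsg.Agent.Lib.SpTI

open Polynomial Module Cfsg.Agent.Lib.InvSub Cfsg.Agent.Lib.PrimeOrd Cfsg.Agent.Lib.Sesq

universe u

/-- invariant totally isotropic subspaces -/
def TIFix {F V : Type*} [Field F] [AddCommGroup V] [Module F V] (B : V →ₗ[F] V →ₗ[F] F) (T : Module.End F V) (m : ℕ) : Prop :=
  ∃ W : Submodule F V, Inv T W ∧ TI (σ := RingHom.id F) B W ∧ finrank F W = m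

section odd

variable {F : Type u} [Field F] [Fintype F] {p r : ℕ} [Fact p.Prime] [CharP F p] [Fact r.Prime]

lemma T_ne_one {d : ℕ} {T : Module.End F (Fin d ⊕ Fin d → F)} {e : ℕ} (h : finrank F (E T 1) = e) (he : e ≠ 2 * d) : T ≠ 1 := by
  rintro rfl
  have hE1 : E (1 : Module.End F (Fin d ⊕ Fin d → F)) 1 = ⊤ := by
    rw [eq_top_iff]
    intro x _
    rw [Module.End.mem_eigenspace_iff, one_smul]; rfl
  rw [hE1, finrank_top, finrank_jb] at h
  exact he h.symm

theorem odd_ti_iff (hrp : r ≠ p) (hro : Odd r) {d m i : ℕ} (hm1 : 1 ≤ m) (hmd : m ≤ d)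
    (hi : i = orderOf ((Fintype.card F : ℕ) : ZMod r))
    (hcle : csz F r ≤ 2 * d) (hnot : ¬ (2 * m ≤ (2 * d) % csz F r)) :
    (∀ T : Module.End F (Fin d ⊕ Fin d → F), PO F p r (AltSim.JB (F := F) d) T → T ≠ 1 → TIFix (AltSim.JB (F := F) d) T m) ↔
      (i ≤ m ∧ 2 * (m % i) ≤ (2 * d) % csz F r ∧ (Odd i ∨ (r - 1) / i + 2 * (m / i) ≤ (2 * d) / i)) := by
  have hrP : r.Prime := Fact.out
  have hi0 : 0 < i := by rw [hi]; exact order_pos (F := F) (p := p) hrp
  have hmi := Nat.div_add_mod' m i
  rcases Nat.even_or_odd i with he | ho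
  · -- `i` even
    have hcsz : csz F r = i := by unfold csz csize; rw [← hi, if_pos he]
    rw [hcsz] at hcle hnot ⊢
    have hir : i ∣ r - 1 := by rw [← hcsz]; exact csz_dvd_sub_one (p := p) hrp hro
    obtain ⟨t, ht⟩ := hir
    have ht' : (r - 1) / i = t := by rw [ht, Nat.mul_div_cancel_left _ hi0]
    have ht0 : 1 ≤ t := by
      rcases Nat.eq_zero_or_pos t with h | h
      · rw [h, mul_zero] at ht
        have := hrP.two_le
        omega
      · exact h
    have hdi := Nat.div_add_mod' (2 * d) i
    have hmodlt := Nat.mod_lt (2 * d) hi0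
    have hmimod := Nat.mod_lt m hi0
    obtain ⟨i', hi'⟩ := he
    have hkeven : ∃ k, (2 * d) % i = 2 * k := by
      refine ⟨(2 * d) % i / 2, ?_⟩
      have : (2 * d) % i = 2 * (d % i') := by
        rw [hi', ← two_mul, Nat.mul_mod_mul_left]
      omega
    obtain ⟨k, hk⟩ := hkeven
    have he : Even (orderOf ((Fintype.card F : ℕ) : ZMod r)) := by rw [← hi]; exact ⟨i', hi'⟩
    rw [ht']
    have hn1 : 1 ≤ 2 * d / i := Nat.div_pos hcle hi0
    constructor
    · intro H
      -- general consequence of special elements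
      have key : ∀ o s k₀ : ℕ, o ≤ t → 2 * k₀ + (o + 2 * s) * i = 2 * d → k₀ < i → k₀ ≠ d → m % i ≤ k₀ ∧ m / i ≤ s := by
        intro o s k₀ hot hkd hk₀ hk₀d
        obtain ⟨T, hT, hTf, hb⟩ := exists_special (F := F) (p := p) hrp hro he (o := o) (s := s) (k := k₀) (d := d) (by
          rw [← hi, ht, mul_comm]; exact Nat.mul_le_mul_left _ hot) (by rw [← hi]; exact hkd)
        obtain ⟨W, hW, hWti, hWf⟩ := H T hT (T_ne_one hTf (by omega))
        obtain ⟨e', s', h1, h2, h3⟩ := hb W hW hWti
        rw [hWf, ← hi] at h1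
        have h4 : m % i = e' := by rw [h1, Nat.add_mul_mod_self_right, Nat.mod_eq_of_lt (by omega)]
        have h5 : m / i = s' := by
          rw [h1, Nat.add_mul_div_right _ _ hi0, Nat.div_eq_of_lt (by omega), zero_add]
        rw [h4, h5]
        exact ⟨h2, h3⟩
      -- choose o and s with o + 2 s = n'
      have hmain : m % i ≤ k ∧ (2 * d / i < t → m / i ≤ 0) ∧ ((2 * d / i) % 2 = t % 2 → t ≤ 2 * d / i → 2 * (m / i) + t ≤ 2 * d / i) := by
        have hkd : k ≠ d := by
          intro h0
          have : 1 * i ≤ 2 * d / i * i := Nat.mul_le_mul_right _ hn1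
          omega
        rcases Nat.lt_or_ge (2 * d / i) t with hlt | hge
        · have h1 := key (2 * d / i) 0 k hlt.le (by rw [mul_zero, add_zero]; omega) (by omega) hkd
          exact ⟨h1.1, fun _ => h1.2, fun _ h => absurd h (by omega)⟩
        · by_cases hpar : (2 * d / i) % 2 = t % 2
          · have h1 := key t ((2 * d / i - t) / 2) k le_rfl (by
              have : t + 2 * ((2 * d / i - t) / 2) = 2 * d / i := by omega
              rw [this]; omega) (by omega) hkd
            exact ⟨h1.1, fun h => absurd h (by omega), fun _ _ => by omega⟩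
          · have h1 := key (t - 1) ((2 * d / i - (t - 1)) / 2) k (by omega) (by
              have : t - 1 + 2 * ((2 * d / i - (t - 1)) / 2) = 2 * d / i := by omega
              rw [this]; omega) (by omega) hkd
            exact ⟨h1.1, fun h => absurd h (by omega), fun h => absurd h hpar⟩
      obtain ⟨hm1', hm2, hm3⟩ := hmain
      have him : i ≤ m := by
        by_contra hlt
        push Not at hlt
        rw [Nat.mod_eq_of_lt hlt] at hm1'
        exact hnot (by omega)
      have hmi1 : 1 ≤ m / i := Nat.div_pos him hi0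
      refine ⟨him, by omega, Or.inr ?_⟩
      rcases Nat.lt_or_ge (2 * d / i) t with hlt | hge
      · have := hm2 hlt; omega
      · by_cases hpar : (2 * d / i) % 2 = t % 2
        · have := hm3 hpar hge; omega
        · have hge' : t + 1 ≤ 2 * d / i := by omega
          have h6 : (2 * d / i - 1) * i + i = 2 * d / i * i := by
            rw [← Nat.succ_mul]; congr 1; omega
          have h1 := key t ((2 * d / i - 1 - t) / 2) (k + i') le_rfl (by
              have : t + 2 * ((2 * d / i - 1 - t) / 2) = 2 * d / i - 1 := by omega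
              rw [this]; omega) (by omega) (by
              intro h0
              have h7 : 1 * i ≤ (2 * d / i - 1) * i := Nat.mul_le_mul_right _ (by omega)
              omega)
          omega
    · rintro ⟨him, hmod, hor⟩ T hT hT1
      have htn : t + 2 * (m / i) ≤ 2 * d / i := by
        rcases hor with h | h
        · exfalso
          rw [← Nat.not_even_iff_odd] at h
          exact h ⟨i', hi'⟩
        · exact h
      obtain ⟨s, hty⟩ := hT.exists_ty (W := ⊤) (fun _ _ => trivial) (jb_nd d)
      have hes := hty.f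
      rw [finrank_top, finrank_jb, hcsz, top_inf_eq] at hes
      have hemod : (2 * d) % i ≤ finrank F (E T 1) := by
        rw [hes, Nat.add_mul_mod_self_right]
        exact Nat.mod_le _ _
      have hE2 : 2 * d - finrank F (E T 1) = s * i := by omega
      obtain ⟨s', e', hs', he', hse⟩ : ∃ s' e', (s' = 0 ∨ t + 2 * (s' - 1) < s) ∧ 2 * e' ≤ finrank F (E T 1) ∧ m = e' + s' * i := by
        by_cases hcase : m / i = 0 ∨ t + 2 * (m / i - 1) < s
        · exact ⟨m / i, m % i, hcase, by omega, by omega⟩
        · -- s' = smax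
          push Not at hcase
          obtain ⟨hc1, hc2⟩ := hcase
          have hsm : ∃ sm, (sm = 0 ∨ t + 2 * (sm - 1) < s) ∧ sm ≤ m / i ∧ s ≤ t + 2 * sm := by
            by_cases h1 : t ≤ s + 1
            · exact ⟨(s + 1 - t) / 2, by omega, by omega, by omega⟩
            · exact ⟨0, Or.inl rfl, Nat.zero_le _, by omega⟩
          obtain ⟨sm, hsm1, hsm2, hsm3⟩ := hsm
          have h2 : sm * i ≤ m / i * i := Nat.mul_le_mul_right _ hsm2
          refine ⟨sm, m - sm * i, hsm1, ?_, by omega⟩
          have h3 : s * i ≤ (t + 2 * sm) * i := Nat.mul_le_mul_right _ hsm3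
          have h4 : (t + 2 * (m / i)) * i ≤ 2 * d / i * i := Nat.mul_le_mul_right _ htn
          have h5 : (t + 2 * sm) * i = t * i + 2 * (sm * i) := by ring
          have h6 : (t + 2 * (m / i)) * i = t * i + 2 * (m / i * i) := by ring
          omega
      obtain ⟨X, hX, hXti, hXf⟩ := exists_ti hT (e' := e') (s' := s') he' (by
        rw [← hi, if_pos ⟨i', hi'⟩, finrank_jb, hE2, ht]
        rcases hs' with h | h
        · exact Or.inl h
        · right
          have h3 : i * (t + 2 * (s' - 1)) < i * s := Nat.mul_lt_mul_of_pos_left h hi0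
          have h4 : i * (t + 2 * (s' - 1)) = i * t + 2 * i * (s' - 1) := by ring
          rw [mul_comm s i]; omega)
      exact ⟨X, hX, hXti, by rw [hXf, ← hi, ← hse]⟩
  · -- `i` odd
    have hne : ¬ Even i := Nat.not_even_iff_odd.mpr ho
    have hcsz : csz F r = 2 * i := by unfold csz csize; rw [← hi, if_neg hne]
    rw [hcsz] at hcle hnot ⊢
    have hdi := Nat.div_add_mod' (2 * d) (2 * i)
    have hmodlt := Nat.mod_lt (2 * d) (show 0 < 2 * i by omega)
    have hmimod := Nat.mod_lt m hi0
    constructor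
    · intro H
      obtain ⟨T, hT, hTf⟩ := exists_po (F := F) (p := p) Fact.out inferInstance hrP hrp hro (2 * d / (2 * i)) (jb_alt (F := F) d) (jb_nd d) (by
        rw [finrank_jb, hcsz]; exact Nat.div_mul_le_self _ _)
      rw [finrank_jb, hcsz] at hTf
      have hn1 : 1 ≤ 2 * d / (2 * i) := Nat.div_pos hcle (by omega)
      have h7 : 1 * (2 * i) ≤ 2 * d / (2 * i) * (2 * i) := Nat.mul_le_mul_right _ hn1
      obtain ⟨W, hW, hWti, hWf⟩ := H T hT (T_ne_one rfl (by omega))
      obtain ⟨W₂, -, -, -, e', s', h1, h2, h3⟩ := ti_dim hT hW hWti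
      rw [hWf, ← hi] at h3
      have h4 : m % i = e' := by rw [h3, Nat.add_mul_mod_self_right, Nat.mod_eq_of_lt (by omega)]
      have h5 : 2 * (m % i) ≤ 2 * d % (2 * i) := by omega
      refine ⟨?_, h5, Or.inl ho⟩
      by_contra hlt
      push Not at hlt
      rw [Nat.mod_eq_of_lt hlt] at h5
      exact hnot h5
    · rintro ⟨him, hmod, -⟩ T hT hT1
      obtain ⟨s, hty⟩ := hT.exists_ty (W := ⊤) (fun _ _ => trivial) (jb_nd d)
      have hes := hty.f
      rw [finrank_top, finrank_jb, hcsz, top_inf_eq] at hes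
      have hemod : (2 * d) % (2 * i) ≤ finrank F (E T 1) := by
        rw [hes, Nat.add_mul_mod_self_right]
        exact Nat.mod_le _ _
      have hE2 : 2 * d - finrank F (E T 1) = s * (2 * i) := by omega
      obtain ⟨s', e', hs', he', hse⟩ : ∃ s' e', s' ≤ s ∧ 2 * e' ≤ finrank F (E T 1) ∧ m = e' + s' * i := by
        by_cases hcase : m / i ≤ s
        · exact ⟨m / i, m % i, hcase, by omega, by omega⟩
        · push Not at hcase
          have h1 : s * i ≤ m / i * i := Nat.mul_le_mul_right _ hcase.le
          have h2 : s * (2 * i) = 2 * (s * i) := by ring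
          exact ⟨s, m - s * i, le_rfl, by omega, by omega⟩
      obtain ⟨X, hX, hXti, hXf⟩ := exists_ti hT (e' := e') (s' := s') he' (by
        rw [← hi, if_neg hne, finrank_jb, hE2]
        right
        rw [mul_comm s]
        exact Nat.mul_le_mul_left _ hs')
      exact ⟨X, hX, hXti, by rw [hXf, ← hi, ← hse]⟩

end odd

end Cfsg.Agent.Lib.SpTI
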