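import Mathlib
import Cfsg.Agent.Lib.SpTI5

/-! Involutions and totally isotropic subspaces in odd characteristic. (helper99) -/

set_option autoImplicit false

namespace Cfsg.Agent.Lib.SpTI

open Polynomial Module Cfsg.Agent.Lib.InvSub Cfsg.Agent.Lib.PrimeOrd Cfsg.Agent.Lib.Sesq

universe u

variable {F V : Type*} [Field F] [Fintype F] [AddCommGroup V] [Module F V] [FiniteDimensional F V] {B : V →ₗ[F] V →ₗ[F] F}
  {T : Module.End F V}

omit [Fintype F] in
lemma compl_of_sq (h2 : (2 : F) ≠ 0) {z : F} (hz : z ≠ 0) (hTT : T * T = z • (1 : Module.End F V)) :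
    ∀ W : Submodule F V, Inv T W → ∃ W' : Submodule F V, Inv T W' ∧ IsCompl W W' := by
  intro W hW
  have hsep : (X ^ 2 - C z : F[X]).Separable := separable_X_pow_sub_C z (by exact_mod_cast h2) hz
  have hP : aeval T (X ^ 2 - C z : F[X]) = 0 := by
    rw [map_sub, map_pow, aeval_X, aeval_C, pow_two, hTT, sub_eq_zero]
    rfl
  have hs := Module.End.isSemisimple_of_squarefree_aeval_eq_zero hsep.squarefree hP
  rw [Module.End.isSemisimple_iff] at hs
  obtain ⟨W', h1, h2⟩ := hs W (fun x hx => hW x hx)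
  exact ⟨W', fun x hx => h1 hx, h2⟩

/-- if every invariant subspace contains an eigenvector -/
theorem tifix_of_eig (hB : Alt B) (hnd : ND (σ := RingHom.id F) B ⊤) (hT : Iso (σ := RingHom.id F) B T)
    (hcompl : ∀ W : Submodule F V, Inv T W → ∃ W' : Submodule F V, Inv T W' ∧ IsCompl W W')
    (heig : ∀ W : Submodule F V, Inv T W → W ≠ ⊥ → ∃ u ∈ W, u ≠ 0 ∧ ∃ c : F, T u = c • u) {m : ℕ} (hm : 2 * m ≤ finrank F V) :
    TIFix B T m := by
  obtain ⟨X, -, h1, h2, h3⟩ := ti_mult hB hnd hT hcompl (i := 1) (b := 0) (fun _ => True) (fun _ _ _ _ => trivial) (by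
    intro W hW hWnd _ hpos
    obtain ⟨u, hu, hu0, c, hc⟩ := heig W hW (by rintro rfl; rw [finrank_bot] at hpos; omega)
    have hle : Submodule.span F {u} ≤ W := by rw [Submodule.span_singleton_le_iff_mem]; exact hu
    refine ⟨Submodule.span F {u}, hle, ?_, ?_, finrank_span_singleton hu0⟩
    · apply inv_span
      rintro _ rfl
      rw [hc]; exact Submodule.smul_mem _ _ (Submodule.mem_span_singleton_self _)
    · intro x hx y hy
      obtain ⟨a, rfl⟩ := Submodule.mem_span_singleton.mp hx
      obtain ⟨b, rfl⟩ := Submodule.mem_span_singleton.mp hy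
      rw [map_smul, map_smul, LinearMap.smul_apply, hB u, smul_zero, smul_zero]) m ⊤ (fun _ _ => trivial) hnd trivial (by
    rw [finrank_top]; omega)
  exact ⟨X, h1, h2, by rw [h3, mul_one]⟩

/-- the case `T² = -1` without eigenvectors -/
theorem tifix_of_neg (hB : Alt B) (hnd : ND (σ := RingHom.id F) B ⊤) (hT : Iso (σ := RingHom.id F) B T) (h2 : (2 : F) ≠ 0)
    (hTT : T * T = -1) (hsq : ¬ IsSquare (-1 : F)) {m : ℕ} (hme : Even m) (hm : 2 * m ≤ finrank F V) : TIFix B T m := by
  have hTTv : ∀ u, T (T u) = -u := fun u => congrArg (fun f : Module.End F V => f u) hTT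
  obtain ⟨k, hk⟩ := hme
  obtain ⟨X, -, h1, h3, h4⟩ := ti_mult hB hnd hT (compl_of_sq h2 (z := -1) (neg_ne_zero.mpr one_ne_zero) (by
      rw [hTT]; apply LinearMap.ext; intro v; simp)) (i := 2) (b := 2) (fun _ => True) (fun _ _ _ _ => trivial) (by
    intro W hW hWnd _ hpos
    obtain ⟨u, hu, hu0, hQ⟩ := exists_common_zero (n := 1) (fun _ => B ∘ₗ T) W (by omega)
    have huT : B (T u) u = 0 := hQ 0
    have hTu : T u ∈ W := hW u hu
    have hli : LinearIndependent F ![u, T u] := by
      rw [LinearIndependent.pair_iff]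
      intro a b hab
      by_cases hb : b = 0
      · rw [hb, zero_smul, add_zero] at hab
        exact ⟨(smul_eq_zero.mp hab).resolve_right hu0, hb⟩
      · exfalso
        have h5 : T u = (-(a / b)) • u := by
          have h6 : b • T u = -(a • u) := eq_neg_of_add_eq_zero_right hab
          rw [neg_smul, div_eq_inv_mul, mul_smul, ← smul_neg, ← h6, smul_smul, inv_mul_cancel₀ hb, one_smul]
        have h7 := hTTv u
        rw [h5, map_smul, h5, smul_smul] at h7
        have h8 : (-(a / b) * -(a / b) + 1) • u = 0 := by rw [add_smul, one_smul, h7]; abel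
        have h9 := (smul_eq_zero.mp h8).resolve_right hu0
        exact hsq ⟨-(a / b), by linear_combination -h9⟩
    have hr : Set.range ![u, T u] = {u, T u} := by
      rw [Matrix.range_cons, Matrix.range_cons, Matrix.range_empty, Set.union_empty, Set.singleton_union]
    refine ⟨Submodule.span F {u, T u}, ?_, ?_, ?_, ?_⟩
    · rw [Submodule.span_le]
      rintro x (rfl | rfl)
      · exact hu
      · exact hTu
    · apply inv_span
      rintro x (rfl | rfl)
      · exact Submodule.subset_span (by simp)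
      · rw [hTTv]; exact Submodule.neg_mem _ (Submodule.subset_span (by simp))
    · apply ti_span
      rintro a (rfl | rfl) b (rfl | rfl)
      · exact hB _
      · exact hB.refl _ _ huT
      · exact huT
      · exact hB _
    · rw [← hr, finrank_span_eq_card hli, Fintype.card_fin]) k ⊤ (fun _ _ => trivial) hnd trivial (by
    rw [finrank_top]; omega)
  exact ⟨X, h1, h3, by rw [h4]; omega⟩

omit [Fintype F] in
/-- invariant subspaces of `T² = -1` have even dimension -/
lemma even_of_neg (hTT : T * T = -1) (hsq : ¬ IsSquare (-1 : F)) {W : Submodule F V} (hW : Inv T W) : Even (finrank F W) := by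
  by_contra hodd
  rw [Nat.not_even_iff_odd] at hodd
  apply hsq
  let S : Module.End F W := T.restrict hW
  have hS : S * S = -1 := by
    apply LinearMap.ext
    intro x
    apply Subtype.ext
    exact congrArg (fun f : Module.End F V => f (x : V)) hTT
  have h1 := congrArg LinearMap.det hS
  rw [map_mul] at h1
  have h2 : LinearMap.det (-1 : Module.End F W) = -1 := by
    have : (-1 : Module.End F W) = (-1 : F) • (1 : Module.End F W) := by apply LinearMap.ext; intro v; simp
    rw [this, LinearMap.det_smul, map_one, mul_one, hodd.neg_one_pow]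
  rw [h2] at h1
  exact ⟨_, h1.symm⟩

/-- the criterion for `r = 2` -/
theorem two_ti_iff {d m : ℕ} (h2 : (2 : F) ≠ 0) (hmd : m ≤ d) (hd : 1 ≤ d) :
    (∀ x : ↥(Matrix.symplecticGroup (Fin d) F),
      (∃ z : F, ((x ^ 2 : ↥(Matrix.symplecticGroup (Fin d) F)) : Matrix (Fin d ⊕ Fin d) (Fin d ⊕ Fin d) F) = z • (1 : Matrix (Fin d ⊕ Fin d) (Fin d ⊕ Fin d) F)) →
      (∀ z : F, (x : Matrix (Fin d ⊕ Fin d) (Fin d ⊕ Fin d) F) ≠ z • (1 : Matrix (Fin d ⊕ Fin d) (Fin d ⊕ Fin d) F)) →
      TIFix (AltSim.JB (F := F) d) (Matrix.toLin' (x : Matrix (Fin d ⊕ Fin d) (Fin d ⊕ Fin d) F)) m) ↔ (Even m ∨ Fintype.card F % 4 = 1) := by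
  have hqodd : Fintype.card F % 4 = 1 ∨ Fintype.card F % 4 = 3 := by
    have : Fintype.card F % 2 = 1 := by
      apply FiniteField.odd_card_of_char_ne_two
      intro h
      haveI : CharP F 2 := h ▸ ringChar.charP F
      exact h2 CharTwo.two_eq_zero
    omega
  have hsqiff : IsSquare (-1 : F) ↔ Fintype.card F % 4 ≠ 3 := FiniteField.isSquare_neg_one_iff
  constructor
  · intro H
    by_contra hcon
    push Not at hcon
    have hsq : ¬ IsSquare (-1 : F) := by rw [hsqiff]; omega
    -- the standard element J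
    let x : ↥(Matrix.symplecticGroup (Fin d) F) := ⟨Matrix.J (Fin d) F, SymplecticGroup.J_mem _ _⟩
    have hx : (x : Matrix (Fin d ⊕ Fin d) (Fin d ⊕ Fin d) F) * x = -1 := Matrix.J_squared (Fin d) F
    have hne : Nonempty (Fin d ⊕ Fin d) := ⟨Sum.inl ⟨0, by omega⟩⟩
    have hTT : (Matrix.toLin' (x : Matrix (Fin d ⊕ Fin d) (Fin d ⊕ Fin d) F)) * (Matrix.toLin' (x : Matrix (Fin d ⊕ Fin d) (Fin d ⊕ Fin d) F)) = -1 := by
      have h3 := congrArg Matrix.toLin' hx
      rw [Matrix.toLin'_mul, map_neg, Matrix.toLin'_one] at h3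
      exact h3
    obtain ⟨W, hW, -, hWf⟩ := H x ⟨-1, by
        rw [pow_two]
        change (x : Matrix (Fin d ⊕ Fin d) (Fin d ⊕ Fin d) F) * x = _
        rw [hx, neg_smul, one_smul]⟩ (by
      intro z hz
      rw [hz] at hx
      apply hsq
      have h3 := congrFun (congrFun hx (Sum.inl ⟨0, by omega⟩)) (Sum.inl ⟨0, by omega⟩)
      simp only [Matrix.smul_mul, Matrix.mul_smul, Matrix.one_mul, Matrix.smul_apply, Matrix.neg_apply, Matrix.one_apply_eq, smul_eq_mul,
        mul_one] at h3
      exact ⟨z, h3.symm⟩)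
    have := even_of_neg hTT hsq hW
    rw [hWf] at this
    exact (Nat.not_even_iff_odd.mpr (by simpa using hcon.1)) this
  · rintro hcond x ⟨z, hz⟩ hx2
    have hne : Nonempty (Fin d ⊕ Fin d) := ⟨Sum.inl ⟨0, by omega⟩⟩
    have hSi := jb_iso x.2
    set T : Module.End F (Fin d ⊕ Fin d → F) := Matrix.toLin' (x : Matrix (Fin d ⊕ Fin d) (Fin d ⊕ Fin d) F) with hT
    have hSr : T ^ 2 = z • (1 : Module.End F _) := by
      rw [hT, ← toLin_pow, ← scalar_iff]; exact hz
    have hz2 : z ^ 2 = 1 := sq_scalar (jb_nd d) hSi hSr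
    rw [pow_two] at hSr
    have hz0 : z ≠ 0 := by
      rintro rfl
      rw [zero_pow (by norm_num)] at hz2
      exact zero_ne_one hz2
    have hz3 : z = 1 ∨ z = -1 := by
      rw [pow_two] at hz2
      exact mul_self_eq_one_iff.mp hz2
    have heig : IsSquare z → TIFix (AltSim.JB (F := F) d) T m := by
      rintro ⟨y, hy⟩
      apply tifix_of_eig (jb_alt d) (jb_nd d) hSi (compl_of_sq h2 hz0 hSr) _ (by rw [finrank_jb]; omega)
      intro W hW hWne
      obtain ⟨u, hu, hu0⟩ := Submodule.exists_mem_ne_zero_of_ne_bot hWne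
      by_cases h3 : T u - y • u = 0
      · exact ⟨u, hu, hu0, y, sub_eq_zero.mp h3⟩
      · refine ⟨T u - y • u, W.sub_mem (hW u hu) (W.smul_mem _ hu), h3, -y, ?_⟩
        have h4 : T (T u) = z • u := congrArg (fun f : Module.End F _ => f u) hSr
        rw [map_sub, map_smul, h4, hy, neg_smul, smul_sub, smul_smul]
        abel
    rcases hz3 with h | h
    · exact heig (by rw [h]; exact ⟨1, by ring⟩)
    · by_cases hsq : IsSquare (-1 : F)
      · exact heig (by rw [h]; exact hsq)
      · have hme : Even m := by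
          rcases hcond with h3 | h3
          · exact h3
          · exfalso
            apply hsq
            rw [hsqiff]; omega
        exact tifix_of_neg (jb_alt d) (jb_nd d) hSi h2 (by rw [hSr, h]; apply LinearMap.ext; intro v; simp) hsq hme (by rw [finrank_jb]; omega)

end Cfsg.Agent.Lib.SpTI
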