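import Cfsg.Agent.Lib.Sesq13
import Cfsg.Agent.Lib.FormConj2
import Cfsg.Agent.Lib.ElusiveTool
import Cfsg.Agent.Lib.SpTI6

/-! # Conjugacy in the symplectic group `spGL` -/

set_option autoImplicit false

namespace Cfsg.Agent.Lib.SpConj

open Cfsg.Agent.Lib.InvSub Cfsg.Agent.Lib.PrimeOrd Cfsg.Agent.Lib.Sesq Module Matrix
open Cfsg.Agent.Lib.AltSim (JB)

section abstract_part

variable {F V : Type*} [Field F] [AddCommGroup V] [Module F V] {B : V →ₗ[F] V →ₗ[F] F}

/-- conjugate semisimple isometries are conjugate by an isometry -/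
theorem conj_iso [Finite F] [FiniteDimensional F V] (hB : Alt B) (hnd : ND (σ := RingHom.id F) B ⊤)
    {T S : Module.End F V} (hT : Iso (σ := RingHom.id F) B T) (hS : Iso (σ := RingHom.id F) B S)
    (hss : ∀ (l : F), l * l = 1 → ∀ x, T (T x - l • x) = l • (T x - l • x) → T x = l • x)
    (g : V ≃ₗ[F] V) (hg : ∀ v, g (T v) = S (g v)) :
    ∃ h : V ≃ₗ[F] V, Iso (σ := RingHom.id F) B (h : V →ₗ[F] V) ∧ ∀ v, h (T v) = S (h v) := by
  let B' : V →ₗ[F] V →ₗ[F] F := B.compl₁₂ (g : V →ₗ[F] V) (g : V →ₗ[F] V)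
  have hB' : ∀ x y, B' x y = B (g x) (g y) := fun x y => rfl
  obtain ⟨c, hc, hcT⟩ := Cfsg.Agent.Lib.FormConj2.exists_alt B B' hB (fun x => hB (g x))
    (fun x hx => hnd x Submodule.mem_top (fun y _ => hx y)) (by
      intro x hx
      apply g.injective
      rw [map_zero]
      apply hnd _ Submodule.mem_top
      intro y _
      obtain ⟨z, rfl⟩ := g.surjective y
      exact hx z) T hT (fun x y => by rw [hB', hB', hg, hg]; exact hS _ _) hss
  have hcinj : Function.Injective c := by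
    rw [← LinearMap.ker_eq_bot, LinearMap.ker_eq_bot']
    intro m hm
    apply g.injective
    rw [map_zero]
    apply hnd _ Submodule.mem_top
    intro y _
    obtain ⟨z, rfl⟩ := g.surjective y
    rw [← hB', ← hc, hm, map_zero, LinearMap.zero_apply]
  let c' : V ≃ₗ[F] V := LinearEquiv.ofInjectiveEndo c hcinj
  have hc' : ∀ v, c' v = c v := fun v => rfl
  refine ⟨c'.symm ≪≫ₗ g, ?_, ?_⟩
  · intro u v
    obtain ⟨u, rfl⟩ := c'.surjective u
    obtain ⟨v, rfl⟩ := c'.surjective v
    show B (g (c'.symm (c' u))) (g (c'.symm (c' v))) = _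
    rw [LinearEquiv.symm_apply_apply, LinearEquiv.symm_apply_apply, hc', hc', hc]
    rfl
  · intro v
    obtain ⟨v, rfl⟩ := c'.surjective v
    show g (c'.symm (T (c' v))) = S (g (c'.symm (c' v)))
    rw [LinearEquiv.symm_apply_apply, ← hg]
    congr 1
    rw [LinearEquiv.symm_apply_eq, hc', hc']
    exact (hcT v).symm

/-- semisimplicity from a complement property -/
lemma ss_of_compl {T : Module.End F V} (h : ∀ W, Inv T W → ∃ W', Inv T W' ∧ IsCompl W W') (l : F) (x : V)
    (hx : T (T x - l • x) = l • (T x - l • x)) : T x = l • x := by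
  obtain ⟨W', h1, h2⟩ := h (E T l) (inv_of_le_E le_rfl)
  have hx' : x ∈ E T l ⊔ W' := by rw [h2.sup_eq_top]; trivial
  obtain ⟨a, ha, b, hb, rfl⟩ := Submodule.mem_sup.1 hx'
  have ha' : T a = l • a := Module.End.mem_eigenspace_iff.1 ha
  have h3 : T (a + b) - l • (a + b) = T b - l • b := by
    rw [map_add, ha', smul_add]; abel
  rw [h3] at hx
  have h4 : T b - l • b ∈ E T l ⊓ W' := ⟨Module.End.mem_eigenspace_iff.2 hx, W'.sub_mem (h1 b hb) (W'.smul_mem l hb)⟩
  rw [h2.inf_eq_bot, Submodule.mem_bot] at h4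
  rw [map_add, ha', smul_add, sub_eq_zero.1 h4]

end abstract_part

section mats

variable {F : Type*} [Field F] {d : ℕ}

theorem mem_spGL (g : GL (Fin d ⊕ Fin d) F) : g ∈ Cfsg.spGL d F ↔ Iso (σ := RingHom.id F) (JB (F := F) d) (Matrix.toLin' g.1) := Iff.rfl

/-- isometries as elements of `spGL` -/
theorem exists_spGL {T : Module.End F (Fin d ⊕ Fin d → F)} (hT : Iso (σ := RingHom.id F) (JB (F := F) d) T) :
    ∃ x ∈ Cfsg.spGL d F, Matrix.toLin' x.1 = T := by
  have hinj := hT.injective (jb_nd d)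
  have hdet : (LinearMap.toMatrix' T).det ≠ 0 := by
    rw [LinearMap.det_toMatrix']
    intro h
    have h1 := LinearMap.bot_lt_ker_of_det_eq_zero h
    rw [LinearMap.ker_eq_bot.2 hinj] at h1
    exact absurd h1 (lt_irrefl _)
  refine ⟨Matrix.GeneralLinearGroup.mkOfDetNeZero (LinearMap.toMatrix' T) hdet, ?_, ?_⟩
  · rw [mem_spGL]
    show Iso _ (Matrix.toLin' (LinearMap.toMatrix' T))
    rw [Matrix.toLin'_toMatrix']
    exact hT
  · exact Matrix.toLin'_toMatrix' T

/-- conjugate elements of `spGL` (semisimple case) -/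
theorem conj_spGL [Finite F] {x : GL (Fin d ⊕ Fin d) F} (hx : x ∈ Cfsg.spGL d F) {S : Module.End F (Fin d ⊕ Fin d → F)}
    (hS : Iso (σ := RingHom.id F) (JB (F := F) d) S)
    (hcompl : ∀ W, Inv (Matrix.toLin' x.1) W → ∃ W', Inv (Matrix.toLin' x.1) W' ∧ IsCompl W W')
    (g : (Fin d ⊕ Fin d → F) ≃ₗ[F] (Fin d ⊕ Fin d → F)) (hg : ∀ v, g (Matrix.toLin' x.1 v) = S (g v)) :
    ∃ h ∈ Cfsg.spGL d F, Matrix.toLin' (h⁻¹ * x * h).1 = S := by
  obtain ⟨h, hh, hh'⟩ := conj_iso (jb_alt d) (jb_nd d) ((mem_spGL x).1 hx) hS (fun l _ => ss_of_compl hcompl l) g hg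
  obtain ⟨y, hy, hy'⟩ := exists_spGL hh
  refine ⟨y⁻¹, inv_mem hy, ?_⟩
  apply LinearMap.ext
  intro v
  rw [inv_inv, Units.val_mul, Units.val_mul, Matrix.toLin'_mul, Matrix.toLin'_mul, LinearMap.comp_apply, LinearMap.comp_apply, hy']
  show h (Matrix.toLin' x.1 (Matrix.toLin' (y⁻¹).1 v)) = S v
  rw [hh']
  congr 1
  show h (Matrix.toLin' (y⁻¹).1 v) = v
  have : h (Matrix.toLin' (y⁻¹).1 v) = Matrix.toLin' y.1 (Matrix.toLin' (y⁻¹).1 v) := by rw [hy']; rfl
  rw [this, ← LinearMap.comp_apply, ← Matrix.toLin'_mul, ← Units.val_mul, mul_inv_cancel, Units.val_one, Matrix.toLin'_one]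
  rfl

/-- the hypothesis of the theorems on elements of order `r` in terms of isometries -/
theorem of_hall {r : ℕ} {P : GL (Fin d ⊕ Fin d) F → Prop}
    (hall : ∀ x ∈ Cfsg.spGL d F, (∃ z : F, ((x ^ r : GL (Fin d ⊕ Fin d) F) : Matrix (Fin d ⊕ Fin d) (Fin d ⊕ Fin d) F) = z • (1 : Matrix (Fin d ⊕ Fin d) (Fin d ⊕ Fin d) F)) →
      (∀ z : F, (x : Matrix (Fin d ⊕ Fin d) (Fin d ⊕ Fin d) F) ≠ z • (1 : Matrix (Fin d ⊕ Fin d) (Fin d ⊕ Fin d) F)) → P x)
    {T : Module.End F (Fin d ⊕ Fin d → F)} (hT : Iso (σ := RingHom.id F) (JB (F := F) d) T)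
    (hTr : ∃ z : F, T ^ r = z • (1 : Module.End F (Fin d ⊕ Fin d → F)))
    (hns : ∀ z : F, T ≠ z • (1 : Module.End F (Fin d ⊕ Fin d → F))) :
    ∃ x ∈ Cfsg.spGL d F, Matrix.toLin' x.1 = T ∧ P x := by
  obtain ⟨x, hx, hxT⟩ := exists_spGL hT
  obtain ⟨z, hz⟩ := hTr
  refine ⟨x, hx, hxT, hall x hx ⟨z, ?_⟩ ?_⟩
  · rw [scalar_iff, Units.val_pow_eq_pow_val]
    have : Matrix.toLin' (x.1 ^ r) = (Matrix.toLin' x.1) ^ r := map_pow Matrix.toLinAlgEquiv' x.1 r
    rw [this, hxT, hz]
  · intro z hz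
    rw [scalar_iff, hxT] at hz
    exact hns z hz

/-- transvections -/
theorem exists_transv {V : Type*} [AddCommGroup V] [Module F V] [FiniteDimensional F V] {B : V →ₗ[F] V →ₗ[F] F}
    (hB : Alt B) (hnd : ND (σ := RingHom.id F) B ⊤) {p : ℕ} [CharP F p] (hV : 2 ≤ finrank F V) :
    ∃ T : Module.End F V, Iso (σ := RingHom.id F) B T ∧ T ^ p = 1 ∧ finrank F (E T 1) + 1 = finrank F V ∧
      ∀ z : F, T ≠ z • (1 : Module.End F V) := by
  have hnt : Nontrivial V := Module.nontrivial_of_finrank_pos (R := F) (by omega)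
  obtain ⟨v, hv⟩ := exists_ne (0 : V)
  let N : Module.End F V := (B v).smulRight v
  have hN : ∀ w, N w = B v w • v := fun w => rfl
  have hNN : N * N = 0 := by
    apply LinearMap.ext; intro w
    rw [Module.End.mul_apply, hN, hN, map_smul, hB v, smul_zero, zero_smul]; rfl
  let T : Module.End F V := 1 + N
  have hTa : ∀ w, T w = w + B v w • v := fun w => rfl
  have hTk : ∀ k : ℕ, T ^ k = 1 + (k : F) • N := by
    intro k
    induction k with
    | zero => simp
    | succ k ih =>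
      rw [pow_succ, ih]
      show (1 + (k : F) • N) * (1 + N) = _
      rw [mul_add, mul_one, add_mul, one_mul, smul_mul_assoc, hNN, smul_zero, add_zero, add_assoc]
      congr 1
      push_cast
      rw [add_smul, one_smul]
  have hE : E T 1 = LinearMap.ker (B v) := by
    ext w
    rw [Module.End.mem_eigenspace_iff, hTa, one_smul, LinearMap.mem_ker]
    constructor
    · intro h
      have h1 : B v w • v = 0 := by simpa using h
      exact (smul_eq_zero.1 h1).resolve_right hv
    · intro h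
      rw [h, zero_smul, add_zero]
  have hBv : B v ≠ 0 := by
    intro h
    apply hv
    apply hnd v Submodule.mem_top
    intro w _
    rw [h]; rfl
  have hfin : finrank F (E T 1) + 1 = finrank F V := by
    have h1 := LinearMap.finrank_range_add_finrank_ker (B v)
    have h2 : LinearMap.range (B v) = ⊤ := LinearMap.range_eq_top.2 (LinearMap.surjective hBv)
    rw [h2, finrank_top, finrank_self] at h1
    rw [hE]; omega
  refine ⟨T, ?_, ?_, hfin, ?_⟩
  · intro x y
    rw [hTa, hTa, map_add, map_add, LinearMap.add_apply, LinearMap.add_apply, map_smul, map_smul, LinearMap.smul_apply,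
      LinearMap.smul_apply, map_smul, hB v]
    simp only [smul_eq_mul]
    rw [hB.skew x v]
    ring
  · rw [hTk, CharP.cast_eq_zero, zero_smul, add_zero]
  · intro z hz
    have h1 : ∀ w, T w = z • w := fun w => by rw [hz]; rfl
    by_cases hz1 : z = 1
    · have : E T 1 = ⊤ := by
        rw [eq_top_iff]; intro w _
        rw [Module.End.mem_eigenspace_iff, h1, hz1]
      rw [this, finrank_top] at hfin
      omega
    · have : E T 1 = ⊥ := by
        rw [eq_bot_iff]; intro w hw
        rw [Module.End.mem_eigenspace_iff, h1, one_smul] at hw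
        have h2 : (z - 1) • w = 0 := by rw [sub_smul, hw, one_smul, sub_self]
        exact (smul_eq_zero.1 h2).resolve_left (fun h => hz1 (sub_eq_zero.1 h))
      rw [this, finrank_bot] at hfin
      omega

/-- involutions with prescribed `-1` space -/
theorem exists_invol [Finite F] (h2 : (2 : F) ≠ 0) {V : Type*} [AddCommGroup V] [Module F V] [FiniteDimensional F V] {B : V →ₗ[F] V →ₗ[F] F}
    (hB : Alt B) (W : Submodule F V) (hW : ND (σ := RingHom.id F) B W) :
    ∃ T : Module.End F V, Iso (σ := RingHom.id F) B T ∧ T ^ 2 = 1 ∧ E T (-1) = W ∧ E T 1 = perp (σ := RingHom.id F) B W := by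
  obtain ⟨T, hT1, hT2, hT3⟩ := exists_glue_iso hB hW (-1 : Module.End F V) (by
    intro w hw
    exact W.neg_mem hw) (by
    intro u _ v _
    show B (-u) (-v) = B u v
    rw [map_neg, map_neg, LinearMap.neg_apply, neg_neg]) 1 Iso.one
  have hcompl := isCompl_perp hB.refl hW
  have hT1' : ∀ u ∈ W, T u = -u := hT1
  have hT2' : ∀ u ∈ perp (σ := RingHom.id F) B W, T u = u := fun u hu => hT2 ⟨u, hu⟩
  have hdec : ∀ v : V, ∃ a ∈ W, ∃ b ∈ perp (σ := RingHom.id F) B W, v = a + b := by
    intro v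
    have : v ∈ W ⊔ perp (σ := RingHom.id F) B W := by rw [hcompl.sup_eq_top]; trivial
    obtain ⟨a, ha, b, hb, h⟩ := Submodule.mem_sup.1 this
    exact ⟨a, ha, b, hb, h.symm⟩
  refine ⟨T, hT3, ?_, ?_, ?_⟩
  · apply LinearMap.ext; intro v
    obtain ⟨a, ha, b, hb, rfl⟩ := hdec v
    rw [pow_two, Module.End.mul_apply, map_add, hT1' a ha, hT2' b hb, map_add, map_neg, hT1' a ha, hT2' b hb, neg_neg]; rfl
  · ext v
    rw [Module.End.mem_eigenspace_iff]
    constructor
    · intro h
      obtain ⟨a, ha, b, hb, rfl⟩ := hdec v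
      rw [map_add, hT1' a ha, hT2' b hb, neg_smul, one_smul, neg_add] at h
      have h3 : b = -b := add_left_cancel h
      have h4 : (2 : F) • b = 0 := by rw [two_smul]; nth_rewrite 1 [h3]; exact neg_add_cancel b
      have h5 := (smul_eq_zero.1 h4).resolve_left h2
      rw [h5, add_zero]; exact ha
    · intro h
      rw [hT1' v h, neg_smul, one_smul]
  · ext v
    rw [Module.End.mem_eigenspace_iff, one_smul]
    constructor
    · intro h
      obtain ⟨a, ha, b, hb, rfl⟩ := hdec v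
      rw [map_add, hT1' a ha, hT2' b hb] at h
      have h3 : -a = a := add_right_cancel h
      have h4 : (2 : F) • a = 0 := by rw [two_smul]; nth_rewrite 1 [← h3]; exact neg_add_cancel a
      have h5 := (smul_eq_zero.1 h4).resolve_left h2
      rw [h5, zero_add]; exact hb
    · intro h
      exact hT2' v h

end mats

end Cfsg.Agent.Lib.SpConj
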