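import Mathlib
import Cfsg.Agent.Lib.Sesq12
import Cfsg.Agent.Lib.SpConj

/-! Quadratic forms polarising to a given alternating form over finite fields of characteristic two. (helper99) -/

set_option autoImplicit false

namespace Cfsg.Agent.Lib.QArf

open Module Cfsg.Agent.Lib.InvSub Cfsg.Agent.Lib.Sesq Cfsg.Agent.Lib.PrimeOrd

section basic

variable {F V : Type*} [Field F] [AddCommGroup V] [Module F V]

/-- quadratic forms with polar form `B` -/
structure QF (B : V →ₗ[F] V →ₗ[F] F) (Q : V → F) : Prop where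
  smul : ∀ (c : F) v, Q (c • v) = c ^ 2 * Q v
  add : ∀ u v, Q (u + v) = Q u + Q v + B u v

/-- the twist of `Q` by `a` -/
def tw (B : V →ₗ[F] V →ₗ[F] F) (Q : V → F) (a : V) : V → F := fun v => Q v + B v a ^ 2

/-- equivalence of quadratic forms under the isometry group of `B` -/
def Sm (B : V →ₗ[F] V →ₗ[F] F) (Q Q' : V → F) : Prop :=
  ∃ g : V ≃ₗ[F] V, (∀ u v, B (g u) (g v) = B u v) ∧ ∀ v, Q' v = Q (g v)

/-- the Artin–Schreier condition -/
def Wp (s : F) : Prop := ∃ t, s = t ^ 2 + t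

/-- plus type -/
def Plus (F : Type*) {V : Type*} [Field F] [AddCommGroup V] [Module F V] (Q : V → F) : Prop :=
  ∃ U : Submodule F V, (∀ u ∈ U, Q u = 0) ∧ 2 * finrank F U = finrank F V

variable {B : V →ₗ[F] V →ₗ[F] F}

theorem Sm.refl (Q : V → F) : Sm B Q Q := ⟨LinearEquiv.refl F V, fun _ _ => rfl, fun _ => rfl⟩

theorem Sm.symm {Q Q' : V → F} (h : Sm B Q Q') : Sm B Q' Q := by
  obtain ⟨g, h1, h2⟩ := h
  refine ⟨g.symm, fun u v => ?_, fun v => ?_⟩
  · rw [← h1 (g.symm u), g.apply_symm_apply, g.apply_symm_apply]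
  · rw [h2, g.apply_symm_apply]

theorem Sm.trans {Q Q' Q'' : V → F} (h : Sm B Q Q') (h' : Sm B Q' Q'') : Sm B Q Q'' := by
  obtain ⟨g, h1, h2⟩ := h
  obtain ⟨k, h3, h4⟩ := h'
  refine ⟨k.trans g, fun u v => ?_, fun v => ?_⟩
  · show B (g (k u)) (g (k v)) = _
    rw [h1, h3]
  · rw [h4, h2]; rfl

theorem Sm.plus [FiniteDimensional F V] {Q Q' : V → F} (h : Sm B Q Q') (hp : Plus F Q) : Plus F Q' := by
  obtain ⟨g, h1, h2⟩ := h
  obtain ⟨U, h3, h4⟩ := hp
  refine ⟨U.map (g.symm : V →ₗ[F] V), ?_, ?_⟩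
  · rintro _ ⟨u, hu, rfl⟩
    rw [h2]
    show Q (g (g.symm u)) = 0
    rw [g.apply_symm_apply]
    exact h3 u hu
  · rw [← h4, LinearEquiv.finrank_map_eq]

theorem tw_zero (Q : V → F) : tw B Q 0 = Q := by
  funext v
  rw [tw, map_zero]; ring

end basic

section two

variable {F V : Type*} [Field F] [CharP F 2] [AddCommGroup V] [Module F V] {B : V →ₗ[F] V →ₗ[F] F}

theorem two_eq : (2 : F) = 0 := by exact_mod_cast CharP.cast_eq_zero F 2

theorem add_self (a : F) : a + a = 0 := by rw [← two_mul, two_eq, zero_mul]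

theorem sq_add (a b : F) : (a + b) ^ 2 = a ^ 2 + b ^ 2 := by
  have := two_eq (F := F)
  linear_combination (a * b) * this

theorem eq_of_sq_eq {a b : F} (h : a ^ 2 = b ^ 2) : a = b := by
  have h1 : (a + b) ^ 2 = 0 := by rw [sq_add, h, add_self]
  have h2 : a + b = 0 := pow_eq_zero_iff (two_ne_zero) |>.1 h1
  linear_combination h2 - add_self b

theorem symm_of_alt (hB : Alt B) (u v : V) : B u v = B v u := by
  rw [hB.skew]
  have := add_self (B v u)
  linear_combination -this

theorem QF.tw {Q : V → F} (h : QF B Q) (a : V) : QF B (tw B Q a) := by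
  refine ⟨fun c v => ?_, fun u v => ?_⟩
  · show Q (c • v) + B (c • v) a ^ 2 = c ^ 2 * (Q v + B v a ^ 2)
    rw [h.smul, map_smul, LinearMap.smul_apply, smul_eq_mul]; ring
  · show Q (u + v) + B (u + v) a ^ 2 = Q u + B u a ^ 2 + (Q v + B v a ^ 2) + B u v
    rw [h.add, map_add, LinearMap.add_apply, sq_add]; ring

theorem tw_tw (Q : V → F) (a b : V) : Cfsg.Agent.Lib.QArf.tw B (Cfsg.Agent.Lib.QArf.tw B Q a) b = Cfsg.Agent.Lib.QArf.tw B Q (a + b) := by
  funext v
  show Q v + B v a ^ 2 + B v b ^ 2 = Q v + B v (a + b) ^ 2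
  rw [map_add, sq_add]; ring

theorem tw_self (Q : V → F) (a : V) : Cfsg.Agent.Lib.QArf.tw B (Cfsg.Agent.Lib.QArf.tw B Q a) a = Q := by
  funext v
  show Q v + B v a ^ 2 + B v a ^ 2 = Q v
  rw [add_assoc, add_self, add_zero]

theorem QF.zero {Q : V → F} (h : QF B Q) : Q 0 = 0 := by
  have := h.smul 0 0
  rwa [zero_smul, zero_pow two_ne_zero, zero_mul] at this

theorem wp_zero : Wp (0 : F) := ⟨0, by ring⟩

/-- transvections -/
theorem sm_of_wp [FiniteDimensional F V] (hB : Alt B) (hnd : ND (σ := RingHom.id F) B ⊤) {Q : V → F} (hQ : QF B Q) {a : V} (h : Wp (Q a)) :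
    Sm B Q (Cfsg.Agent.Lib.QArf.tw B Q a) := by
  obtain ⟨c, hc⟩ : ∃ c : F, c ^ 2 * Q a + c = 1 := by
    obtain ⟨t, ht⟩ := h
    by_cases ht0 : t = 0
    · refine ⟨1, ?_⟩
      rw [ht, ht0]; ring
    · refine ⟨t⁻¹, ?_⟩
      have e : (t⁻¹) ^ 2 * (t ^ 2 + t) + t⁻¹ = 1 + (t⁻¹ + t⁻¹) := by
        field_simp
        ring
      rw [ht, e, add_self, add_zero]
  let g : Module.End F V := 1 + c • (B.flip a).smulRight a
  have hg : ∀ v, g v = v + (c * B v a) • a := fun v => by
    show v + c • (B v a • a) = _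
    rw [smul_smul]
  have hiso : ∀ u v, B (g u) (g v) = B u v := by
    intro u v
    rw [hg, hg]
    simp only [map_add, LinearMap.add_apply, map_smul, LinearMap.smul_apply, smul_eq_mul, hB a, mul_zero, add_zero]
    rw [symm_of_alt hB a v]
    have := add_self (c * B u a * B v a)
    linear_combination this
  have hinj : Function.Injective g := Iso.injective hnd (T := g) hiso
  let e : V ≃ₗ[F] V := LinearEquiv.ofInjectiveEndo g hinj
  refine ⟨e, hiso, fun v => ?_⟩
  show Q v + B v a ^ 2 = Q (g v)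
  rw [hg, hQ.add, hQ.smul, map_smul, smul_eq_mul]
  linear_combination -(B v a) ^ 2 * hc

end two

section finite

variable {F V : Type*} [Field F] [Fintype F] [CharP F 2] [AddCommGroup V] [Module F V] {B : V →ₗ[F] V →ₗ[F] F}

/-- the Artin–Schreier map -/
def asHom (F : Type*) [Field F] [CharP F 2] : F →+ F where
  toFun t := t ^ 2 + t
  map_zero' := by ring
  map_add' a b := by rw [sq_add]; ring

theorem wp_iff {s : F} : Wp s ↔ s ∈ (asHom F).range := by
  constructor
  · rintro ⟨t, rfl⟩; exact ⟨t, rfl⟩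
  · rintro ⟨t, rfl⟩; exact ⟨t, rfl⟩

theorem index_range : (asHom F).range.index = 2 := by
  classical
  have h1 : Nat.card (asHom F).ker = 2 := by
    have h2 : ((asHom F).ker : Set F) = {0, 1} := by
      ext t
      rw [SetLike.mem_coe, AddMonoidHom.mem_ker]
      show t ^ 2 + t = 0 ↔ t = 0 ∨ t = 1
      constructor
      · intro h
        have h3 : t * (t + 1) = 0 := by linear_combination h
        rcases mul_eq_zero.1 h3 with h4 | h4
        · exact Or.inl h4
        · right; linear_combination h4 - add_self (1 : F)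
      · rintro (rfl | rfl)
        · ring
        · rw [one_pow]; exact add_self 1
    have h3 : Nat.card (asHom F).ker = Set.ncard ((asHom F).ker : Set F) := rfl
    rw [h3, h2, Set.ncard_pair zero_ne_one]
  have h2 := (asHom F).range.card_mul_index
  have h3 := (asHom F).ker.card_mul_index
  have h4 : (asHom F).ker.index = Nat.card (asHom F).range := AddSubgroup.index_ker _
  rw [h1, h4] at h3
  have h5 : 0 < Nat.card (asHom F).range := Nat.card_pos
  have h6 : Nat.card (asHom F).range * (asHom F).range.index = Nat.card (asHom F).range * 2 := by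
    rw [h2, ← h3, mul_comm]
  exact Nat.eq_of_mul_eq_mul_left h5 h6

theorem wp_add {s t : F} : Wp (s + t) ↔ (Wp s ↔ Wp t) := by
  rw [wp_iff, wp_iff, wp_iff]
  exact AddSubgroup.add_mem_iff_of_index_two index_range

theorem exists_not_wp : ∃ s : F, ¬ Wp s := by
  by_contra h
  push Not at h
  have h1 : (asHom F).range = ⊤ := by
    rw [eq_top_iff]
    intro s _
    exact wp_iff.1 (h s)
  have h2 := index_range (F := F)
  rw [h1, AddSubgroup.index_top] at h2
  exact absurd h2 (by norm_num)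

omit [Fintype F] in
theorem wp_sq {s : F} : Wp (s ^ 2 + s) := ⟨s, rfl⟩

theorem wp_sq_iff {s t : F} : Wp (s + t ^ 2) ↔ Wp (s + t) := by
  have h1 : s + t ^ 2 = (s + t) + (t ^ 2 + t) := by
    have := add_self t
    linear_combination -this
  rw [h1, wp_add]
  constructor
  · intro h; exact h.2 wp_sq
  · intro h; exact ⟨fun _ => wp_sq, fun _ => h⟩

theorem exists_sqrt (s : F) : ∃ t : F, t ^ 2 = s := by
  have h : Function.Surjective (frobenius F 2) := Finite.surjective_of_injective (frobenius F 2).injective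
  obtain ⟨t, ht⟩ := h s
  exact ⟨t, ht⟩

variable [FiniteDimensional F V]

omit [Fintype F] [CharP F 2] in
/-- representation of functionals -/
theorem exists_rep (hB : Alt B) (hnd : ND (σ := RingHom.id F) B ⊤) (φ : V →ₗ[F] F) : ∃ a, ∀ v, φ v = B v a := by
  have hinj : Function.Injective B.flip := by
    rw [← LinearMap.ker_eq_bot, eq_bot_iff]
    intro v hv
    rw [LinearMap.mem_ker] at hv
    apply (Submodule.mem_bot F).mpr
    apply hnd v Submodule.mem_top
    intro w _
    have := LinearMap.congr_fun hv w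
    rw [LinearMap.flip_apply] at this
    rw [hB.skew, this]; simp
  have hsurj : Function.Surjective B.flip := by
    have h1 : finrank F V = finrank F (V →ₗ[F] F) := (Subspace.dual_finrank_eq (K := F) (V := V)).symm
    exact (LinearMap.injective_iff_surjective_of_finrank_eq_finrank h1).1 hinj
  obtain ⟨a, ha⟩ := hsurj φ
  refine ⟨a, fun v => ?_⟩
  rw [← ha]; rfl

theorem exists_tw (hB : Alt B) (hnd : ND (σ := RingHom.id F) B ⊤) {Q Q' : V → F} (hQ : QF B Q) (hQ' : QF B Q') :
    ∃ a, Q' = Cfsg.Agent.Lib.QArf.tw B Q a := by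
  choose φ hφ using fun v => exists_sqrt (Q' v + Q v)
  have hadd : ∀ u v, φ (u + v) = φ u + φ v := by
    intro u v
    apply eq_of_sq_eq
    rw [sq_add, hφ, hφ, hφ, hQ.add, hQ'.add]
    have := add_self (B u v)
    linear_combination this
  have hsmul : ∀ (c : F) v, φ (c • v) = c * φ v := by
    intro c v
    apply eq_of_sq_eq
    rw [mul_pow, hφ, hφ, hQ.smul, hQ'.smul]; ring
  obtain ⟨a, ha⟩ := exists_rep hB hnd { toFun := φ, map_add' := hadd, map_smul' := hsmul }
  refine ⟨a, ?_⟩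
  funext v
  show Q' v = Q v + B v a ^ 2
  have h1 : φ v = B v a := ha v
  rw [← h1, hφ]
  have := add_self (Q v)
  linear_combination -this

omit [Fintype F] [CharP F 2] [FiniteDimensional F V] in
theorem ti_of_sing {Q : V → F} (hQ : QF B Q) {U : Submodule F V} (hU : ∀ u ∈ U, Q u = 0) : TI (σ := RingHom.id F) B U := by
  intro u hu v hv
  have := hQ.add u v
  rw [hU _ (U.add_mem hu hv), hU u hu, hU v hv] at this
  simpa using this.symm

omit [CharP F 2] in
theorem ti_finrank (hnd : ND (σ := RingHom.id F) B ⊤) {U : Submodule F V} (hU : TI (σ := RingHom.id F) B U) : 2 * finrank F U ≤ finrank F V := by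
  have h1 := Submodule.finrank_mono (ti_iff.1 hU)
  have h2 := finrank_add_perp hnd U
  omega

/-- twisting a form of plus type by a vector with `Q a` outside the image of the Artin–Schreier map -/
theorem not_plus_tw (hB : Alt B) (hnd : ND (σ := RingHom.id F) B ⊤) {Q : V → F} (hQ : QF B Q) (hp : Plus F Q) {a : V} (ha : ¬ Wp (Q a)) :
    ¬ Plus F (Cfsg.Agent.Lib.QArf.tw B Q a) := by
  rintro ⟨U, hU, hUf⟩
  obtain ⟨U₁, hU₁, hUf₁⟩ := hp
  have hTI := ti_of_sing (hQ.tw a) hU
  have hTI₁ := ti_of_sing hQ hU₁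
  have hperp : perp (σ := RingHom.id F) B U = U := by
    symm
    apply Submodule.eq_of_le_of_finrank_eq (ti_iff.1 hTI)
    have := finrank_add_perp hnd U
    omega
  have hperp₁ : perp (σ := RingHom.id F) B U₁ = U₁ := by
    symm
    apply Submodule.eq_of_le_of_finrank_eq (ti_iff.1 hTI₁)
    have := finrank_add_perp hnd U₁
    omega
  have hUQ : ∀ w ∈ U, Q w = B w a ^ 2 := by
    intro w hw
    have h1 : Q w + B w a ^ 2 = 0 := hU w hw
    have := add_self (B w a ^ 2)
    linear_combination h1 - this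
  -- a vector of U not orthogonal to a
  have haU : a ∉ U := by
    intro h
    apply ha
    rw [hUQ a h, hB a, zero_pow two_ne_zero]
    exact wp_zero
  obtain ⟨w₀, hw₀, hw₀a⟩ : ∃ w ∈ U, B w a ≠ 0 := by
    by_contra h
    push Not at h
    apply haU
    rw [← hperp]
    exact h
  obtain ⟨w, hwU, hwa⟩ : ∃ w ∈ U, B w a = 1 := by
    refine ⟨(B w₀ a)⁻¹ • w₀, U.smul_mem _ hw₀, ?_⟩
    rw [map_smul, LinearMap.smul_apply, smul_eq_mul, inv_mul_cancel₀ hw₀a]
  -- U' = U ∩ a^⊥
  set U' : Submodule F V := U ⊓ perp (σ := RingHom.id F) B (Submodule.span F {a}) with hU'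
  have hmem : ∀ v, v ∈ perp (σ := RingHom.id F) B (Submodule.span F {a}) ↔ B v a = 0 := by
    intro v
    rw [mem_perp]
    constructor
    · intro h
      rw [symm_of_alt hB]
      exact h a (Submodule.mem_span_singleton_self a)
    · intro h u hu
      obtain ⟨c, rfl⟩ := Submodule.mem_span_singleton.1 hu
      rw [map_smul, LinearMap.smul_apply, symm_of_alt hB, h, smul_zero]
  have hsplit : U ≤ U' ⊔ Submodule.span F {w} := by
    intro v hv
    have h1 : v = (v + B v a • w) + B v a • w := by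
      rw [add_assoc, ← add_smul, add_self, zero_smul, add_zero]
    rw [h1]
    apply Submodule.add_mem_sup
    · refine ⟨U.add_mem hv (U.smul_mem _ hwU), ?_⟩
      rw [SetLike.mem_coe, hmem, map_add, LinearMap.add_apply, map_smul, LinearMap.smul_apply, hwa, smul_eq_mul, mul_one, add_self]
    · exact Submodule.smul_mem _ _ (Submodule.mem_span_singleton_self w)
  have hperp' : perp (σ := RingHom.id F) B U' ≤ U ⊔ Submodule.span F {a} := by
    have h1 : perp (σ := RingHom.id F) B (U ⊔ Submodule.span F {a}) = U' := by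
      rw [perp_sup, hperp]
    rw [← h1, perp_perp hB.refl hnd]
  have hU'f : finrank F U' + 1 = finrank F U := by
    have h1 := Submodule.finrank_sup_add_finrank_inf_eq U' (Submodule.span F {w})
    have hwne : w ≠ 0 := by
      intro h
      rw [h, map_zero] at hwa
      exact zero_ne_one hwa
    have h2 : U' ⊓ Submodule.span F {w} = ⊥ := by
      rw [eq_bot_iff]
      rintro v ⟨hv, hv'⟩
      obtain ⟨c, rfl⟩ := Submodule.mem_span_singleton.1 hv'
      have h3 := (hmem _).1 hv.2
      rw [map_smul, LinearMap.smul_apply, hwa, smul_eq_mul, mul_one] at h3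
      rw [h3, zero_smul]; exact Submodule.zero_mem _
    have h3 : U' ⊔ Submodule.span F {w} = U := by
      apply le_antisymm _ hsplit
      apply sup_le inf_le_left
      rw [Submodule.span_singleton_le_iff_mem]; exact hwU
    rw [h2, h3, finrank_bot, finrank_span_singleton hwne] at h1
    omega
  -- a vector of U₁ in the perp of U' outside U'
  obtain ⟨u₁, hu₁, hu₁p, hu₁n⟩ : ∃ u ∈ U₁, u ∈ perp (σ := RingHom.id F) B U' ∧ u ∉ U' := by
    by_contra h
    push Not at h
    have h1 : U₁ ⊓ perp (σ := RingHom.id F) B U' ≤ U₁ ⊓ U' := fun u hu => ⟨hu.1, h u hu.1 hu.2⟩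
    have h2 : U₁ ⊓ perp (σ := RingHom.id F) B U' = perp (σ := RingHom.id F) B (U₁ ⊔ U') := by rw [perp_sup, hperp₁]
    have h3 := finrank_add_perp hnd (U₁ ⊔ U')
    have h4 := Submodule.finrank_sup_add_finrank_inf_eq U₁ U'
    have h5 := Submodule.finrank_mono h1
    rw [h2] at h5
    omega
  obtain ⟨x, hx, y, hy, hxy⟩ := Submodule.mem_sup.1 (hperp' hu₁p)
  obtain ⟨β, rfl⟩ := Submodule.mem_span_singleton.1 hy
  obtain ⟨u', hu', z, hz, hxz⟩ := Submodule.mem_sup.1 (hsplit hx)
  obtain ⟨α, rfl⟩ := Submodule.mem_span_singleton.1 hz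
  have hQu : Q u₁ = 0 := hU₁ u₁ hu₁
  have hu'a : B u' a = 0 := (hmem _).1 hu'.2
  have hQu' : Q u' = 0 := by rw [hUQ u' hu'.1, hu'a, zero_pow two_ne_zero]
  have hu'w : B u' w = 0 := hTI u' hu'.1 w hwU
  have hcomp : Q u₁ = α ^ 2 + α * β + β ^ 2 * Q a := by
    rw [← hxy, ← hxz, hQ.add, hQ.add, hQ.smul, hQ.smul, hQu', hUQ w hwU, hwa]
    simp only [map_add, LinearMap.add_apply, map_smul, LinearMap.smul_apply, hu'a, hu'w, hwa, smul_eq_mul]
    ring
  rw [hQu] at hcomp
  by_cases hβ : β = 0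
  · rw [hβ] at hcomp hxy
    have hα : α = 0 := by
      have : α ^ 2 = 0 := by linear_combination -hcomp
      exact pow_eq_zero_iff (two_ne_zero) |>.1 this
    apply hu₁n
    rw [← hxy, ← hxz, hα, zero_smul, zero_smul, add_zero, add_zero]
    exact hu'
  · apply ha
    refine ⟨α / β, ?_⟩
    field_simp
    have := add_self (α ^ 2 + α * β)
    linear_combination (-1 : F) * hcomp - this

/-- the key congruence -/
theorem wp_tw (hB : Alt B) {Q : V → F} (hQ : QF B Q) (a b : V) :
    Wp (Cfsg.Agent.Lib.QArf.tw B Q b a) ↔ (Wp (Q (a + b)) ↔ Wp (Q b)) := by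
  show Wp (Q a + B a b ^ 2) ↔ _
  rw [wp_sq_iff, ← wp_add, hQ.add]
  have : Q a + Q b + B a b + Q b = Q a + B a b := by
    have := add_self (Q b)
    linear_combination this
  rw [this]

variable (hB : Alt B) (hnd : ND (σ := RingHom.id F) B ⊤) (hplus : ∃ Q₁, QF B Q₁ ∧ Plus F Q₁)
include hB hnd hplus

/-- the type of twisted forms -/
theorem plus_tw {Q : V → F} (hQ : QF B Q) {a : V} (ha : ¬ Wp (Q a)) : Plus F (Cfsg.Agent.Lib.QArf.tw B Q a) ↔ ¬ Plus F Q := by
  constructor
  · intro h h'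
    exact not_plus_tw hB hnd hQ h' ha h
  · intro h
    obtain ⟨Q₁, hQ₁, hp₁⟩ := hplus
    obtain ⟨b, rfl⟩ := exists_tw hB hnd hQ₁ hQ
    have hb : ¬ Wp (Q₁ b) := fun h' => h ((sm_of_wp hB hnd hQ₁ h').plus hp₁)
    rw [wp_tw hB hQ₁] at ha
    have hab : Wp (Q₁ (a + b)) := by
      by_contra h'
      exact ha ⟨fun h'' => absurd h'' h', fun h'' => absurd h'' hb⟩
    rw [tw_tw, add_comm b a]
    exact (sm_of_wp hB hnd hQ₁ hab).plus hp₁

theorem sm_tw_iff {Q : V → F} (hQ : QF B Q) {a : V} : Sm B Q (Cfsg.Agent.Lib.QArf.tw B Q a) ↔ Wp (Q a) := by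
  constructor
  · intro h
    by_contra ha
    have h1 := plus_tw hB hnd hplus hQ ha
    by_cases hp : Plus F Q
    · exact h1.1 (h.plus hp) hp
    · exact hp (h.symm.plus (h1.2 hp))
  · exact sm_of_wp hB hnd hQ

theorem sm_of_plus_iff {Q Q' : V → F} (hQ : QF B Q) (hQ' : QF B Q') (h : Plus F Q ↔ Plus F Q') : Sm B Q Q' := by
  obtain ⟨a, rfl⟩ := exists_tw hB hnd hQ hQ'
  rw [sm_tw_iff hB hnd hplus hQ]
  by_contra ha
  have h1 := plus_tw hB hnd hplus hQ ha
  tauto

end finite

end Cfsg.Agent.Lib.QArf
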