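import Cfsg.Agent.Lib.UnForm
import Cfsg.Agent.Lib.ElusiveLin

/-! # Elements of prime order with one nontrivial block and unitary forms -/

set_option autoImplicit false

namespace Cfsg.Agent.Lib.UnForm

open Cfsg.Agent.Lib.InvSub Cfsg.Agent.Lib.PrimeOrd Cfsg.Agent.Lib.Sesq Module Matrix Cfsg.Agent.Lib.UniPair
open Cfsg.Agent.Lib.ClUnitary (frob)
open Cfsg.Agent.Lib.UnitStar (st)
open Cfsg.Agent.Lib.NormTool (mem_SL_iff)
open scoped MatrixGroups

/-- free actions of maps of prime order -/
theorem dvd_card_of_free {X : Type*} [Finite X] {r : ℕ} [hr : Fact r.Prime] (f : X → X) (hf : ∀ x, f^[r] x = x) (hfix : ∀ x, f x ≠ x) :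
    r ∣ Nat.card X := by
  classical
  have := Fintype.ofFinite X
  let g : Function.End X := f
  have hg : g ^ r ^ 1 = 1 := by
    rw [pow_one]
    funext x
    have h1 : ∀ k : ℕ, (g ^ k : Function.End X) = f^[k] := by
      intro k
      induction k with
      | zero => rfl
      | succ k ih =>
        rw [pow_succ, Function.iterate_succ]
        show (g ^ k : Function.End X) ∘ f = f^[k] ∘ f
        rw [ih]
    rw [h1]
    exact hf x
  have h2 := Equiv.Perm.card_fixedPoints_modEq hg
  have h3 : IsEmpty (Function.fixedPoints g) := ⟨fun x => hfix x.1 x.2⟩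
  have h4 : Fintype.card (Function.fixedPoints g) = 0 := Fintype.card_eq_zero
  rw [h4] at h2
  rw [Nat.card_eq_fintype_card]
  exact (Nat.modEq_zero_iff_dvd).1 h2

section abstract_part

variable {F V : Type*} [Field F] [AddCommGroup V] [Module F V] [FiniteDimensional F V] {σ : F →+* F} {B : V →ₗ[F] V →ₛₗ[σ] F}

theorem fix_disj {r : ℕ} (hrF : (r : F) ≠ 0) {T : Module.End F V} (hTr : T ^ r = 1) : LinearMap.range (T - 1) ⊓ E T 1 = ⊥ := by
  rw [eq_bot_iff]
  rintro v ⟨⟨w, rfl⟩, hv⟩
  have h1 := Module.End.mem_eigenspace_iff.1 hv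
  rw [one_smul] at h1
  set v := (T - 1) w with hvdef
  have hTw : T w = w + v := by
    rw [hvdef]
    show T w = w + (T w - w)
    abel
  have h2 : ∀ k : ℕ, (T ^ k) w = w + (k : F) • v := by
    intro k
    induction k with
    | zero => simp
    | succ k ih =>
      rw [pow_succ', Module.End.mul_apply, ih, map_add, hTw, map_smul, h1]
      push_cast
      rw [add_smul, one_smul]; abel
  have h3 := h2 r
  rw [hTr, Module.End.one_apply] at h3
  have h4 : (r : F) • v = 0 := by
    have : w + (r : F) • v = w + 0 := by rw [add_zero]; exact h3.symm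
    exact add_left_cancel this
  exact (smul_eq_zero.1 h4).resolve_left hrF

/-- the orthogonal complement of the fixed space of an isometry of order prime to the characteristic -/
theorem perp_fix [Finite F] (hr : Refl B) (hnd : ND B ⊤) {T : Module.End F V} (hT : Iso B T) {r : ℕ} (hrF : (r : F) ≠ 0) (hTr : T ^ r = 1) :
    perp B (E T 1) ⊓ E T 1 = ⊥ ∧ ND B (perp B (E T 1)) := by
  have hker : LinearMap.ker (T - 1) = E T 1 := by
    ext v
    rw [LinearMap.mem_ker, Module.End.mem_eigenspace_iff, one_smul]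
    show T v - v = 0 ↔ _
    rw [sub_eq_zero]
  have hle : LinearMap.range (T - 1) ≤ perp B (E T 1) := by
    rintro _ ⟨w, rfl⟩ e he
    have h1 := Module.End.mem_eigenspace_iff.1 he
    rw [one_smul] at h1
    show B e (T w - w) = 0
    have h2 := hT e w
    rw [h1] at h2
    rw [map_sub, h2, sub_self]
  have h1 := finrank_add_perp hnd (E T 1)
  have h2 := LinearMap.finrank_range_add_finrank_ker (T - 1)
  rw [hker] at h2
  have heq : LinearMap.range (T - 1) = perp B (E T 1) := Submodule.eq_of_le_of_finrank_eq hle (by omega)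
  have hd : perp B (E T 1) ⊓ E T 1 = ⊥ := by rw [← heq]; exact fix_disj hrF hTr
  refine ⟨hd, ?_⟩
  have hndE : ND B (E T 1) := by
    rw [nd_iff hr, inf_comm]; exact hd
  exact nd_perp hr hnd hndE

end abstract_part

section concrete

variable {F : Type*} [Field F] [Fintype F] {q n : ℕ}

/-- the number of vectors of norm one in the complement -/
theorem dvd_N (hF : Fintype.card F = q ^ 2) {r : ℕ} [hr : Fact r.Prime] (hrF : (r : F) ≠ 0) {T : Module.End F (Fin n → F)}
    (hT : Iso (HF hF n) T) (hTr : T ^ r = 1) {i : ℕ} (hi : finrank F (E T 1) + i = n) : r ∣ Cfsg.Agent.Lib.ClUnitary.N F q i 1 := by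
  classical
  set B := HF hF n
  set C := perp B (E T 1) with hC
  obtain ⟨hd, hndC⟩ := perp_fix (hf_refl hF) (hf_nd hF) hT hrF hTr
  have hCf : finrank F C = i := by
    have := finrank_add_perp (hf_nd hF (n := n)) (E T 1)
    rw [Module.finrank_fin_fun] at this
    have h' : finrank F C = finrank F (perp (HF hF n) (E T 1)) := rfl
    omega
  have hCinv : Inv T C := hT.inv_perp (hf_nd hF) (inv_of_le_E le_rfl)
  have hh : Cfsg.Agent.Lib.HermAlg.IsHerm (frob hF) 1 (fun x y : C => B x.1 y.1) :=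
    { add_left := fun x y z => by
        show B (x.1 + y.1) z.1 = _
        rw [map_add]; rfl
      smul_left := fun c x y => by
        show B (c • x.1) y.1 = _
        rw [LinearMap.map_smul]; rfl
      symm := fun x y => by rw [one_mul]; exact hf_herm hF _ _
      nondeg := fun x hx => Subtype.ext (hndC x.1 x.2 (fun w hw => hx ⟨w, hw⟩)) }
  obtain ⟨e, he⟩ := UnSpec.exists_standard hF i hh hCf
  have hcard : Nat.card {v : C // B v.1 v.1 = 1} = ClUnitary.N F q i 1 := by
    apply Nat.card_congr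
    refine e.toEquiv.subtypeEquiv (fun v => ?_)
    show B v.1 v.1 = 1 ↔ Cfsg.hermForm i F q (e v) (e v) = 1
    rw [he]
  rw [← hcard]
  refine dvd_card_of_free (fun v => ⟨⟨T v.1.1, hCinv _ v.1.2⟩, by show B (T v.1.1) (T v.1.1) = 1; rw [hT]; exact v.2⟩) ?_ ?_
  · intro v
    apply Subtype.ext
    apply Subtype.ext
    have h1 : ∀ k : ℕ, (((fun v : {v : C // B v.1 v.1 = 1} => (⟨⟨T v.1.1, hCinv _ v.1.2⟩, by show B (T v.1.1) (T v.1.1) = 1; rw [hT]; exact v.2⟩ :
        {v : C // B v.1 v.1 = 1}))^[k]) v).1.1 = (T ^ k) v.1.1 := by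
      intro k
      induction k with
      | zero => rfl
      | succ k ih =>
        rw [Function.iterate_succ_apply', pow_succ', Module.End.mul_apply, ← ih]
    rw [h1, hTr]; rfl
  · intro v hv
    have h1 : T v.1.1 = v.1.1 := congrArg (fun w : {v : C // B v.1 v.1 = 1} => w.1.1) hv
    have h2 : v.1.1 ∈ perp B (E T 1) ⊓ E T 1 := ⟨v.1.2, Module.End.mem_eigenspace_iff.2 (by rw [h1, one_smul])⟩
    rw [hd, Submodule.mem_bot] at h2
    have h3 := v.2
    rw [h2, map_zero] at h3
    exact zero_ne_one h3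

/-- elements with a single nontrivial block are not similarities -/
theorem no_typeB (hF : Fintype.card F = q ^ 2) (hn : 1 ≤ n) {p : ℕ} [hp : Fact p.Prime] [CharP F p] {r : ℕ} [hr : Fact r.Prime] (hrp : r ≠ p) (hr2 : r ≠ 2)
    (hrq : ¬ r ∣ Fintype.card F - 1) {y : GL (Fin n) F} (hy : y ∈ Cfsg.Geo.similarityGroup (Cfsg.hermForm n F q)) (hyr : y ^ r = 1) {i : ℕ}
    (hi : finrank F (E (Matrix.toLin' y.1) 1) + i = n) (hd : r ∣ (if Even i then q ^ i + 1 else q ^ i - 1)) : False := by
  have hq := InvolUnitMat.one_lt_q hF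
  have hrF : (r : F) ≠ 0 := cast_ne_zero (p := p) hrp
  obtain ⟨c, hc⟩ := hy
  have hpow : ∀ k : ℕ, ∀ u v, Cfsg.hermForm n F q ((y ^ k).1 *ᵥ u) ((y ^ k).1 *ᵥ v) = (c : F) ^ k * Cfsg.hermForm n F q u v := by
    intro k
    induction k with
    | zero => intro u v; simp
    | succ k ih =>
      intro u v
      rw [pow_succ', Units.val_mul, ← Matrix.mulVec_mulVec, ← Matrix.mulVec_mulVec, hc, ih, pow_succ']
      ring
  have hcr : (c : F) ^ r = 1 := by
    have h1 := hpow r (Pi.single ⟨0, by omega⟩ 1) (Pi.single ⟨0, by omega⟩ 1)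
    rw [hyr, Units.val_one, Matrix.one_mulVec, HermMat.hermForm_single_left] at h1
    simp at h1
    exact h1.symm
  have hc1 : (c : F) = 1 := by
    have h1 : (c : F) ^ (Fintype.card F - 1) = 1 := FiniteField.pow_card_sub_one_eq_one _ c.ne_zero
    have h2 := pow_gcd_eq_one.2 ⟨hcr, h1⟩
    have h3 : Nat.gcd r (Fintype.card F - 1) = 1 := (Nat.Prime.coprime_iff_not_dvd hr.out).2 hrq
    rwa [h3, pow_one] at h2
  have hT : Iso (HF hF n) (Matrix.toLin' y.1) := by
    intro u v
    have := hc u v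
    rw [hc1, one_mul] at this
    exact this
  have hTr : (Matrix.toLin' y.1) ^ r = 1 := by
    have e1 := map_pow (Matrix.toLinAlgEquiv' (R := F) (n := Fin n)) y.1 r
    have e2 : (Matrix.toLin' y.1) ^ r = Matrix.toLin' (y.1 ^ r) := e1.symm
    rw [e2, ← Units.val_pow_eq_pow_val, hyr, Units.val_one, Matrix.toLin'_one]; rfl
  have h1 := dvd_N hF hrF hT hTr hi
  rw [ClUnitary.N_one hF] at h1
  have hrq' : ¬ r ∣ q := by
    intro hd
    obtain ⟨k, hk, hcc⟩ := FiniteField.card F p
    rw [hF] at hcc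
    have : r ∣ p ^ (k : ℕ) := by rw [← hcc]; exact hd.trans (dvd_pow_self q (by norm_num))
    exact hrp ((Nat.prime_dvd_prime_iff_eq hr.out hp.out).mp (hr.out.dvd_of_dvd_pow this))
  have h2r : ¬ r ∣ 2 := fun h => hr2 ((Nat.prime_dvd_prime_iff_eq hr.out Nat.prime_two).mp h)
  have hqi : 1 ≤ q ^ i := Nat.one_le_pow _ _ (by omega)
  split_ifs at h1 hd with he
  · rcases (Nat.Prime.dvd_mul hr.out).mp h1 with h2 | h2
    · exact hrq' (hr.out.dvd_of_dvd_pow h2)
    · apply h2r
      have : 2 = (q ^ i + 1) - (q ^ i - 1) := by omega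
      rw [this]; exact Nat.dvd_sub hd h2
  · rcases (Nat.Prime.dvd_mul hr.out).mp h1 with h2 | h2
    · exact hrq' (hr.out.dvd_of_dvd_pow h2)
    · apply h2r
      have : 2 = (q ^ i + 1) - (q ^ i - 1) := by omega
      rw [this]; exact Nat.dvd_sub h2 hd

end concrete

end Cfsg.Agent.Lib.UnForm
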