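import Mathlib
import Cfsg.Agent.Lib.QArf
import Cfsg.Agent.Lib.UnForm2

/-! Isometries and quadratic forms in characteristic two: involutions, elements without fixed points, counting. (helper99) -/

set_option autoImplicit false

namespace Cfsg.Agent.Lib.QArf

open Module Cfsg.Agent.Lib.InvSub Cfsg.Agent.Lib.Sesq Cfsg.Agent.Lib.PrimeOrd

section invol

variable {F V : Type*} [Field F] [Fintype F] [CharP F 2] [AddCommGroup V] [Module F V] [FiniteDimensional F V] {B : V →ₗ[F] V →ₗ[F] F}

omit [Fintype F] [CharP F 2] [FiniteDimensional F V] in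
theorem QF.comp {Q : V → F} (hQ : QF B Q) {T : Module.End F V} (hT : Iso (σ := RingHom.id F) B T) : QF B (fun v => Q (T v)) :=
  ⟨fun c v => by show Q (T (c • v)) = c ^ 2 * Q (T v); rw [map_smul, hQ.smul],
    fun u v => by show Q (T (u + v)) = _; rw [map_add, hQ.add, hT]⟩

omit [Fintype F] [CharP F 2] in
theorem range_eq_perp [Finite F] (hB : Alt B) (hnd : ND (σ := RingHom.id F) B ⊤) {T : Module.End F V} (hT : Iso (σ := RingHom.id F) B T) :
    LinearMap.range (T - 1) = perp (σ := RingHom.id F) B (E T 1) := by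
  have hker : LinearMap.ker (T - 1) = E T 1 := by
    ext v
    rw [LinearMap.mem_ker, Module.End.mem_eigenspace_iff, one_smul]
    show T v - v = 0 ↔ _
    rw [sub_eq_zero]
  apply Submodule.eq_of_le_of_finrank_eq
  · rintro _ ⟨v, rfl⟩ w hw
    have hw' := Module.End.mem_eigenspace_iff.1 hw
    rw [one_smul] at hw'
    show B w (T v - v) = 0
    rw [map_sub, ← hT w v, hw', sub_self]
  · have h1 := LinearMap.finrank_range_add_finrank_ker (T - 1)
    have h2 := finrank_add_perp hnd (E T 1)
    rw [hker] at h1
    omega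

/-- an involution preserves some quadratic form -/
theorem exists_fixed (hB : Alt B) (hnd : ND (σ := RingHom.id F) B ⊤) {Q : V → F} (hQ : QF B Q) {T : Module.End F V}
    (hT : Iso (σ := RingHom.id F) B T) (hTT : ∀ v, T (T v) = v) : ∃ Q', QF B Q' ∧ ∀ v, Q' (T v) = Q' v := by
  obtain ⟨c, hc⟩ := exists_tw hB hnd hQ (hQ.comp hT)
  have hc' : ∀ v, Q (T v) = Q v + B v c ^ 2 := fun v => congrFun hc v
  have hcm : c ∈ LinearMap.range (T - 1) := by
    rw [range_eq_perp hB hnd hT]
    intro w hw
    have hw' := Module.End.mem_eigenspace_iff.1 hw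
    rw [one_smul] at hw'
    have h1 := hc' w
    rw [hw'] at h1
    have h2 : B w c ^ 2 = 0 := by linear_combination -h1
    exact pow_eq_zero_iff (two_ne_zero) |>.1 h2
  obtain ⟨a, ha⟩ := hcm
  have ha' : T a - a = c := ha
  refine ⟨_, hQ.tw a, fun v => ?_⟩
  show Q (T v) + B (T v) a ^ 2 = Q v + B v a ^ 2
  have h1 : B (T v) a = B v (T a) := by
    rw [← hT (T v) a, hTT]
  have h2 : T a = c + a := by rw [← ha']; abel
  rw [hc', h1, h2, map_add, sq_add]
  have := add_self (B v c ^ 2)
  linear_combination this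

/-- involutions preserve forms of the required type -/
theorem exists_fixed_type (hB : Alt B) (hnd : ND (σ := RingHom.id F) B ⊤) (hplus : ∃ Q₁, QF B Q₁ ∧ Plus F Q₁) {Q : V → F} (hQ : QF B Q)
    {T : Module.End F V} (hT : Iso (σ := RingHom.id F) B T) (hTT : ∀ v, T (T v) = v) {d : ℕ} (hd : finrank F V = 2 * d)
    (h : Plus F Q ∨ Odd d) : ∃ Q', QF B Q' ∧ (∀ v, Q' (T v) = Q' v) ∧ Sm B Q Q' := by
  obtain ⟨Q', hQ', hfix⟩ := exists_fixed hB hnd hQ hT hTT
  by_cases hsame : Plus F Q ↔ Plus F Q'
  · exact ⟨Q', hQ', hfix, sm_of_plus_iff hB hnd hplus hQ hQ' hsame⟩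
  by_cases hex : ∃ a ∈ E T 1, ¬ Wp (Q' a)
  · obtain ⟨a, haE, ha⟩ := hex
    have haE' := Module.End.mem_eigenspace_iff.1 haE
    rw [one_smul] at haE'
    refine ⟨_, hQ'.tw a, fun v => ?_, sm_of_plus_iff hB hnd hplus hQ (hQ'.tw a) ?_⟩
    · show Q' (T v) + B (T v) a ^ 2 = Q' v + B v a ^ 2
      have : B (T v) a = B v a := by
        nth_rw 1 [← haE']
        exact hT v a
      rw [hfix, this]
    · have h1 := plus_tw hB hnd hplus hQ' ha
      tauto
  · exfalso
    push Not at hex
    have hz : ∀ a ∈ E T 1, Q' a = 0 := by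
      intro a ha
      by_contra hne
      obtain ⟨s, hs⟩ := exists_not_wp (F := F)
      obtain ⟨c, hc⟩ := exists_sqrt (s / Q' a)
      apply hs
      have h1 := hex (c • a) ((E T 1).smul_mem c ha)
      rw [hQ'.smul, hc, div_mul_cancel₀ _ hne] at h1
      exact h1
    have hTI := ti_of_sing hQ' hz
    have hle : LinearMap.range (T - 1) ≤ E T 1 := by
      rintro _ ⟨v, rfl⟩
      rw [Module.End.mem_eigenspace_iff, one_smul]
      show T (T v - v) = T v - v
      rw [map_sub, hTT]
      have h1 : ∀ x : V, x + x = 0 := by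
        intro x
        have : (2 : F) • x = 0 := by rw [two_eq, zero_smul]
        rwa [two_smul] at this
      have h2 := h1 v
      have h3 := h1 (T v)
      rw [sub_eq_sub_iff_add_eq_add, h2, h3]
    have hker : LinearMap.ker (T - 1) = E T 1 := by
      ext v
      rw [LinearMap.mem_ker, Module.End.mem_eigenspace_iff, one_smul]
      show T v - v = 0 ↔ _
      rw [sub_eq_zero]
    have hf1 := LinearMap.finrank_range_add_finrank_ker (T - 1)
    rw [hker] at hf1
    have hf2 := Submodule.finrank_mono hle
    have hf3 := ti_finrank hnd hTI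
    have hEf : finrank F (E T 1) = d := by omega
    have hp' : Plus F Q' := ⟨E T 1, hz, by rw [hEf, hd]⟩
    have hnp : ¬ Plus F Q := fun h' => hsame ⟨fun _ => hp', fun _ => h'⟩
    have hodd : Odd d := h.resolve_left hnp
    -- the alternating form (u, v) ↦ B(u, (T - 1) v)
    let β : V →ₗ[F] V →ₗ[F] F := B.compl₂ (T - 1)
    have hβ : ∀ u v, β u v = B u (T v - v) := fun u v => rfl
    have hβalt : Alt β := by
      intro v
      rw [hβ]
      have h1 := hfix v
      have h2 : T v = v + (T v - v) := by abel
      rw [h2, hQ'.add, hz (T v - v) (hle ⟨v, rfl⟩)] at h1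
      linear_combination h1
    obtain ⟨W, hW⟩ := Submodule.exists_isCompl (E T 1)
    have hWnd : ND (σ := RingHom.id F) β W := by
      intro w hw hw'
      have h1 : ∀ v, B w (T v - v) = 0 := by
        intro v
        obtain ⟨x, hx, y, hy, rfl⟩ := Submodule.mem_sup.1 (show v ∈ E T 1 ⊔ W by rw [hW.sup_eq_top]; trivial)
        have hx' := Module.End.mem_eigenspace_iff.1 hx
        rw [one_smul] at hx'
        have h2 : T (x + y) - (x + y) = T y - y := by rw [map_add, hx']; abel
        rw [h2]
        exact hw' y hy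
      have h2 : w ∈ perp (σ := RingHom.id F) B (LinearMap.range (T - 1)) := by
        rintro _ ⟨v, rfl⟩
        rw [symm_of_alt hB]
        exact h1 v
      rw [range_eq_perp hB hnd hT, perp_perp hB.refl hnd] at h2
      exact (Submodule.mem_bot F).1 (by rw [← hW.inf_eq_bot]; exact ⟨h2, hw⟩)
    have heven := even_of_nd hβalt hWnd
    have hWf := Submodule.finrank_add_eq_of_isCompl hW
    have : finrank F W = d := by omega
    rw [this] at heven
    exact (Nat.not_even_iff_odd.2 hodd) heven

end invol

section count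

variable {F V : Type*} [Field F] [Fintype F] [CharP F 2] [AddCommGroup V] [Module F V] [FiniteDimensional F V] {B : V →ₗ[F] V →ₗ[F] F}

/-- the two classes of forms -/
theorem card_classes (hB : Alt B) (hnd : ND (σ := RingHom.id F) B ⊤) {Q : V → F} (hQ : QF B Q) :
    4 * (Nat.card {a : V // Wp (Q a)} * Nat.card {a : V // ¬ Wp (Q a)}) = (Nat.card V - 1) * Nat.card V := by
  classical
  have hfin : Finite V := Module.finite_of_finite F
  have := Fintype.ofFinite V
  set C := (Finset.univ : Finset V).filter fun a => Wp (Q a) with hC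
  set D := (Finset.univ : Finset V).filter fun a => ¬ Wp (Q a) with hD
  have hcC : Nat.card {a : V // Wp (Q a)} = C.card := by rw [Nat.card_eq_fintype_card, Fintype.card_subtype]
  have hcD : Nat.card {a : V // ¬ Wp (Q a)} = D.card := by rw [Nat.card_eq_fintype_card, Fintype.card_subtype]
  rw [hcC, hcD, Nat.card_eq_fintype_card]
  -- pairs (a, b) with Q_b(a) not of the form t² + t
  set S := (Finset.univ : Finset (V × V)).filter fun x => ¬ Wp (tw B Q x.2 x.1) with hS
  have h1 : S.card = 2 * (C.card * D.card) := by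
    have h2 : S.card = ((C ×ˢ D) ∪ (D ×ˢ C)).card := by
      refine Finset.card_bij' (fun x _ => (x.1 + x.2, x.2)) (fun x _ => (x.1 + x.2, x.2)) ?_ ?_ ?_ ?_
      · intro x hx
        rw [hS, Finset.mem_filter, wp_tw hB hQ] at hx
        simp only [hC, hD, Finset.mem_union, Finset.mem_product, Finset.mem_filter, Finset.mem_univ, true_and]
        have := hx.2
        tauto
      · intro x hx
        simp only [hC, hD, Finset.mem_union, Finset.mem_product, Finset.mem_filter, Finset.mem_univ, true_and] at hx
        have h3 : x.1 + x.2 + x.2 = x.1 := by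
          have h4 : (2 : F) • x.2 = 0 := by rw [two_eq, zero_smul]
          rw [two_smul] at h4
          rw [add_assoc, h4, add_zero]
        rw [hS, Finset.mem_filter, wp_tw hB hQ]
        refine ⟨Finset.mem_univ _, ?_⟩
        show ¬ (Wp (Q (x.1 + x.2 + x.2)) ↔ Wp (Q x.2))
        rw [h3]
        tauto
      · intro x _
        have h4 : (2 : F) • x.2 = 0 := by rw [two_eq, zero_smul]
        rw [two_smul] at h4
        show (x.1 + x.2 + x.2, x.2) = x
        rw [add_assoc, h4, add_zero]
      · intro x _
        have h4 : (2 : F) • x.2 = 0 := by rw [two_eq, zero_smul]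
        rw [two_smul] at h4
        show (x.1 + x.2 + x.2, x.2) = x
        rw [add_assoc, h4, add_zero]
    rw [h2, Finset.card_union_of_disjoint, Finset.card_product, Finset.card_product]
    · ring
    · rw [Finset.disjoint_left]
      rintro ⟨x, y⟩ h3 h4
      simp only [hC, hD, Finset.mem_product, Finset.mem_filter, Finset.mem_univ, true_and] at h3 h4
      exact h4.1 h3.1
  have h2 : 2 * S.card = (Fintype.card V - 1) * Fintype.card V := by
    have h3 : S.card = ∑ a : V, ((Finset.univ : Finset V).filter fun b => ¬ Wp (tw B Q b a)).card := by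
      rw [hS, Finset.card_filter, Fintype.sum_prod_type]
      apply Finset.sum_congr rfl
      intro a _
      rw [Finset.card_filter]
    rw [h3, Finset.mul_sum]
    have h4 : ∀ a : V, a ≠ 0 → 2 * ((Finset.univ : Finset V).filter fun b => ¬ Wp (tw B Q b a)).card = Fintype.card V := by
      intro a ha
      -- a vector b₀ with B(a, b₀)² not of the form t² + t
      obtain ⟨s, hs⟩ := exists_not_wp (F := F)
      obtain ⟨w, hw⟩ : ∃ w, B a w ≠ 0 := by
        by_contra h
        push Not at h
        exact ha (hnd a Submodule.mem_top (fun w _ => h w))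
      obtain ⟨t, ht⟩ := exists_sqrt s
      let b₀ := (t / B a w) • w
      have hb₀ : B a b₀ = t := by
        show B a ((t / B a w) • w) = t
        rw [map_smul, smul_eq_mul, div_mul_cancel₀ _ hw]
      have hiff : ∀ b, Wp (tw B Q (b + b₀) a) ↔ ¬ Wp (tw B Q b a) := by
        intro b
        have h5 : tw B Q (b + b₀) a = tw B Q b a + s := by
          show Q a + B a (b + b₀) ^ 2 = Q a + B a b ^ 2 + s
          rw [map_add, sq_add, hb₀, ht]; ring
        rw [h5, wp_add]
        tauto
      have h5 : ((Finset.univ : Finset V).filter fun b => ¬ Wp (tw B Q b a)).card = ((Finset.univ : Finset V).filter fun b => Wp (tw B Q b a)).card := by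
        apply Finset.card_bij (fun b _ => b + b₀)
        · intro b hb
          rw [Finset.mem_filter] at hb ⊢
          exact ⟨Finset.mem_univ _, (hiff b).2 hb.2⟩
        · intro b _ b' _ h
          exact add_right_cancel h
        · intro b hb
          rw [Finset.mem_filter] at hb
          refine ⟨b - b₀, ?_, sub_add_cancel _ _⟩
          rw [Finset.mem_filter]
          refine ⟨Finset.mem_univ _, ?_⟩
          rw [← hiff, sub_add_cancel]
          exact hb.2
      have h6 := Finset.card_filter_add_card_filter_not (s := (Finset.univ : Finset V)) (fun b => Wp (tw B Q b a))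
      rw [Finset.card_univ] at h6
      omega
    have h5 : ((Finset.univ : Finset V).filter fun b => ¬ Wp (tw B Q b 0)).card = 0 := by
      rw [Finset.card_eq_zero, Finset.filter_eq_empty_iff]
      intro b _
      rw [not_not]
      show Wp (Q 0 + B 0 b ^ 2)
      rw [hQ.zero, map_zero, LinearMap.zero_apply, zero_pow two_ne_zero, add_zero]
      exact wp_zero
    rw [← Finset.add_sum_erase _ _ (Finset.mem_univ (0 : V)), h5, mul_zero, zero_add]
    rw [Finset.sum_congr rfl (fun a ha => h4 a (Finset.ne_of_mem_erase ha)), Finset.sum_const, Finset.card_erase_of_mem (Finset.mem_univ _),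
      Finset.card_univ, smul_eq_mul]
  rw [← h2, h1]; ring

/-- an isometry of odd prime order without fixed points preserving `Q` -/
theorem card_mod {r : ℕ} [hr : Fact r.Prime] {Q : V → F} (hQ : QF B Q) {T : Module.End F V} (hTr : T ^ r = 1) (hE : E T 1 = ⊥)
    (hTQ : ∀ v, Q (T v) = Q v) : r ∣ Nat.card {a : V // Wp (Q a)} - 1 := by
  classical
  have hfin : Finite V := Module.finite_of_finite F
  have hcard : Nat.card {a : {a : V // Wp (Q a)} // a.1 ≠ 0} = Nat.card {a : V // Wp (Q a)} - 1 := by
    have := Fintype.ofFinite V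
    have h0 : Wp (Q 0) := by rw [hQ.zero]; exact wp_zero
    rw [Nat.card_eq_fintype_card, Nat.card_eq_fintype_card, ← Fintype.card_subtype_eq (⟨0, h0⟩ : {a : V // Wp (Q a)}), ← Fintype.card_subtype_compl]
    apply Fintype.card_congr
    refine Equiv.subtypeEquivRight (fun a => ?_)
    rw [Ne, Subtype.ext_iff]
  rw [← hcard]
  have hT0 : ∀ v, T v = 0 → v = 0 := by
    intro v hv
    have h4 : (T ^ r) v = 0 := by
      obtain ⟨k, hk⟩ : ∃ k, r = k + 1 := ⟨r - 1, by have := hr.out.pos; omega⟩
      rw [hk, pow_succ, Module.End.mul_apply, hv, map_zero]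
    rw [hTr] at h4
    exact h4
  refine Cfsg.Agent.Lib.UnForm.dvd_card_of_free (fun w => ⟨⟨T w.1.1, by rw [hTQ]; exact w.1.2⟩, fun h => w.2 (hT0 _ h)⟩) ?_ ?_
  · intro w
    apply Subtype.ext
    apply Subtype.ext
    have h3 : ∀ k : ℕ, (((fun w : {a : {a : V // Wp (Q a)} // a.1 ≠ 0} => (⟨⟨T w.1.1, by rw [hTQ]; exact w.1.2⟩, fun h => w.2 (hT0 _ h)⟩ :
        {a : {a : V // Wp (Q a)} // a.1 ≠ 0}))^[k]) w).1.1 = (T ^ k) w.1.1 := by
      intro k
      induction k with
      | zero => rfl
      | succ k ih => rw [Function.iterate_succ_apply', pow_succ', Module.End.mul_apply, ← ih]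
    rw [h3, hTr]; rfl
  · intro w hw
    have h3 : T w.1.1 = w.1.1 := congrArg (fun w : {a : {a : V // Wp (Q a)} // a.1 ≠ 0} => w.1.1) hw
    have h4 : w.1.1 ∈ E T 1 := Module.End.mem_eigenspace_iff.2 (by rw [h3, one_smul])
    rw [hE, Submodule.mem_bot] at h4
    exact w.2 h4

end count

end Cfsg.Agent.Lib.QArf
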