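import Cfsg.Agent.Lib.XR6
import Cfsg.Agent.Lib.SpConj4
import Mathlib.NumberTheory.LegendreSymbol.QuadraticReciprocity

/-! # Symplectic type 2-groups in dimension four: elements of order five, golden ratio -/

set_option autoImplicit false
set_option linter.dupNamespace false
set_option linter.style.haveILetI false

namespace Cfsg.Agent.Lib.XR

open Matrix Module Cfsg.Agent.Lib.NormTool Cfsg.Agent.Lib.CycConj Cfsg.Agent.Lib.PrimeOrd Cfsg.Agent.Lib.InvSub
open scoped MatrixGroups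

theorem dz5 : ∀ t : ZMod 5, t ≠ 0 → (t ^ 2 ≠ 1) → t ^ 4 = 1 := by decide

theorem ds5 : ∀ t : ZMod 5, t ^ 2 = 1 → ∃ s : ZMod 5, t = s * s := by decide

/-- square roots of five -/
theorem exists_eta {F : Type*} [Field F] {p : ℕ} [hp : Fact p.Prime] [CharP F p] (hp2 : p ≠ 2) (hp5 : p ≠ 5)
    (h : orderOf (p : ZMod 5) ≠ 4) : ∃ η : F, η ^ 2 + η - 1 = 0 := by
  haveI : Fact (Nat.Prime 5) := ⟨by norm_num⟩
  have h1 : ((p : ℕ) : ZMod 5) ≠ 0 := by
    intro h0
    have := (ZMod.natCast_eq_zero_iff p 5).1 h0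
    exact hp5 ((Nat.prime_dvd_prime_iff_eq (by norm_num) hp.out).1 this).symm
  have h2 : IsSquare ((p : ℕ) : ZMod 5) := by
    generalize ((p : ℕ) : ZMod 5) = t at h h1
    by_cases ht : t ^ 2 = 1
    · exact ds5 t ht
    · exfalso
      apply h
      have h3 := orderOf_eq_prime_pow (p := 2) (n := 1) (x := t) (by rw [pow_one]; exact ht) (by norm_num; exact dz5 t h1 ht)
      rw [h3]; norm_num
  have h3 : IsSquare ((5 : ℕ) : ZMod p) := (ZMod.exists_sq_eq_prime_iff_of_mod_four_eq_one (p := 5) (q := p) (by norm_num) hp2).1 h2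
  obtain ⟨s, hs⟩ := h3
  let f : ZMod p →+* F := ZMod.castHom (dvd_refl p) F
  have h5 : (5 : F) = f s * f s := by
    rw [← map_mul, ← hs, map_natCast]; norm_num
  have h2F : (2 : F) ≠ 0 := by
    intro h
    have := (CharP.cast_eq_zero_iff F p 2).1 (by exact_mod_cast h)
    exact hp2 ((Nat.prime_dvd_prime_iff_eq hp.out Nat.prime_two).1 this)
  refine ⟨(-1 + f s) / 2, ?_⟩
  field_simp
  linear_combination -h5

section gen

variable {F : Type*} [Field F] {ι : Type} [Fintype ι] [DecidableEq ι]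

theorem tr_conj (x g : GL ι F) : (g⁻¹ * x * g).1.trace = x.1.trace := by
  have h1 : g.1 * (g⁻¹).1 = 1 := by rw [← Units.val_mul, mul_inv_cancel]; rfl
  rw [Units.val_mul, Units.val_mul, Matrix.trace_mul_comm, ← Matrix.mul_assoc, h1, Matrix.one_mul]

theorem inv_conj (x g : GL ι F) : (g⁻¹ * x * g)⁻¹ = g⁻¹ * x⁻¹ * g := by group

theorem finrank_conj' (x g : GL ι F) (μ : F) :
    finrank F (Module.End.eigenspace (Matrix.toLin' (g⁻¹ * x * g).1) μ) = finrank F (Module.End.eigenspace (Matrix.toLin' x.1) μ) := by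
  have h1 : g.1 * (g⁻¹).1 = 1 := by rw [← Units.val_mul, mul_inv_cancel]; rfl
  have h2 : (g⁻¹).1 * g.1 = 1 := by rw [← Units.val_mul, inv_mul_cancel]; rfl
  let e : (ι → F) ≃ₗ[F] (ι → F) := LinearEquiv.ofLinear (Matrix.toLin' g.1) (Matrix.toLin' (g⁻¹).1)
    (by rw [← Matrix.toLin'_mul, h1, Matrix.toLin'_one]) (by rw [← Matrix.toLin'_mul, h2, Matrix.toLin'_one])
  have he : ∀ v, e v = g.1 *ᵥ v := fun v => rfl
  refine Cfsg.Agent.Lib.SpConj.finrank_E_conj e (fun v => ?_) μ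
  rw [he, he, Matrix.toLin'_apply, Matrix.toLin'_apply, Matrix.mulVec_mulVec, Matrix.mulVec_mulVec]
  congr 1
  rw [← Units.val_mul, ← Units.val_mul]
  congr 1
  group

/-- elements with a golden trace -/
theorem XR.five_contra {R : Subgroup (GL ι F)} (h : XR R) {y : GL ι F} (hy : y ∈ Subgroup.normalizer (R : Set (GL ι F))) (hy5 : y ^ 5 = 1)
    (hyn : ∀ c : F, y.1 ≠ c • (1 : Matrix ι ι F)) {η : F} (hη : η ^ 2 + η - 1 = 0) (ht : y.1.trace = 2 + η)
    (ht' : (y⁻¹).1.trace = 2 + η) : (5 : F) = 0 := by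
  haveI : Fact (Nat.Prime 5) := ⟨by norm_num⟩
  have hyr : ∀ w ∈ R, y ^ 5 * w = w * y ^ 5 := by intro w _; rw [hy5, one_mul, mul_one]
  have hodd : Odd 5 := by decide
  rcases h.card_cases hodd hyr hy hyn with ⟨h1, -⟩ | ⟨-, h1⟩
  · have h2 := h.trace_one hodd hyr hy h1
    rw [ht, ht'] at h2
    have h3 : 3 * η + 4 = 0 := by linear_combination h2 - hη
    linear_combination (3 * η - 1) * h3 - 9 * hη
  · omega

end gen

end Cfsg.Agent.Lib.XR
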