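import Mathlib
import Cfsg.Agent.Lib.QArf2
import Cfsg.Agent.Lib.XR7

/-! Quadratic forms in characteristic two and the standard symplectic group. (helper99) -/

set_option autoImplicit false

namespace Cfsg.Agent.Lib.QArf

open Module Matrix Cfsg.Agent.Lib.InvSub Cfsg.Agent.Lib.Sesq Cfsg.Agent.Lib.PrimeOrd Cfsg.Agent.Lib.SpConj
open Cfsg.Agent.Lib.AltSim (JB JB_apply)

section

variable {F : Type*} [Field F] {d : ℕ}

theorem jb_formula (u v : Fin d ⊕ Fin d → F) : JB (F := F) d u v = ∑ i, (u (.inr i) * v (.inl i) - u (.inl i) * v (.inr i)) := by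
  rw [JB_apply, Matrix.J]
  simp only [dotProduct, Matrix.mulVec, Fintype.sum_sum_type, Matrix.fromBlocks_apply₁₁, Matrix.fromBlocks_apply₁₂,
    Matrix.fromBlocks_apply₂₁, Matrix.fromBlocks_apply₂₂, Matrix.zero_apply, zero_mul, Finset.sum_const_zero,
    Matrix.neg_apply, zero_add, add_zero]
  simp [Matrix.one_apply]
  rw [← sub_eq_neg_add, ← Finset.sum_sub_distrib]

theorem plus_qf [CharP F 2] : QF (JB (F := F) d) (Cfsg.quadFormPlus d F) := by
  refine ⟨fun c v => ?_, fun u v => ?_⟩
  · unfold Cfsg.quadFormPlus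
    rw [Finset.mul_sum]
    apply Finset.sum_congr rfl
    intro i _
    simp only [Pi.smul_apply, smul_eq_mul]; ring
  · unfold Cfsg.quadFormPlus
    rw [jb_formula, ← Finset.sum_add_distrib, ← Finset.sum_add_distrib]
    apply Finset.sum_congr rfl
    intro i _
    simp only [Pi.add_apply]
    have := add_self (u (.inl i) * v (.inr i))
    linear_combination this

theorem plus_plus [CharP F 2] : Plus F (Cfsg.quadFormPlus d F) := by
  let φ : (Fin d → F) →ₗ[F] (Fin d ⊕ Fin d → F) :=
    { toFun := fun u => Sum.elim u 0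
      map_add' := fun u v => by funext i; rcases i with i | i <;> simp
      map_smul' := fun c u => by funext i; rcases i with i | i <;> simp }
  have hinj : Function.Injective φ := by
    intro u v h
    funext i
    exact congrFun h (Sum.inl i)
  refine ⟨LinearMap.range φ, ?_, ?_⟩
  · rintro _ ⟨u, rfl⟩
    unfold Cfsg.quadFormPlus
    apply Finset.sum_eq_zero
    intro i _
    show u i * (0 : Fin d → F) i = 0
    rw [Pi.zero_apply, mul_zero]
  · rw [LinearMap.finrank_range_of_inj hinj, finrank_jb, Module.finrank_fin_fun]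

theorem plus_iff {Q : (Fin d ⊕ Fin d → F) → F} : Cfsg.Geo.IsPlusTypeOn Q ⊤ ↔ Plus F Q := by
  constructor
  · rintro ⟨U, -, h1, h2⟩
    exact ⟨U, h1, by rw [h2, finrank_top]⟩
  · rintro ⟨U, h1, h2⟩
    exact ⟨U, le_top, h1, by rw [h2, finrank_top]⟩

theorem qf_of {Q : (Fin d ⊕ Fin d → F) → F} (hQ : Cfsg.Geo.IsNondegenerateQuadraticForm Q)
    (hQf : ∀ u v, QuadraticMap.polar Q u v = Cfsg.sympForm d F u v) : QF (JB (F := F) d) Q := by
  refine ⟨hQ.smul, fun u v => ?_⟩
  rw [jb_eq, ← hQf, QuadraticMap.polar]; ring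

/-- similarities of `Q` in the symplectic group are isometries -/
theorem sim_iff (hd : 0 < d) {Q : (Fin d ⊕ Fin d → F) → F} (hQ : QF (JB (F := F) d) Q) {x : GL (Fin d ⊕ Fin d) F} (hx : x ∈ Cfsg.spGL d F) :
    x ∈ Cfsg.Geo.quadSimilarityGroup Q ↔ ∀ v, Q (Matrix.toLin' x.1 v) = Q v := by
  constructor
  · rintro ⟨c, hc⟩ v
    have hc' : ∀ v, Q (Matrix.toLin' x.1 v) = c * Q v := hc
    have hiso := (mem_spGL x).1 hx
    let u : Fin d ⊕ Fin d → F := Pi.single (.inl ⟨0, hd⟩) 1
    obtain ⟨w, hw⟩ : ∃ w, JB (F := F) d u w ≠ 0 := by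
      by_contra h
      push Not at h
      have h1 := jb_nd (F := F) d u Submodule.mem_top (fun w _ => h w)
      have h2 := congrFun h1 (.inl ⟨0, hd⟩)
      simp [u] at h2
    have h1 := hQ.add (Matrix.toLin' x.1 u) (Matrix.toLin' x.1 w)
    rw [← map_add, hc', hc', hc', hQ.add, hiso] at h1
    have h2 : ((c : F) - 1) * JB (F := F) d u w = 0 := by linear_combination h1
    have h3 : (c : F) = 1 := by
      rcases mul_eq_zero.1 h2 with h4 | h4
      · linear_combination h4
      · exact absurd h4 hw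
    rw [hc', h3, one_mul]
  · intro h
    exact ⟨1, fun v => by rw [Units.val_one, one_mul]; exact h v⟩

end

section index

variable {F : Type*} [Field F] [Fintype F] [CharP F 2] {d : ℕ}

theorem hplus : ∃ Q₁, QF (JB (F := F) d) Q₁ ∧ Plus F Q₁ := ⟨_, plus_qf, plus_plus⟩

theorem tw_inj {Q : (Fin d ⊕ Fin d → F) → F} {a b : Fin d ⊕ Fin d → F} (h : tw (JB (F := F) d) Q a = tw (JB (F := F) d) Q b) : a = b := by
  have h1 : ∀ v, JB (F := F) d v a = JB (F := F) d v b := by
    intro v
    apply eq_of_sq_eq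
    have h2 : Q v + JB (F := F) d v a ^ 2 = Q v + JB (F := F) d v b ^ 2 := congrFun h v
    exact add_left_cancel h2
  have h3 : a - b = 0 := by
    apply jb_nd (F := F) d _ Submodule.mem_top
    intro w _
    rw [(jb_alt (F := F) d).skew, map_sub, h1, sub_self, neg_zero]
  exact sub_eq_zero.1 h3

theorem relIndex_eq (hd : 0 < d) {Q : (Fin d ⊕ Fin d → F) → F} (hQ : QF (JB (F := F) d) Q) :
    (Cfsg.Geo.quadSimilarityGroup Q).relIndex (Cfsg.spGL d F) = Nat.card {a : Fin d ⊕ Fin d → F // Wp (Q a)} := by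
  classical
  have hB := jb_alt (F := F) d
  have hnd := jb_nd (F := F) d
  set G := Cfsg.spGL d F with hG
  set K := (Cfsg.Geo.quadSimilarityGroup Q).subgroupOf G with hK
  have hiso : ∀ g : G, Iso (σ := RingHom.id F) (JB (F := F) d) (Matrix.toLin' g.1.1) := fun g => (mem_spGL g.1).1 g.2
  have hmul : ∀ (g h : G) (v : Fin d ⊕ Fin d → F), Matrix.toLin' (g * h).1.1 v = Matrix.toLin' g.1.1 (Matrix.toLin' h.1.1 v) := by
    intro g h v
    show Matrix.toLin' (g.1.1 * h.1.1) v = _
    rw [Matrix.toLin'_mul]; rfl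
  have hone : ∀ v : Fin d ⊕ Fin d → F, Matrix.toLin' (1 : G).1.1 v = v := by
    intro v
    show Matrix.toLin' (1 : Matrix (Fin d ⊕ Fin d) (Fin d ⊕ Fin d) F) v = v
    rw [Matrix.toLin'_one]; rfl
  choose f hf using fun g : G => exists_tw hB hnd hQ (hQ.comp (hiso g⁻¹))
  have hf' : ∀ (g : G) v, Q (Matrix.toLin' (g⁻¹).1.1 v) = tw (JB (F := F) d) Q (f g) v := fun g v => congrFun (hf g) v
  have hfeq : ∀ g g' : G, f g = f g' ↔ g⁻¹ * g' ∈ K := by
    intro g g'
    rw [hK, Subgroup.mem_subgroupOf, sim_iff hd hQ (g⁻¹ * g').2]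
    constructor
    · intro h v
      rw [hmul, hf', h, ← hf', ← hmul, inv_mul_cancel, hone]
    · intro h
      apply tw_inj (Q := Q)
      funext v
      rw [← hf', ← hf']
      have h1 := h (Matrix.toLin' (g'⁻¹).1.1 v)
      rw [← hmul, mul_assoc, mul_inv_cancel, mul_one] at h1
      exact h1
  have hrange : Set.range f = {a | Wp (Q a)} := by
    ext a
    constructor
    · rintro ⟨g, rfl⟩
      show Wp (Q (f g))
      rw [← sm_tw_iff hB hnd hplus hQ]
      let e : (Fin d ⊕ Fin d → F) ≃ₗ[F] (Fin d ⊕ Fin d → F) := LinearEquiv.ofInjectiveEndo (Matrix.toLin' (g⁻¹).1.1) ((hiso g⁻¹).injective hnd)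
      exact ⟨e, hiso g⁻¹, fun v => (hf' g v).symm⟩
    · intro ha
      have ha' : Wp (Q a) := ha
      rw [← sm_tw_iff hB hnd hplus hQ] at ha'
      obtain ⟨e, he, heQ⟩ := ha'
      obtain ⟨x, hx, hxe⟩ := exists_spGL (T := (e : (Fin d ⊕ Fin d → F) →ₗ[F] (Fin d ⊕ Fin d → F))) he
      refine ⟨(⟨x, hx⟩ : G)⁻¹, ?_⟩
      apply tw_inj (Q := Q)
      funext v
      rw [← hf', inv_inv, heQ]
      show Q (Matrix.toLin' x.1 v) = Q (e v)
      rw [hxe]; rfl
  have hcard : Nat.card (G ⧸ K) = Nat.card (Set.range f) := by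
    apply Nat.card_congr
    let F' : G ⧸ K → Set.range f := Quotient.lift (fun g => (⟨f g, ⟨g, rfl⟩⟩ : Set.range f)) (by
      intro g g' h
      apply Subtype.ext
      exact (hfeq g g').2 (QuotientGroup.leftRel_apply.1 h))
    refine Equiv.ofBijective F' ⟨?_, ?_⟩
    · intro a b
      obtain ⟨g, rfl⟩ := QuotientGroup.mk_surjective a
      obtain ⟨g', rfl⟩ := QuotientGroup.mk_surjective b
      intro h
      apply QuotientGroup.eq.2
      exact (hfeq g g').1 (congrArg Subtype.val h)
    · rintro ⟨_, ⟨g, rfl⟩⟩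
      exact ⟨(g : G ⧸ K), rfl⟩
  have h1 : (Cfsg.Geo.quadSimilarityGroup Q).relIndex G = Nat.card (G ⧸ K) := rfl
  rw [h1, hcard, hrange]
  rfl

end index

section invol

variable {F : Type*} [Field F] [CharP F 2] {d : ℕ}

/-- the nilpotent map `(x, y) ↦ (rev y, 0)` -/
noncomputable def revN (F : Type*) [Field F] (d : ℕ) : Module.End F (Fin d ⊕ Fin d → F) where
  toFun v := Sum.elim (fun i => v (.inr (Fin.rev i))) 0
  map_add' u v := by funext i; rcases i with i | i <;> simp
  map_smul' c v := by funext i; rcases i with i | i <;> simp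

omit [CharP F 2] in
theorem jb_revN (u v : Fin d ⊕ Fin d → F) : JB (F := F) d u (revN F d v) = ∑ i, u (.inr i) * v (.inr (Fin.rev i)) := by
  rw [jb_formula]
  apply Finset.sum_congr rfl
  intro i _
  show u (.inr i) * v (.inr (Fin.rev i)) - u (.inl i) * (0 : Fin d → F) i = _
  rw [Pi.zero_apply, mul_zero, sub_zero]

omit [CharP F 2] in
theorem revN_iso : Iso (σ := RingHom.id F) (JB (F := F) d) (1 + revN F d) := by
  intro u v
  show JB (F := F) d (u + revN F d u) (v + revN F d v) = _
  have h1 : JB (F := F) d (revN F d u) (revN F d v) = 0 := by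
    rw [jb_revN]
    apply Finset.sum_eq_zero
    intro i _
    show (0 : Fin d → F) i * _ = 0
    rw [Pi.zero_apply, zero_mul]
  have h2 : JB (F := F) d (revN F d u) v = - ∑ i, v (.inr i) * u (.inr (Fin.rev i)) := by
    rw [(jb_alt (F := F) d).skew, jb_revN]
  have h3 : ∑ i, v (.inr i) * u (.inr (Fin.rev i)) = ∑ i, u (.inr i) * v (.inr (Fin.rev i)) := by
    rw [← Equiv.sum_comp Fin.revPerm]
    apply Finset.sum_congr rfl
    intro i _
    rw [Fin.revPerm_apply, Fin.rev_rev, mul_comm]
  rw [map_add, map_add, LinearMap.add_apply, LinearMap.add_apply, h1, h2, h3, jb_revN]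
  ring

omit [CharP F 2] in
theorem revN_sq (v : Fin d ⊕ Fin d → F) : revN F d (revN F d v) = 0 := by
  funext i
  rcases i with i | i
  · show (0 : Fin d → F) (Fin.rev i) = 0
    rfl
  · rfl

theorem jb_revN_self (hd : Even d) (v : Fin d ⊕ Fin d → F) : JB (F := F) d v (revN F d v) = 0 := by
  rw [jb_revN]
  apply Finset.sum_involution (fun i _ => Fin.rev i)
  · intro i _
    rw [Fin.rev_rev, mul_comm (v (.inr (Fin.rev i)))]
    exact add_self _
  · intro i _ _ h
    obtain ⟨m, hm⟩ := hd
    have := congrArg Fin.val h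
    rw [Fin.val_rev] at this
    have := i.2
    omega
  · intro i _; exact Finset.mem_univ _
  · intro i _; exact Fin.rev_rev i

omit [CharP F 2] in
theorem finrank_E_revN : finrank F (E (1 + revN F d) 1) = d := by
  have h1 : E (1 + revN F d) 1 = LinearMap.ker (revN F d) := by
    ext v
    rw [Module.End.mem_eigenspace_iff, one_smul, LinearMap.mem_ker]
    show v + revN F d v = v ↔ _
    rw [add_eq_left]
  have h2 : LinearMap.ker (revN F d) = LinearMap.ker (LinearMap.funLeft F F (Sum.inr : Fin d → Fin d ⊕ Fin d)) := by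
    ext v
    rw [LinearMap.mem_ker, LinearMap.mem_ker]
    constructor
    · intro h
      funext i
      have := congrFun h (.inl (Fin.rev i))
      change v (.inr (Fin.rev (Fin.rev i))) = 0 at this
      rw [Fin.rev_rev] at this
      exact this
    · intro h
      funext i
      rcases i with i | i
      · exact congrFun h (Fin.rev i)
      · rfl
  have h3 := LinearMap.finrank_range_add_finrank_ker (LinearMap.funLeft F F (Sum.inr : Fin d → Fin d ⊕ Fin d))
  have h4 : LinearMap.range (LinearMap.funLeft F F (Sum.inr : Fin d → Fin d ⊕ Fin d)) = ⊤ :=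
    LinearMap.range_eq_top.2 (LinearMap.funLeft_surjective_of_injective F F _ Sum.inr_injective)
  rw [h4, finrank_top, finrank_jb, Module.finrank_fin_fun] at h3
  rw [h1, h2]
  omega

end invol

end Cfsg.Agent.Lib.QArf
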