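import Mathlib
import Cfsg.Prelude.Def_GeometricClasses
import Cfsg.Agent.Lib.OrthStd67
import Cfsg.Agent.Lib.OrthEmb67
import Cfsg.Agent.Lib.QuadEmb67
import Cfsg.Agent.Lib.OrthR67
import Cfsg.Agent.Lib.ClOrthOrd2
import Cfsg.Agent.Lib.NormTool
import Cfsg.Agent.Lib.SubspaceCount

set_option autoImplicit false
set_option linter.unusedSectionVars false

/-!
Similarity groups of quadratic forms: the index in the special linear group (helper99).
-/

namespace Cfsg.Agent.Lib.QSim

open QuadraticMap Module Cfsg.Agent.Lib.Quad Cfsg.Agent.Lib.QuadD67 Cfsg.Agent.Lib.QuadEmb67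
open Cfsg.Agent.Lib.OrthEmb67 (extHom extHom_injective extHom_mem)
open Cfsg.Agent.Lib.NormTool (mem_SL_iff)

/-- determinant of a similarity -/
theorem det_sq {F : Type*} [Field F] {V : Type*} [AddCommGroup V] [Module F V] [FiniteDimensional F V] {Q : QuadraticForm F V}
    (hQ : Nd Q) (L : V →ₗ[F] V) {c : F} (hL : ∀ x y, polar Q (L x) (L y) = c * polar Q x y) :
    LinearMap.det L ^ 2 = c ^ Module.finrank F V := by
  set b := finBasis F V
  set G := LinearMap.BilinForm.toMatrix b (polarBilin Q) with hG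
  have h1 : LinearMap.BilinForm.comp (polarBilin Q) L L = c • polarBilin Q := by
    apply LinearMap.ext
    intro x
    apply LinearMap.ext
    intro y
    exact hL x y
  have h2 := LinearMap.BilinForm.toMatrix_comp b b (polarBilin Q) L L
  rw [h1, map_smul, ← hG] at h2
  have h3 := congrArg Matrix.det h2
  rw [Matrix.det_smul, Matrix.det_mul, Matrix.det_mul, Matrix.det_transpose, Fintype.card_fin,
    LinearMap.det_toMatrix] at h3
  have h4 : G.det ≠ 0 := by
    rw [hG, ← LinearMap.BilinForm.nondegenerate_iff_det_ne_zero]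
    exact hQ
  apply mul_right_cancel₀ h4
  rw [h3]; ring

section index

variable {F : Type*} [Field F] [Fintype F] {n : ℕ}

theorem card_le_two {G : Type*} [Group G] [Finite G] (χ : G →* Fˣ) (h : ∀ g, χ g ^ 2 = 1) : Nat.card χ.range ∣ 2 := by
  haveI : IsCyclic χ.range := inferInstance
  rw [← IsCyclic.exponent_eq_card]
  apply Monoid.exponent_dvd_of_forall_pow_eq_one
  rintro ⟨_, g, rfl⟩
  exact Subtype.ext (h g)

/-- the order of the isometry group of an embedded space -/
theorem card_dvd {Q : QuadraticForm F (Fin n → F)} (hQ : Nd Q) {W : Type*} [AddCommGroup W] [Module F W] [FiniteDimensional F W]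
    {Q' : QuadraticForm F W} (hQ' : Nd Q') {j : W →ₗ[F] (Fin n → F)} (hj : ∀ x, Q (j x) = Q' x) :
    Nat.card (O Q') ∣ 2 * Nat.card ↥(Cfsg.Geo.quadSimilarityGroup ⇑Q ⊓ Cfsg.Geo.specialLinear (Fin n) F) := by
  classical
  haveI : Finite W := Module.finite_of_finite F
  haveI : Finite (W ≃ₗ[F] W) := Finite.of_injective (fun e => (e : W → W)) DFunLike.coe_injective
  let φ : O Q' →* Matrix.GeneralLinearGroup (Fin n) F :=
    (toLE (ι := Fin n) (F := F)).symm.toMonoidHom.comp ((extHom Q hQ' j hj).comp (O Q').subtype)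
  have hφ : ∀ g, toLE (φ g) = extHom Q hQ' j hj g := fun g => (toLE (ι := Fin n) (F := F)).apply_symm_apply _
  have hinj : Function.Injective φ := by
    intro a b h
    have h1 := congrArg toLE h
    rw [hφ, hφ] at h1
    exact Subtype.ext (extHom_injective hQ' hj h1)
  have hval : ∀ g v, (φ g).1.mulVec v = extHom Q hQ' j hj g v := by
    intro g v
    rw [← hφ]; rfl
  have hiso : ∀ g v, Q ((φ g).1.mulVec v) = Q v := by
    intro g v
    rw [hval]
    exact extHom_mem hQ' hj g.2 v
  let χ : O Q' →* Fˣ := (Matrix.GeneralLinearGroup.det (n := Fin n) (R := F)).comp φ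
  have hχ : ∀ g, χ g ^ 2 = 1 := by
    intro g
    apply Units.ext
    have h1 := det_sq hQ (Matrix.toLin' (φ g).1) (c := 1) (by
      intro x y
      rw [one_mul]
      simp only [polar]
      rw [← map_add, Matrix.toLin'_apply, Matrix.toLin'_apply, Matrix.toLin'_apply, hiso, hiso, hiso])
    rw [one_pow, LinearMap.det_toLin'] at h1
    exact h1
  have h1 : Nat.card χ.ker ∣ Nat.card ↥(Cfsg.Geo.quadSimilarityGroup ⇑Q ⊓ Cfsg.Geo.specialLinear (Fin n) F) := by
    let ψ : χ.ker →* ↥(Cfsg.Geo.quadSimilarityGroup ⇑Q ⊓ Cfsg.Geo.specialLinear (Fin n) F) :=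
      (φ.comp χ.ker.subtype).codRestrict _ (by
        rintro ⟨g, hg⟩
        refine Subgroup.mem_inf.2 ⟨⟨1, fun v => ?_⟩, ?_⟩
        · rw [Units.val_one, one_mul]; exact hiso g v
        · exact hg)
    apply Subgroup.card_dvd_of_injective ψ
    intro a b h
    exact Subtype.ext (hinj (congrArg (fun z => z.1) h))
  have h2 := Subgroup.card_mul_index χ.ker
  rw [Subgroup.index_ker] at h2
  rw [← h2, mul_comm 2]
  exact Nat.mul_dvd_mul h1 (card_le_two χ hχ)

theorem card_SL (hn : 0 < n) : Nat.card ↥(Cfsg.Geo.specialLinear (Fin n) F) * (Fintype.card F - 1) =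
    (∏ i ∈ Finset.range n, Fintype.card F ^ i) * ∏ i ∈ Finset.range n, (Fintype.card F ^ (i + 1) - 1) := by
  classical
  have e5 : Nat.card ↥(Cfsg.Geo.specialLinear (Fin n) F) * (Fintype.card F - 1) = Nat.card (Matrix.GeneralLinearGroup (Fin n) F) := by
    have h1 : Cfsg.Geo.specialLinear (Fin n) F = (Matrix.GeneralLinearGroup.det (n := Fin n) (R := F)).ker := rfl
    have h2 := Subgroup.card_mul_index (Matrix.GeneralLinearGroup.det (n := Fin n) (R := F)).ker
    rw [Subgroup.index_ker] at h2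
    have h3 : (Matrix.GeneralLinearGroup.det (n := Fin n) (R := F)).range = ⊤ := by
      rw [MonoidHom.range_eq_top]
      intro a
      have hdet : (Matrix.diagonal (Function.update (fun _ : Fin n => (1 : F)) ⟨0, by omega⟩ (a : F))).det = a := by
        rw [Matrix.det_diagonal, Finset.prod_update_of_mem (Finset.mem_univ _)]
        simp
      refine ⟨Matrix.GeneralLinearGroup.mkOfDetNeZero (Matrix.diagonal (Function.update (fun _ : Fin n => (1 : F)) ⟨0, by omega⟩ (a : F))) (by
        rw [hdet]; exact a.ne_zero), ?_⟩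
      ext
      exact hdet
    have h4 : Nat.card (⊤ : Subgroup Fˣ) = Fintype.card F - 1 := by
      rw [Subgroup.card_top, Nat.card_units, Nat.card_eq_fintype_card]
    rw [h3, h4, ← h1] at h2
    exact h2
  rw [e5, Matrix.card_GL_field, Fin.prod_univ_eq_prod_range (fun i => (Fintype.card F) ^ n - (Fintype.card F) ^ i) n]
  rw [← Finset.prod_range_reflect (fun i => (Fintype.card F) ^ (i + 1) - 1), ← Finset.prod_mul_distrib]
  apply Finset.prod_congr rfl
  intro i hi
  rw [Finset.mem_range] at hi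
  rw [Nat.mul_sub, mul_one, ← pow_add]
  congr 2
  omega

theorem prod_split (q : ℕ) : ∀ n m : ℕ, n = 2 * m ∨ n = 2 * m + 1 → ∏ i ∈ Finset.range n, (q ^ (i + 1) - 1) =
    (∏ i ∈ Finset.range (n - m), (q ^ (2 * i + 1) - 1)) * ∏ i ∈ Finset.range m, (q ^ (2 * (i + 1)) - 1) := by
  have key : ∀ m : ℕ, ∏ i ∈ Finset.range (2 * m), (q ^ (i + 1) - 1) =
      (∏ i ∈ Finset.range m, (q ^ (2 * i + 1) - 1)) * ∏ i ∈ Finset.range m, (q ^ (2 * (i + 1)) - 1) := by
    intro m
    induction m with
    | zero => simp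
    | succ m ih =>
      rw [show 2 * (m + 1) = 2 * m + 1 + 1 by ring, Finset.prod_range_succ, Finset.prod_range_succ, ih, Finset.prod_range_succ, Finset.prod_range_succ]
      rw [show 2 * (m + 1) = 2 * m + 1 + 1 by ring]
      ring
  rintro n m (rfl | rfl)
  · rw [key, show 2 * m - m = m by omega]
  · rw [Finset.prod_range_succ, key, show 2 * m + 1 - m = m + 1 by omega, Finset.prod_range_succ]
    ring

/-- the index of the similarity group -/
theorem index_key {r : ℕ} [hr : Fact r.Prime] (hrF : (r : F) ≠ 0) (heven : Even (orderOf ((Fintype.card F : ℕ) : ZMod r)))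
    {Q : QuadraticForm F (Fin n → F)} (hQ : Nd Q) {m : ℕ} (hnm : n = 2 * (m + 1) ∨ n = 2 * (m + 1) + 1)
    (hd : r ∣ (Cfsg.Geo.quadSimilarityGroup ⇑Q).relIndex (Cfsg.Geo.specialLinear (Fin n) F))
    {W : Type*} [AddCommGroup W] [Module F W] [FiniteDimensional F W]
    {Q' : QuadraticForm F W} (hQ' : Nd Q') {j : W →ₗ[F] (Fin n → F)} (hj : ∀ x, Q (j x) = Q' x) {k X Y : ℕ} (hX : 0 < X)
    (hXY : X * Y = Fintype.card F ^ (2 * (m + 1)) - 1)
    (hcard : Nat.card (O Q') = 2 * (Fintype.card F) ^ k * X * ∏ i ∈ Finset.range m, ((Fintype.card F) ^ (2 * (i + 1)) - 1)) :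
    r ∣ Y := by
  classical
  have hn : 0 < n := by omega
  have hq : 1 < Fintype.card F := Fintype.one_lt_card
  set q := Fintype.card F with hqdef
  have h1 := card_dvd hQ hQ' hj
  set H := Cfsg.Geo.quadSimilarityGroup ⇑Q with hH
  set S := Cfsg.Geo.specialLinear (Fin n) F with hS
  have e2 : Nat.card ↥(H ⊓ S) * H.relIndex S = Nat.card S := by
    rw [← Subgroup.inf_relIndex_right H S, ← Subgroup.relIndex_bot_left (H ⊓ S), ← Subgroup.relIndex_bot_left S]
    exact Subgroup.relIndex_mul_relIndex ⊥ (H ⊓ S) S bot_le inf_le_right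
  obtain ⟨l, hl⟩ := hd
  obtain ⟨t, ht⟩ := h1
  have e3 : 2 * (Nat.card S * (q - 1)) = r * (Nat.card (O Q') * (t * l * (q - 1))) := by
    have h1 := e2
    rw [hl] at h1
    rw [← h1]
    have : 2 * (Nat.card ↥(H ⊓ S) * (r * l) * (q - 1)) = r * (2 * Nat.card ↥(H ⊓ S) * (l * (q - 1))) := by ring
    rw [this, ht]; ring
  rw [hcard, card_SL hn, prod_split q n (m + 1) hnm, Finset.prod_range_succ (fun i => q ^ (2 * (i + 1)) - 1) m, ← hXY] at e3
  set Em := ∏ i ∈ Finset.range m, (q ^ (2 * (i + 1)) - 1) with hEm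
  set Qn := ∏ i ∈ Finset.range n, q ^ i with hQn
  set Od := ∏ i ∈ Finset.range (n - (m + 1)), (q ^ (2 * i + 1) - 1) with hOd
  have hEpos : 0 < Em := by
    apply Finset.prod_pos
    intro i _
    have : 1 < q ^ (2 * (i + 1)) := Nat.one_lt_pow (by omega) hq
    omega
  have h3 : (Qn * Od * Y) * (2 * X * Em) = (r * (q ^ k * (t * l * (q - 1)))) * (2 * X * Em) := by
    linear_combination e3
  have h4 := Nat.eq_of_mul_eq_mul_right (by positivity) h3
  have h5 : r ∣ Qn * Od * Y := ⟨_, h4⟩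
  have hrq : ¬ r ∣ q := by
    intro hd
    apply hrF
    obtain ⟨s, hs⟩ := hd
    obtain ⟨p, hp⟩ := CharP.exists F
    haveI : Fact p.Prime := ⟨CharP.char_is_prime F p⟩
    obtain ⟨e, -, hc⟩ := FiniteField.card F p
    have : r ∣ p ^ (e : ℕ) := by rw [← hc]; exact ⟨s, hs⟩
    have h6 := (Nat.prime_dvd_prime_iff_eq hr.out (Fact.out : p.Prime)).mp (hr.out.dvd_of_dvd_pow this)
    rw [h6]
    exact CharP.cast_eq_zero F p
  rcases (Nat.Prime.dvd_mul hr.out).mp h5 with h6 | h6
  · exfalso
    rcases (Nat.Prime.dvd_mul hr.out).mp h6 with h7 | h7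
    · obtain ⟨i, -, h8⟩ := (Prime.dvd_finsetProd_iff hr.out.prime _).mp h7
      exact hrq (hr.out.dvd_of_dvd_pow h8)
    · obtain ⟨i, -, h8⟩ := (Prime.dvd_finsetProd_iff hr.out.prime _).mp h7
      have h9 := SubspaceCount.orderOf_dvd_of_dvd (q := q) (r := r) (k := 2 * i + 1) (by omega) h8
      obtain ⟨s, hs⟩ := heven
      obtain ⟨u, hu⟩ := h9
      rw [hs] at hu
      have : 2 * i + 1 = 2 * (s * u) := by rw [hu]; ring
      omega
  · exact h6

end index

end Cfsg.Agent.Lib.QSim
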