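import Cfsg.Agent.Lib.UnForm
import Cfsg.Agent.Lib.ConjSub
import Cfsg.Agent.Lib.JordanNil2
import Cfsg.Agent.S2588

/-! # Conjugating elements into the similarity group of a unitary form -/

set_option autoImplicit false

namespace Cfsg.Agent.Lib.UnForm

open Cfsg.Agent.Lib.InvSub Cfsg.Agent.Lib.PrimeOrd Cfsg.Agent.Lib.Sesq Module Matrix Cfsg.Agent.Lib.UniPair
open Cfsg.Agent.Lib.ClUnitary (frob)
open Cfsg.Agent.Lib.UnitStar (st)
open Cfsg.Agent.Lib.NormTool (mem_SL_iff)
open scoped MatrixGroups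

section nil

variable {F V : Type*} [Field F] [AddCommGroup V] [Module F V] [FiniteDimensional F V]

/-- normal form of square-zero maps -/
theorem nil_normal {N : Module.End F V} (hN : ∀ v, N (N v) = 0) {k s : ℕ} (hk : finrank F (LinearMap.range N) = k)
    (hs : finrank F V = k + k + s) : ∃ T : (((Fin k → F) × (Fin k → F)) × (Fin s → F)) ≃ₗ[F] V, ∀ a b c, N (T ((a, b), c)) = T ((0, a), 0) := by
  classical
  have hle : LinearMap.range N ≤ LinearMap.ker N := by
    rintro _ ⟨v, rfl⟩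
    exact hN v
  obtain ⟨U, hU⟩ := Submodule.exists_isCompl (LinearMap.ker N)
  obtain ⟨X, hX⟩ := Submodule.exists_isCompl (LinearMap.range N)
  set W := LinearMap.ker N ⊓ X with hW
  have hsup : LinearMap.range N ⊔ W = LinearMap.ker N := by
    rw [hW, inf_comm, ← sup_inf_assoc_of_le X hle, hX.sup_eq_top, top_inf_eq]
  have hinf : LinearMap.range N ⊓ W = ⊥ := by
    rw [eq_bot_iff, ← hX.inf_eq_bot]
    exact inf_le_inf le_rfl inf_le_right
  have h1 := LinearMap.finrank_range_add_finrank_ker N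
  have h2 := Submodule.finrank_add_eq_of_isCompl hU
  have h3 := Submodule.finrank_sup_add_finrank_inf_eq (LinearMap.range N) W
  rw [hsup, hinf, finrank_bot, add_zero] at h3
  have hUf : finrank F U = k := by omega
  have hWf : finrank F W = s := by omega
  let u : (Fin k → F) ≃ₗ[F] U := LinearEquiv.ofFinrankEq _ _ (by rw [Module.finrank_fin_fun, hUf])
  let w : (Fin s → F) ≃ₗ[F] W := LinearEquiv.ofFinrankEq _ _ (by rw [Module.finrank_fin_fun, hWf])
  let Ψ : (((Fin k → F) × (Fin k → F)) × (Fin s → F)) →ₗ[F] V :=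
    { toFun := fun x => (u x.1.1 : V) + N (u x.1.2 : V) + (w x.2 : V)
      map_add' := by
        intro x y
        simp only [Prod.fst_add, Prod.snd_add, map_add, Submodule.coe_add]
        abel
      map_smul' := by
        intro c x
        simp only [Prod.smul_fst, Prod.smul_snd, map_smul, Submodule.coe_smul, smul_add, RingHom.id_apply] }
  have hΨ : ∀ a b c, Ψ ((a, b), c) = (u a : V) + N (u b : V) + (w c : V) := fun _ _ _ => rfl
  have hinj : Function.Injective Ψ := by
    rw [injective_iff_map_eq_zero]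
    rintro ⟨⟨a, b⟩, c⟩ h
    rw [hΨ] at h
    have hwk : (w c : V) ∈ LinearMap.ker N := (w c).2.1
    have hua : (u a : V) ∈ LinearMap.ker N := by
      have e : (u a : V) = -(N (u b : V) + (w c : V)) := by
        rw [eq_neg_iff_add_eq_zero, ← h]; abel
      rw [e]
      exact Submodule.neg_mem _ (Submodule.add_mem _ (hle ⟨_, rfl⟩) hwk)
    have hua0 : (u a : V) = 0 := by
      have : (u a : V) ∈ LinearMap.ker N ⊓ U := ⟨hua, (u a).2⟩
      rwa [hU.inf_eq_bot, Submodule.mem_bot] at this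
    rw [hua0, zero_add] at h
    have hNb : N (u b : V) = 0 := by
      have e : N (u b : V) = -(w c : V) := by rw [eq_neg_iff_add_eq_zero, ← h]
      have : N (u b : V) ∈ LinearMap.range N ⊓ W := ⟨⟨_, rfl⟩, by rw [e]; exact Submodule.neg_mem _ (w c).2⟩
      rwa [hinf, Submodule.mem_bot] at this
    rw [hNb, zero_add] at h
    have hub0 : (u b : V) = 0 := by
      have : (u b : V) ∈ LinearMap.ker N ⊓ U := ⟨hNb, (u b).2⟩
      rwa [hU.inf_eq_bot, Submodule.mem_bot] at this
    have e1 : a = 0 := by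
      have : u a = 0 := Subtype.ext hua0
      exact (LinearEquiv.map_eq_zero_iff u).1 this
    have e2 : b = 0 := by
      have : u b = 0 := Subtype.ext hub0
      exact (LinearEquiv.map_eq_zero_iff u).1 this
    have e3 : c = 0 := by
      have : w c = 0 := Subtype.ext h
      exact (LinearEquiv.map_eq_zero_iff w).1 this
    rw [e1, e2, e3]; rfl
  have hdim : finrank F (((Fin k → F) × (Fin k → F)) × (Fin s → F)) = finrank F V := by
    rw [Module.finrank_prod, Module.finrank_prod, Module.finrank_fin_fun, Module.finrank_fin_fun, hs]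
  refine ⟨LinearEquiv.ofBijective Ψ ⟨hinj, (LinearMap.injective_iff_surjective_of_finrank_eq_finrank hdim).1 hinj⟩, ?_⟩
  intro a b c
  show N (Ψ ((a, b), c)) = Ψ ((0, a), 0)
  rw [hΨ, hΨ, map_add, map_add, hN, map_zero, map_zero]
  have : N (w c : V) = 0 := (w c).2.1
  rw [this]; simp

theorem nil_conj {N N' : Module.End F V} (hN : ∀ v, N (N v) = 0) (hN' : ∀ v, N' (N' v) = 0)
    (h : finrank F (LinearMap.range N) = finrank F (LinearMap.range N')) : ∃ g : V ≃ₗ[F] V, ∀ v, g (N v) = N' (g v) := by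
  have hle : ∀ M : Module.End F V, (∀ v, M (M v) = 0) → finrank F (LinearMap.range M) + finrank F (LinearMap.range M) ≤ finrank F V := by
    intro M hM
    have h1 := LinearMap.finrank_range_add_finrank_ker M
    have h2 : finrank F (LinearMap.range M) ≤ finrank F (LinearMap.ker M) := by
      apply Submodule.finrank_mono
      rintro _ ⟨v, rfl⟩
      exact hM v
    omega
  obtain ⟨s, hs⟩ := Nat.exists_eq_add_of_le (hle N hN)
  obtain ⟨T, hT⟩ := nil_normal hN rfl hs
  obtain ⟨T', hT'⟩ := nil_normal hN' h.symm hs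
  refine ⟨T.symm ≪≫ₗ T', fun v => ?_⟩
  obtain ⟨⟨⟨a, b⟩, c⟩, rfl⟩ := T.surjective v
  rw [hT, LinearEquiv.trans_apply, LinearEquiv.trans_apply, LinearEquiv.symm_apply_apply, LinearEquiv.symm_apply_apply, hT']

end nil

section fix

variable {F : Type*} [Field F] {n : ℕ}

/-- from `GL` to `SL` -/
theorem SLfix {x y k : GL (Fin n) F} (hk : k⁻¹ * x * k = y) {U W : Submodule F (Fin n → F)} (hUW : IsCompl U W)
    (hU : Inv (Matrix.toLin' x.1) U) (hW : Inv (Matrix.toLin' x.1) W) (hfull : ∀ a : F, a ≠ 0 → ∃ δ : F, δ ^ finrank F U = a) :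
    ∃ g ∈ Cfsg.Geo.specialLinear (Fin n) F, g⁻¹ * x * g = y := by
  have hkd : k.1.det ≠ 0 := by
    have : IsUnit k.1 := k.isUnit
    exact ((Matrix.isUnit_iff_isUnit_det _).1 this).ne_zero
  obtain ⟨δ, hδ⟩ := hfull (k.1.det)⁻¹ (inv_ne_zero hkd)
  obtain ⟨C, hC, hdet⟩ := ConjSub.exists_comm hUW hU hW δ
  have hCd : (LinearMap.toMatrix' C).det = (k.1.det)⁻¹ := by rw [LinearMap.det_toMatrix', hdet, hδ]
  let c : GL (Fin n) F := Matrix.GeneralLinearGroup.mkOfDetNeZero (LinearMap.toMatrix' C) (by rw [hCd]; exact inv_ne_zero hkd)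
  have hc : c.1 = LinearMap.toMatrix' C := rfl
  have hcx : c * x = x * c := by
    apply Units.ext
    rw [Units.val_mul, Units.val_mul, hc]
    apply Matrix.toLin'.injective
    rw [Matrix.toLin'_mul, Matrix.toLin'_mul, Matrix.toLin'_toMatrix']
    exact hC
  refine ⟨c * k, mem_SL_iff.2 ?_, ?_⟩
  · rw [Units.val_mul, Matrix.det_mul, hc, hCd, inv_mul_cancel₀ hkd]
  · have e1 : (c * k)⁻¹ * x * (c * k) = k⁻¹ * (c⁻¹ * (x * c)) * k := by group
    rw [e1, ← hcx, ← mul_assoc c⁻¹ c x, inv_mul_cancel, one_mul, hk]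

end fix

section concrete

variable {F : Type*} [Field F] [Fintype F] {q n : ℕ}

/-- scalars are similarities -/
theorem smul_sim (hF : Fintype.card F = q ^ 2) {B y : GL (Fin n) F} (hB : B ∈ Cfsg.GU n F q) {c : F} (hc : c ≠ 0) (hy : y.1 = c • B.1) :
    y ∈ Cfsg.Geo.similarityGroup (Cfsg.hermForm n F q) := by
  have hcq : c * c ^ q ≠ 0 := mul_ne_zero hc (pow_ne_zero _ hc)
  refine ⟨Units.mk0 _ hcq, fun u v => ?_⟩
  rw [hy, Matrix.smul_mulVec, Matrix.smul_mulVec, HermMat.hermForm_smul_left, HermMat.hermForm_smul_right, Units.val_mk0]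
  have : Cfsg.hermForm n F q (B.1 *ᵥ u) (B.1 *ᵥ v) = Cfsg.hermForm n F q u v := hB u v
  rw [this]; ring

theorem exists_smul (y : GL (Fin n) F) {c : F} (hc : c ≠ 0) : ∃ z : GL (Fin n) F, z.1 = c • y.1 := by
  refine ⟨⟨c • y.1, c⁻¹ • (y⁻¹).1, ?_, ?_⟩, rfl⟩
  · rw [Matrix.smul_mul, Matrix.mul_smul, smul_smul, mul_inv_cancel₀ hc, one_smul, ← Units.val_mul, mul_inv_cancel]; rfl
  · rw [Matrix.smul_mul, Matrix.mul_smul, smul_smul, inv_mul_cancel₀ hc, one_smul, ← Units.val_mul, inv_mul_cancel]; rfl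

/-- diagonalisable elements with unitary shape -/
theorem yes_diag (hF : Fintype.card F = q ^ 2) (hn : 0 < n) {f : (Fin n → F) → (Fin n → F) → F} (hf : Cfsg.Geo.IsUnitaryFormPow q f)
    {x P : GL (Fin n) F} {u v : Fin n → F} (hx : x.1 * P.1 = P.1 * Matrix.diagonal u) (π : Equiv.Perm (Fin n)) {c : F} (hc : c ≠ 0)
    (hv : ∀ i, u (π i) = c * v i) {B k : GL (Fin n) F} (hB : B ∈ Cfsg.GU n F q) (hk : B.1 * k.1 = k.1 * Matrix.diagonal v) :
    ∃ g ∈ Cfsg.Geo.specialLinear (Fin n) F, g⁻¹ * x * g ∈ Cfsg.Geo.similarityGroup f := by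
  obtain ⟨R, hR⟩ := exists_P hF hf
  obtain ⟨y, hy⟩ := exists_smul B hc
  have hys := smul_sim hF hB hc hy
  have hy' : R⁻¹ * y * R ∈ Cfsg.Geo.similarityGroup f := by
    rw [sim_conj hR]
    have : R * (R⁻¹ * y * R) * R⁻¹ = y := by group
    rw [this]; exact hys
  have hQ : (R⁻¹ * y * R).1 * (R⁻¹ * k).1 = (R⁻¹ * k).1 * Matrix.diagonal (fun i => c * v i) := by
    have h1 : (R⁻¹ * y * R).1 * (R⁻¹ * k).1 = (R⁻¹).1 * (y.1 * k.1) := by
      rw [← Units.val_mul, ← Units.val_mul, ← Units.val_mul]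
      congr 1
      group
    have h2 : Matrix.diagonal (fun i => c * v i) = c • Matrix.diagonal v := by
      ext i j
      rw [Matrix.smul_apply, Matrix.diagonal_apply, Matrix.diagonal_apply]
      split_ifs <;> simp
    rw [h1, hy, Matrix.smul_mul, hk, Units.val_mul, h2, Matrix.mul_smul, Matrix.mul_smul, Matrix.mul_assoc]
  obtain ⟨g, hg, hgx⟩ := DiagTool.conj_SL_of_diag hn hx hQ π hv
  exact ⟨g, hg, by rw [hgx]; exact hy'⟩

theorem finrank_map_frob (hF : Fintype.card F = q ^ 2) (M : Matrix (Fin n) (Fin n) F) :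
    finrank F (LinearMap.range (Matrix.toLin' ((M.map (frob hF)).transpose))) = finrank F (LinearMap.range (Matrix.toLin' M)) := by
  have h1 : ∀ A : Matrix (Fin n) (Fin n) F, finrank F (LinearMap.range (Matrix.toLin' A)) = A.rank := by
    intro A
    rw [Matrix.rank, ← Matrix.toLin'_apply']
  rw [h1, Matrix.rank_transpose, ← h1]
  have h2 := LinearMap.finrank_range_add_finrank_ker (Matrix.toLin' M)
  have h3 := LinearMap.finrank_range_add_finrank_ker (Matrix.toLin' (M.map (frob hF)))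
  have h4 : Nat.card (LinearMap.ker (Matrix.toLin' (M.map (frob hF)))) = Nat.card (LinearMap.ker (Matrix.toLin' M)) := by
    have hss : ∀ x : F, frob hF (frob hF x) = x := ClUnitary.frob_frob hF
    have hmul : ∀ (A : Matrix (Fin n) (Fin n) F) (v : Fin n → F), (A.map (frob hF)) *ᵥ (fun i => frob hF (v i)) = fun i => frob hF ((A *ᵥ v) i) := by
      intro A v
      funext i
      exact (RingHom.map_mulVec (frob hF) A v i).symm
    apply Nat.card_congr
    refine ⟨fun v => ⟨fun i => frob hF (v.1 i), ?_⟩, fun v => ⟨fun i => frob hF (v.1 i), ?_⟩, fun v => ?_, fun v => ?_⟩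
    · have hv := v.2
      rw [LinearMap.mem_ker, Matrix.toLin'_apply] at hv ⊢
      have h5 := hmul (M.map (frob hF)) v.1
      have h6 : (M.map (frob hF)).map (frob hF) = M := by ext i j; exact hss _
      rw [h6, hv] at h5
      rw [h5]
      funext i
      exact map_zero _
    · have hv := v.2
      rw [LinearMap.mem_ker, Matrix.toLin'_apply] at hv ⊢
      rw [hmul, hv]
      funext i
      exact map_zero _
    · apply Subtype.ext; funext i; exact hss _
    · apply Subtype.ext; funext i; exact hss _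
  rw [Module.natCard_eq_pow_finrank (K := F) (V := LinearMap.ker (Matrix.toLin' (M.map (frob hF)))),
    Module.natCard_eq_pow_finrank (K := F) (V := LinearMap.ker (Matrix.toLin' M)), Nat.card_eq_fintype_card] at h4
  have h5 := Nat.pow_right_injective (Fintype.one_lt_card (α := F)) h4
  omega

/-- involutions in characteristic two -/
theorem yes_two (hF : Fintype.card F = q ^ 2) [CharP F 2] (hn : 0 < n) {f : (Fin n → F) → (Fin n → F) → F} (hf : Cfsg.Geo.IsUnitaryFormPow q f)
    {x : GL (Fin n) F} (hx : x ∈ Cfsg.Geo.specialLinear (Fin n) F) {z : F} (hz : (x ^ 2).1 = z • (1 : Matrix (Fin n) (Fin n) F)) :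
    ∃ g ∈ Cfsg.Geo.specialLinear (Fin n) F, g⁻¹ * x * g ∈ Cfsg.Geo.similarityGroup f := by
  classical
  have : Fact (Nat.Prime 2) := ⟨Nat.prime_two⟩
  have hsurj : ∀ a : F, ∃ y : F, y ^ 2 = a := by
    intro a
    have h : Function.Surjective (frobenius F 2) := Finite.surjective_of_injective (frobenius F 2).injective
    obtain ⟨y, hy⟩ := h a
    exact ⟨y, hy⟩
  obtain ⟨y, hy⟩ := hsurj z
  have hz0 : z ≠ 0 := by
    rintro rfl
    have h1 := congrArg Matrix.det hz
    have hne : Nonempty (Fin n) := ⟨⟨0, hn⟩⟩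
    rw [Units.val_pow_eq_pow_val, Matrix.det_pow, mem_SL_iff.1 hx, zero_smul, Matrix.det_zero, one_pow] at h1
    exact one_ne_zero h1
  have hy0 : y ≠ 0 := by rintro rfl; exact hz0 (by rw [← hy]; ring)
  obtain ⟨x', hx'⟩ := exists_smul x (inv_ne_zero hy0)
  have hxx' : x.1 = y • x'.1 := by rw [hx', smul_smul, mul_inv_cancel₀ hy0, one_smul]
  have hsq : x'.1 * x'.1 = 1 := by
    rw [hx', Matrix.smul_mul, Matrix.mul_smul, smul_smul, ← pow_two x.1, ← Units.val_pow_eq_pow_val, hz, smul_smul, ← hy]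
    have : y⁻¹ * y⁻¹ * y ^ 2 = 1 := by field_simp
    rw [this, one_smul]
  have h2 : ∀ A : Matrix (Fin n) (Fin n) F, A + A = 0 := by
    intro A
    ext i j
    exact CharTwo.add_self_eq_zero _
  set M := x'.1 - 1 with hM
  have hMM : M * M = 0 := by
    rw [hM, Matrix.sub_mul, Matrix.mul_sub, hsq, Matrix.mul_one, Matrix.one_mul]
    have : (1 : Matrix (Fin n) (Fin n) F) - x'.1 - (x'.1 - 1) = (1 + 1) - (x'.1 + x'.1) := by abel
    rw [this, h2, h2, sub_zero]
  set A := (x'.1.map (frob hF)).transpose with hA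
  have hmap1 : (1 : Matrix (Fin n) (Fin n) F).map (frob hF) = 1 := Matrix.map_one _ (map_zero _) (map_one _)
  have hAA : A * A = 1 := by
    rw [hA, ← Matrix.transpose_mul, ← Matrix.map_mul, hsq, hmap1, Matrix.transpose_one]
  have hAinv : A⁻¹ = A := Matrix.inv_eq_right_inv hAA
  have hM' : A - 1 = (M.map (frob hF)).transpose := by
    ext i j
    show frob hF (x'.1 j i) - (1 : Matrix (Fin n) (Fin n) F) i j = frob hF (x'.1 j i - (1 : Matrix (Fin n) (Fin n) F) j i)
    rw [map_sub]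
    congr 1
    rw [Matrix.one_apply, Matrix.one_apply]
    by_cases h : i = j
    · subst h; simp
    · rw [if_neg h, if_neg (fun h' => h h'.symm), map_zero]
  have hMM' : (A - 1) * (A - 1) = 0 := by
    rw [Matrix.sub_mul, Matrix.mul_sub, hAA, Matrix.mul_one, Matrix.one_mul]
    have : (1 : Matrix (Fin n) (Fin n) F) - A - (A - 1) = (1 + 1) - (A + A) := by abel
    rw [this, h2, h2, sub_zero]
  have hnil : ∀ B : Matrix (Fin n) (Fin n) F, B * B = 0 → ∀ v, Matrix.toLin' B (Matrix.toLin' B v) = 0 := by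
    intro B hB v
    rw [Matrix.toLin'_apply, Matrix.toLin'_apply, Matrix.mulVec_mulVec, hB, Matrix.zero_mulVec]
  obtain ⟨g, hg⟩ := nil_conj (hnil M hMM) (hnil (A - 1) hMM') (by rw [hM']; exact (finrank_map_frob hF M).symm)
  have hconj : IsConj (x'.1 : Matrix (Fin n) (Fin n) F) (((x'.1).map (fun a : F => a ^ q)).transpose)⁻¹ := by
    have e0 : ((x'.1).map (fun a : F => a ^ q)).transpose = A := rfl
    rw [e0, hAinv]
    let G : (Matrix (Fin n) (Fin n) F)ˣ := ⟨LinearMap.toMatrix' g.toLinearMap, LinearMap.toMatrix' g.symm.toLinearMap,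
      by rw [← LinearMap.toMatrix'_comp, LinearEquiv.comp_coe, LinearEquiv.symm_trans_self]; exact LinearMap.toMatrix'_id,
      by rw [← LinearMap.toMatrix'_comp, LinearEquiv.comp_coe, LinearEquiv.self_trans_symm]; exact LinearMap.toMatrix'_id⟩
    refine ⟨G, ?_⟩
    show G.1 * x'.1 = A * G.1
    apply Matrix.toLin'.injective
    rw [Matrix.toLin'_mul, Matrix.toLin'_mul]
    have e1 : Matrix.toLin' G.1 = g.toLinearMap := Matrix.toLin'_toMatrix' _
    rw [e1]
    apply LinearMap.ext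
    intro v
    show g (Matrix.toLin' x'.1 v) = Matrix.toLin' A (g v)
    have e2 : Matrix.toLin' x'.1 v = Matrix.toLin' M v + v := by
      rw [hM, map_sub, Matrix.toLin'_one]; simp
    have e3 : Matrix.toLin' A (g v) = Matrix.toLin' (A - 1) (g v) + g v := by
      rw [map_sub, Matrix.toLin'_one]; simp
    rw [e2, e3, map_add, hg]
  obtain ⟨⟨B, hB⟩, hxB⟩ := (S2588.result hF x').2 hconj
  rw [isConj_iff] at hxB
  obtain ⟨k, hk⟩ := hxB
  obtain ⟨R, hR⟩ := exists_P hF hf
  obtain ⟨w, hw⟩ := exists_smul B hy0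
  have hws := smul_sim hF hB hy0 hw
  have hw' : R⁻¹ * w * R ∈ Cfsg.Geo.similarityGroup f := by
    rw [sim_conj hR]
    have : R * (R⁻¹ * w * R) * R⁻¹ = w := by group
    rw [this]; exact hws
  have hkk : (k⁻¹ * R)⁻¹ * x * (k⁻¹ * R) = R⁻¹ * w * R := by
    have e1 : (k⁻¹ * R)⁻¹ * x * (k⁻¹ * R) = R⁻¹ * (k * x * k⁻¹) * R := by group
    have e2 : k * x * k⁻¹ = w := by
      apply Units.ext
      rw [Units.val_mul, Units.val_mul, hxx', hw, Matrix.mul_smul, Matrix.smul_mul, ← Units.val_mul, ← Units.val_mul, hk]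
    rw [e1, e2]
  -- a block of size one or two
  have hNn : IsNilpotent (Matrix.toLin' M) := ⟨2, by
    apply LinearMap.ext
    intro v
    rw [pow_two, Module.End.mul_apply, hnil M hMM]; rfl⟩
  obtain ⟨μ, hμ⟩ := JordanNil.exists_typ_top hNn
  have hle := (hμ.pow_eq_zero_iff 2).mp (by
    apply LinearMap.ext
    intro v
    rw [pow_two, Module.End.mul_apply, hnil M hMM]; rfl)
  have hsum : n = μ.sum := by rw [← hμ.finrank_eq, finrank_top]; simp
  obtain ⟨m, hm⟩ : ∃ m, m ∈ μ := by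
    apply Multiset.exists_mem_of_ne_zero
    rintro rfl
    simp at hsum
    omega
  have h1 := hle m hm
  have h2' : m ≠ 0 := by rintro rfl; exact hμ.1 hm
  obtain ⟨U, W, hUW, hU, hW, hUf⟩ := hμ.split hNn (Multiset.singleton_le.2 hm)
  rw [Multiset.sum_singleton] at hUf
  have hinv : ∀ X : Submodule F (Fin n → F), Inv (Matrix.toLin' M) X → Inv (Matrix.toLin' x.1) X := by
    intro X hX v hv
    have e2 : Matrix.toLin' x.1 v = y • (Matrix.toLin' M v + v) := by
      rw [hxx', hM, map_smul, map_sub, Matrix.toLin'_one]; simp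
    rw [e2]
    exact X.smul_mem _ (X.add_mem (hX v hv) hv)
  obtain ⟨g', hg', hgx⟩ := SLfix hkk hUW (hinv U hU) (hinv W hW) (by
    intro a _
    rw [hUf]
    have h3 : m = 1 ∨ m = 2 := by omega
    rcases h3 with rfl | rfl
    · exact ⟨a, pow_one a⟩
    · exact hsurj a)
  exact ⟨g', hg', by rw [hgx]; exact hw'⟩

end concrete

end Cfsg.Agent.Lib.UnForm
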