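import Cfsg.Agent.Lib.UnForm2
import Cfsg.Agent.Lib.UnForm3

/-! # Diagonal elements of unitary groups with reflected eigenvalues -/

set_option autoImplicit false

namespace Cfsg.Agent.Lib.UnForm

open Cfsg.Agent.Lib.InvSub Cfsg.Agent.Lib.PrimeOrd Cfsg.Agent.Lib.Sesq Module Matrix Cfsg.Agent.Lib.UniPair
open Cfsg.Agent.Lib.ClUnitary (frob)
open Cfsg.Agent.Lib.UnitStar (st)
open Cfsg.Agent.Lib.NormTool (mem_SL_iff)
open scoped MatrixGroups

theorem exists_prim {F : Type*} [Field F] [Fintype F] {r : ℕ} [hr : Fact r.Prime] (h : r ∣ Fintype.card F - 1) : ∃ ζ : F, IsPrimitiveRoot ζ r := by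
  have h1 : r ∣ Nat.card Fˣ := by rw [Nat.card_units, Nat.card_eq_fintype_card]; exact h
  obtain ⟨u, hu⟩ := exists_prime_orderOf_dvd_card' r h1
  refine ⟨u, ?_⟩
  have h2 := IsPrimitiveRoot.orderOf (u : F)
  rwa [orderOf_units, hu] at h2

theorem val_eq {q₀ r : ℕ} [hr : Fact r.Prime] (h2 : r ≠ 2) (hq : 1 < q₀) (h : r ∣ q₀ - 1) : padicValNat r (q₀ ^ 2 - 1) = padicValNat r (q₀ - 1) := by
  have h1 : q₀ ^ 2 - 1 = (q₀ + 1) * (q₀ - 1) := by rw [← Nat.sq_sub_sq, one_pow]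
  have h3 : ¬ r ∣ q₀ + 1 := by
    intro h4
    have : r ∣ 2 := by
      have e : 2 = (q₀ + 1) - (q₀ - 1) := by omega
      rw [e]; exact Nat.dvd_sub h4 h
    exact h2 ((Nat.prime_dvd_prime_iff_eq hr.out Nat.prime_two).mp this)
  rw [h1, padicValNat.mul (by omega) (by omega), padicValNat.eq_zero_of_not_dvd h3, zero_add]

section concrete

variable {F : Type*} [Field F] [Fintype F] {q n : ℕ}

theorem exists_B (hF : Fintype.card F = q ^ 2) (hn : 0 < n) {v : Fin n → F} (hv0 : ∀ i, v i ≠ 0) (hv : ∀ i, v i ^ q = v i) (ρ : Equiv.Perm (Fin n))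
    (hρ : ∀ i, v (ρ i) = (v i)⁻¹) : ∃ B ∈ Cfsg.GU n F q, ∃ k : GL (Fin n) F, B.1 * k.1 = k.1 * Matrix.diagonal v := by
  have hD : ∀ w : Fin n → F, (∀ i, w i ≠ 0) → Matrix.diagonal w * Matrix.diagonal (fun i => (w i)⁻¹) = 1 ∧ Matrix.diagonal (fun i => (w i)⁻¹) * Matrix.diagonal w = 1 := by
    intro w hw
    constructor
    · rw [Matrix.diagonal_mul_diagonal, ← Matrix.diagonal_one]
      congr 1; funext i; exact mul_inv_cancel₀ (hw i)
    · rw [Matrix.diagonal_mul_diagonal, ← Matrix.diagonal_one]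
      congr 1; funext i; exact inv_mul_cancel₀ (hw i)
  let D : GL (Fin n) F := ⟨Matrix.diagonal v, Matrix.diagonal (fun i => (v i)⁻¹), (hD v hv0).1, (hD v hv0).2⟩
  let D' : GL (Fin n) F := ⟨Matrix.diagonal (fun i => (v i)⁻¹), Matrix.diagonal v, (hD v hv0).2, (hD v hv0).1⟩
  obtain ⟨g, -, hg⟩ := DiagTool.conj_SL_of_diag hn (x := D) (y := D') (P := 1) (Q := 1) (u := v) (w := fun i => (v i)⁻¹)
    (by rw [Units.val_one, Matrix.mul_one, Matrix.one_mul]) (by rw [Units.val_one, Matrix.mul_one, Matrix.one_mul]) ρ hρ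
  have hconj : IsConj (D : Matrix (Fin n) (Fin n) F) (((D : Matrix (Fin n) (Fin n) F).map (fun a : F => a ^ q)).transpose)⁻¹ := by
    have e1 : ((D : Matrix (Fin n) (Fin n) F).map (fun a : F => a ^ q)).transpose = Matrix.diagonal v := by
      show ((Matrix.diagonal v).map (frob hF)).transpose = _
      rw [Matrix.diagonal_map (map_zero _), Matrix.diagonal_transpose]
      congr 1
      funext i
      exact hv i
    rw [e1, Matrix.inv_eq_right_inv (hD v hv0).1]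
    refine ⟨g⁻¹, ?_⟩
    show (g⁻¹).1 * D.1 = D'.1 * (g⁻¹).1
    rw [← Units.val_mul, ← Units.val_mul]
    congr 1
    rw [← hg]; group
  obtain ⟨⟨B, hB⟩, hxB⟩ := (S2588.result hF D).2 hconj
  rw [isConj_iff] at hxB
  obtain ⟨k, hk⟩ := hxB
  refine ⟨B, hB, k, ?_⟩
  have hk' : k * D * k⁻¹ = B := hk
  show B.1 * k.1 = k.1 * D.1
  rw [← Units.val_mul, ← Units.val_mul]
  congr 1
  rw [← hk']; group

end concrete

end Cfsg.Agent.Lib.UnForm
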