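import Mathlib
import Cfsg.Agent.Lib.QSim
import Cfsg.Agent.Lib.UnForm4
import Cfsg.Agent.Lib.CycConj
import Cfsg.Agent.Lib.ExtField

set_option autoImplicit false
set_option linter.unusedSectionVars false

/-!
Similarities of quadratic forms of prime order (helper99).
-/

namespace Cfsg.Agent.Lib.QSim

open QuadraticMap Module Cfsg.Agent.Lib.Quad Cfsg.Agent.Lib.QuadD67 Cfsg.Agent.Lib.QuadEmb67 Cfsg.Agent.Lib.OrthR67
open Cfsg.Agent.Lib.NormTool (mem_SL_iff)
open Cfsg.Agent.Lib.PrimeOrd Cfsg.Agent.Lib.InvSub

section abstract_part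

variable {F V : Type*} [Field F] [AddCommGroup V] [Module F V] [FiniteDimensional F V] {Q : QuadraticForm F V} {T : Module.End F V}

/-- no transvection is an isometry in odd characteristic -/
theorem no_transv (hQ : Nd Q) (h2 : (2 : F) ≠ 0) (hT : ∀ v, Q (T v) = Q v) {p : ℕ} [hp : Fact p.Prime] [CharP F p]
    (hTp : T ^ p = 1) (hfr : finrank F (E T 1) + 1 = finrank F V) : False := by
  set N : Module.End F V := T - 1 with hN
  have hNv : ∀ v, N v = T v - v := fun v => rfl
  have hNp : N ^ p = 0 := by
    haveI : Nontrivial V := Module.nontrivial_of_finrank_pos (R := F) (by omega)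
    haveI : CharP (Module.End F V) p := charP_of_injective_algebraMap (algebraMap F (Module.End F V)).injective p
    rw [hN, sub_pow_char_of_commute (p := p) (Commute.one_right T), hTp, one_pow, sub_self]
  have hker : LinearMap.ker N = E T 1 := by
    ext v
    rw [LinearMap.mem_ker, hNv, sub_eq_zero, mem_E]
  have hrank : finrank F (LinearMap.range N) = 1 := by
    have := LinearMap.finrank_range_add_finrank_ker N
    rw [hker] at this
    omega
  obtain ⟨v, hv⟩ : ∃ v, N v ≠ 0 := by
    by_contra h
    push Not at h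
    have : LinearMap.range N = ⊥ := by
      rw [LinearMap.range_eq_bot]
      exact LinearMap.ext h
    rw [this, finrank_bot] at hrank
    exact zero_ne_one hrank
  set a := N v with ha
  have hpol : ∀ x y, polar Q (T x) (T y) = polar Q x y := fun x y => polar_map T hT x y
  have haE : ∀ w ∈ E T 1, polar Q a w = 0 := by
    intro w hw
    rw [mem_E] at hw
    have h1 := hpol v w
    rw [hw] at h1
    rw [ha, hNv, polar_sub_left, h1, sub_self]
  have hNa : N a = 0 := by
    have hspan : LinearMap.range N = Submodule.span F {a} := by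
      symm
      apply Submodule.eq_of_le_of_finrank_eq
      · rw [Submodule.span_singleton_le_iff_mem]; exact ⟨v, rfl⟩
      · rw [hrank, finrank_span_singleton hv]
    have h1 : N a ∈ Submodule.span F {a} := by rw [← hspan]; exact ⟨a, rfl⟩
    obtain ⟨μ, hμ⟩ := Submodule.mem_span_singleton.1 h1
    have h2 : ∀ k : ℕ, (N ^ k) a = μ ^ k • a := by
      intro k
      induction k with
      | zero => simp
      | succ k ih => rw [pow_succ', Module.End.mul_apply, ih, map_smul, ← hμ, smul_smul, pow_succ]
    have h3 := h2 p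
    rw [hNp, LinearMap.zero_apply] at h3
    have h4 : μ ^ p = 0 := (smul_eq_zero.1 h3.symm).resolve_right hv
    have h5 : μ = 0 := (pow_eq_zero_iff hp.out.pos.ne').1 h4
    rw [← hμ, h5, zero_smul]
  have haE' : a ∈ E T 1 := by rw [← hker]; exact hNa
  have hQa : Q a = 0 := by
    have h1 := haE a haE'
    rw [polar_self'] at h1
    exact (mul_eq_zero.1 h1).resolve_left h2
  have hva : polar Q a v = 0 := by
    have h1 := hT v
    have h3 : T v = v + a := by rw [ha, hNv]; abel
    rw [h3, Q_add, hQa, add_zero] at h1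
    rw [polar_comm]
    linear_combination h1
  have hle : E T 1 ≤ perp Q (F ∙ a) := by
    intro w hw
    rw [mem_perp_singleton]
    exact haE w hw
  have heq : E T 1 = perp Q (F ∙ a) := by
    apply Submodule.eq_of_le_of_finrank_eq hle
    rw [hQ.finrank_perp, finrank_span_singleton hv]
    omega
  have hvE : v ∈ E T 1 := by rw [heq, mem_perp_singleton]; exact hva
  rw [← hker] at hvE
  exact hv hvE

/-- the multiplier of a similarity -/
theorem mult_pow (hQ : Nd Q) (hV : 0 < finrank F V) {c : F} (hT : ∀ v, Q (T v) = c * Q v) {r : ℕ} (hTr : T ^ r = 1) : c ^ r = 1 := by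
  obtain ⟨v, hv⟩ := hQ.exists_Q_ne_zero hV
  have h1 : ∀ k : ℕ, Q ((T ^ k) v) = c ^ k * Q v := by
    intro k
    induction k with
    | zero => simp
    | succ k ih => rw [pow_succ', Module.End.mul_apply, hT, ih, pow_succ]; ring
  have h2 := h1 r
  rw [hTr, Module.End.one_apply] at h2
  exact (mul_right_cancel₀ hv (by rw [one_mul]; exact h2)).symm

theorem mult_one [Fintype F] {c : F} {r : ℕ} [hr : Fact r.Prime] (hc : c ^ r = 1) (hrq : ¬ r ∣ Fintype.card F - 1) : c = 1 := by
  have hc0 : c ≠ 0 := by rintro rfl; rw [zero_pow hr.out.pos.ne'] at hc; exact zero_ne_one hc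
  have h1 := FiniteField.pow_card_sub_one_eq_one c hc0
  rw [← orderOf_eq_one_iff]
  have h2 := orderOf_dvd_of_pow_eq_one hc
  rcases (Nat.dvd_prime hr.out).1 h2 with h3 | h3
  · exact h3
  · exfalso
    exact hrq (by rw [← h3]; exact orderOf_dvd_of_pow_eq_one h1)

end abstract_part

section finite_part

variable {F V : Type*} [Field F] [Fintype F] [AddCommGroup V] [Module F V] [FiniteDimensional F V] {Q : QuadraticForm F V} {T : Module.End F V}

/-- isometries moving a subspace of dimension the odd order of `q` do not exist -/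
theorem no_odd_block {r : ℕ} (h : PR r Q T) (hodd : Odd (orderOf ((Fintype.card F : ℕ) : ZMod r)))
    (hfr : finrank F (E T 1) + orderOf ((Fintype.card F : ℕ) : ZMod r) = finrank F V) : False := by
  have hnd := nd_top h.nd
  obtain ⟨h1, h2⟩ := UnForm.perp_fix (σ := RingHom.id F) refl_bq hnd (iso_bq h.iso) h.ne h.pow
  have hinv : Inv T (pp Q (E T 1)) := by
    intro x hx
    intro w hw
    have hw' := mem_E.1 hw
    have h3 : polar Q w (T x) = polar Q w x := by
      have := polar_map (Q := Q) (Q' := Q) T h.iso w x
      rw [hw'] at this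
      exact this
    show polar Q w (T x) = 0
    rw [h3]; exact hx w hw
  obtain ⟨k, hk, -⟩ := h.type hinv h2 h1
  have h4 := Sesq.finrank_add_perp (σ := RingHom.id F) hnd (E T 1)
  have h5 : finrank F (pp Q (E T 1)) = orderOf ((Fintype.card F : ℕ) : ZMod r) := by
    have : finrank F (E T 1) + finrank F (pp Q (E T 1)) = finrank F V := by
      first | exact h4 | (rw [add_comm]; exact h4)
    omega
  rw [h5] at hk
  obtain ⟨s, hs⟩ := hodd
  omega

end finite_part

end Cfsg.Agent.Lib.QSim
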