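import Mathlib
import Cfsg.Agent.Lib.QSim2

set_option autoImplicit false
set_option linter.unusedSectionVars false

/-!
Similarities of quadratic forms with prescribed eigenvalues (helper99).
-/

namespace Cfsg.Agent.Lib.QSim

open QuadraticMap Module Cfsg.Agent.Lib.Quad Cfsg.Agent.Lib.QuadD67 Cfsg.Agent.Lib.QuadEmb67 Cfsg.Agent.Lib.OrthR67
open Cfsg.Agent.Lib.NormTool (mem_SL_iff)
open Cfsg.Agent.Lib.PrimeOrd Cfsg.Agent.Lib.InvSub

section abstract_part

variable {F V : Type*} [Field F] [AddCommGroup V] [Module F V] {Q : QuadraticForm F V} {T : Module.End F V}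

theorem polar_comp (x y : V) : polar (Q.comp T) x y = polar Q (T x) (T y) := by
  simp only [polar, QuadraticMap.comp_apply, map_add]

theorem polar_smul' (c : F) (x y : V) : polar (c • Q) x y = c * polar Q x y := by
  simp only [polar, QuadraticMap.smul_apply, smul_eq_mul]; ring

/-- similarity on a basis -/
theorem sim_of_basis {ι : Type*} (b : Basis ι F V) (c : F) (h1 : ∀ i, Q (T (b i)) = c * Q (b i))
    (h2 : ∀ i j, i ≠ j → polar Q (T (b i)) (T (b j)) = c * polar Q (b i) (b j)) (v : V) : Q (T v) = c * Q v := by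
  have h : Q.comp T = c • Q := by
    apply ext_basis b
    · intro i
      rw [QuadraticMap.comp_apply, h1, QuadraticMap.smul_apply, smul_eq_mul]
    · intro i j hij
      rw [polar_comp, h2 i j hij, polar_smul']
  have := congrArg (fun q : QuadraticForm F V => q v) h
  simp only [QuadraticMap.comp_apply, QuadraticMap.smul_apply, smul_eq_mul] at this
  exact this

/-- diagonal similarities -/
theorem diag_sim {ι : Type*} (b : Basis ι F V) {w : ι → F} {c : F} (hT : ∀ i, T (b i) = w i • b i)
    (h1 : ∀ i, Q (b i) ≠ 0 → w i * w i = c) (h2 : ∀ i j, i ≠ j → polar Q (b i) (b j) ≠ 0 → w i * w j = c) (v : V) :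
    Q (T v) = c * Q v := by
  refine sim_of_basis b c ?_ ?_ v
  · intro i
    rw [hT, Q_smul]
    by_cases h : Q (b i) = 0
    · rw [h, mul_zero, mul_zero]
    · rw [← h1 i h]
  · intro i j hij
    rw [hT, hT, polar_smul_left, polar_smul_right, smul_eq_mul, smul_eq_mul]
    by_cases h : polar Q (b i) (b j) = 0
    · rw [h, mul_zero, mul_zero, mul_zero]
    · rw [← h2 i j hij h]; ring

theorem exists_su [Fintype F] (h2 : (2 : F) ≠ 0) {d z : F} (hd : d ≠ 0) : ∃ s u : F, s * s + u * u * d = z := by
  have hodd : Fintype.card F % 2 = 1 := by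
    have h1 : ringChar F ≠ 2 := by
      intro h
      have h3 := ringChar.Nat.cast_ringChar (R := F)
      rw [h] at h3
      exact h2 (by exact_mod_cast h3)
    exact FiniteField.odd_card_of_char_ne_two h1
  obtain ⟨a, b, h⟩ := FiniteField.exists_root_sum_quadratic (R := F) (f := Polynomial.X ^ 2) (g := Polynomial.C d * Polynomial.X ^ 2 + Polynomial.C (-z))
    (by rw [Polynomial.degree_X_pow]; rfl) (by
      rw [Polynomial.degree_add_C]
      · rw [Polynomial.degree_C_mul hd, Polynomial.degree_X_pow]; rfl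
      · rw [Polynomial.degree_C_mul hd, Polynomial.degree_X_pow]; norm_num) hodd
  simp only [Polynomial.eval_pow, Polynomial.eval_X, Polynomial.eval_add, Polynomial.eval_mul, Polynomial.eval_C] at h
  exact ⟨a, b, by linear_combination h⟩

/-- similarities squaring to a given scalar -/
theorem exists_sqrt_sim [Fintype F] [FiniteDimensional F V] (h2 : (2 : F) ≠ 0) (hQ : Nd Q) {m : ℕ} (hV : finrank F V = m * 2) (z : F) :
    ∃ S : Module.End F V, S * S = z • (1 : Module.End F V) ∧ ∀ v, Q (S v) = z * Q v := by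
  obtain ⟨b0, hb0, hb1⟩ := hQ.exists_orth_basis h2
  let b : Basis (Fin m × Fin 2) F V := b0.reindex ((finCongr hV).trans finProdFinEquiv.symm)
  have hb : ∀ i j, i ≠ j → polar Q (b i) (b j) = 0 := by
    intro i j hij
    rw [Basis.reindex_apply, Basis.reindex_apply]
    exact hb0 _ _ (fun h => hij ((Equiv.injective _) h))
  have hbn : ∀ i, Q (b i) ≠ 0 := by
    intro i
    rw [Basis.reindex_apply]
    exact hb1 _
  have hex : ∀ k : Fin m, ∃ s u : F, s * s + u * u * (Q (b (k, 1)) / Q (b (k, 0))) = z := fun k => exists_su h2 (div_ne_zero (hbn _) (hbn _))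
  choose s u hsu using hex
  let S : Module.End F V := b.constr F (fun i => if i.2 = 0 then s i.1 • b (i.1, 0) + u i.1 • b (i.1, 1)
    else (u i.1 * (Q (b (i.1, 1)) / Q (b (i.1, 0)))) • b (i.1, 0) - s i.1 • b (i.1, 1))
  have hS0 : ∀ k, S (b (k, 0)) = s k • b (k, 0) + u k • b (k, 1) := by
    intro k
    show b.constr F _ (b (k, 0)) = _
    rw [Basis.constr_basis, if_pos rfl]
  have hS1 : ∀ k, S (b (k, 1)) = (u k * (Q (b (k, 1)) / Q (b (k, 0)))) • b (k, 0) - s k • b (k, 1) := by
    intro k
    show b.constr F _ (b (k, 1)) = _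
    rw [Basis.constr_basis, if_neg (by simp)]
  have hfin : ∀ P : Fin m × Fin 2 → Prop, (∀ k, P (k, 0)) → (∀ k, P (k, 1)) → ∀ i, P i := by
    rintro P h0 h1 ⟨k, l⟩
    fin_cases l
    · exact h0 k
    · exact h1 k
  refine ⟨S, ?_, ?_⟩
  · refine b.ext (hfin _ ?_ ?_)
    · intro k
      rw [Module.End.mul_apply, hS0, map_add, map_smul, map_smul, hS0, hS1, LinearMap.smul_apply, Module.End.one_apply, ← hsu k]
      module
    · intro k
      rw [Module.End.mul_apply, hS1, map_sub, map_smul, map_smul, hS0, hS1, LinearMap.smul_apply, Module.End.one_apply, ← hsu k]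
      module
  · have hne01 : ∀ k : Fin m, ((k, 0) : Fin m × Fin 2) ≠ (k, 1) := fun k h => by
      have := congrArg Prod.snd h
      simp at this
    have hne10 : ∀ k : Fin m, ((k, 1) : Fin m × Fin 2) ≠ (k, 0) := fun k h => hne01 k h.symm
    refine sim_of_basis b z (hfin _ ?_ ?_) ?_
    · intro k
      rw [hS0, Q_add, Q_smul, Q_smul, polar_smul_left, polar_smul_right, hb _ _ (hne01 k), smul_zero, smul_zero, add_zero, ← hsu k]
      have := hbn (k, 0)
      field_simp
    · intro k
      rw [hS1, sub_eq_add_neg, ← neg_smul, Q_add, Q_smul, Q_smul, polar_smul_left, polar_smul_right, hb _ _ (hne01 k), smul_zero, smul_zero, add_zero, ← hsu k]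
      have := hbn (k, 0)
      field_simp
      ring
    · have key : ∀ (k l : Fin m) (i j : Fin 2), k ≠ l → polar Q (S (b (k, i))) (S (b (l, j))) = 0 := by
        intro k l i j hkl
        have h0 : ∀ (i j : Fin 2), polar Q (b (k, i)) (b (l, j)) = 0 := fun i j => hb _ _ (fun h => hkl (congrArg Prod.fst h))
        fin_cases i <;> fin_cases j
        · show polar Q (S (b (k, 0))) (S (b (l, 0))) = 0
          rw [hS0, hS0]
          simp only [polar_add_left, polar_add_right, polar_smul_left, polar_smul_right, h0, smul_zero, add_zero]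
        · show polar Q (S (b (k, 0))) (S (b (l, 1))) = 0
          rw [hS0, hS1]
          simp only [polar_add_left, polar_sub_right, polar_add_right, polar_smul_left, polar_smul_right, h0, smul_zero, add_zero, sub_zero]
        · show polar Q (S (b (k, 1))) (S (b (l, 0))) = 0
          rw [hS0, hS1]
          simp only [polar_add_left, polar_sub_left, polar_add_right, polar_smul_left, polar_smul_right, h0, smul_zero, add_zero, sub_zero]
        · show polar Q (S (b (k, 1))) (S (b (l, 1))) = 0
          rw [hS1, hS1]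
          simp only [polar_sub_left, polar_sub_right, polar_smul_left, polar_smul_right, h0, smul_zero, sub_zero]
      have key2 : ∀ k : Fin m, polar Q (S (b (k, 0))) (S (b (k, 1))) = 0 := by
        intro k
        rw [hS0, hS1]
        have e1 : polar Q (b (k, 0)) (b (k, 0)) = 2 * Q (b (k, 0)) := polar_self' _ _
        have e2 : polar Q (b (k, 1)) (b (k, 1)) = 2 * Q (b (k, 1)) := polar_self' _ _
        simp only [polar_add_left, polar_sub_right, polar_smul_left, polar_smul_right, hb _ _ (hne01 k), hb _ _ (hne10 k), smul_eq_mul, e1, e2]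
        have := hbn (k, 0)
        field_simp
        ring
      rintro ⟨k, i⟩ ⟨l, j⟩ hij
      rw [hb _ _ hij, mul_zero]
      by_cases hkl : k = l
      · subst hkl
        fin_cases i <;> fin_cases j
        · exact absurd rfl hij
        · exact key2 k
        · show polar Q (S (b (k, 1))) (S (b (k, 0))) = 0
          rw [polar_comm]; exact key2 k
        · exact absurd rfl hij
      · exact key k l i j hkl

end abstract_part

section matrices

variable {F : Type*} [Field F] {n : ℕ}

theorem exists_of_diag {Q : QuadraticForm F (Fin n → F)} (hn : 0 < n) (b : Basis (Fin n) F (Fin n → F)) {w : Fin n → F} (hw : ∀ i, w i ≠ 0)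
    {c : F} (hc : c ≠ 0) (h1 : ∀ i, Q (b i) ≠ 0 → w i * w i = c) (h2 : ∀ i j, i ≠ j → polar Q (b i) (b j) ≠ 0 → w i * w j = c)
    {x P : Matrix.GeneralLinearGroup (Fin n) F} {u : Fin n → F} (hx : x.1 * P.1 = P.1 * Matrix.diagonal u) (π : Equiv.Perm (Fin n))
    (hu : ∀ i, u (π i) = w i) :
    ∃ g ∈ Cfsg.Geo.specialLinear (Fin n) F, g⁻¹ * x * g ∈ Cfsg.Geo.quadSimilarityGroup ⇑Q := by
  classical
  let B₀ : Matrix (Fin n) (Fin n) F := (Pi.basisFun F (Fin n)).toMatrix b
  have hB₀ : ∀ i j, B₀ i j = b j i := fun i j => rfl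
  haveI : Invertible B₀ := (Pi.basisFun F (Fin n)).invertibleToMatrix b
  let B : Matrix.GeneralLinearGroup (Fin n) F := unitOfInvertible B₀
  have hDD : Matrix.diagonal w * Matrix.diagonal (fun i => (w i)⁻¹) = 1 := by
    rw [Matrix.diagonal_mul_diagonal, ← Matrix.diagonal_one]
    congr 1
    funext i
    exact mul_inv_cancel₀ (hw i)
  have hDD' : Matrix.diagonal (fun i => (w i)⁻¹) * Matrix.diagonal w = 1 := by
    rw [Matrix.diagonal_mul_diagonal, ← Matrix.diagonal_one]
    congr 1
    funext i
    exact inv_mul_cancel₀ (hw i)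
  let D : Matrix.GeneralLinearGroup (Fin n) F := ⟨Matrix.diagonal w, Matrix.diagonal (fun i => (w i)⁻¹), hDD, hDD'⟩
  let y : Matrix.GeneralLinearGroup (Fin n) F := B * D * B⁻¹
  have hy : y.1 * B.1 = B.1 * Matrix.diagonal w := by
    show (B * D * B⁻¹).1 * B.1 = B.1 * D.1
    rw [← Units.val_mul, ← Units.val_mul]
    congr 1
    group
  have hyb : ∀ i, Matrix.toLin' y.1 (b i) = w i • b i := by
    intro i
    have h3 : B.1.mulVec (Pi.single i 1) = b i := by
      rw [Matrix.mulVec_single_one]
      funext j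
      exact hB₀ j i
    rw [Matrix.toLin'_apply, ← h3, Matrix.mulVec_mulVec, hy, ← Matrix.mulVec_mulVec, Matrix.diagonal_mulVec_single, mul_one,
      ← Matrix.mulVec_smul]
    congr 1
    funext j
    by_cases hj : j = i
    · subst hj; simp
    · rw [Pi.single_eq_of_ne hj, Pi.smul_apply, Pi.single_eq_of_ne hj, smul_zero]
  have hys : y ∈ Cfsg.Geo.quadSimilarityGroup ⇑Q := ⟨Units.mk0 c hc, fun v => diag_sim b hyb h1 h2 v⟩
  obtain ⟨g, hg, hgx⟩ := DiagTool.conj_SL_of_diag hn hx hy π hu
  exact ⟨g, hg, by rw [hgx]; exact hys⟩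

theorem lin_of_dual {V : Type*} [AddCommGroup V] [Module F V] {Q : QuadraticForm F V} {ι : Type*} {v w : ι → V} (h : ∀ i, polar Q (v i) (w i) ≠ 0)
    (h' : ∀ i j, i ≠ j → polar Q (v i) (w j) = 0) : LinearIndependent F v := by
  rw [linearIndependent_iff']
  intro s g hg i hi
  have h1 : polarBilin Q (∑ j ∈ s, g j • v j) (w i) = g i * polar Q (v i) (w i) := by
    rw [map_sum, LinearMap.sum_apply, Finset.sum_eq_single i]
    · rw [map_smul, LinearMap.smul_apply, smul_eq_mul]; rfl
    · intro j _ hj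
      rw [map_smul, LinearMap.smul_apply, smul_eq_mul]
      have : polarBilin Q (v j) (w i) = 0 := h' j i hj
      rw [this, mul_zero]
    · intro h; exact absurd hi h
  rw [hg, map_zero, LinearMap.zero_apply] at h1
  exact (mul_eq_zero.1 h1.symm).resolve_right (h i)

variable [Fintype F]

/-- a hyperbolic family and an orthogonal vector -/
theorem exists_hyp (h2 : (2 : F) ≠ 0) {Q : QuadraticForm F (Fin n → F)} (hQ : Nd Q) {k : ℕ} (hn : n = 2 * k + 1) :
    ∃ (e f : Fin k → (Fin n → F)) (g : Fin n → F), (∀ i, Q (e i) = 0) ∧ (∀ i, Q (f i) = 0) ∧ Q g ≠ 0 ∧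
      (∀ i, polar Q (e i) (f i) = 1) ∧ (∀ i j, i ≠ j → polar Q (e i) (f j) = 0) ∧
      (∀ i j, polar Q (e i) (e j) = 0) ∧ (∀ i j, polar Q (f i) (f j) = 0) ∧ (∀ i, polar Q (e i) g = 0) ∧ (∀ i, polar Q (f i) g = 0) := by
  classical
  obtain ⟨j, hj⟩ := emb hQ (nd_quadPlus (m := k) (F := F)) (Or.inl (by rw [finrank_plus, Module.finrank_fin_fun]; omega))
  have hpj : ∀ x y, polar Q (j x) (j y) = polar (quadPlus k F) x y := fun x y => polar_map j hj x y
  set U := perp Q (LinearMap.range j) with hU
  have hinj : Function.Injective j := OrthEmb67.embedding_injective nd_quadPlus hj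
  have hfr : finrank F (LinearMap.range j) = 2 * k := by
    rw [LinearMap.finrank_range_of_inj hinj, finrank_plus]
  have hUinf : U ⊓ perp Q U = ⊥ := by
    rw [hU, hQ.perp_perp, eq_bot_iff]
    rintro x ⟨hx1, ⟨y, rfl⟩⟩
    have h1 : y = 0 := by
      apply (nd_quadPlus (m := k) (F := F)).eq_zero
      intro z
      rw [← hpj, polar_comm]
      exact mem_perp.1 hx1 (j z) ⟨z, rfl⟩
    rw [h1, map_zero]; exact Submodule.zero_mem _
  have hUfr : finrank F U = 1 := by
    rw [hU, hQ.finrank_perp, hfr, Module.finrank_fin_fun]; omega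
  obtain ⟨g, hg⟩ := (nd_res_of_inf hUinf).exists_Q_ne_zero (by omega)
  have hgp : ∀ x, polar Q (j x) g = 0 := by
    intro x
    exact mem_perp.1 g.2 (j x) ⟨x, rfl⟩
  refine ⟨fun i => j (Pi.single (.inl i) 1), fun i => j (Pi.single (.inr i) 1), g, ?_, ?_, hg, ?_, ?_, ?_, ?_, fun i => hgp _, fun i => hgp _⟩
  · intro i
    show Q (j _) = 0
    rw [hj]
    show ∑ i' : Fin k, (Pi.single (.inl i) (1 : F) : Fin k ⊕ Fin k → F) (.inl i') * (Pi.single (.inl i) (1 : F) : Fin k ⊕ Fin k → F) (.inr i') = 0
    apply Finset.sum_eq_zero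
    intro i' _
    simp [Pi.single_apply]
  · intro i
    show Q (j _) = 0
    rw [hj]
    show ∑ i' : Fin k, (Pi.single (.inr i) (1 : F) : Fin k ⊕ Fin k → F) (.inl i') * (Pi.single (.inr i) (1 : F) : Fin k ⊕ Fin k → F) (.inr i') = 0
    apply Finset.sum_eq_zero
    intro i' _
    simp [Pi.single_apply]
  · intro i
    show polar Q (j _) (j _) = 1
    rw [hpj, coe_quadPlus, polar_quadPlus]
    simp [Pi.single_apply]
  · intro i i' hi
    show polar Q (j _) (j _) = 0
    rw [hpj, coe_quadPlus, polar_quadPlus]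
    simp [Pi.single_apply, hi, hi.symm]
  · intro i i'
    show polar Q (j _) (j _) = 0
    rw [hpj, coe_quadPlus, polar_quadPlus]
    simp [Pi.single_apply]
  · intro i i'
    show polar Q (j _) (j _) = 0
    rw [hpj, coe_quadPlus, polar_quadPlus]
    simp [Pi.single_apply]

end matrices

end Cfsg.Agent.Lib.QSim
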