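import Mathlib
import Cfsg.Agent.Lib.QSim3

set_option autoImplicit false
set_option linter.unusedSectionVars false

/-!
Similarities of quadratic forms: elements of order two, three and five (helper99).
-/

namespace Cfsg.Agent.Lib.QSim

open QuadraticMap Module Cfsg.Agent.Lib.Quad Cfsg.Agent.Lib.QuadD67 Cfsg.Agent.Lib.QuadEmb67 Cfsg.Agent.Lib.OrthR67
open Cfsg.Agent.Lib.NormTool (mem_SL_iff)
open Cfsg.Agent.Lib.PrimeOrd Cfsg.Agent.Lib.InvSub Cfsg.Agent.Lib.ElusiveLin Cfsg.Agent.Lib.XSym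

variable {F : Type*} [Field F] [Fintype F]

theorem yes_three (h2 : (2 : F) ≠ 0) {Q : QuadraticForm F (Fin 3 → F)} (hQ : Nd Q) {ζ : F} (hζ : IsPrimitiveRoot ζ 3)
    (hr2 : ¬ 3 ^ 2 ∣ Fintype.card F - 1) {x : Matrix.GeneralLinearGroup (Fin 3) F}
    (hx : x ∈ Cfsg.Geo.specialLinear (Fin 3) F) {z : F} (hz : (x ^ 3).1 = z • (1 : Matrix (Fin 3) (Fin 3) F)) :
    ∃ g ∈ Cfsg.Geo.specialLinear (Fin 3) F, g⁻¹ * x * g ∈ Cfsg.Geo.quadSimilarityGroup ⇑Q := by
  obtain ⟨P, u, π, c, ν, hc, hν, hP, hu⟩ := sym_three hζ hr2 hx hz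
  have hc0 : c ≠ 0 := by rintro rfl; rw [zero_pow (by norm_num)] at hc; exact zero_ne_one hc
  have hν0 : ν ≠ 0 := by rintro rfl; rw [zero_pow (by norm_num)] at hν; exact zero_ne_one hν
  obtain ⟨e, f, g, he, hf, hg, hef, -, hee, hff, heg, hfg⟩ := exists_hyp (k := 1) h2 hQ rfl
  have hgg : polar Q g g ≠ 0 := by rw [polar_self']; exact mul_ne_zero h2 hg
  have hfe : polar Q (f 0) (e 0) = 1 := by rw [polar_comm]; exact hef 0
  have hge : polar Q g (e 0) = 0 := by rw [polar_comm]; exact heg 0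
  have hgf : polar Q g (f 0) = 0 := by rw [polar_comm]; exact hfg 0
  have hli : LinearIndependent F ![e 0, f 0, g] := by
    refine lin_of_dual (Q := Q) (w := ![f 0, e 0, g]) ?_ ?_
    · intro i
      fin_cases i
      · show polar Q (e 0) (f 0) ≠ 0
        rw [hef]; exact one_ne_zero
      · show polar Q (f 0) (e 0) ≠ 0
        rw [hfe]; exact one_ne_zero
      · exact hgg
    · intro i j hij
      fin_cases i <;> fin_cases j <;> first | exact absurd rfl hij | exact hee 0 0 | exact heg 0 | exact hff 0 0 | exact hfg 0 | exact hgf | exact hge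
  let b := basisOfLinearIndependentOfCardEqFinrank hli (by simp)
  have hb : ⇑b = ![e 0, f 0, g] := coe_basisOfLinearIndependentOfCardEqFinrank hli (by simp)
  refine exists_of_diag (by norm_num) b (w := ![c * ν, c * ν⁻¹, c]) ?_ (c := c * c) (mul_ne_zero hc0 hc0) ?_ ?_ hP π hu
  · intro i
    fin_cases i
    · exact mul_ne_zero hc0 hν0
    · exact mul_ne_zero hc0 (inv_ne_zero hν0)
    · exact hc0
  · intro i hi
    rw [hb] at hi
    fin_cases i
    · exact absurd (he 0) hi
    · exact absurd (hf 0) hi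
    · rfl
  · intro i j hij hp
    rw [hb] at hp
    fin_cases i <;> fin_cases j <;> first
      | exact absurd rfl hij
      | exact absurd (hee 0 0) hp
      | exact absurd (heg 0) hp
      | exact absurd (hff 0 0) hp
      | exact absurd (hfg 0) hp
      | exact absurd hge hp
      | exact absurd hgf hp
      | (show c * ν * (c * ν⁻¹) = c * c
         field_simp)
      | (show c * ν⁻¹ * (c * ν) = c * c
         field_simp)

set_option maxHeartbeats 2000000 in
theorem yes_five (h2 : (2 : F) ≠ 0) {Q : QuadraticForm F (Fin 5 → F)} (hQ : Nd Q) {ζ : F} (hζ : IsPrimitiveRoot ζ 5)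
    (hr2 : ¬ 5 ^ 2 ∣ Fintype.card F - 1) {x : Matrix.GeneralLinearGroup (Fin 5) F}
    (hx : x ∈ Cfsg.Geo.specialLinear (Fin 5) F) {z : F} (hz : (x ^ 5).1 = z • (1 : Matrix (Fin 5) (Fin 5) F)) :
    ∃ g ∈ Cfsg.Geo.specialLinear (Fin 5) F, g⁻¹ * x * g ∈ Cfsg.Geo.quadSimilarityGroup ⇑Q := by
  obtain ⟨P, u, π, c, ν, ν', hc, hν, hν', hP, hu⟩ := sym_five hζ hr2 hx hz
  have hc0 : c ≠ 0 := by rintro rfl; rw [zero_pow (by norm_num)] at hc; exact zero_ne_one hc
  have hν0 : ν ≠ 0 := by rintro rfl; rw [zero_pow (by norm_num)] at hν; exact zero_ne_one hν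
  have hν0' : ν' ≠ 0 := by rintro rfl; rw [zero_pow (by norm_num)] at hν'; exact zero_ne_one hν'
  obtain ⟨e, f, g, he, hf, hg, hef, hef', hee, hff, heg, hfg⟩ := exists_hyp (k := 2) h2 hQ rfl
  have hgg : polar Q g g ≠ 0 := by rw [polar_self']; exact mul_ne_zero h2 hg
  have hfe : ∀ i, polar Q (f i) (e i) = 1 := fun i => by rw [polar_comm]; exact hef i
  have hge : ∀ i, polar Q g (e i) = 0 := fun i => by rw [polar_comm]; exact heg i
  have hgf : ∀ i, polar Q g (f i) = 0 := fun i => by rw [polar_comm]; exact hfg i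
  have h01 := hef' 0 1 (by decide)
  have h10 := hef' 1 0 (by decide)
  have h01' : polar Q (f 1) (e 0) = 0 := by rw [polar_comm]; exact h01
  have h10' : polar Q (f 0) (e 1) = 0 := by rw [polar_comm]; exact h10
  have hli : LinearIndependent F ![e 0, f 0, e 1, f 1, g] := by
    refine lin_of_dual (Q := Q) (w := ![f 0, e 0, f 1, e 1, g]) ?_ ?_
    · intro i
      fin_cases i
      · show polar Q (e 0) (f 0) ≠ 0
        rw [hef]; exact one_ne_zero
      · show polar Q (f 0) (e 0) ≠ 0
        rw [hfe]; exact one_ne_zero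
      · show polar Q (e 1) (f 1) ≠ 0
        rw [hef]; exact one_ne_zero
      · show polar Q (f 1) (e 1) ≠ 0
        rw [hfe]; exact one_ne_zero
      · exact hgg
    · intro i j hij
      fin_cases i <;> fin_cases j <;> first | exact absurd rfl hij | exact hee _ _ | exact heg _ | exact hff _ _ | exact hfg _ | exact hgf _ | exact hge _ | exact h01 | exact h10 | exact h01' | exact h10'
  let b := basisOfLinearIndependentOfCardEqFinrank hli (by simp)
  have hb : ⇑b = ![e 0, f 0, e 1, f 1, g] := coe_basisOfLinearIndependentOfCardEqFinrank hli (by simp)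
  refine exists_of_diag (by norm_num) b (w := ![c * ν, c * ν⁻¹, c * ν', c * ν'⁻¹, c]) ?_ (c := c * c) (mul_ne_zero hc0 hc0) ?_ ?_ hP π hu
  · intro i
    fin_cases i
    · exact mul_ne_zero hc0 hν0
    · exact mul_ne_zero hc0 (inv_ne_zero hν0)
    · exact mul_ne_zero hc0 hν0'
    · exact mul_ne_zero hc0 (inv_ne_zero hν0')
    · exact hc0
  · intro i hi
    rw [hb] at hi
    fin_cases i
    · exact absurd (he 0) hi
    · exact absurd (hf 0) hi
    · exact absurd (he 1) hi
    · exact absurd (hf 1) hi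
    · rfl
  · intro i j hij hp
    rw [hb] at hp
    fin_cases i <;> fin_cases j <;> first
      | exact absurd rfl hij
      | exact absurd (hee _ _) hp
      | exact absurd (heg _) hp
      | exact absurd (hff _ _) hp
      | exact absurd (hfg _) hp
      | exact absurd (hge _) hp
      | exact absurd (hgf _) hp
      | exact absurd h01 hp
      | exact absurd h10 hp
      | exact absurd h01' hp
      | exact absurd h10' hp
      | (show c * ν * (c * ν⁻¹) = c * c
         field_simp)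
      | (show c * ν⁻¹ * (c * ν) = c * c
         field_simp)
      | (show c * ν' * (c * ν'⁻¹) = c * c
         field_simp)
      | (show c * ν'⁻¹ * (c * ν') = c * c
         field_simp)

variable {n : ℕ}

theorem yes_two (h2 : (2 : F) ≠ 0) (hn : 0 < n) {Q : QuadraticForm F (Fin n → F)} (hQ : Nd Q) {p : ℕ} [hp : Fact p.Prime] [CharP F p] (hp2 : 2 ≠ p)
    {x : Matrix.GeneralLinearGroup (Fin n) F}
    (hx : x ∈ Cfsg.Geo.specialLinear (Fin n) F) {z : F} (hz : (x ^ 2).1 = z • (1 : Matrix (Fin n) (Fin n) F)) :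
    ∃ g ∈ Cfsg.Geo.specialLinear (Fin n) F, g⁻¹ * x * g ∈ Cfsg.Geo.quadSimilarityGroup ⇑Q := by
  classical
  haveI : Fact (Nat.Prime 2) := ⟨Nat.prime_two⟩
  let X : Matrix.SpecialLinearGroup (Fin n) F := ⟨x.1, mem_SL_iff.1 hx⟩
  have hX2 : ((X ^ 2 : Matrix.SpecialLinearGroup (Fin n) F) : Matrix (Fin n) (Fin n) F) = z • (1 : Matrix (Fin n) (Fin n) F) := by
    rw [Matrix.SpecialLinearGroup.coe_pow, ← hz, Units.val_pow_eq_pow_val]
  rcases structure_of (p := p) (r := 2) hp2 X z hX2 hn with ⟨y, hy0, hy, -⟩ | ⟨hnp, hss, -, m, hm, hnm, hdet⟩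
  · have hneg : IsPrimitiveRoot (-1 : F) 2 := by
      have h1 : (-1 : F) ≠ 1 := by
        intro h
        exact h2 (by linear_combination (-1 : F) * h)
      have := IsPrimitiveRoot.orderOf (-1 : F)
      rwa [orderOf_eq_prime (neg_one_sq) h1] at this
    obtain ⟨P, e, hP⟩ := Cfsg.Agent.Lib.DiagTool.exists_diag_mat (m := 2) (by exact_mod_cast h2) hneg hy0 (M := x.1) (by
      rw [← Units.val_pow_eq_pow_val, hz, hy])
    obtain ⟨b0, hb0, hb1⟩ := hQ.exists_orth_basis h2
    let b : Basis (Fin n) F (Fin n → F) := b0.reindex (finCongr (Module.finrank_fin_fun F))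
    have hb : ∀ i j, i ≠ j → polar Q (b i) (b j) = 0 := by
      intro i j hij
      rw [Basis.reindex_apply, Basis.reindex_apply]
      exact hb0 _ _ (fun h => hij ((Equiv.injective _) h))
    refine exists_of_diag hn b (w := fun j => y * (-1) ^ (e j).1) (fun i => mul_ne_zero hy0 (pow_ne_zero _ (by simp))) (c := y * y)
      (mul_ne_zero hy0 hy0) ?_ ?_ hP (Equiv.refl _) (fun i => rfl)
    · intro i _
      show y * (-1) ^ (e i).1 * (y * (-1) ^ (e i).1) = y * y
      have : ((-1 : F) ^ (e i).1) * (-1) ^ (e i).1 = 1 := by rw [← mul_pow, neg_mul_neg, one_mul, one_pow]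
      linear_combination (y * y) * this
    · intro i j hij h
      exact absurd (hb i j hij) h
  · obtain ⟨S, hS, hSQ⟩ := exists_sqrt_sim h2 hQ (m := m) (by rw [Module.finrank_fin_fun, hnm, mul_comm]) z
    have hirr := X_pow_sub_C_irreducible_of_prime Nat.prime_two hnp
    have hT : Matrix.toLin' x.1 ^ 2 = z • (1 : Module.End F (Fin n → F)) := by
      have h1 : tl X ^ 2 = z • (1 : Module.End F (Fin n → F)) := by rw [tl_pow, tl_eq_smul_iff, hX2]
      exact h1
    obtain ⟨g, hg⟩ := ExtField.exists_conj_irred (T := Matrix.toLin' x.1) (S := S) hirr (by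
      rw [map_sub, map_pow, Polynomial.aeval_X, Polynomial.aeval_C, hT, Algebra.algebraMap_eq_smul_one, sub_self]) (by
      rw [map_sub, map_pow, Polynomial.aeval_X, Polynomial.aeval_C, pow_two, hS, Algebra.algebraMap_eq_smul_one, sub_self]) rfl
    obtain ⟨h, hh, hhS⟩ := CycConj.conj_SL_of_end hn (x := x) (S := S) (fun W hW => hss.compl W hW) g hg
    have hz0 : z ≠ 0 := by
      rintro rfl
      exact hnp 0 (by norm_num)
    refine ⟨h, hh, ⟨Units.mk0 z hz0, fun v => ?_⟩⟩
    have h3 : (h⁻¹ * x * h).1.mulVec v = S v := by rw [← hhS]; rfl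
    rw [h3]
    exact hSQ v

end Cfsg.Agent.Lib.QSim
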