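import Cfsg.Agent.Lib.QmConj
import Cfsg.Agent.Lib.NatSL2
set_option autoImplicit false

/-! Normalizing isomorphisms to `SL₂(F)`. -/
namespace Cfsg.Agent.Lib.QmCore

open Matrix Cfsg.Agent.Lib.ClSL2
open scoped MatrixGroups

theorem exists_iso_US {G : Type*} [Group G] [Finite G] {F : Type*} [Field F] [Fintype F] {p : ℕ} [Fact p.Prime]
    [CharP F p] (e : G ≃* SL(2, F)) (S : Sylow p G) : ∃ e' : G ≃* SL(2, F), ∀ l, l ∈ (S : Subgroup G) ↔ e' l ∈ US F := by
  classical
  have hfinSL : Finite SL(2, F) := inferInstance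
  obtain ⟨P, hP⟩ : ∃ P : Sylow p SL(2, F), (P : Subgroup SL(2, F)) = (S : Subgroup G).map e.toMonoidHom := by
    refine ⟨Sylow.ofCard ((S : Subgroup G).map e.toMonoidHom) ?_, rfl⟩
    rw [Subgroup.card_map_of_injective e.injective, Sylow.card_eq_multiplicity, Nat.card_congr e.toEquiv]
  obtain ⟨g, hg⟩ := MulAction.exists_smul_eq SL(2, F) P (sylowUS F p)
  let e' : G ≃* SL(2, F) := e.trans (MulAut.conj g)
  refine ⟨e', fun l => ?_⟩
  have h1 : l ∈ (S : Subgroup G) ↔ e l ∈ (P : Subgroup SL(2, F)) := by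
    rw [hP]
    constructor
    · intro h; exact ⟨l, h, rfl⟩
    · rintro ⟨l', hl', h2⟩
      have h3 : l' = l := e.injective h2
      rw [← h3]; exact hl'
  have h2 : e l ∈ (P : Subgroup SL(2, F)) ↔ e' l ∈ US F := by
    rw [← coe_sylowUS (F := F) (p := p), ← hg, Sylow.coe_subgroup_smul]
    constructor
    · intro h
      exact ⟨e l, h, rfl⟩
    · rintro ⟨y, hy, h3⟩
      have h4 : g * y * g⁻¹ = g * e l * g⁻¹ := h3
      have h5 : y = e l := by
        have := mul_right_cancel h4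
        exact mul_left_cancel this
      rw [← h5]; exact hy
  rw [h1, h2]

end Cfsg.Agent.Lib.QmCore
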