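import Mathlib
import Cfsg.Prelude.Def_PLocal
import Cfsg.Agent.Lib.LocBase
import Cfsg.Agent.Lib.Subnormal

/-!
Quadratic action (internal form) on elementary abelian `p`-subgroups.
-/

set_option autoImplicit false

namespace Cfsg.Agent.Lib.QuadAct

open Subgroup
open scoped commutatorElement

variable {G : Type*} [Group G]

/-- The elements of `N(V) ∩ N(W)` acting trivially on `V / W`. -/
def actKer (V W : Subgroup G) : Subgroup G where
  carrier := {x | x ∈ normalizer (V : Set G) ∧ x ∈ normalizer (W : Set G) ∧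
    ∀ v ∈ V, v⁻¹ * (x * v * x⁻¹) ∈ W}
  one_mem' := ⟨one_mem _, one_mem _, fun v _ => by simp⟩
  mul_mem' := by
    rintro x y ⟨hx1, hx2, hx3⟩ ⟨hy1, hy2, hy3⟩
    refine ⟨mul_mem hx1 hy1, mul_mem hx2 hy2, fun v hv => ?_⟩
    have e : v⁻¹ * (x * y * v * (x * y)⁻¹) =
        (v⁻¹ * (x * v * x⁻¹)) * (x * (v⁻¹ * (y * v * y⁻¹)) * x⁻¹) := by group
    rw [e]
    exact W.mul_mem (hx3 v hv) ((mem_normalizer_iff.mp hx2 _).mp (hy3 v hv))
  inv_mem' := by
    rintro x ⟨hx1, hx2, hx3⟩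
    refine ⟨inv_mem hx1, inv_mem hx2, fun v hv => ?_⟩
    -- `u = x⁻¹ v x ∈ V`, and `u⁻¹ x u x⁻¹ ∈ W`
    have hu : x⁻¹ * v * x ∈ V := by
      have := (mem_normalizer_iff.mp (inv_mem hx1) v).mp hv
      rwa [inv_inv] at this
    have h := hx3 _ hu
    have e2 : (x⁻¹ * v * x)⁻¹ * (x * (x⁻¹ * v * x) * x⁻¹) = (x⁻¹ * v * x)⁻¹ * v := by group
    rw [e2] at h
    have e3 : v⁻¹ * (x⁻¹ * v * x⁻¹⁻¹) = ((x⁻¹ * v * x)⁻¹ * v)⁻¹ := by group
    rw [e3]
    exact W.inv_mem h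

theorem mem_actKer {V W : Subgroup G} {x : G} : x ∈ actKer V W ↔
    x ∈ normalizer (V : Set G) ∧ x ∈ normalizer (W : Set G) ∧
      ∀ v ∈ V, v⁻¹ * (x * v * x⁻¹) ∈ W := Iff.rfl

theorem commutator_le_of_le_actKer {V W X : Subgroup G} (h : X ≤ actKer V W) : ⁅V, X⁆ ≤ W := by
  rw [commutator_le]
  intro v hv x hx
  have h1 := (mem_actKer.mp (h hx)).2.2 v⁻¹ (V.inv_mem hv)
  have e : v⁻¹⁻¹ * (x * v⁻¹ * x⁻¹) = ⁅v, x⁆ := by rw [commutatorElement_def]; group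
  rwa [e] at h1

theorem le_actKer_iff {V W X : Subgroup G} (hV : X ≤ normalizer (V : Set G))
    (hW : X ≤ normalizer (W : Set G)) : X ≤ actKer V W ↔ ⁅V, X⁆ ≤ W := by
  constructor
  · exact commutator_le_of_le_actKer
  · intro h x hx
    refine mem_actKer.mpr ⟨hV hx, hW hx, fun v hv => ?_⟩
    have h1 := h (commutator_mem_commutator (V.inv_mem hv) hx)
    have e : ⁅v⁻¹, x⁆ = v⁻¹ * (x * v * x⁻¹) := by rw [commutatorElement_def]; group
    rwa [e] at h1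

theorem normalizer_le_normalizer_actKer {V W : Subgroup G} :
    normalizer (V : Set G) ⊓ normalizer (W : Set G) ≤ normalizer (actKer V W : Set G) := by
  rw [le_normalizer_iff]
  intro g hg x hx
  obtain ⟨hgV, hgW⟩ := mem_inf.mp hg
  obtain ⟨h1, h2, h3⟩ := mem_actKer.mp hx
  refine mem_actKer.mpr ⟨mul_mem (mul_mem hgV h1) (inv_mem hgV),
    mul_mem (mul_mem hgW h2) (inv_mem hgW), fun v hv => ?_⟩
  have hu : g⁻¹ * v * g ∈ V := by
    have := (mem_normalizer_iff.mp (inv_mem hgV) v).mp hv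
    rwa [inv_inv] at this
  have h := (mem_normalizer_iff.mp hgW _).mp (h3 _ hu)
  have e : g * ((g⁻¹ * v * g)⁻¹ * (x * (g⁻¹ * v * g) * x⁻¹)) * g⁻¹ =
      v⁻¹ * (g * x * g⁻¹ * v * (g * x * g⁻¹)⁻¹) := by group
  rwa [e] at h

/-- If `E₁` acts trivially on `V / W`, both `E₁`, `E₂` normalize `V` and `W`, then `[E₁, E₂]`
acts trivially on `V / W`. -/
theorem commutator_le_actKer {V W E₁ E₂ : Subgroup G} (h₁ : E₁ ≤ actKer V W)
    (hV : E₂ ≤ normalizer (V : Set G)) (hW : E₂ ≤ normalizer (W : Set G)) :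
    ⁅E₁, E₂⁆ ≤ actKer V W := by
  rw [commutator_le]
  intro x hx y hy
  have hn := normalizer_le_normalizer_actKer (mem_inf.mpr ⟨hV hy, hW hy⟩)
  have h2 := (mem_normalizer_iff.mp hn _).mp (inv_mem (h₁ hx))
  have e : ⁅x, y⁆ = x * (y * x⁻¹ * y⁻¹) := by rw [commutatorElement_def]; group
  rw [e]
  exact mul_mem (h₁ hx) h2

/-- Quadratic action: the power of an element. -/
theorem pow_mem_centralizer {p : ℕ} {V H : Subgroup G} (hVp : ∀ v ∈ V, v ^ p = 1)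
    (hHV : H ≤ normalizer (V : Set G)) (hq : ⁅⁅V, H⁆, H⁆ = ⊥) {a : G} (ha : a ∈ H) :
    a ^ p ∈ centralizer (V : Set G) := by
  rw [Subgroup.mem_centralizer_iff]
  intro v hv
  set c : G := v⁻¹ * (a * v * a⁻¹) with hc
  have hav : a * v * a⁻¹ ∈ V := (Subgroup.mem_normalizer_iff.mp (hHV ha) v).mp hv
  have hcV : c ∈ V := V.mul_mem (V.inv_mem hv) hav
  have hcc : c ∈ ⁅V, H⁆ := by
    have h1 : ⁅v⁻¹, a⁆ ∈ ⁅V, H⁆ :=
      Subgroup.commutator_mem_commutator (V.inv_mem hv) ha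
    have : ⁅v⁻¹, a⁆ = c := by rw [hc, commutatorElement_def]; group
    rwa [this] at h1
  have hac : a * c = c * a := by
    have h1 := Subgroup.commutator_eq_bot_iff_le_centralizer.mp hq hcc
    exact (Subgroup.mem_centralizer_iff.mp h1 a ha)
  have hcp : c ^ p = 1 := hVp c hcV
  have key : ∀ n : ℕ, a ^ n * v = v * c ^ n * a ^ n := by
    intro n
    induction n with
    | zero => simp
    | succ n ih =>
      have e1 : a * v = v * c * a := by rw [hc]; group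
      have e2 : ∀ m : ℕ, a * c ^ m = c ^ m * a := by
        intro m
        exact (Commute.pow_right (show Commute a c from hac) m).eq
      calc a ^ (n + 1) * v = a * (a ^ n * v) := by rw [pow_succ']; group
        _ = a * (v * c ^ n * a ^ n) := by rw [ih]
        _ = (a * v) * c ^ n * a ^ n := by group
        _ = (v * c * a) * c ^ n * a ^ n := by rw [e1]
        _ = v * c * (a * c ^ n) * a ^ n := by group
        _ = v * c * (c ^ n * a) * a ^ n := by rw [e2]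
        _ = v * c ^ (n + 1) * a ^ (n + 1) := by rw [pow_succ' c, pow_succ' a]; group
  have := key p
  rw [hcp, mul_one] at this
  exact this.symm

theorem commutator_le_centralizer {V H : Subgroup G} (hq : ⁅⁅V, H⁆, H⁆ = ⊥) :
    ⁅H, H⁆ ≤ centralizer (V : Set G) := by
  have h1 : ⁅⁅H, V⁆, H⁆ = ⊥ := by rw [Subgroup.commutator_comm H V]; exact hq
  have h2 : ⁅⁅H, H⁆, V⁆ = ⊥ :=
    Subgroup.commutator_commutator_eq_bot_of_rotate h1 hq
  exact Subgroup.commutator_eq_bot_iff_le_centralizer.mp h2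

/-- If `E₁, E₂ ≤ N(V)` and `[V, E₁, E₂] = 1` then `[E₁, E₂]` acts quadratically on `V`. -/
theorem quad_commutator {V E₁ E₂ : Subgroup G} (h₁ : E₁ ≤ normalizer (V : Set G))
    (h₂ : E₂ ≤ normalizer (V : Set G)) (hc : ⁅⁅V, E₁⁆, E₂⁆ = ⊥) :
    ⁅⁅V, ⁅E₁, E₂⁆⁆, ⁅E₁, E₂⁆⁆ = ⊥ := by
  set W : Subgroup G := ⁅V, E₁⁆ with hW
  have hWV : W ≤ V := le_normalizer_iff_commutator_le_left.mp h₁
  have hE1W : E₁ ≤ normalizer (W : Set G) := normalizer_commutator_ge_right V E₁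
  have hE2W : E₂ ≤ normalizer (W : Set G) := by
    rw [le_normalizer_iff_commutator_le_left, hc]
    exact bot_le
  have hPW : ⁅⁅E₁, E₂⁆, W⁆ = ⊥ := by
    apply Subgroup.commutator_commutator_eq_bot_of_rotate
    · rw [commutator_comm E₂ W, hc, commutator_bot_left]
    · rw [eq_bot_iff, ← hc]
      exact commutator_mono (le_normalizer_iff_commutator_le_left.mp hE1W) le_rfl
  have hPV : ⁅V, ⁅E₁, E₂⁆⁆ ≤ W := by
    apply commutator_le_of_le_actKer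
    exact commutator_le_actKer ((le_actKer_iff h₁ hE1W).mpr le_rfl) h₂ hE2W
  rw [eq_bot_iff]
  calc ⁅⁅V, ⁅E₁, E₂⁆⁆, ⁅E₁, E₂⁆⁆ ≤ ⁅W, ⁅E₁, E₂⁆⁆ := commutator_mono hPV le_rfl
    _ = ⁅⁅E₁, E₂⁆, W⁆ := commutator_comm _ _
    _ = ⊥ := hPW

/-- A group acting faithfully and quadratically on an elementary abelian `p`-group is a
`p`-group. -/
theorem isPGroup_of_quad {p : ℕ} {V P H : Subgroup G} (hVp : ∀ v ∈ V, v ^ p = 1)
    (hPH : P ≤ H) (hf : H ⊓ centralizer (V : Set G) = ⊥) (hPV : P ≤ normalizer (V : Set G))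
    (hq : ⁅⁅V, P⁆, P⁆ = ⊥) : IsPGroup p P := by
  intro x
  refine ⟨1, ?_⟩
  rw [pow_one]
  have h1 := pow_mem_centralizer hVp hPV hq x.2
  have h2 : (x : G) ^ p ∈ H ⊓ centralizer (V : Set G) := mem_inf.mpr ⟨hPH (pow_mem x.2 p), h1⟩
  rw [hf, mem_bot] at h2
  exact Subtype.ext (by simpa using h2)

/-- Two subnormal subgroups `E₁, E₂` of `H` acting faithfully on `V` with `[V, E₁, E₂] = 1`:
`[E₁, E₂] ≤ O_p(H)`. -/
theorem commutator_le_pCoreOf {G : Type*} [Group G] [Finite G] {p : ℕ} [Fact p.Prime]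
    {V H E₁ E₂ : Subgroup G}
    (hVp : ∀ v ∈ V, v ^ p = 1) (hHV : H ≤ normalizer (V : Set G))
    (hf : H ⊓ centralizer (V : Set G) = ⊥) (h₁ : E₁ ≤ H) (h₂ : E₂ ≤ H)
    (hs₁ : (E₁.subgroupOf H).IsSubnormal) (hs₂ : (E₂.subgroupOf H).IsSubnormal)
    (hc : ⁅⁅V, E₁⁆, E₂⁆ = ⊥) : ⁅E₁, E₂⁆ ≤ (Cfsg.pCore p H).map H.subtype := by
  have hPH : ⁅E₁, E₂⁆ ≤ H := (commutator_le_sup E₁ E₂).trans (sup_le h₁ h₂)
  have hp : IsPGroup p (⁅E₁, E₂⁆ : Subgroup G) :=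
    isPGroup_of_quad hVp hPH hf (hPH.trans hHV)
      (quad_commutator (h₁.trans hHV) (h₂.trans hHV) hc)
  have hsup : ((E₁ ⊔ E₂).subgroupOf H).IsSubnormal := by
    have e : (E₁ ⊔ E₂).subgroupOf H = E₁.subgroupOf H ⊔ E₂.subgroupOf H :=
      subgroupOf_sup h₁ h₂
    rw [e]
    exact Lib.Subnormal.isSubnormal_sup hs₁ hs₂
  have hsub : Lib.LocBase.Subn ⁅E₁, E₂⁆ H := by
    refine Lib.LocBase.Subn.trans (B := E₁ ⊔ E₂) (Lib.LocBase.Subn.of_normal
      (commutator_le_sup E₁ E₂) (sup_le (normalizer_commutator_ge_left _ _)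
        (normalizer_commutator_ge_right _ _))) ?_
    exact (Lib.LocBase.subn_iff (sup_le h₁ h₂)).mpr hsup
  exact hsub.le_pCoreOf hp

end Cfsg.Agent.Lib.QuadAct
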