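import Mathlib
import Cfsg.Prelude.Def_RootSubgroups

/-!
Base library on quadratic pairs (owner: helper84).
`Has G s`  : the linear map `1 + s` is (the underlying map of) an element of `G`.
`Fam G s`  : `s * s = 0` and all `1 + c • s` lie in `G`.
`Mn G s`   : `s` is a non-zero `Fam`-element of minimal rank.
-/
set_option autoImplicit false
open Cfsg

namespace Cfsg.Agent.Lib.QuadPair

variable {k : Type*} [Field k] {M : Type*} [AddCommGroup M] [Module k M]

/-- `1 + s` belongs to `G`. -/
def Has (G : Subgroup (LinearMap.GeneralLinearGroup k M)) (s : M →ₗ[k] M) : Prop :=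
  ∃ g ∈ G, (g : M →ₗ[k] M) = 1 + s

/-- the unipotent element `1 + s` when `s * s = 0` -/
def un (s : M →ₗ[k] M) (hs : s * s = 0) : LinearMap.GeneralLinearGroup k M where
  val := 1 + s
  inv := 1 - s
  val_inv := by rw [mul_sub, add_mul, add_mul, hs]; simp
  inv_val := by rw [mul_add, sub_mul, sub_mul, hs]; simp

@[simp] theorem un_coe (s : M →ₗ[k] M) (hs : s * s = 0) : ((un s hs : LinearMap.GeneralLinearGroup k M) : M →ₗ[k] M) = 1 + s := rfl

@[simp] theorem un_inv_coe (s : M →ₗ[k] M) (hs : s * s = 0) :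
    (((un s hs)⁻¹ : LinearMap.GeneralLinearGroup k M) : M →ₗ[k] M) = 1 - s := rfl

theorem has_iff {G : Subgroup (LinearMap.GeneralLinearGroup k M)} {s : M →ₗ[k] M} (hs : s * s = 0) :
    Has G s ↔ un s hs ∈ G := by
  constructor
  · rintro ⟨g, hg, h⟩
    have : g = un s hs := Units.ext (by rw [h]; rfl)
    rw [← this]; exact hg
  · intro h; exact ⟨_, h, rfl⟩

theorem has_zero (G : Subgroup (LinearMap.GeneralLinearGroup k M)) : Has G 0 :=
  ⟨1, G.one_mem, by simp⟩

theorem Has.mul {G : Subgroup (LinearMap.GeneralLinearGroup k M)} {s t : M →ₗ[k] M} (hs : Has G s) (ht : Has G t) :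
    Has G (s + t + s * t) := by
  obtain ⟨g, hg, h1⟩ := hs
  obtain ⟨h, hh, h2⟩ := ht
  refine ⟨g * h, G.mul_mem hg hh, ?_⟩
  rw [Units.val_mul, h1, h2]; noncomm_ring

theorem Has.mul' {G : Subgroup (LinearMap.GeneralLinearGroup k M)} {s t : M →ₗ[k] M} (hs : Has G s) (ht : Has G t)
    (h0 : s * t = 0) : Has G (s + t) := by
  have := hs.mul ht
  rwa [h0, add_zero] at this

theorem Has.neg {G : Subgroup (LinearMap.GeneralLinearGroup k M)} {s : M →ₗ[k] M} (hs : Has G s) (h0 : s * s = 0) :
    Has G (-s) := by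
  rw [has_iff h0] at hs
  have h := G.inv_mem hs
  refine ⟨_, h, ?_⟩
  rw [un_inv_coe, sub_eq_add_neg]

/-- `s` is the logarithm-type vector of a one-parameter family inside `G`. -/
structure Fam (G : Subgroup (LinearMap.GeneralLinearGroup k M)) (s : M →ₗ[k] M) : Prop where
  sq : s * s = 0
  has : ∀ c : k, Has G (c • s)

theorem Fam.one {G : Subgroup (LinearMap.GeneralLinearGroup k M)} {s : M →ₗ[k] M} (h : Fam G s) : Has G s := by
  have := h.has 1
  rwa [one_smul] at this

theorem Fam.smul {G : Subgroup (LinearMap.GeneralLinearGroup k M)} {s : M →ₗ[k] M} (h : Fam G s) (c : k) : Fam G (c • s) where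
  sq := by rw [smul_mul_smul_comm, h.sq, smul_zero]
  has := fun d => by rw [smul_smul]; exact h.has _

theorem Fam.neg {G : Subgroup (LinearMap.GeneralLinearGroup k M)} {s : M →ₗ[k] M} (h : Fam G s) : Fam G (-s) := by
  have := h.smul (-1)
  rwa [neg_one_smul] at this

theorem fam_zero (G : Subgroup (LinearMap.GeneralLinearGroup k M)) : Fam G (0 : M →ₗ[k] M) where
  sq := by simp
  has := fun c => by rw [smul_zero]; exact has_zero G

theorem Fam.add {G : Subgroup (LinearMap.GeneralLinearGroup k M)} {s t : M →ₗ[k] M} (hs : Fam G s) (ht : Fam G t)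
    (h1 : s * t = 0) (h2 : t * s = 0) : Fam G (s + t) where
  sq := by rw [mul_add, add_mul, add_mul, hs.sq, ht.sq, h1, h2]; simp
  has := fun c => by
    rw [smul_add]
    exact (hs.has c).mul' (ht.has c) (by rw [smul_mul_smul_comm, h1, smul_zero])

/-- conjugation -/
theorem Fam.conj {G : Subgroup (LinearMap.GeneralLinearGroup k M)} {s : M →ₗ[k] M} (h : Fam G s)
    {g : LinearMap.GeneralLinearGroup k M} (hg : g ∈ G) :
    Fam G ((g : M →ₗ[k] M) * s * ((g⁻¹ : LinearMap.GeneralLinearGroup k M) : M →ₗ[k] M)) where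
  sq := by
    calc (g : M →ₗ[k] M) * s * ((g⁻¹ : LinearMap.GeneralLinearGroup k M) : M →ₗ[k] M) *
        ((g : M →ₗ[k] M) * s * ((g⁻¹ : LinearMap.GeneralLinearGroup k M) : M →ₗ[k] M))
        = (g : M →ₗ[k] M) * s * (((g⁻¹ : LinearMap.GeneralLinearGroup k M) : M →ₗ[k] M) * (g : M →ₗ[k] M)) * s *
          ((g⁻¹ : LinearMap.GeneralLinearGroup k M) : M →ₗ[k] M) := by noncomm_ring
      _ = (g : M →ₗ[k] M) * (s * s) * ((g⁻¹ : LinearMap.GeneralLinearGroup k M) : M →ₗ[k] M) := by
          rw [Units.inv_mul]; noncomm_ring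
      _ = 0 := by rw [h.sq]; simp
  has := fun c => by
    obtain ⟨x, hx, hxe⟩ := h.has c
    refine ⟨g * x * g⁻¹, G.mul_mem (G.mul_mem hg hx) (G.inv_mem hg), ?_⟩
    rw [Units.val_mul, Units.val_mul, hxe, mul_add, add_mul, mul_one, Units.mul_inv]
    simp

theorem mem_quadraticElements_iff {G : Subgroup (LinearMap.GeneralLinearGroup k M)} {σ : LinearMap.GeneralLinearGroup k M} :
    σ ∈ Cfsg.quadraticElements G ↔ Fam G ((σ : M →ₗ[k] M) - 1) ∧ (σ : M →ₗ[k] M) - 1 ≠ 0 := by
  constructor
  · rintro ⟨_, hq, hf⟩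
    refine ⟨⟨hq.1, fun c => ?_⟩, hq.2⟩
    have hsq : (c • ((σ : M →ₗ[k] M) - 1)) * (c • ((σ : M →ₗ[k] M) - 1)) = 0 := by
      rw [smul_mul_smul_comm, hq.1, smul_zero]
    exact ⟨un _ hsq, hf ⟨c, rfl⟩, rfl⟩
  · rintro ⟨hf, h0⟩
    refine ⟨?_, ⟨hf.sq, h0⟩, ?_⟩
    · obtain ⟨g, hg, he⟩ := hf.one
      have : g = σ := Units.ext (by rw [he]; abel)
      rw [← this]; exact hg
    · rintro τ ⟨c, hc⟩
      obtain ⟨g, hg, he⟩ := hf.has c
      have : g = τ := Units.ext (by rw [he, hc])
      rw [← this]; exact hg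

theorem un_mem_quadraticElements_iff {G : Subgroup (LinearMap.GeneralLinearGroup k M)} {s : M →ₗ[k] M} (hs : s * s = 0) :
    un s hs ∈ Cfsg.quadraticElements G ↔ Fam G s ∧ s ≠ 0 := by
  rw [mem_quadraticElements_iff, un_coe, add_sub_cancel_left]

/-- minimal families -/
structure Mn (G : Subgroup (LinearMap.GeneralLinearGroup k M)) (s : M →ₗ[k] M) : Prop where
  fam : Fam G s
  ne : s ≠ 0
  min : ∀ t : M →ₗ[k] M, Fam G t → t ≠ 0 → Module.finrank k (LinearMap.range s) ≤ Module.finrank k (LinearMap.range t)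

theorem mem_minimal_iff {G : Subgroup (LinearMap.GeneralLinearGroup k M)} {σ : LinearMap.GeneralLinearGroup k M} :
    σ ∈ Cfsg.minimalQuadraticElements G ↔ Mn G ((σ : M →ₗ[k] M) - 1) := by
  constructor
  · rintro ⟨h1, h2⟩
    rw [mem_quadraticElements_iff] at h1
    refine ⟨h1.1, h1.2, fun t ht ht0 => ?_⟩
    have := h2 (un t ht.sq) ((un_mem_quadraticElements_iff ht.sq).mpr ⟨ht, ht0⟩)
    unfold Cfsg.commutatorRank at this
    rwa [un_coe, add_sub_cancel_left] at this
  · rintro ⟨h1, h2, h3⟩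
    refine ⟨mem_quadraticElements_iff.mpr ⟨h1, h2⟩, fun τ hτ => ?_⟩
    rw [mem_quadraticElements_iff] at hτ
    exact h3 _ hτ.1 hτ.2

section fd
variable [FiniteDimensional k M]

omit [FiniteDimensional k M] in
/-- the rank inequality: a non-zero family has rank at least that of a minimal one -/
theorem Mn.le {G : Subgroup (LinearMap.GeneralLinearGroup k M)} {s t : M →ₗ[k] M} (hs : Mn G s) (ht : Fam G t) (ht0 : t ≠ 0) :
    Module.finrank k (LinearMap.range s) ≤ Module.finrank k (LinearMap.range t) := hs.min t ht ht0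

omit [FiniteDimensional k M] in
theorem Mn.rank_eq {G : Subgroup (LinearMap.GeneralLinearGroup k M)} {s t : M →ₗ[k] M} (hs : Mn G s) (ht : Mn G t) :
    Module.finrank k (LinearMap.range s) = Module.finrank k (LinearMap.range t) :=
  le_antisymm (hs.min t ht.fam ht.ne) (ht.min s hs.fam hs.ne)

omit [FiniteDimensional k M] in
theorem Mn.of_rank_le {G : Subgroup (LinearMap.GeneralLinearGroup k M)} {s t : M →ₗ[k] M} (hs : Mn G s) (ht : Fam G t) (ht0 : t ≠ 0)
    (hle : Module.finrank k (LinearMap.range t) ≤ Module.finrank k (LinearMap.range s)) : Mn G t :=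
  ⟨ht, ht0, fun r hr hr0 => hle.trans (hs.min r hr hr0)⟩

/-- if a nonzero family vector has kernel containing that of a minimal one and range inside, both are equal -/
theorem Mn.same {G : Subgroup (LinearMap.GeneralLinearGroup k M)} {s t : M →ₗ[k] M} (hs : Mn G s) (ht : Fam G t) (ht0 : t ≠ 0)
    (hr : LinearMap.range t ≤ LinearMap.range s) :
    LinearMap.range t = LinearMap.range s :=
  Submodule.eq_of_le_of_finrank_le hr (hs.min t ht ht0)

theorem Mn.same_ker {G : Subgroup (LinearMap.GeneralLinearGroup k M)} {s t : M →ₗ[k] M} (hs : Mn G s) (ht : Fam G t) (ht0 : t ≠ 0)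
    (hr : LinearMap.ker s ≤ LinearMap.ker t) :
    LinearMap.ker s = LinearMap.ker t := by
  refine Submodule.eq_of_le_of_finrank_le hr ?_
  have h1 := LinearMap.finrank_range_add_finrank_ker s
  have h2 := LinearMap.finrank_range_add_finrank_ker t
  have h3 := hs.min t ht ht0
  omega

theorem rank_le_of_ker_le {s t : M →ₗ[k] M} (hr : LinearMap.ker s ≤ LinearMap.ker t) :
    Module.finrank k (LinearMap.range t) ≤ Module.finrank k (LinearMap.range s) := by
  have h1 := LinearMap.finrank_range_add_finrank_ker s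
  have h2 := LinearMap.finrank_range_add_finrank_ker t
  have h3 := Submodule.finrank_mono hr
  omega

end fd

theorem mul_eq_zero_iff (s t : M →ₗ[k] M) : s * t = 0 ↔ LinearMap.range t ≤ LinearMap.ker s := by
  constructor
  · rintro h _ ⟨m, rfl⟩
    rw [LinearMap.mem_ker]
    exact congrArg (fun f : M →ₗ[k] M => f m) h
  · intro h
    ext m
    exact h ⟨m, rfl⟩

/-- The relation "same kernel and same range" for minimal families. -/
structure Rel (G : Subgroup (LinearMap.GeneralLinearGroup k M)) (s t : M →ₗ[k] M) : Prop where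
  mn : Mn G t
  ker : LinearMap.ker t = LinearMap.ker s
  range : LinearMap.range t = LinearMap.range s

theorem mem_sameActionClass_iff {G : Subgroup (LinearMap.GeneralLinearGroup k M)} {σ τ : LinearMap.GeneralLinearGroup k M} :
    τ ∈ Cfsg.sameActionClass G σ ↔ Rel G ((σ : M →ₗ[k] M) - 1) ((τ : M →ₗ[k] M) - 1) := by
  constructor
  · rintro ⟨h1, h2, h3⟩
    exact ⟨mem_minimal_iff.mp h1, h2, h3⟩
  · rintro ⟨h1, h2, h3⟩
    exact ⟨mem_minimal_iff.mpr h1, h2, h3⟩

theorem Rel.mul_zero {G : Subgroup (LinearMap.GeneralLinearGroup k M)} {s t r : M →ₗ[k] M} (ht : Rel G s t) (hr : Rel G s r) :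
    t * r = 0 := by
  rw [mul_eq_zero_iff, hr.range, ht.ker, ← hr.ker, ← hr.range, ← mul_eq_zero_iff]
  exact hr.mn.fam.sq

theorem Rel.smul {G : Subgroup (LinearMap.GeneralLinearGroup k M)} {s t : M →ₗ[k] M} (ht : Rel G s t) {c : k} (hc : c ≠ 0) :
    Rel G s (c • t) := by
  have hr : LinearMap.range (c • t) = LinearMap.range t := LinearMap.range_smul t c hc
  refine ⟨⟨ht.mn.fam.smul c, smul_ne_zero hc ht.mn.ne, fun r hrr hr0 => ?_⟩, ?_, ?_⟩
  · rw [hr]; exact ht.mn.min r hrr hr0
  · rw [LinearMap.ker_smul t c hc]; exact ht.ker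
  · rw [hr]; exact ht.range

theorem Rel.neg {G : Subgroup (LinearMap.GeneralLinearGroup k M)} {s t : M →ₗ[k] M} (ht : Rel G s t) : Rel G s (-t) := by
  have := ht.smul (c := -1) (by simp)
  rwa [neg_one_smul] at this

theorem Rel.add [FiniteDimensional k M] {G : Subgroup (LinearMap.GeneralLinearGroup k M)} {s t r : M →ₗ[k] M} (ht : Rel G s t) (hr : Rel G s r)
    (h0 : t + r ≠ 0) : Rel G s (t + r) := by
  have hF : Fam G (t + r) := ht.mn.fam.add hr.mn.fam (ht.mul_zero hr) (hr.mul_zero ht)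
  have hrange : LinearMap.range (t + r) ≤ LinearMap.range t := by
    rintro _ ⟨m, rfl⟩
    rw [LinearMap.add_apply]
    refine Submodule.add_mem _ ⟨m, rfl⟩ ?_
    rw [ht.range, ← hr.range]
    exact ⟨m, rfl⟩
  have hker : LinearMap.ker t ≤ LinearMap.ker (t + r) := by
    intro m hm
    have hm2 : m ∈ LinearMap.ker r := by rw [hr.ker, ← ht.ker]; exact hm
    rw [LinearMap.mem_ker] at *
    rw [LinearMap.add_apply, hm, hm2, add_zero]
  refine ⟨ht.mn.of_rank_le hF h0 (Submodule.finrank_mono hrange), ?_, ?_⟩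
  · rw [← ht.mn.same_ker hF h0 hker]; exact ht.ker
  · rw [ht.mn.same hF h0 hrange]; exact ht.range

theorem Rel.refl {G : Subgroup (LinearMap.GeneralLinearGroup k M)} {s : M →ₗ[k] M} (hs : Mn G s) : Rel G s s := ⟨hs, rfl, rfl⟩

theorem Rel.symm {G : Subgroup (LinearMap.GeneralLinearGroup k M)} {s t : M →ₗ[k] M} (hs : Mn G s) (h : Rel G s t) : Rel G t s :=
  ⟨hs, h.ker.symm, h.range.symm⟩

theorem Rel.trans {G : Subgroup (LinearMap.GeneralLinearGroup k M)} {s t r : M →ₗ[k] M} (h : Rel G s t) (h' : Rel G t r) : Rel G s r :=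
  ⟨h'.mn, h'.ker.trans h.ker, h'.range.trans h.range⟩

theorem inv_coe_sub_one {s : M →ₗ[k] M} {g : LinearMap.GeneralLinearGroup k M} (hg : (g : M →ₗ[k] M) = 1 + s) (hs : s * s = 0) :
    ((g⁻¹ : LinearMap.GeneralLinearGroup k M) : M →ₗ[k] M) = 1 - s := by
  have : g = un s hs := Units.ext (by rw [hg]; rfl)
  rw [this, un_inv_coe]

/-- The description of `E(σ)`: it consists of `1` and the class of `σ`. -/
theorem sameActionSubgroup_coe [FiniteDimensional k M] {G : Subgroup (LinearMap.GeneralLinearGroup k M)} (σ : LinearMap.GeneralLinearGroup k M) :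
    (Cfsg.sameActionSubgroup G σ : Set (LinearMap.GeneralLinearGroup k M)) = Cfsg.sameActionClass G σ ∪ {1} := by
  apply le_antisymm
  · intro x hx
    induction hx using Subgroup.closure_induction with
    | mem x hx => exact Or.inl hx
    | one => exact Or.inr rfl
    | mul x y _ _ hx hy =>
      rcases hx with hx | rfl
      · rcases hy with hy | rfl
        · by_cases h1 : x * y = 1
          · exact Or.inr h1
          · left
            rw [mem_sameActionClass_iff] at *
            have he : ((x * y : LinearMap.GeneralLinearGroup k M) : M →ₗ[k] M) - 1 =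
                ((x : M →ₗ[k] M) - 1) + ((y : M →ₗ[k] M) - 1) := by
              have h0 := hx.mul_zero hy
              rw [Units.val_mul]
              have : (x : M →ₗ[k] M) * y - 1 = ((x : M →ₗ[k] M) - 1) * ((y : M →ₗ[k] M) - 1) +
                (((x : M →ₗ[k] M) - 1) + ((y : M →ₗ[k] M) - 1)) := by noncomm_ring
              rw [this, h0, zero_add]
            rw [he]
            refine hx.add hy (fun h => h1 ?_)
            rw [← he, sub_eq_zero] at h
            exact Units.ext h
        · rw [mul_one]; exact Or.inl hx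
      · rw [one_mul]; exact hy
    | inv x _ hx =>
      rcases hx with hx | rfl
      · left
        rw [mem_sameActionClass_iff] at *
        have : ((x⁻¹ : LinearMap.GeneralLinearGroup k M) : M →ₗ[k] M) - 1 = -((x : M →ₗ[k] M) - 1) := by
          rw [inv_coe_sub_one (s := (x : M →ₗ[k] M) - 1) (by abel) hx.mn.fam.sq]; abel
        rw [this]
        exact hx.neg
      · rw [inv_one]; exact Or.inr rfl
  · rintro x (hx | rfl)
    · exact Subgroup.subset_closure hx
    · exact Subgroup.one_mem _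

theorem mem_sameActionSubgroup_iff [FiniteDimensional k M] {G : Subgroup (LinearMap.GeneralLinearGroup k M)} {σ x : LinearMap.GeneralLinearGroup k M} :
    x ∈ Cfsg.sameActionSubgroup G σ ↔ Rel G ((σ : M →ₗ[k] M) - 1) ((x : M →ₗ[k] M) - 1) ∨ x = 1 := by
  have := sameActionSubgroup_coe (G := G) σ
  have h2 : x ∈ (Cfsg.sameActionSubgroup G σ : Set (LinearMap.GeneralLinearGroup k M)) ↔ x ∈ Cfsg.sameActionClass G σ ∪ {1} := by rw [this]
  rw [SetLike.mem_coe] at h2
  rw [h2, Set.mem_union, mem_sameActionClass_iff, Set.mem_singleton_iff]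

end Cfsg.Agent.Lib.QuadPair
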