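import Cfsg.Agent.Lib.QuadPairNil
set_option autoImplicit false

/-!
Noncommuting unipotent pairs of root groups of quadratic pairs: surjectivity of the commutator map
(owner: helper84).
-/

namespace Cfsg.Agent.Lib.QuadPairC
open Subgroup Cfsg
open Cfsg.Agent.Lib.QuadPair
open Cfsg.Agent.Lib.QuadPairU
open Cfsg.Agent.Lib.QuadPairN
open Cfsg.Agent.Lib.QuadPairR
open Cfsg.Agent.Lib.QuadPairS
open Cfsg.Agent.Lib.QuadPairT
open Cfsg.Agent.Lib.QuadPairNil
open Cfsg.Agent.Lib.RankOneGrp

universe u v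

section ring

variable {A : Type*} [Ring A] {s t u r δ : A}

/-- words identity: `t y t = -t` with `y = r s - s r` -/
lemma tyt (hu : u = s * t - t * s) (trt : t * r * t = 0) (Ht : t = -(u * r * t) - t * r * u) :
    t * (r * s - s * r) * t = -t := by
  have e : t * (r * s - s * r) * t = u * r * t + t * r * u - s * (t * r * t) + (t * r * t) * s := by
    rw [hu]; noncomm_ring
  rw [e, trt, mul_zero, zero_mul]
  conv_rhs => rw [Ht]
  abel

lemma yty (hu : u = s * t - t * s) (rur : r * u * r = -r)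
    (srs : s * r * s = 0) (rtr : r * t * r = 0) (sts : s * t * s = 0) :
    (r * s - s * r) * t * (r * s - s * r) = -(r * s - s * r) := by
  have e : (r * s - s * r) * t * (r * s - s * r) = (r * u * r) * s - s * (r * u * r) +
      r * t * (s * r * s) - r * (s * t * s) * r - s * (r * t * r) * s + (s * r * s) * t * r := by
    rw [hu]; noncomm_ring
  rw [e, rur, srs, sts, rtr]
  simp only [mul_zero, zero_mul, add_zero, sub_zero]
  noncomm_ring

/-- `δ y - y δ = δ r s + s r δ` -/
lemma b_eq (sδ : s * δ = 0) (δs : δ * s = 0) :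
    δ * (r * s - s * r) - (r * s - s * r) * δ = δ * r * s + s * r * δ := by
  have e : δ * (r * s - s * r) - (r * s - s * r) * δ = δ * r * s + s * r * δ -
    (δ * s) * r - r * (s * δ) := by noncomm_ring
  rw [e, sδ, δs]; simp

/-- `[b(δ), t] = -δ` -/
lemma cb_eq (hu : u = s * t - t * s) (tδ : t * δ = 0) (δt : δ * t = 0)
    (a1 : s * r * δ * r * s = 0) (a2 : t * r * δ * r * t = 0) (hδ1 : δ = -(δ * r * u))
    (hδ2 : δ = -(u * r * δ)) :
    (δ * r * s + s * r * δ) * t - t * (δ * r * s + s * r * δ) = -δ := by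
  have e1 : t * s * r * δ = t * s * r * δ * r * t * s := by
    calc t * s * r * δ = t * s * r * (-(δ * r * u)) := by rw [← hδ1]
      _ = -(t * (s * r * δ * r * s) * t) + t * s * r * δ * r * t * s := by rw [hu]; noncomm_ring
      _ = _ := by rw [a1]; simp
  have e2 : δ * r * t * s = t * s * r * δ * r * t * s := by
    calc δ * r * t * s = (-(u * r * δ)) * r * t * s := by rw [← hδ2]
      _ = -(s * (t * r * δ * r * t) * s) + t * s * r * δ * r * t * s := by rw [hu]; noncomm_ring
      _ = _ := by rw [a2]; simp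
  have e3 : (δ * r * s + s * r * δ) * t - t * (δ * r * s + s * r * δ) =
      δ * r * s * t + s * r * (δ * t) - (t * δ) * r * s - t * s * r * δ := by noncomm_ring
  rw [e3, δt, tδ, e1, ← e2, mul_zero, zero_mul, zero_mul, add_zero, sub_zero]
  conv_rhs => rw [hδ1]
  rw [hu]; noncomm_ring

end ring

variable {k : Type u} [Field k] {M : Type v} [AddCommGroup M] [Module k M]
  {G : Subgroup (LinearMap.GeneralLinearGroup k M)}

/-- not opposite when `s t s = 0` -/
lemma not_opp_of_zero {s t : Module.End k M} (hs : Mn G s) (h : s * t * s = 0) : ¬ Opp s t := by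
  intro ho
  apply hs.ne
  ext x
  have h1 : s (t (s x)) = 0 := congrArg (fun f : Module.End k M => f x) h
  exact ho.left x (ho.right _ h1)

variable [FiniteDimensional k M]

lemma nil_of_zero (h20 : (2 : k) ≠ 0) (hk3 : Nat.card k ≠ 3) {s t : Module.End k M}
    (hs : Mn G s) (ht : Mn G t) (h : s * t * s = 0) : Nil s t :=
  (dich h20 hk3 hs ht).resolve_right (not_opp_of_zero hs h)

/-- homogeneous data -/
structure Hm (G : Subgroup (LinearMap.GeneralLinearGroup k M)) (s t u r : Module.End k M) :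
    Prop where
  hs : Mn G s
  ht : Mn G t
  nil : Nil s t
  hu : u = s * t - t * s
  mu : Mn G u
  mr : Mn G r
  lk : Lk (A := Module.End k M) u r
  Hs : s = -(u * r * s) - s * r * u
  Ht : t = -(u * r * t) - t * r * u

namespace Hm

variable {s t u r : Module.End k M}

omit [FiniteDimensional k M] in
lemma symm (h : Hm G s t u r) : Hm G t s (-u) (-r) where
  hs := h.ht
  ht := h.hs
  nil := h.nil.symm
  hu := by rw [h.hu]; abel
  mu := ((Rel.refl h.mu).neg).mn
  mr := ((Rel.refl h.mr).neg).mn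
  lk := h.lk.neg
  Hs := by
    have e : -(-u * -r * t) - t * -r * -u = -(u * r * t) - t * r * u := by noncomm_ring
    rw [e]; exact h.Ht
  Ht := by
    have e : -(-u * -r * s) - s * -r * -u = -(u * r * s) - s * r * u := by noncomm_ring
    rw [e]; exact h.Hs

omit [FiniteDimensional k M] in
lemma su (h : Hm G s t u r) : s * u = 0 := by
  rw [h.hu, mul_sub, ← mul_assoc, h.hs.fam.sq, zero_mul, ← mul_assoc, h.nil.sts, sub_zero]

omit [FiniteDimensional k M] in
lemma us (h : Hm G s t u r) : u * s = 0 := by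
  rw [h.hu, sub_mul, h.nil.sts, mul_assoc, h.hs.fam.sq, mul_zero, sub_zero]

omit [FiniteDimensional k M] in
lemma rsr (h : Hm G s t u r) : r * s * r = 0 := by
  have e : r * s * r = r * s * r + r * s * r := by
    calc r * s * r = r * (-(u * r * s) - s * r * u) * r := by rw [← h.Hs]
      _ = -((r * u * r) * s * r) - r * s * (r * u * r) := by noncomm_ring
      _ = _ := by rw [h.lk.tst]; noncomm_ring
  have e2 : r * s * r + 0 = r * s * r + r * s * r := by rw [add_zero]; exact e
  exact (add_left_cancel e2).symm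

lemma nil_sr (h20 : (2 : k) ≠ 0) (hk3 : Nat.card k ≠ 3) (h : Hm G s t u r) : Nil r s :=
  nil_of_zero h20 hk3 h.mr h.hs h.rsr

/-- `y = r s - s r` is minimal -/
lemma y_mn (h20 : (2 : k) ≠ 0) (hk3 : Nat.card k ≠ 3) (h : Hm G s t u r) : Mn G (r * s - s * r) := by
  have hn := h.nil_sr h20 hk3
  have hnt := h.symm.nil_sr h20 hk3
  have trt : t * r * t = 0 := by
    have := hnt.tst
    rwa [mul_neg, neg_mul, neg_eq_zero] at this
  have hy := tyt h.hu trt h.Ht
  have hne : r * s - s * r ≠ 0 := by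
    intro h0
    rw [h0, mul_zero, zero_mul] at hy
    exact h.ht.ne (neg_eq_zero.1 hy.symm)
  exact (nc_of_ne h20 hk3 h.mr h.hs hn (Rel.refl h.mr) (Rel.refl h.hs) hne).mn _ (Rel.refl h.mr) _
    (Rel.refl h.hs)

omit [FiniteDimensional k M] in
lemma sδ (h : Hm G s t u r) {δ : Module.End k M} (hδ : Rel G u δ) : s * δ = 0 := by
  rw [mul_eq_zero_iff, hδ.range, ← mul_eq_zero_iff, h.su]

omit [FiniteDimensional k M] in
lemma δs (h : Hm G s t u r) {δ : Module.End k M} (hδ : Rel G u δ) : δ * s = 0 := by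
  rw [mul_eq_zero_iff, hδ.ker, ← mul_eq_zero_iff, h.us]

omit [FiniteDimensional k M] in
lemma δ1 (h : Hm G s t u r) {δ : Module.End k M} (hδ : Rel G u δ) : δ = -(δ * r * u) := by
  ext x
  have h1 : u (x + r (u x)) = 0 := by
    rw [map_add]
    have : u (r (u x)) = -(u x) := congrArg (fun f : Module.End k M => f x) h.lk.sts
    rw [this]; abel
  rw [← ker_iff hδ.ker, map_add] at h1
  show δ x = -(δ (r (u x)))
  exact eq_neg_of_add_eq_zero_left h1

omit [FiniteDimensional k M] in
lemma δ2 (h : Hm G s t u r) {δ : Module.End k M} (hδ : Rel G u δ) : δ = -(u * r * δ) := by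
  ext x
  obtain ⟨y, hy⟩ : δ x ∈ LinearMap.range u := by rw [← hδ.range]; exact ⟨x, rfl⟩
  show δ x = -(u (r (δ x)))
  rw [← hy]
  have : u (r (u y)) = -(u y) := congrArg (fun f : Module.End k M => f y) h.lk.sts
  rw [this, neg_neg]

/-- `y` and `δ` form a nil pair -/
lemma nil_yδ (h20 : (2 : k) ≠ 0) (hk3 : Nat.card k ≠ 3) (h : Hm G s t u r) {δ : Module.End k M}
    (hδ : Rel G u δ) : Nil δ (r * s - s * r) := by
  apply nil_of_zero h20 hk3 hδ.mn (h.y_mn h20 hk3)
  have e : δ * (r * s - s * r) * δ = δ * r * (s * δ) - (δ * s) * r * δ := by noncomm_ring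
  rw [e, h.sδ hδ, h.δs hδ]; simp

lemma a1 (h20 : (2 : k) ≠ 0) (hk3 : Nat.card k ≠ 3) (h : Hm G s t u r) {δ : Module.End k M}
    (hδ : Rel G u δ) : s * r * δ * r * s = 0 := by
  have h1 := (h.nil_yδ h20 hk3 hδ).tst
  have e : s * r * δ * r * s = -((r * s - s * r) * δ * (r * s - s * r)) + r * (s * δ) * r * s -
      r * (s * δ) * s * r + s * r * (δ * s) * r := by noncomm_ring
  rw [e, h1, h.sδ hδ, h.δs hδ]; simp

/-- **Surjectivity** for homogeneous pairs -/
theorem surj (h20 : (2 : k) ≠ 0) (hk3 : Nat.card k ≠ 3) (h : Hm G s t u r) {δ : Module.End k M}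
    (hδ : Rel G u δ) : ∃ s', Rel G s s' ∧ s' * t - t * s' = δ := by
  have hδ' : Rel G (-u) δ := by
    refine ⟨hδ.mn, ?_, ?_⟩
    · rw [hδ.ker]; exact (LinearMap.ker_neg u).symm
    · rw [hδ.range]; exact (LinearMap.range_neg u).symm
  have ha1 := h.a1 h20 hk3 hδ
  have ha2 : t * r * δ * r * t = 0 := by
    have := h.symm.a1 h20 hk3 hδ'
    have e : t * (-r) * δ * (-r) * t = t * r * δ * r * t := by noncomm_ring
    rwa [e] at this
  have tδ := h.symm.sδ hδ'
  have δt := h.symm.δs hδ'
  have sδ := h.sδ hδ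
  have δs := h.δs hδ
  have hδ1 := h.δ1 hδ
  have hδ2 := h.δ2 hδ
  have hcb := cb_eq h.hu tδ δt ha1 ha2 hδ1 hδ2
  have hn := h.nil_yδ h20 hk3 hδ
  have hf := comm_fam hδ.mn.fam (h.y_mn h20 hk3).fam hn.sts hn.tst
  rw [b_eq sδ δs] at hf
  set b := δ * r * s + s * r * δ with hb
  have hne : b ≠ 0 := by
    intro h0
    rw [h0, zero_mul, mul_zero, sub_zero] at hcb
    exact hδ.mn.ne (neg_eq_zero.1 hcb.symm)
  have e1 : b = s * (-(t * r * δ * r * s) + r * δ) := by
    have e2 : δ * r * s = -(s * t * r * δ * r * s) := by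
      calc δ * r * s = (-(u * r * δ)) * r * s := by rw [← hδ2]
        _ = -(s * t * r * δ * r * s) + t * (s * r * δ * r * s) := by rw [h.hu]; noncomm_ring
        _ = _ := by rw [ha1]; simp
    rw [hb, e2]; noncomm_ring
  have e3 : b = (δ * r + s * r * δ * r * t) * s := by
    have e2 : s * r * δ = s * r * δ * r * t * s := by
      calc s * r * δ = s * r * (-(δ * r * u)) := by rw [← hδ1]
        _ = -((s * r * δ * r * s) * t) + s * r * δ * r * t * s := by rw [h.hu]; noncomm_ring
        _ = _ := by rw [ha1]; simp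
    calc b = δ * r * s + s * r * δ := rfl
      _ = δ * r * s + s * r * δ * r * t * s := by rw [← e2]
      _ = _ := by noncomm_ring
  have hrange : LinearMap.range b ≤ LinearMap.range s := by
    rw [e1]; exact LinearMap.range_comp_le_range _ _
  have hker : LinearMap.ker s ≤ LinearMap.ker b := by
    intro x hx
    rw [e3, LinearMap.mem_ker]
    have : s x = 0 := hx
    show (δ * r + s * r * δ * r * t) (s x) = 0
    rw [this, map_zero]
  have hrel : Rel G s b := by
    have hr := h.hs.same hf hne hrange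
    refine ⟨h.hs.of_rank_le hf hne (by rw [hr]), (h.hs.same_ker hf hne hker).symm, hr⟩
  refine ⟨-b, hrel.neg, ?_⟩
  have e4 : -b * t - t * -b = -(b * t - t * b) := by noncomm_ring
  rw [e4, hcb, neg_neg]

end Hm

end Cfsg.Agent.Lib.QuadPairC
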