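import Cfsg.Agent.Lib.QuadPairH
set_option autoImplicit false

/-!
Noncommuting unipotent pairs of root groups of quadratic pairs: the main theorem (owner: helper84).
-/

namespace Cfsg.Agent.Lib.QuadPairD
open Subgroup Cfsg
open Cfsg.Agent.Lib.QuadPair
open Cfsg.Agent.Lib.QuadPairU
open Cfsg.Agent.Lib.QuadPairN
open Cfsg.Agent.Lib.QuadPairR
open Cfsg.Agent.Lib.QuadPairS
open Cfsg.Agent.Lib.QuadPairT
open Cfsg.Agent.Lib.QuadPairNil
open Cfsg.Agent.Lib.QuadPairC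
open Cfsg.Agent.Lib.QuadPairO
open Cfsg.Agent.Lib.QuadPairH
open Cfsg.Agent.Lib.RankOneGrp

universe u v

section grp

variable {X : Type*} [Group X]

lemma comm_sup_le {A B D : Subgroup X} (hDA : ∀ d ∈ D, ∀ a ∈ A, a * d = d * a)
    (hDB : ∀ d ∈ D, ∀ b ∈ B, b * d = d * b) (hAA : ∀ a ∈ A, ∀ a' ∈ A, a * a' = a' * a)
    (hBB : ∀ b ∈ B, ∀ b' ∈ B, b * b' = b' * b)
    (hAB : ∀ a ∈ A, ∀ b ∈ B, a * b * a⁻¹ * b⁻¹ ∈ D) : ⁅A ⊔ B, A ⊔ B⁆ ≤ D ∧
      (∀ d ∈ D, ∀ x ∈ A ⊔ B, x * d = d * x) := by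
  have hcen : ∀ d ∈ D, ∀ x ∈ A ⊔ B, x * d = d * x := by
    intro d hd x hx
    refine sup_induction (p := fun x => x * d = d * x) (by simp) ?_ ?_ hx
    · intro a ha y hy
      rw [mul_assoc, hy, ← mul_assoc, hDA d hd a ha, mul_assoc]
    · intro a ha y hy
      rw [mul_assoc, hy, ← mul_assoc, hDB d hd a ha, mul_assoc]
  refine ⟨?_, hcen⟩
  rw [Subgroup.commutator_le]
  have step2 : ∀ g : X, (∀ a ∈ A, g * a * g⁻¹ * a⁻¹ ∈ D) → (∀ b ∈ B, g * b * g⁻¹ * b⁻¹ ∈ D) →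
      ∀ y ∈ A ⊔ B, g * y * g⁻¹ * y⁻¹ ∈ D := by
    intro g hA hB y hy
    have st : ∀ a y : X, a ∈ A ⊔ B → g * a * g⁻¹ * a⁻¹ ∈ D → g * y * g⁻¹ * y⁻¹ ∈ D →
        g * (a * y) * g⁻¹ * (a * y)⁻¹ ∈ D := by
      intro a y ha h1 h2
      have e : g * (a * y) * g⁻¹ * (a * y)⁻¹ = (g * a * g⁻¹ * a⁻¹) *
          (a * (g * y * g⁻¹ * y⁻¹) * a⁻¹) := by group
      rw [e, hcen _ h2 a ha, mul_inv_cancel_right]
      exact D.mul_mem h1 h2
    refine sup_induction (p := fun y => g * y * g⁻¹ * y⁻¹ ∈ D) ?_ ?_ ?_ hy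
    · have : g * 1 * g⁻¹ * 1⁻¹ = 1 := by group
      rw [this]; exact D.one_mem
    · intro a ha y hy
      exact st a y ((le_sup_left : A ≤ A ⊔ B) ha) (hA a ha) hy
    · intro a ha y hy
      exact st a y ((le_sup_right : B ≤ A ⊔ B) ha) (hB a ha) hy
  have hBA : ∀ b ∈ B, ∀ a ∈ A, b * a * b⁻¹ * a⁻¹ ∈ D := by
    intro b hb a ha
    have := D.inv_mem (hAB a ha b hb)
    have e : (a * b * a⁻¹ * b⁻¹)⁻¹ = b * a * b⁻¹ * a⁻¹ := by group
    rwa [e] at this
  have one1 : ∀ a a' : X, a * a' = a' * a → a * a' * a⁻¹ * a'⁻¹ ∈ D := by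
    intro a a' h
    rw [h, mul_inv_cancel_right, mul_inv_cancel]; exact D.one_mem
  intro x hx y hy
  have st : ∀ a x : X, a ∈ A ⊔ B → (∀ y ∈ A ⊔ B, a * y * a⁻¹ * y⁻¹ ∈ D) →
      (∀ y ∈ A ⊔ B, x * y * x⁻¹ * y⁻¹ ∈ D) → ∀ y ∈ A ⊔ B, (a * x) * y * (a * x)⁻¹ * y⁻¹ ∈ D := by
    intro a x ha h1 h2 y hy
    have e : (a * x) * y * (a * x)⁻¹ * y⁻¹ = (a * (x * y * x⁻¹ * y⁻¹) * a⁻¹) *
        (a * y * a⁻¹ * y⁻¹) := by group
    rw [e, hcen _ (h2 y hy) a ha, mul_inv_cancel_right]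
    exact D.mul_mem (h2 y hy) (h1 y hy)
  refine sup_induction (p := fun x => ∀ y ∈ A ⊔ B, x * y * x⁻¹ * y⁻¹ ∈ D) ?_ ?_ ?_ hx y hy
  · intro y hy
    have : 1 * y * 1⁻¹ * y⁻¹ = 1 := by group
    rw [this]; exact D.one_mem
  · intro a ha x hx
    exact st a x ((le_sup_left : A ≤ A ⊔ B) ha)
      (step2 a (fun a' ha' => one1 a a' (hAA a ha a' ha')) (hAB a ha)) hx
  · intro a ha x hx
    exact st a x ((le_sup_right : B ≤ A ⊔ B) ha)
      (step2 a (hBA a ha) (fun b' hb' => one1 a b' (hBB a ha b' hb'))) hx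

end grp

variable {k : Type u} [Field k] {M : Type v} [AddCommGroup M] [Module k M]
  {G : Subgroup (LinearMap.GeneralLinearGroup k M)}

/-- membership in the kernel of a commutator -/
lemma mem_ker_comm {s t s' t' : Module.End k M} (hc : Nc G s t) (hs' : Rel G s s')
    (ht' : Rel G t t') (x : M) : x ∈ LinearMap.ker (s' * t' - t' * s') ↔
      x ∈ LinearMap.range s ⊔ LinearMap.ker t ∧ x ∈ LinearMap.range t ⊔ LinearMap.ker s := by
  have h1 : s' (t' x) ∈ LinearMap.range s ⊓ LinearMap.ker t := by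
    rw [← hc.map_s s' hs']
    exact ⟨t' x, by rw [← ht'.range]; exact ⟨x, rfl⟩, rfl⟩
  have h2 : t' (s' x) ∈ LinearMap.range t ⊓ LinearMap.ker s := by
    rw [← hc.map_t t' ht']
    exact ⟨s' x, by rw [← hs'.range]; exact ⟨x, rfl⟩, rfl⟩
  have key1 : s' (t' x) = 0 ↔ x ∈ LinearMap.range s ⊔ LinearMap.ker t := by
    constructor
    · intro h
      have h3 : t' x ∈ LinearMap.range t ⊓ LinearMap.ker s := by
        refine ⟨by rw [← ht'.range]; exact ⟨x, rfl⟩, ?_⟩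
        show s (t' x) = 0
        rw [← ker_iff hs'.ker]; exact h
      rw [← hc.map_t t' ht'] at h3
      obtain ⟨a, ha, e⟩ := h3
      have h4 : t' (x - a) = 0 := by rw [map_sub, e, sub_self]
      have e2 : x = a + (x - a) := by abel
      rw [e2]
      exact Submodule.add_mem_sup ha ((ker_iff ht'.ker _).1 h4)
    · intro h
      obtain ⟨a, ha, b, hb, rfl⟩ := Submodule.mem_sup.1 h
      have h3 : t' b = 0 := (ker_iff ht'.ker b).2 hb
      rw [map_add, h3, add_zero]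
      have h4 : t' a ∈ LinearMap.range t ⊓ LinearMap.ker s := by
        rw [← hc.map_t t' ht']; exact ⟨a, ha, rfl⟩
      exact (ker_iff hs'.ker _).2 h4.2
  have key2 : t' (s' x) = 0 ↔ x ∈ LinearMap.range t ⊔ LinearMap.ker s := by
    constructor
    · intro h
      have h3 : s' x ∈ LinearMap.range s ⊓ LinearMap.ker t := by
        refine ⟨by rw [← hs'.range]; exact ⟨x, rfl⟩, ?_⟩
        show t (s' x) = 0
        rw [← ker_iff ht'.ker]; exact h
      rw [← hc.map_s s' hs'] at h3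
      obtain ⟨a, ha, e⟩ := h3
      have h4 : s' (x - a) = 0 := by rw [map_sub, e, sub_self]
      have e2 : x = a + (x - a) := by abel
      rw [e2]
      exact Submodule.add_mem_sup ha ((ker_iff hs'.ker _).1 h4)
    · intro h
      obtain ⟨a, ha, b, hb, rfl⟩ := Submodule.mem_sup.1 h
      have h3 : s' b = 0 := (ker_iff hs'.ker b).2 hb
      rw [map_add, h3, add_zero]
      have h4 : s' a ∈ LinearMap.range s ⊓ LinearMap.ker t := by
        rw [← hc.map_s s' hs']; exact ⟨a, ha, rfl⟩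
      exact (ker_iff ht'.ker _).2 h4.2
  rw [← key1, ← key2, LinearMap.mem_ker]
  constructor
  · intro h
    have h3 : s' (t' x) = t' (s' x) := by
      have : s' (t' x) - t' (s' x) = 0 := h
      exact sub_eq_zero.1 this
    have h4 : t' (s' x) = 0 := by
      rw [h3] at h1
      exact Submodule.disjoint_def.1 hc.disj _ h1 h2
    exact ⟨h3.trans h4, h4⟩
  · rintro ⟨h3, h4⟩
    show s' (t' x) - t' (s' x) = 0
    rw [h3, h4, sub_zero]

variable [FiniteDimensional k M]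

omit [FiniteDimensional k M] in
/-- commutators are in the class of `u` -/
lemma rel_comm {s t s' t' : Module.End k M} (hs : Mn G s) (ht : Mn G t) (hc : Nc G s t)
    (hs' : Rel G s s') (ht' : Rel G t t') : Rel G (s * t - t * s) (s' * t' - t' * s') := by
  refine ⟨hc.mn s' hs' t' ht', ?_, ?_⟩
  · ext x
    rw [mem_ker_comm hc hs' ht' x, mem_ker_comm hc (Rel.refl hs) (Rel.refl ht) x]
  · rw [hc.range s' hs' t' ht', hc.range s (Rel.refl hs) t (Rel.refl ht)]

lemma nc_of_rel (h20 : (2 : k) ≠ 0) (hk3 : Nat.card k ≠ 3) {s t s' t' : Module.End k M}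
    (hs : Mn G s) (ht : Mn G t) (hc : Nc G s t) (hs' : Rel G s s') (ht' : Rel G t t') :
    Nc G s' t' :=
  nc_of_ne h20 hk3 hs'.mn ht'.mn (nil_of_rel h20 hk3 hs ht hc.nil hs' ht') (Rel.refl hs'.mn)
    (Rel.refl ht'.mn) (hc.ne s' hs' t' ht')

/-- general surjectivity -/
theorem surj' (h20 : (2 : k) ≠ 0) (hk3 : Nat.card k ≠ 3) (hG : IsIrreducibleFor G)
    {s t t' δ : Module.End k M} (hs : Mn G s) (ht : Mn G t) (hc : Nc G s t) (ht' : Rel G t t')
    (hδ : Rel G (s * t - t * s) δ) : ∃ s', Rel G s s' ∧ s' * t' - t' * s' = δ := by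
  have h1 := nc_of_rel h20 hk3 hs ht hc (Rel.refl hs) ht'
  have h2 := rel_comm hs ht hc (Rel.refl hs) ht'
  have hmu := hc.mn s (Rel.refl hs) t (Rel.refl ht)
  exact surj h20 hk3 hG hs ht'.mn h1 ((h2.symm hmu).trans hδ)

section main

variable {σ τ : LinearMap.GeneralLinearGroup k M}

omit [FiniteDimensional k M] in
/-- the commutator of group elements from that of the logarithms -/
lemma comm_coe {a b : LinearMap.GeneralLinearGroup k M} {s t : Module.End k M}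
    (ha : (a : Module.End k M) = 1 + s) (hb : (b : Module.End k M) = 1 + t) (hs : s * s = 0)
    (ht : t * t = 0) (sts : s * t * s = 0) (tst : t * s * t = 0) :
    ((a * b * a⁻¹ * b⁻¹ : LinearMap.GeneralLinearGroup k M) : Module.End k M) =
      1 + (s * t - t * s) := by
  have ea := inv_coe_sub_one ha hs
  have eb := inv_coe_sub_one hb ht
  rw [Units.val_mul, Units.val_mul, Units.val_mul]
  erw [ea, eb]
  rw [ha, hb]
  have e2 : (1 + s) * (1 + t) * (1 - s) * (1 - t) = 1 + (s * t - t * s) - s * s - t * t +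
      s * s * t - s * (t * t) - s * t * s + t * s * t + s * t * s * t := by noncomm_ring
  rw [e2, hs, ht, sts, tst]
  simp

/-- the root group `D` -/
noncomputable def dd (σ τ : LinearMap.GeneralLinearGroup k M) : LinearMap.GeneralLinearGroup k M :=
  σ * τ * σ⁻¹ * τ⁻¹

omit [FiniteDimensional k M] in
lemma dd_coe (hσ : Mn G ((σ : M →ₗ[k] M) - 1)) (hτ : Mn G ((τ : M →ₗ[k] M) - 1))
    (hc : Nc G ((σ : M →ₗ[k] M) - 1) ((τ : M →ₗ[k] M) - 1)) :
    ((dd σ τ : LinearMap.GeneralLinearGroup k M) : M →ₗ[k] M) - 1 =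
      (((σ : M →ₗ[k] M) - 1) * ((τ : M →ₗ[k] M) - 1) -
        ((τ : M →ₗ[k] M) - 1) * ((σ : M →ₗ[k] M) - 1) : Module.End k M) := by
  unfold dd
  rw [comm_coe (s := (σ : M →ₗ[k] M) - 1) (t := (τ : M →ₗ[k] M) - 1) (by abel) (by abel)
    hσ.fam.sq hτ.fam.sq hc.nil.sts hc.nil.tst, add_sub_cancel_left]

lemma comm_mem (h20 : (2 : k) ≠ 0) (hk3 : Nat.card k ≠ 3) (hσ : Mn G ((σ : M →ₗ[k] M) - 1))
    (hτ : Mn G ((τ : M →ₗ[k] M) - 1)) (hc : Nc G ((σ : M →ₗ[k] M) - 1) ((τ : M →ₗ[k] M) - 1))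
    {a b : LinearMap.GeneralLinearGroup k M} (ha : a ∈ sameActionSubgroup G σ)
    (hb : b ∈ sameActionSubgroup G τ) :
    a * b * a⁻¹ * b⁻¹ ∈ sameActionSubgroup G (dd σ τ) := by
  rcases mem_E.1 ha with h1 | rfl
  · rcases mem_E.1 hb with h2 | rfl
    · rw [mem_E]
      left
      have hn := nil_of_rel h20 hk3 hσ hτ hc.nil h1 h2
      rw [dd_coe hσ hτ hc, comm_coe (s := (a : M →ₗ[k] M) - 1) (t := (b : M →ₗ[k] M) - 1) (by abel)
        (by abel) h1.mn.fam.sq h2.mn.fam.sq hn.sts hn.tst, add_sub_cancel_left]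
      exact rel_comm hσ hτ hc h1 h2
    · have : a * 1 * a⁻¹ * 1⁻¹ = 1 := by group
      rw [this]; exact Subgroup.one_mem _
  · have : 1 * b * 1⁻¹ * b⁻¹ = 1 := by group
    rw [this]; exact Subgroup.one_mem _

/-- given `f ≠ 1` in `F`, every element of `D` is a commutator `[e, f]` -/
lemma exists_comm (h20 : (2 : k) ≠ 0) (hk3 : Nat.card k ≠ 3) (hG : IsIrreducibleFor G)
    (hσ : Mn G ((σ : M →ₗ[k] M) - 1))
    (hτ : Mn G ((τ : M →ₗ[k] M) - 1)) (hc : Nc G ((σ : M →ₗ[k] M) - 1) ((τ : M →ₗ[k] M) - 1))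
    {b d : LinearMap.GeneralLinearGroup k M} (hb : b ∈ sameActionSubgroup G τ) (hb1 : b ≠ 1)
    (hd : d ∈ sameActionSubgroup G (dd σ τ)) : ∃ a ∈ sameActionSubgroup G σ,
      a * b * a⁻¹ * b⁻¹ = d := by
  rcases mem_E.1 hd with h1 | rfl
  · rw [dd_coe hσ hτ hc] at h1
    have h2 := rel_of_mem hb hb1
    obtain ⟨s', hs', e⟩ := surj' h20 hk3 hG hσ hτ hc h2 h1
    obtain ⟨a, ha, _, ea⟩ := exists_of_rel hs'
    refine ⟨a, ha, ?_⟩
    have hn := nil_of_rel h20 hk3 hσ hτ hc.nil hs' h2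
    apply Units.ext
    rw [comm_coe ea (t := (b : M →ₗ[k] M) - 1) (by abel) hs'.mn.fam.sq h2.mn.fam.sq hn.sts hn.tst, e]
    abel
  · exact ⟨1, Subgroup.one_mem _, by group⟩

lemma exists_comm' (h20 : (2 : k) ≠ 0) (hk3 : Nat.card k ≠ 3) (hG : IsIrreducibleFor G)
    (hσ : Mn G ((σ : M →ₗ[k] M) - 1))
    (hτ : Mn G ((τ : M →ₗ[k] M) - 1)) (hc : Nc G ((σ : M →ₗ[k] M) - 1) ((τ : M →ₗ[k] M) - 1))
    {a d : LinearMap.GeneralLinearGroup k M} (ha : a ∈ sameActionSubgroup G σ) (ha1 : a ≠ 1)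
    (hd : d ∈ sameActionSubgroup G (dd σ τ)) : ∃ b ∈ sameActionSubgroup G τ,
      a * b * a⁻¹ * b⁻¹ = d := by
  have hd' : d⁻¹ ∈ sameActionSubgroup G (dd τ σ) := by
    have h1 := (sameActionSubgroup G (dd σ τ)).inv_mem hd
    rw [mem_E, dd_coe hσ hτ hc] at h1
    rw [mem_E, dd_coe hτ hσ (hc.symm hσ hτ)]
    rcases h1 with h1 | h1
    · left
      refine ⟨h1.mn, ?_, ?_⟩
      · rw [h1.ker, ← LinearMap.ker_neg]; congr 1; abel
      · rw [h1.range, ← LinearMap.range_neg]; congr 1; abel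
    · exact Or.inr h1
  obtain ⟨b, hb, e⟩ := exists_comm h20 hk3 hG hτ hσ (hc.symm hσ hτ) ha ha1 hd'
  refine ⟨b, hb, ?_⟩
  have : a * b * a⁻¹ * b⁻¹ = (b * a * b⁻¹ * a⁻¹)⁻¹ := by group
  rw [this, e, inv_inv]

lemma D_comm (hσ : Mn G ((σ : M →ₗ[k] M) - 1))
    (hτ : Mn G ((τ : M →ₗ[k] M) - 1)) (hc : Nc G ((σ : M →ₗ[k] M) - 1) ((τ : M →ₗ[k] M) - 1)) :
    ∀ d ∈ sameActionSubgroup G (dd σ τ), ∀ a ∈ sameActionSubgroup G σ, a * d = d * a := by
  intro d hd a ha
  rcases mem_E.1 hd with h1 | rfl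
  · rcases mem_E.1 ha with h2 | rfl
    · rw [dd_coe hσ hτ hc] at h1
      have e1 : (((a : M →ₗ[k] M) - 1 : Module.End k M)) * ((d : M →ₗ[k] M) - 1) = 0 := by
        rw [mul_eq_zero_iff, h2.ker, h1.range, ← mul_eq_zero_iff]
        exact s_u hσ hc
      have e2 : (((d : M →ₗ[k] M) - 1 : Module.End k M)) * ((a : M →ₗ[k] M) - 1) = 0 := by
        rw [mul_eq_zero_iff, h1.ker, h2.range, ← mul_eq_zero_iff]
        exact u_s hσ hc
      apply Units.ext
      have e3 : (a : Module.End k M) * d - d * a = ((a : Module.End k M) - 1) * (d - 1) -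
          (d - 1) * (a - 1) := by noncomm_ring
      rw [Units.val_mul, Units.val_mul, ← sub_eq_zero, e3]
      erw [e1, e2]
      simp
    · simp
  · simp

lemma dd_symm (hσ : Mn G ((σ : M →ₗ[k] M) - 1))
    (hτ : Mn G ((τ : M →ₗ[k] M) - 1)) (hc : Nc G ((σ : M →ₗ[k] M) - 1) ((τ : M →ₗ[k] M) - 1)) :
    sameActionSubgroup G (dd σ τ) = sameActionSubgroup G (dd τ σ) := by
  ext x
  rw [mem_E, mem_E, dd_coe hσ hτ hc, dd_coe hτ hσ (hc.symm hσ hτ)]
  have e : ∀ a b : Module.End k M, a * b - b * a = -(b * a - a * b) := by intros; abel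
  constructor
  · rintro (h1 | h1)
    · left
      refine ⟨h1.mn, ?_, ?_⟩
      · rw [h1.ker, ← LinearMap.ker_neg]; congr 1; abel
      · rw [h1.range, ← LinearMap.range_neg]; congr 1; abel
    · exact Or.inr h1
  · rintro (h1 | h1)
    · left
      refine ⟨h1.mn, ?_, ?_⟩
      · rw [h1.ker, ← LinearMap.ker_neg]; congr 1; abel
      · rw [h1.range, ← LinearMap.range_neg]; congr 1; abel
    · exact Or.inr h1

omit [FiniteDimensional k M] in
lemma dd_mn (hσ : Mn G ((σ : M →ₗ[k] M) - 1))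
    (hτ : Mn G ((τ : M →ₗ[k] M) - 1)) (hc : Nc G ((σ : M →ₗ[k] M) - 1) ((τ : M →ₗ[k] M) - 1)) :
    Mn G (((dd σ τ : LinearMap.GeneralLinearGroup k M) : M →ₗ[k] M) - 1) := by
  rw [dd_coe hσ hτ hc]
  exact hc.mn _ (Rel.refl hσ) _ (Rel.refl hτ)

lemma commutator_eq (h20 : (2 : k) ≠ 0) (hk3 : Nat.card k ≠ 3) (hG : IsIrreducibleFor G)
    (hσ : Mn G ((σ : M →ₗ[k] M) - 1))
    (hτ : Mn G ((τ : M →ₗ[k] M) - 1)) (hc : Nc G ((σ : M →ₗ[k] M) - 1) ((τ : M →ₗ[k] M) - 1)) :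
    ⁅sameActionSubgroup G σ, sameActionSubgroup G τ⁆ = sameActionSubgroup G (dd σ τ) := by
  apply le_antisymm
  · rw [Subgroup.commutator_le]
    intro a ha b hb
    exact comm_mem h20 hk3 hσ hτ hc ha hb
  · intro d hd
    obtain ⟨a, ha, e⟩ := exists_comm h20 hk3 hG hσ hτ hc (self_mem hτ) (ne_one hτ) hd
    rw [← e]
    exact Subgroup.commutator_mem_commutator ha (self_mem hτ)

lemma core_mem (hσ : Mn G ((σ : M →ₗ[k] M) - 1))
    (hτ : Mn G ((τ : M →ₗ[k] M) - 1)) (hc : Nc G ((σ : M →ₗ[k] M) - 1) ((τ : M →ₗ[k] M) - 1)) :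
    ((sameActionSubgroup G σ ⊔ sameActionSubgroup G τ : Subgroup _) :
      Set (LinearMap.GeneralLinearGroup k M)) ⊆
      quadraticUnipotentCore G (sameActionSubgroup G (dd σ τ)) := by
  have hD := dd_mn hσ hτ hc
  have hDc := D_comm hσ hτ hc
  have hDc' : ∀ d ∈ sameActionSubgroup G (dd σ τ), ∀ a ∈ sameActionSubgroup G τ, a * d = d * a := by
    rw [dd_symm hσ hτ hc]
    exact D_comm hτ hσ (hc.symm hσ hτ)
  have hc' := hc.symm hσ hτ
  set s : Module.End k M := (σ : M →ₗ[k] M) - 1 with hs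
  set t : Module.End k M := (τ : M →ₗ[k] M) - 1 with ht
  set u : Module.End k M := s * t - t * s with hu
  have hfix : fixedSubmodule (sameActionSubgroup G (dd σ τ)) = LinearMap.ker u := by
    rw [fixedSubmodule_E hD, dd_coe hσ hτ hc]
  have hcomm : commutatorSubmodule (sameActionSubgroup G (dd σ τ)) = LinearMap.range u := by
    rw [commutatorSubmodule_E hD, dd_coe hσ hτ hc]
  have huu : LinearMap.range u ≤ LinearMap.ker u := by
    rw [← mul_eq_zero_iff]
    exact (hc.mn s (Rel.refl hσ) t (Rel.refl hτ)).fam.sq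
  have huc : u = -(t * s - s * t) := by rw [hu]; abel
  -- elements of `E` and `F`
  have base : ∀ a : LinearMap.GeneralLinearGroup k M,
      (a ∈ sameActionSubgroup G σ ∨ a ∈ sameActionSubgroup G τ) →
      (∀ m, (a : M →ₗ[k] M) m - m ∈ LinearMap.ker u) ∧
      (∀ m ∈ LinearMap.ker u, (a : M →ₗ[k] M) m - m ∈ LinearMap.range u) ∧
      (∀ m ∈ LinearMap.range u, (a : M →ₗ[k] M) m - m = 0) := by
    have base' : ∀ (s' : Module.End k M) (a : LinearMap.GeneralLinearGroup k M),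
        (∀ m, (a : M →ₗ[k] M) m - m = s' m) → u * s' = 0 →
        (∀ x, u x = 0 → s' x ∈ LinearMap.range u) → s' * u = 0 →
        (∀ m, (a : M →ₗ[k] M) m - m ∈ LinearMap.ker u) ∧
        (∀ m ∈ LinearMap.ker u, (a : M →ₗ[k] M) m - m ∈ LinearMap.range u) ∧
        (∀ m ∈ LinearMap.range u, (a : M →ₗ[k] M) m - m = 0) := by
      intro s' a h1 h2 h3 h4
      refine ⟨?_, ?_, ?_⟩
      · intro m; rw [h1]
        exact congrArg (fun f : Module.End k M => f m) h2
      · intro m hm; rw [h1]; exact h3 m hm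
      · rintro _ ⟨m, rfl⟩; rw [h1]
        exact congrArg (fun f : Module.End k M => f m) h4
    rintro a (ha | ha)
    · rcases mem_E.1 ha with h1 | rfl
      · refine base' ((a : M →ₗ[k] M) - 1) a (fun m => rfl) ?_ ?_ ?_
        · rw [mul_eq_zero_iff, h1.range, ← mul_eq_zero_iff]; exact u_s hσ hc
        · intro x hx
          -- use kernel of the commutator with `s'`
          have h2 : x ∈ LinearMap.ker (((a : M →ₗ[k] M) - 1 : Module.End k M) * t -
              t * ((a : M →ₗ[k] M) - 1)) := by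
            rw [mem_ker_comm hc h1 (Rel.refl hτ), ← mem_ker_comm hc (Rel.refl hσ) (Rel.refl hτ)]
            exact hx
          have h3 : ((a : M →ₗ[k] M) - 1 : Module.End k M) x ∈
              LinearMap.range s ⊓ LinearMap.ker t := by
            rw [mem_ker_comm hc h1 (Rel.refl hτ)] at h2
            obtain ⟨b, hb, c, hcc, e⟩ := Submodule.mem_sup.1 h2.2
            have h5 : ((a : M →ₗ[k] M) - 1 : Module.End k M) c = 0 := (ker_iff h1.ker c).2 hcc
            rw [← e, map_add, h5, add_zero, ← hc.map_s _ h1]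
            exact ⟨b, hb, rfl⟩
          exact range_u hσ hτ hc h3
        · rw [mul_eq_zero_iff, h1.ker, ← mul_eq_zero_iff]; exact s_u hσ hc
      · refine base' 0 1 ?_ (mul_zero _) ?_ (zero_mul _)
        · intro m; simp
        · intro x _; exact Submodule.zero_mem _
    · rcases mem_E.1 ha with h1 | rfl
      · refine base' ((a : M →ₗ[k] M) - 1) a (fun m => rfl) ?_ ?_ ?_
        · rw [mul_eq_zero_iff, h1.range, ← mul_eq_zero_iff, huc, neg_mul, u_s hτ hc', neg_zero]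
        · intro x hx
          have h2 : x ∈ LinearMap.ker (s * ((a : M →ₗ[k] M) - 1 : Module.End k M) -
              ((a : M →ₗ[k] M) - 1) * s) := by
            rw [mem_ker_comm hc (Rel.refl hσ) h1, ← mem_ker_comm hc (Rel.refl hσ) (Rel.refl hτ)]
            exact hx
          have h3 : ((a : M →ₗ[k] M) - 1 : Module.End k M) x ∈
              LinearMap.range t ⊓ LinearMap.ker s := by
            rw [mem_ker_comm hc (Rel.refl hσ) h1] at h2
            obtain ⟨b, hb, c, hcc, e⟩ := Submodule.mem_sup.1 h2.1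
            have h5 : ((a : M →ₗ[k] M) - 1 : Module.End k M) c = 0 := (ker_iff h1.ker c).2 hcc
            rw [← e, map_add, h5, add_zero, ← hc.map_t _ h1]
            exact ⟨b, hb, rfl⟩
          exact range_u' hσ hτ hc h3
        · rw [mul_eq_zero_iff, h1.ker, ← mul_eq_zero_iff, huc, mul_neg, s_u hτ hc', neg_zero]
      · refine base' 0 1 ?_ (mul_zero _) ?_ (zero_mul _)
        · intro m; simp
        · intro x _; exact Submodule.zero_mem _
  have step : ∀ a y : LinearMap.GeneralLinearGroup k M,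
      (a ∈ sameActionSubgroup G σ ∨ a ∈ sameActionSubgroup G τ) →
      ((∀ m, (y : M →ₗ[k] M) m - m ∈ LinearMap.ker u) ∧
      (∀ m ∈ LinearMap.ker u, (y : M →ₗ[k] M) m - m ∈ LinearMap.range u) ∧
      (∀ m ∈ LinearMap.range u, (y : M →ₗ[k] M) m - m = 0)) →
      ((∀ m, ((a * y : LinearMap.GeneralLinearGroup k M) : M →ₗ[k] M) m - m ∈ LinearMap.ker u) ∧
      (∀ m ∈ LinearMap.ker u, ((a * y : LinearMap.GeneralLinearGroup k M) : M →ₗ[k] M) m - m ∈
        LinearMap.range u) ∧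
      (∀ m ∈ LinearMap.range u,
        ((a * y : LinearMap.GeneralLinearGroup k M) : M →ₗ[k] M) m - m = 0)) := by
    rintro a y ha ⟨y1, y2, y3⟩
    obtain ⟨a1, a2, a3⟩ := base a ha
    have e : ∀ m, ((a * y : LinearMap.GeneralLinearGroup k M) : M →ₗ[k] M) m - m =
        ((a : M →ₗ[k] M) ((y : M →ₗ[k] M) m) - (y : M →ₗ[k] M) m) + ((y : M →ₗ[k] M) m - m) := by
      intro m
      show (a : M →ₗ[k] M) ((y : M →ₗ[k] M) m) - m = _
      abel
    refine ⟨?_, ?_, ?_⟩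
    · intro m; rw [e]; exact Submodule.add_mem _ (a1 _) (y1 _)
    · intro m hm
      rw [e]
      refine Submodule.add_mem _ (a2 _ ?_) (y2 m hm)
      have h1 := Submodule.add_mem _ (huu (y2 m hm)) hm
      rwa [sub_add_cancel] at h1
    · intro m hm
      rw [e, y3 m hm, add_zero]
      apply a3
      have := y3 m hm
      rw [sub_eq_zero] at this
      rw [this]; exact hm
  intro g hg
  have hmain : (∀ m, (g : M →ₗ[k] M) m - m ∈ LinearMap.ker u) ∧
      (∀ m ∈ LinearMap.ker u, (g : M →ₗ[k] M) m - m ∈ LinearMap.range u) ∧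
      (∀ m ∈ LinearMap.range u, (g : M →ₗ[k] M) m - m = 0) := by
    refine sup_induction (p := fun g : LinearMap.GeneralLinearGroup k M =>
      (∀ m, (g : M →ₗ[k] M) m - m ∈ LinearMap.ker u) ∧
      (∀ m ∈ LinearMap.ker u, (g : M →ₗ[k] M) m - m ∈ LinearMap.range u) ∧
      (∀ m ∈ LinearMap.range u, (g : M →ₗ[k] M) m - m = 0)) ?_ ?_ ?_ hg
    · refine ⟨?_, ?_, ?_⟩ <;> intros <;> simp
    · intro a ha y hy; exact step a y (Or.inl ha) hy
    · intro a ha y hy; exact step a y (Or.inr ha) hy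
  have hgD : ∀ d ∈ sameActionSubgroup G (dd σ τ), g * d = d * g := by
    intro d hd
    refine sup_induction (p := fun g : LinearMap.GeneralLinearGroup k M => g * d = d * g)
      (by simp) ?_ ?_ hg
    · intro a ha y hy
      rw [mul_assoc, hy, ← mul_assoc, hDc d hd a ha, mul_assoc]
    · intro a ha y hy
      rw [mul_assoc, hy, ← mul_assoc, hDc' d hd a ha, mul_assoc]
  refine ⟨?_, ?_, ?_, ?_, ?_⟩
  · have : sameActionSubgroup G σ ⊔ sameActionSubgroup G τ ≤ G := sup_le E_le E_le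
    exact this hg
  · rw [← conjBy_eq_self_iff]
    ext x
    rw [mem_conjBy]
    constructor
    · intro hx
      have h1 := hgD _ hx
      have e : x = g * (g⁻¹ * x * g) * g⁻¹ := by group
      rw [e, h1, mul_inv_cancel_right]; exact hx
    · intro hx
      have h1 := hgD _ hx
      rw [mul_assoc, ← h1, inv_mul_cancel_left]; exact hx
  · rw [hfix]; exact hmain.1
  · rw [hfix, hcomm]; exact hmain.2.1
  · rw [hcomm]
    intro m hm
    exact sub_eq_zero.1 (hmain.2.2 m hm)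

/-- **Main theorem** on noncommuting unipotent pairs -/
theorem nc_main (h20 : (2 : k) ≠ 0) (hk3 : Nat.card k ≠ 3) (hG : IsIrreducibleFor G)
    (hσ : Mn G ((σ : M →ₗ[k] M) - 1)) (hτ : Mn G ((τ : M →ₗ[k] M) - 1))
    (hc : Nc G ((σ : M →ₗ[k] M) - 1) ((τ : M →ₗ[k] M) - 1)) :
    ⁅sameActionSubgroup G σ, sameActionSubgroup G τ⁆ ∈ quadraticRootSubgroups G ∧
    (∀ e ∈ sameActionSubgroup G σ, e ≠ 1 → Subgroup.closure
      ((fun f : LinearMap.GeneralLinearGroup k M => e * f * e⁻¹ * f⁻¹) ''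
        (sameActionSubgroup G τ : Set (LinearMap.GeneralLinearGroup k M))) =
        ⁅sameActionSubgroup G σ, sameActionSubgroup G τ⁆) ∧
    (∀ f ∈ sameActionSubgroup G τ, f ≠ 1 → Subgroup.closure
      ((fun e : LinearMap.GeneralLinearGroup k M => e * f * e⁻¹ * f⁻¹) ''
        (sameActionSubgroup G σ : Set (LinearMap.GeneralLinearGroup k M))) =
        ⁅sameActionSubgroup G σ, sameActionSubgroup G τ⁆) ∧
    ⁅sameActionSubgroup G σ ⊔ sameActionSubgroup G τ,
      sameActionSubgroup G σ ⊔ sameActionSubgroup G τ⁆ ≠ ⊥ ∧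
    ⁅⁅sameActionSubgroup G σ ⊔ sameActionSubgroup G τ,
      sameActionSubgroup G σ ⊔ sameActionSubgroup G τ⁆,
      sameActionSubgroup G σ ⊔ sameActionSubgroup G τ⁆ = ⊥ ∧
    ((sameActionSubgroup G σ ⊔ sameActionSubgroup G τ : Subgroup _) :
      Set (LinearMap.GeneralLinearGroup k M)) ⊆
      quadraticUnipotentCore G ⁅sameActionSubgroup G σ, sameActionSubgroup G τ⁆ ∧
    (∀ c ∈ ⁅sameActionSubgroup G σ, sameActionSubgroup G τ⁆,
      ∀ x ∈ sameActionSubgroup G σ ⊔ sameActionSubgroup G τ, c * x = x * c) := by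
  have hDeq := commutator_eq h20 hk3 hG hσ hτ hc
  have hD := dd_mn hσ hτ hc
  have hDc := D_comm hσ hτ hc
  have hDc' : ∀ d ∈ sameActionSubgroup G (dd σ τ), ∀ a ∈ sameActionSubgroup G τ, a * d = d * a := by
    rw [dd_symm hσ hτ hc]
    exact D_comm hτ hσ (hc.symm hσ hτ)
  obtain ⟨h1, h2⟩ := comm_sup_le (A := sameActionSubgroup G σ) (B := sameActionSubgroup G τ)
    (D := sameActionSubgroup G (dd σ τ)) hDc hDc'
    (fun a ha a' ha' => commute_of_isMulCommutative (E_comm σ) ha ha')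
    (fun a ha a' ha' => commute_of_isMulCommutative (E_comm τ) ha ha')
    (fun a ha b hb => comm_mem h20 hk3 hσ hτ hc ha hb)
  have hle : ⁅sameActionSubgroup G σ, sameActionSubgroup G τ⁆ ≤
      ⁅sameActionSubgroup G σ ⊔ sameActionSubgroup G τ,
        sameActionSubgroup G σ ⊔ sameActionSubgroup G τ⁆ :=
    Subgroup.commutator_mono le_sup_left le_sup_right
  have hne : ⁅sameActionSubgroup G σ, sameActionSubgroup G τ⁆ ≠ ⊥ := by
    rw [hDeq]
    intro h0
    have := self_mem hD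
    rw [h0, Subgroup.mem_bot] at this
    exact ne_one hD this
  refine ⟨?_, ?_, ?_, ?_, ?_, ?_, ?_⟩
  · rw [hDeq]
    exact ⟨dd σ τ, mem_minimal_iff.2 hD, rfl⟩
  · intro e he he1
    apply le_antisymm
    · rw [Subgroup.closure_le]
      rintro _ ⟨f, hf, rfl⟩
      exact Subgroup.commutator_mem_commutator he hf
    · rw [hDeq]
      intro d hd
      obtain ⟨b, hb, e'⟩ := exists_comm' h20 hk3 hG hσ hτ hc he he1 hd
      exact Subgroup.subset_closure ⟨b, hb, e'⟩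
  · intro f hf hf1
    apply le_antisymm
    · rw [Subgroup.closure_le]
      rintro _ ⟨e, he, rfl⟩
      exact Subgroup.commutator_mem_commutator he hf
    · rw [hDeq]
      intro d hd
      obtain ⟨a, ha, e'⟩ := exists_comm h20 hk3 hG hσ hτ hc hf hf1 hd
      exact Subgroup.subset_closure ⟨a, ha, e'⟩
  · intro h0
    rw [h0] at hle
    exact hne (le_bot_iff.1 hle)
  · rw [Cfsg.Agent.Lib.RankOneGrp.commutator_eq_bot_iff]
    intro a ha b hb
    exact (h2 a (h1 ha) b hb).symm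
  · rw [hDeq]
    exact core_mem hσ hτ hc
  · rw [hDeq]
    intro c hc x hx
    exact (h2 c hc x hx).symm

/-- a unipotent pair is not opposite -/
lemma opp_not_unipotent (h20 : (2 : k) ≠ 0)
    (hσ : Mn G ((σ : M →ₗ[k] M) - 1)) (hτ : Mn G ((τ : M →ₗ[k] M) - 1))
    (ho : Opp ((σ : M →ₗ[k] M) - 1) ((τ : M →ₗ[k] M) - 1))
    (h : IsUnipotentOn (sameActionSubgroup G σ ⊔ sameActionSubgroup G τ)) : False := by
  obtain ⟨n, hn⟩ := V_pow_of_unipotent h (s := (σ : M →ₗ[k] M) - 1) (t := (τ : M →ₗ[k] M) - 1)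
    ⟨σ, (le_sup_left : _ ≤ sameActionSubgroup G σ ⊔ sameActionSubgroup G τ) (self_mem hσ), by abel⟩
    ⟨τ, (le_sup_right : _ ≤ sameActionSubgroup G σ ⊔ sameActionSubgroup G τ) (self_mem hτ), by abel⟩
  obtain ⟨a, b⟩ := words3 (unipotent_pair hσ hτ h20 hn)
  exact hσ.ne (ho.not_nil ⟨a, b⟩)

/-- opposite pairs do not generate nilpotent groups of class two -/
lemma opp_not_class_two (h20 : (2 : k) ≠ 0) (hk3 : Nat.card k ≠ 3)
    (hσ : Mn G ((σ : M →ₗ[k] M) - 1)) (hτ : Mn G ((τ : M →ₗ[k] M) - 1))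
    (ho : Opp ((σ : M →ₗ[k] M) - 1) ((τ : M →ₗ[k] M) - 1))
    (h : ⁅⁅sameActionSubgroup G σ ⊔ sameActionSubgroup G τ,
      sameActionSubgroup G σ ⊔ sameActionSubgroup G τ⁆,
      sameActionSubgroup G σ ⊔ sameActionSubgroup G τ⁆ = ⊥) : False := by
  obtain ⟨b, hb, hb1, hl⟩ := exists_lk h20 hk3 hσ hτ ho (self_mem hσ) (ne_one hσ)
  have h1 : σ ∈ sameActionSubgroup G σ ⊔ sameActionSubgroup G τ :=
    (le_sup_left : _ ≤ sameActionSubgroup G σ ⊔ sameActionSubgroup G τ) (self_mem hσ)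
  have h2 : b ∈ sameActionSubgroup G σ ⊔ sameActionSubgroup G τ :=
    (le_sup_right : _ ≤ sameActionSubgroup G σ ⊔ sameActionSubgroup G τ) hb
  have h3 : σ * b * σ ∈ sameActionSubgroup G σ ⊔ sameActionSubgroup G τ :=
    Subgroup.mul_mem _ (Subgroup.mul_mem _ h1 h2) h1
  have e2 : σ * b * σ * σ * (σ * b * σ)⁻¹ = b := by
    have e : ((σ * b * σ * σ * (σ * b * σ)⁻¹ : LinearMap.GeneralLinearGroup k M) : M →ₗ[k] M) - 1 =
        (b : M →ₗ[k] M) - 1 := by
      rw [coe_conj]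
      exact hl.n_conj (a := σ) (b := b) (by abel) (by abel)
    exact Units.ext (sub_left_injective e)
  have h4 : b * σ⁻¹ ∈ ⁅sameActionSubgroup G σ ⊔ sameActionSubgroup G τ,
      sameActionSubgroup G σ ⊔ sameActionSubgroup G τ⁆ := by
    have := Subgroup.commutator_mem_commutator h3 h1
    rw [commutatorElement_def, e2] at this
    exact this
  rw [Cfsg.Agent.Lib.RankOneGrp.commutator_eq_bot_iff] at h
  have h5 := h _ h4 _ h1
  have h6 : σ * b = b * σ := by
    have h7 : b * σ⁻¹ * σ * σ = σ * (b * σ⁻¹) * σ := by rw [h5]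
    have e3 : b * σ⁻¹ * σ * σ = b * σ := by group
    have e4 : σ * (b * σ⁻¹) * σ = σ * b := by group
    rw [e3, e4] at h7
    exact h7.symm
  refine not_comm_of_ne ?_ h6
  have h8 := rel_of_mem hb hb1
  exact Opp.not_comm hσ hσ.fam.sq h8.mn.fam.sq (ho.of_rel (Rel.refl hσ) h8)

end main

end Cfsg.Agent.Lib.QuadPairD
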