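import Cfsg.Agent.Lib.QuadPairC
set_option autoImplicit false

/-!
Existence of opposite root groups (owner: helper84).
-/

namespace Cfsg.Agent.Lib.QuadPairO
open Subgroup Cfsg
open Cfsg.Agent.Lib.QuadPair
open Cfsg.Agent.Lib.QuadPairR
open Cfsg.Agent.Lib.QuadPairS
open Cfsg.Agent.Lib.QuadPairT
open Cfsg.Agent.Lib.RankOneGrp

universe u v

variable {k : Type u} [Field k] {M : Type v} [AddCommGroup M] [Module k M]
  {G : Subgroup (LinearMap.GeneralLinearGroup k M)}

/-- a unipotent group fixes a nonzero vector -/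
lemma exists_fixed {H : Subgroup (LinearMap.GeneralLinearGroup k M)} (hH : IsUnipotentOn H)
    {m : M} (hm : m ≠ 0) : fixedSubmodule H ≠ ⊥ := by
  intro hbot
  obtain ⟨n, hn⟩ := (Cfsg.Agent.Lib.LinBaerSuzuki.isUnipotentOn_iff H).1 hH
  have key : ∀ j : ℕ, ∃ l : List (LinearMap.GeneralLinearGroup k M), (∀ g ∈ l, g ∈ H) ∧
      l.length = j ∧ (l.map (fun g : LinearMap.GeneralLinearGroup k M =>
        (Units.val g : Module.End k M) - 1)).prod m ≠ 0 := by
    intro j
    induction j with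
    | zero => exact ⟨[], by simp, rfl, by simpa using hm⟩
    | succ j ih =>
      obtain ⟨l, h1, h2, h3⟩ := ih
      set v := (l.map (fun g : LinearMap.GeneralLinearGroup k M =>
        (Units.val g : Module.End k M) - 1)).prod m with hv
      have hvn : v ∉ fixedSubmodule H := by
        rw [hbot, Submodule.mem_bot]; exact h3
      rw [mem_fixedSubmodule] at hvn
      push Not at hvn
      obtain ⟨g, hg, hgv⟩ := hvn
      refine ⟨g :: l, ?_, by rw [List.length_cons, h2], ?_⟩
      · intro x hx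
        rcases List.mem_cons.1 hx with rfl | hx
        · exact hg
        · exact h1 x hx
      · rw [List.map_cons, List.prod_cons]
        show ((g : Module.End k M) - 1) v ≠ 0
        rw [LinearMap.sub_apply]
        exact sub_ne_zero.2 hgv
  obtain ⟨l, h1, h2, h3⟩ := key n
  apply h3
  rw [hn l h1 h2]; rfl

lemma cj_mul (g h : LinearMap.GeneralLinearGroup k M) (s : Module.End k M) :
    cj (g * h) s = cj g (cj h s) := by
  ext x
  rw [cj_apply, cj_apply, cj_apply, mul_inv_rev]
  rfl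

lemma cj_one (s : Module.End k M) : cj (1 : LinearMap.GeneralLinearGroup k M) s = s := by
  ext x
  rw [cj_apply, inv_one]; rfl

lemma cj_prod (g : LinearMap.GeneralLinearGroup k M) (s t : Module.End k M) :
    cj g (s * t) = cj g s * cj g t := by
  ext x
  rw [cj_apply]
  show _ = cj g s (cj g t x)
  rw [cj_apply, cj_apply, inv_apply]; rfl

lemma Nil.conj {s t : Module.End k M} (h : Nil s t) (g : LinearMap.GeneralLinearGroup k M) :
    Nil (cj g s) (cj g t) := by
  constructor
  · rw [← cj_prod, ← cj_prod, h.sts]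
    exact cj_zero_iff.2 rfl
  · rw [← cj_prod, ← cj_prod, h.tst]
    exact cj_zero_iff.2 rfl

variable [FiniteDimensional k M]

theorem exists_opposite (h20 : (2 : k) ≠ 0) (hk3 : Nat.card k ≠ 3) (hG : IsIrreducibleFor G)
    {s : Module.End k M} (hs : Mn G s) : ∃ g ∈ G, Opp s (cj g s) := by
  by_contra hcon
  push Not at hcon
  have hnil : ∀ g ∈ G, Nil s (cj g s) := fun g hg =>
    (dich h20 hk3 hs (Mn.conj hs hg)).resolve_right (hcon g hg)
  set σ : LinearMap.GeneralLinearGroup k M := un s hs.fam.sq with hσ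
  have hσ1 : (σ : M →ₗ[k] M) - 1 = s := by rw [hσ, un_coe, add_sub_cancel_left]
  let W : Set (Subgroup (LinearMap.GeneralLinearGroup k M)) :=
    {A | ∃ g ∈ G, A = sameActionSubgroup G (g * σ * g⁻¹)}
  have hW : ∀ A ∈ W, ∀ g ∈ G, conjBy A g ∈ W := by
    rintro _ ⟨h, hh, rfl⟩ g hg
    refine ⟨g * h, G.mul_mem hg hh, ?_⟩
    have e : g * (h * σ * h⁻¹) * g⁻¹ = (g * h) * σ * (g * h)⁻¹ := by group
    rw [E_conj hg, e]
  have hle : ∀ A ∈ W, A ≤ G := by
    rintro _ ⟨h, hh, rfl⟩
    exact E_le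
  have hWW : ∀ A ∈ W, ∀ B ∈ W, IsUnipotentOn (A ⊔ B) := by
    rintro _ ⟨g, hg, rfl⟩ _ ⟨h, hh, rfl⟩
    apply unipotent_of_nil h20 hk3
    · rw [coe_conj, hσ1]; exact Mn.conj hs hg
    · rw [coe_conj, hσ1]; exact Mn.conj hs hh
    · rw [coe_conj, coe_conj, hσ1]
      have h1 := Nil.conj (hnil (g⁻¹ * h) (G.mul_mem (G.inv_mem hg) hh)) g
      rwa [← cj_mul, mul_inv_cancel_left] at h1
  have hU := Cfsg.Agent.Lib.LinBaerSuzuki.iSup_unipotent
    (fun A hA B hB a ha => hW B hB a (hle A hA ha)) hWW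
  set N := ⨆ A ∈ W, A with hN
  obtain ⟨⟨m, hm⟩, hirr⟩ := hG
  have hfix := exists_fixed hU hm
  have hinv : ∀ g ∈ G, ∀ w ∈ fixedSubmodule N, (g : M →ₗ[k] M) w ∈ fixedSubmodule N := by
    intro g hg w hw
    rw [mem_fixedSubmodule] at hw ⊢
    have hNconj : ∀ x ∈ N, g⁻¹ * x * g ∈ N := by
      intro x hx
      have h1 : conjBy N g⁻¹ ≤ N := by
        rw [hN]
        unfold conjBy
        rw [Subgroup.map_iSup]
        refine iSup_le fun A => ?_
        rw [Subgroup.map_iSup]
        refine iSup_le fun hA => ?_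
        exact le_iSup₂_of_le (conjBy A g⁻¹) (hW A hA _ (G.inv_mem hg)) le_rfl
      apply h1
      rw [mem_conjBy, inv_inv]
      have : g * (g⁻¹ * x * g) * g⁻¹ = x := by group
      rwa [this]
    intro x hx
    have h1 := hw _ (hNconj x hx)
    have h2 : (x : M →ₗ[k] M) ((g : M →ₗ[k] M) w) =
        (g : M →ₗ[k] M) (((g⁻¹ * x * g : LinearMap.GeneralLinearGroup k M) : M →ₗ[k] M) w) := by
      have e : x * g = g * (g⁻¹ * x * g) := by group
      have := congrArg (fun y : LinearMap.GeneralLinearGroup k M => (y : M →ₗ[k] M) w) e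
      exact this
    rw [h2, h1]
  rcases hirr _ hinv with h | h
  · exact hfix h
  · apply hs.ne
    have hσN : σ ∈ N := by
      have h1 : sameActionSubgroup G (1 * σ * 1⁻¹) ≤ N :=
        le_iSup₂_of_le (sameActionSubgroup G (1 * σ * 1⁻¹)) ⟨1, G.one_mem, rfl⟩ le_rfl
      apply h1
      have e : 1 * σ * 1⁻¹ = σ := by group
      rw [e]
      apply self_mem
      rw [hσ1]; exact hs
    ext x
    have h2 : x ∈ fixedSubmodule N := by rw [h]; trivial
    have h3 := mem_fixedSubmodule.1 h2 σ hσN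
    rw [← hσ1, LinearMap.sub_apply, h3]
    simp

end Cfsg.Agent.Lib.QuadPairO
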