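import Cfsg.Agent.Lib.QuadPairN
set_option autoImplicit false

/-!
Non-unipotent pairs of minimal quadratic elements generate `SL₂(k(λ))` (owner: helper84).
-/

namespace Cfsg.Agent.Lib.QuadPairSL2
open Subgroup Matrix Cfsg
open Cfsg.Agent.Lib.QuadPair
open Cfsg.Agent.Lib.QuadPairU
open Cfsg.Agent.Lib.QuadPairN1
open Cfsg.Agent.Lib.QuadPairN2
open Cfsg.Agent.Lib.QuadPairN
open Cfsg.Agent.Lib.SL2Ring Cfsg.Agent.Lib.SL2LemmaL Cfsg.Agent.Lib.SL2Star

universe u v

variable {k : Type u} [Field k] {M : Type v} [AddCommGroup M] [Module k M] 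

lemma list_prod_mem {s t : Module.End k M} (l : List (Module.End k M))
    (hl : ∀ x ∈ l, x ∈ F k s t 1) : l.prod ∈ F k s t l.length := by
  induction l with
  | nil =>
    rw [List.prod_nil, List.length_nil]
    unfold F
    rw [pow_zero, one_mul]
    exact one_le_U s t (Submodule.one_le.1 le_rfl)
  | cons a l ih =>
    rw [List.prod_cons, List.length_cons, add_comm]
    exact F_mul s t 1 l.length (Submodule.mul_mem_mul (hl a (by simp))
      (ih (fun x hx => hl x (by simp [hx]))))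

/-- a nilpotent pair generates a unipotent group -/
lemma unipotent_of_nilp {s t : Module.End k M} (hs : s * s = 0) (ht : t * t = 0)
    (hn : IsNilpotent (s * t)) : IsUnipotentOn (gen k s t) := by
  obtain ⟨n, hn⟩ := hn
  have hV := V_pow_of_nilp (k := k) hs ht hn
  rw [Cfsg.Agent.Lib.LinBaerSuzuki.isUnipotentOn_iff]
  refine ⟨2 * n + 2, ?_⟩
  intro l hl hlen
  have h1 : ∀ x ∈ l.map (fun g : LinearMap.GeneralLinearGroup k M => (g : M →ₗ[k] M) - 1),
      x ∈ F k s t 1 := by
    intro x hx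
    rw [List.mem_map] at hx
    obtain ⟨g, hg, rfl⟩ := hx
    exact (mem_UF.1 (gen_le_UF hs ht (hl g hg))).1
  have h2 := list_prod_mem _ h1
  rw [List.length_map, hlen] at h2
  unfold F at h2
  rw [hV, Submodule.bot_mul] at h2
  exact (Submodule.mem_bot k).1 h2

lemma gen_eq_closure (σ τ : LinearMap.GeneralLinearGroup k M) :
    Subgroup.closure (Cfsg.scalarFamily σ ∪ Cfsg.scalarFamily τ) =
      gen k ((σ : M →ₗ[k] M) - 1) ((τ : M →ₗ[k] M) - 1) := rfl

section
variable {p q : Submodule k M} (h : IsCompl p q)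
  {R : Type v} [CommRing R] [Algebra k R] {ι : R →ₐ[k] Module.End k q} {z : Rˣ}
  {s1 t1 : Module.End k q}

/-- the representation of `SL₂(R)` on `M` -/
noncomputable def Psi (rep : Rep ι z s1 t1) : SpecialLinearGroup (Fin 2) R →* (Module.End k M)ˣ :=
  (blkU h).comp ((MonoidHom.inr _ _).comp rep.phi)

lemma Psi_coe (rep : Rep ι z s1 t1) (g : SpecialLinearGroup (Fin 2) R) :
    ((Psi h rep g : (Module.End k M)ˣ) : Module.End k M) = blk h (1, rep.phi g) := rfl

lemma Psi_of (rep : Rep ι z s1 t1) (g : SpecialLinearGroup (Fin 2) R) {c : k}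
    {y : Module.End k q} (hy : ((rep.phi g : (Module.End k q)ˣ) : Module.End k q) = 1 + c • y) :
    ((Psi h rep g : (Module.End k M)ˣ) : Module.End k M) = 1 + c • blk h (0, y) := by
  rw [Psi_coe, hy, ← map_smul, ← map_one (blk h), ← map_add]
  congr 1
  ext <;> simp

lemma map_Psi (rep : Rep ι z s1 t1) : (grp k (z : R)).map (Psi h rep) =
    gen k (blk h (0, s1)) (blk h (0, t1)) := by
  have e1 : ∀ c : k, ((Psi h rep (X (algebraMap k R c)) : (Module.End k M)ˣ) : Module.End k M) =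
      1 + c • blk h (0, s1) := by
    intro c
    apply Psi_of
    rw [rep.phi_X, AlgHom.commutes, Algebra.smul_def]
  have e2 : ∀ c : k, ((Psi h rep (Y (algebraMap k R c * z)) : (Module.End k M)ˣ) :
      Module.End k M) = 1 + c • blk h (0, t1) := by
    intro c
    apply Psi_of
    rw [rep.phi_Y, ← map_mul, mul_assoc, Units.mul_inv, mul_one, AlgHom.commutes, Algebra.smul_def]
  unfold grp gen
  rw [MonoidHom.map_closure]
  congr 1
  ext g
  constructor
  · rintro ⟨x, (⟨c, rfl⟩ | ⟨c, rfl⟩), rfl⟩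
    · exact Or.inl ⟨c, e1 c⟩
    · exact Or.inr ⟨c, e2 c⟩
  · rintro (⟨c, hc⟩ | ⟨c, hc⟩)
    · exact ⟨_, Or.inl ⟨c, rfl⟩, Units.ext (by rw [e1, hc])⟩
    · exact ⟨_, Or.inr ⟨c, rfl⟩, Units.ext (by rw [e2, hc])⟩

lemma Psi_inj (rep : Rep ι z s1 t1) (hι : Function.Injective ι) :
    Function.Injective (Psi h rep) := by
  intro g g' hg
  apply rep.phi_inj hι
  have h1 := congrArg (fun x : (Module.End k M)ˣ => (x : Module.End k M)) hg
  simp only [Psi_coe] at h1
  exact Units.ext (blk_inj h h1).2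

end

/-- `grp k z = ⊤` over a field, in the `IsField` version -/
lemma grp_top {R : Type v} [i1 : CommRing R] [i2 : Algebra k R] (hF : IsField R) (z : Rˣ)
    (hX : ∀ r : R, X r ∈ grp k (z : R)) : grp k (z : R) = ⊤ := by
  let _ : Field R := hF.toField
  have hz : (z : R) ≠ 0 := z.ne_zero
  exact eq_top_of_X hz hX

theorem pair_sl2 {k M : Type u} [Field k] [AddCommGroup M] [Module k M] [FiniteDimensional k M]
    {G : Subgroup (LinearMap.GeneralLinearGroup k M)}
    (h20 : (2 : k) ≠ 0) (hk3 : Nat.card k ≠ 3) {s t : Module.End k M} (hs : Mn G s) (ht : Mn G t)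
    (hn : ¬ IsNilpotent (s * t)) :
    ∃ (K : Type u) (_ : Field K) (_ : Algebra k K) (lam : K), IsAlgebraic k lam ∧
      IntermediateField.adjoin k ({lam} : Set K) = ⊤ ∧
      Nonempty (↥(gen k s t) ≃* Matrix.SpecialLinearGroup (Fin 2) K) := by
  obtain ⟨p, q, h, s1, t1, R, i1, i2, i3, ι, z, rep, es, et, hι, hF, hgen, hX⟩ :=
    pair_struct h20 hk3 hs ht hn
  have htop := grp_top hF z hX
  have hmap := map_Psi h rep
  rw [htop, ← es, ← et, ← MonoidHom.range_eq_map] at hmap
  have e : Matrix.SpecialLinearGroup (Fin 2) R ≃* ↥(gen k s t) :=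
    (MonoidHom.ofInjective (Psi_inj h rep hι)).trans (MulEquiv.subgroupCongr hmap)
  let iF : Field R := hF.toField
  refine ⟨R, iF, i2, (z : R), ?_, ?_, ⟨?_⟩⟩
  · exact (Algebra.IsIntegral.isIntegral (R := k) (z : R)).isAlgebraic
  · rw [eq_top_iff]
    intro x _
    have h1 : x ∈ Algebra.adjoin k {(z : R)} := by rw [hgen]; trivial
    exact IntermediateField.algebra_adjoin_le_adjoin k _ h1
  · exact e.symm

end Cfsg.Agent.Lib.QuadPairSL2
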