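import Mathlib
import Cfsg.Prelude.Def_RootSubgroups
import Cfsg.Agent.Lib.RootSub
set_option autoImplicit false

/-!
# Transfer of root subgroup notions along injective homomorphisms (helper84)
-/

namespace Cfsg.Agent.Lib.RootTransfer
open Cfsg Subgroup
open scoped commutatorElement
open Cfsg.Agent.Lib.RankOneGrp Cfsg.Agent.Lib.RootSub

variable {H G : Type*} [Group H] [Group G] {f : H →* G}

lemma conj_map (A : Subgroup H) (g : H) : conjBy (A.map f) (f g) = (conjBy A g).map f := by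
  show (A.map f).map _ = (A.map _).map f
  rw [Subgroup.map_map, Subgroup.map_map]
  congr 1
  ext x
  simp

lemma comm_map (A B : Subgroup H) : ⁅A.map f, B.map f⁆ = (⁅A, B⁆).map f := (Subgroup.map_commutator A B f).symm

section inj

variable (hf : Function.Injective f)
include hf

lemma map_inj {A B : Subgroup H} : A.map f = B.map f ↔ A = B := Subgroup.map_injective hf |>.eq_iff

lemma comm_bot {A B : Subgroup H} : ⁅A.map f, B.map f⁆ = ⊥ ↔ ⁅A, B⁆ = ⊥ := by
  rw [comm_map, Subgroup.map_eq_bot_iff_of_injective _ hf]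

lemma ne_one_map {a : H} : f a ≠ 1 ↔ a ≠ 1 := by
  rw [ne_eq, ne_eq, ← map_one f, hf.eq_iff]

lemma cond_map {A B : Subgroup H} : RankOneCondition (A.map f) (B.map f) ↔ RankOneCondition A B := by
  constructor
  · intro h a ha ha1
    obtain ⟨_, ⟨b, hb, rfl⟩, hb1, e⟩ := h (f a) ⟨a, ha, rfl⟩ ((ne_one_map hf).2 ha1)
    refine ⟨b, hb, (ne_one_map hf).1 hb1, ?_⟩
    rw [← map_inv, ← map_inv, conj_map, conj_map, map_inj hf] at e
    exact e
  · rintro h _ ⟨a, ha, rfl⟩ ha1
    obtain ⟨b, hb, hb1, e⟩ := h a ha ((ne_one_map hf).1 ha1)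
    refine ⟨f b, ⟨b, hb, rfl⟩, (ne_one_map hf).2 hb1, ?_⟩
    rw [← map_inv, ← map_inv, conj_map, conj_map, e]

lemma nilp_map {A : Subgroup H} : Group.IsNilpotent (A.map f) ↔ Group.IsNilpotent A := by
  have e := A.equivMapOfInjective f hf
  constructor
  · intro h; exact Group.nilpotent_of_mulEquiv e.symm
  · intro h; exact Group.nilpotent_of_mulEquiv e

lemma pair_map {A B : Subgroup H} : IsRankOnePair (A.map f) (B.map f) ↔ IsRankOnePair A B := by
  constructor
  · intro h
    exact ⟨fun e => h.ne (by rw [e]), (nilp_map hf).1 h.nilpotent_left, (nilp_map hf).1 h.nilpotent_right,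
      (cond_map hf).1 h.cond_left, (cond_map hf).1 h.cond_right⟩
  · intro h
    exact ⟨fun e => h.ne ((map_inj hf).1 e), (nilp_map hf).2 h.nilpotent_left, (nilp_map hf).2 h.nilpotent_right,
      (cond_map hf).2 h.cond_left, (cond_map hf).2 h.cond_right⟩

lemma special_map {A B : Subgroup H} : IsSpecialRankOnePair (A.map f) (B.map f) ↔ IsSpecialRankOnePair A B := by
  constructor
  · rintro ⟨h, h'⟩
    refine ⟨(pair_map hf).1 h, fun a ha ha1 b hb hb1 e => ?_⟩
    apply hf
    have := h' (f a) ⟨a, ha, rfl⟩ ((ne_one_map hf).2 ha1) (f b) ⟨b, hb, rfl⟩ ((ne_one_map hf).2 hb1)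
      (by rw [← map_inv, ← map_inv, conj_map, conj_map, e])
    simpa using this
  · rintro ⟨h, h'⟩
    refine ⟨(pair_map hf).2 h, ?_⟩
    rintro _ ⟨a, ha, rfl⟩ ha1 _ ⟨b, hb, rfl⟩ hb1 e
    rw [← map_inv, ← map_inv, conj_map, conj_map, map_inj hf] at e
    have := h' a ha ((ne_one_map hf).1 ha1) b hb ((ne_one_map hf).1 hb1) e
    rw [← map_inv, ← map_inv, ← map_mul, ← map_mul, this, map_mul, map_mul]

lemma mem_map_image {S : Set (Subgroup H)} {A : Subgroup H} : A.map f ∈ (fun B : Subgroup H => B.map f) '' S ↔ A ∈ S := by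
  constructor
  · rintro ⟨B, hB, e⟩
    rw [← (map_inj hf).1 e]; exact hB
  · intro h; exact ⟨A, h, rfl⟩

lemma case_map {S : Set (Subgroup H)} {A B : Subgroup H} :
    RootCommutatorCase ((fun B : Subgroup H => B.map f) '' S) (A.map f) (B.map f) ↔ RootCommutatorCase S A B := by
  have e1 : ∀ a : H, Subgroup.closure ((fun b : G => f a * b * (f a)⁻¹ * b⁻¹) '' ((B.map f : Subgroup G) : Set G)) =
      (Subgroup.closure ((fun b : H => a * b * a⁻¹ * b⁻¹) '' (B : Set H))).map f := by
    intro a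
    rw [MonoidHom.map_closure, Subgroup.coe_map, Set.image_image, Set.image_image]
    congr 1
    ext x
    simp
  have e2 : ∀ b : H, Subgroup.closure ((fun a : G => a * f b * a⁻¹ * (f b)⁻¹) '' ((A.map f : Subgroup G) : Set G)) =
      (Subgroup.closure ((fun a : H => a * b * a⁻¹ * b⁻¹) '' (A : Set H))).map f := by
    intro b
    rw [MonoidHom.map_closure, Subgroup.coe_map, Set.image_image, Set.image_image]
    congr 1
    ext x
    simp
  constructor
  · rintro ⟨h1, h2, h3, h4⟩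
    rw [comm_map, mem_map_image hf] at h1
    refine ⟨h1, ?_, ?_, ?_⟩
    · intro c hc x hx
      apply hf
      rw [map_mul, map_mul]
      apply h2
      · rw [comm_map]; exact ⟨c, hc, rfl⟩
      · rw [← Subgroup.map_sup]; exact ⟨x, hx, rfl⟩
    · intro a ha ha1
      have := h3 (f a) ⟨a, ha, rfl⟩ ((ne_one_map hf).2 ha1)
      rw [e1, comm_map, map_inj hf] at this
      exact this
    · intro b hb hb1
      have := h4 (f b) ⟨b, hb, rfl⟩ ((ne_one_map hf).2 hb1)
      rw [e2, comm_map, map_inj hf] at this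
      exact this
  · rintro ⟨h1, h2, h3, h4⟩
    refine ⟨?_, ?_, ?_, ?_⟩
    · rw [comm_map, mem_map_image hf]; exact h1
    · rw [comm_map, ← Subgroup.map_sup]
      rintro _ ⟨c, hc, rfl⟩ _ ⟨x, hx, rfl⟩
      rw [← map_mul, ← map_mul, h2 c hc x hx]
    · rintro _ ⟨a, ha, rfl⟩ ha1
      rw [e1, comm_map, h3 a ha ((ne_one_map hf).1 ha1)]
    · rintro _ ⟨b, hb, rfl⟩ hb1
      rw [e2, comm_map, h4 b hb ((ne_one_map hf).1 hb1)]

lemma mulComm_map {A : Subgroup H} : IsMulCommutative (A.map f) ↔ IsMulCommutative A := by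
  constructor
  · intro h
    apply isMulCommutative_of_commute
    intro a ha b hb
    apply hf
    rw [map_mul, map_mul]
    exact commute_of_isMulCommutative h ⟨a, ha, rfl⟩ ⟨b, hb, rfl⟩
  · intro h
    apply isMulCommutative_of_commute
    rintro _ ⟨a, ha, rfl⟩ _ ⟨b, hb, rfl⟩
    rw [← map_mul, ← map_mul, commute_of_isMulCommutative h ha hb]

end inj

/-! ### root subgroups of the generated subgroup -/

/-- hypotheses on a family of subgroups which make it a set of root subgroups of the subgroup generated -/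
structure PreRoot (S : Set (Subgroup G)) : Prop where
  commutative : ∀ A ∈ S, IsMulCommutative A
  ne_bot : ∀ A ∈ S, A ≠ ⊥
  conj_mem : ∀ A ∈ S, ∀ g ∈ (⨆ B ∈ S, B), conjBy A g ∈ S
  pair : ∀ A ∈ S, ∀ B ∈ S, ⁅A, B⁆ = ⊥ ∨ IsRankOnePair A B ∨ RootCommutatorCase S A B

lemma le_iSup_mem {S : Set (Subgroup G)} {A : Subgroup G} (hA : A ∈ S) : A ≤ ⨆ B ∈ S, B :=
  le_iSup₂_of_le A hA le_rfl

/-- the family seen in the generated subgroup -/
def inner (S : Set (Subgroup G)) : Set (Subgroup ↥(⨆ B ∈ S, B)) :=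
  (fun A : Subgroup G => A.subgroupOf (⨆ B ∈ S, B)) '' S

lemma map_inner {S : Set (Subgroup G)} {A : Subgroup G} (hA : A ∈ S) :
    (A.subgroupOf (⨆ B ∈ S, B)).map (Subgroup.subtype _) = A :=
  Subgroup.map_subgroupOf_eq_of_le (le_iSup_mem hA)

lemma image_inner (S : Set (Subgroup G)) :
    (fun A : Subgroup ↥(⨆ B ∈ S, B) => A.map (Subgroup.subtype _)) '' (inner S) = S := by
  rw [inner, Set.image_image]
  ext A
  constructor
  · rintro ⟨B, hB, rfl⟩
    show (B.subgroupOf (⨆ B ∈ S, B)).map (Subgroup.subtype _) ∈ S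
    rw [map_inner hB]; exact hB
  · intro hA
    exact ⟨A, hA, map_inner hA⟩

lemma mem_inner {S : Set (Subgroup G)} {A : Subgroup ↥(⨆ B ∈ S, B)} :
    A ∈ inner S ↔ A.map (Subgroup.subtype _) ∈ S := by
  constructor
  · rintro ⟨B, hB, rfl⟩
    show (B.subgroupOf (⨆ B ∈ S, B)).map (Subgroup.subtype _) ∈ S
    rw [map_inner hB]; exact hB
  · intro h
    refine ⟨_, h, ?_⟩
    exact Subgroup.comap_map_eq_self_of_injective (Subgroup.subtype_injective _) A

lemma inner_pair {S : Set (Subgroup G)} {A B : Subgroup G} (hA : A ∈ S) (hB : B ∈ S) :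
    IsRankOnePair (A.subgroupOf (⨆ B ∈ S, B)) (B.subgroupOf (⨆ B ∈ S, B)) ↔ IsRankOnePair A B := by
  rw [← pair_map (Subgroup.subtype_injective _), map_inner hA, map_inner hB]

lemma inner_special {S : Set (Subgroup G)} {A B : Subgroup G} (hA : A ∈ S) (hB : B ∈ S) :
    IsSpecialRankOnePair (A.subgroupOf (⨆ B ∈ S, B)) (B.subgroupOf (⨆ B ∈ S, B)) ↔ IsSpecialRankOnePair A B := by
  rw [← special_map (Subgroup.subtype_injective _), map_inner hA, map_inner hB]

lemma inner_comm {S : Set (Subgroup G)} {A B : Subgroup G} (hA : A ∈ S) (hB : B ∈ S) :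
    ⁅A.subgroupOf (⨆ B ∈ S, B), B.subgroupOf (⨆ B ∈ S, B)⁆ = ⊥ ↔ ⁅A, B⁆ = ⊥ := by
  rw [← comm_bot (Subgroup.subtype_injective _), map_inner hA, map_inner hB]

lemma inner_case {S : Set (Subgroup G)} {A B : Subgroup G} (hA : A ∈ S) (hB : B ∈ S) :
    RootCommutatorCase (inner S) (A.subgroupOf (⨆ B ∈ S, B)) (B.subgroupOf (⨆ B ∈ S, B)) ↔
      RootCommutatorCase S A B := by
  rw [← case_map (Subgroup.subtype_injective _), map_inner hA, map_inner hB, image_inner]

/-- **transfer** -/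
theorem PreRoot.root {S : Set (Subgroup G)} (h : PreRoot S) : IsRootSubgroupSet (inner S) where
  commutative := by
    rintro _ ⟨A, hA, rfl⟩
    show IsMulCommutative (A.subgroupOf (⨆ B ∈ S, B))
    rw [← mulComm_map (Subgroup.subtype_injective _), map_inner hA]
    exact h.commutative A hA
  ne_bot := by
    rintro _ ⟨A, hA, rfl⟩ e
    apply h.ne_bot A hA
    have e' : A.subgroupOf (⨆ B ∈ S, B) = ⊥ := e
    rw [← map_inner hA, e', Subgroup.map_bot]
  generates := by
    rw [eq_top_iff, ← Subgroup.map_le_map_iff_of_injective (Subgroup.subtype_injective _)]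
    rw [← MonoidHom.range_eq_map, Subgroup.range_subtype]
    refine iSup₂_le fun A hA => ?_
    conv_lhs => rw [← map_inner hA]
    exact Subgroup.map_mono (le_iSup_mem (S := inner S) ⟨A, hA, rfl⟩)
  conj_mem := by
    intro A hA g
    rw [mem_inner] at hA ⊢
    rw [← conj_map]
    exact h.conj_mem _ hA _ g.2
  pair := by
    rintro _ ⟨A, hA, rfl⟩ _ ⟨B, hB, rfl⟩
    rcases h.pair A hA B hB with h1 | h1 | h1
    · exact Or.inl ((inner_comm hA hB).2 h1)
    · exact Or.inr (Or.inl ((inner_pair hA hB).2 h1))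
    · exact Or.inr (Or.inr ((inner_case hA hB).2 h1))

end Cfsg.Agent.Lib.RootTransfer
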