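import Cfsg.Agent.Lib.QuadPairD
import Cfsg.Agent.Lib.QuadPairO
import Cfsg.Agent.Lib.QuadPairSL2
import Cfsg.Agent.Lib.RootTransfer
set_option autoImplicit false

/-!
The members of `Σ` form a set of root subgroups; `SL₂` inside rank one pairs (helper84).
-/

namespace Cfsg.Agent.Lib.QuadPairF
open Subgroup Cfsg Matrix
open Cfsg.Agent.Lib.QuadPair
open Cfsg.Agent.Lib.QuadPairU
open Cfsg.Agent.Lib.QuadPairN
open Cfsg.Agent.Lib.QuadPairN1
open Cfsg.Agent.Lib.QuadPairN2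
open Cfsg.Agent.Lib.QuadPairR
open Cfsg.Agent.Lib.QuadPairS
open Cfsg.Agent.Lib.QuadPairT
open Cfsg.Agent.Lib.QuadPairNil
open Cfsg.Agent.Lib.QuadPairC
open Cfsg.Agent.Lib.QuadPairO
open Cfsg.Agent.Lib.QuadPairD
open Cfsg.Agent.Lib.QuadPairSL2
open Cfsg.Agent.Lib.SL2Ring Cfsg.Agent.Lib.SL2LemmaL Cfsg.Agent.Lib.SL2Star
open Cfsg.Agent.Lib.RankOneGrp
open Cfsg.Agent.Lib.RootTransfer

universe u v

variable {k : Type u} [Field k] {M : Type v} [AddCommGroup M] [Module k M] [FiniteDimensional k M]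
variable {G : Subgroup (LinearMap.GeneralLinearGroup k M)}

/-! ### `SL₂` -/

lemma four_lt (h20 : (2 : k) ≠ 0) (hk3 : Nat.card k ≠ 3) : 3 < ENat.card k := by
  classical
  rcases finite_or_infinite k with hfin | hinf
  · rw [ENat.card_eq_coe_natCard]
    have := Fintype.ofFinite k
    have h01 : (1 : k) ≠ -1 := by
      intro h
      apply h20
      have : (1 : k) + 1 = 0 := by nth_rewrite 2 [h]; ring
      linear_combination this
    have h1 : ({0, 1, -1} : Finset k).card ≤ Fintype.card k := Finset.card_le_univ _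
    rw [Finset.card_insert_of_notMem, Finset.card_insert_of_notMem, Finset.card_singleton] at h1
    · rw [Nat.card_eq_fintype_card] at hk3 ⊢
      have : 3 < Fintype.card k := by omega
      exact_mod_cast this
    · simpa using h01
    · simp
  · rw [ENat.card_eq_top_of_infinite]
    exact ENat.natCast_lt_top 3

lemma upper_eq {K : Type v} [Field K] {g : Matrix.SpecialLinearGroup (Fin 2) K} :
    (g ∈ {g : Matrix.SpecialLinearGroup (Fin 2) K | (g : Matrix (Fin 2) (Fin 2) K) 1 0 = 0 ∧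
      (g : Matrix (Fin 2) (Fin 2) K) 0 0 = 1 ∧ (g : Matrix (Fin 2) (Fin 2) K) 1 1 = 1}) ↔ ∃ r, g = X r := by
  constructor
  · rintro ⟨h1, h2, h3⟩
    exact ⟨g.1 0 1, sl_ext h2 (by simp) (by simpa using h1) (by simpa using h3)⟩
  · rintro ⟨r, rfl⟩
    exact ⟨by simp, by simp, by simp⟩

lemma lower_eq {K : Type v} [Field K] {g : Matrix.SpecialLinearGroup (Fin 2) K} :
    (g ∈ {g : Matrix.SpecialLinearGroup (Fin 2) K | (g : Matrix (Fin 2) (Fin 2) K) 0 1 = 0 ∧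
      (g : Matrix (Fin 2) (Fin 2) K) 0 0 = 1 ∧ (g : Matrix (Fin 2) (Fin 2) K) 1 1 = 1}) ↔ ∃ r, g = Y r := by
  constructor
  · rintro ⟨h1, h2, h3⟩
    exact ⟨g.1 1 0, sl_ext h2 (by simpa using h1) (by simp) (by simpa using h3)⟩
  · rintro ⟨r, rfl⟩
    exact ⟨by simp, by simp, by simp⟩

lemma rel_of_le {s t : Module.End k M} (hs : Mn G s) (ht : Fam G t) (ht0 : t ≠ 0)
    (hr : LinearMap.range t ≤ LinearMap.range s) (hk : LinearMap.ker s ≤ LinearMap.ker t) : Rel G s t where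
  mn := hs.of_rank_le ht ht0 (Submodule.finrank_mono hr)
  ker := (hs.same_ker ht ht0 hk).symm
  range := hs.same ht ht0 hr

lemma opp_not_nilp (h20 : (2 : k) ≠ 0) {s t : Module.End k M}
    (hs : Mn G s) (ht : Mn G t) (ho : Opp s t) : ¬ IsNilpotent (s * t) := by
  rintro ⟨n, hn⟩
  have h1 := unipotent_pair hs ht h20 (V_pow_of_nilp hs.fam.sq ht.fam.sq hn)
  obtain ⟨a, b⟩ := words3 h1
  exact hs.ne (ho.not_nil ⟨a, b⟩)

omit [FiniteDimensional k M] in
lemma gen_le {s t : Module.End k M} (hs : Fam G s) (ht : Fam G t) : gen k s t ≤ G := by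
  unfold gen
  rw [Subgroup.closure_le]
  rintro g (⟨c, hc⟩ | ⟨c, hc⟩)
  · obtain ⟨g', hg', e⟩ := hs.has c
    have : g = g' := Units.ext (hc.trans e.symm)
    rw [this]; exact hg'
  · obtain ⟨g', hg', e⟩ := ht.has c
    have : g = g' := Units.ext (hc.trans e.symm)
    rw [this]; exact hg'

/-- members of the one-parameter group over the field -/
lemma mem_E_of_psi {σ : LinearMap.GeneralLinearGroup k M} (hσ : Mn G ((σ : M →ₗ[k] M) - 1))
    {R : Type v} [CommRing R] [Algebra k R] (ψ : R → LinearMap.GeneralLinearGroup k M)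
    (a : R → Module.End k M) (hG : ∀ r, ψ r ∈ G)
    (h1 : ∀ r, (ψ r : Module.End k M) = 1 + a r * ((σ : M →ₗ[k] M) - 1))
    (hc : ∀ r, a r * ((σ : M →ₗ[k] M) - 1) = ((σ : M →ₗ[k] M) - 1) * a r)
    (hsm : ∀ (c : k) r, a (c • r) = c • a r) (r : R) : ψ r ∈ sameActionSubgroup G σ := by
  rw [mem_E]
  have e : (ψ r : M →ₗ[k] M) - 1 = a r * ((σ : M →ₗ[k] M) - 1) := by
    have := h1 r
    exact sub_eq_of_eq_add' this
  by_cases h0 : a r * ((σ : M →ₗ[k] M) - 1) = 0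
  · right
    apply Units.ext
    have := h1 r
    rw [h0, add_zero] at this
    exact this
  · left
    rw [e]
    apply rel_of_le hσ _ h0
    · rw [hc]
      rintro _ ⟨x, rfl⟩
      exact ⟨_, rfl⟩
    · intro x hx
      show (a r) (((σ : M →ₗ[k] M) - 1) x) = 0
      rw [LinearMap.mem_ker.1 hx, map_zero]
    · constructor
      · calc a r * ((σ : M →ₗ[k] M) - 1) * (a r * ((σ : M →ₗ[k] M) - 1))
            = a r * (((σ : M →ₗ[k] M) - 1) * a r) * ((σ : M →ₗ[k] M) - 1) := by simp only [mul_assoc]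
          _ = a r * a r * (((σ : M →ₗ[k] M) - 1) * ((σ : M →ₗ[k] M) - 1)) := by rw [← hc]; simp only [mul_assoc]
          _ = 0 := by
            have := hσ.fam.sq
            erw [this, mul_zero]
      · intro c
        refine ⟨ψ (c • r), hG _, ?_⟩
        rw [h1, hsm, smul_mul_assoc]

theorem exists_psl (h20 : (2 : k) ≠ 0) (hk3 : Nat.card k ≠ 3) {σ τ : LinearMap.GeneralLinearGroup k M}
    (hσ : Mn G ((σ : M →ₗ[k] M) - 1)) (hτ : Mn G ((τ : M →ₗ[k] M) - 1))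
    (ho : Opp ((σ : M →ₗ[k] M) - 1) ((τ : M →ₗ[k] M) - 1)) :
    ∃ A₀ B₀ : Subgroup (LinearMap.GeneralLinearGroup k M), A₀ ≤ sameActionSubgroup G σ ∧
      B₀ ≤ sameActionSubgroup G τ ∧ ∃ (k₁ : Type v) (_ : Field k₁), 3 < ENat.card k₁ ∧ IsPSL2PairOver k₁ A₀ B₀ := by
  obtain ⟨p, q, h, s1, t1, R, i1, i2, i3, ι, z, rep, es, et, hι, hF, hgen, hX⟩ :=
    pair_struct h20 hk3 hσ hτ (opp_not_nilp h20 hσ hτ ho)
  have htop := grp_top hF z hX
  have hmap := map_Psi h rep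
  rw [htop, ← es, ← et, ← MonoidHom.range_eq_map] at hmap
  have hle : (Psi h rep).range ≤ G := by
    rw [hmap]
    exact gen_le hσ.fam hτ.fam
  have hb : ∀ (a : Module.End k q) (b : Module.End k q), (blk h (1, 1 + a * b) : Module.End k M) =
      1 + blk h (1, a) * blk h (0, b) := by
    intro a b
    rw [← map_mul, ← map_one (blk h), ← map_add]
    congr 1
    ext <;> simp
  have hX1 : ∀ r, ((Psi h rep (X r) : (Module.End k M)ˣ) : Module.End k M) =
      1 + blk h (0, ι r) * ((σ : M →ₗ[k] M) - 1) := by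
    intro r
    rw [Psi_coe, rep.phi_X, es, ← map_mul, ← map_one (blk h), ← map_add]
    congr 1
    ext <;> simp
  have hY1 : ∀ r, ((Psi h rep (Y r) : (Module.End k M)ˣ) : Module.End k M) =
      1 + blk h (0, ι r * ι ((z⁻¹ : Rˣ) : R)) * ((τ : M →ₗ[k] M) - 1) := by
    intro r
    rw [Psi_coe, rep.phi_Y, et, ← map_mul (blk h), ← map_one (blk h), ← map_add]
    congr 1
    ext <;> simp
  let iF : Field R := hF.toField
  refine ⟨(upperUnipotentSL2 R).map (Psi h rep), (lowerUnipotentSL2 R).map (Psi h rep), ?_, ?_, R, iF, ?_, Psi h rep,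
    ?_, ?_, rfl, rfl⟩
  · rw [upperUnipotentSL2, MonoidHom.map_closure, Subgroup.closure_le]
    rintro _ ⟨g, hg, rfl⟩
    obtain ⟨r, rfl⟩ := upper_eq.1 hg
    refine mem_E_of_psi hσ (fun r => Psi h rep (X r)) (fun r => blk h (0, ι r)) (fun r => hle ⟨_, rfl⟩) hX1 ?_ ?_ r
    · intro r
      rw [es, ← map_mul, ← map_mul]
      congr 1
      ext
      · simp
      · simp [rep.cs]
    · intro c r
      rw [← map_smul]
      congr 1
      ext <;> simp
  · rw [lowerUnipotentSL2, MonoidHom.map_closure, Subgroup.closure_le]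
    rintro _ ⟨g, hg, rfl⟩
    obtain ⟨r, rfl⟩ := lower_eq.1 hg
    refine mem_E_of_psi hτ (fun r => Psi h rep (Y r)) (fun r => blk h (0, ι r * ι ((z⁻¹ : Rˣ) : R)))
      (fun r => hle ⟨_, rfl⟩) hY1 ?_ ?_ r
    · intro r
      rw [et, ← map_mul (blk h), ← map_mul (blk h), ← map_mul ι]
      congr 1
      have := rep.ct (r * ((z⁻¹ : Rˣ) : R))
      rw [Prod.mk_mul_mk, Prod.mk_mul_mk, this]
    · intro c r
      rw [← map_smul]
      congr 1
      ext <;> simp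
  · have h1 := four_lt h20 hk3
    refine lt_of_lt_of_le h1 ?_
    exact ENat.card_le_card_of_injective (algebraMap k R).injective
  · rw [← Subgroup.map_sup, MonoidHom.range_eq_map]
    congr 1
    symm
    rw [eq_top_iff, ← htop]
    unfold grp
    rw [Subgroup.closure_le]
    rintro g (⟨c, rfl⟩ | ⟨c, rfl⟩)
    · exact Subgroup.mem_sup_left (Subgroup.subset_closure (upper_eq.2 ⟨_, rfl⟩))
    · exact Subgroup.mem_sup_right (Subgroup.subset_closure (lower_eq.2 ⟨_, rfl⟩))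
  · rw [(MonoidHom.ker_eq_bot_iff _).2 (Psi_inj h rep hι)]
    exact bot_le

/-! ### the root set -/

omit [FiniteDimensional k M] in
lemma mem_Sig {A : Subgroup (LinearMap.GeneralLinearGroup k M)} : A ∈ quadraticRootSubgroups G ↔
    ∃ σ : LinearMap.GeneralLinearGroup k M, Mn G ((σ : M →ₗ[k] M) - 1) ∧ A = sameActionSubgroup G σ := by
  constructor
  · rintro ⟨σ, h1, h2⟩; exact ⟨σ, mem_minimal_iff.1 h1, h2⟩
  · rintro ⟨σ, h1, h2⟩; exact ⟨σ, mem_minimal_iff.2 h1, h2⟩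

lemma Sig_le {A : Subgroup (LinearMap.GeneralLinearGroup k M)} (hA : A ∈ quadraticRootSubgroups G) : A ≤ G := by
  obtain ⟨σ, _, rfl⟩ := mem_Sig.1 hA
  exact E_le

lemma G0_le : (⨆ B ∈ quadraticRootSubgroups G, B) ≤ G := iSup₂_le fun _ hA => Sig_le hA

lemma Sig_conj {A : Subgroup (LinearMap.GeneralLinearGroup k M)} (hA : A ∈ quadraticRootSubgroups G)
    {g : LinearMap.GeneralLinearGroup k M} (hg : g ∈ G) : conjBy A g ∈ quadraticRootSubgroups G := by
  obtain ⟨σ, hσ, rfl⟩ := mem_Sig.1 hA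
  rw [E_conj hg]
  refine mem_Sig.2 ⟨_, ?_, rfl⟩
  rw [coe_conj]
  exact Mn.conj hσ hg

lemma Sig_ne_bot {A : Subgroup (LinearMap.GeneralLinearGroup k M)} (hA : A ∈ quadraticRootSubgroups G) : A ≠ ⊥ := by
  obtain ⟨σ, hσ, rfl⟩ := mem_Sig.1 hA
  intro h0
  have := self_mem hσ
  rw [h0, Subgroup.mem_bot] at this
  exact ne_one hσ this

section two
variable {σ τ : LinearMap.GeneralLinearGroup k M}

lemma case_of_nc (h20 : (2 : k) ≠ 0) (hk3 : Nat.card k ≠ 3) (hG : IsIrreducibleFor G)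
    (hσ : Mn G ((σ : M →ₗ[k] M) - 1))
    (hτ : Mn G ((τ : M →ₗ[k] M) - 1)) (hc : Nc G ((σ : M →ₗ[k] M) - 1) ((τ : M →ₗ[k] M) - 1)) :
    RootCommutatorCase (quadraticRootSubgroups G) (sameActionSubgroup G σ) (sameActionSubgroup G τ) := by
  obtain ⟨h1, h2, h3, -, -, -, h7⟩ := nc_main h20 hk3 hG hσ hτ hc
  exact ⟨h1, h7, h2, h3⟩

end two

theorem preRoot (h20 : (2 : k) ≠ 0) (hk3 : Nat.card k ≠ 3) (hG : IsIrreducibleFor G) :
    PreRoot (quadraticRootSubgroups G) where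
  commutative := by
    intro A hA
    obtain ⟨σ, hσ, rfl⟩ := mem_Sig.1 hA
    exact E_comm σ
  ne_bot := fun A hA => Sig_ne_bot hA
  conj_mem := fun A hA g hg => Sig_conj hA (G0_le hg)
  pair := by
    intro A hA B hB
    obtain ⟨σ, hσ, rfl⟩ := mem_Sig.1 hA
    obtain ⟨τ, hτ, rfl⟩ := mem_Sig.1 hB
    rcases trich h20 hk3 hσ hτ with h | h | h
    · exact Or.inl (comm_E h)
    · exact Or.inr (Or.inr (case_of_nc h20 hk3 hG hσ hτ h))
    · exact Or.inr (Or.inl (pair_of_opp h20 hk3 hσ hτ h))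

theorem rootSet (h20 : (2 : k) ≠ 0) (hk3 : Nat.card k ≠ 3) (hG : IsIrreducibleFor G) :
    IsRootSubgroupSet (inner (quadraticRootSubgroups G)) := (preRoot h20 hk3 hG).root

theorem opp_of_pair (h20 : (2 : k) ≠ 0) (hk3 : Nat.card k ≠ 3) (hG : IsIrreducibleFor G)
    {σ τ : LinearMap.GeneralLinearGroup k M}
    (hσ : Mn G ((σ : M →ₗ[k] M) - 1)) (hτ : Mn G ((τ : M →ₗ[k] M) - 1))
    (h : IsRankOnePair (sameActionSubgroup G σ) (sameActionSubgroup G τ)) :
    Opp ((σ : M →ₗ[k] M) - 1) ((τ : M →ₗ[k] M) - 1) := by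
  have hA : sameActionSubgroup G σ ∈ quadraticRootSubgroups G := mem_Sig.2 ⟨σ, hσ, rfl⟩
  have hB : sameActionSubgroup G τ ∈ quadraticRootSubgroups G := mem_Sig.2 ⟨τ, hτ, rfl⟩
  rcases trich h20 hk3 hσ hτ with h1 | h1 | h1
  · exact absurd (comm_E h1) (Cfsg.Agent.Lib.RankOneGrp.not_commute h)
  · exfalso
    have h2 := (inner_case hA hB).2 (case_of_nc h20 hk3 hG hσ hτ h1)
    exact Cfsg.Agent.Lib.RootSub.pair_not_cc (rootSet h20 hk3 hG) ⟨_, hA, rfl⟩ ((inner_pair hA hB).2 h) h2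
  · exact h1

theorem exists_partner (h20 : (2 : k) ≠ 0) (hk3 : Nat.card k ≠ 3) (hG : IsQuadraticPair G)
    {A : Subgroup (LinearMap.GeneralLinearGroup k M)} (hA : A ∈ quadraticRootSubgroups G) :
    ∃ g ∈ G, IsRankOnePair A (conjBy A g) := by
  obtain ⟨σ, hσ, rfl⟩ := mem_Sig.1 hA
  obtain ⟨g, hg, ho⟩ := exists_opposite h20 hk3 hG.1 hσ
  refine ⟨g, hg, ?_⟩
  rw [E_conj hg]
  apply pair_of_opp h20 hk3 hσ
  · rw [coe_conj]; exact Mn.conj hσ hg
  · rw [coe_conj]; exact ho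

theorem exists_psl' (h20 : (2 : k) ≠ 0) (hk3 : Nat.card k ≠ 3) (hG : IsIrreducibleFor G)
    {A B : Subgroup (LinearMap.GeneralLinearGroup k M)} (hA : A ∈ quadraticRootSubgroups G)
    (hB : B ∈ quadraticRootSubgroups G) (h : IsRankOnePair A B) :
    ∃ A₀ B₀ : Subgroup (LinearMap.GeneralLinearGroup k M), A₀ ≤ A ∧
      B₀ ≤ B ∧ ∃ (k₁ : Type v) (_ : Field k₁), 3 < ENat.card k₁ ∧ IsPSL2PairOver k₁ A₀ B₀ := by
  obtain ⟨σ, hσ, rfl⟩ := mem_Sig.1 hA
  obtain ⟨τ, hτ, rfl⟩ := mem_Sig.1 hB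
  exact exists_psl h20 hk3 hσ hτ (opp_of_pair h20 hk3 hG hσ hτ h)

end Cfsg.Agent.Lib.QuadPairF
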