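import Cfsg.Agent.Lib.RootSub
set_option autoImplicit false

/-!
# Lines of sets of abstract root subgroups (helper84)

`S` is a set of abstract root subgroups; the main results describe a line `A ⊔ B` (`B` a line
partner of `A`) in the presence of a rank one partner `C` of `A`.
-/

namespace Cfsg.Agent.Lib.RootLines
open Cfsg Subgroup
open scoped commutatorElement
open Cfsg.Agent.Lib.RankOneGrp Cfsg.Agent.Lib.RootSub

variable {G : Type*} [Group G] {S : Set (Subgroup G)}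

/-! ### Rank one pairs -/

lemma swap_left {A B : Subgroup G} (h : IsRankOnePair A B) {b : G} (hb : b ∈ B) (hb1 : b ≠ 1) :
    ∃ a ∈ A, a ≠ 1 ∧ conjBy A b = conjBy B a := by
  obtain ⟨a, ha, ha1, e⟩ := h.cond_right b⁻¹ (B.inv_mem hb) (by simpa using hb1)
  rw [inv_inv] at e
  exact ⟨a⁻¹, A.inv_mem ha, by simpa using ha1, e.symm⟩

lemma pair_moved {A B : Subgroup G} (h : IsRankOnePair A B) {b : G} (hb : b ∈ B) (hb1 : b ≠ 1) :
    IsRankOnePair A (conjBy A b) :=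
  pair_of_mem h (left_mem_unip _ _)
    (conj_mem_unip (left_mem_unip _ _) (Subgroup.mem_sup_right hb))
    (fun e => hb1 (eq_one_of_conj_left h hb e.symm))

/-- the members of a root subgroup set without isolated members are a TI family -/
lemma ti (hS : IsRootSubgroupSet S) (hiso : ∀ A ∈ S, ∃ B ∈ S, IsRankOnePair A B)
    {A D : Subgroup G} (hA : A ∈ S) (hD : D ∈ S) {x : G} (hx : x ∈ A) (hxD : x ∈ D)
    (hx1 : x ≠ 1) : A = D := by
  obtain ⟨B, _, h⟩ := hiso A hA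
  exact eq_of_common hS h hA hD hx hxD hx1

/-- commutator case: no non-identity elements commute -/
lemma cc_inj (hS : IsRootSubgroupSet S) (hiso : ∀ A ∈ S, ∃ B ∈ S, IsRankOnePair A B)
    {A B : Subgroup G} (hA : A ∈ S) (h : RootCommutatorCase S A B) {a b : G} (ha : a ∈ A)
    (ha1 : a ≠ 1) (hb : b ∈ B) (hab : ⁅a, b⁆ = 1) : b = 1 := by
  obtain ⟨D, _, hAD⟩ := hiso A hA
  exact cc_injective hS hA hAD h ha ha1 hb hab

lemma cc_not_bot (hS : IsRootSubgroupSet S) {A B : Subgroup G} (h : RootCommutatorCase S A B) :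
    ⁅A, B⁆ ≠ ⊥ := hS.ne_bot _ h.1

lemma cc_bot_left {A B : Subgroup G} (h : RootCommutatorCase S A B) : ⁅A, ⁅A, B⁆⁆ = ⊥ := by
  rw [comm_bot_iff]
  intro a ha c hc
  exact (h.2.1 c hc a (Subgroup.mem_sup_left ha)).symm

lemma cc_bot_right {A B : Subgroup G} (h : RootCommutatorCase S A B) : ⁅B, ⁅A, B⁆⁆ = ⊥ := by
  rw [comm_bot_iff]
  intro a ha c hc
  exact (h.2.1 c hc a (Subgroup.mem_sup_right ha)).symm

lemma not_pair_of_bot {A B : Subgroup G} (h : ⁅A, B⁆ = ⊥) : ¬ IsRankOnePair A B :=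
  fun hp => not_commute hp h

/-- if `B` commutes with `A` and `C`, where `(A, C)` is a rank one pair, then the products `a b`
are not all in members of `S` -/
lemma not_comm_of_prod (hS : IsRootSubgroupSet S) {A B C : Subgroup G} (h : IsRankOnePair A C)
    (hA : A ∈ S) (hB : B ∈ S) (hAB : ⁅A, B⁆ = ⊥)
    (hprod : ∀ a ∈ A, ∀ b ∈ B, a ≠ 1 → b ≠ 1 → ∃ E ∈ S, a * b ∈ E) : ⁅B, C⁆ ≠ ⊥ := by
  intro hBC
  obtain ⟨b, hb, hb1⟩ := exists_ne_one (hS.ne_bot B hB)
  obtain ⟨a, ha, ha1⟩ := exists_left h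
  have hz : ∀ y ∈ A ⊔ C, b * y = y * b := by
    have : ⁅B, A ⊔ C⁆ = ⊥ := bot_sup_right (bot_symm hAB) hBC
    intro y hy
    exact commute_of_commutator_bot this hb hy
  obtain ⟨E, hE, hm⟩ := hprod a ha b hb ha1 hb1
  rw [commute_of_commutator_bot hAB ha hb] at hm
  exact translate_not_mem hS h hA hE hz hb1 ha ha1 hm

/-- a line through `A` has a point in the commutator case with each rank one partner `C` of `A` -/
lemma exists_cc (hS : IsRootSubgroupSet S)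
    {A B C : Subgroup G} (hA : A ∈ S) (hB : B ∈ S) (hC : C ∈ S) (h : IsRankOnePair A C)
    (hAB : ⁅A, B⁆ = ⊥) (hne : A ≠ B)
    (hprod : ∀ a ∈ A, ∀ b ∈ B, a ≠ 1 → b ≠ 1 → ∃ E ∈ S, E ≤ A ⊔ B ∧ a * b ∈ E) :
    RootCommutatorCase S B C ∨ ∃ a ∈ A, a ≠ 1 ∧ ∃ b ∈ B, b ≠ 1 ∧ ∃ D ∈ S, D ≤ A ⊔ B ∧
      a * b ∈ D ∧ RootCommutatorCase S D C := by
  rcases hS.pair B hB C hC with h1 | h1 | h1
  · exact absurd h1 (not_comm_of_prod hS h hA hB hAB (fun a ha b hb ha1 hb1 => by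
      obtain ⟨E, hE, _, hm⟩ := hprod a ha b hb ha1 hb1
      exact ⟨E, hE, hm⟩))
  · right
    obtain ⟨c, hc, hc1⟩ := exists_right h
    obtain ⟨a, ha, ha1, ea⟩ := swap_left h hc hc1
    obtain ⟨b, hb, hb1, eb⟩ := swap_left h1 hc hc1
    obtain ⟨D, hD, hDle, hm⟩ := hprod a⁻¹ (A.inv_mem ha) b hb (by simpa using ha1) hb1
    refine ⟨a⁻¹, A.inv_mem ha, by simpa using ha1, b, hb, hb1, D, hD, hDle, hm, ?_⟩
    have hcomm : ⁅conjBy C a, conjBy C b⁆ = ⊥ := by
      rw [← ea, ← eb, ← conjBy_commutator, hAB]; simp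
    have hcomm2 : ⁅C, conjBy C (a⁻¹ * b)⁆ = ⊥ := by
      have := congrArg (fun X => conjBy X a⁻¹) hcomm
      simp only [conjBy_commutator] at this
      rw [conjBy_inv_conjBy, ← conjBy_mul] at this
      simpa using this
    rcases hS.pair D hD C hC with h2 | h2 | h2
    · exfalso
      have h3 := conj_eq_of_commutator_bot h2 hm
      rw [conjBy_mul, conjBy_eq_iff, inv_inv] at h3
      rw [← ea, ← eb, conjBy_inj] at h3
      exact hne h3.symm
    · exfalso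
      have hm1 : a⁻¹ * b ≠ 1 := by
        intro e
        rw [inv_mul_eq_one] at e
        apply hne
        have h4 : conjBy A c = conjBy B c := by rw [ea, eb, e]
        rwa [conjBy_inj] at h4
      exact not_commute (pair_moved (RankOnePair_symm h2) hm hm1) hcomm2
    · exact h2
  · left; exact h1

/-- members commuting with `A` and in the commutator case with `C` -/
lemma cc_push (hS : IsRootSubgroupSet S) (hiso : ∀ A ∈ S, ∃ B ∈ S, IsRankOnePair A B)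
    {A C D : Subgroup G} (hA : A ∈ S) (hC : C ∈ S) (h : IsRankOnePair A C)
    (hAD : ⁅A, D⁆ = ⊥) (hcc : RootCommutatorCase S D C) : RootCommutatorCase S A ⁅D, C⁆ := by
  have hccs := cc_symm hcc
  have hF : ⁅D, C⁆ ∈ S := hcc.1
  have hCF : ⁅C, ⁅D, C⁆⁆ = ⊥ := cc_bot_right hcc
  have hne : C ≠ ⁅D, C⁆ := by
    rw [Subgroup.commutator_comm]; exact cc_ne hS hccs
  have hmem : ∀ c ∈ C, ∀ f ∈ ⁅D, C⁆, c ≠ 1 → f ≠ 1 → ∃ d ∈ D, conjBy C d ∈ S ∧
      conjBy C d ≤ C ⊔ ⁅D, C⁆ ∧ c * f ∈ conjBy C d := by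
    intro c hc f hf hc1 _
    rw [Subgroup.commutator_comm] at hf
    obtain ⟨d, hd, hm, _⟩ := cc_mem_conj hccs hc hc1 hf
    refine ⟨d, hd, hS.conj_mem C hC d, ?_, hm⟩
    rw [Subgroup.commutator_comm]
    exact conj_le_sup_commutator hd
  rcases exists_cc hS hC hF hA (RankOnePair_symm h) hCF hne (fun c hc f hf hc1 hf1 => by
    obtain ⟨d, _, h1, h2, h3⟩ := hmem c hc f hf hc1 hf1
    exact ⟨_, h1, h2, h3⟩) with h1 | ⟨c, hc, hc1, f, hf, hf1, E, hE, _, hm, hEA⟩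
  · exact cc_symm h1
  · exfalso
    obtain ⟨d, hd, h2, _, h4⟩ := hmem c hc f hf hc1 hf1
    have hcf : c * f ≠ 1 := by
      intro e
      apply hne
      refine ti hS hiso hC hF hc ?_ hc1
      rw [mul_eq_one_iff_eq_inv] at e
      rw [e]; exact Subgroup.inv_mem _ hf
    have e := ti hS hiso hE h2 hm h4 hcf
    have hp : IsRankOnePair A (conjBy C d) := by
      have := pair_conj h d
      rwa [conj_eq_of_commutator_bot (bot_symm hAD) hd] at this
    rw [e] at hEA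
    exact pair_not_cc hS hA hp (cc_symm hEA)

/-- Going back: with `F = ⁅D, C⁆` and `D' = ⁅A, F⁆`, also `⁅D', C⁆ = F`. -/
lemma cc_back (hS : IsRootSubgroupSet S) (hiso : ∀ A ∈ S, ∃ B ∈ S, IsRankOnePair A B)
    {A C D : Subgroup G} (hA : A ∈ S) (hC : C ∈ S) (hD : D ∈ S) (h : IsRankOnePair A C)
    (hAD : ⁅A, D⁆ = ⊥) (hcc : RootCommutatorCase S D C) :
    RootCommutatorCase S ⁅A, ⁅D, C⁆⁆ C ∧ ⁅⁅A, ⁅D, C⁆⁆, C⁆ = ⁅D, C⁆ := by
  have hccs := cc_symm hcc
  have hAF := cc_push hS hiso hA hC h hAD hcc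
  have hF : ⁅D, C⁆ ∈ S := hcc.1
  have hD' : ⁅A, ⁅D, C⁆⁆ ∈ S := hAF.1
  have hCF : ⁅C, ⁅D, C⁆⁆ = ⊥ := cc_bot_right hcc
  have hCD' : RootCommutatorCase S C ⁅A, ⁅D, C⁆⁆ := by
    have := cc_push hS hiso hC hA (RankOnePair_symm h) hCF (cc_symm hAF)
    rwa [Subgroup.commutator_comm ⁅D, C⁆ A] at this
  refine ⟨cc_symm hCD', ?_⟩
  have hDD' : ⁅D, ⁅A, ⁅D, C⁆⁆⁆ = ⊥ := by
    have hDF : ⁅D, ⁅D, C⁆⁆ = ⊥ := cc_bot_left hcc
    have h1 : ⁅D, A ⊔ ⁅D, C⁆⁆ = ⊥ := bot_sup_right (bot_symm hAD) hDF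
    exact bot_of_le_right h1 (Subgroup.commutator_le_sup _ _)
  obtain ⟨c, hc, hc1⟩ := exists_right h
  obtain ⟨a, ha, ha1, ea⟩ := swap_left h hc hc1
  obtain ⟨d, hd, hd1⟩ := exists_ne_one (hS.ne_bot D hD)
  -- `c d c⁻¹ = f d`
  set f : G := ⁅c, d⁆ with hfdef
  have hf : f ∈ ⁅D, C⁆ := by
    rw [Subgroup.commutator_comm]; exact commutator_mem_commutator hc hd
  set d' : G := ⁅a⁻¹, f⁆ with hd'def
  have hd' : d' ∈ ⁅A, ⁅D, C⁆⁆ := commutator_mem_commutator (A.inv_mem ha) hf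
  have had : a⁻¹ * d * a = d := by
    have := commute_of_commutator_bot hAD (A.inv_mem ha) hd
    rw [this]; group
  have hx : a⁻¹ * (c * d * c⁻¹) * a = d' * f * d := by
    have e1 : c * d * c⁻¹ = f * d := by rw [hfdef, commutatorElement_def]; group
    have e2 : a⁻¹ * f * a = d' * f := by rw [hd'def, commutatorElement_def]; group
    rw [e1]
    have : a⁻¹ * (f * d) * a = (a⁻¹ * f * a) * (a⁻¹ * d * a) := by group
    rw [this, e2, had]
  -- it commutes with `C`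
  have hxC : ∀ c' ∈ C, c' * (d' * f * d) = (d' * f * d) * c' := by
    intro c' hc'
    rw [← hx]
    have h1 : a * c' * a⁻¹ ∈ conjBy A c := by
      rw [ea]; exact conjBy_mem hc' a
    rw [mem_conjBy] at h1
    have h2 := commute_of_commutator_bot hAD h1 hd
    have h3 : c' = a⁻¹ * (c * (c⁻¹ * (a * c' * a⁻¹) * c) * c⁻¹) * a := by group
    have h4 : c' * (a⁻¹ * (c * d * c⁻¹) * a) =
        a⁻¹ * (c * ((c⁻¹ * (a * c' * a⁻¹) * c) * d) * c⁻¹) * a := by group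
    have h5 : (a⁻¹ * (c * d * c⁻¹) * a) * c' =
        a⁻¹ * (c * (d * (c⁻¹ * (a * c' * a⁻¹) * c)) * c⁻¹) * a := by group
    rw [h4, h5, h2]
  set u' : G := ⁅c, d'⁆ with hu'
  have hcf : c * f * c⁻¹ = f := by
    rw [commute_of_commutator_bot hCF hc hf]; group
  have key : u' * f = 1 := by
    have h1 := hxC c hc
    have h2 : c * (d' * f * d) * c⁻¹ = d' * f * d := by rw [h1]; group
    have h3 : c * (d' * f * d) * c⁻¹ = (c * d' * c⁻¹) * (c * f * c⁻¹) * (c * d * c⁻¹) := by group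
    have e1 : c * d * c⁻¹ = f * d := by rw [hfdef, commutatorElement_def]; group
    have e2 : c * d' * c⁻¹ = u' * d' := by rw [hu', commutatorElement_def]; group
    rw [h3, hcf, e1, e2] at h2
    have h5 : d' * f = f * d' :=
      commute_of_commutator_bot (bot_symm (cc_bot_right hAF)) hd' hf
    have h6 : u' * d' * f * (f * d) = (u' * f) * (d' * f * d) := by
      calc u' * d' * f * (f * d) = u' * (d' * f) * f * d := by group
        _ = u' * (f * d') * f * d := by rw [h5]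
        _ = _ := by group
    rw [h6] at h2
    exact mul_eq_right.1 h2
  have hu1 : f ≠ 1 := by
    intro e
    exact hd1 (cc_inj hS hiso hC hccs hc hc1 hd e)
  have huF' : f ∈ ⁅⁅A, ⁅D, C⁆⁆, C⁆ := by
    rw [Subgroup.commutator_comm]
    have : f = u'⁻¹ := (inv_eq_of_mul_eq_one_right key).symm
    rw [this]
    exact Subgroup.inv_mem _ (commutator_mem_commutator hc hd')
  exact ti hS hiso (cc_symm hCD').1 hF huF' hf hu1

/-- On a line: `⁅A, ⁅D, C⁆⁆ = D`. -/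
lemma cc_eq (hS : IsRootSubgroupSet S) (hiso : ∀ A ∈ S, ∃ B ∈ S, IsRankOnePair A B)
    {A C D : Subgroup G} (hA : A ∈ S) (hC : C ∈ S) (hD : D ∈ S) (h : IsRankOnePair A C)
    (hAD : ⁅A, D⁆ = ⊥) (hcc : RootCommutatorCase S D C)
    (hprod : ∀ a ∈ A, ∀ d ∈ D, a ≠ 1 → d ≠ 1 → ∃ E ∈ S, a * d ∈ E) : ⁅A, ⁅D, C⁆⁆ = D := by
  have hccs := cc_symm hcc
  have hAF := cc_push hS hiso hA hC h hAD hcc
  have hF : ⁅D, C⁆ ∈ S := hcc.1
  have hD' : ⁅A, ⁅D, C⁆⁆ ∈ S := hAF.1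
  obtain ⟨hD'C, hback⟩ := cc_back hS hiso hA hC hD h hAD hcc
  have hCF : ⁅C, ⁅D, C⁆⁆ = ⊥ := cc_bot_right hcc
  have hDF : ⁅D, ⁅D, C⁆⁆ = ⊥ := cc_bot_left hcc
  have hDD' : ⁅D, ⁅A, ⁅D, C⁆⁆⁆ = ⊥ := by
    have h1 : ⁅D, A ⊔ ⁅D, C⁆⁆ = ⊥ := bot_sup_right (bot_symm hAD) hDF
    exact bot_of_le_right h1 (Subgroup.commutator_le_sup _ _)
  have hAD' : ⁅A, ⁅A, ⁅D, C⁆⁆⁆ = ⊥ := cc_bot_left hAF
  have hFD' : ⁅⁅D, C⁆, ⁅A, ⁅D, C⁆⁆⁆ = ⊥ := cc_bot_right hAF
  by_contra hne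
  obtain ⟨c, hc, hc1⟩ := exists_right h
  obtain ⟨d, hd, hd1⟩ := exists_ne_one (hS.ne_bot D hD)
  obtain ⟨a, ha, ha1⟩ := exists_left h
  have hu : ⁅c, d⁆ ∈ ⁅C, ⁅A, ⁅D, C⁆⁆⁆ := by
    rw [Subgroup.commutator_comm C, hback, Subgroup.commutator_comm]
    exact commutator_mem_commutator hc hd
  obtain ⟨d', hd', e⟩ := cc_surj_right (cc_symm hD'C) hc hc1 hu
  have hd'1 : d' ≠ 1 := by
    rintro rfl
    rw [commutatorElement_one_right] at e
    exact hd1 (cc_inj hS hiso hC hccs hc hc1 hd e.symm)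
  -- `y = d'⁻¹ d` centralizes `⟨A, C⟩` and `F`
  have hyc : c * (d'⁻¹ * d) = (d'⁻¹ * d) * c := by
    rw [commutatorElement_def, commutatorElement_def] at e
    have e1 : c * d' * c⁻¹ = (c * d * c⁻¹ * d⁻¹) * d' := by rw [← e]; group
    have e2 : c * (d'⁻¹ * d) * c⁻¹ = (c * d' * c⁻¹)⁻¹ * (c * d * c⁻¹) := by group
    have e3 : c * (d'⁻¹ * d) * c⁻¹ = d'⁻¹ * d := by
      rw [e2, e1]; group
    calc c * (d'⁻¹ * d) = (c * (d'⁻¹ * d) * c⁻¹) * c := by group
      _ = _ := by rw [e3]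
  have hyA : ∀ x ∈ A, (d'⁻¹ * d) * x = x * (d'⁻¹ * d) := by
    intro x hx
    have h1 := commute_of_commutator_bot hAD hx hd
    have h2 := commute_of_commutator_bot hAD' hx (Subgroup.inv_mem _ hd')
    rw [mul_assoc, ← h1, ← mul_assoc, ← h2, mul_assoc]
  have hyF : ∀ x ∈ ⁅D, C⁆, (d'⁻¹ * d) * x = x * (d'⁻¹ * d) := by
    intro x hx
    have h1 := commute_of_commutator_bot hDF hd hx
    have h2 := commute_of_commutator_bot hFD' hx (Subgroup.inv_mem _ hd')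
    rw [mul_assoc, h1, ← mul_assoc, ← h2, mul_assoc]
  have hyX : ∀ x ∈ A ⊔ C, (d'⁻¹ * d) * x = x * (d'⁻¹ * d) := by
    have hs := sup_eq_of_mem h (left_mem_unip A C)
      (conj_mem_unip (left_mem_unip A C) (Subgroup.mem_sup_right hc))
      (fun e => hc1 (eq_one_of_conj_left h hc e.symm))
    rw [← hs]
    intro x hx
    refine sup_induction (p := fun x => (d'⁻¹ * d) * x = x * (d'⁻¹ * d)) (by simp) ?_ ?_ hx
    · intro x hx z hz
      rw [← mul_assoc, hyA x hx, mul_assoc, hz, mul_assoc]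
    · intro x hx z hz
      have hx' : (d'⁻¹ * d) * x = x * (d'⁻¹ * d) := by
        rw [mem_conjBy] at hx
        have h1 := hyA _ hx
        generalize d'⁻¹ * d = y at *
        have h2 : x = c * (c⁻¹ * x * c) * c⁻¹ := by group
        have h3 : y * c⁻¹ = c⁻¹ * y := by
          rw [eq_inv_mul_iff_mul_eq, ← mul_assoc, hyc]; group
        rw [h2]
        calc y * (c * (c⁻¹ * x * c) * c⁻¹) = (y * c) * (c⁻¹ * x * c) * c⁻¹ := by group
          _ = c * (y * (c⁻¹ * x * c)) * c⁻¹ := by rw [← hyc]; group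
          _ = c * (c⁻¹ * x * c) * (y * c⁻¹) := by rw [h1]; group
          _ = _ := by rw [h3]; group
      rw [← mul_assoc, hx', mul_assoc, hz, mul_assoc]
  have hy1 : d'⁻¹ * d ≠ 1 := by
    intro e1
    rw [inv_mul_eq_one] at e1
    rw [e1] at hd'
    exact hne (ti hS hiso hD' hD hd' hd hd1)
  obtain ⟨E, hE, hmE⟩ := hprod a ha d hd ha1 hd1
  obtain ⟨f, hf, hm, _⟩ := cc_mem_conj hAF ha ha1 hd'
  have hp : IsRankOnePair (conjBy A f) C := by
    have := pair_conj h f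
    rwa [conj_eq_of_commutator_bot (bot_symm hCF) hf] at this
  have hz : ∀ y ∈ conjBy A f ⊔ C, (d'⁻¹ * d) * y = y * (d'⁻¹ * d) := by
    intro y hy
    refine sup_induction (p := fun x => (d'⁻¹ * d) * x = x * (d'⁻¹ * d)) (by simp) ?_ ?_ hy
    · intro x hx z hz
      have hx' : (d'⁻¹ * d) * x = x * (d'⁻¹ * d) := by
        rw [mem_conjBy] at hx
        have h1 := hyA _ hx
        have hyf := hyF f hf
        generalize d'⁻¹ * d = y at *
        have h2 : x = f * (f⁻¹ * x * f) * f⁻¹ := by group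
        have h3 : y * f⁻¹ = f⁻¹ * y := by
          rw [eq_inv_mul_iff_mul_eq, ← mul_assoc, ← hyf]; group
        rw [h2]
        calc y * (f * (f⁻¹ * x * f) * f⁻¹) = (y * f) * (f⁻¹ * x * f) * f⁻¹ := by group
          _ = f * (y * (f⁻¹ * x * f)) * f⁻¹ := by rw [hyf]; group
          _ = f * (f⁻¹ * x * f) * (y * f⁻¹) := by rw [h1]; group
          _ = _ := by rw [h3]; group
      rw [← mul_assoc, hx', mul_assoc, hz, mul_assoc]
    · intro x hx z hz
      rw [← mul_assoc, hyX x (Subgroup.mem_sup_right hx), mul_assoc, hz, mul_assoc]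
  have had' : a * d' ≠ 1 := by
    intro e1
    rw [mul_eq_one_iff_eq_inv] at e1
    have h1 : a ∈ ⁅A, ⁅D, C⁆⁆ := by rw [e1]; exact Subgroup.inv_mem _ hd'
    exact cc_ne hS hAF (ti hS hiso hA hD' ha h1 ha1)
  refine translate_not_mem hS hp (hS.conj_mem A hA f) hE hz hy1 hm had' ?_
  have : (d'⁻¹ * d) * (a * d') = a * d := by
    have h1 := hyA a ha
    have h2 := commute_of_commutator_bot hDD' hd hd'
    calc (d'⁻¹ * d) * (a * d') = ((d'⁻¹ * d) * a) * d' := by group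
      _ = a * d'⁻¹ * (d * d') := by rw [h1]; group
      _ = _ := by rw [h2]; group
  rw [this]; exact hmE

/-! ### The structure of lines -/

/-- elements of a line are in members of `S` -/
lemma line_prod (hS : IsRootSubgroupSet S) {A B : Subgroup G} (hA : A ∈ S)
    (hB : B ∈ linePartners S A) {a b : G} (ha : a ∈ A) (hb : b ∈ B) (ha1 : a ≠ 1) :
    ∃ E ∈ S, E ≤ A ⊔ B ∧ a * b ∈ E := by
  obtain ⟨⟨hBS, hBA, hAB⟩, hpart⟩ := hB
  have hAm : A ∈ membersIn S (A ⊔ B) := ⟨hA, le_sup_left⟩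
  have hBm : B ∈ membersIn S (A ⊔ B) := ⟨hBS, le_sup_right⟩
  have hABi : A ⊓ B = ⊥ := hpart.2.2 A hAm B hBm (Ne.symm hBA)
  have hab1 : a * b ≠ 1 := by
    intro e
    have : a ∈ A ⊓ B := ⟨ha, by
      have : a = b⁻¹ := eq_inv_of_mul_eq_one_left e
      rw [this]; exact B.inv_mem hb⟩
    rw [hABi, Subgroup.mem_bot] at this
    exact ha1 this
  obtain ⟨E, ⟨hE, hle⟩, hm⟩ := hpart.2.1 _
    (Subgroup.mul_mem _ (Subgroup.mem_sup_left ha) (Subgroup.mem_sup_right hb)) hab1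
  exact ⟨E, hE, hle, hm⟩

lemma line_symm {A B : Subgroup G} (hA : A ∈ S) (hB : B ∈ linePartners S A) :
    A ∈ linePartners S B := by
  obtain ⟨⟨hBS, hBA, hAB⟩, hpart⟩ := hB
  refine ⟨⟨hA, Ne.symm hBA, bot_symm hAB⟩, ?_⟩
  rw [sup_comm]; exact hpart

/-- the structure of a line `A ⊔ B`, given a rank one partner `C` of `A` -/
lemma line_struct (hS : IsRootSubgroupSet S) (hiso : ∀ A ∈ S, ∃ B ∈ S, IsRankOnePair A B)
    {A B C : Subgroup G} (hA : A ∈ S) (hB : B ∈ linePartners S A) (hC : C ∈ S)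
    (h : IsRankOnePair A C) :
    ∃ D ∈ S, RootCommutatorCase S D C ∧ ⁅A, D⁆ = ⊥ ∧ A ≠ D ∧ A ⊔ B = A ⊔ D ∧
      ⁅A, ⁅D, C⁆⁆ = D := by
  obtain ⟨hBS, hBA, hAB⟩ := hB.1
  rcases exists_cc hS hA hBS hC h hAB (Ne.symm hBA)
    (fun a ha b hb ha1 _ => line_prod hS hA hB ha hb ha1) with
    h1 | ⟨a, ha, ha1, b, hb, hb1, D, hD, hDle, hm, hcc⟩
  · refine ⟨B, hBS, h1, hAB, Ne.symm hBA, rfl, ?_⟩
    exact cc_eq hS hiso hA hC hBS h hAB h1 (fun a ha b hb ha1 _ => by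
      obtain ⟨E, hE, _, hm⟩ := line_prod hS hA hB ha hb ha1
      exact ⟨E, hE, hm⟩)
  · have hcomm : IsMulCommutative ↥(A ⊔ B) :=
      commutative_sup (hS.commutative A hA) (hS.commutative B hBS) hAB
    have hAD : ⁅A, D⁆ = ⊥ := by
      rw [comm_bot_iff]
      intro x hx y hy
      exact commute_of_isMulCommutative hcomm (Subgroup.mem_sup_left hx) (hDle hy)
    have hAne : A ≠ D := by
      rintro rfl
      exact pair_not_cc hS hA h hcc
    have hprod : ∀ a ∈ A, ∀ d ∈ D, a ≠ 1 → d ≠ 1 → ∃ E ∈ S, a * d ∈ E := by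
      intro x hx y hy hx1 hy1
      have hxy : x * y ≠ 1 := by
        intro e
        rw [mul_eq_one_iff_eq_inv] at e
        apply hAne
        refine ti hS hiso hA hD hx ?_ hx1
        rw [e]; exact D.inv_mem hy
      obtain ⟨E, ⟨hE, _⟩, hm⟩ := hB.2.2.1 _
        (Subgroup.mul_mem _ (Subgroup.mem_sup_left hx) (hDle hy)) hxy
      exact ⟨E, hE, hm⟩
    have heq := cc_eq hS hiso hA hC hD h hAD hcc hprod
    refine ⟨D, hD, hcc, hAD, hAne, ?_, heq⟩
    apply le_antisymm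
    · refine sup_le le_sup_left ?_
      have hAF := cc_push hS hiso hA hC h hAD hcc
      have hpart := cc_partition hS hA hC h hAF
      rw [heq] at hpart
      have hbm : b ∈ A ⊔ D := by
        have : b = a⁻¹ * (a * b) := by group
        rw [this]
        exact Subgroup.mul_mem _ (Subgroup.mem_sup_left (A.inv_mem ha)) (Subgroup.mem_sup_right hm)
      obtain ⟨E, ⟨hE, hEle⟩, hbE⟩ := hpart.2.1 b hbm hb1
      rw [ti hS hiso hBS hE hb hbE hb1]
      exact hEle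
    · exact sup_le le_sup_left hDle

/-- a configuration `A, C, D, F`: `(A, C)` a rank one pair, `⁅D, C⁆ = F` and `⁅A, F⁆ = D` -/
structure Config (S : Set (Subgroup G)) (A C D F : Subgroup G) : Prop where
  hA : A ∈ S
  hC : C ∈ S
  hD : D ∈ S
  hF : F ∈ S
  h : IsRankOnePair A C
  hDC : ⁅D, C⁆ = F
  hAF : ⁅A, F⁆ = D

namespace Config

variable {A C D F : Subgroup G}

lemma symm (q : Config S A C D F) : Config S C A F D :=
  ⟨q.hC, q.hA, q.hF, q.hD, RankOnePair_symm q.h, by rw [Subgroup.commutator_comm]; exact q.hAF,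
    by rw [Subgroup.commutator_comm]; exact q.hDC⟩

variable (hS : IsRootSubgroupSet S) (q : Config S A C D F)
include hS q

lemma conj (g : G) : Config S (conjBy A g) (conjBy C g) (conjBy D g) (conjBy F g) :=
  ⟨hS.conj_mem _ q.hA g, hS.conj_mem _ q.hC g, hS.conj_mem _ q.hD g, hS.conj_mem _ q.hF g,
    pair_conj q.h g, by rw [← conjBy_commutator, q.hDC], by rw [← conjBy_commutator, q.hAF]⟩

lemma ccDC : RootCommutatorCase S D C :=
  cc_of_mem hS q.hD q.hC (by rw [q.hDC]; exact q.hF)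

lemma ccAF : RootCommutatorCase S A F :=
  cc_of_mem hS q.hA q.hF (by rw [q.hAF]; exact q.hD)

lemma AD : ⁅A, D⁆ = ⊥ := by
  have := cc_bot_left (q.ccAF hS)
  rwa [q.hAF] at this

lemma FD : ⁅F, D⁆ = ⊥ := by
  have := cc_bot_right (q.ccAF hS)
  rwa [q.hAF] at this

lemma CF : ⁅C, F⁆ = ⊥ := by
  have := cc_bot_right (q.ccDC hS)
  rwa [q.hDC] at this

/-- the points of the line `A ⊔ D` -/
lemma membersIn_eq : membersIn S (A ⊔ D) = (fun f : G => conjBy A f) '' (F : Set G) ∪ {D} := by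
  have := cc_membersIn hS q.hA q.hC q.h (q.ccAF hS)
  rwa [q.hAF] at this

/-- a point of the line other than `D` is a conjugate of `A` under `F`, and opposite `C` -/
lemma point {P : Subgroup G} (hP : P ∈ S) (hle : P ≤ A ⊔ D) (hne : P ≠ D) :
    ∃ f ∈ F, P = conjBy A f := by
  have h1 : P ∈ membersIn S (A ⊔ D) := ⟨hP, hle⟩
  rw [q.membersIn_eq hS] at h1
  rcases h1 with ⟨f, hf, rfl⟩ | h1
  · exact ⟨f, hf, rfl⟩
  · exact absurd h1 hne

lemma pair_conj_F {f : G} (hf : f ∈ F) : IsRankOnePair (conjBy A f) C := by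
  have := pair_conj q.h f
  rwa [conj_eq_of_commutator_bot (bot_symm (q.CF hS)) hf] at this

lemma pair_point {P : Subgroup G} (hP : P ∈ S) (hle : P ≤ A ⊔ D) (hne : P ≠ D) :
    IsRankOnePair P C := by
  obtain ⟨f, hf, rfl⟩ := q.point hS hP hle hne
  exact q.pair_conj_F hS hf

lemma line : D ∈ linePartners S A := by
  have := cc_linePartners hS q.hA q.hC q.h (q.ccAF hS)
  rw [q.hAF] at this
  exact line_symm q.hD this

lemma line_norm {f : G} (hf : f ∈ F) : conjBy (A ⊔ D) f = A ⊔ D := by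
  rw [conjBy_sup, conj_eq_of_commutator_bot (q.FD hS) hf]
  apply le_antisymm
  · refine sup_le ?_ le_sup_right
    have := conj_le_sup_commutator (A := A) hf
    rwa [q.hAF] at this
  · refine sup_le ?_ le_sup_right
    have h1 := conj_le_sup_commutator (A := conjBy A f) (B := F) (F.inv_mem hf)
    rw [conjBy_inv_conjBy] at h1
    have h2 : ⁅conjBy A f, F⁆ = D := by
      have h3 := (q.conj hS f).hAF
      rw [conjBy_of_mem hf] at h3
      rw [h3, conj_eq_of_commutator_bot (q.FD hS) hf]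
    rwa [h2] at h1

end Config

/-- every line through `A` comes from a configuration, for every rank one partner `C` of `A` -/
lemma exists_config (hS : IsRootSubgroupSet S) (hiso : ∀ A ∈ S, ∃ B ∈ S, IsRankOnePair A B)
    {A B C : Subgroup G} (hA : A ∈ S) (hB : B ∈ linePartners S A) (hC : C ∈ S)
    (h : IsRankOnePair A C) : ∃ D F, Config S A C D F ∧ A ⊔ B = A ⊔ D := by
  obtain ⟨D, hD, hcc, hAD, hne, hsup, heq⟩ := line_struct hS hiso hA hB hC h
  exact ⟨D, ⁅D, C⁆, ⟨hA, hC, hD, hcc.1, h, rfl, heq⟩, hsup⟩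

end Cfsg.Agent.Lib.RootLines
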