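import Cfsg.Agent.Lib.RootClass
set_option autoImplicit false

/-!
# Weak TI-subsets, connectivity and generation for classes of abstract root subgroups (helper84)
-/

namespace Cfsg.Agent.Lib.RootTI
open Cfsg Subgroup
open scoped commutatorElement
open Cfsg.Agent.Lib.RankOneGrp Cfsg.Agent.Lib.RootSub Cfsg.Agent.Lib.RootLines
open Cfsg.Agent.Lib.RootOpp Cfsg.Agent.Lib.RootClass

variable {G : Type*} [Group G] {S : Set (Subgroup G)}

/-! ### Swapping commuting members with a common rank one partner -/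

lemma swap_rel {R : Subgroup G → Subgroup G → Prop}
    (hconj : ∀ X Y : Subgroup G, ∀ g : G, R X Y → R (conjBy X g) (conjBy Y g))
    (htrans : ∀ X Y Z : Subgroup G, R X Y → R Y Z → R X Z)
    (hnp : ∀ X Y : Subgroup G, R X Y → ¬ IsRankOnePair X Y)
    {A C D : Subgroup G} (hAC : ⁅A, C⁆ = ⊥) (hAD : IsRankOnePair A D) (hCD : IsRankOnePair C D)
    (h : R A C) : R C A := by
  obtain ⟨d, hd, hd1⟩ := exists_right hAD
  obtain ⟨a, ha, ha1, ea⟩ := swap_left hAD hd hd1
  obtain ⟨c, hc, hc1, ec⟩ := swap_left hCD hd hd1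
  have h1 := hconj _ _ (a⁻¹ * c⁻¹) (hconj _ _ d h)
  have hac : a⁻¹ * c⁻¹ = c⁻¹ * a⁻¹ := commute_of_commutator_bot hAC (A.inv_mem ha) (C.inv_mem hc)
  have e1 : conjBy (conjBy A d) (a⁻¹ * c⁻¹) = conjBy D c⁻¹ := by
    rw [ea, hac, conjBy_mul, conjBy_inv_conjBy]
  have e2 : conjBy (conjBy C d) (a⁻¹ * c⁻¹) = conjBy D a⁻¹ := by
    rw [ec, conjBy_mul, conjBy_inv_conjBy]
  rw [e1, e2] at h1
  obtain ⟨d1, hd1', _, f1⟩ := swap_left (RankOnePair_symm hCD) (C.inv_mem hc) (by simpa using hc1)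
  obtain ⟨d2, hd2', _, f2⟩ := swap_left (RankOnePair_symm hAD) (A.inv_mem ha) (by simpa using ha1)
  rw [f1, f2] at h1
  have h2 : R (conjBy A d1) (conjBy A d2) := htrans _ _ _ (hconj _ _ d1 h) h1
  by_cases hdd : d1 = d2
  · rw [hdd] at h1
    have := hconj _ _ d2⁻¹ h1
    simpa using this
  · exfalso
    apply hnp _ _ h2
    refine pair_of_mem hAD (conj_mem_unip (left_mem_unip _ _) (Subgroup.mem_sup_right hd1'))
      (conj_mem_unip (left_mem_unip _ _) (Subgroup.mem_sup_right hd2')) ?_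
    intro e
    exact hdd (right_unique' hAD hd1' hd2' e)

lemma mem_centralizingMembers {U B : Subgroup G} :
    B ∈ centralizingMembers S U ↔ B ∈ S ∧ ⁅B, U⁆ = ⊥ := by
  unfold centralizingMembers
  rw [Set.mem_ofPred_eq, Subgroup.commutator_eq_bot_iff_le_centralizer]

lemma conj_centralizingMembers (hS : IsRootSubgroupSet S) {X Y : Subgroup G} (g : G)
    (h : centralizingMembers S X ⊆ centralizingMembers S Y) :
    centralizingMembers S (conjBy X g) ⊆ centralizingMembers S (conjBy Y g) := by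
  intro B hB
  rw [mem_centralizingMembers] at hB
  have h1 : conjBy B g⁻¹ ∈ centralizingMembers S X := by
    rw [mem_centralizingMembers]
    refine ⟨hS.conj_mem B hB.1 _, ?_⟩
    have := congrArg (fun Z => conjBy Z g⁻¹) hB.2
    simp only [conjBy_commutator, conjBy_inv_conjBy] at this
    simpa using this
  have h2 := h h1
  rw [mem_centralizingMembers] at h2 ⊢
  refine ⟨hB.1, ?_⟩
  have := congrArg (fun Z => conjBy Z g) h2.2
  simp only [conjBy_commutator, conjBy_conjBy_inv] at this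
  simpa using this

lemma conj_rankOnePartners (hS : IsRootSubgroupSet S) {X Y : Subgroup G} (g : G)
    (h : rankOnePartners S X ⊆ rankOnePartners S Y) :
    rankOnePartners S (conjBy X g) ⊆ rankOnePartners S (conjBy Y g) := by
  intro B hB
  have h1 : conjBy B g⁻¹ ∈ rankOnePartners S X := by
    refine ⟨hS.conj_mem B hB.1 _, ?_⟩
    have := pair_conj hB.2 g⁻¹
    rwa [conjBy_inv_conjBy] at this
  have h2 := h h1
  refine ⟨hB.1, ?_⟩
  have := pair_conj h2.2 g
  rwa [conjBy_conjBy_inv] at this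

lemma cc_conj_ne (hS : IsRootSubgroupSet S) (hiso : ∀ A ∈ S, ∃ B ∈ S, IsRankOnePair A B)
    {A B : Subgroup G} (hA : A ∈ S) (h : RootCommutatorCase S A B) {b : G} (hb : b ∈ B)
    (hb1 : b ≠ 1) : conjBy A b ≠ A := by
  intro e
  apply hb1
  obtain ⟨a, ha, ha1⟩ := exists_ne_one (hS.ne_bot A hA)
  refine cc_inj hS hiso hA h ha ha1 hb ?_
  have h1 : ⁅a, b⁆ ∈ A := by
    have e2 : ⁅a, b⁆ = a * (b * a⁻¹ * b⁻¹) := by
      rw [commutatorElement_def]; group
    rw [e2]
    refine A.mul_mem ha ?_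
    have := conjBy_mem (A.inv_mem ha) b
    rwa [e] at this
  by_contra hne
  exact cc_ne hS h (ti hS hiso hA h.1 h1 (Subgroup.commutator_mem_commutator ha hb) hne)

/-- a line through `C` (commutator case with `A`): members other than `⁅C, A⁆` are conjugates -/
lemma cc_point (hS : IsRootSubgroupSet S) (hiso : ∀ A ∈ S, ∃ B ∈ S, IsRankOnePair A B)
    {A B P : Subgroup G} (hA : A ∈ S) (h : RootCommutatorCase S A B) (hP : P ∈ S)
    (hle : P ≤ A ⊔ ⁅A, B⁆) (hne : P ≠ ⁅A, B⁆) : ∃ b ∈ B, P = conjBy A b := by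
  obtain ⟨D, hD, hAD⟩ := hiso A hA
  have h1 : P ∈ membersIn S (A ⊔ ⁅A, B⁆) := ⟨hP, hle⟩
  rw [cc_membersIn hS hA hD hAD h] at h1
  rcases h1 with ⟨b, hb, rfl⟩ | h1
  · exact ⟨b, hb, rfl⟩
  · exact absurd h1 hne

lemma cc_line (hS : IsRootSubgroupSet S) (hiso : ∀ A ∈ S, ∃ B ∈ S, IsRankOnePair A B)
    {A B : Subgroup G} (hA : A ∈ S) (h : RootCommutatorCase S A B) :
    A ∈ linePartners S ⁅A, B⁆ := by
  obtain ⟨D, hD, hAD⟩ := hiso A hA
  exact cc_linePartners hS hA hD hAD h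

/-- second half of S5037, the commutator case is impossible -/
lemma rank_sub_not_cc (hS : IsRootSubgroupSet S) (hiso : ∀ A ∈ S, ∃ B ∈ S, IsRankOnePair A B)
    {A C : Subgroup G} (hA : A ∈ S) (hC : C ∈ S)
    (h : rankOnePartners S A ⊆ rankOnePartners S C) : ¬ RootCommutatorCase S A C := by
  intro hcc
  have hE := hcc.1
  have hccs := cc_symm hcc
  have step : ∀ D ∈ S, IsRankOnePair A D → RootCommutatorCase S ⁅A, C⁆ D := by
    intro D hD hAD
    have hCD : IsRankOnePair C D := (h ⟨hD, hAD⟩).2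
    have hl : ⁅C, A⁆ ∈ linePartners S C := line_symm hccs.1 (cc_line hS hiso hC hccs)
    obtain ⟨D', F', q, hsup⟩ := RootLines.exists_config hS hiso hC hl hD hCD
    by_cases hne : D' = ⁅C, A⁆
    · have := q.ccDC hS
      rw [hne, Subgroup.commutator_comm] at this
      exact this
    · exfalso
      obtain ⟨a, ha, e⟩ := cc_point hS hiso hC hccs q.hD (by rw [hsup]; exact le_sup_right) hne
      have h1 : IsRankOnePair A (conjBy D a⁻¹) := by
        have := pair_conj hAD a⁻¹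
        rwa [conjBy_of_mem (A.inv_mem ha)] at this
      have h2 : IsRankOnePair C (conjBy D a⁻¹) := (h ⟨hS.conj_mem D hD _, h1⟩).2
      have h3 := pair_conj h2 a
      rw [conjBy_conjBy_inv, ← e] at h3
      exact pair_not_cc hS q.hD h3 (q.ccDC hS)
  obtain ⟨D, hD, hED⟩ := hiso _ hE
  obtain ⟨D', F', q, hsup⟩ := RootLines.exists_config hS hiso hE (cc_line hS hiso hA hcc) hD hED
  obtain ⟨c, hc, hcne⟩ : ∃ c ∈ C, conjBy A c ≠ D' := by
    by_cases hAD' : A = D'
    · obtain ⟨c, hc, hc1⟩ := exists_ne_one (hS.ne_bot C hC)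
      exact ⟨c, hc, by rw [← hAD']; exact cc_conj_ne hS hiso hA hcc hc hc1⟩
    · exact ⟨1, C.one_mem, by rw [conjBy_one]; exact hAD'⟩
  have hle : conjBy A c ≤ ⁅A, C⁆ ⊔ D' := by
    rw [← hsup, sup_comm]; exact conj_le_sup_commutator hc
  have h1 := q.pair_point hS (hS.conj_mem A hA c) hle hcne
  have h2 : IsRankOnePair A (conjBy D c⁻¹) := by
    have := pair_conj h1 c⁻¹
    rwa [conjBy_inv_conjBy] at this
  have h3 := cc_conj hS.conj_mem (step _ (hS.conj_mem D hD _) h2) c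
  rw [conjBy_conjBy_inv, conj_eq_of_commutator_bot (cc_bot_right hcc) hc] at h3
  exact pair_not_cc hS hE hED h3

/-! ### Weak TI-subsets -/

/-- the stabilizer of a family of subgroups -/
def stab (Δ : Set (Subgroup G)) : Subgroup G where
  carrier := {g | ∀ A : Subgroup G, conjBy A g ∈ Δ ↔ A ∈ Δ}
  one_mem' := by intro A; rw [conjBy_one]
  mul_mem' := by
    intro x y hx hy A
    rw [conjBy_mul, hx, hy]
  inv_mem' := by
    intro x hx A
    rw [← hx, conjBy_conjBy_inv]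

lemma mem_stab {Δ : Set (Subgroup G)} {g : G} :
    g ∈ stab Δ ↔ ∀ A : Subgroup G, conjBy A g ∈ Δ ↔ A ∈ Δ := Iff.rfl

lemma mem_stab_of_image {Δ : Set (Subgroup G)} {g : G}
    (h : (fun A => conjBy A g) '' Δ = Δ) : g ∈ stab Δ := by
  rw [mem_stab]
  intro A
  constructor
  · intro hA
    rw [← h] at hA
    obtain ⟨B, hB, e⟩ := hA
    rw [conjBy_inj] at e
    rw [← e]; exact hB
  · intro hA
    rw [← h]; exact ⟨A, hA, rfl⟩

section weak

variable (n : Nd S) {Δ : Set (Subgroup G)} (hΔ : IsWeakTISubset S Δ)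
include hΔ

lemma st_of {P : Subgroup G} {Q : Subgroup G} (hQ : Q ∈ S) {q : G} (hq : q ∈ Q) (hP : P ∈ Δ)
    (hPq : conjBy P q ∈ Δ) : q ∈ stab Δ := by
  by_cases hq1 : q = 1
  · rw [hq1]; exact Subgroup.one_mem _
  · rcases hΔ.2.2.2 q ⟨hq1, Q, hQ, hq⟩ with h | h
    · exact mem_stab_of_image h
    · exfalso
      exact Set.disjoint_left.1 h ⟨P, hP, rfl⟩ hPq

lemma le_stab_of_comm {P Q : Subgroup G} (hQ : Q ∈ S) (hP : P ∈ Δ) (h : ⁅Q, P⁆ = ⊥) :
    Q ≤ stab Δ := by
  intro q hq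
  refine st_of hΔ hQ hq hP ?_
  rw [conj_eq_of_commutator_bot h hq]; exact hP

include n

lemma exists_not_le : ∃ E ∈ S, ¬ E ≤ stab Δ := by
  by_contra hcon
  push Not at hcon
  have htop : stab Δ = ⊤ := by
    rw [eq_top_iff, ← n.hS.generates]
    exact iSup₂_le hcon
  apply hΔ.2.2.1
  apply Set.Subset.antisymm hΔ.1
  obtain ⟨A, hA, _⟩ := hΔ.2.1
  intro B hB
  obtain ⟨g, rfl⟩ := n.cl A (hΔ.1 hA) B hB
  have : g ∈ stab Δ := by rw [htop]; exact Subgroup.mem_top g
  exact (mem_stab.1 this A).2 hA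

lemma opp_all {A B E : Subgroup G} (hA : A ∈ Δ) (hB : B ∈ Δ) (h : IsRankOnePair A B)
    (hE : E ∈ S) (hEK : ¬ E ≤ stab Δ) : IsRankOnePair A E := by
  have hAS := hΔ.1 hA
  have hBS := hΔ.1 hB
  rcases n.hS.pair A hAS E hE with h1 | h1 | h1
  · exact absurd (le_stab_of_comm hΔ hE hA (bot_symm h1)) hEK
  · exact h1
  · exfalso
    apply hEK
    have hl : ⁅A, E⁆ ∈ linePartners S A := line_symm h1.1 (cc_line n.hS n.iso hAS h1)
    obtain ⟨U, G1, q, hsup⟩ := RootLines.exists_config n.hS n.iso hAS hl hBS h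
    have hG1 : G1 ≤ stab Δ := le_stab_of_comm hΔ q.hF hB (bot_symm (q.CF n.hS))
    have hpt : ∀ P ∈ S, P ≤ A ⊔ U → P ≠ U → P ∈ Δ := by
      intro P hP hle hne
      obtain ⟨g, hg, rfl⟩ := q.point n.hS hP hle hne
      exact (mem_stab.1 (hG1 hg) A).2 hA
    by_cases hFU : ⁅A, E⁆ = U
    · intro e he
      refine st_of hΔ hE he hA ?_
      refine hpt _ (n.hS.conj_mem A hAS e) (by rw [← hFU]; exact conj_le_sup_commutator he) ?_
      intro e1
      rw [← hFU, conjBy_eq_iff, conj_eq_of_commutator_bot (cc_bot_right h1) (E.inv_mem he)] at e1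
      exact cc_ne n.hS h1 e1
    · have hF : ⁅A, E⁆ ∈ Δ := hpt _ h1.1 (by rw [← hsup]; exact le_sup_right) hFU
      exact le_stab_of_comm hΔ hE hF (cc_bot_right h1)

lemma no_opp {A B : Subgroup G} (hA : A ∈ Δ) (hB : B ∈ Δ) : ¬ IsRankOnePair A B := by
  intro h
  have hAS := hΔ.1 hA
  have hBS := hΔ.1 hB
  obtain ⟨D, F, q⟩ := n.exists_config hAS hBS h
  have hF : F ≤ stab Δ := le_stab_of_comm hΔ q.hF hB (bot_symm (q.CF n.hS))
  have key : ∀ E ∈ S, ¬ E ≤ stab Δ → RootCommutatorCase S D E := by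
    intro E hE hEK
    have hAE := opp_all n hΔ hA hB h hE hEK
    obtain ⟨U, G2, q2, hsup⟩ := RootLines.exists_config n.hS n.iso hAS (q.line n.hS) hE hAE
    by_cases hUD : U = D
    · rw [← hUD]; exact q2.ccDC n.hS
    · exfalso
      obtain ⟨f, hf, e⟩ := q.point n.hS q2.hD (by rw [hsup]; exact le_sup_right) hUD
      have hUΔ : U ∈ Δ := by rw [e]; exact (mem_stab.1 (hF hf) A).2 hA
      have hUB : IsRankOnePair U B := by rw [e]; exact q.pair_conj_F n.hS hf
      exact pair_not_cc n.hS q2.hD (opp_all n hΔ hUΔ hB hUB hE hEK) (q2.ccDC n.hS)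
  obtain ⟨E, hE, hEK⟩ := exists_not_le n hΔ
  have hDE := key E hE hEK
  obtain ⟨W, t⟩ := n.exists_tri hE q.hD (cc_symm hDE)
  apply hEK
  rw [← t.hDC]
  have hW : W ≤ stab Δ := by
    by_contra hW
    exact pair_not_cc n.hS t.hB t.pair (key W t.hD hW)
  have hH : ⁅E, D⁆ ≤ stab Δ := by
    by_contra hH
    have := key _ t.hC hH
    exact n.hS.ne_bot _ this.1 t.BC
  exact (Subgroup.commutator_le_sup _ _).trans (sup_le hW hH)

/-- S5040 -/
lemma weak_abelian : IsAbelianFamily Δ := by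
  intro A hA B hB
  have hAS := hΔ.1 hA
  have hBS := hΔ.1 hB
  have : ⁅A, B⁆ = ⊥ := by
    rcases n.hS.pair A hAS B hBS with h1 | h1 | h1
    · exact h1
    · exact absurd h1 (no_opp n hΔ hA hB)
    · exfalso
      obtain ⟨W, t⟩ := n.exists_tri hAS hBS h1
      have hW : W ≤ stab Δ := le_stab_of_comm hΔ t.hD hA t.DA
      obtain ⟨w, hw, hw1⟩ := exists_right t.pair
      have h2 : conjBy B w ∈ Δ := (mem_stab.1 (hW hw) B).2 hB
      exact no_opp n hΔ hB h2 (pair_moved t.pair hw hw1)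
  intro a ha b hb
  exact commute_of_commutator_bot this ha hb

end weak

/-! ### Connectivity -/

lemma conj_line (hS : IsRootSubgroupSet S) {A B : Subgroup G} (hB : B ∈ linePartners S A) (g : G) :
    conjBy B g ∈ linePartners S (conjBy A g) := by
  obtain ⟨⟨hBS, hBA, hAB⟩, hpart⟩ := hB
  refine ⟨⟨hS.conj_mem B hBS g, fun e => hBA (conjBy_inj.1 e), ?_⟩, ?_⟩
  · rw [← conjBy_commutator, hAB]; simp
  · rw [← conjBy_sup]
    refine ⟨fun C hC => hC.2, ?_, ?_⟩
    · intro x hx hx1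
      have h1 : g⁻¹ * x * g ∈ A ⊔ B := mem_conjBy.1 hx
      obtain ⟨C, hC, hm⟩ := hpart.2.1 _ h1 (by
        intro e
        apply hx1
        have : x = g * (g⁻¹ * x * g) * g⁻¹ := by group
        rw [this, e]; group)
      refine ⟨conjBy C g, ⟨hS.conj_mem C hC.1 g, conjBy_mono hC.2 g⟩, ?_⟩
      rw [mem_conjBy]; exact hm
    · intro C hC D hD hne
      have hC' : conjBy C g⁻¹ ∈ membersIn S (A ⊔ B) := by
        refine ⟨hS.conj_mem C hC.1 _, ?_⟩
        have := conjBy_mono hC.2 g⁻¹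
        rwa [conjBy_inv_conjBy] at this
      have hD' : conjBy D g⁻¹ ∈ membersIn S (A ⊔ B) := by
        refine ⟨hS.conj_mem D hD.1 _, ?_⟩
        have := conjBy_mono hD.2 g⁻¹
        rwa [conjBy_inv_conjBy] at this
      have h1 := hpart.2.2 _ hC' _ hD' (fun e => hne (conjBy_inj.1 e))
      rw [← conjBy_inf, conjBy_eq_bot_iff] at h1
      exact h1

lemma connected_of (n : Nd S) (adj : Subgroup G → Subgroup G → Prop)
    (hadj : ∀ A B : Subgroup G, adj A B → A ∈ S ∧ B ∈ S)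
    (hconj : ∀ A B : Subgroup G, ∀ g : G, adj A B → adj (conjBy A g) (conjBy B g))
    (hsymm : ∀ A B : Subgroup G, adj A B → adj B A)
    (hcc : ∀ A ∈ S, ∀ B ∈ S, RootCommutatorCase S A B → adj A ⁅A, B⁆) :
    IsConnectedFamily adj S := by
  have rsymm : ∀ {A B : Subgroup G}, Relation.ReflTransGen adj A B →
      Relation.ReflTransGen adj B A := by
    intro A B h
    induction h with
    | refl => exact Relation.ReflTransGen.refl
    | tail _ h2 ih => exact (Relation.ReflTransGen.single (hsymm _ _ h2)).trans ih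
  have rconj : ∀ {A B : Subgroup G} (g : G), Relation.ReflTransGen adj A B →
      Relation.ReflTransGen adj (conjBy A g) (conjBy B g) := by
    intro A B g h
    induction h with
    | refl => exact Relation.ReflTransGen.refl
    | tail _ h2 ih => exact ih.tail (hconj _ _ g h2)
  intro A hA
  obtain ⟨E, hE, hAE⟩ := n.cc A hA
  have h1 : adj A ⁅A, E⁆ := hcc A hA E hE hAE
  have h2 : adj ⁅A, E⁆ E := by
    have := hcc E hE A hA (cc_symm hAE)
    rw [Subgroup.commutator_comm] at this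
    exact hsymm _ _ this
  by_contra hcon
  push Not at hcon
  obtain ⟨B, hB, hAB⟩ := hcon
  have hΔ : IsWeakTISubset S {B | B ∈ S ∧ Relation.ReflTransGen adj A B} := by
    refine ⟨fun B hB => hB.1, ⟨A, ⟨hA, Relation.ReflTransGen.refl⟩, ⁅A, E⁆,
      ⟨hAE.1, Relation.ReflTransGen.single h1⟩, cc_ne n.hS hAE⟩, ?_, ?_⟩
    · intro e
      have : B ∈ S := hB
      rw [← e] at this
      exact hAB this.2
    · intro d _
      by_cases hd : Relation.ReflTransGen adj A (conjBy A d)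
      · left
        ext C
        constructor
        · rintro ⟨C', ⟨hC', hr⟩, rfl⟩
          exact ⟨n.hS.conj_mem C' hC' d, hd.trans (rconj d hr)⟩
        · rintro ⟨hC, hr⟩
          refine ⟨conjBy C d⁻¹, ⟨n.hS.conj_mem C hC _, ?_⟩, conjBy_conjBy_inv _ _⟩
          have h3 := rconj d⁻¹ ((rsymm hd).trans hr)
          rwa [conjBy_inv_conjBy] at h3
      · right
        rw [Set.disjoint_left]
        rintro _ ⟨C', ⟨_, hr⟩, rfl⟩ ⟨_, hr2⟩
        exact hd (hr2.trans (rsymm (rconj d hr)))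
  have hab := weak_abelian n hΔ
  apply n.hS.ne_bot _ hAE.1
  rw [comm_bot_iff]
  intro a ha e he
  exact hab A ⟨hA, Relation.ReflTransGen.refl⟩ E
    ⟨hE, (Relation.ReflTransGen.single h1).trans (Relation.ReflTransGen.single h2)⟩ a ha e he

lemma line_connected (n : Nd S) : IsConnectedFamily (EAdj S S) S := by
  refine connected_of n _ (fun A B h => ⟨h.1, h.2.1⟩) ?_ ?_ ?_
  · rintro A B g ⟨hA, hB, h⟩
    exact ⟨n.hS.conj_mem A hA g, n.hS.conj_mem B hB g, conj_line n.hS h g⟩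
  · rintro A B ⟨hA, hB, h⟩
    exact ⟨hB, hA, line_symm hA h⟩
  · intro A hA B _ h
    exact ⟨hA, h.1, line_symm h.1 (cc_line n.hS n.iso hA h)⟩

lemma comm_connected (n : Nd S) : IsConnectedFamily (DAdj S) S := by
  refine connected_of n _ (fun A B h => ⟨h.1, h.2.1⟩) ?_ ?_ ?_
  · rintro A B g ⟨hA, hB, hne, h⟩
    refine ⟨n.hS.conj_mem A hA g, n.hS.conj_mem B hB g, fun e => hne (conjBy_inj.1 e), ?_⟩
    rw [← conjBy_commutator, h]; simp
  · rintro A B ⟨hA, hB, hne, h⟩
    exact ⟨hB, hA, hne.symm, bot_symm h⟩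
  · intro A hA B _ h
    exact ⟨hA, h.1, cc_ne n.hS h, cc_bot_left h⟩

/-! ### Generation -/

lemma generated (n : Nd S) {A B : Subgroup G} (hA : A ∈ S) (hB : B ∈ S) (h : IsRankOnePair A B) :
    (⨆ C ∈ linePartners S A, C) ⊔ B = ⊤ := by
  set K := (⨆ C ∈ linePartners S A, C) ⊔ B with hK
  have hΛ : ∀ C ∈ linePartners S A, C ≤ K := fun C hC =>
    (le_iSup₂ (f := fun (C : Subgroup G) (_ : C ∈ linePartners S A) => C) C hC).trans le_sup_left
  have hBK : B ≤ K := le_sup_right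
  -- `A ≤ K`
  obtain ⟨D, F, q⟩ := n.exists_config hA hB h
  have hDK : D ≤ K := hΛ D (q.line n.hS)
  have hFK : F ≤ K := by
    rw [← q.hDC]
    exact (Subgroup.commutator_le_sup _ _).trans (sup_le hDK hBK)
  have hAK : A ≤ K := by
    obtain ⟨f, hf, hf1⟩ := exists_ne_one (n.hS.ne_bot F q.hF)
    have hl : conjBy A f ∈ linePartners S A := by
      have h1 := cc_sup_conj (q.ccAF n.hS) hf hf1
      rw [q.hAF] at h1
      refine ⟨⟨n.hS.conj_mem A hA f, cc_conj_ne n.hS n.iso hA (q.ccAF n.hS) hf hf1,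
        cc_conj_commute (n.hS.commutative A hA) (q.ccAF n.hS) hf⟩, ?_⟩
      rw [h1]; exact (q.line n.hS).2
    have h2 := conjBy_le_of_mem (hΛ _ hl) (Subgroup.inv_mem _ (hFK hf))
    rwa [conjBy_inv_conjBy] at h2
  -- every line partner of `A` is conjugate to `A` under `K`
  have key : ∀ Q ∈ linePartners S A, ∃ g ∈ K, Q = conjBy A g := by
    intro Q hQ
    obtain ⟨D1, F1, q1, hsup⟩ := RootLines.exists_config n.hS n.iso hA hQ hB h
    have hD1K : D1 ≤ K := hΛ D1 (q1.line n.hS)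
    have hF1K : F1 ≤ K := by
      rw [← q1.hDC]
      exact (Subgroup.commutator_le_sup _ _).trans (sup_le hD1K hBK)
    by_cases hQD : Q = D1
    · rw [hQD]
      obtain ⟨W, hW, hp⟩ := n.iso D1 q1.hD
      obtain ⟨U, R, q2, hsup2⟩ := RootLines.exists_config n.hS n.iso q1.hD
        (line_symm hA (q1.line n.hS)) hW hp
      have hUne : U ≠ D1 := by
        have := cc_ne n.hS (q2.ccAF n.hS)
        rw [q2.hAF] at this
        exact this.symm
      obtain ⟨f, hf, e⟩ := q1.point n.hS q2.hD (by rw [sup_comm, hsup2]; exact le_sup_right) hUne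
      have q3 := q2.conj n.hS f⁻¹
      rw [e, conjBy_inv_conjBy, conj_eq_of_commutator_bot (q1.FD n.hS) (F1.inv_mem hf)] at q3
      -- `q3 : Config S D1 W' A R'`
      have hR : conjBy R f⁻¹ ∈ linePartners S A := by
        have h3 := cc_line n.hS n.iso q3.hF (cc_symm (q3.ccAF n.hS))
        rw [Subgroup.commutator_comm, q3.hAF] at h3
        exact h3
      have hRK := hΛ _ hR
      obtain ⟨r, hr, hr1⟩ := exists_ne_one (n.hS.ne_bot _ q3.hF)
      have hne : conjBy D1 r ≠ D1 := cc_conj_ne n.hS n.iso q1.hD (q3.ccAF n.hS) hr hr1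
      have hle : conjBy D1 r ≤ A ⊔ D1 := by
        have := conj_le_sup_commutator (A := D1) hr
        rw [q3.hAF, sup_comm] at this
        exact this
      obtain ⟨f', hf', e'⟩ := q1.point n.hS (n.hS.conj_mem D1 q1.hD r) hle hne
      refine ⟨r⁻¹ * f', Subgroup.mul_mem _ (Subgroup.inv_mem _ (hRK hr)) (hF1K hf'), ?_⟩
      rw [conjBy_mul, ← e', conjBy_inv_conjBy]
    · obtain ⟨f, hf, e⟩ := q1.point n.hS hQ.1.1 (by rw [← hsup]; exact le_sup_right) hQD
      exact ⟨f, hF1K hf, e⟩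
  have all : ∀ T ∈ S, ∃ g ∈ K, T = conjBy A g := by
    intro T hT
    have hr := line_connected n A hA T hT
    clear hT
    induction hr with
    | refl => exact ⟨1, Subgroup.one_mem _, by rw [conjBy_one]⟩
    | tail _ h2 ih =>
      obtain ⟨g, hg, rfl⟩ := ih
      have h3 := conj_line n.hS h2.2.2 g⁻¹
      rw [conjBy_inv_conjBy] at h3
      obtain ⟨g', hg', e⟩ := key _ h3
      refine ⟨g * g', Subgroup.mul_mem _ hg hg', ?_⟩
      rw [conjBy_mul, ← e, conjBy_conjBy_inv]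
  rw [eq_top_iff, ← n.hS.generates]
  refine iSup₂_le ?_
  intro T hT
  obtain ⟨g, hg, rfl⟩ := all T hT
  exact conjBy_le_of_mem hAK hg

end Cfsg.Agent.Lib.RootTI
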