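import Mathlib
import Cfsg.Agent.Lib.RootTransfer
import Cfsg.Agent.Lib.RootLines
import Cfsg.Agent.S5025
import Cfsg.Agent.S5037
set_option autoImplicit false

/-!
# Connected components of the graph of rank one pairs (helper84)
-/

namespace Cfsg.Agent.Lib.RootComp
open Cfsg Subgroup
open scoped commutatorElement
open Cfsg.Agent.Lib.RankOneGrp Cfsg.Agent.Lib.RootSub Cfsg.Agent.Lib.RootLines Cfsg.Agent.Lib.RootTransfer

variable {G : Type*} [Group G] {S : Set (Subgroup G)}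

abbrev Reach (S : Set (Subgroup G)) (A B : Subgroup G) : Prop := Relation.ReflTransGen (FAdj S) A B

lemma FAdj_inner {A B : Subgroup G} (h : FAdj S A B) :
    FAdj (inner S) (A.subgroupOf (⨆ B ∈ S, B)) (B.subgroupOf (⨆ B ∈ S, B)) :=
  ⟨⟨A, h.1, rfl⟩, ⟨B, h.2.1, rfl⟩, (inner_pair h.1 h.2.1).2 h.2.2⟩

lemma FAdj_outer {A B : Subgroup ↥(⨆ B ∈ S, B)} (h : FAdj (inner S) A B) :
    FAdj S (A.map (Subgroup.subtype _)) (B.map (Subgroup.subtype _)) :=
  ⟨mem_inner.1 h.1, mem_inner.1 h.2.1, (pair_map (Subgroup.subtype_injective _)).2 h.2.2⟩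

lemma reach_inner {A B : Subgroup G} (h : Reach S A B) :
    Reach (inner S) (A.subgroupOf (⨆ B ∈ S, B)) (B.subgroupOf (⨆ B ∈ S, B)) :=
  Relation.ReflTransGen.lift (fun A : Subgroup G => A.subgroupOf (⨆ B ∈ S, B)) (fun _ _ h => FAdj_inner h) _ _ h

lemma reach_outer {A B : Subgroup G} (hA : A ∈ S) (hB : B ∈ S)
    (h : Reach (inner S) (A.subgroupOf (⨆ B ∈ S, B)) (B.subgroupOf (⨆ B ∈ S, B))) : Reach S A B := by
  have := Relation.ReflTransGen.lift (fun A : Subgroup ↥(⨆ B ∈ S, B) => A.map (Subgroup.subtype _))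
    (fun _ _ h => FAdj_outer h) _ _ h
  simp only [Function.onFun] at this
  rw [map_inner hA, map_inner hB] at this
  exact this

/-- every member has a rank one partner -/
def Iso (S : Set (Subgroup G)) : Prop := ∀ A ∈ S, ∃ B ∈ S, IsRankOnePair A B

lemma inner_iso (h : Iso S) : Iso (inner S) := by
  rintro _ ⟨A, hA, rfl⟩
  obtain ⟨B, hB, h1⟩ := h A hA
  exact ⟨_, ⟨B, hB, rfl⟩, (inner_pair hA hB).2 h1⟩

lemma reach_comm (hS : IsRootSubgroupSet S) (h : Iso S) {A B : Subgroup G} (hA : A ∈ S)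
    (hc : RootCommutatorCase S A B) : Reach S A ⁅A, B⁆ := by
  obtain ⟨D, hD, hAD⟩ := h A hA
  have h1 := cc_linePartners hS hA hD hAD hc
  obtain ⟨E, hE, hCE⟩ := h _ hc.1
  exact reach_symm (line_connect hS hc.1 h1 hE hD hCE hAD)

lemma reach_trich (hS : IsRootSubgroupSet S) (h : Iso S) {A B : Subgroup G} (hA : A ∈ S) (hB : B ∈ S) :
    ⁅A, B⁆ = ⊥ ∨ Reach S A B := by
  rcases hS.pair A hA B hB with h1 | h1 | h1
  · exact Or.inl h1
  · exact Or.inr (Relation.ReflTransGen.single ⟨hA, hB, h1⟩)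
  · right
    have h2 := reach_comm hS h hA h1
    have h3 := reach_comm hS h hB (cc_symm h1)
    rw [Subgroup.commutator_comm] at h3
    exact h2.trans (reach_symm h3)

section pre

variable (hP : PreRoot S) (hI : Iso S)
include hP hI

lemma pre_trich {A B : Subgroup G} (hA : A ∈ S) (hB : B ∈ S) : ⁅A, B⁆ = ⊥ ∨ Reach S A B := by
  rcases reach_trich hP.root (inner_iso hI) (A := A.subgroupOf (⨆ B ∈ S, B)) (B := B.subgroupOf (⨆ B ∈ S, B))
    ⟨A, hA, rfl⟩ ⟨B, hB, rfl⟩ with h | h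
  · exact Or.inl ((inner_comm hA hB).1 h)
  · exact Or.inr (reach_outer hA hB h)

lemma pre_reach_comm {A B : Subgroup G} (hA : A ∈ S) (hB : B ∈ S)
    (hc : RootCommutatorCase S A B) : Reach S A ⁅A, B⁆ := by
  have h1 := reach_comm hP.root (inner_iso hI) (A := A.subgroupOf (⨆ B ∈ S, B)) (B := B.subgroupOf (⨆ B ∈ S, B))
    ⟨A, hA, rfl⟩ ((inner_case hA hB).2 hc)
  have e : ⁅A.subgroupOf (⨆ B ∈ S, B), B.subgroupOf (⨆ B ∈ S, B)⁆ = (⁅A, B⁆).subgroupOf (⨆ B ∈ S, B) := by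
    apply Subgroup.map_injective (Subgroup.subtype_injective (⨆ B ∈ S, B))
    rw [Subgroup.map_commutator, map_inner hA, map_inner hB, map_inner hc.1]
  rw [e] at h1
  exact reach_outer hA hc.1 h1

lemma pre_reach_conj {A : Subgroup G} (hA : A ∈ S) {g : G} (hg : g ∈ ⨆ B ∈ S, B) :
    Reach S A (conjBy A g) := by
  have h1 := reach_conj_all hP.root (inner_iso hI) (A := A.subgroupOf (⨆ B ∈ S, B)) ⟨A, hA, rfl⟩ ⟨g, hg⟩
  rw [conjBy_subgroupOf] at h1
  exact reach_outer hA (hP.conj_mem A hA g hg) h1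

end pre

lemma reach_mem {A B : Subgroup G} (hA : A ∈ S) (h : Reach S A B) : B ∈ S := by
  induction h with
  | refl => exact hA
  | tail _ h _ => exact h.2.1

lemma comp_le {A : Subgroup G} : componentOf (FAdj S) S A ⊆ S := fun _ h => h.1

lemma mem_comp_self {A : Subgroup G} (hA : A ∈ S) : A ∈ componentOf (FAdj S) S A := ⟨hA, .refl⟩

lemma reach_comp {A B : Subgroup G} (hA : A ∈ S) (h : Reach S A B) :
    Reach (componentOf (FAdj S) S A) A B := by
  induction h with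
  | refl => exact .refl
  | tail h1 h2 ih =>
    exact ih.tail ⟨⟨h2.1, h1⟩, ⟨h2.2.1, h1.tail h2⟩, h2.2.2⟩

lemma comp_conn {A : Subgroup G} (hA : A ∈ S) :
    IsConnectedFamily (FAdj (componentOf (FAdj S) S A)) (componentOf (FAdj S) S A) := by
  intro B hB C hC
  exact (reach_symm (reach_comp hA hB.2)).trans (reach_comp hA hC.2)

lemma comp_iso (hI : Iso S) {A : Subgroup G} : Iso (componentOf (FAdj S) S A) := by
  intro B hB
  obtain ⟨C, hC, h⟩ := hI B hB.1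
  exact ⟨C, ⟨hC, hB.2.tail ⟨hB.1, hC, h⟩⟩, h⟩

lemma gen_comp_le {A : Subgroup G} : (⨆ B ∈ componentOf (FAdj S) S A, B) ≤ ⨆ B ∈ S, B :=
  iSup₂_le fun _ hB => le_iSup_mem hB.1

lemma comp_pre (hP : PreRoot S) (hI : Iso S) {A : Subgroup G} : PreRoot (componentOf (FAdj S) S A) where
  commutative := fun B hB => hP.commutative B hB.1
  ne_bot := fun B hB => hP.ne_bot B hB.1
  conj_mem := fun B hB g hg => ⟨hP.conj_mem B hB.1 g (gen_comp_le hg),
    hB.2.trans (pre_reach_conj hP hI hB.1 (gen_comp_le hg))⟩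
  pair := by
    intro B hB C hC
    rcases hP.pair B hB.1 C hC.1 with h | h | h
    · exact Or.inl h
    · exact Or.inr (Or.inl h)
    · right; right
      exact ⟨⟨h.1, hB.2.trans (pre_reach_comm hP hI hB.1 hC.1 h)⟩, h.2⟩

lemma inner_conn (h : IsConnectedFamily (FAdj S) S) : IsConnectedFamily (FAdj (inner S)) (inner S) := by
  rintro _ ⟨A, hA, rfl⟩ _ ⟨B, hB, rfl⟩
  exact reach_inner (h A hA B hB)

lemma inner_class (hP : PreRoot S) (hne : S.Nonempty) (h : IsConnectedFamily (FAdj S) S) :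
    IsRootSubgroupClass (inner S) := by
  refine ⟨hP.root, ?_, ?_⟩
  · obtain ⟨A, hA⟩ := hne
    exact ⟨_, A, hA, rfl⟩
  · intro A hA B hB
    exact conj_of_reach (inner_conn h A hA B hB)

/-- a set of root subgroups with a rank one pair is degenerate or nondegenerate -/
lemma deg_or (hS : IsRootSubgroupSet S) (h : ∃ A ∈ S, ∃ B ∈ S, IsRankOnePair A B) :
    IsDegenerateRootSet S ∨ IsNondegenerateRootSet S := by
  by_cases hd : IsDegenerateRootSet S
  · exact Or.inl hd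
  · right
    unfold IsDegenerateRootSet at hd
    push Not at hd
    obtain ⟨A, hA, B, hB, hc⟩ := hd
    refine ⟨⟨A, hA, ⁅A, B⁆, hc.1, cc_ne hS hc, cc_bot_left hc⟩, h, ⟨A, hA, B, hB, hc⟩⟩

lemma mem_cent {A X : Subgroup G} : X ∈ centralizingMembers S A ↔ X ∈ S ∧ ⁅X, A⁆ = ⊥ := by
  rw [Subgroup.commutator_eq_bot_iff_le_centralizer]
  rfl

/-- **S5037 for members of one component** -/
theorem same_of_sub (hP : PreRoot S) (hI : Iso S) {A D : Subgroup G} (hA : A ∈ S) (hAD : Reach S A D)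
    (h : ∀ X ∈ S, ⁅X, A⁆ = ⊥ → ⁅X, D⁆ = ⊥) : ∀ X ∈ S, ⁅X, D⁆ = ⊥ → ⁅X, A⁆ = ⊥ := by
  by_cases hne : A = D
  · rw [hne]; exact fun _ _ h => h
  have hD : D ∈ S := reach_mem hA hAD
  set Δ := componentOf (FAdj S) S A with hΔ
  have hAΔ : A ∈ Δ := mem_comp_self hA
  have hDΔ : D ∈ Δ := ⟨hD, hAD⟩
  have hPΔ : PreRoot Δ := comp_pre hP hI
  have hcl := inner_class hPΔ ⟨A, hAΔ⟩ (comp_conn hA)
  have hdn := deg_or hcl.1 (by
    obtain ⟨B, hB, h1⟩ := comp_iso hI A hAΔ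
    exact ⟨_, ⟨A, hAΔ, rfl⟩, _, ⟨B, hB, rfl⟩, (inner_pair hAΔ hB).2 h1⟩)
  have hne' : A.subgroupOf (⨆ B ∈ Δ, B) ≠ D.subgroupOf (⨆ B ∈ Δ, B) := by
    intro e
    apply hne
    rw [← map_inner hAΔ, e, map_inner hDΔ]
  have h1 := (Cfsg.Agent.S5037.result hcl hdn ⟨A, hAΔ, rfl⟩ ⟨D, hDΔ, rfl⟩ hne').1 (by
    intro X hX
    rw [mem_cent] at hX ⊢
    refine ⟨hX.1, ?_⟩
    obtain ⟨X, hXΔ, rfl⟩ := hX.1
    exact (inner_comm hXΔ hDΔ).2 (h X hXΔ.1 ((inner_comm hXΔ hAΔ).1 hX.2)))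
  intro X hX hXD
  rcases pre_trich hP hI hA hX with h2 | h2
  · rw [Subgroup.commutator_comm]; exact h2
  · have hXΔ : X ∈ Δ := ⟨hX, h2⟩
    have h3 : X.subgroupOf (⨆ B ∈ Δ, B) ∈ centralizingMembers (inner Δ) (D.subgroupOf (⨆ B ∈ Δ, B)) :=
      mem_cent.2 ⟨⟨X, hXΔ, rfl⟩, (inner_comm hXΔ hDΔ).2 hXD⟩
    rw [← h1] at h3
    exact (inner_comm hXΔ hAΔ).1 (mem_cent.1 h3).2

/-- the same commuting members imply the same rank one partners -/
theorem partner_of_same (hS : IsRootSubgroupSet S) {A C : Subgroup G} (hA : A ∈ S) (hC : C ∈ S)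
    (h : ∀ X ∈ S, ⁅X, A⁆ = ⊥ ↔ ⁅X, C⁆ = ⊥) {B : Subgroup G} (hB : B ∈ S) (hAB : IsRankOnePair A B) :
    IsRankOnePair C B := by
  rcases hS.pair C hC B hB with h1 | h1 | h1
  · exfalso
    rw [Subgroup.commutator_comm, ← h B hB, Subgroup.commutator_comm] at h1
    exact not_commute hAB h1
  · exact h1
  · exfalso
    -- `D = [C, B]` commutes with `C`, hence with `A`
    have hDC : ⁅⁅C, B⁆, C⁆ = ⊥ := bot_symm (cc_bot_left h1)
    have hDB : ⁅⁅C, B⁆, B⁆ = ⊥ := bot_symm (cc_bot_right h1)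
    have hDA : ⁅⁅C, B⁆, A⁆ = ⊥ := (h _ h1.1).2 hDC
    obtain ⟨c, hc, hc1⟩ := RootSub.exists_ne_one (hS.ne_bot C hC)
    obtain ⟨d, hd, hd1⟩ := RootSub.exists_ne_one (hS.ne_bot _ h1.1)
    obtain ⟨b, hb, e⟩ := cc_surj_right h1 hc hc1 hd
    have hb1 : b ≠ 1 := by
      rintro rfl
      apply hd1
      rw [← e]; simp
    have h5 := Cfsg.Agent.S5025.result hS hB (B := A) ⟨hA, RankOnePair_symm hAB⟩ (z := d) (by
      rw [Subgroup.mem_centralizer_iff]
      intro x hx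
      refine sup_induction (A := B) (B := A) (p := fun x => x * d = d * x) (by simp) ?_ ?_ hx
      · intro a ha y hy
        have := commute_of_commutator_bot hDB hd ha
        rw [mul_assoc, hy, ← mul_assoc, ← this, mul_assoc]
      · intro a ha y hy
        have := commute_of_commutator_bot hDA hd ha
        rw [mul_assoc, hy, ← mul_assoc, ← this, mul_assoc]) hd1 b hb hb1
    apply h5
    refine ⟨?_, conjBy B c, hS.conj_mem B hB c, ?_⟩
    · intro h0
      have h6 : d = b⁻¹ := eq_inv_of_mul_eq_one_left h0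
      have h7 : d ∈ B := by rw [h6]; exact B.inv_mem hb
      -- `d` would be in `B ⊓ centralizer`
      have h8 : ∀ a ∈ A, d * a = a * d := fun a ha => commute_of_commutator_bot hDA hd ha
      exact hd1 (eq_one_of_commute_right hAB h7 (fun a ha => h8 a ha))
    · have e2 : d * b = c * b * c⁻¹ := by
        rw [← e, commutatorElement_def]; group
      rw [e2]
      exact conjBy_mem hb c

/-- version for families -/
theorem pre_partner_of_same (hP : PreRoot S) {A C : Subgroup G} (hA : A ∈ S) (hC : C ∈ S)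
    (h : ∀ X ∈ S, ⁅X, A⁆ = ⊥ ↔ ⁅X, C⁆ = ⊥) {B : Subgroup G} (hB : B ∈ S) (hAB : IsRankOnePair A B) :
    IsRankOnePair C B := by
  rw [← inner_pair hC hB]
  refine partner_of_same hP.root ⟨A, hA, rfl⟩ ⟨C, hC, rfl⟩ ?_ ⟨B, hB, rfl⟩ ((inner_pair hA hB).2 hAB)
  rintro _ ⟨X, hX, rfl⟩
  show ⁅X.subgroupOf _, A.subgroupOf _⁆ = ⊥ ↔ ⁅X.subgroupOf _, C.subgroupOf _⁆ = ⊥
  rw [inner_comm hX hA, inner_comm hX hC]
  exact h X hX

end Cfsg.Agent.Lib.RootComp
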