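import Cfsg.Agent.Lib.QuadPairF
import Cfsg.Agent.Lib.RootComp
set_option autoImplicit false

/-!
Members of `Σ` with the same commuting members are equal: computations (helper84).
-/

namespace Cfsg.Agent.Lib.QuadPairG
open Subgroup Cfsg
open Cfsg.Agent.Lib.QuadPair
open Cfsg.Agent.Lib.QuadPairR
open Cfsg.Agent.Lib.QuadPairS
open Cfsg.Agent.Lib.QuadPairT
open Cfsg.Agent.Lib.QuadPairNil
open Cfsg.Agent.Lib.QuadPairF
open Cfsg.Agent.Lib.RankOneGrp
open Cfsg.Agent.Lib.RootTransfer

universe u v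

section ring

variable {A : Type*} [Ring A]

/-- the data of two members `s`, `γ` opposite to `b`, and `δ = γ^z` -/
structure Dt (s b γ δ : A) : Prop where
  l1 : Lk s b
  l2 : Lk γ b
  hδ : δ = (1 + (s * b + b * s) + (s * b + b * s)) * γ * (1 + (s * b + b * s) + (s * b + b * s))
  sγ : s * γ = γ * s
  sδ : s * δ = δ * s
  γδ : γ * δ = δ * γ
  two : ∀ x : A, x + x = 0 → x = 0

namespace Dt
variable {s b γ δ : A} (h : Dt s b γ δ)
include h

lemma sP : s * (s * b + b * s) = -s := by
  rw [mul_add, ← mul_assoc, h.l1.ss, zero_mul, zero_add, ← mul_assoc, h.l1.sts]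
lemma Ps : (s * b + b * s) * s = -s := by
  rw [add_mul, mul_assoc b, h.l1.ss, mul_zero, add_zero, h.l1.sts]
lemma bP : b * (s * b + b * s) = -b := by
  rw [mul_add, ← mul_assoc b b, h.l1.tt, zero_mul, add_zero, ← mul_assoc, h.l1.tst]
lemma Pb : (s * b + b * s) * b = -b := by
  rw [add_mul, mul_assoc s, h.l1.tt, mul_zero, zero_add, h.l1.tst]
lemma PP : (s * b + b * s) * (s * b + b * s) = -(s * b + b * s) := by
  calc (s * b + b * s) * (s * b + b * s) = (s * b + b * s) * s * b + (s * b + b * s) * b * s := by noncomm_ring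
    _ = _ := by rw [h.Ps, h.Pb]; noncomm_ring

lemma zz : (1 + (s * b + b * s) + (s * b + b * s)) * (1 + (s * b + b * s) + (s * b + b * s)) = 1 := by
  have := h.PP
  generalize s * b + b * s = P at this ⊢
  calc (1 + P + P) * (1 + P + P) = 1 + P + P + P + P + (P * P + P * P + P * P + P * P) := by noncomm_ring
    _ = 1 := by rw [this]; abel

lemma zγ : (1 + (s * b + b * s) + (s * b + b * s)) * γ = δ * (1 + (s * b + b * s) + (s * b + b * s)) := by
  rw [h.hδ, mul_assoc _ _ (1 + (s * b + b * s) + (s * b + b * s)), h.zz, mul_one]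

lemma γz : γ * (1 + (s * b + b * s) + (s * b + b * s)) = (1 + (s * b + b * s) + (s * b + b * s)) * δ := by
  rw [h.hδ, ← mul_assoc, ← mul_assoc, h.zz, one_mul]

/-- `x = γ + δ` commutes with `P` -/
lemma Px : (s * b + b * s) * (γ + δ) = (γ + δ) * (s * b + b * s) := by
  have h1 := h.zγ
  have h2 := h.γz
  generalize s * b + b * s = P at h1 h2 ⊢
  have h3 : (P * (γ + δ) - (γ + δ) * P) + (P * (γ + δ) - (γ + δ) * P) = 0 := by
    calc (P * (γ + δ) - (γ + δ) * P) + (P * (γ + δ) - (γ + δ) * P)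
        = ((1 + P + P) * γ - δ * (1 + P + P)) - (γ * (1 + P + P) - (1 + P + P) * δ) := by noncomm_ring
      _ = 0 := by rw [h1, h2]; simp
  exact sub_eq_zero.1 (h.two _ h3)

lemma Py : (s * b + b * s) * (γ - δ) = -(γ - δ) - (γ - δ) * (s * b + b * s) := by
  have h1 := h.zγ
  have h2 := h.γz
  generalize s * b + b * s = P at h1 h2 ⊢
  have h3 : (P * (γ - δ) + (γ - δ) * P + (γ - δ)) + (P * (γ - δ) + (γ - δ) * P + (γ - δ)) = 0 := by
    calc (P * (γ - δ) + (γ - δ) * P + (γ - δ)) + (P * (γ - δ) + (γ - δ) * P + (γ - δ))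
        = ((1 + P + P) * γ - δ * (1 + P + P)) + (γ * (1 + P + P) - (1 + P + P) * δ) := by noncomm_ring
      _ = 0 := by rw [h1, h2]; simp
  have := h.two _ h3
  rw [← sub_eq_zero, ← this]
  abel

lemma δδ : δ * δ = 0 := by
  have h1 := h.hδ
  have h2 := h.zz
  generalize 1 + (s * b + b * s) + (s * b + b * s) = z at h1 h2
  rw [h1]
  calc z * γ * z * (z * γ * z) = z * γ * (z * z) * γ * z := by noncomm_ring
    _ = z * (γ * γ) * z := by rw [h2]; noncomm_ring
    _ = 0 := by rw [h.l2.ss]; noncomm_ring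

lemma xy : (γ + δ) * (γ - δ) = 0 := by
  calc (γ + δ) * (γ - δ) = γ * γ - δ * δ - (γ * δ - δ * γ) := by noncomm_ring
    _ = 0 := by rw [h.l2.ss, h.δδ, h.γδ]; simp

lemma yx : (γ - δ) * (γ + δ) = 0 := by
  calc (γ - δ) * (γ + δ) = γ * γ - δ * δ + (γ * δ - δ * γ) := by noncomm_ring
    _ = 0 := by rw [h.l2.ss, h.δδ, h.γδ]; simp

lemma yy : (γ - δ) * (γ - δ) = -((γ + δ) * (γ + δ)) := by
  calc (γ - δ) * (γ - δ) = -((γ + δ) * (γ + δ)) + (γ * γ + γ * γ + δ * δ + δ * δ) := by noncomm_ring
    _ = _ := by rw [h.l2.ss, h.δδ]; simp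

lemma ys : (γ - δ) * s = 0 := by
  have h1 : s * (γ - δ) = (γ - δ) * s := by rw [mul_sub, sub_mul, h.sγ, h.sδ]
  have h2 : s * ((s * b + b * s) * (γ - δ)) = s * (-(γ - δ) - (γ - δ) * (s * b + b * s)) := by rw [h.Py]
  have h3 : s * (γ - δ) * (s * b + b * s) = 0 := by
    have h4 := h.sP
    generalize s * b + b * s = P at h2 h4 ⊢
    rw [← mul_assoc, h4] at h2
    have : s * (γ - δ) * P = (-s * (γ - δ)) - s * (-(γ - δ) - (γ - δ) * P) := by noncomm_ring
    rw [this, h2, sub_self]
  rw [h1, mul_assoc, h.sP, mul_neg, neg_eq_zero] at h3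
  exact h3

lemma sy : s * (γ - δ) = 0 := by
  have h1 : s * (γ - δ) = (γ - δ) * s := by rw [mul_sub, sub_mul, h.sγ, h.sδ]
  rw [h1, h.ys]

lemma bδb : b * δ * b = -b := by
  have h1 := h.hδ
  have h2 : b * (1 + (s * b + b * s) + (s * b + b * s)) = -b := by
    rw [mul_add, mul_add, mul_one, h.bP]; abel
  have h3 : (1 + (s * b + b * s) + (s * b + b * s)) * b = -b := by
    rw [add_mul, add_mul, one_mul, h.Pb]; abel
  generalize 1 + (s * b + b * s) + (s * b + b * s) = z at h1 h2 h3
  rw [h1]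
  calc b * (z * γ * z) * b = (b * z) * γ * (z * b) := by noncomm_ring
    _ = b * γ * b := by rw [h2, h3]; noncomm_ring
    _ = -b := h.l2.tst

lemma bxb : b * (γ + δ) * b = -b - b := by
  rw [mul_add, add_mul, h.l2.tst, h.bδb]; abel

lemma byb : b * (γ - δ) * b = 0 := by
  rw [mul_sub, sub_mul, h.l2.tst, h.bδb]; abel

lemma δbδ : δ * b * δ = -δ := by
  have h1 := h.hδ
  have h3 : (1 + (s * b + b * s) + (s * b + b * s)) * b = -b := by
    rw [add_mul, add_mul, one_mul, h.Pb]; abel
  have h2 : b * (1 + (s * b + b * s) + (s * b + b * s)) = -b := by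
    rw [mul_add, mul_add, mul_one, h.bP]; abel
  generalize 1 + (s * b + b * s) + (s * b + b * s) = z at h1 h2 h3
  rw [h1]
  calc z * γ * z * b * (z * γ * z) = z * γ * ((z * b) * z) * γ * z := by noncomm_ring
    _ = z * (γ * b * γ) * z := by rw [h3, neg_mul, h2]; noncomm_ring
    _ = -(z * γ * z) := by rw [h.l2.sts]; noncomm_ring

lemma xbx : (γ + δ) * b * (γ + δ) + (γ - δ) * b * (γ - δ) = -(γ + δ) - (γ + δ) := by
  calc (γ + δ) * b * (γ + δ) + (γ - δ) * b * (γ - δ)
      = (γ * b * γ + γ * b * γ) + (δ * b * δ + δ * b * δ) := by noncomm_ring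
    _ = _ := by rw [h.l2.sts, h.δbδ]; abel

lemma xby : (γ + δ) * b * (γ - δ) + (γ - δ) * b * (γ + δ) = -(γ - δ) - (γ - δ) := by
  calc (γ + δ) * b * (γ - δ) + (γ - δ) * b * (γ + δ)
      = (γ * b * γ + γ * b * γ) - (δ * b * δ + δ * b * δ) := by noncomm_ring
    _ = _ := by rw [h.l2.sts, h.δbδ]; abel

/-- `p = x - 2 s` -/
lemma ps : (γ + δ - (s + s)) * s = s * (γ + δ - (s + s)) := by
  rw [sub_mul, mul_sub, add_mul, mul_add, ← h.sγ, ← h.sδ]
  noncomm_ring

lemma pP : (γ + δ - (s + s)) * (s * b + b * s) = (s * b + b * s) * (γ + δ - (s + s)) := by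
  have h1 := h.Px
  have h2 := h.sP
  have h3 := h.Ps
  generalize s * b + b * s = P at h1 h2 h3 ⊢
  calc (γ + δ - (s + s)) * P = (γ + δ) * P - (s * P + s * P) := by noncomm_ring
    _ = P * (γ + δ) - (P * s + P * s) := by rw [← h1, h2, h3]
    _ = _ := by noncomm_ring

lemma bpb : b * (γ + δ - (s + s)) * b = 0 := by
  calc b * (γ + δ - (s + s)) * b = b * (γ + δ) * b - (b * s * b + b * s * b) := by noncomm_ring
    _ = 0 := by rw [h.bxb, h.l1.tst]; abel

lemma pb : (γ + δ - (s + s)) * b = b * (γ + δ - (s + s)) := by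
  have h1 := h.pP
  have h2 := h.bpb
  have h3 := h.ps
  have h4 := h.bP
  have h5 := h.Pb
  generalize γ + δ - (s + s) = p at h1 h2 h3 ⊢
  have e1 : p * b = -(b * p * s * b) := by
    calc p * b = -(p * ((s * b + b * s) * b)) := by rw [h5]; noncomm_ring
      _ = -((p * (s * b + b * s)) * b) := by noncomm_ring
      _ = -((s * b + b * s) * p * b) := by rw [h1]
      _ = -(s * (b * p * b)) - b * (s * p) * b := by noncomm_ring
      _ = _ := by rw [h2, ← h3]; noncomm_ring
  have e2 : b * p = -(b * p * s * b) := by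
    calc b * p = -((b * (s * b + b * s)) * p) := by rw [h4]; noncomm_ring
      _ = -(b * ((s * b + b * s) * p)) := by noncomm_ring
      _ = -(b * (p * (s * b + b * s))) := by rw [h1]
      _ = -(b * p * s * b) - (b * p * b) * s := by noncomm_ring
      _ = _ := by rw [h2]; noncomm_ring
  exact e1.trans e2.symm

lemma py : (γ + δ - (s + s)) * (γ - δ) = 0 := by
  rw [sub_mul, h.xy, add_mul, h.sy]; simp

lemma yp : (γ - δ) * (γ + δ - (s + s)) = 0 := by
  rw [mul_sub, h.yx, mul_add, h.ys]; simp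

omit h in
lemma x_eq : γ + δ = (γ + δ - (s + s)) + (s + s) := by abel

lemma yby' : (γ - δ) * b * (γ - δ) = -((γ + δ - (s + s)) + (γ + δ - (s + s))) -
    b * ((γ + δ - (s + s)) * (γ + δ - (s + s))) -
    ((γ + δ - (s + s)) * (s * b + b * s) + (γ + δ - (s + s)) * (s * b + b * s)) := by
  have h1 := h.xbx
  have h2 := h.pb
  have h3 := h.ps
  have h4 := h.l1.sts
  have h5 := h.pP
  rw [x_eq (s := s) (γ := γ) (δ := δ)] at h1
  generalize γ + δ - (s + s) = p at h1 h2 h3 h5 ⊢
  have e : (p + (s + s)) * b * (p + (s + s)) = b * (p * p) + (p * (s * b + b * s) + p * (s * b + b * s)) +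
      (s * b * s + s * b * s + s * b * s + s * b * s) := by
    calc (p + (s + s)) * b * (p + (s + s)) = (p * b) * p + (p * b * s + p * b * s) + (s * (b * p) + s * (b * p)) +
        (s * b * s + s * b * s + s * b * s + s * b * s) := by noncomm_ring
      _ = b * p * p + (p * b * s + p * b * s) + (s * p * b + s * p * b) +
        (s * b * s + s * b * s + s * b * s + s * b * s) := by rw [← h2]; noncomm_ring
      _ = _ := by rw [← h3]; noncomm_ring
  rw [e, h4] at h1
  have e2 : (γ - δ) * b * (γ - δ) = (b * (p * p) + (p * (s * b + b * s) + p * (s * b + b * s)) +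
      (-s + -s + -s + -s) + (γ - δ) * b * (γ - δ)) - (b * (p * p) + (p * (s * b + b * s) + p * (s * b + b * s)) +
      (-s + -s + -s + -s)) := by abel
  rw [e2, h1]
  abel

lemma bpp : b * ((γ + δ - (s + s)) * (γ + δ - (s + s))) = 0 := by
  have h1 := h.yby'
  have h2 := h.Py
  have h3 := h.Pb
  have h5 := h.pP
  have h6 := h.PP
  have e1 : (s * b + b * s) * ((γ - δ) * b * (γ - δ)) = 0 := by
    calc (s * b + b * s) * ((γ - δ) * b * (γ - δ)) = ((s * b + b * s) * (γ - δ)) * b * (γ - δ) := by noncomm_ring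
      _ = -((γ - δ) * b * (γ - δ)) - (γ - δ) * ((s * b + b * s) * b) * (γ - δ) := by rw [h2]; noncomm_ring
      _ = 0 := by rw [h3]; noncomm_ring
  rw [h1] at e1
  generalize γ + δ - (s + s) = p at e1 h5 ⊢
  generalize s * b + b * s = P at e1 h3 h5 h6
  have e2 : P * (-(p + p) - b * (p * p) - (p * P + p * P)) =
      -(P * p + P * p) - (P * b) * (p * p) - ((P * p) * P + (P * p) * P) := by noncomm_ring
  rw [e2, h3, ← h5, mul_assoc p P P, h6] at e1
  have e3 : -(p * P + p * P) - -b * (p * p) - (p * -P + p * -P) = b * (p * p) := by noncomm_ring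
  rw [e3] at e1
  exact e1

lemma yby : (γ - δ) * b * (γ - δ) = -((γ + δ - (s + s)) + (γ + δ - (s + s))) -
    ((γ + δ - (s + s)) * (s * b + b * s) + (γ + δ - (s + s)) * (s * b + b * s)) := by
  rw [h.yby', h.bpp, sub_zero]

lemma byyb : b * ((γ - δ) * (γ - δ)) * b =
    (b * (γ + δ - (s + s)) + b * (γ + δ - (s + s))) + (b * (γ + δ - (s + s)) + b * (γ + δ - (s + s))) := by
  have h1 := h.yy
  have h2 := h.pb
  have h3 := h.ps
  have h4 := h.l1.tst
  have h5 := h.bpp
  rw [h1, x_eq (s := s) (γ := γ) (δ := δ)]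
  generalize γ + δ - (s + s) = p at h2 h3 h5 ⊢
  have e : b * -((p + (s + s)) * (p + (s + s))) * b = -(b * (p * p)) * b - (b * ((p * s) * b) + b * (p * s) * b +
      (b * (s * p) * b + b * (s * p) * b)) - (b * (s * s) * b + b * (s * s) * b + b * (s * s) * b + b * (s * s) * b) := by
    noncomm_ring
  have e2 : b * (p * s) * b = -(b * p) := by
    calc b * (p * s) * b = (b * p) * s * b := by noncomm_ring
      _ = p * (b * s * b) := by rw [← h2]; noncomm_ring
      _ = -(p * b) := by rw [h4]; noncomm_ring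
      _ = _ := by rw [h2]
  rw [e, ← h3, h5, h.l1.ss]
  have e3 : b * ((p * s) * b) = b * (p * s) * b := by noncomm_ring
  rw [e3, e2]
  noncomm_ring

lemma ppP : (γ + δ - (s + s)) * (γ + δ - (s + s)) * (s * b + b * s) = 0 := by
  have h2 := h.pb
  have h3 := h.ps
  have h5 := h.bpp
  generalize γ + δ - (s + s) = p at h2 h3 h5 ⊢
  have e1 : p * p * s = s * (p * p) := by rw [mul_assoc, h3, ← mul_assoc, h3, mul_assoc]
  have e2 : p * p * b = 0 := by rw [mul_assoc, h2, ← mul_assoc, h2, mul_assoc, h5]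
  calc p * p * (s * b + b * s) = (p * p * s) * b + (p * p * b) * s := by noncomm_ring
    _ = 0 := by rw [e1, e2, zero_mul, add_zero, mul_assoc s, e2, mul_zero]

lemma pp : (γ + δ - (s + s)) * (γ + δ - (s + s)) = 0 := by
  have h1 := h.yby
  have h2 := h.byyb
  have h3 := h.yp
  have h4 := h.ppP
  have h5 := h.PP
  have h6 := h.pP
  have hb := h.pb
  have e1 : ((γ - δ) * b * (γ - δ)) * ((γ - δ) * b * (γ - δ)) = 0 := by
    calc ((γ - δ) * b * (γ - δ)) * ((γ - δ) * b * (γ - δ)) = (γ - δ) * (b * ((γ - δ) * (γ - δ)) * b) * (γ - δ) := by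
          noncomm_ring
      _ = 0 := by
        rw [h2, ← hb]
        have : (γ - δ) * ((γ + δ - (s + s)) * b + (γ + δ - (s + s)) * b + ((γ + δ - (s + s)) * b +
            (γ + δ - (s + s)) * b)) * (γ - δ) = ((γ - δ) * (γ + δ - (s + s))) * (b + b + b + b) * (γ - δ) := by
          noncomm_ring
        rw [this, h3]; simp
  rw [h1] at e1
  generalize γ + δ - (s + s) = p at e1 h4 h6 ⊢
  generalize s * b + b * s = P at e1 h4 h5 h6
  have e2 : (-(p + p) - (p * P + p * P)) * (-(p + p) - (p * P + p * P)) =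
      (p * p + p * p) + (p * p + p * p) + ((p * p * P + p * p * P) + (p * p * P + p * p * P)) +
      ((p * (P * p) + p * (P * p)) + (p * (P * p) + p * (P * p))) +
      ((p * (P * p) * P + p * (P * p) * P) + (p * (P * p) * P + p * (P * p) * P)) := by noncomm_ring
  rw [e2, ← h6] at e1
  have e3 : p * (p * P) = 0 := by rw [← mul_assoc]; exact h4
  rw [h4, e3] at e1
  have e4 : (p * p + p * p) + (p * p + p * p) = 0 := by simpa using e1
  exact h.two _ (h.two _ e4)

lemma γδ_eq : γ * δ = s * (γ + δ - (s + s)) + s * (γ + δ - (s + s)) := by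
  have h1 := h.pp
  have h2 := h.ps
  have e : (γ + δ) * (γ + δ) = γ * δ + γ * δ := by
    calc (γ + δ) * (γ + δ) = γ * γ + δ * δ + γ * δ + δ * γ := by noncomm_ring
      _ = _ := by rw [h.l2.ss, h.δδ, ← h.γδ]; simp
  rw [x_eq (s := s) (γ := γ) (δ := δ)] at e
  generalize γ + δ - (s + s) = p at e h1 h2 ⊢
  have e2 : (p + (s + s)) * (p + (s + s)) = p * p + (p * s + p * s) + (s * p + s * p) +
      (s * s + s * s + s * s + s * s) := by noncomm_ring
  rw [e2, h1, h2, h.l1.ss] at e
  have e3 : (s * p + s * p - γ * δ) + (s * p + s * p - γ * δ) = 0 := by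
    have : (s * p + s * p - γ * δ) + (s * p + s * p - γ * δ) =
        (0 + (s * p + s * p) + (s * p + s * p) + (0 + 0 + 0 + 0)) - (γ * δ + γ * δ) := by abel
    rw [this, e, sub_self]
  exact (sub_eq_zero.1 (h.two _ e3)).symm

end Dt

end ring

section zz
variable {A : Type*} [Ring A] {s b : A}

lemma lk_zz (h : Lk s b) : (1 + (s * b + b * s) + (s * b + b * s)) * (1 + (s * b + b * s) + (s * b + b * s)) = 1 := by
  have h1 : (s * b + b * s) * s = -s := by
    rw [add_mul, mul_assoc b, h.ss, mul_zero, add_zero, h.sts]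
  have h2 : (s * b + b * s) * b = -b := by
    rw [add_mul, mul_assoc s, h.tt, mul_zero, zero_add, h.tst]
  have h3 : (s * b + b * s) * (s * b + b * s) = -(s * b + b * s) := by
    calc (s * b + b * s) * (s * b + b * s) = (s * b + b * s) * s * b + (s * b + b * s) * b * s := by noncomm_ring
      _ = _ := by rw [h1, h2]; noncomm_ring
  generalize s * b + b * s = P at h3 ⊢
  calc (1 + P + P) * (1 + P + P) = 1 + P + P + P + P + (P * P + P * P + P * P + P * P) := by noncomm_ring
    _ = 1 := by rw [h3]; abel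

lemma lk_zsz (h : Lk s b) : (1 + (s * b + b * s) + (s * b + b * s)) * s * (1 + (s * b + b * s) + (s * b + b * s)) = s := by
  have h1 : (s * b + b * s) * s = -s := by
    rw [add_mul, mul_assoc b, h.ss, mul_zero, add_zero, h.sts]
  have h2 : s * (s * b + b * s) = -s := by
    rw [mul_add, ← mul_assoc, h.ss, zero_mul, zero_add, ← mul_assoc, h.sts]
  generalize s * b + b * s = P at h1 h2 ⊢
  calc (1 + P + P) * s * (1 + P + P) = (s + P * s + P * s) * (1 + P + P) := by noncomm_ring
    _ = -s - s * P - s * P := by rw [h1]; noncomm_ring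
    _ = s := by rw [h2]; abel

end zz

section lin

variable {k : Type u} [Field k] {M : Type v} [AddCommGroup M] [Module k M]
variable {G : Subgroup (LinearMap.GeneralLinearGroup k M)} {s b γ δ : Module.End k M}

lemma fam_p (h : Dt s b γ δ) (hs : Fam G s) (hγ : Fam G γ) (hδ : Fam G δ) :
    Fam G (γ + δ - (s + s)) where
  sq := h.pp
  has := by
    intro c
    have h1 := ((hs.has (-(c + c))).mul ((hγ.has c).mul (hδ.has c)))
    have e : (c • γ) * (c • δ) = (c * c) • (s * (γ + δ - (s + s)) + s * (γ + δ - (s + s))) := by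
      rw [smul_mul_smul_comm, h.γδ_eq]
    have hss : s * s = 0 := hs.sq
    have e2 : s * (γ + δ) = s * (γ + δ - (s + s)) := by
      rw [mul_sub, mul_add s s s, hss]; simp
    have e3 : s * (s * (γ + δ - (s + s))) = 0 := by rw [← mul_assoc, hss, zero_mul]
    have e4 : (-(c + c)) • s + (c • γ + c • δ + (c • γ) * (c • δ)) +
        (-(c + c)) • s * (c • γ + c • δ + (c • γ) * (c • δ)) = c • (γ + δ - (s + s)) := by
      rw [e, ← smul_add, mul_add, smul_mul_smul_comm, smul_mul_smul_comm, e2, mul_add s, e3, add_zero, smul_zero,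
        add_zero]
      have e5 : s * (γ + δ - (s + s)) = s * (γ + δ - (s + s)) := rfl
      generalize hq : s * (γ + δ - (s + s)) = q
      module
    erw [e4] at h1
    exact h1

lemma fam_y (h : Dt s b γ δ) (hγ : Fam G γ) (hδ : Fam G δ) (hp : γ + δ - (s + s) = 0) :
    Fam G (γ - δ) where
  sq := by
    rw [h.yy, Dt.x_eq (s := s) (γ := γ) (δ := δ), hp]
    have hss : s * s = 0 := h.l1.ss
    have : (0 + (s + s)) * (0 + (s + s)) = s * s + s * s + (s * s + s * s) := by noncomm_ring
    rw [this, hss]; simp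
  has := by
    intro c
    have h1 := (hγ.has c).mul (hδ.has (-c))
    have e : (c • γ) * ((-c) • δ) = 0 := by
      rw [smul_mul_smul_comm, h.γδ_eq, hp]; simp
    erw [e] at h1
    have e2 : c • γ + (-c) • δ + 0 = c • (γ - δ) := by module
    rw [e2] at h1
    exact h1

variable [FiniteDimensional k M]

lemma finrank_range_add_le (f g : Module.End k M) : Module.finrank k (LinearMap.range (f + g)) ≤
    Module.finrank k (LinearMap.range f) + Module.finrank k (LinearMap.range g) := by
  have h1 : LinearMap.range (f + g) ≤ LinearMap.range f ⊔ LinearMap.range g := by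
    rintro _ ⟨x, rfl⟩
    exact Submodule.add_mem_sup ⟨x, rfl⟩ ⟨x, rfl⟩
  exact (Submodule.finrank_mono h1).trans (Submodule.finrank_add_le_finrank_add_finrank _ _)

lemma finrank_range_mul_left (f g : Module.End k M) : Module.finrank k (LinearMap.range (f * g)) ≤
    Module.finrank k (LinearMap.range g) := by
  have : LinearMap.range (f * g) = (LinearMap.range g).map f := LinearMap.range_comp g f
  rw [this]
  exact Submodule.finrank_map_le _ _

lemma finrank_range_mul_right (f g : Module.End k M) : Module.finrank k (LinearMap.range (f * g)) ≤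
    Module.finrank k (LinearMap.range f) := by
  apply Submodule.finrank_mono
  rintro _ ⟨x, rfl⟩
  exact ⟨g x, rfl⟩

/-- **rank bound** for `p` -/
theorem rank_p (h20 : (2 : k) ≠ 0) (h : Dt s b γ δ) :
    Module.finrank k (LinearMap.range (γ + δ - (s + s))) ≤ Module.finrank k (LinearMap.range b) := by
  have hps := h.ps
  have hpb := h.pb
  have hyby := h.yby
  have hbyyb := h.byyb
  have hpy := h.py
  have hyp := h.yp
  have hPy := h.Py
  generalize γ + δ - (s + s) = p at *
  generalize γ - δ = y at *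
  have h40 : (4 : k) ≠ 0 := by
    have : (4 : k) = 2 * 2 := by norm_num
    rw [this]; exact mul_ne_zero h20 h20
  -- (i)
  have e1 : p * (s * b + b * s) = s * (b * p) + (b * p) * s := by
    calc p * (s * b + b * s) = (p * s) * b + (p * b) * s := by noncomm_ring
      _ = _ := by rw [hps, hpb, mul_assoc s, hpb]
  have i1 : Module.finrank k (LinearMap.range (p * (s * b + b * s))) ≤
      Module.finrank k (LinearMap.range (b * p)) + Module.finrank k (LinearMap.range (b * p)) := by
    rw [e1]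
    exact (finrank_range_add_le _ _).trans (add_le_add (finrank_range_mul_left _ _) (finrank_range_mul_right _ _))
  -- (ii)
  have e2 : p = (-(2 : k)⁻¹) • (y * b * y) + (-1 : k) • (p * (s * b + b * s)) := by
    rw [hyby]
    have h22 : (2 : k)⁻¹ * 2 = 1 := inv_mul_cancel₀ h20
    have e3 : -(p + p) - (p * (s * b + b * s) + p * (s * b + b * s)) =
      (-(2 : k)) • p + (-(2 : k)) • (p * (s * b + b * s)) := by
      rw [neg_smul, neg_smul, two_smul, two_smul]; abel
    rw [e3, smul_add, smul_smul, smul_smul]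
    have e4 : -(2 : k)⁻¹ * -2 = 1 := by rw [neg_mul_neg, h22]
    rw [e4]
    module
  have i2 : Module.finrank k (LinearMap.range p) ≤ Module.finrank k (LinearMap.range (y * b * y)) +
      Module.finrank k (LinearMap.range (p * (s * b + b * s))) := by
    have h1 : LinearMap.range p ≤ LinearMap.range (y * b * y) ⊔ LinearMap.range (p * (s * b + b * s)) := by
      rintro _ ⟨x, rfl⟩
      rw [e2]
      exact Submodule.add_mem_sup (Submodule.smul_mem _ _ ⟨x, rfl⟩) (Submodule.smul_mem _ _ (by rw [← e2]; exact ⟨x, rfl⟩))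
    exact (Submodule.finrank_mono h1).trans (Submodule.finrank_add_le_finrank_add_finrank _ _)
  -- `b p m = b y² (b (m/4))`
  have e5 : ∀ m, (b * (y * y)) (b ((4 : k)⁻¹ • m)) = (b * p) m := by
    intro m
    have h1 : (b * (y * y)) (b ((4 : k)⁻¹ • m)) = (b * (y * y) * b) ((4 : k)⁻¹ • m) := rfl
    rw [h1, hbyyb, map_smul]
    have h2 : (b * p + b * p + (b * p + b * p)) m = (4 : k) • (b * p) m := by
      simp only [LinearMap.add_apply]
      module
    rw [h2, smul_smul, inv_mul_cancel₀ h40, one_smul]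
  have e6 : (b * (y * y)) * (b * y) = 0 := by
    calc (b * (y * y)) * (b * y) = (b * (y * y) * b) * y := by noncomm_ring
      _ = 0 := by
        rw [hbyyb]
        have : (b * p + b * p + (b * p + b * p)) * y = b * (p * y) + b * (p * y) + (b * (p * y) + b * (p * y)) := by
          noncomm_ring
        rw [this, hpy]; simp
  have e7 : y * (b * (y * y)) = 0 := by
    calc y * (b * (y * y)) = (y * b * y) * y := by noncomm_ring
      _ = 0 := by
        rw [hyby]
        have : (-(p + p) - (p * (s * b + b * s) + p * (s * b + b * s))) * y = -(p * y + p * y) -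
          (p * ((s * b + b * s) * y) + p * ((s * b + b * s) * y)) := by noncomm_ring
        rw [this, hPy]
        have e8 : p * (-y - y * (s * b + b * s)) = -(p * y) - (p * y) * (s * b + b * s) := by noncomm_ring
        rw [e8, hpy]; simp
  -- (iii)
  have i3 := finrank_map_add (b * (y * y)) (LinearMap.range b)
  have i4 : Module.finrank k (LinearMap.range (b * p)) ≤
      Module.finrank k ((LinearMap.range b).map (b * (y * y))) := by
    apply Submodule.finrank_mono
    rintro _ ⟨m, rfl⟩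
    exact ⟨_, ⟨_, rfl⟩, e5 m⟩
  have i5 : Module.finrank k (LinearMap.range (b * y)) ≤
      Module.finrank k ↥(LinearMap.range b ⊓ LinearMap.ker (b * (y * y))) := by
    apply Submodule.finrank_mono
    rintro _ ⟨m, rfl⟩
    exact ⟨⟨_, rfl⟩, congrArg (fun f : Module.End k M => f m) e6⟩
  -- (iv)
  have i6 := finrank_map_add y (LinearMap.range (b * y))
  have i7 : Module.finrank k (LinearMap.range (y * b * y)) ≤
      Module.finrank k ((LinearMap.range (b * y)).map y) := by
    apply Submodule.finrank_mono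
    rintro _ ⟨m, rfl⟩
    exact ⟨_, ⟨m, rfl⟩, rfl⟩
  have i8 : Module.finrank k (LinearMap.range (b * p)) ≤
      Module.finrank k ↥(LinearMap.range (b * y) ⊓ LinearMap.ker y) := by
    apply Submodule.finrank_mono
    rintro _ ⟨m, rfl⟩
    rw [← e5 m]
    exact ⟨⟨_, rfl⟩, congrArg (fun f : Module.End k M => f (b ((4 : k)⁻¹ • m))) e7⟩
  omega

/-- **rank bound** for `y` -/
theorem rank_y (h : Dt s b γ δ) (hp : γ + δ - (s + s) = 0) :
    Module.finrank k (LinearMap.range (γ - δ)) ≤ Module.finrank k (LinearMap.range b) := by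
  have hyby := h.yby
  have hxby := h.xby
  rw [Dt.x_eq (s := s) (γ := γ) (δ := δ)] at hxby
  rw [hp] at hyby hxby
  generalize γ - δ = y at *
  have e0 : y * b * y = 0 := by rw [hyby]; simp
  have e1 : y = -(s * (b * y)) - y * b * s := by
    have e2 : (y + (s * (b * y) + y * b * s)) + (y + (s * (b * y) + y * b * s)) = 0 := by
      calc (y + (s * (b * y) + y * b * s)) + (y + (s * (b * y) + y * b * s))
          = ((0 + (s + s)) * b * y + y * b * (0 + (s + s))) - (-y - y) := by noncomm_ring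
        _ = 0 := by rw [hxby, sub_self]
    have e3 := h.two _ e2
    calc y = (y + (s * (b * y) + y * b * s)) - (s * (b * y)) - y * b * s := by abel
      _ = _ := by rw [e3]; abel
  have i1 := finrank_map_add y (LinearMap.range b)
  have i2 : Module.finrank k (LinearMap.range (b * y)) ≤
      Module.finrank k ↥(LinearMap.range b ⊓ LinearMap.ker y) := by
    apply Submodule.finrank_mono
    rintro _ ⟨m, rfl⟩
    exact ⟨⟨_, rfl⟩, congrArg (fun f : Module.End k M => f m) e0⟩
  have i3 : Module.finrank k (LinearMap.range y) ≤ Module.finrank k (LinearMap.range (s * (b * y))) +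
      Module.finrank k ((LinearMap.range b).map y) := by
    have h1 : LinearMap.range y ≤ LinearMap.range (s * (b * y)) ⊔ (LinearMap.range b).map y := by
      rintro _ ⟨x, rfl⟩
      have : y x = -((s * (b * y)) x) + -(y (b (s x))) := by
        conv_lhs => rw [e1]
        simp only [LinearMap.sub_apply, LinearMap.neg_apply, Module.End.mul_apply]
        abel
      rw [this]
      exact Submodule.add_mem_sup (Submodule.neg_mem _ ⟨x, rfl⟩) (Submodule.neg_mem _ ⟨_, ⟨_, rfl⟩, rfl⟩)
    exact (Submodule.finrank_mono h1).trans (Submodule.finrank_add_le_finrank_add_finrank _ _)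
  have i4 := finrank_range_mul_left s (b * y)
  omega

/-- **auxiliary element** -/
theorem exists_xi (h20 : (2 : k) ≠ 0) (hk3 : Nat.card k ≠ 3)
    {σ χ τ : LinearMap.GeneralLinearGroup k M} (hσ : Mn G ((σ : M →ₗ[k] M) - 1))
    (hχ : Mn G ((χ : M →ₗ[k] M) - 1)) (hτ : Mn G ((τ : M →ₗ[k] M) - 1))
    (h1 : Opp ((σ : M →ₗ[k] M) - 1) ((τ : M →ₗ[k] M) - 1))
    (h2 : Opp ((χ : M →ₗ[k] M) - 1) ((τ : M →ₗ[k] M) - 1))
    (hc : ∀ X ∈ quadraticRootSubgroups G, ⁅X, sameActionSubgroup G σ⁆ = ⊥ → ⁅X, sameActionSubgroup G χ⁆ = ⊥) :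
    sameActionSubgroup G σ = sameActionSubgroup G χ ∨
    ∃ e : LinearMap.GeneralLinearGroup k M, Mn G ((e : M →ₗ[k] M) - 1) ∧
      ((τ : M →ₗ[k] M) - 1 : Module.End k M) * ((e : M →ₗ[k] M) - 1) * ((τ : M →ₗ[k] M) - 1) = 0 ∧
      ∀ X ∈ quadraticRootSubgroups G, ⁅X, sameActionSubgroup G σ⁆ = ⊥ → ∀ x ∈ X, x * e = e * x := by
  obtain ⟨a, ha, ha1, hla⟩ := exists_lk h20 hk3 hτ hσ h1.symm (self_mem hτ) (ne_one hτ)
  obtain ⟨c, hcc, hc1, hlc⟩ := exists_lk h20 hk3 hτ hχ h2.symm (self_mem hτ) (ne_one hτ)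
  have hra := rel_of_mem ha ha1
  have hrc := rel_of_mem hcc hc1
  have hma : Mn G ((a : M →ₗ[k] M) - 1) := hra.mn
  have hmc : Mn G ((c : M →ₗ[k] M) - 1) := hrc.mn
  rw [E_eq_of_mem hσ ha ha1, E_eq_of_mem hχ hcc hc1] at hc ⊢
  have haE := self_mem hma
  have hcE := self_mem hmc
  have hSa : sameActionSubgroup G a ∈ quadraticRootSubgroups G := mem_Sig.2 ⟨a, hma, rfl⟩
  have hSc : sameActionSubgroup G c ∈ quadraticRootSubgroups G := mem_Sig.2 ⟨c, hmc, rfl⟩
  set s : Module.End k M := (a : M →ₗ[k] M) - 1 with hs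
  set b : Module.End k M := (τ : M →ₗ[k] M) - 1 with hb
  set γ : Module.End k M := (c : M →ₗ[k] M) - 1 with hγ
  have hl1 : Lk s b := hla.symm
  have hl2 : Lk γ b := hlc.symm
  have haG : a ∈ G := E_le haE
  have hτG : τ ∈ G := E_le (self_mem hτ)
  have hcG : c ∈ G := E_le hcE
  have has : (a : Module.End k M) = 1 + s := by rw [hs]; abel
  have hτb : (τ : Module.End k M) = 1 + b := by rw [hb]; abel
  have hcγ : (c : Module.End k M) = 1 + γ := by rw [hγ]; abel
  obtain ⟨z, hzdef⟩ : ∃ z, z = (a * τ * a) * (a * τ * a) := ⟨_, rfl⟩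
  have hzG : z ∈ G := by
    rw [hzdef]
    have := G.mul_mem (G.mul_mem haG hτG) haG
    exact G.mul_mem this this
  have hzc : (z : Module.End k M) = 1 + (s * b + b * s) + (s * b + b * s) := by
    rw [hzdef, Units.val_mul, hl1.n_coe has hτb, hl1.sq]
  have hzz : z * z = 1 := by
    apply Units.ext
    rw [Units.val_mul, hzc, lk_zz hl1]; rfl
  have hzi : z⁻¹ = z := inv_eq_of_mul_eq_one_left hzz
  have hza : z * a * z⁻¹ = a := by
    have e : ((z * a * z⁻¹ : LinearMap.GeneralLinearGroup k M) : M →ₗ[k] M) - 1 = (a : M →ₗ[k] M) - 1 := by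
      rw [coe_conj]
      unfold cj
      rw [hzi, hzc]
      exact lk_zsz hl1
    exact Units.ext (sub_left_injective e)
  obtain ⟨c', hc'def⟩ : ∃ c', c' = z * c * z⁻¹ := ⟨_, rfl⟩
  obtain ⟨δ, hδ⟩ : ∃ δ : Module.End k M, δ = (c' : M →ₗ[k] M) - 1 := ⟨_, rfl⟩
  have hδ' : δ = (1 + (s * b + b * s) + (s * b + b * s)) * γ * (1 + (s * b + b * s) + (s * b + b * s)) := by
    rw [hδ, hc'def, coe_conj]
    unfold cj
    rw [hzi, hzc]
  have hmc' : Mn G δ := by
    rw [hδ, hc'def, coe_conj]
    exact Mn.conj hmc hzG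
  have hc'E : c' ∈ sameActionSubgroup G c' := self_mem (by rw [← hδ]; exact hmc')
  have hc'δ : (c' : Module.End k M) = 1 + δ := by rw [hδ]; abel
  -- `X` commuting with `E a` commutes with `E c'`
  have hX : ∀ X ∈ quadraticRootSubgroups G, ⁅X, sameActionSubgroup G a⁆ = ⊥ → ⁅X, sameActionSubgroup G c'⁆ = ⊥ := by
    intro X hX h
    have h3 := hc (conjBy X z⁻¹) (Sig_conj hX (G.inv_mem hzG)) (by
      have e : sameActionSubgroup G a = conjBy (sameActionSubgroup G a) z⁻¹ := by
        rw [E_conj (G.inv_mem hzG)]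
        congr 1
        rw [hzi]
        rw [hzi] at hza
        rw [hzi]
        exact hza.symm
      rw [e, ← conjBy_commutator, h, conjBy_bot])
    have h4 : ⁅conjBy (conjBy X z⁻¹) z, conjBy (sameActionSubgroup G c) z⁆ = ⊥ := by
      rw [← conjBy_commutator, h3, conjBy_bot]
    rw [conjBy_conjBy_inv, E_conj hzG, ← hc'def] at h4
    exact h4
  have hcomm1 : ⁅sameActionSubgroup G a, sameActionSubgroup G a⁆ = ⊥ :=
    Cfsg.Agent.Lib.RootSub.commutator_self_bot (E_comm a)
  have hcomm2 : ⁅sameActionSubgroup G a, sameActionSubgroup G c⁆ = ⊥ := hc _ hSa hcomm1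
  have hcomm3 : ⁅sameActionSubgroup G c, sameActionSubgroup G a⁆ = ⊥ := by
    rw [Subgroup.commutator_comm]; exact hcomm2
  have hac : a * c = c * a := Cfsg.Agent.Lib.RootSub.commute_of_commutator_bot hcomm2 haE hcE
  have hac' : a * c' = c' * a := Cfsg.Agent.Lib.RootSub.commute_of_commutator_bot (hX _ hSa hcomm1) haE hc'E
  have hcc' : c * c' = c' * c := Cfsg.Agent.Lib.RootSub.commute_of_commutator_bot (hX _ hSc hcomm3) hcE hc'E
  have tolin : ∀ {g h : LinearMap.GeneralLinearGroup k M} {u v : Module.End k M}, (g : Module.End k M) = 1 + u →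
      (h : Module.End k M) = 1 + v → g * h = h * g → u * v = v * u := by
    intro g h u v hu hv e
    have := congrArg (fun f : LinearMap.GeneralLinearGroup k M => (f : Module.End k M)) e
    simp only [Units.val_mul, hu, hv] at this
    have e2 : u * v - v * u = (1 + u) * (1 + v) - (1 + v) * (1 + u) := by noncomm_ring
    rw [← sub_eq_zero, e2, this, sub_self]
  have hD : Dt s b γ δ :=
    { l1 := hl1
      l2 := hl2
      hδ := hδ'
      sγ := tolin has hcγ hac
      sδ := tolin has hc'δ hac'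
      γδ := tolin hcγ hc'δ hcc'
      two := by
        intro x hx
        rw [← two_smul k] at hx
        exact (smul_eq_zero.1 hx).resolve_left h20 }
  have hxe : ∀ X ∈ quadraticRootSubgroups G, ⁅X, sameActionSubgroup G a⁆ = ⊥ → ∀ x ∈ X,
      x * a = a * x ∧ x * c = c * x ∧ x * c' = c' * x := by
    intro X hX1 h x hx
    exact ⟨Cfsg.Agent.Lib.RootSub.commute_of_commutator_bot h hx haE,
      Cfsg.Agent.Lib.RootSub.commute_of_commutator_bot (hc X hX1 h) hx hcE,
      Cfsg.Agent.Lib.RootSub.commute_of_commutator_bot (hX X hX1 h) hx hc'E⟩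
  by_cases hp : γ + δ - (s + s) = 0
  · by_cases hy : γ - δ = 0
    · left
      have e1 : γ = s := by
        have e2 : (γ - s) + (γ - s) = 0 := by
          calc (γ - s) + (γ - s) = (γ + δ - (s + s)) + (γ - δ) := by abel
            _ = 0 := by rw [hp, hy, add_zero]
        exact sub_eq_zero.1 (hD.two _ e2)
      have e3 : a = c := Units.ext (by rw [has, hcγ, e1])
      rw [e3]
    · right
      have hfy := fam_y hD hmc.fam hmc'.fam hp
      refine ⟨un (γ - δ) hfy.sq, ?_, ?_, ?_⟩
      · rw [un_coe, add_sub_cancel_left]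
        exact hτ.of_rank_le hfy hy (rank_y hD hp)
      · rw [un_coe, add_sub_cancel_left]
        exact hD.byb
      · intro X hX1 h x hx
        obtain ⟨-, h2, h3⟩ := hxe X hX1 h x hx
        have e : un (γ - δ) hfy.sq * c' = c := by
          apply Units.ext
          rw [Units.val_mul, un_coe, hc'δ, hcγ]
          have e4 := hD.γδ_eq
          rw [hp] at e4
          calc (1 + (γ - δ)) * (1 + δ) = 1 + γ + (γ * δ - δ * δ) := by noncomm_ring
            _ = 1 + γ := by rw [hD.δδ, e4]; simp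
        have e5 : un (γ - δ) hfy.sq = c * c'⁻¹ := by rw [← e]; group
        have h4 : x * c'⁻¹ = c'⁻¹ * x := by
          rw [eq_inv_mul_iff_mul_eq, ← mul_assoc, ← h3, mul_inv_cancel_right]
        rw [e5, ← mul_assoc, h2, mul_assoc, h4, mul_assoc]
  · right
    have hfp := fam_p hD hma.fam hmc.fam hmc'.fam
    refine ⟨un (γ + δ - (s + s)) hfp.sq, ?_, ?_, ?_⟩
    · rw [un_coe, add_sub_cancel_left]
      exact hτ.of_rank_le hfp hp (rank_p h20 hD)
    · rw [un_coe, add_sub_cancel_left]
      exact hD.bpb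
    · intro X hX1 h x hx
      obtain ⟨h1, h2, h3⟩ := hxe X hX1 h x hx
      have e : (a * a) * un (γ + δ - (s + s)) hfp.sq = c * c' := by
        apply Units.ext
        rw [Units.val_mul, Units.val_mul, Units.val_mul, un_coe, hc'δ, hcγ, has]
        have e4 := hD.γδ_eq
        have e6 := hD.l1.ss
        calc (1 + s) * (1 + s) * (1 + (γ + δ - (s + s))) = 1 + γ + δ + (s * (γ + δ - (s + s)) + s * (γ + δ - (s + s))) +
              s * s + (s * s) * (γ + δ - (s + s)) := by noncomm_ring
          _ = 1 + γ + δ + γ * δ := by rw [e4, e6]; simp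
          _ = (1 + γ) * (1 + δ) := by noncomm_ring
      have e5 : un (γ + δ - (s + s)) hfp.sq = (a * a)⁻¹ * (c * c') := by rw [← e]; group
      have h4 : x * (a * a)⁻¹ = (a * a)⁻¹ * x := by
        rw [eq_inv_mul_iff_mul_eq, ← mul_assoc, mul_assoc a a x, ← h1, ← mul_assoc, ← h1, mul_assoc x a a,
          mul_inv_cancel_right]
      rw [e5, ← mul_assoc, h4, mul_assoc, mul_assoc, ← mul_assoc x c, h2, mul_assoc c x, h3, ← mul_assoc c c']

end lin

end Cfsg.Agent.Lib.QuadPairG
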