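import Cfsg.Agent.Lib.QuadPairO
set_option autoImplicit false

/-!
Noncommuting unipotent pairs of root groups of quadratic pairs: reduction to homogeneous pairs
(owner: helper84).
-/

namespace Cfsg.Agent.Lib.QuadPairH
open Subgroup Cfsg
open Cfsg.Agent.Lib.QuadPair
open Cfsg.Agent.Lib.QuadPairU
open Cfsg.Agent.Lib.QuadPairN
open Cfsg.Agent.Lib.QuadPairR
open Cfsg.Agent.Lib.QuadPairS
open Cfsg.Agent.Lib.QuadPairT
open Cfsg.Agent.Lib.QuadPairNil
open Cfsg.Agent.Lib.QuadPairC
open Cfsg.Agent.Lib.QuadPairO
open Cfsg.Agent.Lib.RankOneGrp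

universe u v

section ring

variable {A : Type*} [Ring A] {s u r : A}

/-- ring level data for the decomposition `s = s₁ + s₂`, `s₂ = u r s r u` -/
structure Dc (s u r : A) : Prop where
  lk : Lk u r
  ss : s * s = 0
  su : s * u = 0
  us : u * s = 0
  H1 : s = -(u * r * s) - s * r * u - u * r * s * r * u

namespace Dc

lemma s2s2 (h : Dc s u r) : (u * r * s * r * u) * (u * r * s * r * u) = 0 := by
  have e : (u * r * s * r * u) * (u * r * s * r * u) = u * r * s * r * (u * u) * r * s * r * u := by
    noncomm_ring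
  rw [e, h.lk.ss]; simp

lemma ss2 (h : Dc s u r) : s * (u * r * s * r * u) = 0 := by
  have e : s * (u * r * s * r * u) = (s * u) * r * s * r * u := by noncomm_ring
  rw [e, h.su]; simp

lemma s2s (h : Dc s u r) : (u * r * s * r * u) * s = 0 := by
  have e : (u * r * s * r * u) * s = u * r * s * r * (u * s) := by noncomm_ring
  rw [e, h.us]; simp

lemma s1s1 (h : Dc s u r) : (s - u * r * s * r * u) * (s - u * r * s * r * u) = 0 := by
  rw [sub_mul, mul_sub, mul_sub, h.ss, h.ss2, h.s2s, h.s2s2]; simp

/-- homogeneity of `s₁` -/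
lemma H (h : Dc s u r) : (s - u * r * s * r * u) =
    -(u * r * (s - u * r * s * r * u)) - (s - u * r * s * r * u) * r * u := by
  have e1 : u * r * (s - u * r * s * r * u) = u * r * s - (u * r * u) * r * s * r * u := by
    noncomm_ring
  have e2 : (s - u * r * s * r * u) * r * u = s * r * u - u * r * s * (r * u * r) * u := by
    noncomm_ring
  rw [e1, e2, h.lk.sts, h.lk.tst]
  conv_lhs => rw [h.H1]
  have e3 : u * r * (-(u * r * s) - s * r * u - u * r * s * r * u) * r * u =
      -((u * r * u) * r * s * r * u) - u * r * s * (r * u * r) * u -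
      (u * r * u) * r * s * (r * u * r) * u := by noncomm_ring
  rw [e3, h.lk.sts, h.lk.tst]
  noncomm_ring

/-- conjugation by the involution -/
lemma inv_conj (h : Dc s u r) : (1 + (u * r + r * u) + (u * r + r * u)) * s =
    (-s + u * r * s * r * u + u * r * s * r * u) * (1 + (u * r + r * u) + (u * r + r * u)) := by
  have e1 : (1 + (u * r + r * u) + (u * r + r * u)) * s = s + u * r * s + u * r * s +
      r * (u * s) + r * (u * s) := by noncomm_ring
  have e2 : (-s + u * r * s * r * u + u * r * s * r * u) * (1 + (u * r + r * u) + (u * r + r * u)) =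
      -s + u * r * s * r * u + u * r * s * r * u - (s * u) * r - (s * u) * r - s * r * u -
      s * r * u + 2 • (u * r * s * r * (u * u) * r) + 2 • (u * r * s * r * (u * u) * r) +
      2 • (u * r * s * (r * u * r) * u) + 2 • (u * r * s * (r * u * r) * u) := by noncomm_ring
  rw [e1, e2, h.su, h.us, h.lk.ss, h.lk.tst]
  have e3 : u * r * s = -s - s * r * u - u * r * s * r * u := by
    have := h.H1
    have e4 : u * r * s = u * r * s + (s - (-(u * r * s) - s * r * u - u * r * s * r * u)) -
      (s - (-(u * r * s) - s * r * u - u * r * s * r * u)) := by abel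
    calc u * r * s = -(-(u * r * s) - s * r * u - u * r * s * r * u) - s * r * u -
          u * r * s * r * u := by abel
      _ = _ := by rw [← this]
  have e5 : s + u * r * s + u * r * s = s + (u * r * s) + (u * r * s) := rfl
  simp only [mul_zero, zero_mul, add_zero, sub_zero, smul_zero]
  have e6 : u * r * s * -r * u = -(u * r * s * r * u) := by noncomm_ring
  rw [e6]
  generalize u * r * s * r * u = s2 at *
  rw [e3]
  abel

end Dc

end ring

variable {k : Type u} [Field k] {M : Type v} [AddCommGroup M] [Module k M]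
  {G : Subgroup (LinearMap.GeneralLinearGroup k M)}

section lin

variable {s t u r : Module.End k M}

lemma nc_ss (hs : Mn G s) : s * s = 0 := hs.fam.sq

/-- `s` maps the kernel of `u = s t - t s` into the range of `u` -/
lemma ker_map (hc : Nc G s t) {x : M} (hx : (s * t - t * s) x = 0) :
    s x ∈ LinearMap.range s ⊓ LinearMap.ker t := by
  have h1 : s (t x) = t (s x) := by
    have : s (t x) - t (s x) = 0 := hx
    exact sub_eq_zero.1 this
  have h2 : s (t x) ∈ LinearMap.range s ⊓ LinearMap.ker t := by
    refine ⟨⟨t x, rfl⟩, ?_⟩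
    exact congrArg (fun f : Module.End k M => f x) hc.nil.tst
  have h3 : t (s x) ∈ LinearMap.range t ⊓ LinearMap.ker s := by
    refine ⟨⟨s x, rfl⟩, ?_⟩
    exact congrArg (fun f : Module.End k M => f x) hc.nil.sts
  have h4 : t (s x) = 0 := by
    rw [h1] at h2
    exact Submodule.disjoint_def.1 hc.disj _ h2 h3
  exact ⟨⟨x, rfl⟩, h4⟩

lemma s_u (hs : Mn G s) (hc : Nc G s t) : s * (s * t - t * s) = 0 := by
  rw [mul_sub, ← mul_assoc, hs.fam.sq, zero_mul, ← mul_assoc, hc.nil.sts, sub_zero]

lemma u_s (hs : Mn G s) (hc : Nc G s t) : (s * t - t * s) * s = 0 := by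
  rw [sub_mul, hc.nil.sts, mul_assoc, hs.fam.sq, mul_zero, sub_zero]

lemma range_u (hs : Mn G s) (ht : Mn G t) (hc : Nc G s t) :
    LinearMap.range s ⊓ LinearMap.ker t ≤ LinearMap.range (s * t - t * s) := by
  rw [hc.range s (Rel.refl hs) t (Rel.refl ht)]
  exact le_sup_left

lemma range_u' (hs : Mn G s) (ht : Mn G t) (hc : Nc G s t) :
    LinearMap.range t ⊓ LinearMap.ker s ≤ LinearMap.range (s * t - t * s) := by
  rw [hc.range s (Rel.refl hs) t (Rel.refl ht)]
  exact le_sup_right

/-- the ring data of `s` -/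
lemma dc (hs : Mn G s) (ht : Mn G t) (hc : Nc G s t) (hu : u = s * t - t * s)
    (lk : Lk (A := Module.End k M) u r) : Dc (A := Module.End k M) s u r where
  lk := lk
  ss := hs.fam.sq
  su := by rw [hu]; exact s_u hs hc
  us := by rw [hu]; exact u_s hs hc
  H1 := by
    have key : (1 + u * r) * s * (1 + r * u) = 0 := by
      ext x
      have h1 : u (x + r (u x)) = 0 := by
        rw [map_add]
        have : u (r (u x)) = -(u x) := congrArg (fun f : Module.End k M => f x) lk.sts
        rw [this]; abel
      rw [hu] at h1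
      have h2 := range_u hs ht hc (ker_map hc h1)
      rw [← hu] at h2
      obtain ⟨y, hy⟩ := h2
      show s (x + r (u x)) + u (r (s (x + r (u x)))) = 0
      rw [← hy]
      have : u (r (u y)) = -(u y) := congrArg (fun f : Module.End k M => f y) lk.sts
      rw [this]; abel
    have e : (1 + u * r) * s * (1 + r * u) = s - (-(u * r * s) - s * r * u - u * r * s * r * u) := by
      noncomm_ring
    rw [e] at key
    exact sub_eq_zero.1 key

/-- `1 + c s₂ ∈ G` -/
lemma has_s2 (h20 : (2 : k) ≠ 0) (hs : Mn G s) (hu : Mn G u) (hr : Mn G r)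
    (h : Dc (A := Module.End k M) s u r) : Fam G (u * r * s * r * u) where
  sq := h.s2s2
  has := by
    intro c
    set a : LinearMap.GeneralLinearGroup k M := un u hu.fam.sq
    set b : LinearMap.GeneralLinearGroup k M := un r hr.fam.sq
    have haG : a ∈ G := (has_iff hu.fam.sq).1 hu.fam.one
    have hbG : b ∈ G := (has_iff hr.fam.sq).1 hr.fam.one
    set i := a * b * a * (a * b * a) with hi
    have hiG : i ∈ G := by
      have := G.mul_mem (G.mul_mem haG hbG) haG
      exact G.mul_mem this this
    have hic : (i : Module.End k M) = 1 + (u * r + r * u) + (u * r + r * u) := by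
      rw [hi, Units.val_mul, h.lk.n_coe (a := a) (b := b) rfl rfl, h.lk.sq]
    set c' : k := c / 2 with hc'
    have hcs := hs.fam.smul c'
    set e := un (c' • s) hcs.sq with he
    have heG : e ∈ G := (has_iff hcs.sq).1 (hs.fam.has c')
    refine ⟨e * (i * e * i⁻¹), G.mul_mem heG (G.mul_mem (G.mul_mem hiG heG) (G.inv_mem hiG)), ?_⟩
    have h1 : (i : Module.End k M) * e * ((i⁻¹ : LinearMap.GeneralLinearGroup k M) :
        Module.End k M) = 1 + c' • (-s + u * r * s * r * u + u * r * s * r * u) := by
      have e1 : (e : Module.End k M) = 1 + c' • s := rfl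
      rw [e1, mul_add, mul_one, mul_smul_comm, add_mul, Units.mul_inv, smul_mul_assoc]
      congr 2
      rw [hic, h.inv_conj, ← hic, mul_assoc, Units.mul_inv, mul_one]
    rw [Units.val_mul, Units.val_mul, Units.val_mul, h1]
    have e1 : (e : Module.End k M) = 1 + c' • s := rfl
    rw [e1]
    have h2 : s * (-s + u * r * s * r * u + u * r * s * r * u) = 0 := by
      rw [mul_add, mul_add, mul_neg, h.ss, h.ss2]; simp
    rw [add_mul, one_mul, mul_add, mul_one, smul_mul_smul_comm, h2, smul_zero, add_zero]
    have hcc : c = c' + c' := by rw [hc']; field_simp; ring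
    rw [hcc]
    generalize u * r * s * r * u = s2
    rw [add_smul, smul_add, smul_add, smul_neg]
    abel

lemma fam_s1 (hs : Mn G s) (h : Dc (A := Module.End k M) s u r)
    (h2 : Fam G (u * r * s * r * u)) : Fam G (s - u * r * s * r * u) where
  sq := h.s1s1
  has := by
    intro c
    have h3 := (hs.fam.has c).mul (h2.neg.has c)
    have e : c • s + c • -(u * r * s * r * u) + (c • s) * (c • -(u * r * s * r * u)) =
        c • (s - u * r * s * r * u) := by
      rw [smul_mul_smul_comm, mul_neg, h.ss2, neg_zero, smul_zero, add_zero, smul_sub, smul_neg,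
        sub_eq_add_neg]
    rwa [e] at h3

lemma rel_s2 [FiniteDimensional k M] (hu : Mn G u) (h2 : Fam G (u * r * s * r * u))
    (hne : u * r * s * r * u ≠ 0) : Rel G u (u * r * s * r * u) := by
  have hrange : LinearMap.range (u * r * s * r * u) ≤ LinearMap.range u := by
    have e : u * r * s * r * u = u * (r * s * r * u) := by noncomm_ring
    rw [e]; exact LinearMap.range_comp_le_range _ _
  have hker : LinearMap.ker u ≤ LinearMap.ker (u * r * s * r * u) := by
    intro x hx
    have : u x = 0 := hx
    show (u * r * s * r) (u x) = 0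
    rw [this, map_zero]
  have hr := hu.same h2 hne hrange
  exact ⟨hu.of_rank_le h2 hne (by rw [hr]), (hu.same_ker h2 hne hker).symm, hr⟩

lemma rank_s1 [FiniteDimensional k M] (hs : Mn G s) (ht : Mn G t) (hc : Nc G s t)
    (hu : u = s * t - t * s)
    (h : Dc (A := Module.End k M) s u r) :
    Module.finrank k (LinearMap.range (s - u * r * s * r * u)) ≤
      Module.finrank k (LinearMap.range s) := by
  set D1 := LinearMap.range s ⊓ LinearMap.ker t with hD1
  set π : Module.End k M := 1 + u * r + r * u with hπ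
  have hD1u : D1 ≤ LinearMap.range u := by rw [hu]; exact range_u hs ht hc
  have hsub : LinearMap.range (s - u * r * s * r * u) ≤ (LinearMap.range s).map π ⊔ D1 := by
    rintro _ ⟨x, rfl⟩
    have h1 : u (x + r (u x)) = 0 := by
      rw [map_add]
      have : u (r (u x)) = -(u x) := congrArg (fun f : Module.End k M => f x) h.lk.sts
      rw [this]; abel
    have h2 : s (x + r (u x)) ∈ D1 := by
      apply ker_map hc
      rw [← hu]; exact h1
    have h3 : (s - u * r * s * r * u) x = π (s (-(r (u x)))) + s (x + r (u x)) := by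
      have h4 : π (s (-(r (u x)))) = -(s (r (u x))) - u (r (s (r (u x)))) := by
        have h5 : u (s (r (u x))) = 0 :=
          congrArg (fun f : Module.End k M => f (r (u x))) h.us
        have h6 : π (s (-(r (u x)))) = s (-(r (u x))) + u (r (s (-(r (u x))))) +
          r (u (s (-(r (u x))))) := rfl
        rw [h6]
        simp only [map_neg, h5, map_zero]
        abel
      rw [h4, map_add]
      show s x - u (r (s (r (u x)))) = _
      abel
    rw [h3]
    exact Submodule.add_mem_sup ⟨_, ⟨_, rfl⟩, rfl⟩ h2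
  have hker : D1 ≤ LinearMap.range s ⊓ LinearMap.ker π := by
    intro y hy
    refine ⟨hy.1, ?_⟩
    obtain ⟨z, rfl⟩ := hD1u hy
    have h1 : u (r (u z)) = -(u z) := congrArg (fun f : Module.End k M => f z) h.lk.sts
    have h2 : u (u z) = 0 := congrArg (fun f : Module.End k M => f z) h.lk.ss
    show u z + u (r (u z)) + r (u (u z)) = 0
    rw [h1, h2, map_zero]; abel
  have e1 := finrank_map_add π (LinearMap.range s)
  have e2 := Submodule.finrank_mono hsub
  have e3 := Submodule.finrank_mono hker
  have e4 := Submodule.finrank_sup_add_finrank_inf_eq ((LinearMap.range s).map π) D1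
  omega

end lin

variable [FiniteDimensional k M] {s t u r : Module.End k M}

/-- the homogeneous pair attached to a noncommuting nil pair and an opposite element -/
theorem hm_of_nc (h20 : (2 : k) ≠ 0) (hk3 : Nat.card k ≠ 3) (hs : Mn G s) (ht : Mn G t)
    (hc : Nc G s t) (hu : u = s * t - t * s) (hr : Mn G r) (lk : Lk (A := Module.End k M) u r) :
    Hm G (s - u * r * s * r * u) (t - u * r * t * r * u) u r := by
  have hmu : Mn G u := by rw [hu]; exact hc.mn s (Rel.refl hs) t (Rel.refl ht)
  have hds := dc hs ht hc hu lk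
  have hdt' := dc ht hs (hc.symm hs ht) (u := -u) (r := -r) (by rw [hu]; abel) lk.neg
  have hdt : Dc (A := Module.End k M) t u r := by
    refine ⟨lk, ht.fam.sq, ?_, ?_, ?_⟩
    · have := hdt'.su
      rwa [mul_neg, neg_eq_zero] at this
    · have := hdt'.us
      rwa [neg_mul, neg_eq_zero] at this
    · have := hdt'.H1
      have e : -(-u * -r * t) - t * -r * -u - -u * -r * t * -r * -u =
          -(u * r * t) - t * r * u - u * r * t * r * u := by noncomm_ring
      rwa [e] at this
  have hfs2 := has_s2 h20 hs hmu hr hds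
  have hft2 := has_s2 h20 ht hmu hr hdt
  have hfs1 := fam_s1 hs hds hfs2
  have hft1 := fam_s1 ht hdt hft2
  have st : (s - u * r * s * r * u) * (t - u * r * t * r * u) = s * t := by
    have e : (s - u * r * s * r * u) * (t - u * r * t * r * u) = s * t -
        (s * u) * r * t * r * u - u * r * s * r * (u * t) +
        u * r * s * r * (u * u) * r * t * r * u := by noncomm_ring
    rw [e, hds.su, hdt.us, lk.ss]; simp
  have ts : (t - u * r * t * r * u) * (s - u * r * s * r * u) = t * s := by
    have e : (t - u * r * t * r * u) * (s - u * r * s * r * u) = t * s -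
        (t * u) * r * s * r * u - u * r * t * r * (u * s) +
        u * r * t * r * (u * u) * r * s * r * u := by noncomm_ring
    rw [e, hdt.su, hds.us, lk.ss]; simp
  have hu1 : u = (s - u * r * s * r * u) * (t - u * r * t * r * u) -
      (t - u * r * t * r * u) * (s - u * r * s * r * u) := by
    rw [st, ts]; exact hu
  have hs1ne : s - u * r * s * r * u ≠ 0 := by
    intro h0
    rw [h0, zero_mul, mul_zero, sub_zero] at hu1
    exact hmu.ne hu1
  have ht1ne : t - u * r * t * r * u ≠ 0 := by
    intro h0
    rw [h0, zero_mul, mul_zero, sub_zero] at hu1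
    exact hmu.ne hu1
  have hms1 := hs.of_rank_le hfs1 hs1ne (rank_s1 hs ht hc hu hds)
  have hmt1 := ht.of_rank_le hft1 ht1ne (by
    have hdt3 : Dc (A := Module.End k M) t (-u) (-r) := hdt'
    have h1 := rank_s1 ht hs (hc.symm hs ht) (u := -u) (r := -r) (by rw [hu]; abel) hdt3
    have e : t - -u * -r * t * -r * -u = t - u * r * t * r * u := by noncomm_ring
    rwa [e] at h1)
  refine ⟨hms1, hmt1, ?_, hu1, hmu, hr, lk, hds.H, hdt.H⟩
  apply nil_of_zero h20 hk3 hms1 hmt1
  rw [st]
  have e : s * t * (s - u * r * s * r * u) = s * t * s - s * (t * u) * r * s * r * u := by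
    noncomm_ring
  rw [e, hc.nil.sts, hdt.su]; simp

omit [FiniteDimensional k M] in
/-- conjugation by `1 + a` -/
lemma cj_un {a x : Module.End k M} (ha : a * a = 0) (h : a * x * a = 0) :
    cj (un a ha) x = x + (a * x - x * a) := by
  unfold cj
  rw [un_coe, un_inv_coe]
  have e : (1 + a) * x * (1 - a) = x + (a * x - x * a) - a * x * a := by noncomm_ring
  rw [e, h, sub_zero]

/-- **Theorem C.** Surjectivity of the commutator map for noncommuting nil pairs. -/
theorem surj (h20 : (2 : k) ≠ 0) (hk3 : Nat.card k ≠ 3) (hG : IsIrreducibleFor G) (hs : Mn G s)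
    (ht : Mn G t) (hc : Nc G s t) {δ : Module.End k M} (hδ : Rel G (s * t - t * s) δ) :
    ∃ s', Rel G s s' ∧ s' * t - t * s' = δ := by
  set u := s * t - t * s with hu
  have hmu : Mn G u := hc.mn s (Rel.refl hs) t (Rel.refl ht)
  obtain ⟨g, hg, ho⟩ := exists_opposite h20 hk3 hG hmu
  obtain ⟨r, hr, e1, e2⟩ := exists_inv h20 hk3 hmu (Mn.conj hmu hg) ho
  have lk : Lk (A := Module.End k M) u r := ⟨hmu.fam.sq, hr.mn.fam.sq, e1, e2⟩
  have hm := hm_of_nc h20 hk3 hs ht hc hu hr.mn lk
  have hds := dc hs ht hc hu lk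
  have hdt' := dc ht hs (hc.symm hs ht) (u := -u) (r := -r) (by rw [hu]; abel) lk.neg
  have tu : t * u = 0 := by
    have := hdt'.su
    rwa [mul_neg, neg_eq_zero] at this
  have ut : u * t = 0 := by
    have := hdt'.us
    rwa [neg_mul, neg_eq_zero] at this
  set s2 := u * r * s * r * u with hs2
  set t2 := u * r * t * r * u with ht2
  have hfs2 : Fam G s2 := has_s2 h20 hs hmu hr.mn hds
  have hft2 : Fam G t2 := by
    have h1 := has_s2 h20 ht ((Rel.refl hmu).neg).mn ((Rel.refl hr.mn).neg).mn hdt'
    have e : -u * -r * t * -r * -u = t2 := by rw [ht2]; noncomm_ring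
    rwa [e] at h1
  -- elements of the `D`-class commute with everything
  have sD : ∀ x, Rel G u x → ∀ s', Rel G (s - s2) s' → s' * x = 0 ∧ x * s' = 0 := by
    intro x hx s' hs'
    have h1 : Hm G (s - s2) (t - t2) u r := hm
    constructor
    · rw [mul_eq_zero_iff, hs'.ker, ← mul_eq_zero_iff]; exact h1.sδ hx
    · rw [mul_eq_zero_iff, hs'.range, ← mul_eq_zero_iff]; exact h1.δs hx
  have tD : ∀ x, Rel G u x → ∀ t', Rel G (t - t2) t' → t' * x = 0 ∧ x * t' = 0 := by
    intro x hx t' ht'
    have h1 : Hm G (t - t2) (s - s2) (-u) (-r) := hm.symm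
    have hx' : Rel G (-u) x := by
      refine ⟨hx.mn, ?_, ?_⟩
      · rw [hx.ker]; exact (LinearMap.ker_neg u).symm
      · rw [hx.range]; exact (LinearMap.range_neg u).symm
    constructor
    · rw [mul_eq_zero_iff, ht'.ker, ← mul_eq_zero_iff]; exact h1.sδ hx'
    · rw [mul_eq_zero_iff, ht'.range, ← mul_eq_zero_iff]; exact h1.δs hx'
  -- the conjugating element
  have hq : ∃ q ∈ G, cj q (s - s2) = s ∧ cj q (t - t2) = t ∧ cj q δ = δ := by
    -- `g ∈ F₁`
    obtain ⟨g, hg, g1, g2, g3⟩ : ∃ g ∈ G, cj g (s - s2) = s ∧ cj g (t - t2) = t - t2 ∧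
        ∀ x, (Rel G u x ∨ x = 0) → cj g x = x := by
      by_cases h0 : s2 = 0
      · refine ⟨1, G.one_mem, ?_, ?_, ?_⟩
        · rw [cj_one, h0, sub_zero]
        · rw [cj_one]
        · intro x _; rw [cj_one]
      · have hrel : Rel G u s2 := rel_s2 hmu hfs2 h0
        have hrel' : Rel G (-u) s2 := by
          refine ⟨hrel.mn, ?_, ?_⟩
          · rw [hrel.ker]; exact (LinearMap.ker_neg u).symm
          · rw [hrel.range]; exact (LinearMap.range_neg u).symm
        obtain ⟨t', ht', et'⟩ := hm.symm.surj h20 hk3 hrel'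
        have hsq := ht'.mn.fam.sq
        refine ⟨un t' hsq, (has_iff hsq).1 ht'.mn.fam.one, ?_, ?_, ?_⟩
        · rw [cj_un hsq, et']
          · abel
          · exact nil_words h20 hk3 hm.ht hm.hs hm.nil.symm ht' ht' (Rel.refl hm.hs)
        · have h1 : t' * (t - t2) = 0 := ht'.mul_zero (Rel.refl hm.ht)
          have h2 : (t - t2) * t' = 0 := (Rel.refl hm.ht).mul_zero ht'
          rw [cj_un hsq, h1, h2]
          · abel
          · rw [h1, zero_mul]
        · rintro x (hx | rfl)
          · obtain ⟨h1, h2⟩ := tD x hx t' ht'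
            rw [cj_un hsq, h1, h2]
            · abel
            · rw [h1, zero_mul]
          · exact cj_zero_iff.2 rfl
    obtain ⟨h, hh, h1, h2, h3⟩ : ∃ h ∈ G, cj h (t - t2) = t ∧ cj h (s - s2) = s - s2 ∧
        ∀ x, (Rel G u x ∨ x = 0) → cj h x = x := by
      by_cases h0 : t2 = 0
      · refine ⟨1, G.one_mem, ?_, ?_, ?_⟩
        · rw [cj_one, h0, sub_zero]
        · rw [cj_one]
        · intro x _; rw [cj_one]
      · have hrel : Rel G u t2 := rel_s2 hmu hft2 h0
        obtain ⟨s', hs', es'⟩ := hm.surj h20 hk3 hrel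
        have hsq := hs'.mn.fam.sq
        refine ⟨un s' hsq, (has_iff hsq).1 hs'.mn.fam.one, ?_, ?_, ?_⟩
        · rw [cj_un hsq, es']
          · abel
          · exact nil_words h20 hk3 hm.hs hm.ht hm.nil hs' hs' (Rel.refl hm.ht)
        · have h1 : s' * (s - s2) = 0 := hs'.mul_zero (Rel.refl hm.hs)
          have h2 : (s - s2) * s' = 0 := (Rel.refl hm.hs).mul_zero hs'
          rw [cj_un hsq, h1, h2]
          · abel
          · rw [h1, zero_mul]
        · rintro x (hx | rfl)
          · obtain ⟨h1, h2⟩ := sD x hx s' hs'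
            rw [cj_un hsq, h1, h2]
            · abel
            · rw [h1, zero_mul]
          · exact cj_zero_iff.2 rfl
    refine ⟨g * h, G.mul_mem hg hh, ?_, ?_, ?_⟩
    · rw [cj_mul, h2, g1]
    · rw [cj_mul, h1]
      have ht2' : Rel G u t2 ∨ t2 = 0 := by
        by_cases h0 : t2 = 0
        · exact Or.inr h0
        · exact Or.inl (rel_s2 hmu hft2 h0)
      have e : t = (t - t2) + t2 := by abel
      have eadd : ∀ x y : Module.End k M, cj g (x + y) = cj g x + cj g y := by
        intro x y; unfold cj; rw [mul_add, add_mul]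
      conv_lhs => rw [e]
      rw [eadd, g2, g3 t2 ht2']; abel
    · rw [cj_mul, h3 δ (Or.inl hδ), g3 δ (Or.inl hδ)]
  obtain ⟨q, hqG, q1, q2, q3⟩ := hq
  obtain ⟨s', hs', es'⟩ := hm.surj h20 hk3 hδ
  refine ⟨cj q s', ?_, ?_⟩
  · have := Rel.conj hs' hqG
    rwa [q1] at this
  · have e : cj q (s' * (t - t2) - (t - t2) * s') = cj q s' * t - t * cj q s' := by
      have esub : ∀ x y : Module.End k M, cj q (x - y) = cj q x - cj q y := by
        intro x y; unfold cj; rw [mul_sub, sub_mul]
      rw [esub, cj_prod, cj_prod, q2]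
    rw [← e, es', q3]

end Cfsg.Agent.Lib.QuadPairH
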