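import Cfsg.Agent.Lib.RankOneGrp
import Cfsg.Prelude.Def_Transfer
set_option autoImplicit false

/-!
# Special rank one pairs (helper83)

For a special rank one pair `(A, B)` we use the relation `Star A B a s`: `s ∈ B#` is the inverse of
`b(a)`.  Then `a s a = s a s` (the element `n(a)`) swaps `A` and `B`, `Star` is symmetric,
compatible with inverses and with conjugation.
-/

namespace Cfsg.Agent.Lib.SpecialRankOne
open Cfsg Subgroup
open Cfsg.Agent.Lib.RankOneGrp
open scoped commutatorElement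

variable {G : Type*} [Group G] {A B : Subgroup G}

/-- `s = b(a)⁻¹` -/
def Star (A B : Subgroup G) (a s : G) : Prop :=
  a ∈ A ∧ a ≠ 1 ∧ s ∈ B ∧ s ≠ 1 ∧ conjBy A s = conjBy B a⁻¹

lemma special_symm (h : IsSpecialRankOnePair A B) : IsSpecialRankOnePair B A := by
  refine ⟨RankOnePair_symm h.1, ?_⟩
  intro b hb hb1 a ha ha1 e
  have := h.2 a ha ha1 b hb hb1 e.symm
  have h2 : (b⁻¹ * a * b)⁻¹ = (a⁻¹ * b⁻¹ * a)⁻¹ := by rw [this]
  have h3 : (b⁻¹ * a * b)⁻¹ = b⁻¹ * a⁻¹ * b := by group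
  have h4 : (a⁻¹ * b⁻¹ * a)⁻¹ = a⁻¹ * b * a := by group
  rw [h3, h4] at h2
  exact h2.symm

lemma exists_star (h : IsRankOnePair A B) {a : G} (ha : a ∈ A) (ha1 : a ≠ 1) :
    ∃ s, Star A B a s := by
  obtain ⟨b, hb, hb1, e⟩ := h.cond_left a ha ha1
  exact ⟨b⁻¹, ha, ha1, B.inv_mem hb, by simpa using hb1, e⟩

lemma star_unique_right (h : IsRankOnePair A B) {a s s' : G} (h1 : Star A B a s)
    (h2 : Star A B a s') : s = s' :=
  right_unique' h h1.2.2.1 h2.2.2.1 (by rw [h1.2.2.2.2, h2.2.2.2.2])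

lemma star_unique_left (h : IsRankOnePair A B) {a a' s : G} (h1 : Star A B a s)
    (h2 : Star A B a' s) : a = a' :=
  left_unique h h1.1 h2.1 (by rw [← h1.2.2.2.2, h2.2.2.2.2])

/-- the braid relation `a s a = s a s` -/
lemma braid (h : IsSpecialRankOnePair A B) {a s : G} (hs : Star A B a s) :
    a * s * a = s * a * s := by
  have := h.2 a hs.1 hs.2.1 s⁻¹ (B.inv_mem hs.2.2.1) (by simpa using hs.2.2.2.1)
    (by rw [inv_inv]; exact hs.2.2.2.2)
  rw [inv_inv] at this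
  -- s a s⁻¹ = a⁻¹ s a
  have h2 : a * (s * a * s⁻¹) * s = a * (a⁻¹ * s * a) * s := by rw [this]
  have h3 : a * (s * a * s⁻¹) * s = a * s * a := by group
  have h4 : a * (a⁻¹ * s * a) * s = s * a * s := by group
  rw [h3, h4] at h2
  exact h2

/-- `n = a s a` conjugates `a` to `s` -/
lemma n_conj_a (h : IsSpecialRankOnePair A B) {a s : G} (hs : Star A B a s) :
    (a * s * a) * a * (a * s * a)⁻¹ = s := by
  have hb := braid h hs
  have : (a * s * a) * a = s * (a * s * a) := by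
    calc (a * s * a) * a = (s * a * s) * a := by rw [hb]
      _ = s * (a * s * a) := by group
  rw [this, mul_inv_cancel_right]

/-- `n = a s a` conjugates `s` to `a` -/
lemma n_conj_s (h : IsSpecialRankOnePair A B) {a s : G} (hs : Star A B a s) :
    (a * s * a) * s * (a * s * a)⁻¹ = a := by
  have hb := braid h hs
  have : (a * s * a) * s = a * (a * s * a) := by
    calc (a * s * a) * s = a * (s * a * s) := by group
      _ = a * (a * s * a) := by rw [hb]
  rw [this, mul_inv_cancel_right]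

/-- `n A n⁻¹ = B` -/
lemma n_conj_A {a s : G} (hs : Star A B a s) :
    conjBy A (a * s * a) = B := by
  rw [conjBy_mul, conjBy_of_mem hs.1, conjBy_mul, hs.2.2.2.2, conjBy_conjBy_inv]

/-- `n⁻¹ A n = B` -/
lemma n_inv_conj_A (h : IsSpecialRankOnePair A B) {a s : G} (hs : Star A B a s) :
    conjBy A (a * s * a)⁻¹ = B := by
  have h1 : s ∈ conjBy A (a * s * a)⁻¹ := by
    rw [mem_conjBy, inv_inv, n_conj_s h hs]; exact hs.1
  have hX : (a * s * a)⁻¹ ∈ A ⊔ B := by
    refine Subgroup.inv_mem _ (Subgroup.mul_mem _ (Subgroup.mul_mem _ ?_ ?_) ?_)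
    · exact Subgroup.mem_sup_left hs.1
    · exact Subgroup.mem_sup_right hs.2.2.1
    · exact Subgroup.mem_sup_left hs.1
  exact unip_eq_of_common h.1 (conj_mem_unip (left_mem_unip _ _) hX) (right_mem_unip h.1) h1
    hs.2.2.1 hs.2.2.2.1

lemma n_conj_B (h : IsSpecialRankOnePair A B) {a s : G} (hs : Star A B a s) :
    conjBy B (a * s * a) = A := by
  rw [← n_inv_conj_A h hs, conjBy_conjBy_inv]

lemma n_inv_conj_B {a s : G} (hs : Star A B a s) : conjBy B (a * s * a)⁻¹ = A := by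
  conv_lhs => rw [← n_conj_A hs]
  rw [conjBy_inv_conjBy]

/-- `Star` is symmetric -/
lemma star_symm (h : IsSpecialRankOnePair A B) {a s : G} (hs : Star A B a s) : Star B A s a := by
  refine ⟨hs.2.2.1, hs.2.2.2.1, hs.1, hs.2.1, ?_⟩
  -- conjBy B a = conjBy A s⁻¹
  have h1 := n_conj_B h hs
  rw [braid h hs, conjBy_mul, conjBy_of_mem hs.2.2.1, conjBy_mul, conjBy_eq_iff] at h1
  exact h1

lemma star_inv (h : IsSpecialRankOnePair A B) {a s : G} (hs : Star A B a s) :
    Star A B a⁻¹ s⁻¹ := by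
  refine ⟨A.inv_mem hs.1, by simpa using hs.2.1, B.inv_mem hs.2.2.1, by simpa using hs.2.2.2.1, ?_⟩
  rw [inv_inv]
  exact (star_symm h hs).2.2.2.2.symm

/-- conjugation by an element swapping `A` and `B` -/
lemma star_conj_swap {a s g : G} (hs : Star A B a s) (hA : conjBy A g = B) (hB : conjBy B g = A) :
    Star B A (g * a * g⁻¹) (g * s * g⁻¹) := by
  refine ⟨?_, ?_, ?_, ?_, ?_⟩
  · rw [← hA]; exact conjBy_mem hs.1 g
  · intro e; apply hs.2.1
    have : a = g⁻¹ * (g * a * g⁻¹) * g := by group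
    rw [this, e]; group
  · rw [← hB]; exact conjBy_mem hs.2.2.1 g
  · intro e; apply hs.2.2.2.1
    have : s = g⁻¹ * (g * s * g⁻¹) * g := by group
    rw [this, e]; group
  · have h1 : conjBy (conjBy A s) g = conjBy (conjBy B a⁻¹) g := by rw [hs.2.2.2.2]
    rw [← conjBy_mul, ← conjBy_mul] at h1
    have e1 : g * s = (g * s * g⁻¹) * g := by group
    have e2 : g * a⁻¹ = (g * a * g⁻¹)⁻¹ * g := by group
    rw [e1, e2, conjBy_mul A (g * s * g⁻¹) g, conjBy_mul B (g * a * g⁻¹)⁻¹ g, hA, hB] at h1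
    exact h1

/-- conjugation by an element normalizing `A` and `B` -/
lemma star_conj_norm {a s g : G} (hs : Star A B a s) (hA : conjBy A g = A) (hB : conjBy B g = B) :
    Star A B (g * a * g⁻¹) (g * s * g⁻¹) := by
  refine ⟨?_, ?_, ?_, ?_, ?_⟩
  · rw [← hA]; exact conjBy_mem hs.1 g
  · intro e; apply hs.2.1
    have : a = g⁻¹ * (g * a * g⁻¹) * g := by group
    rw [this, e]; group
  · rw [← hB]; exact conjBy_mem hs.2.2.1 g
  · intro e; apply hs.2.2.2.1
    have : s = g⁻¹ * (g * s * g⁻¹) * g := by group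
    rw [this, e]; group
  · have h1 : conjBy (conjBy A s) g = conjBy (conjBy B a⁻¹) g := by rw [hs.2.2.2.2]
    rw [← conjBy_mul, ← conjBy_mul] at h1
    have e1 : g * s = (g * s * g⁻¹) * g := by group
    have e2 : g * a⁻¹ = (g * a * g⁻¹)⁻¹ * g := by group
    rw [e1, e2, conjBy_mul A (g * s * g⁻¹) g, conjBy_mul B (g * a * g⁻¹)⁻¹ g, hA, hB] at h1
    exact h1

/-- **Main identity**: for `x, y ∈ A#` with `xy ≠ 1` and stars `x', y', z'` of `x, y, xy`, the
element `u = x'⁻¹ y'⁻¹` is non-trivial, and if `u'` is its star then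
`z' = y' · n⁻¹ u' n` with `n = y' y y'`. -/
lemma main_identity (h : IsSpecialRankOnePair A B) {x y x' y' z' : G}
    (hx : Star A B x x') (hy : Star A B y y') (hz : Star A B (x * y) z') :
    x'⁻¹ * y'⁻¹ ≠ 1 ∧ ∀ u', Star B A (x'⁻¹ * y'⁻¹) u' →
      z' = y' * ((y * y' * y)⁻¹ * u' * (y * y' * y)) := by
  have hu1 : x'⁻¹ * y'⁻¹ ≠ 1 := by
    intro e
    have e1 : x' = y'⁻¹ := by
      have : x'⁻¹ = y' := by rw [mul_inv_eq_one] at e; exact e
      rw [← this, inv_inv]
    have h1 := star_inv h hy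
    rw [← e1] at h1
    have h2 := star_unique_left h.1 hx h1
    apply hz.2.1
    rw [h2, inv_mul_cancel]
  refine ⟨hu1, ?_⟩
  intro u' hu'
  set n := y * y' * y with hn
  set u := x'⁻¹ * y'⁻¹ with hu
  have hbraid : n = y' * y * y' := braid h hy
  -- fixed element
  have h1 : conjBy A z' = conjBy A (y⁻¹ * x') := by
    rw [hz.2.2.2.2, conjBy_mul, hx.2.2.2.2, ← conjBy_mul]
    congr 1; group
  set v := y'⁻¹ * z' with hv
  have hvB : v ∈ B := B.mul_mem (B.inv_mem hy.2.2.1) hz.2.2.1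
  -- v A v⁻¹ = n⁻¹ u⁻¹ A u n
  have h2 : conjBy A v = conjBy A (n⁻¹ * u⁻¹) := by
    rw [hv, conjBy_mul, h1, ← conjBy_mul]
    have e : n⁻¹ * u⁻¹ = y'⁻¹ * (y⁻¹ * x') := by
      rw [hbraid, hu]; group
    rw [e]
  -- u⁻¹ A u = u' B u'⁻¹
  have h3 : conjBy A u⁻¹ = conjBy B u' := hu'.2.2.2.2.symm
  have h4 : conjBy A v = conjBy A (n⁻¹ * u' * n) := by
    rw [h2, conjBy_mul, h3, ← n_conj_A hy, ← conjBy_mul, ← conjBy_mul]
  have hmem : n⁻¹ * u' * n ∈ B := by
    have := conjBy_mem hu'.2.2.1 n⁻¹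
    rw [n_inv_conj_A h hy, inv_inv] at this
    exact this
  have h5 := right_unique' h.1 hvB hmem h4
  rw [← h5, hv]; group

/-- in an abelian unipotent subgroup the star of a power -/
lemma star_pow (m : ℕ) : ∀ {A B : Subgroup G}, IsSpecialRankOnePair A B → HasAbelianUnipotents A B →
    1 ≤ m → ∀ {g s t : G}, Star A B g s → Star A B (g ^ m) t → t ^ m = s := by
  induction m with
  | zero => intro A B _ _ h0; omega
  | succ m ih =>
    intro A B h hab _ g s t hg ht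
    rcases Nat.eq_zero_or_pos m with hm | hm
    · subst hm
      simp only [zero_add, pow_one] at ht ⊢
      exact star_unique_right h.1 ht hg
    have hsmem := hg.2.2.1
    by_cases hgm : g ^ m = 1
    · -- then g^(m+1) = g
      have e : g ^ (m + 1) = g := by rw [pow_succ, hgm, one_mul]
      rw [e] at ht
      have hts := star_unique_right h.1 ht hg
      rw [hts, pow_succ]
      have e2 : s ^ m = 1 := by
        have h1 := n_conj_a h hg
        rw [← h1, conj_pow, hgm]; group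
      rw [e2, one_mul]
    · -- x = g^m
      obtain ⟨x', hx⟩ := exists_star h.1 (A.pow_mem hg.1 m) hgm
      have hxs : x' ^ m = s := ih h hab hm hg hx
      -- use the main identity for g * x
      have hz : Star A B (g * g ^ m) t := by rw [← pow_succ']; exact ht
      obtain ⟨hu1, hid⟩ := main_identity h hg hx hz
      -- u = s⁻¹ x'⁻¹ = (x'^(m+1))⁻¹
      have hu : s⁻¹ * x'⁻¹ = (x' ^ (m + 1))⁻¹ := by
        rw [← hxs, pow_succ', mul_inv_rev]
      have hw1 : x' ^ (m + 1) ≠ 1 := by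
        intro e; apply hu1; rw [hu, e, inv_one]
      have hBA := special_symm h
      obtain ⟨w', hw⟩ := exists_star hBA.1 (B.pow_mem hx.2.2.1 (m + 1)) hw1
      have hw'inv : Star B A (s⁻¹ * x'⁻¹) w'⁻¹ := by rw [hu]; exact star_inv hBA hw
      have hid := hid _ hw'inv
      set x := g ^ m with hxdef
      set n := x * x' * x with hn
      -- n⁻¹ w' n is the star of n⁻¹ x'^(m+1) n = x^(m+1)
      have hx'conj : n⁻¹ * x' * n = x := by
        have h1 := n_conj_a h hx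
        have : n⁻¹ * (n * x * n⁻¹) * n = x := by group
        rw [← hn] at h1
        rw [h1] at this; exact this
      have hconj := star_conj_swap hw (g := n⁻¹) (n_inv_conj_B hx) (n_inv_conj_A h hx)
      rw [inv_inv] at hconj
      have e3 : n⁻¹ * x' ^ (m + 1) * n = x ^ (m + 1) := by
        have := conj_pow (a := n⁻¹) (b := x') (i := m + 1)
        rw [inv_inv, hx'conj] at this
        exact this.symm
      rw [e3] at hconj
      -- hconj : Star A B (x^(m+1)) (n⁻¹ w' n)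
      have e4 : x ^ (m + 1) = (g ^ (m + 1)) ^ m := by
        rw [hxdef, ← pow_mul, ← pow_mul, mul_comm]
      rw [e4] at hconj
      have h5 : (n⁻¹ * w' * n) ^ m = t := ih h hab hm ht hconj
      -- t = x' * (n⁻¹ w' n)⁻¹
      have h6 : t = x' * (n⁻¹ * w' * n)⁻¹ := by
        rw [hid]; congr 1; group
      have hcB : ∀ {p q : G}, p ∈ B → q ∈ B → Commute p q := fun hp hq =>
        commute_of_isMulCommutative hab.2 hp hq
      have hqB : n⁻¹ * w' * n ∈ B := hconj.2.2.1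
      have h7 : t ^ m = x' ^ m * ((n⁻¹ * w' * n) ^ m)⁻¹ := by
        rw [h6, (hcB hx.2.2.1 (B.inv_mem hqB)).mul_pow, inv_pow]
      rw [hxs, h5] at h7
      rw [pow_succ, h7, inv_mul_cancel_right]

/-- S5021 -/
theorem torsion_or_divisible (h : IsSpecialRankOnePair A B) (hab : HasAbelianUnipotents A B) :
    (∃ p : ℕ, p.Prime ∧ Cfsg.IsElementaryAbelian p A) ∨
    ((∀ a ∈ A, a ≠ 1 → ¬ IsOfFinOrder a) ∧ ∀ a ∈ A, ∀ n : ℕ, 0 < n → ∃ c ∈ A, c ^ n = a) := by
  by_cases htf : ∀ a ∈ A, a ≠ 1 → ¬ IsOfFinOrder a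
  · right
    refine ⟨htf, ?_⟩
    intro a ha n hn
    by_cases ha1 : a = 1
    · exact ⟨1, A.one_mem, by simp [ha1]⟩
    · obtain ⟨s, hs⟩ := exists_star h.1 ha ha1
      have hsn : s ^ n ≠ 1 := by
        intro e
        apply htf a ha ha1
        rw [isOfFinOrder_iff_pow_eq_one]
        refine ⟨n, hn, ?_⟩
        rw [← n_conj_s h hs, conj_pow, e]; group
      obtain ⟨c, hc⟩ := exists_star (RankOnePair_symm h.1) (B.pow_mem hs.2.2.1 n) hsn
      exact ⟨c, hc.2.2.1, star_pow n (special_symm h) ⟨hab.2, hab.1⟩ hn (star_symm h hs) hc⟩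
  · left
    push Not at htf
    obtain ⟨a, ha, ha1, hfin⟩ := htf
    have hn1 : orderOf a ≠ 1 := by rw [Ne, orderOf_eq_one_iff]; exact ha1
    obtain ⟨p, hp, hpd⟩ := Nat.exists_prime_and_dvd hn1
    obtain ⟨m, hm⟩ := hpd
    have ha₀A : a ^ m ∈ A := A.pow_mem ha m
    have ha₀p : (a ^ m) ^ p = 1 := by rw [← pow_mul, mul_comm, ← hm, pow_orderOf_eq_one]
    have ha₀1 : a ^ m ≠ 1 := by
      intro h1
      have := orderOf_dvd_of_pow_eq_one h1
      have hpos : 0 < orderOf a := hfin.orderOf_pos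
      have hm0 : 0 < m := by
        rcases Nat.eq_zero_or_pos m with h0 | h0
        · rw [h0, mul_zero] at hm; omega
        · exact h0
      have h2 := Nat.le_of_dvd hm0 this
      rw [hm] at h2
      have := hp.two_le
      nlinarith
    refine ⟨p, hp, hab.1, ?_⟩
    intro g hg
    by_contra hgp
    have hg1 : g ≠ 1 := by rintro rfl; exact hgp (one_pow p)
    have hga : (g * a ^ m) ^ p = g ^ p := by
      have hc : Commute g (a ^ m) := commute_of_isMulCommutative hab.1 hg ha₀A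
      rw [hc.mul_pow, ha₀p, mul_one]
    have hga1 : g * a ^ m ≠ 1 := by
      intro e; rw [e, one_pow] at hga; exact hgp hga.symm
    obtain ⟨t, ht⟩ := exists_star h.1 (A.pow_mem hg p) hgp
    obtain ⟨s, hs⟩ := exists_star h.1 hg hg1
    obtain ⟨s', hs'⟩ := exists_star h.1 (A.mul_mem hg ha₀A) hga1
    have e1 := star_pow p h hab hp.one_le hs ht
    have e2 := star_pow p h hab hp.one_le hs' (by rw [hga]; exact ht)
    rw [e1] at e2
    rw [← e2] at hs'
    have := star_unique_left h.1 hs hs'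
    apply ha₀1
    have h3 : g * 1 = g * a ^ m := by rw [mul_one]; exact this
    exact (mul_left_cancel h3).symm

/-! ### The commutator of `A` with the diagonal subgroup -/

lemma mem_diag {g : G} (hg : g ∈ A ⊔ B) (hA : conjBy A g = A) (hB : conjBy B g = B) :
    g ∈ rankOneDiagonal A B :=
  ⟨⟨hg, conjBy_eq_self_iff.1 hA⟩, conjBy_eq_self_iff.1 hB⟩

lemma diag_symm : rankOneDiagonal B A = rankOneDiagonal A B := by
  unfold rankOneDiagonal
  rw [sup_comm, inf_right_comm]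

lemma diag_conj_swap {g : G} (hg : g ∈ A ⊔ B) (hA : conjBy A g = B) (hB : conjBy B g = A) :
    conjBy (rankOneDiagonal A B) g = rankOneDiagonal A B := by
  have key : ∀ (g : G), g ∈ A ⊔ B → conjBy A g = B → conjBy B g = A →
      conjBy (rankOneDiagonal A B) g ≤ rankOneDiagonal A B := by
    intro g hg hA hB x hx
    rw [mem_conjBy] at hx
    obtain ⟨⟨h1, h2⟩, h3⟩ := hx
    have h2' := conjBy_eq_self_iff.2 h2
    have h3' := conjBy_eq_self_iff.2 h3
    have e : x = g * (g⁻¹ * x * g) * g⁻¹ := by group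
    have hA' : conjBy A g⁻¹ = B := by rw [conjBy_eq_iff, inv_inv, hB]
    have hB' : conjBy B g⁻¹ = A := by rw [conjBy_eq_iff, inv_inv, hA]
    apply mem_diag
    · rw [e]
      exact Subgroup.mul_mem _ (Subgroup.mul_mem _ hg h1) (Subgroup.inv_mem _ hg)
    · rw [e, conjBy_mul, hA', conjBy_mul, h3', hB]
    · rw [e, conjBy_mul, hB', conjBy_mul, h2', hA]
  apply le_antisymm (key g hg hA hB)
  have hA' : conjBy A g⁻¹ = B := by rw [conjBy_eq_iff, inv_inv, hB]
  have hB' : conjBy B g⁻¹ = A := by rw [conjBy_eq_iff, inv_inv, hA]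
  have := conjBy_mono (key g⁻¹ (Subgroup.inv_mem _ hg) hA' hB') g
  simpa using this

lemma n_mem {a s : G} (hs : Star A B a s) : a * s * a ∈ A ⊔ B :=
  Subgroup.mul_mem _ (Subgroup.mul_mem _ (Subgroup.mem_sup_left hs.1)
    (Subgroup.mem_sup_right hs.2.2.1)) (Subgroup.mem_sup_left hs.1)

/-- modulo `⁅A, H⁆` all `n(x)` act in the same way -/
lemma n_conj_mod (h : IsSpecialRankOnePair A B) {x x' w w' : G}
    (hx : Star A B x x') (hw : Star A B w w') :
    (x * x' * x)⁻¹ * w' * (x * x' * x) * w⁻¹ ∈ ⁅A, rankOneDiagonal A B⁆ := by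
  set n := x * x' * x with hn
  set m := w * w' * w with hm
  have e : w' = m * w * m⁻¹ := (n_conj_a h hw).symm
  have hd : n⁻¹ * m ∈ rankOneDiagonal A B := by
    apply mem_diag
    · exact Subgroup.mul_mem _ (Subgroup.inv_mem _ (n_mem hx)) (n_mem hw)
    · rw [conjBy_mul, n_conj_A hw, n_inv_conj_B hx]
    · rw [conjBy_mul, n_conj_B h hw, n_inv_conj_A h hx]
  have e2 : n⁻¹ * w' * n * w⁻¹ = ⁅n⁻¹ * m, w⁆ := by
    rw [commutatorElement_def, e]; group
  rw [e2, Subgroup.commutator_comm]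
  exact commutator_mem_commutator hd hw.1

lemma comm_diag_le : ⁅A, rankOneDiagonal A B⁆ ≤ A := by
  rw [← Subgroup.le_normalizer_iff_commutator_le_left]
  intro g hg
  exact hg.1.2

/-- for `x, y ∈ A#` with `xy ≠ 1`: `x (x y) ∈ ⁅A, H⁆` -/
lemma key_mod (h : IsSpecialRankOnePair A B) (hab : HasAbelianUnipotents A B) {x y : G}
    (hx : x ∈ A) (hx1 : x ≠ 1) (hy : y ∈ A) (hy1 : y ≠ 1) (hxy : x * y ≠ 1) :
    x * (x * y) ∈ ⁅A, rankOneDiagonal A B⁆ := by
  obtain ⟨x', hx'⟩ := exists_star h.1 hx hx1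
  obtain ⟨y', hy'⟩ := exists_star h.1 hy hy1
  obtain ⟨z', hz'⟩ := exists_star h.1 (A.mul_mem hx hy) hxy
  obtain ⟨hu1, hid⟩ := main_identity h hx' hy' hz'
  have huB : x'⁻¹ * y'⁻¹ ∈ B := B.mul_mem (B.inv_mem hx'.2.2.1) (B.inv_mem hy'.2.2.1)
  obtain ⟨u', hu'⟩ := exists_star (RankOnePair_symm h.1) huB hu1
  have hid := hid u' hu'
  have hBA := special_symm h
  -- n⁻¹ u' n ≡ u mod ⁅B, H⁆
  have h1 := n_conj_mod hBA (star_symm h hy') hu'
  rw [diag_symm, ← braid h hy'] at h1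
  set n := y * y' * y with hn
  -- z' x' ∈ ⁅B, H⁆
  have hcB : ∀ {p q : G}, p ∈ B → q ∈ B → p * q = q * p := fun hp hq =>
    commute_of_isMulCommutative hab.2 hp hq
  have hz'B := hz'.2.2.1
  have hx'B := hx'.2.2.1
  have hy'B := hy'.2.2.1
  have h2 : z' * x' ∈ ⁅B, rankOneDiagonal A B⁆ := by
    have e : n⁻¹ * u' * n * (x'⁻¹ * y'⁻¹)⁻¹ = z' * x' := by
      have e1 : n⁻¹ * u' * n = y'⁻¹ * z' := by rw [hid]; group
      rw [e1, mul_inv_rev, inv_inv, inv_inv]
      have e2 : y'⁻¹ * z' * (y' * x') = (y'⁻¹ * z') * y' * x' := by group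
      rw [e2, hcB (B.mul_mem (B.inv_mem hy'B) hz'B) hy'B, mul_inv_cancel_left]
    rw [← e]; exact h1
  -- conjugate back by n(x)⁻¹
  set m := x * x' * x with hm
  have h3 : m⁻¹ * (z' * x') * m ∈ ⁅A, rankOneDiagonal A B⁆ := by
    have h4 : conjBy ⁅B, rankOneDiagonal A B⁆ m⁻¹ = ⁅A, rankOneDiagonal A B⁆ := by
      rw [conjBy_commutator, n_inv_conj_B hx',
        diag_conj_swap (Subgroup.inv_mem _ (n_mem hx')) (n_inv_conj_A h hx') (n_inv_conj_B hx')]
    rw [← h4]
    have := conjBy_mem h2 m⁻¹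
    rwa [inv_inv] at this
  have h5 := n_conj_mod h hx' hz'
  have h6 : m⁻¹ * x' * m = x := by
    have := n_conj_a h hx'
    rw [← hm] at this
    rw [← this]; group
  rw [← hm] at h5
  have h7 : m⁻¹ * (z' * x') * m = (m⁻¹ * z' * m) * x := by rw [← h6]; group
  rw [h7] at h3
  -- (m⁻¹ z' m) (xy)⁻¹ ∈, (m⁻¹ z' m) x ∈  ⟹ (xy) x ∈
  have h8 := Subgroup.mul_mem _ (Subgroup.inv_mem _ h5) h3
  have h9 : (m⁻¹ * z' * m * (x * y)⁻¹)⁻¹ * (m⁻¹ * z' * m * x) = x * (x * y) := by
    have : (m⁻¹ * z' * m * (x * y)⁻¹)⁻¹ * (m⁻¹ * z' * m * x) = (x * y) * x := by group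
    rw [this, commute_of_isMulCommutative hab.1 (A.mul_mem hx hy) hx]
  rw [h9] at h8
  exact h8

/-- if `A` has more than three elements then `⁅A, H⁆ = A` -/
theorem comm_diag_eq (h : IsSpecialRankOnePair A B) (hab : HasAbelianUnipotents A B)
    (hcard : ∀ z ∈ A, ∃ w ∈ A, w ≠ 1 ∧ w ≠ z ∧ w ≠ z⁻¹) : ⁅A, rankOneDiagonal A B⁆ = A := by
  apply le_antisymm comm_diag_le
  have hcA : ∀ {p q : G}, p ∈ A → q ∈ A → p * q = q * p := fun hp hq =>
    commute_of_isMulCommutative hab.1 hp hq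
  have h1 : ∀ z ∈ A, z ≠ 1 → ∀ w ∈ A, w ≠ 1 → w ≠ z⁻¹ → w * (w * z) ∈ ⁅A, rankOneDiagonal A B⁆ := by
    intro z hz hz1 w hw hw1 hwz
    exact key_mod h hab hw hw1 hz hz1 (fun e => hwz (eq_inv_of_mul_eq_one_left e))
  have h2 : ∀ z ∈ A, z * z ∈ ⁅A, rankOneDiagonal A B⁆ := by
    intro z hz
    by_cases hz1 : z = 1
    · rw [hz1, one_mul]; exact Subgroup.one_mem _
    obtain ⟨w, hw, hw1, hwz, hwz'⟩ := hcard z hz
    have e1 := h1 z hz hz1 w hw hw1 hwz'
    have e2 := h1 z⁻¹ (A.inv_mem hz) (by simpa using hz1) w hw hw1 (by rw [inv_inv]; exact hwz)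
    have e3 := Subgroup.mul_mem _ (Subgroup.inv_mem _ e2) e1
    have e4 : (w * (w * z⁻¹))⁻¹ * (w * (w * z)) = z * z := by group
    rw [e4] at e3
    exact e3
  intro z hz
  by_cases hz1 : z = 1
  · rw [hz1]; exact Subgroup.one_mem _
  obtain ⟨w, hw, hw1, hwz, hwz'⟩ := hcard z hz
  have e1 := h1 z hz hz1 w hw hw1 hwz'
  have e2 := Subgroup.mul_mem _ (Subgroup.inv_mem _ (h2 w hw)) e1
  have e3 : (w * w)⁻¹ * (w * (w * z)) = z := by group
  rw [e3] at e2
  exact e2

end Cfsg.Agent.Lib.SpecialRankOne
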