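import Cfsg.Agent.Lib.RootTI
import Cfsg.Agent.Lib.RootQuot
import Cfsg.Agent.Lib.SpecialRankOne
set_option autoImplicit false

/-!
# The quasisimplicity criterion for abstract root subgroups (helper84)
-/

namespace Cfsg.Agent.Lib.RootSimple
open Cfsg Subgroup
open scoped commutatorElement
open Cfsg.Agent.Lib.RankOneGrp Cfsg.Agent.Lib.RootSub Cfsg.Agent.Lib.RootLines
open Cfsg.Agent.Lib.RootOpp Cfsg.Agent.Lib.RootClass Cfsg.Agent.Lib.RootTI
open Cfsg.Agent.Lib.RootQuot Cfsg.Agent.Lib.SpecialRankOne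

variable {G : Type*} [Group G] {S : Set (Subgroup G)}

lemma card_gt_three {A : Subgroup G} (hc : 3 < ENat.card A) :
    ∀ z ∈ A, ∃ w ∈ A, w ≠ 1 ∧ w ≠ z ∧ w ≠ z⁻¹ := by
  intro z hz
  by_contra hno
  push Not at hno
  apply not_le.2 hc
  have hsub : (A : Set G) ⊆ {1, z, z⁻¹} := by
    intro w hw
    simp only [Set.mem_insert_iff, Set.mem_singleton_iff]
    by_contra hn
    push Not at hn
    exact hn.2.2 (hno w hw hn.1 hn.2.1)
  calc ENat.card A = (A : Set G).encard := rfl
    _ ≤ ({1, z, z⁻¹} : Set G).encard := Set.encard_le_encard hsub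
    _ ≤ ({z, z⁻¹} : Set G).encard + 1 := Set.encard_insert_le _ _
    _ ≤ (({z⁻¹} : Set G).encard + 1) + 1 := by gcongr; exact Set.encard_insert_le _ _
    _ = 3 := by rw [Set.encard_singleton]; norm_num

/-- a member with more than three elements in a special pair lies in `⁅X, X⁆` -/
lemma le_comm_of_special (hS : IsRootSubgroupSet S) {A B : Subgroup G} (hA : A ∈ S) (hB : B ∈ S)
    (h : IsSpecialRankOnePair A B) (hc : 3 < ENat.card A) : A ≤ ⁅A ⊔ B, A ⊔ B⁆ := by
  have hab : HasAbelianUnipotents A B := ⟨hS.commutative A hA, hS.commutative B hB⟩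
  have := comm_diag_eq h hab (card_gt_three hc)
  conv_lhs => rw [← this]
  refine Subgroup.commutator_mono le_sup_left ?_
  intro x hx
  exact hx.1.1

/-- hypotheses of the criterion: a connected root subgroup set with separating centralizers -/
structure Crit (S : Set (Subgroup G)) : Prop where
  hS : IsRootSubgroupSet S
  conn : IsConnectedFamily (FAdj S) S
  ex : ∃ A ∈ S, ∃ B ∈ S, A ≠ B
  sep : ∀ A ∈ S, ∀ C ∈ S, A ≠ C → centralizingMembers S A ≠ centralizingMembers S C
  /-- members with equal images under a homomorphism forming a rank one pair have ... -/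
  bad : ∀ A ∈ S, ∀ B ∈ S, IsRankOnePair A B → ∀ (N : Subgroup G) [N.Normal],
    A.map (QuotientGroup.mk' N) = B.map (QuotientGroup.mk' N) → N = ⊤

namespace Crit

variable (c : Crit S)
include c

lemma iso : ∀ A ∈ S, ∃ B ∈ S, IsRankOnePair A B := by
  intro A hA
  obtain ⟨P, hP, Q, hQ, hne⟩ := c.ex
  obtain ⟨B, hB, hne⟩ : ∃ B ∈ S, B ≠ A := by
    by_cases h : P = A
    · exact ⟨Q, hQ, fun e => hne (h.trans e.symm)⟩
    · exact ⟨P, hP, h⟩
  exact exists_step (c.conn A hA B hB) hne

lemma cl : ∀ A ∈ S, ∀ B ∈ S, ∃ g : G, B = conjBy A g := fun A hA B hB =>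
  conj_of_reach (c.conn A hA B hB)

lemma top_of_le {N : Subgroup G} (hN : N.Normal) {A : Subgroup G} (hA : A ∈ S) (hle : A ≤ N) :
    N = ⊤ := by
  rw [eq_top_iff, ← c.hS.generates]
  refine iSup₂_le fun B hB => ?_
  obtain ⟨g, rfl⟩ := c.cl A hA B hB
  rw [← conjBy_normal hN g]
  exact conjBy_mono hle g

lemma dich {N : Subgroup G} (hN : N.Normal) : N ≤ center G ∨ N = ⊤ := by
  by_cases hfix : ∀ A ∈ S, ∀ n ∈ N, conjBy A n = A
  · left
    intro n hn
    have h1 : ∀ A ∈ S, ∀ a ∈ A, n * a = a * n := by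
      intro A hA a ha
      obtain ⟨B, hB, hAB⟩ := c.iso A hA
      refine commute_of_forall hAB ?_ a (Subgroup.mem_sup_left ha)
      intro U hU
      exact hfix U (unip_subset c.hS hA hU) n hn
    rw [Subgroup.mem_center_iff]
    intro g
    have hg : g ∈ ⨆ A ∈ S, A := by rw [c.hS.generates]; exact Subgroup.mem_top g
    have hle : (⨆ A ∈ S, A) ≤ centralizer {n} := by
      refine iSup₂_le fun A hA a ha => ?_
      rw [Subgroup.mem_centralizer_singleton_iff]
      exact (h1 A hA a ha).symm
    exact (Subgroup.mem_centralizer_singleton_iff.1 (hle hg))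
  · right
    push Not at hfix
    obtain ⟨A, hA, n, hn, hne⟩ := hfix
    -- find `A`, `n` and `E` with `E` commuting with `A` but not with `A^n`
    obtain ⟨A, hA, n, hn, E, hE, hEA, hEn⟩ : ∃ A ∈ S, ∃ n ∈ N, ∃ E ∈ S, ⁅E, A⁆ = ⊥ ∧
        ⁅E, conjBy A n⁆ ≠ ⊥ := by
      have h1 := c.sep A hA _ (c.hS.conj_mem A hA n) (Ne.symm hne)
      by_cases h2 : centralizingMembers S A ⊆ centralizingMembers S (conjBy A n)
      · have h3 : ¬ centralizingMembers S (conjBy A n) ⊆ centralizingMembers S A :=
          fun h3 => h1 (Set.Subset.antisymm h2 h3)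
        rw [Set.not_subset] at h3
        obtain ⟨E, hE, hE2⟩ := h3
        rw [mem_centralizingMembers] at hE hE2
        refine ⟨_, c.hS.conj_mem A hA n, n⁻¹, N.inv_mem hn, E, hE.1, hE.2, ?_⟩
        rw [conjBy_inv_conjBy]
        exact fun e => hE2 ⟨hE.1, e⟩
      · rw [Set.not_subset] at h2
        obtain ⟨E, hE, hE2⟩ := h2
        rw [mem_centralizingMembers] at hE hE2
        exact ⟨A, hA, n, hn, E, hE.1, hE.2, fun e => hE2 ⟨hE.1, e⟩⟩
    set f := QuotientGroup.mk' N with hf
    have hfn : f n = 1 := by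
      rw [hf, QuotientGroup.mk'_apply, QuotientGroup.eq_one_iff]; exact hn
    have hmap : (conjBy A n).map f = A.map f := by rw [map_conjBy, hfn, conjBy_one]
    have hker : ∀ {C : Subgroup G}, C.map f = ⊥ → C ≤ N := by
      intro C hC x hx
      have : f x ∈ C.map f := ⟨x, hx, rfl⟩
      rw [hC, Subgroup.mem_bot, hf, QuotientGroup.mk'_apply, QuotientGroup.eq_one_iff] at this
      exact this
    have hcomm : ⁅E.map f, (conjBy A n).map f⁆ = ⊥ := by
      rw [hmap, ← Subgroup.map_commutator, hEA]; simp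
    rcases c.hS.pair E hE _ (c.hS.conj_mem A hA n) with h1 | h1 | h1
    · exact absurd h1 hEn
    · rcases pair_dich f h1 with h2 | h2
      · exact c.bad _ hE _ (c.hS.conj_mem A hA n) h1 N h2
      · exact absurd hcomm (not_commute h2.1)
    · apply c.top_of_le hN h1.1
      apply hker
      rw [Subgroup.map_commutator, hcomm]

/-- a perfect group satisfying the criterion is quasisimple -/
lemma quasisimple (hp : commutator G = ⊤) : IsQuasisimple G := by
  refine ⟨Group.isPerfect_def.2 hp, ?_⟩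
  have : Nontrivial (G ⧸ center G) := by
    rw [← not_subsingleton_iff_nontrivial]
    intro hs
    have hc := QuotientGroup.subgroup_eq_top_of_subsingleton _ hs
    obtain ⟨A, hA, _⟩ := c.ex
    obtain ⟨B, hB, h⟩ := c.iso A hA
    apply not_commute h
    rw [comm_bot_iff]
    intro a _ b _
    have : b ∈ center G := by rw [hc]; exact Subgroup.mem_top b
    exact Subgroup.mem_center_iff.1 this a
  refine { eq_bot_or_eq_top_of_normal := ?_ }
  intro M hM
  have hN : (M.comap (QuotientGroup.mk' (center G))).Normal := inferInstance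
  rcases c.dich hN with h1 | h1
  · left
    rw [eq_bot_iff]
    intro q hq
    obtain ⟨x, rfl⟩ := QuotientGroup.mk'_surjective _ q
    have : x ∈ center G := h1 hq
    rw [Subgroup.mem_bot, QuotientGroup.mk'_apply, QuotientGroup.eq_one_iff]
    exact this
  · right
    rw [eq_top_iff]
    intro q _
    obtain ⟨x, rfl⟩ := QuotientGroup.mk'_surjective _ q
    have : x ∈ M.comap (QuotientGroup.mk' (center G)) := by rw [h1]; exact Subgroup.mem_top x
    exact this

end Crit

/-- S5033 -/
theorem criterion (hS : IsRootSubgroupSet S) (h2 : ∃ A ∈ S, ∃ B ∈ S, A ≠ B)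
    (h1 : IsConnectedFamily (FAdj S) S)
    (h2' : ∀ A ∈ S, ∀ C ∈ S, A ≠ C → centralizingMembers S A ≠ centralizingMembers S C)
    (h3 : IsDegenerateRootSet S → ∀ A ∈ S, 3 < ENat.card A)
    (h4 : ∀ A ∈ S, ∀ B ∈ rankOnePartners S A, IsSpecialRankOnePair A B) :
    commutator G = ⊤ ∧ IsQuasisimple G := by
  by_cases hdeg : IsDegenerateRootSet S
  · have hle : ∀ A ∈ S, ∀ B ∈ S, IsRankOnePair A B → A ≤ ⁅A ⊔ B, A ⊔ B⁆ := fun A hA B hB h =>
      le_comm_of_special hS hA hB (h4 A hA B ⟨hB, h⟩) (h3 hdeg A hA)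
    have hker : ∀ {N C : Subgroup G} [N.Normal], C.map (QuotientGroup.mk' N) = ⊥ → C ≤ N := by
      intro N C _ hC x hx
      have : (QuotientGroup.mk' N) x ∈ C.map (QuotientGroup.mk' N) := ⟨x, hx, rfl⟩
      rw [hC, Subgroup.mem_bot, QuotientGroup.mk'_apply, QuotientGroup.eq_one_iff] at this
      exact this
    have c : Crit S := by
      refine ⟨hS, h1, h2, h2', ?_⟩
      intro A hA B hB h N hN e
      have : A ≤ N := by
        apply hker
        rw [eq_bot_iff]
        refine (Subgroup.map_mono (hle A hA B hB h)).trans ?_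
        rw [Subgroup.map_commutator, Subgroup.map_sup, ← e, sup_idem]
        exact le_of_eq (commutator_self_bot (map_comm _ (hS.commutative A hA)))
      rw [eq_top_iff, ← hS.generates]
      refine iSup₂_le fun C hC => ?_
      obtain ⟨g, rfl⟩ := conj_of_reach (h1 A hA C hC)
      rw [← conjBy_normal hN g]
      exact conjBy_mono this g
    have hp : commutator G = ⊤ := by
      rw [eq_top_iff, ← hS.generates]
      refine iSup₂_le fun A hA => ?_
      obtain ⟨B, hB, h⟩ := c.iso A hA
      exact (hle A hA B hB h).trans (Subgroup.commutator_mono le_top le_top)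
    exact ⟨hp, c.quasisimple hp⟩
  · unfold IsDegenerateRootSet at hdeg
    push Not at hdeg
    obtain ⟨P, hP, Q, hQ, hcc⟩ := hdeg
    have hiso : ∀ A ∈ S, ∃ B ∈ S, IsRankOnePair A B := by
      intro A hA
      obtain ⟨P, hP, Q, hQ, hne⟩ := h2
      obtain ⟨B, hB, hne⟩ : ∃ B ∈ S, B ≠ A := by
        by_cases h : P = A
        · exact ⟨Q, hQ, fun e => hne (h.trans e.symm)⟩
        · exact ⟨P, hP, h⟩
      exact exists_step (h1 A hA B hB) hne
    have hcl : ∀ A ∈ S, ∀ B ∈ S, ∃ g : G, B = conjBy A g := fun A hA B hB =>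
      conj_of_reach (h1 A hA B hB)
    have n : Nd S := by
      refine ⟨hS, hcl, hiso, ?_⟩
      intro A hA
      obtain ⟨g, rfl⟩ := hcl P hP A hA
      exact ⟨_, hS.conj_mem Q hQ g, cc_conj hS.conj_mem hcc g⟩
    have htop : ∀ {N : Subgroup G}, N.Normal → ∀ {A : Subgroup G}, A ∈ S → A ≤ N → N = ⊤ := by
      intro N hN A hA hle
      rw [eq_top_iff, ← hS.generates]
      refine iSup₂_le fun B hB => ?_
      obtain ⟨g, rfl⟩ := hcl A hA B hB
      rw [← conjBy_normal hN g]
      exact conjBy_mono hle g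
    have c : Crit S := by
      refine ⟨hS, h1, h2, h2', ?_⟩
      intro A hA B hB h N hN e
      obtain ⟨D, F, q⟩ := n.exists_config hA hB h
      apply htop hN q.hF
      have : F.map (QuotientGroup.mk' N) = ⊥ := by
        rw [← q.hDC, Subgroup.map_commutator, ← e, ← Subgroup.map_commutator,
          Subgroup.commutator_comm, q.AD hS]
        simp
      intro x hx
      have h5 : (QuotientGroup.mk' N) x ∈ F.map (QuotientGroup.mk' N) := ⟨x, hx, rfl⟩
      rw [this, Subgroup.mem_bot, QuotientGroup.mk'_apply, QuotientGroup.eq_one_iff] at h5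
      exact h5
    have hp : commutator G = ⊤ := htop inferInstance hcc.1
      (Subgroup.commutator_mono le_top le_top)
    exact ⟨hp, c.quasisimple hp⟩

end Cfsg.Agent.Lib.RootSimple
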