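import Cfsg.Agent.Lib.QuadPairG
import Cfsg.Agent.Lib.SpecialRankOne
import Cfsg.Agent.Lib.Components
import Cfsg.Agent.S5033
set_option autoImplicit false

/-!
`Σ` splits into classes generating quasisimple groups (helper84).
-/

namespace Cfsg.Agent.Lib.QuadPairI
open Subgroup Cfsg
open Cfsg.Agent.Lib.QuadPair
open Cfsg.Agent.Lib.QuadPairR
open Cfsg.Agent.Lib.QuadPairS
open Cfsg.Agent.Lib.QuadPairT
open Cfsg.Agent.Lib.QuadPairNil
open Cfsg.Agent.Lib.QuadPairF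
open Cfsg.Agent.Lib.QuadPairG
open Cfsg.Agent.Lib.RankOneGrp
open Cfsg.Agent.Lib.RootTransfer
open Cfsg.Agent.Lib.RootComp

universe u v

variable {k : Type u} [Field k] {M : Type v} [AddCommGroup M] [Module k M] [FiniteDimensional k M]
variable {G : Subgroup (LinearMap.GeneralLinearGroup k M)}

lemma iso (h20 : (2 : k) ≠ 0) (hk3 : Nat.card k ≠ 3) (hG : IsQuadraticPair G) :
    Iso (quadraticRootSubgroups G) := by
  intro A hA
  obtain ⟨g, hg, h⟩ := exists_partner h20 hk3 hG hA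
  exact ⟨_, Sig_conj hA hg, h⟩

/-- **separation** -/
theorem eq_of_same (h20 : (2 : k) ≠ 0) (hk3 : Nat.card k ≠ 3) (hG : IsQuadraticPair G)
    {A C : Subgroup (LinearMap.GeneralLinearGroup k M)} (hA : A ∈ quadraticRootSubgroups G)
    (hC : C ∈ quadraticRootSubgroups G) (h : ∀ X ∈ quadraticRootSubgroups G, ⁅X, A⁆ = ⊥ ↔ ⁅X, C⁆ = ⊥) : A = C := by
  have hP := preRoot h20 hk3 hG.1
  have hI := iso h20 hk3 hG
  obtain ⟨B, hB, hAB⟩ := hI A hA
  have hCB := pre_partner_of_same hP hA hC h hB hAB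
  obtain ⟨σ, hσ, rfl⟩ := mem_Sig.1 hA
  obtain ⟨χ, hχ, rfl⟩ := mem_Sig.1 hC
  obtain ⟨τ, hτ, rfl⟩ := mem_Sig.1 hB
  rcases exists_xi h20 hk3 hσ hχ hτ (opp_of_pair h20 hk3 hG.1 hσ hτ hAB) (opp_of_pair h20 hk3 hG.1 hχ hτ hCB)
    (fun X hX => (h X hX).1) with h1 | ⟨e, he, heb, hX⟩
  · exact h1
  · exfalso
    have hD : sameActionSubgroup G e ∈ quadraticRootSubgroups G := mem_Sig.2 ⟨e, he, rfl⟩
    have h1 : ∀ X ∈ quadraticRootSubgroups G, ⁅X, sameActionSubgroup G σ⁆ = ⊥ → ⁅X, sameActionSubgroup G e⁆ = ⊥ := by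
      intro X hX1 hX2
      obtain ⟨ρ, hρ, rfl⟩ := mem_Sig.1 hX1
      exact commute_criterion h20 hk3 hρ he (Or.inl ⟨ρ, self_mem hρ, ne_one hρ, e, self_mem he, ne_one he,
        hX _ hX1 hX2 _ (self_mem hρ)⟩)
    have h2 : Reach (quadraticRootSubgroups G) (sameActionSubgroup G σ) (sameActionSubgroup G e) := by
      obtain ⟨D', hD', hDD⟩ := hI _ hD
      rcases pre_trich hP hI hA hD' with h3 | h3
      · exfalso
        have h4 := h1 D' hD' (by rw [Subgroup.commutator_comm]; exact h3)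
        rw [Subgroup.commutator_comm] at h4
        exact not_commute hDD h4
      · exact h3.tail ⟨hD', hD, RankOnePair_symm hDD⟩
    have h3 := same_of_sub hP hI hA h2 h1
    have h4 := pre_partner_of_same hP hA hD (fun X hX => ⟨h1 X hX, h3 X hX⟩) hB hAB
    have h5 := opp_of_pair h20 hk3 hG.1 he hτ h4
    exact Cfsg.Agent.Lib.QuadPairC.not_opp_of_zero hτ heb h5.symm

lemma three_lt (h20 : (2 : k) ≠ 0) (hk3 : Nat.card k ≠ 3)
    {A : Subgroup (LinearMap.GeneralLinearGroup k M)} (hA : A ∈ quadraticRootSubgroups G) :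
    3 < ENat.card A := by
  obtain ⟨σ, hσ, rfl⟩ := mem_Sig.1 hA
  refine lt_of_lt_of_le (four_lt h20 hk3) ?_
  have hm : ∀ c : k, un (c • ((σ : M →ₗ[k] M) - 1)) (hσ.fam.smul c).sq ∈ sameActionSubgroup G σ := by
    intro c
    rw [mem_E]
    by_cases hc : c = 0
    · right
      apply Units.ext
      rw [un_coe, hc, zero_smul, add_zero]; rfl
    · left
      rw [un_coe, add_sub_cancel_left]
      exact (Rel.refl hσ).smul hc
  refine ENat.card_le_card_of_injective (f := fun c : k => (⟨_, hm c⟩ : ↥(sameActionSubgroup G σ))) ?_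
  intro c c' h
  have h1 := congrArg Subtype.val h
  have h2 := congrArg (fun g : LinearMap.GeneralLinearGroup k M => (g : M →ₗ[k] M)) h1
  simp only [un_coe, add_right_inj] at h2
  exact smul_left_injective k hσ.ne h2

lemma exists_ne {X : Type*} [Group X] {A : Subgroup X} (h : 3 < ENat.card A) :
    ∀ z ∈ A, ∃ w ∈ A, w ≠ 1 ∧ w ≠ z ∧ w ≠ z⁻¹ := by
  intro z _
  by_contra hcon
  push Not at hcon
  have h1 : (A : Set X) ⊆ {1, z, z⁻¹} := by
    intro w hw
    by_cases h1 : w = 1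
    · exact Or.inl h1
    · by_cases h2 : w = z
      · exact Or.inr (Or.inl h2)
      · exact Or.inr (Or.inr (hcon w hw h1 h2))
  have h2 : ENat.card A ≤ 3 := by
    have e : ENat.card A = (A : Set X).encard := rfl
    rw [e]
    refine (Set.encard_le_encard h1).trans ?_
    have h3 : ({1, z, z⁻¹} : Set X).encard ≤ ({z, z⁻¹} : Set X).encard + 1 := Set.encard_insert_le _ _
    have h4 : ({z, z⁻¹} : Set X).encard ≤ ({z⁻¹} : Set X).encard + 1 := Set.encard_insert_le _ _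
    rw [Set.encard_singleton] at h4
    refine h3.trans ?_
    calc ({z, z⁻¹} : Set X).encard + 1 ≤ (1 + 1) + 1 := by gcongr
      _ = 3 := by norm_num
  exact absurd h (not_lt.2 h2)

lemma special (h20 : (2 : k) ≠ 0) (hk3 : Nat.card k ≠ 3) (hG : IsIrreducibleFor G)
    {A B : Subgroup (LinearMap.GeneralLinearGroup k M)} (hA : A ∈ quadraticRootSubgroups G)
    (hB : B ∈ quadraticRootSubgroups G) (h : IsRankOnePair A B) : IsSpecialRankOnePair A B := by
  obtain ⟨σ, hσ, rfl⟩ := mem_Sig.1 hA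
  obtain ⟨τ, hτ, rfl⟩ := mem_Sig.1 hB
  exact special_of_opp h20 hk3 hσ hτ (opp_of_pair h20 hk3 hG hσ hτ h)

omit [FiniteDimensional k M] in
lemma card_inner {S : Set (Subgroup (LinearMap.GeneralLinearGroup k M))}
    {A : Subgroup (LinearMap.GeneralLinearGroup k M)} (hA : A ∈ S) :
    ENat.card (A.subgroupOf (⨆ B ∈ S, B)) = ENat.card A :=
  ENat.card_congr (Subgroup.subgroupOfEquivOfLe (le_iSup_mem hA)).toEquiv

/-- **the group generated by a component is quasisimple** -/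
theorem comp_quasi (h20 : (2 : k) ≠ 0) (hk3 : Nat.card k ≠ 3) (hG : IsQuadraticPair G)
    {A : Subgroup (LinearMap.GeneralLinearGroup k M)} (hA : A ∈ quadraticRootSubgroups G) :
    IsQuasisimple ↥(⨆ B ∈ componentOf (FAdj (quadraticRootSubgroups G)) (quadraticRootSubgroups G) A, B) := by
  have hP := preRoot h20 hk3 hG.1
  have hI := iso h20 hk3 hG
  set Δ := componentOf (FAdj (quadraticRootSubgroups G)) (quadraticRootSubgroups G) A with hΔ
  have hAΔ : A ∈ Δ := mem_comp_self hA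
  have hPΔ : PreRoot Δ := comp_pre hP hI
  have hIΔ : Iso Δ := comp_iso hI
  have hR := hPΔ.root
  have hsp : ∀ A' ∈ inner Δ, ∀ B' ∈ rankOnePartners (inner Δ) A', IsSpecialRankOnePair A' B' := by
    rintro _ ⟨B, hB, rfl⟩ B' ⟨hB', hp⟩
    obtain ⟨C, hC, rfl⟩ := hB'
    exact (inner_special hB hC).2 (special h20 hk3 hG.1 hB.1 hC.1 ((inner_pair hB hC).1 hp))
  have hcard : ∀ A' ∈ inner Δ, 3 < ENat.card A' := by
    rintro _ ⟨B, hB, rfl⟩
    show 3 < ENat.card (B.subgroupOf (⨆ B ∈ Δ, B))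
    rw [card_inner hB]
    exact three_lt h20 hk3 hB.1
  have hcom : commutator ↥(⨆ B ∈ Δ, B) = ⊤ := by
    rw [eq_top_iff, ← hR.generates]
    refine iSup₂_le fun A' hA' => ?_
    obtain ⟨B', hB', hp⟩ := inner_iso hIΔ A' hA'
    have h1 := Cfsg.Agent.Lib.SpecialRankOne.comm_diag_eq (hsp A' hA' B' ⟨hB', hp⟩)
      ⟨hR.commutative A' hA', hR.commutative B' hB'⟩ (exists_ne (hcard A' hA'))
    conv_lhs => rw [← h1]
    rw [commutator_def]
    exact Subgroup.commutator_mono le_top le_top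
  obtain ⟨B, hB, hAB⟩ := hIΔ A hAΔ
  have hmain := Cfsg.Agent.S5033.result hR
    ⟨_, ⟨A, hAΔ, rfl⟩, _, ⟨B, hB, rfl⟩, ((inner_pair hAΔ hB).2 hAB).ne⟩ (inner_conn (comp_conn hA)) (by
      rintro _ ⟨X, hX, rfl⟩ _ ⟨Y, hY, rfl⟩ hne h
      apply hne
      have e : X = Y := by
        apply eq_of_same h20 hk3 hG hX.1 hY.1
        have key : ∀ {X Y}, X ∈ Δ → Y ∈ Δ → centralizingMembers (inner Δ) (X.subgroupOf (⨆ B ∈ Δ, B)) =
            centralizingMembers (inner Δ) (Y.subgroupOf (⨆ B ∈ Δ, B)) →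
            ∀ Z ∈ quadraticRootSubgroups G, ⁅Z, X⁆ = ⊥ → ⁅Z, Y⁆ = ⊥ := by
          intro X Y hX hY h Z hZ hZX
          rcases pre_trich hP hI hY.1 hZ with h2 | h2
          · rw [Subgroup.commutator_comm]; exact h2
          · have hZΔ : Z ∈ Δ := ⟨hZ, hY.2.trans h2⟩
            have h3 : Z.subgroupOf (⨆ B ∈ Δ, B) ∈ centralizingMembers (inner Δ) (X.subgroupOf (⨆ B ∈ Δ, B)) :=
              mem_cent.2 ⟨⟨Z, hZΔ, rfl⟩, (inner_comm hZΔ hX).2 hZX⟩
            rw [h] at h3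
            exact (inner_comm hZΔ hY).1 (mem_cent.1 h3).2
        exact fun Z hZ => ⟨key hX hY h Z hZ, key hY hX h.symm Z hZ⟩
      rw [e]) (fun _ => hcard) hsp
  exact Cfsg.Agent.Lib.Components.quasisimple_congr ((MulEquiv.subgroupCongr hcom).trans Subgroup.topEquiv) hmain.2.1

/-- the set of components -/
def Comps (G : Subgroup (LinearMap.GeneralLinearGroup k M)) : Set (Set (Subgroup (LinearMap.GeneralLinearGroup k M))) :=
  {Δ | ∃ A ∈ quadraticRootSubgroups G, Δ = componentOf (FAdj (quadraticRootSubgroups G)) (quadraticRootSubgroups G) A}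

omit [FiniteDimensional k M] in
lemma comp_eq_of_reach {S : Set (Subgroup (LinearMap.GeneralLinearGroup k M))}
    {A B : Subgroup (LinearMap.GeneralLinearGroup k M)} (h : Reach S A B) :
    componentOf (FAdj S) S A = componentOf (FAdj S) S B := by
  ext X
  exact ⟨fun hX => ⟨hX.1, (Cfsg.Agent.Lib.RootSub.reach_symm h).trans hX.2⟩, fun hX => ⟨hX.1, h.trans hX.2⟩⟩

omit [FiniteDimensional k M] in
lemma Comps_eq {Δ : Set (Subgroup (LinearMap.GeneralLinearGroup k M))} (hΔ : Δ ∈ Comps G)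
    {B : Subgroup (LinearMap.GeneralLinearGroup k M)} (hB : B ∈ Δ) :
    Δ = componentOf (FAdj (quadraticRootSubgroups G)) (quadraticRootSubgroups G) B := by
  obtain ⟨A, hA, rfl⟩ := hΔ
  exact comp_eq_of_reach hB.2

omit [FiniteDimensional k M] in
lemma Comps_disj {Δ Δ' : Set (Subgroup (LinearMap.GeneralLinearGroup k M))} (hΔ : Δ ∈ Comps G)
    (hΔ' : Δ' ∈ Comps G) {B : Subgroup (LinearMap.GeneralLinearGroup k M)} (hB : B ∈ Δ) (hB' : B ∈ Δ') : Δ = Δ' := by
  rw [Comps_eq hΔ hB, Comps_eq hΔ' hB']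

theorem Comps_comm (h20 : (2 : k) ≠ 0) (hk3 : Nat.card k ≠ 3) (hG : IsQuadraticPair G)
    {Δ Δ' : Set (Subgroup (LinearMap.GeneralLinearGroup k M))} (hΔ : Δ ∈ Comps G)
    (hΔ' : Δ' ∈ Comps G) (hne : Δ ≠ Δ') {A B : Subgroup (LinearMap.GeneralLinearGroup k M)} (hA : A ∈ Δ)
    (hB : B ∈ Δ') : ⁅A, B⁆ = ⊥ := by
  have hA' : A ∈ quadraticRootSubgroups G := by
    rw [Comps_eq hΔ hA] at hA; exact hA.1
  have hB' : B ∈ quadraticRootSubgroups G := by
    rw [Comps_eq hΔ' hB] at hB; exact hB.1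
  rcases pre_trich (preRoot h20 hk3 hG.1) (iso h20 hk3 hG) hA' hB' with h | h
  · exact h
  · exfalso
    apply hne
    rw [Comps_eq hΔ hA, Comps_eq hΔ' hB]
    exact comp_eq_of_reach h

theorem Comps_comm' (h20 : (2 : k) ≠ 0) (hk3 : Nat.card k ≠ 3) (hG : IsQuadraticPair G)
    {Δ Δ' : Set (Subgroup (LinearMap.GeneralLinearGroup k M))} (hΔ : Δ ∈ Comps G)
    (hΔ' : Δ' ∈ Comps G) (hne : Δ ≠ Δ') : ⁅(⨆ A ∈ Δ, A), (⨆ B ∈ Δ', B)⁆ = ⊥ := by
  rw [Subgroup.commutator_eq_bot_iff_le_centralizer]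
  refine iSup₂_le fun A hA => ?_
  rw [Subgroup.le_centralizer_iff]
  refine iSup₂_le fun B hB => ?_
  rw [← Subgroup.commutator_eq_bot_iff_le_centralizer, Subgroup.commutator_comm]
  exact Comps_comm h20 hk3 hG hΔ hΔ' hne hA hB

theorem Comps_finite (h20 : (2 : k) ≠ 0) (hk3 : Nat.card k ≠ 3) (hG : IsQuadraticPair G) :
    (Comps G).Finite := by
  have hI := iso h20 hk3 hG
  have hch : ∀ Δ : Comps G, ∃ σ : LinearMap.GeneralLinearGroup k M, Mn G ((σ : M →ₗ[k] M) - 1) ∧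
      sameActionSubgroup G σ ∈ (Δ : Set (Subgroup (LinearMap.GeneralLinearGroup k M))) := by
    rintro ⟨Δ, A, hA, rfl⟩
    obtain ⟨σ, hσ, rfl⟩ := mem_Sig.1 hA
    exact ⟨σ, hσ, mem_comp_self hA⟩
  choose f hf1 hf2 using hch
  have hli : LinearIndependent k (fun Δ : Comps G => ((f Δ : M →ₗ[k] M) - 1)) := by
    rw [linearIndependent_iff_notMem_span]
    intro Δ hmem
    have hA : sameActionSubgroup G (f Δ) ∈ quadraticRootSubgroups G := mem_Sig.2 ⟨_, hf1 Δ, rfl⟩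
    obtain ⟨B, hB, hAB⟩ := hI _ hA
    obtain ⟨τ, hτ, rfl⟩ := mem_Sig.1 hB
    have hτΔ : sameActionSubgroup G τ ∈ (Δ : Set (Subgroup (LinearMap.GeneralLinearGroup k M))) := by
      rw [Comps_eq Δ.2 (hf2 Δ)]
      exact ⟨hB, Relation.ReflTransGen.single ⟨hA, hB, hAB⟩⟩
    have hopp := opp_of_pair h20 hk3 hG.1 (hf1 Δ) hτ hAB
    have hcomm : ∀ x ∈ Submodule.span k ((fun Δ : Comps G => ((f Δ : M →ₗ[k] M) - 1)) '' (Set.univ \ {Δ})),
        x * ((τ : M →ₗ[k] M) - 1) = ((τ : M →ₗ[k] M) - 1) * x := by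
      intro x hx
      induction hx using Submodule.span_induction with
      | mem x hx =>
        obtain ⟨Δ', hΔ', rfl⟩ := hx
        have hne : (Δ' : Set (Subgroup (LinearMap.GeneralLinearGroup k M))) ≠ Δ := fun e => hΔ'.2 (Subtype.ext e)
        have h1 := Comps_comm h20 hk3 hG Δ'.2 Δ.2 hne (hf2 Δ') hτΔ
        have h2 := Cfsg.Agent.Lib.RootSub.commute_of_commutator_bot h1 (self_mem (hf1 Δ')) (self_mem hτ)
        by_contra h3
        exact not_comm_of_ne h3 h2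
      | zero => rw [zero_mul, mul_zero]
      | add x y _ _ hx hy => rw [add_mul, mul_add, hx, hy]
      | smul c x _ hx => rw [smul_mul_assoc, hx, mul_smul_comm]
    exact Opp.not_comm (hf1 Δ) (hf1 Δ).fam.sq hτ.fam.sq hopp (hcomm _ hmem)
  have : Finite (Comps G) := hli.finite_of_isNoetherian
  exact Set.toFinite _

theorem main (h20 : (2 : k) ≠ 0) (hk3 : Nat.card k ≠ 3) (hG : IsQuadraticPair G) :
    ∃ (r : ℕ) (part : Fin r → Set (Subgroup (LinearMap.GeneralLinearGroup k M))),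
      (∀ i, part i ∈ Comps G) ∧ Function.Injective part ∧ (∀ Δ ∈ Comps G, ∃ i, part i = Δ) := by
  have hfin := Comps_finite h20 hk3 hG
  have : Finite (Comps G) := hfin
  obtain ⟨r, ⟨e⟩⟩ := Finite.exists_equiv_fin (Comps G)
  refine ⟨r, fun i => (e.symm i : Set (Subgroup (LinearMap.GeneralLinearGroup k M))), fun i => (e.symm i).2, ?_, ?_⟩
  · intro i j h
    exact e.symm.injective (Subtype.ext h)
  · intro Δ hΔ
    exact ⟨e ⟨Δ, hΔ⟩, by simp⟩

end Cfsg.Agent.Lib.QuadPairI
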