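import Cfsg.Agent.Lib.QuadPairG
set_option autoImplicit false
set_option linter.unusedSimpArgs false

/-!
Nonminimal quadratic elements: nilpotent pairs (helper84).
-/

namespace Cfsg.Agent.Lib.QuadPairJ
open Subgroup Cfsg
open Cfsg.Agent.Lib.QuadPair
open Cfsg.Agent.Lib.QuadPairU
open Cfsg.Agent.Lib.QuadPairR
open Cfsg.Agent.Lib.QuadPairS
open Cfsg.Agent.Lib.QuadPairT
open Cfsg.Agent.Lib.QuadPairO
open Cfsg.Agent.Lib.QuadPairC
open Cfsg.Agent.Lib.QuadPairNil
open Cfsg.Agent.Lib.QuadPairF
open Cfsg.Agent.Lib.QuadPairG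
open Cfsg.Agent.Lib.RankOneGrp

universe u v

variable {k : Type u} [Field k] {M : Type v} [AddCommGroup M] [Module k M]
variable {G : Subgroup (LinearMap.GeneralLinearGroup k M)}

lemma cj_un {x s : Module.End k M} (hx : x * x = 0) : cj (un x hx) s = s + (x * s - s * x) - x * s * x := by
  unfold cj
  rw [un_coe, un_inv_coe]
  show (1 + x) * s * (1 - x) = _
  noncomm_ring

lemma un_mem {x : Module.End k M} (hx : Fam G x) : un x hx.sq ∈ G := by
  obtain ⟨g, hg, e⟩ := hx.one
  have : g = un x hx.sq := Units.ext (by rw [e, un_coe])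
  rw [← this]; exact hg

/-- conjugates of `s` by `1 + c x` -/
lemma mn_conj_un {x s : Module.End k M} (hs : Mn G s) (hx : Fam G x) (c : k) :
    Mn G (s + c • (x * s - s * x) - (c ^ 2) • (x * s * x)) := by
  have h1 := Mn.conj hs (un_mem (hx.smul c))
  rw [cj_un] at h1
  have e : s + ((c • x) * s - s * (c • x)) - (c • x) * s * (c • x) =
      s + c • (x * s - s * x) - (c ^ 2) • (x * s * x) := by
    rw [smul_mul_assoc, mul_smul_comm, smul_mul_assoc, mul_smul_comm, smul_smul, ← pow_two, smul_sub]
  rw [e] at h1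
  exact h1

lemma fam_of_smul {y : Module.End k M} {c : k} (hc : c ≠ 0) (h : Fam G (c • y)) : Fam G y := by
  have := h.smul c⁻¹
  rwa [smul_smul, inv_mul_cancel₀ hc, one_smul] at this

section fd
variable [FiniteDimensional k M]

/-- **nilpotent pairs**, one element minimal -/
theorem nil_pair (h20 : (2 : k) ≠ 0) (hk3 : Nat.card k ≠ 3) {s x : Module.End k M} (hs : Mn G s) (hx : Fam G x)
    (hn : IsNilpotent (s * x)) : s * x * s = 0 := by
  have hss : s * s = 0 := hs.fam.sq
  have hxx : x * x = 0 := hx.sq
  obtain ⟨N, hN⟩ := hn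
  -- step 1
  have h1 : s * x * s * x * s = 0 := by
    have hm := mn_conj_un hs hx 1
    rw [one_smul, one_pow, one_smul] at hm
    have e : s * (s + (x * s - s * x) - x * s * x) * s = -(s * x * s * x * s) := by
      calc s * (s + (x * s - s * x) - x * s * x) * s = s * s * s + s * x * (s * s) - s * s * (x * s) -
            s * x * s * x * s := by noncomm_ring
        _ = _ := by rw [hss]; simp
    rcases dich h20 hk3 hs hm with h | h
    · have := h.sts
      rw [e] at this
      exact neg_eq_zero.1 this
    · exfalso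
      have h2 : ∀ m, (s * x * s * x * s) m = 0 → s m = 0 := by
        intro m hm0
        have h3 : s ((s + (x * s - s * x) - x * s * x) (s m)) = 0 := by
          have := congrArg (fun f : Module.End k M => f m) e
          simp only [LinearMap.neg_apply, hm0, neg_zero] at this
          exact this
        exact h.left m (h.right _ h3)
      have h4 : ∀ n : ℕ, ∀ m, ((s * x) ^ (2 * n) * s) m = 0 → s m = 0 := by
        intro n
        induction n with
        | zero => intro m hm0; simpa using hm0
        | succ n ih =>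
          intro m hm0
          apply ih
          have e2 : (s * x) ^ (2 * n) * s = s * (x * s) ^ (2 * n) := by
            have := mul_pow_mul s x (2 * n)
            exact this.symm ▸ rfl
          have e3 : (s * x) ^ (2 * (n + 1)) * s = s * x * s * x * s * (x * s) ^ (2 * n) := by
            rw [show 2 * (n + 1) = 2 + 2 * n by ring, pow_add, mul_assoc, e2, pow_two]
            simp only [mul_assoc]
          rw [e2]
          rw [e3] at hm0
          exact h2 ((x * s) ^ (2 * n) $ m) hm0
      apply hs.ne
      ext m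
      rw [LinearMap.zero_apply]
      apply h4 N
      have e5 : (s * x) ^ (2 * N) = 0 := by rw [mul_comm, pow_mul, hN, zero_pow two_ne_zero]
      rw [e5, zero_mul]; rfl
  -- step 2
  have hfy : Fam G (s * x * s) := by
    have key : ∀ c : k, c ^ 2 = 1 → Fam G ((2 * c) • (s * x * s) - (s * x * s * x - x * s * x * s)) := by
      intro c hc
      have hm := mn_conj_un hs hx c
      rw [hc, one_smul] at hm
      have e : s * (s + c • (x * s - s * x) - x * s * x) * s = 0 := by
        calc s * (s + c • (x * s - s * x) - x * s * x) * s = s * s * s + c • (s * x * (s * s) - s * s * (x * s)) -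
              s * x * s * x * s := by
              simp only [mul_add, add_mul, mul_sub, sub_mul, mul_smul_comm, smul_mul_assoc, mul_assoc, smul_sub]
          _ = _ := by rw [hss, h1]; simp
      have hnil := nil_of_zero h20 hk3 hs hm e
      have h2 := comm_fam hs.fam hm.fam hnil.sts hnil.tst
      have e2 : s * (s + c • (x * s - s * x) - x * s * x) - (s + c • (x * s - s * x) - x * s * x) * s =
          (2 * c) • (s * x * s) - (s * x * s * x - x * s * x * s) := by
        have e3 : s * (s + c • (x * s - s * x) - x * s * x) - (s + c • (x * s - s * x) - x * s * x) * s =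
            c • (s * x * s + s * x * s) - (s * x * s * x - x * s * x * s) - c • (s * s * x) - c • (x * (s * s)) := by
          simp only [mul_add, add_mul, mul_sub, sub_mul, mul_smul_comm, smul_mul_assoc, mul_assoc, smul_sub, smul_add]
          abel
        rw [e3, hss]
        simp only [zero_mul, mul_zero, smul_zero, sub_zero]
        congr 1
        module
      rw [e2] at h2
      exact h2
    have k1 := key 1 (by norm_num)
    have k2 := key (-1) (by norm_num)
    have hy : s * x * s * (s * x * s) = 0 := by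
      calc s * x * s * (s * x * s) = s * x * (s * s) * x * s := by noncomm_ring
        _ = 0 := by rw [hss]; simp
    set y := s * x * s with hyd
    have e1 : y * x * s = 0 := h1
    have e2 : s * x * y = 0 := by rw [hyd, ← h1]; noncomm_ring
    have e3 : s * y = 0 := by rw [hyd, ← mul_assoc, ← mul_assoc, hss]; simp
    have e4 : y * s = 0 := by rw [hyd, mul_assoc, hss, mul_zero]
    have ew : s * x * s * x - x * s * x * s = y * x - x * y := by rw [hyd]; noncomm_ring
    have k1' : Fam G ((2 * (1 : k)) • y - (y * x - x * y)) := k1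
    have k2' : Fam G ((2 * (-1 : k)) • y - (y * x - x * y)) := by
      have : y * x - x * s * x * s = y * x - x * y := by rw [hyd]; noncomm_ring
      rw [← this]; exact k2
    have k1'' : Fam G ((2 * (1 : k)) • y - (y * x - x * y)) := by
      have : y * x - x * s * x * s = y * x - x * y := by rw [hyd]; noncomm_ring
      rw [← this]; exact k1
    have eyxy : y * x * y = 0 := by
      calc y * x * y = (y * x * s) * x * s := by rw [hyd]; noncomm_ring
        _ = 0 := by rw [e1]; simp
    have prod : ∀ a b : k, (a • y - (y * x - x * y)) * (b • y - (y * x - x * y)) = 0 := by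
      intro a b
      have e5 : (a • y - (y * x - x * y)) * (b • y - (y * x - x * y)) =
          (a * b) • (y * y) - a • (y * y * x) + a • (y * x * y) - b • (y * x * y) + b • (x * (y * y)) +
          (y * x * y) * x - y * (x * x) * y - x * (y * y) * x + x * (y * x * y) := by
        simp only [mul_add, add_mul, mul_sub, sub_mul, mul_smul_comm, smul_mul_assoc, mul_assoc, smul_sub, smul_add,
          smul_smul]
        rw [mul_comm b a]
        abel
      rw [e5, hy, eyxy, hxx]; simp
    have k3 := k1''.add k2'.neg (by rw [mul_neg, prod, neg_zero]) (by rw [neg_mul, prod, neg_zero])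
    have e6 : (2 * (1 : k)) • y - (y * x - x * y) + -((2 * (-1 : k)) • y - (y * x - x * y)) = (4 : k) • y := by
      have : (4 : k) = 2 + 2 := by norm_num
      rw [this]
      module
    rw [e6] at k3
    refine fam_of_smul ?_ k3
    have : (4 : k) = 2 * 2 := by norm_num
    rw [this]; exact mul_ne_zero h20 h20
  by_contra hne
  have h3 := hs.same hfy hne (by rw [mul_assoc]; exact LinearMap.range_comp_le_range _ _)
  have h4 := range_iterate h3.ge N
  rw [hN, zero_mul, LinearMap.range_zero] at h4
  exact hs.ne (LinearMap.range_eq_bot.1 (le_bot_iff.1 h4))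

end fd

/-! ### elements nilpotent to all minimal elements -/

lemma coeff4 (h20 : (2 : k) ≠ 0) (hk3 : Nat.card k ≠ 3) {V : Type*} [AddCommGroup V] [Module k V] {c1 c2 c3 c4 : V}
    (h : ∀ l : k, l • c1 + (l ^ 2) • c2 + (l ^ 3) • c3 + (l ^ 4) • c4 = 0) : c1 = 0 ∧ c2 = 0 := by
  obtain ⟨m, hm0, hm1⟩ := Cfsg.Agent.Lib.SL2Star.exists_sq_ne_one (k := k) h20 hk3
  have a1 := h 1
  have a2 := h (-1)
  have a3 := h m
  have a4 := h (-m)
  have hm : m * (1 - m ^ 2) ≠ 0 := mul_ne_zero hm0 (sub_ne_zero.2 (Ne.symm hm1))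
  have hm' : m ^ 2 * (1 - m ^ 2) ≠ 0 := mul_ne_zero (pow_ne_zero 2 hm0) (sub_ne_zero.2 (Ne.symm hm1))
  have k1 : (2 * (m * (1 - m ^ 2))) • c1 = 0 := by
    have : (2 * (m * (1 - m ^ 2))) • c1 = ((m • c1 + (m ^ 2) • c2 + (m ^ 3) • c3 + (m ^ 4) • c4) -
        ((-m) • c1 + ((-m) ^ 2) • c2 + ((-m) ^ 3) • c3 + ((-m) ^ 4) • c4)) -
        (m ^ 3) • (((1 : k) • c1 + ((1 : k) ^ 2) • c2 + ((1 : k) ^ 3) • c3 + ((1 : k) ^ 4) • c4) -
        ((-1 : k) • c1 + ((-1 : k) ^ 2) • c2 + ((-1 : k) ^ 3) • c3 + ((-1 : k) ^ 4) • c4)) := by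
      module
    rw [this, a1, a2, a3, a4]; simp
  have k2 : (2 * (m ^ 2 * (1 - m ^ 2))) • c2 = 0 := by
    have : (2 * (m ^ 2 * (1 - m ^ 2))) • c2 = ((m • c1 + (m ^ 2) • c2 + (m ^ 3) • c3 + (m ^ 4) • c4) +
        ((-m) • c1 + ((-m) ^ 2) • c2 + ((-m) ^ 3) • c3 + ((-m) ^ 4) • c4)) -
        (m ^ 4) • (((1 : k) • c1 + ((1 : k) ^ 2) • c2 + ((1 : k) ^ 3) • c3 + ((1 : k) ^ 4) • c4) +
        ((-1 : k) • c1 + ((-1 : k) ^ 2) • c2 + ((-1 : k) ^ 3) • c3 + ((-1 : k) ^ 4) • c4)) := by
      module
    rw [this, a1, a2, a3, a4]; simp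
  exact ⟨(smul_eq_zero.1 k1).resolve_left (mul_ne_zero h20 hm), (smul_eq_zero.1 k2).resolve_left (mul_ne_zero h20 hm')⟩

/-- coefficients of `f y f`, `f = s + λ p - λ² q` -/
lemma coeff_expand (h20 : (2 : k) ≠ 0) (hk3 : Nat.card k ≠ 3) {s p q y : Module.End k M} (hs : s * y * s = 0)
    (h : ∀ c : k, (s + c • p - (c ^ 2) • q) * y * (s + c • p - (c ^ 2) • q) = 0) :
    s * y * p + p * y * s = 0 ∧ p * y * p - s * y * q - q * y * s = 0 := by
  apply coeff4 h20 hk3 (c3 := -(p * y * q) - q * y * p) (c4 := q * y * q)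
  intro c
  have h1 := h c
  have e : (s + c • p - (c ^ 2) • q) * y * (s + c • p - (c ^ 2) • q) =
      s * y * s + (c • (s * y * p + p * y * s) + (c ^ 2) • (p * y * p - s * y * q - q * y * s) +
      (c ^ 3) • (-(p * y * q) - q * y * p) + (c ^ 4) • (q * y * q)) := by
    simp only [mul_add, add_mul, mul_sub, sub_mul, mul_smul_comm, smul_mul_assoc, mul_assoc, smul_sub, smul_add,
      smul_smul]
    module
  rw [e, hs, zero_add] at h1
  exact h1

/-- quadratic elements nilpotent to all minimal ones -/
structure Yy (G : Subgroup (LinearMap.GeneralLinearGroup k M)) (y : Module.End k M) : Prop where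
  fam : Fam G y
  z : ∀ s, Mn G s → s * y * s = 0

lemma Yy.neg {y : Module.End k M} (h : Yy G y) : Yy G (-y) where
  fam := h.fam.neg
  z := by
    intro s hs
    rw [mul_neg, neg_mul, h.z s hs, neg_zero]

/-- closure under commutators with minimal elements -/
lemma Yy.comm_z (h20 : (2 : k) ≠ 0) (hk3 : Nat.card k ≠ 3) {y t : Module.End k M} (h : Yy G y) (ht : Mn G t) :
    ∀ s, Mn G s → s * (y * t - t * y) * s = 0 := by
  intro s hs
  have h1 := (coeff_expand h20 hk3 (h.z s hs) (fun c => h.z _ (mn_conj_un hs ht.fam c))).1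
  have h2 := h.z s hs
  have e : s * (y * t - t * y) * s = (s * y * (t * s - s * t) + (t * s - s * t) * y * s) + (s * y * s) * t -
      t * (s * y * s) := by noncomm_ring
  rw [e, h1, h2]; simp

section comm

variable {y t : Module.End k M}

lemma Yy.aux (h : Yy G y) (ht : Mn G t) (c : k)
    (hc : c ^ 2 = 1) : Fam G (c • (y * t - t * y) - y * t * y) := by
  have h1 := mn_conj_un ht h.fam c
  rw [hc, one_smul] at h1
  have htyt := h.z t ht
  have htt : t * t = 0 := ht.fam.sq
  have h2 := ht.fam.neg.add h1.fam (by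
    have e : -t * (t + c • (y * t - t * y) - y * t * y) = -(t * t) - c • (t * y * t) + c • (t * t * y) +
        (t * y * t) * y := by
      simp only [mul_add, add_mul, mul_sub, sub_mul, mul_smul_comm, smul_mul_assoc, mul_assoc, smul_sub, smul_add,
      smul_smul, neg_mul]
      module
    rw [e, htt, htyt]; simp) (by
    have e : (t + c • (y * t - t * y) - y * t * y) * -t = -(t * t) + c • (t * y * t) - c • (y * (t * t)) +
        y * (t * y * t) := by
      simp only [mul_add, add_mul, mul_sub, sub_mul, mul_smul_comm, smul_mul_assoc, mul_assoc, smul_sub, smul_add,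
      smul_smul, mul_neg]
      module
    rw [e, htt, htyt]; simp)
  have e3 : -t + (t + c • (y * t - t * y) - y * t * y) = c • (y * t - t * y) - y * t * y := by abel
  rw [e3] at h2
  exact h2

lemma Yy.fams (h20 : (2 : k) ≠ 0) (hk3 : Nat.card k ≠ 3) [FiniteDimensional k M] (h : Yy G y) (ht : Mn G t) :
    Fam G (y * t * y) ∧ Fam G (y * t - t * y) := by
  have k1 := h.aux ht 1 (by norm_num)
  have k2 := h.aux ht (-1) (by norm_num)
  have htyt := h.z t ht
  have htt : t * t = 0 := ht.fam.sq
  have hyy : y * y = 0 := h.fam.sq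
  have prod : ∀ a b : k, (a • (y * t - t * y) - y * t * y) * (b • (y * t - t * y) - y * t * y) = 0 := by
    intro a b
    have e : (a • (y * t - t * y) - y * t * y) * (b • (y * t - t * y) - y * t * y) =
        (a * b) • (y * (t * y * t) - y * (t * t) * y - t * (y * y) * t + (t * y * t) * y) -
        a • (y * (t * y * t) * y - t * (y * y) * t * y) - b • (y * t * (y * y) * t - y * (t * y * t) * y) +
        y * t * (y * y) * t * y := by
      simp only [mul_add, add_mul, mul_sub, sub_mul, mul_smul_comm, smul_mul_assoc, mul_assoc, smul_sub, smul_add,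
        smul_smul]
      rw [mul_comm b a]
      abel
    rw [e, htyt, htt, hyy]; simp
  constructor
  · have k3 := k1.add k2 (prod _ _) (prod _ _)
    have e : (1 : k) • (y * t - t * y) - y * t * y + ((-1 : k) • (y * t - t * y) - y * t * y) =
        (-2 : k) • (y * t * y) := by module
    rw [e] at k3
    exact fam_of_smul (neg_ne_zero.2 h20) k3
  · have k3 := k1.add k2.neg (by rw [mul_neg, prod, neg_zero]) (by rw [neg_mul, prod, neg_zero])
    have e : (1 : k) • (y * t - t * y) - y * t * y + -((-1 : k) • (y * t - t * y) - y * t * y) =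
        (2 : k) • (y * t - t * y) := by module
    rw [e] at k3
    exact fam_of_smul h20 k3

lemma Yy.comm (h20 : (2 : k) ≠ 0) (hk3 : Nat.card k ≠ 3) [FiniteDimensional k M] (h : Yy G y) (ht : Mn G t) :
    Yy G (y * t - t * y) := ⟨(h.fams h20 hk3 ht).2, h.comm_z h20 hk3 ht⟩

end comm

end Cfsg.Agent.Lib.QuadPairJ
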