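import Cfsg.Agent.Lib.QuadPairJ
set_option autoImplicit false
set_option linter.unusedSimpArgs false

/-!
Elements nilpotent to all minimal elements commute with them (helper84).
-/

namespace Cfsg.Agent.Lib.QuadPairK
open Subgroup Cfsg
open Cfsg.Agent.Lib.QuadPair
open Cfsg.Agent.Lib.QuadPairU
open Cfsg.Agent.Lib.QuadPairR
open Cfsg.Agent.Lib.QuadPairN1
open Cfsg.Agent.Lib.QuadPairSL2
open Cfsg.Agent.Lib.QuadPairS
open Cfsg.Agent.Lib.QuadPairT
open Cfsg.Agent.Lib.QuadPairO
open Cfsg.Agent.Lib.QuadPairC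
open Cfsg.Agent.Lib.QuadPairNil
open Cfsg.Agent.Lib.QuadPairF
open Cfsg.Agent.Lib.QuadPairG
open Cfsg.Agent.Lib.QuadPairJ
open Cfsg.Agent.Lib.RankOneGrp

universe u v

variable {k : Type u} [Field k] {M : Type v} [AddCommGroup M] [Module k M] [FiniteDimensional k M]
variable {G : Subgroup (LinearMap.GeneralLinearGroup k M)}

/-- the key computation -/
lemma key_ring {A : Type*} [Ring A] {y s t : A} (hy : y * y = 0) (hs : s * s = 0) (ht : t * t = 0)
    (hsys : s * y * s = 0) (htyt : t * y * t = 0)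
    (h : ((y * s - s * y) * t - t * (y * s - s * y)) * y * ((y * s - s * y) * t - t * (y * s - s * y)) -
      t * y * ((y * s - s * y) * t * (y * s - s * y)) - ((y * s - s * y) * t * (y * s - s * y)) * y * t = 0) :
    s * (y * t * y) * s * (y * t * y) * (s * y) + s * (y * t * y) * s * (y * t * y) * (s * y) = 0 := by
  have hy' : ∀ a : A, y * (y * a) = 0 := fun a => by rw [← mul_assoc, hy, zero_mul]
  have hs' : ∀ a : A, s * (s * a) = 0 := fun a => by rw [← mul_assoc, hs, zero_mul]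
  have ht' : ∀ a : A, t * (t * a) = 0 := fun a => by rw [← mul_assoc, ht, zero_mul]
  have h1 : s * (y * s) = 0 := by rw [← mul_assoc, hsys]
  have h2 : t * (y * t) = 0 := by rw [← mul_assoc, htyt]
  have h1' : ∀ a : A, s * (y * (s * a)) = 0 := fun a => by
    have : s * (y * (s * a)) = (s * y * s) * a := by noncomm_ring
    rw [this, hsys, zero_mul]
  have h2' : ∀ a : A, t * (y * (t * a)) = 0 := fun a => by
    have : t * (y * (t * a)) = (t * y * t) * a := by noncomm_ring
    rw [this, htyt, zero_mul]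
  have h3 := congrArg (fun z => s * y * z * y) h
  simp only [mul_zero, zero_mul] at h3
  rw [← h3]
  simp only [mul_sub, sub_mul, mul_add, add_mul, add_zero, zero_add, mul_assoc, hy, hs, ht, hy', hs', ht', h1, h2, h1', h2', mul_zero, zero_mul, sub_zero,
    zero_sub, mul_neg, neg_mul, neg_neg, sub_neg_eq_add]
  try abel

theorem yty (h20 : (2 : k) ≠ 0) (hk3 : Nat.card k ≠ 3) (hG : IsIrreducibleFor G) {y t : Module.End k M}
    (h : Yy G y) (ht : Mn G t) : y * t * y = 0 := by
  by_contra hm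
  have hmf := (h.fams h20 hk3 ht).1
  have hmn : Mn G (y * t * y) := ht.of_rank_le hmf hm (by
    rw [mul_assoc]
    exact (finrank_range_mul_left _ _).trans (finrank_range_mul_right _ _))
  obtain ⟨g, hg, ho⟩ := exists_opposite h20 hk3 hG hmn
  have hs : Mn G (cj g (y * t * y)) := Mn.conj hmn hg
  generalize cj g (y * t * y) = s at ho hs
  have hY' := h.comm h20 hk3 hs
  have h1 := (coeff_expand h20 hk3 (h.z t ht) (fun c => h.z _ (mn_conj_un ht hY'.fam c))).2
  have h2 := key_ring (y := y) (s := s) (t := t) h.fam.sq hs.fam.sq ht.fam.sq (h.z s hs) (h.z t ht) h1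
  have h3 : s * (y * t * y) * s * (y * t * y) * (s * y) = 0 := by
    rw [← two_smul k] at h2
    exact (smul_eq_zero.1 h2).resolve_left h20
  have hsy : s * y = 0 := by
    ext v
    have h4 : s ((y * t * y) (s ((y * t * y) (s (y v))))) = 0 := congrArg (fun f : Module.End k M => f v) h3
    exact ho.right _ (ho.left _ (ho.right _ (ho.left _ h4)))
  apply hs.ne
  ext v
  have h5 : s ((y * t * y) (s v)) = 0 := by
    have : s * (y * t * y) = 0 := by rw [mul_assoc y, ← mul_assoc s, hsy, zero_mul]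
    exact congrArg (fun f : Module.End k M => f (s v)) this
  exact ho.right _ (ho.left _ h5)

omit [FiniteDimensional k M] in
lemma IsUnipotentOn.mono {H K : Subgroup (LinearMap.GeneralLinearGroup k M)} (h : IsUnipotentOn K) (hle : H ≤ K) :
    IsUnipotentOn H := by
  obtain ⟨n, hn⟩ := h
  exact ⟨n, fun l hl hlen => hn l (fun g hg => hle (hl g hg)) hlen⟩

/-- **linear Baer–Suzuki for families** -/
theorem bs_trivial (hG : IsIrreducibleFor G) {V : Set (Module.End k M)} (hV : ∀ v ∈ V, Fam G v)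
    (hconj : ∀ v ∈ V, ∀ g ∈ G, cj g v ∈ V) (hnil : ∀ v ∈ V, ∀ v' ∈ V, v * v' * v = 0) : ∀ v ∈ V, v = 0 := by
  intro v₀ hv₀
  let W : Set (Subgroup (LinearMap.GeneralLinearGroup k M)) :=
    {A | ∃ (v : Module.End k M) (hv : v ∈ V), A = Subgroup.zpowers (un v (hV v hv).sq)}
  have hW : ∀ A ∈ W, ∀ g ∈ G, conjBy A g ∈ W := by
    rintro _ ⟨v, hv, rfl⟩ g hg
    refine ⟨cj g v, hconj v hv g hg, ?_⟩
    unfold conjBy
    rw [MonoidHom.map_zpowers]
    congr 1
    apply Units.ext
    have h1 := coe_conj g (un v (hV v hv).sq)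
    rw [un_coe, add_sub_cancel_left] at h1
    rw [un_coe, ← h1]
    show _ = 1 + (((g * un v (hV v hv).sq * g⁻¹ : LinearMap.GeneralLinearGroup k M) : M →ₗ[k] M) - 1)
    rw [add_sub_cancel]
    rfl
  have hle : ∀ A ∈ W, A ≤ G := by
    rintro _ ⟨v, hv, rfl⟩
    rw [Subgroup.zpowers_le]
    exact un_mem (hV v hv)
  have hWW : ∀ A ∈ W, ∀ B ∈ W, IsUnipotentOn (A ⊔ B) := by
    rintro _ ⟨v, hv, rfl⟩ _ ⟨v', hv', rfl⟩
    refine IsUnipotentOn.mono (unipotent_of_nilp (k := k) (hV v hv).sq (hV v' hv').sq ?_) (sup_le ?_ ?_)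
    · refine ⟨2, ?_⟩
      rw [pow_two, ← mul_assoc, hnil v hv v' hv', zero_mul]
    · rw [Subgroup.zpowers_le]
      exact Subgroup.subset_closure (Or.inl ⟨1, by rw [un_coe, one_smul]⟩)
    · rw [Subgroup.zpowers_le]
      exact Subgroup.subset_closure (Or.inr ⟨1, by rw [un_coe, one_smul]⟩)
  have hU := Cfsg.Agent.Lib.LinBaerSuzuki.iSup_unipotent
    (fun A hA B hB a ha => hW B hB a (hle A hA ha)) hWW
  set N := ⨆ A ∈ W, A with hN
  obtain ⟨⟨m, hm⟩, hirr⟩ := hG
  have hfix := exists_fixed hU hm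
  have hinv : ∀ g ∈ G, ∀ w ∈ fixedSubmodule N, (g : M →ₗ[k] M) w ∈ fixedSubmodule N := by
    intro g hg w hw
    rw [mem_fixedSubmodule] at hw ⊢
    have hNconj : ∀ x ∈ N, g⁻¹ * x * g ∈ N := by
      intro x hx
      have h1 : conjBy N g⁻¹ ≤ N := by
        rw [hN]
        unfold conjBy
        rw [Subgroup.map_iSup]
        refine iSup_le fun A => ?_
        rw [Subgroup.map_iSup]
        refine iSup_le fun hA => ?_
        exact le_iSup₂_of_le (conjBy A g⁻¹) (hW A hA _ (G.inv_mem hg)) le_rfl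
      apply h1
      rw [mem_conjBy, inv_inv]
      have : g * (g⁻¹ * x * g) * g⁻¹ = x := by group
      rwa [this]
    intro x hx
    have h1 := hw _ (hNconj x hx)
    have h2 : (x : M →ₗ[k] M) ((g : M →ₗ[k] M) w) =
        (g : M →ₗ[k] M) (((g⁻¹ * x * g : LinearMap.GeneralLinearGroup k M) : M →ₗ[k] M) w) := by
      have e : x * g = g * (g⁻¹ * x * g) := by group
      have := congrArg (fun y : LinearMap.GeneralLinearGroup k M => (y : M →ₗ[k] M) w) e
      exact this
    rw [h2, h1]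
  rcases hirr _ hinv with h | h
  · exact absurd h hfix
  · have hσN : un v₀ (hV v₀ hv₀).sq ∈ N := by
      have h1 : Subgroup.zpowers (un v₀ (hV v₀ hv₀).sq) ≤ N :=
        le_iSup₂_of_le (Subgroup.zpowers (un v₀ (hV v₀ hv₀).sq)) ⟨v₀, hv₀, rfl⟩ le_rfl
      exact h1 (Subgroup.mem_zpowers _)
    ext x
    have h2 : x ∈ fixedSubmodule N := by rw [h]; trivial
    have h3 := mem_fixedSubmodule.1 h2 _ hσN
    rw [un_coe] at h3
    have h4 : x + v₀ x = x := h3
    rw [LinearMap.zero_apply]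
    exact left_eq_add.1 h4.symm

omit [FiniteDimensional k M] in
lemma Yy.conj {y : Module.End k M} (h : Yy G y) {g : LinearMap.GeneralLinearGroup k M} (hg : g ∈ G) : Yy G (cj g y) where
  fam := h.fam.conj hg
  z := by
    intro s hs
    have h1 := h.z _ (Mn.conj hs (G.inv_mem hg))
    have h2 : cj g (cj g⁻¹ s * y * cj g⁻¹ s) = s * cj g y * s := by
      rw [cj_prod, cj_prod, ← cj_mul, mul_inv_cancel, cj_one]
    rw [← h2, h1]
    exact cj_zero_iff.2 rfl

/-- **Theorem Y** -/
theorem Yy.commute (h20 : (2 : k) ≠ 0) (hk3 : Nat.card k ≠ 3) (hG : IsIrreducibleFor G) {y t : Module.End k M}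
    (h : Yy G y) (ht : Mn G t) : y * t = t * y := by
  let V : Set (Module.End k M) := {v | ∃ y t : Module.End k M, Yy G y ∧ Mn G t ∧ v = y * t - t * y}
  have hmem : y * t - t * y ∈ V := ⟨y, t, h, ht, rfl⟩
  have h0 := bs_trivial hG (V := V) (by
    rintro _ ⟨y, t, h, ht, rfl⟩
    exact (h.fams h20 hk3 ht).2) (by
    rintro _ ⟨y, t, h, ht, rfl⟩ g hg
    refine ⟨cj g y, cj g t, Yy.conj h hg, Mn.conj ht hg, ?_⟩
    rw [← cj_prod, ← cj_prod]
    unfold cj
    noncomm_ring) (by
    rintro _ ⟨y, t, h, ht, rfl⟩ _ ⟨y', t', h', ht', rfl⟩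
    have hc := h.comm h20 hk3 ht
    have hm := mn_conj_un ht' h'.fam 1
    have e0 : y' * t' * y' = 0 := yty h20 hk3 hG h' ht'
    rw [one_smul, one_pow, one_smul, e0, sub_zero] at hm
    have e1 := yty h20 hk3 hG hc hm
    have e2 := yty h20 hk3 hG hc ht'
    have e3 : (y * t - t * y) * (y' * t' - t' * y') * (y * t - t * y) =
        (y * t - t * y) * (t' + (y' * t' - t' * y')) * (y * t - t * y) -
        (y * t - t * y) * t' * (y * t - t * y) := by noncomm_ring
    rw [e3, e1, e2, sub_zero]) _ hmem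
  exact sub_eq_zero.1 h0

end Cfsg.Agent.Lib.QuadPairK
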