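import Cfsg.Agent.Lib.QuadPairN2
set_option autoImplicit false

/-!
Non-unipotent pairs of minimal quadratic elements: the main results (owner: helper84).
-/

namespace Cfsg.Agent.Lib.QuadPairN
open Subgroup Matrix Cfsg
open Cfsg.Agent.Lib.QuadPair
open Cfsg.Agent.Lib.QuadPairU
open Cfsg.Agent.Lib.QuadPairN1
open Cfsg.Agent.Lib.QuadPairN2
open Cfsg.Agent.Lib.SL2Ring Cfsg.Agent.Lib.SL2LemmaL Cfsg.Agent.Lib.SL2Star

universe u v

variable {k : Type u} [Field k] {M : Type v} [AddCommGroup M] [Module k M] 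

section
variable {p q : Submodule k M} (h : IsCompl p q)

lemma blk_left (a : Module.End k p) (b : Module.End k q) (x : p) :
    blk h (a, b) (x : M) = (a x : M) := by
  have := blk_apply h a b x 0
  simpa using this

lemma blk_right' (a : Module.End k p) (b : Module.End k q) (y : q) :
    blk h (a, b) (y : M) = (b y : M) := by
  have := blk_apply h a b 0 y
  simpa using this

lemma blk_inj {a a' : Module.End k p} {b b' : Module.End k q}
    (e : blk h (a, b) = blk h (a', b')) : a = a' ∧ b = b' := by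
  constructor
  · ext x
    have := congrArg (fun f : Module.End k M => f (x : M)) e
    simpa only [blk_left] using this
  · ext x
    have := congrArg (fun f : Module.End k M => f (x : M)) e
    simpa only [blk_right'] using this

end

lemma z_comm_s {A : Type*} [Ring A] {s t : A} (hs : s * s = 0) :
    (s * t + t * s) * s = s * (s * t + t * s) := by
  rw [add_mul, mul_add, ← mul_assoc s s, hs, zero_mul, mul_assoc t, hs, mul_zero, mul_assoc]
  abel

lemma z_comm_t {A : Type*} [Ring A] {s t : A} (ht : t * t = 0) :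
    (s * t + t * s) * t = t * (s * t + t * s) := by
  have := z_comm_s (s := t) (t := s) ht
  rwa [add_comm (t * s)] at this

lemma z_pow {A : Type*} [Ring A] {s t : A} (hs : s * s = 0) (n : ℕ) :
    (s * t + t * s) ^ n * (s * t) = (s * t) ^ (n + 1) := by
  induction n with
  | zero => simp
  | succ n ih =>
    rw [pow_succ, mul_assoc]
    have e : (s * t + t * s) * (s * t) = (s * t) * (s * t) := by
      rw [add_mul, mul_assoc t s, ← mul_assoc s s, hs, zero_mul, mul_zero, add_zero]
    rw [e, ← mul_assoc, ih, ← pow_succ]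

theorem exists_dec [FiniteDimensional k M] {s t : Module.End k M} (hs : s * s = 0) (ht : t * t = 0)
    (hn : ¬ IsNilpotent (s * t)) :
    ∃ (p q : Submodule k M) (h : IsCompl p q) (s0 t0 : Module.End k p) (s1 t1 : Module.End k q)
      (n : ℕ), s = blk h (s0, s1) ∧ t = blk h (t0, t1) ∧ s0 * s0 = 0 ∧ t0 * t0 = 0 ∧
        s1 * s1 = 0 ∧ t1 * t1 = 0 ∧ (s0 * t0) ^ n = 0 ∧ IsUnit (s1 * t1 + t1 * s1) ∧
        Nontrivial q := by
  set z0 := s * t + t * s with hz0
  obtain ⟨n, hn1, hcompl⟩ : ∃ n : ℕ, 1 ≤ n ∧ IsCompl (LinearMap.ker (z0 ^ n)) (LinearMap.range (z0 ^ n)) := by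
    have h1 := LinearMap.eventually_isCompl_ker_pow_range_pow z0
    obtain ⟨n, hn⟩ := (h1.and (Filter.eventually_ge_atTop 1)).exists
    exact ⟨n, hn.2, hn.1⟩
  have cs : z0 ^ n * s = s * z0 ^ n := by
    have : Commute z0 s := z_comm_s hs
    exact this.pow_left n
  have ct : z0 ^ n * t = t * z0 ^ n := by
    have : Commute z0 t := z_comm_t ht
    exact this.pow_left n
  have stab_p : ∀ f : Module.End k M, z0 ^ n * f = f * z0 ^ n → ∀ x ∈ LinearMap.ker (z0 ^ n),
      f x ∈ LinearMap.ker (z0 ^ n) := by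
    intro f hf x hx
    rw [LinearMap.mem_ker] at hx ⊢
    have := congrArg (fun g : Module.End k M => g x) hf
    change (z0 ^ n) (f x) = f ((z0 ^ n) x) at this
    rw [this, hx, map_zero]
  have stab_q : ∀ f : Module.End k M, z0 ^ n * f = f * z0 ^ n → ∀ x ∈ LinearMap.range (z0 ^ n),
      f x ∈ LinearMap.range (z0 ^ n) := by
    rintro f hf _ ⟨x, rfl⟩
    refine ⟨f x, ?_⟩
    exact congrArg (fun g : Module.End k M => g x) hf
  have es := blk_restrict hcompl (stab_p s cs) (stab_q s cs)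
  have et := blk_restrict hcompl (stab_p t ct) (stab_q t ct)
  set s0 := s.restrict (stab_p s cs)
  set s1 := s.restrict (stab_q s cs)
  set t0 := t.restrict (stab_p t ct)
  set t1 := t.restrict (stab_q t ct)
  have h0 : (0 : Module.End k M) = blk hcompl (0, 0) := (map_zero (blk hcompl)).symm
  have hss : s0 * s0 = 0 ∧ s1 * s1 = 0 := by
    apply blk_inj hcompl
    rw [← blk_mul, es, hs, h0]
  have htt : t0 * t0 = 0 ∧ t1 * t1 = 0 := by
    apply blk_inj hcompl
    rw [← blk_mul, et, ht, h0]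
  have ez : blk hcompl (s0 * t0 + t0 * s0, s1 * t1 + t1 * s1) = z0 := by
    have e : ((s0 * t0 + t0 * s0, s1 * t1 + t1 * s1) : Module.End k _ × Module.End k _) =
      (s0, s1) * (t0, t1) + (t0, t1) * (s0, s1) := rfl
    rw [e, map_add, map_mul, map_mul, es, et]
  have ezn : blk hcompl ((s0 * t0 + t0 * s0) ^ n, (s1 * t1 + t1 * s1) ^ n) = z0 ^ n := by
    have e : (((s0 * t0 + t0 * s0) ^ n, (s1 * t1 + t1 * s1) ^ n) : Module.End k _ × Module.End k _) =
      (s0 * t0 + t0 * s0, s1 * t1 + t1 * s1) ^ n := rfl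
    rw [e, map_pow, ez]
  refine ⟨_, _, hcompl, s0, t0, s1, t1, n + 1, es.symm, et.symm, hss.1, htt.1, hss.2, htt.2,
    ?_, ?_, ?_⟩
  · rw [← z_pow hss.1]
    have : (s0 * t0 + t0 * s0) ^ n = 0 := by
      ext x
      have h1 := blk_left hcompl ((s0 * t0 + t0 * s0) ^ n) ((s1 * t1 + t1 * s1) ^ n) x
      rw [ezn] at h1
      rw [← h1]
      have := x.2
      rw [LinearMap.mem_ker] at this
      rw [this]; simp
    rw [this, zero_mul]
  · rw [LinearMap.isUnit_iff_ker_eq_bot, LinearMap.ker_eq_bot']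
    intro y hy
    have h1 := blk_right' hcompl (s0 * t0 + t0 * s0) (s1 * t1 + t1 * s1) y
    rw [ez, hy] at h1
    have h2' : ∀ m, 1 ≤ m → (z0 ^ m) (y : M) = 0 := by
      intro m hm
      obtain ⟨m', rfl⟩ := Nat.exists_eq_add_of_le hm
      rw [add_comm, pow_add, pow_one]
      show (z0 ^ m') (z0 (y : M)) = 0
      rw [h1]; simp
    have h2 := h2' n hn1
    have h3 : (y : M) ∈ LinearMap.ker (z0 ^ n) ⊓ LinearMap.range (z0 ^ n) := ⟨h2, y.2⟩
    rw [hcompl.inf_eq_bot, Submodule.mem_bot] at h3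
    exact Subtype.ext h3
  · by_contra hcon
    rw [not_nontrivial_iff_subsingleton] at hcon
    apply hn
    refine ⟨n + 1, ?_⟩
    rw [← z_pow hs]
    have : z0 ^ n = 0 := by
      ext m
      have h4 := Subsingleton.elim (⟨(z0 ^ n) m, ⟨m, rfl⟩⟩ : LinearMap.range (z0 ^ n)) 0
      exact congrArg Subtype.val h4
    rw [this, zero_mul]


/-- The structure of the group generated by the two families of a non-nilpotent pair -/
theorem pair_struct [FiniteDimensional k M] {G : Subgroup (LinearMap.GeneralLinearGroup k M)}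
    (h20 : (2 : k) ≠ 0) (hk3 : Nat.card k ≠ 3) {s t : Module.End k M} (hs : Mn G s) (ht : Mn G t)
    (hn : ¬ IsNilpotent (s * t)) :
    ∃ (p q : Submodule k M) (h : IsCompl p q) (s1 t1 : Module.End k q) (R : Type v)
      (_ : CommRing R) (_ : Algebra k R) (_ : FiniteDimensional k R) (ι : R →ₐ[k] Module.End k q)
      (z : Rˣ) (_ : Rep ι z s1 t1),
      s = blk h (0, s1) ∧ t = blk h (0, t1) ∧ Function.Injective ι ∧ IsField R ∧
      Algebra.adjoin k {(z : R)} = ⊤ ∧ ∀ r : R, X r ∈ grp k (z : R) := by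
  obtain ⟨p, q, h, s0, t0, s1, t1, n, es, et, hs0, ht0, hs1, ht1, hnil, hu, hnt⟩ :=
    exists_dec hs.fam.sq ht.fam.sq hn
  obtain ⟨R, i1, i2, i3, ι, z, hι, rep, hgen⟩ := exists_rep hs1 ht1 hu
  have hR : Nontrivial R := by
    have : Nontrivial (Module.End k q) := inferInstance
    by_contra hcon
    rw [not_nontrivial_iff_subsingleton] at hcon
    have h1 : (1 : R) = 0 := Subsingleton.elim _ _
    have h2 := congrArg ι h1
    rw [map_one, map_zero] at h2
    exact one_ne_zero h2
  subst es et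
  obtain ⟨h1, h2, h3, h4⟩ := core h h20 hk3 rep hι hgen hs0 ht0 hnil hs ht
  subst h1 h2
  exact ⟨p, q, h, s1, t1, R, i1, i2, i3, ι, z, rep, rfl, rfl, hι, h3, hgen, h4⟩

/-- **The opposite element** of a non-nilpotent pair -/
theorem exists_opp [FiniteDimensional k M] {G : Subgroup (LinearMap.GeneralLinearGroup k M)}
    (h20 : (2 : k) ≠ 0) (hk3 : Nat.card k ≠ 3) {s t : Module.End k M} (hs : Mn G s) (ht : Mn G t)
    (hn : ¬ IsNilpotent (s * t)) :
    ∃ t' : Module.End k M, Rel G t t' ∧ s * t' * s = -s ∧ t' * s * t' = -t' := by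
  obtain ⟨p, q, h, s1, t1, R, i1, i2, i3, ι, z, rep, es, et, hι, hF, hgen, hX⟩ :=
    pair_struct h20 hk3 hs ht hn
  have hG : gen k s t ≤ G := gen_le hs.fam ht.fam
  have hl0 : lcs (gen k (0 : Module.End k p) 0) 0 = ⊥ := by
    rw [lcs_zero, gen_zero]
  have hf : ∀ r : R, Fam G (blk h (0, ι r * t1)) := by
    intro r
    apply fam_Y h rep (s0 := 0) (t0 := 0) (n := 0) (by simp) (by simp) hl0
    · rw [← es, ← et]; exact hG
    · exact hX r
  set r₀ : R := -((z⁻¹ : Rˣ) : R) with hr₀
  have hrz : r₀ * (z : R) = -1 := by rw [hr₀, neg_mul, Units.inv_mul]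
  let U : Module.End k M := blk h (1, ι r₀)
  let U' : Module.End k M := blk h (1, ι (-(z : R)))
  have hUU' : U * U' = 1 := by
    rw [blk_mul, ← map_mul, mul_neg, hrz, neg_neg, map_one, one_mul, ← map_one (blk h)]; rfl
  have hU'U : U' * U = 1 := by
    rw [blk_mul, ← map_mul, neg_mul, mul_comm (z : R), hrz, neg_neg, map_one, one_mul,
      ← map_one (blk h)]; rfl
  have e1 : blk h (0, ι r₀ * t1) = U * t := by
    rw [et, blk_mul, mul_zero]
  have e2 : blk h (0, ι r₀ * t1) = t * U := by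
    rw [et, blk_mul, zero_mul, rep.ct]
  have hker : LinearMap.ker (blk h (0, ι r₀ * t1)) = LinearMap.ker t := by
    rw [e1]
    apply le_antisymm
    · intro x hx
      have hx' : U (t x) = 0 := hx
      have h3 : U' (U (t x)) = t x := congrArg (fun f : Module.End k M => f (t x)) hU'U
      rw [hx', map_zero] at h3
      exact h3.symm
    · intro x hx
      have hx' : t x = 0 := hx
      show U (t x) = 0
      rw [hx', map_zero]
  have hrange : LinearMap.range (blk h (0, ι r₀ * t1)) = LinearMap.range t := by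
    rw [e2]
    apply le_antisymm
    · exact LinearMap.range_comp_le_range _ _
    · rintro _ ⟨x, rfl⟩
      refine ⟨U' x, ?_⟩
      show t (U (U' x)) = t x
      have h3 : U (U' x) = x := congrArg (fun f : Module.End k M => f x) hUU'
      rw [h3]
  have hne : blk h (0, ι r₀ * t1) ≠ 0 := by
    intro h0
    apply ht.ne
    rw [h0] at e1
    calc t = U' * (U * t) := by rw [← mul_assoc, hU'U, one_mul]
      _ = 0 := by rw [← e1, mul_zero]
  have hfam : Fam G (blk h (0, ι r₀ * t1)) := hf r₀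
  have hm1 : ι r₀ * ι (z : R) = -1 := by rw [← map_mul, hrz, map_neg, map_one]
  have hm2 : ∀ x : Module.End k q, ι r₀ * (ι (z : R) * x) = -x := by
    intro x
    rw [← mul_assoc, hm1]
    exact neg_one_mul x
  refine ⟨blk h (0, ι r₀ * t1), ⟨ht.of_rank_le hfam hne (by rw [hrange]), hker, hrange⟩, ?_, ?_⟩
  · have e3 : s1 * (ι r₀ * t1) * s1 = -s1 := by
      rw [← mul_assoc, ← rep.cs, mul_assoc, mul_assoc, ← mul_assoc s1, rep.sts, hm2]
    have e4 : ((0, -s1) : Module.End k p × Module.End k q) = -(0, s1) := by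
      ext <;> simp
    rw [es, blk_mul, blk_mul, e3, zero_mul, zero_mul, e4, map_neg]
  · have e3 : (ι r₀ * t1) * s1 * (ι r₀ * t1) = -(ι r₀ * t1) := by
      rw [mul_assoc (ι r₀), Rep.mulw (rep.cts _), rep.tst, mul_assoc (ι r₀) (ι r₀), hm2]
      exact mul_neg (ι r₀) t1
    have e4 : ((0, -(ι r₀ * t1)) : Module.End k p × Module.End k q) = -(0, ι r₀ * t1) := by
      ext <;> simp
    rw [es, blk_mul, blk_mul, e3, zero_mul, zero_mul, e4, map_neg]

end Cfsg.Agent.Lib.QuadPairN
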