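import Mathlib
set_option autoImplicit false
set_option linter.unusedSimpArgs false

/-!
# `SL₂(R)` over a commutative ring, generated by `X(c)`, `Y(c z)` (helper84)
-/

namespace Cfsg.Agent.Lib.SL2Ring
open Subgroup Matrix

variable {R : Type*} [CommRing R]

/-- lower unitriangular matrix -/
def Y (t : R) : SpecialLinearGroup (Fin 2) R := ⟨!![1, 0; t, 1], by simp [Matrix.det_fin_two]⟩

/-- upper unitriangular matrix -/
def X (t : R) : SpecialLinearGroup (Fin 2) R := ⟨!![1, t; 0, 1], by simp [Matrix.det_fin_two]⟩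

lemma sl_ext {g h : SpecialLinearGroup (Fin 2) R} (h00 : g.1 0 0 = h.1 0 0) (h01 : g.1 0 1 = h.1 0 1)
    (h10 : g.1 1 0 = h.1 1 0) (h11 : g.1 1 1 = h.1 1 1) : g = h := by
  apply Subtype.ext
  ext i j
  fin_cases i <;> fin_cases j <;> assumption

@[simp] lemma mul_00 (g h : SpecialLinearGroup (Fin 2) R) :
    (g * h).1 0 0 = g.1 0 0 * h.1 0 0 + g.1 0 1 * h.1 1 0 := by
  show (g.1 * h.1) 0 0 = _
  rw [Matrix.mul_apply, Fin.sum_univ_two]

@[simp] lemma mul_01 (g h : SpecialLinearGroup (Fin 2) R) :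
    (g * h).1 0 1 = g.1 0 0 * h.1 0 1 + g.1 0 1 * h.1 1 1 := by
  show (g.1 * h.1) 0 1 = _
  rw [Matrix.mul_apply, Fin.sum_univ_two]

@[simp] lemma mul_10 (g h : SpecialLinearGroup (Fin 2) R) :
    (g * h).1 1 0 = g.1 1 0 * h.1 0 0 + g.1 1 1 * h.1 1 0 := by
  show (g.1 * h.1) 1 0 = _
  rw [Matrix.mul_apply, Fin.sum_univ_two]

@[simp] lemma mul_11 (g h : SpecialLinearGroup (Fin 2) R) :
    (g * h).1 1 1 = g.1 1 0 * h.1 0 1 + g.1 1 1 * h.1 1 1 := by
  show (g.1 * h.1) 1 1 = _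
  rw [Matrix.mul_apply, Fin.sum_univ_two]

@[simp] lemma Y_00 (t : R) : (Y t).1 0 0 = 1 := rfl
@[simp] lemma Y_01 (t : R) : (Y t).1 0 1 = 0 := rfl
@[simp] lemma Y_10 (t : R) : (Y t).1 1 0 = t := rfl
@[simp] lemma Y_11 (t : R) : (Y t).1 1 1 = 1 := rfl
@[simp] lemma X_00 (t : R) : (X t).1 0 0 = 1 := rfl
@[simp] lemma X_01 (t : R) : (X t).1 0 1 = t := rfl
@[simp] lemma X_10 (t : R) : (X t).1 1 0 = 0 := rfl
@[simp] lemma X_11 (t : R) : (X t).1 1 1 = 1 := rfl
@[simp] lemma one_00 : (1 : SpecialLinearGroup (Fin 2) R).1 0 0 = 1 := rfl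
@[simp] lemma one_01 : (1 : SpecialLinearGroup (Fin 2) R).1 0 1 = 0 := rfl
@[simp] lemma one_10 : (1 : SpecialLinearGroup (Fin 2) R).1 1 0 = 0 := rfl
@[simp] lemma one_11 : (1 : SpecialLinearGroup (Fin 2) R).1 1 1 = 1 := rfl

lemma inv_coe (g : SpecialLinearGroup (Fin 2) R) :
    (g⁻¹).1 = !![g.1 1 1, -g.1 0 1; -g.1 1 0, g.1 0 0] :=
  Matrix.adjugate_fin_two g.1

@[simp] lemma inv_00 (g : SpecialLinearGroup (Fin 2) R) : (g⁻¹).1 0 0 = g.1 1 1 := by
  rw [inv_coe]; rfl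
@[simp] lemma inv_01 (g : SpecialLinearGroup (Fin 2) R) : (g⁻¹).1 0 1 = -g.1 0 1 := by
  rw [inv_coe]; rfl
@[simp] lemma inv_10 (g : SpecialLinearGroup (Fin 2) R) : (g⁻¹).1 1 0 = -g.1 1 0 := by
  rw [inv_coe]; rfl
@[simp] lemma inv_11 (g : SpecialLinearGroup (Fin 2) R) : (g⁻¹).1 1 1 = g.1 0 0 := by
  rw [inv_coe]; rfl

lemma X_add (s t : R) : X (s + t) = X s * X t := by
  apply sl_ext <;> simp [add_comm]

lemma Y_add (s t : R) : Y (s + t) = Y s * Y t := by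
  apply sl_ext <;> simp

@[simp] lemma X_zero : X (0 : R) = 1 := by apply sl_ext <;> simp
@[simp] lemma Y_zero : Y (0 : R) = 1 := by apply sl_ext <;> simp

lemma X_neg (t : R) : X (-t) = (X t)⁻¹ := by
  rw [eq_inv_iff_mul_eq_one, ← X_add]; simp

lemma Y_neg (t : R) : Y (-t) = (Y t)⁻¹ := by
  rw [eq_inv_iff_mul_eq_one, ← Y_add]; simp

lemma X_inj {s t : R} : X s = X t ↔ s = t := by
  constructor
  · intro h
    have := congrArg (fun g : SpecialLinearGroup (Fin 2) R => g.1 0 1) h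
    simpa using this
  · rintro rfl; rfl

lemma det_eq (g : SpecialLinearGroup (Fin 2) R) : g.1 0 0 * g.1 1 1 - g.1 0 1 * g.1 1 0 = 1 := by
  rw [← Matrix.det_fin_two]; exact g.2

lemma map_X {R' : Type*} [CommRing R'] (f : R →+* R') (r : R) :
    SpecialLinearGroup.map f (X r) = X (f r) := by
  apply sl_ext
  · exact map_one f
  · rfl
  · exact map_zero f
  · exact map_one f

lemma map_Y {R' : Type*} [CommRing R'] (f : R →+* R') (r : R) :
    SpecialLinearGroup.map f (Y r) = Y (f r) := by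
  apply sl_ext
  · exact map_one f
  · exact map_zero f
  · rfl
  · exact map_one f

/-- an element of `SL₂` from its entries -/
def mk4 (a b c d : R) (h : a * d - b * c = 1) : SpecialLinearGroup (Fin 2) R :=
  ⟨!![a, b; c, d], by rw [Matrix.det_fin_two]; exact h⟩

@[simp] lemma mk4_00 (a b c d : R) (h : a * d - b * c = 1) : (mk4 a b c d h).1 0 0 = a := rfl
@[simp] lemma mk4_01 (a b c d : R) (h : a * d - b * c = 1) : (mk4 a b c d h).1 0 1 = b := rfl
@[simp] lemma mk4_10 (a b c d : R) (h : a * d - b * c = 1) : (mk4 a b c d h).1 1 0 = c := rfl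
@[simp] lemma mk4_11 (a b c d : R) (h : a * d - b * c = 1) : (mk4 a b c d h).1 1 1 = d := rfl

/-- conjugation by `diag(a, 1)` -/
def scl (a : Rˣ) : SpecialLinearGroup (Fin 2) R →* SpecialLinearGroup (Fin 2) R where
  toFun g := mk4 (g.1 0 0) (a * g.1 0 1) ((a⁻¹ : Rˣ) * g.1 1 0) (g.1 1 1) (by
    have h := det_eq g
    have ha : (a : R) * ((a⁻¹ : Rˣ) : R) = 1 := Units.mul_inv a
    linear_combination h - g.1 0 1 * g.1 1 0 * ha)
  map_one' := by apply sl_ext <;> simp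
  map_mul' g h := by
    have ha : (a : R) * ((a⁻¹ : Rˣ) : R) = 1 := Units.mul_inv a
    apply sl_ext
    · simp only [mk4_00, mk4_01, mk4_10, mk4_11, mul_00, mul_01, mul_10, mul_11]
      linear_combination (-g.1 0 1 * h.1 1 0) * ha
    · simp only [mk4_00, mk4_01, mk4_10, mk4_11, mul_00, mul_01, mul_10, mul_11]
      ring
    · simp only [mk4_00, mk4_01, mk4_10, mk4_11, mul_00, mul_01, mul_10, mul_11]
      ring
    · simp only [mk4_00, mk4_01, mk4_10, mk4_11, mul_00, mul_01, mul_10, mul_11]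
      linear_combination (-g.1 1 0 * h.1 0 1) * ha

@[simp] lemma scl_00 (a : Rˣ) (g : SpecialLinearGroup (Fin 2) R) : (scl a g).1 0 0 = g.1 0 0 := rfl
@[simp] lemma scl_01 (a : Rˣ) (g : SpecialLinearGroup (Fin 2) R) :
    (scl a g).1 0 1 = a * g.1 0 1 := rfl
@[simp] lemma scl_10 (a : Rˣ) (g : SpecialLinearGroup (Fin 2) R) :
    (scl a g).1 1 0 = (a⁻¹ : Rˣ) * g.1 1 0 := rfl
@[simp] lemma scl_11 (a : Rˣ) (g : SpecialLinearGroup (Fin 2) R) : (scl a g).1 1 1 = g.1 1 1 := rfl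

lemma scl_X (a : Rˣ) (r : R) : scl a (X r) = X (a * r) := by apply sl_ext <;> simp
lemma scl_Y (a : Rˣ) (r : R) : scl a (Y r) = Y ((a⁻¹ : Rˣ) * r) := by apply sl_ext <;> simp

/-- conjugation by `[[0, 1], [z, 0]]` -/
def swp (z : Rˣ) : SpecialLinearGroup (Fin 2) R →* SpecialLinearGroup (Fin 2) R where
  toFun g := mk4 (g.1 1 1) ((z⁻¹ : Rˣ) * g.1 1 0) (z * g.1 0 1) (g.1 0 0) (by
    have h := det_eq g
    have ha : (z : R) * ((z⁻¹ : Rˣ) : R) = 1 := Units.mul_inv z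
    linear_combination h - g.1 0 1 * g.1 1 0 * ha)
  map_one' := by apply sl_ext <;> simp
  map_mul' g h := by
    have ha : (z : R) * ((z⁻¹ : Rˣ) : R) = 1 := Units.mul_inv z
    apply sl_ext
    · simp only [mk4_00, mk4_01, mk4_10, mk4_11, mul_00, mul_01, mul_10, mul_11]
      linear_combination (-g.1 1 0 * h.1 0 1) * ha
    · simp only [mk4_00, mk4_01, mk4_10, mk4_11, mul_00, mul_01, mul_10, mul_11]
      ring
    · simp only [mk4_00, mk4_01, mk4_10, mk4_11, mul_00, mul_01, mul_10, mul_11]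
      ring
    · simp only [mk4_00, mk4_01, mk4_10, mk4_11, mul_00, mul_01, mul_10, mul_11]
      linear_combination (-g.1 0 1 * h.1 1 0) * ha

@[simp] lemma swp_00 (z : Rˣ) (g : SpecialLinearGroup (Fin 2) R) : (swp z g).1 0 0 = g.1 1 1 := rfl
@[simp] lemma swp_01 (z : Rˣ) (g : SpecialLinearGroup (Fin 2) R) :
    (swp z g).1 0 1 = (z⁻¹ : Rˣ) * g.1 1 0 := rfl
@[simp] lemma swp_10 (z : Rˣ) (g : SpecialLinearGroup (Fin 2) R) :
    (swp z g).1 1 0 = z * g.1 0 1 := rfl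
@[simp] lemma swp_11 (z : Rˣ) (g : SpecialLinearGroup (Fin 2) R) : (swp z g).1 1 1 = g.1 0 0 := rfl

lemma swp_X (z : Rˣ) (r : R) : swp z (X r) = Y (z * r) := by apply sl_ext <;> simp
lemma swp_Y (z : Rˣ) (r : R) : swp z (Y r) = X ((z⁻¹ : Rˣ) * r) := by apply sl_ext <;> simp
lemma swp_swp (z : Rˣ) (g : SpecialLinearGroup (Fin 2) R) : swp z (swp z g) = g := by
  apply sl_ext <;> simp

/-! ### The groups `⟨X(c), Y(c z) : c ∈ k⟩` -/

section grp

variable (k : Type*) [Field k] [Algebra k R]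

/-- `⟨X(c), Y(c z) : c ∈ k⟩` -/
def grp (z : R) : Subgroup (SpecialLinearGroup (Fin 2) R) :=
  Subgroup.closure ({g | ∃ c : k, g = X (algebraMap k R c)} ∪
    {g | ∃ c : k, g = Y (algebraMap k R c * z)})

variable {k}

lemma X_mem_grp (z : R) (c : k) : X (algebraMap k R c) ∈ grp k z :=
  Subgroup.subset_closure (Or.inl ⟨c, rfl⟩)

lemma Y_mem_grp (z : R) (c : k) : Y (algebraMap k R c * z) ∈ grp k z :=
  Subgroup.subset_closure (Or.inr ⟨c, rfl⟩)

lemma X_one_mem (z : R) : X (1 : R) ∈ grp k z := by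
  have := X_mem_grp (k := k) z 1
  rwa [map_one] at this

lemma Y_z_mem (z : R) : Y z ∈ grp k z := by
  have := Y_mem_grp (k := k) z 1
  rwa [map_one, one_mul] at this

/-- a nonzero scalar as a unit of `R` -/
def sc (R : Type*) [CommRing R] [Algebra k R] (c : k) (hc : c ≠ 0) : Rˣ :=
  Units.map (algebraMap k R).toMonoidHom (Units.mk0 c hc)

@[simp] lemma sc_coe (c : k) (hc : c ≠ 0) : ((sc R c hc : Rˣ) : R) = algebraMap k R c := rfl

@[simp] lemma sc_inv_coe (c : k) (hc : c ≠ 0) :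
    (((sc R c hc)⁻¹ : Rˣ) : R) = algebraMap k R c⁻¹ := by
  unfold sc
  rw [← map_inv]
  rfl

lemma scl_mem_grp (z : R) (c : k) (hc : c ≠ 0) {g : SpecialLinearGroup (Fin 2) R}
    (hg : g ∈ grp k z) : scl (sc R c hc) g ∈ grp k z := by
  have : grp k z ≤ (grp k z).comap (scl (sc R c hc)) := by
    unfold grp
    rw [Subgroup.closure_le]
    rintro _ (⟨d, rfl⟩ | ⟨d, rfl⟩)
    · show scl (sc R c hc) (X _) ∈ grp k z
      rw [scl_X, sc_coe, ← map_mul]
      exact X_mem_grp z _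
    · show scl (sc R c hc) (Y _) ∈ grp k z
      rw [scl_Y, sc_inv_coe, ← mul_assoc, ← map_mul]
      exact Y_mem_grp z _
  exact this hg

lemma swp_mem_grp (z : Rˣ) {g : SpecialLinearGroup (Fin 2) R}
    (hg : g ∈ grp k (z : R)) : swp z g ∈ grp k (z : R) := by
  have : grp k (z : R) ≤ (grp k (z : R)).comap (swp z) := by
    conv_lhs => unfold grp
    rw [Subgroup.closure_le]
    rintro _ (⟨d, rfl⟩ | ⟨d, rfl⟩)
    · show swp z (X _) ∈ grp k (z : R)
      rw [swp_X, mul_comm]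
      exact Y_mem_grp _ _
    · show swp z (Y _) ∈ grp k (z : R)
      rw [swp_Y]
      have : ((z⁻¹ : Rˣ) : R) * (algebraMap k R d * (z : R)) = algebraMap k R d := by
        rw [mul_comm, mul_assoc, Units.mul_inv, mul_one]
      rw [this]
      exact X_mem_grp _ _
  exact this hg

/-- `T = {r : X(r) ∈ Γ}` for a subgroup `Γ` invariant under the scalings -/
def TT (Γ : Subgroup (SpecialLinearGroup (Fin 2) R))
    (hΓ : ∀ (c : k) (hc : c ≠ 0), ∀ g ∈ Γ, scl (sc R c hc) g ∈ Γ) : Submodule k R where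
  carrier := {r | X r ∈ Γ}
  add_mem' := by
    intro a b ha hb
    show X (a + b) ∈ Γ
    rw [X_add]
    exact Γ.mul_mem ha hb
  zero_mem' := by
    show X 0 ∈ Γ
    rw [X_zero]; exact Γ.one_mem
  smul_mem' := by
    intro c r hr
    show X (c • r) ∈ Γ
    by_cases hc : c = 0
    · rw [hc, zero_smul, X_zero]; exact Γ.one_mem
    · have := hΓ c hc _ hr
      rw [scl_X, sc_coe] at this
      rwa [Algebra.smul_def]

lemma mem_TT {Γ : Subgroup (SpecialLinearGroup (Fin 2) R)}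
    {hΓ : ∀ (c : k) (hc : c ≠ 0), ∀ g ∈ Γ, scl (sc R c hc) g ∈ Γ} {r : R} :
    r ∈ TT Γ hΓ ↔ X r ∈ Γ := Iff.rfl

end grp

end Cfsg.Agent.Lib.SL2Ring
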