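import Cfsg.Agent.Lib.QuadPairU
import Cfsg.Agent.Lib.SL2Ring
set_option autoImplicit false

/-!
Preliminaries for the non-unipotent pairs of quadratic elements (owner: helper84):
lower central series inside an ambient group, nilpotency of `⟨1 + c s, 1 + c t⟩` for a nilpotent pair,
the representation of `SL₂(R)` defined by a pair `s, t` with `s t + t s = z` invertible.
-/

namespace Cfsg.Agent.Lib.QuadPairN1
open Subgroup Matrix
open Cfsg.Agent.Lib.QuadPairU
open Cfsg.Agent.Lib.SL2Ring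

section lcs

variable {G : Type*} [Group G] {G' : Type*} [Group G']

/-- lower central series of a subgroup, as subgroups of the ambient group -/
def lcs (H : Subgroup G) : ℕ → Subgroup G
  | 0 => H
  | n + 1 => ⁅lcs H n, H⁆

lemma lcs_zero (H : Subgroup G) : lcs H 0 = H := rfl
lemma lcs_succ (H : Subgroup G) (n : ℕ) : lcs H (n + 1) = ⁅lcs H n, H⁆ := rfl

lemma lcs_mono {H K : Subgroup G} (h : H ≤ K) (n : ℕ) : lcs H n ≤ lcs K n := by
  induction n with
  | zero => exact h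
  | succ n ih => exact Subgroup.commutator_mono ih h

lemma map_lcs (f : G →* G') (H : Subgroup G) (n : ℕ) : (lcs H n).map f = lcs (H.map f) n := by
  induction n with
  | zero => rfl
  | succ n ih => rw [lcs_succ, Subgroup.map_commutator, ih]; rfl

lemma lcs_conj {H : Subgroup G} {n : ℕ} {h x : G} (hh : h ∈ H) (hx : x ∈ lcs H n) :
    h * x * h⁻¹ ∈ lcs H n := by
  have h1 : h * x * h⁻¹ ∈ (lcs H n).map (MulAut.conj h).toMonoidHom := ⟨x, hx, rfl⟩
  rw [map_lcs] at h1
  refine lcs_mono ?_ n h1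
  rintro _ ⟨y, hy, rfl⟩
  exact H.mul_mem (H.mul_mem hh hy) (H.inv_mem hh)

lemma lcs_le (H : Subgroup G) (n : ℕ) : lcs H n ≤ H := by
  induction n with
  | zero => exact le_rfl
  | succ n ih =>
    rw [lcs_succ, Subgroup.commutator_le]
    intro a ha b hb
    exact H.mul_mem (H.mul_mem (H.mul_mem (ih ha) hb) (H.inv_mem (ih ha))) (H.inv_mem hb)

lemma lcs_of_perfect {H : Subgroup G} (h : ⁅H, H⁆ = H) (n : ℕ) : lcs H n = H := by
  induction n with
  | zero => rfl
  | succ n ih => rw [lcs_succ, ih, h]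

end lcs

section nilp

variable {k : Type*} [Field k] {A : Type*} [Ring A] [Algebra k A]

/-- the group of units congruent to `1` modulo the `i`-th term of the filtration -/
def UF (k : Type*) [Field k] [Algebra k A] (s t : A) (i : ℕ) : Subgroup Aˣ where
  carrier := {g | (g : A) - 1 ∈ F k s t i ∧ ((g⁻¹ : Aˣ) : A) - 1 ∈ F k s t i}
  one_mem' := by
    simp only [Set.mem_ofPred_eq, Units.val_one, sub_self, inv_one]
    exact ⟨Submodule.zero_mem _, Submodule.zero_mem _⟩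
  mul_mem' := by
    have key : ∀ a b : A, a - 1 ∈ F k s t i → b - 1 ∈ F k s t i → a * b - 1 ∈ F k s t i := by
      intro a b ha hb
      have e : a * b - 1 = (a - 1) * (b - 1) + ((a - 1) + (b - 1)) := by noncomm_ring
      rw [e]
      refine Submodule.add_mem _ ?_ (Submodule.add_mem _ ha hb)
      exact F_anti' s t (Nat.le_add_right i i) (F_mul s t i i (Submodule.mul_mem_mul ha hb))
    rintro a b ⟨ha, ha'⟩ ⟨hb, hb'⟩
    refine ⟨?_, ?_⟩
    · rw [Units.val_mul]; exact key _ _ ha hb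
    · rw [_root_.mul_inv_rev, Units.val_mul]; exact key _ _ hb' ha'
  inv_mem' := by
    rintro a ⟨ha, ha'⟩
    exact ⟨ha', by rwa [inv_inv]⟩

lemma mem_UF {s t : A} {i : ℕ} {g : Aˣ} :
    g ∈ UF k s t i ↔ (g : A) - 1 ∈ F k s t i ∧ ((g⁻¹ : Aˣ) : A) - 1 ∈ F k s t i := Iff.rfl

lemma UF_comm {s t : A} {i : ℕ} {g h : Aˣ} (hg : g ∈ UF k s t i) (hh : h ∈ UF k s t 1) :
    g * h * g⁻¹ * h⁻¹ ∈ UF k s t (i + 1) := by
  have key : ∀ a b : Aˣ, (a : A) - 1 ∈ F k s t i → (b : A) - 1 ∈ F k s t 1 →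
      ((a : A) * b - b * a) ∈ F k s t (i + 1) := by
    intro a b ha hb
    have e : ((a : A) * b - b * a) = ((a : A) - 1) * (b - 1) - (b - 1) * (a - 1) := by noncomm_ring
    rw [e]
    refine Submodule.sub_mem _ (F_mul s t i 1 (Submodule.mul_mem_mul ha hb)) ?_
    have := F_mul s t 1 i (Submodule.mul_mem_mul hb ha)
    rwa [add_comm] at this
  have key2 : ∀ x y : A, x ∈ F k s t (i + 1) → y - 1 ∈ F k s t 0 → x * y ∈ F k s t (i + 1) := by
    intro x y hx hy
    have e : x * y = x * (y - 1) + x := by noncomm_ring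
    rw [e]
    exact Submodule.add_mem _ (F_mul s t (i + 1) 0 (Submodule.mul_mem_mul hx hy)) hx
  have h0 : ∀ a : Aˣ, ∀ j, (a : A) - 1 ∈ F k s t j → (a : A) - 1 ∈ F k s t 0 := fun a j ha =>
    F_anti' s t (Nat.zero_le _) ha
  obtain ⟨g1, g2⟩ := mem_UF.1 hg
  obtain ⟨h1, h2⟩ := mem_UF.1 hh
  rw [mem_UF]
  constructor
  · have e : ((g * h * g⁻¹ * h⁻¹ : Aˣ) : A) - 1 =
        ((g : A) * h - h * g) * ((g⁻¹ : Aˣ) : A) * ((h⁻¹ : Aˣ) : A) := by
      rw [sub_mul, sub_mul, mul_assoc (h : A), Units.mul_inv, mul_one, Units.mul_inv]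
      simp only [Units.val_mul]
    rw [e]
    exact key2 _ _ (key2 _ _ (key g h g1 h1) (h0 _ _ g2)) (h0 _ _ h2)
  · have e : (((g * h * g⁻¹ * h⁻¹)⁻¹ : Aˣ) : A) - 1 =
        -((g : A) * h - h * g) * ((h⁻¹ : Aˣ) : A) * ((g⁻¹ : Aˣ) : A) := by
      have e1 : (g * h * g⁻¹ * h⁻¹)⁻¹ = h * g * h⁻¹ * g⁻¹ := by group
      rw [e1, neg_sub, sub_mul, sub_mul, mul_assoc (g : A), Units.mul_inv, mul_one, Units.mul_inv]
      simp only [Units.val_mul]
    rw [e]
    exact key2 _ _ (key2 _ _ (Submodule.neg_mem _ (key g h g1 h1)) (h0 _ _ h2)) (h0 _ _ g2)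

/-- the group generated by the two families `1 + c s`, `1 + c t` -/
def gen (k : Type*) [Field k] [Algebra k A] (s t : A) : Subgroup Aˣ :=
  Subgroup.closure ({g | ∃ c : k, (g : A) = 1 + c • s} ∪ {g | ∃ c : k, (g : A) = 1 + c • t})

lemma inv_of_sq {y : A} (hy : y * y = 0) {g : Aˣ} (hg : (g : A) = 1 + y) :
    ((g⁻¹ : Aˣ) : A) = 1 - y := by
  rw [← mul_one ((g⁻¹ : Aˣ) : A)]
  have : (1 : A) = (g : A) * (1 - y) := by rw [hg, add_mul, one_mul, mul_sub, mul_one, hy]; abel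
  conv_lhs => rw [this]
  rw [← mul_assoc, Units.inv_mul, one_mul]

lemma gen_le_UF {s t : A} (hs : s * s = 0) (ht : t * t = 0) : gen k s t ≤ UF k s t 1 := by
  have hsF : s ∈ F k s t 1 := by
    have := V_pow_le_F (k := k) s t 1
    rw [pow_one] at this; exact this (s_mem_V s t)
  have htF : t ∈ F k s t 1 := by
    have := V_pow_le_F (k := k) s t 1
    rw [pow_one] at this; exact this (t_mem_V s t)
  unfold gen
  rw [Subgroup.closure_le]
  rintro g (⟨c, hc⟩ | ⟨c, hc⟩)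
  · have h0 : (c • s) * (c • s) = 0 := by rw [smul_mul_smul_comm, hs, smul_zero]
    refine mem_UF.2 ⟨?_, ?_⟩
    · rw [hc, add_sub_cancel_left]; exact Submodule.smul_mem _ _ hsF
    · rw [inv_of_sq h0 hc, sub_sub_cancel_left]
      exact Submodule.neg_mem _ (Submodule.smul_mem _ _ hsF)
  · have h0 : (c • t) * (c • t) = 0 := by rw [smul_mul_smul_comm, ht, smul_zero]
    refine mem_UF.2 ⟨?_, ?_⟩
    · rw [hc, add_sub_cancel_left]; exact Submodule.smul_mem _ _ htF
    · rw [inv_of_sq h0 hc, sub_sub_cancel_left]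
      exact Submodule.neg_mem _ (Submodule.smul_mem _ _ htF)

lemma lcs_gen_le {s t : A} (hs : s * s = 0) (ht : t * t = 0) (n : ℕ) :
    lcs (gen k s t) n ≤ UF k s t (n + 1) := by
  induction n with
  | zero => exact gen_le_UF hs ht
  | succ n ih =>
    rw [lcs_succ, Subgroup.commutator_le]
    intro a ha b hb
    exact UF_comm (ih ha) (gen_le_UF hs ht hb)

lemma lcs_gen_eq_bot {s t : A} (hs : s * s = 0) (ht : t * t = 0) {n : ℕ}
    (hV : (V k s t) ^ (n + 1) = ⊥) : lcs (gen k s t) n = ⊥ := by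
  rw [eq_bot_iff]
  intro g hg
  obtain ⟨h1, _⟩ := mem_UF.1 (lcs_gen_le hs ht n hg)
  have hF : F k s t (n + 1) = ⊥ := by
    unfold F
    rw [hV, Submodule.bot_mul]
  rw [hF, Submodule.mem_bot, sub_eq_zero] at h1
  rw [Subgroup.mem_bot]
  exact Units.ext h1

end nilp

section rep

variable {k : Type*} [Field k] {R : Type*} [CommRing R] [Algebra k R] {A : Type*} [Ring A]
  [Algebra k A]

/-- a pair `s, t` of square zero elements with `s t + t s = ι z`, `z` a unit -/
structure Rep (ι : R →ₐ[k] A) (z : Rˣ) (s t : A) : Prop where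
  cs : ∀ r, ι r * s = s * ι r
  ct : ∀ r, ι r * t = t * ι r
  hs : s * s = 0
  ht : t * t = 0
  hz : s * t + t * s = ι z

namespace Rep

variable {ι : R →ₐ[k] A} {z : Rˣ} {s t : A} (h : Rep ι z s t)

include h

lemma sts : s * t * s = ι z * s := by
  rw [← h.hz, add_mul, mul_assoc t, h.hs, mul_zero, add_zero]

lemma tst : t * s * t = ι z * t := by
  rw [← h.hz, add_mul, mul_assoc s, h.ht, mul_zero, zero_add]

omit h in
lemma wz : ι ((z⁻¹ : Rˣ) : R) * ι (z : R) = 1 := by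
  rw [← map_mul, Units.inv_mul, map_one]

omit h in
/-- the matrix unit `e₁₁` -/
def e11 (ι : R →ₐ[k] A) (z : Rˣ) (s t : A) : A := ι ((z⁻¹ : Rˣ) : R) * (s * t)
omit h in
/-- the matrix unit `e₂₁` -/
def e21 (ι : R →ₐ[k] A) (z : Rˣ) (t : A) : A := ι ((z⁻¹ : Rˣ) : R) * t

lemma c11 (r : R) : ι r * e11 ι z s t = e11 ι z s t * ι r := by
  unfold e11
  rw [← mul_assoc, ← map_mul, mul_comm r, map_mul, mul_assoc, ← mul_assoc (ι r), h.cs,
    mul_assoc s, h.ct]
  simp only [mul_assoc]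

lemma c21 (r : R) : ι r * e21 ι z t = e21 ι z t * ι r := by
  unfold e21
  rw [← mul_assoc, ← map_mul, mul_comm r, map_mul, mul_assoc, h.ct]
  simp only [mul_assoc]

lemma c22 (r : R) : ι r * e11 ι z t s = e11 ι z t s * ι r := by
  unfold e11
  rw [← mul_assoc, ← map_mul, mul_comm r, map_mul, mul_assoc, ← mul_assoc (ι r), h.ct,
    mul_assoc t, h.cs]
  simp only [mul_assoc]

omit h in
lemma ww (x : A) : ι ((z⁻¹ : Rˣ) : R) * ι ((z⁻¹ : Rˣ) : R) * (ι (z : R) * x) =
    ι ((z⁻¹ : Rˣ) : R) * x := by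
  rw [← mul_assoc, mul_assoc (ι ((z⁻¹ : Rˣ) : R)) (ι ((z⁻¹ : Rˣ) : R)), wz, mul_one]

omit h in
lemma mulw {r : R} {x y : A} (hx : ι r * x = x * ι r) :
    (ι r * x) * (ι r * y) = ι r * ι r * (x * y) := by
  rw [hx, mul_assoc, ← mul_assoc (ι r) (ι r) y, ← mul_assoc x, ← mul_assoc x, ← hx]
  rw [mul_assoc (ι r) x, ← hx]
  simp only [mul_assoc]

lemma cst (r : R) : ι r * (s * t) = s * t * ι r := by
  rw [← mul_assoc, h.cs, mul_assoc, h.ct, mul_assoc]

lemma cts (r : R) : ι r * (t * s) = t * s * ι r := by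
  rw [← mul_assoc, h.ct, mul_assoc, h.cs, mul_assoc]

lemma p11_11 : e11 ι z s t * e11 ι z s t = e11 ι z s t := by
  unfold e11
  rw [mulw (h.cst _), ← mul_assoc (s * t), h.sts, mul_assoc (ι (z : R)), ww]

lemma p11_12 : e11 ι z s t * s = s := by
  unfold e11
  rw [mul_assoc, h.sts, ← mul_assoc, wz, one_mul]

lemma p11_21 : e11 ι z s t * e21 ι z t = 0 := by
  unfold e11 e21
  rw [mulw (h.cst _), mul_assoc s, h.ht, mul_zero, mul_zero]

lemma p11_22 : e11 ι z s t * e11 ι z t s = 0 := by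
  unfold e11
  rw [mulw (h.cst _), mul_assoc s, ← mul_assoc t, h.ht, zero_mul, mul_zero, mul_zero]

lemma p12_11 : s * e11 ι z s t = 0 := by
  unfold e11
  rw [← mul_assoc, ← h.cs, mul_assoc, ← mul_assoc s, h.hs, zero_mul, mul_zero]

lemma p12_21 : s * e21 ι z t = e11 ι z s t := by
  unfold e11 e21
  rw [← mul_assoc, ← h.cs, mul_assoc]

lemma p12_22 : s * e11 ι z t s = s := by
  unfold e11
  rw [← mul_assoc, ← h.cs, mul_assoc, ← mul_assoc s, h.sts, ← mul_assoc, wz, one_mul]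

lemma p21_11 : e21 ι z t * e11 ι z s t = e21 ι z t := by
  unfold e11 e21
  rw [mulw (h.ct _), ← mul_assoc t, h.tst, ww]

omit h in
lemma p21_12 : e21 ι z t * s = e11 ι z t s := by
  unfold e11 e21
  rw [mul_assoc]

lemma p21_21 : e21 ι z t * e21 ι z t = 0 := by
  unfold e21
  rw [mulw (h.ct _), h.ht, mul_zero]

lemma p21_22 : e21 ι z t * e11 ι z t s = 0 := by
  unfold e21 e11
  rw [mulw (h.ct _), ← mul_assoc t, h.ht, zero_mul, mul_zero]

lemma p22_11 : e11 ι z t s * e11 ι z s t = 0 := by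
  unfold e11
  rw [mulw (h.cts _), mul_assoc t, ← mul_assoc s, h.hs, zero_mul, mul_zero, mul_zero]

lemma p22_12 : e11 ι z t s * s = 0 := by
  unfold e11
  rw [mul_assoc, mul_assoc, h.hs, mul_zero, mul_zero]

lemma p22_21 : e11 ι z t s * e21 ι z t = e21 ι z t := by
  unfold e11 e21
  rw [mulw (h.cts _), h.tst, ww]

lemma p22_22 : e11 ι z t s * e11 ι z t s = e11 ι z t s := by
  unfold e11
  rw [mulw (h.cts _), ← mul_assoc (t * s), h.tst, mul_assoc (ι (z : R)), ww]

lemma p_one : e11 ι z s t + e11 ι z t s = 1 := by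
  unfold e11
  rw [← mul_add, h.hz, wz]

omit h in
/-- the linear combination of the matrix units -/
def lin (ι : R →ₐ[k] A) (z : Rˣ) (s t : A) (a b c d : R) : A :=
  ι a * e11 ι z s t + ι b * s + ι c * e21 ι z t + ι d * e11 ι z t s

omit h in
lemma term {a b : R} {x y : A} (hx : ι b * x = x * ι b) :
    (ι a * x) * (ι b * y) = ι (a * b) * (x * y) := by
  rw [mul_assoc, ← mul_assoc x, ← hx, map_mul]
  simp only [mul_assoc]

lemma lin_mul (a b c d a' b' c' d' : R) :
    lin ι z s t a b c d * lin ι z s t a' b' c' d' =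
      lin ι z s t (a * a' + b * c') (a * b' + b * d') (c * a' + d * c') (c * b' + d * d') := by
  unfold lin
  simp only [mul_add, add_mul, term (h.c11 _), term (h.cs _), term (h.c21 _), term (h.c22 _),
    h.p11_11, h.p11_12, h.p11_21, h.p11_22, h.p12_11, h.hs, h.p12_21, h.p12_22, h.p21_11,
    p21_12, h.p21_21, h.p21_22, h.p22_11, h.p22_12, h.p22_21, h.p22_22, mul_zero, map_add]
  abel

lemma lin_one : lin ι z s t 1 0 0 1 = 1 := by
  unfold lin
  rw [map_one, map_zero, one_mul, one_mul, zero_mul, zero_mul, add_zero, add_zero, h.p_one]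

/-- the homomorphism `SL₂(R) → A`-/
def toM : SpecialLinearGroup (Fin 2) R →* A where
  toFun g := lin ι z s t (g.1 0 0) (g.1 0 1) (g.1 1 0) (g.1 1 1)
  map_one' := by rw [one_00, one_01, one_10, one_11, h.lin_one]
  map_mul' g g' := by rw [mul_00, mul_01, mul_10, mul_11, h.lin_mul]

/-- the homomorphism `SL₂(R) → Aˣ`-/
def phi : SpecialLinearGroup (Fin 2) R →* Aˣ := h.toM.toHomUnits

lemma phi_coe (g : SpecialLinearGroup (Fin 2) R) :
    ((h.phi g : Aˣ) : A) = lin ι z s t (g.1 0 0) (g.1 0 1) (g.1 1 0) (g.1 1 1) := rfl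

lemma phi_X (r : R) : ((h.phi (X r) : Aˣ) : A) = 1 + ι r * s := by
  rw [phi_coe, X_00, X_01, X_10, X_11]
  unfold lin
  rw [map_one, map_zero, one_mul, one_mul, zero_mul, add_zero, ← h.p_one]
  abel

lemma phi_Y (r : R) : ((h.phi (Y r) : Aˣ) : A) = 1 + ι r * ι ((z⁻¹ : Rˣ) : R) * t := by
  rw [phi_coe, Y_00, Y_01, Y_10, Y_11]
  unfold lin
  rw [map_one, map_zero, one_mul, one_mul, zero_mul, add_zero, ← h.p_one, e21, mul_assoc]
  abel

lemma map_grp : (grp k (z : R)).map h.phi = gen k s t := by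
  have e1 : ∀ c : k, ((h.phi (X (algebraMap k R c)) : Aˣ) : A) = 1 + c • s := by
    intro c
    rw [phi_X, AlgHom.commutes, Algebra.smul_def]
  have e2 : ∀ c : k, ((h.phi (Y (algebraMap k R c * z)) : Aˣ) : A) = 1 + c • t := by
    intro c
    rw [phi_Y, ← map_mul, mul_assoc, Units.mul_inv, mul_one, AlgHom.commutes, Algebra.smul_def]
  unfold grp gen
  rw [MonoidHom.map_closure]
  congr 1
  ext g
  constructor
  · rintro ⟨x, (⟨c, rfl⟩ | ⟨c, rfl⟩), rfl⟩
    · exact Or.inl ⟨c, e1 c⟩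
    · exact Or.inr ⟨c, e2 c⟩
  · rintro (⟨c, hc⟩ | ⟨c, hc⟩)
    · exact ⟨_, Or.inl ⟨c, rfl⟩, Units.ext (by rw [e1, hc])⟩
    · exact ⟨_, Or.inr ⟨c, rfl⟩, Units.ext (by rw [e2, hc])⟩

lemma e11_zero (hι : Function.Injective ι) {x : R} (hx : ι x * e11 ι z s t = 0) : x = 0 := by
  have h1 : ι x * e11 ι z t s = 0 := by
    have e : ι x * e11 ι z t s = e21 ι z t * (ι x * e11 ι z s t) * s := by
      rw [← mul_assoc, ← h.c21, mul_assoc (ι x), h.p21_11, mul_assoc, p21_12]
    rw [e, hx, mul_zero, zero_mul]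
  have h2 : ι x = 0 := by
    rw [← mul_one (ι x), ← h.p_one, mul_add, hx, h1, add_zero]
  exact (map_eq_zero_iff ι hι).1 h2

lemma lin_zero (hι : Function.Injective ι) {a b c d : R} (h0 : lin ι z s t a b c d = 0) :
    a = 0 ∧ b = 0 ∧ c = 0 ∧ d = 0 := by
  have key : ∀ a' b' c' d' a'' b'' c'' d'' : R,
      lin ι z s t a' b' c' d' * lin ι z s t a b c d * lin ι z s t a'' b'' c'' d'' = 0 := by
    intros; rw [h0, mul_zero, zero_mul]
  have fin : ∀ x : R, lin ι z s t x 0 0 0 = 0 → x = 0 := by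
    intro x hx
    apply h.e11_zero hι
    unfold lin at hx
    rw [map_zero, zero_mul, zero_mul, zero_mul, add_zero, add_zero, add_zero] at hx
    exact hx
  refine ⟨?_, ?_, ?_, ?_⟩
  · have := key 1 0 0 0 1 0 0 0
    rw [h.lin_mul, h.lin_mul] at this
    apply fin
    convert this using 2 <;> ring
  · have := key 1 0 0 0 0 0 1 0
    rw [h.lin_mul, h.lin_mul] at this
    apply fin
    convert this using 2 <;> ring
  · have := key 0 1 0 0 1 0 0 0
    rw [h.lin_mul, h.lin_mul] at this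
    apply fin
    convert this using 2 <;> ring
  · have := key 0 1 0 0 0 0 1 0
    rw [h.lin_mul, h.lin_mul] at this
    apply fin
    convert this using 2 <;> ring

omit h in
lemma lin_sub (a b c d a' b' c' d' : R) :
    lin ι z s t a b c d - lin ι z s t a' b' c' d' =
      lin ι z s t (a - a') (b - b') (c - c') (d - d') := by
  unfold lin
  simp only [map_sub, sub_mul]
  abel

lemma phi_inj (hι : Function.Injective ι) : Function.Injective h.phi := by
  intro g g' hg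
  have h1 := congrArg (fun x : Aˣ => (x : A)) hg
  simp only [phi_coe] at h1
  rw [← sub_eq_zero, lin_sub] at h1
  obtain ⟨a, b, c, d⟩ := h.lin_zero hι h1
  exact sl_ext (sub_eq_zero.1 a) (sub_eq_zero.1 b) (sub_eq_zero.1 c) (sub_eq_zero.1 d)

end Rep

end rep

end Cfsg.Agent.Lib.QuadPairN1
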