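import Cfsg.Agent.Lib.SL2Normal
set_option autoImplicit false
set_option linter.unusedSimpArgs false

/-!
# The field criterion: if all nonzero `r` with `X(r) ∈ ⟨X(k), Y(kz)⟩` are units, `k[z]` is a field
(helper84)
-/

namespace Cfsg.Agent.Lib.SL2Field
open Subgroup Matrix
open Cfsg.Agent.Lib.SL2Ring Cfsg.Agent.Lib.SL2Gen Cfsg.Agent.Lib.SL2LemmaL Cfsg.Agent.Lib.SL2Star
open Cfsg.Agent.Lib.SL2Normal

universe u v

variable {k : Type u} [Field k] {R : Type v} [CommRing R] [Algebra k R]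

lemma wt_eq {S : Type*} [CommRing S] {t t' : S} (h : t * t' = 1) :
    X t * Y (-t') * X t = mk4 0 t (-t') 0 (by linear_combination h) := by
  apply sl_ext
  · simp; linear_combination -h
  · simp; linear_combination -t * h
  · simp
  · simp; linear_combination -h

lemma wt_X {S : Type*} [CommRing S] {t t' : S} (h : t * t' = 1) :
    (X t * Y (-t') * X t) * X 1 * (X t * Y (-t') * X t)⁻¹ = Y (-(t' * t')) := by
  rw [wt_eq h]
  apply sl_ext
  · simp; linear_combination h
  · simp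
  · simp
  · simp; linear_combination h

lemma wt_Y {S : Type*} [CommRing S] {t t' : S} (h : t * t' = 1) :
    (X t * Y (-t') * X t) * Y 1 * (X t * Y (-t') * X t)⁻¹ = X (-(t * t)) := by
  rw [wt_eq h]
  apply sl_ext
  · simp; linear_combination h
  · simp
  · simp
  · simp; linear_combination h

lemma X_smul_mem {z : R} {r : R} (hr : X r ∈ grp k z) (c : k) :
    X (algebraMap k R c * r) ∈ grp k z := by
  by_cases hc : c = 0
  · rw [hc, map_zero, zero_mul, X_zero]; exact Subgroup.one_mem _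
  · have := scl_mem_grp z c hc hr
    rwa [scl_X, sc_coe] at this

lemma Y_iff (z : Rˣ) (r : R) : Y ((z : R) * r) ∈ grp k (z : R) ↔ X r ∈ grp k (z : R) := by
  constructor
  · intro h
    have := swp_mem_grp z h
    rw [swp_Y] at this
    rwa [← mul_assoc, Units.inv_mul, one_mul] at this
  · intro h
    have := swp_mem_grp z h
    rwa [swp_X] at this

/-- **(★★)** the field criterion -/
theorem top_of_units [FiniteDimensional k R] [Nontrivial R] (h20 : (2 : k) ≠ 0)
    (hk3 : Nat.card k ≠ 3) (z : Rˣ) (hgen : Algebra.adjoin k {(z : R)} = ⊤)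
    (hu : ∀ r : R, X r ∈ grp k (z : R) → r ≠ 0 → IsUnit r) :
    ∀ r : R, X r ∈ grp k (z : R) := by
  classical
  obtain ⟨m, hm⟩ := Ideal.exists_maximal R
  let _ := Ideal.Quotient.field m
  set H := grp k (z : R) with hH
  have hnotm : ∀ r : R, X r ∈ H → r ≠ 0 → r ∉ m := by
    intro r hr h0 hrm
    exact hm.ne_top (Ideal.eq_top_of_isUnit_mem m hrm (hu r hr h0))
  have hcen : ∀ n ∈ H, n ∈ cong m → ∀ h ∈ H, n * h = h * n := by
    have hnc : ¬ NonCen k (z : R) (H ⊓ cong m) := by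
      intro hnc
      obtain ⟨r, hr0, hr⟩ := exists_X_mem h20 hk3 z hgen (Γ := H ⊓ cong m) (by
        intro h hh g hg
        exact Subgroup.mem_inf.2 ⟨H.mul_mem (H.mul_mem hh (Subgroup.mem_inf.1 hg).1) (H.inv_mem hh),
          (inferInstance : (cong m).Normal).conj_mem g (Subgroup.mem_inf.1 hg).2 h⟩) hnc
      obtain ⟨h1, h2⟩ := Subgroup.mem_inf.1 hr
      apply hnotm r h1 hr0
      exact (mem_cong.1 h2).2.1
    intro n hn hnm
    exact not_nonCen hnc n (Subgroup.mem_inf.2 ⟨hn, hnm⟩)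
  have hcong : ∀ {g h : SpecialLinearGroup (Fin 2) R},
      SpecialLinearGroup.map (Ideal.Quotient.mk m) g = SpecialLinearGroup.map (Ideal.Quotient.mk m) h →
      g * h⁻¹ ∈ cong m := by
    intro g h e
    show g * h⁻¹ ∈ (SpecialLinearGroup.map (Ideal.Quotient.mk m)).ker
    rw [MonoidHom.mem_ker, map_mul, map_inv, e, mul_inv_cancel]
  -- `T` maps onto the residue field
  have hsurj : ∀ κ : R ⧸ m, ∃ t : R, X t ∈ H ∧ Ideal.Quotient.mk m t = κ := by
    intro κ
    obtain ⟨g, hg, e⟩ := surj_residue h20 hk3 z hgen m hm (X κ)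
    have hcomm : g * X 1 = X 1 * g := by
      apply commute_of_central h20 (z := z)
      · simp; norm_num
      · apply hcen
        · exact H.mul_mem (H.mul_mem (H.mul_mem hg (X_one_mem _)) (H.inv_mem hg))
            (H.inv_mem (X_one_mem _))
        · apply hcong
          rw [map_mul, map_mul, map_inv, e, map_X, map_one, ← X_add, ← X_neg, ← X_add]
          congr 1
          ring
    have h00 : Ideal.Quotient.mk m (g.1 0 0) = 1 :=
      congrArg (fun x : SpecialLinearGroup (Fin 2) (R ⧸ m) => x.1 0 0) e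
    have h01 : Ideal.Quotient.mk m (g.1 0 1) = κ :=
      congrArg (fun x : SpecialLinearGroup (Fin 2) (R ⧸ m) => x.1 0 1) e
    by_cases hb : g.1 0 1 = 0
    · refine ⟨0, ?_, ?_⟩
      · rw [X_zero]; exact H.one_mem
      · rw [hb, map_zero] at h01
        rw [map_zero]; exact h01
    · obtain ⟨h1, _⟩ := sq_eq_X h20 hcomm hb
      have h2 : X (2 * g.1 0 0 * g.1 0 1) ∈ H := by rw [← h1]; exact H.mul_mem hg hg
      refine ⟨algebraMap k R (2 : k)⁻¹ * (2 * g.1 0 0 * g.1 0 1), X_smul_mem h2 _, ?_⟩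
      have h3 : algebraMap k R (2 : k)⁻¹ * 2 = 1 := by
        have : (2 : R) = algebraMap k R 2 := (map_ofNat (algebraMap k R) 2).symm
        rw [this, ← map_mul, inv_mul_cancel₀ h20, map_one]
      have h4 : algebraMap k R (2 : k)⁻¹ * (2 * g.1 0 0 * g.1 0 1) = g.1 0 0 * g.1 0 1 := by
        linear_combination (g.1 0 0 * g.1 0 1) * h3
      rw [h4, map_mul, h00, h01, one_mul]
  have hsurjY : ∀ κ : R ⧸ m, ∃ t : R, X t ∈ H ∧ Ideal.Quotient.mk m ((z : R) * t) = κ := by
    intro κ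
    obtain ⟨t, ht, e⟩ := hsurj (Ideal.Quotient.mk m ((z⁻¹ : Rˣ) : R) * κ)
    refine ⟨t, ht, ?_⟩
    rw [map_mul, e, ← mul_assoc, ← map_mul, Units.mul_inv, map_one, one_mul]
  -- Claim A
  have claimA : ∀ t : R, X t ∈ H → t ≠ 0 → ∃ t' : R, X t' ∈ H ∧ t * ((z : R) * t') = 1 := by
    intro t ht ht0
    obtain ⟨tu, htu⟩ := hu t ht ht0
    obtain ⟨r, hr, er⟩ := hsurjY (Ideal.Quotient.mk m ((tu⁻¹ : Rˣ) : R))
    obtain ⟨s, hs, es⟩ := hsurjY (Ideal.Quotient.mk m (-((tu⁻¹ : Rˣ) : R) * ((tu⁻¹ : Rˣ) : R)))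
    refine ⟨r, hr, ?_⟩
    set r' := (z : R) * r with hr'
    set s' := (z : R) * s with hs'
    have hYr : Y r' ∈ H := (Y_iff z r).2 hr
    have hYs : Y s' ∈ H := (Y_iff z s).2 hs
    set u := X t * Y (-r') * X t with hu'
    have huH : u ∈ H := by
      rw [hu', Y_neg]
      exact H.mul_mem (H.mul_mem ht (H.inv_mem hYr)) ht
    have hmt : Ideal.Quotient.mk m t * Ideal.Quotient.mk m ((tu⁻¹ : Rˣ) : R) = 1 := by
      rw [← map_mul, ← htu, Units.mul_inv, map_one]
    set τ := Ideal.Quotient.mk m t with hτ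
    set τ' := Ideal.Quotient.mk m ((tu⁻¹ : Rˣ) : R) with hτ'
    set n := u * X 1 * u⁻¹ * (Y s')⁻¹ with hn
    have hnH : n ∈ H := H.mul_mem (H.mul_mem (H.mul_mem huH (X_one_mem _)) (H.inv_mem huH))
      (H.inv_mem hYs)
    have hmu : SpecialLinearGroup.map (Ideal.Quotient.mk m) u = X τ * Y (-τ') * X τ := by
      rw [hu', map_mul, map_mul, map_X, map_Y, map_neg, er]
    have hncong : n ∈ cong m := by
      apply hcong
      rw [map_mul, map_mul, map_inv, hmu, map_X, map_one, map_Y, es]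
      have e2 : Ideal.Quotient.mk m (-((tu⁻¹ : Rˣ) : R) * ((tu⁻¹ : Rˣ) : R)) = - (τ' * τ') := by
        rw [map_mul, map_neg]; ring
      rw [e2, wt_X hmt]
    obtain ⟨c01, c10, c00⟩ := central_scalar (fun h hh => hcen n hnH hncong h hh)
    have e : u * X 1 * u⁻¹ = n * Y s' := by rw [hn]; group
    have t1 : (u * X 1 * u⁻¹).1 0 0 + (u * X 1 * u⁻¹).1 1 1 = 2 := by
      have hd := det_eq u
      simp only [mul_00, mul_01, mul_10, mul_11, inv_00, inv_01, inv_10, inv_11, X_00, X_01, X_10,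
        X_11]
      linear_combination 2 * hd
    have t2 : (n * Y s').1 0 0 + (n * Y s').1 1 1 = n.1 0 0 * 2 := by
      simp only [mul_00, mul_01, mul_10, mul_11, c01, c10, ← c00, Y_00, Y_01, Y_10, Y_11]
      ring
    rw [e, t2] at t1
    have hn00 : n.1 0 0 = 1 := by
      obtain ⟨w, hw⟩ := two_unit (R := R) h20
      have := congrArg (fun x => x * ((w⁻¹ : Rˣ) : R)) t1
      rw [← hw] at this
      simpa [mul_assoc] using this
    have e00 := congrArg (fun x : SpecialLinearGroup (Fin 2) R => x.1 0 0) e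
    have u00 : u.1 0 0 = 1 - t * r' := by rw [hu']; simp; ring
    have u10 : u.1 1 0 = - r' := by rw [hu']; simp
    have u11 : u.1 1 1 = 1 - t * r' := by rw [hu']; simp; ring
    have hd := det_eq u
    simp only [mul_00, mul_01, mul_10, mul_11, inv_00, inv_01, inv_10, inv_11, X_00, X_01, X_10,
      X_11, Y_00, Y_01, Y_10, Y_11, c01, hn00] at e00
    have h5 : (1 - t * r') * r' = 0 := by
      rw [u00, u10, u11] at e00
      rw [u00, u10, u11] at hd
      linear_combination e00 - hd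
    have hr0 : r ≠ 0 := by
      intro h0
      rw [hr', h0, mul_zero, map_zero] at er
      rw [← er, mul_zero] at hmt
      exact zero_ne_one hmt
    obtain ⟨ru, hru⟩ := hu r hr hr0
    have h6 : (1 - t * r') * ((z : R) * (ru : R)) = 0 := by rw [hru]; exact h5
    have h7 : 1 - t * r' = 0 := by
      have := congrArg (fun x => x * ((ru⁻¹ : Rˣ) : R) * ((z⁻¹ : Rˣ) : R)) h6
      simp only [zero_mul] at this
      have e3 : (1 - t * r') * ((z : R) * (ru : R)) * ((ru⁻¹ : Rˣ) : R) * ((z⁻¹ : Rˣ) : R) =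
          1 - t * r' := by
        rw [mul_assoc, mul_assoc, mul_assoc, ← mul_assoc (ru : R), Units.mul_inv, one_mul,
          Units.mul_inv, mul_one]
      rwa [e3] at this
    linear_combination -h7
  have hX1 : X (1 : R) ∈ H := X_one_mem _
  obtain ⟨w, hw, hw1⟩ := claimA 1 hX1 one_ne_zero
  rw [one_mul] at hw1
  have hY1 : Y (1 : R) ∈ H := by rw [← hw1]; exact (Y_iff z w).2 hw
  -- squares
  have hsq : ∀ t : R, X t ∈ H → X (t * t) ∈ H := by
    intro t ht
    by_cases ht0 : t = 0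
    · rw [ht0, mul_zero]; rwa [ht0] at ht
    · obtain ⟨t', ht', e⟩ := claimA t ht ht0
      have hYt : Y ((z : R) * t') ∈ H := (Y_iff z t').2 ht'
      set τ := (z : R) * t' with hτ
      have hwH : X t * Y (-τ) * X t ∈ H := by
        rw [Y_neg]
        exact H.mul_mem (H.mul_mem ht (H.inv_mem hYt)) ht
      have h1 : (X t * Y (-τ) * X t) * Y 1 * (X t * Y (-τ) * X t)⁻¹ ∈ H :=
        H.mul_mem (H.mul_mem hwH hY1) (H.inv_mem hwH)
      have h2 : (X t * Y (-τ) * X t) * Y 1 * (X t * Y (-τ) * X t)⁻¹ = X (-(t * t)) := wt_Y e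
      rw [h2, X_neg] at h1
      exact (Subgroup.inv_mem_iff H).1 h1
  have hadd : ∀ s t : R, X s ∈ H → X t ∈ H → X (s + t) ∈ H := by
    intro s t hs ht
    rw [X_add]; exact H.mul_mem hs ht
  have hneg : ∀ s : R, X s ∈ H → X (-s) ∈ H := by
    intro s hs
    rw [X_neg]; exact H.inv_mem hs
  have hmul : ∀ s t : R, X s ∈ H → X t ∈ H → X (s * t) ∈ H := by
    intro s t hs ht
    have h1 := hadd _ _ (hadd _ _ (hsq _ (hadd s t hs ht)) (hneg _ (hsq s hs))) (hneg _ (hsq t ht))
    have h2 := X_smul_mem h1 (2 : k)⁻¹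
    have h3 : algebraMap k R (2 : k)⁻¹ * 2 = 1 := by
      have : (2 : R) = algebraMap k R 2 := (map_ofNat (algebraMap k R) 2).symm
      rw [this, ← map_mul, inv_mul_cancel₀ h20, map_one]
    have h4 : algebraMap k R (2 : k)⁻¹ * ((s + t) * (s + t) + -(s * s) + -(t * t)) = s * t := by
      linear_combination (s * t) * h3
    rwa [h4] at h2
  let A : Subalgebra k R :=
    { carrier := {r | X r ∈ H}
      mul_mem' := fun {a b} ha hb => hmul a b ha hb
      add_mem' := fun {a b} ha hb => hadd a b ha hb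
      algebraMap_mem' := fun c => X_mem_grp _ c }
  have hA : ∀ r, r ∈ A ↔ X r ∈ H := fun r => Iff.rfl
  -- `z ∈ A`
  have hw0 : w ≠ 0 := by
    rintro rfl
    rw [mul_zero] at hw1
    exact zero_ne_one hw1
  have hz : (z : R) ∈ A := by
    -- `w = z⁻¹ ∈ A`; apply Claim A to `w * w`
    have hww : w * w ≠ 0 := by
      intro h0
      have : (z : R) * w * ((z : R) * w) = 0 := by linear_combination (z : R) * (z : R) * h0
      rw [hw1, mul_one] at this
      exact one_ne_zero this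
    obtain ⟨t', ht', e⟩ := claimA (w * w) (hmul w w hw hw) hww
    have : t' = (z : R) := by
      linear_combination (z : R) * e - t' * (z * w + 1) * hw1
    rw [hA, ← this]
    exact ht'
  have htop : A = ⊤ := by
    rw [eq_top_iff, ← hgen]
    exact Algebra.adjoin_le (Set.singleton_subset_iff.2 hz)
  intro r
  rw [← hA, htop]
  exact Algebra.mem_top

theorem isField_of_units [FiniteDimensional k R] [Nontrivial R] (h20 : (2 : k) ≠ 0)
    (hk3 : Nat.card k ≠ 3) (z : Rˣ) (hgen : Algebra.adjoin k {(z : R)} = ⊤)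
    (hu : ∀ r : R, X r ∈ grp k (z : R) → r ≠ 0 → IsUnit r) : IsField R := by
  refine ⟨⟨0, 1, zero_ne_one⟩, mul_comm, ?_⟩
  intro a ha
  obtain ⟨u, hu⟩ := hu a (top_of_units h20 hk3 z hgen hu a) ha
  exact ⟨((u⁻¹ : Rˣ) : R), by rw [← hu, Units.mul_inv]⟩

end Cfsg.Agent.Lib.SL2Field
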