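import Cfsg.Agent.Lib.QuadPairN1
import Cfsg.Agent.Lib.SL2Field
set_option autoImplicit false

/-!
Non-unipotent pairs of minimal quadratic elements (owner: helper84).
-/

namespace Cfsg.Agent.Lib.QuadPairN2
open Subgroup Matrix Cfsg
open Cfsg.Agent.Lib.QuadPair
open Cfsg.Agent.Lib.QuadPairU
open Cfsg.Agent.Lib.QuadPairN1
open Cfsg.Agent.Lib.SL2Ring Cfsg.Agent.Lib.SL2Gen Cfsg.Agent.Lib.SL2LemmaL Cfsg.Agent.Lib.SL2Star
open Cfsg.Agent.Lib.SL2Normal Cfsg.Agent.Lib.SL2Field

universe u v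

variable {k : Type u} [Field k]

theorem exists_rep {W : Type v} [AddCommGroup W] [Module k W] [FiniteDimensional k W]
    {s t : Module.End k W} (hs : s * s = 0) (ht : t * t = 0)
    (hu : IsUnit (s * t + t * s)) : ∃ (R : Type v) (_ : CommRing R) (_ : Algebra k R)
      (_ : FiniteDimensional k R) (ι : R →ₐ[k] Module.End k W) (z : Rˣ),
      Function.Injective ι ∧ Rep ι z s t ∧ Algebra.adjoin k {(z : R)} = ⊤ := by
  set z0 := s * t + t * s with hz0
  have hcomm : ∀ a ∈ ({z0} : Set (Module.End k W)), ∀ b ∈ ({z0} : Set (Module.End k W)),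
      a * b = b * a := by
    intro a ha b hb
    rw [Set.mem_singleton_iff] at ha hb
    rw [ha, hb]
  let _ : CommRing (Algebra.adjoin k {z0}) :=
    { (Algebra.adjoin k {z0}).toRing with
      mul_comm := fun a b => by
        have := (Algebra.isMulCommutative_adjoin k hcomm).is_comm.comm a b
        exact this }
  have hfd : FiniteDimensional k (Algebra.adjoin k {z0}) := 
    FiniteDimensional.finiteDimensional_submodule (Subalgebra.toSubmodule (Algebra.adjoin k {z0}))
  let ι : (Algebra.adjoin k {z0}) →ₐ[k] Module.End k W := (Algebra.adjoin k {z0}).val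
  have hι : Function.Injective ι := Subtype.val_injective
  let z1 : Algebra.adjoin k {z0} := ⟨z0, Algebra.subset_adjoin rfl⟩
  have hz1 : ι z1 = z0 := rfl
  have hzu : IsUnit z1 := by
    have hinj : Function.Injective (LinearMap.mulLeft k z1) := by
      intro a b hab
      have h1 : z1 * a = z1 * b := hab
      have h2 : ι (z1 * a) = ι (z1 * b) := by rw [h1]
      rw [map_mul, map_mul, hz1] at h2
      exact hι (hu.mul_left_cancel h2)
    obtain ⟨w, hw⟩ := (LinearMap.injective_iff_surjective.1 hinj) 1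
    exact IsUnit.of_mul_eq_one w hw
  obtain ⟨z, hz⟩ := hzu
  have comm : ∀ x : Module.End k W, z0 * x = x * z0 → ∀ r, ι r * x = x * ι r := by
    intro x hx r
    have : Algebra.adjoin k {z0} ≤ Subalgebra.centralizer k {x} := by
      apply Algebra.adjoin_le
      intro y hy
      rw [Set.mem_singleton_iff] at hy
      rw [hy]
      intro w hw
      rw [Set.mem_singleton_iff] at hw
      rw [hw]; exact hx.symm
    exact ((this r.2) x rfl).symm
  refine ⟨Algebra.adjoin k {z0}, inferInstance, inferInstance, hfd, ι, z, hι, ⟨?_, ?_, hs, ht, ?_⟩, ?_⟩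
  · apply comm
    rw [hz0, add_mul, mul_add, ← mul_assoc s, hs, zero_mul, mul_assoc t, hs, mul_zero, mul_assoc]
    abel
  · apply comm
    rw [hz0, add_mul, mul_add, ← mul_assoc t, ← mul_assoc t, ht, zero_mul, mul_assoc s, ht, mul_zero]
    abel
  · rw [hz, hz1]
  · rw [hz]
    apply Subalgebra.map_injective (f := ι) hι
    rw [AlgHom.map_adjoin, Set.image_singleton, Algebra.map_top, hz1]
    exact (Subalgebra.range_val _).symm

/-! ### Block decomposition -/

section blk

variable {M : Type v} [AddCommGroup M] [Module k M] {p q : Submodule k M} (h : IsCompl p q)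

/-- block diagonal endomorphisms -/
noncomputable def blk : Module.End k p × Module.End k q →ₐ[k] Module.End k M :=
  (LinearEquiv.conjAlgEquiv k (Submodule.prodEquivOfIsCompl p q h)).toAlgHom.comp
    (LinearMap.prodMapAlgHom k p q)

lemma blk_apply (a : Module.End k p) (b : Module.End k q) (x : p) (y : q) :
    blk h (a, b) ((x : M) + (y : M)) = (a x : M) + (b y : M) := by
  have : blk h (a, b) = (Submodule.prodEquivOfIsCompl p q h).toLinearMap ∘ₗ (a.prodMap b) ∘ₗ
      (Submodule.prodEquivOfIsCompl p q h).symm.toLinearMap := rfl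
  rw [this]
  have e : (Submodule.prodEquivOfIsCompl p q h).symm ((x : M) + (y : M)) = (x, y) := by
    rw [LinearEquiv.symm_apply_eq]
    rfl
  show (Submodule.prodEquivOfIsCompl p q h) ((a.prodMap b)
    ((Submodule.prodEquivOfIsCompl p q h).symm ((x : M) + (y : M)))) = _
  rw [e]
  rfl

lemma exists_add (h : IsCompl p q) (m : M) : ∃ (x : p) (y : q), m = (x : M) + (y : M) := by
  have : m ∈ p ⊔ q := by rw [h.sup_eq_top]; trivial
  obtain ⟨x, hx, y, hy, e⟩ := Submodule.mem_sup.1 this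
  exact ⟨⟨x, hx⟩, ⟨y, hy⟩, e.symm⟩

lemma blk_restrict {f : Module.End k M} (hp : ∀ x ∈ p, f x ∈ p) (hq : ∀ x ∈ q, f x ∈ q) :
    blk h (f.restrict hp, f.restrict hq) = f := by
  ext m
  obtain ⟨x, y, rfl⟩ := exists_add h m
  rw [blk_apply, map_add]
  rfl

/-- block diagonal automorphisms -/
noncomputable def blkU : (Module.End k p)ˣ × (Module.End k q)ˣ →* (Module.End k M)ˣ :=
  (Units.map (blk h : Module.End k p × Module.End k q →* Module.End k M)).comp
    (MulEquiv.prodUnits : (Module.End k p × Module.End k q)ˣ ≃* _).symm.toMonoidHom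

lemma blkU_coe (a : (Module.End k p)ˣ) (b : (Module.End k q)ˣ) :
    ((blkU h (a, b) : (Module.End k M)ˣ) : Module.End k M) = blk h (a, b) := rfl

lemma blk_right (b : Module.End k q) (y : q) : blk h (0, b) (y : M) = (b y : M) := by
  have := blk_apply h (0 : Module.End k p) b 0 y
  simpa using this

lemma blk_right_zero {b : Module.End k q} (hb : blk h (0, b) = 0) : b = 0 := by
  ext y
  have := blk_right h b y
  rw [hb] at this
  rw [← this]; simp

lemma blk_right_mem (b : Module.End k q) (m : M) : blk h (0, b) m ∈ q := by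
  obtain ⟨x, y, rfl⟩ := exists_add h m
  rw [blk_apply]
  simp

lemma blk_mul (a a' : Module.End k p) (b b' : Module.End k q) :
    blk h (a, b) * blk h (a', b') = blk h (a * a', b * b') := by
  rw [← map_mul]; rfl

lemma gen_zero {A : Type*} [Ring A] [Algebra k A] : gen k (0 : A) 0 = ⊥ := by
  unfold gen
  rw [Subgroup.closure_eq_bot_iff]
  rintro g (⟨c, hc⟩ | ⟨c, hc⟩)
  · rw [smul_zero, add_zero] at hc
    exact Units.ext hc
  · rw [smul_zero, add_zero] at hc
    exact Units.ext hc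

lemma lift_mem {s0 t0 : Module.End k p} {s1 t1 : Module.End k q} (hs0 : s0 * s0 = 0)
    (ht0 : t0 * t0 = 0) {n : ℕ} (hl : lcs (gen k s0 t0) n = ⊥)
    {g : (Module.End k q)ˣ} (hg : g ∈ lcs (gen k s1 t1) n) :
    blkU h (1, g) ∈ gen k (blk h (s0, s1)) (blk h (t0, t1)) := by
  let S : Set ((Module.End k p)ˣ × (Module.End k q)ˣ) :=
    {x | ∃ c : k, (x.1 : Module.End k p) = 1 + c • s0 ∧ (x.2 : Module.End k q) = 1 + c • s1} ∪
    {x | ∃ c : k, (x.1 : Module.End k p) = 1 + c • t0 ∧ (x.2 : Module.End k q) = 1 + c • t1}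
  let H' := Subgroup.closure S
  have hfst : H'.map (MonoidHom.fst _ _) ≤ gen k s0 t0 := by
    rw [MonoidHom.map_closure]
    unfold gen
    rw [Subgroup.closure_le]
    rintro _ ⟨x, (⟨c, h1, h2⟩ | ⟨c, h1, h2⟩), rfl⟩
    · exact Subgroup.subset_closure (Or.inl ⟨c, h1⟩)
    · exact Subgroup.subset_closure (Or.inr ⟨c, h1⟩)
  have hsnd : gen k s1 t1 ≤ H'.map (MonoidHom.snd _ _) := by
    conv_lhs => unfold gen
    rw [Subgroup.closure_le]
    rintro g (⟨c, hc⟩ | ⟨c, hc⟩)
    · have h0 : (c • s0) * (c • s0) = 0 := by rw [smul_mul_smul_comm, hs0, smul_zero]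
      exact ⟨(un (c • s0) h0, g), Subgroup.subset_closure (Or.inl ⟨c, rfl, hc⟩), rfl⟩
    · have h0 : (c • t0) * (c • t0) = 0 := by rw [smul_mul_smul_comm, ht0, smul_zero]
      exact ⟨(un (c • t0) h0, g), Subgroup.subset_closure (Or.inr ⟨c, rfl, hc⟩), rfl⟩
  have hblk : H'.map (blkU h) ≤ gen k (blk h (s0, s1)) (blk h (t0, t1)) := by
    rw [MonoidHom.map_closure]
    unfold gen
    rw [Subgroup.closure_le]
    have key : ∀ (c : k) (a : Module.End k p) (b : Module.End k q),
        blk h (1 + c • a, 1 + c • b) = 1 + c • blk h (a, b) := by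
      intro c a b
      rw [← map_smul, ← map_one (blk h), ← map_add]; rfl
    rintro _ ⟨x, (⟨c, h1, h2⟩ | ⟨c, h1, h2⟩), rfl⟩
    · refine Subgroup.subset_closure (Or.inl ⟨c, ?_⟩)
      rw [← key, ← h1, ← h2]
      exact blkU_coe h x.1 x.2
    · refine Subgroup.subset_closure (Or.inr ⟨c, ?_⟩)
      rw [← key, ← h1, ← h2]
      exact blkU_coe h x.1 x.2
  have h1 := lcs_mono hsnd n hg
  rw [← map_lcs] at h1
  obtain ⟨x, hx, hxg⟩ := h1
  have h2 : x.1 ∈ lcs (gen k s0 t0) n := by
    apply lcs_mono hfst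
    rw [← map_lcs]
    exact ⟨x, hx, rfl⟩
  rw [hl, Subgroup.mem_bot] at h2
  have h3 : x = (1, g) := Prod.ext h2 hxg
  apply hblk
  exact ⟨x, lcs_le _ _ hx, by rw [h3]⟩

end blk

/-! ### Noncentrality of the lower central series -/

section nonc

variable {R : Type v} [CommRing R] [Algebra k R]

lemma perfect_sl2 {K : Type*} [Field K] {c : K} (hc0 : c ≠ 0) (hc1 : c ^ 2 ≠ 1) :
    ⁅(⊤ : Subgroup (SpecialLinearGroup (Fin 2) K)), (⊤ : Subgroup (SpecialLinearGroup (Fin 2) K))⁆ = ⊤ := by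
  let dg : SpecialLinearGroup (Fin 2) K := mk4 c 0 0 c⁻¹ (by
    rw [mul_inv_cancel₀ hc0]; ring)
  have hk : c * c⁻¹ = 1 := mul_inv_cancel₀ hc0
  have hc1' : c ^ 2 - 1 ≠ 0 := sub_ne_zero.2 hc1
  set D := ⁅(⊤ : Subgroup (SpecialLinearGroup (Fin 2) K)), (⊤ : Subgroup (SpecialLinearGroup (Fin 2) K))⁆
  have hX : ∀ r : K, X r ∈ D := by
    intro r
    have e1 : dg * X (r / (c ^ 2 - 1)) * dg⁻¹ * (X (r / (c ^ 2 - 1)))⁻¹ = X r := by
      have e2 : r = (c ^ 2 - 1) * (r / (c ^ 2 - 1)) := by field_simp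
      generalize r / (c ^ 2 - 1) = y at *
      rw [e2]
      apply sl_ext
      · simp [dg]; rw [hk]
      · simp [dg]; linear_combination (-y) * hk
      · simp [dg]
      · simp [dg]; rw [mul_comm]; exact hk
    rw [← e1]
    exact Subgroup.commutator_mem_commutator (Subgroup.mem_top _) (Subgroup.mem_top _)
  have hY : ∀ r : K, Y r ∈ D := by
    intro r
    have e3 : swp (1 : Kˣ) (X r) = Y r := by rw [swp_X]; simp
    have h1 : D.map (swp (1 : Kˣ)) ≤ D := by
      rw [Subgroup.map_commutator]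
      exact Subgroup.commutator_mono le_top le_top
    rw [← e3]
    exact h1 ⟨_, hX r, rfl⟩
  exact eq_top_of_X_Y hX hY

/-- the lower central series of `⟨X(k), Y(k z)⟩` is never central -/
lemma lcs_nonCen [FiniteDimensional k R] [Nontrivial R] (h20 : (2 : k) ≠ 0)
    (hk3 : Nat.card k ≠ 3) (z : Rˣ) (hgen : Algebra.adjoin k {(z : R)} = ⊤) (n : ℕ) :
    NonCen k (z : R) (lcs (grp k (z : R)) n) := by
  obtain ⟨m, hm⟩ := Ideal.exists_maximal R
  let _ := Ideal.Quotient.field m
  obtain ⟨c, hc0, hc1⟩ := exists_sq_ne_one (k := k) h20 hk3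
  have hκ0 : algebraMap k (R ⧸ m) c ≠ 0 := (map_ne_zero (algebraMap k (R ⧸ m))).2 hc0
  have hκ1 : (algebraMap k (R ⧸ m) c) ^ 2 ≠ 1 := by
    intro h
    apply hc1
    rw [← map_pow, ← map_one (algebraMap k (R ⧸ m))] at h
    exact (algebraMap k (R ⧸ m)).injective h
  have hmap : (grp k (z : R)).map (SpecialLinearGroup.map (Ideal.Quotient.mk m)) = ⊤ := by
    rw [eq_top_iff]
    intro x _
    obtain ⟨g, hg, e⟩ := surj_residue h20 hk3 z hgen m hm x
    exact ⟨g, hg, e⟩
  have htop : (lcs (grp k (z : R)) n).map (SpecialLinearGroup.map (Ideal.Quotient.mk m)) = ⊤ := by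
    rw [map_lcs, hmap, lcs_of_perfect (perfect_sl2 hκ0 hκ1)]
  have h1 : X (1 : R ⧸ m) ∈ (lcs (grp k (z : R)) n).map (SpecialLinearGroup.map (Ideal.Quotient.mk m)) := by
    rw [htop]; exact Subgroup.mem_top _
  obtain ⟨g, hg, eg⟩ := h1
  obtain ⟨g', hg', eg'⟩ := surj_residue h20 hk3 z hgen m hm (Y 1)
  refine ⟨g, hg, g', hg', ?_⟩
  intro hcomm
  have h2 := congrArg (SpecialLinearGroup.map (Ideal.Quotient.mk m)) hcomm
  rw [map_mul, map_mul, eg', eg] at h2
  have h3 := congrArg (fun x : SpecialLinearGroup (Fin 2) (R ⧸ m) => x.1 0 0) h2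
  simp at h3

end nonc

/-! ### The core -/

section core

variable {M : Type v} [AddCommGroup M] [Module k M] [FiniteDimensional k M]
  {p q : Submodule k M} (h : IsCompl p q)
  {R : Type v} [CommRing R] [Algebra k R] {ι : R →ₐ[k] Module.End k q} {z : Rˣ}
  {s0 t0 : Module.End k p} {s1 t1 : Module.End k q}
  {G : Subgroup (LinearMap.GeneralLinearGroup k M)}

omit [FiniteDimensional k M] in
lemma gen_le {s t : Module.End k M} (hs : Fam G s) (ht : Fam G t) : gen k s t ≤ G := by
  unfold gen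
  rw [Subgroup.closure_le]
  rintro g (⟨c, hc⟩ | ⟨c, hc⟩)
  · obtain ⟨g', hg', e⟩ := hs.has c
    have : g = g' := Units.ext (by rw [hc, e])
    rw [this]; exact hg'
  · obtain ⟨g', hg', e⟩ := ht.has c
    have : g = g' := Units.ext (by rw [hc, e])
    rw [this]; exact hg'

omit [FiniteDimensional k M] in
lemma has_of_lcs (rep : Rep ι z s1 t1) (hs0 : s0 * s0 = 0)
    (ht0 : t0 * t0 = 0) {n : ℕ} (hl : lcs (gen k s0 t0) n = ⊥)
    (hG : gen k (blk h (s0, s1)) (blk h (t0, t1)) ≤ G)
    {x : SpecialLinearGroup (Fin 2) R} (hx : x ∈ lcs (grp k (z : R)) n)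
    {y : Module.End k q} (hy : ((rep.phi x : (Module.End k q)ˣ) : Module.End k q) = 1 + y) :
    Has G (blk h (0, y)) := by
  have h1 : rep.phi x ∈ lcs (gen k s1 t1) n := by
    rw [← rep.map_grp, ← map_lcs]
    exact ⟨x, hx, rfl⟩
  refine ⟨_, hG (lift_mem h hs0 ht0 hl h1), ?_⟩
  show blk h (_, _) = _
  rw [hy, ← map_one (blk h), ← map_add]
  congr 1
  ext <;> simp

omit [FiniteDimensional k M] in
lemma scl_mem_lcs {n : ℕ} {c : k} (hc : c ≠ 0) {x : SpecialLinearGroup (Fin 2) R}
    (hx : x ∈ lcs (grp k (z : R)) n) : scl (sc R c hc) x ∈ lcs (grp k (z : R)) n := by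
  have h1 : scl (sc R c hc) x ∈ (lcs (grp k (z : R)) n).map (scl (sc R c hc)) := ⟨x, hx, rfl⟩
  rw [map_lcs] at h1
  refine lcs_mono ?_ n h1
  rintro _ ⟨y, hy, rfl⟩
  exact scl_mem_grp _ c hc hy

omit [FiniteDimensional k M] in
lemma swp_mem_lcs {n : ℕ} {x : SpecialLinearGroup (Fin 2) R}
    (hx : x ∈ lcs (grp k (z : R)) n) : swp z x ∈ lcs (grp k (z : R)) n := by
  have h1 : swp z x ∈ (lcs (grp k (z : R)) n).map (swp z) := ⟨x, hx, rfl⟩
  rw [map_lcs] at h1
  refine lcs_mono ?_ n h1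
  rintro _ ⟨y, hy, rfl⟩
  exact swp_mem_grp _ hy

omit [FiniteDimensional k M] in
/-- `X(r)` in the lower central series gives a family with vector `(0, ι r s₁)` -/
lemma fam_X (rep : Rep ι z s1 t1) (hs0 : s0 * s0 = 0)
    (ht0 : t0 * t0 = 0) {n : ℕ} (hl : lcs (gen k s0 t0) n = ⊥)
    (hG : gen k (blk h (s0, s1)) (blk h (t0, t1)) ≤ G) {r : R}
    (hr : X r ∈ lcs (grp k (z : R)) n) : Fam G (blk h (0, ι r * s1)) where
  sq := by
    rw [blk_mul, mul_zero, rep.cs r, mul_assoc, ← mul_assoc (ι r), rep.cs r, mul_assoc s1,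
      ← mul_assoc s1 s1, rep.hs, zero_mul]
    exact map_zero (blk h)
  has := by
    intro c
    by_cases hc : c = 0
    · rw [hc, zero_smul]; exact has_zero G
    · have h1 := scl_mem_lcs hc hr
      rw [scl_X, sc_coe] at h1
      have h2 := has_of_lcs h rep hs0 ht0 hl hG h1 (rep.phi_X _)
      have e : c • blk h (0, ι r * s1) = blk h (0, ι (algebraMap k R c * r) * s1) := by
        rw [← map_smul]
        congr 1
        ext
        · simp
        · rw [map_mul, AlgHom.commutes]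
          simp [Algebra.smul_def]
      rw [e]; exact h2

omit [FiniteDimensional k M] in
lemma fam_Y (rep : Rep ι z s1 t1) (hs0 : s0 * s0 = 0)
    (ht0 : t0 * t0 = 0) {n : ℕ} (hl : lcs (gen k s0 t0) n = ⊥)
    (hG : gen k (blk h (s0, s1)) (blk h (t0, t1)) ≤ G) {r : R}
    (hr : X r ∈ lcs (grp k (z : R)) n) : Fam G (blk h (0, ι r * t1)) where
  sq := by
    rw [blk_mul, mul_zero, rep.ct r, mul_assoc, ← mul_assoc (ι r), rep.ct r, mul_assoc t1,
      ← mul_assoc t1 t1, rep.ht, zero_mul]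
    exact map_zero (blk h)
  has := by
    intro c
    by_cases hc : c = 0
    · rw [hc, zero_smul]; exact has_zero G
    · have h1 := swp_mem_lcs (scl_mem_lcs hc hr)
      rw [scl_X, sc_coe, swp_X] at h1
      have hy : ((rep.phi (Y ((z : R) * (algebraMap k R c * r))) : (Module.End k q)ˣ) :
          Module.End k q) = 1 + ι (algebraMap k R c * r) * t1 := by
        rw [rep.phi_Y, ← map_mul]
        congr 3
        rw [mul_comm (z : R), mul_assoc, Units.mul_inv, mul_one]
      have h2 := has_of_lcs h rep hs0 ht0 hl hG h1 hy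
      have e : c • blk h (0, ι r * t1) = blk h (0, ι (algebraMap k R c * r) * t1) := by
        rw [← map_smul]
        congr 1
        ext
        · simp
        · rw [map_mul, AlgHom.commutes]
          simp [Algebra.smul_def]
      rw [e]; exact h2

omit [FiniteDimensional k M] in
lemma ne_X (rep : Rep ι z s1 t1) (hι : Function.Injective ι) {r : R} (hr : r ≠ 0) :
    blk h (0, ι r * s1) ≠ 0 := by
  intro h0
  have h1 := blk_right_zero h h0
  apply hr
  apply rep.e11_zero hι
  rw [← rep.p12_21, ← mul_assoc, h1, zero_mul]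

omit [FiniteDimensional k M] in
lemma ne_Y (rep : Rep ι z s1 t1) (hι : Function.Injective ι) {r : R} (hr : r ≠ 0) :
    blk h (0, ι r * t1) ≠ 0 := by
  intro h0
  have h1 := blk_right_zero h h0
  apply hr
  apply rep.e11_zero hι
  have e : ι r * Rep.e11 ι z s1 t1 = s1 * (ι ((z⁻¹ : Rˣ) : R) * (ι r * t1)) := by
    rw [← rep.p12_21, Rep.e21, ← mul_assoc, rep.cs, mul_assoc]
    congr 1
    rw [← mul_assoc, ← mul_assoc, ← map_mul, ← map_mul, mul_comm r]
  rw [e, h1, mul_zero, mul_zero]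

omit [FiniteDimensional k M] in
lemma range_le_X (rep : Rep ι z s1 t1) (r : R) :
    LinearMap.range (blk h (0, ι r * s1)) ≤ LinearMap.range (blk h (s0, s1)) := by
  have e : blk h (0, ι r * s1) = blk h (s0, s1) * blk h (0, ι r) := by
    rw [blk_mul, mul_zero, rep.cs]
  rw [e]
  exact LinearMap.range_comp_le_range _ _

omit [FiniteDimensional k M] in
lemma range_le_Y (rep : Rep ι z s1 t1) (r : R) :
    LinearMap.range (blk h (0, ι r * t1)) ≤ LinearMap.range (blk h (t0, t1)) := by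
  have e : blk h (0, ι r * t1) = blk h (t0, t1) * blk h (0, ι r) := by
    rw [blk_mul, mul_zero, rep.ct]
  rw [e]
  exact LinearMap.range_comp_le_range _ _

omit [FiniteDimensional k M] in
lemma zero_of_range {a : Module.End k p} {b b' : Module.End k q}
    (hle : LinearMap.range (blk h (a, b)) ≤ LinearMap.range (blk h (0, b'))) : a = 0 := by
  ext x
  have h1 : blk h (a, b) (x : M) = (a x : M) := by
    have := blk_apply h a b x 0
    simpa using this
  obtain ⟨m, hm⟩ := hle ⟨(x : M), rfl⟩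
  rw [h1] at hm
  have h2 : (a x : M) ∈ q := by rw [← hm]; exact blk_right_mem h b' m
  have h3 : (a x : M) ∈ p ⊓ q := ⟨(a x).2, h2⟩
  rw [h.inf_eq_bot, Submodule.mem_bot] at h3
  rw [h3]; simp

lemma isUnit_of_range [FiniteDimensional k R] (rep : Rep ι z s1 t1) (hι : Function.Injective ι)
    {r : R} (hle : LinearMap.range (blk h (s0, s1)) ≤ LinearMap.range (blk h (0, ι r * s1))) :
    IsUnit r := by
  have h1 : ∀ y : q, ∃ y' : q, s1 y = ι r (s1 y') := by
    intro y
    have e1 : blk h (s0, s1) (y : M) = (s1 y : M) := by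
      have := blk_apply h s0 s1 0 y
      simpa using this
    obtain ⟨m, hm⟩ := hle ⟨(y : M), rfl⟩
    obtain ⟨x', y', rfl⟩ := exists_add h m
    rw [blk_apply, e1] at hm
    refine ⟨y', ?_⟩
    apply Subtype.ext
    rw [← hm]; simp
  have hsurj : Function.Surjective (ι r : Module.End k q) := by
    intro y
    obtain ⟨y1, hy1⟩ := h1 ((Rep.e21 ι z t1) y)
    obtain ⟨y2, hy2⟩ := h1 y
    have e : y = s1 ((Rep.e21 ι z t1) y) + (Rep.e21 ι z t1) (s1 y) := by
      have := congrArg (fun f : Module.End k q => f y) rep.p_one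
      rw [← rep.p12_21, ← Rep.p21_12] at this
      exact this.symm
    refine ⟨s1 y1 + (Rep.e21 ι z t1) (s1 y2), ?_⟩
    rw [map_add, ← hy1]
    have e2 : (ι r) ((Rep.e21 ι z t1) (s1 y2)) = (Rep.e21 ι z t1) ((ι r) (s1 y2)) := by
      have := congrArg (fun f : Module.End k q => f (s1 y2)) (rep.c21 r)
      exact this
    rw [e2, ← hy2]
    exact e.symm
  have hinj : Function.Injective (ι r : Module.End k q) := LinearMap.injective_iff_surjective.2 hsurj
  have hinjR : Function.Injective (LinearMap.mulLeft k r) := by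
    intro a b hab
    have h2 : r * a = r * b := hab
    have h3 : ι r * ι a = ι r * ι b := by rw [← map_mul, ← map_mul, h2]
    apply hι
    ext x
    have h4 := congrArg (fun f : Module.End k q => f x) h3
    rw [hinj h4]
  obtain ⟨w, hw⟩ := (LinearMap.injective_iff_surjective.1 hinjR) 1
  exact IsUnit.of_mul_eq_one w hw

/-- **Core theorem** on a non-nilpotent pair -/
theorem core [FiniteDimensional k R] [Nontrivial R] (h20 : (2 : k) ≠ 0) (hk3 : Nat.card k ≠ 3)
    (rep : Rep ι z s1 t1) (hι : Function.Injective ι) (hgen : Algebra.adjoin k {(z : R)} = ⊤)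
    (hs0 : s0 * s0 = 0) (ht0 : t0 * t0 = 0) {n : ℕ} (hnil : (s0 * t0) ^ n = 0)
    (hs : Mn G (blk h (s0, s1))) (ht : Mn G (blk h (t0, t1))) :
    s0 = 0 ∧ t0 = 0 ∧ IsField R ∧ ∀ r : R, X r ∈ grp k (z : R) := by
  have hG : gen k (blk h (s0, s1)) (blk h (t0, t1)) ≤ G := gen_le hs.fam ht.fam
  have hl : lcs (gen k s0 t0) (2 * n + 1) = ⊥ :=
    lcs_gen_eq_bot hs0 ht0 (V_pow_of_nilp hs0 ht0 hnil)
  obtain ⟨r, hr0, hr⟩ := exists_X_mem h20 hk3 z hgen (fun x hx g hg => lcs_conj hx hg)
    (lcs_nonCen h20 hk3 z hgen (2 * n + 1))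
  have hs0' : s0 = 0 := by
    have hf := fam_X h rep hs0 ht0 hl hG hr
    exact zero_of_range h (hs.same hf (ne_X h rep hι hr0) (range_le_X h rep r)).ge
  have ht0' : t0 = 0 := by
    have hf := fam_Y h rep hs0 ht0 hl hG hr
    exact zero_of_range h (ht.same hf (ne_Y h rep hι hr0) (range_le_Y h rep r)).ge
  subst hs0' ht0'
  have hl0 : lcs (gen k (0 : Module.End k p) 0) 0 = ⊥ := by
    rw [lcs_zero, gen_zero]
  have hu : ∀ r : R, X r ∈ grp k (z : R) → r ≠ 0 → IsUnit r := by
    intro r hr hr0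
    have hf := fam_X h rep hs0 ht0 hl0 hG (r := r) hr
    exact isUnit_of_range h rep hι (hs.same hf (ne_X h rep hι hr0) (range_le_X h rep r)).ge
  exact ⟨rfl, rfl, isField_of_units h20 hk3 z hgen hu, top_of_units h20 hk3 z hgen hu⟩

end core

end Cfsg.Agent.Lib.QuadPairN2
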