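import Cfsg.Agent.Lib.QuadPairT
set_option autoImplicit false

/-!
Root subgroups of quadratic pairs: unipotent pairs (owner: helper84).
-/

namespace Cfsg.Agent.Lib.QuadPairNil
open Subgroup Cfsg
open Cfsg.Agent.Lib.QuadPair
open Cfsg.Agent.Lib.QuadPairU
open Cfsg.Agent.Lib.QuadPairN
open Cfsg.Agent.Lib.QuadPairR
open Cfsg.Agent.Lib.QuadPairS
open Cfsg.Agent.Lib.QuadPairT
open Cfsg.Agent.Lib.RankOneGrp

universe u v

variable {k : Type u} [Field k] {M : Type v} [AddCommGroup M] [Module k M]
  {G : Subgroup (LinearMap.GeneralLinearGroup k M)}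

section basic

lemma finrank_map_add [FiniteDimensional k M] (f : Module.End k M) (p : Submodule k M) :
    Module.finrank k (p.map f) + Module.finrank k ↥(p ⊓ LinearMap.ker f) = Module.finrank k p := by
  have h1 := LinearMap.finrank_range_add_finrank_ker (f.domRestrict p)
  rw [LinearMap.range_domRestrict] at h1
  have h2 : Module.finrank k (LinearMap.ker (f.domRestrict p)) =
      Module.finrank k ↥(p ⊓ LinearMap.ker f) := by
    have e : LinearMap.ker (f.domRestrict p) = (LinearMap.ker f).comap p.subtype := by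
      ext x; rfl
    rw [e, ← Submodule.map_comap_subtype]
    exact (LinearEquiv.finrank_eq (Submodule.equivMapOfInjective p.subtype
      p.injective_subtype _))
  rw [h2] at h1
  exact h1

/-- the commutator of `1 + s`, `1 + t` -/
lemma comm_has {s t : Module.End k M} (hs : Fam G s) (ht : Fam G t) (h1 : s * t * s = 0)
    (h2 : t * s * t = 0) (c : k) : Has G (c • (s * t - t * s)) := by
  have hcs := (hs.smul c)
  have h3 : (c • s) * t * (c • s) = 0 := by
    rw [smul_mul_assoc, smul_mul_smul_comm, h1, smul_zero]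
  have h4 : t * (c • s) * t = 0 := by
    rw [mul_smul_comm, smul_mul_assoc, h2, smul_zero]
  have h5 : un (c • s) hcs.sq ∈ G := (has_iff hcs.sq).1 (hs.has c)
  have h6 : un t ht.sq ∈ G := (has_iff ht.sq).1 ht.one
  refine ⟨un (c • s) hcs.sq * un t ht.sq * (un (c • s) hcs.sq)⁻¹ * (un t ht.sq)⁻¹,
    G.mul_mem (G.mul_mem (G.mul_mem h5 h6) (G.inv_mem h5)) (G.inv_mem h6), ?_⟩
  rw [Units.val_mul, Units.val_mul, Units.val_mul, un_inv_coe, un_inv_coe, un_coe, un_coe]
  have hX := hcs.sq
  have hY := ht.sq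
  have e : c • (s * t - t * s) = (c • s) * t - t * (c • s) := by
    rw [smul_sub, smul_mul_assoc, mul_smul_comm]
  rw [e]
  generalize c • s = X at *
  have e2 : (1 + X) * (1 + t) * (1 - X) * (1 - t) = 1 + (X * t - t * X) - X * X - t * t +
      X * X * t - X * (t * t) - X * t * X + t * X * t + X * t * X * t := by noncomm_ring
  rw [e2, hX, hY, h3, h4]
  simp

lemma comm_fam {s t : Module.End k M} (hs : Fam G s) (ht : Fam G t) (h1 : s * t * s = 0)
    (h2 : t * s * t = 0) : Fam G (s * t - t * s) where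
  sq := by
    have e : (s * t - t * s) * (s * t - t * s) = s * t * s * t - s * (t * t) * s -
        t * (s * s) * t + t * s * t * s := by noncomm_ring
    rw [e, h1, h2, hs.sq, ht.sq]; simp
  has := comm_has hs ht h1 h2

end basic

/-- a noncommuting unipotent pair, all data -/
structure Nc (G : Subgroup (LinearMap.GeneralLinearGroup k M)) (s t : Module.End k M) : Prop where
  nil : Nil s t
  ne : ∀ s', Rel G s s' → ∀ t', Rel G t t' → s' * t' - t' * s' ≠ 0
  map_t : ∀ t', Rel G t t' → (LinearMap.range s).map t' = LinearMap.range t ⊓ LinearMap.ker s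
  map_s : ∀ s', Rel G s s' → (LinearMap.range t).map s' = LinearMap.range s ⊓ LinearMap.ker t
  disj : Disjoint (LinearMap.range s ⊓ LinearMap.ker t) (LinearMap.range t ⊓ LinearMap.ker s)
  finr : Module.finrank k ↥(LinearMap.range s ⊓ LinearMap.ker t) +
    Module.finrank k ↥(LinearMap.range t ⊓ LinearMap.ker s) = Module.finrank k (LinearMap.range s)
  range : ∀ s', Rel G s s' → ∀ t', Rel G t t' → LinearMap.range (s' * t' - t' * s') =
    (LinearMap.range s ⊓ LinearMap.ker t) ⊔ (LinearMap.range t ⊓ LinearMap.ker s)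
  mn : ∀ s', Rel G s s' → ∀ t', Rel G t t' → Mn G (s' * t' - t' * s')

variable [FiniteDimensional k M]

lemma map_le (h20 : (2 : k) ≠ 0) (hk3 : Nat.card k ≠ 3) {s t t' : Module.End k M}
    (hs : Mn G s) (ht : Mn G t) (hn : Nil s t) (ht' : Rel G t t') :
    (LinearMap.range s).map t' ≤ LinearMap.range t ⊓ LinearMap.ker s := by
  rintro _ ⟨_, ⟨x, rfl⟩, rfl⟩
  refine ⟨?_, ?_⟩
  · rw [← ht'.range]; exact ⟨s x, rfl⟩
  · have := nil_of_rel h20 hk3 hs ht hn (Rel.refl hs) ht'
    exact congrArg (fun f : Module.End k M => f x) this.sts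

lemma finrank_map_t {s t t' : Module.End k M} (ht' : Rel G t t') :
    Module.finrank k ((LinearMap.range s).map t') +
      Module.finrank k ↥(LinearMap.range s ⊓ LinearMap.ker t) =
      Module.finrank k (LinearMap.range s) := by
  have := finrank_map_add t' (LinearMap.range s)
  rwa [ht'.ker] at this

omit [FiniteDimensional k M] in
lemma range_comm_le {s t s' t' : Module.End k M} (hs' : Rel G s s') (ht' : Rel G t t') :
    LinearMap.range (s' * t' - t' * s') ≤ (LinearMap.range t).map s' ⊔ (LinearMap.range s).map t' := by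
  rintro _ ⟨x, rfl⟩
  have e : (s' * t' - t' * s') x = s' (t' x) + t' (s' (-x)) := by
    show s' (t' x) - t' (s' x) = _
    rw [map_neg, map_neg]; abel
  rw [e]
  apply Submodule.add_mem_sup
  · exact ⟨t' x, by rw [← ht'.range]; exact ⟨x, rfl⟩, rfl⟩
  · exact ⟨s' (-x), by rw [← hs'.range]; exact ⟨_, rfl⟩, rfl⟩

theorem nc_of_ne (h20 : (2 : k) ≠ 0) (hk3 : Nat.card k ≠ 3) {s t s₁ t₁ : Module.End k M}
    (hs : Mn G s) (ht : Mn G t) (hn : Nil s t) (hs₁ : Rel G s s₁) (ht₁ : Rel G t t₁)
    (hne : s₁ * t₁ - t₁ * s₁ ≠ 0) : Nc G s t := by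
  have hd : Module.finrank k (LinearMap.range s) = Module.finrank k (LinearMap.range t) :=
    hs.rank_eq ht
  have hd0 : 0 < Module.finrank k (LinearMap.range s) := by
    rw [Module.finrank_pos_iff, Submodule.nontrivial_iff_ne_bot, Ne, LinearMap.range_eq_bot]
    exact hs.ne
  -- dimension count
  have count : ∀ s', Rel G s s' → ∀ t', Rel G t t' → s' * t' - t' * s' ≠ 0 →
      Module.finrank k ↥(LinearMap.range s ⊓ LinearMap.ker t) +
        Module.finrank k ↥(LinearMap.range t ⊓ LinearMap.ker s) =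
        Module.finrank k (LinearMap.range s) ∧
      Disjoint (LinearMap.range s ⊓ LinearMap.ker t) (LinearMap.range t ⊓ LinearMap.ker s) ∧
      LinearMap.range (s' * t' - t' * s') =
        (LinearMap.range s ⊓ LinearMap.ker t) ⊔ (LinearMap.range t ⊓ LinearMap.ker s) ∧
      Mn G (s' * t' - t' * s') := by
    intro s' hs' t' ht' h0
    have hnil := nil_of_rel h20 hk3 hs ht hn hs' ht'
    have hfam := comm_fam hs'.mn.fam ht'.mn.fam hnil.sts hnil.tst
    have h1 := hs.min _ hfam h0
    have h2 := Submodule.finrank_mono (range_comm_le hs' ht')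
    have h3 := Submodule.finrank_sup_add_finrank_inf_eq ((LinearMap.range t).map s')
      ((LinearMap.range s).map t')
    have h4 := finrank_map_t (s := s) ht'
    have h5 := finrank_map_t (s := t) hs'
    have h6 := Submodule.finrank_mono (map_le h20 hk3 hs ht hn ht')
    have h7 := Submodule.finrank_mono (map_le h20 hk3 ht hs hn.symm hs')
    have e1 : Module.finrank k ↥(LinearMap.range s ⊓ LinearMap.ker t) +
        Module.finrank k ↥(LinearMap.range t ⊓ LinearMap.ker s) =
        Module.finrank k (LinearMap.range s) := by omega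
    have e2 : (LinearMap.range s).map t' = LinearMap.range t ⊓ LinearMap.ker s :=
      Submodule.eq_of_le_of_finrank_le (map_le h20 hk3 hs ht hn ht') (by omega)
    have e3 : (LinearMap.range t).map s' = LinearMap.range s ⊓ LinearMap.ker t :=
      Submodule.eq_of_le_of_finrank_le (map_le h20 hk3 ht hs hn.symm hs') (by omega)
    rw [e2, e3] at h2 h3
    refine ⟨e1, ?_, ?_, ?_⟩
    · rw [disjoint_iff, ← Submodule.finrank_eq_zero (R := k)]
      omega
    · apply Submodule.eq_of_le_of_finrank_le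
      · have := range_comm_le hs' ht'
        rwa [e2, e3] at this
      · omega
    · apply hs.of_rank_le hfam h0
      omega
  obtain ⟨c1, c2, c3, c4⟩ := count s₁ hs₁ t₁ ht₁ hne
  have hmt : ∀ t', Rel G t t' → (LinearMap.range s).map t' = LinearMap.range t ⊓ LinearMap.ker s := by
    intro t' ht'
    have h4 := finrank_map_t (s := s) ht'
    exact Submodule.eq_of_le_of_finrank_le (map_le h20 hk3 hs ht hn ht') (by omega)
  have hms : ∀ s', Rel G s s' → (LinearMap.range t).map s' = LinearMap.range s ⊓ LinearMap.ker t := by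
    intro s' hs'
    have h5 := finrank_map_t (s := t) hs'
    exact Submodule.eq_of_le_of_finrank_le (map_le h20 hk3 ht hs hn.symm hs') (by omega)
  have hall : ∀ s', Rel G s s' → ∀ t', Rel G t t' → s' * t' - t' * s' ≠ 0 := by
    intro s' hs' t' ht' h0
    rw [sub_eq_zero] at h0
    have e1 : (LinearMap.range t).map s' = (LinearMap.range s).map t' := by
      rw [← ht'.range, ← hs'.range, ← LinearMap.range_comp, ← LinearMap.range_comp]
      exact congrArg LinearMap.range h0
    rw [hms s' hs', hmt t' ht'] at e1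
    rw [e1, disjoint_self] at c2
    rw [e1, c2] at c1
    simp only [finrank_bot] at c1
    omega
  exact ⟨hn, hall, hmt, hms, c2, c1, fun s' hs' t' ht' => (count s' hs' t' ht' (hall s' hs' t' ht')).2.2.1,
    fun s' hs' t' ht' => (count s' hs' t' ht' (hall s' hs' t' ht')).2.2.2⟩

/-- **trichotomy** for minimal quadratic elements -/
theorem trich (h20 : (2 : k) ≠ 0) (hk3 : Nat.card k ≠ 3) {s t : Module.End k M}
    (hs : Mn G s) (ht : Mn G t) : (∀ s', Rel G s s' → ∀ t', Rel G t t' → s' * t' = t' * s') ∨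
      Nc G s t ∨ Opp s t := by
  rcases dich h20 hk3 hs ht with hn | ho
  · by_cases h : ∀ s', Rel G s s' → ∀ t', Rel G t t' → s' * t' = t' * s'
    · exact Or.inl h
    · push Not at h
      obtain ⟨s', hs', t', ht', hne⟩ := h
      exact Or.inr (Or.inl (nc_of_ne h20 hk3 hs ht hn hs' ht' (sub_ne_zero.2 hne)))
  · exact Or.inr (Or.inr ho)

omit [FiniteDimensional k M] in
lemma Nc.symm {s t : Module.End k M} (h : Nc G s t) (hs : Mn G s) (ht : Mn G t) : Nc G t s where
  nil := h.nil.symm
  ne := by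
    intro t' ht' s' hs' h0
    apply h.ne s' hs' t' ht'
    rw [sub_eq_zero] at h0 ⊢
    exact h0.symm
  map_t := h.map_s
  map_s := h.map_t
  disj := h.disj.symm
  finr := by rw [add_comm, h.finr, hs.rank_eq ht]
  range := by
    intro t' ht' s' hs'
    rw [sup_comm, ← h.range s' hs' t' ht']
    have : t' * s' - s' * t' = -(s' * t' - t' * s') := by abel
    rw [this]
    exact LinearMap.range_neg _
  mn := by
    intro t' ht' s' hs'
    have h1 := h.mn s' hs' t' ht'
    have e : t' * s' - s' * t' = -(s' * t' - t' * s') := by abel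
    rw [e]
    exact ((Rel.refl h1).neg).mn

/-- commuting of the root groups -/
lemma comm_E {σ τ : LinearMap.GeneralLinearGroup k M}
    (h : ∀ s', Rel G ((σ : M →ₗ[k] M) - 1) s' → ∀ t', Rel G ((τ : M →ₗ[k] M) - 1) t' →
      s' * t' = t' * s') : ⁅sameActionSubgroup G σ, sameActionSubgroup G τ⁆ = ⊥ := by
  rw [Cfsg.Agent.Lib.RankOneGrp.commutator_eq_bot_iff]
  intro a ha b hb
  rcases mem_E.1 ha with h1 | rfl
  · rcases mem_E.1 hb with h2 | rfl
    · have h3 := h _ h1 _ h2
      apply Units.ext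
      have e3 : (a : Module.End k M) * b - b * a = ((a : Module.End k M) - 1) * (b - 1) -
          (b - 1) * (a - 1) := by noncomm_ring
      rw [Units.val_mul, Units.val_mul, ← sub_eq_zero, e3]
      exact sub_eq_zero.2 h3
    · simp
  · simp

omit [FiniteDimensional k M] in
lemma not_comm_of_ne {a b : LinearMap.GeneralLinearGroup k M}
    (h : ((a : M →ₗ[k] M) - 1 : Module.End k M) * ((b : M →ₗ[k] M) - 1) ≠
      ((b : M →ₗ[k] M) - 1 : Module.End k M) * ((a : M →ₗ[k] M) - 1)) : a * b ≠ b * a := by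
  intro hab
  apply h
  have e3 : ((a : M →ₗ[k] M) - 1 : Module.End k M) * ((b : M →ₗ[k] M) - 1) -
      ((b : M →ₗ[k] M) - 1 : Module.End k M) * ((a : M →ₗ[k] M) - 1) =
      (a : Module.End k M) * b - b * a := by noncomm_ring
  rw [← sub_eq_zero, e3, sub_eq_zero]
  exact congrArg Units.val hab

omit [FiniteDimensional k M] in
lemma Opp.not_comm {s t : Module.End k M} (hs : Mn G s) (hsq : s * s = 0) (htq : t * t = 0)
    (h : Opp s t) : s * t ≠ t * s := by
  intro e
  apply hs.ne
  apply h.not_nil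
  constructor
  · rw [e, mul_assoc, hsq, mul_zero]
  · rw [← e, mul_assoc, htq, mul_zero]

/-- in the noncommuting unipotent case no nonidentity element of `E` normalizes `F` -/
lemma Nc.norm {σ τ e : LinearMap.GeneralLinearGroup k M}
    (hσ : Mn G ((σ : M →ₗ[k] M) - 1)) (hτ : Mn G ((τ : M →ₗ[k] M) - 1))
    (h : Nc G ((σ : M →ₗ[k] M) - 1) ((τ : M →ₗ[k] M) - 1))
    (he : e ∈ sameActionSubgroup G σ) (he1 : e ≠ 1)
    (hn : conjBy (sameActionSubgroup G τ) e = sameActionSubgroup G τ) : False := by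
  have hr := rel_of_mem he he1
  set s : Module.End k M := (σ : M →ₗ[k] M) - 1 with hs
  set t : Module.End k M := (τ : M →ₗ[k] M) - 1 with ht
  set s' : Module.End k M := (e : M →ₗ[k] M) - 1 with hs'
  have hex : ∀ x, (e : M →ₗ[k] M) x = x + s' x := by
    intro x
    show (e : M →ₗ[k] M) x = x + ((e : M →ₗ[k] M) x - x)
    abel
  have h1 : Rel G t (cj e t) := by
    have h2 : e * τ * e⁻¹ ∈ sameActionSubgroup G τ := by
      rw [← hn]; exact conjBy_mem (self_mem hτ) e
    have h3 : e * τ * e⁻¹ ≠ 1 := by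
      intro h4
      apply ne_one hτ
      have : τ = e⁻¹ * (e * τ * e⁻¹) * e := by group
      rw [this, h4]; group
    have h5 := rel_of_mem h2 h3
    rwa [coe_conj] at h5
  have hrange : ∀ x ∈ LinearMap.range t, s' x ∈ LinearMap.range t := by
    intro x hx
    have h2 : (e : M →ₗ[k] M) x ∈ LinearMap.range t := by
      rw [← h1.range, range_cj]
      exact ⟨x, hx, rfl⟩
    rw [hex] at h2
    have h3 := Submodule.sub_mem _ h2 hx
    rwa [add_sub_cancel_left] at h3
  have hker : ∀ x ∈ LinearMap.ker t, s' x ∈ LinearMap.ker t := by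
    intro x hx
    have h2 : (e : M →ₗ[k] M) x ∈ LinearMap.ker t := by
      rw [← h1.ker, LinearMap.mem_ker, cj_apply, inv_apply]
      have : t x = 0 := hx
      rw [this, map_zero]
    rw [hex] at h2
    have h3 := Submodule.sub_mem _ h2 hx
    rwa [add_sub_cancel_left] at h3
  have hAker : LinearMap.range s ≤ LinearMap.ker s := by
    rw [← mul_eq_zero_iff]; exact hσ.fam.sq
  -- `A ∩ K_F = 0`
  have hAK : LinearMap.range s ⊓ LinearMap.ker t = ⊥ := by
    have h2 : LinearMap.range s ⊓ LinearMap.ker t ≤ LinearMap.range t ⊓ LinearMap.ker s := by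
      rw [← h.map_s s' hr]
      rintro _ ⟨x, hx, rfl⟩
      refine ⟨hrange x hx, hAker ?_⟩
      rw [← hr.range]; exact ⟨x, rfl⟩
    have h3 := h.disj
    rw [disjoint_iff, inf_eq_left.2 h2] at h3
    exact h3
  have hKK : LinearMap.ker t ≤ LinearMap.ker s := by
    intro x hx
    have h2 : s' x ∈ LinearMap.range s ⊓ LinearMap.ker t :=
      ⟨by rw [← hr.range]; exact ⟨x, rfl⟩, hker x hx⟩
    rw [hAK, Submodule.mem_bot] at h2
    rw [LinearMap.mem_ker, ← ker_iff hr.ker]
    exact h2
  have hKK' : LinearMap.ker t = LinearMap.ker s := by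
    apply Submodule.eq_of_le_of_finrank_le hKK
    have h2 := LinearMap.finrank_range_add_finrank_ker s
    have h3 := LinearMap.finrank_range_add_finrank_ker t
    have h4 := hσ.rank_eq hτ
    omega
  rw [hKK', inf_eq_left.2 hAker, LinearMap.range_eq_bot] at hAK
  exact hσ.ne hAK

/-- S5073 -/
theorem commute_criterion (h20 : (2 : k) ≠ 0) (hk3 : Nat.card k ≠ 3)
    {σ τ : LinearMap.GeneralLinearGroup k M}
    (hσ : Mn G ((σ : M →ₗ[k] M) - 1)) (hτ : Mn G ((τ : M →ₗ[k] M) - 1))
    (h : (∃ e ∈ sameActionSubgroup G σ, e ≠ 1 ∧ ∃ f ∈ sameActionSubgroup G τ, f ≠ 1 ∧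
      e * f = f * e) ∨ (∃ e ∈ sameActionSubgroup G σ, e ≠ 1 ∧
        conjBy (sameActionSubgroup G τ) e = sameActionSubgroup G τ)) :
    ⁅sameActionSubgroup G σ, sameActionSubgroup G τ⁆ = ⊥ := by
  rcases trich h20 hk3 hσ hτ with hc | hc | hc
  · exact comm_E hc
  · exfalso
    rcases h with ⟨e, he, he1, f, hf, hf1, hcomm⟩ | ⟨e, he, he1, hn⟩
    · refine not_comm_of_ne ?_ hcomm
      exact sub_ne_zero.1 (hc.ne _ (rel_of_mem he he1) _ (rel_of_mem hf hf1))
    · exact hc.norm hσ hτ he he1 hn
  · exfalso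
    rcases h with ⟨e, he, he1, f, hf, hf1, hcomm⟩ | ⟨e, he, he1, hn⟩
    · refine not_comm_of_ne ?_ hcomm
      have h1 := rel_of_mem he he1
      have h2 := rel_of_mem hf hf1
      exact Opp.not_comm h1.mn h1.mn.fam.sq h2.mn.fam.sq (hc.of_rel h1 h2)
    · exact he1 (eq_one_of_conj_right (pair_of_opp h20 hk3 hσ hτ hc) he hn)

end Cfsg.Agent.Lib.QuadPairNil
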