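import Cfsg.Agent.Lib.QuadPairY
import Cfsg.Agent.Lib.QuadPairI
set_option autoImplicit false

/-!
Quadratic elements lie in components or centralize `G₀` (helper84).
-/

namespace Cfsg.Agent.Lib.QuadPairP
open Subgroup Cfsg
open Cfsg.Agent.Lib.QuadPair
open Cfsg.Agent.Lib.QuadPairR
open Cfsg.Agent.Lib.QuadPairS
open Cfsg.Agent.Lib.QuadPairT
open Cfsg.Agent.Lib.QuadPairF
open Cfsg.Agent.Lib.QuadPairI
open Cfsg.Agent.Lib.QuadPairJ
open Cfsg.Agent.Lib.QuadPairK
open Cfsg.Agent.Lib.QuadPairX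
open Cfsg.Agent.Lib.QuadPairY
open Cfsg.Agent.Lib.RankOneGrp
open Cfsg.Agent.Lib.RootTransfer
open Cfsg.Agent.Lib.RootComp

universe u v

variable {k : Type u} [Field k] {M : Type v} [AddCommGroup M] [Module k M] [FiniteDimensional k M]
variable {G : Subgroup (LinearMap.GeneralLinearGroup k M)}
variable {Δ : Set (Subgroup (LinearMap.GeneralLinearGroup k M))}

omit [FiniteDimensional k M] in
lemma Comps_sub (hΔ : Δ ∈ Comps G) : Δ ⊆ quadraticRootSubgroups G := by
  obtain ⟨A, hA, rfl⟩ := hΔ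
  exact comp_le

omit [FiniteDimensional k M] in
lemma Comps_ne (hΔ : Δ ∈ Comps G) : Δ.Nonempty := by
  obtain ⟨A, hA, rfl⟩ := hΔ
  exact ⟨A, mem_comp_self hA⟩

/-- the group of a component -/
abbrev KK (Δ : Set (Subgroup (LinearMap.GeneralLinearGroup k M))) : Subgroup (LinearMap.GeneralLinearGroup k M) :=
  ⨆ B ∈ Δ, B

omit [FiniteDimensional k M] in
lemma KK_le_G0 (hΔ : Δ ∈ Comps G) : KK Δ ≤ G0 G :=
  iSup₂_le fun _ hB => le_iSup_mem (Comps_sub hΔ hB)

lemma KK_le (hΔ : Δ ∈ Comps G) : KK Δ ≤ G := (KK_le_G0 hΔ).trans G0_le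

lemma conj_le_iff {A : Subgroup (LinearMap.GeneralLinearGroup k M)} {S : Subgroup (LinearMap.GeneralLinearGroup k M)}
    (h : ∀ g ∈ S, conjBy A g ≤ A) : ∀ g ∈ S, conjBy A g = A := by
  intro g hg
  apply le_antisymm (h g hg)
  have h1 := conjBy_mono (h g⁻¹ (S.inv_mem hg)) g
  rwa [conjBy_conjBy_inv] at h1

/-- components are normal -/
theorem KK_normal (h20 : (2 : k) ≠ 0) (hk3 : Nat.card k ≠ 3) (hG : IsQuadraticPair G) (hΔ : Δ ∈ Comps G) :
    ∀ g ∈ G, conjBy (KK Δ) g = KK Δ := by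
  have hP := preRoot h20 hk3 hG.1
  have hI := iso h20 hk3 hG
  have h1 : G0 G ≤ Subgroup.normalizer (KK Δ : Set (LinearMap.GeneralLinearGroup k M)) := by
    intro g hg
    rw [← conjBy_eq_self_iff]
    refine conj_le_iff (S := G0 G) ?_ g hg
    intro g hg
    have e : conjBy (KK Δ) g = ⨆ B ∈ Δ, conjBy B g := by
      unfold conjBy KK
      rw [Subgroup.map_iSup]
      congr 1
      ext B
      rw [Subgroup.map_iSup]
    rw [e]
    refine iSup₂_le fun B hB => le_iSup_mem ?_
    have h2 := Comps_eq hΔ hB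
    rw [h2]
    exact ⟨hP.conj_mem B (Comps_sub hΔ hB) g hg, pre_reach_conj hP hI (Comps_sub hΔ hB) hg⟩
  have h2 : G ⊓ Subgroup.centralizer (G0 G : Set (LinearMap.GeneralLinearGroup k M)) ≤
      Subgroup.normalizer (KK Δ : Set (LinearMap.GeneralLinearGroup k M)) := by
    intro g hg
    rw [← conjBy_eq_self_iff]
    refine conj_le_iff (S := Subgroup.centralizer (G0 G : Set (LinearMap.GeneralLinearGroup k M))) ?_ g hg.2
    intro g hg x hx
    rw [mem_conjBy] at hx
    have h3 := Subgroup.mem_centralizer_iff.1 hg _ (KK_le_G0 hΔ hx)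
    have e : x = g * (g⁻¹ * x * g) * g⁻¹ := by group
    rw [e, ← h3, mul_inv_cancel_right]
    exact hx
  have h3 : G ≤ Subgroup.normalizer (KK Δ : Set (LinearMap.GeneralLinearGroup k M)) := by
    have h4 := Cfsg.Agent.Lib.QuadPairY.main h20 hk3 hG
    conv_lhs => rw [← h4]
    exact sup_le h1 h2
  intro g hg
  exact conjBy_eq_self_iff.2 (h3 hg)

omit [FiniteDimensional k M] in
/-- the fixed space of a normal subgroup -/
lemma fixed_inv {N : Subgroup (LinearMap.GeneralLinearGroup k M)} (hN : ∀ g ∈ G, conjBy N g = N) :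
    ∀ g ∈ G, ∀ w ∈ fixedSubmodule N, (g : M →ₗ[k] M) w ∈ fixedSubmodule N := by
  intro g hg w hw
  rw [mem_fixedSubmodule] at hw ⊢
  intro x hx
  have hx' : g⁻¹ * x * g ∈ N := by
    rw [← hN g⁻¹ (G.inv_mem hg), mem_conjBy, inv_inv]
    have : g * (g⁻¹ * x * g) * g⁻¹ = x := by group
    rwa [this]
  have h1 := hw _ hx'
  have h2 : (x : M →ₗ[k] M) ((g : M →ₗ[k] M) w) =
      (g : M →ₗ[k] M) (((g⁻¹ * x * g : LinearMap.GeneralLinearGroup k M) : M →ₗ[k] M) w) := by
    have e : x * g = g * (g⁻¹ * x * g) := by group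
    have := congrArg (fun y : LinearMap.GeneralLinearGroup k M => (y : M →ₗ[k] M) w) e
    exact this
  rw [h2, h1]

theorem KK_fixed (h20 : (2 : k) ≠ 0) (hk3 : Nat.card k ≠ 3) (hG : IsQuadraticPair G) (hΔ : Δ ∈ Comps G) :
    fixedSubmodule (KK Δ) = ⊥ := by
  rcases hG.1.2 _ (fixed_inv (KK_normal h20 hk3 hG hΔ)) with h | h
  · exact h
  · exfalso
    obtain ⟨B, hB⟩ := Comps_ne hΔ
    obtain ⟨σ, hσ, rfl⟩ := mem_Sig.1 (Comps_sub hΔ hB)
    apply hσ.ne
    ext x
    have h2 : x ∈ fixedSubmodule (KK Δ) := by rw [h]; trivial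
    have h3 := mem_fixedSubmodule.1 h2 σ (le_iSup_mem hB (self_mem hσ))
    rw [LinearMap.sub_apply, h3]
    simp

/-- elements of `Δ` are conjugate in the group of `Δ` -/
lemma exists_conj (h20 : (2 : k) ≠ 0) (hk3 : Nat.card k ≠ 3) (hG : IsQuadraticPair G) (hΔ : Δ ∈ Comps G)
    {A B : Subgroup (LinearMap.GeneralLinearGroup k M)} (hA : A ∈ Δ) (hB : B ∈ Δ) : ∃ g ∈ KK Δ, B = conjBy A g := by
  have hP := preRoot h20 hk3 hG.1
  have hI := iso h20 hk3 hG
  obtain ⟨C, hC, e⟩ := hΔ
  have hcl := inner_class (comp_pre hP hI (A := C)) ⟨C, mem_comp_self hC⟩ (comp_conn hC)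
  rw [← e] at hcl
  obtain ⟨g, hg⟩ := hcl.2.2 _ ⟨A, hA, rfl⟩ _ ⟨B, hB, rfl⟩
  refine ⟨g, g.2, ?_⟩
  have h1 := congrArg (Subgroup.map (Subgroup.subtype _)) hg
  have h2 : (B.subgroupOf (⨆ B ∈ Δ, B)).map (Subgroup.subtype _) = B := map_inner hB
  have h3 : (conjBy (A.subgroupOf (⨆ B ∈ Δ, B)) g).map (Subgroup.subtype _) = conjBy A g := by
    rw [← conj_map]
    have : (A.subgroupOf (⨆ B ∈ Δ, B)).map (Subgroup.subtype _) = A := map_inner hA
    rw [this]; rfl
  rw [← h2, ← h3]
  exact h1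

/-- **killing lemma** -/
theorem kill (h20 : (2 : k) ≠ 0) (hk3 : Nat.card k ≠ 3) (hG : IsQuadraticPair G) (hΔ : Δ ∈ Comps G)
    {σ : LinearMap.GeneralLinearGroup k M} (hσ : Mn G ((σ : M →ₗ[k] M) - 1)) (hσΔ : sameActionSubgroup G σ ∈ Δ)
    {y : Module.End k M} (hy : ∀ g ∈ KK Δ, (g : Module.End k M) * y = y * g)
    (h0 : ((σ : M →ₗ[k] M) - 1 : Module.End k M) * y = 0) : y = 0 := by
  have hfix := KK_fixed h20 hk3 hG hΔ
  have key : ∀ B ∈ Δ, ∀ b ∈ B, ((b : M →ₗ[k] M) - 1 : Module.End k M) * y = 0 := by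
    intro B hB b hb
    obtain ⟨g, hg, rfl⟩ := exists_conj h20 hk3 hG hΔ hσΔ hB
    have hgG : g ∈ G := KK_le hΔ hg
    rw [E_conj hgG] at hb
    rcases mem_E.1 hb with h1 | rfl
    · rw [mul_eq_zero_iff, h1.ker, ← mul_eq_zero_iff, coe_conj]
      unfold cj
      have h2 := hy g⁻¹ ((KK Δ).inv_mem hg)
      calc (g : Module.End k M) * ((σ : M →ₗ[k] M) - 1) * ((g⁻¹ : LinearMap.GeneralLinearGroup k M) : Module.End k M) * y
          = (g : Module.End k M) * (((σ : M →ₗ[k] M) - 1 : Module.End k M) *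
            (((g⁻¹ : LinearMap.GeneralLinearGroup k M) : Module.End k M) * y)) := by
            rw [mul_assoc, mul_assoc]
        _ = 0 := by rw [h2, ← mul_assoc _ y, h0, zero_mul, mul_zero]
    · have : (((1 : LinearMap.GeneralLinearGroup k M) : M →ₗ[k] M) - 1 : Module.End k M) = 0 := by
        rw [Units.val_one]; exact sub_self _
      rw [this, zero_mul]
  ext v
  rw [LinearMap.zero_apply]
  have h1 : y v ∈ fixedSubmodule (KK Δ) := by
    rw [mem_fixedSubmodule]
    intro g hg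
    have h2 : KK Δ ≤ MulAction.stabilizer (LinearMap.GeneralLinearGroup k M) (y v) := by
      refine iSup₂_le fun B hB b hb => ?_
      rw [MulAction.mem_stabilizer_iff]
      have h3 := congrArg (fun f : Module.End k M => f v) (key B hB b hb)
      have h4 : (b : Module.End k M) (y v) - y v = 0 := h3
      exact sub_eq_zero.1 h4
    exact h2 hg
  rw [hfix] at h1
  exact (Submodule.mem_bot k).1 h1

/-- the component containing a minimal element -/
lemma exists_comp {t : Module.End k M} (ht : Mn G t) : ∃ Δ ∈ Comps G, sameActionSubgroup G (un t ht.fam.sq) ∈ Δ ∧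
    un t ht.fam.sq ∈ KK Δ ∧ Mn G (((un t ht.fam.sq : LinearMap.GeneralLinearGroup k M) : M →ₗ[k] M) - 1) := by
  have h1 : Mn G (((un t ht.fam.sq : LinearMap.GeneralLinearGroup k M) : M →ₗ[k] M) - 1) := by
    rw [un_coe, add_sub_cancel_left]; exact ht
  have hA : sameActionSubgroup G (un t ht.fam.sq) ∈ quadraticRootSubgroups G := mem_Sig.2 ⟨_, h1, rfl⟩
  exact ⟨_, ⟨_, hA, rfl⟩, mem_comp_self hA, le_iSup_mem (mem_comp_self hA) (self_mem h1), h1⟩

/-- **dichotomy for quadratic elements** -/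
theorem dicho (h20 : (2 : k) ≠ 0) (hk3 : Nat.card k ≠ 3) (hG : IsQuadraticPair G) :
    ∀ (n : ℕ) {x : Module.End k M} (hx : Fam G x), Module.finrank k (LinearMap.range x) ≤ n →
      x = 0 ∨ (∀ t, Mn G t → x * t = t * x) ∨ (∃ Δ ∈ Comps G, un x hx.sq ∈ KK Δ) := by
  intro n
  induction n with
  | zero =>
    intro x hx hn
    left
    have : LinearMap.range x = ⊥ := by
      apply Submodule.finrank_eq_zero.1
      omega
    exact LinearMap.range_eq_bot.1 this
  | succ n ih =>
    intro x hx hn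
    by_cases hcase : ∃ s, Mn G s ∧ ¬ IsNilpotent (s * x)
    · right; right
      obtain ⟨s, hs, hns⟩ := hcase
      obtain ⟨x0, x1, e, h0, h1, e01, e10, -, -, -, hlt⟩ := ext_core h20 hk3 hs hx hns
      obtain ⟨Δ, hΔ, hEΔ, hmem, hmn⟩ := exists_comp h1
      have hkill : (∀ g ∈ KK Δ, (g : Module.End k M) * x0 = x0 * g) → x0 = 0 := by
        intro hg
        refine kill h20 hk3 hG hΔ hmn hEΔ hg ?_
        rw [un_coe, add_sub_cancel_left]; exact e10
      have h4 : un x hx.sq = un x0 h0.sq * un x1 h1.fam.sq := by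
        apply Units.ext
        rw [Units.val_mul, un_coe, un_coe, un_coe, e]
        calc 1 + (x0 + x1) = 1 + x0 + x1 + x0 * x1 := by rw [e01]; abel
          _ = (1 + x0) * (1 + x1) := by noncomm_ring
      have hz : x0 = 0 → ∃ Δ ∈ Comps G, un x hx.sq ∈ KK Δ := by
        intro h5
        refine ⟨Δ, hΔ, ?_⟩
        have h6 : un x0 h0.sq = 1 := by
          apply Units.ext
          rw [un_coe, h5, add_zero]; rfl
        rw [h4, h6, one_mul]
        exact hmem
      rcases ih h0 (by omega) with h5 | h5 | ⟨Δ', hΔ', h5⟩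
      · exact hz h5
      · apply hz
        apply hkill
        intro g hg
        have h6 : un x0 h0.sq ∈ Subgroup.centralizer (G0 G : Set (LinearMap.GeneralLinearGroup k M)) := by
          apply commute_G0
          intro t ht
          rw [un_coe]
          show (1 + x0) * t = t * (1 + x0)
          rw [add_mul, mul_add, h5 t ht, one_mul, mul_one]
        have h7 := Subgroup.mem_centralizer_iff.1 h6 g (KK_le_G0 hΔ hg)
        have h8 := congrArg (fun z : LinearMap.GeneralLinearGroup k M => (z : Module.End k M)) h7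
        simp only [Units.val_mul, un_coe] at h8
        rw [mul_add, add_mul, mul_one, one_mul] at h8
        exact add_left_cancel h8
      · by_cases hne : Δ' = Δ
        · refine ⟨Δ, hΔ, ?_⟩
          rw [h4]
          rw [hne] at h5
          exact Subgroup.mul_mem _ h5 hmem
        · apply hz
          apply hkill
          intro g hg
          have h6 := Comps_comm' h20 hk3 hG hΔ' hΔ hne
          have h7 := Cfsg.Agent.Lib.RootSub.commute_of_commutator_bot h6 h5 hg
          have h8 := congrArg (fun z : LinearMap.GeneralLinearGroup k M => (z : Module.End k M)) h7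
          simp only [Units.val_mul, un_coe] at h8
          rw [mul_add, add_mul, mul_one, one_mul] at h8
          exact (add_left_cancel h8).symm
    · push Not at hcase
      right; left
      have hY : Yy G x := ⟨hx, fun s hs => nil_pair h20 hk3 hs hx (hcase s hs)⟩
      intro t ht
      exact Yy.commute h20 hk3 hG.1 hY ht

end Cfsg.Agent.Lib.QuadPairP
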