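import Cfsg.Agent.Lib.QuadPairSL2
import Cfsg.Agent.Lib.RankOneGrp
set_option autoImplicit false

/-!
Root subgroups of quadratic pairs: the dichotomy and the rank one case (owner: helper84).
-/

namespace Cfsg.Agent.Lib.QuadPairR
open Subgroup Cfsg
open Cfsg.Agent.Lib.QuadPair
open Cfsg.Agent.Lib.QuadPairU
open Cfsg.Agent.Lib.QuadPairN

universe u v

variable {k : Type u} [Field k] {M : Type v} [AddCommGroup M] [Module k M]
  {G : Subgroup (LinearMap.GeneralLinearGroup k M)}

/-- opposite pairs -/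
structure Opp (s t : Module.End k M) : Prop where
  left : ∀ x, t (s x) = 0 → s x = 0
  right : ∀ x, s (t x) = 0 → t x = 0

lemma Opp.symm {s t : Module.End k M} (h : Opp s t) : Opp t s := ⟨h.right, h.left⟩

/-- commuting-type (nil) pairs -/
structure Nil (s t : Module.End k M) : Prop where
  sts : s * t * s = 0
  tst : t * s * t = 0

lemma Nil.symm {s t : Module.End k M} (h : Nil s t) : Nil t s := ⟨h.tst, h.sts⟩

lemma ker_iff {s s' : Module.End k M} (h : LinearMap.ker s' = LinearMap.ker s) (x : M) :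
    s' x = 0 ↔ s x = 0 := by
  rw [← LinearMap.mem_ker, h, LinearMap.mem_ker]

lemma Opp.of_rel {s t s' t' : Module.End k M} (h : Opp s t) (hs : Rel G s s') (ht : Rel G t t') :
    Opp s' t' := by
  constructor
  · intro x hx
    obtain ⟨y, hy⟩ : s' x ∈ LinearMap.range s := by rw [← hs.range]; exact ⟨x, rfl⟩
    rw [← hy] at hx ⊢
    rw [ker_iff ht.ker] at hx
    exact h.left y hx
  · intro x hx
    obtain ⟨y, hy⟩ : t' x ∈ LinearMap.range t := by rw [← ht.range]; exact ⟨x, rfl⟩
    rw [← hy] at hx ⊢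
    rw [ker_iff hs.ker] at hx
    exact h.right y hx

lemma Opp.not_nil {s t : Module.End k M} (h : Opp s t) (hn : Nil s t) : s = 0 := by
  ext x
  have h1 : s (t (s x)) = 0 := congrArg (fun f : Module.End k M => f x) hn.sts
  exact h.left x (h.right _ h1)

lemma opp_of_eq {s t : Module.End k M} (h1 : s * t * s = -s) (h2 : t * s * t = -t) : Opp s t := by
  constructor
  · intro x hx
    have h3 : s (t (s x)) = -(s x) := congrArg (fun f : Module.End k M => f x) h1
    rw [hx, map_zero] at h3
    exact (neg_eq_zero.1 h3.symm)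
  · intro x hx
    have h3 : t (s (t x)) = -(t x) := congrArg (fun f : Module.End k M => f x) h2
    rw [hx, map_zero] at h3
    exact (neg_eq_zero.1 h3.symm)

/-- **Dichotomy** -/
theorem dich [FiniteDimensional k M] (h20 : (2 : k) ≠ 0) (hk3 : Nat.card k ≠ 3)
    {s t : Module.End k M} (hs : Mn G s) (ht : Mn G t) : Nil s t ∨ Opp s t := by
  by_cases hn : IsNilpotent (s * t)
  · left
    obtain ⟨n, hn⟩ := hn
    have h1 := unipotent_pair hs ht h20 (V_pow_of_nilp hs.fam.sq ht.fam.sq hn)
    obtain ⟨a, b⟩ := words3 h1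
    exact ⟨a, b⟩
  · right
    obtain ⟨t', h1, h2, h3⟩ := exists_opp h20 hk3 hs ht hn
    exact (opp_of_eq h2 h3).of_rel (Rel.refl hs) (h1.symm ht)

theorem nil_of_rel [FiniteDimensional k M] (h20 : (2 : k) ≠ 0) (hk3 : Nat.card k ≠ 3)
    {s t s' t' : Module.End k M} (hs : Mn G s) (ht : Mn G t) (h : Nil s t) (hs' : Rel G s s')
    (ht' : Rel G t t') : Nil s' t' := by
  rcases dich h20 hk3 hs'.mn ht'.mn with h1 | h1
  · exact h1
  · exfalso
    exact hs.ne ((h1.of_rel (hs'.symm hs) (ht'.symm ht)).not_nil h)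

theorem exists_inv [FiniteDimensional k M] (h20 : (2 : k) ≠ 0) (hk3 : Nat.card k ≠ 3)
    {s t : Module.End k M} (hs : Mn G s) (ht : Mn G t) (ho : Opp s t) :
    ∃ t' : Module.End k M, Rel G t t' ∧ s * t' * s = -s ∧ t' * s * t' = -t' := by
  apply exists_opp h20 hk3 hs ht
  rintro ⟨n, hn⟩
  have h1 := unipotent_pair hs ht h20 (V_pow_of_nilp hs.fam.sq ht.fam.sq hn)
  obtain ⟨a, b⟩ := words3 h1
  exact hs.ne (ho.not_nil ⟨a, b⟩)

/-! ### Conjugation -/

/-- conjugation of an endomorphism -/
def cj (g : LinearMap.GeneralLinearGroup k M) (s : Module.End k M) : Module.End k M :=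
  (g : Module.End k M) * s * ((g⁻¹ : LinearMap.GeneralLinearGroup k M) : Module.End k M)

lemma cj_apply (g : LinearMap.GeneralLinearGroup k M) (s : Module.End k M) (x : M) :
    cj g s x = (g : Module.End k M) (s (((g⁻¹ : LinearMap.GeneralLinearGroup k M) :
      Module.End k M) x)) := rfl

lemma inv_apply (g : LinearMap.GeneralLinearGroup k M) (x : M) :
    ((g⁻¹ : LinearMap.GeneralLinearGroup k M) : Module.End k M) ((g : Module.End k M) x) = x :=
  congrArg (fun f : Module.End k M => f x) (Units.inv_mul g)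

lemma apply_inv (g : LinearMap.GeneralLinearGroup k M) (x : M) :
    (g : Module.End k M) (((g⁻¹ : LinearMap.GeneralLinearGroup k M) : Module.End k M) x) = x :=
  congrArg (fun f : Module.End k M => f x) (Units.mul_inv g)

lemma apply_eq_zero (g : LinearMap.GeneralLinearGroup k M) {x : M}
    (h : (g : Module.End k M) x = 0) : x = 0 := by
  rw [← inv_apply g x, h, map_zero]

lemma cj_zero_iff {g : LinearMap.GeneralLinearGroup k M} {s : Module.End k M} :
    cj g s = 0 ↔ s = 0 := by
  constructor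
  · intro h
    ext x
    have h1 := congrArg (fun f : Module.End k M => f ((g : Module.End k M) x)) h
    simp only [cj_apply, inv_apply] at h1
    exact apply_eq_zero g h1
  · rintro rfl
    unfold cj
    rw [mul_zero, zero_mul]

lemma range_cj (g : LinearMap.GeneralLinearGroup k M) (s : Module.End k M) :
    LinearMap.range (cj g s) = (LinearMap.range s).map (g : Module.End k M) := by
  ext x
  constructor
  · rintro ⟨y, rfl⟩
    exact ⟨_, ⟨_, rfl⟩, rfl⟩
  · rintro ⟨_, ⟨y, rfl⟩, rfl⟩
    refine ⟨(g : Module.End k M) y, ?_⟩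
    rw [cj_apply, inv_apply]

lemma finrank_range_cj (g : LinearMap.GeneralLinearGroup k M) (s : Module.End k M) :
    Module.finrank k (LinearMap.range (cj g s)) = Module.finrank k (LinearMap.range s) := by
  rw [range_cj]
  refine (LinearEquiv.finrank_eq (Submodule.equivMapOfInjective (g : Module.End k M) ?_ _)).symm
  intro x y h
  rw [← inv_apply g x, h, inv_apply]

lemma Mn.conj {s : Module.End k M} (h : Mn G s) {g : LinearMap.GeneralLinearGroup k M} (hg : g ∈ G) :
    Mn G (cj g s) := by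
  refine ⟨h.fam.conj hg, fun h0 => h.ne (cj_zero_iff.1 h0), ?_⟩
  intro t ht ht0
  rw [finrank_range_cj]
  exact h.min t ht ht0

lemma Rel.conj {s t : Module.End k M} (h : Rel G s t) {g : LinearMap.GeneralLinearGroup k M}
    (hg : g ∈ G) : Rel G (cj g s) (cj g t) := by
  refine ⟨Mn.conj h.mn hg, ?_, ?_⟩
  · ext x
    rw [LinearMap.mem_ker, LinearMap.mem_ker, cj_apply, cj_apply]
    constructor
    · intro hx
      have := apply_eq_zero g hx
      rw [ker_iff h.ker] at this
      rw [this, map_zero]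
    · intro hx
      have := apply_eq_zero g hx
      rw [← ker_iff h.ker] at this
      rw [this, map_zero]
  · rw [range_cj, range_cj, h.range]

lemma coe_conj (g σ : LinearMap.GeneralLinearGroup k M) :
    ((g * σ * g⁻¹ : LinearMap.GeneralLinearGroup k M) : M →ₗ[k] M) - 1 =
      cj g ((σ : M →ₗ[k] M) - 1) := by
  show (g : Module.End k M) * σ * ((g⁻¹ : LinearMap.GeneralLinearGroup k M) : Module.End k M) - 1 =
    (g : Module.End k M) * ((σ : Module.End k M) - 1) *
      ((g⁻¹ : LinearMap.GeneralLinearGroup k M) : Module.End k M)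
  rw [mul_sub, sub_mul, mul_one, Units.mul_inv]

section fd
variable [FiniteDimensional k M]

lemma mem_E {σ x : LinearMap.GeneralLinearGroup k M} :
    x ∈ sameActionSubgroup G σ ↔ Rel G ((σ : M →ₗ[k] M) - 1) ((x : M →ₗ[k] M) - 1) ∨ x = 1 :=
  mem_sameActionSubgroup_iff

lemma rel_of_mem {σ x : LinearMap.GeneralLinearGroup k M} (h : x ∈ sameActionSubgroup G σ)
    (hx : x ≠ 1) : Rel G ((σ : M →ₗ[k] M) - 1) ((x : M →ₗ[k] M) - 1) :=
  (mem_E.1 h).resolve_right hx

lemma self_mem {σ : LinearMap.GeneralLinearGroup k M} (h : Mn G ((σ : M →ₗ[k] M) - 1)) :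
    σ ∈ sameActionSubgroup G σ := mem_E.2 (Or.inl (Rel.refl h))

lemma E_eq {σ τ : LinearMap.GeneralLinearGroup k M} (h : Mn G ((σ : M →ₗ[k] M) - 1))
    (hr : Rel G ((σ : M →ₗ[k] M) - 1) ((τ : M →ₗ[k] M) - 1)) :
    sameActionSubgroup G σ = sameActionSubgroup G τ := by
  ext x
  rw [mem_E, mem_E]
  constructor
  · rintro (h1 | h1)
    · exact Or.inl ((hr.symm h).trans h1)
    · exact Or.inr h1
  · rintro (h1 | h1)
    · exact Or.inl (hr.trans h1)
    · exact Or.inr h1

lemma E_eq_of_mem {σ τ : LinearMap.GeneralLinearGroup k M} (h : Mn G ((σ : M →ₗ[k] M) - 1))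
    (hτ : τ ∈ sameActionSubgroup G σ) (h1 : τ ≠ 1) :
    sameActionSubgroup G σ = sameActionSubgroup G τ := E_eq h (rel_of_mem hτ h1)

lemma E_comm (σ : LinearMap.GeneralLinearGroup k M) : IsMulCommutative ↥(sameActionSubgroup G σ) := by
  apply Cfsg.Agent.Lib.RankOneGrp.isMulCommutative_of_commute
  intro a ha b hb
  rcases mem_E.1 ha with h1 | rfl
  · rcases mem_E.1 hb with h2 | rfl
    · apply Units.ext
      have e1 := h1.mul_zero h2
      have e2 := h2.mul_zero h1
      have e3 : (a : Module.End k M) * b - b * a = ((a : Module.End k M) - 1) * (b - 1) -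
          (b - 1) * (a - 1) := by noncomm_ring
      have e4 : (a : Module.End k M) * b - b * a = 0 := by
        rw [e3]; erw [e1, e2, sub_zero]
      exact sub_eq_zero.1 e4
    · simp
  · simp

omit [FiniteDimensional k M] in
lemma ne_one {σ : LinearMap.GeneralLinearGroup k M} (h : Mn G ((σ : M →ₗ[k] M) - 1)) : σ ≠ 1 := by
  rintro rfl
  apply h.ne
  simp

lemma E_conj {σ g : LinearMap.GeneralLinearGroup k M} (hg : g ∈ G) :
    conjBy (sameActionSubgroup G σ) g = sameActionSubgroup G (g * σ * g⁻¹) := by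
  ext x
  rw [Cfsg.Agent.Lib.RankOneGrp.mem_conjBy, mem_E, mem_E, coe_conj]
  have e1 : (((g⁻¹ * x * g : LinearMap.GeneralLinearGroup k M)) : M →ₗ[k] M) - 1 =
      cj g⁻¹ ((x : M →ₗ[k] M) - 1) := by
    rw [← coe_conj, inv_inv]
  have ecj : ∀ y : Module.End k M, cj g (cj g⁻¹ y) = y := by
    intro y
    ext m
    rw [cj_apply, cj_apply, inv_inv, apply_inv, apply_inv]
  have ecj' : ∀ y : Module.End k M, cj g⁻¹ (cj g y) = y := by
    intro y
    ext m
    rw [cj_apply, cj_apply, inv_inv, inv_apply, inv_apply]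
  rw [e1]
  constructor
  · rintro (h1 | h1)
    · left
      have := Rel.conj h1 hg
      rwa [ecj] at this
    · right
      have : x = g * (g⁻¹ * x * g) * g⁻¹ := by group
      rw [this, h1]; group
  · rintro (h1 | h1)
    · left
      have := Rel.conj h1 (G.inv_mem hg)
      rwa [ecj'] at this
    · right
      rw [h1]; group

end fd

end Cfsg.Agent.Lib.QuadPairR
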