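import Cfsg.Agent.Lib.QuadPairR
set_option autoImplicit false

/-!
Root subgroups of quadratic pairs: opposite pairs are special rank one pairs (owner: helper84).
-/

namespace Cfsg.Agent.Lib.QuadPairS
open Subgroup Cfsg
open Cfsg.Agent.Lib.QuadPair
open Cfsg.Agent.Lib.QuadPairU
open Cfsg.Agent.Lib.QuadPairN
open Cfsg.Agent.Lib.QuadPairR
open Cfsg.Agent.Lib.RankOneGrp

section ring

variable {A : Type*} [Ring A] {s t : A}

/-- `s t s = -s`, `t s t = -t`, `s² = t² = 0`. -/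
structure Lk (s t : A) : Prop where
  ss : s * s = 0
  tt : t * t = 0
  sts : s * t * s = -s
  tst : t * s * t = -t

lemma Lk.symm (h : Lk s t) : Lk t s := ⟨h.tt, h.ss, h.tst, h.sts⟩

lemma Lk.neg (h : Lk s t) : Lk (-s) (-t) :=
  ⟨by rw [neg_mul_neg, h.ss], by rw [neg_mul_neg, h.tt],
    by rw [neg_mul_neg, mul_neg, h.sts], by rw [neg_mul_neg, mul_neg, h.tst]⟩

lemma Lk.prod (h : Lk s t) : (1 + s) * (1 + t) * (1 + s) = 1 + s + t + s * t + t * s := by
  have e : (1 + s) * (1 + t) * (1 + s) = 1 + s + s + t + s * t + t * s + s * s + s * t * s := by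
    noncomm_ring
  rw [e, h.ss, h.sts]; abel

lemma Lk.prod' (h : Lk s t) : (1 + t) * (1 + s) * (1 + t) = 1 + s + t + s * t + t * s := by
  rw [h.symm.prod]; abel

lemma Lk.ns (h : Lk s t) : (1 + s + t + s * t + t * s) * s = t * (1 + s + t + s * t + t * s) := by
  have e1 : (1 + s + t + s * t + t * s) * s = s + s * s + t * s + s * t * s + t * (s * s) := by
    noncomm_ring
  have e2 : t * (1 + s + t + s * t + t * s) = t + t * s + t * t + t * s * t + t * t * s := by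
    noncomm_ring
  rw [e1, e2, h.ss, h.tt, h.sts, h.tst, mul_zero, zero_mul]; abel

lemma Lk.sq (h : Lk s t) : (1 + s + t + s * t + t * s) * (1 + s + t + s * t + t * s) =
    1 + (s * t + t * s) + (s * t + t * s) := by
  have e1 : (1 + s + t + s * t + t * s) * (1 + s + t + s * t + t * s) =
      1 + s + t + s * t + t * s + s + s * s + s * t + s * s * t + s * t * s +
      t + t * s + t * t + t * s * t + t * t * s +
      s * t + s * t * s + s * (t * t) + s * t * s * t + s * (t * t) * s +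
      t * s + t * (s * s) + t * s * t + t * (s * s) * t + t * s * t * s := by
    noncomm_ring
  rw [e1, h.ss, h.tt, h.sts, h.tst]
  simp only [mul_zero, zero_mul, neg_mul]
  abel

/-- consequences for units `a = 1 + s`, `b = 1 + t` -/
lemma Lk.braid (h : Lk s t) {a b : Aˣ} (ha : (a : A) = 1 + s) (hb : (b : A) = 1 + t) :
    a * b * a = b * a * b := by
  apply Units.ext
  simp only [Units.val_mul, ha, hb]
  rw [h.prod, h.prod']

lemma Lk.n_coe (h : Lk s t) {a b : Aˣ} (ha : (a : A) = 1 + s) (hb : (b : A) = 1 + t) :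
    ((a * b * a : Aˣ) : A) = 1 + s + t + s * t + t * s := by
  simp only [Units.val_mul, ha, hb]
  rw [h.prod]

lemma Lk.n_conj (h : Lk s t) {a b : Aˣ} (ha : (a : A) = 1 + s) (hb : (b : A) = 1 + t) :
    ((a * b * a : Aˣ) : A) * s * (((a * b * a)⁻¹ : Aˣ) : A) = t := by
  rw [h.n_coe ha hb, h.ns, mul_assoc, ← h.n_coe ha hb, Units.mul_inv, mul_one]

end ring

universe u v

variable {k : Type u} [Field k] {M : Type v} [AddCommGroup M] [Module k M] [FiniteDimensional k M]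
  {G : Subgroup (LinearMap.GeneralLinearGroup k M)}

omit [FiniteDimensional k M] in
lemma mem_G_of_fam {a : LinearMap.GeneralLinearGroup k M} (h : Fam G ((a : M →ₗ[k] M) - 1)) :
    a ∈ G := by
  obtain ⟨g, hg, e⟩ := h.one
  have : a = g := Units.ext (by rw [e]; abel)
  rw [this]; exact hg

lemma E_le {σ : LinearMap.GeneralLinearGroup k M} : sameActionSubgroup G σ ≤ G := by
  intro x hx
  rcases mem_E.1 hx with h | rfl
  · exact mem_G_of_fam h.mn.fam
  · exact G.one_mem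

/-- the element of the root group with given logarithm -/
lemma exists_of_rel {τ : LinearMap.GeneralLinearGroup k M} {t : Module.End k M}
    (h : Rel G ((τ : M →ₗ[k] M) - 1) t) : ∃ b ∈ sameActionSubgroup G τ, b ≠ 1 ∧
      (b : Module.End k M) = 1 + t := by
  refine ⟨un t h.mn.fam.sq, ?_, ?_, rfl⟩
  · rw [mem_E]
    left
    rwa [un_coe, add_sub_cancel_left]
  · intro h1
    apply h.mn.ne
    have := congrArg (fun x : LinearMap.GeneralLinearGroup k M => (x : M →ₗ[k] M)) h1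
    simp only [un_coe, Units.val_one] at this
    simpa using this

/-- Given `a = 1 + s ∈ E(σ)` there is `b = 1 + t ∈ E(τ)` with `Lk s t`. -/
lemma exists_lk (h20 : (2 : k) ≠ 0) (hk3 : Nat.card k ≠ 3) {σ τ : LinearMap.GeneralLinearGroup k M}
    (hσ : Mn G ((σ : M →ₗ[k] M) - 1)) (hτ : Mn G ((τ : M →ₗ[k] M) - 1))
    (ho : Opp ((σ : M →ₗ[k] M) - 1) ((τ : M →ₗ[k] M) - 1)) {a : LinearMap.GeneralLinearGroup k M}
    (ha : a ∈ sameActionSubgroup G σ) (ha1 : a ≠ 1) :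
    ∃ b ∈ sameActionSubgroup G τ, b ≠ 1 ∧
      Lk (A := Module.End k M) ((a : M →ₗ[k] M) - 1) ((b : M →ₗ[k] M) - 1) := by
  have hr := rel_of_mem ha ha1
  obtain ⟨t', h1, h2, h3⟩ := exists_inv h20 hk3 hr.mn hτ (ho.of_rel hr (Rel.refl hτ))
  obtain ⟨b, hb, hb1, e⟩ := exists_of_rel h1
  refine ⟨b, hb, hb1, hr.mn.fam.sq, ?_, ?_, ?_⟩
  · rw [e, add_sub_cancel_left]; exact h1.mn.fam.sq
  · rw [e, add_sub_cancel_left]; exact h2
  · rw [e, add_sub_cancel_left]; exact h3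

/-- conjugation by `n = a b a` interchanges the two root groups -/
lemma n_conj {σ τ : LinearMap.GeneralLinearGroup k M}
    (hσ : Mn G ((σ : M →ₗ[k] M) - 1)) (hτ : Mn G ((τ : M →ₗ[k] M) - 1))
    {a b : LinearMap.GeneralLinearGroup k M}
    (ha : a ∈ sameActionSubgroup G σ) (ha1 : a ≠ 1) (hb : b ∈ sameActionSubgroup G τ) (hb1 : b ≠ 1)
    (h : Lk (A := Module.End k M) ((a : M →ₗ[k] M) - 1) ((b : M →ₗ[k] M) - 1)) :
    conjBy (sameActionSubgroup G σ) (a * b * a) = sameActionSubgroup G τ := by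
  have hG : a * b * a ∈ G := G.mul_mem (G.mul_mem (E_le ha) (E_le hb)) (E_le ha)
  rw [E_eq_of_mem hσ ha ha1, E_conj hG, E_eq_of_mem hτ hb hb1]
  have e : ((a * b * a * a * (a * b * a)⁻¹ : LinearMap.GeneralLinearGroup k M) : M →ₗ[k] M) - 1 =
      (b : M →ₗ[k] M) - 1 := by
    rw [coe_conj]
    exact h.n_conj (a := a) (b := b) (by abel) (by abel)
  have e2 : a * b * a * a * (a * b * a)⁻¹ = b := Units.ext (sub_left_injective e)
  rw [e2]

lemma cond_of_opp (h20 : (2 : k) ≠ 0) (hk3 : Nat.card k ≠ 3) {σ τ : LinearMap.GeneralLinearGroup k M}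
    (hσ : Mn G ((σ : M →ₗ[k] M) - 1)) (hτ : Mn G ((τ : M →ₗ[k] M) - 1))
    (ho : Opp ((σ : M →ₗ[k] M) - 1) ((τ : M →ₗ[k] M) - 1)) :
    ∀ a ∈ sameActionSubgroup G σ, a ≠ 1 → ∃ b ∈ sameActionSubgroup G τ, b ≠ 1 ∧
      conjBy (sameActionSubgroup G σ) b⁻¹ = conjBy (sameActionSubgroup G τ) a⁻¹ ∧
      b⁻¹ * a * b = a⁻¹ * b⁻¹ * a := by
  intro a ha ha1
  have ha' := (sameActionSubgroup G σ).inv_mem ha
  have ha1' : a⁻¹ ≠ 1 := by simpa using ha1
  obtain ⟨b, hb, hb1, hl⟩ := exists_lk h20 hk3 hσ hτ ho ha' ha1'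
  have hn := n_conj hσ hτ ha' ha1' hb hb1 hl
  have hbr : a⁻¹ * b * a⁻¹ = b * a⁻¹ * b := hl.braid (by abel) (by abel)
  refine ⟨b, hb, hb1, ?_, ?_⟩
  · have e1 : b⁻¹ = (a⁻¹ * b) * (a⁻¹ * b * a⁻¹)⁻¹ := by rw [hbr]; group
    have e2 : conjBy (sameActionSubgroup G σ) b⁻¹ =
        conjBy (conjBy (sameActionSubgroup G σ) (a⁻¹ * b * a⁻¹)⁻¹) (a⁻¹ * b) := by
      rw [← conjBy_mul, ← e1]
    have hn' : conjBy (sameActionSubgroup G σ) (a⁻¹ * b * a⁻¹)⁻¹ = sameActionSubgroup G τ := by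
      have hn2 := n_conj hτ hσ hb hb1 ha' ha1' hl.symm
      rw [← hbr] at hn2
      rw [← hn2, conjBy_inv_conjBy]
    rw [e2, hn', conjBy_mul, conjBy_of_mem hb]
  · have h2 : (a⁻¹ * b * a⁻¹)⁻¹ = (b * a⁻¹ * b)⁻¹ := by rw [hbr]
    have h3 : a * b⁻¹ * a = b⁻¹ * a * b⁻¹ := by
      have e1 : (a⁻¹ * b * a⁻¹)⁻¹ = a * b⁻¹ * a := by group
      have e2 : (b * a⁻¹ * b)⁻¹ = b⁻¹ * a * b⁻¹ := by group
      rw [← e1, ← e2, h2]
    calc b⁻¹ * a * b = a⁻¹ * (a * b⁻¹ * a) * b := by group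
      _ = a⁻¹ * (b⁻¹ * a * b⁻¹) * b := by rw [h3]
      _ = a⁻¹ * b⁻¹ * a := by group

omit [FiniteDimensional k M] in
lemma opp_ne {s t : Module.End k M} (hs : Mn G s) (ho : Opp s t) : ¬ Rel G s t := by
  intro h
  apply hs.ne
  ext x
  apply ho.left
  rw [ker_iff h.ker]
  exact congrArg (fun f : Module.End k M => f x) hs.fam.sq

theorem pair_of_opp (h20 : (2 : k) ≠ 0) (hk3 : Nat.card k ≠ 3)
    {σ τ : LinearMap.GeneralLinearGroup k M}
    (hσ : Mn G ((σ : M →ₗ[k] M) - 1)) (hτ : Mn G ((τ : M →ₗ[k] M) - 1))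
    (ho : Opp ((σ : M →ₗ[k] M) - 1) ((τ : M →ₗ[k] M) - 1)) :
    IsRankOnePair (sameActionSubgroup G σ) (sameActionSubgroup G τ) where
  ne := by
    intro h
    have h1 : τ ∈ sameActionSubgroup G σ := by rw [h]; exact self_mem hτ
    exact opp_ne hσ ho (rel_of_mem h1 (ne_one hτ))
  nilpotent_left := Cfsg.Agent.Lib.SL2RankOne.nilpotent_of_comm (E_comm σ)
  nilpotent_right := Cfsg.Agent.Lib.SL2RankOne.nilpotent_of_comm (E_comm τ)
  cond_left := by
    intro a ha ha1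
    obtain ⟨b, hb, hb1, h1, _⟩ := cond_of_opp h20 hk3 hσ hτ ho a ha ha1
    exact ⟨b, hb, hb1, h1⟩
  cond_right := by
    intro a ha ha1
    obtain ⟨b, hb, hb1, h1, _⟩ := cond_of_opp h20 hk3 hτ hσ ho.symm a ha ha1
    exact ⟨b, hb, hb1, h1⟩

theorem special_of_opp (h20 : (2 : k) ≠ 0) (hk3 : Nat.card k ≠ 3)
    {σ τ : LinearMap.GeneralLinearGroup k M}
    (hσ : Mn G ((σ : M →ₗ[k] M) - 1)) (hτ : Mn G ((τ : M →ₗ[k] M) - 1))
    (ho : Opp ((σ : M →ₗ[k] M) - 1) ((τ : M →ₗ[k] M) - 1)) :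
    IsSpecialRankOnePair (sameActionSubgroup G σ) (sameActionSubgroup G τ) := by
  have hp := pair_of_opp h20 hk3 hσ hτ ho
  refine ⟨hp, ?_⟩
  intro a ha ha1 b hb hb1 hc
  obtain ⟨b', hb', hb1', h1, h2⟩ := cond_of_opp h20 hk3 hσ hτ ho a ha ha1
  have : b = b' := by
    have h3 : conjBy (sameActionSubgroup G σ) b⁻¹ = conjBy (sameActionSubgroup G σ) b'⁻¹ := by
      rw [hc, h1]
    exact right_unique hp hb hb' h3
  rw [this]; exact h2

/-! ### The nil case: unipotent -/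

/-- in the nil case all words of length three vanish -/
lemma nil_words (h20 : (2 : k) ≠ 0) (hk3 : Nat.card k ≠ 3) {s t s₁ s₂ t₁ : Module.End k M}
    (hs : Mn G s) (ht : Mn G t) (hn : Nil s t) (h1 : Rel G s s₁) (h2 : Rel G s s₂)
    (h3 : Rel G t t₁) : s₁ * t₁ * s₂ = 0 := by
  have h4 := nil_of_rel h20 hk3 hs ht hn h2 h3
  ext x
  show s₁ (t₁ (s₂ x)) = 0
  rw [ker_iff h1.ker, ← ker_iff h2.ker]
  exact congrArg (fun f : Module.End k M => f x) h4.sts

/-- the logarithms of the elements of both root groups -/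
def RW (G : Subgroup (LinearMap.GeneralLinearGroup k M)) (s t : Module.End k M) :
    Set (Module.End k M) := {x | Rel G s x ∨ Rel G t x}

open scoped Pointwise in
/-- products of logarithms -/
lemma nil_span (h20 : (2 : k) ≠ 0) (hk3 : Nat.card k ≠ 3) {s t : Module.End k M}
    (hs : Mn G s) (ht : Mn G t) (hn : Nil s t) :
    (Submodule.span k (RW G s t)) ^ 3 = ⊥ := by
  have e : (Submodule.span k (RW G s t)) ^ 3 =
      Submodule.span k ((RW G s t) ^ 3) := Submodule.span_pow _ _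
  rw [e, Submodule.span_eq_bot]
  intro x hx
  rw [pow_succ, pow_two, Set.mem_mul] at hx
  obtain ⟨y, hy, c, hc, rfl⟩ := hx
  rw [Set.mem_mul] at hy
  obtain ⟨a, ha, b, hb, rfl⟩ := hy
  rcases ha with ha | ha
  · rcases hb with hb | hb
    · rw [ha.mul_zero hb, zero_mul]
    · rcases hc with hc | hc
      · exact nil_words h20 hk3 hs ht hn ha hc hb
      · rw [mul_assoc, hb.mul_zero hc, mul_zero]
  · rcases hb with hb | hb
    · rcases hc with hc | hc
      · rw [mul_assoc, hb.mul_zero hc, mul_zero]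
      · exact nil_words h20 hk3 ht hs hn.symm ha hc hb
    · rw [ha.mul_zero hb, zero_mul]

theorem unipotent_of_nil (h20 : (2 : k) ≠ 0) (hk3 : Nat.card k ≠ 3)
    {σ τ : LinearMap.GeneralLinearGroup k M}
    (hσ : Mn G ((σ : M →ₗ[k] M) - 1)) (hτ : Mn G ((τ : M →ₗ[k] M) - 1))
    (hn : Nil ((σ : M →ₗ[k] M) - 1) ((τ : M →ₗ[k] M) - 1)) :
    IsUnipotentOn (sameActionSubgroup G σ ⊔ sameActionSubgroup G τ) := by
  set s := (σ : M →ₗ[k] M) - 1 with hs
  set t := (τ : M →ₗ[k] M) - 1 with ht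
  set W : Submodule k (Module.End k M) := Submodule.span k (RW G s t) with hW
  have hW3 : W ^ 3 = ⊥ := nil_span h20 hk3 hσ hτ hn
  have hmulW : (W ⊔ W ^ 2) * W ≤ W ⊔ W ^ 2 := by
    rw [Submodule.sup_mul, ← pow_two, ← pow_succ, hW3, sup_bot_eq]
    exact le_sup_right
  have hmul : (W ⊔ W ^ 2) * (W ⊔ W ^ 2) ≤ W ⊔ W ^ 2 := by
    rw [Submodule.mul_sup]
    refine sup_le hmulW ?_
    rw [pow_two W, ← mul_assoc, ← pow_two W]
    exact (mul_le_mul' hmulW le_rfl).trans hmulW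
  have hS : (W ⊔ W ^ 2) ^ 3 = ⊥ := by
    have h2 : ∀ n m : ℕ, 3 ≤ n + m → W ^ n * W ^ m = ⊥ := by
      intro n m h
      obtain ⟨j, hj⟩ := Nat.exists_eq_add_of_le h
      rw [← pow_add, hj, pow_add, hW3, Submodule.bot_mul]
    rw [pow_succ, pow_two]
    simp only [Submodule.sup_mul, Submodule.mul_sup]
    have e1 : W * W * W = ⊥ := by rw [← pow_two, ← pow_succ, hW3]
    have e2 : W * W * W ^ 2 = ⊥ := by rw [← pow_two]; exact h2 2 2 (by norm_num)
    have e3 : W ^ 2 * W * W = ⊥ := by rw [← pow_succ, hW3, Submodule.bot_mul]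
    have e4 : W ^ 2 * W * W ^ 2 = ⊥ := by rw [← pow_succ, hW3, Submodule.bot_mul]
    have e5 : W * W ^ 2 * W = ⊥ := by rw [← pow_succ', hW3, Submodule.bot_mul]
    have e6 : W * W ^ 2 * W ^ 2 = ⊥ := by rw [← pow_succ', hW3, Submodule.bot_mul]
    have e7 : W ^ 2 * W ^ 2 * W = ⊥ := by
      have := h2 2 2 (by norm_num)
      rw [this, Submodule.bot_mul]
    have e8 : W ^ 2 * W ^ 2 * W ^ 2 = ⊥ := by
      have := h2 2 2 (by norm_num)
      rw [this, Submodule.bot_mul]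
    simp only [e1, e2, e3, e4, e5, e6, e7, e8, bot_sup_eq]
  apply Cfsg.Agent.Lib.LinBaerSuzuki.unipotent_of_pow hS
  rintro _ ⟨g, hg, rfl⟩
  have key : ∀ (ρ a : LinearMap.GeneralLinearGroup k M), (∀ r, Rel G ((ρ : M →ₗ[k] M) - 1) r → r ∈ W) →
      a ∈ sameActionSubgroup G ρ → ∀ x : LinearMap.GeneralLinearGroup k M,
      ((x : M →ₗ[k] M) - 1 : Module.End k M) ∈ W ⊔ W ^ 2 →
      (((a * x : LinearMap.GeneralLinearGroup k M) : M →ₗ[k] M) - 1 : Module.End k M) ∈ W ⊔ W ^ 2 := by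
    intro ρ a hρ ha x hx
    rcases mem_E.1 ha with ha | rfl
    · have h1 : ((a : M →ₗ[k] M) - 1 : Module.End k M) ∈ W ⊔ W ^ 2 :=
        (le_sup_left : W ≤ W ⊔ W ^ 2) (hρ _ ha)
      have e : (((a * x : LinearMap.GeneralLinearGroup k M) : M →ₗ[k] M) - 1 : Module.End k M) =
          ((a : Module.End k M) - 1) * ((x : Module.End k M) - 1) + (((a : Module.End k M) - 1) +
          ((x : Module.End k M) - 1)) := by
        rw [Units.val_mul]; noncomm_ring
      rw [e]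
      exact Submodule.add_mem _ (hmul (Submodule.mul_mem_mul h1 hx)) (Submodule.add_mem _ h1 hx)
    · rwa [one_mul]
  exact Cfsg.Agent.Lib.RankOneGrp.sup_induction
    (p := fun g : LinearMap.GeneralLinearGroup k M =>
      ((g : M →ₗ[k] M) - 1 : Module.End k M) ∈ W ⊔ W ^ 2) (by simp)
    (fun a ha x hx => key σ a (fun r hr => Submodule.subset_span (Or.inl hr)) ha x hx)
    (fun a ha x hx => key τ a (fun r hr => Submodule.subset_span (Or.inr hr)) ha x hx) hg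

/-! ### The involution -/

/-- the group element `-1` on `[M, X]` and `1` on `C_M(X)` -/
theorem exists_inv_elt (h20 : (2 : k) ≠ 0) (hk3 : Nat.card k ≠ 3)
    {σ τ : LinearMap.GeneralLinearGroup k M}
    (hσ : Mn G ((σ : M →ₗ[k] M) - 1)) (hτ : Mn G ((τ : M →ₗ[k] M) - 1))
    (ho : Opp ((σ : M →ₗ[k] M) - 1) ((τ : M →ₗ[k] M) - 1)) :
    ∃ i ∈ sameActionSubgroup G σ ⊔ sameActionSubgroup G τ, ∃ t : Module.End k M,
      Rel G ((τ : M →ₗ[k] M) - 1) t ∧ Lk (A := Module.End k M) ((σ : M →ₗ[k] M) - 1) t ∧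
      (i : Module.End k M) = 1 + (((σ : M →ₗ[k] M) - 1) * t + t * ((σ : M →ₗ[k] M) - 1)) +
        (((σ : M →ₗ[k] M) - 1) * t + t * ((σ : M →ₗ[k] M) - 1)) := by
  obtain ⟨b, hb, hb1, hl⟩ := exists_lk h20 hk3 hσ hτ ho (self_mem hσ) (ne_one hσ)
  refine ⟨σ * b * σ * (σ * b * σ), ?_, (b : M →ₗ[k] M) - 1, rel_of_mem hb hb1, hl, ?_⟩
  · have h1 : σ ∈ sameActionSubgroup G σ ⊔ sameActionSubgroup G τ :=
      (le_sup_left : _ ≤ sameActionSubgroup G σ ⊔ sameActionSubgroup G τ) (self_mem hσ)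
    have h2 : b ∈ sameActionSubgroup G σ ⊔ sameActionSubgroup G τ :=
      (le_sup_right : _ ≤ sameActionSubgroup G σ ⊔ sameActionSubgroup G τ) hb
    have h3 := Subgroup.mul_mem _ (Subgroup.mul_mem _ h1 h2) h1
    exact Subgroup.mul_mem _ h3 h3
  · have e := hl.n_coe (a := σ) (b := b) (by abel) (by abel)
    rw [Units.val_mul, e, hl.sq]

end Cfsg.Agent.Lib.QuadPairS
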