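import Cfsg.Agent.Lib.QuadPairS
set_option autoImplicit false

/-!
Root subgroups of quadratic pairs: the central involution of an opposite pair (owner: helper84).
-/

namespace Cfsg.Agent.Lib.QuadPairT
open Subgroup Cfsg
open Cfsg.Agent.Lib.QuadPair
open Cfsg.Agent.Lib.QuadPairU
open Cfsg.Agent.Lib.QuadPairN
open Cfsg.Agent.Lib.QuadPairR
open Cfsg.Agent.Lib.QuadPairS
open Cfsg.Agent.Lib.RankOneGrp

universe u v

variable {k : Type u} [Field k] {M : Type v} [AddCommGroup M] [Module k M] [FiniteDimensional k M]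
  {G : Subgroup (LinearMap.GeneralLinearGroup k M)}

omit [FiniteDimensional k M] in
lemma mem_fixedSubmodule {H : Subgroup (LinearMap.GeneralLinearGroup k M)} {x : M} :
    x ∈ fixedSubmodule H ↔ ∀ g ∈ H, (g : M →ₗ[k] M) x = x := by
  unfold fixedSubmodule
  simp only [Submodule.mem_iInf, LinearMap.mem_ker]
  constructor
  · intro h g hg
    have := h g hg
    rw [LinearMap.sub_apply] at this
    exact sub_eq_zero.1 this
  · intro h g hg
    rw [LinearMap.sub_apply]
    exact sub_eq_zero.2 (h g hg)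

omit [FiniteDimensional k M] in
lemma mem_commutatorSubmodule {H : Subgroup (LinearMap.GeneralLinearGroup k M)}
    {g : LinearMap.GeneralLinearGroup k M} (hg : g ∈ H) (x : M) :
    ((g : M →ₗ[k] M) - 1) x ∈ commutatorSubmodule H := by
  unfold commutatorSubmodule
  exact (le_iSup₂ (f := fun (g : LinearMap.GeneralLinearGroup k M) (_ : g ∈ H) =>
    LinearMap.range ((g : M →ₗ[k] M) - 1)) g hg) ⟨x, rfl⟩

omit [FiniteDimensional k M] in
lemma commutatorSubmodule_le {H : Subgroup (LinearMap.GeneralLinearGroup k M)} {D : Submodule k M} :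
    commutatorSubmodule H ≤ D ↔ ∀ g ∈ H, ∀ x, ((g : M →ₗ[k] M) - 1) x ∈ D := by
  unfold commutatorSubmodule
  rw [iSup₂_le_iff]
  constructor
  · intro h g hg x
    exact h g hg ⟨x, rfl⟩
  · rintro h g hg _ ⟨x, rfl⟩
    exact h g hg x

omit [FiniteDimensional k M] in
/-- commutator submodule of a join -/
lemma commutatorSubmodule_sup_le {A B : Subgroup (LinearMap.GeneralLinearGroup k M)}
    {D : Submodule k M} (hA : ∀ g ∈ A, ∀ x, ((g : M →ₗ[k] M) - 1) x ∈ D)
    (hB : ∀ g ∈ B, ∀ x, ((g : M →ₗ[k] M) - 1) x ∈ D) : commutatorSubmodule (A ⊔ B) ≤ D := by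
  rw [commutatorSubmodule_le]
  intro g hg
  have step : ∀ (a y : LinearMap.GeneralLinearGroup k M), (∀ x, ((a : M →ₗ[k] M) - 1) x ∈ D) →
      (∀ x, ((y : M →ₗ[k] M) - 1) x ∈ D) →
      ∀ x, (((a * y : LinearMap.GeneralLinearGroup k M) : M →ₗ[k] M) - 1) x ∈ D := by
    intro a y ha hy x
    have e : (((a * y : LinearMap.GeneralLinearGroup k M) : M →ₗ[k] M) - 1) x =
        ((a : M →ₗ[k] M) - 1) ((y : M →ₗ[k] M) x) + ((y : M →ₗ[k] M) - 1) x := by
      simp only [LinearMap.sub_apply]
      show (a : M →ₗ[k] M) ((y : M →ₗ[k] M) x) - x =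
        ((a : M →ₗ[k] M) ((y : M →ₗ[k] M) x) - (y : M →ₗ[k] M) x) + ((y : M →ₗ[k] M) x - x)
      abel
    rw [e]
    exact D.add_mem (ha _) (hy _)
  refine Cfsg.Agent.Lib.RankOneGrp.sup_induction
    (p := fun g : LinearMap.GeneralLinearGroup k M => ∀ x, ((g : M →ₗ[k] M) - 1) x ∈ D) ?_ ?_ ?_ hg
  · intro x; simp
  · intro a ha y hy
    exact step a y (hA a ha) hy
  · intro a ha y hy
    exact step a y (hB a ha) hy

omit [FiniteDimensional k M] in
lemma fixed_sup {A B : Subgroup (LinearMap.GeneralLinearGroup k M)} {x : M}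
    (hA : ∀ g ∈ A, (g : M →ₗ[k] M) x = x) (hB : ∀ g ∈ B, (g : M →ₗ[k] M) x = x) :
    x ∈ fixedSubmodule (A ⊔ B) := by
  rw [mem_fixedSubmodule]
  intro g hg
  refine Cfsg.Agent.Lib.RankOneGrp.sup_induction
    (p := fun g : LinearMap.GeneralLinearGroup k M => (g : M →ₗ[k] M) x = x) ?_ ?_ ?_ hg
  · rfl
  · intro a ha y hy
    show (a : M →ₗ[k] M) ((y : M →ₗ[k] M) x) = x
    rw [hy, hA a ha]
  · intro a ha y hy
    show (a : M →ₗ[k] M) ((y : M →ₗ[k] M) x) = x
    rw [hy, hB a ha]

lemma fixed_of_ker {σ : LinearMap.GeneralLinearGroup k M} {x : M}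
    (hx : ((σ : M →ₗ[k] M) - 1) x = 0) : ∀ g ∈ sameActionSubgroup G σ, (g : M →ₗ[k] M) x = x := by
  intro g hg
  rcases mem_E.1 hg with h | rfl
  · have := (ker_iff h.ker x).2 hx
    rw [LinearMap.sub_apply] at this
    exact sub_eq_zero.1 this
  · rfl

lemma range_E {σ : LinearMap.GeneralLinearGroup k M} : ∀ g ∈ sameActionSubgroup G σ, ∀ x,
    ((g : M →ₗ[k] M) - 1) x ∈ LinearMap.range ((σ : M →ₗ[k] M) - 1) := by
  intro g hg x
  rcases mem_E.1 hg with h | rfl
  · rw [← h.range]; exact ⟨x, rfl⟩
  · simp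

/-- fixed and commutator spaces of `E(σ)` -/
lemma fixedSubmodule_E {σ : LinearMap.GeneralLinearGroup k M} (hσ : Mn G ((σ : M →ₗ[k] M) - 1)) :
    fixedSubmodule (sameActionSubgroup G σ) = LinearMap.ker ((σ : M →ₗ[k] M) - 1) := by
  ext x
  constructor
  · intro h
    rw [mem_fixedSubmodule] at h
    rw [LinearMap.mem_ker, LinearMap.sub_apply]
    exact sub_eq_zero.2 (h σ (self_mem hσ))
  · intro h
    rw [mem_fixedSubmodule]
    exact fixed_of_ker h

lemma commutatorSubmodule_E {σ : LinearMap.GeneralLinearGroup k M}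
    (hσ : Mn G ((σ : M →ₗ[k] M) - 1)) :
    commutatorSubmodule (sameActionSubgroup G σ) = LinearMap.range ((σ : M →ₗ[k] M) - 1) := by
  apply le_antisymm
  · rw [commutatorSubmodule_le]
    exact range_E
  · rintro _ ⟨x, rfl⟩
    exact mem_commutatorSubmodule (self_mem hσ) x

section opp

variable {σ τ : LinearMap.GeneralLinearGroup k M} {t : Module.End k M}

omit [FiniteDimensional k M] in
/-- `s' P = -s'` and `P s' = -s'` with `P = s t + t s` -/
lemma P_left {s t s' : Module.End k M} (hl : Lk (A := Module.End k M) s t) (hr : Rel G s s') :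
    (s * t + t * s) * s' = -s' ∧ s' * (s * t + t * s) = -s' := by
  constructor
  · ext x
    obtain ⟨y, hy⟩ : s' x ∈ LinearMap.range s := by rw [← hr.range]; exact ⟨x, rfl⟩
    show s (t (s' x)) + t (s (s' x)) = -(s' x)
    rw [← hy]
    have e1 : s (t (s y)) = -(s y) := congrArg (fun f : Module.End k M => f y) hl.sts
    have e2 : s (s y) = 0 := congrArg (fun f : Module.End k M => f y) hl.ss
    rw [e1, e2, map_zero, add_zero]
  · ext x
    have e1 : s' (x + (s (t x) + t (s x))) = 0 := by
      rw [ker_iff hr.ker, map_add, map_add]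
      have e1 : s (t (s x)) = -(s x) := congrArg (fun f : Module.End k M => f x) hl.sts
      have e2 : s (s (t x)) = 0 := congrArg (fun f : Module.End k M => f (t x)) hl.ss
      rw [e1, e2]; abel
    rw [map_add] at e1
    show s' (s (t x) + t (s x)) = -(s' x)
    exact (neg_eq_of_add_eq_zero_right e1).symm

theorem involution (h20 : (2 : k) ≠ 0) (hk3 : Nat.card k ≠ 3)
    (hσ : Mn G ((σ : M →ₗ[k] M) - 1)) (hτ : Mn G ((τ : M →ₗ[k] M) - 1))
    (ho : Opp ((σ : M →ₗ[k] M) - 1) ((τ : M →ₗ[k] M) - 1)) :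
    (∃ i : LinearMap.GeneralLinearGroup k M, i ∈ sameActionSubgroup G σ ⊔ sameActionSubgroup G τ ∧
        i ≠ 1 ∧ i * i = 1 ∧
        (∀ x ∈ sameActionSubgroup G σ ⊔ sameActionSubgroup G τ, i * x = x * i) ∧
        (∀ m ∈ commutatorSubmodule (sameActionSubgroup G σ ⊔ sameActionSubgroup G τ),
          (i : M →ₗ[k] M) m = -m) ∧
        (∀ m ∈ fixedSubmodule (sameActionSubgroup G σ ⊔ sameActionSubgroup G τ),
          (i : M →ₗ[k] M) m = m)) ∧
      IsCompl (fixedSubmodule (sameActionSubgroup G σ ⊔ sameActionSubgroup G τ))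
        (commutatorSubmodule (sameActionSubgroup G σ ⊔ sameActionSubgroup G τ)) := by
  obtain ⟨i, hi, t, hrt, hl, ei⟩ := exists_inv_elt h20 hk3 hσ hτ ho
  set s : Module.End k M := (σ : M →ₗ[k] M) - 1 with hs
  set P : Module.End k M := s * t + t * s with hP
  have hPx : ∀ x, P x = s (t x) + t (s x) := fun x => rfl
  have hix : ∀ x, (i : M →ₗ[k] M) x = x + P x + P x := by
    intro x
    rw [ei]; rfl
  have hl' : Lk (A := Module.End k M) t s := hl.symm
  have hP' : t * s + s * t = P := by rw [hP, add_comm]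
  have hPs : ∀ s', Rel G s s' → P * s' = -s' ∧ s' * P = -s' := fun s' h => P_left hl h
  have hPt : ∀ t', Rel G ((τ : M →ₗ[k] M) - 1) t' → P * t' = -t' ∧ t' * P = -t' := by
    intro t' h
    rw [← hP']
    exact P_left hl' ((hrt.symm hτ).trans h)
  have hcomm : ∀ m ∈ commutatorSubmodule (sameActionSubgroup G σ ⊔ sameActionSubgroup G τ),
      (i : M →ₗ[k] M) m = -m := by
    have h1 : commutatorSubmodule (sameActionSubgroup G σ ⊔ sameActionSubgroup G τ) ≤
        LinearMap.ker (P + 1) := by
      apply commutatorSubmodule_sup_le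
      · intro g hg x
        rw [LinearMap.mem_ker]
        rcases mem_E.1 hg with h | rfl
        · have := congrArg (fun f : Module.End k M => f x) (hPs _ h).1
          change P (((g : M →ₗ[k] M) - 1) x) = -(((g : M →ₗ[k] M) - 1) x) at this
          show P (((g : M →ₗ[k] M) - 1) x) + ((g : M →ₗ[k] M) - 1) x = 0
          rw [this]; abel
        · simp
      · intro g hg x
        rw [LinearMap.mem_ker]
        rcases mem_E.1 hg with h | rfl
        · have := congrArg (fun f : Module.End k M => f x) (hPt _ h).1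
          change P (((g : M →ₗ[k] M) - 1) x) = -(((g : M →ₗ[k] M) - 1) x) at this
          show P (((g : M →ₗ[k] M) - 1) x) + ((g : M →ₗ[k] M) - 1) x = 0
          rw [this]; abel
        · simp
    intro m hm
    have h2 := h1 hm
    rw [LinearMap.mem_ker] at h2
    have h3 : P m + m = 0 := h2
    have h4 : P m = -m := eq_neg_of_add_eq_zero_left h3
    rw [hix, h4]; abel
  have hfix : ∀ m ∈ fixedSubmodule (sameActionSubgroup G σ ⊔ sameActionSubgroup G τ),
      (i : M →ₗ[k] M) m = m := by
    intro m hm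
    exact mem_fixedSubmodule.1 hm i hi
  have hcompl : IsCompl (fixedSubmodule (sameActionSubgroup G σ ⊔ sameActionSubgroup G τ))
        (commutatorSubmodule (sameActionSubgroup G σ ⊔ sameActionSubgroup G τ)) := by
    constructor
    · rw [Submodule.disjoint_def]
      intro x hx hx'
      have h1 := hfix x hx
      rw [hcomm x hx'] at h1
      have h2 : (2 : k) • x = 0 := by
        rw [two_smul]
        nth_rewrite 1 [← h1]
        abel
      exact (smul_eq_zero.1 h2).resolve_left h20
    · rw [codisjoint_iff, eq_top_iff]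
      intro x _
      have e : x = (x + P x) + -(P x) := by abel
      rw [e]
      apply Submodule.add_mem_sup
      · apply fixed_sup
        · apply fixed_of_ker
          have := congrArg (fun f : Module.End k M => f x) (hPs s (Rel.refl hσ)).2
          change s (P x) = -(s x) at this
          show s (x + P x) = 0
          rw [map_add, this]; abel
        · apply fixed_of_ker
          have := congrArg (fun f : Module.End k M => f x) (hPt _ (Rel.refl hτ)).2
          change ((τ : M →ₗ[k] M) - 1) (P x) = -(((τ : M →ₗ[k] M) - 1) x) at this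
          rw [map_add, this]; abel
      · apply Submodule.neg_mem
        rw [hPx]
        apply Submodule.add_mem
        · exact mem_commutatorSubmodule ((le_sup_left : _ ≤ sameActionSubgroup G σ ⊔
            sameActionSubgroup G τ) (self_mem hσ)) (t x)
        · obtain ⟨y, hy⟩ : t (s x) ∈ LinearMap.range ((τ : M →ₗ[k] M) - 1) := by
            rw [← hrt.range]; exact ⟨s x, rfl⟩
          rw [← hy]
          exact mem_commutatorSubmodule ((le_sup_right : _ ≤ sameActionSubgroup G σ ⊔
            sameActionSubgroup G τ) (self_mem hτ)) y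
  refine ⟨⟨i, hi, ?_, ?_, ?_, hcomm, hfix⟩, hcompl⟩
  · rintro rfl
    apply hσ.ne
    ext x
    have h1 := hcomm (s x) (mem_commutatorSubmodule ((le_sup_left : _ ≤ sameActionSubgroup G σ ⊔
            sameActionSubgroup G τ) (self_mem hσ)) x)
    have h2 : s x = -(s x) := h1
    have h3 : (2 : k) • s x = 0 := by
      rw [two_smul]
      nth_rewrite 1 [h2]
      abel
    exact (smul_eq_zero.1 h3).resolve_left h20
  · apply Units.ext
    ext x
    obtain ⟨a, ha, b, hb, rfl⟩ := Submodule.mem_sup.1 (show x ∈ fixedSubmodule _ ⊔ _ by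
      rw [hcompl.sup_eq_top]; trivial)
    show (i : M →ₗ[k] M) ((i : M →ₗ[k] M) (a + b)) = a + b
    rw [map_add, hfix a ha, hcomm b hb, map_add, hfix a ha, map_neg, hcomm b hb, neg_neg]
  · intro x hx
    have hi1 : i * i = 1 := by
      apply Units.ext
      ext x
      obtain ⟨a, ha, b, hb, rfl⟩ := Submodule.mem_sup.1 (show x ∈ fixedSubmodule _ ⊔ _ by
        rw [hcompl.sup_eq_top]; trivial)
      show (i : M →ₗ[k] M) ((i : M →ₗ[k] M) (a + b)) = a + b
      rw [map_add, hfix a ha, hcomm b hb, map_add, hfix a ha, map_neg, hcomm b hb, neg_neg]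
    have hcoe : ∀ (a : LinearMap.GeneralLinearGroup k M),
        P * ((a : M →ₗ[k] M) - 1 : Module.End k M) = ((a : M →ₗ[k] M) - 1 : Module.End k M) * P →
        i * a = a * i := by
      intro a ha
      apply Units.ext
      have e1 : (i : Module.End k M) = 1 + P + P := ei
      rw [Units.val_mul, Units.val_mul, e1]
      have e2 : (1 + P + P) * (a : Module.End k M) - a * (1 + P + P) =
          (P * ((a : M →ₗ[k] M) - 1 : Module.End k M) -
            ((a : M →ₗ[k] M) - 1 : Module.End k M) * P) +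
          (P * ((a : M →ₗ[k] M) - 1 : Module.End k M) -
            ((a : M →ₗ[k] M) - 1 : Module.End k M) * P) := by noncomm_ring
      rw [← sub_eq_zero, e2, ha]; abel
    have step : ∀ a y : LinearMap.GeneralLinearGroup k M, i * a = a * i → i * y = y * i →
        i * (a * y) = (a * y) * i := by
      intro a y ha hy
      rw [← mul_assoc, ha, mul_assoc, hy, mul_assoc]
    refine Cfsg.Agent.Lib.RankOneGrp.sup_induction
      (p := fun g : LinearMap.GeneralLinearGroup k M => i * g = g * i) (by simp) ?_ ?_ hx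
    · intro a ha y hy
      refine step a y ?_ hy
      rcases mem_E.1 ha with h | rfl
      · apply hcoe
        rw [(hPs _ h).1, (hPs _ h).2]
      · simp
    · intro a ha y hy
      refine step a y ?_ hy
      rcases mem_E.1 ha with h | rfl
      · apply hcoe
        rw [(hPt _ h).1, (hPt _ h).2]
      · simp

end opp

end Cfsg.Agent.Lib.QuadPairT
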