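import Mathlib
import Cfsg.Agent.Lib.QuadPair
import Cfsg.Agent.Lib.LinBaerSuzuki

/-!
Unipotent pairs of quadratic elements (owner: helper84).
-/
set_option autoImplicit false
open Cfsg

namespace Cfsg.Agent.Lib.QuadPairU

section alg
variable {k : Type*} [Field k] {R : Type*} [Ring R] [Algebra k R]

/-- the alternating word of length `m` starting with `s` -/
def wd (s t : R) : ℕ → R
  | 0 => 1
  | m + 1 => s * wd t s m

theorem wd_zero (s t : R) : wd s t 0 = 1 := rfl
theorem wd_succ (s t : R) (m : ℕ) : wd s t (m + 1) = s * wd t s m := rfl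
theorem wd_one (s t : R) : wd s t 1 = s := by rw [wd_succ, wd_zero, mul_one]

theorem wd_add_two (s t : R) (m : ℕ) : wd s t (m + 2) = s * t * wd s t m := by
  rw [wd_succ, wd_succ, mul_assoc]

theorem wd_odd_eq (s t : R) (j : ℕ) : wd s t (2 * j + 1) = (s * t) ^ j * s := by
  induction j with
  | zero => simp [wd_one]
  | succ j ih =>
    rw [show 2 * (j + 1) + 1 = (2 * j + 1) + 2 by ring, wd_add_two, ih, pow_succ']
    simp only [mul_assoc]

theorem wd_even_eq (s t : R) (j : ℕ) : wd s t (2 * j) = (s * t) ^ j := by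
  induction j with
  | zero => simp [wd_zero]
  | succ j ih =>
    rw [show 2 * (j + 1) = (2 * j) + 2 by ring, wd_add_two, ih, pow_succ']

def V (k : Type*) [Field k] {R : Type*} [Ring R] [Algebra k R] (s t : R) : Submodule k R := Submodule.span k {s, t}

theorem s_mem_V (s t : R) : s ∈ V k s t := Submodule.subset_span (by simp)
theorem t_mem_V (s t : R) : t ∈ V k s t := Submodule.subset_span (by simp)

theorem V_comm (s t : R) : V k s t = V k t s := by
  unfold V; rw [Set.pair_comm]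

theorem V_pow_le {s t : R} (hs : s * s = 0) (ht : t * t = 0) (m : ℕ) :
    (V k s t) ^ m ≤ Submodule.span k {wd s t m, wd t s m} := by
  induction m with
  | zero =>
    rw [pow_zero, Submodule.one_eq_span]
    apply Submodule.span_mono
    simp [wd_zero]
  | succ m ih =>
    rw [pow_succ']
    refine (mul_le_mul' le_rfl ih).trans ?_
    unfold V
    rw [Submodule.span_mul_span, Submodule.span_le]
    rintro _ ⟨x, hx, y, hy, rfl⟩
    have key : ∀ a b : R, a * a = 0 → a * wd a b m = 0 ∨ a * wd a b m = wd a b (m + 1) := by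
      intro a b ha
      cases m with
      | zero => right; rw [wd_succ, wd_zero, wd_zero]
      | succ m => left; rw [wd_succ, ← mul_assoc, ha, zero_mul]
    rcases hx with rfl | hx
    · rcases hy with rfl | hy
      · rcases key x t hs with h | h
        · show x * wd x t m ∈ _
          rw [h]; exact Submodule.zero_mem _
        · show x * wd x t m ∈ _
          rw [h]; exact Submodule.subset_span (by simp)
      · rw [Set.mem_singleton_iff] at hy; subst hy
        exact Submodule.subset_span (by left; rfl)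
    · rw [Set.mem_singleton_iff] at hx; subst hx
      rcases hy with rfl | hy
      · exact Submodule.subset_span (by right; rfl)
      · rw [Set.mem_singleton_iff] at hy; subst hy
        rcases key x s ht with h | h
        · show x * wd x s m ∈ _
          rw [h]; exact Submodule.zero_mem _
        · show x * wd x s m ∈ _
          rw [h]; exact Submodule.subset_span (by simp)

theorem wd_mem_V_pow (s t : R) (m : ℕ) : wd s t m ∈ (V k s t) ^ m ∧ wd t s m ∈ (V k s t) ^ m := by
  induction m with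
  | zero => rw [pow_zero, wd_zero, wd_zero]; exact ⟨Submodule.one_le.mp le_rfl, Submodule.one_le.mp le_rfl⟩
  | succ m ih =>
    rw [pow_succ', wd_succ, wd_succ]
    exact ⟨Submodule.mul_mem_mul (s_mem_V s t) ih.2, Submodule.mul_mem_mul (t_mem_V s t) ih.1⟩

/-- unital algebra generated -/
def U (k : Type*) [Field k] {R : Type*} [Ring R] [Algebra k R] (s t : R) : Submodule k R :=
  Subalgebra.toSubmodule (Algebra.adjoin k {s, t})

theorem U_mul_U (s t : R) : U k s t * U k s t ≤ U k s t := by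
  rw [Submodule.mul_le]
  intro x hx y hy
  exact Subalgebra.mul_mem (Algebra.adjoin k {s, t}) hx hy

theorem one_le_U (s t : R) : (1 : Submodule k R) ≤ U k s t := Submodule.one_le.mpr (Subalgebra.one_mem (Algebra.adjoin k {s, t}))

theorem V_le_U (s t : R) : V k s t ≤ U k s t := Submodule.span_le.mpr Algebra.subset_adjoin

theorem U_mul_V (s t : R) : U k s t * V k s t ≤ V k s t * U k s t := by
  rw [Submodule.mul_le]
  intro x hx v hv
  have : ∀ x ∈ Algebra.adjoin k {s, t}, ∀ v ∈ V k s t, x * v ∈ V k s t * U k s t := by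
    intro x hx
    induction hx using Algebra.adjoin_induction with
    | mem x hx =>
      intro v hv
      exact Submodule.mul_mem_mul (Submodule.subset_span hx) (V_le_U s t hv)
    | algebraMap r =>
      intro v hv
      rw [← Algebra.smul_def]
      refine Submodule.smul_mem _ _ ?_
      have h1 : (1 : R) ∈ U k s t := Subalgebra.one_mem (Algebra.adjoin k {s, t})
      have := Submodule.mul_mem_mul hv h1
      rwa [mul_one] at this
    | add x y _ _ hx hy =>
      intro v hv
      rw [add_mul]; exact Submodule.add_mem _ (hx v hv) (hy v hv)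
    | mul x y _ _ hx hy =>
      intro v hv
      rw [mul_assoc]
      have h2 : ∀ w ∈ V k s t * U k s t, x * w ∈ V k s t * U k s t := by
        intro w hw
        induction hw using Submodule.mul_induction_on' with
        | mem_mul_mem m hm n hn =>
          rw [← mul_assoc]
          have h3 : x * m * n ∈ (V k s t * U k s t) * U k s t := Submodule.mul_mem_mul (hx m hm) hn
          have h4 : (V k s t * U k s t) * U k s t ≤ V k s t * U k s t := by
            rw [mul_assoc]; exact mul_le_mul' le_rfl (U_mul_U s t)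
          exact h4 h3
        | add a ha b hb h3 h4 => rw [mul_add]; exact Submodule.add_mem _ h3 h4
      exact h2 _ (hy v hv)
  exact this x hx v hv

theorem U_mul_V_pow (s t : R) (j : ℕ) : U k s t * (V k s t) ^ j ≤ (V k s t) ^ j * U k s t := by
  induction j with
  | zero => simp
  | succ j ih =>
    rw [pow_succ]
    calc U k s t * ((V k s t) ^ j * V k s t) = (U k s t * (V k s t) ^ j) * V k s t := (mul_assoc _ _ _).symm
      _ ≤ ((V k s t) ^ j * U k s t) * V k s t := mul_le_mul' ih le_rfl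
      _ = (V k s t) ^ j * (U k s t * V k s t) := mul_assoc _ _ _
      _ ≤ (V k s t) ^ j * (V k s t * U k s t) := mul_le_mul' le_rfl (U_mul_V s t)
      _ = _ := by rw [mul_assoc]

/-- the filtration -/
def F (k : Type*) [Field k] {R : Type*} [Ring R] [Algebra k R] (s t : R) (i : ℕ) : Submodule k R := (V k s t) ^ i * U k s t

theorem F_mul (s t : R) (i j : ℕ) : F k s t i * F k s t j ≤ F k s t (i + j) := by
  unfold F
  calc (V k s t) ^ i * U k s t * ((V k s t) ^ j * U k s t)
      = (V k s t) ^ i * (U k s t * (V k s t) ^ j) * U k s t := by simp only [mul_assoc]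
    _ ≤ (V k s t) ^ i * ((V k s t) ^ j * U k s t) * U k s t := mul_le_mul' (mul_le_mul' le_rfl (U_mul_V_pow s t j)) le_rfl
    _ = (V k s t) ^ (i + j) * (U k s t * U k s t) := by rw [pow_add]; simp only [mul_assoc]
    _ ≤ _ := mul_le_mul' le_rfl (U_mul_U s t)

theorem F_anti (s t : R) (i : ℕ) : F k s t (i + 1) ≤ F k s t i := by
  unfold F
  rw [pow_succ, mul_assoc]
  exact mul_le_mul' le_rfl ((mul_le_mul' (V_le_U s t) le_rfl).trans (U_mul_U s t))

theorem F_anti' (s t : R) {i j : ℕ} (h : i ≤ j) : F k s t j ≤ F k s t i := by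
  induction h with
  | refl => exact le_rfl
  | step _ ih => exact (F_anti s t _).trans ih

theorem V_pow_le_F (s t : R) (i : ℕ) : (V k s t) ^ i ≤ F k s t i := by
  unfold F
  calc (V k s t) ^ i = (V k s t) ^ i * 1 := (mul_one _).symm
    _ ≤ _ := mul_le_mul' le_rfl (one_le_U s t)

theorem F_le_of_pow_eq_bot {s t : R} {i : ℕ} (h : (V k s t) ^ (i + 1) = ⊥) : F k s t i ≤ (V k s t) ^ i := by
  unfold F
  rw [Submodule.mul_le]
  intro v hv x hx
  have : ∀ x ∈ Algebra.adjoin k {s, t}, ∀ v ∈ (V k s t) ^ i, v * x ∈ (V k s t) ^ i := by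
    intro x hx
    induction hx using Algebra.adjoin_induction with
    | mem x hx =>
      intro v hv
      have h1 : v * x ∈ (V k s t) ^ (i + 1) := by
        rw [pow_succ]; exact Submodule.mul_mem_mul hv (Submodule.subset_span hx)
      rw [h] at h1
      rw [(Submodule.mem_bot k).mp h1]; exact Submodule.zero_mem _
    | algebraMap r =>
      intro v hv
      rw [← Algebra.commutes, ← Algebra.smul_def]
      exact Submodule.smul_mem _ _ hv
    | add x y _ _ hx hy =>
      intro v hv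
      rw [mul_add]; exact Submodule.add_mem _ (hx v hv) (hy v hv)
    | mul x y _ _ hx hy =>
      intro v hv
      rw [← mul_assoc]; exact hy _ (hx v hv)
  exact this x hx v hv

/-- graded pieces realised by group elements -/
def GrP (G : Subgroup Rˣ) (k : Type*) [Field k] [Algebra k R] (s t : R) (i : ℕ) (x : R) : Prop :=
  x ∈ F k s t i ∧ ∀ a : k, ∃ g ∈ G, (g : R) - 1 - a • x ∈ F k s t (i + 1) ∧ ((g⁻¹ : Rˣ) : R) - 1 ∈ F k s t 1

theorem GrP.smul {G : Subgroup Rˣ} {s t : R} {i : ℕ} {x : R} (h : GrP G k s t i x) (c : k) : GrP G k s t i (c • x) := by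
  refine ⟨Submodule.smul_mem _ _ h.1, fun a => ?_⟩
  obtain ⟨g, hg, h1, h2⟩ := h.2 (a * c)
  exact ⟨g, hg, by rwa [smul_smul], h2⟩

theorem GrP.step {G : Subgroup Rˣ} {s t : R} {i : ℕ} {x : R} (h : GrP G k s t i x) {y : R} (hy : y ∈ V k s t)
    {e : Rˣ} (he : e ∈ G) (he1 : (e : R) = 1 + y) (he2 : ((e⁻¹ : Rˣ) : R) = 1 - y) : GrP G k s t (i + 1) (x * y - y * x) := by
  have hyF : y ∈ F k s t 1 := by
    have := V_pow_le_F (k := k) s t 1
    rw [pow_one] at this; exact this hy
  have hxy : ∀ (j : ℕ) (u : R), u ∈ F k s t j → u * y - y * u ∈ F k s t (j + 1) := by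
    intro j u hu
    refine Submodule.sub_mem _ (F_mul s t j 1 (Submodule.mul_mem_mul hu hyF)) ?_
    have := F_mul s t 1 j (Submodule.mul_mem_mul hyF hu)
    rwa [add_comm] at this
  refine ⟨hxy i x h.1, fun a => ?_⟩
  obtain ⟨g, hg, h1, h2⟩ := h.2 a
  refine ⟨g * e * g⁻¹ * e⁻¹, G.mul_mem (G.mul_mem (G.mul_mem hg he) (G.inv_mem hg)) (G.inv_mem he), ?_, ?_⟩
  · set r := (g : R) - 1 - a • x with hr
    set p := ((g⁻¹ : Rˣ) : R) - 1 with hp
    have hgr : (g : R) = 1 + (a • x + r) := by rw [hr]; abel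
    have hgp : ((g⁻¹ : Rˣ) : R) = 1 + p := by rw [hp]; abel
    have hmain : ((g * e * g⁻¹ * e⁻¹ : Rˣ) : R) - 1 = ((g : R) * e - e * g) * (((g⁻¹ : Rˣ) : R) * ((e⁻¹ : Rˣ) : R)) := by
      rw [sub_mul]
      have h3 : (e : R) * g * (((g⁻¹ : Rˣ) : R) * ((e⁻¹ : Rˣ) : R)) = 1 := by
        rw [← mul_assoc, mul_assoc (e : R), Units.mul_inv, mul_one, Units.mul_inv]
      rw [h3]
      simp only [Units.val_mul, mul_assoc]
    have hcomm : (g : R) * e - e * g = a • (x * y - y * x) + (r * y - y * r) := by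
      rw [hgr, he1, smul_sub, ← smul_mul_assoc, ← mul_smul_comm]
      generalize a • x = X
      noncomm_ring
    have hδ : ((g⁻¹ : Rˣ) : R) * ((e⁻¹ : Rˣ) : R) = 1 + (p - y - p * y) := by
      rw [hgp, he2]; noncomm_ring
    have hδF : p - y - p * y ∈ F k s t 1 := by
      refine Submodule.sub_mem _ (Submodule.sub_mem _ h2 hyF) ?_
      exact F_anti s t 1 (F_mul s t 1 1 (Submodule.mul_mem_mul h2 hyF))
    have hc1 : a • (x * y - y * x) + (r * y - y * r) ∈ F k s t (i + 1) := by
      refine Submodule.add_mem _ (Submodule.smul_mem _ _ (hxy i x h.1)) ?_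
      exact F_anti s t _ (hxy (i + 1) r h1)
    rw [hmain, hcomm, hδ]
    have : (a • (x * y - y * x) + (r * y - y * r)) * (1 + (p - y - p * y)) - a • (x * y - y * x) =
        (r * y - y * r) + (a • (x * y - y * x) + (r * y - y * r)) * (p - y - p * y) := by
      rw [mul_add, mul_one]; abel
    rw [this]
    refine Submodule.add_mem _ (hxy (i + 1) r h1) ?_
    exact F_mul s t (i + 1) 1 (Submodule.mul_mem_mul hc1 hδF)
  · set r := (g : R) - 1 - a • x with hr
    set p := ((g⁻¹ : Rˣ) : R) - 1 with hp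
    have hgr : (g : R) = 1 + (a • x + r) := by rw [hr]; abel
    have hgp : ((g⁻¹ : Rˣ) : R) = 1 + p := by rw [hp]; abel
    have hmain : (((g * e * g⁻¹ * e⁻¹)⁻¹ : Rˣ) : R) - 1 = ((e : R) * g - g * e) * (((e⁻¹ : Rˣ) : R) * ((g⁻¹ : Rˣ) : R)) := by
      rw [sub_mul]
      have h3 : (g : R) * e * (((e⁻¹ : Rˣ) : R) * ((g⁻¹ : Rˣ) : R)) = 1 := by
        rw [← mul_assoc, mul_assoc (g : R), Units.mul_inv, mul_one, Units.mul_inv]
      rw [h3]
      have h4 : (g * e * g⁻¹ * e⁻¹)⁻¹ = e * g * (e⁻¹ * g⁻¹) := by group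
      rw [h4]
      simp only [Units.val_mul, mul_assoc]
    have hcomm : (e : R) * g - g * e = -(a • (x * y - y * x) + (r * y - y * r)) := by
      rw [hgr, he1, smul_sub, ← smul_mul_assoc, ← mul_smul_comm]
      generalize a • x = X
      noncomm_ring
    have hδ : ((e⁻¹ : Rˣ) : R) * ((g⁻¹ : Rˣ) : R) = 1 + (p - y - y * p) := by
      rw [hgp, he2]; noncomm_ring
    have hδF : p - y - y * p ∈ F k s t 1 := by
      refine Submodule.sub_mem _ (Submodule.sub_mem _ h2 hyF) ?_
      exact F_anti s t 1 (F_mul s t 1 1 (Submodule.mul_mem_mul hyF h2))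
    have hc1 : a • (x * y - y * x) + (r * y - y * r) ∈ F k s t (i + 1) := by
      refine Submodule.add_mem _ (Submodule.smul_mem _ _ (hxy i x h.1)) ?_
      exact F_anti s t _ (hxy (i + 1) r h1)
    have hc2 : a • (x * y - y * x) + (r * y - y * r) ∈ F k s t 1 := F_anti' s t (by omega) hc1
    rw [hmain, hcomm, hδ, mul_add, mul_one]
    refine Submodule.add_mem _ (Submodule.neg_mem _ hc2) ?_
    exact F_anti s t 1 (F_mul s t 1 1 (Submodule.mul_mem_mul (Submodule.neg_mem _ hc2) hδF))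

/-- odd words are realised -/
theorem GrP_odd {G : Subgroup Rˣ} {s t : R} (hs : s * s = 0) (h2 : (2 : k) ≠ 0)
    (hsG : ∀ c : k, ∃ g ∈ G, (g : R) = 1 + c • s ∧ ((g⁻¹ : Rˣ) : R) = 1 - c • s)
    (htG : ∀ c : k, ∃ g ∈ G, (g : R) = 1 + c • t ∧ ((g⁻¹ : Rˣ) : R) = 1 - c • t) (j : ℕ) :
    GrP G k s t (2 * j + 1) (wd s t (2 * j + 1)) := by
  induction j with
  | zero =>
    have hsF : s ∈ F k s t 1 := by
      have := V_pow_le_F (k := k) s t 1
      rw [pow_one] at this; exact this (s_mem_V s t)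
    rw [mul_zero, zero_add, wd_one]
    refine ⟨hsF, fun a => ?_⟩
    obtain ⟨g, hg, h1, h2⟩ := hsG a
    refine ⟨g, hg, ?_, ?_⟩
    · rw [h1, add_sub_cancel_left, sub_self]; exact Submodule.zero_mem _
    · rw [h2, sub_sub_cancel_left]
      exact Submodule.neg_mem _ (Submodule.smul_mem _ _ hsF)
  | succ j ih =>
    obtain ⟨e, he, he1, he2⟩ := htG 1
    rw [one_smul] at he1 he2
    obtain ⟨f, hf, hf1, hf2⟩ := hsG 1
    rw [one_smul] at hf1 hf2
    have h3 := (ih.step (t_mem_V s t) he he1 he2).step (s_mem_V s t) hf hf1 hf2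
    have h4 := h3.smul (2⁻¹ : k)
    set x := wd s t (2 * j + 1) with hx
    have hxs : x * s = 0 := by rw [hx, wd_odd_eq, mul_assoc, hs, mul_zero]
    have hsx : s * x = 0 := by rw [hx, wd_succ, ← mul_assoc, hs, zero_mul]
    have e1 : s * t * x = wd s t (2 * (j + 1) + 1) := by
      rw [show 2 * (j + 1) + 1 = (2 * j + 1) + 2 by ring, wd_add_two]
    have e2 : x * t * s = wd s t (2 * (j + 1) + 1) := by
      rw [hx, wd_odd_eq, wd_odd_eq, pow_succ]; simp only [mul_assoc]
    have e3 : (x * t - t * x) * s - s * (x * t - t * x) = (2 : k) • wd s t (2 * (j + 1) + 1) := by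
      have : (x * t - t * x) * s - s * (x * t - t * x) = x * t * s - t * (x * s) - (s * x) * t + s * t * x := by noncomm_ring
      rw [this, hxs, hsx, e1, e2, mul_zero, zero_mul, sub_zero, sub_zero, two_smul]
    rw [e3, smul_smul, inv_mul_cancel₀ h2, one_smul] at h4
    exact h4

/-- doubled version: with nilpotency, the odd word of length `2J+1` has its whole family inside `G`. -/
theorem odd_family {G : Subgroup Rˣ} {s t : R} (hs : s * s = 0) (ht : t * t = 0) (h2 : (2 : k) ≠ 0)
    (hsG : ∀ c : k, ∃ g ∈ G, (g : R) = 1 + c • s) (htG : ∀ c : k, ∃ g ∈ G, (g : R) = 1 + c • t) {J : ℕ}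
    (hV : (V k s t) ^ (2 * J + 3) = ⊥) (c : k) : ∃ g ∈ G, (g : R) = 1 + c • wd s t (2 * J + 1) := by
  -- the doubled situation
  let s' : R × R := (s, -s)
  let t' : R × R := (t, -t)
  let G' : Subgroup (R × R)ˣ := (G.prod G).comap (MulEquiv.prodUnits : (R × R)ˣ ≃* Rˣ × Rˣ).toMonoidHom
  have hs' : s' * s' = 0 := by ext <;> simp [s', hs]
  have ht' : t' * t' = 0 := by ext <;> simp [t', ht]
  have inv_of : ∀ (y : R) (hy : y * y = 0) (g : Rˣ), (g : R) = 1 + y → ((g⁻¹ : Rˣ) : R) = 1 - y := by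
    intro y hy g hg
    rw [← mul_one ((g⁻¹ : Rˣ) : R)]
    have : (1 : R) = (g : R) * (1 - y) := by rw [hg, add_mul, one_mul, mul_sub, mul_one, hy]; abel
    conv_lhs => rw [this]
    rw [← mul_assoc, Units.inv_mul, one_mul]
  have mk : ∀ (y : R) (hy : y * y = 0) (hyG : ∀ c : k, ∃ g ∈ G, (g : R) = 1 + c • y), ∀ c : k,
      ∃ g ∈ G', (g : R × R) = 1 + c • ((y, -y) : R × R) ∧ ((g⁻¹ : (R × R)ˣ) : R × R) = 1 - c • ((y, -y) : R × R) := by
    intro y hy hyG c
    obtain ⟨g, hg, hge⟩ := hyG c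
    obtain ⟨h, hh, hhe⟩ := hyG (-c)
    have hcy : (c • y) * (c • y) = 0 := by rw [smul_mul_smul_comm, hy, smul_zero]
    have hcy' : ((-c) • y) * ((-c) • y) = 0 := by rw [smul_mul_smul_comm, hy, smul_zero]
    refine ⟨(MulEquiv.prodUnits : (R × R)ˣ ≃* Rˣ × Rˣ).symm (g, h), ?_, ?_, ?_⟩
    · show (MulEquiv.prodUnits : (R × R)ˣ ≃* Rˣ × Rˣ) ((MulEquiv.prodUnits : (R × R)ˣ ≃* Rˣ × Rˣ).symm (g, h)) ∈ G.prod G
      rw [MulEquiv.apply_symm_apply]
      exact ⟨hg, hh⟩
    · show ((g : R), (h : R)) = _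
      rw [hge, hhe]
      ext <;> simp
    · have : ((MulEquiv.prodUnits : (R × R)ˣ ≃* Rˣ × Rˣ).symm (g, h))⁻¹ = (MulEquiv.prodUnits : (R × R)ˣ ≃* Rˣ × Rˣ).symm (g⁻¹, h⁻¹) := by
        rw [← map_inv]; rfl
      rw [this]
      show (((g⁻¹ : Rˣ) : R), ((h⁻¹ : Rˣ) : R)) = _
      rw [inv_of _ hcy g hge, inv_of _ hcy' h hhe]
      ext <;> simp
  have wd_prod : ∀ (m : ℕ) (a b : R), wd ((a, -a) : R × R) (b, -b) m = (wd a b m, (-1 : k) ^ m • wd a b m) := by
    intro m
    induction m with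
    | zero => intro a b; simp [wd_zero]; rfl
    | succ m ih =>
      intro a b
      rw [wd_succ, ih, wd_succ]
      ext
      · rfl
      · show -a * ((-1 : k) ^ m • wd b a m) = (-1 : k) ^ (m + 1) • (a * wd b a m)
        rw [pow_succ, mul_neg_one, neg_smul, mul_smul_comm, neg_mul, smul_neg]
  have hwz : wd s t (2 * J + 3) = 0 ∧ wd t s (2 * J + 3) = 0 := by
    have := wd_mem_V_pow (k := k) s t (2 * J + 3)
    rw [hV] at this
    exact ⟨(Submodule.mem_bot k).mp this.1, (Submodule.mem_bot k).mp this.2⟩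
  have hV' : (V k s' t') ^ (2 * J + 3) = ⊥ := by
    rw [eq_bot_iff]
    refine (V_pow_le hs' ht' (2 * J + 3)).trans ?_
    rw [Submodule.span_le]
    rintro x (rfl | hx)
    · show wd s' t' (2 * J + 3) ∈ (⊥ : Submodule k (R × R))
      rw [wd_prod, hwz.1, smul_zero]; exact Submodule.zero_mem _
    · rw [Set.mem_singleton_iff] at hx
      subst hx
      show wd t' s' (2 * J + 3) ∈ (⊥ : Submodule k (R × R))
      rw [wd_prod, hwz.2, smul_zero]; exact Submodule.zero_mem _
  have hG := GrP_odd (G := G') (k := k) hs' h2 (mk s hs hsG) (mk t ht htG) J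
  obtain ⟨g, hg, h1, -⟩ := hG.2 (2⁻¹ * c)
  have h3 : (g : R × R) - 1 - (2⁻¹ * c) • wd s' t' (2 * J + 1) ∈ Submodule.span k {wd s' t' (2 * J + 2), wd t' s' (2 * J + 2)} :=
    V_pow_le hs' ht' _ (F_le_of_pow_eq_bot hV' h1)
  rw [Submodule.mem_span_pair] at h3
  obtain ⟨p, q, hpq⟩ := h3
  rw [wd_prod, wd_prod, wd_prod] at hpq
  have hodd : (-1 : k) ^ (2 * J + 1) = -1 := Odd.neg_one_pow ⟨J, rfl⟩
  have heven : (-1 : k) ^ (2 * J + 2) = 1 := Even.neg_one_pow ⟨J + 1, by ring⟩
  rw [hodd, heven, one_smul, one_smul] at hpq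
  set w := wd s t (2 * J + 1) with hw
  set A := wd s t (2 * J + 2) with hA
  set B := wd t s (2 * J + 2) with hB
  have hg1 := congrArg Prod.fst hpq
  have hg2 := congrArg Prod.snd hpq
  simp only [Prod.fst_add, Prod.fst_sub, Prod.smul_fst, Prod.fst_one, Prod.snd_add, Prod.snd_sub, Prod.smul_snd, Prod.snd_one] at hg1 hg2
  have hgG : (MulEquiv.prodUnits : (R × R)ˣ ≃* Rˣ × Rˣ) g ∈ G.prod G := hg
  set g₁ := ((MulEquiv.prodUnits : (R × R)ˣ ≃* Rˣ × Rˣ) g).1 with hg₁
  set g₂ := ((MulEquiv.prodUnits : (R × R)ˣ ≃* Rˣ × Rˣ) g).2 with hg₂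
  have hg₁v : (g₁ : R) = (g : R × R).1 := rfl
  have hg₂v : (g₂ : R) = (g : R × R).2 := rfl
  rw [← hg₁v] at hg1
  rw [← hg₂v] at hg2
  refine ⟨g₁ * g₂⁻¹, G.mul_mem hgG.1 (G.inv_mem hgG.2), ?_⟩
  have hw2 : w * w = 0 := by
    rw [hw]
    conv_lhs => rw [wd_odd_eq, mul_assoc]
    rw [← wd_odd_eq, wd_succ, ← mul_assoc s s, hs, zero_mul, mul_zero]
  have hlong : ∀ a b : R, a ∈ (V k s t) ^ (2 * J + 1) → b ∈ (V k s t) ^ (2 * J + 2) → a * b = 0 := by
    intro a b ha hb
    have h5 : a * b ∈ (V k s t) ^ (2 * J + 3) * (V k s t) ^ (2 * J) := by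
      rw [← pow_add, show 2 * J + 3 + 2 * J = (2 * J + 1) + (2 * J + 2) by ring, pow_add]
      exact Submodule.mul_mem_mul ha hb
    rw [hV, Submodule.bot_mul] at h5
    exact (Submodule.mem_bot k).mp h5
  have hwA : w * A = 0 := hlong _ _ (wd_mem_V_pow s t _).1 (wd_mem_V_pow s t _).1
  have hwB : w * B = 0 := hlong _ _ (wd_mem_V_pow s t _).1 (wd_mem_V_pow s t _).2
  have e1 : (g₁ : R) = 1 + (2⁻¹ * c) • w + (p • A + q • B) := by
    rw [hg1]; abel
  have e2 : (g₂ : R) = 1 - (2⁻¹ * c) • w + (p • A + q • B) := by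
    rw [hg2, neg_one_smul, smul_neg]; abel
  have e3 : (1 + c • w) * (g₂ : R) = g₁ := by
    rw [e1, e2, mul_add, add_mul, one_mul, mul_sub, mul_one, smul_mul_smul_comm, hw2, smul_zero, mul_add (1 + c • w),
      add_mul, add_mul, smul_mul_smul_comm, smul_mul_smul_comm, hwA, hwB, smul_zero, smul_zero]
    have : c • w = (2⁻¹ * c) • w + (2⁻¹ * c) • w := by
      rw [← add_smul]; congr 1; field_simp; norm_num
    conv_lhs => rw [this]
    rw [one_mul, one_mul]; abel
  rw [Units.val_mul, ← e3, mul_assoc, Units.mul_inv, mul_one]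

theorem pow_eq_bot_of_le {s t : R} {m n : ℕ} (h : (V k s t) ^ m = ⊥) (hmn : m ≤ n) : (V k s t) ^ n = ⊥ := by
  obtain ⟨j, rfl⟩ := Nat.exists_eq_add_of_le hmn
  rw [pow_add, h, Submodule.bot_mul]

end alg

section lin
open QuadPair
variable {k : Type*} [Field k] {M : Type*} [AddCommGroup M] [Module k M] [FiniteDimensional k M]

omit [FiniteDimensional k M] in
theorem range_iterate {s φ : Module.End k M} (h : LinearMap.range s ≤ LinearMap.range (φ * s)) (n : ℕ) :
    LinearMap.range s ≤ LinearMap.range (φ ^ n * s) := by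
  induction n with
  | zero => simp
  | succ n ih =>
    intro x hx
    obtain ⟨m, rfl⟩ := h hx
    obtain ⟨m', hm'⟩ := ih ⟨m, rfl⟩
    refine ⟨m', ?_⟩
    rw [pow_succ']
    show φ ((φ ^ n * s) m') = φ (s m)
    rw [hm']

theorem word_zero {G : Subgroup (LinearMap.GeneralLinearGroup k M)} {s t : Module.End k M} (hs : Mn G s) (ht : Mn G t)
    (h2 : (2 : k) ≠ 0) {N : ℕ} (hN : (V k s t) ^ N = ⊥) {J : ℕ} (hJ : (V k s t) ^ (2 * (J + 1) + 3) = ⊥) :
    wd s t (2 * (J + 1) + 1) = 0 := by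
  by_contra hne
  have hfam : Fam G (wd s t (2 * (J + 1) + 1)) := by
    refine ⟨?_, fun c => ?_⟩
    · conv_lhs => rw [wd_odd_eq, mul_assoc]
      rw [← wd_odd_eq, wd_succ, ← mul_assoc s s, hs.fam.sq, zero_mul, mul_zero]
    · exact odd_family (G := G) hs.fam.sq ht.fam.sq h2 (fun c => hs.fam.has c) (fun c => ht.fam.has c) hJ c
  have hr : LinearMap.range (wd s t (2 * (J + 1) + 1)) ≤ LinearMap.range s := by
    rw [wd_succ]
    exact LinearMap.range_comp_le_range _ _
  have h1 := hs.same hfam hne hr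
  rw [wd_odd_eq] at h1
  have h3 := range_iterate h1.ge N
  have h4 : ((s * t) ^ (J + 1)) ^ N * s = 0 := by
    rw [← pow_mul, ← wd_odd_eq]
    have h5 := (wd_mem_V_pow (k := k) s t (2 * ((J + 1) * N) + 1)).1
    have h6 : (V k s t) ^ (2 * ((J + 1) * N) + 1) = ⊥ := by
      refine pow_eq_bot_of_le hN ?_
      nlinarith
    rw [h6] at h5
    exact (Submodule.mem_bot k).mp h5
  rw [h4] at h3
  apply hs.ne
  rw [← LinearMap.range_eq_bot, eq_bot_iff]
  refine h3.trans ?_
  rw [LinearMap.range_zero]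

/-- **Theorem U.** For a unipotent pair of minimal quadratic elements, all words of length 3 vanish. -/
theorem unipotent_pair {G : Subgroup (LinearMap.GeneralLinearGroup k M)} {s t : Module.End k M} (hs : Mn G s) (ht : Mn G t)
    (h2 : (2 : k) ≠ 0) {N : ℕ} (hN : (V k s t) ^ N = ⊥) : (V k s t) ^ 3 = ⊥ := by
  have key : ∀ J : ℕ, (V k s t) ^ (2 * J + 3) = ⊥ → (V k s t) ^ 3 = ⊥ := by
    intro J
    induction J with
    | zero => intro h; simpa using h
    | succ J ih =>
      intro h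
      apply ih
      have h1 := word_zero hs ht h2 hN h
      have hN' : (V k t s) ^ N = ⊥ := by rw [V_comm]; exact hN
      have h' : (V k t s) ^ (2 * (J + 1) + 3) = ⊥ := by rw [V_comm]; exact h
      have h3 := word_zero ht hs h2 hN' h'
      rw [eq_bot_iff]
      refine (V_pow_le hs.fam.sq ht.fam.sq (2 * J + 3)).trans ?_
      rw [Submodule.span_le]
      rintro x (rfl | hx)
      · show wd s t (2 * J + 3) ∈ (⊥ : Submodule k (Module.End k M))
        rw [show 2 * J + 3 = 2 * (J + 1) + 1 by ring, h1]; exact Submodule.zero_mem _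
      · rw [Set.mem_singleton_iff] at hx
        subst hx
        show wd t s (2 * J + 3) ∈ (⊥ : Submodule k (Module.End k M))
        rw [show 2 * J + 3 = 2 * (J + 1) + 1 by ring, h3]; exact Submodule.zero_mem _
  exact key N (pow_eq_bot_of_le hN (by omega))

omit [FiniteDimensional k M] in
theorem words3 {s t : Module.End k M} (h : (V k s t) ^ 3 = ⊥) : s * t * s = 0 ∧ t * s * t = 0 := by
  have := wd_mem_V_pow (k := k) s t 3
  rw [h] at this
  constructor
  · have h1 := (Submodule.mem_bot k).mp this.1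
    rwa [show (3 : ℕ) = 1 + 2 by rfl, wd_add_two, wd_one] at h1
  · have h1 := (Submodule.mem_bot k).mp this.2
    rwa [show (3 : ℕ) = 1 + 2 by rfl, wd_add_two, wd_one] at h1

-- nilpotency of `st` gives nilpotency of the pair algebra
omit [FiniteDimensional k M] in
theorem V_pow_of_nilp {s t : Module.End k M} (hs : s * s = 0) (ht : t * t = 0) {n : ℕ} (h : (s * t) ^ n = 0) :
    (V k s t) ^ (2 * n + 2) = ⊥ := by
  rw [eq_bot_iff]
  refine (V_pow_le hs ht _).trans ?_
  rw [Submodule.span_le]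
  rintro x (rfl | hx)
  · show wd s t (2 * n + 2) ∈ (⊥ : Submodule k (Module.End k M))
    rw [show 2 * n + 2 = 2 * (n + 1) by ring, wd_even_eq, pow_succ, h, zero_mul]; exact Submodule.zero_mem _
  · rw [Set.mem_singleton_iff] at hx
    subst hx
    show wd t s (2 * n + 2) ∈ (⊥ : Submodule k (Module.End k M))
    have : wd t s (2 * n + 2) = t * (s * t) ^ n * s := by
      rw [wd_succ, wd_odd_eq, mul_assoc]
    rw [this, h, mul_zero, zero_mul]; exact Submodule.zero_mem _

omit [FiniteDimensional k M] in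
/-- if the group generated by two families is unipotent then the pair algebra is nilpotent -/
theorem V_pow_of_unipotent {H : Subgroup (LinearMap.GeneralLinearGroup k M)} (hH : Cfsg.IsUnipotentOn H) {s t : Module.End k M}
    (hs : Has H s) (ht : Has H t) : ∃ n : ℕ, (V k s t) ^ n = ⊥ := by
  obtain ⟨n, _, hn⟩ := LinBaerSuzuki.pow_of_unipotent hH
  refine ⟨n, LinBaerSuzuki.nilp_mono ?_ hn⟩
  unfold V
  rw [Submodule.span_le]
  rintro x (rfl | hx)
  · obtain ⟨g, hg, he⟩ := hs
    exact Submodule.subset_span ⟨g, hg, by rw [he]; abel⟩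
  · rw [Set.mem_singleton_iff] at hx
    subst hx
    obtain ⟨g, hg, he⟩ := ht
    exact Submodule.subset_span ⟨g, hg, by rw [he]; abel⟩

end lin

end Cfsg.Agent.Lib.QuadPairU
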