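import Cfsg.Agent.Lib.QuadPairK
set_option autoImplicit false
set_option linter.unusedSimpArgs false

/-!
The non-nilpotent pairs with one minimal member (helper84).
-/

namespace Cfsg.Agent.Lib.QuadPairX
open Subgroup Matrix Cfsg
open Cfsg.Agent.Lib.QuadPair
open Cfsg.Agent.Lib.QuadPairU
open Cfsg.Agent.Lib.QuadPairR
open Cfsg.Agent.Lib.QuadPairN1
open Cfsg.Agent.Lib.QuadPairN2
open Cfsg.Agent.Lib.QuadPairN
open Cfsg.Agent.Lib.QuadPairSL2
open Cfsg.Agent.Lib.QuadPairJ
open Cfsg.Agent.Lib.SL2Ring Cfsg.Agent.Lib.SL2Gen Cfsg.Agent.Lib.SL2LemmaL Cfsg.Agent.Lib.SL2Star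
open Cfsg.Agent.Lib.SL2Normal Cfsg.Agent.Lib.SL2Field

universe u v

variable {k : Type u} [Field k]

section W

variable {R : Type v} [CommRing R] [Algebra k R]

/-- pairs (element, total `t`-exponent) -/
def W (k : Type u) [Field k] {R : Type v} [CommRing R] [Algebra k R] (z : R) :
    Subgroup (SpecialLinearGroup (Fin 2) R × Multiplicative k) :=
  Subgroup.closure ({w | ∃ a : k, w = (X (algebraMap k R a), 1)} ∪
    {w | ∃ a : k, w = (Y (algebraMap k R a * z), Multiplicative.ofAdd a)})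

lemma exists_W {z : R} {g : SpecialLinearGroup (Fin 2) R} (hg : g ∈ grp k z) :
    ∃ c : k, (g, Multiplicative.ofAdd c) ∈ W k z := by
  have h : grp k z ≤ (W k z).map (MonoidHom.fst _ _) := by
    unfold grp W
    rw [MonoidHom.map_closure]
    apply Subgroup.closure_mono
    rintro _ (⟨a, rfl⟩ | ⟨a, rfl⟩)
    · exact ⟨_, Or.inl ⟨a, rfl⟩, rfl⟩
    · exact ⟨_, Or.inr ⟨a, rfl⟩, rfl⟩
  obtain ⟨⟨x, c⟩, hw, rfl⟩ := h hg
  exact ⟨Multiplicative.toAdd c, hw⟩

lemma W_scl {z : R} {l : k} (hl : l ≠ 0) {g : SpecialLinearGroup (Fin 2) R} {c : k}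
    (h : (g, Multiplicative.ofAdd c) ∈ W k z) : (scl (sc R l hl) g, Multiplicative.ofAdd (l⁻¹ * c)) ∈ W k z := by
  let f : SpecialLinearGroup (Fin 2) R × Multiplicative k →* SpecialLinearGroup (Fin 2) R × Multiplicative k :=
    (scl (sc R l hl)).prodMap (AddMonoidHom.toMultiplicative (AddMonoidHom.mulLeft l⁻¹))
  have h1 : (W k z).map f ≤ W k z := by
    unfold W
    rw [MonoidHom.map_closure, Subgroup.closure_le]
    rintro _ ⟨_, (⟨a, rfl⟩ | ⟨a, rfl⟩), rfl⟩
    · apply Subgroup.subset_closure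
      left
      refine ⟨l * a, ?_⟩
      show (scl (sc R l hl) (X (algebraMap k R a)), _) = _
      rw [scl_X, sc_coe, ← map_mul]
      exact Prod.ext rfl (map_one (AddMonoidHom.toMultiplicative (AddMonoidHom.mulLeft l⁻¹)))
    · apply Subgroup.subset_closure
      right
      refine ⟨l⁻¹ * a, ?_⟩
      show (scl (sc R l hl) (Y (algebraMap k R a * z)), _) = _
      rw [scl_Y, sc_inv_coe, ← mul_assoc, ← map_mul]
      rfl
  exact h1 ⟨_, h, rfl⟩

lemma exists_l (h20 : (2 : k) ≠ 0) (hk3 : Nat.card k ≠ 3) : ∃ l : k, l ≠ 0 ∧ 1 + l ≠ 0 ∧ 1 + l + l ^ 2 ≠ 0 := by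
  by_cases h3 : (3 : k) = 0
  · obtain ⟨c, hc0, hc1⟩ := exists_sq_ne_one (k := k) h20 hk3
    refine ⟨c, hc0, ?_, ?_⟩
    · intro h
      apply hc1
      rw [eq_neg_of_add_eq_zero_right h]; norm_num
    · intro h
      apply hc1
      have : (c - 1) ^ 2 = 0 := by linear_combination h - c * h3
      have h5 : c = 1 := sub_eq_zero.1 (pow_eq_zero_iff two_ne_zero |>.1 this)
      rw [h5]; norm_num
  · refine ⟨1, one_ne_zero, ?_, ?_⟩
    · rw [one_add_one_eq_two]; exact h20
    · norm_num; exact h3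

lemma W_X (h20 : (2 : k) ≠ 0) (hk3 : Nat.card k ≠ 3) {z : R} {r : R} (hr : X r ∈ grp k z) (a : k) :
    (X (algebraMap k R a * r), (1 : Multiplicative k)) ∈ W k z := by
  by_cases ha : a = 0
  · rw [ha, map_zero, zero_mul, X_zero]
    exact (W k z).one_mem
  obtain ⟨c, hc⟩ := exists_W hr
  obtain ⟨l, hl0, hl1, hl2⟩ := exists_l (k := k) h20 hk3
  have hl' : l / (1 + l) ≠ 0 := div_ne_zero hl0 hl1
  have h1 := W_scl hl0 hc
  have h2 := W_scl hl' hc
  have h3 := (W k z).mul_mem ((W k z).mul_mem hc h1) ((W k z).inv_mem h2)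
  have e : (X r, Multiplicative.ofAdd c) * (scl (sc R l hl0) (X r), Multiplicative.ofAdd (l⁻¹ * c)) *
      (scl (sc R (l / (1 + l)) hl') (X r), Multiplicative.ofAdd ((l / (1 + l))⁻¹ * c))⁻¹ =
      (X (algebraMap k R ((1 + l + l ^ 2) / (1 + l)) * r), Multiplicative.ofAdd (0 : k)) := by
    apply Prod.ext
    · show X r * scl (sc R l hl0) (X r) * (scl (sc R (l / (1 + l)) hl') (X r))⁻¹ = _
      rw [scl_X, scl_X, sc_coe, sc_coe, ← X_neg, ← X_add, ← X_add]
      congr 1
      have : (1 + l + l ^ 2) / (1 + l) = 1 + l - l / (1 + l) := by field_simp; ring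
      rw [this, map_sub, map_add, map_one]
      ring
    · show Multiplicative.ofAdd c * Multiplicative.ofAdd (l⁻¹ * c) * (Multiplicative.ofAdd ((l / (1 + l))⁻¹ * c))⁻¹ = _
      rw [← ofAdd_neg, ← ofAdd_add, ← ofAdd_add]
      congr 1
      field_simp
      ring
  rw [e] at h3
  have hm : (1 + l + l ^ 2) / (1 + l) ≠ 0 := div_ne_zero hl2 hl1
  have h4 := W_scl (mul_ne_zero ha (inv_ne_zero hm)) h3
  rw [scl_X, sc_coe, ← mul_assoc, ← map_mul, mul_assoc a, inv_mul_cancel₀ hm, mul_one, mul_zero] at h4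
  exact h4

lemma W_Y (h20 : (2 : k) ≠ 0) (hk3 : Nat.card k ≠ 3) {z : R} (hX : ∀ r : R, X r ∈ grp k z)
    (htop : grp k z = ⊤) (r : R) : (Y r, (1 : Multiplicative k)) ∈ W k z := by
  have h1 := W_X h20 hk3 (hX (-r)) 1
  rw [map_one, one_mul] at h1
  let w : SpecialLinearGroup (Fin 2) R := mk4 0 1 (-1) 0 (by ring)
  obtain ⟨c, hc⟩ := exists_W (k := k) (z := z) (g := w) (by rw [htop]; trivial)
  have h2 := (W k z).mul_mem ((W k z).mul_mem hc h1) ((W k z).inv_mem hc)
  have e : (w, Multiplicative.ofAdd c) * (X (-r), (1 : Multiplicative k)) * (w, Multiplicative.ofAdd c)⁻¹ =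
      (Y r, (1 : Multiplicative k)) := by
    apply Prod.ext
    · show w * X (-r) * w⁻¹ = Y r
      apply sl_ext <;> simp [w]
    · show Multiplicative.ofAdd c * 1 * (Multiplicative.ofAdd c)⁻¹ = 1
      rw [mul_one, mul_inv_cancel]
  rw [e] at h2
  exact h2

end W

section core

variable {M : Type v} [AddCommGroup M] [Module k M]
  {p q : Submodule k M} (h : IsCompl p q)
  {R : Type v} [CommRing R] [Algebra k R] {ι : R →ₐ[k] Module.End k q} {z : Rˣ}
  {t0 : Module.End k p} {s1 t1 : Module.End k q}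
  {G : Subgroup (LinearMap.GeneralLinearGroup k M)}

/-- the homomorphism `c ↦ 1 + c t₀` -/
def theta (t0 : Module.End k p) (ht0 : t0 * t0 = 0) : Multiplicative k →* (Module.End k p)ˣ where
  toFun c := un (Multiplicative.toAdd c • t0) (by rw [smul_mul_smul_comm, ht0, smul_zero])
  map_one' := by
    apply Units.ext
    show 1 + (0 : k) • t0 = 1
    rw [zero_smul, add_zero]
  map_mul' a b := by
    apply Units.ext
    show 1 + (Multiplicative.toAdd a + Multiplicative.toAdd b) • t0 = (1 + Multiplicative.toAdd a • t0) *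
      (1 + Multiplicative.toAdd b • t0)
    rw [mul_add, add_mul, add_mul, smul_mul_smul_comm, ht0, smul_zero, add_smul]
    simp only [one_mul, mul_one, add_zero]
    abel

lemma theta_coe (ht0 : t0 * t0 = 0) (c : k) :
    ((theta t0 ht0 (Multiplicative.ofAdd c) : (Module.End k p)ˣ) : Module.End k p) = 1 + c • t0 := rfl

lemma W_mem (rep : Rep ι z s1 t1) (ht0 : t0 * t0 = 0) (hs : Fam G (blk h (0, s1))) (ht : Fam G (blk h (t0, t1)))
    {g : SpecialLinearGroup (Fin 2) R} {c : k} (hg : (g, Multiplicative.ofAdd c) ∈ W k (z : R)) :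
    blkU h (theta t0 ht0 (Multiplicative.ofAdd c), rep.phi g) ∈ G := by
  let f : SpecialLinearGroup (Fin 2) R × Multiplicative k →* (Module.End k M)ˣ :=
    (blkU h).comp (MonoidHom.prod ((theta t0 ht0).comp (MonoidHom.snd _ _)) (rep.phi.comp (MonoidHom.fst _ _)))
  have h1 : (W k (z : R)).map f ≤ G := by
    unfold W
    rw [MonoidHom.map_closure, Subgroup.closure_le]
    rintro _ ⟨_, (⟨a, rfl⟩ | ⟨a, rfl⟩), rfl⟩
    · obtain ⟨g', hg', e⟩ := hs.has a
      have : f (X (algebraMap k R a), 1) = g' := by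
        apply Units.ext
        rw [e]
        show blk h (((theta t0 ht0 1 : (Module.End k p)ˣ) : Module.End k p),
          ((rep.phi (X (algebraMap k R a)) : (Module.End k q)ˣ) : Module.End k q)) = _
        rw [rep.phi_X, map_one, AlgHom.commutes, ← map_smul, ← map_one (blk h), ← map_add]
        congr 1
        ext <;> simp [Algebra.smul_def]
      rw [this]; exact hg'
    · obtain ⟨g', hg', e⟩ := ht.has a
      have : f (Y (algebraMap k R a * z), Multiplicative.ofAdd a) = g' := by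
        apply Units.ext
        rw [e]
        show blk h (((theta t0 ht0 (Multiplicative.ofAdd a) : (Module.End k p)ˣ) : Module.End k p),
          ((rep.phi (Y (algebraMap k R a * z)) : (Module.End k q)ˣ) : Module.End k q)) = _
        rw [rep.phi_Y, theta_coe, ← map_mul, mul_assoc, Units.mul_inv, mul_one, AlgHom.commutes, ← map_smul,
          ← map_one (blk h), ← map_add]
        congr 1
      rw [this]; exact hg'
  exact h1 ⟨_, hg, rfl⟩

lemma fam_X' (h20 : (2 : k) ≠ 0) (hk3 : Nat.card k ≠ 3) (rep : Rep ι z s1 t1) (ht0 : t0 * t0 = 0)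
    (hs : Fam G (blk h (0, s1))) (ht : Fam G (blk h (t0, t1)))
    {r : R} (hr : X r ∈ grp k (z : R)) : Fam G (blk h (0, ι r * s1)) where
  sq := by
    rw [blk_mul, mul_zero, rep.cs r, mul_assoc, ← mul_assoc (ι r), rep.cs r, mul_assoc s1,
      ← mul_assoc s1 s1, rep.hs, zero_mul]
    exact map_zero (blk h)
  has := by
    intro a
    have h1 := W_mem h rep ht0 hs ht (c := 0) (W_X h20 hk3 hr a)
    refine ⟨_, h1, ?_⟩
    rw [blkU_coe, theta_coe, rep.phi_X, map_mul, AlgHom.commutes, ← map_smul, ← map_one (blk h), ← map_add]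
    congr 1
    ext <;> simp [Algebra.smul_def]

lemma has_Y' (h20 : (2 : k) ≠ 0) (hk3 : Nat.card k ≠ 3) (rep : Rep ι z s1 t1) (ht0 : t0 * t0 = 0)
    (hs : Fam G (blk h (0, s1))) (ht : Fam G (blk h (t0, t1))) (hX : ∀ r : R, X r ∈ grp k (z : R))
    (htop : grp k (z : R) = ⊤) : Fam G (blk h (0, t1)) ∧ Fam G (blk h (t0, 0)) := by
  have hsq1 : (blk h (0, t1) : Module.End k M) * blk h (0, t1) = 0 := by
    rw [blk_mul, rep.ht, mul_zero]; exact map_zero (blk h)
  have h1 : Fam G (blk h (0, t1)) := by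
    refine ⟨hsq1, ?_⟩
    intro a
    have h1 := W_mem h rep ht0 hs ht (c := 0) (W_Y h20 hk3 hX htop (algebraMap k R a * z))
    refine ⟨_, h1, ?_⟩
    rw [blkU_coe, theta_coe, rep.phi_Y, ← map_mul, mul_assoc, Units.mul_inv, mul_one, AlgHom.commutes, ← map_smul,
      ← map_one (blk h), ← map_add]
    congr 1
    ext <;> simp [Algebra.smul_def]
  refine ⟨h1, ?_, ?_⟩
  · rw [blk_mul, ht0, mul_zero]; exact map_zero (blk h)
  · intro a
    have h2 := (ht.has a).mul (h1.neg.has a)
    have e : a • blk h (t0, t1) + a • -blk h (0, t1) + (a • blk h (t0, t1)) * (a • -blk h (0, t1)) =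
        a • blk h (t0, 0) := by
      have e1 : (blk h (t0, t1) : Module.End k M) = blk h (t0, 0) + blk h (0, t1) := by
        rw [← map_add]; congr 1; ext <;> simp
      have e2 : (blk h (t0, t1) : Module.End k M) * blk h (0, t1) = 0 := by
        rw [blk_mul, rep.ht, mul_zero]; exact map_zero (blk h)
      rw [smul_mul_smul_comm, mul_neg, e2, neg_zero, smul_zero, add_zero, e1]
      module
    rw [e] at h2
    exact h2

/-- **extended core theorem** -/
theorem ext_core [FiniteDimensional k M] (h20 : (2 : k) ≠ 0) (hk3 : Nat.card k ≠ 3) {s x : Module.End k M}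
    (hs : Mn G s) (hx : Fam G x) (hn : ¬ IsNilpotent (s * x)) :
    ∃ x0 x1 : Module.End k M, x = x0 + x1 ∧ Fam G x0 ∧ Mn G x1 ∧ x0 * x1 = 0 ∧ x1 * x0 = 0 ∧ s * x0 = 0 ∧
      x0 * s = 0 ∧ Opp s x1 ∧ Module.finrank k (LinearMap.range x0) < Module.finrank k (LinearMap.range x) := by
  obtain ⟨p, q, h, s0, t0, s1, t1, n, es, et, hs0, ht0, hs1, ht1, hnil, hu, hnt⟩ := exists_dec hs.fam.sq hx.sq hn
  obtain ⟨R, i1, i2, i3, ι, z, hι, rep, hgen⟩ := exists_rep hs1 ht1 hu
  have hR : Nontrivial R := by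
    have : Nontrivial (Module.End k q) := inferInstance
    by_contra hcon
    rw [not_nontrivial_iff_subsingleton] at hcon
    have h1 : (1 : R) = 0 := Subsingleton.elim _ _
    have h2 := congrArg ι h1
    rw [map_one, map_zero] at h2
    exact one_ne_zero h2
  subst es et
  have hG : gen k (blk h (s0, s1)) (blk h (t0, t1)) ≤ G := QuadPairN2.gen_le hs.fam hx
  have hl : lcs (gen k s0 t0) (2 * n + 1) = ⊥ :=
    lcs_gen_eq_bot hs0 ht0 (V_pow_of_nilp hs0 ht0 hnil)
  obtain ⟨r, hr0, hr⟩ := exists_X_mem h20 hk3 z hgen (fun x hx g hg => lcs_conj hx hg)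
    (lcs_nonCen h20 hk3 z hgen (2 * n + 1))
  have hs0' : s0 = 0 := by
    have hf := fam_X h rep hs0 ht0 hl hG hr
    exact zero_of_range h (hs.same hf (ne_X h rep hι hr0) (range_le_X h rep r)).ge
  subst hs0'
  have hu' : ∀ r : R, X r ∈ grp k (z : R) → r ≠ 0 → IsUnit r := by
    intro r hr hr0
    have hf := fam_X' h h20 hk3 rep ht0 hs.fam hx hr
    exact isUnit_of_range h rep hι (hs.same hf (ne_X h rep hι hr0) (range_le_X h rep r)).ge
  have hF := isField_of_units h20 hk3 z hgen hu'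
  have hX := top_of_units h20 hk3 z hgen hu'
  have htop := grp_top hF z hX
  obtain ⟨h1, h0⟩ := has_Y' h h20 hk3 rep ht0 hs.fam hx hX htop
  have hx1 : (blk h (0, t1) : Module.End k M) ≠ 0 := by
    have := ne_Y h rep hι (r := 1) one_ne_zero
    rwa [map_one, one_mul] at this
  have hm1 : Mn G (blk h (0, t1)) := by
    refine hs.of_rank_le h1 hx1 ?_
    have e : (blk h (0, t1) : Module.End k M) = blk h (0, ι ((z⁻¹ : Rˣ) : R) * t1) * (blk h (0, s1) * blk h (0, t1)) := by
      rw [blk_mul, blk_mul, mul_zero, mul_zero]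
      congr 2
      rw [mul_assoc, ← mul_assoc t1, rep.tst, ← mul_assoc, ← map_mul, Units.inv_mul, map_one, one_mul]
    rw [e]
    exact (Cfsg.Agent.Lib.QuadPairG.finrank_range_mul_left _ _).trans
      (Cfsg.Agent.Lib.QuadPairG.finrank_range_mul_right _ _)
  have z0 : (blk h ((0 : Module.End k p), (0 : Module.End k q)) : Module.End k M) = 0 := map_zero (blk h)
  refine ⟨blk h (t0, 0), blk h (0, t1), ?_, h0, hm1, ?_, ?_, ?_, ?_, ?_, ?_⟩
  · rw [← map_add]; congr 1; ext <;> simp
  · rw [blk_mul, mul_zero, zero_mul]; exact z0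
  · rw [blk_mul, mul_zero, zero_mul]; exact z0
  · rw [blk_mul, mul_zero, zero_mul]; exact z0
  · rw [blk_mul, mul_zero, zero_mul]; exact z0
  · rcases dich h20 hk3 hs hm1 with h2 | h2
    · exfalso
      have h3 := h2.sts
      rw [blk_mul, blk_mul, mul_zero, rep.sts] at h3
      exact ne_X h rep hι z.ne_zero h3
    · exact h2
  · have hle : LinearMap.range (blk h (t0, 0)) ≤ LinearMap.range (blk h (t0, t1)) := by
      have e : (blk h (t0, 0) : Module.End k M) = blk h (t0, t1) * blk h (1, 0) := by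
        rw [blk_mul, mul_one, mul_zero]
      rw [e]
      exact LinearMap.range_comp_le_range _ _
    have hle1 : LinearMap.range (blk h (0, t1)) ≤ LinearMap.range (blk h (t0, t1)) := by
      have e : (blk h (0, t1) : Module.End k M) = blk h (t0, t1) * blk h (0, 1) := by
        rw [blk_mul, mul_one, mul_zero]
      rw [e]
      exact LinearMap.range_comp_le_range _ _
    apply Submodule.finrank_lt_finrank_of_lt
    refine lt_of_le_of_ne hle ?_
    intro e
    apply hx1
    ext m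
    rw [LinearMap.zero_apply]
    have h2 : blk h (0, t1) m ∈ LinearMap.range (blk h (t0, 0)) := by
      rw [e]; exact hle1 ⟨m, rfl⟩
    obtain ⟨m', hm'⟩ := h2
    have e1 : (blk h (0, 1) * blk h (0, t1) : Module.End k M) = blk h (0, t1) := by
      rw [blk_mul, one_mul, mul_zero]
    have e2 : (blk h (0, 1) * blk h (t0, 0) : Module.End k M) = 0 := by
      rw [blk_mul, mul_zero, zero_mul]; exact z0
    have e3 := congrArg (fun f : Module.End k M => f m) e1
    have e4 := congrArg (fun f : Module.End k M => f m') e2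
    have e5 : blk h (0, 1) (blk h (0, t1) m) = blk h (0, t1) m := e3
    have e6 : blk h (0, 1) (blk h (t0, 0) m') = 0 := e4
    rw [← e5, ← hm', e6]

end core

end Cfsg.Agent.Lib.QuadPairX
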