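import Cfsg.Agent.Lib.QuadPairX
set_option autoImplicit false

/-!
`G = G₀ C_G(G₀)` (helper84).
-/

namespace Cfsg.Agent.Lib.QuadPairY
open Subgroup Cfsg
open Cfsg.Agent.Lib.QuadPair
open Cfsg.Agent.Lib.QuadPairR
open Cfsg.Agent.Lib.QuadPairS
open Cfsg.Agent.Lib.QuadPairF
open Cfsg.Agent.Lib.QuadPairJ
open Cfsg.Agent.Lib.QuadPairK
open Cfsg.Agent.Lib.QuadPairX
open Cfsg.Agent.Lib.RankOneGrp
open Cfsg.Agent.Lib.RootTransfer

universe u v

variable {k : Type u} [Field k] {M : Type v} [AddCommGroup M] [Module k M] [FiniteDimensional k M]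
variable {G : Subgroup (LinearMap.GeneralLinearGroup k M)}

/-- `G₀` -/
abbrev G0 (G : Subgroup (LinearMap.GeneralLinearGroup k M)) : Subgroup (LinearMap.GeneralLinearGroup k M) :=
  ⨆ A ∈ quadraticRootSubgroups G, A

lemma un_mem_G0 {t : Module.End k M} (ht : Mn G t) : un t ht.fam.sq ∈ G0 G := by
  have h1 : Mn G (((un t ht.fam.sq : LinearMap.GeneralLinearGroup k M) : M →ₗ[k] M) - 1) := by
    rw [un_coe, add_sub_cancel_left]; exact ht
  exact le_iSup_mem (S := quadraticRootSubgroups G) (mem_Sig.2 ⟨_, h1, rfl⟩) (self_mem h1)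

lemma commute_G0 {g : LinearMap.GeneralLinearGroup k M}
    (h : ∀ t : Module.End k M, Mn G t → (g : Module.End k M) * t = t * (g : Module.End k M)) :
    g ∈ Subgroup.centralizer (G0 G : Set (LinearMap.GeneralLinearGroup k M)) := by
  have h1 : G0 G ≤ Subgroup.centralizer ({g} : Set (LinearMap.GeneralLinearGroup k M)) := by
    refine iSup₂_le fun A hA => ?_
    obtain ⟨σ, hσ, rfl⟩ := mem_Sig.1 hA
    intro x hx
    rw [Subgroup.mem_centralizer_iff]
    intro y hy
    rw [Set.mem_singleton_iff] at hy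
    rw [hy]
    rcases mem_E.1 hx with h2 | rfl
    · apply Units.ext
      have h3 := h _ h2.mn
      rw [mul_sub, sub_mul, mul_one, one_mul] at h3
      exact sub_left_injective h3
    · simp
  rw [Subgroup.mem_centralizer_iff]
  intro x hx
  have := Subgroup.mem_centralizer_iff.1 (h1 hx) g rfl
  exact this.symm

theorem un_mem_T (h20 : (2 : k) ≠ 0) (hk3 : Nat.card k ≠ 3) (hG : IsIrreducibleFor G) :
    ∀ (n : ℕ) {x : Module.End k M} (hx : Fam G x), Module.finrank k (LinearMap.range x) ≤ n →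
      un x hx.sq ∈ G0 G ⊔ (G ⊓ Subgroup.centralizer (G0 G : Set (LinearMap.GeneralLinearGroup k M))) := by
  intro n
  induction n with
  | zero =>
    intro x hx hn
    have h0 : x = 0 := by
      have : LinearMap.range x = ⊥ := by
        apply Submodule.finrank_eq_zero.1
        omega
      exact LinearMap.range_eq_bot.1 this
    have : un x hx.sq = 1 := by
      apply Units.ext
      rw [un_coe, h0, add_zero]; rfl
    rw [this]; exact Subgroup.one_mem _
  | succ n ih =>
    intro x hx hn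
    by_cases hcase : ∃ s, Mn G s ∧ ¬ IsNilpotent (s * x)
    · obtain ⟨s, hs, hns⟩ := hcase
      obtain ⟨x0, x1, e, h0, h1, e01, -, -, -, -, hlt⟩ := ext_core h20 hk3 hs hx hns
      have h2 := ih h0 (by omega)
      have h3 : un x1 h1.fam.sq ∈ G0 G ⊔ (G ⊓ Subgroup.centralizer (G0 G : Set (LinearMap.GeneralLinearGroup k M))) :=
        Subgroup.mem_sup_left (un_mem_G0 h1)
      have h4 : un x hx.sq = un x0 h0.sq * un x1 h1.fam.sq := by
        apply Units.ext
        rw [Units.val_mul, un_coe, un_coe, un_coe, e]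
        calc 1 + (x0 + x1) = 1 + x0 + x1 + x0 * x1 := by rw [e01]; abel
          _ = (1 + x0) * (1 + x1) := by noncomm_ring
      rw [h4]
      exact Subgroup.mul_mem _ h2 h3
    · push Not at hcase
      apply Subgroup.mem_sup_right
      have hY : Yy G x := ⟨hx, fun s hs => nil_pair h20 hk3 hs hx (hcase s hs)⟩
      refine ⟨un_mem hx, commute_G0 ?_⟩
      intro t ht
      rw [un_coe]
      have h5 := Yy.commute h20 hk3 hG hY ht
      show (1 + x) * t = t * (1 + x)
      rw [add_mul, mul_add, h5, one_mul, mul_one]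

theorem main (h20 : (2 : k) ≠ 0) (hk3 : Nat.card k ≠ 3) (hG : IsQuadraticPair G) :
    G0 G ⊔ (G ⊓ Subgroup.centralizer (G0 G : Set (LinearMap.GeneralLinearGroup k M))) = G := by
  apply le_antisymm
  · exact sup_le G0_le inf_le_left
  · conv_lhs => rw [← hG.2]
    rw [Subgroup.closure_le]
    intro g hg
    obtain ⟨h1, -⟩ := mem_quadraticElements_iff.1 hg
    have h2 := un_mem_T h20 hk3 hG.1 _ h1 le_rfl
    have h3 : un ((g : M →ₗ[k] M) - 1) h1.sq = g := by
      apply Units.ext
      rw [un_coe]; abel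
    rw [h3] at h2
    exact h2

end Cfsg.Agent.Lib.QuadPairY
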