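import Cfsg.Agent.Lib.QuadPairP
import Cfsg.Agent.Lib.Components
set_option autoImplicit false

/-!
Decomposition of a quadratic pair as a central product of quasisimple groups (helper84).
-/

namespace Cfsg.Agent.Lib.QuadPairZ
open Subgroup Cfsg
open Cfsg.Agent.Lib.QuadPair
open Cfsg.Agent.Lib.QuadPairR
open Cfsg.Agent.Lib.QuadPairS
open Cfsg.Agent.Lib.QuadPairT
open Cfsg.Agent.Lib.QuadPairF
open Cfsg.Agent.Lib.QuadPairI
open Cfsg.Agent.Lib.QuadPairJ
open Cfsg.Agent.Lib.QuadPairX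
open Cfsg.Agent.Lib.QuadPairY
open Cfsg.Agent.Lib.QuadPairP
open Cfsg.Agent.Lib.RankOneGrp
open Cfsg.Agent.Lib.RootTransfer
open Cfsg.Agent.Lib.RootComp

universe u v

variable {k : Type u} [Field k]

/-- the decomposition, as a set of subgroups -/
def Dec {M : Type v} [AddCommGroup M] [Module k M] (G : Subgroup (LinearMap.GeneralLinearGroup k M)) : Prop :=
  ∃ 𝒞 : Set (Subgroup (LinearMap.GeneralLinearGroup k M)), 𝒞.Finite ∧
    (∀ K ∈ 𝒞, K ≤ G ∧ ∀ g ∈ G, conjBy K g = K) ∧ (∀ K ∈ 𝒞, ∀ L ∈ 𝒞, K ≠ L → ⁅K, L⁆ = ⊥) ∧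
    (∀ K ∈ 𝒞, IsQuasisimple ↥K ∧
      Subgroup.closure (quadraticElements G ∩ (K : Set (LinearMap.GeneralLinearGroup k M))) = K) ∧
    ∀ x ∈ quadraticElements G, ∃ K ∈ 𝒞, x ∈ K

section basic
variable {M : Type v} [AddCommGroup M] [Module k M]
variable {G : Subgroup (LinearMap.GeneralLinearGroup k M)}

theorem Dec.out (hG : Subgroup.closure (quadraticElements G) = G) (h : Dec G) :
    ∃ (s : ℕ) (Gi : Fin s → Subgroup (LinearMap.GeneralLinearGroup k M)),
      (∀ i, Gi i ≤ G ∧ ∀ g ∈ G, Cfsg.conjBy (Gi i) g = Gi i) ∧ (∀ i j, i ≠ j → ⁅Gi i, Gi j⁆ = ⊥) ∧ (⨆ i, Gi i) = G ∧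
      (∀ i, Cfsg.IsQuasisimple ↥(Gi i) ∧ Subgroup.closure (Cfsg.quadraticElements G ∩ (Gi i : Set (LinearMap.GeneralLinearGroup k M))) = Gi i) ∧
      Cfsg.quadraticElements G ⊆ ⋃ i, (Gi i : Set (LinearMap.GeneralLinearGroup k M)) := by
  obtain ⟨𝒞, hfin, h1, h2, h3, h4⟩ := h
  have := hfin.fintype
  let e := (Fintype.equivFin 𝒞).symm
  have hs : ∀ x ∈ quadraticElements G, ∃ i, x ∈ (e i : Subgroup (LinearMap.GeneralLinearGroup k M)) := by
    intro x hx
    obtain ⟨K, hK, hxK⟩ := h4 x hx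
    refine ⟨e.symm ⟨K, hK⟩, ?_⟩
    rw [Equiv.apply_symm_apply]
    exact hxK
  refine ⟨Fintype.card 𝒞, fun i => (e i : Subgroup (LinearMap.GeneralLinearGroup k M)),
    fun i => h1 _ (e i).2, ?_, ?_, fun i => h3 _ (e i).2, ?_⟩
  · intro i j hij
    refine h2 _ (e i).2 _ (e j).2 fun h => hij (e.injective (Subtype.ext h))
  · apply le_antisymm
    · exact iSup_le fun i => (h1 _ (e i).2).1
    · conv_lhs => rw [← hG]
      rw [Subgroup.closure_le]
      intro x hx
      obtain ⟨i, hi⟩ := hs x hx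
      exact (le_iSup (fun i => (e i : Subgroup (LinearMap.GeneralLinearGroup k M))) i) hi
  · intro x hx
    obtain ⟨i, hi⟩ := hs x hx
    exact Set.mem_iUnion.2 ⟨i, hi⟩

/-- invariance under a group generated by a set -/
lemma inv_closure {W : Submodule k M} {S : Set (LinearMap.GeneralLinearGroup k M)}
    (h : ∀ g ∈ S, (∀ w ∈ W, (g : M →ₗ[k] M) w ∈ W) ∧
      ∀ w ∈ W, ((g⁻¹ : LinearMap.GeneralLinearGroup k M) : M →ₗ[k] M) w ∈ W) :
    ∀ g ∈ Subgroup.closure S, ∀ w ∈ W, (g : M →ₗ[k] M) w ∈ W := by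
  intro g hg
  have key : (∀ w ∈ W, (g : M →ₗ[k] M) w ∈ W) ∧
      ∀ w ∈ W, ((g⁻¹ : LinearMap.GeneralLinearGroup k M) : M →ₗ[k] M) w ∈ W := by
    induction hg using Subgroup.closure_induction with
    | mem x hx => exact h x hx
    | one => exact ⟨fun w hw => hw, fun w hw => by rw [inv_one]; exact hw⟩
    | mul x y _ _ hx hy =>
      refine ⟨fun w hw => hx.1 _ (hy.1 w hw), fun w hw => ?_⟩
      rw [_root_.mul_inv_rev]
      exact hy.2 _ (hx.2 w hw)
    | inv x _ hx => exact ⟨hx.2, fun w hw => by rw [inv_inv]; exact hx.1 w hw⟩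
  exact key.1

/-- the quadratic elements centralizing `G₀` generate `H` -/
def HH (G : Subgroup (LinearMap.GeneralLinearGroup k M)) : Subgroup (LinearMap.GeneralLinearGroup k M) :=
  Subgroup.closure (quadraticElements G ∩ (Subgroup.centralizer (G0 G : Set (LinearMap.GeneralLinearGroup k M)) :
    Set (LinearMap.GeneralLinearGroup k M)))

lemma HH_le : HH G ≤ G := by
  unfold HH
  rw [Subgroup.closure_le]
  exact fun x hx => hx.1.1

lemma HH_cent : HH G ≤ Subgroup.centralizer (G0 G : Set (LinearMap.GeneralLinearGroup k M)) := by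
  unfold HH
  rw [Subgroup.closure_le]
  exact fun x hx => hx.2

lemma HH_comm {h g : LinearMap.GeneralLinearGroup k M} (hh : h ∈ HH G) (hg : g ∈ G0 G) : g * h = h * g :=
  Subgroup.mem_centralizer_iff.1 (HH_cent hh) g hg

lemma mem_HH {x : LinearMap.GeneralLinearGroup k M} (hx : x ∈ quadraticElements G)
    (hc : x ∈ Subgroup.centralizer (G0 G : Set (LinearMap.GeneralLinearGroup k M))) : x ∈ HH G :=
  Subgroup.subset_closure ⟨hx, hc⟩

/-- families in `H` -/
lemma fam_HH {h : LinearMap.GeneralLinearGroup k M} (hh : h ∈ HH G) (hf : Fam G ((h : M →ₗ[k] M) - 1)) (c : k)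
    {g : LinearMap.GeneralLinearGroup k M} (hg : (g : M →ₗ[k] M) = 1 + c • ((h : M →ₗ[k] M) - 1)) : g ∈ HH G := by
  have hgG : g ∈ G := by
    obtain ⟨g', hg', e⟩ := hf.has c
    have : g = g' := Units.ext (hg.trans e.symm)
    rw [this]; exact hg'
  have hcen : g ∈ Subgroup.centralizer (G0 G : Set (LinearMap.GeneralLinearGroup k M)) := by
    rw [Subgroup.mem_centralizer_iff]
    intro x hx
    have h1 := congrArg (fun y : LinearMap.GeneralLinearGroup k M => (y : Module.End k M)) (HH_comm hh hx)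
    simp only [Units.val_mul] at h1
    apply Units.ext
    rw [Units.val_mul, Units.val_mul, hg]
    show (x : Module.End k M) * (1 + c • ((h : Module.End k M) - 1)) = (1 + c • ((h : Module.End k M) - 1)) * x
    simp only [mul_add, add_mul, mul_sub, sub_mul, mul_smul_comm, smul_mul_assoc, mul_one, one_mul, h1]
  by_cases h0 : (g : M →ₗ[k] M) - 1 = 0
  · have : g = 1 := Units.ext (by rw [Units.val_one]; exact sub_eq_zero.1 h0)
    rw [this]; exact Subgroup.one_mem _
  · refine mem_HH (mem_quadraticElements_iff.2 ⟨?_, h0⟩) hcen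
    have : (g : M →ₗ[k] M) - 1 = c • ((h : M →ₗ[k] M) - 1) := by rw [hg]; exact add_sub_cancel_left _ _
    rw [this]
    exact hf.smul c

end basic

section fd
variable {M : Type v} [AddCommGroup M] [Module k M] [FiniteDimensional k M]
variable {G : Subgroup (LinearMap.GeneralLinearGroup k M)}
variable {Δ : Set (Subgroup (LinearMap.GeneralLinearGroup k M))}

lemma dicho' (h20 : (2 : k) ≠ 0) (hk3 : Nat.card k ≠ 3) (hG : IsQuadraticPair G)
    {x : LinearMap.GeneralLinearGroup k M} (hx : x ∈ quadraticElements G) :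
    x ∈ HH G ∨ ∃ Δ ∈ Comps G, x ∈ KK Δ := by
  have h1 := mem_quadraticElements_iff.1 hx
  have e : un _ h1.1.sq = x := by
    apply Units.ext
    rw [un_coe]
    exact add_sub_cancel _ _
  rcases dicho h20 hk3 hG _ h1.1 le_rfl with h | h | h
  · exact absurd h h1.2
  · left
    refine mem_HH hx (commute_G0 fun t ht => ?_)
    have := h t ht
    have h2 : ((x : Module.End k M) - 1) * t = t * ((x : Module.End k M) - 1) := this
    rw [sub_mul, mul_sub, one_mul, mul_one] at h2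
    exact sub_left_injective h2
  · right
    rwa [e] at h

lemma dicho'' (h20 : (2 : k) ≠ 0) (hk3 : Nat.card k ≠ 3) (hG : IsQuadraticPair G)
    {x : LinearMap.GeneralLinearGroup k M} (hx : x ∈ quadraticElements G) :
    x ∈ HH G ∨ x ∈ G0 G := by
  rcases dicho' h20 hk3 hG hx with h | ⟨Δ, hΔ, h⟩
  · exact Or.inl h
  · exact Or.inr (KK_le_G0 hΔ h)

/-- **the key principle** -/
lemma key (h20 : (2 : k) ≠ 0) (hk3 : Nat.card k ≠ 3) (hG : IsQuadraticPair G) {N : Submodule k M} (hN : N ≠ ⊥)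
    (hinv : ∀ g ∈ HH G, ∀ w ∈ N, (g : M →ₗ[k] M) w ∈ N) {f : Module.End k M}
    (hf : ∀ g ∈ G0 G, (g : Module.End k M) * f = f * g) (h0 : ∀ w ∈ N, f w = 0) : f = 0 := by
  set W : Submodule k M := Submodule.span k {v | ∃ g ∈ G0 G, ∃ w ∈ N, v = (g : M →ₗ[k] M) w} with hW
  have h1 : ∀ g ∈ G0 G, ∀ w ∈ W, (g : M →ₗ[k] M) w ∈ W := by
    intro g hg w hw
    have : W ≤ W.comap (g : M →ₗ[k] M) := by
      conv_lhs => rw [hW]
      rw [Submodule.span_le]
      rintro _ ⟨g', hg', w, hw, rfl⟩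
      exact Submodule.subset_span ⟨g * g', mul_mem hg hg', w, hw, rfl⟩
    exact this hw
  have h2 : ∀ g ∈ HH G, ∀ w ∈ W, (g : M →ₗ[k] M) w ∈ W := by
    intro g hg w hw
    have : W ≤ W.comap (g : M →ₗ[k] M) := by
      conv_lhs => rw [hW]
      rw [Submodule.span_le]
      rintro _ ⟨g', hg', w, hw, rfl⟩
      refine Submodule.subset_span ⟨g', hg', (g : M →ₗ[k] M) w, hinv g hg w hw, ?_⟩
      have := HH_comm hg hg'
      exact congrArg (fun y : LinearMap.GeneralLinearGroup k M => (y : M →ₗ[k] M) w) this.symm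
    exact this hw
  have h3 : ∀ g ∈ G, ∀ w ∈ W, (g : M →ₗ[k] M) w ∈ W := by
    intro g hg
    rw [← hG.2] at hg
    refine inv_closure (fun x hx => ?_) g hg
    rcases dicho'' h20 hk3 hG hx with h | h
    · exact ⟨h2 _ h, h2 _ (inv_mem h)⟩
    · exact ⟨h1 _ h, h1 _ (inv_mem h)⟩
  rcases hG.1.2 W h3 with h | h
  · exfalso
    apply hN
    rw [eq_bot_iff, ← h]
    intro w hw
    exact Submodule.subset_span ⟨1, one_mem _, w, hw, rfl⟩
  · have h4 : W ≤ LinearMap.ker f := by
      rw [hW, Submodule.span_le]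
      rintro _ ⟨g, hg, w, hw, rfl⟩
      have := congrArg (fun y : Module.End k M => y w) (hf g hg)
      simp only [Module.End.mul_apply] at this
      rw [SetLike.mem_coe, LinearMap.mem_ker, ← this, h0 w hw, map_zero]
    rw [h] at h4
    exact LinearMap.ker_eq_top.1 (top_le_iff.1 h4)

/-! ### Restriction to an `H`-invariant subspace -/

section res
variable {N : Submodule k M} (hinv : ∀ g ∈ HH G, ∀ w ∈ N, (g : M →ₗ[k] M) w ∈ N)

/-- restriction as a homomorphism to the endomorphisms -/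
def res0 : ↥(HH G) →* Module.End k N where
  toFun h := LinearMap.restrict ((h : LinearMap.GeneralLinearGroup k M) : M →ₗ[k] M) (hinv h h.2)
  map_one' := by
    ext x
    rfl
  map_mul' a b := by
    ext x
    rfl

/-- restriction -/
def res : ↥(HH G) →* LinearMap.GeneralLinearGroup k N := (res0 hinv).toHomUnits

omit [FiniteDimensional k M] in
lemma res_coe (h : ↥(HH G)) (w : N) : (((res hinv h : LinearMap.GeneralLinearGroup k N) : N →ₗ[k] N) w : M) =
    ((h : LinearMap.GeneralLinearGroup k M) : M →ₗ[k] M) w := rfl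

end res

/-- the data of the induction step -/
structure Sit (G : Subgroup (LinearMap.GeneralLinearGroup k M)) (N : Submodule k M) : Prop where
  h20 : (2 : k) ≠ 0
  hk3 : Nat.card k ≠ 3
  hG : IsQuadraticPair G
  hN : N ≠ ⊥
  hinv : ∀ g ∈ HH G, ∀ w ∈ N, (g : M →ₗ[k] M) w ∈ N
  hmin : ∀ N' : Submodule k M, N' ≠ ⊥ → (∀ g ∈ HH G, ∀ w ∈ N', (g : M →ₗ[k] M) w ∈ N') → N' ≤ N → N' = N

section sit
variable {N : Submodule k M} (hS : Sit G N)
include hS

lemma Sit.key {f : Module.End k M}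
    (hf : ∀ g ∈ G0 G, (g : Module.End k M) * f = f * g) (h0 : ∀ w ∈ N, f w = 0) : f = 0 :=
  QuadPairZ.key hS.h20 hS.hk3 hS.hG hS.hN hS.hinv hf h0

lemma Sit.inj : Function.Injective (res hS.hinv) := by
  rw [injective_iff_map_eq_one]
  intro h hh
  have h1 : ((h : LinearMap.GeneralLinearGroup k M) : Module.End k M) - 1 = 0 := by
    apply hS.key
    · intro g hg
      have h1 := congrArg (fun y : LinearMap.GeneralLinearGroup k M => (y : Module.End k M)) (HH_comm h.2 hg)
      simp only [Units.val_mul] at h1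
      rw [mul_sub, sub_mul, h1, mul_one, one_mul]
    · intro w hw
      have h2 := res_coe hS.hinv h ⟨w, hw⟩
      rw [hh] at h2
      have h3 : w = ((h : LinearMap.GeneralLinearGroup k M) : M →ₗ[k] M) w := h2
      show ((h : LinearMap.GeneralLinearGroup k M) : M →ₗ[k] M) w - w = 0
      rw [← h3, sub_self]
  apply Subtype.ext
  apply Units.ext
  exact sub_eq_zero.1 h1

/-- quadratic elements of the restriction -/
lemma Sit.quad (h : ↥(HH G)) : res hS.hinv h ∈ quadraticElements (res hS.hinv).range ↔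
    (h : LinearMap.GeneralLinearGroup k M) ∈ quadraticElements G := by
  have hc : ∀ g ∈ G0 G, (g : Module.End k M) * (((h : LinearMap.GeneralLinearGroup k M) : Module.End k M) - 1) =
      (((h : LinearMap.GeneralLinearGroup k M) : Module.End k M) - 1) * g := by
    intro g hg
    have h1 := congrArg (fun y : LinearMap.GeneralLinearGroup k M => (y : Module.End k M)) (HH_comm h.2 hg)
    simp only [Units.val_mul] at h1
    rw [mul_sub, sub_mul, h1, mul_one, one_mul]
  have hr : ∀ w : N, (((((res hS.hinv h : LinearMap.GeneralLinearGroup k N) : N →ₗ[k] N) - 1) w : N) : M) =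
      (((h : LinearMap.GeneralLinearGroup k M) : M →ₗ[k] M) - 1) w := by
    intro w
    rfl
  rw [mem_quadraticElements_iff, mem_quadraticElements_iff]
  constructor
  · rintro ⟨h1, h2⟩
    have hsq : (((h : LinearMap.GeneralLinearGroup k M) : M →ₗ[k] M) - 1) * (((h : LinearMap.GeneralLinearGroup k M) : M →ₗ[k] M) - 1) = 0 := by
      apply hS.key
      · intro g hg
        have := hc g hg
        calc (g : Module.End k M) * ((((h : LinearMap.GeneralLinearGroup k M) : Module.End k M) - 1) *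
              (((h : LinearMap.GeneralLinearGroup k M) : Module.End k M) - 1))
            = (g : Module.End k M) * (((h : LinearMap.GeneralLinearGroup k M) : Module.End k M) - 1) *
              (((h : LinearMap.GeneralLinearGroup k M) : Module.End k M) - 1) := (mul_assoc _ _ _).symm
          _ = _ := by rw [this, mul_assoc, this, mul_assoc]
      · intro w hw
        have h3 := congrArg (fun y : Module.End k N => ((y ⟨w, hw⟩ : N) : M)) h1.sq
        exact h3
    refine ⟨⟨hsq, fun c => ?_⟩, ?_⟩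
    · obtain ⟨_, ⟨hc', rfl⟩, e⟩ := h1.has c
      refine ⟨hc', HH_le hc'.2, ?_⟩
      have : ((hc' : LinearMap.GeneralLinearGroup k M) : Module.End k M) -
          (1 + c • (((h : LinearMap.GeneralLinearGroup k M) : Module.End k M) - 1)) = 0 := by
        apply hS.key
        · intro g hg
          have h3 := congrArg (fun y : LinearMap.GeneralLinearGroup k M => (y : Module.End k M)) (HH_comm hc'.2 hg)
          simp only [Units.val_mul] at h3
          have h4 := hc g hg
          rw [mul_sub, sub_mul, h3, mul_add, add_mul, mul_one, one_mul, mul_smul_comm, smul_mul_assoc, h4]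
        · intro w hw
          have h3 := congrArg (fun y : Module.End k N => ((y ⟨w, hw⟩ : N) : M)) e
          rw [LinearMap.sub_apply, sub_eq_zero]
          exact h3
      exact sub_eq_zero.1 this
    · intro h0
      apply h2
      ext w
      rw [hr w, h0]
      rfl
  · rintro ⟨h1, h2⟩
    refine ⟨⟨?_, fun c => ?_⟩, ?_⟩
    · ext w
      have h3 := congrArg (fun y : Module.End k M => y (w : M)) h1.sq
      exact h3
    · obtain ⟨g, hg, e⟩ := h1.has c
      have hgH := fam_HH h.2 h1 c e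
      refine ⟨res hS.hinv ⟨g, hgH⟩, ⟨_, rfl⟩, ?_⟩
      ext w
      rw [res_coe]
      have h3 := congrArg (fun y : Module.End k M => y (w : M)) e
      exact h3
    · intro h0
      apply h2
      apply hS.key hc
      intro w hw
      have h3 := hr ⟨w, hw⟩
      rw [h0] at h3
      exact h3.symm

/-- the restriction is a quadratic pair -/
lemma Sit.pair : IsQuadraticPair (res hS.hinv).range := by
  refine ⟨⟨?_, ?_⟩, ?_⟩
  · obtain ⟨w, hw, hw0⟩ := (Submodule.ne_bot_iff _).1 hS.hN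
    exact ⟨⟨w, hw⟩, fun h => hw0 (congrArg Subtype.val h)⟩
  · intro W hW
    by_cases h0 : W = ⊥
    · exact Or.inl h0
    · right
      have h1 : W.map N.subtype = N := by
        apply hS.hmin
        · intro h
          apply h0
          rw [eq_bot_iff]
          intro w hw
          have h2 : (w : M) ∈ W.map N.subtype := ⟨w, hw, rfl⟩
          rw [h, Submodule.mem_bot] at h2
          exact (Submodule.mem_bot k).2 (Subtype.ext h2)
        · rintro g hg _ ⟨w, hw, rfl⟩
          exact ⟨_, hW (res hS.hinv ⟨g, hg⟩) ⟨_, rfl⟩ w hw, rfl⟩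
        · exact Submodule.map_subtype_le N W
      rw [eq_top_iff]
      rintro ⟨w, hw⟩ -
      rw [← h1] at hw
      obtain ⟨w', hw', e⟩ := hw
      have : w' = ⟨w, (by rw [← h1]; exact ⟨w', hw', e⟩)⟩ := Subtype.ext e
      rwa [this] at hw'
  · apply le_antisymm
    · rw [Subgroup.closure_le]
      exact fun x hx => hx.1
    · rintro _ ⟨⟨h, hh⟩, rfl⟩
      unfold HH at hh
      induction hh using Subgroup.closure_induction with
      | mem x hx => exact Subgroup.subset_closure ((hS.quad ⟨x, Subgroup.subset_closure hx⟩).2 hx.1)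
      | one =>
        have : res hS.hinv ⟨1, one_mem _⟩ = 1 := map_one _
        rw [this]; exact one_mem _
      | mul x y hx hy ihx ihy =>
        have : res hS.hinv ⟨x * y, mul_mem hx hy⟩ = res hS.hinv ⟨x, hx⟩ * res hS.hinv ⟨y, hy⟩ :=
          map_mul _ (⟨x, hx⟩ : HH G) ⟨y, hy⟩
        rw [this]; exact mul_mem ihx ihy
      | inv x hx ihx =>
        have : res hS.hinv ⟨x⁻¹, inv_mem hx⟩ = (res hS.hinv ⟨x, hx⟩)⁻¹ := map_inv _ (⟨x, hx⟩ : HH G)
        rw [this]; exact inv_mem ihx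

/-- transport of subgroups -/
def Sit.tr (hS : Sit G N) (K : Subgroup (LinearMap.GeneralLinearGroup k N)) :
    Subgroup (LinearMap.GeneralLinearGroup k M) := (K.comap (res hS.hinv)).map (HH G).subtype

lemma Sit.mem_tr {K : Subgroup (LinearMap.GeneralLinearGroup k N)} {x : LinearMap.GeneralLinearGroup k M} :
    x ∈ hS.tr K ↔ ∃ h : x ∈ HH G, res hS.hinv ⟨x, h⟩ ∈ K := by
  constructor
  · rintro ⟨y, hy, rfl⟩
    exact ⟨y.2, hy⟩
  · rintro ⟨h, h1⟩
    exact ⟨⟨x, h⟩, h1, rfl⟩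

lemma Sit.tr_le {K : Subgroup (LinearMap.GeneralLinearGroup k N)} : hS.tr K ≤ HH G := by
  intro x hx
  exact (hS.mem_tr.1 hx).1

lemma Sit.tr_quasi {K : Subgroup (LinearMap.GeneralLinearGroup k N)} (hK : K ≤ (res hS.hinv).range)
    (h : IsQuasisimple ↥K) : IsQuasisimple ↥(hS.tr K) := by
  have e1 := Subgroup.equivMapOfInjective (K.comap (res hS.hinv)) (HH G).subtype (Subgroup.subtype_injective _)
  have e2 := Subgroup.equivMapOfInjective (K.comap (res hS.hinv)) (res hS.hinv) hS.inj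
  rw [Subgroup.map_comap_eq_self hK] at e2
  exact Components.quasisimple_congr (e2.symm.trans e1) h

/-- a normal subgroup criterion -/
lemma Sit.le_norm {K : Subgroup (LinearMap.GeneralLinearGroup k M)} (hK : K ≤ HH G)
    (h : HH G ≤ Subgroup.normalizer (K : Set (LinearMap.GeneralLinearGroup k M))) :
    ∀ g ∈ G, conjBy K g = K := by
  have h1 : G0 G ≤ Subgroup.normalizer (K : Set (LinearMap.GeneralLinearGroup k M)) := by
    intro g hg
    rw [← conjBy_eq_self_iff]
    refine conj_le_iff (S := G0 G) ?_ g hg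
    intro g hg x hx
    rw [mem_conjBy] at hx
    have h3 := HH_comm (hK hx) hg
    have e : x = g * (g⁻¹ * x * g) * g⁻¹ := by group
    rw [e, h3, mul_inv_cancel_right]
    exact hx
  have h3 : G ≤ Subgroup.normalizer (K : Set (LinearMap.GeneralLinearGroup k M)) := by
    conv_lhs => rw [← hS.hG.2]
    rw [Subgroup.closure_le]
    intro x hx
    rcases dicho'' hS.h20 hS.hk3 hS.hG hx with h' | h'
    · exact h h'
    · exact h1 h'
  intro g hg
  exact conjBy_eq_self_iff.2 (h3 hg)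

lemma Sit.tr_normal {K : Subgroup (LinearMap.GeneralLinearGroup k N)}
    (h : ∀ g ∈ (res hS.hinv).range, conjBy K g = K) : ∀ g ∈ G, conjBy (hS.tr K) g = hS.tr K := by
  refine hS.le_norm hS.tr_le ?_
  intro g hg
  rw [← conjBy_eq_self_iff]
  refine conj_le_iff (S := HH G) ?_ g hg
  intro g hg x hx
  rw [mem_conjBy] at hx
  obtain ⟨h1, h2⟩ := hS.mem_tr.1 hx
  have h3 : x ∈ HH G := by
    have e : x = g * (g⁻¹ * x * g) * g⁻¹ := by group
    rw [e]
    exact mul_mem (mul_mem hg h1) (inv_mem hg)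
  refine hS.mem_tr.2 ⟨h3, ?_⟩
  have h4 : res hS.hinv ⟨g⁻¹ * x * g, h1⟩ = (res hS.hinv ⟨g, hg⟩)⁻¹ * res hS.hinv ⟨x, h3⟩ * res hS.hinv ⟨g, hg⟩ := by
    rw [← map_inv, ← map_mul, ← map_mul]
    rfl
  rw [h4, ← mem_conjBy, h _ ⟨_, rfl⟩] at h2
  exact h2

lemma Sit.tr_comm {K L : Subgroup (LinearMap.GeneralLinearGroup k N)} (h : ⁅K, L⁆ = ⊥) :
    ⁅hS.tr K, hS.tr L⁆ = ⊥ := by
  rw [Cfsg.Agent.Lib.RankOneGrp.commutator_eq_bot_iff]
  intro x hx y hy
  obtain ⟨h1, h2⟩ := hS.mem_tr.1 hx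
  obtain ⟨h3, h4⟩ := hS.mem_tr.1 hy
  have h5 := Cfsg.Agent.Lib.RootSub.commute_of_commutator_bot h h2 h4
  rw [← map_mul, ← map_mul] at h5
  exact congrArg Subtype.val (hS.inj h5)

lemma Sit.tr_gen {K : Subgroup (LinearMap.GeneralLinearGroup k N)} (hK : K ≤ (res hS.hinv).range)
    (h : Subgroup.closure (quadraticElements (res hS.hinv).range ∩ (K : Set (LinearMap.GeneralLinearGroup k N))) = K) :
    Subgroup.closure (quadraticElements G ∩ (hS.tr K : Set (LinearMap.GeneralLinearGroup k M))) = hS.tr K := by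
  apply le_antisymm
  · rw [Subgroup.closure_le]
    exact fun x hx => hx.2
  · set L := Subgroup.closure (quadraticElements G ∩ (hS.tr K : Set (LinearMap.GeneralLinearGroup k M))) with hL
    have h1 : K ≤ (L.subgroupOf (HH G)).map (res hS.hinv) := by
      conv_lhs => rw [← h]
      rw [Subgroup.closure_le]
      rintro x ⟨hx, hxK⟩
      obtain ⟨y, rfl⟩ := hx.1
      refine ⟨y, ?_, rfl⟩
      show (y : LinearMap.GeneralLinearGroup k M) ∈ L
      exact Subgroup.subset_closure ⟨(hS.quad y).1 hx, hS.mem_tr.2 ⟨y.2, hxK⟩⟩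
    intro x hx
    obtain ⟨h2, h3⟩ := hS.mem_tr.1 hx
    obtain ⟨y, hy, e⟩ := h1 h3
    have := hS.inj e
    have h4 : (y : LinearMap.GeneralLinearGroup k M) ∈ L := hy
    rw [this] at h4
    exact h4

end sit

/-! ### The components of `G₀` -/

lemma KK_gen (hΔ : Δ ∈ Comps G) :
    Subgroup.closure (quadraticElements G ∩ (KK Δ : Set (LinearMap.GeneralLinearGroup k M))) = KK Δ := by
  apply le_antisymm
  · rw [Subgroup.closure_le]
    exact fun x hx => hx.2
  · refine iSup₂_le fun B hB b hb => ?_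
    by_cases h1 : b = 1
    · rw [h1]; exact one_mem _
    · refine Subgroup.subset_closure ⟨?_, le_iSup_mem hB hb⟩
      obtain ⟨σ, hσ, rfl⟩ := mem_Sig.1 (Comps_sub hΔ hB)
      rcases mem_E.1 hb with h2 | h2
      · exact mem_quadraticElements_iff.2 ⟨h2.mn.fam, h2.mn.ne⟩
      · exact absurd h2 h1

omit [FiniteDimensional k M] in
lemma exists_mn (h : (quadraticElements G).Nonempty) : ∃ x, Mn G x := by
  classical
  have h1 : ∃ r : ℕ, ∃ t : Module.End k M, Fam G t ∧ t ≠ 0 ∧ Module.finrank k (LinearMap.range t) = r := by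
    obtain ⟨σ, hσ⟩ := h
    have := mem_quadraticElements_iff.1 hσ
    exact ⟨_, _, this.1, this.2, rfl⟩
  obtain ⟨t, ht, ht0, hr⟩ := Nat.find_spec h1
  refine ⟨t, ht, ht0, fun u hu hu0 => ?_⟩
  rw [hr]
  exact Nat.find_min' h1 ⟨u, hu, hu0, rfl⟩

lemma exists_N {x : Module.End k M} (hx : Mn G x) : ∃ N : Submodule k M, N ≠ ⊥ ∧
    (∀ g ∈ HH G, ∀ w ∈ N, (g : M →ₗ[k] M) w ∈ N) ∧
    (∀ N' : Submodule k M, N' ≠ ⊥ → (∀ g ∈ HH G, ∀ w ∈ N', (g : M →ₗ[k] M) w ∈ N') → N' ≤ N → N' = N) ∧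
    Module.finrank k N < Module.finrank k M := by
  classical
  have h1 : ∃ r : ℕ, ∃ N : Submodule k M, N ≠ ⊥ ∧ (∀ g ∈ HH G, ∀ w ∈ N, (g : M →ₗ[k] M) w ∈ N) ∧
      Module.finrank k N = r := by
    obtain ⟨N, h, h'⟩ : ∃ N : Submodule k M, N ≠ ⊥ ∧ (∀ g ∈ HH G, ∀ w ∈ N, (g : M →ₗ[k] M) w ∈ N) := by
      refine ⟨LinearMap.ker x, ?_, ?_⟩
      · intro h
        apply hx.ne
        have := (mul_eq_zero_iff x x).1 hx.fam.sq
        rw [h] at this
        exact LinearMap.range_eq_bot.1 (le_bot_iff.1 this)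
      · intro g hg w hw
        have h2 := congrArg (fun y : LinearMap.GeneralLinearGroup k M => (y : Module.End k M) w)
          (HH_comm hg (un_mem_G0 hx))
        simp only [Units.val_mul, un_coe] at h2
        have h3 : (g : M →ₗ[k] M) w + x ((g : M →ₗ[k] M) w) = (g : M →ₗ[k] M) (w + x w) := h2
        rw [LinearMap.mem_ker.1 hw, add_zero] at h3
        exact LinearMap.mem_ker.2 (by simpa using h3)
    exact ⟨_, N, h, h', rfl⟩
  obtain ⟨N, h, h', hr⟩ := Nat.find_spec h1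
  refine ⟨N, h, h', fun N' hN' hinv hle => ?_, ?_⟩
  · apply Submodule.eq_of_le_of_finrank_le hle
    rw [hr]
    exact Nat.find_min' h1 ⟨N', hN', hinv, rfl⟩
  · rw [hr]
    refine lt_of_le_of_lt (Nat.find_min' h1 ⟨LinearMap.ker x, ?_, ?_, rfl⟩) ?_
    · intro h
      apply hx.ne
      have := (mul_eq_zero_iff x x).1 hx.fam.sq
      rw [h] at this
      exact LinearMap.range_eq_bot.1 (le_bot_iff.1 this)
    · intro g hg w hw
      have h2 := congrArg (fun y : LinearMap.GeneralLinearGroup k M => (y : Module.End k M) w)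
        (HH_comm hg (un_mem_G0 hx))
      simp only [Units.val_mul, un_coe] at h2
      have h3 : (g : M →ₗ[k] M) w + x ((g : M →ₗ[k] M) w) = (g : M →ₗ[k] M) (w + x w) := h2
      rw [LinearMap.mem_ker.1 hw, add_zero] at h3
      exact LinearMap.mem_ker.2 (by simpa using h3)
    · apply Submodule.finrank_lt
      intro h
      exact hx.ne (LinearMap.ker_eq_top.1 h)

end fd

/-- **the decomposition theorem** -/
theorem dec (h20 : (2 : k) ≠ 0) (hk3 : Nat.card k ≠ 3) : ∀ (n : ℕ) (M : Type v) [AddCommGroup M] [Module k M]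
    [FiniteDimensional k M] (G : Subgroup (LinearMap.GeneralLinearGroup k M)), Module.finrank k M ≤ n →
      IsQuadraticPair G → Dec G := by
  intro n
  induction n with
  | zero =>
    intro M _ _ _ G hn hG
    exfalso
    obtain ⟨m, hm⟩ := hG.1.1
    have : Subsingleton M := Module.finrank_zero_iff.1 (Nat.le_zero.1 hn)
    exact hm (Subsingleton.elim _ _)
  | succ n ih =>
    intro M _ _ _ G hn hG
    by_cases hne : (quadraticElements G).Nonempty
    · obtain ⟨x₁, hx₁⟩ : ∃ x, Mn G x := exists_mn hne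
      obtain ⟨N, hN, hinv, hmin, hlt⟩ : ∃ N : Submodule k M, N ≠ ⊥ ∧
          (∀ g ∈ HH G, ∀ w ∈ N, (g : M →ₗ[k] M) w ∈ N) ∧
          (∀ N' : Submodule k M, N' ≠ ⊥ → (∀ g ∈ HH G, ∀ w ∈ N', (g : M →ₗ[k] M) w ∈ N') → N' ≤ N → N' = N) ∧
          Module.finrank k N < Module.finrank k M := exists_N hx₁
      have hS : Sit G N := ⟨h20, hk3, hG, hN, hinv, hmin⟩
      obtain ⟨𝒞, c1, c2, c3, c4, c5⟩ := ih N (res hS.hinv).range (by omega) hS.pair
      refine ⟨KK '' Comps G ∪ hS.tr '' 𝒞, (Comps_finite h20 hk3 hG).image _ |>.union (c1.image _), ?_, ?_, ?_, ?_⟩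
      · rintro _ (⟨Δ, hΔ, rfl⟩ | ⟨K, hK, rfl⟩)
        · exact ⟨KK_le hΔ, KK_normal h20 hk3 hG hΔ⟩
        · exact ⟨hS.tr_le.trans HH_le, hS.tr_normal (c2 K hK).2⟩
      · have hKH : ∀ Δ ∈ Comps G, ∀ K ∈ 𝒞, ⁅KK Δ, hS.tr K⁆ = ⊥ := by
          intro Δ hΔ K hK
          rw [Cfsg.Agent.Lib.RankOneGrp.commutator_eq_bot_iff]
          intro x hx y hy
          exact HH_comm (hS.tr_le hy) (KK_le_G0 hΔ hx)
        rintro _ (⟨Δ, hΔ, rfl⟩ | ⟨K, hK, rfl⟩) _ (⟨Δ', hΔ', rfl⟩ | ⟨K', hK', rfl⟩) hne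
        · exact Comps_comm' h20 hk3 hG hΔ hΔ' fun h => hne (by rw [h])
        · exact hKH Δ hΔ K' hK'
        · rw [Subgroup.commutator_comm]
          exact hKH Δ' hΔ' K hK
        · exact hS.tr_comm (c3 K hK K' hK' fun h => hne (by rw [h]))
      · rintro _ (⟨Δ, hΔ, rfl⟩ | ⟨K, hK, rfl⟩)
        · refine ⟨?_, KK_gen hΔ⟩
          obtain ⟨A, hA, rfl⟩ := hΔ
          exact comp_quasi h20 hk3 hG hA
        · exact ⟨hS.tr_quasi (c2 K hK).1 (c4 K hK).1, hS.tr_gen (c2 K hK).1 (c4 K hK).2⟩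
      · intro x hx
        rcases dicho' h20 hk3 hG hx with h | ⟨Δ, hΔ, h⟩
        · obtain ⟨K, hK, h1⟩ := c5 (res hS.hinv ⟨x, h⟩) ((hS.quad ⟨x, h⟩).2 hx)
          exact ⟨hS.tr K, Or.inr ⟨K, hK, rfl⟩, hS.mem_tr.2 ⟨h, h1⟩⟩
        · exact ⟨KK Δ, Or.inl ⟨Δ, hΔ, rfl⟩, h⟩
    · rw [Set.not_nonempty_iff_eq_empty] at hne
      refine ⟨∅, Set.finite_empty, ?_, ?_, ?_, ?_⟩
      · simp
      · simp
      · simp
      · rw [hne]; simp

end Cfsg.Agent.Lib.QuadPairZ
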