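import Cfsg.Agent.Lib.PSolvStable
import Cfsg.Agent.Lib.QuadAct
import Cfsg.Agent.Lib.ConjSylow

/-! Quadratic elements in groups acting faithfully on an elementary abelian group (K-S 9.1). -/

set_option autoImplicit false
set_option linter.unusedSectionVars false

namespace Cfsg.Agent.Lib.QuadPairs

open Subgroup Cfsg.Agent.Lib.QuadSection Cfsg.Agent.Lib.PStabPair Cfsg.Agent.Lib.QdSection
  Cfsg.Agent.Lib.PStab Cfsg.Agent.Lib.PStabInvolve Cfsg.Agent.Lib.FactorizeQuot Cfsg.Agent.Lib.RelSylow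
open scoped MatrixGroups commutatorElement

universe u
variable {G : Type u} [Group G] [Finite G] {p : ℕ} [hp : Fact p.Prime]

/-- a normal `p`-subgroup of `H` lies in `O_p(H)`. -/
theorem mem_pCore_of_normal {H D : Subgroup G} (hDH : D ≤ H) (hHD : H ≤ normalizer (D : Set G))
    (hD : IsPGroup p D) {a : G} (ha : a ∈ D) : a ∈ (Cfsg.pCore p H).map H.subtype := by
  have h1 : (D.subgroupOf H).Normal := by
    refine ⟨fun n hn g => ?_⟩
    rw [mem_subgroupOf] at hn ⊢
    exact (mem_normalizer_iff.1 (hHD g.2) n).1 hn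
  have h2 : IsPGroup p (D.subgroupOf H) := by
    intro x
    obtain ⟨k, hk⟩ := hD ⟨_, mem_subgroupOf.1 x.2⟩
    refine ⟨k, ?_⟩
    apply Subtype.ext
    apply Subtype.ext
    have h3 : ((x : H) : G) ^ p ^ k = 1 := congrArg Subtype.val hk
    simpa using h3
  refine ⟨⟨a, hDH ha⟩, ?_, rfl⟩
  exact le_pCore h1 h2 ha

theorem natSec_of_faithful (hp2 : p ≠ 2) {V H : Subgroup G} (hV : IsPGroup p V)
    (hHV : H ≤ normalizer (V : Set G)) (hf : H ⊓ centralizer (V : Set G) = ⊥) {a : G} (haH : a ∈ H)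
    (hq : ⁅⁅V, zpowers a⁆, zpowers a⁆ = ⊥) (hna : a ∉ (Cfsg.pCore p H).map H.subtype) : NatSec p V H := by
  apply natSec_of_not_stable hp2 hV hHV haH (quad_of_commutator hq)
  intro D hDH hHD hDp haD
  apply hna
  refine mem_pCore_of_normal hDH hHD ?_ haD
  intro x
  obtain ⟨k, hk⟩ := hDp x x.2
  refine ⟨k, ?_⟩
  apply Subtype.ext
  have h1 : (x : G) ^ p ^ k ∈ H ⊓ centralizer (V : Set G) := ⟨pow_mem (hDH x.2) _, hk⟩
  rw [hf] at h1
  exact mem_bot.1 h1

theorem abelian_all {H : Subgroup G} (T : Sylow 2 H) (hT : IsMulCommutative T) : ∀ T' : Sylow 2 H, IsMulCommutative T' := by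
  have : Fact (Nat.Prime 2) := ⟨Nat.prime_two⟩
  intro T'
  have e : T ≃* T' := Sylow.equiv T T'
  refine ⟨⟨fun x y => ?_⟩⟩
  apply e.symm.injective
  rw [map_mul, map_mul]
  exact hT.is_comm.comm _ _

theorem not_natSec_of_abelian (hp2 : p ≠ 2) {V H : Subgroup G} (T : Sylow 2 H) (hT : IsMulCommutative T) :
    ¬ NatSec p V H := by
  intro h
  apply not_involves_sl2_of_abelian (G := H) hp2 (abelian_all T hT)
  obtain ⟨K, L, hL, hKH, ⟨e⟩⟩ := sl2_of_natSec h
  have h1 : Cfsg.Involves (Matrix.SpecialLinearGroup (Fin 2) (ZMod p)) K :=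
    involves_of_hom (MonoidHom.id K) (fun _ _ h => h) (e.toMonoidHom.comp (QuotientGroup.mk' _))
      (e.surjective.comp (QuotientGroup.mk'_surjective _))
  exact involves_of_injective (inclusion hKH) (inclusion_injective hKH) h1

/-- (K-S 9.1.4) -/
theorem s0595 (hp2 : p ≠ 2) {V H : Subgroup G} (hV : IsPGroup p V)
    (hHV : H ≤ normalizer (V : Set G)) (hf : H ⊓ centralizer (V : Set G) = ⊥) {a : G} (haH : a ∈ H)
    (hq : ⁅⁅V, zpowers a⁆, zpowers a⁆ = ⊥) (hna : a ∉ (Cfsg.pCore p H).map H.subtype) (T : Sylow 2 H) :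
    ¬ IsMulCommutative T :=
  fun hT => not_natSec_of_abelian hp2 T hT (natSec_of_faithful hp2 hV hHV hf haH hq hna)

theorem s0596 (hp2 : p ≠ 2) {V H : Subgroup G} (hV : IsPGroup p V)
    (hHV : H ≤ normalizer (V : Set G)) (hf : H ⊓ centralizer (V : Set G) = ⊥) (hsep : Cfsg.IsPSolvable p H)
    {a : G} (haH : a ∈ H)
    (hq : ⁅⁅V, zpowers a⁆, zpowers a⁆ = ⊥) (hna : a ∉ (Cfsg.pCore p H).map H.subtype) :
    p = 3 ∧ ∃ (K L : Subgroup G) (_hL : (L.subgroupOf K).Normal), K ≤ H ∧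
      Nonempty ((K ⧸ L.subgroupOf K) ≃* Matrix.SpecialLinearGroup (Fin 2) (ZMod p)) := by
  obtain ⟨K, L, hL, hKH, ⟨e⟩⟩ := sl2_of_natSec (natSec_of_faithful hp2 hV hHV hf haH hq hna)
  refine ⟨?_, K, L, hL, hKH, ⟨e⟩⟩
  by_contra h3
  have h5 : 5 ≤ p := by
    have h2 := hp.out.two_le
    have h4 : p ≠ 4 := by rintro rfl; exact absurd hp.out (by decide)
    omega
  apply PSolvStable.not_involves_of_isPSolvable h5 hsep
  have h1 : Cfsg.Involves (Matrix.SpecialLinearGroup (Fin 2) (ZMod p)) K :=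
    involves_of_hom (MonoidHom.id K) (fun _ _ h => h) (e.toMonoidHom.comp (QuotientGroup.mk' _))
      (e.surjective.comp (QuotientGroup.mk'_surjective _))
  exact involves_of_injective (inclusion hKH) (inclusion_injective hKH) h1

theorem isPSolvable_of_normal {Q : Subgroup G} [Q.Normal] (hQ : (Nat.card Q).Coprime p)
    (hi : ∃ m : ℕ, Q.index = p ^ m) : Cfsg.IsPSolvable p G := by
  refine ⟨2, ![⊥, Q, ⊤], rfl, rfl, ?_, ?_, ?_⟩
  · intro i j hij
    fin_cases i <;> fin_cases j <;> simp at hij ⊢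
  · intro i
    fin_cases i
    · exact (inferInstance : (⊥ : Subgroup G).Normal)
    · exact (inferInstance : Q.Normal)
    · exact (inferInstance : (⊤ : Subgroup G).Normal)
  · intro i
    fin_cases i
    · right
      show ((⊥ : Subgroup G).relIndex Q).Coprime p
      rw [relIndex_bot_left]; exact hQ
    · left
      show ∃ m : ℕ, Q.relIndex ⊤ = p ^ m
      rw [relIndex_top_right]; exact hi

theorem s0594 (hp2 : p ≠ 2) {V H : Subgroup G} (hV : IsPGroup p V) (hVp : ∀ v ∈ V, v ^ p = 1)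
    (hHV : H ≤ normalizer (V : Set G)) (hf : H ⊓ centralizer (V : Set G) = ⊥) {a : G} (haH : a ∈ H)
    (hq : ⁅⁅V, zpowers a⁆, zpowers a⁆ = ⊥) {Q : Subgroup G} (hQH : Q ≤ H) (hQn : H ≤ normalizer (Q : Set G))
    (hQ : (Nat.card Q).Coprime p) (hQa : ⁅Q, zpowers a⁆ ≠ ⊥) :
    p = 3 ∧ ∃ (K L : Subgroup G) (_hL : (L.subgroupOf K).Normal), K ≤ H ∧
      Nonempty ((K ⧸ L.subgroupOf K) ≃* Matrix.SpecialLinearGroup (Fin 2) (ZMod p)) := by
  have haQ : zpowers a ≤ normalizer (Q : Set G) := by rw [zpowers_le]; exact hQn haH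
  have haH' : zpowers a ≤ H := by rw [zpowers_le]; exact haH
  have hap : IsPGroup p (zpowers a) := QuadAct.isPGroup_of_quad hVp haH' hf (haH'.trans hHV) hq
  set H' : Subgroup G := Q ⊔ zpowers a with hH'
  have hH'H : H' ≤ H := sup_le hQH haH'
  have hQH' : Q ≤ H' := le_sup_left
  have hQH'n : H' ≤ normalizer (Q : Set G) := sup_le le_normalizer haQ
  have hQn' : (Q.subgroupOf H').Normal := by
    refine ⟨fun n hn g => ?_⟩
    rw [mem_subgroupOf] at hn ⊢
    exact (mem_normalizer_iff.1 (hQH'n g.2) n).1 hn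
  have hQc : (Nat.card (Q.subgroupOf H')).Coprime p := by
    rw [Nat.card_congr (subgroupOfEquivOfLe hQH').toEquiv]; exact hQ
  have hidx : ∃ m : ℕ, (Q.subgroupOf H').index = p ^ m := by
    obtain ⟨m, hm⟩ := IsPGroup.iff_card.1 hap
    have h1 : (Q.subgroupOf H').index ∣ p ^ m := by
      rw [← hm]
      have h2 : Nat.card ↥(zpowers a ⊔ Q) * Nat.card ↥(zpowers a ⊓ Q) = Nat.card (zpowers a) * Nat.card Q :=
        ConjSylow.card_sup_mul_card_inf haQ
      have h3 : Q.relIndex H' * Nat.card Q = Nat.card H' := by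
        have := relIndex_mul_relIndex ⊥ Q H' bot_le hQH'
        rw [relIndex_bot_left, relIndex_bot_left] at this
        rw [mul_comm]; exact this
      rw [sup_comm, ← hH', ← h3] at h2
      have h4 : Q.relIndex H' * Nat.card ↥(zpowers a ⊓ Q) = Nat.card (zpowers a) := by
        apply Nat.eq_of_mul_eq_mul_right (Nat.card_pos (α := Q))
        rw [← h2]; ring
      change Q.relIndex H' ∣ _
      exact Dvd.intro _ h4
    obtain ⟨k, -, hk⟩ := (Nat.dvd_prime_pow hp.out).1 h1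
    exact ⟨k, hk⟩
  have hsolv : Cfsg.IsPSolvable p H' := isPSolvable_of_normal hQc hidx
  have haH'' : a ∈ H' := (le_sup_right : zpowers a ≤ H') (mem_zpowers a)
  obtain ⟨h3, K, L, hL, hK, e⟩ := s0596 (p := p) hp2 hV (hH'H.trans hHV) (by
      rw [eq_bot_iff, ← hf]; exact inf_le_inf_right _ hH'H) hsolv haH'' hq (by
    intro hc
    apply hQa
    set O : Subgroup G := (Cfsg.pCore p H').map H'.subtype with hO
    have hOp : IsPGroup p O := isPGroup_pCore.map _
    have hOH' : O ≤ H' := map_subtype_le _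
    have hOn : H' ≤ normalizer (O : Set G) := by
      intro g hg
      rw [mem_normalizer_iff]
      have key : ∀ g ∈ H', ∀ x ∈ O, g * x * g⁻¹ ∈ O := by
        rintro g hg _ ⟨x, hx, rfl⟩
        exact ⟨⟨g, hg⟩ * x * ⟨g, hg⟩⁻¹, (inferInstance : (Cfsg.pCore p H').Normal).conj_mem x hx _, rfl⟩
      intro x
      refine ⟨key g hg x, fun h => ?_⟩
      have h1 := key g⁻¹ (inv_mem hg) _ h
      have h2 : g⁻¹ * (g * x * g⁻¹) * g⁻¹⁻¹ = x := by group
      rwa [h2] at h1
    have hdis : Q ⊓ O = ⊥ := by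
      have h1 : IsPGroup p (Q ⊓ O : Subgroup G) := hOp.to_le inf_le_right
      obtain ⟨m, hm⟩ := IsPGroup.iff_card.1 h1
      have h2 : Nat.card (Q ⊓ O : Subgroup G) ∣ Nat.card Q := card_dvd_of_le inf_le_left
      have h4 : (p ^ m).Coprime p := by
        rw [← hm]; exact Nat.Coprime.coprime_dvd_left h2 hQ
      rw [← card_eq_one, hm]
      rcases Nat.eq_zero_or_pos m with h | h
      · rw [h, pow_zero]
      · exact absurd (Nat.Coprime.coprime_dvd_left (dvd_pow_self p h.ne') h4) (by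
          rw [Nat.coprime_self]; exact hp.out.one_lt.ne')
    rw [eq_bot_iff, ← hdis]
    have haO : zpowers a ≤ O := by rw [zpowers_le]; exact hc
    refine le_inf ?_ ?_
    · rw [commutator_le]
      intro x hx y hy
      have h1 := (mem_normalizer_iff.1 (haQ hy) x⁻¹).1 (inv_mem hx)
      rw [commutatorElement_def]
      have : x * y * x⁻¹ * y⁻¹ = x * (y * x⁻¹ * y⁻¹) := by group
      rw [this]
      exact mul_mem hx h1
    · rw [commutator_le]
      intro x hx y hy
      have h1 := (mem_normalizer_iff.1 (hOn (hQH' hx)) y).1 (haO hy)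
      rw [commutatorElement_def]
      exact mul_mem h1 (inv_mem (haO hy)))
  exact ⟨h3, K, L, hL, hK.trans hH'H, e⟩

theorem not_mem_of_not_isPGroup {H : Subgroup G} {a b : G} (hab : H = closure {a, b}) (hnp : ¬ IsPGroup p H) :
    a ∉ (Cfsg.pCore p H).map H.subtype ∨ b ∉ (Cfsg.pCore p H).map H.subtype := by
  by_contra hcon
  push Not at hcon
  apply hnp
  have h1 : H ≤ (Cfsg.pCore p H).map H.subtype := by
    conv_lhs => rw [hab]
    rw [closure_le]
    intro y hy
    rcases hy with rfl | hy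
    · exact hcon.1
    · rw [Set.mem_singleton_iff.1 hy]; exact hcon.2
  exact (isPGroup_pCore.map _).to_le h1

end Cfsg.Agent.Lib.QuadPairs
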