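import Cfsg.Agent.Lib.RankOneGrp
import Cfsg.Prelude.Def_Transfer
set_option autoImplicit false

/-!
# Quadratic action of rank one groups (helper83)
-/

namespace Cfsg.Agent.Lib.QuadRankOne
open Cfsg Subgroup
open Cfsg.Agent.Lib.RankOneGrp

variable {X : Type*} [Group X] {V : Type*} [AddCommGroup V] [DistribMulAction X V]

/-- `A` acts quadratically -/
def Quad (A : Subgroup X) (V : Type*) [AddCommGroup V] [DistribMulAction X V] : Prop :=
  ∀ a ∈ A, ∀ a' ∈ A, ∀ v : V, a' • (a • v - v) = a • v - v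

lemma Quad.conj {A : Subgroup X} (h : Quad A V) (g : X) : Quad (conjBy A g) V := by
  intro a ha a' ha' v
  rw [mem_conjBy] at ha ha'
  have h1 := h _ ha _ ha' (g⁻¹ • v)
  have e1 : a • v - v = g • ((g⁻¹ * a * g) • (g⁻¹ • v) - g⁻¹ • v) := by
    rw [smul_sub, smul_smul, smul_smul, smul_smul]
    congr 2
    · group
    · group; simp
  have e2 : ∀ z : V, a' • (g • z) = g • ((g⁻¹ * a' * g) • z) := by
    intro z
    rw [smul_smul, smul_smul]
    congr 1
    group
  rw [e1, e2, h1]

lemma Quad.mul {A : Subgroup X} (h : Quad A V) {a a' : X} (ha : a ∈ A) (ha' : a' ∈ A) (v : V) :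
    (a * a') • v - v = (a • v - v) + (a' • v - v) := by
  have h1 := h a' ha' a ha v
  rw [mul_smul]
  rw [smul_sub] at h1
  have : a • a' • v = a' • v - v + a • v := by rw [← h1]; abel
  rw [this]; abel

lemma Quad.pow {A : Subgroup X} (h : Quad A V) {a : X} (ha : a ∈ A) (n : ℕ) (v : V) :
    (a ^ n) • v - v = n • (a • v - v) := by
  induction n with
  | zero => simp
  | succ n ih =>
    rw [pow_succ, h.mul (A.pow_mem ha n) ha, ih, add_smul, one_smul]

lemma Quad.inv {A : Subgroup X} (h : Quad A V) {a : X} (ha : a ∈ A) (v : V) :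
    a⁻¹ • v = v - (a • v - v) := by
  have := h.mul (A.inv_mem ha) ha v
  rw [inv_mul_cancel, one_smul, sub_self] at this
  have h2 : a⁻¹ • v - v = -(a • v - v) := by
    rw [eq_neg_iff_add_eq_zero, ← this]
  rw [sub_eq_add_neg v, ← h2]; abel

lemma Quad.comm {A : Subgroup X} (h : Quad A V) (hf : ∀ x : X, (∀ v : V, x • v = v) → x = 1)
    {a a' : X} (ha : a ∈ A) (ha' : a' ∈ A) : a * a' = a' * a := by
  have : (a * a') * (a' * a)⁻¹ = 1 := by
    apply hf
    intro v
    have h1 : ∀ w : V, (a * a') • w = (a' * a) • w := by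
      intro w
      have e1 := h.mul ha ha' w
      have e2 := h.mul ha' ha w
      rw [add_comm, ← e2] at e1
      exact sub_left_injective e1
    rw [mul_smul, h1, ← mul_smul, mul_inv_cancel, one_smul]
  exact mul_inv_eq_one.mp this

/-- fixed by everything once fixed by generators -/
lemma fixed_of_sup {A B : Subgroup X} (hAB : A ⊔ B = ⊤) {v : V} (hA : ∀ a ∈ A, a • v = v)
    (hB : ∀ b ∈ B, b • v = v) (x : X) : x • v = v := by
  have hx : x ∈ A ⊔ B := by rw [hAB]; exact Subgroup.mem_top x
  refine sup_induction (p := fun x => x • v = v) (by simp) ?_ ?_ hx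
  · intro a ha y hy
    rw [mul_smul, hy, hA a ha]
  · intro a ha y hy
    rw [mul_smul, hy, hB a ha]

/-- elements acting trivially on `V / C_V(X)` -/
def triv (X V : Type*) [Group X] [AddCommGroup V] [DistribMulAction X V] : Subgroup X where
  carrier := {x | ∀ v : V, ∀ y : X, y • (x • v - v) = x • v - v}
  one_mem' := by intro v y; simp
  mul_mem' := by
    intro a b ha hb v y
    have e : (a * b) • v - v = (a • (b • v) - b • v) + (b • v - v) := by rw [mul_smul]; abel
    rw [e, smul_add, ha, hb]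
  inv_mem' := by
    intro a ha v y
    have e : a⁻¹ • v - v = -(a • (a⁻¹ • v) - a⁻¹ • v) := by rw [smul_inv_smul]; abel
    rw [e, smul_neg, ha]

lemma triv_normal : (triv X V).Normal where
  conj_mem := by
    intro x hx g v y
    have e : (g * x * g⁻¹) • v - v = g • (x • (g⁻¹ • v) - g⁻¹ • v) := by
      rw [smul_sub, smul_inv_smul, mul_smul, mul_smul]
    rw [e, hx (g⁻¹ • v) g]
    exact hx (g⁻¹ • v) y

/-- if `X` does not act quadratically, elements acting trivially on `V/C_V(X)` are central -/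
lemma triv_le_center {A B : Subgroup X} (h : IsRankOneGroup X A B) (hqA : Quad A V)
    (hqB : Quad B V) (hX : ∃ x y : X, ∃ n : V, y • (x • n - n) ≠ x • n - n) :
    triv X V ≤ center X := by
  rcases group_dichotomy h (triv_normal (X := X) (V := V)) with h1 | ⟨h1, h2⟩
  · exact h1
  · exfalso
    obtain ⟨x, y, v, hne⟩ := hX
    apply hne
    have key : ∀ A : Subgroup X, Quad A V → triv X V ⊔ A = ⊤ → ∀ a ∈ A, a • (x • v - v) = x • v - v := by
      intro A hqA htop a ha
      have hx : x ∈ triv X V ⊔ A := by rw [htop]; exact Subgroup.mem_top x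
      have := triv_normal (X := X) (V := V)
      rw [Subgroup.mem_sup_of_normal_left] at hx
      obtain ⟨n, hn, a', ha', rfl⟩ := hx
      have e : (n * a') • v - v = (n • (a' • v) - a' • v) + (a' • v - v) := by rw [mul_smul]; abel
      rw [e, smul_add, hn (a' • v) a, hqA a' ha' a ha v]
    exact fixed_of_sup h.1 (key A hqA h1) (key B hqB h2) y

lemma conj_of_group {A B : Subgroup X} (h : IsRankOneGroup X A B) : ∃ x : X, B = conjBy A x := by
  obtain ⟨x, _, e⟩ := right_mem_unip h.2
  exact ⟨x, e⟩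

/-- the crucial computation for S5019 -/
lemma fixed_aux {A B : Subgroup X} (h : IsRankOneGroup X A B) (hqA : Quad A V)
    (hqB : Quad B V) {a b : X} (ha : a ∈ A) (hb : b ∈ B) (e : conjBy A b⁻¹ = conjBy B a⁻¹)
    (v : V) (x : X) :
    x • ((b • v - v) - (b • (a • (b • v - v) - (b • v - v)) - (a • (b • v - v) - (b • v - v)))) =
      (b • v - v) - (b • (a • (b • v - v) - (b • v - v)) - (a • (b • v - v) - (b • v - v))) := by
  set β : V := b • v - v with hβ
  set αβ : V := a • β - β with hαβ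
  -- w
  set w : V := b • (a⁻¹ • β) with hw
  have hyA : (b * a⁻¹) * b * (b * a⁻¹)⁻¹ ∈ A := by
    have h1 : conjBy B (b * a⁻¹) = A := by
      rw [conjBy_mul, ← e, conjBy_conjBy_inv]
    rw [← h1]
    exact conjBy_mem hb _
  have hwA : ∀ a' ∈ A, a' • w = w := by
    intro a' ha'
    have e1 : w = ((b * a⁻¹) * b * (b * a⁻¹)⁻¹) • ((b * a⁻¹) • v) - (b * a⁻¹) • v := by
      rw [hw, hβ, smul_smul, smul_sub, smul_smul, smul_smul]
      congr 2
      group
    rw [e1]
    exact hqA _ hyA a' ha' _
  -- a⁻¹ β = β - αβ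
  have h2 : a⁻¹ • β = β - αβ := hqA.inv ha β
  -- b⁻¹ w = a⁻¹ β
  have h3 : b⁻¹ • w = a⁻¹ • β := by rw [hw, inv_smul_smul]
  have h4 : b⁻¹ • w = w - (b • w - w) := hqB.inv hb w
  -- u = β + β w = w + αβ
  have hu : β + (b • w - w) = w + αβ := by
    rw [h3, h2] at h4
    have : β = w - (b • w - w) + αβ := by rw [← h4]; abel
    rw [this]; abel
  have huA : ∀ a' ∈ A, a' • (w + αβ) = w + αβ := by
    intro a' ha'
    rw [smul_add, hwA a' ha', hαβ, hqA a ha a' ha' β]
  have huB : ∀ b' ∈ B, b' • (w + αβ) = w + αβ := by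
    intro b' hb'
    rw [← hu, smul_add, hβ, hqB b hb b' hb' v, hqB b hb b' hb' w]
  have hfix := fixed_of_sup h.1 huA huB
  -- b fixes u, so b w - w = - (b αβ - αβ)
  have h5 : b • w - w = -(b • αβ - αβ) := by
    have := hfix b
    rw [smul_add] at this
    have h6 : b • w = w + αβ - b • αβ := by rw [← this]; abel
    rw [h6]; abel
  have h7 : β - (b • αβ - αβ) = w + αβ := by
    rw [← hu, h5]; abel
  rw [h7]
  exact hfix x

/-- S5019 -/
theorem special_of_quad {A B : Subgroup X} (h : IsRankOneGroup X A B)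
    (hqA : Quad A V) (hX : ∃ x y : X, ∃ n : V, y • (x • n - n) ≠ x • n - n) :
    IsSpecialRankOnePair A B := by
  have hqB : Quad B V := by
    obtain ⟨x, rfl⟩ := conj_of_group h
    exact hqA.conj x
  refine ⟨h.2, ?_⟩
  intro a ha ha1 b hb hb1 e
  set c₁ := b⁻¹ * a * b with hc₁
  set c₂ := a⁻¹ * b * a with hc₂
  have hC₁ : c₁ ∈ conjBy A b⁻¹ := by
    have := conjBy_mem ha b⁻¹
    rwa [inv_inv] at this
  have hC₂ : c₂ ∈ conjBy A b⁻¹ := by
    rw [e]
    have := conjBy_mem hb a⁻¹
    rwa [inv_inv] at this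
  have hqC : Quad (conjBy A b⁻¹) V := hqA.conj b⁻¹
  -- c₁ c₂ acts trivially on V / C_V(X)
  have hmem : c₁ * c₂ ∈ triv X V := by
    intro v y
    rw [hqC.mul hC₁ hC₂ v]
    have e1 : c₁ • v - v = b⁻¹ • (a • (b • v) - b • v) := by
      rw [hc₁, smul_sub, inv_smul_smul, mul_smul, mul_smul]
    have e2 : c₂ • v - v = a⁻¹ • (b • (a • v) - a • v) := by
      rw [hc₂, smul_sub, inv_smul_smul, mul_smul, mul_smul]
    -- expand
    have f1 := fixed_aux h hqA hqB ha hb e v y
    have f2 := fixed_aux (group_symm h) hqB hqA hb ha e.symm v y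
    have e1' : c₁ • v - v = (a • v - v) + (a • (b • v - v) - (b • v - v)) -
        (b • (a • v - v) - (a • v - v)) -
        (b • (a • (b • v - v) - (b • v - v)) - (a • (b • v - v) - (b • v - v))) := by
      rw [e1, hqB.inv hb]
      simp only [smul_sub]
      abel
    have e2' : c₂ • v - v = (b • v - v) + (b • (a • v - v) - (a • v - v)) -
        (a • (b • v - v) - (b • v - v)) -
        (a • (b • (a • v - v) - (a • v - v)) - (b • (a • v - v) - (a • v - v))) := by
      rw [e2, hqA.inv ha]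
      simp only [smul_sub]
      abel
    have e3 : (c₁ • v - v) + (c₂ • v - v) =
        ((b • v - v) - (b • (a • (b • v - v) - (b • v - v)) - (a • (b • v - v) - (b • v - v)))) +
        ((a • v - v) - (a • (b • (a • v - v) - (a • v - v)) - (b • (a • v - v) - (a • v - v)))) := by
      rw [e1', e2']; abel
    rw [e3, smul_add, f1, f2]
  have hcen := triv_le_center h hqA hqB hX hmem
  -- an element of a unipotent subgroup in the centre is trivial
  have hcA : c₁ * c₂ ∈ conjBy A b⁻¹ := Subgroup.mul_mem _ hC₁ hC₂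
  have h1 : c₁ * c₂ = 1 := by
    have hp := pair_conj h.2 b⁻¹
    apply eq_one_of_commute_left hp hcA
    intro z _
    exact (Subgroup.mem_center_iff.1 hcen z).symm
  have h2 : c₁ = c₂⁻¹ := eq_inv_of_mul_eq_one_left h1
  rw [h2, hc₂]; group

/-- S5023 -/
theorem torsion_dichotomy {A B : Subgroup X} (h : IsRankOneGroup X A B)
    (hf : ∀ x : X, (∀ v : V, x • v = v) → x = 1) (hqA : Quad A V) :
    (∀ a ∈ A, a ≠ 1 → ¬ IsOfFinOrder a) ∨ ∃ p : ℕ, p.Prime ∧ Cfsg.IsElementaryAbelian p A := by
  by_cases htf : ∀ a ∈ A, a ≠ 1 → ¬ IsOfFinOrder a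
  · exact Or.inl htf
  right
  push Not at htf
  obtain ⟨a, ha, ha1, hfin⟩ := htf
  have hqB : Quad B V := by
    obtain ⟨x, rfl⟩ := conj_of_group h
    exact hqA.conj x
  -- not quadratic
  have hX : ∃ x y : X, ∃ n : V, y • (x • n - n) ≠ x • n - n := by
    by_contra hcon
    push Not at hcon
    have hq : Quad (⊤ : Subgroup X) V := fun x _ y _ v => hcon x y v
    apply not_forall_commute h.2
    intro x _ y _
    exact hq.comm hf (Subgroup.mem_top x) (Subgroup.mem_top y)
  have hcen := triv_le_center h hqA hqB hX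
  have hn1 : orderOf a ≠ 1 := by rw [Ne, orderOf_eq_one_iff]; exact ha1
  obtain ⟨p, hp, hpd⟩ := Nat.exists_prime_and_dvd hn1
  refine ⟨p, hp, isMulCommutative_of_commute (fun x hx y hy => hqA.comm hf hx hy), ?_⟩
  -- a₀ of order p
  obtain ⟨m, hm⟩ := hpd
  set a₀ := a ^ m with ha₀
  have ha₀A : a₀ ∈ A := A.pow_mem ha m
  have ha₀p : a₀ ^ p = 1 := by rw [ha₀, ← pow_mul, mul_comm, ← hm, pow_orderOf_eq_one]
  have ha₀1 : a₀ ≠ 1 := by
    intro h1
    have := orderOf_dvd_of_pow_eq_one h1
    have hpos : 0 < orderOf a := hfin.orderOf_pos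
    have hm0 : 0 < m := by
      rcases Nat.eq_zero_or_pos m with h0 | h0
      · rw [h0, mul_zero] at hm; omega
      · exact h0
    have h2 := Nat.le_of_dvd hm0 this
    rw [hm] at h2
    have := hp.two_le
    nlinarith
  have hpα : ∀ v : V, p • (a₀ • v - v) = 0 := by
    intro v
    rw [← hqA.pow ha₀A, ha₀p]; simp
  -- the kernel of the action on pV
  let N2 : Subgroup X :=
    { carrier := {x | ∀ v : V, x • (p • v) = p • v}
      one_mem' := by intro v; simp
      mul_mem' := by
        intro x y hx hy v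
        rw [mul_smul, hy v, hx v]
      inv_mem' := by
        intro x hx v
        rw [inv_smul_eq_iff, hx v] }
  have hsm : ∀ (x : X) (v : V), x • (p • v) = p • (x • v) := fun x v => by
    exact smul_comm x p v
  have hN2 : N2.Normal :=
    { conj_mem := by
        intro x hx g v
        show (g * x * g⁻¹) • (p • v) = p • v
        rw [mul_smul, mul_smul, hsm g⁻¹ v, hx, ← hsm g⁻¹ v, smul_inv_smul] }
  have ha₀N : a₀ ∈ N2 := by
    intro v
    have := hpα v
    rw [smul_sub, sub_eq_zero, ← hsm] at this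
    exact this
  rcases group_dichotomy h hN2 with h1 | ⟨h1, h2⟩
  · exfalso
    apply ha₀1
    apply eq_one_of_commute_left h.2 ha₀A
    intro b _
    exact (Subgroup.mem_center_iff.1 (h1 ha₀N) b).symm
  · intro c hc
    have key : ∀ A : Subgroup X, Quad A V → N2 ⊔ A = ⊤ → ∀ x : X, ∀ v : V, ∀ a ∈ A,
        a • (x • (p • v) - p • v) = x • (p • v) - p • v := by
      intro A hqA htop x v a ha
      have hx : x ∈ N2 ⊔ A := by rw [htop]; exact Subgroup.mem_top x
      rw [Subgroup.mem_sup_of_normal_left] at hx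
      obtain ⟨n, hn, a', ha', rfl⟩ := hx
      have e : (n * a') • (p • v) = a' • (p • v) := by
        rw [mul_smul, hsm a' v]; exact hn (a' • v)
      rw [e]
      exact hqA a' ha' a ha (p • v)
    have hmem : c ^ p ∈ triv X V := by
      intro v y
      have e : (c ^ p) • v - v = c • (p • v) - p • v := by
        rw [hqA.pow hc, smul_sub, ← hsm]
      rw [e]
      exact fixed_of_sup h.1 (key A hqA h1 c v) (key B hqB h2 c v) y
    apply eq_one_of_commute_left h.2 (A.pow_mem hc p)
    intro b _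
    exact (Subgroup.mem_center_iff.1 (hcen hmem) b).symm

end Cfsg.Agent.Lib.QuadRankOne
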