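import Cfsg.Prelude
import Mathlib

/-! Quadratic pairs with eigenvalues in the ground field map onto a non-`p`-subgroup of `SL(2,K)` (K-S 9.1.1). -/

set_option autoImplicit false
set_option linter.unusedSectionVars false

namespace Cfsg.Agent.Lib.QuadScalar

open Polynomial
open scoped MatrixGroups

section

variable {K : Type*} [Field K] [Fintype K] {p : ℕ} [hp : Fact p.Prime] [CharP K p]

theorem exists_eigen {W : Type*} [AddCommGroup W] [Module K W] [FiniteDimensional K W] [Nontrivial W]
    (T : Module.End K W) {e : ℕ} (h : T ^ (p ^ e * (Fintype.card K - 1)) = 1) :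
    ∃ (c : K) (v : W), v ≠ 0 ∧ T v = c • v := by
  classical
  have hq : 1 ≤ Fintype.card K := Fintype.card_pos
  set f : K[X] := (X ^ Fintype.card K - X) ^ p ^ e with hf
  have hsp : (X ^ Fintype.card K - X : K[X]).Splits := by
    rw [splits_iff_card_roots, FiniteField.roots_X_pow_card_sub_X K,
      FiniteField.X_pow_card_sub_X_natDegree_eq K Fintype.one_lt_card, ← Finset.card_def, Finset.card_univ]
  have h0 : (X ^ Fintype.card K - X : K[X]) ≠ 0 := FiniteField.X_pow_card_sub_X_ne_zero K Fintype.one_lt_card
  have hf0 : f ≠ 0 := pow_ne_zero _ h0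
  have haev : aeval T f = 0 := by
    have h1 : f = X ^ (p ^ e) * (X ^ (p ^ e * (Fintype.card K - 1)) - 1) := by
      have h2 : (X ^ Fintype.card K - X : K[X]) = X * (X ^ (Fintype.card K - 1) - 1) := by
        rw [mul_sub, mul_one, ← pow_succ', Nat.sub_add_cancel hq]
      rw [hf, h2, mul_pow, sub_pow_char_pow, one_pow, ← pow_mul, mul_comm (p ^ e) (Fintype.card K - 1)]
    rw [h1]
    simp [h]
  have hdvd : minpoly K T ∣ f := minpoly.dvd K T haev
  have hms : (minpoly K T).Splits := (hsp.pow _).of_dvd hf0 hdvd
  obtain ⟨c, hc⟩ := hms.exists_eval_eq_zero (by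
    have := minpoly.degree_pos (Algebra.IsIntegral.isIntegral (R := K) T)
    exact this.ne')
  obtain ⟨v, hv⟩ := (Module.End.hasEigenvalue_of_isRoot (f := T) (μ := c) hc).exists_hasEigenvector
  exact ⟨c, v, hv.2, hv.apply_eq_smul⟩

variable {H : Type*} [Group H]

theorem irred_case {W : Type*} [AddCommGroup W] [Module K W] [FiniteDimensional K W] [Nontrivial W]
    (ρ : H →* Module.End K W) (a b : H) (hgen : Subgroup.closure {a, b} = ⊤)
    (ha : (ρ a - 1) * (ρ a - 1) = 0) (hb : (ρ b - 1) * (ρ b - 1) = 0) {e : ℕ}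
    (hord : (ρ (a * b)) ^ (p ^ e * (Fintype.card K - 1)) = 1)
    (hirr : ∀ U : Submodule K W, (∀ h : H, ∀ w ∈ U, ρ h w ∈ U) → U = ⊥ ∨ U = ⊤)
    (hnp : ¬ ∀ h, ∃ k, ρ h ^ (p ^ k) = 1) :
    ∃ φ : H →* SL(2, K), ¬ ∀ h, ∃ k, φ h ^ (p ^ k) = 1 := by
  classical
  set X : Module.End K W := ρ a - 1 with hX
  set Y : Module.End K W := ρ b - 1 with hY
  have hρa : ρ a = 1 + X := by rw [hX]; abel
  have hρb : ρ b = 1 + Y := by rw [hY]; abel
  have hinvers : ∀ (x : H) (Z : Module.End K W), Z * Z = 0 → ρ x = 1 + Z → ρ x⁻¹ = 1 - Z := by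
    intro x Z hZ hx
    have h1 : ρ x⁻¹ * ρ x = 1 := by rw [← map_mul, inv_mul_cancel, map_one]
    calc ρ x⁻¹ = ρ x⁻¹ * (ρ x * (1 - Z)) := by
          rw [hx]
          have : (1 + Z) * (1 - Z) = 1 := by
            rw [add_mul, mul_sub, mul_sub, hZ]; simp
          rw [this, mul_one]
      _ = 1 - Z := by rw [← mul_assoc, h1, one_mul]
  have hinv : ∀ U : Submodule K W, (∀ w ∈ U, X w ∈ U) → (∀ w ∈ U, Y w ∈ U) → U = ⊥ ∨ U = ⊤ := by
    intro U hXU hYU
    apply hirr
    intro h
    have hh : h ∈ Subgroup.closure ({a, b} : Set H) := by rw [hgen]; trivial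
    induction hh using Subgroup.closure_induction'' with
    | mem x hx =>
      intro w hw
      rcases hx with rfl | hx
      · rw [hρa]; exact add_mem hw (hXU w hw)
      · rw [Set.mem_singleton_iff.1 hx, hρb]; exact add_mem hw (hYU w hw)
    | inv_mem x hx =>
      intro w hw
      rcases hx with rfl | hx
      · rw [hinvers x X ha hρa]; exact sub_mem hw (hXU w hw)
      · rw [Set.mem_singleton_iff.1 hx, hinvers b Y hb hρb]; exact sub_mem hw (hYU w hw)
    | one => intro w hw; rw [map_one]; exact hw
    | mul x y _ _ hx hy => intro w hw; rw [map_mul]; exact hx _ (hy w hw)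
  set lam : Module.End K W := X * Y + Y * X with hlam
  have hXl : X * lam = lam * X := by
    rw [hlam, mul_add, add_mul, ← mul_assoc, ha, zero_mul, zero_add, mul_assoc Y X X, ha, mul_zero, add_zero,
      mul_assoc]
  have hYl : Y * lam = lam * Y := by
    rw [hlam, mul_add, add_mul, ← mul_assoc Y Y X, hb, zero_mul, add_zero, mul_assoc X Y Y, hb, mul_zero, zero_add,
      mul_assoc]
  -- `lam` is a scalar
  obtain ⟨c, v, hv0, hv⟩ := exists_eigen (p := p) (ρ (a * b)) hord
  have hab' : ρ (a * b) = 1 + X + Y + X * Y := by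
    rw [map_mul, hρa, hρb]; noncomm_ring
  have habi : ρ (a * b)⁻¹ = 1 - X - Y + Y * X := by
    rw [mul_inv_rev, map_mul, hinvers a X ha hρa, hinvers b Y hb hρb]; noncomm_ring
  have hc0 : c ≠ 0 := by
    rintro rfl
    apply hv0
    have h1 : ρ (a * b)⁻¹ (ρ (a * b) v) = v := by
      rw [← Module.End.mul_apply, ← map_mul, inv_mul_cancel, map_one]; rfl
    rw [hv, zero_smul, map_zero] at h1
    exact h1.symm
  have hvi : ρ (a * b)⁻¹ v = c⁻¹ • v := by
    have h1 : ρ (a * b)⁻¹ (ρ (a * b) v) = v := by
      rw [← Module.End.mul_apply, ← map_mul, inv_mul_cancel, map_one]; rfl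
    rw [hv, map_smul] at h1
    rw [← h1, smul_smul, inv_mul_cancel₀ hc0, one_smul, h1]
  obtain ⟨μ, hμ⟩ : ∃ μ : K, lam v = μ • v := by
    refine ⟨c + c⁻¹ - 2, ?_⟩
    have h1 : lam = ρ (a * b) + ρ (a * b)⁻¹ - (2 : K) • 1 := by
      rw [hab', habi, hlam, two_smul]; abel
    rw [h1]
    simp only [LinearMap.sub_apply, LinearMap.add_apply, LinearMap.smul_apply, Module.End.one_apply]
    rw [hv, hvi, sub_smul, add_smul]
  have hscal : ∀ w, lam w = μ • w := by
    rcases hinv (LinearMap.ker (lam - μ • (1 : Module.End K W))) (fun w hw => by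
        rw [LinearMap.mem_ker] at hw ⊢
        have h1 : lam (X w) = X (lam w) := (congrArg (fun f : Module.End K W => f w) hXl).symm
        simp only [LinearMap.sub_apply, LinearMap.smul_apply, Module.End.one_apply] at hw ⊢
        rw [h1, ← map_smul, ← map_sub, hw, map_zero]) (fun w hw => by
        rw [LinearMap.mem_ker] at hw ⊢
        have h1 : lam (Y w) = Y (lam w) := (congrArg (fun f : Module.End K W => f w) hYl).symm
        simp only [LinearMap.sub_apply, LinearMap.smul_apply, Module.End.one_apply] at hw ⊢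
        rw [h1, ← map_smul, ← map_sub, hw, map_zero]) with h | h
    · exfalso
      apply hv0
      have : v ∈ LinearMap.ker (lam - μ • (1 : Module.End K W)) := by
        rw [LinearMap.mem_ker]
        simp only [LinearMap.sub_apply, LinearMap.smul_apply, Module.End.one_apply]
        rw [hμ, sub_self]
      rw [h] at this
      exact (Submodule.mem_bot _).1 this
    · intro w
      have : w ∈ LinearMap.ker (lam - μ • (1 : Module.End K W)) := by rw [h]; trivial
      rw [LinearMap.mem_ker] at this
      simp only [LinearMap.sub_apply, LinearMap.smul_apply, Module.End.one_apply] at this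
      exact sub_eq_zero.1 this
  -- a vector in the kernel of `X`
  obtain ⟨w0, hw0, hXw0⟩ : ∃ w0 : W, w0 ≠ 0 ∧ X w0 = 0 := by
    by_cases hX0 : X = 0
    · obtain ⟨w, hw⟩ := exists_ne (0 : W)
      exact ⟨w, hw, by rw [hX0]; rfl⟩
    · obtain ⟨w, hw⟩ : ∃ w, X w ≠ 0 := by
        by_contra hcon
        push Not at hcon
        exact hX0 (LinearMap.ext hcon)
      exact ⟨X w, hw, congrArg (fun f : Module.End K W => f w) ha⟩
  have hYY : ∀ w, Y (Y w) = 0 := fun w => congrArg (fun f : Module.End K W => f w) hb
  have hXY : X (Y w0) = μ • w0 := by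
    have h1 : X (Y w0) + Y (X w0) = lam w0 := rfl
    rw [hXw0, map_zero, add_zero, hscal] at h1
    exact h1
  have hspan : Submodule.span K {w0, Y w0} = ⊤ := by
    rcases hinv (Submodule.span K {w0, Y w0}) (fun w hw => by
        obtain ⟨s, t, rfl⟩ := Submodule.mem_span_pair.1 hw
        rw [map_add, map_smul, map_smul, hXw0, hXY, smul_zero, zero_add, smul_smul]
        exact Submodule.smul_mem _ _ (Submodule.subset_span (by simp))) (fun w hw => by
        obtain ⟨s, t, rfl⟩ := Submodule.mem_span_pair.1 hw
        rw [map_add, map_smul, map_smul, hYY, smul_zero, add_zero]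
        exact Submodule.smul_mem _ _ (Submodule.subset_span (by simp))) with h | h
    · exfalso
      apply hw0
      have : w0 ∈ Submodule.span K {w0, Y w0} := Submodule.subset_span (by simp)
      rw [h] at this
      exact (Submodule.mem_bot _).1 this
    · exact h
  have hYw0 : Y w0 ≠ 0 := by
    intro h0
    apply hnp
    have hX0 : X = 0 := by
      apply LinearMap.ext
      intro w
      have hw : w ∈ Submodule.span K {w0, Y w0} := by rw [hspan]; trivial
      obtain ⟨s, t, rfl⟩ := Submodule.mem_span_pair.1 hw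
      rw [h0, smul_zero, add_zero, map_smul, hXw0, smul_zero]; rfl
    have hY0 : Y = 0 := by
      apply LinearMap.ext
      intro w
      have hw : w ∈ Submodule.span K {w0, Y w0} := by rw [hspan]; trivial
      obtain ⟨s, t, rfl⟩ := Submodule.mem_span_pair.1 hw
      rw [h0, smul_zero, add_zero, map_smul, h0, smul_zero]; rfl
    intro h
    refine ⟨0, ?_⟩
    rw [pow_zero, pow_one]
    have hh : h ∈ Subgroup.closure ({a, b} : Set H) := by rw [hgen]; trivial
    induction hh using Subgroup.closure_induction with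
    | mem x hx =>
      rcases hx with rfl | hx
      · rw [hρa, hX0, add_zero]
      · rw [Set.mem_singleton_iff.1 hx, hρb, hY0, add_zero]
    | one => exact map_one ρ
    | mul x y _ _ hx hy => rw [map_mul, hx, hy, mul_one]
    | inv x _ hx =>
      have h1 : ρ x * ρ x⁻¹ = 1 := by rw [← map_mul, mul_inv_cancel, map_one]
      rwa [hx, one_mul] at h1
  have hli : LinearIndependent K ![w0, Y w0] := by
    rw [LinearIndependent.pair_iff]
    intro s t hst
    have h1 : Y (s • w0 + t • Y w0) = 0 := by rw [hst, map_zero]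
    rw [map_add, map_smul, map_smul, hYY, smul_zero, add_zero] at h1
    have hs : s = 0 := by
      by_contra hs
      exact hYw0 ((smul_eq_zero.1 h1).resolve_left hs)
    refine ⟨hs, ?_⟩
    rw [hs, zero_smul, zero_add] at hst
    by_contra ht
    exact hYw0 ((smul_eq_zero.1 hst).resolve_left ht)
  let B : Module.Basis (Fin 2) K W := Module.Basis.mk hli (by
    rw [← hspan]
    apply Submodule.span_mono
    intro x hx
    rcases hx with rfl | hx
    · exact ⟨0, rfl⟩
    · rw [Set.mem_singleton_iff.1 hx]; exact ⟨1, rfl⟩)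
  have hB0 : B 0 = w0 := by simp [B]
  have hB1 : B 1 = Y w0 := by simp [B]
  let T := LinearMap.toMatrixAlgEquiv B
  have ha0 : ρ a (B 0) = B 0 := by
    rw [hρa, hB0, LinearMap.add_apply, Module.End.one_apply, hXw0, add_zero]
  have ha1 : ρ a (B 1) = μ • B 0 + B 1 := by
    rw [hρa, hB0, hB1, LinearMap.add_apply, Module.End.one_apply, hXY, add_comm]
  have hb0 : ρ b (B 0) = B 0 + B 1 := by
    rw [hρb, hB0, hB1, LinearMap.add_apply, Module.End.one_apply]
  have hb1 : ρ b (B 1) = B 1 := by
    rw [hρb, hB1, LinearMap.add_apply, Module.End.one_apply, hYY, add_zero]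
  have hTa : T (ρ a) = !![1, μ; 0, 1] := by
    ext i j
    rw [LinearMap.toMatrixAlgEquiv_apply]
    fin_cases i <;> fin_cases j <;> simp [ha0, ha1]
  have hTb : T (ρ b) = !![1, 0; 1, 1] := by
    ext i j
    rw [LinearMap.toMatrixAlgEquiv_apply]
    fin_cases i <;> fin_cases j <;> simp [hb0, hb1]
  have hdet : ∀ h : H, (T (ρ h)).det = 1 := by
    intro h
    have hh : h ∈ Subgroup.closure ({a, b} : Set H) := by rw [hgen]; trivial
    induction hh using Subgroup.closure_induction with
    | mem x hx =>
      rcases hx with rfl | hx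
      · rw [hTa]; simp [Matrix.det_fin_two]
      · rw [Set.mem_singleton_iff.1 hx, hTb]; simp [Matrix.det_fin_two]
    | one => rw [map_one, map_one, Matrix.det_one]
    | mul x y _ _ hx hy => rw [map_mul, map_mul, Matrix.det_mul, hx, hy, mul_one]
    | inv x _ hx =>
      have h1 : (T (ρ x)).det * (T (ρ x⁻¹)).det = 1 := by
        rw [← Matrix.det_mul, ← map_mul, ← map_mul, mul_inv_cancel, map_one, map_one, Matrix.det_one]
      rw [hx, one_mul] at h1
      exact h1
  let θ : H →* SL(2, K) :=
    { toFun := fun h => ⟨T (ρ h), hdet h⟩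
      map_one' := by apply Subtype.ext; show T (ρ 1) = 1; rw [map_one, map_one]
      map_mul' := fun x y => by apply Subtype.ext; show T (ρ (x * y)) = T (ρ x) * T (ρ y); rw [map_mul, map_mul] }
  refine ⟨θ, fun hcon => hnp fun h => ?_⟩
  obtain ⟨k, hk⟩ := hcon h
  refine ⟨k, ?_⟩
  apply T.injective
  rw [map_pow, map_one]
  have h1 : ((θ h ^ p ^ k : SL(2, K)) : Matrix (Fin 2) (Fin 2) K) = 1 := by rw [hk]; rfl
  rw [Matrix.SpecialLinearGroup.coe_pow] at h1
  exact h1

theorem main_aux (a b : H) (hgen : Subgroup.closure {a, b} = ⊤) (e : ℕ) (n : ℕ) :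
    ∀ (W : Type*) [AddCommGroup W] [Module K W] [FiniteDimensional K W] (ρ : H →* Module.End K W),
      Module.finrank K W ≤ n → (ρ a - 1) * (ρ a - 1) = 0 → (ρ b - 1) * (ρ b - 1) = 0 →
      (ρ (a * b)) ^ (p ^ e * (Fintype.card K - 1)) = 1 → (¬ ∀ h, ∃ k, ρ h ^ (p ^ k) = 1) →
      ∃ φ : H →* SL(2, K), ¬ ∀ h, ∃ k, φ h ^ (p ^ k) = 1 := by
  induction n with
  | zero =>
    intro W _ _ _ ρ hn _ _ _ hnp
    exfalso
    apply hnp
    intro h
    refine ⟨0, ?_⟩
    have h0 : Module.finrank K W = 0 := Nat.le_zero.1 hn
    have : Subsingleton W := Module.finrank_zero_iff.1 h0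
    apply LinearMap.ext
    intro w
    exact Subsingleton.elim _ _
  | succ n ih =>
    intro W _ _ _ ρ hn ha hb hord hnp
    by_cases hirr : ∀ U : Submodule K W, (∀ h : H, ∀ w ∈ U, ρ h w ∈ U) → U = ⊥ ∨ U = ⊤
    · have hnt : Nontrivial W := by
        by_contra hW
        rw [not_nontrivial_iff_subsingleton] at hW
        apply hnp
        intro h
        refine ⟨0, ?_⟩
        apply LinearMap.ext
        intro w
        exact Subsingleton.elim _ _
      exact irred_case ρ a b hgen ha hb hord hirr hnp
    · push Not at hirr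
      obtain ⟨U, hU, hU0, hU1⟩ := hirr
      let ρ1 : H →* Module.End K U :=
        { toFun := fun h => (ρ h).restrict (hU h)
          map_one' := by ext w; simp
          map_mul' := fun x y => by ext w; simp }
      let ρ2 : H →* Module.End K (W ⧸ U) :=
        { toFun := fun h => U.mapQ U (ρ h) (fun w hw => hU h w hw)
          map_one' := by
            apply LinearMap.ext
            intro w
            obtain ⟨w, rfl⟩ := Submodule.mkQ_surjective U w
            simp
          map_mul' := fun x y => by
            apply LinearMap.ext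
            intro w
            obtain ⟨w, rfl⟩ := Submodule.mkQ_surjective U w
            simp }
      have h1 : ∀ h (w : U), ((ρ1 h w : U) : W) = ρ h w := fun h w => rfl
      have h2 : ∀ h (w : W), ρ2 h (U.mkQ w) = U.mkQ (ρ h w) := fun h w => rfl
      have hq1 : ∀ x : H, (ρ x - 1) * (ρ x - 1) = 0 → (ρ1 x - 1) * (ρ1 x - 1) = 0 := by
        intro x hx
        apply LinearMap.ext
        intro w
        apply Subtype.ext
        have h3 := congrArg (fun f : Module.End K W => f (w : W)) hx
        simpa [h1] using h3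
      have hq2 : ∀ x : H, (ρ x - 1) * (ρ x - 1) = 0 → (ρ2 x - 1) * (ρ2 x - 1) = 0 := by
        intro x hx
        apply LinearMap.ext
        intro w
        obtain ⟨w, rfl⟩ := Submodule.mkQ_surjective U w
        have h3 : (ρ x - 1) ((ρ x - 1) w) = 0 := congrArg (fun f : Module.End K W => f w) hx
        have h4 : ∀ w : W, (ρ2 x - 1) (U.mkQ w) = U.mkQ ((ρ x - 1) w) := by
          intro w
          rw [LinearMap.sub_apply, LinearMap.sub_apply, Module.End.one_apply, Module.End.one_apply, map_sub, h2]
        rw [Module.End.mul_apply, h4, h4, h3, map_zero]; rfl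
      have hp1 : ∀ (x : H) (m : ℕ), ρ x ^ m = 1 → ρ1 x ^ m = 1 := by
        intro x m hx
        rw [← map_pow] at hx ⊢
        apply LinearMap.ext
        intro w
        apply Subtype.ext
        rw [h1, hx]; rfl
      have hp2 : ∀ (x : H) (m : ℕ), ρ x ^ m = 1 → ρ2 x ^ m = 1 := by
        intro x m hx
        rw [← map_pow] at hx ⊢
        apply LinearMap.ext
        intro w
        obtain ⟨w, rfl⟩ := Submodule.mkQ_surjective U w
        rw [h2, hx]; rfl
      have hf1 : Module.finrank K U ≤ n := by
        have := Submodule.finrank_lt hU1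
        omega
      have hf2 : Module.finrank K (W ⧸ U) ≤ n := by
        have h3 := Submodule.finrank_quotient_add_finrank U
        have h4 : Module.finrank K U ≠ 0 := by
          intro h0
          exact hU0 (Submodule.finrank_eq_zero.1 h0)
        omega
      by_cases c1 : ∀ h, ∃ k, ρ1 h ^ (p ^ k) = 1
      · by_cases c2 : ∀ h, ∃ k, ρ2 h ^ (p ^ k) = 1
        · exfalso
          apply hnp
          intro h
          obtain ⟨k1, hk1⟩ := c1 h
          obtain ⟨k2, hk2⟩ := c2 h
          refine ⟨k1 + k2 + 1, ?_⟩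
          set x : H := h ^ (p ^ (k1 + k2)) with hx
          have hx1 : ρ1 x = 1 := by
            rw [hx, map_pow, pow_add, pow_mul, hk1, one_pow]
          have hx2 : ρ2 x = 1 := by
            rw [hx, map_pow, pow_add, mul_comm, pow_mul, hk2, one_pow]
          have hxx : ρ h ^ p ^ (k1 + k2 + 1) = ρ x ^ p := by
            rw [hx, map_pow, ← pow_mul, pow_succ]
          rw [hxx]
          have hD : ∀ w, (ρ x - 1) w ∈ U := by
            intro w
            rw [← Submodule.ker_mkQ U, LinearMap.mem_ker, LinearMap.sub_apply, Module.End.one_apply, map_sub, ← h2,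
              hx2, Module.End.one_apply, sub_self]
          have hD2 : (ρ x - 1) * (ρ x - 1) = 0 := by
            apply LinearMap.ext
            intro w
            have h3 : ρ x ((ρ x - 1) w) = (ρ x - 1) w := by
              have h4 := h1 x ⟨(ρ x - 1) w, hD w⟩
              rw [hx1] at h4
              exact h4.symm
            rw [Module.End.mul_apply, LinearMap.sub_apply, h3, Module.End.one_apply, sub_self]; rfl
          have h5 : (ρ x - 1) ^ p = 0 := by
            obtain ⟨m, hm⟩ : ∃ m, p = m + 2 := ⟨p - 2, by have := hp.out.two_le; omega⟩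
            rw [hm, pow_add, pow_two, hD2, mul_zero]
          have hchar : CharP (Module.End K W) p ∨ Subsingleton W := by
            by_cases hs : Subsingleton W
            · exact Or.inr hs
            · left
              rw [not_subsingleton_iff_nontrivial] at hs
              exact charP_of_injective_algebraMap (algebraMap K (Module.End K W)).injective p
          rcases hchar with hc | hs
          · have h6 : (ρ x - 1) ^ p = ρ x ^ p - 1 ^ p := by
              have : Commute (ρ x) 1 := Commute.one_right _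
              exact sub_pow_char_of_commute _ this
            rw [h5, one_pow] at h6
            exact (sub_eq_zero.1 h6.symm)
          · apply LinearMap.ext
            intro w
            exact Subsingleton.elim _ _
        · exact ih (W ⧸ U) ρ2 hf2 (hq2 a ha) (hq2 b hb) (hp2 _ _ hord) c2
      · exact ih U ρ1 hf1 (hq1 a ha) (hq1 b hb) (hp1 _ _ hord) c1

end

end Cfsg.Agent.Lib.QuadScalar
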