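import Cfsg.Agent.Lib.QuartetStab

/-!
helper27: the orbits of a quartet stabiliser on the quartets of its dodecad (S1599).
-/

set_option autoImplicit false

namespace Cfsg.Agent.Lib.QuartetOrb

open Cfsg Cfsg.Agent.Lib.Golay Cfsg.Agent.Lib.Quartets Cfsg.Agent.Lib.DodStab Cfsg.Agent.Lib.QuartetStab
open scoped Pointwise

/-- the triples of points of the standard dodecad -/
def triL : List ℕ := [
  7, 11, 13, 14, 19, 21, 22, 25, 26, 28, 67, 69, 70, 73, 74, 76, 81, 82, 84, 88, 259, 261, 262, 265, 266,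
  268, 273, 274, 276, 280, 321, 322, 324, 328, 336, 515, 517, 518, 521, 522, 524, 529, 530, 532, 536, 577,
  578, 580, 584, 592, 769, 770, 772, 776, 784, 832, 4099, 4101, 4102, 4105, 4106, 4108, 4113, 4114, 4116,
  4120, 4161, 4162, 4164, 4168, 4176, 4353, 4354, 4356, 4360, 4368, 4416, 4609, 4610, 4612, 4616, 4624, 4672,
  4864, 8195, 8197, 8198, 8201, 8202, 8204, 8209, 8210, 8212, 8216, 8257, 8258, 8260, 8264, 8272, 8449, 8450,
  8452, 8456, 8464, 8512, 8705, 8706, 8708, 8712, 8720, 8768, 8960, 12289, 12290, 12292, 12296, 12304, 12352,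
  12544, 12800, 65539, 65541, 65542, 65545, 65546, 65548, 65553, 65554, 65556, 65560, 65601, 65602, 65604,
  65608, 65616, 65793, 65794, 65796, 65800, 65808, 65856, 66049, 66050, 66052, 66056, 66064, 66112, 66304,
  69633, 69634, 69636, 69640, 69648, 69696, 69888, 70144, 73729, 73730, 73732, 73736, 73744, 73792, 73984,
  74240, 77824, 262147, 262149, 262150, 262153, 262154, 262156, 262161, 262162, 262164, 262168, 262209,
  262210, 262212, 262216, 262224, 262401, 262402, 262404, 262408, 262416, 262464, 262657, 262658, 262660,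
  262664, 262672, 262720, 262912, 266241, 266242, 266244, 266248, 266256, 266304, 266496, 266752, 270337,
  270338, 270340, 270344, 270352, 270400, 270592, 270848, 274432, 327681, 327682, 327684, 327688, 327696,
  327744, 327936, 328192, 331776, 335872]

theorem triL_ok : (triL.all fun m => cond (Nat.beq (Nat.land m dod0) m) (Nat.beq (pc m) 3) false) = true := by
  decide +kernel

theorem triL_nodup : triL.Nodup := by decide +kernel

theorem triL_lt {m : ℕ} (hm : m ∈ triL) : m < 2 ^ 24 := by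
  have h := List.all_eq_true.mp triL_ok m hm
  rw [cond_false_eq] at h
  have h1 : m &&& dod0 = m := Nat.eq_of_beq_eq_true h.1
  rw [← h1]
  exact lt_of_le_of_lt Nat.and_le_right (by decide)

theorem card_triF (b : ℕ → Bool) : ((triL.toFinset.filter fun m => b m = true).image mset).card = (triL.filter b).length := by
  rw [Finset.card_image_of_injOn]
  · rw [← List.toFinset_filter, List.toFinset_card_of_nodup]
    exact triL_nodup.filter _
  · intro x hx y hy hxy
    simp only [Finset.coe_filter, List.mem_toFinset, Set.mem_ofPred_eq] at hx hy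
    exact mset_injOn (triL_lt hx.1) (triL_lt hy.1) hxy

theorem powersetCard_eq : (mset dod0).powersetCard 3 = triL.toFinset.image mset := by
  symm
  apply Finset.eq_of_subset_of_card_le
  · intro t ht
    obtain ⟨m, hm, rfl⟩ := Finset.mem_image.mp ht
    rw [List.mem_toFinset] at hm
    have h := List.all_eq_true.mp triL_ok m hm
    rw [cond_false_eq] at h
    have h1 : m &&& dod0 = m := Nat.eq_of_beq_eq_true h.1
    rw [Finset.mem_powersetCard]
    refine ⟨?_, by rw [card_mset]; exact Nat.eq_of_beq_eq_true h.2⟩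
    rw [← h1, mset_and]
    exact Finset.inter_subset_right
  · have h := card_triF (fun _ => true)
    have e : (triL.toFinset.filter fun m => (fun _ => true) m = true) = triL.toFinset := by simp
    rw [e] at h
    rw [h, Finset.card_powersetCard, card_mset]
    decide +kernel

/-- counting the triples with a given property -/
theorem count_std {P : Finset GolayPt → Prop} {b : ℕ → Bool} (h : ∀ m ∈ triL, P (mset m) ↔ b m = true) :
    {t : Finset GolayPt | (t.card = 3 ∧ t ⊆ mset dod0) ∧ P t}.ncard = (triL.filter b).length := by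
  rw [← card_triF b, ← Set.ncard_coe_finset]
  congr 1
  ext t
  simp only [Set.mem_ofPred_eq, Finset.coe_image, Finset.coe_filter, List.mem_toFinset, Set.mem_image]
  constructor
  · rintro ⟨⟨h1, h2⟩, h3⟩
    have h4 : t ∈ (mset dod0).powersetCard 3 := Finset.mem_powersetCard.mpr ⟨h2, h1⟩
    rw [powersetCard_eq] at h4
    obtain ⟨m, hm, rfl⟩ := Finset.mem_image.mp h4
    rw [List.mem_toFinset] at hm
    exact ⟨m, ⟨hm, (h m hm).mp h3⟩, rfl⟩
  · rintro ⟨m, ⟨hm, hb⟩, rfl⟩
    have h4 : mset m ∈ (mset dod0).powersetCard 3 := by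
      rw [powersetCard_eq]
      exact Finset.mem_image.mpr ⟨m, List.mem_toFinset.mpr hm, rfl⟩
    rw [Finset.mem_powersetCard] at h4
    exact ⟨⟨h4.2, h4.1⟩, (h m hm).mpr hb⟩

/-- the four types of triples relative to `s` -/
def Ty (D s : Finset GolayPt) : Fin 4 → Finset GolayPt → Prop
  | 0, t => (s ∩ t).card = 0 ∧ s ∪ t ∈ hexadsOn D
  | 1, t => (s ∩ t).card = 2
  | 2, t => (s ∩ t).card = 0 ∧ s ∪ t ∉ hexadsOn D
  | 3, t => (s ∩ t).card = 1

def sz : Fin 4 → ℕ
  | 0 => 12 | 1 => 27 | 2 => 72 | 3 => 108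

theorem smul_Ty {D s : Finset GolayPt} {g : Equiv.Perm GolayPt} (hg : g ∈ M24) (i : Fin 4) (t : Finset GolayPt) :
    Ty (g • D) (g • s) i (g • t) ↔ Ty D s i t := by
  have h1 : ((g • s) ∩ (g • t)).card = (s ∩ t).card := by rw [← smul_inter', card_smul']
  have h2 : (g • s) ∪ (g • t) ∈ hexadsOn (g • D) ↔ s ∪ t ∈ hexadsOn D := by
    rw [← smul_union']
    exact smul_mem_hexadsOn hg
  fin_cases i
  · show (_ ∧ _) ↔ (_ ∧ _)
    rw [h1, h2]
  · show _ = _ ↔ _ = _
    rw [h1]
  · show (_ ∧ ¬ _) ↔ (_ ∧ ¬ _)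
    rw [h1, h2]
  · show _ = _ ↔ _ = _
    rw [h1]

theorem Ty_cases {D s t : Finset GolayPt} (hs : s.card = 3) (ht : t.card = 3) (hne : t ≠ s) : ∃ i, Ty D s i t := by
  have h1 : (s ∩ t).card ≤ 3 := by rw [← hs]; exact Finset.card_le_card Finset.inter_subset_left
  have h2 : (s ∩ t).card ≠ 3 := by
    intro e
    have e1 : s ∩ t = s := Finset.eq_of_subset_of_card_le Finset.inter_subset_left (by omega)
    have e2 : s ∩ t = t := Finset.eq_of_subset_of_card_le Finset.inter_subset_right (by omega)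
    exact hne (e2.symm.trans e1)
  by_cases h0 : (s ∩ t).card = 0
  · by_cases h : s ∪ t ∈ hexadsOn D
    · exact ⟨0, h0, h⟩
    · exact ⟨2, h0, h⟩
  · have : (s ∩ t).card = 1 ∨ (s ∩ t).card = 2 := by omega
    rcases this with h | h
    · exact ⟨3, h⟩
    · exact ⟨1, h⟩

def tyB : Fin 4 → ℕ → Bool
  | 0, m => cond (Nat.beq (pc (Nat.land 7 m)) 0) (memL hexML (Nat.lor 7 m)) false
  | 1, m => Nat.beq (pc (Nat.land 7 m)) 2
  | 2, m => cond (Nat.beq (pc (Nat.land 7 m)) 0) (not (memL hexML (Nat.lor 7 m))) false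
  | 3, m => Nat.beq (pc (Nat.land 7 m)) 1

theorem Ty0 {D s t : Finset GolayPt} : Ty D s 0 t ↔ ((s ∩ t).card = 0 ∧ s ∪ t ∈ hexadsOn D) := Iff.rfl
theorem Ty1 {D s t : Finset GolayPt} : Ty D s 1 t ↔ (s ∩ t).card = 2 := Iff.rfl
theorem Ty2 {D s t : Finset GolayPt} : Ty D s 2 t ↔ ((s ∩ t).card = 0 ∧ s ∪ t ∉ hexadsOn D) := Iff.rfl
theorem Ty3 {D s t : Finset GolayPt} : Ty D s 3 t ↔ (s ∩ t).card = 1 := Iff.rfl
theorem tyB0 (m : ℕ) : tyB 0 m = cond (Nat.beq (pc (Nat.land 7 m)) 0) (memL hexML (Nat.lor 7 m)) false := rfl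
theorem tyB1 (m : ℕ) : tyB 1 m = Nat.beq (pc (Nat.land 7 m)) 2 := rfl
theorem tyB2 (m : ℕ) : tyB 2 m = cond (Nat.beq (pc (Nat.land 7 m)) 0) (not (memL hexML (Nat.lor 7 m))) false := rfl
theorem tyB3 (m : ℕ) : tyB 3 m = Nat.beq (pc (Nat.land 7 m)) 1 := rfl

theorem tyB_iff (i : Fin 4) (m : ℕ) (hm : m ∈ triL) : Ty (mset dod0) (mset 7) i (mset m) ↔ tyB i m = true := by
  have h1 : ∀ k, (mset 7 ∩ mset m).card = k ↔ Nat.beq (pc (Nat.land 7 m)) k = true := by
    intro k
    rw [← mset_and, card_mset]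
    constructor
    · intro h
      have h' : pc (Nat.land 7 m) = k := h
      rw [h']; exact Nat.beq_refl k
    · intro h
      exact Nat.eq_of_beq_eq_true h
  have h2 : mset 7 ∪ mset m ∈ hexadsOn (mset dod0) ↔ memL hexML (Nat.lor 7 m) = true := by
    rw [← mset_or, memL_iff]
    have hlt : (7 ||| m) < 2 ^ 24 := Nat.or_lt_two_pow (by norm_num) (triL_lt hm)
    constructor
    · intro h
      exact mem_hexML_of hlt h
    · intro h
      rw [mem_hexadsOn_std]
      exact ⟨_, h, rfl⟩
  match i with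
  | 0 => rw [Ty0, tyB0, h1, h2, cond_false_eq]
  | 1 => rw [Ty1, tyB1, h1]
  | 2 => rw [Ty2, tyB2, h1, h2, cond_false_eq, Bool.not_eq_true, Bool.not_eq_eq_eq_not, Bool.not_true]
  | 3 => rw [Ty3, tyB3, h1]

theorem tyB_len : ∀ i, (triL.filter (tyB i)).length = sz i := by
  intro i
  fin_cases i
  · decide +kernel
  · decide +kernel
  · decide +kernel
  · decide +kernel

theorem exists_emb {d s : Finset GolayPt} (hd : d ∈ dodecads) (hsd : s ⊆ d) (hs : s.card = 3) :
    ∃ k ∈ M24, k • mset dod0 = d ∧ k • mset 7 = s := by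
  obtain ⟨a, b, c, hab, hac, hbc, rfl⟩ := Finset.card_eq_three.mp hs
  have ha : a ∈ d := hsd (by simp)
  have hb : b ∈ d := hsd (by simp)
  have hc : c ∈ d := hsd (by simp)
  obtain ⟨h, hh, rfl⟩ := exists_smul_dod0 hd
  have e0 : ∀ x : GolayPt, (7 : ℕ).testBit (ix x) = true ↔ x = pt 0 ∨ x = pt 1 ∨ x = pt 2 := by decide +kernel
  have e1 : ∀ i : Fin 3, (340831 : ℕ).testBit (ix (pt i)) = true := by decide +kernel
  have e2 : ∀ i j : Fin 3, pt i = pt j → i = j := by decide +kernel
  obtain ⟨g, hg, hgd, hgx⟩ := exists_le_five_dodecad hd (n := 3) (by norm_num)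
    ⟨fun i => h (pt i), by
      intro i j hij
      exact e2 i j (h.injective hij)⟩
    ⟨![a, b, c], by
      intro i j hij
      fin_cases i <;> fin_cases j <;> first
        | rfl
        | exact (hab hij).elim | exact (hab hij.symm).elim
        | exact (hac hij).elim | exact (hac hij.symm).elim
        | exact (hbc hij).elim | exact (hbc hij.symm).elim⟩
    (by
      intro i
      show h (pt i) ∈ h • mset dod0
      rw [smul_mem_smul, mem_mset]
      exact e1 i)
    (by intro i; fin_cases i; exacts [ha, hb, hc])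
  have g0 : g (h (pt 0)) = a := hgx 0
  have g1 : g (h (pt 1)) = b := hgx 1
  have g2 : g (h (pt 2)) = c := hgx 2
  refine ⟨g * h, M24.mul_mem hg hh, by rw [mul_smul, hgd], ?_⟩
  ext y
  obtain ⟨z, rfl⟩ := (g * h).surjective y
  rw [smul_mem_smul, mem_mset, e0]
  simp only [Finset.mem_insert, Finset.mem_singleton, ← g0, ← g1, ← g2, Equiv.Perm.mul_apply, g.injective.eq_iff,
    h.injective.eq_iff]

theorem count_Ty {d s : Finset GolayPt} (hd : d ∈ dodecads) (hsd : s ⊆ d) (hs : s.card = 3) (i : Fin 4) :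
    {t : Finset GolayPt | (t.card = 3 ∧ t ⊆ d) ∧ Ty d s i t}.ncard = sz i := by
  obtain ⟨k, hk, rfl, rfl⟩ := exists_emb hd hsd hs
  rw [← tyB_len i, ← count_std (P := Ty (mset dod0) (mset 7) i) (b := tyB i) (tyB_iff i)]
  symm
  apply Set.ncard_congr (fun t _ => k • t)
  · rintro t ⟨⟨h1, h2⟩, h3⟩
    exact ⟨⟨by rw [card_smul', h1], (smul_subset' k _ _).mpr h2⟩, (smul_Ty hk i t).mpr h3⟩
  · intro a b _ _ e
    exact MulAction.injective k e
  · rintro t ⟨⟨h1, h2⟩, h3⟩
    have e : k • (k⁻¹ • t) = t := smul_inv_smul _ _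
    rw [← e] at h1 h2 h3
    exact ⟨k⁻¹ • t, ⟨⟨by rwa [card_smul'] at h1, (smul_subset' k _ _).mp h2⟩, (smul_Ty hk i _).mp h3⟩, e⟩

theorem smul_three (g : Equiv.Perm GolayPt) {a b c a' b' c' : GolayPt} (h1 : g a = a') (h2 : g b = b') (h3 : g c = c') :
    g • ({a, b, c} : Finset GolayPt) = {a', b', c'} := by
  ext y
  obtain ⟨z, rfl⟩ := g.surjective y
  rw [smul_mem_smul]
  simp only [Finset.mem_insert, Finset.mem_singleton, ← h1, ← h2, ← h3, g.injective.eq_iff]

/-- the hexad through five points -/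
theorem exists_hexad {d : Finset GolayPt} (hd : d ∈ dodecads) (x : Fin 5 ↪ GolayPt) (hx : ∀ i, x i ∈ d) :
    ∃ h ∈ hexadsOn d, ∀ i, x i ∈ h := by
  obtain ⟨k, hk, rfl, hkx⟩ := frame_dodecad hd x hx
  refine ⟨k • mset 4127, (smul_mem_hexadsOn hk).mpr (mem_hexadsOn_std.mpr ⟨4127, memL_iff.mp (by decide +kernel), rfl⟩), ?_⟩
  intro i
  rw [← hkx i, smul_mem_smul, mem_mset]
  have : ∀ i : Fin 5, (4127 : ℕ).testBit (ix (pt i)) = true := by decide +kernel
  exact this i

theorem card_hexad {d h : Finset GolayPt} (hh : h ∈ hexadsOn d) : h.card = 6 := hh.1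

/-- the point completing `s ∪ {a, b}` to a hexad -/
theorem exists_third {d s : Finset GolayPt} (hd : d ∈ dodecads) (hsd : s ⊆ d) (hs : s.card = 3) {a b : GolayPt}
    (ha : a ∈ d) (hb : b ∈ d) (has : a ∉ s) (hbs : b ∉ s) (hab : a ≠ b) :
    ∃ w, w ∈ d ∧ w ∉ s ∧ w ≠ a ∧ w ≠ b ∧ s ∪ {a, b, w} ∈ hexadsOn d := by
  obtain ⟨x, y, z, hxy, hxz, hyz, rfl⟩ := Finset.card_eq_three.mp hs
  have hsx : x ∈ d := hsd (by simp)
  have hsy : y ∈ d := hsd (by simp)
  have hsz : z ∈ d := hsd (by simp)
  simp only [Finset.mem_insert, Finset.mem_singleton, not_or] at has hbs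
  obtain ⟨n1, n2, n3⟩ := has
  obtain ⟨n4, n5, n6⟩ := hbs
  obtain ⟨h, hh, hx⟩ := exists_hexad hd ⟨![x, y, z, a, b], by
      intro i j hij
      fin_cases i <;> fin_cases j <;> first
        | rfl
        | exact (hxy hij).elim | exact (hxy hij.symm).elim
        | exact (hxz hij).elim | exact (hxz hij.symm).elim
        | exact (hyz hij).elim | exact (hyz hij.symm).elim
        | exact (n1 hij).elim | exact (n1 hij.symm).elim
        | exact (n2 hij).elim | exact (n2 hij.symm).elim
        | exact (n3 hij).elim | exact (n3 hij.symm).elim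
        | exact (n4 hij).elim | exact (n4 hij.symm).elim
        | exact (n5 hij).elim | exact (n5 hij.symm).elim
        | exact (n6 hij).elim | exact (n6 hij.symm).elim
        | exact (hab hij).elim | exact (hab hij.symm).elim⟩
    (by intro i; fin_cases i; exacts [hsx, hsy, hsz, ha, hb])
  have hx0 : x ∈ h := hx 0
  have hx1 : y ∈ h := hx 1
  have hx2 : z ∈ h := hx 2
  have hx3 : a ∈ h := hx 3
  have hx4 : b ∈ h := hx 4
  have h6 := card_hexad hh
  have hsub : ({x, y, z} ∪ {a, b} : Finset GolayPt) ⊆ h := by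
    intro u hu
    simp only [Finset.mem_union, Finset.mem_insert, Finset.mem_singleton] at hu
    rcases hu with (rfl | rfl | rfl) | (rfl | rfl)
    exacts [hx0, hx1, hx2, hx3, hx4]
  have hc5 : ({x, y, z} ∪ {a, b} : Finset GolayPt).card = 5 := by
    rw [Finset.card_union_of_disjoint, hs, Finset.card_pair hab]
    rw [Finset.disjoint_left]
    intro u hu hu'
    simp only [Finset.mem_insert, Finset.mem_singleton] at hu hu'
    rcases hu' with rfl | rfl
    · rcases hu with h | h | h
      exacts [n1 h, n2 h, n3 h]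
    · rcases hu with h | h | h
      exacts [n4 h, n5 h, n6 h]
  have h1 : (h \ ({x, y, z} ∪ {a, b})).card = 1 := by
    rw [Finset.card_sdiff_of_subset hsub, h6, hc5]
  obtain ⟨w, hw⟩ := Finset.card_eq_one.mp h1
  have hwm : w ∈ h \ ({x, y, z} ∪ {a, b}) := by rw [hw]; simp
  rw [Finset.mem_sdiff] at hwm
  have hwn := hwm.2
  simp only [Finset.mem_union, Finset.mem_insert, Finset.mem_singleton, not_or] at hwn
  have hhd : h ⊆ d := by
    obtain ⟨_, o, _, e⟩ := hh
    rw [← e]; exact Finset.inter_subset_right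
  refine ⟨w, hhd hwm.1, ?_, hwn.2.1, hwn.2.2, ?_⟩
  · simp only [Finset.mem_insert, Finset.mem_singleton, not_or]
    exact hwn.1
  · have e : ({x, y, z} ∪ {a, b, w} : Finset GolayPt) = h := by
      rw [← Finset.sdiff_union_of_subset hsub, hw]
      ext u
      simp only [Finset.mem_union, Finset.mem_insert, Finset.mem_singleton]
      tauto
    rw [e]; exact hh

theorem third_unique {d s : Finset GolayPt} (hs : s.card = 3) {a b w w' : GolayPt}
    (has : a ∉ s) (hbs : b ∉ s) (hab : a ≠ b) (hw : s ∪ {a, b, w} ∈ hexadsOn d) (hw' : s ∪ {a, b, w'} ∈ hexadsOn d) :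
    w = w' := by
  have hsub : s ∪ {a, b} ⊆ (s ∪ {a, b, w}) ∩ (s ∪ {a, b, w'}) := by
    intro x hx
    simp only [Finset.mem_union, Finset.mem_insert, Finset.mem_singleton, Finset.mem_inter] at hx ⊢
    tauto
  have hc5 : (s ∪ {a, b} : Finset GolayPt).card = 5 := by
    rw [Finset.card_union_of_disjoint, hs, Finset.card_pair hab]
    rw [Finset.disjoint_left]
    intro u hu hu'
    simp only [Finset.mem_insert, Finset.mem_singleton] at hu'
    rcases hu' with rfl | rfl
    · exact has hu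
    · exact hbs hu
  have e := hexad_eq_of_five hw hw' (by rw [← hc5]; exact Finset.card_le_card hsub)
  have h6 := card_hexad hw
  have hn : ∀ v, s ∪ {a, b, v} ∈ hexadsOn d → v ∉ s ∪ {a, b} := by
    intro v hv hv'
    have h6 := card_hexad hv
    have : s ∪ {a, b, v} ⊆ s ∪ {a, b} := by
      intro x hx
      simp only [Finset.mem_union, Finset.mem_insert, Finset.mem_singleton] at hx hv' ⊢
      rcases hx with h | h | h | h
      · exact Or.inl h
      · exact Or.inr (Or.inl h)
      · exact Or.inr (Or.inr h)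
      · rw [h]; exact hv'
    have := Finset.card_le_card this
    omega
  have h1 : w ∈ s ∪ {a, b, w'} := by rw [← e]; simp
  have h2 := hn w hw
  simp only [Finset.mem_union, Finset.mem_insert, Finset.mem_singleton, not_or] at h1 h2
  rcases h1 with h | h | h | h
  · exact absurd h h2.1
  · exact absurd h h2.2.1
  · exact absurd h h2.2.2
  · exact h

/-- an element fixing a triple and three points not completing it to a hexad is the identity -/
theorem rigid {d s : Finset GolayPt} (hd : d ∈ dodecads) (hsd : s ⊆ d) (hs : s.card = 3) {a b c : GolayPt}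
    (ha : a ∈ d) (hb : b ∈ d) (hc : c ∈ d) (has : a ∉ s) (hbs : b ∉ s) (hcs : c ∉ s) (hab : a ≠ b) (hac : a ≠ c)
    (hbc : b ≠ c) (hn : s ∪ {a, b, c} ∉ hexadsOn d) {g : Equiv.Perm GolayPt} (hg : g ∈ M24) (hgd : g • d = d)
    (hgs : g • s = s) (h1 : g a = a) (h2 : g b = b) (h3 : g c = c) : g = 1 := by
  obtain ⟨w, hwd, hws, hwa, hwb, hw⟩ := exists_third hd hsd hs ha hb has hbs hab
  obtain ⟨v, hvd, hvs, hva, hvc, hv⟩ := exists_third hd hsd hs ha hc has hcs hac
  have hwc : w ≠ c := by rintro rfl; exact hn hw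
  have hvb : v ≠ b := by
    rintro rfl
    apply hn
    have : ({a, v, c} : Finset GolayPt) = {a, c, v} := by
      ext x; simp only [Finset.mem_insert, Finset.mem_singleton]; tauto
    rw [this]; exact hv
  have hwv : w ≠ v := by
    rintro rfl
    have e1 : ({a, b, w} : Finset GolayPt) = {a, w, b} := by
      ext x; simp only [Finset.mem_insert, Finset.mem_singleton]; tauto
    have e2 : ({a, c, w} : Finset GolayPt) = {a, w, c} := by
      ext x; simp only [Finset.mem_insert, Finset.mem_singleton]; tauto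
    rw [e1] at hw
    rw [e2] at hv
    exact hbc (third_unique hs has hws hwa.symm hw hv)
  have hgw : g w = w := by
    have h := (smul_mem_hexadsOn hg).mpr hw
    rw [smul_union', smul_three g h1 h2 rfl, hgd, hgs] at h
    exact third_unique hs has hbs hab h hw
  have hgv : g v = v := by
    have h := (smul_mem_hexadsOn hg).mpr hv
    rw [smul_union', smul_three g h1 h3 rfl, hgd, hgs] at h
    exact third_unique hs has hcs hac h hv
  refine eq_one_of_five hd hg hgd (s := {a, b, c, w, v}) ?_ ?_ ?_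
  · intro x hx
    simp only [Finset.mem_insert, Finset.mem_singleton] at hx
    rcases hx with rfl | rfl | rfl | rfl | rfl
    exacts [ha, hb, hc, hwd, hvd]
  · have : ({a, b, c, w, v} : Finset GolayPt).card = 5 := by
      rw [Finset.card_insert_of_notMem, Finset.card_insert_of_notMem, Finset.card_insert_of_notMem, Finset.card_pair hwv]
      · simp only [Finset.mem_insert, Finset.mem_singleton, not_or]
        exact ⟨hwc.symm, hvc.symm⟩
      · simp only [Finset.mem_insert, Finset.mem_singleton, not_or]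
        exact ⟨hbc, hwb.symm, hvb.symm⟩
      · simp only [Finset.mem_insert, Finset.mem_singleton, not_or]
        exact ⟨hab, hac, hwa.symm, hva.symm⟩
    omega
  · intro x hx
    simp only [Finset.mem_insert, Finset.mem_singleton] at hx
    rcases hx with rfl | rfl | rfl | rfl | rfl
    exacts [h1, h2, h3, hgw, hgv]

/-- the order of the stabiliser of a triple -/
theorem card_triple_stab {d s : Finset GolayPt} (hd : d ∈ dodecads) (hsd : s ⊆ d) (hs : s.card = 3) :
    Nat.card ↥(MulAction.stabilizer M24 d ⊓ MulAction.stabilizer M24 s) = 432 := by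
  have h := card_eq_mul_inf_stabilizer (MulAction.stabilizer M24 d) s {t | t.card = 3 ∧ t ⊆ d}
    (fun g hg => by
      have h1 : g.1 • d = d := hg
      refine ⟨?_, ?_⟩
      · show (g.1 • s).card = 3
        rw [card_smul', hs]
      · show g.1 • s ⊆ d
        rw [← h1, smul_subset']
        exact hsd)
    (fun t ht => by
      obtain ⟨k, hk, k1, k2⟩ := exists_emb hd hsd hs
      obtain ⟨l, hl, l1, l2⟩ := exists_emb hd ht.2 ht.1
      refine ⟨⟨l * k⁻¹, M24.mul_mem hl (M24.inv_mem hk)⟩, ?_, ?_⟩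
      · show (l * k⁻¹) • d = d
        rw [mul_smul, ← k1, inv_smul_smul, l1, k1]
      · show (l * k⁻¹) • s = t
        rw [mul_smul, ← k2, inv_smul_smul, l2])
  have h3 : {t : Finset GolayPt | t.card = 3 ∧ t ⊆ d}.ncard = 220 := by
    have : {t : Finset GolayPt | t.card = 3 ∧ t ⊆ d} = (d.powersetCard 3 : Set (Finset GolayPt)) := by
      ext t
      rw [Finset.mem_coe, Finset.mem_powersetCard, Set.mem_ofPred_eq, and_comm]
    rw [this, Set.ncard_coe_finset, Finset.card_powersetCard, hd.2]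
    decide
  rw [h3, card_stab_dodecad hd] at h
  omega

theorem inter_union_sdiff' (s t : Finset GolayPt) : s ∩ t ∪ s \ t = s := by
  rw [Finset.union_comm, Finset.sdiff_union_inter]

theorem sdiff_inter_card {s t : Finset GolayPt} : (t \ s).card + (s ∩ t).card = t.card := by
  rw [Finset.inter_comm, Finset.card_sdiff_add_card_inter]

/-- transitivity on triples of each type -/
theorem trans_Ty {d s : Finset GolayPt} (hd : d ∈ dodecads) (hsd : s ⊆ d) (hs : s.card = 3) (i : Fin 4)
    {t t' : Finset GolayPt} (ht : t.card = 3) (htd : t ⊆ d) (ht' : t'.card = 3) (htd' : t' ⊆ d)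
    (h : Ty d s i t) (h' : Ty d s i t') : ∃ g ∈ M24, g • d = d ∧ g • s = s ∧ g • t = t' := by
  have mk : ∀ {r : Finset GolayPt}, r.card = 3 → r ⊆ d → (s ∩ r).card = 0 → s ∪ r ∈ hexadsOn d → Pair d s r := by
    intro r h1 h2 h3 h4
    exact ⟨hs, h1, by rw [Finset.disjoint_iff_inter_eq_empty, ← Finset.card_eq_zero]; exact h3, h4⟩
  fin_cases i
  · -- hexads
    obtain ⟨a, b, c, _, _, _, e⟩ := Finset.card_eq_three.mp hs
    obtain ⟨g, hg, h1, h2, h3, _⟩ := exists_pair hd (mk ht htd h.1 h.2) (mk ht' htd' h'.1 h'.2) e e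
    exact ⟨g, hg, h1, h2, h3⟩
  · -- two common points
    have split : ∀ {r : Finset GolayPt}, r.card = 3 → r ⊆ d → (s ∩ r).card = 2 →
        ∃ x y z w, x ≠ y ∧ x ≠ z ∧ y ≠ z ∧ x ≠ w ∧ y ≠ w ∧ z ≠ w ∧ s = {x, y, z} ∧ r = {x, y, w} := by
      intro r h1 _ h3
      obtain ⟨x, y, hxy, e1⟩ := Finset.card_eq_two.mp h3
      have h4 : (s \ r).card = 1 := by
        have := @sdiff_inter_card r s
        rw [Finset.inter_comm] at this
        omega
      have h5 : (r \ s).card = 1 := by
        have := @sdiff_inter_card s r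
        omega
      obtain ⟨z, hz⟩ := Finset.card_eq_one.mp h4
      obtain ⟨w, hw⟩ := Finset.card_eq_one.mp h5
      have es : s = {x, y, z} := by
        rw [← inter_union_sdiff' s r, e1, hz]
        ext u; simp only [Finset.mem_union, Finset.mem_insert, Finset.mem_singleton]; tauto
      have er : r = {x, y, w} := by
        rw [← inter_union_sdiff' r s, Finset.inter_comm, e1, hw]
        ext u; simp only [Finset.mem_union, Finset.mem_insert, Finset.mem_singleton]; tauto
      have hx : x ∈ s ∩ r := by rw [e1]; simp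
      have hy : y ∈ s ∩ r := by rw [e1]; simp
      have hz' : z ∈ s \ r := by rw [hz]; simp
      have hw' : w ∈ r \ s := by rw [hw]; simp
      rw [Finset.mem_inter] at hx hy
      rw [Finset.mem_sdiff] at hz' hw'
      refine ⟨x, y, z, w, hxy, ?_, ?_, ?_, ?_, ?_, es, er⟩
      · rintro rfl; exact hz'.2 hx.2
      · rintro rfl; exact hz'.2 hy.2
      · rintro rfl; exact hw'.2 hx.1
      · rintro rfl; exact hw'.2 hy.1
      · rintro rfl; exact hw'.2 hz'.1
    obtain ⟨x, y, z, w, n1, n2, n3, n4, n5, n6, es, et⟩ := split ht htd h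
    obtain ⟨x', y', z', w', m1, m2, m3, m4, m5, m6, es', et'⟩ := split ht' htd' h'
    have hx : x ∈ d := hsd (by rw [es]; simp)
    have hy : y ∈ d := hsd (by rw [es]; simp)
    have hz : z ∈ d := hsd (by rw [es]; simp)
    have hw : w ∈ d := htd (by rw [et]; simp)
    have hx' : x' ∈ d := hsd (by rw [es']; simp)
    have hy' : y' ∈ d := hsd (by rw [es']; simp)
    have hz' : z' ∈ d := hsd (by rw [es']; simp)
    have hw' : w' ∈ d := htd' (by rw [et']; simp)
    obtain ⟨g, hg, hgd, hgx⟩ := exists_le_five_dodecad hd (n := 4) (by norm_num)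
        ⟨![x, y, z, w], by
          intro i j hij
          fin_cases i <;> fin_cases j <;> first
            | rfl
            | exact (n1 hij).elim | exact (n1 hij.symm).elim
            | exact (n2 hij).elim | exact (n2 hij.symm).elim
            | exact (n3 hij).elim | exact (n3 hij.symm).elim
            | exact (n4 hij).elim | exact (n4 hij.symm).elim
            | exact (n5 hij).elim | exact (n5 hij.symm).elim
            | exact (n6 hij).elim | exact (n6 hij.symm).elim⟩
        ⟨![x', y', z', w'], by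
          intro i j hij
          fin_cases i <;> fin_cases j <;> first
            | rfl
            | exact (m1 hij).elim | exact (m1 hij.symm).elim
            | exact (m2 hij).elim | exact (m2 hij.symm).elim
            | exact (m3 hij).elim | exact (m3 hij.symm).elim
            | exact (m4 hij).elim | exact (m4 hij.symm).elim
            | exact (m5 hij).elim | exact (m5 hij.symm).elim
            | exact (m6 hij).elim | exact (m6 hij.symm).elim⟩
        (by intro i; fin_cases i; exacts [hx, hy, hz, hw])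
        (by intro i; fin_cases i; exacts [hx', hy', hz', hw'])
    have g0 : g x = x' := hgx 0
    have g1 : g y = y' := hgx 1
    have g2 : g z = z' := hgx 2
    have g3 : g w = w' := hgx 3
    refine ⟨g, hg, hgd, ?_, ?_⟩
    · conv_lhs => rw [es]
      rw [smul_three g g0 g1 g2, es']
    · rw [et, smul_three g g0 g1 g3, et']
  · -- non-hexads
    have h1 := card_triple_stab hd hsd hs
    have hinv : ∀ g ∈ (MulAction.stabilizer M24 d ⊓ MulAction.stabilizer M24 s) ⊓ MulAction.stabilizer M24 t,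
        (g : Equiv.Perm GolayPt) • t = t := fun g hg => hg.2
    have h2 : Nat.card ↥((MulAction.stabilizer M24 d ⊓ MulAction.stabilizer M24 s) ⊓ MulAction.stabilizer M24 t) ≤ 6 := by
      have h6 : Nat.card (Equiv.Perm {x // x ∈ t}) = 6 := by
        rw [Nat.card_eq_fintype_card, Fintype.card_perm, Fintype.card_coe, ht]
        rfl
      rw [← h6]
      refine Nat.card_le_card_of_injective (restr _ t hinv) ?_
      rw [injective_iff_map_eq_one]
      intro g hg
      apply Subtype.ext
      apply Subtype.ext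
      obtain ⟨a, b, c, hab, hac, hbc, e⟩ := Finset.card_eq_three.mp ht
      have hdis : ∀ x ∈ t, x ∉ s := by
        intro x hx hxs
        have : (s ∩ t).card ≠ 0 := by
          rw [Finset.card_ne_zero]
          exact ⟨x, Finset.mem_inter.mpr ⟨hxs, hx⟩⟩
        exact this h.1
      have ha : a ∈ t := by rw [e]; simp
      have hb : b ∈ t := by rw [e]; simp
      have hc : c ∈ t := by rw [e]; simp
      have hfix : ∀ x ∈ t, g.1.1 x = x := by
        intro x hx
        have := DFunLike.congr_fun hg ⟨x, hx⟩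
        exact congrArg Subtype.val this
      exact rigid hd hsd hs (htd ha) (htd hb) (htd hc) (hdis a ha) (hdis b hb) (hdis c hc) hab hac hbc
        (e ▸ h.2) g.1.2 g.2.1.1 g.2.1.2 (hfix a ha) (hfix b hb) (hfix c hc)
    have h3 := card_eq_mul_inf_stabilizer (MulAction.stabilizer M24 d ⊓ MulAction.stabilizer M24 s) t
      (MulAction.orbit ↥(MulAction.stabilizer M24 d ⊓ MulAction.stabilizer M24 s) t)
      (fun g hg => ⟨⟨g, hg⟩, rfl⟩) (fun x hx => by
        obtain ⟨g, rfl⟩ := hx
        exact ⟨g.1, g.2, rfl⟩)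
    rw [h1] at h3
    have h4 : MulAction.orbit ↥(MulAction.stabilizer M24 d ⊓ MulAction.stabilizer M24 s) t ⊆
        {t : Finset GolayPt | (t.card = 3 ∧ t ⊆ d) ∧ Ty d s 2 t} := by
      rintro _ ⟨g, rfl⟩
      have g1 : g.1.1 • d = d := g.2.1
      have g2 : g.1.1 • s = s := g.2.2
      refine ⟨⟨?_, ?_⟩, ?_⟩
      · show (g.1.1 • t).card = 3
        rw [card_smul', ht]
      · show g.1.1 • t ⊆ d
        have := (smul_subset' g.1.1 t d).mpr htd
        rwa [g1] at this
      · show Ty d s 2 (g.1.1 • t)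
        have := (smul_Ty (D := d) (s := s) g.1.2 2 t).mpr h
        rwa [g1, g2] at this
    have h5 := count_Ty hd hsd hs 2
    have h6 : 72 ≤ (MulAction.orbit ↥(MulAction.stabilizer M24 d ⊓ MulAction.stabilizer M24 s) t).ncard := by
      by_contra hlt
      push Not at hlt
      have : (MulAction.orbit ↥(MulAction.stabilizer M24 d ⊓ MulAction.stabilizer M24 s) t).ncard *
          Nat.card ↥((MulAction.stabilizer M24 d ⊓ MulAction.stabilizer M24 s) ⊓ MulAction.stabilizer M24 t) ≤ 71 * 6 :=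
        Nat.mul_le_mul (by omega) h2
      omega
    have h7 := Set.eq_of_subset_of_ncard_le h4 (by rw [h5]; exact h6) (Set.toFinite _)
    have h8 : t' ∈ MulAction.orbit ↥(MulAction.stabilizer M24 d ⊓ MulAction.stabilizer M24 s) t := by
      rw [h7]; exact ⟨⟨ht', htd'⟩, h'⟩
    obtain ⟨g, hg⟩ := h8
    exact ⟨g.1.1, g.1.2, g.2.1, g.2.2, hg⟩
  · -- one common point
    have split : ∀ {r : Finset GolayPt}, r.card = 3 → r ⊆ d → (s ∩ r).card = 1 →
        ∃ x y z v w, x ≠ y ∧ x ≠ z ∧ y ≠ z ∧ x ≠ v ∧ x ≠ w ∧ y ≠ v ∧ y ≠ w ∧ z ≠ v ∧ z ≠ w ∧ v ≠ w ∧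
          s = {x, y, z} ∧ r = {x, v, w} := by
      intro r h1 _ h3
      obtain ⟨x, e1⟩ := Finset.card_eq_one.mp h3
      have h4 : (s \ r).card = 2 := by
        have := @sdiff_inter_card r s
        rw [Finset.inter_comm] at this
        omega
      have h5 : (r \ s).card = 2 := by
        have := @sdiff_inter_card s r
        omega
      obtain ⟨y, z, hyz, hz⟩ := Finset.card_eq_two.mp h4
      obtain ⟨v, w, hvw, hw⟩ := Finset.card_eq_two.mp h5
      have es : s = {x, y, z} := by
        rw [← inter_union_sdiff' s r, e1, hz]; rfl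
      have er : r = {x, v, w} := by
        rw [← inter_union_sdiff' r s, Finset.inter_comm, e1, hw]; rfl
      have hx : x ∈ s ∩ r := by rw [e1]; simp
      have hy' : y ∈ s \ r := by rw [hz]; simp
      have hz' : z ∈ s \ r := by rw [hz]; simp
      have hv' : v ∈ r \ s := by rw [hw]; simp
      have hw' : w ∈ r \ s := by rw [hw]; simp
      rw [Finset.mem_inter] at hx
      rw [Finset.mem_sdiff] at hz' hw' hy' hv'
      refine ⟨x, y, z, v, w, ?_, ?_, hyz, ?_, ?_, ?_, ?_, ?_, ?_, hvw, es, er⟩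
      · rintro rfl; exact hy'.2 hx.2
      · rintro rfl; exact hz'.2 hx.2
      · rintro rfl; exact hv'.2 hx.1
      · rintro rfl; exact hw'.2 hx.1
      · rintro rfl; exact hv'.2 hy'.1
      · rintro rfl; exact hw'.2 hy'.1
      · rintro rfl; exact hv'.2 hz'.1
      · rintro rfl; exact hw'.2 hz'.1
    obtain ⟨x, y, z, v, w, n1, n2, n3, n4, n5, n6, n7, n8, n9, n10, es, et⟩ := split ht htd h
    obtain ⟨x', y', z', v', w', m1, m2, m3, m4, m5, m6, m7, m8, m9, m10, es', et'⟩ := split ht' htd' h'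
    have hx : x ∈ d := hsd (by rw [es]; simp)
    have hy : y ∈ d := hsd (by rw [es]; simp)
    have hz : z ∈ d := hsd (by rw [es]; simp)
    have hv : v ∈ d := htd (by rw [et]; simp)
    have hw : w ∈ d := htd (by rw [et]; simp)
    have hx' : x' ∈ d := hsd (by rw [es']; simp)
    have hy' : y' ∈ d := hsd (by rw [es']; simp)
    have hz' : z' ∈ d := hsd (by rw [es']; simp)
    have hv' : v' ∈ d := htd' (by rw [et']; simp)
    have hw' : w' ∈ d := htd' (by rw [et']; simp)
    obtain ⟨g, hg, hgd, hgx⟩ := exists_le_five_dodecad hd (n := 5) (by norm_num)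
        ⟨![x, y, z, v, w], by
          intro i j hij
          fin_cases i <;> fin_cases j <;> first
            | rfl
            | exact (n1 hij).elim | exact (n1 hij.symm).elim
            | exact (n2 hij).elim | exact (n2 hij.symm).elim
            | exact (n3 hij).elim | exact (n3 hij.symm).elim
            | exact (n4 hij).elim | exact (n4 hij.symm).elim
            | exact (n5 hij).elim | exact (n5 hij.symm).elim
            | exact (n6 hij).elim | exact (n6 hij.symm).elim
            | exact (n7 hij).elim | exact (n7 hij.symm).elim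
            | exact (n8 hij).elim | exact (n8 hij.symm).elim
            | exact (n9 hij).elim | exact (n9 hij.symm).elim
            | exact (n10 hij).elim | exact (n10 hij.symm).elim⟩
        ⟨![x', y', z', v', w'], by
          intro i j hij
          fin_cases i <;> fin_cases j <;> first
            | rfl
            | exact (m1 hij).elim | exact (m1 hij.symm).elim
            | exact (m2 hij).elim | exact (m2 hij.symm).elim
            | exact (m3 hij).elim | exact (m3 hij.symm).elim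
            | exact (m4 hij).elim | exact (m4 hij.symm).elim
            | exact (m5 hij).elim | exact (m5 hij.symm).elim
            | exact (m6 hij).elim | exact (m6 hij.symm).elim
            | exact (m7 hij).elim | exact (m7 hij.symm).elim
            | exact (m8 hij).elim | exact (m8 hij.symm).elim
            | exact (m9 hij).elim | exact (m9 hij.symm).elim
            | exact (m10 hij).elim | exact (m10 hij.symm).elim⟩
        (by intro i; fin_cases i; exacts [hx, hy, hz, hv, hw])
        (by intro i; fin_cases i; exacts [hx', hy', hz', hv', hw'])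
    have g0 : g x = x' := hgx 0
    have g1 : g y = y' := hgx 1
    have g2 : g z = z' := hgx 2
    have g3 : g v = v' := hgx 3
    have g4 : g w = w' := hgx 4
    refine ⟨g, hg, hgd, ?_, ?_⟩
    · conv_lhs => rw [es]
      rw [smul_three g g0 g1 g2, es']
    · rw [et, smul_three g g0 g3 g4, et']

/-! ### the bijection between quartets and outer triples -/

theorem SQ_mem {d : Finset GolayPt} (hd : d ∈ dodecads) {Q : Finset (Finset GolayPt)} (hQ : Q ∈ quartets d) :
    (SQ d Q).card = 3 ∧ SQ d Q ⊆ dᶜ :=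
  ⟨card_SQ hd hQ, fun _ hx => Finset.mem_compl.mpr (mem_SQ.mp hx).1⟩

theorem SQ_surj {d : Finset GolayPt} (hd : d ∈ dodecads) {t : Finset GolayPt} (ht : t.card = 3) (htd : t ⊆ dᶜ) :
    ∃ Q ∈ quartets d, SQ d Q = t := by
  have hdc := compl_dodecad hd
  obtain ⟨Q, hQ⟩ : (quartets d).Nonempty := by
    rw [← Set.ncard_pos (Set.toFinite _), ncard_quartets hd]
    norm_num
  obtain ⟨h1, h2⟩ := SQ_mem hd hQ
  obtain ⟨k, hk, k1, k2⟩ := exists_emb hdc h2 h1
  obtain ⟨l, hl, l1, l2⟩ := exists_emb hdc htd ht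
  have hg : l * k⁻¹ ∈ M24 := M24.mul_mem hl (M24.inv_mem hk)
  have e1 : (l * k⁻¹) • dᶜ = dᶜ := by
    rw [mul_smul, ← k1, inv_smul_smul, l1, k1]
  have e2 : (l * k⁻¹) • SQ d Q = t := by
    rw [mul_smul, ← k2, inv_smul_smul, l2]
  have e3 : (l * k⁻¹) • d = d := by
    rw [smul_compl'] at e1
    exact compl_injective e1
  refine ⟨(l * k⁻¹) • Q, ?_, ?_⟩
  · have := (smul_mem_quartets hg).mpr hQ
    rwa [e3] at this
  · have := smul_SQ hg d Q
    rw [e3, e2] at this
    exact this.symm

theorem ncard_outer {d : Finset GolayPt} (hd : d ∈ dodecads) : {t : Finset GolayPt | t.card = 3 ∧ t ⊆ dᶜ}.ncard = 220 := by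
  have : {t : Finset GolayPt | t.card = 3 ∧ t ⊆ dᶜ} = (dᶜ.powersetCard 3 : Set (Finset GolayPt)) := by
    ext t
    rw [Finset.mem_coe, Finset.mem_powersetCard, Set.mem_ofPred_eq, and_comm]
  rw [this, Set.ncard_coe_finset, Finset.card_powersetCard, (compl_dodecad hd).2]
  decide

theorem SQ_injOn {d : Finset GolayPt} (hd : d ∈ dodecads) : Set.InjOn (SQ d) (quartets d) := by
  have h1 : SQ d '' quartets d = {t : Finset GolayPt | t.card = 3 ∧ t ⊆ dᶜ} := by
    ext t
    constructor
    · rintro ⟨Q, hQ, rfl⟩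
      exact SQ_mem hd hQ
    · rintro ⟨h1, h2⟩
      obtain ⟨Q, hQ, e⟩ := SQ_surj hd h1 h2
      exact ⟨Q, hQ, e⟩
  apply Set.injOn_of_ncard_image_eq _ (Set.toFinite _)
  rw [h1, ncard_outer hd, ncard_quartets hd]

/-- the orbits of the quartet stabiliser -/
theorem orbit_eq {d : Finset GolayPt} (hd : d ∈ dodecads) {Q : Finset (Finset GolayPt)} (hQ : Q ∈ quartets d)
    {X : Finset (Finset GolayPt)} (hX : X ∈ quartets d) {i : Fin 4} (hi : Ty dᶜ (SQ d Q) i (SQ d X)) :
    MulAction.orbit ↥(MulAction.stabilizer M24 d ⊓ MulAction.stabilizer M24 Q) X =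
      {Y | Y ∈ quartets d ∧ Ty dᶜ (SQ d Q) i (SQ d Y)} := by
  have hdc := compl_dodecad hd
  ext Y
  constructor
  · rintro ⟨g, rfl⟩
    have g1 : g.1.1 • d = d := g.2.1
    have g2 : g.1.1 • Q = Q := g.2.2
    have g3 : g.1.1 • dᶜ = dᶜ := by rw [smul_compl', g1]
    have g4 : g.1.1 • SQ d Q = SQ d Q := by rw [smul_SQ g.1.2, g1, g2]
    refine ⟨?_, ?_⟩
    · have := (smul_mem_quartets g.1.2).mpr hX
      rw [g1] at this
      exact this
    · have := (smul_Ty (D := dᶜ) (s := SQ d Q) g.1.2 i (SQ d X)).mpr hi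
      rw [g3, g4, smul_SQ g.1.2, g1] at this
      exact this
  · rintro ⟨hY, hYi⟩
    obtain ⟨h1, h2⟩ := SQ_mem hd hQ
    obtain ⟨h3, h4⟩ := SQ_mem hd hX
    obtain ⟨h5, h6⟩ := SQ_mem hd hY
    obtain ⟨g, hg, e1, e2, e3⟩ := trans_Ty hdc h2 h1 i h3 h4 h5 h6 hi hYi
    have e4 : g • d = d := by
      rw [smul_compl'] at e1
      exact compl_injective e1
    have key : ∀ {A B : Finset (Finset GolayPt)}, A ∈ quartets d → B ∈ quartets d → g • SQ d A = SQ d B → g • A = B := by
      intro A B hA hB e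
      rw [smul_SQ hg, e4] at e
      refine SQ_injOn hd ?_ hB e
      have := (smul_mem_quartets hg).mpr hA
      rwa [e4] at this
    exact ⟨⟨⟨g, hg⟩, Subgroup.mem_inf.mpr ⟨e4, key hQ hQ e2⟩⟩, key hX hY e3⟩

theorem ncard_orbit {d : Finset GolayPt} (hd : d ∈ dodecads) {Q : Finset (Finset GolayPt)} (hQ : Q ∈ quartets d)
    {X : Finset (Finset GolayPt)} (hX : X ∈ quartets d) {i : Fin 4} (hi : Ty dᶜ (SQ d Q) i (SQ d X)) :
    (MulAction.orbit ↥(MulAction.stabilizer M24 d ⊓ MulAction.stabilizer M24 Q) X).ncard = sz i := by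
  rw [orbit_eq hd hQ hX hi]
  obtain ⟨h1, h2⟩ := SQ_mem hd hQ
  rw [← count_Ty (compl_dodecad hd) h2 h1 i]
  apply Set.ncard_congr (fun Y _ => SQ d Y)
  · rintro Y ⟨hY, hi⟩
    exact ⟨SQ_mem hd hY, hi⟩
  · rintro Y Z ⟨hY, _⟩ ⟨hZ, _⟩ e
    exact SQ_injOn hd hY hZ e
  · rintro t ⟨⟨h3, h4⟩, h5⟩
    obtain ⟨Y, hY, rfl⟩ := SQ_surj hd h3 h4
    exact ⟨Y, ⟨hY, h5⟩, rfl⟩

theorem exists_Ty {d : Finset GolayPt} (hd : d ∈ dodecads) {Q : Finset (Finset GolayPt)} (hQ : Q ∈ quartets d)
    (i : Fin 4) : ∃ X ∈ quartets d, Ty dᶜ (SQ d Q) i (SQ d X) := by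
  obtain ⟨h1, h2⟩ := SQ_mem hd hQ
  have h3 := count_Ty (compl_dodecad hd) h2 h1 i
  have h4 : 0 < sz i := by fin_cases i <;> decide
  rw [← h3, Set.ncard_pos (Set.toFinite _)] at h4
  obtain ⟨t, ⟨h5, h6⟩, h7⟩ := h4
  obtain ⟨Y, hY, rfl⟩ := SQ_surj hd h5 h6
  exact ⟨Y, hY, h7⟩

theorem S1599_main {d : Finset GolayPt} (hd : d ∈ dodecads) {Q : Finset (Finset GolayPt)} (hQ : Q ∈ quartets d) :
    ∃ X₁ ∈ quartets d, ∃ X₂ ∈ quartets d, ∃ X₃ ∈ quartets d, ∃ X₄ ∈ quartets d,
      (MulAction.orbit ↥(MulAction.stabilizer M24 d ⊓ MulAction.stabilizer M24 Q) X₁).ncard = 12 ∧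
      (MulAction.orbit ↥(MulAction.stabilizer M24 d ⊓ MulAction.stabilizer M24 Q) X₂).ncard = 27 ∧
      (MulAction.orbit ↥(MulAction.stabilizer M24 d ⊓ MulAction.stabilizer M24 Q) X₃).ncard = 72 ∧
      (MulAction.orbit ↥(MulAction.stabilizer M24 d ⊓ MulAction.stabilizer M24 Q) X₄).ncard = 108 ∧
      quartets d = {Q} ∪ MulAction.orbit ↥(MulAction.stabilizer M24 d ⊓ MulAction.stabilizer M24 Q) X₁ ∪
        MulAction.orbit ↥(MulAction.stabilizer M24 d ⊓ MulAction.stabilizer M24 Q) X₂ ∪
        MulAction.orbit ↥(MulAction.stabilizer M24 d ⊓ MulAction.stabilizer M24 Q) X₃ ∪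
        MulAction.orbit ↥(MulAction.stabilizer M24 d ⊓ MulAction.stabilizer M24 Q) X₄ := by
  obtain ⟨X1, hX1, h1⟩ := exists_Ty hd hQ 0
  obtain ⟨X2, hX2, h2⟩ := exists_Ty hd hQ 1
  obtain ⟨X3, hX3, h3⟩ := exists_Ty hd hQ 2
  obtain ⟨X4, hX4, h4⟩ := exists_Ty hd hQ 3
  refine ⟨X1, hX1, X2, hX2, X3, hX3, X4, hX4, ncard_orbit hd hQ hX1 h1, ncard_orbit hd hQ hX2 h2,
    ncard_orbit hd hQ hX3 h3, ncard_orbit hd hQ hX4 h4, ?_⟩
  rw [orbit_eq hd hQ hX1 h1, orbit_eq hd hQ hX2 h2, orbit_eq hd hQ hX3 h3, orbit_eq hd hQ hX4 h4]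
  apply Set.Subset.antisymm
  · intro Y hY
    by_cases hYQ : Y = Q
    · left; left; left; left
      exact hYQ
    · obtain ⟨i, hi⟩ := Ty_cases (D := dᶜ) (SQ_mem hd hQ).1 (SQ_mem hd hY).1 (fun e => hYQ (SQ_injOn hd hY hQ e))
      fin_cases i
      · left; left; left; right
        exact ⟨hY, hi⟩
      · left; left; right
        exact ⟨hY, hi⟩
      · left; right
        exact ⟨hY, hi⟩
      · right
        exact ⟨hY, hi⟩
  · rintro Y ((((rfl | h) | h) | h) | h)
    exacts [hQ, h.1, h.1, h.1, h.1]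

end Cfsg.Agent.Lib.QuartetOrb
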