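import Cfsg.Agent.Lib.M11Inv

/-!
helper27: the stabiliser of a quartet in the dodecad stabiliser (S1598).
-/

set_option autoImplicit false

namespace Cfsg.Agent.Lib.QuartetStab

open Cfsg Cfsg.Agent.Lib.Golay Cfsg.Agent.Lib.Quartets Cfsg.Agent.Lib.DodStab Cfsg.Agent.Lib.AffNine
open scoped Pointwise
open Matrix

/-- the three points outside the dodecad attached to a quartet -/
noncomputable def SQ (d : Finset GolayPt) (Q : Finset (Finset GolayPt)) : Finset GolayPt :=
  open scoped Classical in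
  Finset.univ.filter fun x => x ∉ d ∧ ∃ o ∈ octads, x ∈ o ∧ ∃ t ∈ Q, ∃ u ∈ Q, t ≠ u ∧ o ∩ d = t ∪ u

theorem mem_SQ {d : Finset GolayPt} {Q : Finset (Finset GolayPt)} {x : GolayPt} :
    x ∈ SQ d Q ↔ x ∉ d ∧ ∃ o ∈ octads, x ∈ o ∧ ∃ t ∈ Q, ∃ u ∈ Q, t ≠ u ∧ o ∩ d = t ∪ u := by
  classical
  simp [SQ]

theorem smul_mem_SQ_aux {g : Equiv.Perm GolayPt} (hg : g ∈ M24) {d : Finset GolayPt} {Q : Finset (Finset GolayPt)}
    {x : GolayPt} (hx : x ∈ SQ d Q) : g x ∈ SQ (g • d) (g • Q) := by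
  rw [mem_SQ] at hx ⊢
  obtain ⟨hxd, o, ho, hxo, t, ht, u, hu, htu, e⟩ := hx
  refine ⟨by rw [smul_mem_smul]; exact hxd, g • o, (Golay.smul_mem_octads hg).mpr ho, (smul_mem_smul g _ _).mpr hxo,
    g • t, (mem_smul2 g _ _).mpr ht, g • u, (mem_smul2 g _ _).mpr hu, fun e => htu (MulAction.injective g e), ?_⟩
  rw [← smul_inter', e, smul_union']

theorem smul_SQ {g : Equiv.Perm GolayPt} (hg : g ∈ M24) (d : Finset GolayPt) (Q : Finset (Finset GolayPt)) :
    g • SQ d Q = SQ (g • d) (g • Q) := by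
  ext x
  obtain ⟨y, rfl⟩ := g.surjective x
  rw [smul_mem_smul]
  constructor
  · exact smul_mem_SQ_aux hg
  · intro h
    have := smul_mem_SQ_aux (M24.inv_mem hg) h
    rwa [inv_smul_smul, inv_smul_smul, perm_inv_apply] at this

def sqM : List ℕ := [4127, 327751, 8967, 331864, 13080, 336704]

def sqChk (n : ℕ) : Bool := force (enc n) fun c => cond (Nat.beq (pc c) 8)
    (cond (memL sqM (Nat.land c dod0)) (Nat.beq (Nat.land c 473055) c) true) true

theorem sqChk_all : allLt 64 (fun a => allLt 64 (fun b => sqChk (Nat.add (Nat.mul 64 a) b))) = true := by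
  decide +kernel

theorem sqM_spec : ([7, 4120, 327744, 8960].all fun m => [7, 4120, 327744, 8960].all fun m' =>
      cond (Nat.beq m m') true (memL sqM (Nat.lor m m'))) = true := by decide +kernel

theorem SQ_std : SQ (mset dod0) Q0 = mset 132224 := by
  have e4 : ∀ x : GolayPt, (473055 : ℕ).testBit (ix x) = true → ¬ (340831 : ℕ).testBit (ix x) = true →
      (132224 : ℕ).testBit (ix x) = true := by decide +kernel
  have e5 : ∀ x : GolayPt, (132224 : ℕ).testBit (ix x) = true → ¬ (340831 : ℕ).testBit (ix x) = true ∧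
      ((5279 : ℕ).testBit (ix x) = true ∨ (140167 : ℕ).testBit (ix x) = true) := by decide +kernel
  ext x
  rw [mem_SQ]
  constructor
  · rintro ⟨hxd, o, ho, hxo, t, ht, u, hu, htu, e⟩
    obtain ⟨n, hn, rfl, h8⟩ := mem_octads_iff.mp ho
    obtain ⟨m, hm, rfl⟩ := mem_Q0.mp ht
    obtain ⟨m', hm', rfl⟩ := mem_Q0.mp hu
    have hne : m ≠ m' := fun e => htu (by rw [e])
    have hlt : ∀ m ∈ [7, 4120, 327744, 8960], m < 2 ^ 24 := by decide
    have h2 := List.all_eq_true.mp (List.all_eq_true.mp sqM_spec m hm) m' hm'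
    have h3 : Nat.beq m m' = false := by
      cases hb : Nat.beq m m' with
      | false => rfl
      | true => exact absurd (Nat.eq_of_beq_eq_true hb) hne
    rw [h3, cond_false] at h2
    rw [← mset_and, ← mset_or] at e
    have h4 : Nat.land (enc n) dod0 = Nat.lor m m' :=
      mset_injOn (lt_of_le_of_lt Nat.and_le_left (enc_lt n)) (Nat.or_lt_two_pow (hlt m hm) (hlt m' hm')) e
    have h1 := allLt64 sqChk_all hn
    unfold sqChk at h1
    rw [force_eq, cond_beq h8, h4, h2, cond_true] at h1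
    have h5 : Nat.land (enc n) 473055 = enc n := Nat.eq_of_beq_eq_true h1
    have h6 : x ∈ mset (enc n &&& 473055) := by
      have : (enc n &&& 473055) = enc n := h5
      rw [this]; exact hxo
    rw [mset_and, Finset.mem_inter, mem_mset, mem_mset] at h6
    rw [mem_mset]
    exact e4 x h6.2 (fun h => hxd (mem_mset.mpr h))
  · intro hx
    obtain ⟨h1, h2⟩ := e5 x (mem_mset.mp hx)
    refine ⟨fun h => h1 (mem_mset.mp h), ?_⟩
    have key : ∀ o ∈ [5279, 140167], mset o ∈ octads ∧ ∃ t ∈ Q0, ∃ u ∈ Q0, t ≠ u ∧ mset o ∩ mset dod0 = t ∪ u := by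
      have hlt : ∀ m ∈ [7, 4120, 327744, 8960], m < 2 ^ 24 := by decide
      intro o ho
      simp only [List.mem_cons, List.not_mem_nil, or_false] at ho
      rcases ho with rfl | rfl
      · refine ⟨⟨(mset_mem_supports_iff (by norm_num)).mpr (by decide +kernel), by rw [card_mset]; decide +kernel⟩,
          mset 7, mem_Q0.mpr ⟨7, by simp, rfl⟩, mset 4120, mem_Q0.mpr ⟨4120, by simp, rfl⟩, ?_, ?_⟩
        · intro e
          have := mset_injOn (hlt 7 (by simp)) (hlt 4120 (by simp)) e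
          omega
        · rw [← mset_and, ← mset_or]
          exact congrArg mset (by decide +kernel)
      · refine ⟨⟨(mset_mem_supports_iff (by norm_num)).mpr (by decide +kernel), by rw [card_mset]; decide +kernel⟩,
          mset 7, mem_Q0.mpr ⟨7, by simp, rfl⟩, mset 8960, mem_Q0.mpr ⟨8960, by simp, rfl⟩, ?_, ?_⟩
        · intro e
          have := mset_injOn (hlt 7 (by simp)) (hlt 8960 (by simp)) e
          omega
        · rw [← mset_and, ← mset_or]
          exact congrArg mset (by decide +kernel)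
    rcases h2 with h2 | h2
    · obtain ⟨k1, k2⟩ := key 5279 (by simp)
      exact ⟨_, k1, mem_mset.mpr h2, k2⟩
    · obtain ⟨k1, k2⟩ := key 140167 (by simp)
      exact ⟨_, k1, mem_mset.mpr h2, k2⟩

theorem exists_quartet_frame {d : Finset GolayPt} (hd : d ∈ dodecads) {Q : Finset (Finset GolayPt)}
    (hQ : Q ∈ quartets d) : ∃ k ∈ M24, k • mset dod0 = d ∧ k • Q0 = Q := by
  obtain ⟨h, hh, rfl⟩ := exists_smul_dod0 hd
  have h1 : h • Q0 ∈ quartets (h • mset dod0) := (smul_mem_quartets hh).mpr Q0_mem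
  obtain ⟨g, hg, hgd, hgQ⟩ := quartet_transitive hd h1 hQ
  exact ⟨g * h, M24.mul_mem hg hh, by rw [mul_smul, hgd], by rw [mul_smul, hgQ]⟩

theorem card_SQ {d : Finset GolayPt} (hd : d ∈ dodecads) {Q : Finset (Finset GolayPt)}
    (hQ : Q ∈ quartets d) : (SQ d Q).card = 3 := by
  obtain ⟨k, hk, rfl, rfl⟩ := exists_quartet_frame hd hQ
  rw [← smul_SQ hk, card_smul', SQ_std, card_mset]
  decide +kernel

theorem card_quartet_stab {d : Finset GolayPt} (hd : d ∈ dodecads) {Q : Finset (Finset GolayPt)}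
    (hQ : Q ∈ quartets d) :
    Nat.card ↥(MulAction.stabilizer M24 d ⊓ MulAction.stabilizer M24 Q) = 432 := by
  have h := card_eq_mul_inf_stabilizer (MulAction.stabilizer M24 d) Q (quartets d)
    (fun g hg => by
      have h1 : g.1 • d = d := hg
      have := (smul_mem_quartets g.2 (Q := Q) (d := d)).mpr hQ
      rw [h1] at this
      exact this)
    (fun Q' hQ' => by
      obtain ⟨g, hg, hgd, hgQ⟩ := quartet_transitive hd hQ hQ'
      exact ⟨⟨g, hg⟩, hgd, hgQ⟩)
  rw [ncard_quartets hd, card_stab_dodecad hd] at h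
  omega

theorem compl_dodecad {d : Finset GolayPt} (hd : d ∈ dodecads) : dᶜ ∈ dodecads :=
  ⟨compl_mem_supports hd.1, by rw [Finset.card_compl, card_pt, hd.2]⟩

theorem smul_compl' (g : Equiv.Perm GolayPt) (d : Finset GolayPt) : g • dᶜ = (g • d)ᶜ := by
  ext y
  obtain ⟨z, rfl⟩ := g.surjective y
  rw [smul_mem_smul, Finset.mem_compl, Finset.mem_compl, smul_mem_smul]

/-- first two clauses of S1598 -/
theorem structure_main {d : Finset GolayPt} (hd : d ∈ dodecads) {Q : Finset (Finset GolayPt)}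
    (hQ : Q ∈ quartets d) :
    ∃ (N : Subgroup ↥(MulAction.stabilizer M24 d ⊓ MulAction.stabilizer M24 Q)) (_ : N.Normal), Nat.card N = 9 ∧
      Nonempty (↥(MulAction.stabilizer M24 d ⊓ MulAction.stabilizer M24 Q) ⧸ N ≃* GL (Fin 2) (ZMod 3)) := by
  set K := MulAction.stabilizer M24 d ⊓ MulAction.stabilizer M24 Q with hK
  have hc : Nat.card K = 432 := card_quartet_stab hd hQ
  have hdc := compl_dodecad hd
  have hS3 := card_SQ hd hQ
  have hSd : SQ d Q ⊆ dᶜ := fun x hx => Finset.mem_compl.mpr (mem_SQ.mp hx).1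
  have hc9 : (dᶜ \ SQ d Q).card = 9 := by
    rw [Finset.card_sdiff_of_subset hSd, hdc.2, hS3]
  obtain ⟨p, hp⟩ := Finset.card_pos.mp (by rw [hc9]; norm_num : 0 < (dᶜ \ SQ d Q).card)
  rw [Finset.mem_sdiff] at hp
  obtain ⟨f, hf, _⟩ := exists_aff hdc hSd hS3 hp.1 hp.2
  have hKd : ∀ g ∈ K, (g : Equiv.Perm GolayPt) • dᶜ = dᶜ := by
    intro g hg
    have h1 : g.1 • d = d := hg.1
    rw [smul_compl', h1]
  have hKs : ∀ g ∈ K, (g : Equiv.Perm GolayPt) • SQ d Q = SQ d Q := by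
    intro g hg
    have h1 : g.1 • d = d := hg.1
    have h2 : g.1 • Q = Q := hg.2
    rw [smul_SQ g.2, h1, h2]
  obtain ⟨L, t, hL⟩ := exists_linear hf K hKd hKs
  -- the kernel acts faithfully by translations
  have hker : Nat.card L.ker ≤ 9 := by
    have h9 : Nat.card V = 9 := by
      rw [Nat.card_eq_fintype_card]; decide
    rw [← h9]
    have : Finite V := inferInstance
    refine Nat.card_le_card_of_injective (fun g : L.ker => t g.1) ?_
    intro g h hgh
    have hgh' : t g.1 = t h.1 := hgh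
    have h1 : ∀ v, g.1.1.1 (f v) = h.1.1.1 (f v) := by
      intro v
      rw [hL, hL, hgh', MonoidHom.mem_ker.mp g.2, MonoidHom.mem_ker.mp h.2]
    apply Subtype.ext
    have h2 : g.1⁻¹ * h.1 = 1 := by
      apply Subtype.ext
      apply Subtype.ext
      refine eq_one_of_five hdc (g.1⁻¹ * h.1).1.2 (hKd _ (g.1⁻¹ * h.1).2) (s := dᶜ \ SQ d Q)
        Finset.sdiff_subset (by rw [hc9]; norm_num) ?_
      intro y hy
      obtain ⟨v, rfl⟩ := (hf.range y).mpr (Finset.mem_sdiff.mp hy)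
      show (g.1.1.1⁻¹ * h.1.1.1) (f v) = f v
      rw [Equiv.Perm.mul_apply, ← h1, perm_inv_apply]
    exact (inv_mul_eq_one.mp h2)
  have h1 : Nat.card L.ker * Nat.card L.range = 432 := by
    rw [← hc, ← Subgroup.card_mul_index L.ker, Subgroup.index_ker]
  have h2 : Nat.card L.range ≤ 48 := by
    rw [← M11Inv.card_GL23]
    exact Subgroup.card_le_card_group _
  have h3 : Nat.card L.ker = 9 ∧ Nat.card L.range = 48 := by
    have : 432 ≤ Nat.card L.ker * 48 := by
      rw [← h1]; exact Nat.mul_le_mul_left _ h2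
    have h9 : Nat.card L.ker = 9 := by omega
    rw [h9] at h1
    exact ⟨h9, by omega⟩
  have hsurj : Function.Surjective L := by
    rw [← MonoidHom.range_eq_top]
    apply Subgroup.eq_top_of_card_eq
    rw [h3.2, M11Inv.card_GL23]
  exact ⟨L.ker, inferInstance, h3.1, ⟨QuotientGroup.quotientKerEquivOfSurjective L hsurj⟩⟩

theorem quartet_cover {d : Finset GolayPt} (hd : d ∈ dodecads) {Q : Finset (Finset GolayPt)}
    (hQ : Q ∈ quartets d) {p : GolayPt} (hp : p ∈ d) : ∃ t ∈ Q, p ∈ t := by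
  obtain ⟨k, hk, rfl, rfl⟩ := exists_quartet_frame hd hQ
  obtain ⟨z, rfl⟩ := k.surjective p
  rw [smul_mem_smul, mem_mset] at hp
  have key : ∀ x : GolayPt, (340831 : ℕ).testBit (ix x) = true → (7 : ℕ).testBit (ix x) = true ∨
      (4120 : ℕ).testBit (ix x) = true ∨ (327744 : ℕ).testBit (ix x) = true ∨ (8960 : ℕ).testBit (ix x) = true := by
    decide +kernel
  rcases key z hp with h | h | h | h
  · exact ⟨k • mset 7, (mem_smul2 k _ _).mpr (mem_Q0.mpr ⟨7, by simp, rfl⟩), (smul_mem_smul k _ _).mpr (mem_mset.mpr h)⟩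
  · exact ⟨k • mset 4120, (mem_smul2 k _ _).mpr (mem_Q0.mpr ⟨4120, by simp, rfl⟩),
      (smul_mem_smul k _ _).mpr (mem_mset.mpr h)⟩
  · exact ⟨k • mset 327744, (mem_smul2 k _ _).mpr (mem_Q0.mpr ⟨327744, by simp, rfl⟩),
      (smul_mem_smul k _ _).mpr (mem_mset.mpr h)⟩
  · exact ⟨k • mset 8960, (mem_smul2 k _ _).mpr (mem_Q0.mpr ⟨8960, by simp, rfl⟩),
      (smul_mem_smul k _ _).mpr (mem_mset.mpr h)⟩

theorem exists_triple {t : Finset GolayPt} (ht : t.card = 3) {p : GolayPt} (hp : p ∈ t) :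
    ∃ b c, t = {p, b, c} := by
  have h2 : (t.erase p).card = 2 := by rw [Finset.card_erase_of_mem hp, ht]
  obtain ⟨b, c, _, h⟩ := Finset.card_eq_two.mp h2
  exact ⟨b, c, by rw [← Finset.insert_erase hp, h]⟩

theorem transitive_main {d : Finset GolayPt} (hd : d ∈ dodecads) {Q : Finset (Finset GolayPt)}
    (hQ : Q ∈ quartets d) : ∀ p ∈ d, ∀ q ∈ d, ∃ g ∈ (MulAction.stabilizer M24 d ⊓ MulAction.stabilizer M24 Q),
      ((g : ↥M24) : Equiv.Perm GolayPt) p = q := by
  intro p hp q hq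
  obtain ⟨t, ht, hpt⟩ := quartet_cover hd hQ hp
  obtain ⟨t', ht', hqt⟩ := quartet_cover hd hQ hq
  have two : ∀ t ∈ Q, ∃ u ∈ Q, t ≠ u := by
    intro t _
    obtain ⟨u, hu, h⟩ := Finset.exists_mem_ne (by rw [hQ.1]; norm_num : 1 < Q.card) t
    exact ⟨u, hu, h.symm⟩
  obtain ⟨u, hu, htu⟩ := two t ht
  obtain ⟨u', hu', htu'⟩ := two t' ht'
  obtain ⟨b, c, e⟩ := exists_triple (hQ.2.1 t ht).1 hpt
  obtain ⟨b', c', e'⟩ := exists_triple (hQ.2.1 t' ht').1 hqt
  obtain ⟨g, hg, hgd, h1, h2, h3, _⟩ := exists_pair hd (quartet_pair hQ ht hu htu) (quartet_pair hQ ht' hu' htu') e e'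
  have h4 := quartet_smul_eq hd hQ hQ hg hgd ht hu htu (h1 ▸ ht') (h2 ▸ hu')
  exact ⟨⟨g, hg⟩, Subgroup.mem_inf.mpr ⟨hgd, h4⟩, h3⟩

end Cfsg.Agent.Lib.QuartetStab
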