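import Mathlib
import Cfsg.Prelude.Def_Characters
import Cfsg.Agent.Lib.CharBasic
import Cfsg.Agent.Lib.IndFun
import Cfsg.Agent.Lib.PermInd

set_option autoImplicit false

/-!
# p-quasi-elementary subgroups and Solomon's local theorem (helper15)
-/

namespace Cfsg.Agent.Lib.QuasiElem

open scoped ComplexConjugate
open PermInd

universe u v

variable {G : Type u} [Group G]

/-- `H` has a cyclic normal subgroup of order prime to `p` and `p`-power index. -/
def IsQE (p : ℕ) (H : Subgroup G) : Prop :=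
  ∃ C : Subgroup G, C ≤ H ∧ H ≤ Subgroup.normalizer (C : Set G) ∧ IsCyclic C ∧
    Nat.Coprime (Nat.card C) p ∧ ∃ k : ℕ, C.relIndex H = p ^ k

/-- Elements of order prime to `p` of a quasi-elementary subgroup lie in the cyclic part. -/
theorem mem_of_coprime [Finite G] {p : ℕ} (hp : p.Prime) {C H : Subgroup G}
    (hCH : C ≤ H) (hHN : H ≤ Subgroup.normalizer (C : Set G)) {k : ℕ}
    (hk : C.relIndex H = p ^ k) {y : G} (hy : y ∈ H) (hyp : Nat.Coprime (orderOf y) p) :
    y ∈ C := by
  have hn : (C.subgroupOf H).Normal := by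
    rwa [Subgroup.normal_subgroupOf_iff_le_normalizer hCH]
  have hcard : Nat.card (H ⧸ C.subgroupOf H) = p ^ k := hk
  have h1 : orderOf ((⟨y, hy⟩ : H) : H ⧸ C.subgroupOf H) ∣ p ^ k := by
    rw [← hcard]; exact orderOf_dvd_natCard _
  have h2 : orderOf ((⟨y, hy⟩ : H) : H ⧸ C.subgroupOf H) ∣ orderOf y := by
    have := orderOf_map_dvd (QuotientGroup.mk' (C.subgroupOf H)) (⟨y, hy⟩ : H)
    rwa [Subgroup.orderOf_mk] at this
  have h3 : orderOf ((⟨y, hy⟩ : H) : H ⧸ C.subgroupOf H) = 1 := by
    apply Nat.dvd_one.mp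
    have h4 : Nat.Coprime (orderOf y) (p ^ k) := Nat.Coprime.pow_right k hyp
    rw [← Nat.Coprime.gcd_eq_one h4]
    exact Nat.dvd_gcd h2 h1
  rw [orderOf_eq_one_iff, QuotientGroup.eq_one_iff, Subgroup.mem_subgroupOf] at h3
  exact h3

/-- Subgroups of quasi-elementary groups are quasi-elementary. -/
theorem IsQE.mono [Finite G] {p : ℕ} (hp : p.Prime) {H U : Subgroup G} (hH : IsQE p H)
    (hU : U ≤ H) : IsQE p U := by
  obtain ⟨C, hCH, hHN, hcyc, hcop, k, hk⟩ := hH
  refine ⟨C ⊓ U, inf_le_right, ?_, ?_, ?_, ?_⟩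
  · intro u hu
    rw [Subgroup.mem_normalizer_iff]
    intro c
    have h1 := Subgroup.mem_normalizer_iff.mp (hHN (hU hu)) c
    constructor
    · rintro ⟨hc1, hc2⟩
      exact ⟨h1.mp hc1, U.mul_mem (U.mul_mem hu hc2) (U.inv_mem hu)⟩
    · rintro ⟨hc1, hc2⟩
      refine ⟨h1.mpr hc1, ?_⟩
      have h3 : u⁻¹ * (u * c * u⁻¹) * u ∈ U := U.mul_mem (U.mul_mem (U.inv_mem hu) hc2) hu
      have h4 : u⁻¹ * (u * c * u⁻¹) * u = c := by group
      rwa [h4] at h3
  · exact Subgroup.isCyclic_of_le inf_le_left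
  · exact Nat.Coprime.coprime_dvd_left (Subgroup.card_dvd_of_le inf_le_left) hcop
  · have h1 : (C ⊓ U).relIndex U = C.relIndex U := Subgroup.inf_relIndex_right C U
    rw [h1]
    have h2 : C.relIndex U ∣ C.relIndex H := by
      have hn : (C.subgroupOf H).Normal := by
        rwa [Subgroup.normal_subgroupOf_iff_le_normalizer hCH]
      have h3 := Subgroup.relIndex_dvd_index_of_normal (C.subgroupOf H) (U.subgroupOf H)
      rw [Subgroup.relIndex_subgroupOf hU] at h3
      exact h3
    rw [hk] at h2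
    obtain ⟨j, -, hj⟩ := (Nat.dvd_prime_pow hp).mp h2
    exact ⟨j, hj⟩

/-- For every element `x` there is a quasi-elementary subgroup whose permutation character at
`x` is prime to `p`. -/
theorem exists_qe [Fintype G] (x : G) (p : ℕ) (hp : p.Prime) :
    ∃ H : Subgroup G, IsQE p H ∧ ∃ n : ℕ, indFun H (fun _ => 1) x = (n : ℂ) ∧ ¬ p ∣ n := by
  classical
  haveI : Fact p.Prime := ⟨hp⟩
  have hx0 : orderOf x ≠ 0 := (orderOf_pos x).ne'
  obtain ⟨a, m, hm, hxm⟩ := Nat.exists_eq_pow_mul_and_not_dvd hx0 p hp.ne_one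
  have hcop : Nat.Coprime (p ^ a) m := Nat.Coprime.pow_left a ((Nat.Prime.coprime_iff_not_dvd hp).mpr hm)
  have hppos : 0 < p ^ a := Nat.pow_pos hp.pos
  have hmpos : 0 < m := Nat.pos_of_ne_zero (by rintro rfl; simp at hm)
  have hoC : orderOf (x ^ (p ^ a)) = m := by
    rw [orderOf_pow_of_dvd hppos.ne' (hxm ▸ Dvd.intro _ rfl), hxm]
    exact Nat.mul_div_cancel_left _ hppos
  have hoP : orderOf (x ^ m) = p ^ a := by
    rw [orderOf_pow_of_dvd hmpos.ne' (hxm ▸ Dvd.intro_left _ rfl), hxm]
    exact Nat.mul_div_cancel _ hmpos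
  let C : Subgroup G := Subgroup.zpowers (x ^ (p ^ a))
  have hCcard : Nat.card C = m := by rw [Nat.card_zpowers, hoC]
  let N : Subgroup G := Subgroup.normalizer (C : Set G)
  have hCN : C ≤ N := Subgroup.le_normalizer
  have hxN : x ∈ N := by
    apply Subgroup.centralizer_le_normalizer
    rw [Subgroup.mem_centralizer_iff]
    rintro _ ⟨j, rfl⟩
    exact ((Commute.refl x).pow_left _).zpow_left _
  let C' : Subgroup N := C.subgroupOf N
  haveI hC'n : C'.Normal := by
    rw [Subgroup.normal_subgroupOf_iff_le_normalizer hCN]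
  -- the image of `x` in `N / C'` generates a p-group
  let xq : N ⧸ C' := ((⟨x, hxN⟩ : N) : N ⧸ C')
  have hxq : xq ^ (p ^ a) = 1 := by
    change (((⟨x, hxN⟩ : N) ^ (p ^ a) : N) : N ⧸ C') = 1
    rw [QuotientGroup.eq_one_iff, Subgroup.mem_subgroupOf]
    exact Subgroup.mem_zpowers _
  have hPG : IsPGroup p (Subgroup.zpowers xq) := by
    rw [IsPGroup.iff_card]
    obtain ⟨j, -, hj⟩ := (Nat.dvd_prime_pow hp).mp (orderOf_dvd_of_pow_eq_one hxq)
    exact ⟨j, by rw [Nat.card_zpowers, hj]⟩
  obtain ⟨S, hS⟩ := hPG.exists_le_sylow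
  let H' : Subgroup N := (S : Subgroup (N ⧸ C')).comap (QuotientGroup.mk' C')
  let H : Subgroup G := H'.map N.subtype
  have hC'H' : C' ≤ H' := by
    intro c hc
    rw [Subgroup.mem_comap]
    have : (QuotientGroup.mk' C') c = 1 := (QuotientGroup.eq_one_iff c).mpr hc
    rw [this]; exact S.one_mem
  have hCmap : C'.map N.subtype = C := by
    rw [Subgroup.subgroupOf_map_subtype]; exact inf_eq_left.mpr hCN
  have hCH : C ≤ H := by
    rw [← hCmap]; exact Subgroup.map_mono hC'H'
  have hHN : H ≤ N := by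
    rintro _ ⟨y, -, rfl⟩; exact y.2
  have hrel : C.relIndex H = Nat.card (S : Subgroup (N ⧸ C')) := by
    rw [← hCmap]
    change (C'.map N.subtype).relIndex (H'.map N.subtype) = _
    rw [Subgroup.relIndex_map_map_of_injective _ _ N.subtype_injective]
    have h1 : C' = (⊥ : Subgroup (N ⧸ C')).comap (QuotientGroup.mk' C') := by
      rw [MonoidHom.comap_bot, QuotientGroup.ker_mk']
    conv_lhs => rw [h1]
    rw [Subgroup.relIndex_comap, Subgroup.map_comap_eq_self_of_surjective
      (QuotientGroup.mk'_surjective C'), Subgroup.relIndex_bot_left]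
  obtain ⟨k, hk⟩ := (IsPGroup.iff_card.mp S.2)
  have hrel' : C.relIndex H = p ^ k := by rw [hrel]; exact hk
  have hxH : x ∈ H := by
    refine ⟨⟨x, hxN⟩, ?_, rfl⟩
    change (QuotientGroup.mk' C') ⟨x, hxN⟩ ∈ (S : Subgroup (N ⧸ C'))
    exact hS (Subgroup.mem_zpowers _)
  have hindex : ¬ p ∣ H.relIndex N := by
    have h1 : H.relIndex N = H'.index := by
      have h2 : H.subgroupOf N = H' := by
        change (H'.map N.subtype).subgroupOf N = H'
        exact Subgroup.comap_map_eq_self_of_injective N.subtype_injective _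
      rw [← h2]; rfl
    rw [h1]
    change ¬ p ∣ ((S : Subgroup (N ⧸ C')).comap (QuotientGroup.mk' C')).index
    rw [Subgroup.index_comap_of_surjective _ (QuotientGroup.mk'_surjective C')]
    exact S.not_dvd_index
  refine ⟨H, ⟨C, hCH, hHN, inferInstance, ?_, k, hrel'⟩, _, indFun_one_eq_card_fixedBy H x, ?_⟩
  · rw [hCcard]
    exact ((Nat.Prime.coprime_iff_not_dvd hp).mpr hm).symm
  -- count fixed points
  let P : Subgroup G := Subgroup.zpowers (x ^ m)
  have hP : IsPGroup p P := by
    rw [IsPGroup.iff_card]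
    exact ⟨a, by rw [Nat.card_zpowers, hoP]⟩
  let Y : Type u := {z : G ⧸ H // ∀ c ∈ C, c • z = z}
  have hcommPC : ∀ u ∈ P, ∀ c ∈ C, u * c = c * u := by
    rintro _ ⟨i, rfl⟩ _ ⟨j, rfl⟩
    exact (((Commute.refl x).pow_pow _ _).zpow_zpow _ _)
  let act : MulAction P Y :=
    { smul := fun u z => ⟨(u : G) • z.1, by
        intro c hc
        rw [← mul_smul, ← hcommPC u u.2 c hc, mul_smul, z.2 c hc]⟩
      one_smul := fun z => Subtype.ext (one_smul G z.1)
      mul_smul := fun u v z => Subtype.ext (mul_smul (u : G) (v : G) z.1) }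
  have hcount := IsPGroup.card_modEq_card_fixedPoints (p := p) (G := P) hP Y
  have hfix : Nat.card (MulAction.fixedPoints P Y) = Nat.card (MulAction.fixedBy (G ⧸ H) x) := by
    apply Nat.card_congr
    refine
      { toFun := fun z => ⟨z.1.1, ?_⟩
        invFun := fun z => ⟨⟨z.1, ?_⟩, ?_⟩
        left_inv := fun z => rfl
        right_inv := fun z => rfl }
    · -- `x` is a product of powers
      have h1 : (x ^ m) • z.1.1 = z.1.1 :=
        congrArg Subtype.val (z.2 ⟨x ^ m, Subgroup.mem_zpowers _⟩)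
      have h2 : (x ^ (p ^ a)) • z.1.1 = z.1.1 := z.1.2 _ (Subgroup.mem_zpowers _)
      have h3 : x ^ m ∈ MulAction.stabilizer G z.1.1 := h1
      have h4 : x ^ (p ^ a) ∈ MulAction.stabilizer G z.1.1 := h2
      have h5 : x ∈ MulAction.stabilizer G z.1.1 := by
        have h6 : ((Nat.gcd (p ^ a) m : ℕ) : ℤ) = 1 := by rw [hcop.gcd_eq_one]; rfl
        rw [Nat.gcd_eq_gcd_ab] at h6
        have h7 : x = (x ^ (p ^ a)) ^ (Nat.gcdA (p ^ a) m) * (x ^ m) ^ (Nat.gcdB (p ^ a) m) := by
          rw [← zpow_natCast, ← zpow_natCast, ← zpow_mul, ← zpow_mul, ← zpow_add, h6, zpow_one]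
        rw [h7]
        exact Subgroup.mul_mem _ (Subgroup.zpow_mem _ h4 _) (Subgroup.zpow_mem _ h3 _)
      exact h5
    · have h5 : x ∈ MulAction.stabilizer G z.1 := z.2
      rintro _ ⟨j, rfl⟩
      exact Subgroup.zpow_mem _ (Subgroup.pow_mem _ h5 _) _
    · have h5 : x ∈ MulAction.stabilizer G z.1 := z.2
      rintro ⟨_, ⟨j, rfl⟩⟩
      apply Subtype.ext
      exact Subgroup.zpow_mem _ (Subgroup.pow_mem _ h5 _) _
  have hY : Nat.card Y = H.relIndex N := by
    have hsub : H.relIndex N = Nat.card (N ⧸ H.subgroupOf N) := rfl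
    rw [hsub]
    symm
    let F : (N ⧸ H.subgroupOf N) → Y := Quotient.lift
      (fun n : N => (⟨((n : G) : G ⧸ H), by
        intro c hc
        change ((c * (n : G) : G) : G ⧸ H) = ((n : G) : G ⧸ H)
        rw [QuotientGroup.eq]
        have h1 : (n : G)⁻¹ * c * (n : G) ∈ C := by
          have := Subgroup.mem_normalizer_iff.mp (N.inv_mem n.2) c
          have h2 := this.mp hc
          rwa [inv_inv] at h2
        have h3 : (c * (n : G))⁻¹ * (n : G) = ((n : G)⁻¹ * c * (n : G))⁻¹ := by group
        rw [h3]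
        exact H.inv_mem (hCH h1)⟩ : Y))
      (by
        intro n n' hnn
        apply Subtype.ext
        have h1 : (n⁻¹ * n' : N) ∈ H.subgroupOf N := QuotientGroup.leftRel_apply.mp hnn
        change ((n : G) : G ⧸ H) = ((n' : G) : G ⧸ H)
        rw [QuotientGroup.eq]
        exact h1)
    apply Nat.card_congr
    apply Equiv.ofBijective F
    constructor
    · intro u v
      induction u using QuotientGroup.induction_on with
      | H u =>
        induction v using QuotientGroup.induction_on with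
        | H v =>
          intro huv
          have h1 : ((u : G) : G ⧸ H) = ((v : G) : G ⧸ H) := congrArg Subtype.val huv
          rw [QuotientGroup.eq] at h1 ⊢
          exact h1
    · rintro ⟨z, hz⟩
      induction z using QuotientGroup.induction_on with
      | H y =>
        have h1 : ∀ c ∈ C, y⁻¹ * c * y ∈ C := by
          intro c hc
          have h2 := hz c hc
          have h3 : ((c * y : G) : G ⧸ H) = (y : G ⧸ H) := h2
          rw [QuotientGroup.eq] at h3
          have h4 : y⁻¹ * c * y ∈ H := by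
            have h5 := H.inv_mem h3
            have h6 : ((c * y)⁻¹ * y)⁻¹ = y⁻¹ * c * y := by group
            rwa [h6] at h5
          apply mem_of_coprime hp hCH hHN hrel' h4
          have h7 : orderOf (y⁻¹ * c * y) = orderOf c := by
            have h8 : SemiconjBy y (y⁻¹ * c * y) c := by
              change y * (y⁻¹ * c * y) = c * y
              group
            have h9 := orderOf_injective (MulAut.conj y⁻¹).toMonoidHom
              (MulAut.conj y⁻¹).injective c
            rw [← h9]
            simp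
          rw [h7]
          have h10 : orderOf c ∣ Nat.card C := Subgroup.orderOf_dvd_natCard C hc
          rw [hCcard] at h10
          exact Nat.Coprime.coprime_dvd_left h10 ((Nat.Prime.coprime_iff_not_dvd hp).mpr hm).symm
        have h2 : y⁻¹ ∈ N := by
          have h3 : C.map (MulAut.conj y⁻¹).toMonoidHom = C := by
            apply Subgroup.eq_of_le_of_card_ge
            · rintro _ ⟨c, hc, rfl⟩
              have := h1 c hc
              simpa using this
            · rw [Subgroup.card_map_of_injective (MulAut.conj y⁻¹).injective]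
          rw [Subgroup.mem_normalizer_iff]
          intro c
          rw [inv_inv]
          constructor
          · intro hc; exact h1 c hc
          · intro hc
            have hc' : y⁻¹ * c * y ∈ C.map (MulAut.conj y⁻¹).toMonoidHom := by
              rw [h3]; exact hc
            obtain ⟨d, hd, hdc⟩ := hc'
            have h4 : y⁻¹ * d * y = y⁻¹ * c * y := by simpa using hdc
            have h5 : d = c := by
              have := congrArg (fun t => y * t * y⁻¹) h4
              simpa [mul_assoc] using this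
            rw [← h5]; exact hd
        have h3 : y ∈ N := by
          have := N.inv_mem h2
          rwa [inv_inv] at this
        exact ⟨((⟨y, h3⟩ : N) : N ⧸ H.subgroupOf N), rfl⟩
  rw [hY, hfix] at hcount
  intro hdvd
  apply hindex
  rw [← Nat.modEq_zero_iff_dvd] at *
  exact hcount.trans hdvd

/-- The additive group generated by the permutation characters on quasi-elementary
subgroups. -/
def permRing (G : Type u) [Group G] [Fintype G] (p : ℕ) : AddSubgroup (G → ℂ) :=
  AddSubgroup.closure {f | ∃ H : Subgroup G, IsQE p H ∧ f = indFun H (fun _ => 1)}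

theorem mem_permRing [Fintype G] {p : ℕ} {f : G → ℂ} (hf : f ∈ permRing G p) :
    ∃ a : Subgroup G → ℤ, (∀ H, a H ≠ 0 → IsQE p H) ∧
      f = ∑ H : Subgroup G, (a H : ℂ) • indFun H (fun _ => 1) := by
  classical
  unfold permRing at hf
  induction hf using AddSubgroup.closure_induction with
  | mem f hf =>
    obtain ⟨H, hH, rfl⟩ := hf
    refine ⟨Pi.single H 1, ?_, ?_⟩
    · intro K hK
      by_cases h : K = H
      · rw [h]; exact hH
      · rw [Pi.single_eq_of_ne h] at hK
        exact absurd rfl hK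
    · rw [Finset.sum_eq_single H]
      · simp
      · intro K _ hK
        rw [Pi.single_eq_of_ne hK]
        simp
      · intro h; exact absurd (Finset.mem_univ _) h
  | zero => exact ⟨0, by simp, by simp⟩
  | add f g _ _ hf hg =>
    obtain ⟨a, ha, rfl⟩ := hf
    obtain ⟨b, hb, rfl⟩ := hg
    refine ⟨a + b, ?_, ?_⟩
    · intro H hH
      by_cases h : a H = 0
      · apply hb
        intro h'
        apply hH
        simp [h, h']
      · exact ha H h
    · rw [← Finset.sum_add_distrib]
      apply Finset.sum_congr rfl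
      intro H _
      rw [Pi.add_apply, ← add_smul]
      push_cast
      rfl
  | neg f _ hf =>
    obtain ⟨a, ha, rfl⟩ := hf
    refine ⟨-a, fun H hH => ha H (fun h => hH (by simp [h])), ?_⟩
    rw [← Finset.sum_neg_distrib]
    apply Finset.sum_congr rfl
    intro H _
    simp

theorem indFun_mul_mem_permRing [Fintype G] {p : ℕ} (hp : p.Prime) {H : Subgroup G}
    (hH : IsQE p H) (K : Subgroup G) :
    indFun H (fun _ => 1) * indFun K (fun _ => 1) ∈ permRing G p := by
  obtain ⟨a, ha, h⟩ := indFun_one_mul_indFun_one H K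
  rw [h]
  apply AddSubgroup.sum_mem
  intro U _
  rw [Nat.cast_smul_eq_nsmul]
  by_cases hU : a U = 0
  · rw [hU, zero_smul]; exact AddSubgroup.zero_mem _
  · apply AddSubgroup.nsmul_mem
    exact AddSubgroup.subset_closure ⟨U, hH.mono hp (ha U hU), rfl⟩

theorem mul_mem_permRing [Fintype G] {p : ℕ} (hp : p.Prime) {f g : G → ℂ}
    (hf : f ∈ permRing G p) (hg : g ∈ permRing G p) : f * g ∈ permRing G p := by
  unfold permRing at hf
  induction hf using AddSubgroup.closure_induction with
  | mem f hf =>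
    obtain ⟨H, hH, rfl⟩ := hf
    unfold permRing at hg
    induction hg using AddSubgroup.closure_induction with
    | mem g hg =>
      obtain ⟨K, hK, rfl⟩ := hg
      exact indFun_mul_mem_permRing hp hH K
    | zero => rw [mul_zero]; exact AddSubgroup.zero_mem _
    | add g g' _ _ hg hg' => rw [mul_add]; exact AddSubgroup.add_mem _ hg hg'
    | neg g _ hg => rw [mul_neg]; exact AddSubgroup.neg_mem _ hg
  | zero => rw [zero_mul]; exact AddSubgroup.zero_mem _
  | add f f' _ _ hf hf' => rw [add_mul]; exact AddSubgroup.add_mem _ hf hf'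
  | neg f _ hf => rw [neg_mul]; exact AddSubgroup.neg_mem _ hf

theorem exists_const_mem_permRing (G : Type u) [Group G] [Fintype G] {p : ℕ} (hp : p.Prime) :
    ∃ m : ℤ, ¬ (p : ℤ) ∣ m ∧ (fun _ : G => (m : ℂ)) ∈ permRing G p := by
  classical
  have h1 : ∀ x : G, ∃ n : ℕ, ¬ p ∣ n ∧ ∃ f ∈ permRing G p, f x = (n : ℂ) := by
    intro x
    obtain ⟨H, hH, n, hn, hpn⟩ := exists_qe x p hp
    exact ⟨n, hpn, _, AddSubgroup.subset_closure ⟨H, hH, rfl⟩, hn⟩
  choose n hn f hf hfn using h1
  have h2 : ∀ s : Finset G, ∃ g ∈ permRing G p,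
      ∏ x ∈ s, ((n x • (1 : G → ℂ)) - f x) = (∏ x ∈ s, n x) • (1 : G → ℂ) - g := by
    intro s
    induction s using Finset.induction_on with
    | empty => exact ⟨0, AddSubgroup.zero_mem _, by simp⟩
    | insert a s ha ih =>
      obtain ⟨g, hg, hgs⟩ := ih
      refine ⟨(∏ x ∈ s, n x) • f a + n a • g - f a * g,
        AddSubgroup.sub_mem _ (AddSubgroup.add_mem _ (AddSubgroup.nsmul_mem _ (hf a) _)
          (AddSubgroup.nsmul_mem _ hg _)) (mul_mem_permRing hp (hf a) hg), ?_⟩
      rw [Finset.prod_insert ha, hgs, Finset.prod_insert ha]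
      simp only [nsmul_eq_mul, mul_one]
      push_cast
      ring
  obtain ⟨g, hg, hgs⟩ := h2 Finset.univ
  have h3 : ∏ x : G, ((n x • (1 : G → ℂ)) - f x) = 0 := by
    ext y
    rw [Finset.prod_apply, Pi.zero_apply]
    apply Finset.prod_eq_zero (Finset.mem_univ y)
    simp [hfn y]
  rw [h3] at hgs
  refine ⟨((∏ x : G, n x : ℕ) : ℤ), ?_, ?_⟩
  · rw [Int.natCast_dvd_natCast, hp.prime.dvd_finset_prod_iff]
    rintro ⟨x, -, hx⟩
    exact hn x hx
  · have h4 : (fun _ : G => (((∏ x : G, n x : ℕ) : ℤ) : ℂ)) = g := by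
      have h5 : g = (∏ x : G, n x) • (1 : G → ℂ) := by
        rw [eq_comm, ← sub_eq_zero]; exact hgs.symm
      rw [h5]
      ext y
      simp
    rw [h4]; exact hg

/-- Solomon's local theorem. -/
theorem solomon_local [Fintype G] (p : ℕ) (hp : p.Prime) :
    ∃ (m : ℤ) (a : Subgroup G → ℤ), ¬ (p : ℤ) ∣ m ∧ (∀ H, a H ≠ 0 → IsQE p H) ∧
      (fun _ : G => (m : ℂ)) = ∑ H : Subgroup G, (a H : ℂ) • indFun H (fun _ => 1) := by
  obtain ⟨m, hm, h⟩ := exists_const_mem_permRing G hp
  obtain ⟨a, ha, h'⟩ := mem_permRing h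
  exact ⟨m, a, hm, ha, h'⟩

end Cfsg.Agent.Lib.QuasiElem
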