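import Mathlib.GroupTheory.SpecificGroups.Quaternion
import Mathlib.NumberTheory.SumTwoSquares
import Mathlib.NumberTheory.LSeries.PrimesInAP
import Mathlib.GroupTheory.FixedPointFree
import Mathlib.Algebra.Module.ZMod

/-!
# Quaternion actions on abelian groups of odd order
-/

set_option autoImplicit false

namespace Cfsg.Agent.Lib.QuatSquare

/-- `-1` is a sum of two squares modulo every odd number. -/
theorem exists_sq_add_sq {n : ℕ} (hn : Odd n) : ∃ a b : ℕ, n ∣ a ^ 2 + b ^ 2 + 1 := by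
  have hn0 : 0 < n := hn.pos
  have hcop : Nat.Coprime 4 n := by
    have : Nat.Coprime 2 n := (Nat.coprime_two_left).2 hn
    exact Nat.Coprime.mul_left this this
  obtain ⟨k, hk4, hkn⟩ := Nat.chineseRemainder hcop 1 (n - 1)
  have : NeZero (4 * n) := ⟨by omega⟩
  have hkc : Nat.Coprime k (4 * n) := by
    apply Nat.Coprime.mul_right
    · have := Nat.ModEq.gcd_eq hk4
      rw [Nat.Coprime, this]; norm_num
    · have := Nat.ModEq.gcd_eq hkn
      rw [Nat.Coprime, this]
      have h1 : Nat.Coprime (n - 1) (n - 1 + 1) := by simp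
      rwa [Nat.sub_add_cancel hn0] at h1
  have hu : IsUnit ((k : ℕ) : ZMod (4 * n)) := (ZMod.isUnit_iff_coprime k (4 * n)).2 hkc
  obtain ⟨p, -, hp, hpk⟩ := Nat.forall_exists_prime_gt_and_eq_mod hu 0
  have hmod : p ≡ k [MOD 4 * n] := (ZMod.natCast_eq_natCast_iff _ _ _).1 hpk
  have h4 : p ≡ 1 [MOD 4] := (Nat.ModEq.of_mul_right n hmod).trans hk4
  have hpn : p ≡ n - 1 [MOD n] := (Nat.ModEq.of_mul_left 4 hmod).trans hkn
  have := Fact.mk hp
  obtain ⟨a, b, hab⟩ := Nat.Prime.sq_add_sq (p := p) (by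
    have : p % 4 = 1 := h4
    omega)
  refine ⟨a, b, ?_⟩
  rw [hab]
  have h5 : p + 1 ≡ n - 1 + 1 [MOD n] := hpn.add_right 1
  rw [Nat.sub_add_cancel hn0] at h5
  have h6 : p + 1 ≡ 0 [MOD n] := h5.trans (by simp [Nat.ModEq])
  exact (Nat.modEq_zero_iff_dvd).1 h6

theorem ring_ident {R : Type*} [Ring R] (i j : R) (hi : i * i = -1) (hj : j * j = -1)
    (hij : i * j = -(j * i)) (a b : ℕ) (hab : ((a ^ 2 + b ^ 2 + 1 : ℕ) : R) = 0) :
    (a * i + b * j) * (a * i + b * j) = 1 ∧ (i * j) * (i * j) = -1 ∧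
      (i * j) * (a * i + b * j) = -((a * i + b * j) * (i * j)) := by
  have hac : ∀ y : R, y * (a : R) = (a : R) * y := fun y => (Nat.cast_commute a y).eq.symm
  have hbc : ∀ y : R, y * (b : R) = (b : R) * y := fun y => (Nat.cast_commute b y).eq.symm
  have hji : j * i = - (i * j) := by rw [hij, neg_neg]
  have hki : (i * j) * i = -(i * (i * j)) := by
    rw [mul_assoc, hji, mul_neg]
  have hkj : (i * j) * j = -(j * (i * j)) := by
    rw [← mul_assoc j, hji, neg_mul, neg_neg]
  refine ⟨?_, ?_, ?_⟩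
  · have e1 : (a : R) * i * (a * i) = -(a * a) := by
      rw [mul_assoc, ← mul_assoc i, hac i, mul_assoc (a : R) i i, hi]
      noncomm_ring
    have e2 : (b : R) * j * (b * j) = -(b * b) := by
      rw [mul_assoc, ← mul_assoc j, hbc j, mul_assoc (b : R) j j, hj]
      noncomm_ring
    have e3 : (a : R) * i * (b * j) = -((b : R) * j * (a * i)) := by
      rw [mul_assoc, ← mul_assoc i, hbc i, mul_assoc (b : R) i j, hij,
        mul_assoc (b : R) j, ← mul_assoc j, hac j, mul_assoc (a : R) j i,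
        ← mul_assoc (a : R), ← mul_assoc (b : R), hbc (a : R)]
      noncomm_ring
    rw [add_mul, mul_add, mul_add, e1, e2, e3]
    push_cast at hab
    rw [← sub_eq_zero, ← neg_eq_zero, ← hab]
    noncomm_ring
  · calc i * j * (i * j) = i * (j * i) * j := by simp only [mul_assoc]
      _ = -((i * i) * (j * j)) := by rw [hji]; noncomm_ring
      _ = -1 := by rw [hi, hj]; simp
  · rw [mul_add, add_mul, ← mul_assoc (i * j), ← mul_assoc (i * j), hac, hbc, mul_assoc (a : R) (i * j),
      mul_assoc (b : R) (i * j), hki, hkj]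
    simp only [mul_neg, mul_assoc, neg_add]

/-- An abelian group of odd order with a quaternion action has square order. -/
theorem isSquare_card {M : Type*} [AddCommGroup M] [Finite M] (hodd : Odd (Nat.card M))
    (i j : AddMonoid.End M) (hi : i * i = -1) (hj : j * j = -1) (hij : i * j = -(j * i)) :
    IsSquare (Nat.card M) := by
  have hnM : ∀ x : M, Nat.card M • x = 0 := fun x => card_nsmul_eq_zero'
  obtain ⟨a, b, hab⟩ := exists_sq_add_sq hodd
  obtain ⟨c, hc⟩ := hab
  have hn0 : ((a ^ 2 + b ^ 2 + 1 : ℕ) : AddMonoid.End M) = 0 := by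
    refine AddMonoidHom.ext fun x => ?_
    have : ((a ^ 2 + b ^ 2 + 1 : ℕ) : AddMonoid.End M) x = (a ^ 2 + b ^ 2 + 1) • x :=
      AddMonoid.End.natCast_apply _ _
    refine this.trans ?_
    rw [hc, mul_comm, mul_nsmul', hnM, nsmul_zero]; rfl
  obtain ⟨hee, hkk, hke⟩ := ring_ident i j hi hj hij a b hn0
  generalize (a : AddMonoid.End M) * i + (b : AddMonoid.End M) * j = e at hee hke
  generalize i * j = k at hkk hke
  -- eigenspaces
  let P : AddSubgroup M := AddMonoidHom.ker (G := M) (M := M) (e - 1 : AddMonoid.End M)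
  let Q : AddSubgroup M := AddMonoidHom.ker (G := M) (M := M) (e + 1 : AddMonoid.End M)
  have hP : ∀ x, x ∈ P ↔ e x = x := by
    intro x
    change e x - x = 0 ↔ _
    exact sub_eq_zero
  have hQ : ∀ x, x ∈ Q ↔ e x = -x := by
    intro x
    change e x + x = 0 ↔ _
    exact add_eq_zero_iff_eq_neg
  have hee' : ∀ x, e (e x) = x := fun x => by
    have := congrArg (fun f : AddMonoid.End M => f x) hee
    exact this
  have hkk' : ∀ x, k (k x) = -x := fun x => by
    have := congrArg (fun f : AddMonoid.End M => f x) hkk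
    exact this
  have hke' : ∀ x, k (e x) = - e (k x) := fun x => by
    have := congrArg (fun f : AddMonoid.End M => f x) hke
    exact this
  obtain ⟨m, hm⟩ := hodd
  have htwo : ∀ x : M, x + x = 0 → x = 0 := by
    intro x hx
    have h1 : Nat.card M • x = x := by
      rw [hm, add_nsmul, mul_comm, mul_nsmul, two_nsmul, ← nsmul_add, hx, nsmul_zero, zero_add, one_nsmul]
    rw [← h1, hnM]
  have hcard1 : Nat.card (P × Q) = Nat.card M := by
    apply Nat.card_congr
    refine Equiv.ofBijective (fun z : P × Q => (z.1 : M) + z.2) ⟨?_, ?_⟩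
    · rintro ⟨x, y⟩ ⟨x', y'⟩ h
      have h : (x : M) + y = x' + y' := h
      have h1 : ((x - x' : P) : M) = ((y' - y : Q) : M) := by
        push_cast
        rw [sub_eq_sub_iff_add_eq_add, h, add_comm]
      have h2 := (hP _).1 (x - x').2
      have h3 := (hQ _).1 (y' - y).2
      rw [h1, h3] at h2
      have h4 : ((y' - y : Q) : M) = 0 := by
        apply htwo
        nth_rewrite 1 [← h2]
        exact neg_add_cancel _
      have h5 : ((x - x' : P) : M) = 0 := h1.trans h4
      have h6 : x = x' := sub_eq_zero.1 (Subtype.ext h5)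
      have h7 : y' = y := sub_eq_zero.1 (Subtype.ext h4)
      rw [h6, h7]
    · intro z
      refine ⟨⟨⟨(m + 1) • (z + e z), ?_⟩, ⟨(m + 1) • (z - e z), ?_⟩⟩, ?_⟩
      · rw [hP, map_nsmul, map_add, hee', add_comm (e z)]
      · rw [hQ, map_nsmul, map_sub, hee', ← smul_neg, neg_sub]
      · change (m + 1) • (z + e z) + (m + 1) • (z - e z) = z
        rw [← nsmul_add, add_add_sub_cancel, ← two_nsmul, ← mul_nsmul']
        have : (m + 1) * 2 = Nat.card M + 1 := by omega
        rw [this, add_nsmul, hnM, one_nsmul, zero_add]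
  have hcard2 : Nat.card P = Nat.card Q := by
    apply Nat.card_congr
    refine
      { toFun := fun x => ⟨k x, ?_⟩
        invFun := fun y => ⟨-(k y), ?_⟩
        left_inv := ?_
        right_inv := ?_ }
    · rw [hQ]
      have := hke' (x : M)
      rw [(hP _).1 x.2] at this
      rw [eq_comm, neg_eq_iff_eq_neg]; exact this
    · rw [hP, map_neg]
      have := hke' (y : M)
      rw [(hQ _).1 y.2, map_neg] at this
      rw [← this]
    · intro x
      apply Subtype.ext
      change -(k (k x)) = (x : M)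
      rw [hkk', neg_neg]
    · intro y
      apply Subtype.ext
      change k (-(k y)) = (y : M)
      rw [map_neg, hkk', neg_neg]
  rw [← hcard1, Nat.card_prod, hcard2]
  exact ⟨_, rfl⟩

/-- Standard generators of a quaternion subgroup of order 8 in a generalized quaternion group. -/
theorem exists_quat (n : ℕ) (hn : 1 ≤ n) :
    ∃ i j : QuaternionGroup (2 ^ n), i * i = j * j ∧ i * i ≠ 1 ∧ (i * i) * (i * i) = 1 ∧ i * j = j * i⁻¹ := by
  obtain ⟨m, rfl⟩ : ∃ m, n = m + 1 := ⟨n - 1, by omega⟩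
  have h2 : (2 : ℕ) ^ (m + 1) < 2 * 2 ^ (m + 1) := by
    have : 0 < 2 ^ (m + 1) := by positivity
    omega
  have hne : ((2 ^ (m + 1) : ℕ) : ZMod (2 * 2 ^ (m + 1))) ≠ 0 := by
    intro h
    rw [ZMod.natCast_eq_zero_iff] at h
    exact absurd (Nat.le_of_dvd (by positivity) h) (by omega)
  have hz : ((2 ^ (m + 1) : ℕ) : ZMod (2 * 2 ^ (m + 1))) + ((2 ^ (m + 1) : ℕ) : ZMod (2 * 2 ^ (m + 1))) = 0 := by
    rw [← Nat.cast_add, ← two_mul, ZMod.natCast_self]
  have hii : (QuaternionGroup.a ((2 ^ m : ℕ) : ZMod (2 * 2 ^ (m + 1))) : QuaternionGroup (2 ^ (m + 1)))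
      * QuaternionGroup.a ((2 ^ m : ℕ) : ZMod (2 * 2 ^ (m + 1)))
      = QuaternionGroup.a ((2 ^ (m + 1) : ℕ) : ZMod (2 * 2 ^ (m + 1))) := by
    rw [QuaternionGroup.a_mul_a, ← Nat.cast_add]
    congr 2
    ring
  refine ⟨QuaternionGroup.a ((2 ^ m : ℕ) : ZMod (2 * 2 ^ (m + 1))), QuaternionGroup.xa 0, ?_, ?_, ?_, ?_⟩
  · rw [hii, QuaternionGroup.xa_mul_xa]
    congr 1
    simp
  · rw [hii, ← QuaternionGroup.a_zero]
    intro h
    exact hne (QuaternionGroup.a.inj h)
  · rw [hii, QuaternionGroup.a_mul_a, hz]; rfl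
  · rw [eq_mul_inv_iff_mul_eq]
    rw [QuaternionGroup.a_mul_xa, QuaternionGroup.xa_mul_a]
    congr 1
    ring

end Cfsg.Agent.Lib.QuatSquare
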