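import Mathlib
import Cfsg.Prelude.Def_LieRecognition

/-!
Canonical form in the rank-one set-up.
-/

set_option autoImplicit false

namespace Cfsg.Agent.Lib.RankOneH20

variable {G Ω : Type*} [Group G] [MulAction G Ω] {a : Ω} {t : G} {Q : Subgroup G}

theorem t_inv (hS : Cfsg.IsRankOneSetup G Ω a t Q) : t⁻¹ = t :=
  inv_eq_of_mul_eq_one_left hS.mul_self

theorem conj_t_mem (hS : Cfsg.IsRankOneSetup G Ω a t Q) {h : G}
    (hh : h ∈ (MulAction.stabilizer G a ⊓ MulAction.stabilizer G (t • a))) :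
    t * h * t ∈ (MulAction.stabilizer G a ⊓ MulAction.stabilizer G (t • a)) := by
  obtain ⟨h1, h2⟩ := hh
  have h1' : h • a = a := h1
  have h2' : h • (t • a) = t • a := h2
  have htt : t • t • a = a := by rw [← mul_smul, hS.mul_self, one_smul]
  refine ⟨?_, ?_⟩
  · show (t * h * t) • a = a
    rw [mul_smul, mul_smul, h2', htt]
  · show (t * h * t) • (t • a) = t • a
    rw [mul_smul, mul_smul, htt, h1']

theorem eq_one_of_mem (hS : Cfsg.IsRankOneSetup G Ω a t Q) {q : G} (hq : q ∈ Q)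
    (h : q • (t • a) = t • a) : q = 1 := by
  have : q ∈ Q ⊓ MulAction.stabilizer G (t • a) := ⟨hq, h⟩
  rw [hS.inf_eq_bot] at this
  simpa using this

theorem canon (hS : Cfsg.IsRankOneSetup G Ω a t Q) {g h f g' h' f' : G} (hg : g ∈ Q)
    (hh : h ∈ (MulAction.stabilizer G a ⊓ MulAction.stabilizer G (t • a))) (hf : f ∈ Q)
    (hg' : g' ∈ Q) (hh' : h' ∈ (MulAction.stabilizer G a ⊓ MulAction.stabilizer G (t • a)))
    (hf' : f' ∈ Q) (e : g * h * t * f = g' * h' * t * f') : g = g' ∧ h = h' ∧ f = f' := by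
  have hti := t_inv hS
  have e1 : (g' * h')⁻¹ * (g * h) = t * (f' * f⁻¹) * t := by
    calc (g' * h')⁻¹ * (g * h) = (g' * h')⁻¹ * (g * h * t * f) * f⁻¹ * t⁻¹ := by group
      _ = (g' * h')⁻¹ * (g' * h' * t * f') * f⁻¹ * t⁻¹ := by rw [e]
      _ = t * (f' * f⁻¹) * t⁻¹ := by group
      _ = t * (f' * f⁻¹) * t := by rw [hti]
  have m1 : (g' * h')⁻¹ * (g * h) ∈ MulAction.stabilizer G a :=
    mul_mem (inv_mem (mul_mem (hS.le hg') hh'.1)) (mul_mem (hS.le hg) hh.1)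
  rw [e1] at m1
  have m2 : (t * (f' * f⁻¹) * t) • a = a := m1
  have m3 : (f' * f⁻¹) • (t • a) = t • a := by
    have : t • (t * (f' * f⁻¹) * t) • a = t • a := by rw [m2]
    rw [← mul_smul] at this
    have e2 : t * (t * (f' * f⁻¹) * t) = (f' * f⁻¹) * t := by
      calc t * (t * (f' * f⁻¹) * t) = (t * t) * (f' * f⁻¹) * t := by group
        _ = (f' * f⁻¹) * t := by rw [hS.mul_self, one_mul]
    rw [e2, mul_smul] at this
    exact this
  have m4 := eq_one_of_mem hS (mul_mem hf' (inv_mem hf)) m3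
  have hff : f = f' := by
    have := mul_inv_eq_one.1 m4
    exact this.symm
  subst hff
  have e3 : g * h = g' * h' := mul_right_cancel (mul_right_cancel e)
  have e4 : g'⁻¹ * g = h' * h⁻¹ := by
    calc g'⁻¹ * g = g'⁻¹ * (g * h) * h⁻¹ := by group
      _ = g'⁻¹ * (g' * h') * h⁻¹ := by rw [e3]
      _ = h' * h⁻¹ := by group
  have m5 : (g'⁻¹ * g) • (t • a) = t • a := by
    rw [e4]
    exact (mul_mem hh' (inv_mem hh)).2
  have m6 := eq_one_of_mem hS (mul_mem (inv_mem hg') hg) m5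
  have hgg : g = g' := by
    have := inv_mul_eq_one.1 m6
    exact this.symm
  subst hgg
  exact ⟨rfl, mul_left_cancel e3, rfl⟩

theorem conj_Q (hS : Cfsg.IsRankOneSetup G Ω a t Q) {h q : G}
    (hh : h ∈ (MulAction.stabilizer G a ⊓ MulAction.stabilizer G (t • a))) (hq : q ∈ Q) :
    h * q * h⁻¹ ∈ Q := hS.conj_mem h hh.1 q hq

theorem conj_Q' (hS : Cfsg.IsRankOneSetup G Ω a t Q) {h q : G}
    (hh : h ∈ (MulAction.stabilizer G a ⊓ MulAction.stabilizer G (t • a))) (hq : q ∈ Q) :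
    h⁻¹ * q * h ∈ Q := by
  have := hS.conj_mem h⁻¹ (inv_mem hh).1 q hq
  simpa using this

/-- S1165 -/
theorem functions (hS : Cfsg.IsRankOneSetup G Ω a t Q)
    (x g h f : G) (hx : x ∈ Q) (hg : g ∈ Q) (hh : h ∈ (MulAction.stabilizer G a ⊓ MulAction.stabilizer G (t • a))) (hf : f ∈ Q)
    (heq : t * x * t = g * h * t * f) :
    (∀ g₁ h₁ f₁ : G, g₁ ∈ Q → h₁ ∈ (MulAction.stabilizer G a ⊓ MulAction.stabilizer G (t • a)) → f₁ ∈ Q → t * x⁻¹ * t = g₁ * h₁ * t * f₁ →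
        f₁ = g⁻¹ ∧ h₁ = t * h⁻¹ * t) ∧
      (∀ g₂ h₂ f₂ : G, g₂ ∈ Q → h₂ ∈ (MulAction.stabilizer G a ⊓ MulAction.stabilizer G (t • a)) → f₂ ∈ Q → t * f * t = g₂ * h₂ * t * f₂ →
        f₂ = x ∧ h₂ = h⁻¹) ∧
      ∀ c ∈ (MulAction.stabilizer G a ⊓ MulAction.stabilizer G (t • a)), ∀ g₃ h₃ f₃ : G, g₃ ∈ Q → h₃ ∈ (MulAction.stabilizer G a ⊓ MulAction.stabilizer G (t • a)) → f₃ ∈ Q →
        t * (c⁻¹ * x * c) * t = g₃ * h₃ * t * f₃ →
          f₃ = (t * c * t)⁻¹ * f * (t * c * t) ∧ h₃ = (t * c * t)⁻¹ * h * c := by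
  have hti := t_inv hS
  have htt := hS.mul_self
  refine ⟨?_, ?_, ?_⟩
  · intro g₁ h₁ f₁ hg₁ hh₁ hf₁ e₁
    have e : g₁ * h₁ * t * f₁ = f⁻¹ * (t * h⁻¹ * t) * t * g⁻¹ := by
      rw [← e₁]
      calc t * x⁻¹ * t = (t⁻¹ * x * t⁻¹)⁻¹ := by group
        _ = (t * x * t)⁻¹ := by rw [hti]
        _ = (g * h * t * f)⁻¹ := by rw [heq]
        _ = f⁻¹ * (t⁻¹ * h⁻¹) * g⁻¹ := by group
        _ = f⁻¹ * (t * h⁻¹) * g⁻¹ := by rw [hti]
        _ = f⁻¹ * (t * h⁻¹ * (t * t)) * g⁻¹ := by rw [htt, mul_one]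
        _ = f⁻¹ * (t * h⁻¹ * t) * t * g⁻¹ := by group
    obtain ⟨-, h2, h3⟩ := canon hS hg₁ hh₁ hf₁ (inv_mem hf) (conj_t_mem hS (inv_mem hh)) (inv_mem hg) e
    exact ⟨h3, h2⟩
  · intro g₂ h₂ f₂ hg₂ hh₂ hf₂ e₂
    have e : g₂ * h₂ * t * f₂ = (h⁻¹ * g⁻¹ * h) * h⁻¹ * t * x := by
      rw [← e₂]
      calc t * f * t = h⁻¹ * g⁻¹ * (g * h * t * f) * t := by group
        _ = h⁻¹ * g⁻¹ * (t * x * t) * t := by rw [heq]
        _ = h⁻¹ * g⁻¹ * t * x * (t * t) := by group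
        _ = h⁻¹ * g⁻¹ * t * x := by rw [htt, mul_one]
        _ = (h⁻¹ * g⁻¹ * h) * h⁻¹ * t * x := by group
    obtain ⟨-, h2, h3⟩ := canon hS hg₂ hh₂ hf₂ (conj_Q' hS hh (inv_mem hg)) (inv_mem hh) hx e
    exact ⟨h3, h2⟩
  · intro c hc g₃ h₃ f₃ hg₃ hh₃ hf₃ e₃
    have hc' := conj_t_mem hS hc
    have e : g₃ * h₃ * t * f₃ = ((t * c * t)⁻¹ * g * (t * c * t)) * ((t * c * t)⁻¹ * h * c) * t *
        ((t * c * t)⁻¹ * f * (t * c * t)) := by
      rw [← e₃]
      have e4 : (t * c * t)⁻¹ = t * c⁻¹ * t := by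
        calc (t * c * t)⁻¹ = t⁻¹ * c⁻¹ * t⁻¹ := by group
          _ = t * c⁻¹ * t := by rw [hti]
      have e5 : ((t * c * t)⁻¹ * g * (t * c * t)) * ((t * c * t)⁻¹ * h * c) * t *
        ((t * c * t)⁻¹ * f * (t * c * t)) = (t * c * t)⁻¹ * g * h * (c * t * (t * c * t)⁻¹) * f * (t * c * t) := by
        group
      rw [e5]
      have e6 : c * t * (t * c * t)⁻¹ = t := by
        rw [e4]
        calc c * t * (t * c⁻¹ * t) = c * (t * t) * c⁻¹ * t := by group
          _ = t := by rw [htt]; group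
      rw [e6]
      calc t * (c⁻¹ * x * c) * t = (t * c⁻¹ * t) * (t * x * t) * (t * c * t) := by
            have : (t * c⁻¹ * t) * (t * x * t) * (t * c * t) = t * c⁻¹ * (t * t) * x * (t * t) * c * t := by group
            rw [this, htt]; group
        _ = (t * c⁻¹ * t) * (g * h * t * f) * (t * c * t) := by rw [heq]
        _ = (t * c * t)⁻¹ * g * h * t * f * (t * c * t) := by rw [e4]; group
    obtain ⟨-, h2, h3⟩ := canon hS hg₃ hh₃ hf₃ (conj_Q' hS hc' hg)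
      (mul_mem (mul_mem (inv_mem hc') hh) hc) (conj_Q' hS hc' hf) e
    exact ⟨h3, h2⟩

/-- S1166 -/
theorem product_rule (hS : Cfsg.IsRankOneSetup G Ω a t Q)
    (x y gx hx fx gy hy fy : G) (hxQ : x ∈ Q) (hyQ : y ∈ Q) (hxy : x * y ≠ 1)
    (hgx : gx ∈ Q) (hhx : hx ∈ (MulAction.stabilizer G a ⊓ MulAction.stabilizer G (t • a))) (ex : t * x * t = gx * hx * t * fx)
    (hhy : hy ∈ (MulAction.stabilizer G a ⊓ MulAction.stabilizer G (t • a))) (hfy : fy ∈ Q) (ey : t * y * t = gy * hy * t * fy) :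
    fx * gy ≠ 1 ∧
      ∀ gz hz fz g' h' f' : G, gz ∈ Q → hz ∈ (MulAction.stabilizer G a ⊓ MulAction.stabilizer G (t • a)) → fz ∈ Q → t * (fx * gy) * t = gz * hz * t * fz →
        g' ∈ Q → h' ∈ (MulAction.stabilizer G a ⊓ MulAction.stabilizer G (t • a)) → f' ∈ Q → t * (x * y) * t = g' * h' * t * f' →
          f' = (t * hy * t)⁻¹ * fz * (t * hy * t) * fy ∧ h' = hx * hz * hy := by
  have hti := t_inv hS
  have htt := hS.mul_self
  have hprod : t * (x * y) * t = gx * hx * (t * (fx * gy) * t) * (t * hy * t) * fy := by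
    calc t * (x * y) * t = t * x * (t * t) * y * t := by rw [htt]; group
      _ = (t * x * t) * (t * y * t) := by group
      _ = (gx * hx * t * fx) * (gy * hy * t * fy) := by rw [ex, ey]
      _ = gx * hx * t * (fx * gy) * (1 * hy * t) * fy := by group
      _ = gx * hx * t * (fx * gy) * ((t * t) * hy * t) * fy := by rw [htt]
      _ = gx * hx * (t * (fx * gy) * t) * (t * hy * t) * fy := by group
  refine ⟨?_, ?_⟩
  · intro h1
    rw [h1, mul_one, htt] at hprod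
    have hmem : t * (x * y) * t ∈ MulAction.stabilizer G a := by
      rw [hprod, mul_one]
      exact mul_mem (mul_mem (mul_mem (hS.le hgx) hhx.1) (conj_t_mem hS hhy).1) (hS.le hfy)
    have h2 : (t * (x * y) * t) • a = a := hmem
    have h3 : (x * y) • (t • a) = t • a := by
      have : t • (t * (x * y) * t) • a = t • a := by rw [h2]
      rw [← mul_smul] at this
      have e2 : t * (t * (x * y) * t) = (x * y) * t := by
        calc t * (t * (x * y) * t) = (t * t) * (x * y) * t := by group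
          _ = (x * y) * t := by rw [htt, one_mul]
      rw [e2, mul_smul] at this
      exact this
    exact hxy (eq_one_of_mem hS (mul_mem hxQ hyQ) h3)
  · intro gz hz fz g' h' f' hgz hhz hfz ez hg' hh' hf' e'
    have hc := conj_t_mem hS hhy
    have e : g' * h' * t * f' = (gx * (hx * gz * hx⁻¹)) * (hx * hz * hy) * t *
        ((t * hy * t)⁻¹ * fz * (t * hy * t) * fy) := by
      rw [← e', hprod, ez]
      have e4 : (t * hy * t)⁻¹ = t * hy⁻¹ * t := by
        calc (t * hy * t)⁻¹ = t⁻¹ * hy⁻¹ * t⁻¹ := by group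
          _ = t * hy⁻¹ * t := by rw [hti]
      have e5 : hy * t * (t * hy * t)⁻¹ = t := by
        rw [e4]
        calc hy * t * (t * hy⁻¹ * t) = hy * (t * t) * hy⁻¹ * t := by group
          _ = t := by rw [htt]; group
      calc gx * hx * (gz * hz * t * fz) * (t * hy * t) * fy
          = gx * hx * (gz * hz * (hy * t * (t * hy * t)⁻¹) * fz) * (t * hy * t) * fy := by rw [e5]
        _ = (gx * (hx * gz * hx⁻¹)) * (hx * hz * hy) * t *
        ((t * hy * t)⁻¹ * fz * (t * hy * t) * fy) := by group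
    obtain ⟨-, h2, h3⟩ := canon hS hg' hh' hf' (mul_mem hgx (conj_Q hS hhx hgz))
      (mul_mem (mul_mem hhx hhz) hhy) (mul_mem (conj_Q' hS hc hfz) hfy) e
    exact ⟨h3, h2⟩

end Cfsg.Agent.Lib.RankOneH20
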