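import Cfsg.Agent.Lib.RankOneAut
import Cfsg.Agent.Lib.ChevSL2
set_option autoImplicit false
set_option linter.unusedSectionVars false
set_option linter.unusedVariables false

/-!
Rank one relations for products of commuting rank one systems and twists by field homomorphisms.
-/

namespace Cfsg.Agent.Lib.RankOneMul
open Cfsg.Agent.Lib.SL2Pres Cfsg.Agent.Lib.RankOneAut
open scoped MatrixGroups Matrix

section abs
variable {E F Γ : Type*} [Field E] [Field F] [Group Γ]

theorem isR1_one : IsR1 (fun _ : F => (1 : Γ)) (fun _ : F => (1 : Γ)) where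
  X_add s t := by simp
  Y_add s t := by simp
  n_X u := by simp [nn]
  n_Y u := by simp [nn]
  h_X c u hc := by simp [hh, nn]
  h_Y c u hc := by simp [hh, nn]
  h_mul c d hc hd := by simp [hh, nn]

theorem isR1_comp {X Y : F → Γ} (R : IsR1 X Y) (f : E →+* F) : IsR1 (fun t => X (f t)) (fun t => Y (f t)) := by
  have hn : ∀ t, nn (fun t => X (f t)) (fun t => Y (f t)) t = nn X Y (f t) := fun t => by
    unfold nn
    show X (f t) * Y (f (-t⁻¹)) * X (f t) = _
    rw [map_neg, map_inv₀]
  have hh' : ∀ t, hh (fun t => X (f t)) (fun t => Y (f t)) t = hh X Y (f t) := fun t => by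
    unfold hh; rw [hn, hn, map_neg, map_one]
  have hf0 : ∀ c : E, c ≠ 0 → f c ≠ 0 := fun c hc => (map_ne_zero f).mpr hc
  exact
    { X_add := fun s t => by rw [map_add, R.X_add]
      Y_add := fun s t => by rw [map_add, R.Y_add]
      n_X := fun u => by rw [hn, map_one, R.n_X, map_neg]
      n_Y := fun u => by rw [hn, map_one, R.n_Y, map_neg]
      h_X := fun c u hc => by rw [hh', R.h_X _ _ (hf0 c hc), map_mul, map_pow]
      h_Y := fun c u hc => by rw [hh', R.h_Y _ _ (hf0 c hc), map_mul, map_inv₀, map_pow]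
      h_mul := fun c d hc hd => by rw [hh', hh', hh', R.h_mul _ _ (hf0 c hc) (hf0 d hd), map_mul] }

theorem isR1_mul {X Y X' Y' : F → Γ} (R : IsR1 X Y) (R' : IsR1 X' Y')
    (c1 : ∀ s t, Commute (X s) (X' t)) (c2 : ∀ s t, Commute (X s) (Y' t))
    (c3 : ∀ s t, Commute (Y s) (X' t)) (c4 : ∀ s t, Commute (Y s) (Y' t)) :
    IsR1 (fun t => X t * X' t) (fun t => Y t * Y' t) := by
  obtain ⟨φ, hX, hY, hr⟩ := exists_hom R
  obtain ⟨φ', hX', hY', hr'⟩ := exists_hom R'
  have hc : ∀ g h, Commute (φ g) (φ' h) := by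
    intro g h
    have e1 : Subgroup.closure (Set.range X ∪ Set.range Y) ≤
        Subgroup.centralizer (Subgroup.closure (Set.range X' ∪ Set.range Y') : Set Γ) := by
      rw [Subgroup.centralizer_closure, Subgroup.closure_le]
      rintro _ (⟨s, rfl⟩ | ⟨s, rfl⟩)
      · rw [SetLike.mem_coe, Subgroup.mem_centralizer_iff]
        rintro _ (⟨t, rfl⟩ | ⟨t, rfl⟩)
        · exact (c1 s t).eq.symm
        · exact (c2 s t).eq.symm
      · rw [SetLike.mem_coe, Subgroup.mem_centralizer_iff]
        rintro _ (⟨t, rfl⟩ | ⟨t, rfl⟩)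
        · exact (c3 s t).eq.symm
        · exact (c4 s t).eq.symm
    have h1 : φ g ∈ Subgroup.closure (Set.range X ∪ Set.range Y) := by rw [← hr]; exact ⟨g, rfl⟩
    have h2 : φ' h ∈ Subgroup.closure (Set.range X' ∪ Set.range Y') := by rw [← hr']; exact ⟨h, rfl⟩
    exact (Subgroup.mem_centralizer_iff.mp (e1 h1) _ h2).symm
  let ψ : SL(2, F) →* Γ := MonoidHom.mk' (fun g => φ g * φ' g) fun g h => by
    rw [map_mul, map_mul]
    calc φ g * φ h * (φ' g * φ' h) = φ g * (φ h * φ' g) * φ' h := by group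
      _ = φ g * (φ' g * φ h) * φ' h := by rw [(hc h g).eq]
      _ = _ := by group
  have h3 := ChevSL2.IsR1_map (isR1_SL2 (F := F)) ψ
  have e1 : (fun t => ψ (E t)) = fun t => X t * X' t := by
    funext t
    show φ (E t) * φ' (E t) = _
    rw [hX, hX']
  have e2 : (fun t => ψ (E' t)) = fun t => Y t * Y' t := by
    funext t
    show φ (E' t) * φ' (E' t) = _
    rw [hY, hY']
  rw [e1, e2] at h3
  exact h3

theorem uniq_of_disj {X Y : F → Γ} (R : IsR1 X Y) (hd : ∀ a b, X a = Y b → a = 0) : Uniq X Y := by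
  intro a s u u' hu h
  by_contra hne
  obtain ⟨φ, hX, hY, hr⟩ := exists_hom R
  set d := 1 + a * s with hdd
  have e1 : X a * Y s * X a = Y (s / d) * hh X Y d * X (a * (d + 1) / d) := by
    have e2 : E a * E' s * E a = E' (s / d) * hh E E' d * E (a * (d + 1) / d) := by
      apply Subtype.ext
      simp only [Matrix.SpecialLinearGroup.coe_mul, coe_E, coe_E', coe_hh hne]
      ext i j
      fin_cases i <;> fin_cases j <;> simp [Matrix.mul_apply, Fin.sum_univ_two]
      · rw [hdd]
      · field_simp; rw [hdd]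
      · field_simp
      · field_simp; rw [hdd]; ring
    have e3 := congrArg φ e2
    have e4 : φ (hh E E' d) = hh X Y d := by
      unfold hh nn
      simp only [map_mul, hX, hY]
    simp only [map_mul, hX, hY, e4] at e3
    exact e3
  rw [e1] at h
  have h2 : X (d ^ 2 * u) = Y (-(s / d) + (u' + s / d)) := by
    rw [R.Y_add, R.Y_add, R.Y_neg, ← R.h_X d u hne]
    have e : X (a * (d + 1) / d) * X u = X u * X (a * (d + 1) / d) := by
      rw [← R.X_add, ← R.X_add, add_comm]
    calc hh X Y d * X u * (hh X Y d)⁻¹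
        = (Y (s / d))⁻¹ * (Y (s / d) * hh X Y d * (X u * X (a * (d + 1) / d))) * (X (a * (d + 1) / d))⁻¹ * (hh X Y d)⁻¹ := by group
      _ = (Y (s / d))⁻¹ * (Y (s / d) * hh X Y d * X (a * (d + 1) / d) * X u) * (X (a * (d + 1) / d))⁻¹ * (hh X Y d)⁻¹ := by
          rw [← e]; group
      _ = _ := by rw [h]; group
  have h3 := hd _ _ h2
  rcases mul_eq_zero.mp h3 with h4 | h4
  · exact hne (pow_eq_zero_iff two_ne_zero |>.mp h4)
  · exact hu h4

end abs

end Cfsg.Agent.Lib.RankOneMul
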