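import Cfsg.Agent.Lib.SubsecDet
import Cfsg.Agent.Lib.AbAct
import Cfsg.Agent.Lib.AbCount3

/-!
# The form `p ^ d [f, g]` of a block with cyclic defect group has rank one modulo `p ^ d` (helper75)
-/

set_option autoImplicit false
set_option linter.all false

namespace Cfsg.Agent.Lib.RankOneP

open Cfsg Cfsg.Agent.Lib.BlockRing Cfsg.Agent.Lib.BlockGA Cfsg.Agent.Lib.BlockIdem Cfsg.Agent.Lib.BlockPair
  Cfsg.Agent.Lib.BlockOsima Cfsg.Agent.Lib.BlockCount Cfsg.Agent.Lib.Subsec Cfsg.Agent.Lib.CharBasic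
  Cfsg.Agent.Lib.BlockLattice Cfsg.Agent.Lib.AbCount Cfsg.Agent.Lib.AbFT Cfsg.Agent.Lib.BlkIdem
  Cfsg.Agent.Lib.BlockAlg
open scoped ComplexConjugate
open Matrix (det)

universe u

theorem dvd_det_rank_one {l : ℕ} {q : ℤ} (hq : q ≠ 0) (r : Fin l → ℤ) (N : Matrix (Fin l) (Fin l) ℤ) :
    q ^ (l - 1) ∣ det (Matrix.of fun i j => r i * r j + q * N i j) := by
  classical
  set X : Matrix (Fin 1 ⊕ Fin l) (Fin 1 ⊕ Fin l) ℤ :=
    Matrix.fromBlocks 1 (Matrix.of fun _ j => - r j) (Matrix.of fun i _ => r i) (Matrix.of fun i j => q * N i j) with hX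
  set Y : Matrix (Fin 1 ⊕ Fin l) (Fin 1 ⊕ Fin l) ℤ :=
    Matrix.fromBlocks (Matrix.of fun _ _ => q) (Matrix.of fun _ j => - r j) (Matrix.of fun i _ => r i) N with hY
  have h1 : det X = det (Matrix.of fun i j => r i * r j + q * N i j) := by
    rw [hX, Matrix.det_fromBlocks_one₁₁]
    congr 1
    ext i j
    rw [Matrix.sub_apply, Matrix.mul_apply]
    simp
    ring
  have h2 := Matrix.det_mul_column (Sum.elim (fun _ : Fin 1 => q) (fun _ : Fin l => 1)) X
  have h3 := Matrix.det_mul_row (Sum.elim (fun _ : Fin 1 => 1) (fun _ : Fin l => q)) Y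
  have h4 : (Matrix.of fun i j => (Sum.elim (fun _ : Fin 1 => q) (fun _ : Fin l => 1)) i * X i j) =
      Matrix.of fun i j => (Sum.elim (fun _ : Fin 1 => 1) (fun _ : Fin l => q)) j * Y i j := by
    ext i j
    rw [Matrix.of_apply, Matrix.of_apply, hX, hY]
    rcases i with i | i <;> rcases j with j | j
    · have : i = j := Subsingleton.elim _ _
      subst this
      simp
    · simp
    · simp
    · simp
  rw [h4] at h2
  rw [h2] at h3
  rw [← h1]
  simp only [Fintype.prod_sum_type, Sum.elim_inl, Sum.elim_inr, Finset.prod_const, Finset.card_univ, Fintype.card_fin,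
    pow_one, one_pow, mul_one, one_mul] at h3
  rcases l with _ | m
  · simp
  · rw [pow_succ, mul_comm (q ^ m) q, mul_assoc] at h3
    exact ⟨_, mul_left_cancel₀ hq h3⟩

variable {p : ℕ} [hp : Fact p.Prime] {M : Ideal AlgInt} [hMm : M.IsMaximal] [hchar : CharP (Kf M) p]
  {G : Type u} [Group G] [Finite G] {B : Set (IrrCharacter G)} {P : Subgroup G} {c : MonoidAlgebra (Kf M) G}

/-- rank one modulo the order of the defect group -/
theorem ei_congr (hM : IsPModular p M) (h : AbSec.FreeMax p B P c) :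
    ∃ (E : ℤ) (r : IrrCharacter G → ℤ), IsCoprime E (p : ℤ) ∧ ∀ χ ∈ B, ∀ ψ ∈ B, ∃ N : ℤ,
      E * ei p B (preg p (χ : G → ℂ)) (preg p (ψ : G → ℂ)) = r χ * r ψ + (p : ℤ) ^ blockDefect p B * N := by
  classical
  haveI := Fintype.ofFinite G
  haveI := Fintype.ofFinite P
  obtain ⟨ε, ρ, hr⟩ := AbSec.exists_rhoSys (M := M) hM h
  have hPc := AbSec.P_comm h.max
  haveI := LinChar.finite_hom hPc
  haveI := Fintype.ofFinite (P →* ℂˣ)
  choose r hr1 using fun χ => (hr.int χ).one_int hPc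
  refine ⟨(AbSec.ei P c : ℤ), r, ?_, ?_⟩
  · rw [isCoprime_comm, Prime.coprime_iff_not_dvd (Nat.prime_iff_prime_int.1 hp.out)]
    intro hd
    exact AbMax.not_dvd_relIndex h.max (by exact_mod_cast hd)
  · intro χ hχ ψ hψ
    have hcP := h.max.card_P hM
    have h1 := hr.row hM h hχ hψ
    have h2 := parseval hPc (ρ χ) (ρ ψ)
    choose a ha using hr.int χ
    choose b hb using hr.int ψ
    have h3 : ∑ θ : P →* ℂˣ, ft (ρ χ) θ * conj (ft (ρ ψ) θ) = ((∑ θ, a θ * b θ : ℤ) : ℂ) := by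
      push_cast
      refine Finset.sum_congr rfl fun θ _ => ?_
      rw [ha, hb, map_intCast]
    have hP0 : (Nat.card P : ℂ) ≠ 0 := Nat.cast_ne_zero.2 Nat.card_pos.ne'
    rw [h3, inv_mul_eq_iff_eq_mul₀ hP0, ← Finset.add_sum_erase _ _ (Finset.mem_univ (1 : P)), hr1, hr1, map_intCast] at h2
    have h4 : (Finset.univ.erase (1 : P)) = Finset.univ.filter (fun v : P => v ≠ 1) := by
      ext v; simp
    rw [h4] at h2
    have hχL := preg_mem (p := p) hχ
    have hψL := preg_mem (p := p) hψ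
    have h5 := ei_spec hM h.max.blk hχL hψL
    obtain ⟨δ, hδ⟩ : ∃ δ : ℤ, classInner (χ : G → ℂ) (ψ : G → ℂ) = (δ : ℂ) := by
      rw [irr_orthonormal]
      split_ifs
      · exact ⟨1, by simp⟩
      · exact ⟨0, by simp⟩
    refine ⟨(AbSec.ei P c : ℤ) * δ - ∑ θ, a θ * b θ, ?_⟩
    have h6 : (((AbSec.ei P c : ℤ) * ei p B (preg p (χ : G → ℂ)) (preg p (ψ : G → ℂ)) : ℤ) : ℂ) =
        ((r χ * r ψ + (p : ℤ) ^ blockDefect p B * ((AbSec.ei P c : ℤ) * δ - ∑ θ, a θ * b θ) : ℤ) : ℂ) := by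
      rw [hδ, ← inner_preg_preg] at h1
      push_cast at h1 h2 ⊢
      rw [h5]
      have h7 : (Nat.card P : ℂ) = (p : ℂ) ^ blockDefect p B := by rw [hcP]; push_cast; rfl
      rw [h7] at h1 h2
      linear_combination (-1 : ℂ) * h1 - h2
    exact_mod_cast h6

/-- integral combinations -/
theorem lat_expand {f : G → ℂ} (hf : f ∈ BlockLattice.Lat p B) :
    ∃ n : IrrCharacter G → ℤ, f = ∑ χ ∈ fs B, (n χ : ℂ) • preg p (χ : G → ℂ) := by
  classical
  refine lat_induction (P := fun f => ∃ n : IrrCharacter G → ℤ, f = ∑ χ ∈ fs B, (n χ : ℂ) • preg p (χ : G → ℂ))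
    ?_ ?_ ?_ ?_ hf
  · intro χ hχ
    refine ⟨Pi.single χ 1, ?_⟩
    rw [Finset.sum_eq_single χ]
    · rw [Pi.single_eq_same, Int.cast_one, one_smul]
    · intro ψ _ hψ
      rw [Pi.single_eq_of_ne hψ, Int.cast_zero, zero_smul]
    · intro h; exact absurd (mem_fs.2 hχ) h
  · exact ⟨0, by simp⟩
  · rintro f g - - ⟨n, hn⟩ ⟨m, hm⟩
    refine ⟨n + m, ?_⟩
    rw [hn, hm, ← Finset.sum_add_distrib]
    refine Finset.sum_congr rfl fun χ _ => ?_
    rw [Pi.add_apply, Int.cast_add, add_smul]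
  · rintro a f - ⟨n, hn⟩
    refine ⟨fun χ => a * n χ, ?_⟩
    rw [hn, Finset.smul_sum]
    refine Finset.sum_congr rfl fun χ _ => ?_
    rw [Int.cast_mul, mul_smul]

/-- the determinant of the form is divisible by `|P| ^ (l - 1)` -/
theorem dvd_det (hM : IsPModular p M) (h : AbSec.FreeMax p B P c) {l : ℕ} {f : Fin l → (G → ℂ)}
    (hf : ∀ i, f i ∈ BlockLattice.Lat p B) :
    (p : ℤ) ^ (blockDefect p B * (l - 1)) ∣ det (Matrix.of fun i j => ei p B (f i) (f j)) := by
  classical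
  haveI := Fintype.ofFinite G
  obtain ⟨E, r, hE, hr⟩ := ei_congr hM h
  choose! N hN using hr
  choose n hn using fun i => lat_expand (hf i)
  set s : Fin l → ℤ := fun i => ∑ χ ∈ fs B, n i χ * r χ with hs
  set K : Matrix (Fin l) (Fin l) ℤ := Matrix.of fun i j => ∑ χ ∈ fs B, ∑ ψ ∈ fs B, n i χ * n j ψ * N χ ψ with hK
  have h1 : ∀ i j, E * ei p B (f i) (f j) = s i * s j + (p : ℤ) ^ blockDefect p B * K i j := by
    intro i j
    have h2 : ei p B (f i) (f j) = ∑ χ ∈ fs B, ∑ ψ ∈ fs B, n i χ * n j ψ *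
        ei p B (preg p (χ : G → ℂ)) (preg p (ψ : G → ℂ)) := by
      have h3 : ((ei p B (f i) (f j) : ℤ) : ℂ) = ((∑ χ ∈ fs B, ∑ ψ ∈ fs B, n i χ * n j ψ *
        ei p B (preg p (χ : G → ℂ)) (preg p (ψ : G → ℂ)) : ℤ) : ℂ) := by
        rw [ei_spec hM h.max.blk (hf i) (hf j)]
        conv_lhs => rw [hn i, hn j]
        rw [classInner_sum_left, Finset.mul_sum]
        push_cast
        refine Finset.sum_congr rfl fun χ hχ => ?_
        rw [classInner_sum_right, Finset.mul_sum]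
        refine Finset.sum_congr rfl fun ψ hψ => ?_
        rw [ei_spec hM h.max.blk (preg_mem (mem_fs.1 hχ)) (preg_mem (mem_fs.1 hψ)), classInner_smul_left,
          classInner_smul_right, map_intCast]
        ring
      exact_mod_cast h3
    rw [h2, Finset.mul_sum, hs, hK, Matrix.of_apply, Finset.sum_mul_sum, Finset.mul_sum, ← Finset.sum_add_distrib]
    refine Finset.sum_congr rfl fun χ hχ => ?_
    rw [Finset.mul_sum, Finset.mul_sum, ← Finset.sum_add_distrib]
    refine Finset.sum_congr rfl fun ψ hψ => ?_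
    have := hN χ (mem_fs.1 hχ) ψ (mem_fs.1 hψ)
    linear_combination (n i χ * n j ψ) * this
  have hp0 : ((p : ℤ) ^ blockDefect p B) ≠ 0 := pow_ne_zero _ (by exact_mod_cast hp.out.ne_zero)
  have h2 := dvd_det_rank_one hp0 s K
  have h3 : (Matrix.of fun i j => s i * s j + (p : ℤ) ^ blockDefect p B * K i j) =
      E • (Matrix.of fun i j => ei p B (f i) (f j)) := by
    ext i j
    rw [Matrix.of_apply, Matrix.smul_apply, Matrix.of_apply, smul_eq_mul, h1]
  rw [h3, Matrix.det_smul, ← pow_mul] at h2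
  exact (IsCoprime.pow (hE.symm)).dvd_of_dvd_mul_left h2

end Cfsg.Agent.Lib.RankOneP
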