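import Mathlib
import Cfsg.Agent.Lib.SubfieldGeo

set_option autoImplicit false

/-!
Rational vectors parametrised by vectors over the subfield.
-/

namespace Cfsg.Agent.Lib.RatMapH94

open Cfsg Cfsg.Geo Cfsg.Agent.Lib.GeoBridge Cfsg.Agent.Lib.SubfieldGeo
open scoped MatrixGroups Matrix

variable {ι : Type} [Fintype ι] [DecidableEq ι] {F : Type*} [Field F]

/-- the rational vector with coordinates `x` -/
def jP (F₀ : Subfield F) (P : GL ι F) (x : ι → F₀) : ι → F :=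
  (P : Matrix ι ι F) *ᵥ (fun i => (x i : F))

variable {F₀ : Subfield F} {P : GL ι F}

theorem mem_rat_iff_jP {v : ι → F} : v ∈ rat F₀ P ↔ ∃ x, v = jP F₀ P x := by
  constructor
  · rintro ⟨u, hu, rfl⟩
    exact ⟨fun i => ⟨u i, hu i⟩, rfl⟩
  · rintro ⟨x, rfl⟩
    exact ⟨_, fun i => (x i).2, rfl⟩

theorem jP_mem (x : ι → F₀) : jP F₀ P x ∈ rat F₀ P := mem_rat_iff_jP.2 ⟨x, rfl⟩

theorem jP_add (x y : ι → F₀) : jP F₀ P (x + y) = jP F₀ P x + jP F₀ P y := by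
  rw [jP, jP, jP, ← Matrix.mulVec_add]
  congr 1

theorem jP_smul (c : F₀) (x : ι → F₀) : jP F₀ P (c • x) = (F₀.subtype c) • jP F₀ P x := by
  rw [jP, jP, ← Matrix.mulVec_smul]
  congr 1

theorem mem_subfieldSubgroup_iff' (g : GL ι F) :
    g ∈ subfieldSubgroup F₀ P ↔ ∃ κ : F, κ ≠ 0 ∧ ∀ x, ∃ y, le g (jP F₀ P x) = κ • jP F₀ P y := by
  rw [mem_subfieldSubgroup_iff]
  refine exists_congr fun κ => and_congr_right fun _ => ?_
  constructor
  · intro h x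
    obtain ⟨v', hv', h1⟩ := h _ (jP_mem x)
    obtain ⟨y, rfl⟩ := mem_rat_iff_jP.1 hv'
    exact ⟨y, h1⟩
  · intro h v hv
    obtain ⟨x, rfl⟩ := mem_rat_iff_jP.1 hv
    obtain ⟨y, hy⟩ := h x
    exact ⟨_, jP_mem y, hy⟩

/-- coordinates with respect to a decomposition `F = F₀ + F₀ δ` -/
theorem jP_span {δ : F} (hdec : ∀ a : F, ∃ b c : F₀, a = F₀.subtype b + F₀.subtype c * δ) (v : ι → F) :
    ∃ x y, v = jP F₀ P x + δ • jP F₀ P y := by
  have h1 : v = (P : Matrix ι ι F) *ᵥ (((P⁻¹ : GL ι F) : Matrix ι ι F) *ᵥ v) := by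
    rw [Matrix.mulVec_mulVec, ← Units.val_mul, mul_inv_cancel, Units.val_one, Matrix.one_mulVec]
  choose b c hbc using fun i => hdec ((((P⁻¹ : GL ι F) : Matrix ι ι F) *ᵥ v) i)
  refine ⟨b, c, ?_⟩
  rw [h1, jP, jP, ← Matrix.mulVec_smul, ← Matrix.mulVec_add]
  congr 1
  funext i
  rw [hbc i]
  show _ = (b i : F) + δ * (c i : F)
  rw [mul_comm δ]
  rfl

theorem jP_inj {x y : ι → F₀} (h : jP F₀ P x = jP F₀ P y) : x = y := by
  have h1 : ∀ z : ι → F₀, ((P⁻¹ : GL ι F) : Matrix ι ι F) *ᵥ jP F₀ P z = fun i => (z i : F) := by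
    intro z
    rw [jP, Matrix.mulVec_mulVec, ← Units.val_mul, inv_mul_cancel, Units.val_one, Matrix.one_mulVec]
  have h2 := h1 x
  rw [h, h1 y] at h2
  funext i
  exact Subtype.ext (congrFun h2 i).symm

end Cfsg.Agent.Lib.RatMapH94
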