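import Cfsg.Agent.Lib.FrobSchur2

set_option autoImplicit false

/-!
# Indicator `1` and real representations (helper78)
-/

namespace Cfsg.Agent.Lib.RealStruct

open scoped ComplexConjugate ComplexOrder
open Cfsg Cfsg.Agent.Lib.CharBasic Cfsg.Agent.Lib.FrobSchur Cfsg.Agent.Lib.FrobSchur2
open Matrix

universe u

variable {G : Type u} [Group G] {n : ℕ}

section Schur

theorem exists_scalar_matrix [Finite G] (ρ : Representation ℂ G (Fin n → ℂ))
    (hirr : ρ.IsIrreducible) (A : Matrix (Fin n) (Fin n) ℂ)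
    (hA : ∀ g, matRep ρ g * A = A * matRep ρ g) : ∃ c : ℂ, A = c • (1 : Matrix (Fin n) (Fin n) ℂ) := by
  have := hirr
  obtain ⟨c, hc⟩ := CharCentral.exists_scalar_of_commute ρ (Matrix.toLin' A) (by
    intro g v
    have h1 : ∀ w, ρ g w = (matRep ρ g).mulVec w := by
      intro w
      rw [matRep_apply, LinearMap.toMatrix'_mulVec]
    rw [h1, h1, Matrix.toLin'_apply, Matrix.toLin'_apply, Matrix.mulVec_mulVec,
      Matrix.mulVec_mulVec, hA])
  refine ⟨c, ?_⟩
  have h2 := congrArg LinearMap.toMatrix' hc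
  rw [LinearMap.toMatrix'_toLin'] at h2
  rw [h2, map_smul, LinearMap.toMatrix'_id]

/-- The invariant hermitian form. -/
theorem exists_hermitian [Fintype G] (X : G →* Matrix (Fin n) (Fin n) ℂ) :
    ∃ H : Matrix (Fin n) (Fin n) ℂ, H.PosDef ∧ ∀ g, (X g)ᴴ * H * X g = H := by
  classical
  refine ⟨∑ g : G, (X g)ᴴ * X g, ?_, ?_⟩
  · rw [← Finset.add_sum_erase Finset.univ _ (Finset.mem_univ (1 : G))]
    apply Matrix.PosDef.add_posSemidef
    · rw [map_one, Matrix.conjTranspose_one, one_mul]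
      exact Matrix.PosDef.one
    · apply Matrix.posSemidef_sum
      intro g _
      exact Matrix.posSemidef_conjTranspose_mul_self _
  · intro g
    rw [Matrix.mul_sum, Matrix.sum_mul]
    refine Fintype.sum_equiv (Equiv.mulRight g) _ _ ?_
    intro x
    simp only [Equiv.coe_mulRight, map_mul, Matrix.conjTranspose_mul, Matrix.mul_assoc]

end Schur

/-- A matrix `K` with `X K = K X̄` and `K K̄ = 1`. -/
theorem exists_K [Fintype G] (ρ : Representation ℂ G (Fin n → ℂ)) (hirr : ρ.IsIrreducible)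
    (M : Matrix (Fin n) (Fin n) ℂ) (hM0 : M ≠ 0)
    (hM : ∀ g, (matRep ρ g)ᵀ * M * matRep ρ g = M) (hMT : Mᵀ = M) :
    ∃ K : Matrix (Fin n) (Fin n) ℂ, K * K.map conj = 1 ∧
      ∀ g, matRep ρ g * K = K * (matRep ρ g).map conj := by
  obtain ⟨H, hH, hHinv⟩ := exists_hermitian (matRep ρ)
  have hdetM := det_ne_zero_of_invariant ρ hirr hM0 hM
  have hdetH : H.det ≠ 0 := by
    have := hH.isUnit
    rw [Matrix.isUnit_iff_isUnit_det] at this
    exact this.ne_zero
  have hHu : IsUnit H.det := isUnit_iff_ne_zero.mpr hdetH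
  have hmap : ∀ A : Matrix (Fin n) (Fin n) ℂ, A.map conj = Aᴴᵀ := by
    intro A; ext i j; simp [Matrix.conjTranspose_apply]
  have hmm : ∀ A B : Matrix (Fin n) (Fin n) ℂ, (A * B).map conj = A.map conj * B.map conj := by
    intro A B
    rw [hmap, hmap, hmap, Matrix.conjTranspose_mul, Matrix.transpose_mul]
  have hmapmap : ∀ A : Matrix (Fin n) (Fin n) ℂ, (A.map conj).map conj = A := by
    intro A; ext i j; simp
  have hXinv : ∀ g, matRep ρ g * matRep ρ g⁻¹ = 1 := by
    intro g; rw [← map_mul, mul_inv_cancel, map_one]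
  set K := H⁻¹ * Mᴴ with hK
  -- X K = K X̄
  have hcomm : ∀ g, matRep ρ g * K = K * (matRep ρ g).map conj := by
    intro g
    have h1 : matRep ρ g * H⁻¹ = H⁻¹ * (matRep ρ g⁻¹)ᴴ := by
      have h2 : H * matRep ρ g = (matRep ρ g⁻¹)ᴴ * H := by
        conv_rhs => rw [← hHinv g]
        rw [← mul_assoc, ← mul_assoc, ← Matrix.conjTranspose_mul, hXinv, Matrix.conjTranspose_one,
          one_mul]
      have h3 : H⁻¹ * (H * matRep ρ g) * H⁻¹ = H⁻¹ * ((matRep ρ g⁻¹)ᴴ * H) * H⁻¹ := by rw [h2]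
      rw [← mul_assoc, Matrix.nonsing_inv_mul _ hHu, one_mul] at h3
      rw [h3, mul_assoc, mul_assoc, Matrix.mul_nonsing_inv _ hHu, mul_one]
    have h4 : (matRep ρ g⁻¹)ᴴ * Mᴴ = Mᴴ * (matRep ρ g).map conj := by
      have h5 : M * matRep ρ g⁻¹ = (matRep ρ g)ᵀ * M := by
        conv_lhs => rw [← hM g]
        rw [mul_assoc, hXinv, mul_one]
      rw [← Matrix.conjTranspose_mul, h5, Matrix.conjTranspose_mul]
      congr 1
    rw [hK, ← mul_assoc, h1, mul_assoc, h4, mul_assoc]
  -- K K̄ commutes with X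
  obtain ⟨c, hc⟩ := exists_scalar_matrix ρ hirr (K * K.map conj) (by
    intro g
    have h6 := congrArg (fun A : Matrix (Fin n) (Fin n) ℂ => A.map conj) (hcomm g)
    simp only [hmm, hmapmap] at h6
    rw [← mul_assoc, hcomm g, mul_assoc, h6]
    exact (mul_assoc _ _ _).symm)
  -- positivity
  have hn : Nonempty (Fin n) := by
    by_contra hno
    rw [not_nonempty_iff] at hno
    exact hM0 (Subsingleton.elim _ _)
  have hHK : Mᴴ * (H⁻¹)ᵀ * M = c • H := by
    have h7 : K.map conj = (H⁻¹)ᵀ * M := by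
      rw [hK, hmm, hmap, hmap]
      have h8 : (H⁻¹)ᴴ = H⁻¹ := hH.inv.isHermitian
      rw [h8, Matrix.conjTranspose_conjTranspose, hMT]
    rw [h7, hK] at hc
    have h9 := congrArg (fun A => H * A) hc
    simp only [Matrix.mul_smul, Matrix.mul_one] at h9
    rw [← h9]
    simp only [← mul_assoc]
    rw [Matrix.mul_nonsing_inv _ hHu, one_mul]
  have hpos : (Mᴴ * (H⁻¹)ᵀ * M).PosSemidef :=
    Matrix.PosSemidef.conjTranspose_mul_mul_same hH.inv.posSemidef.transpose M
  have htr1 : 0 ≤ (Mᴴ * (H⁻¹)ᵀ * M).trace := hpos.trace_nonneg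
  have htr2 : 0 < H.trace := hH.trace_pos
  rw [hHK, Matrix.trace_smul, smul_eq_mul] at htr1
  have hdetK : K.det ≠ 0 := by
    rw [hK, Matrix.det_mul, Matrix.det_conjTranspose]
    refine mul_ne_zero ?_ ((map_ne_zero (starRingEnd ℂ)).mpr hdetM)
    rw [Matrix.det_nonsing_inv, Ring.inverse_eq_inv']
    exact inv_ne_zero hdetH
  have hc0 : c ≠ 0 := by
    rintro rfl
    rw [zero_smul] at hc
    have h10 := congrArg Matrix.det hc
    rw [Matrix.det_mul, hmap, Matrix.det_transpose, Matrix.det_conjTranspose,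
      Matrix.det_zero] at h10
    exact (mul_ne_zero hdetK ((map_ne_zero (starRingEnd ℂ)).mpr hdetK)) h10
  have hcpos : 0 < c := by
    rcases (Complex.pos_iff.mp htr2) with ⟨ht1, ht2⟩
    rw [Complex.nonneg_iff] at htr1
    obtain ⟨h11, h12⟩ := htr1
    rw [Complex.mul_re, ← ht2, mul_zero, sub_zero] at h11
    rw [Complex.mul_im, ← ht2, mul_zero, zero_add] at h12
    have h13 : c.im = 0 := by
      rcases mul_eq_zero.mp h12.symm with h | h
      · exact h
      · exact absurd h ht1.ne'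
    have h14 : 0 ≤ c.re := nonneg_of_mul_nonneg_left h11 ht1
    have h15 : c.re ≠ 0 := by
      intro h
      exact hc0 (Complex.ext h h13)
    rw [Complex.pos_iff]
    exact ⟨lt_of_le_of_ne h14 (Ne.symm h15), h13.symm⟩
  obtain ⟨hcre, hcim⟩ := Complex.pos_iff.mp hcpos
  set r : ℝ := Real.sqrt c.re with hr
  have hr0 : (r : ℂ) ≠ 0 := by
    exact_mod_cast (Real.sqrt_pos.mpr hcre).ne'
  have hrr : (r : ℂ) * r = c := by
    rw [← Complex.ofReal_mul, hr, Real.mul_self_sqrt hcre.le]
    apply Complex.ext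
    · simp
    · simpa using hcim
  refine ⟨(r : ℂ)⁻¹ • K, ?_, ?_⟩
  · have h16 : ((r : ℂ)⁻¹ • K).map conj = (r : ℂ)⁻¹ • K.map conj := by
      ext i j; simp
    rw [h16, Matrix.smul_mul, Matrix.mul_smul, hc, smul_smul, smul_smul, ← hrr]
    have : (r : ℂ)⁻¹ * (r : ℂ)⁻¹ * (r * r) = 1 := by field_simp
    rw [this, one_smul]
  · intro g
    rw [Matrix.mul_smul, hcomm, Matrix.smul_mul]


section Real

/-- The real structure attached to `K`. -/
def fixW (K : Matrix (Fin n) (Fin n) ℂ) : Submodule ℝ (Fin n → ℂ) where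
  carrier := {v | K.mulVec (fun i => conj (v i)) = v}
  add_mem' := by
    intro v w hv hw
    simp only [Set.mem_setOf_eq] at hv hw ⊢
    conv_rhs => rw [← hv, ← hw]
    rw [← Matrix.mulVec_add]
    congr 1
    funext i
    simp
  zero_mem' := by
    simp only [Set.mem_setOf_eq, Pi.zero_apply, map_zero]
    exact Matrix.mulVec_zero K
  smul_mem' := by
    intro c v hv
    simp only [Set.mem_setOf_eq] at hv ⊢
    conv_rhs => rw [← hv]
    funext i
    simp only [Matrix.mulVec, dotProduct, Pi.smul_apply, Complex.real_smul, map_mul,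
      Complex.conj_ofReal, Finset.mul_sum]
    apply Finset.sum_congr rfl
    intro j _
    ring

theorem mem_fixW {K : Matrix (Fin n) (Fin n) ℂ} {v : Fin n → ℂ} :
    v ∈ fixW K ↔ K.mulVec (fun i => conj (v i)) = v := Iff.rfl

theorem mulVec_conj_smul (K : Matrix (Fin n) (Fin n) ℂ) (c : ℂ) (v : Fin n → ℂ) :
    K.mulVec (fun i => conj ((c • v) i)) = conj c • K.mulVec (fun i => conj (v i)) := by
  rw [← Matrix.mulVec_smul]
  congr 1
  funext i
  simp

theorem conj_mulVec (K : Matrix (Fin n) (Fin n) ℂ) (v : Fin n → ℂ) :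
    (fun i => conj ((K.mulVec v) i)) = (K.map conj).mulVec (fun i => conj (v i)) := by
  funext i
  simp only [Matrix.mulVec, dotProduct, map_sum, map_mul, Matrix.map_apply]

theorem decomp {K : Matrix (Fin n) (Fin n) ℂ} (hK : K * K.map conj = 1) (v : Fin n → ℂ) :
    ∃ a ∈ fixW K, ∃ b ∈ fixW K, v = a + Complex.I • b := by
  set w := K.mulVec (fun i => conj (v i)) with hw
  have hww : K.mulVec (fun i => conj (w i)) = v := by
    rw [hw, conj_mulVec, Matrix.mulVec_mulVec, hK, Matrix.one_mulVec]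
    funext i
    simp
  have hadd : ∀ a b : Fin n → ℂ, K.mulVec (fun i => conj ((a + b) i)) =
      K.mulVec (fun i => conj (a i)) + K.mulVec (fun i => conj (b i)) := by
    intro a b
    rw [← Matrix.mulVec_add]
    congr 1
    funext i
    simp
  refine ⟨(1 / 2 : ℂ) • (v + w), ?_, (-Complex.I / 2 : ℂ) • (v + (-1 : ℂ) • w), ?_, ?_⟩
  · rw [mem_fixW, mulVec_conj_smul, hadd, hww, ← hw, add_comm w v]
    congr 1
    rw [map_div₀, map_one, map_ofNat]
  · rw [mem_fixW, mulVec_conj_smul, hadd, mulVec_conj_smul, hww, ← hw]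
    have h1 : conj (-Complex.I / 2 : ℂ) = Complex.I / 2 := by
      rw [map_div₀, map_neg, Complex.conj_I, neg_neg, map_ofNat]
    rw [h1]
    funext i
    simp only [Pi.smul_apply, Pi.add_apply, smul_eq_mul, map_neg, map_one]
    ring
  · funext i
    simp only [Pi.add_apply, Pi.smul_apply, smul_eq_mul]
    have hI : Complex.I * Complex.I = -1 := Complex.I_mul_I
    linear_combination (1 / 2 * v i - 1 / 2 * w i) * hI

variable (K : Matrix (Fin n) (Fin n) ℂ)

theorem linInd (b : Module.Basis (Fin (Module.finrank ℝ (fixW K))) ℝ (fixW K)) :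
    LinearIndependent ℂ (fun i => ((b i : fixW K) : Fin n → ℂ)) := by
  rw [Fintype.linearIndependent_iff]
  intro c hc
  have h1 : ∑ i, conj (c i) • ((b i : fixW K) : Fin n → ℂ) = 0 := by
    have h2 : K.mulVec (fun j => conj ((∑ i, c i • ((b i : fixW K) : Fin n → ℂ)) j)) =
        ∑ i, conj (c i) • ((b i : fixW K) : Fin n → ℂ) := by
      have h3 : (fun j => conj ((∑ i, c i • ((b i : fixW K) : Fin n → ℂ)) j)) =
          ∑ i, conj (c i) • (fun j => conj (((b i : fixW K) : Fin n → ℂ) j)) := by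
        funext j
        simp only [Finset.sum_apply, Pi.smul_apply, smul_eq_mul, map_sum, map_mul]
      rw [h3, Matrix.mulVec_sum]
      apply Finset.sum_congr rfl
      intro i _
      rw [Matrix.mulVec_smul, mem_fixW.mp (b i).2]
    rw [← h2, hc]
    simp only [Pi.zero_apply, map_zero]
    exact Matrix.mulVec_zero K
  have hreal : ∀ a : Fin (Module.finrank ℝ (fixW K)) → ℝ,
      ∑ i, (a i : ℂ) • ((b i : fixW K) : Fin n → ℂ) = 0 → ∀ i, a i = 0 := by
    intro a ha
    apply Fintype.linearIndependent_iff.mp b.linearIndependent a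
    apply Subtype.ext
    rw [Submodule.coe_sum]
    simp only [Submodule.coe_smul, ZeroMemClass.coe_zero]
    rw [← ha]
    apply Finset.sum_congr rfl
    intro i _
    funext j
    simp
  intro i
  have hre : (c i).re = 0 := by
    apply hreal (fun i => (c i).re)
    have h4 : ∑ i, ((c i).re : ℂ) • ((b i : fixW K) : Fin n → ℂ) =
        (1 / 2 : ℂ) • (∑ i, c i • ((b i : fixW K) : Fin n → ℂ) +
          ∑ i, conj (c i) • ((b i : fixW K) : Fin n → ℂ)) := by
      rw [← Finset.sum_add_distrib, Finset.smul_sum]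
      apply Finset.sum_congr rfl
      intro i _
      rw [← add_smul, Complex.add_conj, smul_smul]
      congr 1
      push_cast
      ring
    rw [h4, hc, h1, add_zero, smul_zero]
  have him : (c i).im = 0 := by
    apply hreal (fun i => (c i).im)
    have h4 : ∑ i, ((c i).im : ℂ) • ((b i : fixW K) : Fin n → ℂ) =
        (-Complex.I / 2 : ℂ) • (∑ i, c i • ((b i : fixW K) : Fin n → ℂ) -
          ∑ i, conj (c i) • ((b i : fixW K) : Fin n → ℂ)) := by
      rw [← Finset.sum_sub_distrib, Finset.smul_sum]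
      apply Finset.sum_congr rfl
      intro i _
      rw [← sub_smul, Complex.sub_conj, smul_smul]
      congr 1
      have hI : Complex.I * Complex.I = -1 := Complex.I_mul_I
      push_cast
      linear_combination ((c i).im : ℂ) * hI
    rw [h4, hc, h1, sub_zero, smul_zero]
  exact Complex.ext hre him

theorem span_top (hK : K * K.map conj = 1)
    (b : Module.Basis (Fin (Module.finrank ℝ (fixW K))) ℝ (fixW K)) :
    ⊤ ≤ Submodule.span ℂ (Set.range (fun i => ((b i : fixW K) : Fin n → ℂ))) := by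
  have hW : ∀ w ∈ fixW K,
      w ∈ Submodule.span ℂ (Set.range (fun i => ((b i : fixW K) : Fin n → ℂ))) := by
    intro w hw
    have h1 := congrArg (fun x : fixW K => (x : Fin n → ℂ)) (b.sum_repr ⟨w, hw⟩)
    simp only [Submodule.coe_sum, Submodule.coe_smul] at h1
    rw [← h1]
    apply Submodule.sum_mem
    intro i _
    have h2 : b.repr ⟨w, hw⟩ i • ((b i : fixW K) : Fin n → ℂ) =
        ((b.repr ⟨w, hw⟩ i : ℝ) : ℂ) • ((b i : fixW K) : Fin n → ℂ) := by
      funext j; simp
    rw [h2]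
    exact Submodule.smul_mem _ _ (Submodule.subset_span ⟨i, rfl⟩)
  intro v _
  obtain ⟨a, ha, c, hc, rfl⟩ := decomp hK v
  exact Submodule.add_mem _ (hW a ha) (Submodule.smul_mem _ _ (hW c hc))

theorem trace_restrict (hK : K * K.map conj = 1) (f : (Fin n → ℂ) →ₗ[ℂ] (Fin n → ℂ))
    (hf : ∀ v ∈ fixW K, f v ∈ fixW K) :
    ((LinearMap.trace ℝ (fixW K) ((f.restrictScalars ℝ).restrict hf) : ℝ) : ℂ) =
      LinearMap.trace ℂ _ f := by
  let b := Module.finBasis ℝ (fixW K)
  let B := Module.Basis.mk (linInd K b) (span_top K hK b)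
  have hB : ∀ i, B i = ((b i : fixW K) : Fin n → ℂ) := fun i => by
    rw [Module.Basis.mk_apply]
  have hrepr : ∀ (w : fixW K) i, B.repr (w : Fin n → ℂ) i = ((b.repr w i : ℝ) : ℂ) := by
    intro w i
    have h1 := congrArg (fun x : fixW K => (x : Fin n → ℂ)) (b.sum_repr w)
    simp only [Submodule.coe_sum, Submodule.coe_smul] at h1
    have h2 : (w : Fin n → ℂ) = ∑ j, ((b.repr w j : ℝ) : ℂ) • B j := by
      rw [← h1]
      apply Finset.sum_congr rfl
      intro j _
      rw [hB]
      funext k; simp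
    conv_lhs => rw [h2]
    rw [B.repr_sum_self]
  rw [LinearMap.trace_eq_matrix_trace ℝ b, LinearMap.trace_eq_matrix_trace ℂ B, Matrix.trace,
    Matrix.trace, Complex.ofReal_sum]
  apply Finset.sum_congr rfl
  intro i _
  rw [Matrix.diag_apply, Matrix.diag_apply, LinearMap.toMatrix_apply, LinearMap.toMatrix_apply,
    hB, ← hrepr]
  rfl

end Real

theorem exists_real_rep [Fintype G] (ρ : Representation ℂ G (Fin n → ℂ)) (hirr : ρ.IsIrreducible)
    (h1 : fsInd ρ.character = 1) :
    ∃ (m : ℕ) (ρR : Representation ℝ G (Fin m → ℝ)), ∀ g : G,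
      ((LinearMap.trace ℝ (Fin m → ℝ) (ρR g) : ℝ) : ℂ) = ρ.character g := by
  have hreal : ∀ g : G, (ρ.character g).im = 0 := by
    by_contra hno
    push Not at hno
    have := (fsInd_trichotomy (isIrrCharacter_of_rep ρ hirr)).2.mpr hno
    rw [h1] at this
    exact one_ne_zero this
  obtain ⟨ε, hε, h0, M, hM0, hM, hMT, -⟩ := exists_form ρ hirr hreal
  rw [h1] at h0
  rw [← h0, one_smul] at hMT
  obtain ⟨K, hK, hKX⟩ := exists_K ρ hirr M hM0 hM hMT
  have hinv : ∀ g, ∀ v ∈ fixW K, ρ g v ∈ fixW K := by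
    intro g v hv
    have h2 : ∀ w, ρ g w = (matRep ρ g).mulVec w := by
      intro w
      rw [matRep_apply, LinearMap.toMatrix'_mulVec]
    rw [mem_fixW] at hv ⊢
    rw [h2, conj_mulVec, Matrix.mulVec_mulVec, ← hKX, ← Matrix.mulVec_mulVec, hv]
  let ρW : Representation ℝ G (fixW K) :=
    { toFun := fun g => ((ρ g).restrictScalars ℝ).restrict (hinv g)
      map_one' := by
        ext v : 2
        simp
      map_mul' := by
        intro a b
        apply LinearMap.ext
        intro v
        apply Subtype.ext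
        change ρ (a * b) (v : Fin n → ℂ) = ρ a (ρ b (v : Fin n → ℂ))
        rw [map_mul]
        rfl }
  let b := Module.finBasis ℝ (fixW K)
  let ρm : Representation ℝ G (Fin (Module.finrank ℝ (fixW K)) → ℝ) :=
    { toFun := fun g => b.equivFun.conj (ρW g)
      map_one' := by
        rw [map_one]
        exact b.equivFun.conj_id
      map_mul' := by
        intro x y
        rw [map_mul]
        exact b.equivFun.conj_comp _ _ }
  refine ⟨_, ρm, fun g => ?_⟩
  change ((LinearMap.trace ℝ _ (b.equivFun.conj (ρW g)) : ℝ) : ℂ) = _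
  rw [LinearMap.trace_conj']
  exact trace_restrict K hK (ρ g) (hinv g)

theorem indicator_of_real [Fintype G] {χ : G → ℂ} (hχ : IsIrrCharacter G χ) {m : ℕ}
    (ρR : Representation ℝ G (Fin m → ℝ))
    (h : ∀ g : G, ((LinearMap.trace ℝ (Fin m → ℝ) (ρR g) : ℝ) : ℂ) = χ g) : fsInd χ = 1 := by
  let XR : G →* Matrix (Fin m) (Fin m) ℝ :=
    { toFun := fun g => LinearMap.toMatrix' (ρR g)
      map_one' := by
        rw [map_one]
        exact LinearMap.toMatrix'_one
      map_mul' := by
        intro a b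
        rw [map_mul]
        exact LinearMap.toMatrix'_mul _ _ }
  let X : G →* Matrix (Fin m) (Fin m) ℂ :=
    (Complex.ofRealHom.mapMatrix : Matrix (Fin m) (Fin m) ℝ →+* Matrix (Fin m) (Fin m) ℂ).toMonoidHom.comp XR
  have hX : ∀ g i j, X g i j = ((XR g i j : ℝ) : ℂ) := fun g i j => rfl
  have hchar : (repOf X).character = χ := by
    funext g
    rw [repOf_character, ← h, Matrix.trace]
    have h1 : LinearMap.trace ℝ (Fin m → ℝ) (ρR g) = (XR g).trace := by
      rw [LinearMap.trace_eq_matrix_trace ℝ (Pi.basisFun ℝ (Fin m))]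
      rfl
    rw [h1, Matrix.trace, Complex.ofReal_sum]
    rfl
  have hirr : (repOf X).IsIrreducible := isIrreducible_of_isIrrCharacter _ (by
    rw [hchar]; exact hχ)
  have hreal : ∀ g : G, ((repOf X).character g).im = 0 := by
    intro g
    rw [hchar, ← h]
    exact Complex.ofReal_im _
  obtain ⟨ε, hε, h0, M, hM0, hM, hMT, hMu⟩ := exists_form (repOf X) hirr hreal
  rw [matRep_repOf] at hM hMu
  obtain ⟨H, hH, hHinv⟩ := exists_hermitian X
  have hXH : ∀ g, (X g)ᴴ = (X g)ᵀ := by
    intro g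
    ext i j
    rw [Matrix.conjTranspose_apply, Matrix.transpose_apply, hX]
    simp
  have hA : ∀ g, (X g)ᵀ * (H + Hᵀ) * X g = H + Hᵀ := by
    intro g
    have h1 := hHinv g
    rw [hXH] at h1
    have h2 := congrArg Matrix.transpose h1
    rw [Matrix.transpose_mul, Matrix.transpose_mul, Matrix.transpose_transpose, ← mul_assoc] at h2
    rw [Matrix.mul_add, Matrix.add_mul, h1, h2]
  have hpd : (H + Hᵀ).PosDef := hH.add hH.transpose
  have hm : Nonempty (Fin m) := by
    by_contra hno
    rw [not_nonempty_iff] at hno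
    exact hM0 (Subsingleton.elim _ _)
  have hne : H + Hᵀ ≠ 0 := by
    intro h3
    have h4 := hpd.trace_pos
    rw [h3, Matrix.trace_zero] at h4
    exact lt_irrefl _ h4
  obtain ⟨c, hc⟩ := hMu _ hA
  have hT : (H + Hᵀ)ᵀ = H + Hᵀ := by
    rw [Matrix.transpose_add, Matrix.transpose_transpose, add_comm]
  rw [hchar] at h0
  rw [h0]
  rw [hc, Matrix.transpose_smul, hMT, smul_comm, ← hc] at hT
  have h5 : (ε - 1) • (H + Hᵀ) = 0 := by
    rw [sub_smul, one_smul, hT, sub_self]
  rcases smul_eq_zero.mp h5 with h6 | h6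
  · exact sub_eq_zero.mp h6
  · exact absurd h6 hne

end Cfsg.Agent.Lib.RealStruct
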