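import Cfsg.Agent.Lib.MGroups
import Cfsg.Agent.Lib.CharBasic2
set_option autoImplicit false
open Cfsg Cfsg.Agent.Lib.IndFun
open scoped ComplexConjugate
namespace Cfsg.Agent.Lib.Realize
universe u v w
variable {G : Type u} [Group G]

open Representation Module

section Field

variable {K : Type v} [Field K]

section Transport
variable {V : Type*} [AddCommGroup V] [Module K V]
variable {W : Type*} [AddCommGroup W] [Module K W]

/-- Transport a representation along a linear equivalence. -/
noncomputable def conjRepK (ρ : Representation K G V) (e : V ≃ₗ[K] W) : Representation K G W where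
  toFun g := e.toLinearMap ∘ₗ ρ g ∘ₗ e.symm.toLinearMap
  map_one' := by
    ext x
    simp
  map_mul' a b := by
    ext x
    simp

theorem character_conjRepK (ρ : Representation K G V) (e : V ≃ₗ[K] W) (g : G) :
    (conjRepK ρ e).character g = ρ.character g := by
  change LinearMap.trace K W (e.toLinearMap ∘ₗ ρ g ∘ₗ e.symm.toLinearMap) = _
  exact LinearMap.trace_conj' (ρ g) e

theorem char_prodK [FiniteDimensional K V] [FiniteDimensional K W] (ρ : Representation K G V)
    (σ : Representation K G W) : (ρ.prod σ).character = ρ.character + σ.character := by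
  ext g
  simp only [Representation.character, Pi.add_apply]
  exact LinearMap.trace_prodMap' _ _

/-- Splitting of a representation along complementary subrepresentations. -/
noncomputable def equivOfIsComplK {ρ : Representation K G V} (S T : Subrepresentation ρ)
    (h : IsCompl S.toSubmodule T.toSubmodule) :
    Representation.Equiv (S.toRepresentation.prod T.toRepresentation) ρ :=
  Representation.Equiv.mk (Submodule.prodEquivOfIsCompl _ _ h) (by
    intro g
    apply LinearMap.ext
    rintro ⟨x, y⟩
    simp only [LinearMap.coe_comp, LinearEquiv.coe_coe, Function.comp_apply]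
    change Submodule.prodEquivOfIsCompl _ _ h (S.toRepresentation g x, T.toRepresentation g y) = _
    simp only [Submodule.coe_prodEquivOfIsCompl', map_add]
    rfl)

theorem isCompl_toSubmoduleK {ρ : Representation K G V} {S T : Subrepresentation ρ}
    (h : IsCompl S T) : IsCompl S.toSubmodule T.toSubmodule := by
  constructor
  · rw [disjoint_iff]
    have := disjoint_iff.mp h.1
    have h2 : (S ⊓ T).toSubmodule = (⊥ : Subrepresentation ρ).toSubmodule := by rw [this]
    exact h2
  · rw [codisjoint_iff]
    have := codisjoint_iff.mp h.2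
    have h2 : (S ⊔ T).toSubmodule = (⊤ : Subrepresentation ρ).toSubmodule := by rw [this]
    exact h2

theorem char_eq_addK [FiniteDimensional K V]
    (ρ : Representation K G V) (S T : Subrepresentation ρ)
    (h : IsCompl S.toSubmodule T.toSubmodule) :
    ρ.character = S.toRepresentation.character + T.toRepresentation.character := by
  rw [← char_prodK, char_iso (equivOfIsComplK S T h)]

end Transport

/-- The function `χ` is the character of a representation over the field `K`. -/
def IsKChar (K : Type v) [Field K] [Algebra K ℂ] (χ : G → ℂ) : Prop :=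
  ∃ (n : ℕ) (ρ : Representation K G (Fin n → K)), ∀ g, χ g = algebraMap K ℂ (ρ.character g)

variable [Algebra K ℂ]

theorem isKChar_of_rep {V : Type*} [AddCommGroup V] [Module K V] [FiniteDimensional K V]
    (ρ : Representation K G V) : IsKChar K (fun g => algebraMap K ℂ (ρ.character g)) :=
  ⟨finrank K V, conjRepK ρ (finBasis K V).equivFun, fun g => by rw [character_conjRepK]⟩

theorem isKChar_add {χ ψ : G → ℂ} (hχ : IsKChar K χ) (hψ : IsKChar K ψ) : IsKChar K (χ + ψ) := by
  obtain ⟨n, ρ, h1⟩ := hχ
  obtain ⟨m, σ, h2⟩ := hψ
  have h3 := isKChar_of_rep (ρ.prod σ)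
  convert h3 using 1
  funext g
  rw [char_prodK, Pi.add_apply, Pi.add_apply, h1, h2, map_add]

theorem isKChar_zero : IsKChar K (0 : G → ℂ) := by
  have h3 := isKChar_of_rep (K := K) (Representation.trivial K G (Fin 0 → K))
  convert h3 using 1
  funext g
  have h4 : Representation.character (Representation.trivial K G (Fin 0 → K)) g = 0 := by
    unfold Representation.character
    have : (Representation.trivial K G (Fin 0 → K)) g = 0 := by
      ext x i
      exact i.elim0
    rw [this, map_zero]
  rw [h4, map_zero]
  rfl

/-- The complex representation obtained from a representation over `K` on a coordinate space. -/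
noncomputable def extRep {n : ℕ} (ρ : Representation K G (Fin n → K)) :
    Representation ℂ G (Fin n → ℂ) where
  toFun g := Matrix.toLin' ((LinearMap.toMatrix' (ρ g)).map (algebraMap K ℂ))
  map_one' := by
    rw [map_one, LinearMap.toMatrix'_one, Matrix.map_one _ (map_zero _) (map_one _), Matrix.toLin'_one]
    rfl
  map_mul' a b := by
    rw [map_mul, LinearMap.toMatrix'_mul, Matrix.map_mul, Matrix.toLin'_mul]
    rfl

theorem extRep_character {n : ℕ} (ρ : Representation K G (Fin n → K)) (g : G) :
    (extRep ρ).character g = algebraMap K ℂ (ρ.character g) := by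
  change LinearMap.trace ℂ (Fin n → ℂ) (Matrix.toLin' ((LinearMap.toMatrix' (ρ g)).map (algebraMap K ℂ))) = _
  rw [Matrix.trace_toLin'_eq]
  change Matrix.trace ((algebraMap K ℂ).mapMatrix (LinearMap.toMatrix' (ρ g))) = _
  have h1 : Matrix.trace ((algebraMap K ℂ).mapMatrix (LinearMap.toMatrix' (ρ g))) =
      algebraMap K ℂ (Matrix.trace (LinearMap.toMatrix' (ρ g))) := by
    simp only [Matrix.trace, Matrix.diag_apply, RingHom.mapMatrix_apply, Matrix.map_apply, map_sum]
  rw [h1, Representation.character, ← Matrix.trace_toLin'_eq, Matrix.toLin'_toMatrix']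

theorem isCharacter_of_isKChar {χ : G → ℂ} (hχ : IsKChar K χ) : IsCharacter G χ := by
  obtain ⟨n, ρ, h⟩ := hχ
  exact ⟨n, extRep ρ, by funext g; rw [extRep_character, h]⟩

/-- Inner products of `K`-characters. -/
theorem classInner_isKChar [Fintype G] {V W : Type*} [AddCommGroup V] [Module K V]
    [FiniteDimensional K V] [AddCommGroup W] [Module K W] [FiniteDimensional K W]
    (ρ : Representation K G V) (σ : Representation K G W) :
    classInner (fun g => algebraMap K ℂ (σ.character g)) (fun g => algebraMap K ℂ (ρ.character g)) =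
      (finrank K (IntertwiningMap ρ σ) : ℂ) := by
  have hinj := (algebraMap K ℂ).injective
  have hcard : (Nat.card G : K) ≠ 0 := by
    intro h
    have h2 := congrArg (algebraMap K ℂ) h
    rw [map_natCast, map_zero] at h2
    exact (Nat.cast_ne_zero.mpr Nat.card_pos.ne') h2
  have : Invertible (Nat.card G : K) := invertibleOfNonzero hcard
  have h1 := card_inv_mul_sum_char_mul_char_eq_finrank (k := K) ρ σ
  have h2 := congrArg (algebraMap K ℂ) h1
  rw [map_natCast, map_mul, map_inv₀, map_natCast, map_sum] at h2
  rw [← h2]
  unfold classInner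
  congr 1
  refine Finset.sum_congr rfl fun g _ => ?_
  rw [map_mul, (isCharacter_of_isKChar (isKChar_of_rep ρ)).inv]

theorem isKChar_of_sub_aux [Finite G] {χ : G → ℂ} (hχ : IsIrrCharacter G χ) (N : ℕ) :
    ∀ (n m : ℕ) (ρ : Representation K G (Fin n → K)) (σ : Representation K G (Fin m → K)),
      n + m ≤ N →
      (∀ g, χ g = algebraMap K ℂ (ρ.character g) - algebraMap K ℂ (σ.character g)) →
      IsKChar K χ := by
  classical
  have : Fintype G := Fintype.ofFinite G
  have hcard : (Nat.card G : K) ≠ 0 := by
    intro h
    have h2 := congrArg (algebraMap K ℂ) h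
    rw [map_natCast, map_zero] at h2
    exact (Nat.cast_ne_zero.mpr Nat.card_pos.ne') h2
  have hne : NeZero (Nat.card G : K) := ⟨hcard⟩
  induction N with
  | zero =>
    intro n m ρ σ hnm hsub
    exfalso
    have hn : n = 0 := by omega
    have hm : m = 0 := by omega
    subst hn hm
    apply hχ.one_ne_zero
    rw [hsub 1]
    simp [Representation.char_one]
  | succ N ih =>
    intro n m ρ σ hnm hsub
    by_cases hf : ∀ f : IntertwiningMap σ ρ, f = 0
    · -- the characters are orthogonal
      have hss : Subsingleton (IntertwiningMap σ ρ) := ⟨fun a b => by rw [hf a, hf b]⟩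
      set χ1 : G → ℂ := fun g => algebraMap K ℂ (ρ.character g) with hχ1
      set χ2 : G → ℂ := fun g => algebraMap K ℂ (σ.character g) with hχ2
      have h12 : classInner χ1 χ2 = 0 := by
        rw [hχ1, hχ2, classInner_isKChar σ ρ, finrank_zero_of_subsingleton, Nat.cast_zero]
      have h21 : classInner χ2 χ1 = 0 := by
        rw [← classInner_conj_symm, h12, map_zero]
      have hχeq : χ = χ1 - χ2 := by funext g; exact hsub g
      have h1 := hχ.classInner_self
      rw [hχeq, classInner_sub_left, classInner_sub_right, classInner_sub_right, h12, h21] at h1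
      have c1 := isCharacter_of_isKChar (isKChar_of_rep ρ)
      have c2 := isCharacter_of_isKChar (isKChar_of_rep σ)
      obtain ⟨a, ha⟩ := c1.classInner_nat c1
      obtain ⟨b, hb⟩ := c2.classInner_nat c2
      rw [ha, hb] at h1
      have h3 : a + b = 1 := by
        have h4 : ((a + b : ℕ) : ℂ) = 1 := by push_cast; rw [← h1]; ring
        exact_mod_cast h4
      rcases Nat.eq_zero_or_pos b with hb0 | hb0
      · rw [hb0, Nat.cast_zero] at hb
        have h5 : χ2 = 0 := CharBasic.classInner_self_eq_zero.mp hb
        rw [hχeq, h5, sub_zero]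
        exact isKChar_of_rep ρ
      · have ha0 : a = 0 := by omega
        rw [ha0, Nat.cast_zero] at ha
        have h5 : χ1 = 0 := CharBasic.classInner_self_eq_zero.mp ha
        exfalso
        obtain ⟨d, hd0, hd⟩ := hχ.exists_degree
        obtain ⟨d2, hd2⟩ := c2.exists_degree
        rw [hχeq, h5, zero_sub, Pi.neg_apply] at hd
        have h6 : χ2 1 = (d2 : ℂ) := hd2
        rw [h6] at hd
        have h7 : ((d + d2 : ℕ) : ℂ) = 0 := by push_cast; rw [← hd]; ring
        have h8 : d + d2 = 0 := by exact_mod_cast h7
        omega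
    · push Not at hf
      obtain ⟨f, hf⟩ := hf
      -- kernel and range
      let S2 : Subrepresentation σ := ⟨LinearMap.ker f.toLinearMap, fun g v hv => by
        rw [LinearMap.mem_ker] at hv ⊢
        have h1 := IntertwiningMap.isIntertwining _ _ f g v
        rw [IntertwiningMap.toLinearMap_apply] at hv ⊢
        rw [h1, hv, map_zero]⟩
      let S1 : Subrepresentation ρ := ⟨LinearMap.range f.toLinearMap, fun g v hv => by
        obtain ⟨w, rfl⟩ := hv
        exact ⟨σ g w, IntertwiningMap.isIntertwining _ _ f g w⟩⟩
      obtain ⟨T2, hT2⟩ := exists_isCompl S2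
      obtain ⟨T1, hT1⟩ := exists_isCompl S1
      have hc2 := isCompl_toSubmoduleK hT2
      have hc1 := isCompl_toSubmoduleK hT1
      have e2 := char_eq_addK σ S2 T2 hc2
      have e1 := char_eq_addK ρ S1 T1 hc1
      -- T2 is equivalent to S1
      let φ : T2.toSubmodule →ₗ[K] S1.toSubmodule :=
        (f.toLinearMap.comp T2.toSubmodule.subtype).codRestrict _ (fun x => ⟨(x : Fin m → K), rfl⟩)
      have hφinj : Function.Injective φ := by
        rw [← LinearMap.ker_eq_bot, LinearMap.ker_eq_bot']
        intro x hx
        have h1 : f.toLinearMap (x : Fin m → K) = 0 := congrArg Subtype.val hx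
        have h2 : (x : Fin m → K) ∈ S2.toSubmodule ⊓ T2.toSubmodule := ⟨h1, x.2⟩
        rw [hc2.inf_eq_bot] at h2
        exact Subtype.ext ((Submodule.mem_bot K).mp h2)
      have hφsurj : Function.Surjective φ := by
        rintro ⟨_, w, rfl⟩
        have h1 : w ∈ S2.toSubmodule ⊔ T2.toSubmodule := by rw [hc2.sup_eq_top]; trivial
        obtain ⟨a, ha, b, hb, rfl⟩ := Submodule.mem_sup.mp h1
        refine ⟨⟨b, hb⟩, ?_⟩
        apply Subtype.ext
        have h2 : f.toLinearMap a = 0 := ha
        change f.toLinearMap b = f.toLinearMap (a + b)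
        rw [map_add, h2, zero_add]
      let E : Representation.Equiv T2.toRepresentation S1.toRepresentation :=
        Representation.Equiv.mk (LinearEquiv.ofBijective φ ⟨hφinj, hφsurj⟩) (by
          intro g
          apply LinearMap.ext
          intro x
          apply Subtype.ext
          exact IntertwiningMap.isIntertwining _ _ f g (x : Fin m → K))
      have e3 : T2.toRepresentation.character = S1.toRepresentation.character := char_iso E
      have d1 : finrank K S1.toSubmodule + finrank K T1.toSubmodule = n := by
        rw [Submodule.finrank_add_eq_of_isCompl hc1]; simp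
      have d2 : finrank K S2.toSubmodule + finrank K T2.toSubmodule = m := by
        rw [Submodule.finrank_add_eq_of_isCompl hc2]; simp
      have d3 : finrank K T2.toSubmodule = finrank K S1.toSubmodule :=
        LinearEquiv.finrank_eq (LinearEquiv.ofBijective φ ⟨hφinj, hφsurj⟩)
      have d4 : 0 < finrank K S1.toSubmodule := by
        rw [Nat.pos_iff_ne_zero]
        intro h
        rw [Submodule.finrank_eq_zero] at h
        apply hf
        apply IntertwiningMap.ext
        have h5 : LinearMap.range f.toLinearMap = ⊥ := h
        rw [LinearMap.range_eq_bot] at h5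
        exact h5
      refine ih (finrank K T1.toSubmodule) (finrank K S2.toSubmodule)
        (conjRepK T1.toRepresentation (finBasis K T1.toSubmodule).equivFun)
        (conjRepK S2.toRepresentation (finBasis K S2.toSubmodule).equivFun) (by omega) ?_
      intro g
      rw [hsub g, e1, e2, character_conjRepK, character_conjRepK, e3, Pi.add_apply, Pi.add_apply,
        map_add, map_add]
      ring

/-- An irreducible character which is a difference of two characters realised over `K` is realised
over `K`. -/
theorem isKChar_of_sub [Finite G] {χ α β : G → ℂ} (hχ : IsIrrCharacter G χ) (hα : IsKChar K α)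
    (hβ : IsKChar K β) (h : χ = α - β) : IsKChar K χ := by
  obtain ⟨n, ρ, h1⟩ := hα
  obtain ⟨m, σ, h2⟩ := hβ
  refine isKChar_of_sub_aux hχ (n + m) n m ρ σ le_rfl fun g => ?_
  rw [h, Pi.sub_apply, h1, h2]

/-! ### induced linear characters -/

/-- left translation -/
def transRep (K : Type v) [Field K] (G : Type u) [Group G] : Representation K G (G → K) where
  toFun g :=
    { toFun := fun f x => f (g⁻¹ * x)
      map_add' := fun _ _ => rfl
      map_smul' := fun _ _ => rfl }
  map_one' := by ext; simp
  map_mul' a b := by
    apply LinearMap.ext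
    intro f
    funext x
    change f ((a * b)⁻¹ * x) = f (b⁻¹ * (a⁻¹ * x))
    rw [mul_inv_rev, mul_assoc]

omit [Algebra K ℂ] in
theorem transRep_apply (g : G) (f : G → K) (x : G) : transRep K G g f x = f (g⁻¹ * x) := rfl

/-- the projection attached to a linear character of `H`. -/
noncomputable def proj [Fintype G] (H : Subgroup G) [Fintype H] (lam : H → K) :
    (G → K) →ₗ[K] (G → K) where
  toFun f x := (Nat.card H : K)⁻¹ * ∑ h : H, lam h * f (x * h)
  map_add' a b := by
    funext x
    simp only [Pi.add_apply, mul_add, Finset.sum_add_distrib]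
  map_smul' c a := by
    funext x
    simp only [Pi.smul_apply, smul_eq_mul, RingHom.id_apply, Finset.mul_sum]
    refine Finset.sum_congr rfl fun h _ => ?_
    ring

theorem isKChar_indFun_hom [Fintype G] (H : Subgroup G) (lam : H →* Kˣ) :
    IsKChar K (indFun H (fun h => algebraMap K ℂ (lam h : K))) := by
  classical
  have : Fintype H := Fintype.ofFinite H
  have hcard : (Nat.card H : K) ≠ 0 := by
    intro h
    have h2 := congrArg (algebraMap K ℂ) h
    rw [map_natCast, map_zero] at h2
    exact (Nat.cast_ne_zero.mpr Nat.card_pos.ne') h2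
  let P := proj H (fun h => (lam h : K))
  have hP : ∀ f x, P f x = (Nat.card H : K)⁻¹ * ∑ h : H, (lam h : K) * f (x * h) := fun _ _ => rfl
  have hPP : ∀ f, P (P f) = P f := by
    intro f
    funext x
    rw [hP, hP]
    congr 1
    simp only [hP]
    have h1 : ∀ h : H, (lam h : K) * ((Nat.card H : K)⁻¹ * ∑ k : H, (lam k : K) * f (x * h * k)) =
        (Nat.card H : K)⁻¹ * ∑ k : H, (lam k : K) * f (x * k) := by
      intro h
      rw [mul_left_comm, Finset.mul_sum]
      congr 1
      refine Fintype.sum_equiv (Equiv.mulLeft h) _ _ ?_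
      intro k
      simp only [Equiv.coe_mulLeft, map_mul, Units.val_mul, Subgroup.coe_mul, mul_assoc]
    rw [Finset.sum_congr rfl (fun h _ => h1 h), Finset.sum_const, Finset.card_univ, nsmul_eq_mul,
      ← Nat.card_eq_fintype_card, mul_inv_cancel_left₀ hcard]
  have hcomm : ∀ g f, P (transRep K G g f) = transRep K G g (P f) := by
    intro g f
    funext x
    rw [hP, transRep_apply, hP]
    congr 1
    refine Finset.sum_congr rfl fun h _ => ?_
    rw [transRep_apply, mul_assoc]
  let W : Subrepresentation (transRep K G) := ⟨LinearMap.range P, fun g v hv => by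
    obtain ⟨w, rfl⟩ := hv
    exact ⟨transRep K G g w, hcomm g w⟩⟩
  have hchar : ∀ g, W.toRepresentation.character g =
      LinearMap.trace K (G → K) ((transRep K G g).comp P) := by
    intro g
    let B : (G → K) →ₗ[K] W.toSubmodule := P.codRestrict _ (fun x => ⟨x, rfl⟩)
    have h1 : W.toRepresentation g = B ∘ₗ ((transRep K G g) ∘ₗ W.toSubmodule.subtype) := by
      apply LinearMap.ext
      rintro ⟨_, w, rfl⟩
      apply Subtype.ext
      change transRep K G g (P w) = P (transRep K G g (P w))
      rw [hcomm, hPP]
    have h2 : W.toSubmodule.subtype ∘ₗ B = P := rfl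
    rw [Representation.character, h1, LinearMap.trace_comp_comm', LinearMap.comp_assoc, h2]
  have htr : ∀ g, LinearMap.trace K (G → K) ((transRep K G g).comp P) =
      (Nat.card H : K)⁻¹ * ∑ x : G, if hx : x⁻¹ * g * x ∈ H then (lam ⟨_, hx⟩ : K) else 0 := by
    intro g
    rw [LinearMap.trace_eq_matrix_trace K (Pi.basisFun K G), Matrix.trace, Finset.mul_sum]
    refine Finset.sum_congr rfl fun x _ => ?_
    rw [Matrix.diag_apply, LinearMap.toMatrix_apply]
    simp only [Pi.basisFun_apply, Pi.basisFun_repr, LinearMap.comp_apply]
    rw [transRep_apply, hP]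
    congr 1
    have h3 : ∀ h : H, (lam h : K) * (Pi.single x (1 : K) : G → K) (g⁻¹ * x * h) =
        if (h : G) = x⁻¹ * g * x then (lam h : K) else 0 := by
      intro h
      have h4 : g⁻¹ * x * (h : G) = x ↔ (h : G) = x⁻¹ * g * x := by
        constructor
        · intro h5
          calc (h : G) = x⁻¹ * g * (g⁻¹ * x * h) := by group
            _ = x⁻¹ * g * x := by rw [h5]
        · intro h5; rw [h5]; group
      rw [Pi.single_apply]
      by_cases h5 : (h : G) = x⁻¹ * g * x
      · rw [if_pos (h4.mpr h5), if_pos h5, mul_one]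
      · rw [if_neg (fun h6 => h5 (h4.mp h6)), if_neg h5, mul_zero]
    rw [Finset.sum_congr rfl (fun h _ => h3 h)]
    split_ifs with hx
    · rw [Finset.sum_eq_single ⟨_, hx⟩]
      · simp
      · intro b _ hb
        rw [if_neg (fun h5 => hb (Subtype.ext h5))]
      · intro h; exact absurd (Finset.mem_univ _) h
    · refine Finset.sum_eq_zero fun h _ => ?_
      rw [if_neg]
      intro h5
      exact hx (h5 ▸ h.2)
  have h := isKChar_of_rep (K := K) W.toRepresentation
  convert h using 1
  funext g
  rw [hchar, htr, map_mul, map_inv₀, map_natCast, map_sum, indFun_apply]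
  congr 1
  refine Finset.sum_congr rfl fun x _ => ?_
  by_cases hx : x⁻¹ * g * x ∈ H
  · rw [extendByZero_mem _ _ hx, dif_pos hx]
  · rw [extendByZero_not_mem _ _ hx, dif_neg hx, map_zero]

theorem isKChar_sum {ι : Type*} (s : Finset ι) (f : ι → G → ℂ) (h : ∀ i ∈ s, IsKChar K (f i)) :
    IsKChar K (∑ i ∈ s, f i) := by
  classical
  induction s using Finset.induction_on with
  | empty => simpa using isKChar_zero
  | insert a s ha ih =>
    rw [Finset.sum_insert ha]
    exact isKChar_add (h a (Finset.mem_insert_self _ _))
      (ih fun i hi => h i (Finset.mem_insert_of_mem hi))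

theorem isKChar_nsmul {χ : G → ℂ} (h : IsKChar K χ) (n : ℕ) : IsKChar K (n • χ) := by
  induction n with
  | zero => simpa using isKChar_zero
  | succ n ih => rw [succ_nsmul]; exact isKChar_add ih h

/-- **Brauer's splitting field theorem**, for characters. -/
theorem isKChar_of_isCharacter [Finite G]
    (hroots : ∀ z : ℂ, z ^ Monoid.exponent G = 1 → ∃ k : K, algebraMap K ℂ k = z)
    {χ : G → ℂ} (hχ : IsCharacter G χ) : IsKChar K χ := by
  classical
  have : Fintype G := Fintype.ofFinite G
  have hirr : ∀ ψ : G → ℂ, IsIrrCharacter G ψ → IsKChar K ψ := by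
    intro ψ hψ
    have h := MGroups.mem_closure_linInd hψ.isCharacter
    have key : ∃ α β : G → ℂ, IsKChar K α ∧ IsKChar K β ∧ ψ = α - β := by
      clear hχ hψ
      induction h using AddSubgroup.closure_induction with
      | mem F hF =>
        obtain ⟨E, -, lam, rfl⟩ := hF
        have hex : ∀ e : E, ∃ k : K, algebraMap K ℂ k = (lam e : ℂ) := by
          intro e
          apply hroots
          rw [← Units.val_pow_eq_pow_val, ← map_pow]
          have h1 : e ^ Monoid.exponent G = 1 := by
            apply Subtype.ext
            rw [Subgroup.coe_pow, Monoid.pow_exponent_eq_one, Subgroup.coe_one]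
          rw [h1, map_one, Units.val_one]
        choose k hk using hex
        have hinj := (algebraMap K ℂ).injective
        let φ : E →* K :=
          { toFun := k
            map_one' := by apply hinj; rw [hk, map_one, map_one, Units.val_one]
            map_mul' := fun a b => by
              apply hinj
              rw [hk, map_mul, map_mul, hk, hk, Units.val_mul] }
        have h2 := isKChar_indFun_hom (K := K) E φ.toHomUnits
        refine ⟨_, 0, h2, isKChar_zero, ?_⟩
        rw [sub_zero]
        congr 1
        funext e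
        exact (hk e).symm
      | zero => exact ⟨0, 0, isKChar_zero, isKChar_zero, by simp⟩
      | add a b _ _ ha hb =>
        obtain ⟨α, β, hα, hβ, rfl⟩ := ha
        obtain ⟨α', β', hα', hβ', rfl⟩ := hb
        exact ⟨α + α', β + β', isKChar_add hα hα', isKChar_add hβ hβ', by abel⟩
      | neg a _ ha =>
        obtain ⟨α, β, hα, hβ, rfl⟩ := ha
        exact ⟨β, α, hβ, hα, by abel⟩
    obtain ⟨α, β, hα, hβ, h1⟩ := key
    exact isKChar_of_sub hψ hα hβ h1
  obtain ⟨c, hc, hsum⟩ := hχ.exists_coeff
  rw [hsum]
  apply isKChar_sum
  intro ψ _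
  have h1 : (c ψ : ℂ) • (ψ : G → ℂ) = c ψ • (ψ : G → ℂ) := Nat.cast_smul_eq_nsmul ℂ _ _
  rw [h1]
  exact isKChar_nsmul (hirr ψ ψ.2) _

/-- **Brauer's splitting field theorem**, for representations. -/
theorem exists_equiv_extRep [Finite G]
    (hroots : ∀ z : ℂ, z ^ Monoid.exponent G = 1 → ∃ k : K, algebraMap K ℂ k = z)
    {n : ℕ} (ρ : Representation ℂ G (Fin n → ℂ)) :
    ∃ σ : Representation K G (Fin n → K), Nonempty (ρ.Equiv (extRep σ)) := by
  obtain ⟨m, σ, h⟩ := isKChar_of_isCharacter hroots (CharBasic.isCharacter_of_rep ρ)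
  have h1 : ρ.character = (extRep σ).character := by
    funext g
    rw [h, extRep_character]
  have hnm : n = m := by
    have h2 := congrFun h1 1
    rw [Representation.char_one, Representation.char_one] at h2
    simp only [finrank_fintype_fun_eq_card, Fintype.card_fin] at h2
    exact_mod_cast h2
  subst hnm
  exact ⟨σ, CharBasic.equiv_of_character_eq _ _ h1⟩

end Field

theorem splitting_field [Finite G] (n : ℕ) (ρ : Representation ℂ G (Fin n → ℂ)) :
    ∃ σ : Representation ℂ G (Fin n → ℂ), Nonempty (ρ.Equiv σ) ∧
      ∀ g : G, ∀ i j : Fin n, LinearMap.toMatrix' (σ g) i j ∈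
        Algebra.adjoin ℚ ({Complex.exp (2 * Real.pi * Complex.I / (Monoid.exponent G : ℂ))} : Set ℂ) := by
  set m := Monoid.exponent G with hm
  have hm0 : m ≠ 0 := Monoid.exponent_ne_zero_of_finite
  set ζ := Complex.exp (2 * Real.pi * Complex.I / (m : ℂ)) with hζ
  have hprim : IsPrimitiveRoot ζ m := Complex.isPrimitiveRoot_exp m hm0
  let K := IntermediateField.adjoin ℚ {ζ}
  have hroots : ∀ z : ℂ, z ^ m = 1 → ∃ k : K, algebraMap K ℂ k = z := by
    intro z hz
    have : NeZero m := ⟨hm0⟩
    obtain ⟨i, _, hi⟩ := hprim.eq_pow_of_pow_eq_one hz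
    refine ⟨⟨z, ?_⟩, rfl⟩
    rw [← hi]
    exact pow_mem (IntermediateField.mem_adjoin_simple_self ℚ ζ) i
  obtain ⟨σ, hσ⟩ := exists_equiv_extRep (K := K) hroots ρ
  refine ⟨extRep σ, hσ, ?_⟩
  intro g i j
  have hint : IsIntegral ℚ ζ := (hprim.isIntegral (Nat.pos_of_ne_zero hm0)).tower_top
  have h1 : LinearMap.toMatrix' ((extRep σ) g) = (LinearMap.toMatrix' (σ g)).map (algebraMap K ℂ) := by
    change LinearMap.toMatrix' (Matrix.toLin' _) = _
    rw [LinearMap.toMatrix'_toLin']
  rw [h1, Matrix.map_apply]
  have h2 := (LinearMap.toMatrix' (σ g) i j).2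
  rw [← IntermediateField.mem_toSubalgebra, IntermediateField.adjoin_simple_toSubalgebra_of_isAlgebraic hint.isAlgebraic] at h2
  exact h2

end Cfsg.Agent.Lib.Realize
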