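import Mathlib.LinearAlgebra.Matrix.GeneralLinearGroup.Defs
import Mathlib.LinearAlgebra.Matrix.ToLin
import Mathlib.GroupTheory.OrderOfElement
import Mathlib.Data.ZMod.Basic
import Mathlib.Tactic

/-!
Certifying that explicit `2 × 2` matrices over a prime field generate a group that is regular on
the non-zero vectors (helper12).
-/

set_option autoImplicit false

namespace Cfsg.Agent.Lib.RegMat

open Matrix

variable {q : ℕ} [hq : Fact q.Prime]

/-- explicit matrices -/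
def toM (q : ℕ) (t : ℕ × ℕ × ℕ × ℕ) : Matrix (Fin 2) (Fin 2) (ZMod q) :=
  !![(t.1 : ZMod q), (t.2.1 : ZMod q); (t.2.2.1 : ZMod q), (t.2.2.2 : ZMod q)]

/-- explicit multiplication -/
def mulN (q : ℕ) (s t : ℕ × ℕ × ℕ × ℕ) : ℕ × ℕ × ℕ × ℕ :=
  ((s.1 * t.1 + s.2.1 * t.2.2.1) % q, (s.1 * t.2.1 + s.2.1 * t.2.2.2) % q,
    (s.2.2.1 * t.1 + s.2.2.2 * t.2.2.1) % q, (s.2.2.1 * t.2.1 + s.2.2.2 * t.2.2.2) % q)

theorem toM_mul (s t : ℕ × ℕ × ℕ × ℕ) : toM q (mulN q s t) = toM q s * toM q t := by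
  ext i j
  fin_cases i <;> fin_cases j <;>
    simp [toM, mulN, Matrix.mul_apply, Fin.sum_univ_two, ZMod.natCast_mod]

theorem toM_one : toM q (1, 0, 0, 1) = 1 := by
  ext i j
  fin_cases i <;> fin_cases j <;> simp [toM]

/-- explicit vectors -/
def toV (q : ℕ) (v : ℕ × ℕ) : Fin 2 → ZMod q := ![(v.1 : ZMod q), (v.2 : ZMod q)]

/-- explicit action -/
def actN (q : ℕ) (s : ℕ × ℕ × ℕ × ℕ) (v : ℕ × ℕ) : ℕ × ℕ :=
  ((s.1 * v.1 + s.2.1 * v.2) % q, (s.2.2.1 * v.1 + s.2.2.2 * v.2) % q)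

theorem toV_act (s : ℕ × ℕ × ℕ × ℕ) (v : ℕ × ℕ) :
    toV q (actN q s v) = (toM q s).mulVec (toV q v) := by
  ext i
  fin_cases i <;>
    simp [toM, toV, actN, Matrix.mulVec, dotProduct, Fin.sum_univ_two, ZMod.natCast_mod]

/-- upper bound for a generated group. -/
theorem closure_subset (S : Set (GeneralLinearGroup (Fin 2) (ZMod q)))
    (F : Finset (Matrix (Fin 2) (Fin 2) (ZMod q))) (h1 : (1 : Matrix (Fin 2) (Fin 2) (ZMod q)) ∈ F)
    (hS : ∀ g ∈ S, ∀ m ∈ F, (g : Matrix (Fin 2) (Fin 2) (ZMod q)) * m ∈ F) :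
    ∀ h ∈ Subgroup.closure S, (h : Matrix (Fin 2) (Fin 2) (ZMod q)) ∈ F := by
  intro h hh
  have hh' : h ∈ Submonoid.closure S := by
    rw [← Subgroup.closure_toSubmonoid_of_finite]; exact hh
  induction hh' using Submonoid.closure_induction_left with
  | one => exact h1
  | mul_left x hx y hy ih =>
    have := ih (by rw [← Subgroup.closure_toSubmonoid_of_finite] at hy; exact hy)
    exact hS x hx _ this

theorem card_closure_le (S : Set (GeneralLinearGroup (Fin 2) (ZMod q)))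
    (F : Finset (Matrix (Fin 2) (Fin 2) (ZMod q))) (h1 : (1 : Matrix (Fin 2) (Fin 2) (ZMod q)) ∈ F)
    (hS : ∀ g ∈ S, ∀ m ∈ F, (g : Matrix (Fin 2) (Fin 2) (ZMod q)) * m ∈ F) :
    Nat.card (Subgroup.closure S) ≤ F.card := by
  have h2 := closure_subset S F h1 hS
  have hinj : Function.Injective (fun h : Subgroup.closure S =>
      (⟨((h : GeneralLinearGroup (Fin 2) (ZMod q)) : Matrix (Fin 2) (Fin 2) (ZMod q)),
        h2 h h.2⟩ : F)) := by
    intro a b hab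
    apply Subtype.ext
    apply Units.ext
    exact congrArg Subtype.val hab
  have := Nat.card_le_card_of_injective _ hinj
  rwa [Nat.card_eq_fintype_card (α := F), Fintype.card_coe] at this

/-- certificate for regularity. -/
theorem regular (S : Set (GeneralLinearGroup (Fin 2) (ZMod q)))
    (hcard : Nat.card (Subgroup.closure S) ≤ q ^ 2 - 1)
    (e : Fin 2 → ZMod q) (he : e ≠ 0)
    (hreach : ∀ v : Fin 2 → ZMod q, v ≠ 0 → ∃ h ∈ Subgroup.closure S,
      (h : Matrix (Fin 2) (Fin 2) (ZMod q)).mulVec e = v) :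
    Nat.card (Subgroup.closure S) = q ^ 2 - 1 ∧
    ∀ v w : Fin 2 → ZMod q, v ≠ 0 → w ≠ 0 → ∃! h : Subgroup.closure S,
      ((h : GeneralLinearGroup (Fin 2) (ZMod q)) : Matrix (Fin 2) (Fin 2) (ZMod q)).mulVec v = w := by
  classical
  have hne : ∀ (h : GeneralLinearGroup (Fin 2) (ZMod q)) (v : Fin 2 → ZMod q), v ≠ 0 →
      (h : Matrix (Fin 2) (Fin 2) (ZMod q)).mulVec v ≠ 0 := by
    intro h v hv hc
    apply hv
    have : ((h⁻¹ : GeneralLinearGroup (Fin 2) (ZMod q)) :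
        Matrix (Fin 2) (Fin 2) (ZMod q)).mulVec ((h : Matrix (Fin 2) (Fin 2) (ZMod q)).mulVec v) = v := by
      rw [Matrix.mulVec_mulVec, ← Units.val_mul, inv_mul_cancel, Units.val_one, Matrix.one_mulVec]
    rw [← this, hc, Matrix.mulVec_zero]
  let φ : Subgroup.closure S → {v : Fin 2 → ZMod q // v ≠ 0} := fun h =>
    ⟨((h : GeneralLinearGroup (Fin 2) (ZMod q)) : Matrix (Fin 2) (Fin 2) (ZMod q)).mulVec e,
      hne _ _ he⟩
  have hsurj : Function.Surjective φ := by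
    intro ⟨v, hv⟩
    obtain ⟨h, hh, hhv⟩ := hreach v hv
    exact ⟨⟨h, hh⟩, Subtype.ext hhv⟩
  have hVcard : Nat.card {v : Fin 2 → ZMod q // v ≠ 0} = q ^ 2 - 1 := by
    rw [Nat.card_eq_fintype_card, Fintype.card_subtype_compl, Fintype.card_pi]
    simp [ZMod.card]
  have hle := Nat.card_le_card_of_surjective φ hsurj
  rw [hVcard] at hle
  have heq : Nat.card (Subgroup.closure S) = q ^ 2 - 1 := le_antisymm hcard hle
  have hbij : Function.Bijective φ :=
    (Nat.bijective_iff_surjective_and_card φ).mpr ⟨hsurj, by rw [heq, hVcard]⟩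
  refine ⟨heq, ?_⟩
  intro v w hv hw
  obtain ⟨h1, hh1, hh1v⟩ := hreach v hv
  obtain ⟨h2, hh2, hh2w⟩ := hreach w hw
  have h1inv : ((h1⁻¹ : GeneralLinearGroup (Fin 2) (ZMod q)) :
        Matrix (Fin 2) (Fin 2) (ZMod q)).mulVec v = e := by
    rw [← hh1v, Matrix.mulVec_mulVec, ← Units.val_mul, inv_mul_cancel, Units.val_one,
      Matrix.one_mulVec]
  refine ⟨⟨h2 * h1⁻¹, mul_mem hh2 (inv_mem hh1)⟩, ?_, ?_⟩
  · show ((h2 * h1⁻¹ : GeneralLinearGroup (Fin 2) (ZMod q)) :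
        Matrix (Fin 2) (Fin 2) (ZMod q)).mulVec v = w
    rw [Units.val_mul, ← Matrix.mulVec_mulVec, h1inv, hh2w]
  · intro k hk
    have h3 : φ (k * ⟨h1, hh1⟩) = φ ⟨h2, hh2⟩ := by
      apply Subtype.ext
      show ((k * h1 : GeneralLinearGroup (Fin 2) (ZMod q)) :
        Matrix (Fin 2) (Fin 2) (ZMod q)).mulVec e = (h2 : Matrix (Fin 2) (Fin 2) (ZMod q)).mulVec e
      rw [Units.val_mul, ← Matrix.mulVec_mulVec, hh1v, hh2w]
      exact hk
    have h4 := hbij.1 h3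
    have h5 : k = ⟨h2, hh2⟩ * (⟨h1, hh1⟩ : Subgroup.closure S)⁻¹ := by
      rw [← h4]; group
    exact h5

/-- words act. -/
theorem word_mem {n : ℕ} (S : Set (GeneralLinearGroup (Fin 2) (ZMod q)))
    (gen : Fin n → GeneralLinearGroup (Fin 2) (ZMod q)) (hgen : ∀ i, gen i ∈ S)
    (genN : Fin n → ℕ × ℕ × ℕ × ℕ)
    (hg : ∀ i, (gen i : Matrix (Fin 2) (Fin 2) (ZMod q)) = toM q (genN i)) (w : List (Fin n))
    (v : ℕ × ℕ) : ∃ h ∈ Subgroup.closure S,
      (h : Matrix (Fin 2) (Fin 2) (ZMod q)).mulVec (toV q v) =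
        toV q (w.foldr (fun i u => actN q (genN i) u) v) := by
  induction w with
  | nil => exact ⟨1, one_mem _, by simp⟩
  | cons i w ih =>
    obtain ⟨h, hh, hhv⟩ := ih
    refine ⟨gen i * h, mul_mem (Subgroup.subset_closure (hgen i)) hh, ?_⟩
    rw [Units.val_mul, ← Matrix.mulVec_mulVec, hhv, hg, List.foldr_cons, toV_act]

/-- every vector is explicit. -/
theorem exists_toV (v : Fin 2 → ZMod q) : ∃ a < q, ∃ b < q, v = toV q (a, b) := by
  have : NeZero q := ⟨hq.out.ne_zero⟩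
  refine ⟨(v 0).val, ZMod.val_lt _, (v 1).val, ZMod.val_lt _, ?_⟩
  ext i
  fin_cases i <;> simp [toV]

theorem e1_ne : toV q (1, 0) ≠ 0 := by
  intro h
  have h1 := congrFun h 0
  simp [toV] at h1

theorem toV_zero : toV q (0, 0) = 0 := by
  ext i
  fin_cases i <;> simp [toV]

end Cfsg.Agent.Lib.RegMat
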