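import Mathlib
import Cfsg.Agent.Lib.RegNil
import Cfsg.Agent.Lib.LinAux

set_option autoImplicit false

/-! More on regular nilpotent endomorphisms: the centraliser, determinants, a standard model (helper43). -/

namespace Cfsg.Agent.Lib.RegNil2

open Module Cfsg.Agent.Lib.RegNil

variable {F V : Type*} [Field F] [AddCommGroup V] [Module F V] [FiniteDimensional F V] {n : ℕ}

/-- determinant of scalar plus nilpotent -/
theorem det_smul_one_add (a : F) (M : Module.End F V) (hM : IsNilpotent M) :
    LinearMap.det (a • (1 : Module.End F V) + M) = a ^ finrank F V := by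
  have h1 : IsNilpotent (-M) := hM.neg
  have h2 := LinearMap.eval_charpoly (-M) a
  rw [IsNilpotent.charpoly_eq_X_pow_finrank h1] at h2
  simp only [Polynomial.eval_pow, Polynomial.eval_X, sub_neg_eq_add] at h2
  rw [h2]
  rfl

/-- Every endomorphism commuting with a regular nilpotent one is scalar plus nilpotent. -/
theorem commute_eq (N : Module.End F V) (hn : finrank F V = n) (hnil : N ^ n = 0) (v : V)
    (hv : (N ^ (n - 1)) v ≠ 0) (c : Module.End F V) (hc : ∀ x, c (N x) = N (c x)) :
    ∃ (a : F) (K : Module.End F V), c = a • (1 : Module.End F V) + N * K ∧ Commute N K := by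
  have hpos : 0 < n := by
    rcases n with _ | n
    · exfalso
      have : Subsingleton V := Module.finrank_zero_iff.mp hn
      exact hv (Subsingleton.elim _ _)
    · omega
  obtain ⟨m, rfl⟩ : ∃ m, n = m + 1 := ⟨n - 1, by omega⟩
  let b := cycBasis N hn hnil v hv
  let r := b.repr (c v)
  let c' : Module.End F V := ∑ i : Fin (m + 1), r i • N ^ (i : ℕ)
  have hc' : ∀ x, c' (N x) = N (c' x) := by
    intro x
    simp only [c', LinearMap.sum_apply, LinearMap.smul_apply, map_sum, map_smul]
    apply Finset.sum_congr rfl
    intro i _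
    rw [← Module.End.mul_apply, ← pow_succ, ← Module.End.mul_apply, ← pow_succ']
  have hcv : c v = c' v := by
    have h1 := b.sum_repr (c v)
    rw [← h1]
    simp only [c', LinearMap.sum_apply, LinearMap.smul_apply]
    apply Finset.sum_congr rfl
    intro i _
    rw [cycBasis_apply]
  have hcc : c = c' := ext_of_commute N hn hnil v hv N c c' hc hc' hcv
  refine ⟨r 0, ∑ i : Fin m, r i.succ • N ^ (i : ℕ), ?_, ?_⟩
  · rw [hcc]
    simp only [c', Fin.sum_univ_succ, Finset.mul_sum]
    congr 1
    apply Finset.sum_congr rfl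
    intro i _
    rw [mul_smul_comm, ← pow_succ', Fin.val_succ]
  · apply Commute.sum_right
    intro i _
    exact ((Commute.refl N).pow_right _).smul_right _

/-- Determinants of elements commuting with a regular nilpotent endomorphism are `n`-th powers. -/
theorem det_commute (N : Module.End F V) (hn : finrank F V = n) (hnil : N ^ n = 0) (v : V)
    (hv : (N ^ (n - 1)) v ≠ 0) (c : Module.End F V) (hc : ∀ x, c (N x) = N (c x)) :
    ∃ a : F, LinearMap.det c = a ^ n := by
  obtain ⟨a, K, h1, h2⟩ := commute_eq N hn hnil v hv c hc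
  refine ⟨a, ?_⟩
  rw [h1, det_smul_one_add a (N * K), hn]
  exact ⟨n, by rw [h2.mul_pow, hnil, zero_mul]⟩

/-- rank of a nilpotent endomorphism with a cyclic vector -/
theorem finrank_range_of_cyclic (N : Module.End F V) (hn : finrank F V = n) (hnil : N ^ n = 0) (v : V)
    (hv : (N ^ (n - 1)) v ≠ 0) : finrank F (LinearMap.range N) = n - 1 := by
  have hpos : 0 < n := by
    rcases n with _ | n
    · exfalso
      have : Subsingleton V := Module.finrank_zero_iff.mp hn
      exact hv (Subsingleton.elim _ _)
    · omega
  obtain ⟨m, rfl⟩ : ∃ m, n = m + 1 := ⟨n - 1, by omega⟩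
  apply le_antisymm
  · by_contra hlt
    push Not at hlt
    have h1 := Submodule.finrank_le (LinearMap.range N)
    have h2 : LinearMap.range N = ⊤ := Submodule.eq_top_of_finrank_eq (by omega)
    have hs : Function.Surjective N := LinearMap.range_eq_top.mp h2
    have hs' : Function.Surjective (N ^ (m + 1)) := by
      have : ∀ k : ℕ, Function.Surjective (N ^ k) := by
        intro k
        induction k with
        | zero => exact fun x => ⟨x, rfl⟩
        | succ k ih => 
          intro x
          obtain ⟨y, hy⟩ := ih x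
          obtain ⟨z, hz⟩ := hs y
          exact ⟨z, by rw [pow_succ, Module.End.mul_apply, hz, hy]⟩
      exact this _
    rw [hnil] at hs'
    obtain ⟨x, hx⟩ := hs' v
    have hv0 : v = 0 := hx.symm
    rw [hv0, map_zero] at hv
    exact hv rfl
  · have hli := linearIndependent_pow N hnil v hv
    have hli2 : LinearIndependent F (fun i : Fin m => (⟨(N ^ ((i : ℕ) + 1)) v, by
        rw [pow_succ']; exact ⟨_, rfl⟩⟩ : LinearMap.range N)) := by
      apply LinearIndependent.of_comp (LinearMap.range N).subtype
      exact hli.comp (fun i : Fin m => i.succ) (Fin.succ_injective m)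
    have := hli2.fintype_card_le_finrank
    simpa using this

/-- the standard regular nilpotent endomorphism -/
def stdN (n : ℕ) (F : Type*) [Field F] : Module.End F (Fin n → F) where
  toFun v := fun i => if h : 0 < (i : ℕ) then v ⟨i - 1, by omega⟩ else 0
  map_add' u v := by
    funext i
    by_cases h : 0 < (i : ℕ) <;> simp [h]
  map_smul' c v := by
    funext i
    by_cases h : 0 < (i : ℕ) <;> simp [h]

theorem stdN_apply (v : Fin n → F) (i : Fin n) : stdN n F v i = if h : 0 < (i : ℕ) then v ⟨i - 1, by omega⟩ else 0 := rfl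

theorem stdN_pow_apply (k : ℕ) (v : Fin n → F) (i : Fin n) :
    (stdN n F ^ k) v i = if h : k ≤ (i : ℕ) then v ⟨i - k, by omega⟩ else 0 := by
  induction k generalizing i with
  | zero => simp
  | succ k ih =>
    rw [pow_succ', Module.End.mul_apply, stdN_apply]
    by_cases h : 0 < (i : ℕ)
    · rw [dif_pos h, ih]
      by_cases h2 : k + 1 ≤ (i : ℕ)
      · rw [dif_pos h2, dif_pos (by show k ≤ (i : ℕ) - 1; omega)]
        congr 1
        ext
        show (i : ℕ) - 1 - k = i - (k + 1)
        omega
      · rw [dif_neg h2, dif_neg (by show ¬ k ≤ (i : ℕ) - 1; omega)]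
    · rw [dif_neg h, dif_neg (by omega)]

theorem stdN_pow_self : stdN n F ^ n = 0 := by
  apply LinearMap.ext
  intro v
  funext i
  rw [stdN_pow_apply, dif_neg (by omega)]
  rfl

theorem stdN_cyclic (hn : 1 ≤ n) : (stdN n F ^ (n - 1)) (Pi.single ⟨0, hn⟩ 1) ≠ 0 := by
  intro h
  have h1 := congrFun h ⟨n - 1, by omega⟩
  rw [stdN_pow_apply, dif_pos (le_refl _)] at h1
  simp at h1

end Cfsg.Agent.Lib.RegNil2
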