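import Mathlib.GroupTheory.GroupAction.Primitive
import Mathlib.GroupTheory.Commutator.Basic
import Mathlib.Tactic

/-!
Regular/transitive subgroups of symmetric groups and their centralisers (helper12).
-/

set_option autoImplicit false

namespace Cfsg.Agent.Lib.RegNormal

open MulAction

variable {α : Type*}

/-- An element commuting with a transitive subgroup and fixing a point is trivial. -/
theorem eq_one_of_mem_centralizer {K : Subgroup (Equiv.Perm α)} (hK : IsPretransitive K α)
    {c : Equiv.Perm α} (hc : c ∈ Subgroup.centralizer (K : Set (Equiv.Perm α))) {a : α}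
    (ha : c a = a) : c = 1 := by
  ext b
  obtain ⟨⟨g, hg⟩, hgb⟩ := hK.exists_smul_eq a b
  have h1 : g a = b := hgb
  have h2 : g * c = c * g := Subgroup.mem_centralizer_iff.mp hc g hg
  have h3 := congrArg (fun τ : Equiv.Perm α => τ a) h2
  simp only [Equiv.Perm.mul_apply, ha, h1] at h3
  simpa using h3.symm

/-- If `K` and `M` are commuting transitive subgroups, then `K` is the full centraliser of `M`. -/
theorem centralizer_eq_of_transitive {K M : Subgroup (Equiv.Perm α)} (hK : IsPretransitive K α)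
    (hM : IsPretransitive M α) (hKM : K ≤ Subgroup.centralizer (M : Set (Equiv.Perm α)))
    [Nonempty α] : Subgroup.centralizer (M : Set (Equiv.Perm α)) = K := by
  refine le_antisymm ?_ hKM
  intro c hc
  obtain ⟨a⟩ := ‹Nonempty α›
  obtain ⟨⟨k, hk⟩, hka⟩ := hK.exists_smul_eq a (c a)
  have hka' : k a = c a := hka
  have h1 : k⁻¹ * c ∈ Subgroup.centralizer (M : Set (Equiv.Perm α)) :=
    Subgroup.mul_mem _ (Subgroup.inv_mem _ (hKM hk)) hc
  have h2 : (k⁻¹ * c) a = a := by
    rw [Equiv.Perm.mul_apply, ← hka']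
    exact Equiv.symm_apply_apply k a
  have h3 := eq_one_of_mem_centralizer hM h1 h2
  rw [← inv_mul_eq_one.mp h3]
  exact hk

theorem map_pretransitive {G : Subgroup (Equiv.Perm α)} {M : Subgroup G}
    (hM : IsPretransitive M α) : IsPretransitive (M.map G.subtype : Subgroup (Equiv.Perm α)) α := by
  constructor
  intro a b
  obtain ⟨⟨m, hm⟩, hab⟩ := hM.exists_smul_eq a b
  exact ⟨⟨m.1, ⟨m, hm, rfl⟩⟩, hab⟩

theorem nonempty_of_ne_bot {G : Subgroup (Equiv.Perm α)} {M : Subgroup G} (hM : M ≠ ⊥) :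
    Nonempty α := by
  by_contra h
  rw [not_nonempty_iff] at h
  apply hM
  rw [eq_bot_iff]
  intro m _
  rw [Subgroup.mem_bot]
  apply Subtype.ext
  ext a
  exact h.elim a

/-- Distinct minimal normal subgroups intersect trivially. -/
theorem inf_eq_bot_of_minimal {G : Type*} [Group G] {M N : Subgroup G} (hMn : M.Normal)
    (hNn : N.Normal)
    (hMmin : ∀ L : Subgroup G, L.Normal → L ≤ M → L = ⊥ ∨ L = M)
    (hNmin : ∀ L : Subgroup G, L.Normal → L ≤ N → L = ⊥ ∨ L = N) (hMN : M ≠ N) :
    M ⊓ N = ⊥ := by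
  rcases hMmin (M ⊓ N) inferInstance inf_le_left with h | h
  · exact h
  · rcases hNmin (M ⊓ N) inferInstance inf_le_right with h' | h'
    · exact h'
    · exact absurd (h.symm.trans h') hMN

theorem commute_of_inf_eq_bot {G : Type*} [Group G] {M N : Subgroup G} (hMn : M.Normal)
    (hNn : N.Normal) (h : M ⊓ N = ⊥) : ∀ x ∈ M, ∀ y ∈ N, x * y = y * x := by
  intro x hx y hy
  exact Subgroup.commute_of_normal_of_disjoint M N hMn hNn (disjoint_iff.mpr h) x y hx hy

theorem map_le_centralizer {G : Subgroup (Equiv.Perm α)} {M N : Subgroup G}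
    (h : ∀ x ∈ M, ∀ y ∈ N, x * y = y * x) :
    M.map G.subtype ≤
      Subgroup.centralizer ((N.map G.subtype : Subgroup (Equiv.Perm α)) : Set (Equiv.Perm α)) := by
  rintro _ ⟨x, hx, rfl⟩
  rw [Subgroup.mem_centralizer_iff]
  rintro _ ⟨y, hy, rfl⟩
  exact (congrArg Subtype.val (h x hx y hy)).symm

/-- A transitive subgroup centralised by a transitive subgroup is regular. -/
theorem stabilizer_eq_bot {G : Subgroup (Equiv.Perm α)} {M N : Subgroup G}
    (h : ∀ x ∈ M, ∀ y ∈ N, x * y = y * x) (hN : IsPretransitive N α) (a : α) :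
    stabilizer M a = ⊥ := by
  rw [eq_bot_iff]
  rintro ⟨m, hm⟩ hma
  rw [Subgroup.mem_bot]
  have h1 : m.1 ∈ Subgroup.centralizer
      ((N.map G.subtype : Subgroup (Equiv.Perm α)) : Set (Equiv.Perm α)) :=
    map_le_centralizer h ⟨m, hm, rfl⟩
  have h2 := eq_one_of_mem_centralizer (map_pretransitive hN) h1 (a := a) hma
  exact Subtype.ext (Subtype.ext h2)

end Cfsg.Agent.Lib.RegNormal
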