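import Cfsg.Agent.Lib.HermType2
import Cfsg.Agent.Lib.FormJordan3

set_option autoImplicit false
set_option linter.unusedSectionVars false

/-! The ring `F[X]/(X-1)^j` with the involution inverting the root (helper43). -/

namespace Cfsg.Agent.Lib.RegUni

open Module Polynomial Cfsg.Agent.Lib.FXMod Cfsg.Agent.Lib.FXType Cfsg.Agent.Lib.GLClass Cfsg.Agent.Lib.PolyStar Cfsg.Agent.Lib.HermType2
  Cfsg.Agent.Lib.JordanType

universe u

variable {F : Type u} [Field F]

/-- the elementary divisor -/
noncomputable abbrev dv (F : Type u) [Field F] (j : ℕ) : F[X] × ℕ := (X - 1, j)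

/-- the ring -/
abbrev R (F : Type u) [Field F] (j : ℕ) : Type u := Cyc (dv F j)

theorem ps_X1 : ps (RingHom.id F) (X - 1 : F[X]) = X - 1 := by
  have h0 : (X - 1 : F[X]).coeff 0 ≠ 0 := by simp
  have hne : (X - 1 : F[X]) ≠ 0 := X1_irreducible.ne_zero
  apply eq_of_monic_of_associated (ps_monic hne) X1_monic
  refine (ps_assoc hne).trans ?_
  rw [rv_eq_reflect h0, X1_natDegree, Polynomial.map_id, reflect_sub, reflect_one_X]
  have : reflect 1 (1 : F[X]) = X := by rw [reflect_one, pow_one]
  rw [this]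
  exact ⟨-1, by simp⟩

theorem exists_inv (j : ℕ) (hj : 0 < j) : ∃ φ : R F j →+* R F j, φ (rt (dv F j)) * rt (dv F j) = 1 ∧
    (∀ c, φ (algebraMap F _ c) = algebraMap F _ c) ∧ ∀ x, φ (φ x) = x := by
  obtain ⟨φ, h1, h2⟩ := exists_phi' (σ := RingHom.id F) (fun x => rfl) (d := dv F j) (e := dv F j) (good_X1 hj) (by simp)
    (Prod.ext ps_X1.symm rfl)
  exact ⟨φ, h1, h2, phi_phi (fun x => rfl) φ φ h1 h2 h1 h2⟩

variable {j : ℕ} (φ : R F j →+* R F j)

/-- the nilpotent generator -/
noncomputable def nn (F : Type u) [Field F] (j : ℕ) : R F j := rt (dv F j) - 1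

theorem nn_pow (j : ℕ) : nn F j ^ j = 0 := by
  rw [nn, rt, ← AdjoinRoot.mk_X, ← map_one (AdjoinRoot.mk ((X - 1 : F[X]) ^ j)), ← map_sub, ← map_pow, AdjoinRoot.mk_self]

/-- the residue map -/
noncomputable def res (hj : 0 < j) : R F j →+* F :=
  AdjoinRoot.lift (RingHom.id F) 1 (by
    rw [eval₂_pow, eval₂_sub, eval₂_X, eval₂_one, sub_self, zero_pow hj.ne'])

theorem res_rt (hj : 0 < j) : res (F := F) hj (rt (dv F j)) = 1 := AdjoinRoot.lift_root _

theorem res_algebraMap (hj : 0 < j) (c : F) : res hj (algebraMap F (R F j) c) = c := AdjoinRoot.lift_of _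

theorem res_nn (hj : 0 < j) : res hj (nn F j) = 0 := by
  rw [nn, map_sub, res_rt, map_one, sub_self]

theorem isUnit_iff (hj : 0 < j) (a : R F j) : IsUnit a ↔ res hj a ≠ 0 := by
  constructor
  · intro h; exact (h.map (res hj)).ne_zero
  · intro h
    rcases unit_or_nilpotent (good_X1 hj) a with h1 | h1
    · exact h1
    · exact absurd (h1.map (res hj)).eq_zero h

theorem isNilpotent_iff (hj : 0 < j) (a : R F j) : IsNilpotent a ↔ res hj a = 0 := by
  constructor
  · intro h; exact (h.map (res hj)).eq_zero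
  · intro h
    rcases unit_or_nilpotent (good_X1 hj) a with h1 | h1
    · exact absurd h ((isUnit_iff hj a).mp h1)
    · exact h1

theorem res_inv (hj : 0 < j) (h1 : φ (rt (dv F j)) * rt (dv F j) = 1) (h2 : ∀ c, φ (algebraMap F _ c) = algebraMap F _ c) (a : R F j) :
    res hj (φ a) = res hj a := by
  refine hom_unique ((res hj).comp φ) (res hj) ?_ ?_ a
  · have := congrArg (res hj) h1
    rw [map_mul, res_rt, mul_one, map_one] at this
    rw [RingHom.comp_apply, this, res_rt]
  · intro c
    rw [RingHom.comp_apply, h2]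

/-- the count of norm one elements -/
theorem card_norm_one (h20 : (2 : F) ≠ 0) (hj : 0 < j) (h1 : φ (rt (dv F j)) * rt (dv F j) = 1) (h2 : ∀ c, φ (algebraMap F _ c) = algebraMap F _ c)
    (h3 : ∀ x, φ (φ x) = x) : Nat.card {a : R F j // a * φ a = 1} = 2 * Nat.card {r : R F j // φ r = - r} := by
  have hres := res_inv φ hj h1 h2
  have hrn : ∀ r : R F j, φ r = -r → res hj r = 0 := by
    intro r hr
    have h4 := hres r
    rw [hr, map_neg] at h4
    have h5 : 2 * res hj r = 0 := by linear_combination -h4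
    exact (mul_eq_zero.mp h5).resolve_left h20
  have hunit1 : ∀ r : R F j, φ r = -r → IsUnit (1 + r) := by
    intro r hr
    rw [isUnit_iff hj, map_add, map_one, hrn r hr, add_zero]
    exact one_ne_zero
  have hac : ∀ a : R F j, a * φ a = 1 → res hj a = 1 ∨ res hj a = -1 := by
    intro a ha
    have h4 := congrArg (res hj) ha
    rw [map_mul, hres, map_one] at h4
    exact mul_self_eq_one_iff.mp h4
  have h2R : IsUnit (2 : R F j) := by
    have : (2 : R F j) = algebraMap F _ 2 := by rw [map_ofNat]
    rw [this]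
    exact (IsUnit.mk0 _ h20).map _
  -- Cayley transform
  have cay : ∀ r : R F j, φ r = -r → ∃ a : R F j, a * φ a = 1 ∧ res hj a = 1 ∧ a * (1 + r) = 1 - r := by
    intro r hr
    obtain ⟨u, hu⟩ := hunit1 r hr
    set v : R F j := ((u⁻¹ : (R F j)ˣ) : R F j) with hv
    have hv1 : v * (1 + r) = 1 := by rw [← hu]; exact Units.inv_mul u
    have hv2 : φ v * (1 - r) = 1 := by
      have := congrArg φ hv1
      rwa [map_mul, map_add, map_one, hr, ← sub_eq_add_neg] at this
    refine ⟨(1 - r) * v, ?_, ?_, ?_⟩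
    · rw [map_mul, map_sub, map_one, hr, sub_neg_eq_add]
      calc (1 - r) * v * ((1 + r) * φ v) = (v * (1 + r)) * (φ v * (1 - r)) := by ring
        _ = 1 := by rw [hv1, hv2, one_mul]
    · have h4 := congrArg (res hj) hv1
      rw [map_mul, map_add, map_one, hrn r hr, add_zero, mul_one] at h4
      rw [map_mul, map_sub, map_one, hrn r hr, sub_zero, h4, mul_one]
    · rw [mul_assoc, hv1, mul_one]
  choose! C hC1 hC2 hC3 using cay
  have yac : ∀ a : R F j, a * φ a = 1 → res hj a = 1 → ∃ r : R F j, φ r = -r ∧ r * (1 + a) = 1 - a := by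
    intro a ha ha1
    have hu : IsUnit (1 + a) := by
      rw [isUnit_iff hj, map_add, map_one, ha1]
      have : (1 : F) + 1 = 2 := by norm_num
      rw [this]; exact h20
    obtain ⟨u, hu⟩ := hu
    set v : R F j := ((u⁻¹ : (R F j)ˣ) : R F j) with hv
    have hv1 : v * (1 + a) = 1 := by rw [← hu]; exact Units.inv_mul u
    have hv2 : φ v * (1 + φ a) = 1 := by
      have := congrArg φ hv1
      rwa [map_mul, map_add, map_one] at this
    refine ⟨(1 - a) * v, ?_, ?_⟩
    · -- `φ v = a * v`
      have h4 : φ v = a * v := by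
        have h5 : φ v * (1 + a) = a := by
          calc φ v * (1 + a) = φ v * (a * φ a + a) := by rw [ha]
            _ = a * (φ v * (1 + φ a)) := by ring
            _ = a := by rw [hv2, mul_one]
        calc φ v = φ v * (v * (1 + a)) := by rw [hv1, mul_one]
          _ = (φ v * (1 + a)) * v := by ring
          _ = a * v := by rw [h5]
      rw [map_mul, map_sub, map_one, h4]
      calc (1 - φ a) * (a * v) = (a - a * φ a) * v := by ring
        _ = -((1 - a) * v) := by rw [ha]; ring
    · rw [mul_assoc, hv1, mul_one]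
  choose! D hD1 hD2 using yac
  have hfin2 : Nat.card (Bool × {r : R F j // φ r = - r}) = 2 * Nat.card {r : R F j // φ r = - r} := by
    rw [Nat.card_prod, Nat.card_eq_fintype_card, Fintype.card_bool]
  rw [← hfin2]
  -- sign
  let sg : Bool → R F j := fun b => if b then 1 else -1
  have hsg : ∀ b, sg b * sg b = 1 := by intro b; cases b <;> simp [sg]
  have hsgφ : ∀ b, φ (sg b) = sg b := by intro b; cases b <;> simp [sg]
  have hsgr : ∀ b, res hj (sg b) = if b then 1 else -1 := by intro b; cases b <;> simp [sg]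
  have hne : (1 : F) ≠ -1 := by
    intro h
    apply h20
    linear_combination h
  symm
  apply Nat.card_congr
  refine Equiv.ofBijective (fun x : Bool × {r : R F j // φ r = - r} => (⟨sg x.1 * C x.2.1, ?_⟩ : {a : R F j // a * φ a = 1})) ⟨?_, ?_⟩
  · rw [map_mul, hsgφ]
    calc sg x.1 * C x.2.1 * (sg x.1 * φ (C x.2.1)) = (sg x.1 * sg x.1) * (C x.2.1 * φ (C x.2.1)) := by ring
      _ = 1 := by rw [hsg, hC1 _ x.2.2, one_mul]
  · rintro ⟨b, r, hr⟩ ⟨b', r', hr'⟩ h
    have h4 : sg b * C r = sg b' * C r' := congrArg Subtype.val h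
    have h5 := congrArg (res hj) h4
    rw [map_mul, map_mul, hC2 r hr, hC2 r' hr', mul_one, mul_one, hsgr, hsgr] at h5
    have hbb : b = b' := by
      cases b <;> cases b' <;> simp only [if_true, Bool.false_eq_true, if_false] at h5 ⊢
      · exact absurd h5.symm hne
      · exact absurd h5 hne
    subst hbb
    have h6 : C r = C r' := by
      have := congrArg (fun x => sg b * x) h4
      simp only [← mul_assoc, hsg, one_mul] at this
      exact this
    have h7 : r = r' := by
      have e1 := hC3 r hr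
      have e2 := hC3 r' hr'
      rw [h6] at e1
      -- `(C + 1) r = 1 - C`
      have hu : IsUnit (1 + C r') := by
        rw [isUnit_iff hj, map_add, map_one, hC2 r' hr']
        have : (1 : F) + 1 = 2 := by norm_num
        rw [this]; exact h20
      apply hu.mul_left_cancel
      linear_combination e1 - e2
    subst h7
    rfl
  · rintro ⟨a, ha⟩
    obtain ⟨b, hb⟩ : ∃ b : Bool, res hj (sg b * a) = 1 := by
      rcases hac a ha with h | h
      · exact ⟨true, by rw [map_mul, hsgr, h]; simp⟩
      · exact ⟨false, by rw [map_mul, hsgr, h]; simp⟩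
    have ha' : (sg b * a) * φ (sg b * a) = 1 := by
      rw [map_mul, hsgφ]
      calc sg b * a * (sg b * φ a) = (sg b * sg b) * (a * φ a) := by ring
        _ = 1 := by rw [hsg, ha, one_mul]
    have hr := hD1 _ ha' hb
    refine ⟨(b, ⟨D (sg b * a), hr⟩), ?_⟩
    apply Subtype.ext
    show sg b * C (D (sg b * a)) = a
    have e1 := hC3 _ hr
    have e2 := hD2 _ ha' hb
    have h4 : C (D (sg b * a)) = sg b * a := by
      apply (hunit1 _ hr).mul_right_cancel
      linear_combination e1 - e2
    rw [h4, ← mul_assoc, hsg, one_mul]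

end Cfsg.Agent.Lib.RegUni
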