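import Cfsg.Agent.Lib.RegUni
import Cfsg.Agent.Lib.SympAux
import Cfsg.Agent.Lib.SympBasis
import Cfsg.Agent.Lib.LinAux

set_option autoImplicit false
set_option linter.unusedSectionVars false

/-! Regular unipotent elements of symplectic groups in odd characteristic (helper43). -/

namespace Cfsg.Agent.Lib.RegUni2

open Module Polynomial Cfsg.Agent.Lib.FXMod Cfsg.Agent.Lib.FXType Cfsg.Agent.Lib.GLClass Cfsg.Agent.Lib.PolyStar Cfsg.Agent.Lib.HermType2
  Cfsg.Agent.Lib.JordanType Cfsg.Agent.Lib.RegUni Cfsg.Agent.Lib.SympAux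

universe u v

variable {F : Type u} [Field F]

/-- a criterion for a single unipotent block -/
theorem hasType_of_ker {V : Type v} [AddCommGroup V] [Module F V] [FiniteDimensional F V] (f : Module.End F V) (n : ℕ)
    (hdim : finrank F V = n) (hnil : (f - 1) ^ n = 0) (hker : finrank F (LinearMap.ker (f - 1)) = 1) : HasType f {((X - 1 : F[X]), n)} := by
  obtain ⟨s, hs⟩ := exists_hasType f
  have hN : ∀ a : ℕ, aeval f ((X - 1 : F[X]) ^ a) = (f - 1) ^ a := by
    intro a
    rw [map_pow, map_sub, aeval_X, map_one]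
  have h1 : ∀ d ∈ s, d.1 = X - 1 := by
    intro d hd
    have h2 := (hs.aeval_eq_zero_iff ((X - 1) ^ n)).mp (by rw [hN, hnil]) d hd
    have hg := hs.good d hd
    have h3 : d.1 ∣ (X - 1) ^ n := (dvd_pow_self _ hg.2.2.ne').trans h2
    exact eq_of_monic_of_associated hg.1 X1_monic (hg.2.1.associated_of_dvd X1_irreducible (hg.2.1.prime.dvd_of_dvd_pow h3))
  have h2 := hs.finrank_ker ((X - 1) ^ 1)
  rw [hN, pow_one, pow_one, hker] at h2
  classical
  have h3 : (s.map fun d => gdeg (X - 1 : F[X]) (d.1 ^ d.2)).sum = Multiset.card s := by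
    have : (s.map fun d => gdeg (X - 1 : F[X]) (d.1 ^ d.2)) = s.map fun _ => 1 := by
      apply Multiset.map_congr rfl
      intro d hd
      have h4 := natDegree_gcd_pow d.1 (X - 1 : F[X]) (hs.good d hd).1 (hs.good d hd).2.1 X1_monic X1_irreducible 1 d.2
      rw [pow_one] at h4
      rw [h4, if_pos (h1 d hd), h1 d hd, X1_natDegree, one_mul]
      have := (hs.good d hd).2.2
      omega
    rw [this, Multiset.map_const', Multiset.sum_replicate, smul_eq_mul, mul_one]
  rw [h3] at h2
  obtain ⟨d, rfl⟩ := Multiset.card_eq_one.mp h2.symm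
  have h4 := hs.finrank
  rw [hdim, Multiset.map_singleton, Multiset.sum_singleton, h1 d (Multiset.mem_singleton_self d), X1_natDegree, one_mul] at h4
  have h5 : d = ((X - 1 : F[X]), n) := Prod.ext (h1 d (Multiset.mem_singleton_self d)) h4.symm
  rw [h5] at hs
  exact hs

variable {j : ℕ} (φ : R F j →+* R F j)

theorem adj (h1 : φ (rt (dv F j)) * rt (dv F j) = 1) (h2 : ∀ c, φ (algebraMap F _ c) = algebraMap F _ c)
    (B : R F j →ₗ[F] R F j →ₗ[F] F) (hB : ∀ x y, B (rt (dv F j) * x) (rt (dv F j) * y) = B x y) (a : R F j) :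
    ∀ x y, B (a * x) y = B x (φ a * y) := by
  have hmul : ∀ a b : R F j, (∀ x y, B (a * x) y = B x (φ a * y)) → (∀ x y, B (b * x) y = B x (φ b * y)) →
      ∀ x y, B (a * b * x) y = B x (φ (a * b) * y) := by
    intro a b ha hb x y
    rw [mul_assoc, ha, hb, map_mul φ, ← mul_assoc, mul_comm (φ b)]
  have hC : ∀ c : F, ∀ x y, B (algebraMap F (R F j) c * x) y = B x (φ (algebraMap F (R F j) c) * y) := by
    intro c x y
    rw [h2, ← Algebra.smul_def, ← Algebra.smul_def, map_smul, map_smul]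
    rfl
  have hX : ∀ x y, B (rt (dv F j) * x) y = B x (φ (rt (dv F j)) * y) := by
    intro x y
    have h3 := hB x (φ (rt (dv F j)) * y)
    rwa [← mul_assoc, mul_comm (rt (dv F j)) (φ _), h1, one_mul] at h3
  induction a using AdjoinRoot.induction_on with
  | ih p =>
    induction p using Polynomial.induction_on with
    | C c =>
      exact hC c
    | add p q hp hq =>
      intro x y
      rw [map_add, add_mul, map_add, LinearMap.add_apply, hp, hq, map_add, add_mul, map_add]
    | monomial n c ih =>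
      rw [pow_succ, ← mul_assoc, map_mul, AdjoinRoot.mk_X]
      exact hmul _ _ ih hX

theorem exists_package (h1 : φ (rt (dv F j)) * rt (dv F j) = 1) (h2 : ∀ c, φ (algebraMap F _ c) = algebraMap F _ c)
    (h3 : ∀ x, φ (φ x) = x)
    {V : Type v} [AddCommGroup V] [Module F V] (B : V →ₗ[F] V →ₗ[F] F) (hBs : ∀ x y, B x y = - B y x) (hnd : ∀ x, (∀ y, B x y = 0) → x = 0)
    (f : V → V) (hf : ∀ x y, B (f x) (f y) = B x y) (e : V ≃ₗ[F] R F j) (he : ∀ x, e (f x) = rt (dv F j) * e x) :
    ∃ l : R F j →ₗ[F] F, (∀ x y, B x y = l (e x * φ (e y))) ∧ (∀ a, l (φ a) = - l a) ∧ (∀ a, (∀ b, l (a * b) = 0) → a = 0) := by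
  let B' : R F j →ₗ[F] R F j →ₗ[F] F := B.compl₁₂ e.symm.toLinearMap e.symm.toLinearMap
  have hB' : ∀ x y, B' x y = B (e.symm x) (e.symm y) := fun _ _ => rfl
  have hinv : ∀ x y, B' (rt (dv F j) * x) (rt (dv F j) * y) = B' x y := by
    intro x y
    have hs : ∀ x, e.symm (rt (dv F j) * x) = f (e.symm x) := by
      intro x
      rw [LinearEquiv.symm_apply_eq, he, LinearEquiv.apply_symm_apply]
    rw [hB', hB', hs, hs, hf]
  have hadj := adj φ h1 h2 B' hinv
  have key : ∀ x y, B' x y = B' (x * φ y) 1 := by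
    intro x y
    rw [mul_comm, hadj, h3, mul_one]
  refine ⟨B'.flip 1, ?_, ?_, ?_⟩
  · intro x y
    show B x y = B' (e x * φ (e y)) 1
    rw [← key, hB', LinearEquiv.symm_apply_apply, LinearEquiv.symm_apply_apply]
  · intro a
    show B' (φ a) 1 = - B' a 1
    have h4 := hadj (φ a) 1 1
    rw [mul_one, h3, mul_one] at h4
    rw [h4, hB', hBs, ← hB']
  · intro a ha
    have : e.symm a = 0 := by
      apply hnd
      intro y
      have h5 : B (e.symm a) y = B' a (e y) := by rw [hB', LinearEquiv.symm_apply_apply]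
      rw [h5, key]
      exact ha _
    rwa [LinearEquiv.symm_apply_eq, map_zero] at this

theorem exists_scale (hj : 0 < j) (l l' : R F j →ₗ[F] F) (hl : ∀ a, l (φ a) = - l a) (hnd : ∀ a, (∀ b, l (a * b) = 0) → a = 0)
    (h3 : ∀ x, φ (φ x) = x)
    (hl' : ∀ a, l' (φ a) = - l' a) (hnd' : ∀ a, (∀ b, l' (a * b) = 0) → a = 0) :
    ∃ h : R F j, φ h = h ∧ IsUnit h ∧ ∀ r, l' r = l (h * r) := by
  have : FiniteDimensional F (R F j) := (good_X1 hj).finite
  let T : R F j →ₗ[F] (R F j →ₗ[F] F) := LinearMap.mk₂ F (fun x y => l (x * y))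
    (by intro x x' y; rw [add_mul, map_add])
    (by intro c x y; rw [smul_mul_assoc, map_smul])
    (by intro x y y'; rw [mul_add, map_add])
    (by intro c x y; rw [mul_smul_comm, map_smul])
  have hT : ∀ x y, T x y = l (x * y) := fun _ _ => rfl
  have hinj : Function.Injective T := by
    rw [injective_iff_map_eq_zero]
    intro a ha
    apply hnd
    intro b
    rw [← hT, ha]; rfl
  have hsurj : Function.Surjective T :=
    (LinearMap.injective_iff_surjective_of_finrank_eq_finrank (Subspace.dual_finrank_eq (K := F) (V := R F j)).symm).mp hinj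
  obtain ⟨h, hh⟩ := hsurj l'
  have hr : ∀ r, l' r = l (h * r) := fun r => by rw [← hT, hh]
  refine ⟨h, ?_, ?_, hr⟩
  · apply hinj
    refine LinearMap.ext fun y => ?_
    rw [hT, hT]
    have h4 := hl (h * φ y)
    rw [map_mul, h3] at h4
    rw [h4, ← hr, hl', neg_neg, hr]
  · rcases unit_or_nilpotent (good_X1 hj) h with h4 | h4
    · exact h4
    · exfalso
      obtain ⟨n, hn⟩ := h4
      have h5 : ∀ n : ℕ, h ^ n = 0 → (1 : R F j) = 0 := by
        intro n
        induction n with
        | zero => intro h6; rwa [pow_zero] at h6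
        | succ n ih =>
          intro h6
          apply ih
          apply hnd'
          intro b
          rw [hr, ← mul_assoc, ← pow_succ', h6, zero_mul, map_zero]
      have h6 := h5 n hn
      have h7 := congrArg (res hj) h6
      rw [map_one, map_zero] at h7
      exact one_ne_zero h7

theorem exists_sqrt [Finite F] (h20 : (2 : F) ≠ 0) (hj : 0 < j) (h : R F j) (hh : φ h = h) (hr : res hj h = 1) :
    ∃ w : R F j, φ w = w ∧ w * w = h := by
  obtain ⟨p, hp⟩ := CharP.exists F
  have := hp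
  have hpp : Fact p.Prime := ⟨CharP.char_is_prime F p⟩
  have : CharP (R F j) p := by
    have : Nontrivial (R F j) := (res (F := F) hj).domain_nontrivial
    exact charP_of_injective_algebraMap (algebraMap F (R F j)).injective p
  have hp2 : p ≠ 2 := by
    rintro rfl
    exact h20 (CharTwo.two_eq_zero)
  have hodd : Odd p := hpp.out.odd_of_ne_two hp2
  obtain ⟨n, hn⟩ : IsNilpotent (h - 1) := by
    rw [isNilpotent_iff hj, map_sub, map_one, hr, sub_self]
  have hN : h ^ (p ^ n) = 1 := by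
    have h1 : (h - 1) ^ (p ^ n) = 0 := by
      have h2 : n ≤ p ^ n := (Nat.lt_pow_self hpp.out.one_lt).le
      rw [← Nat.sub_add_cancel h2, pow_add, hn, mul_zero]
    rw [sub_pow_char_pow, one_pow] at h1
    exact sub_eq_zero.mp h1
  obtain ⟨k, hk⟩ := hodd.pow (n := n)
  refine ⟨h ^ (k + 1), by rw [map_pow, hh], ?_⟩
  rw [← pow_add, show k + 1 + (k + 1) = p ^ n + 1 by omega, pow_succ, hN, one_mul]

theorem decomp (hj : 0 < j) (a : R F j) : ∃ z, a = algebraMap F _ (res hj a) + nn F j * z := by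
  obtain ⟨p, rfl⟩ := AdjoinRoot.mk_surjective a
  obtain ⟨g, hg⟩ : (X - C 1 : F[X]) ∣ p - C (p.eval 1) := by
    rw [dvd_iff_isRoot, IsRoot.def, eval_sub, eval_C, sub_self]
  rw [C_1] at hg
  have h1 : AdjoinRoot.mk ((X - 1 : F[X]) ^ j) p = algebraMap F (R F j) (p.eval 1) + nn F j * AdjoinRoot.mk _ g := by
    have : p = C (p.eval 1) + (X - 1) * g := by rw [← hg]; ring
    conv_lhs => rw [this]
    rw [map_add, map_mul, map_sub, AdjoinRoot.mk_X, map_one]
    rfl
  refine ⟨AdjoinRoot.mk _ g, ?_⟩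
  have h2 : res hj (AdjoinRoot.mk ((X - 1 : F[X]) ^ j) p) = p.eval 1 := by
    rw [h1, map_add, map_mul, res_nn, zero_mul, add_zero, res_algebraMap]
  rw [h2]
  exact h1

theorem ker_nn (hj : 0 < j) (s : R F j) (hs : nn F j * s = 0) : ∃ c : F, s = algebraMap F _ c * nn F j ^ (j - 1) := by
  obtain ⟨p, rfl⟩ := AdjoinRoot.mk_surjective s
  have hnn : nn F j = AdjoinRoot.mk ((X - 1 : F[X]) ^ j) (X - 1) := by
    rw [nn, map_sub, AdjoinRoot.mk_X, map_one]
  rw [hnn, ← map_mul, AdjoinRoot.mk_eq_zero] at hs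
  obtain ⟨g, hg⟩ := hs
  have h1 : p = (X - 1) ^ (j - 1) * g := by
    apply mul_left_cancel₀ (X1_irreducible (F := F)).ne_zero
    rw [hg, ← mul_assoc, ← pow_succ', Nat.sub_add_cancel hj]
  obtain ⟨z, hz⟩ := decomp hj (AdjoinRoot.mk _ g)
  refine ⟨res hj (AdjoinRoot.mk _ g), ?_⟩
  have h2 : nn F j ^ (j - 1) * nn F j = 0 := by rw [← pow_succ, Nat.sub_add_cancel hj, nn_pow]
  calc AdjoinRoot.mk ((X - 1 : F[X]) ^ j) p = nn F j ^ (j - 1) * AdjoinRoot.mk _ g := by rw [h1, map_mul, map_pow, hnn]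
    _ = nn F j ^ (j - 1) * (algebraMap F _ (res hj (AdjoinRoot.mk _ g)) + nn F j * z) := by rw [← hz]
    _ = algebraMap F _ (res hj (AdjoinRoot.mk _ g)) * nn F j ^ (j - 1) + (nn F j ^ (j - 1) * nn F j) * z := by ring
    _ = _ := by rw [h2, zero_mul, add_zero]

theorem card_minus [Finite F] (h20 : (2 : F) ≠ 0) {m : ℕ} (hm : 0 < m) (φ : R F (2 * m) →+* R F (2 * m))
    (h1 : φ (rt (dv F (2 * m))) * rt (dv F (2 * m)) = 1) (h2 : ∀ c, φ (algebraMap F _ c) = algebraMap F _ c)
    (h3 : ∀ x, φ (φ x) = x) : Nat.card {r : R F (2 * m) // φ r = - r} = Nat.card F ^ m := by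
  have hj : 0 < 2 * m := by omega
  have hfd : FiniteDimensional F (R F (2 * m)) := (good_X1 hj).finite
  have hfin : Finite (R F (2 * m)) := Module.finite_of_finite F
  have hres := res_inv φ hj h1 h2
  set r0 := rt (dv F (2 * m)) with hr0
  have h1' : r0 * φ r0 = 1 := by rw [mul_comm r0]; exact h1
  let half : R F (2 * m) := algebraMap F _ (2⁻¹ : F)
  have hhalf : half * 2 = 1 := by
    have : (2 : R F (2 * m)) = algebraMap F _ 2 := by rw [map_ofNat]
    rw [this, ← map_mul, inv_mul_cancel₀ h20, map_one]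
  have hhφ : φ half = half := h2 _
  set D := r0 - φ r0 with hD
  have hDφ : φ D = - D := by rw [hD, map_sub, h3]; ring
  -- `D = nn * unit`
  obtain ⟨u, hu⟩ : IsUnit (φ r0 * (r0 + 1)) := by
    rw [isUnit_iff hj, map_mul, hres, map_add, map_one, hr0, res_rt, one_mul]
    have : (1 : F) + 1 = 2 := by norm_num
    rw [this]; exact h20
  have hDnn : D = nn F (2 * m) * u := by
    rw [hu, hD, nn, ← hr0]
    linear_combination (-r0) * h1'
  have hDnn' : nn F (2 * m) = D * ((u⁻¹ : (R F (2 * m))ˣ) : R F (2 * m)) := by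
    rw [hDnn, mul_assoc, Units.mul_inv, mul_one]
  have hinj : ∀ s, φ s = s → D * s = 0 → s = 0 := by
    intro s hs h0
    have h4 : nn F (2 * m) * s = 0 := by
      rw [hDnn', mul_right_comm, h0, zero_mul]
    obtain ⟨c, hc⟩ := ker_nn hj s h4
    rw [hDnn', mul_pow] at hc
    obtain ⟨z, hz⟩ := decomp hj (((u⁻¹ : (R F (2 * m))ˣ) : R F (2 * m)) ^ (2 * m - 1))
    have h5 : D ^ (2 * m - 1) * D = 0 := by
      rw [← pow_succ, Nat.sub_add_cancel (by omega), hDnn, mul_pow, nn_pow, zero_mul]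
    obtain ⟨c', hc'⟩ : ∃ c' : F, s = algebraMap F _ c' * D ^ (2 * m - 1) := by
      refine ⟨c * res hj (((u⁻¹ : (R F (2 * m))ˣ) : R F (2 * m)) ^ (2 * m - 1)), ?_⟩
      rw [hc, map_mul]
      set w := ((u⁻¹ : (R F (2 * m))ˣ) : R F (2 * m)) ^ (2 * m - 1) with hw
      calc algebraMap F _ c * (D ^ (2 * m - 1) * w) = algebraMap F _ c * (D ^ (2 * m - 1) * (algebraMap F _ (res hj w) + nn F (2 * m) * z)) := by rw [← hz]
        _ = algebraMap F _ c * algebraMap F _ (res hj w) * D ^ (2 * m - 1) + algebraMap F _ c * ((D ^ (2 * m - 1) * D) * ((u⁻¹ : (R F (2 * m))ˣ) : R F (2 * m)) * z) := by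
            rw [hDnn']; ring
        _ = _ := by rw [h5]; ring
    have h6 : φ s = - s := by
      rw [hc', map_mul, h2, map_pow, hDφ, neg_pow, Odd.neg_one_pow ⟨m - 1, by omega⟩]
      ring
    rw [hs] at h6
    have h7 : 2 * s = 0 := by linear_combination h6
    calc s = half * 2 * s := by rw [hhalf, one_mul]
      _ = half * (2 * s) := by ring
      _ = 0 := by rw [h7, mul_zero]
  have hsurj : ∀ r, φ r = - r → ∃ s, φ s = s ∧ D * s = r := by
    intro r hr
    have h4 : res hj r = 0 := by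
      have h4 := hres r
      rw [hr, map_neg] at h4
      have h5 : 2 * res hj r = 0 := by linear_combination -h4
      exact (mul_eq_zero.mp h5).resolve_left h20
    obtain ⟨z, hz⟩ := decomp hj r
    rw [h4, map_zero, zero_add, hDnn', mul_assoc] at hz
    set t := ((u⁻¹ : (R F (2 * m))ˣ) : R F (2 * m)) * z with ht
    have h5 : D * φ t = D * t := by
      have := congrArg φ hz
      rw [hr, map_mul, hDφ] at this
      linear_combination this + hz
    refine ⟨half * (t + φ t), ?_, ?_⟩
    · rw [map_mul, hhφ, map_add, h3]; ring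
    · calc D * (half * (t + φ t)) = half * (D * t + D * φ t) := by ring
        _ = (half * 2) * (D * t) := by rw [h5]; ring
        _ = r := by rw [hhalf, one_mul, ← hz]
  have e1 : Nat.card {s : R F (2 * m) // φ s = s} = Nat.card {r : R F (2 * m) // φ r = - r} := by
    apply Nat.card_congr
    refine Equiv.ofBijective (fun s => ⟨D * s.1, by rw [map_mul, hDφ, s.2]; ring⟩) ⟨?_, ?_⟩
    · rintro ⟨s, hs⟩ ⟨s', hs'⟩ h
      have h4 : D * s = D * s' := congrArg Subtype.val h
      apply Subtype.ext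
      show s = s'
      have h5 := hinj (s - s') (by rw [map_sub, hs, hs']) (by rw [mul_sub, h4, sub_self])
      exact sub_eq_zero.mp h5
    · rintro ⟨r, hr⟩
      obtain ⟨s, hs, hsr⟩ := hsurj r hr
      exact ⟨⟨s, hs⟩, Subtype.ext hsr⟩
  have e2 : Nat.card ({s : R F (2 * m) // φ s = s} × {r : R F (2 * m) // φ r = - r}) = Nat.card (R F (2 * m)) := by
    apply Nat.card_congr
    refine Equiv.ofBijective (fun x => x.1.1 + x.2.1) ⟨?_, ?_⟩
    · rintro ⟨⟨s, hs⟩, ⟨r, hr⟩⟩ ⟨⟨s', hs'⟩, ⟨r', hr'⟩⟩ h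
      have h4 : s + r = s' + r' := h
      have h5 := congrArg φ h4
      rw [map_add, map_add, hs, hr, hs', hr'] at h5
      have h6 : s = s' := by
        calc s = half * 2 * s := by rw [hhalf, one_mul]
          _ = half * ((s + r) + (s + -r)) := by ring
          _ = half * ((s' + r') + (s' + -r')) := by rw [h4, h5]
          _ = half * 2 * s' := by ring
          _ = s' := by rw [hhalf, one_mul]
      subst h6
      have h7 : r = r' := add_left_cancel h4
      subst h7
      rfl
    · intro x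
      refine ⟨(⟨half * (x + φ x), by rw [map_mul, hhφ, map_add, h3]; ring⟩, ⟨half * (x - φ x), by rw [map_mul, hhφ, map_sub, h3]; ring⟩), ?_⟩
      show half * (x + φ x) + half * (x - φ x) = x
      calc half * (x + φ x) + half * (x - φ x) = half * 2 * x := by ring
        _ = x := by rw [hhalf, one_mul]
  have e3 : Nat.card (R F (2 * m)) = Nat.card F ^ (2 * m) := by
    rw [Module.natCard_eq_pow_finrank (K := F) (V := R F (2 * m))]
    congr 1
    rw [finrank_adjoinRoot _ (pow_ne_zero _ X1_irreducible.ne_zero), X1_monic.natDegree_pow, X1_natDegree, mul_one]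
  rw [Nat.card_prod, e1, e3] at e2
  have e4 : Nat.card {r : R F (2 * m) // φ r = - r} ^ 2 = (Nat.card F ^ m) ^ 2 := by
    rw [pow_two, e2, ← pow_mul, mul_comm m 2]
  exact Nat.pow_left_injective (n := 2) (by norm_num) e4

end Cfsg.Agent.Lib.RegUni2
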