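import Cfsg.Agent.Lib.RegUni2

set_option autoImplicit false
set_option linter.unusedSectionVars false

/-! Regular unipotent elements of symplectic groups in odd characteristic, matrix form (helper43). -/

namespace Cfsg.Agent.Lib.RegUni3

open Module Polynomial Cfsg.Agent.Lib.FXMod Cfsg.Agent.Lib.FXType Cfsg.Agent.Lib.GLClass Cfsg.Agent.Lib.PolyStar Cfsg.Agent.Lib.HermType2
  Cfsg.Agent.Lib.JordanType Cfsg.Agent.Lib.RegUni Cfsg.Agent.Lib.RegUni2 Cfsg.Agent.Lib.SympAux

universe u v

variable {F : Type u} [Field F] {m : ℕ}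

theorem exists_coord (hm : 1 ≤ m) (u : Matrix (Fin m ⊕ Fin m) (Fin m ⊕ Fin m) F) (hnil : (u - 1) ^ (2 * m) = 0) (hreg : (u - 1).rank = 2 * m - 1) :
    ∃ e : (Fin m ⊕ Fin m → F) ≃ₗ[F] R F (2 * m), ∀ x, e (u.mulVec x) = rt (dv F (2 * m)) * e x := by
  have hdim : finrank F (Fin m ⊕ Fin m → F) = 2 * m := by
    rw [Module.finrank_fintype_fun_eq_card, Fintype.card_sum, Fintype.card_fin]; ring
  have hN : ∀ k : ℕ, (Matrix.mulVecLin u - 1) ^ k = Matrix.mulVecLin ((u - 1) ^ k) := by
    intro k
    have h1 := aeval_mulVecLin u ((X - 1) ^ k)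
    rwa [map_pow, map_sub, aeval_X, map_one, map_pow, map_sub, aeval_X, map_one] at h1
  have h2 : HasType (Matrix.mulVecLin u) {((X - 1 : F[X]), 2 * m)} := by
    apply hasType_of_ker _ _ hdim
    · rw [hN, hnil]
      exact Matrix.mulVecLin_zero
    · have h3 := LinearMap.finrank_range_add_finrank_ker (Matrix.mulVecLin u - 1)
      rw [hdim] at h3
      have h4 : finrank F (LinearMap.range (Matrix.mulVecLin u - 1)) = 2 * m - 1 := by
        rw [← hreg, Matrix.rank]
        have := hN 1
        rw [pow_one, pow_one] at this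
        rw [this]
      omega
  exact HasType_cyc_equiv h2

theorem bswap (x y : Fin m ⊕ Fin m → F) : bform m F x y = - bform m F y x := sympForm_swap x y

theorem bnd (x : Fin m ⊕ Fin m → F) (h : ∀ y, bform m F x y = 0) : x = 0 := sympForm_nondeg h

/-- the order of the centraliser -/
theorem centralizer_card [Finite F] (h20 : (2 : F) ≠ 0) (hm : 1 ≤ m) (u : Matrix.symplecticGroup (Fin m) F)
    (hnil : ((u : Matrix (Fin m ⊕ Fin m) (Fin m ⊕ Fin m) F) - 1) ^ (2 * m) = 0)
    (hreg : ((u : Matrix (Fin m ⊕ Fin m) (Fin m ⊕ Fin m) F) - 1).rank = 2 * m - 1) :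
    Nat.card ↥(Subgroup.centralizer ({u} : Set ↥(Matrix.symplecticGroup (Fin m) F))) = 2 * Nat.card F ^ m := by
  have hj : 0 < 2 * m := by omega
  obtain ⟨φ, h1, h2, h3⟩ := exists_inv (F := F) (2 * m) hj
  obtain ⟨e, he⟩ := exists_coord hm u.1 hnil hreg
  obtain ⟨l, hl1, hl2, hl3⟩ := exists_package φ h1 h2 h3 (bform m F) bswap bnd (fun x => u.1.mulVec x)
    (fun x y => sympForm_preserved u x y) e he
  rw [← card_minus h20 (by omega) φ h1 h2 h3, ← card_norm_one φ h20 hj h1 h2 h3]
  -- commuting elements act by multiplication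
  have hcomm : ∀ g : Matrix (Fin m ⊕ Fin m) (Fin m ⊕ Fin m) F, g * u.1 = u.1 * g → ∀ x, e (g.mulVec x) = e (g.mulVec (e.symm 1)) * e x := by
    intro g hg
    have key : ∀ a : R F (2 * m), ∀ y, e (g.mulVec (e.symm (a * y))) = a * e (g.mulVec (e.symm y)) := by
      intro a
      have hC : ∀ (c : F) y, e (g.mulVec (e.symm (algebraMap F (R F (2 * m)) c * y))) = algebraMap F (R F (2 * m)) c * e (g.mulVec (e.symm y)) := by
        intro c y
        rw [← Algebra.smul_def, ← Algebra.smul_def, map_smul, Matrix.mulVec_smul, map_smul]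
      have hX : ∀ y, e (g.mulVec (e.symm (rt (dv F (2 * m)) * y))) = rt (dv F (2 * m)) * e (g.mulVec (e.symm y)) := by
        intro y
        have h4 : e.symm (rt (dv F (2 * m)) * y) = u.1.mulVec (e.symm y) := by
          rw [LinearEquiv.symm_apply_eq, he, LinearEquiv.apply_symm_apply]
        rw [h4, Matrix.mulVec_mulVec, hg, ← Matrix.mulVec_mulVec, he]
      induction a using AdjoinRoot.induction_on with
      | ih p =>
        induction p using Polynomial.induction_on with
        | C c => exact hC c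
        | add p q hp hq =>
          intro y
          rw [map_add, add_mul, map_add, Matrix.mulVec_add, map_add, hp, hq, add_mul]
        | monomial n c ih =>
          intro y
          rw [pow_succ, ← mul_assoc, map_mul (AdjoinRoot.mk _), AdjoinRoot.mk_X, mul_assoc, ih, hX, mul_assoc]
    intro x
    have := key (e x) 1
    rw [mul_one, LinearEquiv.symm_apply_apply] at this
    rw [this, mul_comm (e x)]
  have hmemc : ∀ g : Matrix.symplecticGroup (Fin m) F, g ∈ Subgroup.centralizer ({u} : Set ↥(Matrix.symplecticGroup (Fin m) F)) →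
      g.1 * u.1 = u.1 * g.1 := by
    intro g hg
    have := Subgroup.mem_centralizer_singleton_iff.mp hg
    exact congrArg Subtype.val this
  have hnorm : ∀ g : Matrix.symplecticGroup (Fin m) F, g ∈ Subgroup.centralizer ({u} : Set ↥(Matrix.symplecticGroup (Fin m) F)) →
      e (g.1.mulVec (e.symm 1)) * φ (e (g.1.mulVec (e.symm 1))) = 1 := by
    intro g hg
    have h4 := hcomm g.1 (hmemc g hg)
    set a := e (g.1.mulVec (e.symm 1)) with ha
    have h5 : a * φ a - 1 = 0 := by
      apply hl3
      intro b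
      have h6 := sympForm_preserved g (e.symm b) (e.symm 1)
      have h7 : l (e (g.1.mulVec (e.symm b)) * φ (e (g.1.mulVec (e.symm 1)))) = l (e (e.symm b) * φ (e (e.symm 1))) := by
        rw [← hl1, ← hl1]; exact h6
      rw [h4, ← ha, LinearEquiv.apply_symm_apply, LinearEquiv.apply_symm_apply, map_one, mul_one] at h7
      rw [sub_mul, one_mul, map_sub, ← h7, sub_eq_zero]
      congr 1
      ring
    exact sub_eq_zero.mp h5
  apply Nat.card_congr
  refine Equiv.ofBijective (fun g => ⟨e (g.1.1.mulVec (e.symm 1)), hnorm g.1 g.2⟩) ⟨?_, ?_⟩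
  · rintro ⟨g, hg⟩ ⟨g', hg'⟩ h
    have h4 : e (g.1.mulVec (e.symm 1)) = e (g'.1.mulVec (e.symm 1)) := congrArg Subtype.val h
    apply Subtype.ext
    apply Subtype.ext
    apply LinAux.matrix_ext
    intro x
    apply e.injective
    rw [hcomm g.1 (hmemc g hg), hcomm g'.1 (hmemc g' hg'), h4]
  · rintro ⟨a, ha⟩
    let G : (Fin m ⊕ Fin m → F) →ₗ[F] (Fin m ⊕ Fin m → F) := e.symm.toLinearMap ∘ₗ LinearMap.mulLeft F a ∘ₗ e.toLinearMap
    have hG : ∀ x, (LinearMap.toMatrix' G).mulVec x = e.symm (a * e x) := by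
      intro x
      rw [LinearMap.toMatrix'_mulVec]
      rfl
    have hmem : LinearMap.toMatrix' G ∈ Matrix.symplecticGroup (Fin m) F := by
      rw [mem_symplecticGroup_iff]
      intro x y
      rw [hG, hG]
      show bform m F _ _ = bform m F _ _
      rw [hl1, hl1, LinearEquiv.apply_symm_apply, LinearEquiv.apply_symm_apply, map_mul φ]
      congr 1
      calc a * e x * (φ a * φ (e y)) = (a * φ a) * (e x * φ (e y)) := by ring
        _ = _ := by rw [ha, one_mul]
    refine ⟨⟨⟨_, hmem⟩, ?_⟩, ?_⟩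
    · rw [Subgroup.mem_centralizer_singleton_iff]
      apply Subtype.ext
      apply LinAux.matrix_ext
      intro x
      show (LinearMap.toMatrix' G * u.1).mulVec x = (u.1 * LinearMap.toMatrix' G).mulVec x
      rw [← Matrix.mulVec_mulVec, ← Matrix.mulVec_mulVec, hG, hG]
      apply e.injective
      rw [he, he, LinearEquiv.apply_symm_apply, LinearEquiv.apply_symm_apply]
      ring
    · apply Subtype.ext
      show e ((LinearMap.toMatrix' G).mulVec (e.symm 1)) = a
      rw [hG, LinearEquiv.apply_symm_apply, LinearEquiv.apply_symm_apply, mul_one]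

end Cfsg.Agent.Lib.RegUni3
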