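import Cfsg.Agent.Lib.RegUni3
import Cfsg.Agent.Lib.FormJordan3

set_option autoImplicit false
set_option linter.unusedSectionVars false

/-! Classes of regular unipotent elements of symplectic groups in odd characteristic (helper43). -/

namespace Cfsg.Agent.Lib.RegUni4

open Module Polynomial Cfsg.Agent.Lib.FXMod Cfsg.Agent.Lib.FXType Cfsg.Agent.Lib.GLClass Cfsg.Agent.Lib.PolyStar Cfsg.Agent.Lib.HermType2
  Cfsg.Agent.Lib.JordanType Cfsg.Agent.Lib.RegUni Cfsg.Agent.Lib.RegUni2 Cfsg.Agent.Lib.RegUni3 Cfsg.Agent.Lib.SympAux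

universe u v

variable {F : Type u} [Field F] {m : ℕ}

theorem lC {j : ℕ} (l : R F j →ₗ[F] F) (c : F) (x : R F j) : l (algebraMap F (R F j) c * x) = c * l x := by
  rw [← Algebra.smul_def, map_smul, smul_eq_mul]

/-- regular unipotent -/
def RU (u : Matrix.symplecticGroup (Fin m) F) : Prop :=
  ((u : Matrix (Fin m ⊕ Fin m) (Fin m ⊕ Fin m) F) - 1) ^ (2 * m) = 0 ∧ ((u : Matrix (Fin m ⊕ Fin m) (Fin m ⊕ Fin m) F) - 1).rank = 2 * m - 1

/-- the base functional -/
theorem exists_base (h20 : (2 : F) ≠ 0) (hm : 1 ≤ m) (φ : R F (2 * m) →+* R F (2 * m)) (h1 : φ (rt (dv F (2 * m))) * rt (dv F (2 * m)) = 1)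
    (h2 : ∀ c, φ (algebraMap F _ c) = algebraMap F _ c) (h3 : ∀ x, φ (φ x) = x) :
    ∃ l : R F (2 * m) →ₗ[F] F, (∀ a, l (φ a) = - l a) ∧ (∀ a, (∀ b, l (a * b) = 0) → a = 0) := by
  obtain ⟨V, _, _, B, f, b1, b2, b3, b4⟩ := FormJordan3.SReal_even_odd_char h20 (2 * m) (by omega) (even_two_mul m)
  have b4' : HasType f {((X - 1 : F[X]), 2 * m)} := by
    have : FormJordan2.uni F {2 * m} = {((X - 1 : F[X]), 2 * m)} := rfl
    rwa [this] at b4
  obtain ⟨e, he⟩ := HasType_cyc_equiv b4'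
  have hswap : ∀ x y, B x y = - B y x := by
    intro x y
    have h4 := b1 (x + y)
    simp only [map_add, LinearMap.add_apply, b1, zero_add, add_zero] at h4
    linear_combination h4
  obtain ⟨l, -, hl2, hl3⟩ := exists_package φ h1 h2 h3 B hswap b2 f b3 e he
  exact ⟨l, hl2, hl3⟩

/-- `u` has invariant `c` -/
def Inv (φ : R F (2 * m) →+* R F (2 * m)) (l : R F (2 * m) →ₗ[F] F) (u : Matrix.symplecticGroup (Fin m) F) (c : F) : Prop :=
  ∃ e : (Fin m ⊕ Fin m → F) ≃ₗ[F] R F (2 * m), (∀ x, e (u.1.mulVec x) = rt (dv F (2 * m)) * e x) ∧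
    ∀ x y, bform m F x y = c * l (e x * φ (e y))

theorem Inv.isConj {φ : R F (2 * m) →+* R F (2 * m)} {l : R F (2 * m) →ₗ[F] F} {u u' : Matrix.symplecticGroup (Fin m) F} {c : F}
    (h : Inv φ l u c) (h' : Inv φ l u' c) : IsConj u u' := by
  obtain ⟨e, he, hB⟩ := h
  obtain ⟨e', he', hB'⟩ := h'
  let G : (Fin m ⊕ Fin m → F) →ₗ[F] (Fin m ⊕ Fin m → F) := e'.symm.toLinearMap ∘ₗ e.toLinearMap
  have hG : ∀ x, (LinearMap.toMatrix' G).mulVec x = e'.symm (e x) := by
    intro x
    rw [LinearMap.toMatrix'_mulVec]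
    rfl
  have hmem : LinearMap.toMatrix' G ∈ Matrix.symplecticGroup (Fin m) F := by
    rw [mem_symplecticGroup_iff]
    intro x y
    rw [hG, hG]
    show bform m F _ _ = bform m F _ _
    rw [hB', hB, LinearEquiv.apply_symm_apply, LinearEquiv.apply_symm_apply]
  rw [isConj_iff]
  refine ⟨⟨_, hmem⟩, ?_⟩
  rw [mul_inv_eq_iff_eq_mul]
  apply Subtype.ext
  apply LinAux.matrix_ext
  intro x
  show (LinearMap.toMatrix' G * u.1).mulVec x = (u'.1 * LinearMap.toMatrix' G).mulVec x
  rw [← Matrix.mulVec_mulVec, ← Matrix.mulVec_mulVec, hG, hG]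
  apply e'.injective
  rw [he', LinearEquiv.apply_symm_apply, LinearEquiv.apply_symm_apply, he]

theorem Inv.of_isConj {φ : R F (2 * m) →+* R F (2 * m)} {l : R F (2 * m) →ₗ[F] F} {u u' : Matrix.symplecticGroup (Fin m) F} {c : F}
    (h : Inv φ l u c) (h' : IsConj u u') : Inv φ l u' c := by
  obtain ⟨e, he, hB⟩ := h
  obtain ⟨g, hg⟩ := isConj_iff.mp h'
  have hgi : ∀ x, (g⁻¹ : Matrix.symplecticGroup (Fin m) F).1.mulVec (g.1.mulVec x) = x := by
    intro x
    rw [Matrix.mulVec_mulVec]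
    have : (g⁻¹ : Matrix.symplecticGroup (Fin m) F).1 * g.1 = 1 := congrArg Subtype.val (inv_mul_cancel g)
    rw [this, Matrix.one_mulVec]
  have hgi' : ∀ x, g.1.mulVec ((g⁻¹ : Matrix.symplecticGroup (Fin m) F).1.mulVec x) = x := by
    intro x
    rw [Matrix.mulVec_mulVec]
    have : g.1 * (g⁻¹ : Matrix.symplecticGroup (Fin m) F).1 = 1 := congrArg Subtype.val (mul_inv_cancel g)
    rw [this, Matrix.one_mulVec]
  let t : (Fin m ⊕ Fin m → F) ≃ₗ[F] (Fin m ⊕ Fin m → F) :=
    LinearEquiv.ofLinearMap (Matrix.mulVecLin (g⁻¹ : Matrix.symplecticGroup (Fin m) F).1) (Matrix.mulVecLin g.1)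
      (LinearMap.ext fun x => hgi x) (LinearMap.ext fun x => hgi' x)
  have ht : ∀ x, t x = (g⁻¹ : Matrix.symplecticGroup (Fin m) F).1.mulVec x := fun _ => rfl
  refine ⟨t.trans e, ?_, ?_⟩
  · intro x
    rw [LinearEquiv.trans_apply, LinearEquiv.trans_apply, ← he, ht, ht, Matrix.mulVec_mulVec, Matrix.mulVec_mulVec, ← hg]
    congr 2
    show (g⁻¹ * (g * u * g⁻¹) : Matrix.symplecticGroup (Fin m) F).1 = (u * g⁻¹ : Matrix.symplecticGroup (Fin m) F).1
    congr 1
    group
  · intro x y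
    rw [LinearEquiv.trans_apply, LinearEquiv.trans_apply, ← hB, ht, ht]
    exact (sympForm_preserved g⁻¹ x y).symm

theorem Inv.sq {φ : R F (2 * m) →+* R F (2 * m)} {l : R F (2 * m) →ₗ[F] F} {u : Matrix.symplecticGroup (Fin m) F} {c d : F}
    (h2 : ∀ c, φ (algebraMap F _ c) = algebraMap F _ c)
    (h : Inv φ l u (c * (d * d))) (hd : d ≠ 0) : Inv φ l u c := by
  obtain ⟨e, he, hB⟩ := h
  refine ⟨e.trans (LinearEquiv.smulOfNeZero F _ d hd), ?_, ?_⟩
  · intro x
    rw [LinearEquiv.trans_apply, LinearEquiv.trans_apply, he]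
    show d • (rt (dv F (2 * m)) * e x) = rt (dv F (2 * m)) * d • e x
    rw [mul_smul_comm]
  · intro x y
    rw [LinearEquiv.trans_apply, LinearEquiv.trans_apply, hB]
    show _ = c * l (d • e x * φ (d • e y))
    rw [Algebra.smul_def d (e y), map_mul φ, h2, ← Algebra.smul_def, smul_mul_smul_comm, map_smul, smul_eq_mul]
    ring

theorem Inv.exists [Finite F] (h20 : (2 : F) ≠ 0) (hm : 1 ≤ m) (φ : R F (2 * m) →+* R F (2 * m)) (h1 : φ (rt (dv F (2 * m))) * rt (dv F (2 * m)) = 1)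
    (h2 : ∀ c, φ (algebraMap F _ c) = algebraMap F _ c) (h3 : ∀ x, φ (φ x) = x)
    (l : R F (2 * m) →ₗ[F] F) (hl : ∀ a, l (φ a) = - l a) (hnd : ∀ a, (∀ b, l (a * b) = 0) → a = 0)
    (u : Matrix.symplecticGroup (Fin m) F) (hu : RU u) : ∃ c : F, c ≠ 0 ∧ Inv φ l u c := by
  have hj : 0 < 2 * m := by omega
  obtain ⟨e, he⟩ := exists_coord hm u.1 hu.1 hu.2
  obtain ⟨l', hl1, hl2, hl3⟩ := exists_package φ h1 h2 h3 (bform m F) bswap bnd (fun x => u.1.mulVec x)
    (fun x y => sympForm_preserved u x y) e he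
  obtain ⟨h, hh, hhu, hhl⟩ := exists_scale φ hj l l' hl hnd h3 hl2 hl3
  have hc : res hj h ≠ 0 := (isUnit_iff hj h).mp hhu
  set c := res hj h with hcdef
  obtain ⟨w, hw1, hw2⟩ := exists_sqrt φ h20 hj (algebraMap F _ c⁻¹ * h) (by rw [map_mul, h2, hh])
    (by rw [map_mul, res_algebraMap, ← hcdef, inv_mul_cancel₀ hc])
  have hwu : IsUnit w := by
    apply isUnit_of_mul_isUnit_left (y := w)
    rw [hw2]
    exact ((IsUnit.mk0 _ (inv_ne_zero hc)).map _).mul hhu
  obtain ⟨w', hw'⟩ := hwu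
  have hhw : h = algebraMap F _ c * (w * w) := by
    rw [hw2, ← mul_assoc, ← map_mul, mul_inv_cancel₀ hc, map_one, one_mul]
  let t : R F (2 * m) ≃ₗ[F] R F (2 * m) := LinearEquiv.ofLinearMap (LinearMap.mulLeft F w) (LinearMap.mulLeft F ((w'⁻¹ : (R F (2 * m))ˣ) : R F (2 * m)))
    (LinearMap.ext fun x => by
      show w * (((w'⁻¹ : (R F (2 * m))ˣ) : R F (2 * m)) * x) = x
      rw [← hw', ← mul_assoc, Units.mul_inv, one_mul])
    (LinearMap.ext fun x => by
      show ((w'⁻¹ : (R F (2 * m))ˣ) : R F (2 * m)) * (w * x) = x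
      rw [← hw', ← mul_assoc, Units.inv_mul, one_mul])
  have ht : ∀ x, t x = w * x := fun _ => rfl
  refine ⟨c, hc, e.trans t, ?_, ?_⟩
  · intro x
    rw [LinearEquiv.trans_apply, LinearEquiv.trans_apply, he, ht, ht]
    ring
  · intro x y
    rw [LinearEquiv.trans_apply, LinearEquiv.trans_apply, ht, ht, map_mul φ, hw1, hl1, hhl, hhw, ← lC]
    congr 1
    ring

theorem Inv.unique {φ : R F (2 * m) →+* R F (2 * m)} (hm : 1 ≤ m) (h1 : φ (rt (dv F (2 * m))) * rt (dv F (2 * m)) = 1)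
    (h2 : ∀ c, φ (algebraMap F _ c) = algebraMap F _ c)
    {l : R F (2 * m) →ₗ[F] F} (hnd : ∀ a, (∀ b, l (a * b) = 0) → a = 0) {u : Matrix.symplecticGroup (Fin m) F}
    {c c' : F} (h : Inv φ l u c) (h' : Inv φ l u c') : ∃ d : F, c = c' * (d * d) := by
  have hj : 0 < 2 * m := by omega
  obtain ⟨e, he, hB⟩ := h
  obtain ⟨e', he', hB'⟩ := h'
  -- `e' = a * e`
  have key : ∀ a : R F (2 * m), ∀ y, e' (e.symm (a * y)) = a * e' (e.symm y) := by
    intro a
    have hC : ∀ (c : F) y, e' (e.symm (algebraMap F (R F (2 * m)) c * y)) = algebraMap F (R F (2 * m)) c * e' (e.symm y) := by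
      intro c y
      rw [← Algebra.smul_def, ← Algebra.smul_def, map_smul, map_smul]
    have hX : ∀ y, e' (e.symm (rt (dv F (2 * m)) * y)) = rt (dv F (2 * m)) * e' (e.symm y) := by
      intro y
      have h4 : e.symm (rt (dv F (2 * m)) * y) = u.1.mulVec (e.symm y) := by
        rw [LinearEquiv.symm_apply_eq, he, LinearEquiv.apply_symm_apply]
      rw [h4, he']
    induction a using AdjoinRoot.induction_on with
    | ih p =>
      induction p using Polynomial.induction_on with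
      | C c => exact hC c
      | add p q hp hq =>
        intro y
        rw [map_add, add_mul, map_add, map_add, hp, hq, add_mul]
      | monomial n c ih =>
        intro y
        rw [pow_succ, ← mul_assoc, map_mul (AdjoinRoot.mk _), AdjoinRoot.mk_X, mul_assoc, ih, hX, mul_assoc]
  set a := e' (e.symm 1) with ha
  have hea : ∀ r, e' (e.symm r) = r * a := by
    intro r
    have := key r 1
    rwa [mul_one] at this
  have h4 : algebraMap F (R F (2 * m)) c - algebraMap F _ c' * (a * φ a) = 0 := by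
    apply hnd
    intro b
    have h5 := (hB (e.symm b) (e.symm 1)).symm.trans (hB' (e.symm b) (e.symm 1))
    rw [LinearEquiv.apply_symm_apply, LinearEquiv.apply_symm_apply, hea, hea, map_one, mul_one, one_mul, ← lC l c, ← lC l c'] at h5
    rw [sub_mul, map_sub, h5, sub_eq_zero]
    congr 1
    ring
  have h5 := congrArg (res hj) (sub_eq_zero.mp h4)
  rw [map_mul, map_mul, res_inv φ hj h1 h2, res_algebraMap, res_algebraMap] at h5
  exact ⟨_, h5⟩

theorem Inv.realize (h20 : (2 : F) ≠ 0) (hm : 1 ≤ m) (φ : R F (2 * m) →+* R F (2 * m)) (h1 : φ (rt (dv F (2 * m))) * rt (dv F (2 * m)) = 1)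
    (h2 : ∀ c, φ (algebraMap F _ c) = algebraMap F _ c) (h3 : ∀ x, φ (φ x) = x)
    (l : R F (2 * m) →ₗ[F] F) (hl : ∀ a, l (φ a) = - l a) (hnd : ∀ a, (∀ b, l (a * b) = 0) → a = 0) (c : F) (hc : c ≠ 0) :
    ∃ u : Matrix.symplecticGroup (Fin m) F, RU u ∧ Inv φ l u c := by
  have hj : 0 < 2 * m := by omega
  have hfd : FiniteDimensional F (R F (2 * m)) := (good_X1 hj).finite
  have hdim : finrank F (R F (2 * m)) = 2 * m := by
    rw [finrank_adjoinRoot _ (pow_ne_zero _ X1_irreducible.ne_zero), X1_monic.natDegree_pow, X1_natDegree, mul_one]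
  let B : R F (2 * m) →ₗ[F] R F (2 * m) →ₗ[F] F := LinearMap.mk₂ F (fun x y => c * l (x * φ y))
    (by intro x x' y; rw [add_mul, map_add, mul_add])
    (by intro d x y; rw [smul_mul_assoc, map_smul, smul_eq_mul, smul_eq_mul]; ring)
    (by intro x y y'; rw [map_add φ, mul_add, map_add, mul_add])
    (by intro d x y; rw [Algebra.smul_def d y, map_mul φ, h2, ← Algebra.smul_def, mul_smul_comm, map_smul, smul_eq_mul, smul_eq_mul]; ring)
  have hB : ∀ x y, B x y = c * l (x * φ y) := fun _ _ => rfl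
  obtain ⟨e, he⟩ := SympBasis.exists_equiv_of_finrank hdim B (by
      intro v
      rw [hB]
      have h4 := hl (v * φ v)
      rw [map_mul φ, h3, mul_comm (φ v)] at h4
      have h5 : 2 * l (v * φ v) = 0 := by linear_combination h4
      rw [(mul_eq_zero.mp h5).resolve_left h20, mul_zero])
    (by
      intro v hv
      apply hnd
      intro b
      have h4 := hv (φ b)
      rw [hB, h3] at h4
      exact (mul_eq_zero.mp h4).resolve_left hc)
  let G : (Fin m ⊕ Fin m → F) →ₗ[F] (Fin m ⊕ Fin m → F) := e.symm.toLinearMap ∘ₗ LinearMap.mulLeft F (rt (dv F (2 * m))) ∘ₗ e.toLinearMap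
  have hG : ∀ x, (LinearMap.toMatrix' G).mulVec x = e.symm (rt (dv F (2 * m)) * e x) := by
    intro x
    rw [LinearMap.toMatrix'_mulVec]
    rfl
  have hmem : LinearMap.toMatrix' G ∈ Matrix.symplecticGroup (Fin m) F := by
    rw [mem_symplecticGroup_iff]
    intro x y
    rw [hG, hG, ← he, ← he, LinearEquiv.apply_symm_apply, LinearEquiv.apply_symm_apply, hB, hB, map_mul φ]
    congr 2
    calc rt (dv F (2 * m)) * e x * (φ (rt (dv F (2 * m))) * φ (e y)) = (φ (rt (dv F (2 * m))) * rt (dv F (2 * m))) * (e x * φ (e y)) := by ring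
      _ = _ := by rw [h1, one_mul]
  have hpow : ∀ (k : ℕ) x, ((LinearMap.toMatrix' G - 1) ^ k).mulVec x = e.symm (nn F (2 * m) ^ k * e x) := by
    intro k
    induction k with
    | zero => intro x; rw [pow_zero, pow_zero, one_mul, Matrix.one_mulVec, LinearEquiv.symm_apply_apply]
    | succ k ih =>
      intro x
      rw [pow_succ', ← Matrix.mulVec_mulVec, ih, Matrix.sub_mulVec, hG, Matrix.one_mulVec, ← map_sub, LinearEquiv.apply_symm_apply, pow_succ', nn]
      congr 1
      ring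
  refine ⟨⟨_, hmem⟩, ⟨?_, ?_⟩, e, ?_, ?_⟩
  · apply LinAux.matrix_ext
    intro x
    show ((LinearMap.toMatrix' G - 1) ^ (2 * m)).mulVec x = (0 : Matrix _ _ F).mulVec x
    rw [hpow, nn_pow, zero_mul, map_zero, Matrix.zero_mulVec]
  · show (LinearMap.toMatrix' G - 1).rank = 2 * m - 1
    have h4 := hpow 1
    rw [pow_one, pow_one] at h4
    have h5 : finrank F (LinearMap.ker (Matrix.mulVecLin (LinearMap.toMatrix' G - 1))) = 1 := by
      have h6 := (hasType_cyc (dv F (2 * m)) (good_X1 hj)).finrank_ker (X - 1)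
      classical
      have h7 := natDegree_gcd_pow (X - 1 : F[X]) (X - 1 : F[X]) X1_monic X1_irreducible X1_monic X1_irreducible 1 (2 * m)
      rw [pow_one, if_pos rfl, X1_natDegree, one_mul, min_eq_left (by omega)] at h7
      rw [Multiset.map_singleton, Multiset.sum_singleton, h7] at h6
      rw [← h6]
      apply LinearEquiv.finrank_eq
      refine LinearEquiv.ofSubmodules e _ _ ?_
      ext y
      rw [Submodule.mem_map]
      have h8 : ∀ y, (aeval (LinearMap.mulLeft F (AdjoinRoot.root ((dv F (2 * m)).1 ^ (dv F (2 * m)).2)))) (X - 1 : F[X]) y = nn F (2 * m) * y := by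
        intro y
        rw [map_sub, aeval_X, map_one, nn]
        show rt (dv F (2 * m)) * y - y = _
        ring
      constructor
      · rintro ⟨x, hx, rfl⟩
        rw [LinearMap.mem_ker, Matrix.mulVecLin_apply, h4, LinearEquiv.symm_apply_eq, map_zero] at hx
        rw [LinearMap.mem_ker, h8]
        exact hx
      · intro hy
        rw [LinearMap.mem_ker, h8] at hy
        refine ⟨e.symm y, ?_, LinearEquiv.apply_symm_apply _ _⟩
        rw [LinearMap.mem_ker, Matrix.mulVecLin_apply, h4, LinearEquiv.apply_symm_apply, hy, map_zero]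
    have h6 := LinearMap.finrank_range_add_finrank_ker (Matrix.mulVecLin (LinearMap.toMatrix' G - 1))
    rw [h5, Module.finrank_fintype_fun_eq_card, Fintype.card_sum, Fintype.card_fin] at h6
    rw [Matrix.rank]
    omega
  · intro x
    show e ((LinearMap.toMatrix' G).mulVec x) = _
    rw [hG, LinearEquiv.apply_symm_apply]
  · intro x y
    exact (he x y).symm

end Cfsg.Agent.Lib.RegUni4
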