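import Mathlib
import Cfsg.Agent.Lib.Rf5

set_option autoImplicit false
set_option linter.unusedSectionVars false
set_option linter.unusedSimpArgs false
set_option linter.unusedVariables false

/-!
# Overgroups of the even monomial group, even dimension: unique frames (helper14)
-/

namespace Cfsg.Agent.Lib.Rfe

open Matrix
open Equiv (Perm)
open Cfsg.Agent.Lib.Rf (ei)

variable {ι : Type*} [Fintype ι] [DecidableEq ι] {F : Type*} [Field F]

theorem ei_dot (i : ι) (v : ι → F) : ei i ⬝ᵥ v = v i := by simp [ei]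
theorem dot_ei (i : ι) (v : ι → F) : v ⬝ᵥ ei i = v i := by simp [ei]
theorem ei_self (i : ι) : (ei i : ι → F) i = 1 := by simp [ei]
theorem ei_ne {i j : ι} (h : j ≠ i) : (ei i : ι → F) j = 0 := by simp [ei, h]

theorem exp_ei (w : ι → F) : w = ∑ i, w i • ei i := by
  ext j
  rw [Finset.sum_apply, Finset.sum_eq_single j]
  · rw [Pi.smul_apply, ei_self, smul_eq_mul, mul_one]
  · intro i _ hi
    rw [Pi.smul_apply, ei_ne hi.symm, smul_zero]
  · intro h; exact absurd (Finset.mem_univ _) h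

theorem ext_ei {g h : (ι → F) ≃ₗ[F] (ι → F)} (H : ∀ i, g (ei i) = h (ei i)) : g = h := by
  apply LinearEquiv.ext
  intro w
  rw [exp_ei w, map_sum, map_sum]
  exact Finset.sum_congr rfl fun i _ => by rw [map_smul, map_smul, H]

/-- sign changes -/
def tf (T : Finset ι) : (ι → F) ≃ₗ[F] (ι → F) where
  toFun w := fun i => if i ∈ T then - w i else w i
  map_add' u v := by
    ext i
    by_cases h : i ∈ T
    · simp [h]; ring
    · simp [h]
  map_smul' c v := by
    ext i
    by_cases h : i ∈ T <;> simp [h]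
  invFun w := fun i => if i ∈ T then - w i else w i
  left_inv w := by
    ext i
    by_cases h : i ∈ T <;> simp [h]
  right_inv w := by
    ext i
    by_cases h : i ∈ T <;> simp [h]

theorem tf_apply (T : Finset ι) (w : ι → F) (i : ι) : tf T w i = if i ∈ T then - w i else w i := rfl

theorem tf_pos {T : Finset ι} {i : ι} (h : i ∈ T) (w : ι → F) : tf T w i = - w i := by rw [tf_apply, if_pos h]
theorem tf_neg {T : Finset ι} {i : ι} (h : i ∉ T) (w : ι → F) : tf T w i = w i := by rw [tf_apply, if_neg h]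

theorem tf_ei (T : Finset ι) (i : ι) : (tf T (ei i) : ι → F) = if i ∈ T then - ei i else ei i := by
  ext j
  rw [tf_apply]
  by_cases hj : j = i
  · subst hj
    by_cases h : j ∈ T <;> simp [h]
  · by_cases h : i ∈ T
    · rw [if_pos h, Pi.neg_apply, ei_ne hj]; simp
    · rw [if_neg h, ei_ne hj]; simp

theorem tf_sq (T : Finset ι) (w : ι → F) : tf T (tf T w) = w := by
  ext i
  rw [tf_apply, tf_apply]
  by_cases h : i ∈ T <;> simp [h]

theorem tf_mul_self (T : Finset ι) : (tf T : (ι → F) ≃ₗ[F] (ι → F)) * tf T = 1 := by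
  apply LinearEquiv.ext; intro w; exact tf_sq T w

theorem tf_dot (T : Finset ι) (u v : ι → F) : tf T u ⬝ᵥ tf T v = u ⬝ᵥ v := by
  rw [dotProduct, dotProduct]
  apply Finset.sum_congr rfl
  intro i _
  rw [tf_apply, tf_apply]
  by_cases h : i ∈ T <;> simp [h]

/-- `tf T w ⬝ w` -/
theorem tf_dot_self (T : Finset ι) (w : ι → F) : tf T w ⬝ᵥ w = w ⬝ᵥ w - 2 * ∑ i ∈ T, w i ^ 2 := by
  have h1 : ∑ i ∈ T, w i ^ 2 = ∑ i, if i ∈ T then w i ^ 2 else 0 := by
    rw [Finset.sum_ite_mem, Finset.univ_inter]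
  rw [h1, dotProduct, dotProduct, Finset.mul_sum, ← Finset.sum_sub_distrib]
  apply Finset.sum_congr rfl
  intro i _
  rw [tf_apply]
  by_cases h : i ∈ T
  · simp [h]; ring
  · simp [h]

theorem tf_eq_self (h2 : (2 : F) ≠ 0) {T : Finset ι} {w : ι → F} (h : tf T w = w) {i : ι} (hi : i ∈ T) : w i = 0 := by
  have := congrFun h i
  rw [tf_pos hi] at this
  exact (mul_eq_zero.1 (by linear_combination -this : 2 * w i = 0)).resolve_left h2

theorem tf_eq_neg (h2 : (2 : F) ≠ 0) {T : Finset ι} {w : ι → F} (h : tf T w = -w) {i : ι} (hi : i ∉ T) : w i = 0 := by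
  have := congrFun h i
  rw [tf_neg hi, Pi.neg_apply] at this
  exact (mul_eq_zero.1 (by linear_combination this : 2 * w i = 0)).resolve_left h2

/-- monomial maps -/
def Mn (g : (ι → F) ≃ₗ[F] (ι → F)) : Prop := ∀ i, ∃ j, g (ei i) = ei j ∨ g (ei i) = -ei j

variable {X : Subgroup ((ι → F) ≃ₗ[F] (ι → F))}

/-- overgroups of the even monomial group in which a frame is a block -/
structure Sye (X : Subgroup ((ι → F) ≃ₗ[F] (ι → F))) : Prop where
  iso : ∀ h ∈ X, ∀ u v : ι → F, h u ⬝ᵥ h v = u ⬝ᵥ v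
  flip : ∀ i j, i ≠ j → tf {i, j} ∈ X
  perm : ∀ σ : Perm ι, Perm.sign σ = 1 → ∃ g ∈ X, ∀ w : ι → F, g w = w ∘ σ
  nr : ∀ h ∈ X, ∀ r : ι → F, r ⬝ᵥ r = 2 → ¬ ∀ v : ι → F, h v = v - (r ⬝ᵥ v) • r
  blk : ∀ g ∈ X, ∀ i j, (g (ei i) = ei j ∨ g (ei i) = - ei j) → Mn g

theorem ei_inj {i j : ι} (h : (ei i : ι → F) = ei j) : i = j := by
  by_contra hij
  have := congrFun h i
  rw [ei_self, ei_ne hij] at this
  exact one_ne_zero this

theorem ei_ne_neg {i j : ι} (h2 : (2 : F) ≠ 0) : (ei i : ι → F) ≠ - ei j := by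
  intro h
  have h3 := congrFun h i
  rw [ei_self, Pi.neg_apply] at h3
  by_cases hij : i = j
  · rw [hij, ei_self] at h3
    exact h2 (by linear_combination h3)
  · rw [ei_ne hij, neg_zero] at h3
    exact one_ne_zero h3

section
variable (S : Sye X)
include S

theorem adj {h : (ι → F) ≃ₗ[F] (ι → F)} (hh : h ∈ X) (u v : ι → F) : h u ⬝ᵥ v = u ⬝ᵥ h⁻¹ v := by
  have h1 := S.iso h hh u (h⁻¹ v)
  rw [← h1]
  congr 1
  exact (h.apply_symm_apply v).symm

theorem entry {h : (ι → F) ≃ₗ[F] (ι → F)} (hh : h ∈ X) (i k : ι) : h (ei k) i = h⁻¹ (ei i) k := by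
  rw [← dot_ei i (h (ei k)), adj S hh, ei_dot]

theorem mn_inv {g : (ι → F) ≃ₗ[F] (ι → F)} (hg : g ∈ X) [Nonempty ι] (hm : Mn g) : Mn g⁻¹ := by
  obtain ⟨i⟩ := ‹Nonempty ι›
  obtain ⟨j, hj⟩ := hm i
  apply S.blk _ (inv_mem hg) j i
  rcases hj with hj | hj
  · left; rw [← hj]; exact g.symm_apply_apply _
  · right
    have : ei j = - g (ei i) := by rw [hj, neg_neg]
    rw [this, map_neg]
    congr 1
    exact g.symm_apply_apply _

theorem mn_mul {g h : (ι → F) ≃ₗ[F] (ι → F)} (hg : Mn g) (hh : Mn h) : Mn (g * h) := by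
  intro i
  obtain ⟨j, hj⟩ := hh i
  obtain ⟨k, hk⟩ := hg j
  refine ⟨k, ?_⟩
  change g (h (ei i)) = _ ∨ g (h (ei i)) = _
  rcases hj with hj | hj <;> rcases hk with hk | hk
  · left; rw [hj, hk]
  · right; rw [hj, hk]
  · right; rw [hj, map_neg, hk]
  · left; rw [hj, map_neg, hk, neg_neg]

/-- sign changes at four places -/
theorem flip4 {a b c d : ι} (hab : a ≠ b) (hac : a ≠ c) (had : a ≠ d) (hbc : b ≠ c) (hbd : b ≠ d) (hcd : c ≠ d) :
    tf {a, b, c, d} ∈ X := by
  have h1 := mul_mem (S.flip a b hab) (S.flip c d hcd)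
  have h3 : (tf {a, b, c, d} : (ι → F) ≃ₗ[F] (ι → F)) = tf {a, b} * tf {c, d} := by
    apply LinearEquiv.ext
    intro w
    change tf {a, b, c, d} w = tf {a, b} (tf {c, d} w)
    ext i
    simp only [tf_apply, Finset.mem_insert, Finset.mem_singleton]
    by_cases ha : i = a
    · subst ha; simp [hab, hac, had]
    by_cases hb : i = b
    · subst hb; simp [ha, hbc, hbd]
    simp [ha, hb]
  rw [h3]; exact h1

end

/-- the vector lemma behind Lemma A -/
theorem vecA (h2 : (2 : F) ≠ 0) {f : ι → F} (hf : f ⬝ᵥ f = 1) {R : Finset ι} (hR : 5 ≤ R.card)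
    (H2 : ∀ i ∈ R, ∀ j ∈ R, i ≠ j → tf {i, j} f = f ∨ tf {i, j} f = -f ∨ tf {i, j} f ⬝ᵥ f = 0)
    (H4 : ∀ a ∈ R, ∀ b ∈ R, ∀ c ∈ R, ∀ d ∈ R, a ≠ b → a ≠ c → a ≠ d → b ≠ c → b ≠ d → c ≠ d →
      tf {a, b, c, d} f = f ∨ tf {a, b, c, d} f = -f ∨ tf {a, b, c, d} f ⬝ᵥ f = 0)
    (H3 : ∀ i ∈ R, ∀ j ∈ R, ∀ k ∈ R, i ≠ j → i ≠ k → j ≠ k → f ∘ (Equiv.swap i j * Equiv.swap j k : Perm ι) = f ∨
      f ∘ (Equiv.swap i j * Equiv.swap j k : Perm ι) = -f ∨ (f ∘ (Equiv.swap i j * Equiv.swap j k : Perm ι)) ⬝ᵥ f = 0) :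
    (∀ i ∈ R, f i = 0) ∨ (∃ i ∈ R, f = ei i ∨ f = -ei i) := by
  by_contra hcon
  push Not at hcon
  obtain ⟨⟨i, hi, hfi⟩, hne⟩ := hcon
  have pair : ∀ i ∈ R, ∀ j ∈ R, i ≠ j → f i ≠ 0 → (∀ x, x ≠ i → x ≠ j → f x = 0) ∨ 2 * (f i ^ 2 + f j ^ 2) = 1 := by
    intro i hi j hj hij hfi
    rcases H2 i hi j hj hij with h | h | h
    · exact absurd (tf_eq_self h2 h (by simp)) hfi
    · left
      intro x hxi hxj
      exact tf_eq_neg h2 h (by simp [hxi, hxj])
    · right
      rw [tf_dot_self, hf, Finset.sum_pair hij] at h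
      linear_combination -h
  have single : (∀ x, x ≠ i → f x = 0) → False := by
    intro h
    have h1 : f = f i • ei i := by
      ext x
      by_cases hx : x = i
      · subst hx; simp [ei_self]
      · rw [h x hx, Pi.smul_apply, ei_ne hx, smul_zero]
    have h3 : f i * f i = 1 := by
      rw [h1, smul_dotProduct, dotProduct_smul, ei_dot, ei_self] at hf
      simpa using hf
    have h4 : (f i - 1) * (f i + 1) = 0 := by linear_combination h3
    rcases mul_eq_zero.1 h4 with h5 | h5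
    · apply (hne i hi).1
      rw [h1, sub_eq_zero.1 h5, one_smul]
    · apply (hne i hi).2
      rw [h1, eq_neg_of_add_eq_zero_left h5, neg_one_smul]
  -- the value of the 3-cycle
  have cyc : ∀ a ∈ R, ∀ b ∈ R, ∀ c ∈ R, a ≠ b → a ≠ c → b ≠ c → f c = 0 → f a ≠ 0 → 
      (f b = 0 → 2 * f a ^ 2 = 1 → False) ∧ (f b ≠ 0 → f a ^ 2 + f b ^ 2 = 1 → False) := by
    intro a ha b hb c hc hab hac hbc hfc hfa
    -- σ a = b, σ b = c, σ c = a  with f ∘ σ
    obtain ⟨σ, hσ⟩ : ∃ σ : Perm ι, σ = (Equiv.swap a b * Equiv.swap b c : Perm ι) := ⟨_, rfl⟩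
    have s1 : σ a = b := by
      rw [hσ, Perm.mul_apply, Equiv.swap_apply_of_ne_of_ne hab hac, Equiv.swap_apply_left]
    have s2 : σ b = c := by
      rw [hσ, Perm.mul_apply, Equiv.swap_apply_left, Equiv.swap_apply_of_ne_of_ne hac.symm hbc.symm]
    have s3 : σ c = a := by
      rw [hσ, Perm.mul_apply, Equiv.swap_apply_right, Equiv.swap_apply_right]
    have s4 : ∀ x, x ≠ a → x ≠ b → x ≠ c → σ x = x := by
      intro x h1 h3 h4
      rw [hσ, Perm.mul_apply, Equiv.swap_apply_of_ne_of_ne h3 h4, Equiv.swap_apply_of_ne_of_ne h1 h3]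
    have hdot : (f ∘ σ) ⬝ᵥ f = 1 - f a ^ 2 - f b ^ 2 + f a * f b := by
      have e1 : (f ∘ σ) ⬝ᵥ f - f ⬝ᵥ f = ∑ x ∈ ({a, b, c} : Finset ι), (f (σ x) * f x - f x * f x) := by
        rw [dotProduct, dotProduct, ← Finset.sum_sub_distrib]
        symm
        apply Finset.sum_subset (Finset.subset_univ _)
        intro x _ hx
        simp only [Finset.mem_insert, Finset.mem_singleton, not_or] at hx
        rw [s4 x hx.1 hx.2.1 hx.2.2, sub_self]
      rw [Finset.sum_insert (by simp [hab, hac]), Finset.sum_pair hbc, s1, s2, s3, hf, hfc] at e1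
      linear_combination e1
    have H := H3 a ha b hb c hc hab hac hbc
    rw [← hσ] at H
    rcases H with h | h | h
    · have h3 := congrFun h c
      rw [Function.comp_apply, s3, hfc] at h3
      exact ⟨fun _ _ => hfa h3, fun _ _ => hfa h3⟩
    · have h3 := congrFun h c
      rw [Function.comp_apply, s3, Pi.neg_apply, hfc, neg_zero] at h3
      exact ⟨fun _ _ => hfa h3, fun _ _ => hfa h3⟩
    · rw [hdot] at h
      refine ⟨fun h3 h4 => ?_, fun h3 h4 => ?_⟩
      · rw [h3] at h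
        have : (1 : F) = 0 := by linear_combination 2 * h + h4
        exact one_ne_zero this
      · have : f a * f b = 0 := by linear_combination h + h4
        rcases mul_eq_zero.1 this with h5 | h5
        · exact hfa h5
        · exact h3 h5
  -- case distinction
  by_cases hc : ∃ a ∈ R, ∃ b ∈ R, ∃ c ∈ R, a ≠ b ∧ a ≠ c ∧ b ≠ c ∧ i ≠ a ∧ i ≠ b ∧ i ≠ c ∧ ∀ x, x ≠ i → x ≠ a → x ≠ b → x ≠ c → f x = 0
  · obtain ⟨a, ha, b, hb, c, hc, hab, hac, hbc, hia, hib, hic, hsup⟩ := hc
    obtain ⟨m, hm, hmn⟩ : ∃ m ∈ R, m ∉ ({i, a, b, c} : Finset ι) := by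
      apply Finset.exists_mem_notMem_of_card_lt_card
      exact lt_of_le_of_lt (Finset.card_le_four) (by omega)
    simp only [Finset.mem_insert, Finset.mem_singleton, not_or] at hmn
    obtain ⟨hmi, hma, hmb, hmc⟩ := hmn
    have hfm : f m = 0 := hsup m hmi hma hmb hmc
    have hsq : ∀ y ∈ R, y ≠ m → f y ≠ 0 → (y = i ∨ 2 * f y ^ 2 = 1) := by
      intro y hy hym hfy
      by_cases hyi : y = i
      · exact Or.inl hyi
      right
      rcases pair y hy m hm hym hfy with h | h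
      · exact absurd (h i (Ne.symm hyi) (Ne.symm hmi)) hfi
      · rw [hfm] at h
        linear_combination h
    have hi2 : 2 * f i ^ 2 = 1 := by
      rcases pair i hi m hm (Ne.symm hmi) hfi with h | h
      · exfalso
        apply single
        intro x hx
        by_cases hxm : x = m
        · rw [hxm, hfm]
        · exact h x hx hxm
      · rw [hfm] at h
        linear_combination h
    have hsum : f i ^ 2 + f a ^ 2 + f b ^ 2 + f c ^ 2 = 1 := by
      rw [dotProduct, ← Finset.sum_subset (Finset.subset_univ ({i, a, b, c} : Finset ι)), Finset.sum_insert (by simp [hia, hib, hic]),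
        Finset.sum_insert (by simp [hab, hac]), Finset.sum_pair hbc] at hf
      · linear_combination hf
      · intro x _ hx
        simp only [Finset.mem_insert, Finset.mem_singleton, not_or] at hx
        rw [hsup x hx.1 hx.2.1 hx.2.2.1 hx.2.2.2, mul_zero]
    have val : ∀ y ∈ R, y ≠ m → y ≠ i → f y = 0 ∨ 2 * f y ^ 2 = 1 := by
      intro y hy hym hyi
      by_cases hfy : f y = 0
      · exact Or.inl hfy
      · exact Or.inr ((hsq y hy hym hfy).resolve_left hyi)
    -- one nonzero coordinate more leads to a contradiction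
    have one : ∀ y ∈ R, y ≠ m → y ≠ i → f y ≠ 0 → False := by
      intro y hy hym hyi hfy
      have h3 := (hsq y hy hym hfy).resolve_left hyi
      exact (cyc i hi y hy m hm (Ne.symm hyi) (Ne.symm hmi) hym hfm hfi).2 hfy (by
        apply mul_left_cancel₀ h2
        linear_combination hi2 + h3)
    have ha0 : f a = 0 := by by_contra h; exact one a ha (Ne.symm hma) (Ne.symm hia) h
    have hb0 : f b = 0 := by by_contra h; exact one b hb (Ne.symm hmb) (Ne.symm hib) h
    have hc0 : f c = 0 := by by_contra h; exact one c hc (Ne.symm hmc) (Ne.symm hic) h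
    rw [ha0, hb0, hc0] at hsum
    apply one_ne_zero (α := F)
    linear_combination (-2) * hsum + hi2
  · push Not at hc
    have pr : ∀ j ∈ R, i ≠ j → 2 * (f i ^ 2 + f j ^ 2) = 1 := by
      intro j hj hij
      rcases pair i hi j hj hij hfi with h | h
      · exfalso
        obtain ⟨T, hT, hTc⟩ := Finset.exists_subset_card_eq (s := (R.erase i).erase j) (n := 2) (by
          rw [Finset.card_erase_of_mem (by simp [hj, hij.symm]), Finset.card_erase_of_mem hi]; omega)
        obtain ⟨b, c, hbc, rfl⟩ := Finset.card_eq_two.1 hTc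
        have hb := hT (Finset.mem_insert_self b {c})
        have hc' := hT (Finset.mem_insert_of_mem (Finset.mem_singleton_self c))
        simp only [Finset.mem_erase] at hb hc'
        obtain ⟨x, hx1, hx2, hx3, hx4, hx5⟩ := hc j hj b hb.2.2 c hc'.2.2 (Ne.symm hb.1) (Ne.symm hc'.1) hbc hij (Ne.symm hb.2.1) (Ne.symm hc'.2.1)
        exact hx5 (h x hx1 hx2)
      · exact h
    obtain ⟨T, hT, hTc⟩ := Finset.exists_subset_card_eq (s := R.erase i) (n := 3) (by
      rw [Finset.card_erase_of_mem hi]; omega)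
    obtain ⟨a, b, c, hab, hac, hbc, rfl⟩ := Finset.card_eq_three.1 hTc
    have ha : a ∈ R.erase i := hT (by simp)
    have hb : b ∈ R.erase i := hT (by simp)
    have hc' : c ∈ R.erase i := hT (by simp)
    rw [Finset.mem_erase] at ha hb hc'
    have pa := pr a ha.2 (Ne.symm ha.1)
    have pb := pr b hb.2 (Ne.symm hb.1)
    have pc := pr c hc'.2 (Ne.symm hc'.1)
    have h4 : 2 * (f i ^ 2 + f a ^ 2 + f b ^ 2 + f c ^ 2) = 1 := by
      rcases H4 i hi a ha.2 b hb.2 c hc'.2 (Ne.symm ha.1) (Ne.symm hb.1) (Ne.symm hc'.1) hab hac hbc with h | h | h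
      · exact absurd (tf_eq_self h2 h (by simp)) hfi
      · exfalso
        obtain ⟨x, hx1, hx2, hx3, hx4, hx5⟩ := hc a ha.2 b hb.2 c hc'.2 hab hac hbc (Ne.symm ha.1) (Ne.symm hb.1) (Ne.symm hc'.1)
        exact hx5 (tf_eq_neg h2 h (by simp [hx1, hx2, hx3, hx4]))
      · rw [tf_dot_self, hf, Finset.sum_insert (by simp [Ne.symm ha.1, Ne.symm hb.1, Ne.symm hc'.1]),
          Finset.sum_insert (by simp [hab, hac]), Finset.sum_pair hbc] at h
        linear_combination -h
    have h5 : f b ^ 2 = 0 := by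
      have : (2 * 2) * f b ^ 2 = 0 := by linear_combination h4 - pa + pb - pc
      exact (mul_eq_zero.1 this).resolve_left (mul_ne_zero h2 h2)
    have h6 : f c ^ 2 = 0 := by
      have : (2 * 2) * f c ^ 2 = 0 := by linear_combination h4 - pa - pb + pc
      exact (mul_eq_zero.1 this).resolve_left (mul_ne_zero h2 h2)
    have h5' : f b = 0 := by simpa using h5
    have h6' : f c = 0 := by simpa using h6
    exact (cyc i hi b hb.2 c hc'.2 (Ne.symm hb.1) (Ne.symm hc'.1) hbc h6' hfi).1 h5' (by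
      rw [h5'] at pb; linear_combination pb)

end Cfsg.Agent.Lib.Rfe
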