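import Mathlib
import Cfsg.Agent.Lib.Rfe1

set_option autoImplicit false
set_option linter.unusedSectionVars false
set_option linter.unusedSimpArgs false
set_option linter.unusedVariables false

/-!
# Overgroups of the even monomial group, even dimension: unique frames 2 (helper14)
-/

namespace Cfsg.Agent.Lib.Rfe

open Matrix
open Equiv (Perm)
open Cfsg.Agent.Lib.Rf (ei)

variable {ι : Type*} [Fintype ι] [DecidableEq ι] {F : Type*} [Field F]
variable {X : Subgroup ((ι → F) ≃ₗ[F] (ι → F))}

theorem ei_comp (σ : Perm ι) {i j : ι} (h : σ j = i) : (ei i : ι → F) ∘ σ = ei j := by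
  ext x
  rw [Function.comp_apply]
  by_cases hx : x = j
  · rw [hx, h, ei_self, ei_self]
  · rw [ei_ne hx, ei_ne]
    intro h3
    apply hx
    apply σ.injective
    rw [h3, h]

theorem ei_dot_ne {i j : ι} (h : i ≠ j) : (ei i : ι → F) ⬝ᵥ ei j = 0 := by
  rw [ei_dot, ei_ne h]

theorem fix_supp {h : (ι → F) ≃ₗ[F] (ι → F)} {T : Finset ι} (hfix : ∀ i ∈ T, h (ei i) = ei i) {w : ι → F}
    (hw : ∀ i ∉ T, w i = 0) : h w = w := by
  conv_lhs => rw [exp_ei w]
  conv_rhs => rw [exp_ei w]
  rw [map_sum]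
  apply Finset.sum_congr rfl
  intro i _
  rw [map_smul]
  by_cases hi : i ∈ T
  · rw [hfix i hi]
  · rw [hw i hi, zero_smul, zero_smul]

section
variable (S : Sye X) (h2 : (2 : F) ≠ 0)
include S h2

/-- Lemma A -/
theorem lemA {g : (ι → F) ≃ₗ[F] (ι → F)} (hg : g ∈ X) {R : Finset ι} (hR : 5 ≤ R.card)
    (H : ∀ h ∈ X, (∀ i ∉ R, h (ei i) = ei i) → Mn (g⁻¹ * h * g)) : Mn g := by
  have col : ∀ k, (∀ i ∈ R, g (ei k) i = 0) ∨ (∃ i ∈ R, g (ei k) = ei i ∨ g (ei k) = - ei i) := by
    intro k
    have key : ∀ h ∈ X, (∀ i ∉ R, h (ei i) = ei i) →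
        h (g (ei k)) = g (ei k) ∨ h (g (ei k)) = - g (ei k) ∨ h (g (ei k)) ⬝ᵥ g (ei k) = 0 := by
      intro h hh hfix
      obtain ⟨l, hl⟩ := H h hh hfix k
      have e1 : h (g (ei k)) = g ((g⁻¹ * h * g) (ei k)) := (g.apply_symm_apply _).symm
      by_cases hlk : l = k
      · subst hlk
        rcases hl with hl | hl
        · left; rw [e1, hl]
        · right; left; rw [e1, hl, map_neg]
      · right; right
        rw [e1, S.iso g hg]
        rcases hl with hl | hl
        · rw [hl, ei_dot_ne hlk]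
        · rw [hl, neg_dotProduct, ei_dot_ne hlk, neg_zero]
    apply vecA h2 (by rw [S.iso g hg, ei_dot, ei_self]) hR
    · intro i hi j hj hij
      apply key _ (S.flip i j hij)
      intro m hm
      rw [tf_ei, if_neg]
      simp only [Finset.mem_insert, Finset.mem_singleton, not_or]
      exact ⟨fun h => hm (h ▸ hi), fun h => hm (h ▸ hj)⟩
    · intro a ha b hb c hc d hd hab hac had hbc hbd hcd
      apply key _ (flip4 S hab hac had hbc hbd hcd)
      intro m hm
      rw [tf_ei, if_neg]
      simp only [Finset.mem_insert, Finset.mem_singleton, not_or]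
      exact ⟨fun h => hm (h ▸ ha), fun h => hm (h ▸ hb), fun h => hm (h ▸ hc), fun h => hm (h ▸ hd)⟩
    · intro i hi j hj k' hk' hij hik hjk
      obtain ⟨h, hh, hh2⟩ := S.perm (Equiv.swap i j * Equiv.swap j k') (by
        rw [map_mul, Perm.sign_swap hij, Perm.sign_swap hjk]; rfl)
      have := key h hh (by
        intro m hm
        rw [hh2]
        apply ei_comp
        have m1 : m ≠ i := fun h => hm (h ▸ hi)
        have m2 : m ≠ j := fun h => hm (h ▸ hj)
        have m3 : m ≠ k' := fun h => hm (h ▸ hk')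
        rw [Perm.mul_apply, Equiv.swap_apply_of_ne_of_ne m2 m3, Equiv.swap_apply_of_ne_of_ne m1 m2])
      rw [hh2] at this
      exact this
  by_contra hmn
  obtain ⟨i, hi⟩ : R.Nonempty := by rw [← Finset.card_pos]; omega
  have hz : ∀ k, g (ei k) i = 0 := by
    intro k
    rcases col k with h | ⟨j, hj, h⟩
    · exact h i hi
    · exact absurd (S.blk g hg k j h) hmn
  have h3 : g⁻¹ (ei i) = 0 := by
    ext k
    rw [← entry S hg, hz k]
    rfl
  have h4 := S.iso g⁻¹ (inv_mem hg) (ei i) (ei i)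
  rw [h3, ei_dot, ei_self, zero_dotProduct] at h4
  exact zero_ne_one h4

/-- Step 2: centralizers of sign changes are monomial -/
theorem comm_flip {c : (ι → F) ≃ₗ[F] (ι → F)} (hc : c ∈ X) {T : Finset ι} (hT : T.Nonempty) (hT5 : 5 ≤ Tᶜ.card)
    (hcomm : ∀ w, c (tf T w) = tf T (c w)) : Mn c := by
  apply lemA S h2 hc hT5
  intro h hh hfix
  obtain ⟨i, hi⟩ := hT
  apply S.blk _ (mul_mem (mul_mem (inv_mem hc) hh) hc) i i
  left
  have h3 : tf T (c (ei i)) = - c (ei i) := by
    rw [← hcomm, tf_ei, if_pos hi, map_neg]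
  have h4 : h (c (ei i)) = c (ei i) := by
    apply fix_supp (T := T)
    · intro m hm
      exact hfix m (by simpa using hm)
    · intro m hm
      exact tf_eq_neg h2 h3 hm
  change c.symm (h (c (ei i))) = ei i
  rw [h4, c.symm_apply_apply]

/-- support of a monomial map -/
noncomputable def sp (y : (ι → F) ≃ₗ[F] (ι → F)) : Finset ι := by
  classical exact Finset.univ.filter (fun i => y (ei i) ≠ ei i)

omit S h2 in
theorem mem_sp {y : (ι → F) ≃ₗ[F] (ι → F)} {i : ι} : i ∈ sp y ↔ y (ei i) ≠ ei i := by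
  unfold sp; simp

omit S in
theorem sp_card {y : (ι → F) ≃ₗ[F] (ι → F)} (hsq : ∀ w, y (y w) = w) (hm : Mn y) {W : Submodule F (ι → F)}
    (hW : ∀ v, y v - v ∈ W) : (sp y).card ≤ 2 * Module.finrank F W := by
  classical
  choose π hπ using hm
  have hππ : ∀ i, π (π i) = i := by
    intro i
    have h3 := hsq (ei i)
    rcases hπ i with h4 | h4 <;> rcases hπ (π i) with h5 | h5
    · rw [h4, h5] at h3; exact ei_inj h3
    · rw [h4, h5] at h3; exact absurd h3.symm (ei_ne_neg h2)
    · rw [h4, map_neg, h5] at h3; exact absurd h3.symm (ei_ne_neg h2)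
    · rw [h4, map_neg, h5, neg_neg] at h3; exact ei_inj h3
  obtain ⟨φ, hφ⟩ : ∃ φ : ι → ℕ, Function.Injective φ :=
    ⟨fun i => (Fintype.equivFin ι i).1, fun i j h => (Fintype.equivFin ι).injective (Fin.ext h)⟩
  obtain ⟨O, hO⟩ : ∃ O : Finset ι, O = (sp y).filter (fun i => φ i ≤ φ (π i)) := ⟨_, rfl⟩
  have h3 : sp y ⊆ O ∪ O.image π := by
    intro x hx
    rw [Finset.mem_union]
    by_cases hle : φ x ≤ φ (π x)
    · left; rw [hO, Finset.mem_filter]; exact ⟨hx, hle⟩
    · right
      rw [Finset.mem_image]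
      refine ⟨π x, ?_, hππ x⟩
      have hne : π x ≠ x := by
        intro h; rw [h] at hle; exact hle le_rfl
      rw [hO, Finset.mem_filter, mem_sp, hππ]
      refine ⟨?_, by omega⟩
      intro h5
      rcases hπ (π x) with h4 | h4
      · rw [h4, hππ] at h5; exact hne (ei_inj h5).symm
      · rw [h4, hππ] at h5; exact ei_ne_neg h2 h5.symm
  have h4 : (sp y).card ≤ 2 * O.card := by
    have k1 := Finset.card_le_card h3
    have k2 := Finset.card_union_le O (O.image π)
    have k3 := Finset.card_image_le (s := O) (f := π)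
    omega
  have hOm : ∀ x ∈ O, y (ei x) ≠ ei x ∧ φ x ≤ φ (π x) := by
    intro x hx
    rw [hO, Finset.mem_filter, mem_sp] at hx
    exact hx
  have hLI : LinearIndependent F (fun i : O => (⟨y (ei i.1) - ei i.1, hW (ei i.1)⟩ : W)) := by
    rw [Fintype.linearIndependent_iff]
    intro c hc i
    have h5 := congrArg (fun w : W => w.1 i.1) hc
    simp only [Submodule.coe_sum, Submodule.coe_smul, ZeroMemClass.coe_zero, Pi.zero_apply, Finset.sum_apply,
      Pi.smul_apply, Pi.sub_apply, smul_eq_mul] at h5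
    rw [Finset.sum_eq_single i] at h5
    · apply (mul_eq_zero.1 h5).resolve_right
      have hi := hOm _ i.2
      rw [ei_self]
      intro h6
      rcases hπ i.1 with h7 | h7
      · rw [h7] at h6
        by_cases h8 : i.1 = π i.1
        · exact hi.1 (by rw [h7, ← h8])
        · rw [ei_ne h8] at h6; simp at h6
      · rw [h7, Pi.neg_apply] at h6
        by_cases h8 : i.1 = π i.1
        · rw [← h8, ei_self] at h6
          exact h2 (by linear_combination -h6)
        · rw [ei_ne h8] at h6; simp at h6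
    · intro j _ hj
      have hi := hOm _ i.2
      have hj2 := hOm _ j.2
      have hij : i.1 ≠ j.1 := fun h => hj (Subtype.ext h.symm)
      have h8 : i.1 ≠ π j.1 := by
        intro h
        have h9 : π i.1 = j.1 := by rw [h, hππ]
        have h10 : φ i.1 ≤ φ j.1 := by rw [← h9]; exact hi.2
        have h11 : φ j.1 ≤ φ i.1 := by rw [h]; exact hj2.2
        exact hij (hφ (le_antisymm h10 h11))
      rw [ei_ne hij]
      rcases hπ j.1 with h7 | h7
      · rw [h7, ei_ne h8]; simp
      · rw [h7, Pi.neg_apply, ei_ne h8]; simp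
    · intro h; exact absurd (Finset.mem_univ _) h
  have h5 := hLI.fintype_card_le_finrank
  rw [Fintype.card_coe] at h5
  omega

omit S h2 in
theorem tf_sub (T : Finset ι) (w : ι → F) : tf T w - w = ∑ i ∈ T, (-(2 * w i)) • ei i := by
  ext j
  rw [Pi.sub_apply, tf_apply, Finset.sum_apply]
  by_cases hj : j ∈ T
  · rw [if_pos hj, Finset.sum_eq_single j]
    · rw [Pi.smul_apply, ei_self, smul_eq_mul]; ring
    · intro i _ hi; rw [Pi.smul_apply, ei_ne hi.symm, smul_zero]
    · intro h; exact absurd hj h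
  · rw [if_neg hj, sub_self]
    symm
    apply Finset.sum_eq_zero
    intro i hi
    rw [Pi.smul_apply, ei_ne, smul_zero]
    rintro rfl; exact hj hi

/-- Step 3: sign changes fix a unique frame -/
theorem uniq {g : (ι → F) ≃ₗ[F] (ι → F)} (hg : g ∈ X) {T : Finset ι} (hTn : T.Nonempty)
    (hT : 2 * T.card + 5 ≤ Fintype.card ι) (htX : tf T ∈ X) (hm : Mn (g⁻¹ * tf T * g)) : Mn g := by
  classical
  obtain ⟨y, hy⟩ : ∃ y, y = g⁻¹ * tf T * g := ⟨_, rfl⟩
  rw [← hy] at hm
  have hyX : y ∈ X := by rw [hy]; exact mul_mem (mul_mem (inv_mem hg) htX) hg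
  have hyv : ∀ v, y v = g.symm (tf T (g v)) := fun v => by rw [hy]; rfl
  have hsq : ∀ w, y (y w) = w := by
    intro w
    rw [hyv, hyv, g.apply_symm_apply, tf_sq, g.symm_apply_apply]
  obtain ⟨W, hW⟩ : ∃ W : Submodule F (ι → F), W = Submodule.span F (Set.range fun i : T => g.symm (ei i.1)) := ⟨_, rfl⟩
  have hWf : Module.finrank F W ≤ T.card := by
    have := finrank_range_le_card (R := F) (fun i : T => g.symm (ei i.1))
    rw [Fintype.card_coe] at this
    rw [hW]; exact this
  have hsub : ∀ v, y v - v ∈ W := by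
    intro v
    have e1 : y v - v = g.symm (tf T (g v) - g v) := by rw [map_sub, hyv, g.symm_apply_apply]
    rw [e1, tf_sub, map_sum, hW]
    apply Submodule.sum_mem
    intro i hi
    rw [map_smul]
    exact Submodule.smul_mem _ _ (Submodule.subset_span ⟨⟨i, hi⟩, rfl⟩)
  have hcard := sp_card h2 hsq hm hsub
  have hR : 5 ≤ ((sp y)ᶜ).card := by
    rw [Finset.card_compl]; omega
  have hT5 : 5 ≤ (Tᶜ).card := by
    rw [Finset.card_compl]; omega
  have hne : Nonempty ι := ⟨hTn.choose⟩
  have h3 : Mn g⁻¹ := by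
    apply lemA S h2 (inv_mem hg) hR
    intro h hh hfix
    rw [inv_inv]
    apply comm_flip S h2 (mul_mem (mul_mem hg hh) (inv_mem hg)) hTn hT5
    -- h commutes with y
    have hfix' : ∀ i ∈ sp y, h (ei i) = ei i := fun i hi => hfix i (by simpa using hi)
    have hfx : ∀ i ∈ (sp y)ᶜ, y (ei i) = ei i := by
      intro i hi
      rw [Finset.mem_compl, mem_sp] at hi
      push Not at hi
      exact hi
    have hcomm : h * y = y * h := by
      apply ext_ei
      intro i
      change h (y (ei i)) = y (h (ei i))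
      by_cases hi : i ∈ sp y
      · rw [hfix' i hi]
        apply fix_supp hfix'
        intro j hj
        have hj2 : y (ei j) = ei j := hfx j (by simpa using hj)
        have hji : j ≠ i := by rintro rfl; exact hj hi
        rw [← dot_ei j (y (ei i)), ← hj2, S.iso y hyX, dot_ei, ei_ne hji]
      · rw [hfx i (by simpa using hi)]
        symm
        apply fix_supp hfx
        intro j hj
        have hj2 : h (ei j) = ei j := hfix j hj
        have hji : j ≠ i := by
          rintro rfl
          exact hj (by simpa using hi)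
        rw [← dot_ei j (h (ei i)), ← hj2, S.iso h hh, dot_ei, ei_ne hji]
    have hty : (tf T : (ι → F) ≃ₗ[F] (ι → F)) = g * y * g⁻¹ := by rw [hy]; group
    have hall : (g * h * g⁻¹) * tf T = tf T * (g * h * g⁻¹) := by
      rw [hty]
      have e1 : g * h * g⁻¹ * (g * y * g⁻¹) = g * (h * y) * g⁻¹ := by group
      have e3 : g * y * g⁻¹ * (g * h * g⁻¹) = g * (y * h) * g⁻¹ := by group
      rw [e1, e3, hcomm]
    intro w
    exact congrArg (fun f : (ι → F) ≃ₗ[F] (ι → F) => f w) hall
  have := mn_inv S (inv_mem hg) h3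
  rwa [inv_inv] at this

/-- Step 4: the zero lemma -/
theorem zero_col (hn : 9 ≤ Fintype.card ι) {g : (ι → F) ≃ₗ[F] (ι → F)} (hg : g ∈ X) (hm : ¬ Mn g) {k i j : ι} (hij : i ≠ j)
    (hi : g (ei k) i = 0) : g (ei k) j ≠ 0 := by
  intro hj
  apply hm
  have hc : ({i, j} : Finset ι).card = 2 := Finset.card_pair hij
  apply uniq S h2 hg (T := {i, j}) ⟨i, by simp⟩ (by rw [hc]; omega) (S.flip i j hij)
  apply S.blk _ (mul_mem (mul_mem (inv_mem hg) (S.flip i j hij)) hg) k k
  left
  change g.symm (tf {i, j} (g (ei k))) = ei k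
  have : tf {i, j} (g (ei k)) = g (ei k) := by
    ext m
    rw [tf_apply]
    by_cases hmi : m = i
    · rw [hmi, hi]; simp
    by_cases hmj : m = j
    · rw [hmj, hj]; simp
    rw [if_neg (by simp [hmi, hmj])]
  rw [this, g.symm_apply_apply]

theorem zero_row (hn : 9 ≤ Fintype.card ι) {g : (ι → F) ≃ₗ[F] (ι → F)} (hg : g ∈ X) (hm : ¬ Mn g) {i k l : ι} (hkl : k ≠ l)
    (hk : g (ei k) i = 0) : g (ei l) i ≠ 0 := by
  rw [entry S hg] at hk ⊢
  have hne : Nonempty ι := ⟨i⟩
  refine zero_col S h2 hn (inv_mem hg) (fun h => hm ?_) hkl hk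
  have := mn_inv S (inv_mem hg) h
  rwa [inv_inv] at this

end

end Cfsg.Agent.Lib.Rfe
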