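import Mathlib
import Cfsg.Agent.Lib.Rfe2

set_option autoImplicit false
set_option linter.unusedSectionVars false
set_option linter.unusedSimpArgs false
set_option linter.unusedVariables false

/-!
# Overgroups of the even monomial group, even dimension: dihedral groups (helper14)
-/

namespace Cfsg.Agent.Lib.Rfe

open Matrix
open Equiv (Perm)
open Cfsg.Agent.Lib.Rf (ei)

/-- dihedral dichotomy -/
theorem dihedral {G : Type*} [Group G] {t s : G} (ht : t * t = 1) (hs : s * s = 1) (hfin : IsOfFinOrder (t * s)) :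
    (∃ u ∈ Subgroup.closure ({t, s} : Set G), u * t * u⁻¹ = s) ∨
    (∃ y ∈ Subgroup.closure ({t, s} : Set G), y ≠ 1 ∧ y * y = 1 ∧ y * t = t * y ∧ y * s = s * y) := by
  have htm : t ∈ Subgroup.closure ({t, s} : Set G) := Subgroup.subset_closure (by simp)
  have hsm : s ∈ Subgroup.closure ({t, s} : Set G) := Subgroup.subset_closure (by simp)
  obtain ⟨c, hc⟩ : ∃ c, c = t * s := ⟨_, rfl⟩
  have hcm : c ∈ Subgroup.closure ({t, s} : Set G) := by rw [hc]; exact mul_mem htm hsm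
  have hti : t⁻¹ = t := inv_eq_of_mul_eq_one_left ht
  have hsi : s⁻¹ = s := inv_eq_of_mul_eq_one_left hs
  have hcinv : c⁻¹ = s * t := by rw [hc, _root_.mul_inv_rev, hti, hsi]
  have htc : t * c * t⁻¹ = c⁻¹ := by rw [hcinv, hc, hti, ← mul_assoc, ht, one_mul]
  have htk : ∀ k : ℕ, t * c ^ k * t⁻¹ = (c ^ k)⁻¹ := by
    intro k
    rw [← conj_pow, htc, inv_pow]
  have hs' : s = t * c := by rw [hc, ← mul_assoc, ht, one_mul]
  rw [← hc] at hfin
  have hpos := hfin.orderOf_pos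
  rcases Nat.even_or_odd (orderOf c) with he | ho
  · right
    obtain ⟨m, hm⟩ := he
    refine ⟨c ^ m, pow_mem hcm m, ?_, ?_, ?_, ?_⟩
    · intro h
      have := orderOf_dvd_of_pow_eq_one h
      have := Nat.le_of_dvd (by omega) this
      omega
    · rw [← pow_add, ← hm, pow_orderOf_eq_one]
    · have h1 := htk m
      have h3 : (c ^ m)⁻¹ = c ^ m := by
        apply inv_eq_of_mul_eq_one_left
        rw [← pow_add, ← hm, pow_orderOf_eq_one]
      rw [h3, mul_inv_eq_iff_eq_mul] at h1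
      exact h1.symm
    · have h1 := htk m
      have h3 : (c ^ m)⁻¹ = c ^ m := by
        apply inv_eq_of_mul_eq_one_left
        rw [← pow_add, ← hm, pow_orderOf_eq_one]
      rw [h3, mul_inv_eq_iff_eq_mul] at h1
      rw [hs', ← mul_assoc, ← h1, mul_assoc, mul_assoc, ← pow_succ, ← pow_succ']
  · left
    obtain ⟨m, hm⟩ := ho
    refine ⟨c ^ m, pow_mem hcm m, ?_⟩
    have h1 := htk m
    have h4 : t * (c ^ m)⁻¹ = c ^ m * t := by
      have h5 : t * (t * c ^ m * t⁻¹) = c ^ m * t := by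
        rw [hti, ← mul_assoc, ← mul_assoc, ht, one_mul]
      rw [← h1, h5]
    rw [mul_assoc, h4, ← mul_assoc, ← pow_add]
    have h5 : c ^ (m + m) = c⁻¹ := by
      apply eq_inv_of_mul_eq_one_left
      rw [← pow_succ, show m + m + 1 = orderOf c by omega, pow_orderOf_eq_one]
    rw [h5, hcinv, mul_assoc, ht, mul_one]

variable {ι : Type*} [Fintype ι] [DecidableEq ι] {F : Type*} [Field F]
variable {X : Subgroup ((ι → F) ≃ₗ[F] (ι → F))}

/-- the trace -/
def Tr (g : (ι → F) ≃ₗ[F] (ι → F)) : F := ∑ i, g (ei i) i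

theorem Tr_mul (g h : (ι → F) ≃ₗ[F] (ι → F)) : Tr (g * h) = ∑ i, ∑ j, h (ei i) j * g (ei j) i := by
  unfold Tr
  apply Finset.sum_congr rfl
  intro i _
  change g (h (ei i)) i = _
  conv_lhs => rw [exp_ei (h (ei i))]
  rw [map_sum, Finset.sum_apply]
  apply Finset.sum_congr rfl
  intro j _
  rw [map_smul, Pi.smul_apply, smul_eq_mul]

theorem Tr_comm (g h : (ι → F) ≃ₗ[F] (ι → F)) : Tr (g * h) = Tr (h * g) := by
  rw [Tr_mul, Tr_mul, Finset.sum_comm]
  apply Finset.sum_congr rfl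
  intro i _
  apply Finset.sum_congr rfl
  intro j _
  rw [mul_comm]

theorem Tr_conj (u g : (ι → F) ≃ₗ[F] (ι → F)) : Tr (u * g * u⁻¹) = Tr g := by
  rw [Tr_comm, ← mul_assoc, inv_mul_cancel, one_mul]

theorem Tr_tf (T : Finset ι) (z : (ι → F) ≃ₗ[F] (ι → F)) : Tr (tf T * z) = Tr z - 2 * ∑ i ∈ T, z (ei i) i := by
  have h1 : ∑ i ∈ T, z (ei i) i = ∑ i, if i ∈ T then z (ei i) i else 0 := by
    rw [Finset.sum_ite_mem, Finset.univ_inter]
  rw [h1, Tr, Tr, Finset.mul_sum, ← Finset.sum_sub_distrib]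
  apply Finset.sum_congr rfl
  intro i _
  change tf T (z (ei i)) i = _
  rw [tf_apply]
  by_cases h : i ∈ T
  · rw [if_pos h, if_pos h]; ring
  · rw [if_neg h, if_neg h]; ring

theorem clos_sub {t s y : (ι → F) ≃ₗ[F] (ι → F)} {W : Submodule F (ι → F)} (ht : ∀ v, t v - v ∈ W) (hs : ∀ v, s v - v ∈ W)
    (hy : y ∈ Subgroup.closure ({t, s} : Set ((ι → F) ≃ₗ[F] (ι → F)))) : ∀ v, y v - v ∈ W := by
  have : Subgroup.closure ({t, s} : Set ((ι → F) ≃ₗ[F] (ι → F))) ≤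
      { carrier := {x | ∀ v, x v - v ∈ W}
        one_mem' := fun v => by
          change v - v ∈ W
          rw [sub_self]; exact W.zero_mem
        mul_mem' := by
          intro a b ha hb v
          change a (b v) - v ∈ W
          have : a (b v) - v = (a (b v) - b v) + (b v - v) := by abel
          rw [this]
          exact W.add_mem (ha _) (hb _)
        inv_mem' := by
          intro a ha v
          have h1 := ha (a⁻¹ v)
          have h3 : a (a⁻¹ v) = v := a.apply_symm_apply v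
          rw [h3] at h1
          rw [← neg_sub]
          exact W.neg_mem h1 } := by
    rw [Subgroup.closure_le]
    rintro x (rfl | hx)
    · exact ht
    · rw [Set.mem_singleton_iff] at hx; rw [hx]; exact hs
  exact this hy

theorem clos_comm {G : Type*} [Group G] {t s y z : G} (ht : z * t = t * z) (hs : z * s = s * z)
    (hy : y ∈ Subgroup.closure ({t, s} : Set G)) : z * y = y * z := by
  have h1 : Subgroup.closure ({t, s} : Set G) ≤ Subgroup.centralizer {z} := by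
    rw [Subgroup.closure_le]
    rintro x (rfl | hx)
    · rw [SetLike.mem_coe, Subgroup.mem_centralizer_iff]
      intro w hw
      rw [Set.mem_singleton_iff.1 hw, ht]
    · rw [Set.mem_singleton_iff] at hx
      rw [hx, SetLike.mem_coe, Subgroup.mem_centralizer_iff]
      intro w hw
      rw [Set.mem_singleton_iff.1 hw, hs]
  exact Subgroup.mem_centralizer_iff.1 (h1 hy) z (Set.mem_singleton z)

/-- no minus signs -/
def Pure (z : (ι → F) ≃ₗ[F] (ι → F)) : Prop := ∀ i, z (ei i) ≠ - ei i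

section
variable (S : Sye X) (h2 : (2 : F) ≠ 0)
include S h2

theorem pure1 (hn : 9 ≤ Fintype.card ι) {g z : (ι → F) ≃ₗ[F] (ι → F)} (hg : g ∈ X) (hm : ¬ Mn g) (hz : z ∈ X)
    {k l : ι} (hkl : k ≠ l) (hk : (g⁻¹ * z * g) (ei k) = ei k) (hl : (g⁻¹ * z * g) (ei l) = ei l) : Pure z := by
  intro i hi
  have key : ∀ k, (g⁻¹ * z * g) (ei k) = ei k → g (ei k) i = 0 := by
    intro k hk
    have h1 : z (g (ei k)) = g (ei k) := by
      have : g ((g⁻¹ * z * g) (ei k)) = g (ei k) := by rw [hk]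
      have h3 : g ((g⁻¹ * z * g) (ei k)) = z (g (ei k)) := g.apply_symm_apply _
      rw [← h3, this]
    have h3 := S.iso z hz (ei i) (g (ei k))
    rw [hi, h1, neg_dotProduct, ei_dot] at h3
    have : 2 * g (ei k) i = 0 := by linear_combination -h3
    exact (mul_eq_zero.1 this).resolve_left h2
  exact zero_row S h2 hn hg hm hkl (key k hk) (key l hl)

omit S h2 in
theorem two_fix {y : (ι → F) ≃ₗ[F] (ι → F)} (h : 2 ≤ ((sp y)ᶜ).card) : ∃ k l, k ≠ l ∧ y (ei k) = ei k ∧ y (ei l) = ei l := by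
  obtain ⟨T, hT, hTc⟩ := Finset.exists_subset_card_eq h
  obtain ⟨k, l, hkl, rfl⟩ := Finset.card_eq_two.1 hTc
  refine ⟨k, l, hkl, ?_, ?_⟩
  · have := hT (Finset.mem_insert_self k {l})
    rw [Finset.mem_compl, mem_sp] at this
    push Not at this
    exact this
  · have := hT (Finset.mem_insert_of_mem (Finset.mem_singleton_self l))
    rw [Finset.mem_compl, mem_sp] at this
    push Not at this
    exact this

/-- the span attached to two sign changes -/
def WW (g : (ι → F) ≃ₗ[F] (ι → F)) (T₁ T₂ : Finset ι) : Submodule F (ι → F) :=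
  Submodule.span F (Set.range (fun i : T₁ => (ei i.1 : ι → F))) ⊔ Submodule.span F (Set.range (fun i : T₂ => g (ei i.1)))

omit S h2 in
theorem WW_finrank (g : (ι → F) ≃ₗ[F] (ι → F)) (T₁ T₂ : Finset ι) : Module.finrank F (WW g T₁ T₂) ≤ T₁.card + T₂.card := by
  have h1 := finrank_range_le_card (R := F) (fun i : T₁ => (ei i.1 : ι → F))
  have h3 := finrank_range_le_card (R := F) (fun i : T₂ => g (ei i.1))
  have h4 := Submodule.finrank_add_le_finrank_add_finrank (Submodule.span F (Set.range (fun i : T₁ => (ei i.1 : ι → F))))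
    (Submodule.span F (Set.range (fun i : T₂ => g (ei i.1))))
  rw [Fintype.card_coe] at h1 h3
  unfold WW
  unfold Set.finrank at h1 h3
  omega

omit S h2 in
theorem mem_WW1 (g : (ι → F) ≃ₗ[F] (ι → F)) (T₁ T₂ : Finset ι) {i : ι} (hi : i ∈ T₁) : (ei i : ι → F) ∈ WW g T₁ T₂ :=
  Submodule.mem_sup_left (Submodule.subset_span ⟨⟨i, hi⟩, rfl⟩)

omit S h2 in
theorem mem_WW2 (g : (ι → F) ≃ₗ[F] (ι → F)) (T₁ T₂ : Finset ι) {i : ι} (hi : i ∈ T₂) : g (ei i) ∈ WW g T₁ T₂ :=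
  Submodule.mem_sup_right (Submodule.subset_span ⟨⟨i, hi⟩, rfl⟩)

/-- the involution attached to two sign changes -/
theorem dih_gen [Finite F] (hn : 14 ≤ Fintype.card ι) {g : (ι → F) ≃ₗ[F] (ι → F)} (hg : g ∈ X) (hm : ¬ Mn g) {T₁ T₂ : Finset ι}
    (hT1 : T₁.Nonempty) (hT2 : T₂.Nonempty) (h1X : tf T₁ ∈ X) (h2X : tf T₂ ∈ X) (hc : T₁.card + T₂.card ≤ 6)
    (hnc : ∀ u ∈ Subgroup.closure ({tf T₁, g * tf T₂ * g⁻¹} : Set ((ι → F) ≃ₗ[F] (ι → F))), u * tf T₁ * u⁻¹ ≠ g * tf T₂ * g⁻¹) :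
    ∃ y ∈ X, y ≠ 1 ∧ (∀ w, y (y w) = w) ∧ Mn y ∧ Mn (g⁻¹ * y * g) ∧ (∀ w, y (tf T₁ w) = tf T₁ (y w)) ∧
      (∀ w, (g⁻¹ * y * g) (tf T₂ w) = tf T₂ ((g⁻¹ * y * g) w)) ∧ Pure y ∧ Pure (g⁻¹ * y * g) ∧
      (∀ v, y v - v ∈ WW g T₁ T₂) ∧ 2 ≤ ((sp y)ᶜ).card ∧ 2 ≤ ((sp (g⁻¹ * y * g))ᶜ).card := by
  have hfin : Finite ((ι → F) ≃ₗ[F] (ι → F)) :=
    Finite.of_injective (fun g : (ι → F) ≃ₗ[F] (ι → F) => (g : (ι → F) → (ι → F))) DFunLike.coe_injective
  have hss : g * tf T₂ * g⁻¹ * (g * tf T₂ * g⁻¹) = 1 := by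
    have : g * tf T₂ * g⁻¹ * (g * tf T₂ * g⁻¹) = g * (tf T₂ * tf T₂) * g⁻¹ := by group
    rw [this, tf_mul_self]; group
  rcases dihedral (tf_mul_self T₁) hss (isOfFinOrder_of_finite _) with ⟨u, hu, hu2⟩ | ⟨y, hy, hy1, hyy, hyt, hys⟩
  · exact absurd hu2 (hnc u hu)
  have hsX : g * tf T₂ * g⁻¹ ∈ X := mul_mem (mul_mem hg h2X) (inv_mem hg)
  have hyX : y ∈ X := by
    have : Subgroup.closure ({tf T₁, g * tf T₂ * g⁻¹} : Set ((ι → F) ≃ₗ[F] (ι → F))) ≤ X := by
      rw [Subgroup.closure_le]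
      rintro x (rfl | hx)
      · exact h1X
      · rw [Set.mem_singleton_iff] at hx; rw [hx]; exact hsX
    exact this hy
  have hyX' : g⁻¹ * y * g ∈ X := mul_mem (mul_mem (inv_mem hg) hyX) hg
  have hsq : ∀ w, y (y w) = w := fun w => congrArg (fun f : (ι → F) ≃ₗ[F] (ι → F) => f w) hyy
  have hyy' : (g⁻¹ * y * g) * (g⁻¹ * y * g) = 1 := by
    have : (g⁻¹ * y * g) * (g⁻¹ * y * g) = g⁻¹ * (y * y) * g := by group
    rw [this, hyy]; group
  have hsq' : ∀ w, (g⁻¹ * y * g) ((g⁻¹ * y * g) w) = w :=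
    fun w => congrArg (fun f : (ι → F) ≃ₗ[F] (ι → F) => f w) hyy'
  have c1 : ∀ w, y (tf T₁ w) = tf T₁ (y w) := fun w => congrArg (fun f : (ι → F) ≃ₗ[F] (ι → F) => f w) hyt
  have hys' : (g⁻¹ * y * g) * tf T₂ = tf T₂ * (g⁻¹ * y * g) := by
    have e1 : (g⁻¹ * y * g) * tf T₂ = g⁻¹ * (y * (g * tf T₂ * g⁻¹)) * g := by group
    have e3 : tf T₂ * (g⁻¹ * y * g) = g⁻¹ * ((g * tf T₂ * g⁻¹) * y) * g := by group
    rw [e1, e3, hys]
  have c2 : ∀ w, (g⁻¹ * y * g) (tf T₂ w) = tf T₂ ((g⁻¹ * y * g) w) :=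
    fun w => congrArg (fun f : (ι → F) ≃ₗ[F] (ι → F) => f w) hys'
  have k1 := hT1.card_pos
  have k2 := hT2.card_pos
  have m1 : Mn y := comm_flip S h2 hyX hT1 (by rw [Finset.card_compl]; omega) c1
  have m2 : Mn (g⁻¹ * y * g) := comm_flip S h2 hyX' hT2 (by rw [Finset.card_compl]; omega) c2
  have hW : ∀ v, y v - v ∈ WW g T₁ T₂ := by
    apply clos_sub _ _ hy
    · intro v
      rw [tf_sub]
      exact Submodule.sum_mem _ fun i hi => Submodule.smul_mem _ _ (mem_WW1 g T₁ T₂ hi)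
    · intro v
      have e1 : (g * tf T₂ * g⁻¹ : (ι → F) ≃ₗ[F] (ι → F)) v - v = g (tf T₂ (g⁻¹ v) - g⁻¹ v) := by
        rw [map_sub]
        congr 1
        exact (g.apply_symm_apply v).symm
      rw [e1, tf_sub, map_sum]
      exact Submodule.sum_mem _ fun i hi => by
        rw [map_smul]; exact Submodule.smul_mem _ _ (mem_WW2 g T₁ T₂ hi)
  have hf := WW_finrank g T₁ T₂
  have s1 := sp_card h2 hsq m1 hW
  have hW' : ∀ v, (g⁻¹ * y * g) v - v ∈ (WW g T₁ T₂).map (g.symm : (ι → F) →ₗ[F] (ι → F)) := by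
    intro v
    refine ⟨y (g v) - g v, hW _, ?_⟩
    change g.symm (y (g v) - g v) = g.symm (y (g v)) - v
    rw [map_sub, g.symm_apply_apply]
  have s2 := sp_card h2 hsq' m2 hW'
  have hf2 : Module.finrank F ((WW g T₁ T₂).map (g.symm : (ι → F) →ₗ[F] (ι → F))) = Module.finrank F (WW g T₁ T₂) :=
    LinearEquiv.finrank_map_eq g.symm _
  rw [hf2] at s2
  have f1 : 2 ≤ ((sp y)ᶜ).card := by rw [Finset.card_compl]; omega
  have f2 : 2 ≤ ((sp (g⁻¹ * y * g))ᶜ).card := by rw [Finset.card_compl]; omega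
  have p1 : Pure y := by
    obtain ⟨k, l, hkl, hk, hl⟩ := two_fix f2
    exact pure1 S h2 (by omega) hg hm hyX hkl hk hl
  have p2 : Pure (g⁻¹ * y * g) := by
    obtain ⟨k, l, hkl, hk, hl⟩ := two_fix f1
    have hne : Nonempty ι := ⟨k⟩
    have e1 : (g⁻¹)⁻¹ * (g⁻¹ * y * g) * g⁻¹ = y := by group
    refine pure1 S h2 (by omega) (inv_mem hg) (fun h => hm ?_) hyX' hkl (by rw [e1]; exact hk) (by rw [e1]; exact hl)
    have := mn_inv S (inv_mem hg) h
    rwa [inv_inv] at this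
  exact ⟨y, hyX, hy1, hsq, m1, m2, c1, c2, p1, p2, hW, f1, f2⟩

end

end Cfsg.Agent.Lib.Rfe
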