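import Mathlib
import Cfsg.Agent.Lib.Rfe3

set_option autoImplicit false
set_option linter.unusedSectionVars false
set_option linter.unusedSimpArgs false
set_option linter.unusedVariables false

/-!
# Overgroups of the even monomial group, even dimension: double transpositions (helper14)
-/

namespace Cfsg.Agent.Lib.Rfe

open Matrix
open Equiv (Perm)
open Cfsg.Agent.Lib.Rf (ei)

variable {ι : Type*} [Fintype ι] [DecidableEq ι] {F : Type*} [Field F]
variable {X : Subgroup ((ι → F) ≃ₗ[F] (ι → F))}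

/-- double transpositions with signs -/
structure DT (y : (ι → F) ≃ₗ[F] (ι → F)) (a b : ι) (ε : F) (c d : ι) (ε' : F) : Prop where
  ab : a ≠ b
  ac : a ≠ c
  ad : a ≠ d
  bc : b ≠ c
  bd : b ≠ d
  cd : c ≠ d
  e1 : ε * ε = 1
  e2 : ε' * ε' = 1
  ya : y (ei a) = ε • ei b
  yb : y (ei b) = ε • ei a
  yc : y (ei c) = ε' • ei d
  yd : y (ei d) = ε' • ei c
  yx : ∀ x, x ≠ a → x ≠ b → x ≠ c → x ≠ d → y (ei x) = ei x

theorem lin_ext {y : (ι → F) ≃ₗ[F] (ι → F)} {L : (ι → F) →ₗ[F] (ι → F)} (H : ∀ i, y (ei i) = L (ei i)) (v : ι → F) : y v = L v := by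
  rw [exp_ei v, map_sum, map_sum]
  exact Finset.sum_congr rfl fun i _ => by rw [map_smul, map_smul, H]

/-- reflection in a vector of norm 2 -/
def rfl2 (r : ι → F) : (ι → F) →ₗ[F] (ι → F) where
  toFun v := v - (r ⬝ᵥ v) • r
  map_add' u v := by rw [dotProduct_add]; module
  map_smul' c v := by rw [dotProduct_smul, RingHom.id_apply, smul_eq_mul]; module

theorem rfl2_apply (r v : ι → F) : rfl2 r v = v - (r ⬝ᵥ v) • r := rfl

theorem mn_form {y : (ι → F) ≃ₗ[F] (ι → F)} (h : Mn y) (i : ι) : ∃ j, ∃ ε : F, ε * ε = 1 ∧ y (ei i) = ε • ei j := by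
  obtain ⟨j, hj | hj⟩ := h i
  · exact ⟨j, 1, by ring, by rw [hj, one_smul]⟩
  · exact ⟨j, -1, by ring, by rw [hj, neg_one_smul]⟩

theorem eps_cases {ε : F} (h : ε * ε = 1) : ε = 1 ∨ ε = -1 := by
  have : (ε - 1) * (ε + 1) = 0 := by linear_combination h
  rcases mul_eq_zero.1 this with h | h
  · left; exact sub_eq_zero.1 h
  · right; exact eq_neg_of_add_eq_zero_left h

theorem eps_ne {ε : F} (h : ε * ε = 1) : ε ≠ 0 := by
  rintro rfl
  rw [mul_zero] at h
  exact zero_ne_one h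

theorem eps_inj {ε : F} (h2 : (2 : F) ≠ 0) (h : ε * ε = 1) {i j : ι} (hij : (ei i : ι → F) = ε • ei j) : i = j := by
  by_contra hne
  have := congrFun hij i
  rw [ei_self, Pi.smul_apply, ei_ne hne, smul_zero] at this
  exact one_ne_zero this

theorem swap_back {y : (ι → F) ≃ₗ[F] (ι → F)} (hsq : ∀ w, y (y w) = w) {a b : ι} {ε : F} (he : ε * ε = 1)
    (h : y (ei a) = ε • ei b) : y (ei b) = ε • ei a := by
  have h1 := hsq (ei a)
  rw [h, map_smul] at h1
  rw [← h1, smul_smul, he, one_smul]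

section
variable (S : Sye X) (h2 : (2 : F) ≠ 0)
include S h2

theorem NR {y : (ι → F) ≃ₗ[F] (ι → F)} (hy : y ∈ X) (hsq : ∀ w, y (y w) = w) (hm : Mn y) (hp : Pure y) (h1 : y ≠ 1) :
    2 < (sp y).card := by
  by_contra hle
  obtain ⟨a, ha⟩ : ∃ a, y (ei a) ≠ ei a := by
    by_contra hcon
    push Not at hcon
    exact h1 (ext_ei hcon)
  obtain ⟨b, ε, he, hab⟩ := mn_form hm a
  have hne : a ≠ b := by
    rintro rfl
    rcases eps_cases he with h | h
    · rw [h, one_smul] at hab; exact ha hab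
    · rw [h, neg_one_smul] at hab; exact hp a hab
  have hba := swap_back hsq he hab
  have hbs : y (ei b) ≠ ei b := by
    intro h
    rw [hba] at h
    exact hne (eps_inj h2 he h.symm).symm
  have hsub : ({a, b} : Finset ι) ⊆ sp y := by
    intro x hx
    rw [Finset.mem_insert, Finset.mem_singleton] at hx
    rcases hx with rfl | rfl
    · exact mem_sp.2 ha
    · exact mem_sp.2 hbs
  have heq : ({a, b} : Finset ι) = sp y := Finset.eq_of_subset_of_card_le hsub (by rw [Finset.card_pair hne]; omega)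
  have hfix : ∀ x, x ≠ a → x ≠ b → y (ei x) = ei x := by
    intro x hxa hxb
    by_contra h
    have := mem_sp.2 h
    rw [← heq] at this
    simp [hxa, hxb] at this
  obtain ⟨r, hr⟩ : ∃ r : ι → F, r = ei a - ε • ei b := ⟨_, rfl⟩
  have ra : r a = 1 := by rw [hr, Pi.sub_apply, Pi.smul_apply, ei_self, ei_ne hne]; simp
  have rb : r b = -ε := by rw [hr, Pi.sub_apply, Pi.smul_apply, ei_self, ei_ne hne.symm]; simp
  have rx : ∀ x, x ≠ a → x ≠ b → r x = 0 := by
    intro x hxa hxb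
    rw [hr, Pi.sub_apply, Pi.smul_apply, ei_ne hxa, ei_ne hxb]; simp
  have hrr : r ⬝ᵥ r = 2 := by
    have e1 : (ei a - ε • ei b) ⬝ᵥ r = 2 := by
      rw [sub_dotProduct, smul_dotProduct, ei_dot, ei_dot, ra, rb, smul_eq_mul]
      linear_combination he
    rwa [← hr] at e1
  apply S.nr y hy r hrr
  intro v
  rw [← rfl2_apply]
  apply lin_ext
  intro i
  rw [rfl2_apply, dot_ei]
  by_cases hia : i = a
  · rw [hia, hab, ra, hr, one_smul]; abel
  by_cases hib : i = b
  · rw [hib, hba, rb, hr, smul_sub, smul_smul, neg_mul, he]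
    module
  rw [hfix i hia hib, rx i hia hib, zero_smul, sub_zero]

theorem getDT {y : (ι → F) ≃ₗ[F] (ι → F)} (hy : y ∈ X) (hsq : ∀ w, y (y w) = w) (hm : Mn y) (hp : Pure y)
    (hc : (sp y).card ≤ 4) {a b : ι} (hab : a ≠ b) {ε : F} (he : ε * ε = 1) (hya : y (ei a) = ε • ei b) :
    ∃ c d ε', DT y a b ε c d ε' := by
  have hyb := swap_back hsq he hya
  have hsa : y (ei a) ≠ ei a := by
    intro h
    rw [hya] at h
    exact hab (eps_inj h2 he h.symm)
  have hsb : y (ei b) ≠ ei b := by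
    intro h
    rw [hyb] at h
    exact hab (eps_inj h2 he h.symm).symm
  have h1 : y ≠ 1 := by
    rintro rfl
    exact hsa rfl
  have h3 := NR S h2 hy hsq hm hp h1
  obtain ⟨c, hc', hcn⟩ : ∃ c ∈ sp y, c ∉ ({a, b} : Finset ι) := by
    apply Finset.exists_mem_notMem_of_card_lt_card
    rw [Finset.card_pair hab]; exact h3
  simp only [Finset.mem_insert, Finset.mem_singleton, not_or] at hcn
  obtain ⟨hca, hcb⟩ := hcn
  rw [mem_sp] at hc'
  obtain ⟨d, ε', he', hcd⟩ := mn_form hm c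
  have hdc := swap_back hsq he' hcd
  have hne : c ≠ d := by
    rintro rfl
    rcases eps_cases he' with h | h
    · rw [h, one_smul] at hcd; exact hc' hcd
    · rw [h, neg_one_smul] at hcd; exact hp c hcd
  have hda : d ≠ a := by
    rintro rfl
    have h4 : (ei b : ι → F) = (ε' * ε) • ei c := by
      rw [hya] at hdc
      rw [mul_comm, ← smul_smul, ← hdc, smul_smul, he, one_smul]
    exact hcb (eps_inj h2 (by linear_combination (ε * ε) * he' + he) h4).symm
  have hdb : d ≠ b := by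
    rintro rfl
    have h4 : (ei a : ι → F) = (ε' * ε) • ei c := by
      rw [hyb] at hdc
      rw [mul_comm, ← smul_smul, ← hdc, smul_smul, he, one_smul]
    exact hca (eps_inj h2 (by linear_combination (ε * ε) * he' + he) h4).symm
  have hds : y (ei d) ≠ ei d := by
    intro h
    rw [hdc] at h
    exact hne (eps_inj h2 he' h.symm).symm
  have hsub : ({a, b, c, d} : Finset ι) ⊆ sp y := by
    intro x hx
    simp only [Finset.mem_insert, Finset.mem_singleton] at hx
    rcases hx with rfl | rfl | rfl | rfl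
    · exact mem_sp.2 hsa
    · exact mem_sp.2 hsb
    · exact mem_sp.2 hc'
    · exact mem_sp.2 hds
  have hcard : ({a, b, c, d} : Finset ι).card = 4 := by
    rw [Finset.card_insert_of_notMem (by simp [hab, Ne.symm hca, Ne.symm hda]), Finset.card_insert_of_notMem (by simp [Ne.symm hcb, Ne.symm hdb]),
      Finset.card_pair hne]
  have heq : ({a, b, c, d} : Finset ι) = sp y := Finset.eq_of_subset_of_card_le hsub (by rw [hcard]; exact hc)
  refine ⟨c, d, ε', hab, Ne.symm hca, Ne.symm hda, Ne.symm hcb, Ne.symm hdb, hne, he, he', hya, hyb, hcd, hdc, ?_⟩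
  intro x hxa hxb hxc hxd
  by_contra h
  have := mem_sp.2 h
  rw [← heq] at this
  simp [hxa, hxb, hxc, hxd] at this

omit S h2 in
/-- commuting with a sign change -/
theorem comm_tf {z : (ι → F) ≃ₗ[F] (ι → F)} {T : Finset ι} (hz1 : ∀ i ∈ T, ∀ x ∉ T, z (ei i) x = 0)
    (hz2 : ∀ i ∉ T, ∀ x ∈ T, z (ei i) x = 0) : z * tf T = tf T * z := by
  apply ext_ei
  intro i
  change z (tf T (ei i)) = tf T (z (ei i))
  rw [tf_ei]
  ext x
  rw [tf_apply]
  by_cases hi : i ∈ T
  · rw [if_pos hi, map_neg, Pi.neg_apply]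
    by_cases hx : x ∈ T
    · rw [if_pos hx]
    · rw [if_neg hx, hz1 i hi x hx, neg_zero]
  · rw [if_neg hi]
    by_cases hx : x ∈ T
    · rw [if_pos hx, hz2 i hi x hx, neg_zero]
    · rw [if_neg hx]

omit h2 in
theorem comm_tf' {z : (ι → F) ≃ₗ[F] (ι → F)} (hz : z ∈ X) (hsq : ∀ w, z (z w) = w) {T : Finset ι}
    (hz1 : ∀ i ∈ T, ∀ x ∉ T, z (ei i) x = 0) : z * tf T = tf T * z := by
  apply comm_tf hz1
  intro i hi x hx
  rw [← dot_ei x (z (ei i)), ← S.iso z hz, hsq, ei_dot]
  exact hz1 x hx i hi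

/-- **Z2** -/
theorem getY [Finite F] (hn : 14 ≤ Fintype.card ι) {g : (ι → F) ≃ₗ[F] (ι → F)} (hg : g ∈ X) (hm : ¬ Mn g)
    {z : (ι → F) ≃ₗ[F] (ι → F)} (hz : z ∈ X) (hzsq : ∀ w, z (z w) = w) {a b : ι} (hab : a ≠ b) {ε : F} (he : ε * ε = 1)
    (hza : z (ei a) = ε • ei b) {k l : ι} (hkl : k ≠ l) (hk : (g⁻¹ * z * g) (ei k) = ei k) (hl : (g⁻¹ * z * g) (ei l) = ei l) :
    ∃ y ∈ X, (∀ w, y (y w) = w) ∧ (∃ ε₁ c d ε₂, DT y a b ε₁ c d ε₂) ∧ (∃ δ₁ m m' δ₂, DT (g⁻¹ * y * g) k l δ₁ m m' δ₂) := by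
  have hzb := swap_back hzsq he hza
  have hz' : g⁻¹ * z * g ∈ X := mul_mem (mul_mem (inv_mem hg) hz) hg
  have hzsq' : ∀ w, (g⁻¹ * z * g) ((g⁻¹ * z * g) w) = w := by
    intro w
    change g.symm (z (g (g.symm (z (g w))))) = w
    rw [g.apply_symm_apply, hzsq, g.symm_apply_apply]
  have h1X := S.flip a b hab
  have h2X := S.flip k l hkl
  -- the commutations of z
  have z1 : z * tf {a, b} = tf {a, b} * z := by
    apply comm_tf' S hz hzsq
    intro i hi x hx
    simp only [Finset.mem_insert, Finset.mem_singleton, not_or] at hi hx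
    rcases hi with rfl | rfl
    · rw [hza, Pi.smul_apply, ei_ne hx.2, smul_zero]
    · rw [hzb, Pi.smul_apply, ei_ne hx.1, smul_zero]
  have z2' : (g⁻¹ * z * g) * tf {k, l} = tf {k, l} * (g⁻¹ * z * g) := by
    apply comm_tf' S hz' hzsq'
    intro i hi x hx
    simp only [Finset.mem_insert, Finset.mem_singleton, not_or] at hi hx
    rcases hi with rfl | rfl
    · rw [hk, ei_ne hx.1]
    · rw [hl, ei_ne hx.2]
  have z2 : z * (g * tf {k, l} * g⁻¹) = (g * tf {k, l} * g⁻¹) * z := by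
    have e1 : z * (g * tf {k, l} * g⁻¹) = g * ((g⁻¹ * z * g) * tf {k, l}) * g⁻¹ := by group
    have e3 : (g * tf {k, l} * g⁻¹) * z = g * (tf {k, l} * (g⁻¹ * z * g)) * g⁻¹ := by group
    rw [e1, e3, z2']
  obtain ⟨y, hy, hy1, hsq, m1, m2, c1, c2, p1, p2, hW, f1, f2⟩ := dih_gen S h2 hn hg hm (T₁ := {a, b}) (T₂ := {k, l}) ⟨a, by simp⟩ ⟨k, by simp⟩
    h1X h2X (by rw [Finset.card_pair hab, Finset.card_pair hkl]; norm_num) (by
      intro u hu hcon
      have hzu := clos_comm z1 z2 hu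
      have e1 : u * (tf {a, b} * z) * u⁻¹ = (g * tf {k, l} * g⁻¹) * z := by
        rw [← hcon]
        have : z * u⁻¹ = u⁻¹ * z := by
          rw [eq_inv_mul_iff_mul_eq, ← mul_assoc, ← hzu, mul_assoc, mul_inv_cancel, mul_one]
        rw [mul_assoc, mul_assoc, this]
        group
      have e3 := Tr_conj u (tf {a, b} * z)
      rw [e1] at e3
      have e4 : Tr (g * tf {k, l} * g⁻¹ * z) = Tr (tf {k, l} * (g⁻¹ * z * g)) := by
        rw [← Tr_conj g (tf {k, l} * (g⁻¹ * z * g))]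
        congr 1
        group
      have e5 : Tr (g⁻¹ * z * g) = Tr z := by
        have := Tr_conj g⁻¹ z
        rwa [inv_inv] at this
      rw [e4, Tr_tf, Tr_tf, e5, Finset.sum_pair hkl, Finset.sum_pair hab, hk, hl, hza, hzb, ei_self, ei_self, Pi.smul_apply,
        Pi.smul_apply, ei_ne hab, ei_ne hab.symm] at e3
      simp only [smul_zero, add_zero, mul_zero, sub_zero] at e3
      have : (2 : F) * 2 = 0 := by linear_combination -e3
      exact mul_ne_zero h2 h2 this)
  have hy' : g⁻¹ * y * g ∈ X := mul_mem (mul_mem (inv_mem hg) hy) hg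
  have hsq' : ∀ w, (g⁻¹ * y * g) ((g⁻¹ * y * g) w) = w := by
    intro w
    change g.symm (y (g (g.symm (y (g w))))) = w
    rw [g.apply_symm_apply, hsq, g.symm_apply_apply]
  have hy1' : g⁻¹ * y * g ≠ 1 := by
    intro h
    apply hy1
    have : y = g * (g⁻¹ * y * g) * g⁻¹ := by group
    rw [this, h]; group
  -- images of basis vectors
  have img : ∀ {y : (ι → F) ≃ₗ[F] (ι → F)} {a b : ι}, a ≠ b → (∀ w, y (y w) = w) → Mn y → Pure y →
      (∀ w, y (tf {a, b} w) = tf {a, b} (y w)) → (y (ei a) = ei a ∧ y (ei b) = ei b) ∨ ∃ ε : F, ε * ε = 1 ∧ y (ei a) = ε • ei b := by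
    intro y a b hab hsq hm hp hcm
    obtain ⟨x, ε, he, hx⟩ := mn_form hm a
    have h3 : tf {a, b} (y (ei a)) = - y (ei a) := by
      rw [← hcm, tf_ei, if_pos (by simp), map_neg]
    have hxab : x = a ∨ x = b := by
      by_contra hcon
      push Not at hcon
      have := tf_eq_neg h2 h3 (i := x) (by simp [hcon.1, hcon.2])
      rw [hx, Pi.smul_apply, ei_self, smul_eq_mul, mul_one] at this
      exact eps_ne he this
    rcases hxab with rfl | rfl
    · left
      have hxx : y (ei x) = ei x := by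
        rcases eps_cases he with h | h
        · rw [hx, h, one_smul]
        · rw [h, neg_one_smul] at hx; exact absurd hx (hp x)
      refine ⟨hxx, ?_⟩
      obtain ⟨x', ε', he', hx'⟩ := mn_form hm b
      have h3' : tf {x, b} (y (ei b)) = - y (ei b) := by
        rw [← hcm, tf_ei, if_pos (by simp), map_neg]
      have hxab' : x' = x ∨ x' = b := by
        by_contra hcon
        push Not at hcon
        have := tf_eq_neg h2 h3' (i := x') (by simp [hcon.1, hcon.2])
        rw [hx', Pi.smul_apply, ei_self, smul_eq_mul, mul_one] at this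
        exact eps_ne he' this
      rcases hxab' with rfl | rfl
      · exfalso
        have h5 := swap_back hsq he' hx'
        rw [hxx] at h5
        exact hab (eps_inj h2 he' h5)
      · rcases eps_cases he' with h | h
        · rw [hx', h, one_smul]
        · rw [h, neg_one_smul] at hx'; exact absurd hx' (hp x')
    · right; exact ⟨ε, he, hx⟩
  -- the two-dimensional space
  obtain ⟨d1, hd1⟩ : ∃ d1, d1 = y (ei a) - ei a := ⟨_, rfl⟩
  obtain ⟨d2, hd2⟩ : ∃ d2, d2 = y (g (ei k)) - g (ei k) := ⟨_, rfl⟩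
  obtain ⟨W, hWe⟩ : ∃ W : Submodule F (ι → F), W = Submodule.span F {d1, d2} := ⟨_, rfl⟩
  have hd1W : d1 ∈ W := by rw [hWe]; exact Submodule.subset_span (by simp)
  have hd2W : d2 ∈ W := by rw [hWe]; exact Submodule.subset_span (by simp)
  have gen1 : ∀ i ∈ ({a, b} : Finset ι), y (ei i) - ei i ∈ W := by
    intro i hi
    rw [Finset.mem_insert, Finset.mem_singleton] at hi
    rcases img hab hsq m1 p1 c1 with ⟨h3, h4⟩ | ⟨ε₁, he₁, h3⟩
    · rcases hi with rfl | rfl
      · rw [h3, sub_self]; exact W.zero_mem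
      · rw [h4, sub_self]; exact W.zero_mem
    · have h4 := swap_back hsq he₁ h3
      rcases hi with rfl | rfl
      · rw [← hd1]; exact hd1W
      · have : y (ei i) - ei i = (-ε₁) • d1 := by
          rw [hd1, h3, h4, smul_sub, smul_smul, neg_mul, he₁]; module
        rw [this]; exact W.smul_mem _ hd1W
  have gen2 : ∀ i ∈ ({k, l} : Finset ι), y (g (ei i)) - g (ei i) ∈ W := by
    intro i hi
    have tr : ∀ i, y (g (ei i)) = g ((g⁻¹ * y * g) (ei i)) := fun i => (g.apply_symm_apply _).symm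
    rw [Finset.mem_insert, Finset.mem_singleton] at hi
    rcases img hkl hsq' m2 p2 c2 with ⟨h3, h4⟩ | ⟨ε₁, he₁, h3⟩
    · rcases hi with rfl | rfl
      · rw [tr, h3, sub_self]; exact W.zero_mem
      · rw [tr, h4, sub_self]; exact W.zero_mem
    · have h4 := swap_back hsq' he₁ h3
      rcases hi with rfl | rfl
      · rw [← hd2]; exact hd2W
      · have : y (g (ei i)) - g (ei i) = (-ε₁) • d2 := by
          rw [hd2, tr, tr, h3, h4, map_smul, map_smul, smul_sub, smul_smul, neg_mul, he₁]; module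
        rw [this]; exact W.smul_mem _ hd2W
  have hWW : ∀ w ∈ WW g {a, b} {k, l}, y w - w ∈ W := by
    have hle : WW g {a, b} {k, l} ≤ W.comap ((y : (ι → F) →ₗ[F] (ι → F)) - LinearMap.id) := by
      unfold WW
      rw [sup_le_iff, Submodule.span_le, Submodule.span_le]
      refine ⟨?_, ?_⟩
      · rintro _ ⟨i, rfl⟩; exact gen1 _ i.2
      · rintro _ ⟨i, rfl⟩; exact gen2 _ i.2
    intro w hw; exact hle hw
  have hW2 : ∀ v, y v - v ∈ W := by
    intro v
    have h3 := hWW _ (hW v)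
    rw [map_sub, hsq] at h3
    have h4 : y v - v = (-(1 / 2 : F)) • (v - y v - (y v - v)) := by
      have : v - y v - (y v - v) = (-2 : F) • (y v - v) := by module
      rw [this, smul_smul]
      have e5 : -(1 / 2 : F) * (-2) = 1 := by field_simp
      rw [e5, one_smul]
    rw [h4]
    exact W.smul_mem _ h3
  have hWf : Module.finrank F W ≤ 2 := by
    rw [hWe]
    classical
    have h3 := finrank_span_finset_le_card (R := F) ({d1, d2} : Finset (ι → F))
    rw [Finset.coe_insert, Finset.coe_singleton] at h3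
    exact h3.trans Finset.card_le_two
  have hWf1 : (d1 = 0 ∨ d2 = 0) → Module.finrank F W ≤ 1 := by
    intro h
    have hle : ∃ d, W ≤ Submodule.span F {d} := by
      rcases h with h | h
      · refine ⟨d2, ?_⟩
        rw [hWe, Submodule.span_le]
        rintro x (rfl | hx)
        · rw [h]; exact Submodule.zero_mem _
        · rw [Set.mem_singleton_iff] at hx; rw [hx]; exact Submodule.mem_span_singleton_self _
      · refine ⟨d1, ?_⟩
        rw [hWe, Submodule.span_le]
        rintro x (rfl | hx)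
        · exact Submodule.mem_span_singleton_self _
        · rw [Set.mem_singleton_iff] at hx; rw [hx, h]; exact Submodule.zero_mem _
    obtain ⟨d, hd⟩ := hle
    have h3 := finrank_span_finset_le_card (R := F) ({d} : Finset (ι → F))
    rw [Finset.coe_singleton, Finset.card_singleton] at h3
    exact (Submodule.finrank_mono hd).trans h3
  have s1 := sp_card h2 hsq m1 hW2
  have hW2' : ∀ v, (g⁻¹ * y * g) v - v ∈ W.map (g.symm : (ι → F) →ₗ[F] (ι → F)) := by
    intro v
    refine ⟨y (g v) - g v, hW2 _, ?_⟩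
    change g.symm (y (g v) - g v) = g.symm (y (g v)) - v
    rw [map_sub, g.symm_apply_apply]
  have s2 := sp_card h2 hsq' m2 hW2'
  have hf2 : Module.finrank F (W.map (g.symm : (ι → F) →ₗ[F] (ι → F))) = Module.finrank F W :=
    LinearEquiv.finrank_map_eq g.symm _
  rw [hf2] at s2
  have n1 := NR S h2 hy hsq m1 p1 hy1
  have hd0 : ¬ (d1 = 0 ∨ d2 = 0) := by
    intro h
    have := hWf1 h
    omega
  push Not at hd0
  refine ⟨y, hy, hsq, ?_, ?_⟩
  · rcases img hab hsq m1 p1 c1 with ⟨h3, h4⟩ | ⟨ε₁, he₁, h3⟩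
    · exact absurd (by rw [hd1, h3, sub_self]) hd0.1
    · obtain ⟨c, d, ε₂, h⟩ := getDT S h2 hy hsq m1 p1 (by omega) hab he₁ h3
      exact ⟨ε₁, c, d, ε₂, h⟩
  · rcases img hkl hsq' m2 p2 c2 with ⟨h3, h4⟩ | ⟨ε₁, he₁, h3⟩
    · refine absurd ?_ hd0.2
      have : y (g (ei k)) = g ((g⁻¹ * y * g) (ei k)) := (g.apply_symm_apply _).symm
      rw [hd2, this, h3, sub_self]
    · obtain ⟨c, d, ε₂, h⟩ := getDT S h2 hy' hsq' m2 p2 (by omega) hkl he₁ h3
      exact ⟨ε₁, c, d, ε₂, h⟩

/-- existence of a good involution -/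
theorem exists_DT [Finite F] (hn : 14 ≤ Fintype.card ι) {g : (ι → F) ≃ₗ[F] (ι → F)} (hg : g ∈ X) (hm : ¬ Mn g) :
    ∃ y ∈ X, (∀ w, y (y w) = w) ∧ (∃ a b ε c d ε', DT y a b ε c d ε') ∧ (∃ a b ε c d ε', DT (g⁻¹ * y * g) a b ε c d ε') := by
  -- two classes of sign changes
  obtain ⟨T, hT, hTc⟩ := Finset.exists_subset_card_eq (s := (Finset.univ : Finset ι)) (n := 4) (by rw [Finset.card_univ]; omega)
  obtain ⟨a, b, c, d, hab, hac, had, hbc, hbd, hcd, rfl⟩ := Finset.card_eq_four.1 hTc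
  have h1X := S.flip a b hab
  have h2X := flip4 S hab hac had hbc hbd hcd
  obtain ⟨z, hz, hz1, hsq, m1, m2, c1, c2, p1, p2, hW, f1, f2⟩ := dih_gen S h2 hn hg hm (T₁ := {a, b}) (T₂ := {a, b, c, d}) ⟨a, by simp⟩ ⟨a, by simp⟩
    h1X h2X (by rw [Finset.card_pair hab, hTc]) (by
      intro u hu hcon
      have e3 := Tr_conj u (tf {a, b})
      rw [hcon, Tr_conj] at e3
      have e4 := Tr_tf {a, b} (1 : (ι → F) ≃ₗ[F] (ι → F))
      have e5 := Tr_tf {a, b, c, d} (1 : (ι → F) ≃ₗ[F] (ι → F))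
      rw [mul_one] at e4 e5
      have h1 : ∀ i : ι, (1 : (ι → F) ≃ₗ[F] (ι → F)) (ei i) i = 1 := fun i => ei_self i
      rw [Finset.sum_pair hab, h1, h1] at e4
      rw [Finset.sum_insert (by simp [hab, hac, had]), Finset.sum_insert (by simp [hbc, hbd]), Finset.sum_pair hcd, h1, h1, h1, h1] at e5
      rw [e4, e5] at e3
      have : (2 : F) * 2 = 0 := by linear_combination -e3
      exact mul_ne_zero h2 h2 this)
  obtain ⟨p, hp⟩ : ∃ p, z (ei p) ≠ ei p := by
    by_contra hcon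
    push Not at hcon
    exact hz1 (ext_ei hcon)
  obtain ⟨q, ε, he, hpq⟩ := mn_form m1 p
  have hne : p ≠ q := by
    rintro rfl
    rcases eps_cases he with h | h
    · rw [h, one_smul] at hpq; exact hp hpq
    · rw [h, neg_one_smul] at hpq; exact p1 p hpq
  obtain ⟨k, l, hkl, hk, hl⟩ := two_fix f2
  obtain ⟨y, hy, hysq, ⟨ε₁, c', d', ε₂, h3⟩, ⟨δ₁, m, m', δ₂, h4⟩⟩ := getY S h2 hn hg hm hz hsq hne he hpq hkl hk hl
  exact ⟨y, hy, hysq, ⟨_, _, _, _, _, _, h3⟩, ⟨_, _, _, _, _, _, h4⟩⟩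

end

end Cfsg.Agent.Lib.Rfe
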