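import Mathlib
import Cfsg.Agent.Lib.Rfe4

set_option autoImplicit false
set_option linter.unusedSectionVars false
set_option linter.unusedSimpArgs false
set_option linter.unusedVariables false

/-!
# Overgroups of the even monomial group, even dimension: roots (helper14)
-/

namespace Cfsg.Agent.Lib.Rfe

open Matrix
open Equiv (Perm)
open Cfsg.Agent.Lib.Rf (ei)

variable {ι : Type*} [Fintype ι] [DecidableEq ι] {F : Type*} [Field F]
variable {X : Subgroup ((ι → F) ≃ₗ[F] (ι → F))}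

/-- roots -/
def IsRt (x : ι → F) : Prop := ∃ i j, ∃ σ τ : F, i ≠ j ∧ σ * σ = 1 ∧ τ * τ = 1 ∧ x = σ • ei i + τ • ei j

/-- related indices -/
def Rel (g : (ι → F) ≃ₗ[F] (ι → F)) (k l : ι) : Prop := ∃ δ : F, δ * δ = 1 ∧ IsRt (g (ei k) - δ • g (ei l))

theorem DT.formula {h : (ι → F) ≃ₗ[F] (ι → F)} {a b c d : ι} {ε ε' : F} (D : DT h a b ε c d ε') (v : ι → F) :
    h v = v - ((ei a - ε • ei b) ⬝ᵥ v) • (ei a - ε • ei b) - ((ei c - ε' • ei d) ⬝ᵥ v) • (ei c - ε' • ei d) := by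
  have key : h v = (rfl2 (ei a - ε • ei b : ι → F) + rfl2 (ei c - ε' • ei d : ι → F) - (LinearMap.id : (ι → F) →ₗ[F] (ι → F))) v := by
    apply lin_ext
    intro i
    rw [LinearMap.sub_apply, LinearMap.add_apply, rfl2_apply, rfl2_apply, LinearMap.id_apply, sub_dotProduct, sub_dotProduct,
      smul_dotProduct, smul_dotProduct, ei_dot, ei_dot, ei_dot, ei_dot]
    by_cases h1 : i = a
    · rw [h1, D.ya, ei_self, ei_ne D.ab.symm, ei_ne D.ac.symm, ei_ne D.ad.symm]
      simp only [smul_zero, sub_zero, one_smul, zero_smul]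
      module
    by_cases h3 : i = b
    · rw [h3, D.yb, ei_self, ei_ne D.ab, ei_ne D.bc.symm, ei_ne D.bd.symm]
      simp only [smul_zero, sub_zero, zero_smul, smul_eq_mul, mul_one, zero_sub, smul_sub, smul_smul, neg_mul, D.e1]
      module
    by_cases h4 : i = c
    · rw [h4, D.yc, ei_self, ei_ne D.ac, ei_ne D.bc, ei_ne D.cd.symm]
      simp only [smul_zero, sub_zero, one_smul, zero_smul]
      module
    by_cases h5 : i = d
    · rw [h5, D.yd, ei_self, ei_ne D.ad, ei_ne D.bd, ei_ne D.cd]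
      simp only [smul_zero, sub_zero, zero_smul, smul_eq_mul, mul_one, zero_sub, smul_sub, smul_smul, neg_mul, D.e2]
      module
    rw [D.yx i h1 h3 h4 h5, ei_ne (Ne.symm h1), ei_ne (Ne.symm h3), ei_ne (Ne.symm h4), ei_ne (Ne.symm h5)]
    simp
  rw [key, LinearMap.sub_apply, LinearMap.add_apply, rfl2_apply, rfl2_apply, LinearMap.id_apply]
  abel

section
variable (S : Sye X) (h2 : (2 : F) ≠ 0)
include S h2

omit h2 in
theorem pairing {y : (ι → F) ≃ₗ[F] (ι → F)} (hy : y ∈ X) {a b : ι} {ε : F} (h : y (ei a) = ε • ei b) {f : ι → F} (hf : y f = f) :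
    f a = ε * f b := by
  rw [← ei_dot a f, ← S.iso y hy, h, hf, smul_dotProduct, ei_dot, smul_eq_mul]

omit S h2 in
theorem conj_sq {g z : (ι → F) ≃ₗ[F] (ι → F)} (hsq : ∀ w, z (z w) = w) : ∀ w, (g⁻¹ * z * g) ((g⁻¹ * z * g) w) = w := by
  intro w
  change g.symm (z (g (g.symm (z (g w))))) = w
  rw [g.apply_symm_apply, hsq, g.symm_apply_apply]

omit S h2 in
theorem conj_ap (g z : (ι → F) ≃ₗ[F] (ι → F)) (w : ι → F) : z (g w) = g ((g⁻¹ * z * g) w) := (g.apply_symm_apply _).symm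

/-- **Z3** -/
theorem Z3 [Finite F] (hn : 14 ≤ Fintype.card ι) {g : (ι → F) ≃ₗ[F] (ι → F)} (hg : g ∈ X) (hm : ¬ Mn g)
    {z : (ι → F) ≃ₗ[F] (ι → F)} (hz : z ∈ X) (hzsq : ∀ w, z (z w) = w) {a b c d : ι} {ε ε' : F} (D : DT z a b ε c d ε')
    {a' b' c' d' : ι} {δ δ' : F} (D' : DT (g⁻¹ * z * g) a' b' δ c' d' δ') {k l : ι} (hkl : k ≠ l)
    (hk : k ≠ a' ∧ k ≠ b' ∧ k ≠ c' ∧ k ≠ d') (hl : l ≠ a' ∧ l ≠ b' ∧ l ≠ c' ∧ l ≠ d') : Rel g k l := by
  have hzk := D'.yx k hk.1 hk.2.1 hk.2.2.1 hk.2.2.2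
  have hzl := D'.yx l hl.1 hl.2.1 hl.2.2.1 hl.2.2.2
  obtain ⟨y, hy, hysq, ⟨ε₁, i, j, ε₂, E⟩, ⟨δ₁, m, m', δ₂, E'⟩⟩ := getY S h2 hn hg hm hz hzsq D.ab D.e1 D.ya hkl hzk hzl
  have hy' : g⁻¹ * y * g ∈ X := mul_mem (mul_mem (inv_mem hg) hy) hg
  -- the sign
  have heq : ε = ε₁ := by
    obtain ⟨B, hB⟩ : ∃ B : Finset ι, B = {a', b', c', d', k, l, m, m'} := ⟨_, rfl⟩
    have hBc : B.card ≤ 8 := by
      rw [hB]
      exact (Finset.card_insert_le _ _).trans (Nat.succ_le_succ ((Finset.card_insert_le _ _).trans (Nat.succ_le_succ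
        ((Finset.card_insert_le _ _).trans (Nat.succ_le_succ ((Finset.card_insert_le _ _).trans (Nat.succ_le_succ Finset.card_le_four)))))))
    obtain ⟨T, hT, hTc⟩ := Finset.exists_subset_card_eq (s := Bᶜ) (n := 2) (by rw [Finset.card_compl]; omega)
    obtain ⟨x1, x2, hx12, rfl⟩ := Finset.card_eq_two.1 hTc
    have key : ∀ x ∈ Bᶜ, g (ei x) a = ε * g (ei x) b ∧ g (ei x) a = ε₁ * g (ei x) b := by
      intro x hx
      rw [Finset.mem_compl, hB] at hx
      simp only [Finset.mem_insert, Finset.mem_singleton, not_or] at hx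
      obtain ⟨x1, x2, x3, x4, x5, x6, x7, x8⟩ := hx
      refine ⟨?_, ?_⟩
      · apply pairing S hz D.ya
        rw [conj_ap, D'.yx x x1 x2 x3 x4]
      · apply pairing S hy E.ya
        rw [conj_ap, E'.yx x x5 x6 x7 x8]
    have fin : ∀ x ∈ Bᶜ, g (ei x) a ≠ 0 → ε = ε₁ := by
      intro x hx hne
      obtain ⟨k1, k2⟩ := key x hx
      have hb : g (ei x) b ≠ 0 := by
        intro h; rw [h, mul_zero] at k1; exact hne k1
      apply mul_right_cancel₀ hb
      rw [← k1, ← k2]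
    by_cases h1 : g (ei x1) a = 0
    · exact fin x2 (hT (by simp)) (zero_row S h2 (by omega) hg hm hx12 h1)
    · exact fin x1 (hT (by simp)) h1
  subst heq
  -- the coordinates of ρ
  obtain ⟨ρ, hρ⟩ : ∃ ρ : ι → F, ρ = ei a - ε • ei b := ⟨_, rfl⟩
  have hρc : ∀ x, g⁻¹ ρ x = g (ei x) a - ε * g (ei x) b := by
    intro x
    have h1 : ei x ⬝ᵥ g⁻¹ ρ = g (ei x) ⬝ᵥ ρ := (adj S hg _ _).symm
    rw [ei_dot] at h1
    rw [h1, hρ, dotProduct_sub, dotProduct_smul, dot_ei, dot_ei, smul_eq_mul]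
  have hρ0 : ∀ x, x ≠ m → x ≠ m' → g⁻¹ ρ x = 0 := by
    intro x hxm hxm'
    rw [hρc, sub_eq_zero]
    by_cases hxk : x = k
    · rw [hxk]
      apply pairing S hz D.ya
      rw [conj_ap, hzk]
    by_cases hxl : x = l
    · rw [hxl]
      apply pairing S hz D.ya
      rw [conj_ap, hzl]
    apply pairing S hy E.ya
    rw [conj_ap, E'.yx x hxk hxl hxm hxm']
  -- the vector η
  obtain ⟨η, hη⟩ : ∃ η, η = g (ei k) - δ₁ • g (ei l) := ⟨_, rfl⟩
  have hη' : η = g (ei k - δ₁ • ei l) := by rw [hη, map_sub, map_smul]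
  have hyη : y η = -η := by
    rw [hη', conj_ap, ← map_neg]
    congr 1
    rw [map_sub, map_smul, E'.ya, E'.yb, smul_smul, E'.e1, one_smul]
    abel
  have hηη : η ⬝ᵥ η = 2 := by
    rw [hη', S.iso g hg, sub_dotProduct, dotProduct_sub, dotProduct_sub, smul_dotProduct, smul_dotProduct, dotProduct_smul, dotProduct_smul,
      ei_dot, ei_dot, ei_dot, ei_dot, ei_self, ei_self, ei_ne hkl, ei_ne hkl.symm]
    simp only [smul_eq_mul]
    linear_combination E'.e1
  have hηρ : η a - ε * η b = 0 := by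
    have h1 : η ⬝ᵥ ρ = (ei k - δ₁ • ei l) ⬝ᵥ g⁻¹ ρ := by rw [hη', adj S hg]
    rw [sub_dotProduct, smul_dotProduct, ei_dot, ei_dot, hρ0 k E'.ac E'.ad, hρ0 l E'.bc E'.bd, smul_zero, sub_zero, hρ,
      dotProduct_sub, dotProduct_smul, dot_ei, dot_ei, smul_eq_mul] at h1
    exact h1
  have tr : ∀ {p q : ι} {e : F}, y (ei p) = e • ei q → η p = -(e * η q) := by
    intro p q e h
    rw [← dot_ei p η, ← S.iso y hy, h, hyη, dotProduct_smul, neg_dotProduct, dot_ei, smul_eq_mul]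
    ring
  have hb := tr E.yb
  have ha0 : η a = 0 := by
    have h1 : 2 * η a = 0 := by
      rw [hb] at hηρ
      linear_combination hηρ - η a * D.e1
    exact (mul_eq_zero.1 h1).resolve_left h2
  have hb0 : η b = 0 := by rw [hb, ha0]; ring
  have hj := tr E.yd
  have hx0 : ∀ x, x ≠ i → x ≠ j → η x = 0 := by
    intro x hxi hxj
    by_cases hxa : x = a
    · rw [hxa]; exact ha0
    by_cases hxb : x = b
    · rw [hxb]; exact hb0
    have h1 := tr (e := 1) (by rw [one_smul]; exact E.yx x hxa hxb hxi hxj)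
    have : 2 * η x = 0 := by linear_combination h1
    exact (mul_eq_zero.1 this).resolve_left h2
  have hexp : η = η i • ei i + η j • ei j := by
    ext x
    rw [Pi.add_apply, Pi.smul_apply, Pi.smul_apply]
    by_cases hxi : x = i
    · rw [hxi, ei_self, ei_ne E.cd]; simp
    by_cases hxj : x = j
    · rw [hxj, ei_self, ei_ne E.cd.symm]; simp
    rw [ei_ne hxi, ei_ne hxj, hx0 x hxi hxj]; simp
  have hii : η i * η i = 1 := by
    have h1 : η ⬝ᵥ η = η i * η i + η j * η j := by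
      conv_lhs => rw [hexp]
      rw [add_dotProduct, smul_dotProduct, smul_dotProduct, ei_dot, ei_dot, ← hexp]
      rfl
    rw [hηη, hj] at h1
    apply mul_left_cancel₀ h2
    linear_combination -h1 - (η i * η i) * E.e2
  refine ⟨δ₁, E'.e1, i, j, η i, η j, E.cd, hii, ?_, ?_⟩
  · rw [hj]
    linear_combination (η i * η i) * E.e2 + hii
  · rw [← hη]; exact hexp

omit S h2 in
theorem DT.neg1 {h : (ι → F) ≃ₗ[F] (ι → F)} {a b c d : ι} {ε ε' : F} (D : DT h a b ε c d ε') : DT (tf {a, b} * h) a b (-ε) c d ε' := by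
  refine ⟨D.ab, D.ac, D.ad, D.bc, D.bd, D.cd, by rw [neg_mul_neg]; exact D.e1, D.e2, ?_, ?_, ?_, ?_, ?_⟩
  · change tf {a, b} (h (ei a)) = _
    rw [D.ya, map_smul, tf_ei, if_pos (by simp)]; module
  · change tf {a, b} (h (ei b)) = _
    rw [D.yb, map_smul, tf_ei, if_pos (by simp)]; module
  · change tf {a, b} (h (ei c)) = _
    rw [D.yc, map_smul, tf_ei, if_neg (by simp [D.ad.symm, D.bd.symm])]
  · change tf {a, b} (h (ei d)) = _
    rw [D.yd, map_smul, tf_ei, if_neg (by simp [D.ac.symm, D.bc.symm])]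
  · intro x hxa hxb hxc hxd
    change tf {a, b} (h (ei x)) = _
    rw [D.yx x hxa hxb hxc hxd, tf_ei, if_neg (by simp [hxa, hxb])]

omit S h2 in
theorem DT.swap {h : (ι → F) ≃ₗ[F] (ι → F)} {a b c d : ι} {ε ε' : F} (D : DT h a b ε c d ε') : DT h c d ε' a b ε :=
  ⟨D.cd, D.ac.symm, D.bc.symm, D.ad.symm, D.bd.symm, D.ab, D.e2, D.e1, D.yc, D.yd, D.ya, D.yb,
    fun x h1 h2 h3 h4 => D.yx x h3 h4 h1 h2⟩

omit h2 in
theorem exists_sdt {a b c d : ι} (hab : a ≠ b) (hac : a ≠ c) (had : a ≠ d) (hbc : b ≠ c) (hbd : b ≠ d) (hcd : c ≠ d) {ε ε' : F}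
    (he : ε * ε = 1) (he' : ε' * ε' = 1) : ∃ h ∈ X, DT h a b ε c d ε' := by
  obtain ⟨σ, hσ⟩ : ∃ σ : Perm ι, σ = Equiv.swap a b * Equiv.swap c d := ⟨_, rfl⟩
  obtain ⟨h, hh, hh2⟩ := S.perm σ (by rw [hσ, map_mul, Perm.sign_swap hab, Perm.sign_swap hcd]; rfl)
  have D1 : DT h a b 1 c d 1 := by
    refine ⟨hab, hac, had, hbc, hbd, hcd, by ring, by ring, ?_, ?_, ?_, ?_, ?_⟩
    · rw [hh2, one_smul]
      apply ei_comp
      rw [hσ, Perm.mul_apply, Equiv.swap_apply_of_ne_of_ne hbc hbd, Equiv.swap_apply_right]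
    · rw [hh2, one_smul]
      apply ei_comp
      rw [hσ, Perm.mul_apply, Equiv.swap_apply_of_ne_of_ne hac had, Equiv.swap_apply_left]
    · rw [hh2, one_smul]
      apply ei_comp
      rw [hσ, Perm.mul_apply, Equiv.swap_apply_right, Equiv.swap_apply_of_ne_of_ne hac.symm hbc.symm]
    · rw [hh2, one_smul]
      apply ei_comp
      rw [hσ, Perm.mul_apply, Equiv.swap_apply_left, Equiv.swap_apply_of_ne_of_ne had.symm hbd.symm]
    · intro x hxa hxb hxc hxd
      rw [hh2]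
      apply ei_comp
      rw [hσ, Perm.mul_apply, Equiv.swap_apply_of_ne_of_ne hxc hxd, Equiv.swap_apply_of_ne_of_ne hxa hxb]
  have D2 : ∃ h ∈ X, DT h a b ε c d 1 := by
    rcases eps_cases he with h1 | h1
    · rw [h1]; exact ⟨h, hh, D1⟩
    · rw [h1]; exact ⟨_, mul_mem (S.flip a b hab) hh, D1.neg1⟩
  obtain ⟨h', hh', D2⟩ := D2
  rcases eps_cases he' with h1 | h1
  · rw [h1]; exact ⟨h', hh', D2⟩
  · rw [h1]; exact ⟨_, mul_mem (S.flip c d hcd) hh', D2.swap.neg1.swap⟩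

omit S in
theorem DT.mn {h : (ι → F) ≃ₗ[F] (ι → F)} {a b c d : ι} {ε ε' : F} (D : DT h a b ε c d ε') : Mn h := by
  have key : ∀ {i j : ι} {e : F}, e * e = 1 → h (ei i) = e • ei j → ∃ j, h (ei i) = ei j ∨ h (ei i) = - ei j := by
    intro i j e he h1
    refine ⟨j, ?_⟩
    rcases eps_cases he with h3 | h3
    · left; rw [h1, h3, one_smul]
    · right; rw [h1, h3, neg_one_smul]
  intro i
  by_cases h1 : i = a
  · rw [h1]; exact key D.e1 D.ya
  by_cases h3 : i = b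
  · rw [h3]; exact key D.e1 D.yb
  by_cases h4 : i = c
  · rw [h4]; exact key D.e2 D.yc
  by_cases h5 : i = d
  · rw [h5]; exact key D.e2 D.yd
  exact ⟨i, Or.inl (D.yx i h1 h3 h4 h5)⟩

omit S h2 in
theorem DT.sq {h : (ι → F) ≃ₗ[F] (ι → F)} {a b c d : ι} {ε ε' : F} (D : DT h a b ε c d ε') (w : ι → F) : h (h w) = w := by
  have : h * h = 1 := by
    apply ext_ei
    intro i
    change h (h (ei i)) = ei i
    by_cases h1 : i = a
    · rw [h1, D.ya, map_smul, D.yb, smul_smul, D.e1, one_smul]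
    by_cases h3 : i = b
    · rw [h3, D.yb, map_smul, D.ya, smul_smul, D.e1, one_smul]
    by_cases h4 : i = c
    · rw [h4, D.yc, map_smul, D.yd, smul_smul, D.e2, one_smul]
    by_cases h5 : i = d
    · rw [h5, D.yd, map_smul, D.yc, smul_smul, D.e2, one_smul]
    rw [D.yx i h1 h3 h4 h5, D.yx i h1 h3 h4 h5]
  exact congrArg (fun f : (ι → F) ≃ₗ[F] (ι → F) => f w) this

/-- transfer of double transpositions -/
theorem Z4 (hn : 14 ≤ Fintype.card ι) {g : (ι → F) ≃ₗ[F] (ι → F)} (hg : g ∈ X) (hm : ¬ Mn g) {k l p q : ι}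
    (hkl : k ≠ l) (hkp : k ≠ p) (hkq : k ≠ q) (hlp : l ≠ p) (hlq : l ≠ q) (hpq : p ≠ q) (R1 : Rel g k l) (R2 : Rel g p q) :
    ∃ h ∈ X, ∃ δ δ' : F, DT h k l δ p q δ' ∧ ∃ a b c d ε ε', DT (g * h * g⁻¹) a b ε c d ε' := by
  obtain ⟨δ, hδ, i, j, σ, τ, hij, hσ, hτ, e1⟩ := R1
  obtain ⟨δ', hδ', i', j', σ', τ', hij', hσ', hτ', e3⟩ := R2
  obtain ⟨h, hh, D⟩ := exists_sdt S hkl hkp hkq hlp hlq hpq hδ hδ'
  refine ⟨h, hh, δ, δ', D, ?_⟩
  have f1 : g (ei k - δ • ei l) = σ • ei i + τ • ei j := by rw [map_sub, map_smul]; exact e1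
  have f2 : g (ei p - δ' • ei q) = σ' • ei i' + τ' • ei j' := by rw [map_sub, map_smul]; exact e3
  have form : ∀ v, (g * h * g⁻¹) v = v - ((σ • ei i + τ • ei j) ⬝ᵥ v) • (σ • ei i + τ • ei j) -
      ((σ' • ei i' + τ' • ei j') ⬝ᵥ v) • (σ' • ei i' + τ' • ei j') := by
    intro v
    change g (h (g⁻¹ v)) = _
    have hv : g (g⁻¹ v) = v := g.apply_symm_apply v
    rw [D.formula, map_sub, map_sub, map_smul, map_smul, f1, f2, ← adj S hg, ← adj S hg, f1, f2, hv]
  have horth : (σ • ei i + τ • ei j : ι → F) ⬝ᵥ (σ' • ei i' + τ' • ei j') = 0 := by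
    rw [← f1, ← f2, S.iso g hg, sub_dotProduct, smul_dotProduct, ei_dot, ei_dot]
    simp [ei_ne hkp, ei_ne hkq, ei_ne hlp, ei_ne hlq, ei_ne hkp.symm, ei_ne hkq.symm, ei_ne hlp.symm, ei_ne hlq.symm]
  by_cases hdis : (i ≠ i' ∧ i ≠ j') ∧ (j ≠ i' ∧ j ≠ j')
  · obtain ⟨⟨n1, n2⟩, n3, n4⟩ := hdis
    refine ⟨i, j, i', j', -(σ * τ), -(σ' * τ'), hij, n1, n2, n3, n4, hij', ?_, ?_, ?_, ?_, ?_, ?_, ?_⟩
    · linear_combination (τ * τ) * hσ + hτ
    · linear_combination (τ' * τ') * hσ' + hτ'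
    · rw [form]
      simp only [add_dotProduct, smul_dotProduct, ei_dot, ei_self, ei_ne hij, ei_ne hij.symm, ei_ne hij', ei_ne hij'.symm, ei_ne n1, ei_ne n1.symm, ei_ne n2, ei_ne n2.symm, ei_ne n3, ei_ne n3.symm, ei_ne n4, ei_ne n4.symm, zero_add, add_zero, smul_eq_mul, mul_zero, mul_one,
        zero_smul, sub_zero, smul_add, smul_smul, hσ]
      module
    · rw [form]
      simp only [add_dotProduct, smul_dotProduct, ei_dot, ei_self, ei_ne hij, ei_ne hij.symm, ei_ne hij', ei_ne hij'.symm, ei_ne n1, ei_ne n1.symm, ei_ne n2, ei_ne n2.symm, ei_ne n3, ei_ne n3.symm, ei_ne n4, ei_ne n4.symm, zero_add, add_zero, smul_eq_mul, mul_zero, mul_one,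
        zero_smul, sub_zero, smul_add, smul_smul, hτ]
      module
    · rw [form]
      simp only [add_dotProduct, smul_dotProduct, ei_dot, ei_self, ei_ne hij, ei_ne hij.symm, ei_ne hij', ei_ne hij'.symm, ei_ne n1, ei_ne n1.symm, ei_ne n2, ei_ne n2.symm, ei_ne n3, ei_ne n3.symm, ei_ne n4, ei_ne n4.symm, zero_add, add_zero, smul_eq_mul, mul_zero, mul_one,
        zero_smul, sub_zero, smul_add, smul_smul, hσ']
      module
    · rw [form]
      simp only [add_dotProduct, smul_dotProduct, ei_dot, ei_self, ei_ne hij, ei_ne hij.symm, ei_ne hij', ei_ne hij'.symm, ei_ne n1, ei_ne n1.symm, ei_ne n2, ei_ne n2.symm, ei_ne n3, ei_ne n3.symm, ei_ne n4, ei_ne n4.symm, zero_add, add_zero, smul_eq_mul, mul_zero, mul_one,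
        zero_smul, sub_zero, smul_add, smul_smul, hτ']
      module
    · intro x x1 x2 x3 x4
      rw [form]
      simp only [add_dotProduct, smul_dotProduct, ei_dot, ei_ne x1, ei_ne x2, ei_ne x3, ei_ne x4, ei_ne x1.symm, ei_ne x2.symm, ei_ne x3.symm, ei_ne x4.symm, smul_eq_mul, mul_zero,
        add_zero, zero_smul, sub_zero]
  · exfalso
    -- the two roots have the same support
    obtain ⟨s, t, hs, ht, hst⟩ : ∃ s t : F, s * s = 1 ∧ t * t = 1 ∧ (σ' • ei i' + τ' • ei j' : ι → F) = s • ei i + t • ei j := by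
      have o := horth
      simp only [add_dotProduct, smul_dotProduct, ei_dot, Pi.add_apply, Pi.smul_apply, smul_eq_mul] at o
      by_cases c1 : i = i'
      · by_cases c2 : j = j'
        · subst c1; subst c2; exact ⟨σ', τ', hσ', hτ', rfl⟩
        · subst c1
          rw [ei_self, ei_ne hij', ei_ne hij.symm, ei_ne c2] at o
          exfalso
          apply mul_ne_zero (eps_ne hσ) (eps_ne hσ')
          linear_combination o
      · by_cases c2 : i = j'
        · by_cases c3 : j = i'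
          · subst c2; subst c3; exact ⟨τ', σ', hτ', hσ', by abel⟩
          · subst c2
            rw [ei_self, ei_ne c1, ei_ne c3, ei_ne hij.symm] at o
            exfalso
            apply mul_ne_zero (eps_ne hσ) (eps_ne hτ')
            linear_combination o
        · by_cases c3 : j = i'
          · subst c3
            rw [ei_self, ei_ne hij, ei_ne c2, ei_ne hij'] at o
            exfalso
            apply mul_ne_zero (eps_ne hτ) (eps_ne hσ')
            linear_combination o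
          · by_cases c4 : j = j'
            · subst c4
              rw [ei_self, ei_ne c1, ei_ne hij, ei_ne c3] at o
              exfalso
              apply mul_ne_zero (eps_ne hτ) (eps_ne hτ')
              linear_combination o
            · exact absurd ⟨⟨c1, c2⟩, c3, c4⟩ hdis
    rw [hst] at horth form
    have o2 : σ * s + τ * t = 0 := by
      simp only [add_dotProduct, smul_dotProduct, ei_dot, Pi.add_apply, Pi.smul_apply, smul_eq_mul, ei_self, ei_ne hij, ei_ne hij.symm] at horth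
      linear_combination horth
    have o3 : σ * τ + s * t = 0 := by linear_combination (σ * t) * o2 - (s * t) * hσ - (σ * τ) * ht
    have key : g * h * g⁻¹ = tf {i, j} := by
      apply ext_ei
      intro x
      rw [form, tf_ei]
      by_cases x1 : x = i
      · subst x1
        rw [if_pos (by simp)]
        simp only [add_dotProduct, smul_dotProduct, ei_dot, ei_self, ei_ne hij, ei_ne hij.symm, smul_eq_mul, mul_zero, mul_one, add_zero,
          smul_add, smul_smul, hσ, hs]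
        have : (ei x - ((1 : F) • ei x + (σ * τ) • ei j) - ((1 : F) • ei x + (s * t) • ei j) : ι → F) = -ei x - (σ * τ + s * t) • ei j := by
          module
        rw [this, o3, zero_smul, sub_zero]
      by_cases x2 : x = j
      · subst x2
        rw [if_pos (by simp)]
        simp only [add_dotProduct, smul_dotProduct, ei_dot, ei_self, ei_ne hij, ei_ne hij.symm, smul_eq_mul, mul_zero, mul_one, zero_add,
          smul_add, smul_smul, hτ, ht]
        have : (ei x - ((τ * σ) • ei i + (1 : F) • ei x) - ((t * s) • ei i + (1 : F) • ei x) : ι → F) = -ei x - (σ * τ + s * t) • ei i := by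
          module
        rw [this, o3, zero_smul, sub_zero]
      · rw [if_neg (by simp [x1, x2])]
        simp only [add_dotProduct, smul_dotProduct, ei_dot, ei_ne x1, ei_ne x2, ei_ne (Ne.symm x1), ei_ne (Ne.symm x2), smul_eq_mul, mul_zero, add_zero, zero_smul, sub_zero]
    apply hm
    apply uniq S h2 hg (T := {i, j}) ⟨i, by simp⟩ (by rw [Finset.card_pair hij]; omega) (S.flip i j hij)
    rw [← key]
    have : g⁻¹ * (g * h * g⁻¹) * g = h := by group
    rw [this]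
    exact D.mn h2

theorem all_rel [Finite F] (hn : 14 ≤ Fintype.card ι) {g : (ι → F) ≃ₗ[F] (ι → F)} (hg : g ∈ X) (hm : ¬ Mn g)
    {z : (ι → F) ≃ₗ[F] (ι → F)} (hz : z ∈ X) {a b c d : ι} {ε ε' : F} (D : DT z a b ε c d ε')
    {a' b' c' d' : ι} {δ δ' : F} (D' : DT (g⁻¹ * z * g) a' b' δ c' d' δ') {k l : ι} (hkl : k ≠ l) : Rel g k l := by
  obtain ⟨B, hB⟩ : ∃ B : Finset ι, B = {a', b', c', d', k, l} := ⟨_, rfl⟩
  have hBc : B.card ≤ 6 := by
    rw [hB]
    exact (Finset.card_insert_le _ _).trans (Nat.succ_le_succ ((Finset.card_insert_le _ _).trans (Nat.succ_le_succ Finset.card_le_four)))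
  obtain ⟨T, hT, hTc⟩ := Finset.exists_subset_card_eq (s := Bᶜ) (n := 4) (by rw [Finset.card_compl]; omega)
  obtain ⟨p, q, r, s, hpq, hpr, hps, hqr, hqs, hrs, rfl⟩ := Finset.card_eq_four.1 hTc
  have mem : ∀ x ∈ ({p, q, r, s} : Finset ι), x ≠ a' ∧ x ≠ b' ∧ x ≠ c' ∧ x ≠ d' ∧ x ≠ k ∧ x ≠ l := by
    intro x hx
    have := hT hx
    rw [Finset.mem_compl, hB] at this
    simp only [Finset.mem_insert, Finset.mem_singleton, not_or] at this
    exact this
  obtain ⟨p1, p2, p3, p4, p5, p6⟩ := mem p (by simp)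
  obtain ⟨q1, q2, q3, q4, q5, q6⟩ := mem q (by simp)
  obtain ⟨r1, r2, r3, r4, r5, r6⟩ := mem r (by simp)
  obtain ⟨s1, s2, s3, s4, s5, s6⟩ := mem s (by simp)
  have R1 := Z3 S h2 hn hg hm hz D.sq D D' hpq ⟨p1, p2, p3, p4⟩ ⟨q1, q2, q3, q4⟩
  have R2 := Z3 S h2 hn hg hm hz D.sq D D' hrs ⟨r1, r2, r3, r4⟩ ⟨s1, s2, s3, s4⟩
  obtain ⟨h, hh, e, e', E, a1, b1, c1, d1, x1, x2, E'⟩ := Z4 S h2 hn hg hm hpq hpr hps hqr hqs hrs R1 R2
  have e1 : g⁻¹ * (g * h * g⁻¹) * g = h := by group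
  exact Z3 S h2 hn hg hm (mul_mem (mul_mem hg hh) (inv_mem hg)) E'.sq E' (by rw [e1]; exact E) hkl
    ⟨Ne.symm p5, Ne.symm q5, Ne.symm r5, Ne.symm s5⟩ ⟨Ne.symm p6, Ne.symm q6, Ne.symm r6, Ne.symm s6⟩

end

end Cfsg.Agent.Lib.Rfe
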