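import Mathlib
import Cfsg.Agent.Lib.Rfe5

set_option autoImplicit false
set_option linter.unusedSectionVars false
set_option linter.unusedSimpArgs false
set_option linter.unusedVariables false

/-!
# Overgroups of the even monomial group, even dimension: the structure of the elements and the contradiction (helper14)
-/

namespace Cfsg.Agent.Lib.Rfe

open Matrix
open Equiv (Perm)
open Cfsg.Agent.Lib.Rf (ei)

variable {ι : Type*} [Fintype ι] [DecidableEq ι] {F : Type*} [Field F]
variable {X : Subgroup ((ι → F) ≃ₗ[F] (ι → F))}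

theorem rt_val {i j : ι} (σ τ : F) (c : ι) (hij : i ≠ j) :
    (σ • ei i + τ • ei j : ι → F) c = if c = i then σ else if c = j then τ else 0 := by
  rw [Pi.add_apply, Pi.smul_apply, Pi.smul_apply]
  by_cases h1 : c = i
  · rw [if_pos h1, h1, ei_self, ei_ne hij]; simp
  by_cases h2 : c = j
  · rw [if_neg h1, if_pos h2, h2, ei_self, ei_ne hij.symm]; simp
  rw [if_neg h1, if_neg h2, ei_ne h1, ei_ne h2]; simp

/-- a root has at most two non-zero coordinates -/
theorem rt3 {x : ι → F} (hx : IsRt x) {c p q : ι} (hcp : c ≠ p) (hcq : c ≠ q) (hpq : p ≠ q) : x c = 0 ∨ x p = 0 ∨ x q = 0 := by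
  obtain ⟨i, j, σ, τ, hij, hσ, hτ, rfl⟩ := hx
  rw [rt_val _ _ _ hij, rt_val _ _ _ hij, rt_val _ _ _ hij]
  by_contra hcon
  push Not at hcon
  obtain ⟨h1, h2, h3⟩ := hcon
  have key : ∀ c : ι, (if c = i then σ else if c = j then τ else 0) ≠ 0 → c = i ∨ c = j := by
    intro c h
    by_contra hcon
    push Not at hcon
    rw [if_neg hcon.1, if_neg hcon.2] at h
    exact h rfl
  rcases key c h1 with a | a <;> rcases key p h2 with b | b <;> rcases key q h3 with d | d
  · exact hcp (a.trans b.symm)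
  · exact hcp (a.trans b.symm)
  · exact hcq (a.trans d.symm)
  · exact hpq (b.trans d.symm)
  · exact hpq (b.trans d.symm)
  · exact hcq (a.trans d.symm)
  · exact hcp (a.trans b.symm)
  · exact hcp (a.trans b.symm)

theorem rt_sq {x : ι → F} (hx : IsRt x) {c : ι} (hc : x c ≠ 0) : x c * x c = 1 := by
  obtain ⟨i, j, σ, τ, hij, hσ, hτ, rfl⟩ := hx
  rw [rt_val _ _ _ hij] at hc ⊢
  by_cases h1 : c = i
  · rw [if_pos h1]; exact hσ
  by_cases h2 : c = j
  · rw [if_neg h1, if_pos h2]; exact hτ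
  rw [if_neg h1, if_neg h2] at hc
  exact absurd rfl hc

/-- a root with a given non-zero coordinate -/
theorem rt1 {x : ι → F} (hx : IsRt x) {c : ι} (hc : x c ≠ 0) : ∃ q, ∃ τ : F, q ≠ c ∧ τ * τ = 1 ∧ x = x c • ei c + τ • ei q := by
  obtain ⟨i, j, σ, τ, hij, hσ, hτ, rfl⟩ := hx
  rw [rt_val _ _ _ hij] at hc ⊢
  by_cases h1 : c = i
  · subst h1
    rw [if_pos rfl]
    exact ⟨j, τ, hij.symm, hτ, rfl⟩
  by_cases h2 : c = j
  · subst h2
    rw [if_neg h1, if_pos rfl]
    exact ⟨i, σ, hij, hσ, by abel⟩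
  rw [if_neg h1, if_neg h2] at hc
  exact absurd rfl hc

/-- a root is determined by two non-zero coordinates -/
theorem rt2 {x : ι → F} (hx : IsRt x) {p q : ι} (hpq : p ≠ q) (hp : x p ≠ 0) (hq : x q ≠ 0) : x = x p • ei p + x q • ei q := by
  obtain ⟨r, τ, hr, hτ, e⟩ := rt1 hx hp
  have h1 : x q = if q = p then x p else if q = r then τ else 0 := by
    conv_lhs => rw [e]
    exact rt_val _ _ _ hr.symm
  rw [if_neg hpq.symm] at h1
  by_cases h3 : q = r
  · subst h3
    rw [if_pos rfl] at h1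
    rw [h1]; exact e
  · rw [if_neg h3] at h1
    exact absurd h1 hq

/-- two roots with product 1 -/
theorem rt_pair (h2 : (2 : F) ≠ 0) {x y : ι → F} (hx : IsRt x) (hy : IsRt y) (hxy : x ⬝ᵥ y = 1) (hne : x ≠ -y) :
    ∃ c p q, ∃ s α β : F, c ≠ p ∧ c ≠ q ∧ p ≠ q ∧ s * s = 1 ∧ α * α = 1 ∧ β * β = 1 ∧ x = s • ei c + α • ei p ∧ y = s • ei c + β • ei q := by
  obtain ⟨i, j, σ, τ, hij, hσ, hτ, rfl⟩ := hx
  obtain ⟨i', j', σ', τ', hij', hσ', hτ', rfl⟩ := hy
  have hdot : σ * (if i = i' then σ' else if i = j' then τ' else 0) + τ * (if j = i' then σ' else if j = j' then τ' else 0) = 1 := by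
    rw [← hxy, add_dotProduct, smul_dotProduct, smul_dotProduct, ei_dot, ei_dot, rt_val _ _ _ hij', rt_val _ _ _ hij']
    rfl
  -- the case of equal supports
  have same : ∀ s t : F, s * s = 1 → t * t = 1 → σ * s + τ * t = 1 → (σ' • ei i' + τ' • ei j' : ι → F) = s • ei i + t • ei j → False := by
    intro s t hs ht h hE
    rcases eps_cases (ε := σ * s) (by linear_combination (s * s) * hσ + hs) with h3 | h3 <;>
      rcases eps_cases (ε := τ * t) (by linear_combination (t * t) * hτ + ht) with h4 | h4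
    · rw [h3, h4] at h
      apply one_ne_zero (α := F)
      linear_combination h
    · rw [h3, h4] at h
      apply one_ne_zero (α := F)
      linear_combination -h
    · rw [h3, h4] at h
      apply one_ne_zero (α := F)
      linear_combination -h
    · apply hne
      rw [hE]
      have e1 : s = -σ := by linear_combination σ * h3 - s * hσ
      have e2 : t = -τ := by linear_combination τ * h4 - t * hτ
      rw [e1, e2]
      module
  by_cases c1 : i = i'
  · subst c1
    by_cases c2 : j = j'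
    · subst c2
      exfalso
      rw [if_pos rfl, if_neg hij.symm, if_pos rfl] at hdot
      exact same σ' τ' hσ' hτ' hdot rfl
    · rw [if_pos rfl, if_neg hij.symm, if_neg c2, mul_zero, add_zero] at hdot
      have : σ' = σ := by linear_combination σ * hdot - σ' * hσ
      subst this
      exact ⟨i, j, j', σ', τ, τ', hij, hij', c2, hσ, hτ, hτ', rfl, rfl⟩
  · by_cases c2 : i = j'
    · subst c2
      by_cases c3 : j = i'
      · subst c3
        exfalso
        rw [if_neg hij, if_pos rfl, if_pos rfl] at hdot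
        exact same τ' σ' hτ' hσ' hdot (by abel)
      · rw [if_neg c1, if_pos rfl, if_neg c3, if_neg hij.symm, mul_zero, add_zero] at hdot
        have : τ' = σ := by linear_combination σ * hdot - τ' * hσ
        subst this
        exact ⟨i, j, i', τ', τ, σ', hij, c1, c3, hσ, hτ, hσ', rfl, by abel⟩
    · by_cases c3 : j = i'
      · subst c3
        rw [if_neg hij, if_neg c2, if_pos rfl, mul_zero, zero_add] at hdot
        have : σ' = τ := by linear_combination τ * hdot - σ' * hτ
        subst this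
        exact ⟨j, i, j', σ', σ, τ', hij.symm, hij', c2, hτ, hσ, hτ', by abel, rfl⟩
      · by_cases c4 : j = j'
        · subst c4
          rw [if_neg c1, if_neg hij, if_neg c3, if_pos rfl, mul_zero, zero_add] at hdot
          have : τ' = τ := by linear_combination τ * hdot - τ' * hτ
          subst this
          exact ⟨j, i, i', τ', σ, σ', hij.symm, c3, c1, hτ, hσ, hσ', by abel, by abel⟩
        · exfalso
          rw [if_neg c1, if_neg c2, if_neg c3, if_neg c4] at hdot
          simp at hdot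

section
variable (S : Sye X) (h2 : (2 : F) ≠ 0)
include S h2

theorem col_dot {g : (ι → F) ≃ₗ[F] (ι → F)} (hg : g ∈ X) (k l : ι) : g (ei k) ⬝ᵥ g (ei l) = if k = l then 1 else 0 := by
  rw [S.iso g hg, ei_dot]
  by_cases h : k = l
  · rw [if_pos h, h, ei_self]
  · rw [if_neg h, ei_ne h]

/-- sunflower -/
theorem sunflower (hn : 6 ≤ Fintype.card ι) {g : (ι → F) ≃ₗ[F] (ι → F)} (hg : g ∈ X) (hR : ∀ k l, k ≠ l → Rel g k l) :
    ∃ u : ι → F, ∀ l, ∃ η τ : F, ∃ θ : ι, η * η = 1 ∧ τ * τ = 1 ∧ g (ei l) = η • (u + τ • ei θ) := by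
  obtain ⟨T, hT, hTc⟩ := Finset.exists_subset_card_eq (s := (Finset.univ : Finset ι)) (n := 3) (by rw [Finset.card_univ]; omega)
  obtain ⟨k0, l1, l2, h01, h02, h12, rfl⟩ := Finset.card_eq_three.1 hTc
  have hR0 : ∀ l, l ≠ k0 → Rel g k0 l := fun l hl => hR k0 l hl.symm
  have hch : ∀ l, ∃ δ : F, ∃ x : ι → F, l ≠ k0 → δ * δ = 1 ∧ IsRt x ∧ g (ei k0) - δ • g (ei l) = x := by
    intro l
    by_cases hl : l = k0
    · exact ⟨0, 0, fun h => absurd hl h⟩
    · obtain ⟨δ, hδ, hx⟩ := hR0 l hl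
      exact ⟨δ, _, fun _ => ⟨hδ, hx, rfl⟩⟩
  choose δ x hx using hch
  have cd := col_dot S h2 hg
  -- products
  have hxx : ∀ l m, l ≠ k0 → m ≠ k0 → l ≠ m → x l ⬝ᵥ x m = 1 := by
    intro l m hl hm hlm
    rw [← (hx l hl).2.2, ← (hx m hm).2.2, sub_dotProduct, dotProduct_sub, dotProduct_sub, smul_dotProduct, smul_dotProduct,
      dotProduct_smul, dotProduct_smul, cd, cd, cd, cd, if_pos rfl, if_neg hm.symm, if_neg hl, if_neg hlm]
    simp
  have hxne : ∀ l m, l ≠ k0 → m ≠ k0 → l ≠ m → x l ≠ - x m := by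
    intro l m hl hm hlm h
    have h1 : x l ⬝ᵥ g (ei k0) = 1 := by
      rw [← (hx l hl).2.2, sub_dotProduct, smul_dotProduct, cd, cd, if_pos rfl, if_neg hl]; simp
    have h3 : x m ⬝ᵥ g (ei k0) = 1 := by
      rw [← (hx m hm).2.2, sub_dotProduct, smul_dotProduct, cd, cd, if_pos rfl, if_neg hm]; simp
    rw [h, neg_dotProduct, h3] at h1
    exact h2 (by linear_combination -h1)
  have h10 := h01.symm
  have h20 := h02.symm
  obtain ⟨c, p, q, s, α, β, hcp, hcq, hpq, hs, hα, hβ, e1, e2⟩ :=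
    rt_pair h2 (hx l1 h10).2.1 (hx l2 h20).2.1 (hxx l1 l2 h10 h20 h12) (hxne l1 l2 h10 h20 h12)
  -- the product with the first two
  have d1 : ∀ v : ι → F, x l1 ⬝ᵥ v = s * v c + α * v p := by
    intro v
    rw [e1, add_dotProduct, smul_dotProduct, smul_dotProduct, ei_dot, ei_dot]; rfl
  have d2 : ∀ v : ι → F, x l2 ⬝ᵥ v = s * v c + β * v q := by
    intro v
    rw [e2, add_dotProduct, smul_dotProduct, smul_dotProduct, ei_dot, ei_dot]; rfl
  have alt : ∀ l, l ≠ k0 → l ≠ l1 → l ≠ l2 → x l c = s ∨ x l = α • ei p + β • ei q := by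
    intro l h0 h1 h3
    have k1 := hxx l1 l h10 h0 (Ne.symm h1)
    have k2 := hxx l2 l h20 h0 (Ne.symm h3)
    rw [d1] at k1
    rw [d2] at k2
    by_cases hc : x l c = 0
    · right
      rw [hc, mul_zero, zero_add] at k1 k2
      have vp : x l p = α := by linear_combination α * k1 - x l p * hα
      have vq : x l q = β := by linear_combination β * k2 - x l q * hβ
      have := rt2 (hx l h0).2.1 hpq (by rw [vp]; exact eps_ne hα) (by rw [vq]; exact eps_ne hβ)
      rw [vp, vq] at this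
      exact this
    · left
      have hz : x l p = 0 ∨ x l q = 0 := (rt3 (hx l h0).2.1 hcp hcq hpq).resolve_left hc
      have : s * x l c = 1 := by
        rcases hz with h | h
        · rw [h, mul_zero, add_zero] at k1; exact k1
        · rw [h, mul_zero, add_zero] at k2; exact k2
      linear_combination s * this - x l c * hs
  have hall : ∀ l, l ≠ k0 → x l c = s := by
    intro l h0
    by_cases h1 : l = l1
    · rw [h1, e1, rt_val _ _ _ hcp, if_pos rfl]
    by_cases h3 : l = l2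
    · rw [h3, e2, rt_val _ _ _ hcq, if_pos rfl]
    rcases alt l h0 h1 h3 with h | h
    · exact h
    exfalso
    obtain ⟨m, hm, hmn⟩ : ∃ m ∈ (Finset.univ : Finset ι), m ∉ ({k0, l1, l2, l} : Finset ι) := by
      apply Finset.exists_mem_notMem_of_card_lt_card
      rw [Finset.card_univ]
      exact lt_of_le_of_lt Finset.card_le_four (by omega)
    simp only [Finset.mem_insert, Finset.mem_singleton, not_or] at hmn
    obtain ⟨m0, m1, m2, ml⟩ := hmn
    have hlm := hxx l m h0 m0 (Ne.symm ml)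
    have dl : ∀ v : ι → F, x l ⬝ᵥ v = α * v p + β * v q := by
      intro v
      rw [h, add_dotProduct, smul_dotProduct, smul_dotProduct, ei_dot, ei_dot]; rfl
    rcases alt m m0 m1 m2 with h5 | h5
    · have k1 := hxx l1 m h10 m0 (Ne.symm m1)
      have k2 := hxx l2 m h20 m0 (Ne.symm m2)
      rw [d1, h5] at k1
      rw [d2, h5] at k2
      rw [dl] at hlm
      apply one_ne_zero (α := F)
      linear_combination -hlm + k1 + k2 - 2 * hs
    · rw [h5, ← h] at hlm
      rw [dl, h, rt_val _ _ _ hpq, rt_val _ _ _ hpq, if_pos rfl, if_neg hpq.symm, if_pos rfl] at hlm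
      apply one_ne_zero (α := F)
      linear_combination hlm - hα - hβ
  refine ⟨g (ei k0) - s • ei c, fun l => ?_⟩
  by_cases hl : l = k0
  · refine ⟨1, s, c, by ring, hs, ?_⟩
    rw [hl]; module
  · obtain ⟨r, τ, hr, hτ, e⟩ := rt1 (hx l hl).2.1 (c := c) (by rw [hall l hl]; exact eps_ne hs)
    rw [hall l hl] at e
    have e3 := (hx l hl).2.2
    have hδ := (hx l hl).1
    refine ⟨δ l, -τ, r, hδ, by rw [neg_mul_neg]; exact hτ, ?_⟩
    have e4 : δ l • g (ei l) = g (ei k0) - x l := by rw [← e3]; abel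
    have e5 : g (ei l) = δ l • (g (ei k0) - x l) := by rw [← e4, smul_smul, hδ, one_smul]
    rw [e5]
    congr 1
    conv_lhs => rw [e]
    module

/-- **Theorem S** -/
theorem thmS (hn : 6 ≤ Fintype.card ι) {g : (ι → F) ≃ₗ[F] (ι → F)} (hg : g ∈ X) (hm : ¬ Mn g) (hR : ∀ k l, k ≠ l → Rel g k l) :
    ∃ (u : ι → F) (η τ : ι → F) (θ : ι → ι) (β : F), (∀ l, η l * η l = 1) ∧ (∀ l, τ l * τ l = 1) ∧
      (∀ l, g (ei l) = η l • (u + τ l • ei (θ l))) ∧ Function.Injective θ ∧ (∀ l, u (θ l) = τ l * β) ∧ u ⬝ᵥ u = -(2 * β) ∧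
      β ≠ 0 ∧ (Fintype.card ι : F) * β = -2 ∧ (∀ i, u i * u i = β * β) := by
  obtain ⟨u, hu⟩ := sunflower S h2 hn hg hR
  choose η τ θ hη hτ hgl using hu
  have cd := col_dot S h2 hg
  obtain ⟨β, hβ⟩ : ∃ β : F, 2 * β = -(u ⬝ᵥ u) := ⟨-(u ⬝ᵥ u) / 2, by field_simp⟩
  have prod : ∀ l m, g (ei l) ⬝ᵥ g (ei m) = η l * η m * (u ⬝ᵥ u + τ m * u (θ m) + τ l * u (θ l) + τ l * τ m * (if θ l = θ m then 1 else 0)) := by
    intro l m
    rw [hgl l, hgl m, smul_dotProduct, dotProduct_smul, add_dotProduct, dotProduct_add, dotProduct_add, smul_dotProduct, smul_dotProduct,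
      dotProduct_smul, dotProduct_smul, dot_ei, ei_dot, ei_dot]
    simp only [smul_eq_mul]
    by_cases h : θ l = θ m
    · rw [if_pos h, h, ei_self]; ring
    · rw [if_neg h, ei_ne h]; ring
  have hub : ∀ l, u (θ l) = τ l * β := by
    intro l
    have h1 := prod l l
    rw [cd, if_pos rfl, if_pos rfl, hη l, hτ l] at h1
    apply mul_left_cancel₀ h2
    linear_combination (2 * u (θ l)) * (hτ l) * (-1) - τ l * h1 - τ l * hβ
  have hinj : Function.Injective θ := by
    intro l m hlm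
    by_contra hne
    have h1 := prod l m
    rw [cd, if_neg hne, if_pos hlm, hub l, hub m] at h1
    have h3 : η l * η m * (τ l * τ m) = 0 := by
      linear_combination -h1 - (η l * η m * β) * (hτ l) - (η l * η m * β) * hτ m - (η l * η m) * hβ
    exact mul_ne_zero (mul_ne_zero (eps_ne (hη l)) (eps_ne (hη m))) (mul_ne_zero (eps_ne (hτ l)) (eps_ne (hτ m))) h3
  have hbij : Function.Bijective θ := Finite.injective_iff_bijective.1 hinj
  have husq : ∀ i, u i * u i = β * β := by
    intro i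
    obtain ⟨l, rfl⟩ := hbij.2 i
    rw [hub l]
    linear_combination (β * β) * hτ l
  have hsum : u ⬝ᵥ u = (Fintype.card ι : F) * (β * β) := by
    rw [dotProduct, Finset.sum_congr rfl (fun i _ => husq i), Finset.sum_const, Finset.card_univ, nsmul_eq_mul]
  have hβ0 : β ≠ 0 := by
    intro h0
    have hu0 : u = 0 := by
      ext i
      have := husq i
      rw [h0, mul_zero] at this
      rw [Pi.zero_apply]
      exact mul_self_eq_zero.1 this
    have hne : Nonempty ι := by
      rw [← Fintype.card_pos_iff]; omega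
    obtain ⟨l⟩ := hne
    apply hm
    apply S.blk g hg l (θ l)
    rw [hgl l, hu0, zero_add, smul_smul]
    rcases eps_cases (ε := η l * τ l) (by linear_combination (τ l * τ l) * hη l + hτ l) with h | h
    · left; rw [h, one_smul]
    · right; rw [h, neg_one_smul]
  refine ⟨u, η, τ, θ, β, hη, hτ, hgl, hinj, hub, by rw [hβ]; ring, hβ0, ?_, husq⟩
  apply mul_right_cancel₀ hβ0
  linear_combination -hsum + hβ

/-- **the contradiction** -/
theorem contra [Finite F] (hn : 14 ≤ Fintype.card ι) (hex : ∃ g ∈ X, ¬ Mn g) : False := by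
  obtain ⟨g, hg, hm⟩ := hex
  obtain ⟨z, hz, hzsq, ⟨a, b, ε, c, d, ε', D⟩, ⟨a', b', δ, c', d', δ', D'⟩⟩ := exists_DT S h2 hn hg hm
  obtain ⟨u, η, τ, θ, β, hη, hτ, hgl, hinj, hub, huu, hβ0, hnβ, husq⟩ :=
    thmS S h2 (by omega) hg hm (fun k l hkl => all_rel S h2 hn hg hm hz D D' hkl)
  -- eight indices
  obtain ⟨T, hT, hTc⟩ := Finset.exists_subset_card_eq (s := (Finset.univ : Finset ι)) (n := 4) (by rw [Finset.card_univ]; omega)
  obtain ⟨p1, p2, p3, p4, h12, h13, h14, h23, h24, h34, rfl⟩ := Finset.card_eq_four.1 hTc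
  obtain ⟨T', hT', hTc'⟩ := Finset.exists_subset_card_eq (s := ({p1, p2, p3, p4} : Finset ι)ᶜ) (n := 4) (by rw [Finset.card_compl]; omega)
  obtain ⟨q1, q2, q3, q4, g12, g13, g14, g23, g24, g34, rfl⟩ := Finset.card_eq_four.1 hTc'
  have hq : ∀ x ∈ ({q1, q2, q3, q4} : Finset ι), x ≠ p1 ∧ x ≠ p2 ∧ x ≠ p3 ∧ x ≠ p4 := by
    intro x hx
    have := hT' hx
    rw [Finset.mem_compl] at this
    simp only [Finset.mem_insert, Finset.mem_singleton, not_or] at this
    exact this
  obtain ⟨Q, hQ⟩ : ∃ Q : Finset ι, Q = {θ p1, θ p2, θ p3, θ p4} := ⟨_, rfl⟩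
  have hQp : ∀ x, x = p1 ∨ x = p2 ∨ x = p3 ∨ x = p4 → θ x ∈ Q := by
    rintro x (rfl | rfl | rfl | rfl) <;> rw [hQ] <;> simp
  have hQq : ∀ x ∈ ({q1, q2, q3, q4} : Finset ι), θ x ∉ Q := by
    intro x hx
    obtain ⟨n1, n2, n3, n4⟩ := hq x hx
    rw [hQ]
    simp only [Finset.mem_insert, Finset.mem_singleton, not_or]
    exact ⟨fun h => n1 (hinj h), fun h => n2 (hinj h), fun h => n3 (hinj h), fun h => n4 (hinj h)⟩
  have hQX : tf Q ∈ X := by
    rw [hQ]
    exact flip4 S (hinj.ne h12) (hinj.ne h13) (hinj.ne h14) (hinj.ne h23) (hinj.ne h24) (hinj.ne h34)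
  have hQc : Q.card = 4 := by
    rw [hQ, Finset.card_insert_of_notMem (by simp [hinj.eq_iff, h12, h13, h14]), Finset.card_insert_of_notMem (by simp [hinj.eq_iff, h23, h24]),
      Finset.card_pair (hinj.ne h34)]
  obtain ⟨w, hw⟩ : ∃ w, w = g⁻¹ * tf Q * g := ⟨_, rfl⟩
  have hwX : w ∈ X := by rw [hw]; exact mul_mem (mul_mem (inv_mem hg) hQX) hg
  have hwm : ¬ Mn w := by
    intro h
    rw [hw] at h
    exact hm (uniq S h2 hg (T := Q) ⟨θ p1, hQp _ (Or.inl rfl)⟩ (by rw [hQc]; omega) hQX h)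
  -- an involution commuting with w
  obtain ⟨h, hh, E⟩ := exists_sdt S g12 g13 g14 g23 g24 g34 (ε := η q1 * η q2) (ε' := η q3 * η q4)
    (by linear_combination (η q2 * η q2) * hη q1 + hη q2) (by linear_combination (η q4 * η q4) * hη q3 + hη q4)
  have fixr : ∀ x ∈ ({q1, q2, q3, q4} : Finset ι), ∀ y ∈ ({q1, q2, q3, q4} : Finset ι),
      w (ei x - (η x * η y) • ei y) = ei x - (η x * η y) • ei y := by
    intro x hx y hy
    have e1 : g (ei x - (η x * η y) • ei y) = η x • (τ x • ei (θ x) - τ y • ei (θ y)) := by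
      rw [map_sub, map_smul, hgl x, hgl y, smul_smul, mul_assoc, hη y, mul_one, ← smul_sub]
      congr 1
      abel
    have e3 : tf Q (g (ei x - (η x * η y) • ei y)) = g (ei x - (η x * η y) • ei y) := by
      rw [e1, map_smul, map_sub, map_smul, map_smul, tf_ei, tf_ei, if_neg (hQq x hx), if_neg (hQq y hy)]
    rw [hw]
    change g.symm (tf Q (g _)) = _
    rw [e3, g.symm_apply_apply]
  have r1 := fixr q1 (by simp) q2 (by simp)
  have r2 := fixr q3 (by simp) q4 (by simp)
  have hcomm : w⁻¹ * h * w = h := by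
    have : h * w = w * h := by
      apply LinearEquiv.ext
      intro v
      change h (w v) = w (h v)
      rw [E.formula, E.formula v, map_sub, map_sub, map_smul, map_smul, r1, r2]
      have k1 : (ei q1 - (η q1 * η q2) • ei q2) ⬝ᵥ w v = (ei q1 - (η q1 * η q2) • ei q2) ⬝ᵥ v := by
        rw [← S.iso w hwX _ v, r1]
      have k2 : (ei q3 - (η q3 * η q4) • ei q4) ⬝ᵥ w v = (ei q3 - (η q3 * η q4) • ei q4) ⬝ᵥ v := by
        rw [← S.iso w hwX _ v, r2]
      rw [k1, k2]
    rw [mul_assoc, this, inv_mul_cancel_left]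
  obtain ⟨u', η', τ', θ', β', hη', hτ', hgl', hinj', hub', huu', hβ0', hnβ', husq'⟩ :=
    thmS S h2 (by omega) hwX hwm (fun k l hkl => all_rel S h2 hn hwX hwm hh E (by rw [hcomm]; exact E) hkl)
  have hββ : β' = β := by
    have hn0 : (Fintype.card ι : F) ≠ 0 := by
      intro h; rw [h, zero_mul] at hnβ; exact h2 (by linear_combination hnβ)
    apply mul_left_cancel₀ hn0
    rw [hnβ, hnβ']
  have entry' : ∀ l i, i ≠ θ' l → (w (ei l) i) * (w (ei l) i) = β * β := by
    intro l i hi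
    rw [hgl' l, Pi.smul_apply, Pi.add_apply, Pi.smul_apply, ei_ne hi, smul_zero, add_zero, smul_eq_mul]
    have := husq' i
    rw [hββ] at this
    linear_combination (u' i * u' i) * hη' l + this
  -- the actual entries
  obtain ⟨sg, hsg⟩ : ∃ sg : ι → F, sg = fun l => if θ l ∈ Q then -1 else 1 := ⟨_, rfl⟩
  have huQ : tf Q u ⬝ᵥ u = -(2 * β) - 8 * (β * β) := by
    rw [tf_dot_self, huu, Finset.sum_congr rfl (fun i _ => by rw [sq, husq i]), Finset.sum_const, hQc, nsmul_eq_mul]
    push_cast; ring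
  have tfu : ∀ l, tf Q u (θ l) = sg l * τ l * β := by
    intro l
    rw [tf_apply, hub l, hsg]
    by_cases h : θ l ∈ Q
    · simp only [h, if_true]; ring
    · simp only [h, if_false]; ring
  have tfe : ∀ l, (tf Q (ei (θ l)) : ι → F) = sg l • ei (θ l) := by
    intro l
    rw [tf_ei, hsg]
    by_cases h : θ l ∈ Q
    · simp only [h, if_true, neg_one_smul]
    · simp only [h, if_false, one_smul]
  have ent : ∀ l m, l ≠ m → w (ei l) m = η m * η l * (-(2 * β) - 8 * (β * β) + sg m * β + sg l * β) := by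
    intro l m hlm
    have e1 : w (ei l) m = g (ei m) ⬝ᵥ tf Q (g (ei l)) := by
      rw [hw]
      have e2 : (g⁻¹ * tf Q * g : (ι → F) ≃ₗ[F] (ι → F)) (ei l) = g⁻¹ (tf Q (g (ei l))) := rfl
      rw [e2, adj S hg, ei_dot]
    rw [e1, hgl m, hgl l, map_smul, map_add, map_smul, tfe, smul_dotProduct, dotProduct_smul, add_dotProduct, dotProduct_add, dotProduct_add,
      smul_dotProduct, smul_dotProduct, dotProduct_smul, dotProduct_smul, dotProduct_smul, dotProduct_smul, dot_ei, ei_dot, ei_dot,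
      ei_ne (hinj.ne hlm.symm), tfu, dotProduct_comm u, huQ, hub l]
    simp only [smul_eq_mul]
    linear_combination (η m * η l * sg l * β) * hτ l + (η m * η l * sg m * β) * hτ m
  have sgp : ∀ x, x = p1 ∨ x = p2 ∨ x = p3 ∨ x = p4 → sg x = -1 := by
    intro x hx; rw [hsg]; simp only [hQp x hx, if_true]
  have sgq : ∀ x ∈ ({q1, q2, q3, q4} : Finset ι), sg x = 1 := by
    intro x hx; rw [hsg]; simp only [hQq x hx, if_false]
  -- extraction of an equation
  have ext2 : ∀ l m m', l ≠ m → l ≠ m' → m ≠ m' → sg m = sg m' →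
      (-2 - 8 * β + sg m + sg l) * (-2 - 8 * β + sg m + sg l) = 1 := by
    intro l m m' hlm hlm' hmm' hs
    have main : ∀ x, l ≠ x → x ≠ θ' l → (-2 - 8 * β + sg x + sg l) * (-2 - 8 * β + sg x + sg l) = 1 := by
      intro x hlx hx
      have k1 := entry' l x hx
      rw [ent l x hlx] at k1
      apply mul_left_cancel₀ (mul_ne_zero hβ0 hβ0)
      have e1 : η x * η l * (η x * η l) = 1 := by linear_combination (η l * η l) * hη x + hη l
      have e3 : β * β * ((-2 - 8 * β + sg x + sg l) * (-2 - 8 * β + sg x + sg l)) =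
          (-(2 * β) - 8 * (β * β) + sg x * β + sg l * β) * (-(2 * β) - 8 * (β * β) + sg x * β + sg l * β) := by ring
      rw [e3]
      linear_combination k1 - ((-(2 * β) - 8 * (β * β) + sg x * β + sg l * β) * (-(2 * β) - 8 * (β * β) + sg x * β + sg l * β)) * e1
    by_cases h1 : m = θ' l
    · rw [hs]
      exact main m' hlm' (fun h => hmm' (h1.trans h.symm))
    · exact main m hlm h1
  have A1 := ext2 q1 q2 q3 g12 g13 g23 (by rw [sgq q2 (by simp), sgq q3 (by simp)])
  have A2 := ext2 q1 p1 p2 (hq q1 (by simp)).1 (hq q1 (by simp)).2.1 h12 (by rw [sgp p1 (by simp), sgp p2 (by simp)])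
  have A3 := ext2 p1 p2 p3 h12 h13 h23 (by rw [sgp p2 (by simp), sgp p3 (by simp)])
  rw [sgq q1 (by simp), sgq q2 (by simp)] at A1
  rw [sgq q1 (by simp), sgp p1 (by simp)] at A2
  rw [sgp p1 (by simp), sgp p2 (by simp)] at A3
  have : (2 : F) * 2 * 2 = 0 := by linear_combination A1 - 2 * A2 + A3
  exact mul_ne_zero (mul_ne_zero h2 h2) h2 this

end

end Cfsg.Agent.Lib.Rfe
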