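import Mathlib
import Cfsg.Agent.Lib.Rfe6
import Cfsg.Agent.Lib.Rf13
import Cfsg.Agent.Lib.OrthPoint

set_option autoImplicit false
set_option linter.unusedSectionVars false
set_option linter.unusedSimpArgs false
set_option linter.unusedVariables false

/-!
# Point stabilizers, reflections in a hyperplane (helper14)
-/

namespace Cfsg.Agent.Lib.Rfe

open Cfsg Cfsg.Geo Cfsg.Agent.Lib.GeoBridge QuadraticMap Module Cfsg.Agent.Lib.Quad
open Cfsg.Agent.Lib.OrthMax Cfsg.Agent.Lib.OrthNd Cfsg.Agent.Lib.OrthBridge Cfsg.Agent.Lib.OrthPoint Cfsg.Agent.Lib.OrthDecH94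
open scoped MatrixGroups Matrix

variable {F V : Type*} [Field F] [AddCommGroup V] [Module F V] [FiniteDimensional F V]
  {Q : QuadraticForm F V} {M : Subgroup (V ≃ₗ[F] V)}

/-- point stabilizers are maximal, version with unipotent elements -/
theorem point_max' [Finite F] (hQ : Nd Q) (hgen : GenHyp Q) (hn : 7 ≤ finrank F V)
    (hM : M ≤ O Q) {v : V} (hv : v ≠ 0)
    (hS : ∀ z y, Q z = 0 → polar Q z y = 0 → polar Q z v = 0 → polar Q y v = 0 → SI Q M z y)
    (hex : ∃ g ∈ M, g v ∉ F ∙ v) : Om Q ≤ M := by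
  obtain ⟨g, hg, hgv⟩ := hex
  set v' := g v with hv'
  have hv'0 : v' ≠ 0 := by rw [hv']; simpa using hv
  have hS' : ∀ z y, Q z = 0 → polar Q z y = 0 → polar Q z v' = 0 → polar Q y v' = 0 → SI Q M z y := by
    intro z y hQz hzy hzv hyv
    obtain ⟨z, rfl⟩ := g.surjective z
    obtain ⟨y, rfl⟩ := g.surjective y
    rw [hM hg] at hQz
    rw [hv', O_polar (hM hg)] at hzv hyv
    rw [O_polar (hM hg)] at hzy
    exact (hS z y hQz hzy hzv hyv).map hg (hM hg)
  set P := Submodule.span F {v, v'} with hP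
  set D := perp Q P with hD
  have hDP : finrank F P + finrank F D = finrank F V := hQ.finrank_add_finrank_perp P
  have hPle : finrank F P ≤ 2 := by
    classical
    have h3 := finrank_span_finset_le_card (R := F) ({v, v'} : Finset V)
    have h4 : ({v, v'} : Finset V).card ≤ 2 := Finset.card_le_two (a := v) (b := v')
    rw [Finset.coe_pair] at h3
    exact h3.trans h4
  have hmemD : ∀ x, x ∈ D ↔ polar Q v x = 0 ∧ polar Q v' x = 0 := by
    intro x
    rw [hD, hP, mem_perp_span]; simp
  have hfull : ∀ z ∈ D, Q z = 0 → z ∉ P → Full Q M z := by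
    intro z hz hQz hzP
    obtain ⟨hvz, hv'z⟩ := (hmemD z).1 hz
    have hvs : v ∉ Submodule.span F {z, v'} := by
      intro hmem
      obtain ⟨a, b, hab⟩ := Submodule.mem_span_pair.1 hmem
      by_cases ha : a = 0
      · rw [ha, zero_smul, zero_add] at hab
        have hb : b ≠ 0 := by rintro rfl; rw [zero_smul] at hab; exact hv hab.symm
        apply hgv
        rw [Submodule.mem_span_singleton]
        exact ⟨b⁻¹, by rw [← hab, smul_smul, inv_mul_cancel₀ hb, one_smul]⟩
      · apply hzP
        have : z = a⁻¹ • v + (-(a⁻¹ * b)) • v' := by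
          have h1 : a • z = v - b • v' := by rw [← hab]; abel
          have h2 : z = a⁻¹ • (v - b • v') := by
            rw [← h1, smul_smul, inv_mul_cancel₀ ha, one_smul]
          rw [h2, smul_sub, smul_smul, neg_smul, sub_eq_add_neg]
        rw [this]
        exact P.add_mem (P.smul_mem _ (Submodule.subset_span (by simp)))
          (P.smul_mem _ (Submodule.subset_span (by simp)))
    obtain ⟨y₀, hy₀, hvy₀⟩ := hQ.exists_polar_one _ hvs
    rw [mem_perp_span] at hy₀
    have hzy₀ : polar Q z y₀ = 0 := hy₀ z (by simp)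
    have hv'y₀ : polar Q v' y₀ = 0 := hy₀ v' (by simp)
    refine ⟨hQz, fun y hy => ?_⟩
    have e : y = (y - polar Q v y • y₀) + polar Q v y • y₀ := by abel
    rw [e]
    have h1 : polar Q z (y - polar Q v y • y₀) = 0 := by
      rw [polar_sub_right, polar_smul_right, hy, hzy₀]; simp
    have h2 : polar Q z (polar Q v y • y₀) = 0 := by rw [polar_smul_right, hzy₀]; simp
    refine SI.add hQz h1 h2 (hS z _ hQz h1 (by rw [polar_comm]; exact hvz) ?_)
      (hS' z _ hQz h2 (by rw [polar_comm]; exact hv'z) ?_)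
    · rw [polar_comm, polar_sub_right, polar_smul_right, hvy₀]; simp
    · rw [polar_comm, polar_smul_right, hv'y₀]; simp
  obtain ⟨z, hzD, hzP, hQz⟩ := exists_sing_avoid (Q := Q) D P (by omega)
  obtain ⟨y, hyD, hzy⟩ : ∃ y ∈ D, polar Q z y ≠ 0 := by
    by_contra hcon
    push Not at hcon
    apply hzP
    rw [← hQ.perp_perp P, mem_perp']
    exact hcon
  obtain ⟨a, ha⟩ := exists_sing_add hQz (y := y) (by rwa [polar_comm])
  have hzy' : polar Q z (y + a • z) ≠ 0 := by
    rw [polar_add_right, polar_smul_right, polar_self', hQz]; simpa using hzy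
  refine Om_le_of_two hQ hgen (by omega) hM (hfull z hzD hQz hzP)
    (hfull _ (D.add_mem hyD (D.smul_mem _ hzD)) ha ?_) hzy'
  intro hmem
  apply hzy'
  rw [polar_comm]
  exact mem_perp.1 hzD _ hmem


/-- reflections in the vectors of norm `c` of a subspace `H` yield the unipotent elements of `H` -/
theorem SI_of_refl_in [Finite F] (hQ : Nd Q) (h2 : (2 : F) ≠ 0) {H : Submodule F V} (hH : NDs Q H) (hn : 5 ≤ finrank F H) {c : F} (hc : c ≠ 0)
    (X : Subgroup (V ≃ₗ[F] V)) (hX : ∀ v ∈ H, Q v = c → Quad.refl Q v ∈ X) {z y : V} (hzH : z ∈ H) (hyH : y ∈ H)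
    (hz : Q z = 0) (hzy : polar Q z y = 0) : SI Q X z y := by
  have h4 : (4 : F) ≠ 0 := by
    intro h
    apply mul_ne_zero h2 h2
    linear_combination h
  by_cases hz0 : z = 0
  · subst hz0; exact SI.zero_left y
  have hunit : ∀ w ∈ H, polar Q z w = 0 → Q w = c → SI Q X z w := by
    intro w hwH hw hQw
    refine ⟨sieg hQ hz hw, ?_, fun x => by rw [sieg_apply, siegMap_apply]⟩
    rw [sieg_eq_refl hQ hz hw (by rw [hQw]; exact hc)]
    refine mul_mem (hX w hwH hQw) (hX _ (H.add_mem hwH (H.smul_mem _ hzH)) ?_)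
    rw [Q_add, Q_smul, hz, polar_smul_right, polar_comm Q w z, hw, hQw]
    simp
  obtain ⟨f, hfH, hQf, hzf⟩ := exists_partner hQ hH hzH hz0 hz
  obtain ⟨A, hA⟩ : ∃ A : Submodule F V, A = H ⊓ perp Q (Submodule.span F {z, f}) := ⟨_, rfl⟩
  have hAnd : NDs Q A := by rw [hA]; exact nds_cut hQ hH hzH hfH hz hQf hzf
  have hAd : 3 ≤ finrank F A := by
    have := finrank_cut hQ H z f
    rw [hA]
    omega
  have hAH : ∀ a ∈ A, a ∈ H := by
    intro a ha
    rw [hA, mem_cut] at ha
    exact ha.1
  have hAz : ∀ a ∈ A, polar Q z a = 0 := by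
    intro a ha
    rw [hA, mem_cut] at ha
    exact ha.2.1
  have hns : ∀ a ∈ A, Q a ≠ 0 → SI Q X z a := by
    intro a ha hQa
    obtain ⟨u, hu, hQu⟩ := universal hQ h2 (nds_cut1 hQ h2 hAnd ha hQa)
      (by have := finrank_cut1 hQ (A := A) (a := a); omega) (c - Q a / 4)
    obtain ⟨huA, hau⟩ := mem_cut1.1 hu
    have e1 : a = ((1 / 2 : F) • a + u) + ((1 / 2 : F) • a - u) := by
      rw [show ((1 / 2 : F) • a + u) + ((1 / 2 : F) • a - u) = (1 / 2 + 1 / 2 : F) • a by rw [add_smul]; abel]
      rw [show (1 / 2 + 1 / 2 : F) = 1 by field_simp; norm_num, one_smul]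
    have hq : (1 / 2 : F) * (1 / 2) * Q a = Q a / 4 := by field_simp; norm_num
    rw [e1]
    apply SI.add hz
    · rw [polar_add_right, polar_smul_right, hAz a ha, hAz u huA, smul_zero, add_zero]
    · rw [polar_sub_right, polar_smul_right, hAz a ha, hAz u huA, smul_zero, sub_zero]
    · apply hunit
      · exact H.add_mem (H.smul_mem _ (hAH a ha)) (hAH u huA)
      · rw [polar_add_right, polar_smul_right, hAz a ha, hAz u huA, smul_zero, add_zero]
      · rw [Q_add, Q_smul, polar_smul_left, hau, hQu, smul_zero, add_zero, hq]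
        ring
    · apply hunit
      · exact H.sub_mem (H.smul_mem _ (hAH a ha)) (hAH u huA)
      · rw [polar_sub_right, polar_smul_right, hAz a ha, hAz u huA, smul_zero, sub_zero]
      · rw [Q_sub, Q_smul, polar_smul_left, hau, hQu, smul_zero, sub_zero, hq]
        ring
  have hAall : ∀ a ∈ A, SI Q X z a := by
    intro a ha
    by_cases hQa : Q a = 0
    · obtain ⟨d, hd, hQd⟩ := exists_nonsing hAnd (by omega)
      have key : ∀ d ∈ A, Q d ≠ 0 → Q (a - d) ≠ 0 → SI Q X z a := by
        intro d hd hQd h3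
        have e1 : a = (a - d) + d := by abel
        rw [e1]
        apply SI.add hz
        · rw [polar_sub_right, hAz a ha, hAz d hd, sub_zero]
        · exact hAz d hd
        · exact hns _ (A.sub_mem ha hd) h3
        · exact hns _ hd hQd
      by_cases h3 : Q (a - d) = 0
      · apply key (-d) (A.neg_mem hd) (by rw [QuadraticMap.map_neg]; exact hQd)
        rw [sub_neg_eq_add, Q_add, hQa]
        rw [Q_sub, hQa] at h3
        intro h5
        apply mul_ne_zero h2 hQd
        linear_combination h3 + h5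
      · exact key d hd hQd h3
    · exact hns a ha hQa
  -- decompose y
  have hy : y - polar Q f y • z ∈ A := by
    rw [hA, mem_cut]
    refine ⟨H.sub_mem hyH (H.smul_mem _ hzH), ?_, ?_⟩
    · rw [polar_sub_right, polar_smul_right, hzy, polar_self', hz]; simp
    · rw [polar_sub_right, polar_smul_right, polar_comm Q f z, hzf]; simp
  have h5 := Rf.SI.congr hz (hAz _ hy) (polar Q f y) (hAall _ hy)
  rwa [sub_add_cancel] at h5


end Cfsg.Agent.Lib.Rfe
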