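import Mathlib
import Cfsg.Agent.Lib.Rfe7

set_option autoImplicit false
set_option linter.unusedSectionVars false
set_option linter.unusedSimpArgs false
set_option linter.unusedVariables false

/-!
# Stabilizers of orthonormal frames over prime fields, even dimension (helper14)
-/

namespace Cfsg.Agent.Lib.Rfe

open Cfsg Cfsg.Geo Cfsg.Agent.Lib.GeoBridge QuadraticMap Module Cfsg.Agent.Lib.Quad
open Cfsg.Agent.Lib.OrthMax Cfsg.Agent.Lib.OrthNd Cfsg.Agent.Lib.OrthBridge Cfsg.Agent.Lib.OrthPoint Cfsg.Agent.Lib.OrthDecH94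
open Cfsg.Agent.Lib.Rf (ei tr tr_apply tr_apply' tr_surj symm_ei polar_symm Q_symm pm pm_apply pm_mem_Om Mo Sys Ob)
open Equiv (Perm)
open scoped MatrixGroups Matrix

section exf
variable {F : Type*} [Field F]

/-- extension by the identity on coordinate `0` -/
def exf (m : ℕ) (F : Type*) [Field F] : ((Fin m → F) ≃ₗ[F] (Fin m → F)) →* ((Fin (m + 1) → F) ≃ₗ[F] (Fin (m + 1) → F)) where
  toFun x :=
    { toFun := fun w => Fin.cons (w 0) (x (Fin.tail w))
      map_add' := by
        intro u v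
        ext i
        refine Fin.cases ?_ (fun j => ?_) i
        · rfl
        · have : (Fin.tail (u + v) : Fin m → F) = Fin.tail u + Fin.tail v := rfl
          rw [this, map_add]
          rfl
      map_smul' := by
        intro c v
        ext i
        refine Fin.cases ?_ (fun j => ?_) i
        · rfl
        · have : (Fin.tail (c • v) : Fin m → F) = c • Fin.tail v := rfl
          rw [this, map_smul]
          rfl
      invFun := fun w => Fin.cons (w 0) (x.symm (Fin.tail w))
      left_inv := by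
        intro w
        ext i
        refine Fin.cases ?_ (fun j => ?_) i
        · rfl
        · change x.symm (Fin.tail (Fin.cons (w 0) (x (Fin.tail w)) : Fin (m + 1) → F)) j = w j.succ
          rw [Fin.tail_cons, x.symm_apply_apply]
          rfl
      right_inv := by
        intro w
        ext i
        refine Fin.cases ?_ (fun j => ?_) i
        · rfl
        · change x (Fin.tail (Fin.cons (w 0) (x.symm (Fin.tail w)) : Fin (m + 1) → F)) j = w j.succ
          rw [Fin.tail_cons, x.apply_symm_apply]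
          rfl }
  map_one' := by
    apply LinearEquiv.ext
    intro w
    ext i
    refine Fin.cases ?_ (fun j => ?_) i <;> rfl
  map_mul' := by
    intro x y
    apply LinearEquiv.ext
    intro w
    ext i
    refine Fin.cases ?_ (fun j => ?_) i
    · rfl
    · change x (y (Fin.tail w)) j = x (Fin.tail (Fin.cons (w 0) (y (Fin.tail w)) : Fin (m + 1) → F)) j
      rw [Fin.tail_cons]

variable {m : ℕ}

theorem exf_apply (x : (Fin m → F) ≃ₗ[F] (Fin m → F)) (w : Fin (m + 1) → F) :
    exf m F x w = Fin.cons (w 0) (x (Fin.tail w)) := rfl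

theorem exf_cons (x : (Fin m → F) ≃ₗ[F] (Fin m → F)) (a : F) (w : Fin m → F) :
    exf m F x (Fin.cons a w) = Fin.cons a (x w) := by
  rw [exf_apply, Fin.tail_cons, Fin.cons_zero]

theorem cons_dot (a a' : F) (u v : Fin m → F) :
    (Fin.cons a u : Fin (m + 1) → F) ⬝ᵥ (Fin.cons a' v) = a * a' + u ⬝ᵥ v := by
  rw [dotProduct, Fin.sum_univ_succ]
  rfl

theorem ei_succ (i : Fin m) : (ei i.succ : Fin (m + 1) → F) = Fin.cons 0 (ei i) := by
  ext j
  refine Fin.cases ?_ (fun k => ?_) j
  · rw [Fin.cons_zero, ei_ne (Fin.succ_ne_zero i).symm]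
  · rw [Fin.cons_succ]
    by_cases h : k = i
    · rw [h, ei_self, ei_self]
    · rw [ei_ne h, ei_ne (fun h' => h (Fin.succ_injective _ h'))]

theorem ei_zero : (ei 0 : Fin (m + 1) → F) = Fin.cons 1 0 := by
  ext j
  refine Fin.cases ?_ (fun k => ?_) j
  · rw [Fin.cons_zero, ei_self]
  · rw [Fin.cons_succ, ei_ne (Fin.succ_ne_zero k)]; rfl

/-- descent -/
theorem exists_exf {g : (Fin (m + 1) → F) ≃ₗ[F] (Fin (m + 1) → F)} (hiso : ∀ u v, g u ⬝ᵥ g v = u ⬝ᵥ v) (h0 : g (ei 0) = ei 0) :
    ∃ x, exf m F x = g := by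
  have hz : ∀ w, g w 0 = w 0 := by
    intro w
    rw [← ei_dot 0 (g w)]
    conv_lhs => rw [← h0]
    rw [hiso, ei_dot]
  have h0' : g.symm (ei 0) = ei 0 := by rw [← h0, g.symm_apply_apply, h0]
  have hz' : ∀ w, g.symm w 0 = w 0 := by
    intro w
    rw [← hz (g.symm w), g.apply_symm_apply]
  have key : ∀ x : Fin m → F, g (Fin.cons 0 x) = Fin.cons 0 (Fin.tail (g (Fin.cons 0 x))) := by
    intro x
    ext i
    refine Fin.cases ?_ (fun j => ?_) i
    · rw [hz]; rfl
    · rfl
  have key' : ∀ x : Fin m → F, g.symm (Fin.cons 0 x) = Fin.cons 0 (Fin.tail (g.symm (Fin.cons 0 x))) := by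
    intro x
    ext i
    refine Fin.cases ?_ (fun j => ?_) i
    · rw [hz']; rfl
    · rfl
  have cadd : ∀ u v : Fin m → F, (Fin.cons 0 (u + v) : Fin (m + 1) → F) = Fin.cons 0 u + Fin.cons 0 v := by
    intro u v
    ext i
    refine Fin.cases ?_ (fun j => ?_) i
    · simp
    · rfl
  have csm : ∀ (c : F) (v : Fin m → F), (Fin.cons 0 (c • v) : Fin (m + 1) → F) = c • Fin.cons 0 v := by
    intro c v
    ext i
    refine Fin.cases ?_ (fun j => ?_) i
    · simp
    · rfl
  refine ⟨{ toFun := fun x => Fin.tail (g (Fin.cons 0 x))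
            map_add' := ?_
            map_smul' := ?_
            invFun := fun x => Fin.tail (g.symm (Fin.cons 0 x))
            left_inv := ?_
            right_inv := ?_ }, ?_⟩
  · intro u v
    rw [cadd, map_add]; rfl
  · intro c v
    rw [csm, map_smul]; rfl
  · intro x
    change Fin.tail (g.symm (Fin.cons 0 (Fin.tail (g (Fin.cons 0 x))))) = x
    rw [← key, g.symm_apply_apply, Fin.tail_cons]
  · intro x
    change Fin.tail (g (Fin.cons 0 (Fin.tail (g.symm (Fin.cons 0 x))))) = x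
    rw [← key', g.apply_symm_apply, Fin.tail_cons]
  · apply LinearEquiv.ext
    intro w
    have hw : w = w 0 • ei 0 + Fin.cons 0 (Fin.tail w) := by
      ext i
      refine Fin.cases ?_ (fun j => ?_) i
      · rw [Pi.add_apply, Pi.smul_apply, ei_self, Fin.cons_zero]; simp
      · rw [Pi.add_apply, Pi.smul_apply, ei_ne (Fin.succ_ne_zero j), Fin.cons_succ]; simp [Fin.tail]
    rw [exf_apply]
    change (Fin.cons (w 0) (Fin.tail (g (Fin.cons 0 (Fin.tail w)))) : Fin (m + 1) → F) = g w
    conv_rhs => rw [hw]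
    rw [map_add, map_smul, h0]
    ext i
    refine Fin.cases ?_ (fun j => ?_) i
    · rw [Fin.cons_zero, Pi.add_apply, Pi.smul_apply, ei_self, hz, Fin.cons_zero]; simp
    · rw [Fin.cons_succ, Pi.add_apply, Pi.smul_apply, ei_ne (Fin.succ_ne_zero j)]; simp [Fin.tail]

end exf

section perms
variable {ι : Type*} [Fintype ι] [DecidableEq ι] {F : Type*} [Field F]

theorem mn_mul' {g h : (ι → F) ≃ₗ[F] (ι → F)} (hg : Mn g) (hh : Mn h) : Mn (g * h) := by
  intro i
  obtain ⟨j, hj⟩ := hh i
  obtain ⟨k, hk⟩ := hg j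
  refine ⟨k, ?_⟩
  change g (h (ei i)) = _ ∨ g (h (ei i)) = _
  rcases hj with hj | hj <;> rcases hk with hk | hk
  · left; rw [hj, hk]
  · right; rw [hj, hk]
  · right; rw [hj, map_neg, hk]
  · left; rw [hj, map_neg, hk, neg_neg]

theorem mn_perm {σ : Perm ι} {g : (ι → F) ≃ₗ[F] (ι → F)} (h : ∀ w : ι → F, g w = w ∘ σ) : Mn g := by
  intro i
  refine ⟨σ.symm i, Or.inl ?_⟩
  rw [h]
  exact ei_comp σ (σ.apply_symm_apply i)

theorem mn_perm' {σ : Perm ι} {g : (ι → F) ≃ₗ[F] (ι → F)} (h : ∀ w : ι → F, g w = w ∘ σ) : Mn g⁻¹ := by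
  intro i
  refine ⟨σ i, Or.inl ?_⟩
  have : g (ei (σ i)) = ei i := by rw [h]; exact ei_comp σ rfl
  rw [← this]
  exact g.symm_apply_apply _

theorem mn_tf (T : Finset ι) : Mn (tf T : (ι → F) ≃ₗ[F] (ι → F)) := by
  intro i
  refine ⟨i, ?_⟩
  rw [tf_ei]
  by_cases h : i ∈ T
  · right; rw [if_pos h]
  · left; rw [if_neg h]

theorem tf_even {X : Subgroup ((ι → F) ≃ₗ[F] (ι → F))} (hflip : ∀ i j, i ≠ j → tf {i, j} ∈ X) (T : Finset ι) (hT : Even T.card) :
    tf T ∈ X := by
  obtain ⟨k, hk⟩ := hT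
  induction k generalizing T with
  | zero =>
    have : T = ∅ := by rw [← Finset.card_eq_zero]; omega
    subst this
    have e : (tf ∅ : (ι → F) ≃ₗ[F] (ι → F)) = 1 := by
      apply LinearEquiv.ext; intro w; ext i
      rw [tf_neg (by simp)]; rfl
    rw [e]; exact one_mem _
  | succ k ih =>
    obtain ⟨T', hT', hTc⟩ := Finset.exists_subset_card_eq (s := T) (n := 2) (by omega)
    obtain ⟨i, j, hij, rfl⟩ := Finset.card_eq_two.1 hTc
    have h1 := ih (T \ {i, j}) (by rw [Finset.card_sdiff_of_subset hT', hTc]; omega)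
    have e : (tf T : (ι → F) ≃ₗ[F] (ι → F)) = tf {i, j} * tf (T \ {i, j}) := by
      apply LinearEquiv.ext; intro w; ext x
      change tf T w x = tf {i, j} (tf (T \ {i, j}) w) x
      rw [tf_apply, tf_apply, tf_apply]
      by_cases hx : x ∈ ({i, j} : Finset ι)
      · rw [if_pos (hT' hx), if_pos hx, if_neg (by simp [hx])]
      · rw [if_neg hx]
        by_cases hxT : x ∈ T
        · rw [if_pos hxT, if_pos (Finset.mem_sdiff.2 ⟨hxT, hx⟩)]
        · rw [if_neg hxT, if_neg (fun h => hxT (Finset.mem_sdiff.1 h).1)]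
    rw [e]; exact mul_mem (hflip i j hij) h1

end perms

variable {F V : Type*} [Field F] [AddCommGroup V] [Module F V] [FiniteDimensional F V]
  {Q : QuadraticForm F V} {m : ℕ} {b : Basis (Fin (m + 1)) F V}

/-- reflections through `tr` -/
theorem tr_refl (h2 : (2 : F) ≠ 0) (hb : ∀ i j, i ≠ j → polar Q (b i) (b j) = 0) {c : F} (hc0 : c ≠ 0) (hc : ∀ i, Q (b i) = c)
    {x : Fin (m + 1) → F} {a : F} (hx : a * (x ⬝ᵥ x) = 2) (ha : a ≠ 0)
    {k : (Fin (m + 1) → F) ≃ₗ[F] (Fin (m + 1) → F)} (hk : ∀ w : Fin (m + 1) → F, k w = w - (a * (x ⬝ᵥ w)) • x) :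
    tr b k = Quad.refl Q (b.equivFun.symm x) := by
  have hxx : x ⬝ᵥ x ≠ 0 := by
    intro h; rw [h, mul_zero] at hx; exact h2 hx.symm
  have hQ0 : Q (b.equivFun.symm x) ≠ 0 := by
    rw [Q_symm h2 hb hc]; exact mul_ne_zero hc0 hxx
  apply LinearEquiv.ext
  intro u
  obtain ⟨w, rfl⟩ := b.equivFun.symm.surjective u
  rw [tr_apply', hk, refl_apply hQ0, Q_symm h2 hb hc, polar_symm hb hc, map_sub, map_smul]
  congr 2
  field_simp
  linear_combination (x ⬝ᵥ w) * hx

theorem refl_notin [Finite F] (hQ : Nd Q) (h2 : (2 : F) ≠ 0) {v : V} (hv : Q v ≠ 0) : Quad.refl Q v ∉ Om Q := by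
  intro h
  have h1 := (hQ.list_mem_Om_iff (genHyp_of_two_ne_zero h2) [v] (by simpa using hv)).1 (by simpa using h)
  have := h1.1
  simp at this

/-- **the stabilizer of an orthonormal frame is maximal**, even dimension -/
theorem lines_max_even [Fintype F] (hQ : Nd Q) (hp : (Fintype.card F).Prime) (h2 : (2 : F) ≠ 0) (hm : 13 ≤ m) (hodd : Odd m)
    (hb : ∀ i j, i ≠ j → polar Q (b i) (b j) = 0) {c : F} (hc0 : c ≠ 0) (hc : ∀ i, Q (b i) = c)
    (M : Subgroup (V ≃ₗ[F] V)) (hM : M ≤ Om Q) (hH : ∀ g ∈ Om Q, Mo b g → g ∈ M) (hex : ∃ g ∈ M, ¬ Mo b g) : Om Q ≤ M := by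
  classical
  have hgen : GenHyp Q := genHyp_of_two_ne_zero h2
  have hfin : finrank F V = m + 1 := by rw [finrank_eq_card_basis b, Fintype.card_fin]
  obtain ⟨X, hX⟩ : ∃ X : Subgroup ((Fin (m + 1) → F) ≃ₗ[F] (Fin (m + 1) → F)), X = M.comap (tr b) := ⟨_, rfl⟩
  have hXM : ∀ g, g ∈ X ↔ tr b g ∈ M := by intro g; rw [hX]; rfl
  have moMn : ∀ g, Mo b (tr b g) ↔ Mn g := by
    intro g
    have key : ∀ i j, (tr b g (b i) = b j ∨ tr b g (b i) = -b j) ↔ (g (ei i) = ei j ∨ g (ei i) = - ei j) := by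
      intro i j
      rw [← symm_ei b i, tr_apply', ← symm_ei b j, ← map_neg, b.equivFun.symm.injective.eq_iff, b.equivFun.symm.injective.eq_iff]
    constructor
    · intro h i
      obtain ⟨j, hj⟩ := h i
      exact ⟨j, (key i j).1 hj⟩
    · intro h i
      obtain ⟨j, hj⟩ := h i
      exact ⟨j, (key i j).2 hj⟩
  have hiso : ∀ h ∈ X, ∀ u v : Fin (m + 1) → F, h u ⬝ᵥ h v = u ⬝ᵥ v := by
    intro h hh u v
    have h3 := O_polar (Om_le (hM ((hXM h).1 hh))) (b.equivFun.symm u) (b.equivFun.symm v)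
    rw [tr_apply', tr_apply', polar_symm hb hc, polar_symm hb hc] at h3
    exact mul_left_cancel₀ (mul_ne_zero h2 hc0) h3
  have hflip : ∀ i j, i ≠ j → tf {i, j} ∈ X := by
    intro i j hij
    rw [hXM]
    apply hH _ _ ((moMn _).2 (mn_tf _))
    have e1 : tr b (tf {i, j}) = Quad.refl Q (b i) * Quad.refl Q (b j) := by
      have k1 : ∀ i : Fin (m + 1), tr b (tf {i}) = Quad.refl Q (b i) := by
        intro i
        rw [← symm_ei b i]
        apply tr_refl h2 hb hc0 hc (a := 2) (by rw [ei_dot, ei_self, mul_one]) h2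
        intro w
        rw [ei_dot]
        ext x
        rw [tf_apply, Pi.sub_apply, Pi.smul_apply, smul_eq_mul]
        by_cases hx : x = i
        · rw [hx, if_pos (by simp), ei_self]; ring
        · rw [if_neg (by simp [hx]), ei_ne hx]; ring
      rw [← k1, ← k1, ← map_mul]
      congr 1
      apply LinearEquiv.ext; intro w; ext x
      change tf {i, j} w x = tf {i} (tf {j} w) x
      rw [tf_apply, tf_apply, tf_apply]
      by_cases hx : x = i
      · subst hx; simp [hij]
      · by_cases hxj : x = j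
        · subst hxj; simp [hx]
        · simp [hx, hxj]
    rw [e1]
    have := (hQ.list_mem_Om_iff hgen [b i, b j] (by
      intro v hv
      simp at hv
      rcases hv with rfl | rfl
      · rw [hc]; exact hc0
      · rw [hc]; exact hc0)).2 ⟨by simp, by simp [hc]⟩
    simpa using this
  have hperm : ∀ σ : Perm (Fin (m + 1)), Perm.sign σ = 1 → ∃ g ∈ X, ∀ w : Fin (m + 1) → F, g w = w ∘ σ := by
    intro σ hσ
    have hw : ∀ w : Fin (m + 1) → F, pm (m + 1) F σ⁻¹ w = w ∘ σ := fun w => by rw [pm_apply, inv_inv]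
    refine ⟨pm (m + 1) F σ⁻¹, ?_, hw⟩
    rw [hXM]
    exact hH _ (pm_mem_Om h2 hb hc (by omega) (by rw [Perm.sign_inv, hσ])) ((moMn _).2 (mn_perm hw))
  by_cases hblk : ∀ g ∈ X, ∀ i j, (g (ei i) = ei j ∨ g (ei i) = - ei j) → Mn g
  · -- the frame is a block
    exfalso
    have S : Sye X := by
      refine ⟨hiso, hflip, hperm, ?_, hblk⟩
      intro h hh r hr hf
      have e1 : tr b h = Quad.refl Q (b.equivFun.symm r) :=
        tr_refl h2 hb hc0 hc (a := 1) (by rw [one_mul, hr]) one_ne_zero (by intro w; rw [hf, one_mul])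
      have h3 := hM ((hXM h).1 hh)
      rw [e1] at h3
      apply refl_notin hQ h2 _ h3
      rw [Q_symm h2 hb hc, hr]
      exact mul_ne_zero hc0 h2
    apply contra S h2 (by rw [Fintype.card_fin]; omega)
    obtain ⟨g, hg, hgm⟩ := hex
    obtain ⟨h, hh⟩ := tr_surj b g
    refine ⟨h, by rw [hXM, hh]; exact hg, fun hmn => hgm ?_⟩
    rw [← hh]
    exact (moMn h).2 hmn
  -- a point stabilizer is not contained in the frame stabilizer
  push Not at hblk
  obtain ⟨g, hg, i, j, hij, hgm⟩ := hblk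
  -- even permutations
  have move : ∀ i : Fin (m + 1), ∃ p ∈ X, Mn p ∧ Mn p⁻¹ ∧ p (ei 0) = ei i := by
    intro i
    by_cases hi : i = 0
    · rw [hi]
      exact ⟨1, one_mem _, fun j => ⟨j, Or.inl rfl⟩, fun j => ⟨j, Or.inl (by rw [inv_one]; rfl)⟩, rfl⟩
    · obtain ⟨k, -, hk⟩ : ∃ k ∈ (Finset.univ : Finset (Fin (m + 1))), k ∉ ({0, i} : Finset (Fin (m + 1))) := by
        apply Finset.exists_mem_notMem_of_card_lt_card
        rw [Finset.card_univ, Fintype.card_fin]
        exact lt_of_le_of_lt Finset.card_le_two (by omega)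
      simp only [Finset.mem_insert, Finset.mem_singleton, not_or] at hk
      obtain ⟨p, hp, hp2⟩ := hperm (Equiv.swap 0 i * Equiv.swap 0 k) (by
        rw [map_mul, Perm.sign_swap (Ne.symm hi), Perm.sign_swap (Ne.symm hk.1)]; rfl)
      refine ⟨p, hp, mn_perm hp2, mn_perm' hp2, ?_⟩
      rw [hp2]
      apply ei_comp
      rw [Perm.mul_apply, Equiv.swap_apply_of_ne_of_ne hi (Ne.symm hk.2), Equiv.swap_apply_right]
  obtain ⟨g', hg', hg0, hgm'⟩ : ∃ g' ∈ X, g' (ei 0) = ei 0 ∧ ¬ Mn g' := by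
    obtain ⟨p, hp, hp1, hp2, hp3⟩ := move i
    obtain ⟨q, hq, hq1, hq2, hq3⟩ := move j
    have hq4 : q⁻¹ (ei j) = ei 0 := by rw [← hq3]; exact q.symm_apply_apply _
    have h0 : (q⁻¹ * g * p) (ei 0) = ei 0 ∨ (q⁻¹ * g * p) (ei 0) = - ei 0 := by
      change q⁻¹ (g (p (ei 0))) = _ ∨ q⁻¹ (g (p (ei 0))) = _
      rw [hp3]
      rcases hij with h | h
      · left; rw [h, hq4]
      · right; rw [h, map_neg, hq4]
    have hX1 : q⁻¹ * g * p ∈ X := mul_mem (mul_mem (inv_mem hq) hg) hp
    have hm1 : ¬ Mn (q⁻¹ * g * p) := by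
      intro h
      apply hgm
      have e : g = q * (q⁻¹ * g * p) * p⁻¹ := by group
      rw [e]
      exact mn_mul' (mn_mul' hq1 h) hp2
    rcases h0 with h | h
    · exact ⟨_, hX1, h, hm1⟩
    · have h01 : (0 : Fin (m + 1)) ≠ 1 := by
        intro h
        have := congrArg Fin.val h
        rw [Fin.val_zero, Fin.val_one'] at this
        rw [Nat.mod_eq_of_lt (by omega)] at this
        omega
      refine ⟨tf {0, 1} * (q⁻¹ * g * p), mul_mem (hflip 0 1 h01) hX1, ?_, ?_⟩
      · change tf {0, 1} ((q⁻¹ * g * p) (ei 0)) = ei 0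
        rw [h, map_neg, tf_ei, if_pos (by simp), neg_neg]
      · intro hcon
        apply hm1
        have e : q⁻¹ * g * p = tf {0, 1} * (tf {0, 1} * (q⁻¹ * g * p)) := by
          rw [← mul_assoc, tf_mul_self, one_mul]
        rw [e]
        exact mn_mul' (mn_tf _) hcon
  -- the system in odd dimension
  obtain ⟨X', hX'⟩ : ∃ X' : Subgroup ((Fin m → F) ≃ₗ[F] (Fin m → F)), X' = Rf.pmX (X.comap (exf m F)) := ⟨_, rfl⟩
  have mem' : ∀ x, x ∈ X' ↔ (exf m F x ∈ X ∨ exf m F ((LinearEquiv.neg F : (Fin m → F) ≃ₗ[F] (Fin m → F)) * x) ∈ X) := by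
    intro x; rw [hX']; rfl
  have hexf_iso : ∀ x, (∀ u v, exf m F x u ⬝ᵥ exf m F x v = u ⬝ᵥ v) → ∀ u v : Fin m → F, x u ⬝ᵥ x v = u ⬝ᵥ v := by
    intro x h u v
    have h3 := h (Fin.cons 0 u) (Fin.cons 0 v)
    rw [exf_cons, exf_cons, cons_dot, cons_dot] at h3
    simpa using h3
  have S' : Sys X' := by
    refine ⟨?_, ?_, ?_⟩
    · intro h hh u v
      rcases (mem' h).1 hh with h3 | h3
      · exact hexf_iso h (hiso _ h3) u v
      · have h4 := hexf_iso _ (hiso _ h3) u v
        change (-(h u)) ⬝ᵥ (-(h v)) = _ at h4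
        rwa [neg_dotProduct_neg] at h4
    · intro i
      refine ⟨tf {i}, ?_, ?_⟩
      · rw [mem']
        right
        have e : exf m F ((LinearEquiv.neg F : (Fin m → F) ≃ₗ[F] (Fin m → F)) * tf {i}) = tf ({0, i.succ}ᶜ) := by
          apply LinearEquiv.ext; intro w; ext x
          rw [tf_apply, exf_apply]
          refine Fin.cases ?_ (fun k => ?_) x
          · rw [Fin.cons_zero, if_neg (by simp)]
          · rw [Fin.cons_succ]
            change -(tf {i} (Fin.tail w) k) = _
            rw [tf_apply]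
            by_cases hk : k = i
            · subst hk
              rw [if_pos (by simp), if_neg (by simp), neg_neg]; rfl
            · rw [if_neg (by simp [hk]), if_pos]
              · rfl
              · simp only [Finset.mem_compl, Finset.mem_insert, Finset.mem_singleton, not_or]
                exact ⟨Fin.succ_ne_zero k, fun h => hk (Fin.succ_injective _ h)⟩
        rw [e]
        apply tf_even hflip
        rw [Finset.card_compl, Fintype.card_fin, Finset.card_pair (Fin.succ_ne_zero i).symm]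
        obtain ⟨r, hr⟩ := hodd
        exact ⟨r, by omega⟩
      · intro w
        ext x
        rw [tf_apply, Pi.add_apply, Pi.smul_apply, smul_eq_mul]
        by_cases hx : x = i
        · rw [hx, if_pos (by simp), ei_self]; ring
        · rw [if_neg (by simp [hx]), ei_ne hx]; ring
    · intro σ hσ
      obtain ⟨g, hg, hg2⟩ := hperm (Equiv.Perm.decomposeFin.symm (0, σ)) (by
        rw [Equiv.Perm.decomposeFin.symm_sign, if_pos rfl, hσ, mul_one])
      have hw : ∀ w : Fin m → F, pm m F σ⁻¹ w = w ∘ σ := fun w => by rw [pm_apply, inv_inv]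
      refine ⟨pm m F σ⁻¹, ?_, hw⟩
      rw [mem']
      left
      have e : exf m F (pm m F σ⁻¹) = g := by
        apply LinearEquiv.ext; intro w; ext x
        rw [hg2, exf_apply, hw]
        refine Fin.cases ?_ (fun k => ?_) x
        · rw [Fin.cons_zero, Function.comp_apply, Equiv.Perm.decomposeFin_symm_apply_zero]
        · rw [Fin.cons_succ, Function.comp_apply, Function.comp_apply, Equiv.Perm.decomposeFin_symm_apply_succ, Equiv.swap_self]
          rfl
      rw [e]; exact hg
  have hmon : ∃ h ∈ X', ∃ i : Fin m, ∀ j, h (ei i) ≠ ei j ∧ h (ei i) ≠ -ei j := by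
    obtain ⟨x, hx⟩ := exists_exf (hiso _ hg') hg0
    refine ⟨x, (mem' x).2 (Or.inl (by rw [hx]; exact hg')), ?_⟩
    by_contra hcon
    push Not at hcon
    apply hgm'
    intro i
    refine Fin.cases ?_ (fun k => ?_) i
    · exact ⟨0, Or.inl hg0⟩
    · obtain ⟨j, hj⟩ := hcon k
      refine ⟨j.succ, ?_⟩
      rw [← hx, ei_succ, ei_succ, exf_cons]
      by_cases h3 : x (ei k) = ei j
      · left; rw [h3]
      · right
        rw [hj h3]
        ext y
        refine Fin.cases ?_ (fun l => ?_) y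
        · simp
        · rfl
  have hmain := Rf.main S' hp h2 (by rw [Fintype.card_fin]; omega) hmon
  -- the hyperplane
  have htop : NDs Q (⊤ : Submodule F V) := by
    rw [NDs, eq_bot_iff]
    rintro x ⟨-, hx⟩
    rw [Submodule.mem_bot]
    apply hQ.eq_zero
    intro y
    rw [polar_comm]
    exact mem_perp.1 hx y trivial
  obtain ⟨H, hHe⟩ : ∃ H : Submodule F V, H = ⊤ ⊓ perp Q (F ∙ (b 0)) := ⟨_, rfl⟩
  have hHnd : NDs Q H := by rw [hHe]; exact nds_cut1 hQ h2 htop trivial (by rw [hc]; exact hc0)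
  have hHd : 5 ≤ finrank F H := by
    have := finrank_cut1 hQ (A := (⊤ : Submodule F V)) (a := b 0)
    rw [finrank_top, hfin] at this
    rw [hHe]; omega
  have hHm : ∀ x, x ∈ H ↔ polar Q (b 0) x = 0 := by
    intro x
    rw [hHe, mem_cut1]
    exact ⟨fun h => h.2, fun h => ⟨trivial, h⟩⟩
  have hrefl : ∀ v ∈ H, Q v = c → Quad.refl Q v ∈ X'.map ((tr b).comp (exf m F)) := by
    intro v hvH hv
    obtain ⟨w, rfl⟩ := b.equivFun.symm.surjective v
    rw [hHm, ← symm_ei b 0, polar_symm hb hc, ei_dot] at hvH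
    have hw0 : w 0 = 0 := (mul_eq_zero.1 hvH).resolve_left (mul_ne_zero h2 hc0)
    rw [Q_symm h2 hb hc] at hv
    have hww : w ⬝ᵥ w = 1 := by
      apply mul_left_cancel₀ hc0
      rw [hv, mul_one]
    have hwc : w = Fin.cons 0 (Fin.tail w) := by
      ext i
      refine Fin.cases ?_ (fun k => ?_) i
      · rw [hw0]; rfl
      · rfl
    have htt : Fin.tail w ⬝ᵥ Fin.tail w = 1 := by
      rw [hwc, cons_dot] at hww
      simpa using hww
    obtain ⟨k, hk, hk2⟩ := Rf.refl_mem S' (hmain _ htt)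
    refine ⟨k, hk, ?_⟩
    change tr b (exf m F k) = _
    apply tr_refl h2 hb hc0 hc (a := 2) (by rw [hww, mul_one]) h2
    intro u
    have hwu : w ⬝ᵥ u = Fin.tail w ⬝ᵥ Fin.tail u := by
      have hu : u = Fin.cons (u 0) (Fin.tail u) := (Fin.cons_self_tail u).symm
      conv_lhs => rw [hwc, hu]
      rw [cons_dot]; simp
    rw [exf_apply, hk2, hwu]
    ext i
    refine Fin.cases ?_ (fun l => ?_) i
    · rw [Fin.cons_zero, Pi.sub_apply, Pi.smul_apply, hw0]; simp
    · rw [Fin.cons_succ, Pi.add_apply, Pi.sub_apply, Pi.smul_apply, Pi.smul_apply]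
      simp only [Fin.tail, smul_eq_mul]
      ring
  -- minus one on the hyperplane
  have hneg : tr b (exf m F (LinearEquiv.neg F : (Fin m → F) ≃ₗ[F] (Fin m → F))) ∉ Om Q := by
    have e : tr b (exf m F (LinearEquiv.neg F : (Fin m → F) ≃ₗ[F] (Fin m → F))) = (LinearEquiv.neg F : V ≃ₗ[F] V) * Quad.refl Q (b 0) := by
      apply b.ext'
      intro i
      change _ = -(Quad.refl Q (b 0) (b i))
      rw [← symm_ei b i, tr_apply']
      refine Fin.cases ?_ (fun k => ?_) i
      · rw [symm_ei, refl_self (by rw [hc]; exact hc0), neg_neg, exf_apply]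
        have : (Fin.cons ((ei 0 : Fin (m + 1) → F) 0) ((LinearEquiv.neg F : (Fin m → F) ≃ₗ[F] (Fin m → F)) (Fin.tail (ei 0))) : Fin (m + 1) → F) = ei 0 := by
          ext j
          refine Fin.cases ?_ (fun l => ?_) j
          · rw [Fin.cons_zero]
          · rw [Fin.cons_succ]
            change -((ei 0 : Fin (m + 1) → F) l.succ) = _
            rw [ei_ne (Fin.succ_ne_zero l), neg_zero]
        rw [this, symm_ei]
      · rw [symm_ei, refl_of_perp (hb 0 k.succ (Fin.succ_ne_zero k).symm), ei_succ, exf_cons]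
        have : (Fin.cons 0 ((LinearEquiv.neg F : (Fin m → F) ≃ₗ[F] (Fin m → F)) (ei k)) : Fin (m + 1) → F) = - ei k.succ := by
          rw [ei_succ]
          ext j
          refine Fin.cases ?_ (fun l => ?_) j
          · simp
          · rfl
        rw [this, map_neg, symm_ei]
    rw [e, ← neg_eq_list b hb (fun i => by rw [hc]; exact hc0)]
    have h1 : ((List.ofFn b).map (Quad.refl Q)).prod * Quad.refl Q (b 0) = ((List.ofFn b ++ [b 0]).map (Quad.refl Q)).prod := by
      rw [List.map_append, List.prod_append]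
      simp
    rw [h1, hQ.list_mem_Om_iff hgen]
    · rintro ⟨h3, -⟩
      rw [List.length_append, List.length_ofFn] at h3
      simp only [List.length_singleton] at h3
      obtain ⟨r, hr⟩ := hodd
      obtain ⟨s, hs⟩ := h3
      omega
    · intro v hv
      rw [List.mem_append] at hv
      rcases hv with hv | hv
      · obtain ⟨j, rfl⟩ := (List.mem_ofFn' b v).1 hv
        rw [hc]; exact hc0
      · rw [List.mem_singleton] at hv
        rw [hv, hc]; exact hc0
  apply point_max' hQ hgen (by rw [hfin]; omega) (hM.trans Om_le) (v := b 0) (b.ne_zero 0)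
  · intro z y hz hzy hzv hyv
    obtain ⟨g, hg, hgx⟩ := SI_of_refl_in hQ h2 hHnd hHd hc0 _ hrefl ((hHm z).2 (by rw [polar_comm]; exact hzv))
      ((hHm y).2 (by rw [polar_comm]; exact hyv)) hz hzy
    obtain ⟨x, hx, rfl⟩ := hg
    rcases (mem' x).1 hx with h3 | h3
    · exact ⟨_, (hXM _).1 h3, hgx⟩
    · exfalso
      apply hneg
      have hgOm : tr b (exf m F x) ∈ Om Q := by
        have : sieg hQ hz hzy = tr b (exf m F x) := by
          apply LinearEquiv.ext
          intro w
          rw [sieg_apply]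
          have := hgx w
          rw [siegMap_apply] at this
          exact this.symm
        rw [← this]
        exact SI_Om hQ hgen hz hzy
      have h4 := mul_mem (hM ((hXM _).1 h3)) (inv_mem hgOm)
      rw [map_mul, map_mul, mul_inv_cancel_right] at h4
      exact h4
  · have h01 : (1 : Fin (m + 1)) ≠ 0 := by
      intro h
      have := congrArg Fin.val h
      rw [Fin.val_zero, Fin.val_one'] at this
      rw [Nat.mod_eq_of_lt (by omega)] at this
      omega
    obtain ⟨p, hp, -, -, hp3⟩ := move 1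
    refine ⟨tr b p, (hXM p).1 hp, ?_⟩
    rw [← symm_ei b 0, tr_apply', hp3, symm_ei, symm_ei, Submodule.mem_span_singleton]
    rintro ⟨l, hl⟩
    have h3 := hb 0 1 h01.symm
    have h5 : l ≠ 0 := by
      rintro rfl
      rw [zero_smul] at hl
      exact b.ne_zero 1 hl.symm
    rw [← hl, polar_smul_right, polar_self', hc] at h3
    exact smul_ne_zero h5 (mul_ne_zero h2 hc0) h3

end Cfsg.Agent.Lib.Rfe
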