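import Mathlib
import Cfsg.Agent.Lib.Rfe8

set_option autoImplicit false
set_option linter.unusedSectionVars false
set_option linter.unusedSimpArgs false
set_option linter.unusedVariables false

/-!
# Stabilizers of decompositions into lines over prime fields, even dimension (helper14)
-/

namespace Cfsg.Agent.Lib.Rfe

open Cfsg Cfsg.Geo QuadraticMap Module Cfsg.Agent.Lib.Quad Cfsg.Agent.Lib.GeoBridge
open Cfsg.Agent.Lib.OrthMax Cfsg.Agent.Lib.OrthNd Cfsg.Agent.Lib.OrthDecH94 Cfsg.Agent.Lib.OrthBridge Cfsg.Agent.Lib.OrthNdBridge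
open Cfsg.Agent.Lib.Rf (Mo)
open Equiv (Perm)
open scoped Matrix

variable {ι : Type} [Fintype ι] [DecidableEq ι] {F : Type*} [Field F] [Fintype F]

theorem lines_bridge_even {Q : QuadraticForm F (ι → F)} (hQ : Nd Q) (hp : (Fintype.card F).Prime) (h2 : (2 : F) ≠ 0)
    (hn : 13 ≤ finrank F (ι → F)) (heven : Even (finrank F (ι → F))) {t : ℕ} {D : Fin t → Submodule F (ι → F)}
    (hD : IsOrthogonalMDecomposition ⇑Q 1 D) : IsMaximalIn (omegaGL ⇑Q) (decompositionStabilizer D ⊓ omegaGL ⇑Q) := by
  classical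
  have ht : finrank F (ι → F) = t := by
    rw [Cfsg.Agent.Lib.OrthFrameH94.card_decomp hD.decomp.decomp, mul_one]
  rw [ht] at hn heven
  obtain ⟨m, rfl⟩ : ∃ m, t = m + 1 := ⟨t - 1, by omega⟩
  obtain ⟨i0, -⟩ : ∃ i : Fin (m + 1), i.1 = 0 := ⟨⟨0, by omega⟩, rfl⟩
  have hfr := hD.decomp.decomp.finrank_eq
  obtain ⟨x0, hx0, hQx0⟩ := exists_nonsing (nds_of_nondeg (hD.decomp.nondegenerate i0)) (by rw [hfr])
  obtain ⟨c, hc⟩ : ∃ c, c = Q x0 := ⟨_, rfl⟩
  have hc0 : c ≠ 0 := by rw [hc]; exact hQx0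
  have hex : ∀ i, ∃ e ∈ D i, Q e = c := by
    intro i
    obtain ⟨e, he⟩ := hD.isometric i0 i
    exact ⟨e ⟨x0, hx0⟩, (e ⟨x0, hx0⟩).2, by rw [he, hc]⟩
  choose e heD heQ using hex
  have he0 : ∀ i, e i ≠ 0 := by
    intro i h
    have := heQ i
    rw [h, QuadraticMap.map_zero] at this
    exact hc0 this.symm
  have horth : ∀ i j, i ≠ j → polar Q (e i) (e j) = 0 := fun i j hij => hD.decomp.orthogonal i j hij _ (heD i) _ (heD j)
  have hspan : ∀ i, ∀ x ∈ D i, ∃ l : F, x = l • e i := by
    intro i x hx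
    obtain ⟨l, hl⟩ := (finrank_eq_one_iff_of_nonzero' (⟨e i, heD i⟩ : D i) (by
      intro h; exact he0 i (congrArg Subtype.val h))).1 (hfr i) ⟨x, hx⟩
    exact ⟨l, (congrArg Subtype.val hl).symm⟩
  have hLI : LinearIndependent F e := by
    rw [linearIndependent_iff']
    intro s g hg i hi
    have h3 : (polarBilin Q) (∑ j ∈ s, g j • e j) (e i) = 0 := by rw [hg, map_zero]; rfl
    rw [map_sum, LinearMap.sum_apply, Finset.sum_eq_single i] at h3
    · rw [map_smul, LinearMap.smul_apply, polarBilin_apply_apply, polar_self', heQ] at h3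
      exact (smul_eq_zero.1 h3).resolve_right (mul_ne_zero h2 hc0)
    · intro j _ hj
      rw [map_smul, LinearMap.smul_apply, polarBilin_apply_apply, horth j i hj, smul_zero]
    · intro h; exact absurd hi h
  obtain ⟨b, hbe⟩ : ∃ b : Basis (Fin (m + 1)) F (ι → F), ∀ i, b i = e i := by
    have : Nonempty (Fin (m + 1)) := ⟨i0⟩
    exact ⟨basisOfLinearIndependentOfCardEqFinrank hLI (by rw [Fintype.card_fin, ht]), fun i => by simp⟩
  have hb : ∀ i j, i ≠ j → polar Q (b i) (b j) = 0 := by
    intro i j hij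
    rw [hbe, hbe]
    exact horth i j hij
  have hbc : ∀ i, Q (b i) = c := fun i => by rw [hbe]; exact heQ i
  have hPM : ∀ g ∈ O Q, (∃ σ : Perm (Fin (m + 1)), ∀ i, (D i).map (g : (ι → F) →ₗ[F] (ι → F)) = D (σ i)) ↔ Mo b g := by
    intro g hg
    constructor
    · rintro ⟨σ, hσ⟩ i
      have h3 : g (b i) ∈ D (σ i) := by
        rw [← hσ i]
        exact ⟨b i, by rw [hbe]; exact heD i, rfl⟩
      obtain ⟨l, hl⟩ := hspan _ _ h3
      have h4 : l * l * c = c := by
        have := hg (b i)
        rw [hl, Q_smul, heQ, hbc] at this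
        exact this
      have h5 : (l - 1) * (l + 1) = 0 := by
        apply mul_right_cancel₀ hc0
        linear_combination h4
      refine ⟨σ i, ?_⟩
      rcases mul_eq_zero.1 h5 with h6 | h6
      · left; rw [hl, sub_eq_zero.1 h6, one_smul, hbe]
      · right; rw [hl, eq_neg_of_add_eq_zero_left h6, neg_one_smul, hbe]
    · intro hM
      choose f hf using hM
      have hinj : Function.Injective f := by
        intro i j hij
        have key : b i = b j ∨ b i = -b j := by
          have h3 := hf i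
          have h4 := hf j
          rw [← hij] at h4
          rcases h3 with h3 | h3 <;> rcases h4 with h4 | h4
          · left; apply g.injective; rw [h3, h4]
          · right; apply g.injective; rw [map_neg, h3, h4, neg_neg]
          · right; apply g.injective; rw [map_neg, h3, h4]
          · left; apply g.injective; rw [h3, h4]
        by_contra hne
        have h3 := hb i j hne
        rcases key with h4 | h4
        · rw [h4, polar_self', hbc] at h3
          exact mul_ne_zero h2 hc0 h3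
        · rw [h4, polar_neg_left, polar_self', hbc] at h3
          exact mul_ne_zero h2 hc0 (neg_eq_zero.1 h3)
      refine ⟨Equiv.ofBijective f (Finite.injective_iff_bijective.1 hinj), fun i => ?_⟩
      have h3 : (D i).map (g : (ι → F) →ₗ[F] (ι → F)) ≤ D (f i) := by
        rintro _ ⟨x, hx, rfl⟩
        obtain ⟨l, rfl⟩ := hspan i x hx
        change g (l • e i) ∈ D (f i)
        rw [map_smul, ← hbe]
        apply Submodule.smul_mem
        rcases hf i with h4 | h4
        · rw [h4, hbe]; exact heD _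
        · rw [h4, hbe]; exact Submodule.neg_mem _ (heD _)
      apply Submodule.eq_of_le_of_finrank_eq h3
      rw [LinearEquiv.finrank_map_eq g (D i), hfr, hfr]
  refine Om_max_of (P := fun g => ∃ σ : Perm (Fin (m + 1)), ∀ i, (D i).map (g : (ι → F) →ₗ[F] (ι → F)) = D (σ i))
    (fun g => mem_decompositionStabilizer_iff D g) ?_ ?_
  · obtain ⟨g, hg, hgM⟩ := Rf.exists_not_mono hQ h2 (by omega) hb hc0 hbc
    exact ⟨g, hg, fun h => hgM ((hPM g (Om_le hg)).1 h)⟩
  · intro M hM hH ⟨g, hg, hgP⟩
    exact lines_max_even hQ hp h2 (by obtain ⟨k, hk⟩ := heven; omega) (by obtain ⟨k, hk⟩ := heven; exact ⟨k - 1, by omega⟩) hb hc0 hbc M hM (fun g hg hm => hH g hg ((hPM g (Om_le hg)).2 hm))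
      ⟨g, hg, fun h => hgP ((hPM g (Om_le (hM hg))).2 h)⟩


end Cfsg.Agent.Lib.Rfe
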