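import Mathlib
import Cfsg.Agent.Lib.Rfe3

set_option autoImplicit false
set_option linter.unusedSectionVars false
set_option linter.unusedSimpArgs false
set_option linter.unusedVariables false

/-!
# Overgroups of the even monomial group, dimension at least 10: two sign changes with a product of even order
-/

namespace Cfsg.Agent.Lib.RfnH94

open Matrix
open Equiv (Perm)
open Cfsg.Agent.Lib.Rf (ei)
open Cfsg.Agent.Lib.Rfe

section group
variable {G : Type*} [Group G]

/-- dihedral groups of even order have a central involution -/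
theorem dih_even {t s : G} (ht : t * t = 1) (hs : s * s = 1) (hfin : IsOfFinOrder (t * s))
    (hodd : ∀ N : ℕ, (t * s) ^ (2 * N + 1) ≠ 1) :
    ∃ y ∈ Subgroup.closure ({t, s} : Set G), y ≠ 1 ∧ y * y = 1 ∧ y * t = t * y ∧ y * s = s * y := by
  have htm : t ∈ Subgroup.closure ({t, s} : Set G) := Subgroup.subset_closure (by simp)
  have hsm : s ∈ Subgroup.closure ({t, s} : Set G) := Subgroup.subset_closure (by simp)
  obtain ⟨c, hc⟩ : ∃ c, c = t * s := ⟨_, rfl⟩
  have hcm : c ∈ Subgroup.closure ({t, s} : Set G) := by rw [hc]; exact mul_mem htm hsm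
  have hti : t⁻¹ = t := inv_eq_of_mul_eq_one_left ht
  have hsi : s⁻¹ = s := inv_eq_of_mul_eq_one_left hs
  have hcinv : c⁻¹ = s * t := by rw [hc, _root_.mul_inv_rev, hti, hsi]
  have htc : t * c * t⁻¹ = c⁻¹ := by rw [hcinv, hc, hti, ← mul_assoc, ht, one_mul]
  have htk : ∀ k : ℕ, t * c ^ k * t⁻¹ = (c ^ k)⁻¹ := by
    intro k
    rw [← conj_pow, htc, inv_pow]
  have hs' : s = t * c := by rw [hc, ← mul_assoc, ht, one_mul]
  rw [← hc] at hfin hodd
  have hpos := hfin.orderOf_pos
  rcases Nat.even_or_odd (orderOf c) with he | ho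
  swap
  · exfalso
    obtain ⟨m, hm⟩ := ho
    exact hodd m (by rw [← hm, pow_orderOf_eq_one])
  obtain ⟨m, hm⟩ := he
  have h3 : (c ^ m)⁻¹ = c ^ m := by
    apply inv_eq_of_mul_eq_one_left
    rw [← pow_add, ← hm, pow_orderOf_eq_one]
  have h1 := htk m
  rw [h3, mul_inv_eq_iff_eq_mul] at h1
  refine ⟨c ^ m, pow_mem hcm m, ?_, ?_, h1.symm, ?_⟩
  · intro h
    have := orderOf_dvd_of_pow_eq_one h
    have := Nat.le_of_dvd (by omega) this
    omega
  · rw [← pow_add, ← hm, pow_orderOf_eq_one]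
  · rw [hs', ← mul_assoc, ← h1, mul_assoc, mul_assoc, ← pow_succ, ← pow_succ']

/-- dihedral groups of odd order -/
theorem dih_odd {t s : G} (ht : t * t = 1) (hs : s * s = 1) {m : ℕ} (hodd : (t * s) ^ (2 * m + 1) = 1) :
    ∃ r v, v ∈ Subgroup.closure ({t, s} : Set G) ∧ r = v * t * v⁻¹ ∧ r * r = 1 ∧ r * t * r = s := by
  have htm : t ∈ Subgroup.closure ({t, s} : Set G) := Subgroup.subset_closure (by simp)
  have hsm : s ∈ Subgroup.closure ({t, s} : Set G) := Subgroup.subset_closure (by simp)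
  obtain ⟨c, hc⟩ : ∃ c, c = t * s := ⟨_, rfl⟩
  have hcm : c ∈ Subgroup.closure ({t, s} : Set G) := by rw [hc]; exact mul_mem htm hsm
  have hti : t⁻¹ = t := inv_eq_of_mul_eq_one_left ht
  have hsi : s⁻¹ = s := inv_eq_of_mul_eq_one_left hs
  have hcinv : c⁻¹ = s * t := by rw [hc, _root_.mul_inv_rev, hti, hsi]
  have htc : t * c * t⁻¹ = c⁻¹ := by rw [hcinv, hc, hti, ← mul_assoc, ht, one_mul]
  have htk : ∀ k : ℕ, t * c ^ k * t⁻¹ = (c ^ k)⁻¹ := by
    intro k
    rw [← conj_pow, htc, inv_pow]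
  -- `t * (c ^ k)⁻¹ = c ^ k * t`
  have htk2 : ∀ k : ℕ, t * (c ^ k)⁻¹ = c ^ k * t := by
    intro k
    rw [← htk k, hti, ← mul_assoc, ← mul_assoc, ht, one_mul]
  have htk3 : ∀ k : ℕ, t * c ^ k = (c ^ k)⁻¹ * t := by
    intro k
    have := htk k
    rw [mul_inv_eq_iff_eq_mul] at this
    exact this
  rw [← hc] at hodd
  obtain ⟨k, hk⟩ : ∃ k : ℕ, c ^ (2 * k) = c ^ m := by
    rcases Nat.even_or_odd m with ⟨j, hj⟩ | ⟨j, hj⟩
    · exact ⟨j, by rw [hj]; congr 1; omega⟩
    · refine ⟨3 * j + 2, ?_⟩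
      rw [show 2 * (3 * j + 2) = (2 * m + 1) + m by omega, pow_add, hodd, one_mul]
  refine ⟨c ^ m * t, c ^ k, pow_mem hcm k, ?_, ?_, ?_⟩
  · rw [mul_assoc, htk2, ← mul_assoc, ← pow_add, ← two_mul, hk]
  · rw [mul_assoc, ← mul_assoc t, htk3, mul_assoc, ht, mul_one, mul_inv_cancel]
  · have h1 : c ^ m * t * t * (c ^ m * t) = c ^ (m + m) * t := by
      rw [mul_assoc (c ^ m), ht, mul_one, ← mul_assoc, ← pow_add]
    rw [h1]
    have h2 : c ^ (m + m) = c⁻¹ := by
      apply eq_inv_of_mul_eq_one_left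
      rw [← pow_succ, show m + m + 1 = 2 * m + 1 by omega, hodd]
    rw [h2, hcinv, mul_assoc, ht, mul_one]

/-- equal squares of odd order -/
theorem eq_of_sq {a b : G} {m n : ℕ} (ha : a ^ (2 * m + 1) = 1) (hb : b ^ (2 * n + 1) = 1) (h : a * a = b * b) : a = b := by
  have h1 : a ^ ((2 * m + 1) * (2 * n + 1)) = 1 := by rw [pow_mul, ha, one_pow]
  have h2 : b ^ ((2 * m + 1) * (2 * n + 1)) = 1 := by rw [mul_comm, pow_mul, hb, one_pow]
  have e : (2 * m + 1) * (2 * n + 1) + 1 = 2 * (2 * m * n + m + n + 1) := by ring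
  have h3 : a ^ (2 * (2 * m * n + m + n + 1)) = a := by rw [← e, pow_succ, h1, one_mul]
  have h4 : b ^ (2 * (2 * m * n + m + n + 1)) = b := by rw [← e, pow_succ, h2, one_mul]
  rw [← h3, ← h4, pow_mul, pow_mul, sq, sq, h]

end group

variable {ι : Type*} [Fintype ι] [DecidableEq ι] {F : Type*} [Field F]
variable {X : Subgroup ((ι → F) ≃ₗ[F] (ι → F))}

theorem sp_half (h2 : (2 : F) ≠ 0) {y : (ι → F) ≃ₗ[F] (ι → F)} {π : ι → ι} (hπ : ∀ i, y (ei i) = ei (π i) ∨ y (ei i) = -ei (π i))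
    {W : Submodule F (ι → F)} (hW : ∀ v, y v - v ∈ W) {φ : ι → ℕ} (hφ : Function.Injective φ) :
    ((sp y).filter (fun i => φ i ≤ φ (π i))).card ≤ Module.finrank F W := by
  classical
  obtain ⟨O, hO⟩ : ∃ O : Finset ι, O = (sp y).filter (fun i => φ i ≤ φ (π i)) := ⟨_, rfl⟩
  rw [← hO]
  have hOm : ∀ x ∈ O, y (ei x) ≠ ei x ∧ φ x ≤ φ (π x) := by
    intro x hx
    rw [hO, Finset.mem_filter, mem_sp] at hx
    exact hx
  have hLI : LinearIndependent F (fun i : O => (⟨y (ei i.1) - ei i.1, hW (ei i.1)⟩ : W)) := by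
    rw [Fintype.linearIndependent_iff]
    intro c hc
    have main : ∀ N : ℕ, ∀ i : O, φ i.1 = N → c i = 0 := by
      intro N
      induction N using Nat.strong_induction_on with
      | _ N ih =>
      intro i hiN
      have h5 := congrArg (fun w : W => w.1 i.1) hc
      simp only [Submodule.coe_sum, Submodule.coe_smul, ZeroMemClass.coe_zero, Pi.zero_apply, Finset.sum_apply,
        Pi.smul_apply, Pi.sub_apply, smul_eq_mul] at h5
      rw [Finset.sum_eq_single i] at h5
      · apply (mul_eq_zero.1 h5).resolve_right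
        have hi := hOm _ i.2
        rw [ei_self]
        intro h6
        rcases hπ i.1 with h7 | h7
        · rw [h7] at h6
          by_cases h8 : i.1 = π i.1
          · exact hi.1 (by rw [h7, ← h8])
          · rw [ei_ne h8] at h6; simp at h6
        · rw [h7, Pi.neg_apply] at h6
          by_cases h8 : i.1 = π i.1
          · rw [← h8, ei_self] at h6
            exact h2 (by linear_combination -h6)
          · rw [ei_ne h8] at h6; simp at h6
      · intro j _ hj
        have hj2 := hOm _ j.2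
        have hij : i.1 ≠ j.1 := fun h => hj (Subtype.ext h.symm)
        by_cases h8 : i.1 = π j.1
        · have h9 : φ j.1 < φ i.1 := by
            have h10 := hj2.2
            rw [← h8] at h10
            exact lt_of_le_of_ne h10 (fun h => hij (hφ h).symm)
          rw [ih (φ j.1) (by omega) j rfl, zero_mul]
        · rw [ei_ne hij]
          rcases hπ j.1 with h7 | h7
          · rw [h7, ei_ne h8]; simp
          · rw [h7, Pi.neg_apply, ei_ne h8]; simp
      · intro h; exact absurd (Finset.mem_univ _) h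
    exact fun i => main _ i rfl
  have h5 := hLI.fintype_card_le_finrank
  rwa [Fintype.card_coe] at h5

/-- the support of a monomial map -/
theorem sp_card' (h2 : (2 : F) ≠ 0) {y : (ι → F) ≃ₗ[F] (ι → F)} (hm : Mn y) {W : Submodule F (ι → F)}
    (hW : ∀ v, y v - v ∈ W) : (sp y).card ≤ 2 * Module.finrank F W := by
  classical
  choose π hπ using hm
  obtain ⟨φ, hφ, hφn⟩ : ∃ φ : ι → ℕ, Function.Injective φ ∧ ∀ i, φ i < Fintype.card ι :=
    ⟨fun i => (Fintype.equivFin ι i).1, fun i j h => (Fintype.equivFin ι).injective (Fin.ext h), fun i => (Fintype.equivFin ι i).2⟩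
  have hφ' : Function.Injective (fun i => Fintype.card ι - φ i) := by
    intro i j hij
    apply hφ
    have := hφn i
    have := hφn j
    simp only at hij
    omega
  have h3 := sp_half h2 hπ hW hφ
  have h4 := sp_half h2 hπ hW hφ'
  have h5 : sp y ⊆ (sp y).filter (fun i => φ i ≤ φ (π i)) ∪
      (sp y).filter (fun i => Fintype.card ι - φ i ≤ Fintype.card ι - φ (π i)) := by
    intro x hx
    rw [Finset.mem_union, Finset.mem_filter, Finset.mem_filter]
    rcases le_total (φ x) (φ (π x)) with h | h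
    · exact Or.inl ⟨hx, h⟩
    · exact Or.inr ⟨hx, by omega⟩
  have h6 := Finset.card_le_card h5
  have h7 := Finset.card_union_le ((sp y).filter (fun i => φ i ≤ φ (π i)))
    ((sp y).filter (fun i => Fintype.card ι - φ i ≤ Fintype.card ι - φ (π i)))
  omega

/-- commuting with a sign change -/
theorem comm_tf_ {z : (ι → F) ≃ₗ[F] (ι → F)} {T : Finset ι} (hz1 : ∀ i ∈ T, ∀ x ∉ T, z (ei i) x = 0)
    (hz2 : ∀ i ∉ T, ∀ x ∈ T, z (ei i) x = 0) : z * tf T = tf T * z := by
  apply ext_ei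
  intro i
  change z (tf T (ei i)) = tf T (z (ei i))
  rw [tf_ei]
  ext x
  rw [tf_apply]
  by_cases hi : i ∈ T
  · rw [if_pos hi, map_neg, Pi.neg_apply]
    by_cases hx : x ∈ T
    · rw [if_pos hx]
    · rw [if_neg hx, hz1 i hi x hx, neg_zero]
  · rw [if_neg hi]
    by_cases hx : x ∈ T
    · rw [if_pos hx, hz2 i hi x hx, neg_zero]
    · rw [if_neg hx]

section
variable (S : Sye X) (h2 : (2 : F) ≠ 0)
include S h2

/-- two sign changes with a product of even order -/
theorem exists_even [Finite F] (hn : 10 ≤ Fintype.card ι) (hex : ∃ g ∈ X, ¬ Mn g) :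
    ∃ v ∈ X, ¬ Mn v ∧ ∃ a b k l : ι, a ≠ b ∧ k ≠ l ∧ ∀ N : ℕ, (tf {a, b} * (v * tf {k, l} * v⁻¹)) ^ (2 * N + 1) ≠ 1 := by
  by_contra hcon
  push Not at hcon
  obtain ⟨g, hg, hgm⟩ := hex
  obtain ⟨T, hT, hTc⟩ := Finset.exists_subset_card_eq (s := (Finset.univ : Finset ι)) (n := 3) (by rw [Finset.card_univ]; omega)
  obtain ⟨a, b, c, hab, hac, hbc, rfl⟩ := Finset.card_eq_three.1 hTc
  -- conjugates of a sign change
  have sq' : ∀ (v : (ι → F) ≃ₗ[F] (ι → F)) (k l : ι), (v * tf {k, l} * v⁻¹) * (v * tf {k, l} * v⁻¹) = 1 := by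
    intro v k l
    have : v * tf {k, l} * v⁻¹ * (v * tf {k, l} * v⁻¹) = v * (tf {k, l} * tf {k, l}) * v⁻¹ := by group
    rw [this, tf_mul_self]; group
  -- the involution attached to a pair
  have key : ∀ k l, k ≠ l → ∃ r v, v ∈ X ∧ r = v * tf {a, b} * v⁻¹ ∧ r * r = 1 ∧
      r * tf {a, b} * r = g * tf {k, l} * g⁻¹ ∧ Mn (r * g) := by
    intro k l hkl
    obtain ⟨N, hN⟩ := hcon g hg hgm a b k l hab hkl
    obtain ⟨r, v, hv, hr, hrr, hrt⟩ := dih_odd (tf_mul_self {a, b}) (sq' g k l) hN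
    have hvX : v ∈ X := by
      have : Subgroup.closure ({tf {a, b}, g * tf {k, l} * g⁻¹} : Set ((ι → F) ≃ₗ[F] (ι → F))) ≤ X := by
        rw [Subgroup.closure_le]
        rintro x (rfl | hx)
        · exact S.flip a b hab
        · rw [Set.mem_singleton_iff] at hx; rw [hx]
          exact mul_mem (mul_mem hg (S.flip k l hkl)) (inv_mem hg)
      exact this hv
    refine ⟨r, v, hvX, hr, hrr, hrt, ?_⟩
    have hri : r⁻¹ = r := inv_eq_of_mul_eq_one_left hrr
    have hrX : r ∈ X := by rw [hr]; exact mul_mem (mul_mem hvX (S.flip a b hab)) (inv_mem hvX)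
    apply uniq S h2 (mul_mem hrX hg) (T := {a, b}) ⟨a, by simp⟩ (by rw [Finset.card_pair hab]; omega) (S.flip a b hab)
    have e1 : (r * g)⁻¹ * tf {a, b} * (r * g) = tf {k, l} := by
      have : (r * g)⁻¹ * tf {a, b} * (r * g) = g⁻¹ * (r⁻¹ * tf {a, b} * r) * g := by group
      rw [this, hri, hrt]; group
    rw [e1]
    intro i
    refine ⟨i, ?_⟩
    rw [tf_ei]
    by_cases h : i ∈ ({k, l} : Finset ι)
    · right; rw [if_pos h]
    · left; rw [if_neg h]
  obtain ⟨r, v, hv, hr, hrr, hrt, hrm⟩ := key a b hab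
  obtain ⟨r', v', hv', hr', hrr', hrt', hrm'⟩ := key a c hac
  have hri : r⁻¹ = r := inv_eq_of_mul_eq_one_left hrr
  have hri' : r'⁻¹ = r' := inv_eq_of_mul_eq_one_left hrr'
  have hrX : r ∈ X := by rw [hr]; exact mul_mem (mul_mem hv (S.flip a b hab)) (inv_mem hv)
  have hrX' : r' ∈ X := by rw [hr']; exact mul_mem (mul_mem hv' (S.flip a b hab)) (inv_mem hv')
  have hne : Nonempty ι := ⟨a⟩
  -- nonmonomial
  have nm : ∀ {r v : (ι → F) ≃ₗ[F] (ι → F)}, v ∈ X → r = v * tf {a, b} * v⁻¹ → r * r = 1 → Mn (r * g) → ¬ Mn r ∧ ¬ Mn v := by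
    intro r v hv hr hrr hrm
    have h1 : ¬ Mn r := by
      intro h
      apply hgm
      have e : g = r * (r * g) := by rw [← mul_assoc, hrr, one_mul]
      rw [e]
      exact mn_mul S h hrm
    refine ⟨h1, fun h => h1 ?_⟩
    rw [hr]
    refine mn_mul S (mn_mul S h ?_) (mn_inv S hv h)
    intro i
    refine ⟨i, ?_⟩
    rw [tf_ei]
    by_cases h : i ∈ ({a, b} : Finset ι)
    · right; rw [if_pos h]
    · left; rw [if_neg h]
  obtain ⟨hrn, hvn⟩ := nm hv hr hrr hrm
  obtain ⟨hrn', hvn'⟩ := nm hv' hr' hrr' hrm'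
  -- the monomial element
  have hm : Mn (r' * r) := by
    have e : r' * r = (r' * g) * (r * g)⁻¹ := by
      rw [_root_.mul_inv_rev, hri]; group
    rw [e]
    exact mn_mul S hrm' (mn_inv S (mul_mem hrX hg) hrm)
  -- the moved space
  have mv : ∀ {r v : (ι → F) ≃ₗ[F] (ι → F)}, r = v * tf {a, b} * v⁻¹ → ∀ w, r w - w ∈ Submodule.span F {v (ei a), v (ei b)} := by
    intro r v hr w
    have e1 : r w - w = v (tf {a, b} (v⁻¹ w) - v⁻¹ w) := by
      rw [map_sub, hr]
      congr 1
      exact (v.apply_symm_apply w).symm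
    rw [e1, tf_sub, Finset.sum_pair hab, map_add, map_smul, map_smul]
    exact Submodule.add_mem _ (Submodule.smul_mem _ _ (Submodule.subset_span (by simp)))
      (Submodule.smul_mem _ _ (Submodule.subset_span (by simp)))
  have fr : ∀ x y : ι → F, Module.finrank F (Submodule.span F {x, y}) ≤ 2 := by
    intro x y
    classical
    have h3 := finrank_span_finset_le_card (R := F) ({x, y} : Finset (ι → F))
    rw [Finset.coe_insert, Finset.coe_singleton] at h3
    exact h3.trans Finset.card_le_two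
  obtain ⟨W, hWdef⟩ : ∃ W : Submodule F (ι → F), W = Submodule.span F {v (ei a), v (ei b)} ⊔ Submodule.span F {v' (ei a), v' (ei b)} := ⟨_, rfl⟩
  have hW : ∀ w, (r' * r) w - w ∈ W := by
    intro w
    have e1 : (r' * r) w - w = (r w - w) + (r' (r w) - r w) := by
      change r' (r w) - w = _
      abel
    rw [e1, hWdef]
    exact Submodule.add_mem _ (Submodule.mem_sup_left (mv hr w)) (Submodule.mem_sup_right (mv hr' (r w)))
  have hWf : Module.finrank F W ≤ 4 := by
    have h4 := Submodule.finrank_add_le_finrank_add_finrank (Submodule.span F {v (ei a), v (ei b)})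
      (Submodule.span F {v' (ei a), v' (ei b)})
    have h5 := fr (v (ei a)) (v (ei b))
    have h6 := fr (v' (ei a)) (v' (ei b))
    rw [hWdef]; omega
  have hsp := sp_card' h2 hm hW
  obtain ⟨x, y, hxy, hx, hy⟩ := two_fix (y := r' * r) (by rw [Finset.card_compl]; omega)
  have hmX : r' * r ∈ X := mul_mem hrX' hrX
  -- a common sign change
  have hcomm : (r' * r) * tf {x, y} = tf {x, y} * (r' * r) := by
    have hfx : ∀ i ∈ ({x, y} : Finset ι), (r' * r) (ei i) = ei i := by
      intro i hi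
      rw [Finset.mem_insert, Finset.mem_singleton] at hi
      rcases hi with rfl | rfl
      · exact hx
      · exact hy
    apply comm_tf_ 
    · intro i hi z hz
      rw [hfx i hi, ei_ne]
      rintro rfl; exact hz hi
    · intro i hi z hz
      rw [← dot_ei z ((r' * r) (ei i))]
      conv_lhs => rw [← hfx z hz]
      rw [S.iso _ hmX, dot_ei, ei_ne]
      rintro rfl; exact hi hz
  have hss : r * tf {x, y} * r = r' * tf {x, y} * r' := by
    have e1 : r * tf {x, y} * r = r' * (r' * r * tf {x, y}) * r := by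
      rw [← mul_assoc r', ← mul_assoc r' r', hrr', one_mul]
    rw [e1, hcomm]
    have e3 : r' * (tf {x, y} * (r' * r)) * r = r' * tf {x, y} * r' * (r * r) := by group
    rw [e3, hrr, mul_one]
  -- products of odd order
  have od : ∀ {r v : (ι → F) ≃ₗ[F] (ι → F)}, v ∈ X → r = v * tf {a, b} * v⁻¹ → ¬ Mn v → ∃ N : ℕ, (tf {x, y} * r) ^ (2 * N + 1) = 1 := by
    intro r v hv hr hvn
    obtain ⟨N, hN⟩ := hcon v hv hvn x y a b hxy hab
    exact ⟨N, by rw [hr]; exact hN⟩
  obtain ⟨N, hN⟩ := od hv hr hvn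
  obtain ⟨N', hN'⟩ := od hv' hr' hvn'
  have heq : tf {x, y} * r = tf {x, y} * r' := by
    apply eq_of_sq hN hN'
    have e1 : ∀ r : (ι → F) ≃ₗ[F] (ι → F), tf {x, y} * r * (tf {x, y} * r) = tf {x, y} * (r * tf {x, y} * r) := by
      intro r; group
    rw [e1, e1, hss]
  have heq' : r = r' := mul_left_cancel heq
  -- the contradiction
  have h5 : g * tf {a, b} * g⁻¹ = g * tf {a, c} * g⁻¹ := by rw [← hrt, ← hrt', heq']
  have h6 : (tf {a, b} : (ι → F) ≃ₗ[F] (ι → F)) = tf {a, c} := by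
    have := mul_right_cancel h5
    exact mul_left_cancel this
  have h7 : (tf {a, b} (ei b) : ι → F) b = tf {a, c} (ei b) b := by rw [h6]
  rw [tf_pos (by simp), tf_neg (by simp [hab.symm, hbc]), ei_self] at h7
  exact h2 (by linear_combination -h7)

end

end Cfsg.Agent.Lib.RfnH94
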