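import Mathlib
import Cfsg.Agent.Lib.RfnAH94
import Cfsg.Agent.Lib.Rfe6

set_option autoImplicit false
set_option linter.unusedSectionVars false
set_option linter.unusedSimpArgs false
set_option linter.unusedVariables false

/-!
# Overgroups of the even monomial group, dimension at least 10: involutions (after helper14)
-/

namespace Cfsg.Agent.Lib.RfnH94

open Matrix
open Equiv (Perm)
open Cfsg.Agent.Lib.Rf (ei)
open Cfsg.Agent.Lib.Rfe

variable {ι : Type*} [Fintype ι] [DecidableEq ι] {F : Type*} [Field F]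
variable {X : Subgroup ((ι → F) ≃ₗ[F] (ι → F))}

section
variable (S : Sye X) (h2 : (2 : F) ≠ 0)
include S h2

/-- the involution attached to two sign changes -/
theorem dih_core [Finite F] (hn : 9 ≤ Fintype.card ι) {g : (ι → F) ≃ₗ[F] (ι → F)} (hg : g ∈ X) (hm : ¬ Mn g) {T₁ T₂ : Finset ι}
    (hT1 : T₁.Nonempty) (hT2 : T₂.Nonempty) (h1X : tf T₁ ∈ X) (h2X : tf T₂ ∈ X)
    (hc : 2 * (T₁.card + T₂.card) + 2 ≤ Fintype.card ι) {y : (ι → F) ≃ₗ[F] (ι → F)}
    (hy : y ∈ Subgroup.closure ({tf T₁, g * tf T₂ * g⁻¹} : Set ((ι → F) ≃ₗ[F] (ι → F)))) (hy1 : y ≠ 1) (hyy : y * y = 1)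
    (hyt : y * tf T₁ = tf T₁ * y) (hys : y * (g * tf T₂ * g⁻¹) = (g * tf T₂ * g⁻¹) * y) :
    y ∈ X ∧ y ≠ 1 ∧ (∀ w, y (y w) = w) ∧ Mn y ∧ Mn (g⁻¹ * y * g) ∧ (∀ w, y (tf T₁ w) = tf T₁ (y w)) ∧
      (∀ w, (g⁻¹ * y * g) (tf T₂ w) = tf T₂ ((g⁻¹ * y * g) w)) ∧ Pure y ∧ Pure (g⁻¹ * y * g) ∧
      (∀ v, y v - v ∈ WW g T₁ T₂) ∧ 2 ≤ ((sp y)ᶜ).card ∧ 2 ≤ ((sp (g⁻¹ * y * g))ᶜ).card := by
  have hsX : g * tf T₂ * g⁻¹ ∈ X := mul_mem (mul_mem hg h2X) (inv_mem hg)
  have hyX : y ∈ X := by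
    have : Subgroup.closure ({tf T₁, g * tf T₂ * g⁻¹} : Set ((ι → F) ≃ₗ[F] (ι → F))) ≤ X := by
      rw [Subgroup.closure_le]
      rintro x (rfl | hx)
      · exact h1X
      · rw [Set.mem_singleton_iff] at hx; rw [hx]; exact hsX
    exact this hy
  have hyX' : g⁻¹ * y * g ∈ X := mul_mem (mul_mem (inv_mem hg) hyX) hg
  have hsq : ∀ w, y (y w) = w := fun w => congrArg (fun f : (ι → F) ≃ₗ[F] (ι → F) => f w) hyy
  have hyy' : (g⁻¹ * y * g) * (g⁻¹ * y * g) = 1 := by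
    have : (g⁻¹ * y * g) * (g⁻¹ * y * g) = g⁻¹ * (y * y) * g := by group
    rw [this, hyy]; group
  have hsq' : ∀ w, (g⁻¹ * y * g) ((g⁻¹ * y * g) w) = w :=
    fun w => congrArg (fun f : (ι → F) ≃ₗ[F] (ι → F) => f w) hyy'
  have c1 : ∀ w, y (tf T₁ w) = tf T₁ (y w) := fun w => congrArg (fun f : (ι → F) ≃ₗ[F] (ι → F) => f w) hyt
  have hys' : (g⁻¹ * y * g) * tf T₂ = tf T₂ * (g⁻¹ * y * g) := by
    have e1 : (g⁻¹ * y * g) * tf T₂ = g⁻¹ * (y * (g * tf T₂ * g⁻¹)) * g := by group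
    have e3 : tf T₂ * (g⁻¹ * y * g) = g⁻¹ * ((g * tf T₂ * g⁻¹) * y) * g := by group
    rw [e1, e3, hys]
  have c2 : ∀ w, (g⁻¹ * y * g) (tf T₂ w) = tf T₂ ((g⁻¹ * y * g) w) :=
    fun w => congrArg (fun f : (ι → F) ≃ₗ[F] (ι → F) => f w) hys'
  have k1 := hT1.card_pos
  have k2 := hT2.card_pos
  have m1 : Mn y := comm_flip S h2 hyX hT1 (by rw [Finset.card_compl]; omega) c1
  have m2 : Mn (g⁻¹ * y * g) := comm_flip S h2 hyX' hT2 (by rw [Finset.card_compl]; omega) c2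
  have hW : ∀ v, y v - v ∈ WW g T₁ T₂ := by
    apply clos_sub _ _ hy
    · intro v
      rw [tf_sub]
      exact Submodule.sum_mem _ fun i hi => Submodule.smul_mem _ _ (mem_WW1 g T₁ T₂ hi)
    · intro v
      have e1 : (g * tf T₂ * g⁻¹ : (ι → F) ≃ₗ[F] (ι → F)) v - v = g (tf T₂ (g⁻¹ v) - g⁻¹ v) := by
        rw [map_sub]
        congr 1
        exact (g.apply_symm_apply v).symm
      rw [e1, tf_sub, map_sum]
      exact Submodule.sum_mem _ fun i hi => by
        rw [map_smul]; exact Submodule.smul_mem _ _ (mem_WW2 g T₁ T₂ hi)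
  have hf := WW_finrank g T₁ T₂
  have s1 := sp_card h2 hsq m1 hW
  have hW' : ∀ v, (g⁻¹ * y * g) v - v ∈ (WW g T₁ T₂).map (g.symm : (ι → F) →ₗ[F] (ι → F)) := by
    intro v
    refine ⟨y (g v) - g v, hW _, ?_⟩
    change g.symm (y (g v) - g v) = g.symm (y (g v)) - v
    rw [map_sub, g.symm_apply_apply]
  have s2 := sp_card h2 hsq' m2 hW'
  have hf2 : Module.finrank F ((WW g T₁ T₂).map (g.symm : (ι → F) →ₗ[F] (ι → F))) = Module.finrank F (WW g T₁ T₂) :=
    LinearEquiv.finrank_map_eq g.symm _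
  rw [hf2] at s2
  have f1 : 2 ≤ ((sp y)ᶜ).card := by rw [Finset.card_compl]; omega
  have f2 : 2 ≤ ((sp (g⁻¹ * y * g))ᶜ).card := by rw [Finset.card_compl]; omega
  have p1 : Pure y := by
    obtain ⟨k, l, hkl, hk, hl⟩ := two_fix f2
    exact pure1 S h2 (by omega) hg hm hyX hkl hk hl
  have p2 : Pure (g⁻¹ * y * g) := by
    obtain ⟨k, l, hkl, hk, hl⟩ := two_fix f1
    have hne : Nonempty ι := ⟨k⟩
    have e1 : (g⁻¹)⁻¹ * (g⁻¹ * y * g) * g⁻¹ = y := by group
    refine pure1 S h2 (by omega) (inv_mem hg) (fun h => hm ?_) hyX' hkl (by rw [e1]; exact hk) (by rw [e1]; exact hl)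
    have := mn_inv S (inv_mem hg) h
    rwa [inv_inv] at this
  exact ⟨hyX, hy1, hsq, m1, m2, c1, c2, p1, p2, hW, f1, f2⟩

/-- the involution attached to two sign changes -/
theorem dih_gen' [Finite F] (hn : 9 ≤ Fintype.card ι) {g : (ι → F) ≃ₗ[F] (ι → F)} (hg : g ∈ X) (hm : ¬ Mn g) {T₁ T₂ : Finset ι}
    (hT1 : T₁.Nonempty) (hT2 : T₂.Nonempty) (h1X : tf T₁ ∈ X) (h2X : tf T₂ ∈ X)
    (hc : 2 * (T₁.card + T₂.card) + 2 ≤ Fintype.card ι)
    (hnc : ∀ u ∈ Subgroup.closure ({tf T₁, g * tf T₂ * g⁻¹} : Set ((ι → F) ≃ₗ[F] (ι → F))), u * tf T₁ * u⁻¹ ≠ g * tf T₂ * g⁻¹) :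
    ∃ y ∈ X, y ≠ 1 ∧ (∀ w, y (y w) = w) ∧ Mn y ∧ Mn (g⁻¹ * y * g) ∧ (∀ w, y (tf T₁ w) = tf T₁ (y w)) ∧
      (∀ w, (g⁻¹ * y * g) (tf T₂ w) = tf T₂ ((g⁻¹ * y * g) w)) ∧ Pure y ∧ Pure (g⁻¹ * y * g) ∧
      (∀ v, y v - v ∈ WW g T₁ T₂) ∧ 2 ≤ ((sp y)ᶜ).card ∧ 2 ≤ ((sp (g⁻¹ * y * g))ᶜ).card := by
  have hfin : Finite ((ι → F) ≃ₗ[F] (ι → F)) :=
    Finite.of_injective (fun g : (ι → F) ≃ₗ[F] (ι → F) => (g : (ι → F) → (ι → F))) DFunLike.coe_injective
  have hss : g * tf T₂ * g⁻¹ * (g * tf T₂ * g⁻¹) = 1 := by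
    have : g * tf T₂ * g⁻¹ * (g * tf T₂ * g⁻¹) = g * (tf T₂ * tf T₂) * g⁻¹ := by group
    rw [this, tf_mul_self]; group
  rcases dihedral (tf_mul_self T₁) hss (isOfFinOrder_of_finite _) with ⟨u, hu, hu2⟩ | ⟨y, hy, hy1, hyy, hyt, hys⟩
  · exact absurd hu2 (hnc u hu)
  exact ⟨y, dih_core S h2 hn hg hm hT1 hT2 h1X h2X hc hy hy1 hyy hyt hys⟩

/-- **Z2** -/
theorem getY_n [Finite F] (hn : 10 ≤ Fintype.card ι) {g : (ι → F) ≃ₗ[F] (ι → F)} (hg : g ∈ X) (hm : ¬ Mn g)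
    {z : (ι → F) ≃ₗ[F] (ι → F)} (hz : z ∈ X) (hzsq : ∀ w, z (z w) = w) {a b : ι} (hab : a ≠ b) {ε : F} (he : ε * ε = 1)
    (hza : z (ei a) = ε • ei b) {k l : ι} (hkl : k ≠ l) (hk : (g⁻¹ * z * g) (ei k) = ei k) (hl : (g⁻¹ * z * g) (ei l) = ei l) :
    ∃ y ∈ X, (∀ w, y (y w) = w) ∧ (∃ ε₁ c d ε₂, DT y a b ε₁ c d ε₂) ∧ (∃ δ₁ m m' δ₂, DT (g⁻¹ * y * g) k l δ₁ m m' δ₂) := by
  have hzb := swap_back hzsq he hza
  have hz' : g⁻¹ * z * g ∈ X := mul_mem (mul_mem (inv_mem hg) hz) hg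
  have hzsq' : ∀ w, (g⁻¹ * z * g) ((g⁻¹ * z * g) w) = w := by
    intro w
    change g.symm (z (g (g.symm (z (g w))))) = w
    rw [g.apply_symm_apply, hzsq, g.symm_apply_apply]
  have h1X := S.flip a b hab
  have h2X := S.flip k l hkl
  -- the commutations of z
  have z1 : z * tf {a, b} = tf {a, b} * z := by
    apply comm_tf' S hz hzsq
    intro i hi x hx
    simp only [Finset.mem_insert, Finset.mem_singleton, not_or] at hi hx
    rcases hi with rfl | rfl
    · rw [hza, Pi.smul_apply, ei_ne hx.2, smul_zero]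
    · rw [hzb, Pi.smul_apply, ei_ne hx.1, smul_zero]
  have z2' : (g⁻¹ * z * g) * tf {k, l} = tf {k, l} * (g⁻¹ * z * g) := by
    apply comm_tf' S hz' hzsq'
    intro i hi x hx
    simp only [Finset.mem_insert, Finset.mem_singleton, not_or] at hi hx
    rcases hi with rfl | rfl
    · rw [hk, ei_ne hx.1]
    · rw [hl, ei_ne hx.2]
  have z2 : z * (g * tf {k, l} * g⁻¹) = (g * tf {k, l} * g⁻¹) * z := by
    have e1 : z * (g * tf {k, l} * g⁻¹) = g * ((g⁻¹ * z * g) * tf {k, l}) * g⁻¹ := by group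
    have e3 : (g * tf {k, l} * g⁻¹) * z = g * (tf {k, l} * (g⁻¹ * z * g)) * g⁻¹ := by group
    rw [e1, e3, z2']
  obtain ⟨y, hy, hy1, hsq, m1, m2, c1, c2, p1, p2, hW, f1, f2⟩ := dih_gen' S h2 (by omega) hg hm (T₁ := {a, b}) (T₂ := {k, l}) ⟨a, by simp⟩ ⟨k, by simp⟩
    h1X h2X (by rw [Finset.card_pair hab, Finset.card_pair hkl]; omega) (by
      intro u hu hcon
      have hzu := clos_comm z1 z2 hu
      have e1 : u * (tf {a, b} * z) * u⁻¹ = (g * tf {k, l} * g⁻¹) * z := by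
        rw [← hcon]
        have : z * u⁻¹ = u⁻¹ * z := by
          rw [eq_inv_mul_iff_mul_eq, ← mul_assoc, ← hzu, mul_assoc, mul_inv_cancel, mul_one]
        rw [mul_assoc, mul_assoc, this]
        group
      have e3 := Tr_conj u (tf {a, b} * z)
      rw [e1] at e3
      have e4 : Tr (g * tf {k, l} * g⁻¹ * z) = Tr (tf {k, l} * (g⁻¹ * z * g)) := by
        rw [← Tr_conj g (tf {k, l} * (g⁻¹ * z * g))]
        congr 1
        group
      have e5 : Tr (g⁻¹ * z * g) = Tr z := by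
        have := Tr_conj g⁻¹ z
        rwa [inv_inv] at this
      rw [e4, Tr_tf, Tr_tf, e5, Finset.sum_pair hkl, Finset.sum_pair hab, hk, hl, hza, hzb, ei_self, ei_self, Pi.smul_apply,
        Pi.smul_apply, ei_ne hab, ei_ne hab.symm] at e3
      simp only [smul_zero, add_zero, mul_zero, sub_zero] at e3
      have : (2 : F) * 2 = 0 := by linear_combination -e3
      exact mul_ne_zero h2 h2 this)
  have hy' : g⁻¹ * y * g ∈ X := mul_mem (mul_mem (inv_mem hg) hy) hg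
  have hsq' : ∀ w, (g⁻¹ * y * g) ((g⁻¹ * y * g) w) = w := by
    intro w
    change g.symm (y (g (g.symm (y (g w))))) = w
    rw [g.apply_symm_apply, hsq, g.symm_apply_apply]
  have hy1' : g⁻¹ * y * g ≠ 1 := by
    intro h
    apply hy1
    have : y = g * (g⁻¹ * y * g) * g⁻¹ := by group
    rw [this, h]; group
  -- images of basis vectors
  have img : ∀ {y : (ι → F) ≃ₗ[F] (ι → F)} {a b : ι}, a ≠ b → (∀ w, y (y w) = w) → Mn y → Pure y →
      (∀ w, y (tf {a, b} w) = tf {a, b} (y w)) → (y (ei a) = ei a ∧ y (ei b) = ei b) ∨ ∃ ε : F, ε * ε = 1 ∧ y (ei a) = ε • ei b := by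
    intro y a b hab hsq hm hp hcm
    obtain ⟨x, ε, he, hx⟩ := mn_form hm a
    have h3 : tf {a, b} (y (ei a)) = - y (ei a) := by
      rw [← hcm, tf_ei, if_pos (by simp), map_neg]
    have hxab : x = a ∨ x = b := by
      by_contra hcon
      push Not at hcon
      have := tf_eq_neg h2 h3 (i := x) (by simp [hcon.1, hcon.2])
      rw [hx, Pi.smul_apply, ei_self, smul_eq_mul, mul_one] at this
      exact eps_ne he this
    rcases hxab with rfl | rfl
    · left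
      have hxx : y (ei x) = ei x := by
        rcases eps_cases he with h | h
        · rw [hx, h, one_smul]
        · rw [h, neg_one_smul] at hx; exact absurd hx (hp x)
      refine ⟨hxx, ?_⟩
      obtain ⟨x', ε', he', hx'⟩ := mn_form hm b
      have h3' : tf {x, b} (y (ei b)) = - y (ei b) := by
        rw [← hcm, tf_ei, if_pos (by simp), map_neg]
      have hxab' : x' = x ∨ x' = b := by
        by_contra hcon
        push Not at hcon
        have := tf_eq_neg h2 h3' (i := x') (by simp [hcon.1, hcon.2])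
        rw [hx', Pi.smul_apply, ei_self, smul_eq_mul, mul_one] at this
        exact eps_ne he' this
      rcases hxab' with rfl | rfl
      · exfalso
        have h5 := swap_back hsq he' hx'
        rw [hxx] at h5
        exact hab (eps_inj h2 he' h5)
      · rcases eps_cases he' with h | h
        · rw [hx', h, one_smul]
        · rw [h, neg_one_smul] at hx'; exact absurd hx' (hp x')
    · right; exact ⟨ε, he, hx⟩
  -- the two-dimensional space
  obtain ⟨d1, hd1⟩ : ∃ d1, d1 = y (ei a) - ei a := ⟨_, rfl⟩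
  obtain ⟨d2, hd2⟩ : ∃ d2, d2 = y (g (ei k)) - g (ei k) := ⟨_, rfl⟩
  obtain ⟨W, hWe⟩ : ∃ W : Submodule F (ι → F), W = Submodule.span F {d1, d2} := ⟨_, rfl⟩
  have hd1W : d1 ∈ W := by rw [hWe]; exact Submodule.subset_span (by simp)
  have hd2W : d2 ∈ W := by rw [hWe]; exact Submodule.subset_span (by simp)
  have gen1 : ∀ i ∈ ({a, b} : Finset ι), y (ei i) - ei i ∈ W := by
    intro i hi
    rw [Finset.mem_insert, Finset.mem_singleton] at hi
    rcases img hab hsq m1 p1 c1 with ⟨h3, h4⟩ | ⟨ε₁, he₁, h3⟩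
    · rcases hi with rfl | rfl
      · rw [h3, sub_self]; exact W.zero_mem
      · rw [h4, sub_self]; exact W.zero_mem
    · have h4 := swap_back hsq he₁ h3
      rcases hi with rfl | rfl
      · rw [← hd1]; exact hd1W
      · have : y (ei i) - ei i = (-ε₁) • d1 := by
          rw [hd1, h3, h4, smul_sub, smul_smul, neg_mul, he₁]; module
        rw [this]; exact W.smul_mem _ hd1W
  have gen2 : ∀ i ∈ ({k, l} : Finset ι), y (g (ei i)) - g (ei i) ∈ W := by
    intro i hi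
    have tr : ∀ i, y (g (ei i)) = g ((g⁻¹ * y * g) (ei i)) := fun i => (g.apply_symm_apply _).symm
    rw [Finset.mem_insert, Finset.mem_singleton] at hi
    rcases img hkl hsq' m2 p2 c2 with ⟨h3, h4⟩ | ⟨ε₁, he₁, h3⟩
    · rcases hi with rfl | rfl
      · rw [tr, h3, sub_self]; exact W.zero_mem
      · rw [tr, h4, sub_self]; exact W.zero_mem
    · have h4 := swap_back hsq' he₁ h3
      rcases hi with rfl | rfl
      · rw [← hd2]; exact hd2W
      · have : y (g (ei i)) - g (ei i) = (-ε₁) • d2 := by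
          rw [hd2, tr, tr, h3, h4, map_smul, map_smul, smul_sub, smul_smul, neg_mul, he₁]; module
        rw [this]; exact W.smul_mem _ hd2W
  have hWW : ∀ w ∈ WW g {a, b} {k, l}, y w - w ∈ W := by
    have hle : WW g {a, b} {k, l} ≤ W.comap ((y : (ι → F) →ₗ[F] (ι → F)) - LinearMap.id) := by
      unfold WW
      rw [sup_le_iff, Submodule.span_le, Submodule.span_le]
      refine ⟨?_, ?_⟩
      · rintro _ ⟨i, rfl⟩; exact gen1 _ i.2
      · rintro _ ⟨i, rfl⟩; exact gen2 _ i.2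
    intro w hw; exact hle hw
  have hW2 : ∀ v, y v - v ∈ W := by
    intro v
    have h3 := hWW _ (hW v)
    rw [map_sub, hsq] at h3
    have h4 : y v - v = (-(1 / 2 : F)) • (v - y v - (y v - v)) := by
      have : v - y v - (y v - v) = (-2 : F) • (y v - v) := by module
      rw [this, smul_smul]
      have e5 : -(1 / 2 : F) * (-2) = 1 := by field_simp
      rw [e5, one_smul]
    rw [h4]
    exact W.smul_mem _ h3
  have hWf : Module.finrank F W ≤ 2 := by
    rw [hWe]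
    classical
    have h3 := finrank_span_finset_le_card (R := F) ({d1, d2} : Finset (ι → F))
    rw [Finset.coe_insert, Finset.coe_singleton] at h3
    exact h3.trans Finset.card_le_two
  have hWf1 : (d1 = 0 ∨ d2 = 0) → Module.finrank F W ≤ 1 := by
    intro h
    have hle : ∃ d, W ≤ Submodule.span F {d} := by
      rcases h with h | h
      · refine ⟨d2, ?_⟩
        rw [hWe, Submodule.span_le]
        rintro x (rfl | hx)
        · rw [h]; exact Submodule.zero_mem _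
        · rw [Set.mem_singleton_iff] at hx; rw [hx]; exact Submodule.mem_span_singleton_self _
      · refine ⟨d1, ?_⟩
        rw [hWe, Submodule.span_le]
        rintro x (rfl | hx)
        · exact Submodule.mem_span_singleton_self _
        · rw [Set.mem_singleton_iff] at hx; rw [hx, h]; exact Submodule.zero_mem _
    obtain ⟨d, hd⟩ := hle
    have h3 := finrank_span_finset_le_card (R := F) ({d} : Finset (ι → F))
    rw [Finset.coe_singleton, Finset.card_singleton] at h3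
    exact (Submodule.finrank_mono hd).trans h3
  have s1 := sp_card h2 hsq m1 hW2
  have hW2' : ∀ v, (g⁻¹ * y * g) v - v ∈ W.map (g.symm : (ι → F) →ₗ[F] (ι → F)) := by
    intro v
    refine ⟨y (g v) - g v, hW2 _, ?_⟩
    change g.symm (y (g v) - g v) = g.symm (y (g v)) - v
    rw [map_sub, g.symm_apply_apply]
  have s2 := sp_card h2 hsq' m2 hW2'
  have hf2 : Module.finrank F (W.map (g.symm : (ι → F) →ₗ[F] (ι → F))) = Module.finrank F W :=
    LinearEquiv.finrank_map_eq g.symm _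
  rw [hf2] at s2
  have n1 := NR S h2 hy hsq m1 p1 hy1
  have hd0 : ¬ (d1 = 0 ∨ d2 = 0) := by
    intro h
    have := hWf1 h
    omega
  push Not at hd0
  refine ⟨y, hy, hsq, ?_, ?_⟩
  · rcases img hab hsq m1 p1 c1 with ⟨h3, h4⟩ | ⟨ε₁, he₁, h3⟩
    · exact absurd (by rw [hd1, h3, sub_self]) hd0.1
    · obtain ⟨c, d, ε₂, h⟩ := getDT S h2 hy hsq m1 p1 (by omega) hab he₁ h3
      exact ⟨ε₁, c, d, ε₂, h⟩
  · rcases img hkl hsq' m2 p2 c2 with ⟨h3, h4⟩ | ⟨ε₁, he₁, h3⟩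
    · refine absurd ?_ hd0.2
      have : y (g (ei k)) = g ((g⁻¹ * y * g) (ei k)) := (g.apply_symm_apply _).symm
      rw [hd2, this, h3, sub_self]
    · obtain ⟨c, d, ε₂, h⟩ := getDT S h2 hy' hsq' m2 p2 (by omega) hkl he₁ h3
      exact ⟨ε₁, c, d, ε₂, h⟩

/-- existence of a good involution -/
theorem exists_DT_n [Finite F] (hn : 10 ≤ Fintype.card ι) (hex : ∃ g ∈ X, ¬ Mn g) :
    ∃ g ∈ X, ¬ Mn g ∧ ∃ y ∈ X, (∀ w, y (y w) = w) ∧ (∃ a b ε c d ε', DT y a b ε c d ε') ∧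
      (∃ a b ε c d ε', DT (g⁻¹ * y * g) a b ε c d ε') := by
  have hfin : Finite ((ι → F) ≃ₗ[F] (ι → F)) :=
    Finite.of_injective (fun g : (ι → F) ≃ₗ[F] (ι → F) => (g : (ι → F) → (ι → F))) DFunLike.coe_injective
  obtain ⟨g, hg, hm, a, b, k, l, hab, hkl, hev⟩ := exists_even S h2 hn hex
  refine ⟨g, hg, hm, ?_⟩
  have hss : g * tf {k, l} * g⁻¹ * (g * tf {k, l} * g⁻¹) = 1 := by
    have : g * tf {k, l} * g⁻¹ * (g * tf {k, l} * g⁻¹) = g * (tf {k, l} * tf {k, l}) * g⁻¹ := by group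
    rw [this, tf_mul_self]; group
  obtain ⟨z, hzc, hz1, hzz, hzt, hzs⟩ := dih_even (tf_mul_self {a, b}) hss (isOfFinOrder_of_finite _) hev
  obtain ⟨hz, -, hsq, m1, m2, c1, c2, p1, p2, hW, f1, f2⟩ := dih_core S h2 (by omega) hg hm (T₁ := {a, b}) (T₂ := {k, l})
    ⟨a, by simp⟩ ⟨k, by simp⟩ (S.flip a b hab) (S.flip k l hkl)
    (by rw [Finset.card_pair hab, Finset.card_pair hkl]; omega) hzc hz1 hzz hzt hzs
  obtain ⟨p, hp⟩ : ∃ p, z (ei p) ≠ ei p := by
    by_contra hcon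
    push Not at hcon
    exact hz1 (ext_ei hcon)
  obtain ⟨q, ε, he, hpq⟩ := mn_form m1 p
  have hne : p ≠ q := by
    rintro rfl
    rcases eps_cases he with h | h
    · rw [h, one_smul] at hpq; exact hp hpq
    · rw [h, neg_one_smul] at hpq; exact p1 p hpq
  obtain ⟨k', l', hkl', hk, hl⟩ := two_fix f2
  obtain ⟨y, hy, hysq, ⟨ε₁, c', d', ε₂, h3⟩, ⟨δ₁, m, m', δ₂, h4⟩⟩ := getY_n S h2 hn hg hm hz hsq hne he hpq hkl' hk hl
  exact ⟨y, hy, hysq, ⟨_, _, _, _, _, _, h3⟩, ⟨_, _, _, _, _, _, h4⟩⟩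

/-- **Z3** -/
theorem Z3_n [Finite F] (hn : 10 ≤ Fintype.card ι) {g : (ι → F) ≃ₗ[F] (ι → F)} (hg : g ∈ X) (hm : ¬ Mn g)
    {z : (ι → F) ≃ₗ[F] (ι → F)} (hz : z ∈ X) (hzsq : ∀ w, z (z w) = w) {a b c d : ι} {ε ε' : F} (D : DT z a b ε c d ε')
    {a' b' c' d' : ι} {δ δ' : F} (D' : DT (g⁻¹ * z * g) a' b' δ c' d' δ') {k l : ι} (hkl : k ≠ l)
    (hk : k ≠ a' ∧ k ≠ b' ∧ k ≠ c' ∧ k ≠ d') (hl : l ≠ a' ∧ l ≠ b' ∧ l ≠ c' ∧ l ≠ d') : Rel g k l := by
  have hzk := D'.yx k hk.1 hk.2.1 hk.2.2.1 hk.2.2.2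
  have hzl := D'.yx l hl.1 hl.2.1 hl.2.2.1 hl.2.2.2
  obtain ⟨y, hy, hysq, ⟨ε₁, i, j, ε₂, E⟩, ⟨δ₁, m, m', δ₂, E'⟩⟩ := getY_n S h2 hn hg hm hz hzsq D.ab D.e1 D.ya hkl hzk hzl
  have hy' : g⁻¹ * y * g ∈ X := mul_mem (mul_mem (inv_mem hg) hy) hg
  -- the sign
  have heq : ε = ε₁ := by
    obtain ⟨B, hB⟩ : ∃ B : Finset ι, B = {a', b', c', d', k, l, m, m'} := ⟨_, rfl⟩
    have hBc : B.card ≤ 8 := by
      rw [hB]
      exact (Finset.card_insert_le _ _).trans (Nat.succ_le_succ ((Finset.card_insert_le _ _).trans (Nat.succ_le_succ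
        ((Finset.card_insert_le _ _).trans (Nat.succ_le_succ ((Finset.card_insert_le _ _).trans (Nat.succ_le_succ Finset.card_le_four)))))))
    obtain ⟨T, hT, hTc⟩ := Finset.exists_subset_card_eq (s := Bᶜ) (n := 2) (by rw [Finset.card_compl]; omega)
    obtain ⟨x1, x2, hx12, rfl⟩ := Finset.card_eq_two.1 hTc
    have key : ∀ x ∈ Bᶜ, g (ei x) a = ε * g (ei x) b ∧ g (ei x) a = ε₁ * g (ei x) b := by
      intro x hx
      rw [Finset.mem_compl, hB] at hx
      simp only [Finset.mem_insert, Finset.mem_singleton, not_or] at hx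
      obtain ⟨x1, x2, x3, x4, x5, x6, x7, x8⟩ := hx
      refine ⟨?_, ?_⟩
      · apply pairing S hz D.ya
        rw [conj_ap, D'.yx x x1 x2 x3 x4]
      · apply pairing S hy E.ya
        rw [conj_ap, E'.yx x x5 x6 x7 x8]
    have fin : ∀ x ∈ Bᶜ, g (ei x) a ≠ 0 → ε = ε₁ := by
      intro x hx hne
      obtain ⟨k1, k2⟩ := key x hx
      have hb : g (ei x) b ≠ 0 := by
        intro h; rw [h, mul_zero] at k1; exact hne k1
      apply mul_right_cancel₀ hb
      rw [← k1, ← k2]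
    by_cases h1 : g (ei x1) a = 0
    · exact fin x2 (hT (by simp)) (zero_row S h2 (by omega) hg hm hx12 h1)
    · exact fin x1 (hT (by simp)) h1
  subst heq
  -- the coordinates of ρ
  obtain ⟨ρ, hρ⟩ : ∃ ρ : ι → F, ρ = ei a - ε • ei b := ⟨_, rfl⟩
  have hρc : ∀ x, g⁻¹ ρ x = g (ei x) a - ε * g (ei x) b := by
    intro x
    have h1 : ei x ⬝ᵥ g⁻¹ ρ = g (ei x) ⬝ᵥ ρ := (adj S hg _ _).symm
    rw [ei_dot] at h1
    rw [h1, hρ, dotProduct_sub, dotProduct_smul, dot_ei, dot_ei, smul_eq_mul]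
  have hρ0 : ∀ x, x ≠ m → x ≠ m' → g⁻¹ ρ x = 0 := by
    intro x hxm hxm'
    rw [hρc, sub_eq_zero]
    by_cases hxk : x = k
    · rw [hxk]
      apply pairing S hz D.ya
      rw [conj_ap, hzk]
    by_cases hxl : x = l
    · rw [hxl]
      apply pairing S hz D.ya
      rw [conj_ap, hzl]
    apply pairing S hy E.ya
    rw [conj_ap, E'.yx x hxk hxl hxm hxm']
  -- the vector η
  obtain ⟨η, hη⟩ : ∃ η, η = g (ei k) - δ₁ • g (ei l) := ⟨_, rfl⟩
  have hη' : η = g (ei k - δ₁ • ei l) := by rw [hη, map_sub, map_smul]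
  have hyη : y η = -η := by
    rw [hη', conj_ap, ← map_neg]
    congr 1
    rw [map_sub, map_smul, E'.ya, E'.yb, smul_smul, E'.e1, one_smul]
    abel
  have hηη : η ⬝ᵥ η = 2 := by
    rw [hη', S.iso g hg, sub_dotProduct, dotProduct_sub, dotProduct_sub, smul_dotProduct, smul_dotProduct, dotProduct_smul, dotProduct_smul,
      ei_dot, ei_dot, ei_dot, ei_dot, ei_self, ei_self, ei_ne hkl, ei_ne hkl.symm]
    simp only [smul_eq_mul]
    linear_combination E'.e1
  have hηρ : η a - ε * η b = 0 := by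
    have h1 : η ⬝ᵥ ρ = (ei k - δ₁ • ei l) ⬝ᵥ g⁻¹ ρ := by rw [hη', adj S hg]
    rw [sub_dotProduct, smul_dotProduct, ei_dot, ei_dot, hρ0 k E'.ac E'.ad, hρ0 l E'.bc E'.bd, smul_zero, sub_zero, hρ,
      dotProduct_sub, dotProduct_smul, dot_ei, dot_ei, smul_eq_mul] at h1
    exact h1
  have tr : ∀ {p q : ι} {e : F}, y (ei p) = e • ei q → η p = -(e * η q) := by
    intro p q e h
    rw [← dot_ei p η, ← S.iso y hy, h, hyη, dotProduct_smul, neg_dotProduct, dot_ei, smul_eq_mul]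
    ring
  have hb := tr E.yb
  have ha0 : η a = 0 := by
    have h1 : 2 * η a = 0 := by
      rw [hb] at hηρ
      linear_combination hηρ - η a * D.e1
    exact (mul_eq_zero.1 h1).resolve_left h2
  have hb0 : η b = 0 := by rw [hb, ha0]; ring
  have hj := tr E.yd
  have hx0 : ∀ x, x ≠ i → x ≠ j → η x = 0 := by
    intro x hxi hxj
    by_cases hxa : x = a
    · rw [hxa]; exact ha0
    by_cases hxb : x = b
    · rw [hxb]; exact hb0
    have h1 := tr (e := 1) (by rw [one_smul]; exact E.yx x hxa hxb hxi hxj)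
    have : 2 * η x = 0 := by linear_combination h1
    exact (mul_eq_zero.1 this).resolve_left h2
  have hexp : η = η i • ei i + η j • ei j := by
    ext x
    rw [Pi.add_apply, Pi.smul_apply, Pi.smul_apply]
    by_cases hxi : x = i
    · rw [hxi, ei_self, ei_ne E.cd]; simp
    by_cases hxj : x = j
    · rw [hxj, ei_self, ei_ne E.cd.symm]; simp
    rw [ei_ne hxi, ei_ne hxj, hx0 x hxi hxj]; simp
  have hii : η i * η i = 1 := by
    have h1 : η ⬝ᵥ η = η i * η i + η j * η j := by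
      conv_lhs => rw [hexp]
      rw [add_dotProduct, smul_dotProduct, smul_dotProduct, ei_dot, ei_dot, ← hexp]
      rfl
    rw [hηη, hj] at h1
    apply mul_left_cancel₀ h2
    linear_combination -h1 - (η i * η i) * E.e2
  refine ⟨δ₁, E'.e1, i, j, η i, η j, E.cd, hii, ?_, ?_⟩
  · rw [hj]
    linear_combination (η i * η i) * E.e2 + hii
  · rw [← hη]; exact hexp

/-- transfer of double transpositions -/
theorem Z4_n (hn : 10 ≤ Fintype.card ι) {g : (ι → F) ≃ₗ[F] (ι → F)} (hg : g ∈ X) (hm : ¬ Mn g) {k l p q : ι}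
    (hkl : k ≠ l) (hkp : k ≠ p) (hkq : k ≠ q) (hlp : l ≠ p) (hlq : l ≠ q) (hpq : p ≠ q) (R1 : Rel g k l) (R2 : Rel g p q) :
    ∃ h ∈ X, ∃ δ δ' : F, DT h k l δ p q δ' ∧ ∃ a b c d ε ε', DT (g * h * g⁻¹) a b ε c d ε' := by
  obtain ⟨δ, hδ, i, j, σ, τ, hij, hσ, hτ, e1⟩ := R1
  obtain ⟨δ', hδ', i', j', σ', τ', hij', hσ', hτ', e3⟩ := R2
  obtain ⟨h, hh, D⟩ := exists_sdt S hkl hkp hkq hlp hlq hpq hδ hδ'
  refine ⟨h, hh, δ, δ', D, ?_⟩
  have f1 : g (ei k - δ • ei l) = σ • ei i + τ • ei j := by rw [map_sub, map_smul]; exact e1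
  have f2 : g (ei p - δ' • ei q) = σ' • ei i' + τ' • ei j' := by rw [map_sub, map_smul]; exact e3
  have form : ∀ v, (g * h * g⁻¹) v = v - ((σ • ei i + τ • ei j) ⬝ᵥ v) • (σ • ei i + τ • ei j) -
      ((σ' • ei i' + τ' • ei j') ⬝ᵥ v) • (σ' • ei i' + τ' • ei j') := by
    intro v
    change g (h (g⁻¹ v)) = _
    have hv : g (g⁻¹ v) = v := g.apply_symm_apply v
    rw [D.formula, map_sub, map_sub, map_smul, map_smul, f1, f2, ← adj S hg, ← adj S hg, f1, f2, hv]
  have horth : (σ • ei i + τ • ei j : ι → F) ⬝ᵥ (σ' • ei i' + τ' • ei j') = 0 := by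
    rw [← f1, ← f2, S.iso g hg, sub_dotProduct, smul_dotProduct, ei_dot, ei_dot]
    simp [ei_ne hkp, ei_ne hkq, ei_ne hlp, ei_ne hlq, ei_ne hkp.symm, ei_ne hkq.symm, ei_ne hlp.symm, ei_ne hlq.symm]
  by_cases hdis : (i ≠ i' ∧ i ≠ j') ∧ (j ≠ i' ∧ j ≠ j')
  · obtain ⟨⟨n1, n2⟩, n3, n4⟩ := hdis
    refine ⟨i, j, i', j', -(σ * τ), -(σ' * τ'), hij, n1, n2, n3, n4, hij', ?_, ?_, ?_, ?_, ?_, ?_, ?_⟩
    · linear_combination (τ * τ) * hσ + hτ
    · linear_combination (τ' * τ') * hσ' + hτ'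
    · rw [form]
      simp only [add_dotProduct, smul_dotProduct, ei_dot, ei_self, ei_ne hij, ei_ne hij.symm, ei_ne hij', ei_ne hij'.symm, ei_ne n1, ei_ne n1.symm, ei_ne n2, ei_ne n2.symm, ei_ne n3, ei_ne n3.symm, ei_ne n4, ei_ne n4.symm, zero_add, add_zero, smul_eq_mul, mul_zero, mul_one,
        zero_smul, sub_zero, smul_add, smul_smul, hσ]
      module
    · rw [form]
      simp only [add_dotProduct, smul_dotProduct, ei_dot, ei_self, ei_ne hij, ei_ne hij.symm, ei_ne hij', ei_ne hij'.symm, ei_ne n1, ei_ne n1.symm, ei_ne n2, ei_ne n2.symm, ei_ne n3, ei_ne n3.symm, ei_ne n4, ei_ne n4.symm, zero_add, add_zero, smul_eq_mul, mul_zero, mul_one,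
        zero_smul, sub_zero, smul_add, smul_smul, hτ]
      module
    · rw [form]
      simp only [add_dotProduct, smul_dotProduct, ei_dot, ei_self, ei_ne hij, ei_ne hij.symm, ei_ne hij', ei_ne hij'.symm, ei_ne n1, ei_ne n1.symm, ei_ne n2, ei_ne n2.symm, ei_ne n3, ei_ne n3.symm, ei_ne n4, ei_ne n4.symm, zero_add, add_zero, smul_eq_mul, mul_zero, mul_one,
        zero_smul, sub_zero, smul_add, smul_smul, hσ']
      module
    · rw [form]
      simp only [add_dotProduct, smul_dotProduct, ei_dot, ei_self, ei_ne hij, ei_ne hij.symm, ei_ne hij', ei_ne hij'.symm, ei_ne n1, ei_ne n1.symm, ei_ne n2, ei_ne n2.symm, ei_ne n3, ei_ne n3.symm, ei_ne n4, ei_ne n4.symm, zero_add, add_zero, smul_eq_mul, mul_zero, mul_one,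
        zero_smul, sub_zero, smul_add, smul_smul, hτ']
      module
    · intro x x1 x2 x3 x4
      rw [form]
      simp only [add_dotProduct, smul_dotProduct, ei_dot, ei_ne x1, ei_ne x2, ei_ne x3, ei_ne x4, ei_ne x1.symm, ei_ne x2.symm, ei_ne x3.symm, ei_ne x4.symm, smul_eq_mul, mul_zero,
        add_zero, zero_smul, sub_zero]
  · exfalso
    -- the two roots have the same support
    obtain ⟨s, t, hs, ht, hst⟩ : ∃ s t : F, s * s = 1 ∧ t * t = 1 ∧ (σ' • ei i' + τ' • ei j' : ι → F) = s • ei i + t • ei j := by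
      have o := horth
      simp only [add_dotProduct, smul_dotProduct, ei_dot, Pi.add_apply, Pi.smul_apply, smul_eq_mul] at o
      by_cases c1 : i = i'
      · by_cases c2 : j = j'
        · subst c1; subst c2; exact ⟨σ', τ', hσ', hτ', rfl⟩
        · subst c1
          rw [ei_self, ei_ne hij', ei_ne hij.symm, ei_ne c2] at o
          exfalso
          apply mul_ne_zero (eps_ne hσ) (eps_ne hσ')
          linear_combination o
      · by_cases c2 : i = j'
        · by_cases c3 : j = i'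
          · subst c2; subst c3; exact ⟨τ', σ', hτ', hσ', by abel⟩
          · subst c2
            rw [ei_self, ei_ne c1, ei_ne c3, ei_ne hij.symm] at o
            exfalso
            apply mul_ne_zero (eps_ne hσ) (eps_ne hτ')
            linear_combination o
        · by_cases c3 : j = i'
          · subst c3
            rw [ei_self, ei_ne hij, ei_ne c2, ei_ne hij'] at o
            exfalso
            apply mul_ne_zero (eps_ne hτ) (eps_ne hσ')
            linear_combination o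
          · by_cases c4 : j = j'
            · subst c4
              rw [ei_self, ei_ne c1, ei_ne hij, ei_ne c3] at o
              exfalso
              apply mul_ne_zero (eps_ne hτ) (eps_ne hτ')
              linear_combination o
            · exact absurd ⟨⟨c1, c2⟩, c3, c4⟩ hdis
    rw [hst] at horth form
    have o2 : σ * s + τ * t = 0 := by
      simp only [add_dotProduct, smul_dotProduct, ei_dot, Pi.add_apply, Pi.smul_apply, smul_eq_mul, ei_self, ei_ne hij, ei_ne hij.symm] at horth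
      linear_combination horth
    have o3 : σ * τ + s * t = 0 := by linear_combination (σ * t) * o2 - (s * t) * hσ - (σ * τ) * ht
    have key : g * h * g⁻¹ = tf {i, j} := by
      apply ext_ei
      intro x
      rw [form, tf_ei]
      by_cases x1 : x = i
      · subst x1
        rw [if_pos (by simp)]
        simp only [add_dotProduct, smul_dotProduct, ei_dot, ei_self, ei_ne hij, ei_ne hij.symm, smul_eq_mul, mul_zero, mul_one, add_zero,
          smul_add, smul_smul, hσ, hs]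
        have : (ei x - ((1 : F) • ei x + (σ * τ) • ei j) - ((1 : F) • ei x + (s * t) • ei j) : ι → F) = -ei x - (σ * τ + s * t) • ei j := by
          module
        rw [this, o3, zero_smul, sub_zero]
      by_cases x2 : x = j
      · subst x2
        rw [if_pos (by simp)]
        simp only [add_dotProduct, smul_dotProduct, ei_dot, ei_self, ei_ne hij, ei_ne hij.symm, smul_eq_mul, mul_zero, mul_one, zero_add,
          smul_add, smul_smul, hτ, ht]
        have : (ei x - ((τ * σ) • ei i + (1 : F) • ei x) - ((t * s) • ei i + (1 : F) • ei x) : ι → F) = -ei x - (σ * τ + s * t) • ei i := by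
          module
        rw [this, o3, zero_smul, sub_zero]
      · rw [if_neg (by simp [x1, x2])]
        simp only [add_dotProduct, smul_dotProduct, ei_dot, ei_ne x1, ei_ne x2, ei_ne (Ne.symm x1), ei_ne (Ne.symm x2), smul_eq_mul, mul_zero, add_zero, zero_smul, sub_zero]
    apply hm
    apply uniq S h2 hg (T := {i, j}) ⟨i, by simp⟩ (by rw [Finset.card_pair hij]; omega) (S.flip i j hij)
    rw [← key]
    have : g⁻¹ * (g * h * g⁻¹) * g = h := by group
    rw [this]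
    exact D.mn h2

theorem all_rel_n [Finite F] (hn : 10 ≤ Fintype.card ι) {g : (ι → F) ≃ₗ[F] (ι → F)} (hg : g ∈ X) (hm : ¬ Mn g)
    {z : (ι → F) ≃ₗ[F] (ι → F)} (hz : z ∈ X) {a b c d : ι} {ε ε' : F} (D : DT z a b ε c d ε')
    {a' b' c' d' : ι} {δ δ' : F} (D' : DT (g⁻¹ * z * g) a' b' δ c' d' δ') {k l : ι} (hkl : k ≠ l) : Rel g k l := by
  obtain ⟨B, hB⟩ : ∃ B : Finset ι, B = {a', b', c', d', k, l} := ⟨_, rfl⟩
  have hBc : B.card ≤ 6 := by
    rw [hB]
    exact (Finset.card_insert_le _ _).trans (Nat.succ_le_succ ((Finset.card_insert_le _ _).trans (Nat.succ_le_succ Finset.card_le_four)))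
  obtain ⟨T, hT, hTc⟩ := Finset.exists_subset_card_eq (s := Bᶜ) (n := 4) (by rw [Finset.card_compl]; omega)
  obtain ⟨p, q, r, s, hpq, hpr, hps, hqr, hqs, hrs, rfl⟩ := Finset.card_eq_four.1 hTc
  have mem : ∀ x ∈ ({p, q, r, s} : Finset ι), x ≠ a' ∧ x ≠ b' ∧ x ≠ c' ∧ x ≠ d' ∧ x ≠ k ∧ x ≠ l := by
    intro x hx
    have := hT hx
    rw [Finset.mem_compl, hB] at this
    simp only [Finset.mem_insert, Finset.mem_singleton, not_or] at this
    exact this
  obtain ⟨p1, p2, p3, p4, p5, p6⟩ := mem p (by simp)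
  obtain ⟨q1, q2, q3, q4, q5, q6⟩ := mem q (by simp)
  obtain ⟨r1, r2, r3, r4, r5, r6⟩ := mem r (by simp)
  obtain ⟨s1, s2, s3, s4, s5, s6⟩ := mem s (by simp)
  have R1 := Z3_n S h2 hn hg hm hz D.sq D D' hpq ⟨p1, p2, p3, p4⟩ ⟨q1, q2, q3, q4⟩
  have R2 := Z3_n S h2 hn hg hm hz D.sq D D' hrs ⟨r1, r2, r3, r4⟩ ⟨s1, s2, s3, s4⟩
  obtain ⟨h, hh, e, e', E, a1, b1, c1, d1, x1, x2, E'⟩ := Z4_n S h2 hn hg hm hpq hpr hps hqr hqs hrs R1 R2
  have e1 : g⁻¹ * (g * h * g⁻¹) * g = h := by group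
  exact Z3_n S h2 hn hg hm (mul_mem (mul_mem hg hh) (inv_mem hg)) E'.sq E' (by rw [e1]; exact E) hkl
    ⟨Ne.symm p5, Ne.symm q5, Ne.symm r5, Ne.symm s5⟩ ⟨Ne.symm p6, Ne.symm q6, Ne.symm r6, Ne.symm s6⟩

end

end Cfsg.Agent.Lib.RfnH94
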