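import Mathlib
import Cfsg.Agent.Lib.RfnBH94

set_option autoImplicit false
set_option linter.unusedSectionVars false
set_option linter.unusedSimpArgs false
set_option linter.unusedVariables false

/-!
# Overgroups of the even monomial group, dimension at least 10: the contradiction (after helper14)
-/

namespace Cfsg.Agent.Lib.RfnH94

open Matrix
open Equiv (Perm)
open Cfsg.Agent.Lib.Rf (ei)
open Cfsg.Agent.Lib.Rfe

variable {ι : Type*} [Fintype ι] [DecidableEq ι] {F : Type*} [Field F]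
variable {X : Subgroup ((ι → F) ≃ₗ[F] (ι → F))}

section
variable (S : Sye X) (h2 : (2 : F) ≠ 0)
include S h2

/-- **the contradiction** -/
theorem contra_n [Finite F] (hn : 10 ≤ Fintype.card ι) (hn8 : (Fintype.card ι : F) ≠ 8) (hex : ∃ g ∈ X, ¬ Mn g) : False := by
  obtain ⟨g, hg, hm, z, hz, hzsq, ⟨a, b, ε, c, d, ε', D⟩, ⟨a', b', δ, c', d', δ', D'⟩⟩ := exists_DT_n S h2 hn hex
  obtain ⟨u, η, τ, θ, β, hη, hτ, hgl, hinj, hub, huu, hβ0, hnβ, husq⟩ :=
    thmS S h2 (by omega) hg hm (fun k l hkl => all_rel_n S h2 hn hg hm hz D D' hkl)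
  -- six indices
  obtain ⟨T, hT, hTc⟩ := Finset.exists_subset_card_eq (s := (Finset.univ : Finset ι)) (n := 2) (by rw [Finset.card_univ]; omega)
  obtain ⟨p1, p2, h12, rfl⟩ := Finset.card_eq_two.1 hTc
  obtain ⟨T', hT', hTc'⟩ := Finset.exists_subset_card_eq (s := ({p1, p2} : Finset ι)ᶜ) (n := 4) (by rw [Finset.card_compl]; omega)
  obtain ⟨q1, q2, q3, q4, g12, g13, g14, g23, g24, g34, rfl⟩ := Finset.card_eq_four.1 hTc'
  have hq : ∀ x ∈ ({q1, q2, q3, q4} : Finset ι), x ≠ p1 ∧ x ≠ p2 := by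
    intro x hx
    have := hT' hx
    rw [Finset.mem_compl] at this
    simp only [Finset.mem_insert, Finset.mem_singleton, not_or] at this
    exact this
  obtain ⟨Q, hQ⟩ : ∃ Q : Finset ι, Q = {θ p1, θ p2} := ⟨_, rfl⟩
  have hQp : ∀ x, x = p1 ∨ x = p2 → θ x ∈ Q := by
    rintro x (rfl | rfl) <;> rw [hQ] <;> simp
  have hQq : ∀ x ∈ ({q1, q2, q3, q4} : Finset ι), θ x ∉ Q := by
    intro x hx
    obtain ⟨n1, n2⟩ := hq x hx
    rw [hQ]
    simp only [Finset.mem_insert, Finset.mem_singleton, not_or]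
    exact ⟨fun h => n1 (hinj h), fun h => n2 (hinj h)⟩
  have hQX : tf Q ∈ X := by
    rw [hQ]
    exact S.flip _ _ (hinj.ne h12)
  have hQc : Q.card = 2 := by
    rw [hQ, Finset.card_pair (hinj.ne h12)]
  obtain ⟨w, hw⟩ : ∃ w, w = g⁻¹ * tf Q * g := ⟨_, rfl⟩
  have hwX : w ∈ X := by rw [hw]; exact mul_mem (mul_mem (inv_mem hg) hQX) hg
  have hwm : ¬ Mn w := by
    intro h
    rw [hw] at h
    exact hm (uniq S h2 hg (T := Q) ⟨θ p1, hQp _ (Or.inl rfl)⟩ (by rw [hQc]; omega) hQX h)
  -- an involution commuting with w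
  obtain ⟨h, hh, E⟩ := exists_sdt S g12 g13 g14 g23 g24 g34 (ε := η q1 * η q2) (ε' := η q3 * η q4)
    (by linear_combination (η q2 * η q2) * hη q1 + hη q2) (by linear_combination (η q4 * η q4) * hη q3 + hη q4)
  have fixr : ∀ x ∈ ({q1, q2, q3, q4} : Finset ι), ∀ y ∈ ({q1, q2, q3, q4} : Finset ι),
      w (ei x - (η x * η y) • ei y) = ei x - (η x * η y) • ei y := by
    intro x hx y hy
    have e1 : g (ei x - (η x * η y) • ei y) = η x • (τ x • ei (θ x) - τ y • ei (θ y)) := by
      rw [map_sub, map_smul, hgl x, hgl y, smul_smul, mul_assoc, hη y, mul_one, ← smul_sub]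
      congr 1
      abel
    have e3 : tf Q (g (ei x - (η x * η y) • ei y)) = g (ei x - (η x * η y) • ei y) := by
      rw [e1, map_smul, map_sub, map_smul, map_smul, tf_ei, tf_ei, if_neg (hQq x hx), if_neg (hQq y hy)]
    rw [hw]
    change g.symm (tf Q (g _)) = _
    rw [e3, g.symm_apply_apply]
  have r1 := fixr q1 (by simp) q2 (by simp)
  have r2 := fixr q3 (by simp) q4 (by simp)
  have hcomm : w⁻¹ * h * w = h := by
    have : h * w = w * h := by
      apply LinearEquiv.ext
      intro v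
      change h (w v) = w (h v)
      rw [E.formula, E.formula v, map_sub, map_sub, map_smul, map_smul, r1, r2]
      have k1 : (ei q1 - (η q1 * η q2) • ei q2) ⬝ᵥ w v = (ei q1 - (η q1 * η q2) • ei q2) ⬝ᵥ v := by
        rw [← S.iso w hwX _ v, r1]
      have k2 : (ei q3 - (η q3 * η q4) • ei q4) ⬝ᵥ w v = (ei q3 - (η q3 * η q4) • ei q4) ⬝ᵥ v := by
        rw [← S.iso w hwX _ v, r2]
      rw [k1, k2]
    rw [mul_assoc, this, inv_mul_cancel_left]
  obtain ⟨u', η', τ', θ', β', hη', hτ', hgl', hinj', hub', huu', hβ0', hnβ', husq'⟩ :=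
    thmS S h2 (by omega) hwX hwm (fun k l hkl => all_rel_n S h2 hn hwX hwm hh E (by rw [hcomm]; exact E) hkl)
  have hββ : β' = β := by
    have hn0 : (Fintype.card ι : F) ≠ 0 := by
      intro h; rw [h, zero_mul] at hnβ; exact h2 (by linear_combination hnβ)
    apply mul_left_cancel₀ hn0
    rw [hnβ, hnβ']
  have entry' : ∀ l i, i ≠ θ' l → (w (ei l) i) * (w (ei l) i) = β * β := by
    intro l i hi
    rw [hgl' l, Pi.smul_apply, Pi.add_apply, Pi.smul_apply, ei_ne hi, smul_zero, add_zero, smul_eq_mul]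
    have := husq' i
    rw [hββ] at this
    linear_combination (u' i * u' i) * hη' l + this
  -- the actual entries
  obtain ⟨sg, hsg⟩ : ∃ sg : ι → F, sg = fun l => if θ l ∈ Q then -1 else 1 := ⟨_, rfl⟩
  have huQ : tf Q u ⬝ᵥ u = -(2 * β) - 4 * (β * β) := by
    rw [tf_dot_self, huu, Finset.sum_congr rfl (fun i _ => by rw [sq, husq i]), Finset.sum_const, hQc, nsmul_eq_mul]
    push_cast; ring
  have tfu : ∀ l, tf Q u (θ l) = sg l * τ l * β := by
    intro l
    rw [tf_apply, hub l, hsg]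
    by_cases h : θ l ∈ Q
    · simp only [h, if_true]; ring
    · simp only [h, if_false]; ring
  have tfe : ∀ l, (tf Q (ei (θ l)) : ι → F) = sg l • ei (θ l) := by
    intro l
    rw [tf_ei, hsg]
    by_cases h : θ l ∈ Q
    · simp only [h, if_true, neg_one_smul]
    · simp only [h, if_false, one_smul]
  have ent : ∀ l m, l ≠ m → w (ei l) m = η m * η l * (-(2 * β) - 4 * (β * β) + sg m * β + sg l * β) := by
    intro l m hlm
    have e1 : w (ei l) m = g (ei m) ⬝ᵥ tf Q (g (ei l)) := by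
      rw [hw]
      have e2 : (g⁻¹ * tf Q * g : (ι → F) ≃ₗ[F] (ι → F)) (ei l) = g⁻¹ (tf Q (g (ei l))) := rfl
      rw [e2, adj S hg, ei_dot]
    rw [e1, hgl m, hgl l, map_smul, map_add, map_smul, tfe, smul_dotProduct, dotProduct_smul, add_dotProduct, dotProduct_add, dotProduct_add,
      smul_dotProduct, smul_dotProduct, dotProduct_smul, dotProduct_smul, dotProduct_smul, dotProduct_smul, dot_ei, ei_dot, ei_dot,
      ei_ne (hinj.ne hlm.symm), tfu, dotProduct_comm u, huQ, hub l]
    simp only [smul_eq_mul]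
    linear_combination (η m * η l * sg l * β) * hτ l + (η m * η l * sg m * β) * hτ m
  have sgp : ∀ x, x = p1 ∨ x = p2 → sg x = -1 := by
    intro x hx; rw [hsg]; simp only [hQp x hx, if_true]
  have sgq : ∀ x ∈ ({q1, q2, q3, q4} : Finset ι), sg x = 1 := by
    intro x hx; rw [hsg]; simp only [hQq x hx, if_false]
  -- extraction of an equation
  have ext2 : ∀ l m m', l ≠ m → l ≠ m' → m ≠ m' → sg m = sg m' →
      (-2 - 4 * β + sg m + sg l) * (-2 - 4 * β + sg m + sg l) = 1 := by
    intro l m m' hlm hlm' hmm' hs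
    have main : ∀ x, l ≠ x → x ≠ θ' l → (-2 - 4 * β + sg x + sg l) * (-2 - 4 * β + sg x + sg l) = 1 := by
      intro x hlx hx
      have k1 := entry' l x hx
      rw [ent l x hlx] at k1
      apply mul_left_cancel₀ (mul_ne_zero hβ0 hβ0)
      have e1 : η x * η l * (η x * η l) = 1 := by linear_combination (η l * η l) * hη x + hη l
      have e3 : β * β * ((-2 - 4 * β + sg x + sg l) * (-2 - 4 * β + sg x + sg l)) =
          (-(2 * β) - 4 * (β * β) + sg x * β + sg l * β) * (-(2 * β) - 4 * (β * β) + sg x * β + sg l * β) := by ring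
      rw [e3]
      linear_combination k1 - ((-(2 * β) - 4 * (β * β) + sg x * β + sg l * β) * (-(2 * β) - 4 * (β * β) + sg x * β + sg l * β)) * e1
    by_cases h1 : m = θ' l
    · rw [hs]
      exact main m' hlm' (fun h => hmm' (h1.trans h.symm))
    · exact main m hlm h1
  have A1 := ext2 q1 q2 q3 g12 g13 g23 (by rw [sgq q2 (by simp), sgq q3 (by simp)])
  have A2 := ext2 q1 p1 p2 (hq q1 (by simp)).1 (hq q1 (by simp)).2 h12 (by rw [sgp p1 (by simp), sgp p2 (by simp)])
  rw [sgq q1 (by simp), sgq q2 (by simp)] at A1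
  rw [sgq q1 (by simp), sgp p1 (by simp)] at A2
  have h4β : (2 * 2) * (1 + 4 * β) = 0 := by linear_combination A2 - A1
  have h4β' : 1 + 4 * β = 0 := (mul_eq_zero.1 h4β).resolve_left (mul_ne_zero h2 h2)
  apply hn8
  linear_combination (Fintype.card ι : F) * h4β' - 4 * hnβ

end

end Cfsg.Agent.Lib.RfnH94
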