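import Cfsg.Agent.Lib.RootOpp
set_option autoImplicit false

/-!
# Classes of abstract root subgroups (helper84)
-/

namespace Cfsg.Agent.Lib.RootClass
open Cfsg Subgroup
open scoped commutatorElement
open Cfsg.Agent.Lib.RankOneGrp Cfsg.Agent.Lib.RootSub Cfsg.Agent.Lib.RootLines
open Cfsg.Agent.Lib.RootOpp

variable {G : Type*} [Group G] {S : Set (Subgroup G)}

lemma class_iso (hS : IsRootSubgroupClass S) {A B : Subgroup G} (hA : A ∈ S) (hB : B ∈ S)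
    (h : IsRankOnePair A B) : ∀ A ∈ S, ∃ B ∈ S, IsRankOnePair A B := by
  intro C hC
  obtain ⟨g, rfl⟩ := hS.2.2 A hA C hC
  exact ⟨_, hS.1.conj_mem B hB g, pair_conj h g⟩

lemma class_cc (hS : IsRootSubgroupClass S) {A B : Subgroup G} (hA : A ∈ S) (hB : B ∈ S)
    (h : RootCommutatorCase S A B) : ∀ A ∈ S, ∃ B ∈ S, RootCommutatorCase S A B := by
  intro C hC
  obtain ⟨g, rfl⟩ := hS.2.2 A hA C hC
  exact ⟨_, hS.1.conj_mem B hB g, cc_conj hS.1.conj_mem h g⟩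

/-- a nondegenerate class, with the consequences used -/
structure Nd (S : Set (Subgroup G)) : Prop where
  hS : IsRootSubgroupSet S
  cl : ∀ A ∈ S, ∀ B ∈ S, ∃ g : G, B = conjBy A g
  iso : ∀ A ∈ S, ∃ B ∈ S, IsRankOnePair A B
  cc : ∀ A ∈ S, ∃ B ∈ S, RootCommutatorCase S A B

lemma Nd.mk' (hS : IsRootSubgroupClass S) (hnd : IsNondegenerateRootSet S) : Nd S := by
  obtain ⟨_, ⟨A, hA, B, hB, h1⟩, ⟨C, hC, D, hD, h2⟩⟩ := hnd
  exact ⟨hS.1, hS.2.2, class_iso hS hA hB h1, class_cc hS hC hD h2⟩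

/-- the two equations in a configuration when `b⁻¹ A b = a⁻¹ C a` -/
lemma config_eq {A C D F : Subgroup G} (hS : IsRootSubgroupSet S) (q : Config S A C D F)
    {a c : G} (ha : a ∈ A) (hc : c ∈ C) (hac : conjBy A c⁻¹ = conjBy C a⁻¹)
    {d : G} (hd : d ∈ D) : a * (c⁻¹ * d * c * d⁻¹) * a⁻¹ = d⁻¹ * (c⁻¹ * d * c * d⁻¹) := by
  have hf : c⁻¹ * d * c * d⁻¹ ∈ F := by
    rw [← q.hDC, Subgroup.commutator_comm]
    have : c⁻¹ * d * c * d⁻¹ = ⁅c⁻¹, d⁆ := by rw [commutatorElement_def]; group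
    rw [this]
    exact commutator_mem_commutator (C.inv_mem hc) hd
  set f := c⁻¹ * d * c * d⁻¹ with hfdef
  have hd' : a * f * a⁻¹ * f⁻¹ ∈ D := by
    rw [← q.hAF]
    have : a * f * a⁻¹ * f⁻¹ = ⁅a, f⁆ := by rw [commutatorElement_def]
    rw [this]
    exact commutator_mem_commutator ha hf
  have h1 : ∀ y ∈ C, (a * f * a⁻¹ * f⁻¹ * d) * y = y * (a * f * a⁻¹ * f⁻¹ * d) := by
    intro y hy
    -- `c⁻¹ d c = f d` commutes with `A^{c⁻¹} = C^{a⁻¹}`
    have h2 : a⁻¹ * y * a⁻¹⁻¹ ∈ conjBy A c⁻¹ := by rw [hac]; exact conjBy_mem hy a⁻¹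
    rw [mem_conjBy] at h2
    have h3 := commute_of_commutator_bot (q.AD hS) h2 hd
    have h4 : (f * d) * (a⁻¹ * y * a) = (a⁻¹ * y * a) * (f * d) := by
      have e : f * d = c⁻¹ * d * c := by rw [hfdef]; group
      rw [e]
      have e1 : (c⁻¹ * d * c) * (a⁻¹ * y * a) = c⁻¹ * (d * (c⁻¹⁻¹ * (a⁻¹ * y * a⁻¹⁻¹) * c⁻¹)) * c := by
        group
      have e2 : (a⁻¹ * y * a) * (c⁻¹ * d * c) = c⁻¹ * ((c⁻¹⁻¹ * (a⁻¹ * y * a⁻¹⁻¹) * c⁻¹) * d) * c := by
        group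
      rw [e1, e2, h3]
    have h5 : a * ((f * d) * (a⁻¹ * y * a)) * a⁻¹ = a * ((a⁻¹ * y * a) * (f * d)) * a⁻¹ := by rw [h4]
    have h6 : a * (f * d) * a⁻¹ = a * f * a⁻¹ * d := by
      have := commute_of_commutator_bot (q.AD hS) (A.inv_mem ha) hd
      calc a * (f * d) * a⁻¹ = a * f * (d * a⁻¹) := by group
        _ = _ := by rw [← this]; group
    have h7 : a * ((f * d) * (a⁻¹ * y * a)) * a⁻¹ = (a * (f * d) * a⁻¹) * y := by group
    have h8 : a * ((a⁻¹ * y * a) * (f * d)) * a⁻¹ = y * (a * (f * d) * a⁻¹) := by group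
    rw [h7, h8, h6] at h5
    have h9 : f⁻¹ * y = y * f⁻¹ := (commute_of_commutator_bot (q.CF hS) hy (F.inv_mem hf)).symm
    have h10 : a * f * a⁻¹ * f⁻¹ * d = f⁻¹ * (a * f * a⁻¹ * d) := by
      have e1 := commute_of_commutator_bot (q.FD hS) (F.inv_mem hf) hd'
      calc a * f * a⁻¹ * f⁻¹ * d = (a * f * a⁻¹ * f⁻¹) * d := by group
        _ = f⁻¹ * ((a * f * a⁻¹ * f⁻¹) * f) * d := by
            rw [← mul_assoc f⁻¹, e1]; group
        _ = _ := by group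
    rw [h10, mul_assoc, h5, ← mul_assoc, h9, mul_assoc]
  have h2 : a * f * a⁻¹ * f⁻¹ * d = 1 :=
    cc_ne_bot_comm hS (q.ccDC hS) (D.mul_mem hd' hd) h1
  have h3 : a * f * a⁻¹ * f⁻¹ = d⁻¹ := eq_inv_of_mul_eq_one_left h2
  calc a * f * a⁻¹ = (a * f * a⁻¹ * f⁻¹) * f := by group
    _ = _ := by rw [h3]

/-- in a configuration the rank one pair is special -/
lemma Config.special {A C D F : Subgroup G} (hS : IsRootSubgroupSet S) (q : Config S A C D F) :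
    IsSpecialRankOnePair A C := by
  refine ⟨q.h, ?_⟩
  intro a ha ha1 c hc hc1 hac
  obtain ⟨d, hd, hd1⟩ := exists_ne_one (hS.ne_bot D q.hD)
  have R := config_eq hS q ha hc hac hd
  set f := c⁻¹ * d * c * d⁻¹ with hfdef
  have hf : f ∈ F := by
    rw [← q.hDC, Subgroup.commutator_comm]
    have : f = ⁅c⁻¹, d⁆ := by rw [commutatorElement_def, hfdef]; group
    rw [this]
    exact commutator_mem_commutator (C.inv_mem hc) hd
  have hfd : f * d = d * f := commute_of_commutator_bot (q.FD hS) hf hd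
  have hcf : c * f = f * c := commute_of_commutator_bot (q.CF hS) hc hf
  have had : a * d = d * a := commute_of_commutator_bot (q.AD hS) ha hd
  -- conjugation rules
  have r1 : c⁻¹ * d * c = f * d := by rw [hfdef]; group
  have r2 : c * d * c⁻¹ = f⁻¹ * d := by
    have : c * (f * d) * c⁻¹ = d := by rw [← r1]; group
    have h2 : c * (f * d) * c⁻¹ = f * (c * d * c⁻¹) := by
      calc c * (f * d) * c⁻¹ = (c * f) * d * c⁻¹ := by group
        _ = _ := by rw [hcf]; group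
    rw [h2] at this
    rw [eq_inv_mul_iff_mul_eq]; exact this
  have r3 : a * f * a⁻¹ = d⁻¹ * f := R
  have r4 : a⁻¹ * f * a = d * f := by
    have : a⁻¹ * (a * f * a⁻¹) * a = f := by group
    rw [r3] at this
    have h2 : a⁻¹ * (d⁻¹ * f) * a = d⁻¹ * (a⁻¹ * f * a) := by
      have h3 : a⁻¹ * d⁻¹ = d⁻¹ * a⁻¹ := by
        rw [← mul_inv_rev, ← mul_inv_rev, had]
      calc a⁻¹ * (d⁻¹ * f) * a = (a⁻¹ * d⁻¹) * f * a := by group
        _ = _ := by rw [h3]; group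
    rw [h2] at this
    exact inv_mul_eq_iff_eq_mul.1 this
  -- the two elements
  set x := c⁻¹ * a * c with hx
  set y := a⁻¹ * c⁻¹ * a with hy
  have hxd : x * d * x⁻¹ = d * d * f := by
    have e1 : x * d * x⁻¹ = c⁻¹ * (a * (c * d * c⁻¹) * a⁻¹) * c := by rw [hx]; group
    rw [e1, r2]
    have e2 : a * (f⁻¹ * d) * a⁻¹ = (a * f * a⁻¹)⁻¹ * d := by
      calc a * (f⁻¹ * d) * a⁻¹ = (a * f * a⁻¹)⁻¹ * (a * d * a⁻¹) := by group
        _ = _ := by rw [had]; group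
    rw [e2, r3]
    have e3 : (d⁻¹ * f)⁻¹ * d = f⁻¹ * d * d := by group
    rw [e3]
    have e4 : c⁻¹ * (f⁻¹ * d * d) * c = (c⁻¹ * f * c)⁻¹ * (c⁻¹ * d * c) * (c⁻¹ * d * c) := by group
    have e5 : c⁻¹ * f * c = f := by rw [mul_assoc, ← hcf]; group
    rw [e4, e5, r1]
    calc f⁻¹ * (f * d) * (f * d) = d * (f * d) := by group
      _ = _ := by rw [hfd]; group
  have hyd : y * d * y⁻¹ = d * d * f := by
    have e1 : y * d * y⁻¹ = a⁻¹ * (c⁻¹ * (a * d * a⁻¹) * c) * a := by rw [hy]; group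
    have e2 : a * d * a⁻¹ = d := by rw [had]; group
    rw [e1, e2, r1]
    have e3 : a⁻¹ * (f * d) * a = (a⁻¹ * f * a) * (a⁻¹ * d * a) := by group
    have e4 : a⁻¹ * d * a = d := by rw [mul_assoc, ← had]; group
    rw [e3, e4, r4, mul_assoc, hfd, mul_assoc]
  -- both in `A^{c⁻¹}`
  have hxU : x ∈ conjBy A c⁻¹ := by
    have := conjBy_mem ha c⁻¹
    rwa [inv_inv] at this
  have hyU : y ∈ conjBy A c⁻¹ := by
    rw [hac]
    have := conjBy_mem (C.inv_mem hc) a⁻¹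
    rwa [inv_inv] at this
  have hw : c * (y⁻¹ * x) * c⁻¹ ∈ A := by
    have h1 : y⁻¹ * x ∈ conjBy A c⁻¹ := Subgroup.mul_mem _ (Subgroup.inv_mem _ hyU) hxU
    rw [mem_conjBy] at h1
    simpa using h1
  have hwd : (y⁻¹ * x) * d * (y⁻¹ * x)⁻¹ = d := by
    have : (y⁻¹ * x) * d * (y⁻¹ * x)⁻¹ = y⁻¹ * (x * d * x⁻¹) * y := by group
    rw [this, hxd, ← hyd]; group
  have hwf : (c * (y⁻¹ * x) * c⁻¹) * f⁻¹ = f⁻¹ * (c * (y⁻¹ * x) * c⁻¹) := by
    have h1 : (c * (y⁻¹ * x) * c⁻¹) * (c * d * c⁻¹) = (c * d * c⁻¹) * (c * (y⁻¹ * x) * c⁻¹) := by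
      calc (c * (y⁻¹ * x) * c⁻¹) * (c * d * c⁻¹) =
            c * ((y⁻¹ * x) * d * (y⁻¹ * x)⁻¹) * (y⁻¹ * x) * c⁻¹ := by group
        _ = _ := by rw [hwd]; group
    rw [r2] at h1
    have h2 := commute_of_commutator_bot (q.AD hS) hw hd
    generalize c * (y⁻¹ * x) * c⁻¹ = z at h1 h2 ⊢
    have h3 : z * f⁻¹ * d = f⁻¹ * z * d := by
      rw [mul_assoc, h1, mul_assoc, ← h2, mul_assoc]
    exact mul_right_cancel h3
  have hf1 : f ≠ 1 := by
    intro e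
    apply hd1
    obtain ⟨C', _, hAC'⟩ : ∃ C' ∈ S, IsRankOnePair C C' := ⟨A, q.hA, RankOnePair_symm q.h⟩
    refine cc_injective hS q.hC hAC' (cc_symm (q.ccDC hS)) (C.inv_mem hc) (by simpa using hc1) hd ?_
    rw [commutatorElement_def]
    rw [hfdef] at e
    rw [inv_inv]; exact e
  have hw1 : c * (y⁻¹ * x) * c⁻¹ = 1 := by
    by_contra hne
    apply hf1
    have := cc_injective hS q.hA q.h (q.ccAF hS) hw hne (F.inv_mem hf)
      (by rw [commutatorElement_eq_one_iff_mul_comm]; exact hwf)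
    simpa using this
  have h1 : y⁻¹ * x = 1 := by
    have : y⁻¹ * x = c⁻¹ * (c * (y⁻¹ * x) * c⁻¹) * c := by group
    rw [this, hw1]; group
  rw [inv_mul_eq_one] at h1
  exact h1.symm

namespace Nd

variable (n : Nd S)
include n

lemma exists_config {A C : Subgroup G} (hA : A ∈ S) (hC : C ∈ S) (h : IsRankOnePair A C) :
    ∃ D F, Config S A C D F := by
  obtain ⟨E, hE, hcc⟩ := n.cc A hA
  have h1 := line_symm hcc.1 (cc_linePartners n.hS hA hC h hcc)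
  obtain ⟨D, F, q, _⟩ := RootLines.exists_config n.hS n.iso hA h1 hC h
  exact ⟨D, F, q⟩

/-- for `A`, `B` in the commutator case there is `W` with `⁅⁅A, B⁆, W⁆ = A` -/
lemma exists_opp {A B : Subgroup G} (hA : A ∈ S) (hB : B ∈ S) (h : RootCommutatorCase S A B) :
    ∃ W ∈ S, ⁅W, ⁅A, B⁆⁆ = A := by
  obtain ⟨P, hP, hAP⟩ := n.iso A hA
  have hline := cc_linePartners n.hS hA hP hAP h
  obtain ⟨T, hT, hp⟩ := n.iso _ h.1
  obtain ⟨D, F, q, hsup⟩ := RootLines.exists_config n.hS n.iso h.1 hline hT hp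
  have hDm : D ∈ membersIn S (A ⊔ ⁅A, B⁆) := ⟨q.hD, by rw [sup_comm, hsup]; exact le_sup_right⟩
  rw [cc_membersIn n.hS hA hP hAP h] at hDm
  rcases hDm with ⟨b, hb, e⟩ | hDm
  · have e' : conjBy A b = D := e
    refine ⟨conjBy F b⁻¹, n.hS.conj_mem F q.hF _, ?_⟩
    have h1 : conjBy ⁅A, B⁆ b⁻¹ = ⁅A, B⁆ := conj_eq_of_commutator_bot (cc_bot_right h) (B.inv_mem hb)
    have h2 := congrArg (fun X => conjBy X b⁻¹) q.hAF
    simp only [conjBy_commutator] at h2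
    rw [← conjBy_commutator A B, h1, ← e', conjBy_inv_conjBy] at h2
    rw [Subgroup.commutator_comm]; exact h2
  · rw [Set.mem_singleton_iff] at hDm
    exfalso
    have := q.ccDC n.hS
    rw [hDm] at this
    exact pair_not_cc n.hS q.hA q.h this

lemma exists_tri {A B : Subgroup G} (hA : A ∈ S) (hB : B ∈ S) (h : RootCommutatorCase S A B) :
    ∃ W, Tri S A B ⁅A, B⁆ W := by
  obtain ⟨W, hW, e⟩ := n.exists_opp hA hB h
  exact ⟨W, n.hS, hA, hB, h.1, hW, rfl, e⟩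

end Nd

end Cfsg.Agent.Lib.RootClass
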