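import Cfsg.Agent.Lib.RootComp
set_option autoImplicit false

/-!
Degenerate classes of abstract root subgroups: rank one pairs are special (helper84).

`A`, `C` commuting and different, `B` a rank one partner of both.  For `b ∈ B#` with
`ᵇA = ᵃB`, `ᵇC = ᶜB` put `w = a⁻¹c`; then `B` commutes with `ʷB`, and `b⁻¹wb` takes `A` to `C`.
-/

namespace Cfsg.Agent.Lib.RootDeg
open Cfsg Subgroup
open Cfsg.Agent.Lib.RankOneGrp Cfsg.Agent.Lib.RootSub Cfsg.Agent.Lib.RootLines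

variable {G : Type*} [Group G] {A B C E : Subgroup G}

lemma swap_right (h : IsRankOnePair A B) {a : G} (ha : a ∈ A) (ha1 : a ≠ 1) :
    ∃ b ∈ B, b ≠ 1 ∧ conjBy A b = conjBy B a := by
  obtain ⟨b, hb, hb1, e⟩ := swap_left (RankOnePair_symm h) ha ha1
  exact ⟨b, hb, hb1, e.symm⟩

lemma comm_conj (h : ⁅A, C⁆ = ⊥) (g : G) : ⁅conjBy A g, conjBy C g⁆ = ⊥ := by
  rw [← conjBy_commutator, h, conjBy_eq_bot_iff]

lemma comm_conj_iff {g : G} : ⁅conjBy A g, C⁆ = ⊥ ↔ ⁅A, conjBy C g⁻¹⁆ = ⊥ := by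
  constructor
  · intro h
    have := comm_conj h g⁻¹
    simpa using this
  · intro h
    have := comm_conj h g
    simpa using this

/-- criterion for special rank one pairs -/
lemma special_of_inv (h : IsRankOnePair A B)
    (hR : ∀ a ∈ A, a ≠ 1 → ∀ b ∈ B, b ≠ 1 → conjBy A b = conjBy B a → conjBy A b⁻¹ = conjBy B a⁻¹) :
    IsSpecialRankOnePair A B := by
  refine ⟨h, fun a ha ha1 b hb hb1 e => ?_⟩
  have e' := hR a⁻¹ (A.inv_mem ha) (by simpa using ha1) b⁻¹ (B.inv_mem hb) (by simpa using hb1) e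
  rw [inv_inv, inv_inv] at e'
  have h1 : b⁻¹ * a⁻¹ * b ∈ conjBy B a⁻¹ := by
    rw [← e]
    have := conjBy_mem (A.inv_mem ha) b⁻¹
    simpa using this
  rw [mem_conjBy, inv_inv] at h1
  set b₁ := a * (b⁻¹ * a⁻¹ * b) * a⁻¹ with hb₁
  have h2 : conjBy B (a * b⁻¹ * a) = A := by
    rw [conjBy_mul, ← e', conjBy_mul, ← conjBy_mul A b⁻¹, inv_mul_cancel]
    simp [conjBy_of_mem ha]
  have h3 : a * b⁻¹ * a = b₁⁻¹ * a * b⁻¹ := by
    rw [hb₁]; group
  rw [h3, conjBy_mul, conjBy_of_mem (B.inv_mem hb), conjBy_mul, ← e', ← conjBy_mul] at h2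
  have h4 := eq_one_of_conj_left h (B.mul_mem (B.inv_mem h1) hb) h2
  have h5 : b = b₁ := by
    rw [inv_mul_eq_one] at h4
    exact h4.symm
  have h6 : a⁻¹ * b * a = b⁻¹ * a⁻¹ * b := by
    conv_lhs => rw [h5, hb₁]
    group
  have h7 := congrArg (fun x => x⁻¹) h6
  simp only [mul_inv_rev, inv_inv] at h7
  rw [← mul_assoc, ← mul_assoc] at h7
  exact h7.symm

/-- an element centralizing `B` and normalizing `A` centralizes `A` -/
lemma cent_of_norm (h : IsRankOnePair A B) {x : G} (hx : conjBy A x = A) (hc : ∀ b ∈ B, x * b = b * x) :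
    ∀ a ∈ A, x * a = a * x := by
  intro a ha
  by_cases ha1 : a = 1
  · rw [ha1, mul_one, one_mul]
  obtain ⟨b, hb, hb1, e⟩ := swap_right h ha ha1
  have hB : conjBy B x⁻¹ = B := by
    rw [conjBy_eq_iff, inv_inv]
    ext y
    rw [mem_conjBy]
    constructor
    · intro hy
      have : x⁻¹ * y * x = y := by rw [mul_assoc, ← hc y hy]; group
      rwa [this]
    · intro hy
      have := hc _ hy
      have h2 : x⁻¹ * y * x = y := by
        have h3 : x * (x⁻¹ * y * x) * x⁻¹ = (x⁻¹ * y * x) * x * x⁻¹ := by rw [this]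
        have h4 : x * (x⁻¹ * y * x) * x⁻¹ = y := by group
        rw [h4, mul_inv_cancel_right] at h3
        exact h3.symm
      rwa [h2] at hy
  have h1 : conjBy B (x * a * x⁻¹) = conjBy B a := by
    rw [conjBy_mul, hB, conjBy_mul, ← e, ← conjBy_mul, hc b hb, conjBy_mul, hx]
  have h2 : x * a * x⁻¹ ∈ A := by
    have := conjBy_mem ha x
    rwa [hx] at this
  have h3 := left_unique' h h2 ha h1
  rw [mul_inv_eq_iff_eq_mul] at h3
  exact h3

lemma conj_self_of_comm {x : G} (hc : ∀ b ∈ B, x * b = b * x) : conjBy B x = B := by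
  ext y
  rw [mem_conjBy]
  constructor
  · intro hy
    have := hc _ hy
    have h2 : x⁻¹ * y * x = y := by
      have h3 : x * (x⁻¹ * y * x) * x⁻¹ = (x⁻¹ * y * x) * x * x⁻¹ := by rw [this]
      have h4 : x * (x⁻¹ * y * x) * x⁻¹ = y := by group
      rw [h4, mul_inv_cancel_right] at h3
      exact h3.symm
    rwa [h2] at hy
  · intro hy
    have : x⁻¹ * y * x = y := by rw [mul_assoc, ← hc y hy]; group
    rwa [this]

/-- the triple -/
structure Trip (A B C : Subgroup G) : Prop where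
  hA : IsMulCommutative A
  hB : IsMulCommutative B
  hC : IsMulCommutative C
  ab : IsRankOnePair A B
  cb : IsRankOnePair C B
  ac : ⁅A, C⁆ = ⊥
  ne : A ≠ C

namespace Trip
variable (t : Trip A B C)
include t

lemma swap : Trip C B A :=
  ⟨t.hC, t.hB, t.hA, t.cb, t.ab, by rw [Subgroup.commutator_comm]; exact t.ac, t.ne.symm⟩

lemma comm {a c : G} (ha : a ∈ A) (hc : c ∈ C) : a * c = c * a := commute_of_commutator_bot t.ac ha hc

lemma fixA {a c : G} (ha : a ∈ A) (hc : c ∈ C) : conjBy A (a * c) = A := by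
  rw [conjBy_mul, conj_eq_of_commutator_bot (by rw [Subgroup.commutator_comm]; exact t.ac) hc, conjBy_of_mem ha]

lemma fixC {a c : G} (ha : a ∈ A) (hc : c ∈ C) : conjBy C (a * c) = C := by
  rw [conjBy_mul, conjBy_of_mem hc, conj_eq_of_commutator_bot t.ac ha]

/-- `C` and its conjugates under `B` do not commute with `A` -/
lemma nc {b : G} (hb : b ∈ B) (hb1 : b ≠ 1) : ⁅conjBy C b, A⁆ ≠ ⊥ := by
  intro h
  obtain ⟨c, hc, hc1, e⟩ := swap_left t.cb hb hb1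
  rw [e, comm_conj_iff, conj_eq_of_commutator_bot (by rw [Subgroup.commutator_comm]; exact t.ac) (C.inv_mem hc)] at h
  exact not_commute t.ab (by rw [Subgroup.commutator_comm]; exact h)

section
variable {a b c : G} (ha : a ∈ A) (hb : b ∈ B) (hc : c ∈ C)
  (eA : conjBy A b = conjBy B a) (eC : conjBy C b = conjBy B c)
include ha hc eA eC

omit ha hc in
lemma core1 : ⁅B, conjBy B (a⁻¹ * c)⁆ = ⊥ := by
  have h := comm_conj t.ac b
  rw [eA, eC, comm_conj_iff, ← conjBy_mul] at h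
  exact h

omit ha hc in
lemma core2 : conjBy B (a⁻¹ * c) ≠ B := by
  intro h
  apply t.ne
  have h1 : conjBy B c = conjBy B a := by
    rw [conjBy_mul, conjBy_eq_iff, inv_inv] at h
    exact h
  rw [← eA, ← eC] at h1
  exact (conjBy_inj.1 h1).symm

lemma core3 : conjBy A (b⁻¹ * (a⁻¹ * c) * b) = C := by
  rw [conjBy_mul, eA, ← conjBy_mul]
  have : b⁻¹ * (a⁻¹ * c) * a = b⁻¹ * c := by
    have := t.comm ha hc
    calc b⁻¹ * (a⁻¹ * c) * a = b⁻¹ * (a⁻¹ * (c * a)) := by group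
      _ = b⁻¹ * (a⁻¹ * (a * c)) := by rw [this]
      _ = _ := by group
  rw [this, conjBy_mul, ← eC, ← conjBy_mul, inv_mul_cancel]
  simp

end

/-- the element `w` moves everything -/
lemma no_fix {w : G} (hwA : conjBy A w = A) (hwc : ∀ a ∈ A, w * a = a * w) (hwB : conjBy B w ≠ B)
    {e : G} (he : e ∈ B) (he1 : e ≠ 1) : conjBy A (e⁻¹ * (w * e * w⁻¹)) ≠ A := by
  intro h
  obtain ⟨a, ha, ha1, eq⟩ := swap_left t.ab he he1
  apply hwB
  have hwA' : conjBy A w⁻¹ = A := by rw [conjBy_eq_iff, inv_inv, hwA]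
  have h1 : conjBy A (w * e) = conjBy A e := by
    have h2 : conjBy A (w * e * w⁻¹) = conjBy A e := by
      have : w * e * w⁻¹ = e * (e⁻¹ * (w * e * w⁻¹)) := by group
      rw [this, conjBy_mul, h]
    rwa [conjBy_mul, hwA'] at h2
  rw [conjBy_mul, eq, ← conjBy_mul, hwc a ha, conjBy_mul, conjBy_inj] at h1
  exact h1

lemma hwA {a c : G} (ha : a ∈ A) (hc : c ∈ C) : conjBy A (a⁻¹ * c) = A := t.fixA (A.inv_mem ha) hc

lemma hwC {a c : G} (ha : a ∈ A) (hc : c ∈ C) : conjBy C (a⁻¹ * c) = C := t.fixC (A.inv_mem ha) hc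

lemma hwc {a c : G} (ha : a ∈ A) (hc : c ∈ C) : ∀ x ∈ A, a⁻¹ * c * x = x * (a⁻¹ * c) := by
  intro x hx
  have h1 := t.comm hx hc
  have h2 := commute_of_isMulCommutative t.hA (A.inv_mem ha) hx
  calc a⁻¹ * c * x = a⁻¹ * (c * x) := by group
    _ = a⁻¹ * x * c := by rw [← h1]; group
    _ = _ := by rw [h2]; group

/-- **the key fact** -/
theorem inv {a b : G} (ha : a ∈ A) (ha1 : a ≠ 1) (hb : b ∈ B) (hb1 : b ≠ 1) (eA : conjBy A b = conjBy B a) :
    conjBy A b⁻¹ = conjBy B a⁻¹ := by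
  obtain ⟨c, hc, hc1, eC⟩ := swap_left t.cb hb hb1
  obtain ⟨β, hβ, hβ1, eβ⟩ := swap_right t.ab (A.inv_mem ha) (by simpa using ha1)
  obtain ⟨γ, hγ, hγ1, eγ⟩ := swap_right t.cb (C.inv_mem hc) (by simpa using hc1)
  have h1 := t.core1 eA eC
  have hac := t.comm ha hc
  -- `γ = β`
  have hγβ : γ = β := by
    by_contra hne
    have h2 := comm_conj h1 c⁻¹
    rw [← conjBy_mul] at h2
    have e1 : c⁻¹ * (a⁻¹ * c) = a⁻¹ := by
      have : a⁻¹ * c = c * a⁻¹ := t.comm (A.inv_mem ha) hc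
      rw [this]; group
    rw [e1, ← eβ, ← eγ, Subgroup.commutator_comm, comm_conj_iff, ← conjBy_mul, Subgroup.commutator_comm] at h2
    refine t.nc (B.mul_mem (B.inv_mem hβ) hγ) ?_ h2
    intro h3
    exact hne (inv_mul_eq_one.1 h3).symm
  rw [hγβ] at eγ
  set w := a⁻¹ * c with hw
  have hwA : conjBy A w = A := t.hwA ha hc
  have hwC : conjBy C w = C := t.hwC ha hc
  have k1 : conjBy A (b⁻¹ * w * b) = C := t.core3 ha hc eA eC
  have k2 : conjBy C (β⁻¹ * w * β) = A := by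
    have e1 : β⁻¹ * w * c⁻¹ = β⁻¹ * a⁻¹ := by rw [hw]; group
    rw [conjBy_mul, eγ, ← conjBy_mul, e1, conjBy_mul, ← eβ, ← conjBy_mul, inv_mul_cancel]
    simp
  have hwA' : conjBy A w⁻¹ = A := by rw [conjBy_eq_iff, inv_inv, hwA]
  have hwC' : conjBy C w⁻¹ = C := by rw [conjBy_eq_iff, inv_inv, hwC]
  have k3 : conjBy A (b⁻¹ * w * b * w⁻¹) = C := by rw [conjBy_mul, hwA', k1]
  have k4 : conjBy C (β⁻¹ * w * β * w⁻¹) = A := by rw [conjBy_mul, hwC', k2]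
  have hcm : ∀ x ∈ B, ∀ y ∈ B, (w * x * w⁻¹) * y = y * (w * x * w⁻¹) := fun x hx y hy =>
    (commute_of_commutator_bot h1 hy (conjBy_mem hx w)).symm
  have k5 : conjBy A ((b * β)⁻¹ * (w * (b * β) * w⁻¹)) = A := by
    have e1 : (b * β)⁻¹ * (w * (b * β) * w⁻¹) = (β⁻¹ * w * β * w⁻¹) * (b⁻¹ * w * b * w⁻¹) := by
      have c1 := hcm β hβ b⁻¹ (B.inv_mem hb)
      have c2 := commute_of_isMulCommutative t.hB hb hβ
      symm
      calc (β⁻¹ * w * β * w⁻¹) * (b⁻¹ * w * b * w⁻¹)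
          = β⁻¹ * ((w * β * w⁻¹) * b⁻¹) * (w * b * w⁻¹) := by group
        _ = β⁻¹ * (b⁻¹ * (w * β * w⁻¹)) * (w * b * w⁻¹) := by rw [c1]
        _ = (b * β)⁻¹ * (w * (β * b) * w⁻¹) := by group
        _ = _ := by rw [c2]
    rw [e1, conjBy_mul, k3, k4]
  have k6 : b * β = 1 := by
    by_contra hne
    exact t.no_fix hwA (t.hwc ha hc) (t.core2 eA eC) (B.mul_mem hb hβ) hne k5
  have k7 : b⁻¹ = β := inv_eq_of_mul_eq_one_right k6
  rw [k7]
  exact eβ

theorem special : IsSpecialRankOnePair A B :=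
  special_of_inv t.ab fun _ ha ha1 _ hb hb1 e => t.inv ha ha1 hb hb1 e

/-- conjugates of `A` under `[B, w]` commute with `A` -/
lemma comm_v {w : G} (h1 : ⁅B, conjBy B w⁆ = ⊥) (hwc : ∀ a ∈ A, w * a = a * w) (hwA : conjBy A w = A) {e : G}
    (he : e ∈ B) : ⁅A, conjBy A (e⁻¹ * (w * e * w⁻¹))⁆ = ⊥ := by
  have hwA' : conjBy A w⁻¹ = A := by rw [conjBy_eq_iff, inv_inv, hwA]
  by_cases he1 : e = 1
  · rw [he1]
    simp only [inv_one, mul_one, mul_inv_cancel]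
    have : conjBy A 1 = A := conjBy_of_mem A.one_mem
    rw [this, comm_bot_iff]
    exact fun x hx y hy => commute_of_isMulCommutative t.hA hx hy
  obtain ⟨a, ha, ha1, eq⟩ := swap_left t.ab he he1
  have h2 := comm_conj h1 a
  rw [← conjBy_mul, ← hwc a ha, conjBy_mul, ← eq, ← conjBy_mul, comm_conj_iff, ← conjBy_mul] at h2
  have e1 : e⁻¹ * (w * e * w⁻¹) = e⁻¹ * (w * e) * w⁻¹ := by group
  rw [e1, conjBy_mul, hwA']
  exact h2

/-- **the radical case**: small root groups -/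
theorem radical (h0 : ∀ g, conjBy A g ≠ A → ⁅A, conjBy A g⁆ = ⊥ → ⁅E, conjBy A g⁆ = ⊥) (hAE : IsRankOnePair A E)
    {a a₁ e e₁ : G} (ha : a ∈ A) (ha1 : a ≠ 1) (he : e ∈ B) (he1 : e ≠ 1) (hae : conjBy A e = conjBy B a)
    (ha₁ : a₁ ∈ A) (ha₁1 : a₁ ≠ 1) (he₁ : e₁ ∈ B) (he₁1 : e₁ ≠ 1) (hae₁ : conjBy A e₁ = conjBy B a₁) (hne : e ≠ e₁) :
    a₁ = a * a := by
  obtain ⟨c, hc, hc1, eC⟩ := swap_left t.cb he he1
  have h1 := t.core1 hae eC
  set w := a⁻¹ * c with hw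
  have hwA : conjBy A w = A := t.hwA ha hc
  have hwC : conjBy C w = C := t.hwC ha hc
  have hwc : ∀ a ∈ A, w * a = a * w := t.hwc ha hc
  have hwB : conjBy B w ≠ B := t.core2 hae eC
  have hwA' : conjBy A w⁻¹ = A := by rw [conjBy_eq_iff, inv_inv, hwA]
  have hcm : ∀ x ∈ B, ∀ y ∈ B, (w * x * w⁻¹) * y = y * (w * x * w⁻¹) := fun x hx y hy =>
    (commute_of_commutator_bot h1 hy (conjBy_mem hx w)).symm
  -- the elements `v x`
  have hv : ∀ x ∈ B, x ≠ 1 → conjBy A (x⁻¹ * (w * x * w⁻¹)) ≠ A ∧ ⁅A, conjBy A (x⁻¹ * (w * x * w⁻¹))⁆ = ⊥ :=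
    fun x hx hx1 => ⟨t.no_fix hwA hwc hwB hx hx1, t.comm_v h1 hwc hwA hx⟩
  have hvB : ∀ x ∈ B, ∀ y ∈ B, (x⁻¹ * (w * x * w⁻¹)) * y = y * (x⁻¹ * (w * x * w⁻¹)) := by
    intro x hx y hy
    have c1 := hcm x hx y hy
    have c2 := commute_of_isMulCommutative t.hB (B.inv_mem hx) hy
    rw [mul_assoc, c1, ← mul_assoc, c2, mul_assoc]
  set v := e⁻¹ * (w * e * w⁻¹) with hv_def
  set v₁ := e₁⁻¹ * (w * e₁ * w⁻¹) with hv₁_def
  have hvv : v⁻¹ * v₁ = (e⁻¹ * e₁)⁻¹ * (w * (e⁻¹ * e₁) * w⁻¹) := by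
    have c1 := hcm e⁻¹ (B.inv_mem he) (e * e₁⁻¹) (B.mul_mem he (B.inv_mem he₁))
    have c2 := commute_of_isMulCommutative t.hB he (B.inv_mem he₁)
    calc v⁻¹ * v₁ = ((w * e⁻¹ * w⁻¹) * (e * e₁⁻¹)) * (w * e₁ * w⁻¹) := by rw [hv_def, hv₁_def]; group
      _ = ((e * e₁⁻¹) * (w * e⁻¹ * w⁻¹)) * (w * e₁ * w⁻¹) := by rw [c1]
      _ = (e₁⁻¹ * e) * (w * (e⁻¹ * e₁) * w⁻¹) := by rw [c2]; group
      _ = _ := by group
  have hv₁v : v₁⁻¹ * v = (e₁⁻¹ * e)⁻¹ * (w * (e₁⁻¹ * e) * w⁻¹) := by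
    have c1 := hcm e₁⁻¹ (B.inv_mem he₁) (e₁ * e⁻¹) (B.mul_mem he₁ (B.inv_mem he))
    have c2 := commute_of_isMulCommutative t.hB he₁ (B.inv_mem he)
    calc v₁⁻¹ * v = ((w * e₁⁻¹ * w⁻¹) * (e₁ * e⁻¹)) * (w * e * w⁻¹) := by rw [hv_def, hv₁_def]; group
      _ = ((e₁ * e⁻¹) * (w * e₁⁻¹ * w⁻¹)) * (w * e * w⁻¹) := by rw [c1]
      _ = (e⁻¹ * e₁) * (w * (e₁⁻¹ * e) * w⁻¹) := by rw [c2]; group
      _ = _ := by group
  have hvC : conjBy A v = C := by
    have h2 : conjBy A (e⁻¹ * w * e) = C := t.core3 ha hc hae eC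
    have e1 : v = (e⁻¹ * w * e) * w⁻¹ := by rw [hv_def]; group
    rw [e1, conjBy_mul, hwA', h2]
  have hne' : e⁻¹ * e₁ ≠ 1 := fun h => hne (inv_mul_eq_one.1 h)
  have hne'' : e₁⁻¹ * e ≠ 1 := fun h => hne (inv_mul_eq_one.1 h).symm
  have hmem : e⁻¹ * e₁ ∈ B := B.mul_mem (B.inv_mem he) he₁
  have hmem' : e₁⁻¹ * e ∈ B := B.mul_mem (B.inv_mem he₁) he
  have hBv : conjBy B v = B := conj_self_of_comm (hvB e he)
  have hBv₁ : conjBy B v₁ = B := conj_self_of_comm (hvB e₁ he₁)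
  have hinv : ∀ {X : Subgroup G} {g : G}, conjBy X g = X → conjBy X g⁻¹ = X := by
    intro X g h
    rw [conjBy_eq_iff, inv_inv, h]
  -- `c = v a v⁻¹`
  have hcv : c = v * a * v⁻¹ := by
    have h2 : v * a * v⁻¹ ∈ C := by
      have := conjBy_mem ha v
      rwa [hvC] at this
    refine left_unique' t.cb hc h2 ?_
    rw [← eC, ← hvC, ← conjBy_mul, ← hvB e he e he, conjBy_mul, hae, ← conjBy_mul, conjBy_mul B (v * a) v⁻¹, hinv hBv]
  -- the second triple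
  set C₁ := conjBy A v₁ with hC₁
  have t₁ : Trip A B C₁ := by
    refine ⟨t.hA, t.hB, conjBy_isMulCommutative t.hA v₁, t.ab, ?_, (hv e₁ he₁ he₁1).2, (hv e₁ he₁ he₁1).1.symm⟩
    have := pair_conj t.ab v₁
    rwa [hBv₁] at this
  set c₁ := v₁ * a₁ * v₁⁻¹ with hc₁_def
  have hc₁ : c₁ ∈ C₁ := conjBy_mem ha₁ v₁
  have eC₁ : conjBy C₁ e₁ = conjBy B c₁ := by
    rw [hC₁, ← conjBy_mul, ← hvB e₁ he₁ e₁ he₁, conjBy_mul, hae₁, ← conjBy_mul, hc₁_def,
      conjBy_mul B (v₁ * a₁) v₁⁻¹, hinv hBv₁]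
  have h3 : conjBy A (e₁⁻¹ * (a₁⁻¹ * c₁) * e₁) = C₁ := t₁.core3 ha₁ hc₁ hae₁ eC₁
  set w₁ := a₁⁻¹ * c₁ with hw₁
  have hwc₁ : ∀ a ∈ A, w₁ * a = a * w₁ := t₁.hwc ha₁ hc₁
  clear_value w₁
  -- `z = w⁻¹ w₁`
  have h4 : conjBy B w₁ = conjBy B w := by
    have e1 : v₁ = (e₁⁻¹ * w * e₁) * w⁻¹ := by rw [hv₁_def]; group
    have h5 : conjBy A (e₁⁻¹ * w₁ * e₁) = conjBy A (e₁⁻¹ * w * e₁) := by
      rw [h3, hC₁, e1, conjBy_mul A _ w⁻¹, hwA']
    rw [mul_assoc, mul_assoc, conjBy_mul A e₁⁻¹ (w₁ * e₁), conjBy_mul A e₁⁻¹ (w * e₁), conjBy_inj, conjBy_mul A w₁ e₁,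
      conjBy_mul A w e₁, hae₁, ← conjBy_mul, ← conjBy_mul, hwc₁ a₁ ha₁, hwc a₁ ha₁, conjBy_mul B a₁ w₁,
      conjBy_mul B a₁ w, conjBy_inj] at h5
    exact h5
  set z := w⁻¹ * w₁ with hz
  have hzB : conjBy B z = B := by
    rw [hz, conjBy_mul, h4, ← conjBy_mul, inv_mul_cancel]; simp
  have hwci : ∀ x ∈ A, w⁻¹ * x = x * w⁻¹ := by
    intro x hx
    have := hwc x hx
    calc w⁻¹ * x = w⁻¹ * (x * w) * w⁻¹ := by group
      _ = w⁻¹ * (w * x) * w⁻¹ := by rw [this]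
      _ = _ := by group
  have hzA : ∀ x ∈ A, z * x = x * z := by
    intro x hx
    rw [hz, mul_assoc, hwc₁ x hx, ← mul_assoc, hwci x hx, mul_assoc]
  have hzBc : ∀ x ∈ B, z * x = x * z := cent_of_norm (RankOnePair_symm t.ab) hzB hzA
  -- `C` and `C₁` commute
  have hCC₁ : ⁅C, C₁⁆ = ⊥ := by
    rw [← hvC, comm_conj_iff, hC₁, ← conjBy_mul, hvv]
    exact (hv _ hmem hne').2
  have hzw : z * w = w * z := by
    have k1 : w₁ * c = c * w₁ := by
      have k2 := commute_of_commutator_bot hCC₁ hc hc₁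
      have k3 := t.comm (A.inv_mem ha₁) hc
      rw [hw₁, mul_assoc, ← k2, ← mul_assoc, k3, mul_assoc]
    have k4 : w₁ * w = w * w₁ := by
      rw [hw, ← mul_assoc, hwc₁ a⁻¹ (A.inv_mem ha), mul_assoc, k1, ← mul_assoc]
    rw [hz, mul_assoc, k4]
    group
  have hzwi : z * w⁻¹ = w⁻¹ * z := by
    calc z * w⁻¹ = w⁻¹ * (w * z) * w⁻¹ := by group
      _ = w⁻¹ * (z * w) * w⁻¹ := by rw [hzw]
      _ = _ := by group
  have hzV : ∀ x ∈ B, z * (x⁻¹ * (w * x * w⁻¹)) = (x⁻¹ * (w * x * w⁻¹)) * z := by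
    intro x hx
    have c1 := hzBc x hx
    have c2 := hzBc x⁻¹ (B.inv_mem hx)
    calc z * (x⁻¹ * (w * x * w⁻¹)) = (z * x⁻¹) * (w * x * w⁻¹) := by group
      _ = x⁻¹ * (z * w) * (x * w⁻¹) := by rw [c2]; group
      _ = x⁻¹ * w * (z * x) * w⁻¹ := by rw [hzw]; group
      _ = x⁻¹ * w * x * (z * w⁻¹) := by rw [c1]; group
      _ = _ := by rw [hzwi]; group
  have hzv : z * v = v * z := hzV e he
  clear_value v v₁
  -- action on `E`
  have hEC : ⁅E, C⁆ = ⊥ := by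
    rw [← hvC]
    exact h0 v (by rw [hvC]; exact t.ne.symm) (by rw [hvC]; exact t.ac)
  have hEC₁ : ⁅E, C₁⁆ = ⊥ := h0 v₁ t₁.ne.symm t₁.ac
  have hAEv : ⁅A, conjBy E v⁆ = ⊥ := by
    rw [Subgroup.commutator_comm, comm_conj_iff]
    apply h0
    · intro h
      rw [conjBy_eq_iff, inv_inv, hvC] at h
      exact t.ne h
    · rw [Subgroup.commutator_comm, comm_conj_iff, inv_inv, hvC]
      exact t.ac
  have hC₁Ev : ⁅C₁, conjBy E v⁆ = ⊥ := by
    rw [Subgroup.commutator_comm, comm_conj_iff, hC₁, ← conjBy_mul, hvv]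
    exact h0 _ (hv _ hmem hne').1 (hv _ hmem hne').2
  have hzeq : z = c⁻¹ * (a * a₁⁻¹ * c₁) := by
    rw [hz, hw₁, hw]; group
  have k1 : conjBy E z = conjBy E (a * a₁⁻¹) := by
    have k2 : c⁻¹ * (a * a₁⁻¹ * c₁) = (a * a₁⁻¹) * (c⁻¹ * c₁) := by
      have := t.comm (A.mul_mem ha (A.inv_mem ha₁)) (C.inv_mem hc)
      calc c⁻¹ * (a * a₁⁻¹ * c₁) = (c⁻¹ * (a * a₁⁻¹)) * c₁ := by group
        _ = _ := by rw [← this]; group
    rw [hzeq, k2, conjBy_mul, conjBy_mul E c⁻¹ c₁,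
      conj_eq_of_commutator_bot (by rw [Subgroup.commutator_comm]; exact hEC₁) hc₁,
      conj_eq_of_commutator_bot (by rw [Subgroup.commutator_comm]; exact hEC) (C.inv_mem hc)]
  have k3 : conjBy (conjBy E v) z = conjBy E (v * (a * a₁⁻¹)) := by
    rw [← conjBy_mul, hzv, conjBy_mul, k1, ← conjBy_mul]
  have k4 : conjBy (conjBy E v) z = conjBy E (v * a⁻¹) := by
    rw [hzeq, conjBy_mul, conjBy_mul (conjBy E v) (a * a₁⁻¹) c₁, conj_eq_of_commutator_bot hC₁Ev hc₁,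
      conj_eq_of_commutator_bot hAEv (A.mul_mem ha (A.inv_mem ha₁)), ← conjBy_mul, hcv]
    congr 1
    group
  rw [k3, conjBy_mul, conjBy_mul E v a⁻¹, conjBy_inj] at k4
  have k5 := left_unique' hAE (A.mul_mem ha (A.inv_mem ha₁)) (A.inv_mem ha) k4
  calc a₁ = (a * a₁⁻¹)⁻¹ * a := by group
    _ = a * a := by rw [k5, inv_inv]

end Trip

/-! ### Small root groups -/

/-- at most two non-identity elements -/
def Small (B : Subgroup G) : Prop := ∀ x ∈ B, ∀ y ∈ B, ∀ z ∈ B, x ≠ 1 → y ≠ 1 → z ≠ 1 → x ≠ y → x ≠ z → y = z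

lemma Small.conj (h : Small B) (g : G) : Small (conjBy B g) := by
  intro x hx y hy z hz hx1 hy1 hz1 hxy hxz
  rw [mem_conjBy] at hx hy hz
  have hne : ∀ x : G, x ≠ 1 → g⁻¹ * x * g ≠ 1 := by
    intro x hx h
    apply hx
    calc x = g * (g⁻¹ * x * g) * g⁻¹ := by group
      _ = 1 := by rw [h]; group
  have hinj : ∀ x y : G, g⁻¹ * x * g = g⁻¹ * y * g → x = y := by
    intro x y h
    calc x = g * (g⁻¹ * x * g) * g⁻¹ := by group
      _ = y := by rw [h]; group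
  exact hinj _ _ (h _ hx _ hy _ hz (hne x hx1) (hne y hy1) (hne z hz1) (fun h => hxy (hinj _ _ h))
    (fun h => hxz (hinj _ _ h)))

lemma special_of_small (h : IsRankOnePair A B) (hA : IsMulCommutative A) (hs : Small B) : IsSpecialRankOnePair A B := by
  apply special_of_inv h
  intro a ha ha1 b hb hb1 e
  obtain ⟨b', hb', hb'1, e'⟩ := swap_right h (A.inv_mem ha) (by simpa using ha1)
  by_cases hbb : b' = b⁻¹
  · rw [← hbb]; exact e'
  exfalso
  have hbi : b⁻¹ ∈ B := B.inv_mem hb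
  have hbi1 : b⁻¹ ≠ 1 := by simpa using hb1
  by_cases h1 : b = b'
  · -- `a = a⁻¹`
    have h2 : a = a⁻¹ := by
      rw [← h1] at e'
      exact left_unique' h ha (A.inv_mem ha) (e.symm.trans e')
    have h3 : b ≠ b⁻¹ := fun h4 => hbb (h1.symm.trans h4)
    obtain ⟨a2, ha2, ha21, e2⟩ := swap_left h hbi hbi1
    have h4 : a2 ≠ a := by
      intro h5
      rw [h5, ← e] at e2
      exact h3 (right_unique' h hbi hb e2).symm
    have h5 : a * a2 ≠ 1 := by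
      intro h6
      apply h4
      rw [h2]
      exact (inv_eq_of_mul_eq_one_right h6).symm
    obtain ⟨b3, hb3, hb31, e3⟩ := swap_right h (A.mul_mem ha ha2) h5
    have h6 : b ≠ b3 := by
      intro h7
      rw [← h7, e] at e3
      have := left_unique' h ha (A.mul_mem ha ha2) e3
      exact ha21 (left_eq_mul.1 this)
    have h7 := hs b hb b⁻¹ hbi b3 hb3 hb1 hbi1 hb31 h3 h6
    rw [← h7, e2] at e3
    have := left_unique' h ha2 (A.mul_mem ha ha2) e3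
    exact ha1 (right_eq_mul.1 this)
  · by_cases h2 : b = b⁻¹
    · have h3 : b * b' ≠ 1 := fun h4 => hbb (inv_eq_of_mul_eq_one_right h4).symm
      have h4 := hs b hb b' hb' (b * b') (B.mul_mem hb hb') hb1 hb'1 h3 h1 (fun h5 => hb'1 (left_eq_mul.1 h5))
      exact hb1 (right_eq_mul.1 h4)
    · exact hbb (hs b hb b' hb' b⁻¹ hbi hb1 hb'1 hbi1 h1 h2)

/-! ### Degenerate classes -/

variable {S : Set (Subgroup G)}

/-- common partners -/
lemma dist_two (hS : IsRootSubgroupSet S) (hd : ∀ A ∈ S, ∀ B ∈ S, ⁅A, B⁆ = ⊥ ∨ IsRankOnePair A B) {A C : Subgroup G}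
    (hA : A ∈ S) (hI : ∃ B ∈ S, IsRankOnePair A B) (h : RootComp.Reach S A C) :
    IsRankOnePair A C ∨ ∃ E ∈ S, IsRankOnePair A E ∧ IsRankOnePair C E := by
  induction h with
  | refl =>
    obtain ⟨B, hB, h⟩ := hI
    exact Or.inr ⟨B, hB, h, h⟩
  | @tail C D hAC hCD ih =>
    have hC : C ∈ S := RootComp.reach_mem hA hAC
    have hD : D ∈ S := hCD.2.1
    have hCD' : IsRankOnePair C D := hCD.2.2
    by_cases hAC' : ⁅A, C⁆ = ⊥
    · rcases ih with ih | ⟨E, hE, hAE, hCE⟩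
      · exact absurd hAC' (not_commute ih)
      · rcases hd E hE D hD with hED | hED
        · -- move `C` by an element of `E`
          right
          obtain ⟨e, he, he1⟩ := exists_right hAE
          refine ⟨conjBy C e, hS.conj_mem C hC e, ?_, ?_⟩
          · refine (hd A hA _ (hS.conj_mem C hC e)).resolve_left fun hbot => ?_
            obtain ⟨a, ha, ha1, eq⟩ := swap_left hAE (E.inv_mem he) (by simpa using he1)
            rw [Subgroup.commutator_comm, comm_conj_iff, eq, Subgroup.commutator_comm, comm_conj_iff] at hbot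
            rw [conj_eq_of_commutator_bot hAC' (A.inv_mem ha)] at hbot
            exact not_commute hCE (by rw [Subgroup.commutator_comm]; exact hbot)
          · have := pair_conj (RankOnePair_symm hCD') e
            rwa [conj_eq_of_commutator_bot hED he] at this
        · exact Or.inr ⟨E, hE, hAE, RankOnePair_symm hED⟩
    · exact Or.inr ⟨C, hC, (hd A hA C hC).resolve_left hAC', RankOnePair_symm hCD'⟩

/-- **rank one pairs in degenerate classes are special** -/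
theorem main (hS : IsRootSubgroupClass S) (hd : ∀ A ∈ S, ∀ B ∈ S, ⁅A, B⁆ = ⊥ ∨ IsRankOnePair A B)
    (hcomm : ∃ A ∈ S, ∃ C ∈ S, A ≠ C ∧ ⁅A, C⁆ = ⊥) {A B : Subgroup G} (hA : A ∈ S) (hB : B ∈ S)
    (h : IsRankOnePair A B) : IsSpecialRankOnePair A B := by
  have hc := hS.1.commutative
  by_cases h1 : ∃ C ∈ S, A ≠ C ∧ ⁅A, C⁆ = ⊥ ∧ IsRankOnePair C B
  · obtain ⟨C, hC, hne, hAC, hCB⟩ := h1
    exact Trip.special ⟨hc A hA, hc B hB, hc C hC, h, hCB, hAC, hne⟩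
  · obtain ⟨A₀, hA₀, C₀, hC₀, hne₀, hcomm₀⟩ := hcomm
    obtain ⟨g, rfl⟩ := hS.2.2 A₀ hA₀ A hA
    have hC : conjBy C₀ g ∈ S := hS.1.conj_mem C₀ hC₀ g
    have hne : conjBy A₀ g ≠ conjBy C₀ g := fun h => hne₀ (conjBy_inj.1 h)
    have hAC := comm_conj hcomm₀ g
    set A := conjBy A₀ g
    set C := conjBy C₀ g
    have hreach : RootComp.Reach S A C := by
      obtain ⟨x, hx⟩ := hS.2.2 A hA C hC
      rw [hx]
      refine RootComp.pre_reach_conj ⟨hc, hS.1.ne_bot, fun A hA g _ => hS.1.conj_mem A hA g, hS.1.pair⟩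
        (RootClass.class_iso hS hA hB h) hA ?_
      rw [hS.1.generates]
      trivial
    rcases dist_two hS.1 hd hA ⟨B, hB, h⟩ hreach with h2 | ⟨E, hE, hAE, hCE⟩
    · exact absurd hAC (not_commute h2)
    · have t : Trip A E C := ⟨hc A hA, hc E hE, hc C hC, hAE, hCE, hAC, hne⟩
      have h0 : ∀ g, conjBy A g ≠ A → ⁅A, conjBy A g⁆ = ⊥ → ⁅B, conjBy A g⁆ = ⊥ := by
        intro g hg hg'
        rw [Subgroup.commutator_comm]
        exact (hd _ (hS.1.conj_mem A hA g) B hB).resolve_right fun h3 =>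
          h1 ⟨_, hS.1.conj_mem A hA g, hg.symm, hg', h3⟩
      have hs : Small E := by
        intro x hx y hy z hz hx1 hy1 hz1 hxy hxz
        obtain ⟨a, ha, ha1, ea⟩ := swap_left hAE hx hx1
        obtain ⟨a', ha', ha'1, ea'⟩ := swap_left hAE hy hy1
        obtain ⟨a'', ha'', ha''1, ea''⟩ := swap_left hAE hz hz1
        have k1 := t.radical h0 h ha ha1 hx hx1 ea ha' ha'1 hy hy1 ea' hxy
        have k2 := t.radical h0 h ha ha1 hx hx1 ea ha'' ha''1 hz hz1 ea'' hxz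
        apply right_unique' hAE hy hz
        rw [ea', ea'', k1, k2]
      obtain ⟨g', rfl⟩ := hS.2.2 E hE B hB
      exact special_of_small h (hc A hA) (hs.conj g')

end Cfsg.Agent.Lib.RootDeg
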