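import Cfsg.Prelude.Def_RootSubgroups
import Cfsg.Agent.Lib.BaerSuzuki
import Cfsg.Agent.Lib.Cores

/-! Calculus of root involutions (helper65). -/

set_option autoImplicit false
open Cfsg

namespace Cfsg.Agent.RootInvE

variable {G : Type*} [Group G] {D : Set G}

theorem cancel_left {a : G} (h : a * a = 1) (x : G) : a * (a * x) = x := by
  rw [← mul_assoc, h, one_mul]

/-- `o(ab)` is odd and `a ≠ b`. -/
def Od (a b : G) : Prop := a ≠ b ∧ Odd (orderOf (a * b))

/-- `o(ab) = 4`. -/
def Fo (a b : G) : Prop := orderOf (a * b) = 4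

/-- the commutator of two involutions. -/
def cm (a b : G) : G := (a * b) ^ 2

/-- `a, b, ab` is a line of `D`. -/
structure Ln (D : Set G) (a b : G) : Prop where
  ha : a ∈ D
  hb : b ∈ D
  comm : Commute a b
  mul_mem : a * b ∈ D

theorem orderOf_swap (a b : G) : orderOf (a * b) = orderOf (b * a) := by
  have h : b * a = a⁻¹ * (a * b) * a := by group
  have h2 : b * a = (MulAut.conj a⁻¹) (a * b) := by simp
  rw [h2]
  exact (orderOf_injective (MulAut.conj a⁻¹).toMonoidHom (MulAut.conj a⁻¹).injective _).symm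

theorem Od.symm {a b : G} (h : Od a b) : Od b a := ⟨h.1.symm, by rw [orderOf_swap]; exact h.2⟩
theorem Fo.symm {a b : G} (h : Fo a b) : Fo b a := by rw [Fo, orderOf_swap]; exact h

theorem orderOf_conj' (g x : G) : orderOf (g * x * g⁻¹) = orderOf x :=
  orderOf_injective (MulAut.conj g).toMonoidHom (MulAut.conj g).injective x

theorem Od.conj {a b : G} (h : Od a b) (g : G) : Od (g * a * g⁻¹) (g * b * g⁻¹) := by
  refine ⟨fun he => h.1 ?_, ?_⟩
  · exact mul_left_cancel (mul_right_cancel he)
  · have : g * a * g⁻¹ * (g * b * g⁻¹) = g * (a * b) * g⁻¹ := by group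
    rw [this, orderOf_conj']; exact h.2

theorem Od.conj_iff {a b : G} (g : G) : Od (g * a * g⁻¹) (g * b * g⁻¹) ↔ Od a b := by
  refine ⟨fun h => ?_, fun h => h.conj g⟩
  have := h.conj g⁻¹
  have e : ∀ x : G, g⁻¹ * (g * x * g⁻¹) * g⁻¹⁻¹ = x := fun x => by group
  rwa [e, e] at this

theorem Fo.conj {a b : G} (h : Fo a b) (g : G) : Fo (g * a * g⁻¹) (g * b * g⁻¹) := by
  have : g * a * g⁻¹ * (g * b * g⁻¹) = g * (a * b) * g⁻¹ := by group
  rw [Fo, this, orderOf_conj']; exact h

section

variable (hD : IsRootInvolutionSet D)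
include hD

theorem sq {a : G} (ha : a ∈ D) : a * a = 1 := by
  have := pow_orderOf_eq_one a
  rwa [hD.orderOf_eq a ha, pow_two] at this

theorem ne_one {a : G} (ha : a ∈ D) : a ≠ 1 := by
  rintro rfl
  have := hD.orderOf_eq 1 ha
  simp at this

theorem inv_eq {a : G} (ha : a ∈ D) : a⁻¹ = a := inv_eq_of_mul_eq_one_left (sq hD ha)

theorem one_notMem : (1 : G) ∉ D := fun h => ne_one hD h rfl

theorem conj_mem' {a b : G} (ha : a ∈ D) (hb : b ∈ D) : b * a * b ∈ D := by
  have := hD.conj_mem a ha b
  rwa [inv_eq hD hb] at this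

theorem tri {a b : G} (ha : a ∈ D) (hb : b ∈ D) : Commute a b ∨ Od a b ∨ (Fo a b ∧ cm a b ∈ D) := by
  rcases hD.pair a ha b hb with h | h | h
  · exact Or.inl h
  · by_cases hab : a = b
    · left; rw [hab]
    · exact Or.inr (Or.inl ⟨hab, h⟩)
  · exact Or.inr (Or.inr h)

theorem sq_of_commute {a b : G} (ha : a ∈ D) (hb : b ∈ D) (h : Commute a b) : (a * b) ^ 2 = 1 := by
  rw [h.mul_pow, pow_two, pow_two, sq hD ha, sq hD hb, one_mul]

theorem orderOf_of_commute {a b : G} (ha : a ∈ D) (hb : b ∈ D) (h : Commute a b) : orderOf (a * b) ∣ 2 :=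
  orderOf_dvd_of_pow_eq_one (sq_of_commute hD ha hb h)

theorem Od.not_commute {a b : G} (h : Od a b) (ha : a ∈ D) (hb : b ∈ D) : ¬ Commute a b := by
  intro hc
  have h2 := orderOf_of_commute hD ha hb hc
  have h1 : orderOf (a * b) = 1 := by
    rcases (Nat.dvd_prime Nat.prime_two).1 h2 with h' | h'
    · exact h'
    · have := h.2; rw [h'] at this; exact absurd this (by decide)
  rw [orderOf_eq_one_iff] at h1
  apply h.1
  rw [← inv_eq hD hb]; exact eq_inv_of_mul_eq_one_left h1

omit hD in
theorem Fo.not_od {a b : G} (h : Fo a b) : ¬ Od a b := fun h' => by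
  have := h'.2; rw [show orderOf (a * b) = 4 from h] at this; exact absurd this (by decide)

theorem Fo.not_commute {a b : G} (h : Fo a b) (ha : a ∈ D) (hb : b ∈ D) : ¬ Commute a b := by
  intro hc
  have h2 := orderOf_of_commute hD ha hb hc
  rw [show orderOf (a * b) = 4 from h] at h2
  exact absurd h2 (by decide)

theorem cm_mem {a b : G} (ha : a ∈ D) (hb : b ∈ D) (h : Fo a b) : cm a b ∈ D := by
  rcases tri hD ha hb with h' | h' | h'
  · exact absurd h' (h.not_commute hD ha hb)
  · exact absurd h' h.not_od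
  · exact h'.2

theorem cm_symm {a b : G} (ha : a ∈ D) (hb : b ∈ D) (h : Fo a b) : cm b a = cm a b := by
  have h1 : (b * a) = (a * b)⁻¹ := by rw [mul_inv_rev, inv_eq hD ha, inv_eq hD hb]
  have h2 : cm a b * cm a b = 1 := sq hD (cm_mem hD ha hb h)
  rw [cm, h1, inv_pow]
  exact inv_eq_of_mul_eq_one_left h2

/-- `b a b = a c` -/
theorem conj_eq {a b : G} (ha : a ∈ D) (_hb : b ∈ D) : b * a * b = a * cm a b := by
  simp only [cm, pow_two, mul_assoc, cancel_left (sq hD ha)]

theorem ln_cm {a b : G} (ha : a ∈ D) (hb : b ∈ D) (h : Fo a b) : Ln D a (cm a b) := by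
  refine ⟨ha, cm_mem hD ha hb h, ?_, ?_⟩
  · -- a c a = c
    have h1 : a * cm a b * a = cm a b := by
      have : a * cm a b * a = cm b a := by
        simp only [cm, pow_two, mul_assoc, cancel_left (sq hD ha)]
      rw [this, cm_symm hD ha hb h]
    have h2 : a * cm a b = cm a b * a := by
      calc a * cm a b = a * cm a b * a * a := by rw [mul_assoc (a * cm a b), sq hD ha, mul_one]
        _ = _ := by rw [h1]
    exact h2
  · rw [← conj_eq hD ha hb]; exact conj_mem' hD ha hb

theorem ln_cm' {a b : G} (ha : a ∈ D) (hb : b ∈ D) (h : Fo a b) : Ln D b (cm a b) := by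
  rw [← cm_symm hD ha hb h]; exact ln_cm hD hb ha h.symm

omit hD in
theorem Ln.symm {a b : G} (h : Ln D a b) : Ln D b a := ⟨h.hb, h.ha, h.comm.symm, by rw [← h.comm.eq]; exact h.mul_mem⟩

theorem Ln.third {a b : G} (h : Ln D a b) : Ln D a (a * b) :=
  ⟨h.ha, h.mul_mem, (Commute.refl a).mul_right h.comm, by rw [cancel_left (sq hD h.ha)]; exact h.hb⟩

theorem Ln.ne {a b : G} (h : Ln D a b) : a ≠ b := by
  rintro rfl
  have := h.mul_mem
  rw [sq hD h.ha] at this
  exact one_notMem hD this

theorem orderOf_mul_two {z w : G} (hz : z ∈ D) (hw : Odd (orderOf w)) (hc : Commute z w) :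
    orderOf (z * w) = 2 * orderOf w := by
  rw [hc.orderOf_mul_eq_mul_orderOf_of_coprime, hD.orderOf_eq z hz]
  rw [hD.orderOf_eq z hz]
  exact (Nat.coprime_two_left).2 hw

/-- no product of two members of `D` has order twice an odd number `> 1`. -/
theorem not_two_odd {u v w : G} (hu : u ∈ D) (hv : v ∈ D) (hw : Odd (orderOf w)) (hw1 : w ≠ 1)
    (h : orderOf (u * v) = 2 * orderOf w) : False := by
  have h1 : orderOf w ≠ 1 := fun h => hw1 (orderOf_eq_one_iff.1 h)
  obtain ⟨k, hk⟩ := hw
  rcases tri hD hu hv with h' | h' | h'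
  · have := Nat.le_of_dvd (by norm_num) (orderOf_of_commute hD hu hv h')
    omega
  · have := h'.2
    rw [h] at this
    obtain ⟨m, hm⟩ := this
    omega
  · have := h'.1
    rw [Fo, h] at this
    omega

theorem b4 {a b x : G} (h : Ln D a b) (hx : x ∈ D) (hax : Od a x) : ¬ Commute b x := by
  intro hc
  have hne : a * x ≠ 1 := fun h1 => hax.1 (by rw [← inv_eq hD hx]; exact eq_inv_of_mul_eq_one_left h1)
  have h1 : orderOf (a * b * x) = 2 * orderOf (a * x) := by
    have : a * b * x = b * (a * x) := by rw [h.comm.eq, mul_assoc]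
    rw [this]
    exact orderOf_mul_two hD h.hb hax.2 (h.comm.symm.mul_right hc)
  exact not_two_odd hD h.mul_mem hx hax.2 hne h1

theorem b4' {a b x : G} (h : Ln D a b) (hx : x ∈ D) (hax : Od a x) : Od b x ∨ Fo b x := by
  rcases tri hD h.hb hx with h' | h' | h'
  · exact absurd h' (b4 hD h hx hax)
  · exact Or.inl h'
  · exact Or.inr h'.1

theorem b5' {a b x : G} (h : Ln D a b) (hx : x ∈ D) (hax : Od a x) (hbx : Fo b x) : Fo a (cm b x) := by
  have hc := cm_mem hD h.hb hx hbx
  rcases tri hD h.ha hc with h' | h' | h'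
  · exact absurd h'.symm (b4 hD (ln_cm' hD h.hb hx hbx) h.ha hax.symm)
  · -- a ∈ A_c, b ∈ X_c
    exact absurd h.comm.symm (b4 hD (ln_cm hD h.hb hx hbx).symm h.ha h'.symm)
  · exact h'.1

/-- the last possibility on a line -/
theorem b5 {a b x : G} (h : Ln D a b) (hx : x ∈ D) (hax : Od a x) (hbx : Fo b x) : Od (a * b) x := by
  rcases b4' hD (h.third hD) hx hax with h' | h'
  · exact h'
  exfalso
  have ha := h.ha
  have hb := h.hb
  set c := cm b x with hcdef
  have hc : c ∈ D := cm_mem hD hb hx hbx
  have hac : Fo a c := b5' hD h hx hax hbx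
  set e := cm a c with hedef
  have he : e ∈ D := cm_mem hD ha hc hac
  have saa := sq hD ha
  have sbb := sq hD hb
  have scc := sq hD hc
  have see := sq hD he
  have sxx := sq hD hx
  have cbc : Commute b c := (ln_cm hD hb hx hbx).comm
  have cxc : Commute x c := (ln_cm' hD hb hx hbx).comm
  have cae : Commute a e := (ln_cm hD ha hc hac).comm
  have cce : Commute c e := (ln_cm' hD ha hc hac).comm
  -- b x = c x b
  have h1 : b * x = c * x * b := by
    have : c * (x * b) = b * x := by
      rw [hcdef, cm, pow_two]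
      simp only [mul_assoc, cancel_left sxx, sbb, mul_one]
    rw [← this, mul_assoc]
  -- c a c = a e
  have h2 : c * a * c = a * e := conj_eq hD ha hc
  -- (abx)^2 = a * (x a x) * (x e x) * c
  have h3 : (a * b * x) * (a * b * x) = a * (x * a * x) * (x * e * x) * c := by
    have e1 : b * x * a * b * x = (x * a * x) * (x * e * x) * c := by
      calc b * x * a * b * x = b * x * a * (b * x) := by group
        _ = (c * x * b) * a * (c * x * b) := by rw [← h1]
        _ = c * x * (b * a * c * x * b) := by group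
        _ = c * x * (a * c * (b * x * b)) := by
            have : b * a * c = a * c * b := by
              rw [← h.comm.eq, mul_assoc, cbc.eq, ← mul_assoc]
            rw [this]; group
        _ = c * x * (a * c * (c * x * b * b)) := by rw [h1]
        _ = c * x * a * x := by
            simp only [mul_assoc, cancel_left scc, sbb, mul_one]
        _ = x * (c * a * c) * x * c := by
            have e3 : x * c = c * x := cxc.eq
            calc c * x * a * x = c * x * a * x * (c * c) := by rw [scc, mul_one]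
              _ = (c * x) * a * (x * c) * c := by group
              _ = (x * c) * a * (c * x) * c := by rw [e3]
              _ = _ := by group
        _ = x * (a * e) * x * c := by rw [h2]
        _ = (x * a * x) * (x * e * x) * c := by
            simp only [mul_assoc, cancel_left sxx]
    calc (a * b * x) * (a * b * x) = a * (b * x * a * b * x) := by group
      _ = _ := by rw [e1]; group
  -- it commutes with x
  have habm := h.mul_mem
  have h4 : Commute (cm (a * b) x) x := (ln_cm' hD habm hx h').comm.symm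
  have h5 : cm (a * b) x = a * (x * a * x) * (x * e * x) * c := by rw [cm, pow_two, h3]
  have h6 : x * (a * (x * a * x) * (x * e * x) * c) * x = a * (x * a * x) * (x * e * x) * c := by
    rw [← h5, ← h4.eq, mul_assoc, sxx, mul_one]
  have h7 : x * a * x * a * e = a * (x * a * x) * (x * e * x) := by
    have : x * (a * (x * a * x) * (x * e * x) * c) * x = x * a * x * a * e * c := by
      calc x * (a * (x * a * x) * (x * e * x) * c) * x
          = x * a * (x * a * x) * (x * e * x) * (c * x) := by group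
        _ = x * a * (x * a * x) * (x * e * x) * (x * c) := by rw [cxc.eq]
        _ = _ := by simp only [mul_assoc, cancel_left sxx]
    rw [this] at h6
    exact mul_right_cancel h6
  -- (ax)^4 = (ex)^2
  have h8 : (a * x) ^ 4 = (e * x) ^ 2 := by
    have e1 : (x * a) * (x * a) * e = (a * x) * (a * x) * (x * e * x) := by
      calc (x * a) * (x * a) * e = x * a * x * a * e := by group
        _ = a * (x * a * x) * (x * e * x) := h7
        _ = _ := by group
    have e2 : (a * x) * (a * x) * ((x * a) * (x * a) * e) = e := by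
      simp only [mul_assoc, cancel_left sxx, cancel_left saa]
    have e3 : (a * x) * (a * x) * ((a * x) * (a * x)) * (x * e * x) = e := by
      calc (a * x) * (a * x) * ((a * x) * (a * x)) * (x * e * x)
          = (a * x) * (a * x) * ((a * x) * (a * x) * (x * e * x)) := by group
        _ = e := by rw [← e1, e2]
    have e4 : (x * e * x) * (x * e * x) = 1 := by
      simp only [mul_assoc, cancel_left sxx, cancel_left see, sxx]
    have e5 : (a * x) * (a * x) * ((a * x) * (a * x)) = e * (x * e * x) := by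
      calc (a * x) * (a * x) * ((a * x) * (a * x))
          = (a * x) * (a * x) * ((a * x) * (a * x)) * ((x * e * x) * (x * e * x)) := by rw [e4, mul_one]
        _ = ((a * x) * (a * x) * ((a * x) * (a * x)) * (x * e * x)) * (x * e * x) := by group
        _ = _ := by rw [e3]
    have e6 : (a * x) ^ 4 = (a * x) * (a * x) * ((a * x) * (a * x)) := by
      rw [show (4 : ℕ) = 2 + 2 from rfl, pow_add, pow_two]
    rw [e6, e5, pow_two]; group
  have hodd : ∀ k : ℕ, (a * x) ^ (2 ^ k) = 1 → False := by
    intro k hk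
    have hd : orderOf (a * x) ∣ 2 ^ k := orderOf_dvd_of_pow_eq_one hk
    have hcop : (orderOf (a * x)).Coprime (2 ^ k) := (Nat.coprime_two_right.2 hax.2).pow_right k
    have : orderOf (a * x) = 1 := Nat.Coprime.eq_one_of_dvd hcop hd
    rw [orderOf_eq_one_iff] at this
    exact hax.1 (by rw [← inv_eq hD hx]; exact eq_inv_of_mul_eq_one_left this)
  rcases tri hD he hx with h9 | h9 | h9
  · apply hodd 2
    rw [show (2 ^ 2 : ℕ) = 4 from rfl, h8]
    exact sq_of_commute hD he hx h9
  · -- e ∈ A_x, c ∈ X_e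
    exact b4 hD (ln_cm' hD ha hc hac).symm hx h9 cxc.symm
  · apply hodd 3
    rw [show (2 ^ 3 : ℕ) = 4 * 2 from rfl, pow_mul, h8, ← pow_mul]
    have := pow_orderOf_eq_one (e * x)
    rw [h9.1] at this
    exact this

/-- **Line lemma**. -/
theorem line {a b x : G} (h : Ln D a b) (hx : x ∈ D) (hax : Od a x) : Od b x ∨ Od (a * b) x := by
  rcases b4' hD h hx hax with h' | h'
  · exact Or.inl h'
  · exact Or.inr (b5 hD h hx hax h')

/-- symmetric version: if `x` is odd with the product then it is odd with one of the factors. -/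
theorem line' {a b x : G} (h : Ln D a b) (hx : x ∈ D) (hax : Od (a * b) x) : Od a x ∨ Od b x := by
  have := line hD (h.third hD).symm hx hax
  rcases this with h' | h'
  · exact Or.inl h'
  · right
    have e : a * b * a = b := by rw [h.comm.eq, mul_assoc, sq hD h.ha, mul_one]
    rwa [e] at h'

/-! ### Conjugacy -/

theorem Od.exists_conj {a b : G} (ha : a ∈ D) (hb : b ∈ D) (h : Od a b) : ∃ g : G, b = g * a * g⁻¹ := by
  obtain ⟨m, hm⟩ := h.2
  refine ⟨(a * b) ^ m, ?_⟩
  have saa := sq hD ha
  have sbb := sq hD hb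
  have h1 : ∀ k : ℕ, a * ((a * b) ^ k)⁻¹ = (a * b) ^ k * a := by
    intro k
    have h0 : a * (a * b)⁻¹ * a⁻¹ = a * b := by
      rw [mul_inv_rev, inv_eq hD ha, inv_eq hD hb]
      simp only [mul_assoc, saa, mul_one]
    have : a * ((a * b) ^ k)⁻¹ * a⁻¹ = (a * b) ^ k := by
      rw [← inv_pow, ← conj_pow, h0]
    exact mul_inv_eq_iff_eq_mul.1 this
  rw [mul_assoc, h1, ← mul_assoc, ← pow_add]
  have h2 : (a * b) ^ (m + m) * (a * b) = 1 := by
    rw [← pow_succ, ← two_mul, ← hm, pow_orderOf_eq_one]
  have h3 : (a * b) ^ (m + m) = (a * b)⁻¹ := eq_inv_of_mul_eq_one_left h2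
  rw [h3, mul_inv_rev, mul_assoc, inv_mul_cancel, mul_one, inv_eq hD hb]

theorem class_of_connected (hc : IsConnectedSet (OddAdj D) D) {a b : G} (ha : a ∈ D) (hb : b ∈ D) :
    ∃ g : G, b = g * a * g⁻¹ := by
  have h := hc a ha b hb
  clear hb
  induction h with
  | refl => exact ⟨1, by group⟩
  | tail _ h2 ih =>
    obtain ⟨g, hg⟩ := ih
    obtain ⟨g', hg'⟩ := Od.exists_conj hD h2.1 h2.2.1 ⟨h2.2.2.1, h2.2.2.2⟩
    exact ⟨g' * g, by rw [hg', hg]; group⟩

end

end Cfsg.Agent.RootInvE
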