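import Cfsg.Agent.Lib.RootInvE

/-! Root involutions: the periodicity lemma and Lemma E (helper65). -/

set_option autoImplicit false
open Cfsg

namespace Cfsg.Agent.RootInvE

variable {G : Type*} [Group G] {D : Set G}

section

variable (hD : IsRootInvolutionSet D)
include hD

/-- `[[b,t],a]`. -/
theorem phi_mem {a b t : G} (h : Ln D a b) (ht : t ∈ D) (hat : Od a t) (hbt : Fo b t) :
    Ln D a (cm (cm b t) a) ∧ Fo (cm (cm b t) a) t := by
  have hs := cm_mem hD h.hb ht hbt
  have hsa : Fo a (cm b t) := b5' hD h ht hat hbt
  have h1 : Ln D a (cm (cm b t) a) := ln_cm' hD hs h.ha hsa.symm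
  refine ⟨h1, ?_⟩
  rcases b4' hD h1 ht hat with h' | h'
  · exfalso
    have h2 := (ln_cm hD hs h.ha hsa.symm).symm
    exact b4 hD h2 ht h' (ln_cm' hD h.hb ht hbt).comm.symm
  · exact h'

omit hD in
theorem comm_conj {a x y x' y' : G} (h : Commute x y) (hx : a * x * a = x') (hy : a * y * a = y') (ha : a * a = 1) :
    Commute x' y' := by
  have h0 : x * y = y * x := h
  rw [← hx, ← hy]
  change a * x * a * (a * y * a) = a * y * a * (a * x * a)
  have e1 : a * x * a * (a * y * a) = a * (x * y) * a := by
    simp only [mul_assoc, cancel_left ha]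
  have e2 : a * y * a * (a * x * a) = a * (y * x) * a := by
    simp only [mul_assoc, cancel_left ha]
  rw [e1, e2, h0]

omit hD in
theorem comm_cancel {x y z : G} (h1 : Commute x y) (h2 : Commute x (y * z)) : Commute x z := by
  have := (h1.inv_right).mul_right h2
  rwa [inv_mul_cancel_left] at this

theorem exists_preimage [Finite G] {a b t : G} (h : Ln D a b) (ht : t ∈ D) (hat : Od a t) (hbt : Fo b t) :
    ∃ b', Ln D a b' ∧ Fo b' t ∧ cm (cm b' t) a = b := by
  classical
  have ha := h.ha
  have saa := sq hD ha
  have stt := sq hD ht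
  let φ : G → G := fun x => cm (cm x t) a
  let B : ℕ → G := fun n => φ^[n] b
  have hBsucc : ∀ n, B (n + 1) = cm (cm (B n) t) a := fun n => Function.iterate_succ_apply' φ n b
  have hB : ∀ n, Ln D a (B n) ∧ Fo (B n) t := by
    intro n
    induction n with
    | zero => exact ⟨h, hbt⟩
    | succ n ih => rw [hBsucc]; exact phi_mem hD ih.1 ht hat ih.2
  let S : ℕ → G := fun n => cm (B n) t
  have hS : ∀ n, S n ∈ D := fun n => cm_mem hD (hB n).1.hb ht (hB n).2
  have hSa : ∀ n, Fo (S n) a := fun n => (b5' hD (hB n).1 ht hat (hB n).2).symm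
  have hBS : ∀ n, B (n + 1) = cm (S n) a := hBsucc
  -- conjugation formulas
  have cBt : ∀ n, t * B n * t = B n * S n := fun n => conj_eq hD (hB n).1.hb ht
  have cSt : ∀ n, t * S n * t = S n := fun n => by
    have := (ln_cm' hD (hB n).1.hb ht (hB n).2).comm
    calc t * S n * t = S n * t * t := by rw [this.eq]
      _ = S n := by rw [mul_assoc, stt, mul_one]
  have cSa : ∀ n, a * S n * a = S n * B (n + 1) := fun n => by
    rw [hBS]; exact conj_eq hD (hS n) ha
  have cBa : ∀ n, a * B n * a = B n := fun n => by
    rw [(hB n).1.comm.eq, mul_assoc, saa, mul_one]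
  have BScomm : ∀ n, Commute (B n) (S n) := fun n => (ln_cm hD (hB n).1.hb ht (hB n).2).comm
  have SBcomm : ∀ n, Commute (S n) (B (n + 1)) := fun n => by
    rw [hBS]; exact (ln_cm hD (hS n) ha (hSa n)).comm
  -- everything commutes
  have key : ∀ n, ∀ i ≤ n, Commute (B i) (B n) ∧ Commute (S i) (B n) ∧ Commute (B i) (S n) ∧ Commute (S i) (S n) := by
    intro n
    induction n with
    | zero =>
      intro i hi
      obtain rfl : i = 0 := by omega
      exact ⟨Commute.refl _, (BScomm 0).symm, BScomm 0, Commute.refl _⟩
    | succ n ih =>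
      have h1 : ∀ i ≤ n + 1, Commute (B i) (B (n + 1)) := by
        intro i hi
        rcases Nat.lt_or_ge i (n + 1) with hi' | hi'
        · have := comm_conj (ih i (by omega)).2.2.1 (cBa i) (cSa n) saa
          exact comm_cancel (ih i (by omega)).2.2.1 this
        · obtain rfl : i = n + 1 := by omega
          exact Commute.refl _
      have h2 : ∀ i ≤ n + 1, Commute (S i) (B (n + 1)) := by
        intro i hi
        rcases Nat.lt_or_ge i (n + 1) with hi' | hi'
        · have h3 := comm_conj (ih i (by omega)).2.2.2 (cSa i) (cSa n) saa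
          -- B (i+1) commutes with S n * B (n+1)
          have h4 : Commute (B (i + 1)) (S n) := by
            rcases Nat.lt_or_ge i n with hi2 | hi2
            · exact (ih (i + 1) (by omega)).2.2.1
            · obtain rfl : i = n := by omega
              exact (SBcomm i).symm
          have h5 : Commute (B (i + 1)) (S n * B (n + 1)) := h4.mul_right (h1 (i + 1) (by omega))
          have h6 : Commute (S i) (S n * B (n + 1)) := by
            have := h3.mul_left h5.inv_left
            rwa [mul_inv_cancel_right] at this
          exact comm_cancel (ih i (by omega)).2.2.2 h6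
        · obtain rfl : i = n + 1 := by omega
          exact (BScomm _).symm
      have h3 : ∀ i ≤ n + 1, Commute (S i) (S (n + 1)) := by
        intro i hi
        exact comm_cancel (h2 i hi) (comm_conj (h2 i hi) (cSt i) (cBt (n + 1)) stt)
      intro i hi
      refine ⟨h1 i hi, h2 i hi, ?_, h3 i hi⟩
      have h4 := comm_conj (h1 i hi) (cBt i) (cBt (n + 1)) stt
      have h5 : Commute (S i) (B (n + 1) * S (n + 1)) := (h2 i hi).mul_right (h3 i hi)
      have h6 : Commute (B i) (B (n + 1) * S (n + 1)) := by
        have := h4.mul_left h5.inv_left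
        rwa [mul_inv_cancel_right] at this
      exact comm_cancel (h1 i hi) h6
  have cBB : ∀ i j, Commute (B i) (B j) := by
    intro i j
    rcases le_total i j with hij | hij
    · exact (key j i hij).1
    · exact (key i j hij).1.symm
  have cSS : ∀ i j, Commute (S i) (S j) := by
    intro i j
    rcases le_total i j with hij | hij
    · exact (key j i hij).2.2.2
    · exact (key i j hij).2.2.2.symm
  have cSB : ∀ i j, Commute (S i) (B j) := by
    intro i j
    rcases le_total i j with hij | hij
    · exact (key j i hij).2.1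
    · exact (key i j hij).2.2.1.symm
  -- injectivity of `φ` on the orbit
  have inj : ∀ i j, B (i + 1) = B (j + 1) → B i = B j := by
    intro i j hij
    have sB : ∀ n, B n * B n = 1 := fun n => sq hD (hB n).1.hb
    have sS : ∀ n, S n * S n = 1 := fun n => sq hD (hS n)
    set w := B i * B j with hw
    set w' := S i * S j with hw'
    have sw : w * w = 1 := by
      calc w * w = B i * (B j * B i) * B j := by rw [hw]; group
        _ = B i * (B i * B j) * B j := by rw [(cBB j i).eq]
        _ = _ := by rw [← mul_assoc, sB i, one_mul, sB j]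
    have sw' : w' * w' = 1 := by
      calc w' * w' = S i * (S j * S i) * S j := by rw [hw']; group
        _ = S i * (S i * S j) * S j := by rw [(cSS j i).eq]
        _ = _ := by rw [← mul_assoc, sS i, one_mul, sS j]
    have cwa : Commute a w := (hB i).1.comm.mul_right (hB j).1.comm
    have ww' : Commute w w' :=
      ((cSB i i).symm.mul_right (cSB j i).symm).mul_left ((cSB i j).symm.mul_right (cSB j j).symm)
    have cw't : Commute t w' :=
      ((ln_cm' hD (hB i).1.hb ht (hB i).2).comm).mul_right ((ln_cm' hD (hB j).1.hb ht (hB j).2).comm)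
    have cw'a : Commute a w' := by
      have h1 : a * w' * a = w' := by
        calc a * w' * a = (a * S i * a) * (a * S j * a) := by
              rw [hw']; simp only [mul_assoc, cancel_left saa]
          _ = (S i * B (i + 1)) * (S j * B (j + 1)) := by rw [cSa, cSa]
          _ = (S i * B (i + 1)) * (S j * B (i + 1)) := by rw [hij]
          _ = S i * (B (i + 1) * S j) * B (i + 1) := by group
          _ = S i * (S j * B (i + 1)) * B (i + 1) := by rw [(cSB j (i + 1)).eq]
          _ = w' := by rw [hw']; simp only [mul_assoc, sB, mul_one]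
      have h2 : a * w' = w' * a := by
        calc a * w' = a * w' * a * a := by rw [mul_assoc (a * w'), saa, mul_one]
          _ = _ := by rw [h1]
      exact h2
    have cwt : t * w * t = w * w' := by
      calc t * w * t = (t * B i * t) * (t * B j * t) := by
            rw [hw]; simp only [mul_assoc, cancel_left stt]
        _ = (B i * S i) * (B j * S j) := by rw [cBt, cBt]
        _ = B i * (S i * B j) * S j := by group
        _ = B i * (B j * S i) * S j := by rw [(cSB i j).eq]
        _ = _ := by rw [hw, hw']; group
    -- (a t)^n w = w w'^n (a t)^n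
    have hpow : ∀ n : ℕ, (a * t) ^ n * w = w * w' ^ n * (a * t) ^ n := by
      intro n
      induction n with
      | zero => simp
      | succ n ih =>
        have h1 : t * w = w * w' * t := by
          rw [← cwt, mul_assoc, stt, mul_one]
        have h2 : (a * t) * w = w * w' * (a * t) := by
          calc (a * t) * w = a * (t * w) := by group
            _ = a * (w * w' * t) := by rw [h1]
            _ = (a * w) * w' * t := by group
            _ = w * (a * w') * t := by rw [cwa.eq]; group
            _ = _ := by rw [cw'a.eq]; group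
        have h3 : Commute (a * t) w' := (cw'a.symm.mul_right cw't.symm).symm
        calc (a * t) ^ (n + 1) * w = (a * t) * ((a * t) ^ n * w) := by rw [pow_succ']; group
          _ = (a * t) * (w * w' ^ n * (a * t) ^ n) := by rw [ih]
          _ = ((a * t) * w) * w' ^ n * (a * t) ^ n := by group
          _ = w * w' * ((a * t) * w' ^ n) * (a * t) ^ n := by rw [h2]; group
          _ = w * w' * (w' ^ n * (a * t)) * (a * t) ^ n := by rw [(h3.pow_right n).eq]
          _ = w * (w' * w' ^ n) * ((a * t) * (a * t) ^ n) := by simp only [mul_assoc]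
          _ = _ := by rw [← pow_succ', ← pow_succ']
    have hw'1 : w' = 1 := by
      obtain ⟨m, hm⟩ := hat.2
      have h1 := hpow (orderOf (a * t))
      rw [pow_orderOf_eq_one, one_mul, mul_one] at h1
      have h2 : w' ^ orderOf (a * t) = 1 := by
        exact (mul_eq_left.1 h1.symm)
      rw [hm, pow_succ, pow_mul, pow_two, sw', one_pow, one_mul] at h2
      exact h2
    have cwt' : Commute t w := by
      have h1 : t * w * t = w := by rw [cwt, hw'1, mul_one]
      have h2 : t * w = w * t := by
        calc t * w = t * w * t * t := by rw [mul_assoc (t * w), stt, mul_one]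
          _ = _ := by rw [h1]
      exact h2
    -- now compare `a B_i t` with `a B_j t`
    have hoi : Od (a * B i) t := b5 hD (hB i).1 ht hat (hB i).2
    have hoj : Od (a * B j) t := b5 hD (hB j).1 ht hat (hB j).2
    have hij2 : a * B j * t = w * (a * B i * t) := by
      have : w * (a * B i * t) = a * (w * B i) * t := by
        calc w * (a * B i * t) = (w * a) * B i * t := by group
          _ = (a * w) * B i * t := by rw [cwa.eq]
          _ = _ := by group
      rw [this]
      congr 2
      calc B j = (B i * B i) * B j := by rw [sB, one_mul]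
        _ = B i * (B i * B j) := by group
        _ = B i * (B j * B i) := by rw [(cBB i j).eq]
        _ = _ := by rw [hw]; group
    have hcw : Commute w (a * B i * t) :=
      (cwa.symm.mul_right (((cBB i i).mul_left (cBB j i)))).mul_right cwt'.symm
    by_contra hne
    have hw1 : w ≠ 1 := by
      intro h1
      apply hne
      rw [← inv_eq hD (hB j).1.hb]
      exact eq_inv_of_mul_eq_one_left h1
    have how : orderOf w = 2 := orderOf_eq_prime (by rw [pow_two, sw]) hw1
    have := hoj.2
    rw [hij2, hcw.orderOf_mul_eq_mul_orderOf_of_coprime (by rw [how]; exact Nat.coprime_two_left.2 hoi.2), how] at this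
    rw [Nat.odd_mul] at this
    exact absurd this.1 (by decide)
  have inj2 : ∀ i j, B (i + j) = B i → B j = B 0 := by
    intro i
    induction i with
    | zero => intro j hj; simpa using hj
    | succ i ih =>
      intro j hj
      apply ih
      apply inj
      rw [← hj]; congr 1; omega
  -- pigeonhole
  obtain ⟨i, j, hij, he⟩ := Finite.exists_ne_map_eq_of_infinite B
  have : ∃ n, B (n + 1) = b := by
    rcases lt_or_gt_of_ne hij with hlt | hlt
    · refine ⟨j - i - 1, ?_⟩
      have := inj2 i (j - i) (by rw [show i + (j - i) = j by omega]; exact he.symm)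
      rw [show j - i - 1 + 1 = j - i by omega, this]; rfl
    · refine ⟨i - j - 1, ?_⟩
      have := inj2 j (i - j) (by rw [show j + (i - j) = i by omega]; exact he)
      rw [show i - j - 1 + 1 = i - j by omega, this]; rfl
  obtain ⟨n, hn⟩ := this
  exact ⟨B n, (hB n).1, (hB n).2, by rw [← hBsucc]; exact hn⟩

/-- **Lemma E**. -/
theorem lemmaE {s p a b : G} (hs : s ∈ D) (hp : p ∈ D) (ha : a ∈ D) (hb : b ∈ D) (hab : Commute a b)
    (hsa : Fo s a) (hpb : Fo p b) (h1 : cm s a = b) (h2 : cm p b = a) : orderOf (s * p) = 3 := by
  have sss := sq hD hs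
  have spp := sq hD hp
  have saa := sq hD ha
  have sbb := sq hD hb
  have csb : Commute s b := by rw [← h1]; exact (ln_cm hD hs ha hsa).comm
  have cpa : Commute p a := by rw [← h2]; exact (ln_cm hD hp hb hpb).comm
  have hne : a ≠ b := by
    rintro rfl
    exact hsa.not_commute hD hs ha csb
  have sa : s * a * s = a * b := by
    have := conj_eq hD ha hs
    rwa [cm_symm hD hs ha hsa, h1] at this
  have pb : p * b * p = a * b := by
    have := conj_eq hD hb hp
    rw [cm_symm hD hp hb hpb, h2] at this
    rw [this, hab.eq]
  have sb : s * b * s = b := by rw [csb.eq, mul_assoc, sss, mul_one]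
  have pa : p * a * p = a := by rw [cpa.eq, mul_assoc, spp, mul_one]
  -- x = s p acts as a 3-cycle: x a x⁻¹ = ab; x ab x⁻¹ = b ; x b x⁻¹ = a
  set x := s * p with hx
  have hxi : x⁻¹ = p * s := by rw [hx, mul_inv_rev, inv_eq hD hs, inv_eq hD hp]
  have xa : x * a * x⁻¹ = a * b := by
    rw [hxi, hx]
    calc s * p * a * (p * s) = s * (p * a * p) * s := by group
      _ = _ := by rw [pa, sa]
  have xb : x * b * x⁻¹ = a := by
    rw [hxi, hx]
    calc s * p * b * (p * s) = s * (p * b * p) * s := by group
      _ = s * (a * b) * s := by rw [pb]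
      _ = (s * a * s) * (s * b * s) := by simp only [mul_assoc, cancel_left sss]
      _ = a * b * b := by rw [sa, sb]
      _ = a := by rw [mul_assoc, sbb, mul_one]
  have x2b : x ^ 2 * b * (x ^ 2)⁻¹ = a * b := by
    calc x ^ 2 * b * (x ^ 2)⁻¹ = x * (x * b * x⁻¹) * x⁻¹ := by rw [pow_two]; group
      _ = _ := by rw [xb, xa]
  have x3b : x ^ 3 * b * (x ^ 3)⁻¹ = b := by
    calc x ^ 3 * b * (x ^ 3)⁻¹ = x * (x ^ 2 * b * (x ^ 2)⁻¹) * x⁻¹ := by rw [pow_succ']; group
      _ = x * (a * b) * x⁻¹ := by rw [x2b]
      _ = (x * a * x⁻¹) * (x * b * x⁻¹) := by group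
      _ = a * b * a := by rw [xa, xb]
      _ = b := by rw [hab.eq, mul_assoc, saa, mul_one]
  have hx1 : x ≠ 1 := by
    intro h; rw [h] at xb; simp at xb; exact hne xb.symm
  have h3 : Od s p := by
    rcases tri hD hs hp with h' | h' | h'
    · exfalso
      have := sq_of_commute hD hs hp h'
      rw [← hx] at this
      rw [this] at x2b
      simp only [one_mul, inv_one, mul_one] at x2b
      have : a = 1 := (mul_eq_right.1 x2b.symm)
      exact ne_one hD ha this
    · exact h'
    · exfalso
      have h4 : x ^ 4 = 1 := by have := pow_orderOf_eq_one x; rwa [show orderOf x = 4 from h'.1] at this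
      have h5 : x ^ 3 = x⁻¹ := by
        rw [eq_inv_iff_mul_eq_one, ← pow_succ, h4]
      rw [h5, inv_inv] at x3b
      -- x⁻¹ b x = b
      have : x * b * x⁻¹ = b := by
        calc x * b * x⁻¹ = x * (x⁻¹ * b * x) * x⁻¹ := by rw [x3b]
          _ = b := by group
      rw [xb] at this
      exact hne this
  by_contra hne3
  have hx3 : x ^ 3 ≠ 1 := by
    intro h
    exact hne3 (orderOf_eq_prime h hx1)
  -- p° = s x^3
  set q := s * x ^ 3 with hq
  have hqe : q = (p * s) * p * (p * s)⁻¹ := by
    rw [hq, hx, mul_inv_rev, inv_eq hD hs, inv_eq hD hp]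
    simp only [pow_succ, pow_zero, one_mul, mul_assoc, cancel_left sss]
  have hqD : q ∈ D := by rw [hqe]; exact hD.conj_mem p hp _
  have hsq : s * q = x ^ 3 := by rw [hq, cancel_left sss]
  have hosq : Od s q := by
    refine ⟨?_, ?_⟩
    · intro h
      apply hx3
      rw [← hsq, ← h, sss]
    · rw [hsq]
      exact Odd.of_dvd_nat h3.2 (orderOf_pow_dvd 3)
  have cbx3 : Commute b (x ^ 3) := by
    have : x ^ 3 * b = b * x ^ 3 := mul_inv_eq_iff_eq_mul.1 x3b
    exact this.symm
  have cbq : Commute b q := csb.symm.mul_right cbx3
  refine b4 hD (a := s) (b := b) ?_ hqD hosq cbq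
  rw [← h1]; exact ln_cm hD hs ha hsa

end

end Cfsg.Agent.RootInvE
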