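import Cfsg.Agent.Lib.RootInvF

/-! Root involutions: blocks (helper65). -/

set_option autoImplicit false
open Cfsg

namespace Cfsg.Agent.RootInvE

open scoped commutatorElement

variable {G : Type*} [Group G] {D : Set G}

/-- a set of involutions, closed under conjugation by its members, without odd pairs generates a 2-group. -/
theorem isPGroup_closure [Finite G] {M : Set G} (hM : ∀ e ∈ M, orderOf e = 2)
    (hconj : ∀ e ∈ M, ∀ f ∈ M, e * f * e ∈ M) (hno : ∀ e ∈ M, ∀ f ∈ M, ¬ Od e f) :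
    IsPGroup 2 ↥(Subgroup.closure M) := by
  classical
  have hsq : ∀ e ∈ M, e * e = 1 := fun e he => by
    have := pow_orderOf_eq_one e; rwa [hM e he, pow_two] at this
  have hconj2 : ∀ g ∈ Subgroup.closure M, ∀ f ∈ M, g * f * g⁻¹ ∈ M := by
    intro g hg
    induction hg using Subgroup.closure_induction'' with
    | one => intro f hf; simpa using hf
    | mem x hx =>
      intro f hf
      rw [inv_eq_of_mul_eq_one_left (hsq x hx)]
      exact hconj x hx f hf
    | inv_mem x hx =>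
      intro f hf
      rw [inv_inv, inv_eq_of_mul_eq_one_left (hsq x hx)]
      exact hconj x hx f hf
    | mul x y _ _ hx hy =>
      intro f hf
      have : x * y * f * (x * y)⁻¹ = x * (y * f * y⁻¹) * x⁻¹ := by group
      rw [this]; exact hx _ (hy f hf)
  rw [← Cfsg.Agent.Lib.Cores.pCore_eq_top_iff, eq_top_iff]
  have hmem : ∀ e (he : e ∈ M), (⟨e, Subgroup.subset_closure he⟩ : Subgroup.closure M) ∈ pCore 2 (Subgroup.closure M) := by
    intro e he
    by_contra hne
    obtain ⟨h, h1, h2, h3⟩ := Cfsg.Agent.Lib.BaerSuzuki.exists_inverted_odd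
      (⟨e, Subgroup.subset_closure he⟩ : Subgroup.closure M) (by
        rw [← Subgroup.orderOf_coe]; exact hM e he) (fun N hN hNp hmemN => hne (Cfsg.Agent.Lib.Cores.le_pCore hN hNp hmemN))
    have h4 : e * (h : G) * e⁻¹ = (h : G)⁻¹ := by
      have := congrArg Subtype.val h3
      simpa using this
    have h5 : (h : G) * e * (h : G)⁻¹ ∈ M := hconj2 h h.2 e he
    have hee : e⁻¹ = e := inv_eq_of_mul_eq_one_left (hsq e he)
    have h6 : e * ((h : G) * e * (h : G)⁻¹) = ((h : G) ^ 2)⁻¹ := by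
      calc e * ((h : G) * e * (h : G)⁻¹) = (e * (h : G) * e⁻¹) * (h : G)⁻¹ := by rw [hee]; group
        _ = _ := by rw [h4]; group
    have hodd : Odd (orderOf (h : G)) := by rw [Subgroup.orderOf_coe]; exact h2
    have hne1 : (h : G) ≠ 1 := fun h' => h1 (Subtype.ext h')
    refine hno e he _ h5 ⟨?_, ?_⟩
    · intro he2
      rw [← he2, hsq e he] at h6
      have h7 : (h : G) ^ 2 = 1 := inv_eq_one.1 h6.symm
      have h8 := orderOf_dvd_of_pow_eq_one h7
      have h9 : orderOf (h : G) = 1 :=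
        Nat.Coprime.eq_one_of_dvd (Nat.coprime_two_right.2 hodd) h8
      exact hne1 (orderOf_eq_one_iff.1 h9)
    · rw [h6, orderOf_inv]
      exact Odd.of_dvd_nat hodd (orderOf_pow_dvd 2)
  intro x _
  obtain ⟨x, hx⟩ := x
  have : Subgroup.closure M ≤ (pCore 2 (Subgroup.closure M)).map (Subgroup.closure M).subtype := by
    rw [Subgroup.closure_le]
    intro e he
    exact ⟨⟨e, Subgroup.subset_closure he⟩, hmem e he, rfl⟩
  obtain ⟨y, hy, hyx⟩ := this hx
  have : y = ⟨x, hx⟩ := Subtype.ext hyx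
  rwa [← this]

section

variable (hD : IsRootInvolutionSet D)
include hD

/-- an isolated member lies in `O₂(G)`. -/
theorem mem_pCore_of_isolated [Finite G] {w : G} (hw : w ∈ D) (h : ∀ x ∈ D, ¬ Od w x) : w ∈ pCore 2 G := by
  by_contra hne
  obtain ⟨h, h1, h2, h3⟩ := Cfsg.Agent.Lib.BaerSuzuki.exists_inverted_odd w (hD.orderOf_eq w hw)
    (fun N hN hNp hmemN => hne (Cfsg.Agent.Lib.Cores.le_pCore hN hNp hmemN))
  rename_i hiso
  have h5 : h * w * h⁻¹ ∈ D := hD.conj_mem w hw h
  have hee : w⁻¹ = w := inv_eq hD hw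
  have h6 : w * (h * w * h⁻¹) = (h ^ 2)⁻¹ := by
    calc w * (h * w * h⁻¹) = (w * h * w⁻¹) * h⁻¹ := by rw [hee]; group
      _ = _ := by rw [h3]; group
  refine hiso _ h5 ⟨?_, ?_⟩
  · intro he2
    rw [← he2, sq hD hw] at h6
    have h7 : h ^ 2 = 1 := inv_eq_one.1 h6.symm
    have h8 := orderOf_dvd_of_pow_eq_one h7
    have h9 : orderOf h = 1 := Nat.Coprime.eq_one_of_dvd (Nat.coprime_two_right.2 h2) h8
    exact h1 (orderOf_eq_one_iff.1 h9)
  · rw [h6, orderOf_inv]
    exact Odd.of_dvd_nat h2 (orderOf_pow_dvd 2)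

end

/-- odd partners. -/
def Aset (D : Set G) (e : G) : Set G := {x | x ∈ D ∧ Od e x}

section

variable (hD : IsRootInvolutionSet D)
include hD

theorem Aset_conj (g e : G) : Aset D (g * e * g⁻¹) = (fun x => g * x * g⁻¹) '' Aset D e := by
  ext x
  constructor
  · rintro ⟨hx, h⟩
    refine ⟨g⁻¹ * x * g⁻¹⁻¹, ⟨hD.conj_mem x hx g⁻¹, ?_⟩, by group⟩
    have := h.conj g⁻¹
    have e1 : g⁻¹ * (g * e * g⁻¹) * g⁻¹⁻¹ = e := by group
    rwa [e1] at this
  · rintro ⟨y, ⟨hy, h⟩, rfl⟩
    exact ⟨hD.conj_mem y hy g, h.conj g⟩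

theorem Aset_conj_eq {e f : G} (h : Aset D e = Aset D f) (g : G) : Aset D (g * e * g⁻¹) = Aset D (g * f * g⁻¹) := by
  rw [Aset_conj hD, Aset_conj hD, h]

theorem Aset_conj_eq' {e f y : G} (h : Aset D e = Aset D f) (hy : y ∈ D) : Aset D (y * e * y) = Aset D (y * f * y) := by
  have := Aset_conj_eq hD h y
  rwa [inv_eq hD hy] at this

variable (hc : IsConnectedSet (OddAdj D) D)
include hc

theorem Aset_eq_of_subset [Finite G] {e f : G} (he : e ∈ D) (hf : f ∈ D) (h : Aset D e ⊆ Aset D f) : Aset D e = Aset D f := by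
  obtain ⟨g, hg⟩ := class_of_connected hD hc he hf
  have h1 : (Aset D f).ncard = (Aset D e).ncard := by
    rw [hg, Aset_conj hD]
    exact Set.ncard_image_of_injective _ (fun x y hxy => mul_left_cancel (mul_right_cancel hxy))
  exact Set.eq_of_subset_of_ncard_le h h1.le (Set.toFinite _)

/-- the commutator of `e` with `y ∈ C(d)` stays in the block of `d` if `e` is in the block. -/
theorem block_cm [Finite G] {d e y : G} (hd : d ∈ D) (he : e ∈ D) (hy : y ∈ D) (hed : Aset D e = Aset D d)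
    (hyd : Commute y d) (hf : Fo e y) : Aset D (cm e y) = Aset D d := by
  have hcD := cm_mem hD he hy hf
  apply Aset_eq_of_subset hD hc hcD hd
  rintro x ⟨hx, hcx⟩
  have h1 : Aset D (e * cm e y) = Aset D d := by
    rw [← conj_eq hD he hy, Aset_conj_eq' hD hed hy]
    congr 1
    rw [hyd.eq, mul_assoc, sq hD hy, mul_one]
  have hl := ln_cm hD he hy hf
  rcases line hD hl.symm hx hcx with h | h
  · rw [← hed]; exact ⟨hx, h⟩
  · rw [← h1]; refine ⟨hx, ?_⟩
    rwa [← hl.comm.eq] at h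

omit hD hc in
/-- no odd pair in a block. -/
theorem block_no_odd {e f : G} (_he : e ∈ D) (hf : f ∈ D) (h : Aset D e = Aset D f) : ¬ Od e f := by
  intro ho
  have : f ∈ Aset D e := ⟨hf, ho⟩
  rw [h] at this
  exact this.2.1 rfl

/-- blocks are commutative. -/
theorem block_comm [Finite G] {d e f : G} (hd : d ∈ D) (he : e ∈ D) (hf : f ∈ D) (h1 : Aset D e = Aset D d)
    (h2 : Aset D f = Aset D d) : Commute e f := by
  classical
  set M : Set G := {x | x ∈ D ∧ Aset D x = Aset D d} with hM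
  have hconj : ∀ x ∈ M, ∀ y ∈ M, x * y * x ∈ M := by
    rintro x ⟨hx, hxA⟩ y ⟨hy, hyA⟩
    refine ⟨conj_mem' hD hy hx, ?_⟩
    rw [Aset_conj_eq' hD (hyA.trans hxA.symm) hx, sq hD hx, one_mul, hxA]
  have hno : ∀ x ∈ M, ∀ y ∈ M, ¬ Od x y := fun x hx y hy =>
    block_no_odd hx.1 hy.1 (hx.2.trans hy.2.symm)
  have hP := isPGroup_closure (M := M) (fun x hx => hD.orderOf_eq x hx.1) hconj hno
  set P := Subgroup.closure M with hPdef
  have : Fact (Nat.Prime 2) := ⟨Nat.prime_two⟩
  have hnil : Group.IsNilpotent P := hP.isNilpotent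
  obtain ⟨n, hn⟩ := (Subgroup.isNilpotent_iff_lowerCentralSeries P).1 hnil
  have hex : ∃ n : ℕ, ∀ x ∈ M, x ∉ P.lowerCentralSeries n := by
    refine ⟨n, fun x hx hmem => ?_⟩
    rw [hn, Subgroup.mem_bot] at hmem
    exact ne_one hD hx.1 hmem
  have hdM : d ∈ M := ⟨hd, rfl⟩
  have h0 : Nat.find hex ≠ 0 := by
    intro h0
    have := Nat.find_spec hex
    rw [h0] at this
    exact this d hdM (Subgroup.subset_closure hdM)
  obtain ⟨m, hm⟩ := Nat.exists_eq_succ_of_ne_zero h0
  have hlt : m < Nat.find hex := by omega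
  have hmin := Nat.find_min hex hlt
  push Not at hmin
  obtain ⟨c, hcM, hcm⟩ := hmin
  -- c is central
  have hcc : ∀ y ∈ M, Commute c y := by
    intro y hy
    by_contra hne
    rcases tri hD hcM.1 hy.1 with h | h | h
    · exact hne h
    · exact hno c hcM y hy h
    · have hk : Aset D (cm c y) = Aset D y :=
        block_cm hD hc hy.1 hcM.1 hy.1 (hcM.2.trans hy.2.symm) (Commute.refl y) h.1
      have hkM : cm c y ∈ M := ⟨h.2, hk.trans hy.2⟩
      have := Nat.find_spec hex (cm c y) hkM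
      apply this
      rw [hm]
      have e1 : cm c y = ⁅c, y⁆ := by
        simp only [commutatorElement_def, inv_eq hD hcM.1, inv_eq hD hy.1, cm, pow_two]
        group
      rw [e1]
      exact Subgroup.commutator_mem_commutator hcm (Subgroup.subset_closure hy)
  -- move by conjugation
  have hall : ∀ x ∈ M, ∀ y ∈ M, Commute x y := by
    intro x hx y hy
    obtain ⟨g, hg⟩ := class_of_connected hD hc hcM.1 hx.1
    have h3 : Aset D (g * c * g⁻¹) = Aset D d := by rw [← hg]; exact hx.2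
    -- g⁻¹ y g ∈ M
    have h4 : g⁻¹ * y * g⁻¹⁻¹ ∈ M := by
      refine ⟨hD.conj_mem y hy.1 g⁻¹, ?_⟩
      have h5 : Aset D y = Aset D (g * c * g⁻¹) := by rw [h3]; exact hy.2
      rw [Aset_conj_eq hD h5 g⁻¹]
      have : g⁻¹ * (g * c * g⁻¹) * g⁻¹⁻¹ = c := by group
      rw [this]; exact hcM.2
    have h5 := hcc _ h4
    have h6 : g * (c * (g⁻¹ * y * g⁻¹⁻¹)) * g⁻¹ = g * ((g⁻¹ * y * g⁻¹⁻¹) * c) * g⁻¹ := by rw [h5.eq]
    change x * y = y * x
    rw [hg]
    calc g * c * g⁻¹ * y = g * (c * (g⁻¹ * y * g⁻¹⁻¹)) * g⁻¹ := by group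
      _ = _ := h6
      _ = _ := by group
  exact hall e ⟨he, h1⟩ f ⟨hf, h2⟩

theorem same_comm [Finite G] {d e y : G} (hd : d ∈ D) (he : e ∈ D) (hed : Aset D e = Aset D d) (hy : y ∈ D)
    (hyd : Commute y d) : Commute y e := by
  by_contra hne
  have hF : Fo e y := by
    rcases tri hD he hy with h | h | h
    · exact absurd h.symm hne
    · exfalso
      have : y ∈ Aset D e := ⟨hy, h⟩
      rw [hed] at this
      exact this.2.not_commute hD hd hy hyd.symm
    · exact h.1
  set c := cm e y with hcdef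
  have hcD : c ∈ D := cm_mem hD he hy hF
  have hcA : Aset D c = Aset D d := block_cm hD hc hd he hy hed hyd hF
  have hyA : Aset D y ≠ Aset D c := fun h => hne (block_comm hD hc hd hy he (h.trans hcA) hed)
  obtain ⟨z, hz, hzy⟩ : ∃ z, z ∈ Aset D c ∧ z ∉ Aset D y := by
    by_contra hcon
    push Not at hcon
    exact hyA (Aset_eq_of_subset hD hc hcD hy hcon).symm
  have hzD := hz.1
  have hlcy : Ln D c y := (ln_cm' hD he hy hF).symm
  have hFyz : Fo y z := by
    rcases b4' hD hlcy hzD hz.2 with h | h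
    · exact absurd ⟨hzD, h⟩ hzy
    · exact h
  obtain ⟨y', hly', hFy', hcm⟩ := exists_preimage hD hlcy hzD hz.2 hFyz
  set s := cm y' z with hsdef
  have hs : s ∈ D := cm_mem hD hly'.hb hzD hFy'
  have hcs : Fo c s := b5' hD hly' hzD hz.2 hFy'
  have hlzs : Ln D z s := ln_cm' hD hly'.hb hzD hFy'
  have hFw : ∀ w ∈ D, Aset D w = Aset D c → Fo w s := by
    intro w hw hwA
    have hwz : Od w z := by
      have : z ∈ Aset D w := by rw [hwA]; exact hz
      exact this.2
    rcases tri hD hw hs with h | h | h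
    · exact absurd h.symm (b4 hD hlzs hw hwz.symm)
    · exfalso
      have : s ∈ Aset D w := ⟨hs, h⟩
      rw [hwA] at this
      exact hcs.not_od this.2
    · exact h.1
  have hws : ∀ w ∈ D, Aset D w = Aset D c → Commute w (s * w * s) := by
    intro w hw hwA
    rw [conj_eq hD hw hs]
    exact (Commute.refl w).mul_right (ln_cm hD hw hs (hFw w hw hwA)).comm
  have hyy : s * c * s = c * y := by
    rw [conj_eq hD hcD hs, ← hcm, cm_symm hD hcD hs hcs]
  have hcl : ∀ w ∈ D, Aset D w = Aset D c → ∀ w' ∈ D, Aset D w' = Aset D c → Commute w (s * w' * s) := by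
    intro w hw hwA w' hw' hwA'
    have hvD : s * w' * s ∈ D := conj_mem' hD hw' hs
    rcases tri hD hw hvD with h | h | h
    · exact h
    · exfalso
      have h1 : s * w' * s ∈ Aset D w' := by rw [hwA', ← hwA]; exact ⟨hvD, h⟩
      exact h1.2.not_commute hD hw' hvD (hws w' hw' hwA')
    · exfalso
      have hF1 := h.1
      have h1 : Aset D (cm w (s * w' * s)) = Aset D w' :=
        block_cm hD hc hw' hw hvD (hwA.trans hwA'.symm) (hws w' hw' hwA').symm hF1
      have hswD : s * w * s ∈ D := conj_mem' hD hw hs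
      have h2 : Aset D (cm (s * w' * s) w) = Aset D (s * w * s) :=
        block_cm hD hc hswD hvD hw (Aset_conj_eq' hD (hwA'.trans hwA.symm) hs) (hws w hw hwA) hF1.symm
      rw [cm_symm hD hw hvD hF1, h1, Aset_conj_eq' hD hwA hs, hyy] at h2
      -- Aset w' = Aset (c * y)
      apply hyA
      apply Aset_eq_of_subset hD hc hy hcD
      rintro x ⟨hx, hyx⟩
      rcases line hD hlcy.symm hx hyx with h3 | h3
      · exact ⟨hx, h3⟩
      · rw [← hwA', h2]; refine ⟨hx, ?_⟩
        rwa [hlcy.comm.eq]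
  apply hne
  have hyc : y = c * (s * c * s) := by rw [hyy, cancel_left (sq hD hcD)]
  have h1 : Commute e c := block_comm hD hc hd he hcD hed hcA
  have h2 : Commute e (s * c * s) := hcl e he (hed.trans hcA.symm) c hcD rfl
  rw [hyc]
  exact (h1.mul_right h2).symm

end

end Cfsg.Agent.RootInvE
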