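import Cfsg.Agent.Lib.RootSLn

/-!
# Transvections in characteristic two as root involutions (`S5058`) (helper93)
-/

set_option autoImplicit false
set_option linter.unusedSimpArgs false
set_option linter.unusedSectionVars false
set_option linter.unusedVariables false

namespace Cfsg.Agent.Lib.RootInvSL
open Cfsg Subgroup Matrix
open Cfsg.Agent.Lib.RankOneGrp Cfsg.Agent.Lib.SL2RankOne Cfsg.Agent.Lib.RootSL2 Cfsg.Agent.Lib.RootSLn

section SL2
variable {k : Type*} [Field k] [CharP k 2]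

theorem sq_inj {a b : k} (h : a * a = b * b) : a = b := by
  have h1 : (a + b) * (a + b) = 0 := by
    have : (2 : k) = 0 := CharTwo.two_eq_zero
    linear_combination h + b * (a + b) * this
  have h2 : a + b = 0 := mul_self_eq_zero.1 h1
  exact CharTwo.add_eq_zero.1 h2

/-- an involution of `SL_2` commuting with an element of non-zero trace is trivial -/
theorem inv_trivial (g h : SpecialLinearGroup (Fin 2) k) (ht : g.1 0 0 + g.1 1 1 ≠ 0) (hh : h * h = 1)
    (hc : g * h = h * g) : h = 1 := by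
  have two : (2 : k) = 0 := CharTwo.two_eq_zero
  have h1 : h.1 * h.1 = 1 := congrArg Subtype.val hh
  have h2 : g.1 * h.1 = h.1 * g.1 := congrArg Subtype.val hc
  have e00 := congrFun (congrFun h1 0) 0
  have e11 := congrFun (congrFun h1 1) 1
  have c01 := congrFun (congrFun h2 0) 1
  have c10 := congrFun (congrFun h2 1) 0
  simp only [Matrix.mul_apply, Fin.sum_univ_two, Matrix.one_apply_eq] at e00 e11 c01 c10
  have had : h.1 0 0 = h.1 1 1 := by
    apply sq_inj
    linear_combination e00 - e11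
  have hb : h.1 0 1 = 0 := by
    have : (g.1 0 0 + g.1 1 1) * h.1 0 1 = 0 := by
      rw [had] at c01
      linear_combination c01 + h.1 0 1 * g.1 1 1 * two
    exact (mul_eq_zero.1 this).resolve_left ht
  have hc' : h.1 1 0 = 0 := by
    have : (g.1 0 0 + g.1 1 1) * h.1 1 0 = 0 := by
      rw [had] at c10
      linear_combination -c10 + h.1 1 0 * g.1 1 1 * two
    exact (mul_eq_zero.1 this).resolve_left ht
  have ha : h.1 0 0 = 1 := by
    apply sq_inj
    rw [hb, hc'] at e00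
    linear_combination e00
  apply Subtype.ext
  ext i j
  fin_cases i <;> fin_cases j
  · show h.1 0 0 = 1
    exact ha
  · show h.1 0 1 = 0
    exact hb
  · show h.1 1 0 = 0
    exact hc'
  · show h.1 1 1 = 1
    rw [← had]; exact ha

theorem odd_order [Finite k] (g : SpecialLinearGroup (Fin 2) k) (ht : g.1 0 0 + g.1 1 1 ≠ 0) : Odd (orderOf g) := by
  by_contra hodd
  rw [Nat.not_odd_iff_even] at hodd
  obtain ⟨m, hm⟩ := hodd
  have hpos : 0 < orderOf g := orderOf_pos g
  have h1 : g ^ m = 1 := by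
    apply inv_trivial g _ ht
    · rw [← pow_add, ← hm, pow_orderOf_eq_one]
    · rw [← pow_succ, ← pow_succ']
  have h2 := Nat.le_of_dvd (by omega) (orderOf_dvd_of_pow_eq_one h1)
  omega

end SL2

section SLN
variable {k : Type*} [Field k] [CharP k 2] {N : ℕ}

theorem mul_self (v w : Fin N → k) (h : w ⬝ᵥ v = 0) (c : k) : tS v w h c * tS v w h c = 1 := by
  rw [← tS_add, CharTwo.add_self_eq_zero, tS_zero]

theorem inv_eq (v w : Fin N → k) (h : w ⬝ᵥ v = 0) (c : k) : (tS v w h c)⁻¹ = tS v w h c :=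
  inv_eq_of_mul_eq_one_left (mul_self v w h c)

theorem orderOf_tS {v w : Fin N → k} (h : w ⬝ᵥ v = 0) (hv : v ≠ 0) (hw : w ≠ 0) {c : k} (hc : c ≠ 0) :
    orderOf (tS v w h c) = 2 := by
  rw [orderOf_eq_prime_iff]
  refine ⟨by rw [pow_two, mul_self], fun h1 => hc (tS_eq_one h hv hw h1)⟩

theorem sq_mul {v w v' w' : Fin N → k} (h : w ⬝ᵥ v = 0) (h' : w' ⬝ᵥ v' = 0) (hb : w' ⬝ᵥ v = 0) (c d : k) :
    (tS v w h c * tS v' w' h' d) ^ 2 = tS v w' hb (c * d * (w ⬝ᵥ v')) := by
  rw [← comm_tS h h' hb c d, inv_eq, inv_eq, pow_two, mul_assoc, mul_assoc, mul_assoc]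

/-- the class of transvections -/
def DD (k : Type*) [Field k] (N : ℕ) : Set (SpecialLinearGroup (Fin N) k) :=
  {t | ∃ (v w : Fin N → k) (h : w ⬝ᵥ v = 0), v ≠ 0 ∧ w ≠ 0 ∧ t = tS v w h 1}

theorem smul_mem {v w : Fin N → k} (h : w ⬝ᵥ v = 0) (hv : v ≠ 0) (hw : w ≠ 0) {c : k} (hc : c ≠ 0) :
    tS v w h c ∈ DD k N := by
  refine ⟨c • v, w, by rw [dotProduct_smul, h, smul_zero], smul_ne_zero hc hv, hw, ?_⟩
  apply tS_congr
  rw [one_smul, smul_vecMulVec]

theorem conj_mem {t : SpecialLinearGroup (Fin N) k} (ht : t ∈ DD k N) (g : SpecialLinearGroup (Fin N) k) :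
    g * t * g⁻¹ ∈ DD k N := by
  obtain ⟨v, w, h, hv, hw, rfl⟩ := ht
  exact ⟨_, _, _, mulVec_ne hv, vecMul_ne hw, conj_tS g v w h 1 (by rw [dot_conj, h])⟩

theorem up_lo_trace (α β : k) : (up α * lo β).1 0 0 + (up α * lo β).1 1 1 = α * β := by
  have two : (2 : k) = 0 := CharTwo.two_eq_zero
  show ((up α).1 * (lo β).1) 0 0 + ((up α).1 * (lo β).1) 1 1 = α * β
  simp [Matrix.mul_apply, Fin.sum_univ_two, up, lo]
  linear_combination two

theorem product_cases [Finite k] {a b : SpecialLinearGroup (Fin N) k} (ha : a ∈ DD k N) (hb : b ∈ DD k N) :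
    a * b = b * a ∨ (Odd (orderOf (a * b)) ∧ ∃ (α β : k) (φ : SpecialLinearGroup (Fin 2) k →* SpecialLinearGroup (Fin N) k),
      Function.Injective φ ∧ α ≠ 0 ∧ β ≠ 0 ∧ a * b = φ (up α * lo β)) ∨ (orderOf (a * b) = 4 ∧ (a * b) ^ 2 ∈ DD k N) := by
  obtain ⟨v, w, h, hv, hw, rfl⟩ := ha
  obtain ⟨v', w', h', hv', hw', rfl⟩ := hb
  have order4 : ∀ x : SpecialLinearGroup (Fin N) k, x ^ 2 ∈ DD k N → orderOf x = 4 := by
    rintro x ⟨v, w, h, hv, hw, hx⟩
    have h1 : orderOf (x ^ 2) = 2 := by rw [hx]; exact orderOf_tS h hv hw one_ne_zero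
    have h2 : x ^ 2 ^ (1 + 1) = 1 := by
      have h3 := pow_orderOf_eq_one (x ^ 2)
      rw [h1, ← pow_mul] at h3
      exact h3
    have h3 : ¬ x ^ 2 ^ 1 = 1 := by
      intro h4
      rw [pow_one] at h4
      rw [h4, orderOf_one] at h1
      omega
    haveI : Fact (Nat.Prime 2) := ⟨Nat.prime_two⟩
    exact orderOf_eq_prime_pow h3 h2
  by_cases ha : w ⬝ᵥ v' = 0
  · by_cases hb : w' ⬝ᵥ v = 0
    · left
      exact commute_tS h h' ha hb 1 1
    · right; right
      have h1 : (tS v w h 1 * tS v' w' h' 1) ^ 2 ∈ DD k N := by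
        have h2 : (tS v w h 1 * tS v' w' h' 1) ^ 2 = (tS v' w' h' 1 * tS v w h 1) ^ 2 := by
          have h3 := sq_mul h' h ha 1 1
          have h4 : (tS v w h 1 * tS v' w' h' 1) ^ 2 = ((tS v' w' h' 1 * tS v w h 1) ^ 2)⁻¹ := by
            rw [← inv_pow, _root_.mul_inv_rev, inv_eq, inv_eq]
          rw [h4, h3, inv_eq]
        rw [h2, sq_mul h' h ha]
        apply smul_mem _ hv' hw
        rw [one_mul, one_mul]; exact hb
      exact ⟨order4 _ h1, h1⟩
  · by_cases hb : w' ⬝ᵥ v = 0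
    · right; right
      have h1 : (tS v w h 1 * tS v' w' h' 1) ^ 2 ∈ DD k N := by
        rw [sq_mul h h' hb]
        apply smul_mem _ hv hw'
        rw [one_mul, one_mul]; exact ha
      exact ⟨order4 _ h1, h1⟩
    · right; left
      obtain ⟨φ, hφ, h1, h2⟩ := exists_hom h h' ha hb
      have h3 : tS v w h 1 * tS v' w' h' 1 = φ (up (w ⬝ᵥ v') * lo (w' ⬝ᵥ v)) := by
        rw [map_mul, h1, h2, mul_inv_cancel₀ ha, mul_inv_cancel₀ hb]
      refine ⟨?_, _, _, φ, hφ, ha, hb, h3⟩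
      rw [h3, orderOf_injective φ hφ]
      apply odd_order
      rw [up_lo_trace]
      exact mul_ne_zero ha hb

theorem isRootInv [Finite k] (hN : 3 ≤ N) : IsRootInvolutionSet (DD k N) where
  orderOf_eq := by
    rintro _ ⟨v, w, h, hv, hw, rfl⟩
    exact orderOf_tS h hv hw one_ne_zero
  generates := by
    haveI : Nontrivial (Fin N) := Fin.nontrivial_iff_two_le.2 (by omega)
    apply SLTrans.eq_top_of_transvections
    intro i j hij c
    rw [transvection_eq hij c]
    by_cases hc : c = 0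
    · rw [hc, tS_zero]; exact one_mem _
    · exact Subgroup.subset_closure (smul_mem _ (single_ne i) (single_ne j) hc)
  conj_mem := fun d hd g => conj_mem hd g
  pair := fun a ha b hb => by
    rcases product_cases ha hb with h | h | h
    · exact Or.inl h
    · exact Or.inr (Or.inl h.1)
    · exact Or.inr (Or.inr h)

theorem isClass' (hN : 3 ≤ N) : (DD k N).Nonempty ∧ ∀ a ∈ DD k N, ∀ b ∈ DD k N, ∃ g, b = g * a * g⁻¹ := by
  have h01 : (⟨0, by omega⟩ : Fin N) ≠ ⟨1, by omega⟩ := by simp [Fin.ext_iff]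
  refine ⟨⟨tS (Pi.single ⟨0, by omega⟩ 1) (Pi.single ⟨1, by omega⟩ 1) (by simp [h01.symm]) 1, _, _, _, single_ne _,
    single_ne _, rfl⟩, ?_⟩
  rintro _ ⟨v, w, h, hv, hw, rfl⟩ _ ⟨v', w', h', hv', hw', rfl⟩
  obtain ⟨g, hg⟩ := exists_conj hN h01 h hv hw
  obtain ⟨g', hg'⟩ := exists_conj hN h01 h' hv' hw'
  refine ⟨g' * g⁻¹, ?_⟩
  rw [← hg, ← hg']; group

theorem threeFour [Fintype k] (hN : 3 ≤ N) (hk : Fintype.card k = 2) : IsThreeFourPlusTranspositionSet (DD k N) := by
  refine ⟨isRootInv hN, fun a ha b hb hodd => ?_⟩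
  have hor := (isRootInv (k := k) hN).orderOf_eq
  have key : ∀ x : k, x ≠ 0 → x = 1 := by
    intro x hx
    have h1 := FiniteField.pow_card_sub_one_eq_one x hx
    rw [hk] at h1
    simpa using h1
  rcases product_cases ha hb with h | ⟨_, α, β, φ, hφ, hα, hβ, h⟩ | h
  · left
    have h1 : (a * b) ^ 2 = 1 := by
      have h2 : Commute a b := h
      rw [h2.mul_pow]
      have h3 := pow_orderOf_eq_one a
      have h4 := pow_orderOf_eq_one b
      rw [hor a ha] at h3
      rw [hor b hb] at h4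
      rw [h3, h4, one_mul]
    have h2 := (Nat.dvd_prime Nat.prime_two).1 (orderOf_dvd_of_pow_eq_one h1)
    rcases h2 with h2 | h2
    · exact h2
    · rw [h2] at hodd; exact absurd hodd (by decide)
  · rw [key α hα, key β hβ] at h
    have h1 : (up (1 : k) * lo 1) ^ 3 = 1 := by
      apply Subtype.ext
      have two : (2 : k) = 0 := CharTwo.two_eq_zero
      show ((up (1 : k)).1 * (lo (1 : k)).1) ^ 3 = 1
      have h2 : ((up (1 : k)).1 * (lo (1 : k)).1) = !![0, 1; 1, 1] := by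
        ext i j
        fin_cases i <;> fin_cases j <;> simp [Matrix.mul_apply, Fin.sum_univ_two, up, lo, CharTwo.add_self_eq_zero]
      rw [h2, pow_succ, pow_two]
      ext i j
      fin_cases i <;> fin_cases j <;> simp [Matrix.mul_apply, Fin.sum_univ_two, CharTwo.add_self_eq_zero]
    have h2 : (a * b) ^ 3 = 1 := by rw [h, ← map_pow, h1, map_one]
    exact (Nat.dvd_prime Nat.prime_three).1 (orderOf_dvd_of_pow_eq_one h2)
  · rw [h.1] at hodd; exact absurd hodd (by decide)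

theorem DD_eq {n : ℕ} : {t : Matrix.SpecialLinearGroup (Fin (n + 3)) k | ∃ c : k, c ≠ 0 ∧
        ∃ g : Matrix.SpecialLinearGroup (Fin (n + 3)) k, ((g⁻¹ * t * g : Matrix.SpecialLinearGroup (Fin (n + 3)) k) :
          Matrix (Fin (n + 3)) (Fin (n + 3)) k) = Matrix.transvection 0 1 c} = DD k (n + 3) := by
  have h01 : (0 : Fin (n + 3)) ≠ 1 := by simp [Fin.ext_iff]
  ext t
  constructor
  · rintro ⟨c, hc, g, hg⟩
    have h1 : g⁻¹ * t * g = tS (Pi.single 0 1) (Pi.single 1 1) (by simp [h01.symm]) c := by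
      rw [← transvection_eq h01]
      exact Subtype.ext hg
    have h2 : t = g * tS (Pi.single 0 1) (Pi.single 1 1) (by simp [h01.symm]) c * g⁻¹ := by
      rw [← h1]; group
    rw [h2]
    exact conj_mem (smul_mem _ (single_ne _) (single_ne _) hc) g
  · rintro ⟨v, w, h, hv, hw, rfl⟩
    obtain ⟨g, hg⟩ := exists_conj (by omega : 3 ≤ n + 3) h01 h hv hw
    refine ⟨1, one_ne_zero, g, ?_⟩
    have h1 : g⁻¹ * tS v w h 1 * g = tS (Pi.single 0 1) (Pi.single 1 1) (by simp [h01.symm]) 1 := by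
      rw [← hg]; group
    rw [h1, ← transvection_eq h01]; rfl

end SLN

end Cfsg.Agent.Lib.RootInvSL
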