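import Cfsg.Agent.Lib.RootFrame
import Cfsg.Agent.Lib.QuadForms

/-!
# Siegel transvection subgroups as root subgroups (`S5072`) (helper93)
-/

set_option autoImplicit false
set_option linter.unusedSimpArgs false
set_option linter.unusedSectionVars false
set_option linter.unusedVariables false

namespace Cfsg.Agent.Lib.RootO
open Cfsg Subgroup Matrix QuadraticMap
open Cfsg.Agent.Lib.RankOneGrp Cfsg.Agent.Lib.SL2RankOne Cfsg.Agent.Lib.RootSL2 Cfsg.Agent.Lib.RootFrame
open Cfsg.Agent.Lib.Quad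

variable {ι : Type} [Fintype ι] [DecidableEq ι] {F : Type*} [Field F] {Q : QuadraticForm F (ι → F)}

theorem ext_act {A B : ↥(isometryGroup F ⇑Q)} (h : ∀ x, A.1.1 *ᵥ x = B.1.1 *ᵥ x) : A = B :=
  Subtype.ext (Units.ext (matrix_ext_of_mulVec h))

theorem Q_act (g : ↥(isometryGroup F ⇑Q)) (x : ι → F) : Q (g.1.1 *ᵥ x) = Q x := mem_isometryGroup.1 g.2 x

theorem P_act (g : ↥(isometryGroup F ⇑Q)) (x y : ι → F) : polar Q (g.1.1 *ᵥ x) (g.1.1 *ᵥ y) = polar Q x y := by
  rw [polar, polar, ← mulVec_add, Q_act, Q_act, Q_act]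

theorem mul_act (g h : ↥(isometryGroup F ⇑Q)) (x : ι → F) : (g * h).1.1 *ᵥ x = g.1.1 *ᵥ (h.1.1 *ᵥ x) := by
  rw [mulVec_mulVec]; rfl

theorem one_act (x : ι → F) : (1 : ↥(isometryGroup F ⇑Q)).1.1 *ᵥ x = x := one_mulVec x

theorem act_inv (g : ↥(isometryGroup F ⇑Q)) (x : ι → F) : g.1.1 *ᵥ ((g⁻¹).1.1 *ᵥ x) = x := by
  rw [← mul_act, mul_inv_cancel, one_act]

theorem P_act_inv (g : ↥(isometryGroup F ⇑Q)) (x y : ι → F) :
    polar Q y ((g⁻¹).1.1 *ᵥ x) = polar Q (g.1.1 *ᵥ y) x := by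
  rw [← P_act g, act_inv]

/-- the Siegel map -/
noncomputable def sM (Q : QuadraticForm F (ι → F)) (p r : ι → F) (c : F) : (ι → F) →ₗ[F] (ι → F) :=
  LinearMap.id + c • ((polarBilin Q p).smulRight r - (polarBilin Q r).smulRight p)

theorem sM_apply (p r : ι → F) (c : F) (x : ι → F) :
    sM Q p r c x = x + c • (polar Q p x • r - polar Q r x • p) := by
  simp [sM]

structure Sing (Q : QuadraticForm F (ι → F)) (p r : ι → F) : Prop where
  qp : Q p = 0
  qr : Q r = 0
  pr : polar Q p r = 0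

theorem Sing.pp {p r : ι → F} (h : Sing Q p r) : polar Q p p = 0 := by rw [polar_self', h.qp, mul_zero]
theorem Sing.rr {p r : ι → F} (h : Sing Q p r) : polar Q r r = 0 := by rw [polar_self', h.qr, mul_zero]
theorem Sing.rp {p r : ι → F} (h : Sing Q p r) : polar Q r p = 0 := by rw [polar_comm, h.pr]
theorem Sing.symm {p r : ι → F} (h : Sing Q p r) : Sing Q r p := ⟨h.qr, h.qp, h.rp⟩

theorem sM_Q {p r : ι → F} (h : Sing Q p r) (c : F) (x : ι → F) : Q (sM Q p r c x) = Q x := by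
  rw [sM_apply, Q_add, Q_smul, Q_sub, Q_smul, Q_smul, h.qp, h.qr]
  simp only [polar_smul_right, polar_sub_right, polar_smul_left, h.rp, polar_comm Q x r, polar_comm Q x p, smul_eq_mul]
  ring

/-- a singular line -/
structure Line (Q : QuadraticForm F (ι → F)) (p r : ι → F) : Prop extends Sing Q p r where
  ind : ∀ a b : F, a • p + b • r = 0 → a = 0 ∧ b = 0

theorem Line.symm {p r : ι → F} (h : Line Q p r) : Line Q r p :=
  ⟨h.toSing.symm, fun a b hab => (h.ind b a (by rw [add_comm]; exact hab)).symm⟩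

theorem Line.p_ne {p r : ι → F} (h : Line Q p r) : p ≠ 0 := by
  intro h0
  exact one_ne_zero (h.ind 1 0 (by rw [h0]; simp)).1

theorem Sing.change {p r : ι → F} (h : Sing Q p r) (a b c d : F) : Sing Q (a • p + b • r) (c • p + d • r) := by
  refine ⟨?_, ?_, ?_⟩
  · rw [Q_add, Q_smul, Q_smul, h.qp, h.qr, polar_smul_left, polar_smul_right, h.pr]; simp
  · rw [Q_add, Q_smul, Q_smul, h.qp, h.qr, polar_smul_left, polar_smul_right, h.pr]; simp
  · simp only [polar_add_left, polar_add_right, polar_smul_left, polar_smul_right, h.pr, h.rp, h.pp, h.rr, smul_eq_mul,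
      mul_zero, add_zero]

theorem Line.change {p r : ι → F} (h : Line Q p r) (a b c d : F) (hd : a * d - b * c ≠ 0) :
    Line Q (a • p + b • r) (c • p + d • r) := by
  refine ⟨h.toSing.change a b c d, fun s t hst => ?_⟩
  have h1 : (s * a + t * c) • p + (s * b + t * d) • r = 0 := by
    rw [← hst]; module
  obtain ⟨h2, h3⟩ := h.ind _ _ h1
  have h4 : s * (a * d - b * c) = 0 := by linear_combination d * h2 - c * h3
  have h5 : t * (a * d - b * c) = 0 := by linear_combination a * h3 - b * h2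
  exact ⟨(mul_eq_zero.1 h4).resolve_right hd, (mul_eq_zero.1 h5).resolve_right hd⟩

section
variable (hQ : Nd Q)

/-- an isometry as an element of the matrix group -/
noncomputable def mkI (g : (ι → F) →ₗ[F] (ι → F)) (h : ∀ v, Q (g v) = Q v) : ↥(isometryGroup F ⇑Q) :=
  ofO (ofMap_mem hQ g h)

theorem mkI_act (g : (ι → F) →ₗ[F] (ι → F)) (h : ∀ v, Q (g v) = Q v) (x : ι → F) : (mkI hQ g h).1.1 *ᵥ x = g x :=
  ofO_mulVec _ x

/-- the Siegel transvection -/
noncomputable def sT {p r : ι → F} (h : Sing Q p r) (c : F) : ↥(isometryGroup F ⇑Q) := mkI hQ (sM Q p r c) (sM_Q h c)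

theorem sT_act {p r : ι → F} (h : Sing Q p r) (c : F) (x : ι → F) :
    (sT hQ h c).1.1 *ᵥ x = x + c • (polar Q p x • r - polar Q r x • p) := by
  rw [sT, mkI_act, sM_apply]

theorem sT_add {p r : ι → F} (h : Sing Q p r) (c d : F) : sT hQ h (c + d) = sT hQ h c * sT hQ h d := by
  apply ext_act
  intro x
  rw [mul_act]
  simp only [sT_act, polar_add_right, polar_sub_right, polar_smul_right, h.pp, h.rr, h.pr, h.rp, smul_zero, sub_zero,
    add_zero]
  module

theorem sT_zero {p r : ι → F} (h : Sing Q p r) : sT hQ h 0 = 1 := by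
  apply ext_act
  intro x
  rw [sT_act, one_act, zero_smul, add_zero]

theorem sT_neg {p r : ι → F} (h : Sing Q p r) (c : F) : sT hQ h (-c) = (sT hQ h c)⁻¹ := by
  rw [eq_inv_iff_mul_eq_one, ← sT_add, neg_add_cancel, sT_zero]

include hQ in
theorem exists_dual {p r : ι → F} (h : Line Q p r) : ∃ u, polar Q p u = 1 ∧ polar Q r u = 0 := by
  have h1 : p ∉ Submodule.span F {r} := by
    intro h1
    obtain ⟨a, ha⟩ := Submodule.mem_span_singleton.1 h1
    have := (h.ind 1 (-a) (by rw [← ha]; module)).1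
    exact one_ne_zero this
  obtain ⟨u, hu, hu1⟩ := hQ.exists_polar_one _ h1
  exact ⟨u, hu1, mem_perp_singleton.1 hu⟩

theorem sT_eq_one {p r : ι → F} (h : Line Q p r) {c : F} (hc : sT hQ h.toSing c = 1) : c = 0 := by
  obtain ⟨u, h1, h2⟩ := exists_dual hQ h
  have h3 := sT_act hQ h.toSing c u
  rw [hc, one_act, h1, h2, left_eq_add, one_smul, zero_smul, sub_zero, smul_eq_zero] at h3
  exact h3.resolve_right h.symm.p_ne

/-- the Siegel transvection group -/
noncomputable def TG {p r : ι → F} (h : Sing Q p r) : Subgroup ↥(isometryGroup F ⇑Q) where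
  carrier := {g | ∃ c : F, g = sT hQ h c}
  one_mem' := ⟨0, (sT_zero hQ h).symm⟩
  mul_mem' := by
    rintro _ _ ⟨c, rfl⟩ ⟨d, rfl⟩
    exact ⟨c + d, (sT_add hQ h c d).symm⟩
  inv_mem' := by
    rintro _ ⟨c, rfl⟩
    exact ⟨-c, (sT_neg hQ h c).symm⟩

theorem Sing.act {p r : ι → F} (h : Sing Q p r) (g : ↥(isometryGroup F ⇑Q)) : Sing Q (g.1.1 *ᵥ p) (g.1.1 *ᵥ r) :=
  ⟨by rw [Q_act, h.qp], by rw [Q_act, h.qr], by rw [P_act, h.pr]⟩

theorem act_eq_zero (g : ↥(isometryGroup F ⇑Q)) {x : ι → F} (h : g.1.1 *ᵥ x = 0) : x = 0 := by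
  have h1 : (g⁻¹).1.1 *ᵥ (g.1.1 *ᵥ x) = x := by rw [← mul_act, inv_mul_cancel, one_act]
  rw [← h1, h, mulVec_zero]

theorem Line.act {p r : ι → F} (h : Line Q p r) (g : ↥(isometryGroup F ⇑Q)) : Line Q (g.1.1 *ᵥ p) (g.1.1 *ᵥ r) :=
  ⟨h.toSing.act g, fun a b hab => h.ind a b (by
    rw [← mulVec_smul, ← mulVec_smul, ← mulVec_add] at hab
    exact act_eq_zero g hab)⟩

theorem conj_sT {p r : ι → F} (h : Sing Q p r) (g : ↥(isometryGroup F ⇑Q)) (c : F) :
    g * sT hQ h c * g⁻¹ = sT hQ (h.act g) c := by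
  apply ext_act
  intro x
  rw [mul_act, mul_act, sT_act, sT_act, mulVec_add, act_inv, mulVec_smul, mulVec_sub, mulVec_smul, mulVec_smul, P_act_inv,
    P_act_inv]

theorem conj_TG {p r : ι → F} (h : Sing Q p r) (g : ↥(isometryGroup F ⇑Q)) :
    conjBy (TG hQ h) g = TG hQ (h.act g) := by
  ext x
  constructor
  · rintro ⟨_, ⟨c, rfl⟩, rfl⟩
    exact ⟨c, conj_sT hQ h g c⟩
  · rintro ⟨c, rfl⟩
    exact ⟨sT hQ h c, ⟨c, rfl⟩, conj_sT hQ h g c⟩

theorem sT_change {p r : ι → F} (h : Sing Q p r) (a b c d : F) (h' : Sing Q (a • p + b • r) (c • p + d • r)) (e : F) :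
    sT hQ h' e = sT hQ h ((a * d - b * c) * e) := by
  apply ext_act
  intro x
  rw [sT_act, sT_act]
  simp only [polar_add_left, polar_smul_left, smul_eq_mul]
  module

theorem TG_change {p r : ι → F} (h : Sing Q p r) (a b c d : F) (h' : Sing Q (a • p + b • r) (c • p + d • r))
    (hd : a * d - b * c ≠ 0) : TG hQ h' = TG hQ h := by
  ext x
  constructor
  · rintro ⟨e, rfl⟩
    exact ⟨_, sT_change hQ h a b c d h' e⟩
  · rintro ⟨e, rfl⟩
    refine ⟨(a * d - b * c)⁻¹ * e, ?_⟩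
    rw [sT_change hQ h a b c d h', mul_inv_cancel_left₀ hd]

theorem TG_congr {p r p' r' : ι → F} (h : Sing Q p r) (h' : Sing Q p' r') (h1 : p = p') (h2 : r = r') :
    TG hQ h = TG hQ h' := by
  subst h1 h2; rfl

/-- a line with another basis -/
theorem TG_change' {p r p' r' : ι → F} (h : Sing Q p r) (h' : Sing Q p' r') (a b c d : F) (hp : p' = a • p + b • r)
    (hr : r' = c • p + d • r) (hd : a * d - b * c ≠ 0) : TG hQ h' = TG hQ h := by
  subst hp hr
  exact TG_change hQ h a b c d h' hd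

theorem TG_symm {p r : ι → F} (h : Sing Q p r) : TG hQ h.symm = TG hQ h :=
  TG_change' hQ h h.symm 0 1 1 0 (by simp) (by simp) (by simp)

/-- the commutator formula -/
theorem mul_comm_sT {p r s t : ι → F} (h : Sing Q p r) (h' : Sing Q s t) (hps : polar Q p s = 0)
    (hpt : polar Q p t = 0) (hrs : polar Q r s = 0) (h'' : Sing Q p s) (c d : F) :
    sT hQ h c * sT hQ h' d = sT hQ h'' (c * d * polar Q r t) * (sT hQ h' d * sT hQ h c) := by
  have hsp : polar Q s p = 0 := by rw [polar_comm, hps]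
  have htp : polar Q t p = 0 := by rw [polar_comm, hpt]
  have hsr : polar Q s r = 0 := by rw [polar_comm, hrs]
  have htr : polar Q t r = polar Q r t := polar_comm _ _ _
  apply ext_act
  intro x
  rw [mul_act, mul_act, mul_act]
  simp only [sT_act, polar_add_right, polar_sub_right, polar_smul_right, h.pp, h.rr, h.pr, h.rp, h'.pp, h'.rr, h'.pr, h'.rp,
    hps, hpt, hrs, hsp, htp, hsr, htr, smul_zero, sub_zero, add_zero, zero_sub, smul_eq_mul, mul_zero]
  module

theorem comm_sT {p r s t : ι → F} (h : Sing Q p r) (h' : Sing Q s t) (hps : polar Q p s = 0)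
    (hpt : polar Q p t = 0) (hrs : polar Q r s = 0) (h'' : Sing Q p s) (c d : F) :
    sT hQ h c * sT hQ h' d * (sT hQ h c)⁻¹ * (sT hQ h' d)⁻¹ = sT hQ h'' (c * d * polar Q r t) := by
  rw [mul_comm_sT hQ h h' hps hpt hrs h'']; group

/-- the class -/
def SS : Set (Subgroup ↥(isometryGroup F ⇑Q)) := {A | ∃ (p r : ι → F) (h : Line Q p r), A = TG hQ h.toSing}

/-- the commutator case -/
theorem cc_case {p r s t : ι → F} (h : Line Q p r) (h' : Line Q s t) (hps : polar Q p s = 0)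
    (hpt : polar Q p t = 0) (hrs : polar Q r s = 0) (hrt : polar Q r t ≠ 0) (h'' : Line Q p s) :
    RootCommutatorCase (SS hQ) (TG hQ h.toSing) (TG hQ h'.toSing) := by
  have hcf := comm_sT hQ h.toSing h'.toSing hps hpt hrs h''.toSing
  have hcl : ∀ c : F, c ≠ 0 → Subgroup.closure ((fun b => sT hQ h.toSing c * b * (sT hQ h.toSing c)⁻¹ * b⁻¹) ''
      (TG hQ h'.toSing : Set ↥(isometryGroup F ⇑Q))) = TG hQ h''.toSing := by
    intro c hc
    apply le_antisymm
    · rw [Subgroup.closure_le]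
      rintro _ ⟨_, ⟨d, rfl⟩, rfl⟩
      exact ⟨_, hcf c d⟩
    · rintro _ ⟨e, rfl⟩
      apply Subgroup.subset_closure
      refine ⟨sT hQ h'.toSing (e / (c * polar Q r t)), ⟨_, rfl⟩, ?_⟩
      show sT hQ h.toSing c * _ * _ * _ = _
      rw [hcf]
      congr 1
      field_simp
  have hcr : ∀ d : F, d ≠ 0 → Subgroup.closure ((fun a => a * sT hQ h'.toSing d * a⁻¹ * (sT hQ h'.toSing d)⁻¹) ''
      (TG hQ h.toSing : Set ↥(isometryGroup F ⇑Q))) = TG hQ h''.toSing := by
    intro d hd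
    apply le_antisymm
    · rw [Subgroup.closure_le]
      rintro _ ⟨_, ⟨c, rfl⟩, rfl⟩
      exact ⟨_, hcf c d⟩
    · rintro _ ⟨e, rfl⟩
      apply Subgroup.subset_closure
      refine ⟨sT hQ h.toSing (e / (d * polar Q r t)), ⟨_, rfl⟩, ?_⟩
      show _ * sT hQ h'.toSing d * _ * _ = _
      rw [hcf]
      congr 1
      field_simp
  have hcomm : ⁅TG hQ h.toSing, TG hQ h'.toSing⁆ = TG hQ h''.toSing := by
    apply le_antisymm
    · rw [Subgroup.commutator_le]
      rintro _ ⟨c, rfl⟩ _ ⟨d, rfl⟩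
      exact ⟨_, hcf c d⟩
    · rw [← hcl 1 one_ne_zero, Subgroup.closure_le]
      rintro _ ⟨b, hb', rfl⟩
      exact Subgroup.commutator_mem_commutator ⟨1, rfl⟩ hb'
  refine ⟨?_, ?_, ?_, ?_⟩
  · rw [hcomm]; exact ⟨p, s, h'', rfl⟩
  · rw [hcomm]
    apply centralizes_sup
    · rintro _ ⟨c, rfl⟩ _ ⟨d, rfl⟩
      rw [mul_comm_sT hQ h''.toSing h.toSing h.toSing.pp h.toSing.pr (by rw [polar_comm, hps])
        ⟨h.qp, h.qp, h.toSing.pp⟩ c d]
      have h1 : polar Q s r = 0 := by rw [polar_comm, hrs]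
      rw [h1, mul_zero, sT_zero, one_mul]
    · rintro _ ⟨c, rfl⟩ _ ⟨d, rfl⟩
      rw [mul_comm_sT hQ h''.toSing h'.toSing hps hpt h'.toSing.pp h''.toSing c d]
      rw [h'.pr, mul_zero, sT_zero, one_mul]
  · rintro _ ⟨c, rfl⟩ ha1
    rw [hcomm]
    exact hcl c (fun h0 => ha1 (by rw [h0, sT_zero]))
  · rintro _ ⟨d, rfl⟩ hb1
    rw [hcomm]
    exact hcr d (fun h0 => hb1 (by rw [h0, sT_zero]))

end

end Cfsg.Agent.Lib.RootO
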