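import Cfsg.Agent.Lib.RootO

/-!
# Siegel transvection subgroups as root subgroups, 2 (`S5072`) (helper93)
-/

set_option autoImplicit false
set_option linter.unusedSimpArgs false
set_option linter.unusedSectionVars false
set_option linter.unusedVariables false

namespace Cfsg.Agent.Lib.RootO
open Cfsg Subgroup Matrix QuadraticMap
open Cfsg.Agent.Lib.RankOneGrp Cfsg.Agent.Lib.SL2RankOne Cfsg.Agent.Lib.RootSL2 Cfsg.Agent.Lib.RootFrame
open Cfsg.Agent.Lib.Quad

variable {ι : Type} [Fintype ι] [DecidableEq ι] {F : Type*} [Field F] {Q : QuadraticForm F (ι → F)}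

/-- the action of a `2 × 2` matrix -/
noncomputable def fM (Q : QuadraticForm F (ι → F)) (p r s t : ι → F) (a b c d : F) : (ι → F) →ₗ[F] (ι → F) :=
  LinearMap.id + (polarBilin Q t).smulRight ((a - 1) • r + c • s) + (polarBilin Q p).smulRight (b • r + (d - 1) • s) +
    (polarBilin Q s).smulRight ((a - 1) • p - c • t) + (polarBilin Q r).smulRight ((d - 1) • t - b • p)

theorem fM_apply (p r s t : ι → F) (a b c d : F) (x : ι → F) :
    fM Q p r s t a b c d x = x + polar Q t x • ((a - 1) • r + c • s) + polar Q p x • (b • r + (d - 1) • s) +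
      polar Q s x • ((a - 1) • p - c • t) + polar Q r x • ((d - 1) • t - b • p) := by
  simp [fM]

structure Opp (Q : QuadraticForm F (ι → F)) (p r s t : ι → F) : Prop where
  h1 : Sing Q p r
  h2 : Sing Q s t
  ps : polar Q p s = 1
  pt : polar Q p t = 0
  rs : polar Q r s = 0
  rt : polar Q r t = 1

section
variable {p r s t : ι → F} (h : Opp Q p r s t)

theorem Opp.sp {p r s t : ι → F} (h : Opp Q p r s t) : polar Q s p = 1 := by rw [polar_comm, h.ps]
theorem Opp.tp {p r s t : ι → F} (h : Opp Q p r s t) : polar Q t p = 0 := by rw [polar_comm, h.pt]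
theorem Opp.sr {p r s t : ι → F} (h : Opp Q p r s t) : polar Q s r = 0 := by rw [polar_comm, h.rs]
theorem Opp.tr {p r s t : ι → F} (h : Opp Q p r s t) : polar Q t r = 1 := by rw [polar_comm, h.rt]

include h in
theorem fM_Q {a b c d : F} (hd : a * d - b * c = 1) (x : ι → F) : Q (fM Q p r s t a b c d x) = Q x := by
  rw [fM_apply]
  simp only [Q_add, Q_sub, Q_smul, polar_add_left, polar_add_right, polar_sub_left, polar_sub_right, polar_smul_left,
    polar_smul_right, h.h1.qp, h.h1.qr, h.h2.qp, h.h2.qr, h.ps, h.pt, h.rs, h.rt, h.sp, h.tp, h.sr, h.tr, h.h1.pr, h.h1.rp,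
    h.h2.pr, h.h2.rp, h.h1.pp, h.h1.rr, h.h2.pp, h.h2.rr, polar_comm Q x p, polar_comm Q x r, polar_comm Q x s,
    polar_comm Q x t, smul_eq_mul]
  linear_combination (polar Q t x * polar Q r x + polar Q p x * polar Q s x) * hd

include h in
theorem fM_mul (a b c d a' b' c' d' : F) (x : ι → F) :
    fM Q p r s t a b c d (fM Q p r s t a' b' c' d' x) =
      fM Q p r s t (a * a' + b * c') (a * b' + b * d') (c * a' + d * c') (c * b' + d * d') x := by
  rw [fM_apply p r s t a b c d, fM_apply p r s t a' b' c' d', fM_apply]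
  simp only [polar_add_left, polar_add_right, polar_sub_left, polar_sub_right, polar_smul_left,
    polar_smul_right, h.ps, h.pt, h.rs, h.rt, h.sp, h.tp, h.sr, h.tr, h.h1.pr, h.h1.rp,
    h.h2.pr, h.h2.rp, h.h1.pp, h.h1.rr, h.h2.pp, h.h2.rr, smul_eq_mul]
  module

end

section
variable (hQ : Nd Q)

theorem homPair_opp {p r s t : ι → F} (h : Opp Q p r s t) : HomPair F (TG hQ h.h1) (TG hQ h.h2) := by
  let φ : SpecialLinearGroup (Fin 2) F →* ↥(isometryGroup F ⇑Q) :=
    { toFun := fun g => mkI hQ (fM Q p r s t (g.1 0 0) (g.1 0 1) (g.1 1 0) (g.1 1 1)) (fM_Q h (det_eq g))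
      map_one' := by
        apply ext_act
        intro x
        rw [mkI_act, fM_apply, one_act]
        simp only [one_00, one_01, one_10, one_11, sub_self, zero_smul, smul_zero, add_zero]
      map_mul' := by
        intro g g'
        apply ext_act
        intro x
        rw [mul_act, mkI_act, mkI_act, mkI_act, fM_mul h, mul_00, mul_01, mul_10, mul_11] }
  have hφ : ∀ (g : SpecialLinearGroup (Fin 2) F) (x : ι → F), (φ g).1.1 *ᵥ x =
      fM Q p r s t (g.1 0 0) (g.1 0 1) (g.1 1 0) (g.1 1 1) x := fun g x => mkI_act hQ _ _ x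
  have hup : ∀ c, φ (up c) = sT hQ h.h1 c := by
    intro c
    apply ext_act
    intro x
    rw [hφ, sT_act, fM_apply]
    simp only [up_00, up_01, up_10, up_11]
    module
  have hlo : ∀ c, φ (lo c) = sT hQ h.h2 (-c) := by
    intro c
    apply ext_act
    intro x
    rw [hφ, sT_act, fM_apply]
    simp only [lo_00, lo_01, lo_10, lo_11]
    module
  refine homPair_of φ ?_ ?_ ?_ ?_ ?_
  · intro g g' hg
    have h1 : ∀ x, fM Q p r s t (g.1 0 0) (g.1 0 1) (g.1 1 0) (g.1 1 1) x =
        fM Q p r s t (g'.1 0 0) (g'.1 0 1) (g'.1 1 0) (g'.1 1 1) x := fun x => by rw [← hφ, ← hφ, hg]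
    have hr := h1 r
    have hs := h1 s
    rw [fM_apply, fM_apply] at hr hs
    have e1 := congrArg (polar Q t) hr
    have e2 := congrArg (polar Q p) hr
    have e3 := congrArg (polar Q t) hs
    have e4 := congrArg (polar Q p) hs
    simp only [polar_add_left, polar_add_right, polar_sub_left, polar_sub_right, polar_smul_left,
      polar_smul_right, h.ps, h.pt, h.rs, h.rt, h.sp, h.tp, h.sr, h.tr, h.h1.pr, h.h1.rp,
      h.h2.pr, h.h2.rp, h.h1.pp, h.h1.rr, h.h2.pp, h.h2.rr, smul_eq_mul] at e1 e2 e3 e4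
    apply sl_ext
    · linear_combination e1
    · linear_combination e3
    · linear_combination e2
    · linear_combination e4
  · intro c
    exact ⟨c, hup c⟩
  · rintro _ ⟨c, rfl⟩
    exact ⟨c, hup c⟩
  · intro c
    exact ⟨-c, hlo c⟩
  · rintro _ ⟨c, rfl⟩
    refine ⟨-c, ?_⟩
    rw [hlo, neg_neg]

/-- opposite lines -/
theorem homPair {p r s t : ι → F} (h : Sing Q p r) (h' : Sing Q s t)
    (hd : polar Q p s * polar Q r t - polar Q p t * polar Q r s ≠ 0) : HomPair F (TG hQ h) (TG hQ h') := by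
  generalize hδ : polar Q p s * polar Q r t - polar Q p t * polar Q r s = δ at hd
  have hs : Sing Q ((δ⁻¹ * polar Q r t) • s + (-(δ⁻¹ * polar Q r s)) • t)
      ((-(δ⁻¹ * polar Q p t)) • s + (δ⁻¹ * polar Q p s) • t) := h'.change _ _ _ _
  have hdet : (δ⁻¹ * polar Q r t) * (δ⁻¹ * polar Q p s) - (-(δ⁻¹ * polar Q r s)) * (-(δ⁻¹ * polar Q p t)) ≠ 0 := by
    have h1 : (δ⁻¹ * polar Q r t) * (δ⁻¹ * polar Q p s) - (-(δ⁻¹ * polar Q r s)) * (-(δ⁻¹ * polar Q p t)) = δ⁻¹ := by
      have h2 : δ⁻¹ * δ = 1 := inv_mul_cancel₀ hd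
      linear_combination δ⁻¹ * δ⁻¹ * hδ + δ⁻¹ * h2
    rw [h1]; exact inv_ne_zero hd
  rw [← TG_change hQ h' _ _ _ _ hs hdet]
  have hO : Opp Q p r ((δ⁻¹ * polar Q r t) • s + (-(δ⁻¹ * polar Q r s)) • t)
      ((-(δ⁻¹ * polar Q p t)) • s + (δ⁻¹ * polar Q p s) • t) := by
    have h2 : δ⁻¹ * δ = 1 := inv_mul_cancel₀ hd
    refine ⟨h, hs, ?_, ?_, ?_, ?_⟩ <;>
      simp only [polar_add_right, polar_smul_right, smul_eq_mul]
    · linear_combination δ⁻¹ * hδ + h2
    · ring
    · ring
    · linear_combination δ⁻¹ * hδ + h2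
  exact homPair_opp hQ hO

theorem pair_aux {p r s t : ι → F} (h : Line Q p r) (h' : Line Q s t) (hps : polar Q p s = 0)
    (hpt : polar Q p t = 0) (hrs : polar Q r s = 0) :
    (∀ a ∈ TG hQ h.toSing, ∀ b ∈ TG hQ h'.toSing, a * b = b * a) ∨
      RootCommutatorCase (SS hQ) (TG hQ h.toSing) (TG hQ h'.toSing) := by
  have hS : Sing Q p s := ⟨h.qp, h'.qp, hps⟩
  by_cases hrt : polar Q r t = 0
  · left
    rintro _ ⟨c, rfl⟩ _ ⟨d, rfl⟩
    rw [mul_comm_sT hQ h.toSing h'.toSing hps hpt hrs hS, hrt, mul_zero, sT_zero, one_mul]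
  · by_cases hind : ∀ a b : F, a • p + b • s = 0 → a = 0 ∧ b = 0
    · right
      exact cc_case hQ h h' hps hpt hrs hrt ⟨hS, hind⟩
    · left
      push Not at hind
      obtain ⟨a, b, hab, hne⟩ := hind
      have hb : b ≠ 0 := by
        rintro rfl
        rw [zero_smul, add_zero, smul_eq_zero] at hab
        rcases hab with h0 | h0
        · exact hne h0 rfl
        · exact h.p_ne h0
      have hs : s = (-(b⁻¹ * a)) • p := by
        have h1 : b⁻¹ • (a • p + b • s) = 0 := by rw [hab, smul_zero]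
        rw [smul_add, smul_smul, smul_smul, inv_mul_cancel₀ hb, one_smul] at h1
        rw [neg_smul, ← sub_eq_zero, sub_neg_eq_add, add_comm]; exact h1
      rintro _ ⟨c, rfl⟩ _ ⟨d, rfl⟩
      rw [mul_comm_sT hQ h.toSing h'.toSing hps hpt hrs hS]
      have h1 : sT hQ hS (c * d * polar Q r t) = 1 := by
        apply ext_act
        intro x
        rw [sT_act, one_act, hs, polar_smul_left, smul_eq_mul]
        module
      rw [h1, one_mul]

theorem pair_aux2 {p r s t : ι → F} (h : Line Q p r) (h' : Line Q s t) (hrt : polar Q r t ≠ 0)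
    (hd : polar Q p s * polar Q r t - polar Q p t * polar Q r s = 0) :
    (∀ a ∈ TG hQ h.toSing, ∀ b ∈ TG hQ h'.toSing, a * b = b * a) ∨
      RootCommutatorCase (SS hQ) (TG hQ h.toSing) (TG hQ h'.toSing) := by
  have hl : Line Q ((1 : F) • p + (-(polar Q p t * (polar Q r t)⁻¹)) • r) ((0 : F) • p + (1 : F) • r) :=
    h.change _ _ _ _ (by simp)
  have hl' : Line Q ((1 : F) • s + (-(polar Q r s * (polar Q r t)⁻¹)) • t) ((0 : F) • s + (1 : F) • t) :=
    h'.change _ _ _ _ (by simp)
  rw [← TG_change hQ h.toSing _ _ _ _ hl.toSing (by simp), ← TG_change hQ h'.toSing _ _ _ _ hl'.toSing (by simp)]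
  have hi : (polar Q r t)⁻¹ * polar Q r t = 1 := inv_mul_cancel₀ hrt
  apply pair_aux hQ hl hl'
  · simp only [polar_add_left, polar_smul_left, polar_add_right, polar_smul_right, smul_eq_mul]
    linear_combination (polar Q r t)⁻¹ * hd + (polar Q r s * polar Q p t * (polar Q r t)⁻¹ - polar Q p s) * hi
  · simp only [polar_add_left, polar_smul_left, polar_add_right, polar_smul_right, smul_eq_mul]
    linear_combination -polar Q p t * hi
  · simp only [polar_add_left, polar_smul_left, polar_add_right, polar_smul_right, smul_eq_mul]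
    linear_combination -polar Q r s * hi

theorem pair_cases {A B : Subgroup ↥(isometryGroup F ⇑Q)} (hA : A ∈ SS hQ) (hB : B ∈ SS hQ) :
    (∀ a ∈ A, ∀ b ∈ B, a * b = b * a) ∨ HomPair F A B ∨ RootCommutatorCase (SS hQ) A B := by
  obtain ⟨p, r, h, rfl⟩ := hA
  obtain ⟨s, t, h', rfl⟩ := hB
  by_cases hd : polar Q p s * polar Q r t - polar Q p t * polar Q r s = 0
  · have key : (∀ a ∈ TG hQ h.toSing, ∀ b ∈ TG hQ h'.toSing, a * b = b * a) ∨
      RootCommutatorCase (SS hQ) (TG hQ h.toSing) (TG hQ h'.toSing) := by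
      by_cases hrt : polar Q r t = 0
      · by_cases hrs : polar Q r s = 0
        · by_cases hpt : polar Q p t = 0
          · by_cases hps : polar Q p s = 0
            · exact pair_aux hQ h h' hps hpt hrs
            · rw [← TG_symm hQ h.toSing, ← TG_symm hQ h'.toSing]
              exact pair_aux2 hQ h.symm h'.symm hps (by rw [hrt, hrs, hpt]; ring)
          · rw [← TG_symm hQ h.toSing]
            exact pair_aux2 hQ h.symm h' hpt (by rw [hrt, hrs]; ring)
        · rw [← TG_symm hQ h'.toSing]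
          exact pair_aux2 hQ h h'.symm hrs (by
            rw [hrt] at hd ⊢
            linear_combination -hd)
      · exact pair_aux2 hQ h h' hrt hd
    exact key.imp_right Or.inr
  · exact Or.inr (Or.inl (homPair hQ h.toSing h'.toSing hd))

theorem root : IsKRootSubgroupSet F ((fun A : Subgroup ↥(isometryGroup F ⇑Q) => A.subgroupOf (⨆ B ∈ SS hQ, B)) '' SS hQ) := by
  apply frame_root
  · rintro _ ⟨p, r, h, rfl⟩ _ ⟨c, rfl⟩ _ ⟨d, rfl⟩
    rw [← sT_add, ← sT_add, add_comm]
  · rintro _ ⟨p, r, h, rfl⟩ hb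
    have h1 : sT hQ h.toSing 1 ∈ TG hQ h.toSing := ⟨1, rfl⟩
    rw [hb, Subgroup.mem_bot] at h1
    exact one_ne_zero (sT_eq_one hQ h h1)
  · rintro _ ⟨p, r, h, rfl⟩ g
    exact ⟨_, _, h.act g, conj_TG hQ h.toSing g⟩
  · intro A hA B hB
    exact pair_cases hQ hA hB

/-- the elements fixing the perp of a line -/
theorem closure_eq {p r : ι → F} (h : Line Q p r) : Subgroup.closure {σ : ↥(isometryGroup F ⇑Q) | ∀ v : ι → F,
      Q (v + p) - Q v - Q p = 0 → Q (v + r) - Q v - Q r = 0 →
        ((σ : Matrix.GeneralLinearGroup ι F) : Matrix ι ι F) *ᵥ v = v} = TG hQ h.toSing := by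
  have h1 : {σ : ↥(isometryGroup F ⇑Q) | ∀ v : ι → F,
      Q (v + p) - Q v - Q p = 0 → Q (v + r) - Q v - Q r = 0 →
        ((σ : Matrix.GeneralLinearGroup ι F) : Matrix ι ι F) *ᵥ v = v} = (TG hQ h.toSing : Set ↥(isometryGroup F ⇑Q)) := by
    ext σ
    constructor
    · intro hσ
      have hσ' : ∀ v, polar Q p v = 0 → polar Q r v = 0 → σ.1.1 *ᵥ v = v := by
        intro v hv1 hv2
        apply hσ v
        · rw [polar_comm] at hv1; exact hv1
        · rw [polar_comm] at hv2; exact hv2
      obtain ⟨u, hpu, hru⟩ := exists_dual hQ h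
      obtain ⟨w, hrw, hpw⟩ := exists_dual hQ h.symm
      -- the displacement of any vector lies in the line
      have hdis : ∀ x, σ.1.1 *ᵥ x - x = polar Q (σ.1.1 *ᵥ x - x) u • p + polar Q (σ.1.1 *ᵥ x - x) w • r := by
        intro x
        rw [← sub_eq_zero]
        apply hQ.eq_zero
        intro y
        -- decompose `y`
        have hy : polar Q (σ.1.1 *ᵥ x - x) (y - polar Q p y • u - polar Q r y • w) = 0 := by
          have h2 : σ.1.1 *ᵥ (y - polar Q p y • u - polar Q r y • w) = y - polar Q p y • u - polar Q r y • w := by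
            apply hσ'
            · simp only [polar_sub_right, polar_smul_right, hpu, hpw, smul_eq_mul]; ring
            · simp only [polar_sub_right, polar_smul_right, hru, hrw, smul_eq_mul]; ring
          rw [polar_sub_left]
          conv_lhs => rw [← h2, P_act, h2]
          rw [sub_self]
        rw [polar_sub_right, polar_sub_right, polar_smul_right, polar_smul_right] at hy
        rw [polar_sub_left _ _ (_ • p + _ • r), polar_add_left, polar_smul_left, polar_smul_left]
        simp only [smul_eq_mul] at hy ⊢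
        linear_combination hy
      generalize hα : polar Q (σ.1.1 *ᵥ u - u) u = α at hdis
      have hu := hdis u
      have hw := hdis w
      rw [sub_eq_iff_eq_add] at hu hw
      generalize polar Q (σ.1.1 *ᵥ u - u) u = α at hu
      generalize polar Q (σ.1.1 *ᵥ u - u) w = β at hu
      generalize polar Q (σ.1.1 *ᵥ w - w) u = γ at hw
      generalize polar Q (σ.1.1 *ᵥ w - w) w = δ at hw
      have hup : polar Q u p = 1 := by rw [polar_comm, hpu]
      have hur : polar Q u r = 0 := by rw [polar_comm, hru]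
      have hwp : polar Q w p = 0 := by rw [polar_comm, hpw]
      have hwr : polar Q w r = 1 := by rw [polar_comm, hrw]
      have e1 := Q_act σ u
      have e2 := Q_act σ w
      have e3 := P_act σ u w
      rw [hu] at e1 e3
      rw [hw] at e2 e3
      simp only [Q_add, Q_smul, h.qp, h.qr, polar_add_left, polar_add_right, polar_smul_left, polar_smul_right, h.pr,
        h.toSing.rp, h.toSing.pp, h.toSing.rr, hpu, hru, hpw, hrw, hup, hur, hwp, hwr, smul_eq_mul, mul_zero, mul_one,
        add_zero, zero_add] at e1 e2 e3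
      have hα0 : α = 0 := by linear_combination e1
      have hδ0 : δ = 0 := by linear_combination e2
      have hγ : γ = -β := by linear_combination e3
      refine ⟨β, ext_act fun x => ?_⟩
      have h2 : σ.1.1 *ᵥ (x - polar Q p x • u - polar Q r x • w) = x - polar Q p x • u - polar Q r x • w := by
        apply hσ'
        · simp only [polar_sub_right, polar_smul_right, hpu, hpw, smul_eq_mul]; ring
        · simp only [polar_sub_right, polar_smul_right, hru, hrw, smul_eq_mul]; ring
      rw [mulVec_sub, mulVec_sub, mulVec_smul, mulVec_smul, hu, hw, sub_eq_iff_eq_add, sub_eq_iff_eq_add] at h2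
      rw [h2, sT_act, hα0, hδ0, hγ]
      module
    · rintro ⟨c, rfl⟩ v hv1 hv2
      have h2 : polar Q p v = 0 := by rw [polar_comm]; exact hv1
      have h3 : polar Q r v = 0 := by rw [polar_comm]; exact hv2
      have h4 := sT_act hQ h.toSing c v
      rw [h2, h3, zero_smul, zero_smul, sub_zero, smul_zero, add_zero] at h4
      exact h4
  rw [h1, Subgroup.closure_eq]

end

end Cfsg.Agent.Lib.RootO
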