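import Cfsg.Agent.Lib.RootO2

/-!
# Siegel transvection subgroups as root subgroups, 3: connectedness (`S5072`) (helper93)
-/

set_option autoImplicit false
set_option linter.unusedSimpArgs false
set_option linter.unusedSectionVars false
set_option linter.unusedVariables false

namespace Cfsg.Agent.Lib.RootO
open Cfsg Subgroup Matrix QuadraticMap
open Cfsg.Agent.Lib.RankOneGrp Cfsg.Agent.Lib.SL2RankOne Cfsg.Agent.Lib.RootSL2 Cfsg.Agent.Lib.RootFrame
open Cfsg.Agent.Lib.Quad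

section
variable {ι : Type} [Fintype ι] [DecidableEq ι] {F : Type*} [Field F] {Q : QuadraticForm F (ι → F)}

/-- the relation on root subgroups -/
def Rel (hQ : Nd Q) (A B : Subgroup ↥(isometryGroup F ⇑Q)) : Prop := A ∈ SS hQ ∧ B ∈ SS hQ ∧ HomPair F A B

variable (hQ : Nd Q)

include hQ in
/-- a common opposite line -/
theorem common {p r t : ι → F} (h : Line Q p r) (h' : Line Q p t) (hrt : polar Q r t = 0) :
    Relation.ReflTransGen (Rel hQ) (TG hQ h.toSing) (TG hQ h'.toSing) := by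
  have hpp := h.toSing.pp
  obtain ⟨u, hu1, _⟩ := exists_dual hQ h
  -- a singular vector `p'` with `B(p, p') = 1`
  obtain ⟨p', hp'1, hp'Q⟩ : ∃ p', polar Q p p' = 1 ∧ Q p' = 0 := by
    refine ⟨u - Q u • p, ?_, ?_⟩
    · rw [polar_sub_right, polar_smul_right, hpp, hu1, smul_zero, sub_zero]
    · rw [Q_sub, Q_smul, h.qp, polar_smul_right, polar_comm, hu1, smul_eq_mul]; ring
  have hp'p : polar Q p' p = 1 := by rw [polar_comm, hp'1]
  have hp'p' : polar Q p' p' = 0 := by rw [polar_self', hp'Q, mul_zero]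
  -- adjust `r` and `t`
  have key : ∀ {z : ι → F} (hz : Line Q p z), ∃ z', ∃ hz' : Line Q p z', TG hQ hz'.toSing = TG hQ hz.toSing ∧
      polar Q p' z' = 0 ∧ ∃ c : F, z' = z - c • p := by
    intro z hz
    have hl : Line Q ((1 : F) • p + (0 : F) • z) ((-(polar Q p' z)) • p + (1 : F) • z) := hz.change _ _ _ _ (by simp)
    have e1 : (1 : F) • p + (0 : F) • z = p := by rw [one_smul, zero_smul, add_zero]
    have e2 : (-(polar Q p' z)) • p + (1 : F) • z = z - polar Q p' z • p := by module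
    rw [e1, e2] at hl
    refine ⟨_, hl, ?_, ?_, _, rfl⟩
    · exact TG_change' hQ hz.toSing hl.toSing 1 0 (-(polar Q p' z)) 1 e1.symm e2.symm (by simp)
    · rw [polar_sub_right, polar_smul_right, hp'p, smul_eq_mul, mul_one, sub_self]
  obtain ⟨r', hr', hTr, hpr', c, hc⟩ := key h
  obtain ⟨t', ht', hTt, hpt', d, hd⟩ := key h'
  have hr't' : polar Q r' t' = 0 := by
    rw [hc, hd, polar_sub_left, polar_sub_right, polar_sub_right, polar_smul_left, polar_smul_left, polar_smul_right,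
      polar_smul_right, hrt, h.toSing.rp, h'.pr, hpp]
    simp
  -- a vector orthogonal to `p, p'` and not to `z`
  have ex : ∀ {z : ι → F} (hz : Line Q p z) (hpz : polar Q p' z = 0), ∃ x, polar Q p x = 0 ∧ polar Q p' x = 0 ∧
      polar Q z x ≠ 0 := by
    intro z hz hpz
    obtain ⟨x, hx1, hx2⟩ := exists_dual hQ hz.symm
    have hzp' : polar Q z p' = 0 := by rw [polar_comm, hpz]
    refine ⟨x - polar Q p' x • p - polar Q p x • p', ?_, ?_, ?_⟩
    · simp only [polar_sub_right, polar_smul_right, hpp, hp'1, smul_eq_mul]; ring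
    · simp only [polar_sub_right, polar_smul_right, hp'p, hp'p', smul_eq_mul]; ring
    · simp only [polar_sub_right, polar_smul_right, hz.toSing.rp, hzp', hx1, smul_eq_mul, mul_zero, sub_zero]
      exact one_ne_zero
  obtain ⟨x, hx1, hx2, hx3⟩ := ex hr' hpr'
  obtain ⟨y, hy1, hy2, hy3⟩ := ex ht' hpt'
  obtain ⟨v₀, hv1, hv2, hv3, hv4⟩ : ∃ v₀, polar Q p v₀ = 0 ∧ polar Q p' v₀ = 0 ∧ polar Q r' v₀ ≠ 0 ∧ polar Q t' v₀ ≠ 0 := by
    by_cases h1 : polar Q t' x = 0
    · by_cases h2 : polar Q r' y = 0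
      · refine ⟨x + y, ?_, ?_, ?_, ?_⟩
        · rw [polar_add_right, hx1, hy1, add_zero]
        · rw [polar_add_right, hx2, hy2, add_zero]
        · rw [polar_add_right, h2, add_zero]; exact hx3
        · rw [polar_add_right, h1, zero_add]; exact hy3
      · exact ⟨y, hy1, hy2, h2, hy3⟩
    · exact ⟨x, hx1, hx2, hx3, h1⟩
  -- make it singular
  obtain ⟨v, hvQ, hw1, hw2, hw3, hw4⟩ : ∃ v, Q v = 0 ∧ polar Q p v = 0 ∧ polar Q p' v = 0 ∧ polar Q r' v ≠ 0 ∧
      polar Q t' v ≠ 0 := by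
    refine ⟨v₀ - (Q v₀ * (polar Q r' v₀)⁻¹) • r', ?_, ?_, ?_, ?_, ?_⟩
    · have hi : (polar Q r' v₀)⁻¹ * polar Q r' v₀ = 1 := inv_mul_cancel₀ hv3
      rw [Q_sub, Q_smul, hr'.qr, polar_smul_right, polar_comm Q v₀ r', smul_eq_mul]
      linear_combination -Q v₀ * hi
    · rw [polar_sub_right, polar_smul_right, hr'.pr, hv1, smul_zero, sub_zero]
    · rw [polar_sub_right, polar_smul_right, hpr', hv2, smul_zero, sub_zero]
    · rw [polar_sub_right, polar_smul_right, hr'.toSing.rr, smul_zero, sub_zero]; exact hv3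
    · rw [polar_sub_right, polar_smul_right, polar_comm Q t' r', hr't', smul_zero, sub_zero]; exact hv4
  have hr'p' : polar Q r' p' = 0 := by rw [polar_comm, hpr']
  have ht'p' : polar Q t' p' = 0 := by rw [polar_comm, hpt']
  have hvp : polar Q v p = 0 := by rw [polar_comm, hw1]
  have hL : Line Q p' v := by
    refine ⟨⟨hp'Q, hvQ, hw2⟩, fun a b hab => ?_⟩
    have e1 := congrArg (polar Q p) hab
    have e2 := congrArg (polar Q r') hab
    rw [polar_add_right, polar_smul_right, polar_smul_right, hp'1, hw1, polar_zero_right, smul_eq_mul, smul_zero,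
      add_zero, mul_one] at e1
    rw [polar_add_right, polar_smul_right, polar_smul_right, hr'p', polar_zero_right, smul_eq_mul, smul_eq_mul, mul_zero,
      zero_add] at e2
    exact ⟨e1, (mul_eq_zero.1 e2).resolve_right hw3⟩
  rw [← hTr, ← hTt]
  have E1 : HomPair F (TG hQ hr'.toSing) (TG hQ hL.toSing) := by
    apply homPair
    rw [hp'1, hw1, one_mul, zero_mul, sub_zero]; exact hw3
  have E2 : HomPair F (TG hQ hL.toSing) (TG hQ ht'.toSing) := by
    apply homPair
    rw [hp'p, hvp, one_mul, mul_zero, sub_zero, polar_comm]; exact hw4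
  exact (Relation.ReflTransGen.single (b := TG hQ hL.toSing) ⟨⟨_, _, hr', rfl⟩, ⟨_, _, hL, rfl⟩, E1⟩).tail
    ⟨⟨_, _, hL, rfl⟩, ⟨_, _, ht', rfl⟩, E2⟩

variable (hthird : ∀ {p r : ι → F}, Line Q p r → ∃ e, Q e = 0 ∧ polar Q p e = 0 ∧ polar Q r e = 0 ∧
  ∀ a b c : F, a • p + b • r + c • e = 0 → a = 0 ∧ b = 0 ∧ c = 0)

include hQ hthird

theorem star {p r t : ι → F} (h : Line Q p r) (h' : Line Q p t) :
    Relation.ReflTransGen (Rel hQ) (TG hQ h.toSing) (TG hQ h'.toSing) := by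
  by_cases hrt : polar Q r t = 0
  · exact common hQ h h' hrt
  · obtain ⟨e, he1, he2, he3, he4⟩ := hthird h
    have hr_e : polar Q e r = 0 := by rw [polar_comm, he3]
    have hL : Line Q p (e - (polar Q e t * (polar Q r t)⁻¹) • r) := by
      refine ⟨⟨h.qp, ?_, ?_⟩, fun a b hab => ?_⟩
      · rw [Q_sub, Q_smul, he1, h.qr, polar_smul_right, hr_e]; simp
      · rw [polar_sub_right, polar_smul_right, he2, h.pr, smul_zero, sub_zero]
      · have h1 := he4 a (-(b * (polar Q e t * (polar Q r t)⁻¹))) b (by rw [← hab]; module)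
        exact ⟨h1.1, h1.2.2⟩
    have h1 := common hQ h hL (by
      rw [polar_sub_right, polar_smul_right, he3, h.toSing.rr, smul_zero, sub_zero])
    have h2 := common hQ hL h' (by
      rw [polar_sub_left, polar_smul_left, smul_eq_mul, mul_assoc, inv_mul_cancel₀ hrt, mul_one, sub_self])
    exact h1.trans h2

theorem connected {p r s t : ι → F} (h : Line Q p r) (h' : Line Q s t) :
    Relation.ReflTransGen (Rel hQ) (TG hQ h.toSing) (TG hQ h'.toSing) := by
  obtain ⟨s₁, t₁, hL, hT, hps⟩ : ∃ s₁ t₁, ∃ hL : Line Q s₁ t₁, TG hQ hL.toSing = TG hQ h'.toSing ∧ polar Q p s₁ = 0 := by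
    by_cases hps : polar Q p s = 0
    · exact ⟨s, t, h', rfl, hps⟩
    · refine ⟨_, _, h'.change (-(polar Q p t * (polar Q p s)⁻¹)) 1 1 0 (by simp), TG_change hQ _ _ _ _ _ _ (by simp), ?_⟩
      rw [polar_add_right, polar_smul_right, polar_smul_right, smul_eq_mul, smul_eq_mul, one_mul, neg_mul, mul_assoc,
        inv_mul_cancel₀ hps, mul_one, neg_add_cancel]
  rw [← hT]
  by_cases hind : ∀ a b : F, a • p + b • s₁ = 0 → a = 0 ∧ b = 0
  · have h1 : Line Q p s₁ := ⟨⟨h.qp, hL.qp, hps⟩, hind⟩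
    have h2 := star hQ hthird h h1
    have h3 := star hQ hthird h1.symm hL
    rw [TG_symm hQ h1.toSing] at h3
    exact h2.trans h3
  · push Not at hind
    obtain ⟨a, b, hab, hne⟩ := hind
    have hb : b ≠ 0 := by
      rintro rfl
      rw [zero_smul, add_zero, smul_eq_zero] at hab
      rcases hab with h0 | h0
      · exact hne h0 rfl
      · exact h.p_ne h0
    have ha : a ≠ 0 := by
      rintro rfl
      rw [zero_smul, zero_add, smul_eq_zero] at hab
      rcases hab with h0 | h0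
      · exact hb h0
      · exact hL.p_ne h0
    have hp : p = (-(a⁻¹ * b)) • s₁ + (0 : F) • t₁ := by
      have h1 : a⁻¹ • (a • p + b • s₁) = 0 := by rw [hab, smul_zero]
      rw [smul_add, smul_smul, smul_smul, inv_mul_cancel₀ ha, one_smul] at h1
      rw [zero_smul, add_zero, neg_smul, ← sub_eq_zero, sub_neg_eq_add]; exact h1
    have hdet : (-(a⁻¹ * b)) * (1 : F) - (0 : F) * 0 ≠ 0 := by
      rw [mul_one, zero_mul, sub_zero]
      exact neg_ne_zero.2 (mul_ne_zero (inv_ne_zero ha) hb)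
    have hM : Line Q ((-(a⁻¹ * b)) • s₁ + (0 : F) • t₁) ((0 : F) • s₁ + (1 : F) • t₁) := hL.change _ _ _ _ hdet
    have e2 : (0 : F) • s₁ + (1 : F) • t₁ = t₁ := by rw [zero_smul, zero_add, one_smul]
    rw [← hp, e2] at hM
    have h1 := star hQ hthird h hM
    rw [TG_change' hQ hL.toSing hM.toSing _ _ _ _ hp e2.symm hdet] at h1
    exact h1

end

/-! ### the hyperbolic form -/
section
variable {F : Type*} [Field F] {m : ℕ}

theorem single_Q (i : Fin m) : quadPlus m F (Pi.single (Sum.inl i) 1) = 0 := by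
  show Cfsg.quadFormPlus m F _ = 0
  rw [Cfsg.quadFormPlus]
  apply Finset.sum_eq_zero
  intro j _
  simp

theorem single_P (i j : Fin m) : polar (quadPlus m F) (Pi.single (Sum.inl i) 1) (Pi.single (Sum.inl j) 1) = 0 := by
  show polar (Cfsg.quadFormPlus m F) _ _ = 0
  rw [polar_quadPlus]
  apply Finset.sum_eq_zero
  intro l _
  simp

theorem third {p r : Fin (m + 3) ⊕ Fin (m + 3) → F} (h : Line (quadPlus (m + 3) F) p r) :
    ∃ e, quadPlus (m + 3) F e = 0 ∧ polar (quadPlus (m + 3) F) p e = 0 ∧ polar (quadPlus (m + 3) F) r e = 0 ∧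
      ∀ a b c : F, a • p + b • r + c • e = 0 → a = 0 ∧ b = 0 ∧ c = 0 := by
  have hQ : Nd (quadPlus (m + 3) F) := nd_quadPlus
  have h01 : (0 : Fin (m + 3)) ≠ 1 := by simp [Fin.ext_iff]
  have hmod : 2 % (m + 3) = 2 := Nat.mod_eq_of_lt (by omega)
  have h02 : (0 : Fin (m + 3)) ≠ 2 := by simp [Fin.ext_iff]; omega
  have h12 : (1 : Fin (m + 3)) ≠ 2 := by simp [Fin.ext_iff]; omega
  have hsi : ∀ i : Fin (m + 3), quadPlus (m + 3) F (Pi.single (Sum.inl i) 1) = 0 := single_Q
  have hsp : ∀ i j : Fin (m + 3), polar (quadPlus (m + 3) F) (Pi.single (Sum.inl i) 1) (Pi.single (Sum.inl j) 1) = 0 :=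
    single_P
  have hli : LinearIndependent F ![(Pi.single (Sum.inl 0) 1 : Fin (m + 3) ⊕ Fin (m + 3) → F), Pi.single (Sum.inl 1) 1] := by
    rw [LinearIndependent.pair_iff]
    intro a b hab
    have e0 := congrFun hab (Sum.inl 0)
    have e1 := congrFun hab (Sum.inl 1)
    simp [Pi.single_apply, h01] at e0 e1
    exact ⟨e0, e1⟩
  have hli' : LinearIndependent F ![p, r] := LinearIndependent.pair_iff.2 h.ind
  obtain ⟨g, hg, hge⟩ := hQ.witt_family _ _ hli hli' (by
    intro i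
    fin_cases i
    · show quadPlus (m + 3) F (Pi.single (Sum.inl 0) 1) = quadPlus (m + 3) F p
      rw [hsi, h.qp]
    · show quadPlus (m + 3) F (Pi.single (Sum.inl 1) 1) = quadPlus (m + 3) F r
      rw [hsi, h.qr]) (by
    intro i j
    fin_cases i <;> fin_cases j
    · show polar (quadPlus (m + 3) F) (Pi.single (Sum.inl 0) 1) (Pi.single (Sum.inl 0) 1) = polar (quadPlus (m + 3) F) p p
      rw [hsp, h.toSing.pp]
    · show polar (quadPlus (m + 3) F) (Pi.single (Sum.inl 0) 1) (Pi.single (Sum.inl 1) 1) = polar (quadPlus (m + 3) F) p r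
      rw [hsp, h.pr]
    · show polar (quadPlus (m + 3) F) (Pi.single (Sum.inl 1) 1) (Pi.single (Sum.inl 0) 1) = polar (quadPlus (m + 3) F) r p
      rw [hsp, h.toSing.rp]
    · show polar (quadPlus (m + 3) F) (Pi.single (Sum.inl 1) 1) (Pi.single (Sum.inl 1) 1) = polar (quadPlus (m + 3) F) r r
      rw [hsp, h.toSing.rr])
  have g0 : g (Pi.single (Sum.inl 0) 1) = p := hge 0
  have g1 : g (Pi.single (Sum.inl 1) 1) = r := hge 1
  refine ⟨g (Pi.single (Sum.inl 2) 1), ?_, ?_, ?_, ?_⟩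
  · rw [hg, hsi]
  · rw [← g0, O_polar hg, hsp]
  · rw [← g1, O_polar hg, hsp]
  · intro a b c habc
    rw [← g0, ← g1, ← map_smul, ← map_smul, ← map_smul, ← map_add, ← map_add] at habc
    have h1 := g.injective (habc.trans (map_zero g).symm)
    have e0 := congrFun h1 (Sum.inl 0)
    have e1 := congrFun h1 (Sum.inl 1)
    have e2 := congrFun h1 (Sum.inl 2)
    simp [Pi.single_apply, h01, h02, h12, h01.symm, h02.symm, h12.symm] at e0 e1 e2
    exact ⟨e0, e1, e2⟩

theorem final : IsKRootSubgroupSet F ((fun A : Subgroup ↥(isometryGroup F ⇑(quadPlus (m + 3) F)) =>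
      A.subgroupOf (⨆ B ∈ SS (nd_quadPlus (m := m + 3) (F := F)), B)) '' SS (nd_quadPlus (m := m + 3) (F := F))) ∧
    IsConnectedFamily (FAdj (SS (nd_quadPlus (m := m + 3) (F := F)))) (SS (nd_quadPlus (m := m + 3) (F := F))) := by
  refine ⟨root _, ?_⟩
  apply conn (k := F)
  rintro _ ⟨p, r, h, rfl⟩ _ ⟨s, t, h', rfl⟩
  exact connected _ third h h'

theorem SS_eq : {A : Subgroup ↥(Cfsg.isometryGroup F (Cfsg.quadFormPlus (m + 3) F)) | ∃ p r : Fin (m + 3) ⊕ Fin (m + 3) → F, LinearIndependent F ![p, r] ∧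
          Cfsg.quadFormPlus (m + 3) F p = 0 ∧ Cfsg.quadFormPlus (m + 3) F r = 0 ∧
          Cfsg.quadFormPlus (m + 3) F (p + r) = 0 ∧
          A = Subgroup.closure {σ : ↥(Cfsg.isometryGroup F (Cfsg.quadFormPlus (m + 3) F)) | ∀ v : Fin (m + 3) ⊕ Fin (m + 3) → F,
            Cfsg.quadFormPlus (m + 3) F (v + p) - Cfsg.quadFormPlus (m + 3) F v - Cfsg.quadFormPlus (m + 3) F p = 0 →
            Cfsg.quadFormPlus (m + 3) F (v + r) - Cfsg.quadFormPlus (m + 3) F v - Cfsg.quadFormPlus (m + 3) F r = 0 →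
              ((σ : Matrix.GeneralLinearGroup (Fin (m + 3) ⊕ Fin (m + 3)) F) : Matrix (Fin (m + 3) ⊕ Fin (m + 3)) (Fin (m + 3) ⊕ Fin (m + 3)) F) *ᵥ v = v}} =
    SS (nd_quadPlus (m := m + 3) (F := F)) := by
  have key : ∀ p r : Fin (m + 3) ⊕ Fin (m + 3) → F, (LinearIndependent F ![p, r] ∧
          Cfsg.quadFormPlus (m + 3) F p = 0 ∧ Cfsg.quadFormPlus (m + 3) F r = 0 ∧
          Cfsg.quadFormPlus (m + 3) F (p + r) = 0) ↔ Line (quadPlus (m + 3) F) p r := by
    intro p r
    constructor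
    · rintro ⟨h1, h2, h3, h4⟩
      have h2' : quadPlus (m + 3) F p = 0 := h2
      have h3' : quadPlus (m + 3) F r = 0 := h3
      have h4' : quadPlus (m + 3) F (p + r) = 0 := h4
      refine ⟨⟨h2', h3', ?_⟩, LinearIndependent.pair_iff.1 h1⟩
      rw [polar, h2', h3', h4']; ring
    · intro h
      refine ⟨LinearIndependent.pair_iff.2 h.ind, h.qp, h.qr, ?_⟩
      show quadPlus (m + 3) F (p + r) = 0
      rw [Q_add, h.qp, h.qr, h.pr]; ring
  ext A
  constructor
  · rintro ⟨p, r, h1, h2, h3, h4, rfl⟩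
    have h := (key p r).1 ⟨h1, h2, h3, h4⟩
    exact ⟨p, r, h, closure_eq nd_quadPlus h⟩
  · rintro ⟨p, r, h, rfl⟩
    obtain ⟨h1, h2, h3, h4⟩ := (key p r).2 h
    exact ⟨p, r, h1, h2, h3, h4, (closure_eq nd_quadPlus h).symm⟩

end

end Cfsg.Agent.Lib.RootO
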