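import Cfsg.Agent.Lib.RootLines
set_option autoImplicit false

/-!
# Commutator partners and rank one pairs (helper84)

The configuration `C = ⁅A, B⁆ ∈ S`, `⁅D, C⁆ = A` (statement S5036), special rank one pairs, classes of
abstract root subgroups.
-/

namespace Cfsg.Agent.Lib.RootOpp
open Cfsg Subgroup
open scoped commutatorElement
open Cfsg.Agent.Lib.RankOneGrp Cfsg.Agent.Lib.RootSub Cfsg.Agent.Lib.RootLines

variable {G : Type*} [Group G] {S : Set (Subgroup G)}

lemma cc_ne_bot_comm {A B : Subgroup G} (hS : IsRootSubgroupSet S) (h : RootCommutatorCase S A B)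
    {a : G} (ha : a ∈ A) (hc : ∀ b ∈ B, a * b = b * a) : a = 1 := by
  by_contra ha1
  apply hS.ne_bot _ h.1
  rw [← h.2.2.1 a ha ha1, Subgroup.closure_eq_bot_iff]
  rintro _ ⟨b, hb, rfl⟩
  show a * b * a⁻¹ * b⁻¹ = 1
  rw [hc b hb]; group

/-- no commutator case when one member contains the commutator -/
lemma not_cc_of_le {A B : Subgroup G} (hS : IsRootSubgroupSet S) (h : RootCommutatorCase S A B)
    (hle : ⁅A, B⁆ ≤ A) : False := by
  obtain ⟨x, hx, hx1⟩ := exists_ne_one (hS.ne_bot _ h.1)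
  apply hx1
  exact cc_ne_bot_comm hS h (hle hx) (fun b hb => h.2.1 x hx b (Subgroup.mem_sup_right hb))

/-- data of S5036 -/
structure Tri (S : Set (Subgroup G)) (A B C D : Subgroup G) : Prop where
  hS : IsRootSubgroupSet S
  hA : A ∈ S
  hB : B ∈ S
  hC : C ∈ S
  hD : D ∈ S
  hAB : ⁅A, B⁆ = C
  hDC : ⁅D, C⁆ = A

namespace Tri

variable {A B C D : Subgroup G} (t : Tri S A B C D)
include t

lemma symm : Tri S C D A B :=
  ⟨t.hS, t.hC, t.hD, t.hA, t.hB, by rw [Subgroup.commutator_comm]; exact t.hDC,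
    by rw [Subgroup.commutator_comm]; exact t.hAB⟩

lemma ccAB : RootCommutatorCase S A B := cc_of_mem t.hS t.hA t.hB (by rw [t.hAB]; exact t.hC)

lemma ccDC : RootCommutatorCase S D C := cc_of_mem t.hS t.hD t.hC (by rw [t.hDC]; exact t.hA)

lemma AC : ⁅A, C⁆ = ⊥ := by
  have := cc_bot_left t.ccAB
  rwa [t.hAB] at this

lemma BC : ⁅B, C⁆ = ⊥ := by
  have := cc_bot_right t.ccAB
  rwa [t.hAB] at this

lemma DA : ⁅D, A⁆ = ⊥ := by
  have := cc_bot_left t.ccDC
  rwa [t.hDC] at this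

lemma A_ne_C : A ≠ C := by
  have := cc_ne t.hS t.ccAB
  rwa [t.hAB] at this

lemma commN : IsMulCommutative ↥(A ⊔ C) :=
  commutative_sup (t.hS.commutative A t.hA) (t.hS.commutative C t.hC) t.AC

lemma normB {b : G} (hb : b ∈ B) : conjBy (A ⊔ C) b ≤ A ⊔ C := by
  rw [conjBy_sup]
  refine sup_le ?_ ?_
  · have := conj_le_sup_commutator (A := A) hb
    rwa [t.hAB] at this
  · rw [conj_eq_of_commutator_bot t.BC hb]; exact le_sup_right

lemma normB' {b : G} (hb : b ∈ B) : conjBy (A ⊔ C) b = A ⊔ C := by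
  apply le_antisymm (t.normB hb)
  have := t.normB (B.inv_mem hb)
  rw [← conjBy_le_iff (g := b), conjBy_conjBy_inv] at this
  exact this

lemma normD {d : G} (hd : d ∈ D) : conjBy (A ⊔ C) d = A ⊔ C := by
  have := t.symm.normB' hd
  rwa [sup_comm] at this

lemma normX {x : G} (hx : x ∈ B ⊔ D) : conjBy (A ⊔ C) x = A ⊔ C := by
  refine sup_induction (p := fun x => conjBy (A ⊔ C) x = A ⊔ C) (by simp) ?_ ?_ hx
  · intro b hb z hz
    rw [conjBy_mul, hz, t.normB' hb]
  · intro b hb z hz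
    rw [conjBy_mul, hz, t.normD hb]

/-- the fixed points of `B` in `A ⊔ C` are `C` -/
lemma fixB {x : G} (hx : x ∈ A ⊔ C) (hc : ∀ b ∈ B, x * b = b * x) : x ∈ C := by
  rw [mem_sup_comm (fun c hc a ha => (commute_of_commutator_bot t.AC ha hc).symm)] at hx
  obtain ⟨a, ha, c, hc', rfl⟩ := hx
  have : a = 1 := by
    refine cc_ne_bot_comm t.hS t.ccAB ha ?_
    intro b hb
    have h1 := hc b hb
    have h2 := commute_of_commutator_bot t.BC hb hc'
    have h3 : (a * b) * c = (b * a) * c := by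
      rw [mul_assoc, h2, ← mul_assoc, h1]; group
    exact mul_right_cancel h3
  rw [this, one_mul]; exact hc'

lemma fixB_eq : (A ⊔ C) ⊓ centralizer (B : Set G) = C := by
  apply le_antisymm
  · rintro x ⟨hx, hc⟩
    have hc' : x ∈ centralizer (B : Set G) := hc
    rw [Subgroup.mem_centralizer_iff] at hc'
    exact t.fixB hx (fun b hb => (hc' b hb).symm)
  · intro c hc
    refine Subgroup.mem_inf.2 ⟨Subgroup.mem_sup_right hc, ?_⟩
    rw [Subgroup.mem_centralizer_iff]
    intro b hb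
    exact commute_of_commutator_bot t.BC hb hc

lemma fixD_eq : (A ⊔ C) ⊓ centralizer (D : Set G) = A := by
  have := t.symm.fixB_eq
  rwa [sup_comm] at this

lemma conj_fix (E : Subgroup G) {x : G} (hx : x ∈ B ⊔ D) :
    conjBy ((A ⊔ C) ⊓ centralizer (E : Set G)) x =
      (A ⊔ C) ⊓ centralizer ((conjBy E x : Subgroup G) : Set G) := by
  rw [conjBy_inf, t.normX hx]
  congr 1
  ext y
  rw [mem_conjBy, Subgroup.mem_centralizer_iff, Subgroup.mem_centralizer_iff]
  constructor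
  · intro h z hz
    have hz' : x⁻¹ * z * x ∈ E := mem_conjBy.1 hz
    have h1 := h _ hz'
    have h2 : x * ((x⁻¹ * z * x) * (x⁻¹ * y * x)) * x⁻¹ = x * ((x⁻¹ * y * x) * (x⁻¹ * z * x)) * x⁻¹ := by
      rw [h1]
    have h3 : x * ((x⁻¹ * z * x) * (x⁻¹ * y * x)) * x⁻¹ = z * y := by group
    have h4 : x * ((x⁻¹ * y * x) * (x⁻¹ * z * x)) * x⁻¹ = y * z := by group
    rw [h3, h4] at h2; exact h2
  · intro h z hz
    have h1 := h _ (conjBy_mem hz x)
    have h2 : x⁻¹ * ((x * z * x⁻¹) * y) * x = x⁻¹ * (y * (x * z * x⁻¹)) * x := by rw [h1]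
    have h3 : x⁻¹ * ((x * z * x⁻¹) * y) * x = z * (x⁻¹ * y * x) := by group
    have h4 : x⁻¹ * (y * (x * z * x⁻¹)) * x = (x⁻¹ * y * x) * z := by group
    rw [h3, h4] at h2; exact h2

lemma pair : IsRankOnePair B D := by
  rcases t.hS.pair B t.hB D t.hD with h1 | h1 | h1
  · exfalso
    have h2 : ⁅⁅A, B⁆, D⁆ = ⊥ := Subgroup.commutator_commutator_eq_bot_of_rotate
      (by rw [h1]; exact Subgroup.commutator_bot_left _)
      (by rw [t.DA]; exact Subgroup.commutator_bot_left _)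
    rw [t.hAB, Subgroup.commutator_comm, t.hDC] at h2
    exact t.hS.ne_bot _ t.hA h2
  · exact h1
  · exfalso
    -- `E = ⁅B, D⁆` normalizes `A` and `C`, so centralizes them
    have hEX : ∀ e ∈ ⁅B, D⁆, ∀ x ∈ B ⊔ D, e * x = x * e := h1.2.1
    have hEle : ⁅B, D⁆ ≤ B ⊔ D := Subgroup.commutator_le_sup _ _
    have hEC : ∀ e ∈ ⁅B, D⁆, conjBy C e = C := by
      intro e he
      rw [← t.fixB_eq, t.conj_fix B (hEle he)]
      congr 3
      exact conj_eq_of_commutator_bot (bot_symm (cc_bot_left h1)) he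
    have hEA : ∀ e ∈ ⁅B, D⁆, conjBy A e = A := by
      intro e he
      rw [← t.fixD_eq, t.conj_fix D (hEle he)]
      congr 3
      exact conj_eq_of_commutator_bot (bot_symm (cc_bot_right h1)) he
    have hE := h1.1
    have key : ∀ U ∈ S, (∀ e ∈ ⁅B, D⁆, conjBy U e = U) → ⁅U, ⁅B, D⁆⁆ = ⊥ := by
      intro U hU hn
      rcases t.hS.pair U hU _ hE with h2 | h2 | h2
      · exact h2
      · exfalso
        obtain ⟨e, he, he1⟩ := exists_right h2
        exact he1 (eq_one_of_conj_left h2 he (hn e he))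
      · exfalso
        apply not_cc_of_le t.hS h2
        rw [Subgroup.commutator_le]
        intro u hu e he
        rw [commutatorElement_def]
        have h3 : e * u⁻¹ * e⁻¹ ∈ U := by
          have := conjBy_mem (U.inv_mem hu) e
          rwa [hn e he] at this
        have h4 : u * e * u⁻¹ * e⁻¹ = u * (e * u⁻¹ * e⁻¹) := by group
        rw [h4]
        exact U.mul_mem hu h3
    have hCE := key C t.hC hEC
    have hAE := key A t.hA hEA
    have hNE : ⁅A ⊔ C, ⁅B, D⁆⁆ = ⊥ := bot_sup_left hAE hCE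
    have hDC : ∀ d ∈ D, ∀ c ∈ C, d * c * d⁻¹ ∈ C := by
      intro d hd c hc
      have hN : d * c * d⁻¹ ∈ A ⊔ C := by
        have := conjBy_mem (Subgroup.mem_sup_right hc : c ∈ A ⊔ C) d
        rwa [t.normD hd] at this
      refine t.fixB hN ?_
      intro b hb
      have he : ⁅b, d⁆ ∈ ⁅B, D⁆ := commutator_mem_commutator hb hd
      have h2 := commute_of_commutator_bot hNE hN he
      have h3 := commute_of_commutator_bot t.BC hb hc
      have h4 : b * (d * c * d⁻¹) * b⁻¹ = ⁅b, d⁆ * (d * (b * c * b⁻¹) * d⁻¹) * ⁅b, d⁆⁻¹ := by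
        rw [commutatorElement_def]; group
      have h5 : b * c * b⁻¹ = c := by rw [h3]; group
      have h6 : b * (d * c * d⁻¹) * b⁻¹ = d * c * d⁻¹ := by
        rw [h4, h5, ← h2]; group
      calc (d * c * d⁻¹) * b = (b * (d * c * d⁻¹) * b⁻¹) * b := by rw [h6]
        _ = _ := by group
    have hAC : A ≤ C := by
      rw [← t.hDC, Subgroup.commutator_le]
      intro d hd c hc
      rw [commutatorElement_def]
      exact C.mul_mem (hDC d hd c hc) (C.inv_mem hc)
    apply t.hS.ne_bot _ t.hC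
    rw [← t.hAB, comm_bot_iff]
    intro a ha b hb
    exact (commute_of_commutator_bot t.BC hb (hAC ha)).symm

/-- `A^b = C^d` when `B^d = D^b` -/
lemma move_b {b : G} (hb : b ∈ B) (hb1 : b ≠ 1) : ∃ d ∈ D, d ≠ 1 ∧ conjBy A b = conjBy C d := by
  obtain ⟨d, hd, hd1, e⟩ := swap_left (RankOnePair_symm t.pair) hb hb1
  refine ⟨d, hd, hd1, ?_⟩
  have h1 := t.conj_fix D (Subgroup.mem_sup_left hb)
  have h2 := t.conj_fix B (Subgroup.mem_sup_right hd)
  rw [t.fixD_eq] at h1
  rw [t.fixB_eq] at h2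
  rw [h1, h2, e]

lemma move_d {d : G} (hd : d ∈ D) (hd1 : d ≠ 1) : ∃ b ∈ B, b ≠ 1 ∧ conjBy C d = conjBy A b :=
  t.symm.move_b hd hd1

/-- `T = A^B ∪ {C}` -/
lemma eq_one : {E | ∃ x ∈ B ⊔ D, E = conjBy A x} =
    (fun b : G => conjBy A b) '' (B : Set G) ∪ {C} := by
  ext E
  constructor
  · rintro ⟨x, hx, rfl⟩
    refine sup_induction (p := fun x => conjBy A x ∈
      (fun b : G => conjBy A b) '' (B : Set G) ∪ {C}) ?_ ?_ ?_ hx
    · left; exact ⟨1, B.one_mem, rfl⟩
    · intro b hb z hz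
      show conjBy A (b * z) ∈ _
      rw [conjBy_mul]
      rcases hz with ⟨b', hb', e⟩ | hz
      · left
        refine ⟨b * b', B.mul_mem hb hb', ?_⟩
        have e' : conjBy A b' = conjBy A z := e
        show conjBy A (b * b') = _
        rw [conjBy_mul, e']
      · right
        rw [Set.mem_singleton_iff] at hz
        rw [hz, conj_eq_of_commutator_bot t.BC hb, Set.mem_singleton_iff]
    · intro d hd z hz
      show conjBy A (d * z) ∈ _
      rw [conjBy_mul]
      have claim : ∀ d ∈ D, conjBy C d ∈ (fun b : G => conjBy A b) '' (B : Set G) ∪ {C} := by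
        intro d hd
        by_cases hd1 : d = 1
        · right; rw [hd1, conjBy_one, Set.mem_singleton_iff]
        · obtain ⟨b, hb, _, e⟩ := t.move_d hd hd1
          left; exact ⟨b, hb, e.symm⟩
      rcases hz with ⟨b', hb', e⟩ | hz
      · have e' : conjBy A b' = conjBy A z := e
        rw [← e']
        by_cases hb1 : b' = 1
        · left
          refine ⟨1, B.one_mem, ?_⟩
          show conjBy A 1 = _
          rw [hb1, conjBy_one, conj_eq_of_commutator_bot t.DA hd]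
        · obtain ⟨d', hd', _, e2⟩ := t.move_b hb' hb1
          rw [e2, ← conjBy_mul]
          exact claim _ (D.mul_mem hd hd')
      · rw [Set.mem_singleton_iff] at hz
        rw [hz]
        exact claim d hd
  · rintro (⟨b, hb, rfl⟩ | hE)
    · exact ⟨b, Subgroup.mem_sup_left hb, rfl⟩
    · rw [Set.mem_singleton_iff] at hE
      rw [hE]
      obtain ⟨b, hb, hb1⟩ := exists_left t.pair
      obtain ⟨d, hd, _, e⟩ := t.move_b hb hb1
      refine ⟨d⁻¹ * b, Subgroup.mul_mem _ (Subgroup.inv_mem _ (Subgroup.mem_sup_right hd))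
        (Subgroup.mem_sup_left hb), ?_⟩
      rw [conjBy_mul, e, conjBy_inv_conjBy]

lemma C_mem : ∃ x ∈ B ⊔ D, C = conjBy A x := by
  have : C ∈ {E | ∃ x ∈ B ⊔ D, E = conjBy A x} := by
    rw [t.eq_one]; right; rfl
  exact this

lemma eq_two : {E | ∃ x ∈ B ⊔ D, E = conjBy A x} = {E | ∃ x ∈ B ⊔ D, E = conjBy C x} := by
  obtain ⟨y, hy, e⟩ := t.C_mem
  ext E
  constructor
  · rintro ⟨x, hx, rfl⟩
    refine ⟨x * y⁻¹, Subgroup.mul_mem _ hx (Subgroup.inv_mem _ hy), ?_⟩
    rw [conjBy_mul, e, conjBy_inv_conjBy]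
  · rintro ⟨x, hx, rfl⟩
    refine ⟨x * y, Subgroup.mul_mem _ hx hy, ?_⟩
    rw [conjBy_mul, ← e]

lemma eq_three : {E | ∃ x ∈ B ⊔ D, E = conjBy A x} =
    (fun d : G => conjBy C d) '' (D : Set G) ∪ {A} := by
  rw [t.eq_two, ← t.symm.eq_one, sup_comm]

lemma inf_AC : A ⊓ C = ⊥ := by
  rw [eq_bot_iff]
  rintro x ⟨hxA, hxC⟩
  exact cc_ne_bot_comm t.hS t.ccAB hxA
    (fun b hb => (commute_of_commutator_bot t.BC hb hxC).symm)

lemma inf_conj_b {b : G} (hb : b ∈ B) (hb1 : b ≠ 1) : A ⊓ conjBy A b = ⊥ := by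
  obtain ⟨d, hd, _, e⟩ := t.move_b hb hb1
  rw [e, eq_bot_iff]
  rintro x ⟨hxA, hxC'⟩
  have hxC : x ∈ conjBy C d := hxC'
  rw [mem_conjBy] at hxC
  have h1 : d⁻¹ * x * d = x := by
    rw [mul_assoc, ← commute_of_commutator_bot t.DA hd hxA]; group
  rw [h1] at hxC
  have : x ∈ A ⊓ C := ⟨hxA, hxC⟩
  rwa [t.inf_AC] at this

lemma partition : IsSubgroupPartition (A ⊔ C) {E | ∃ x ∈ B ⊔ D, E = conjBy A x} := by
  refine ⟨?_, ?_, ?_⟩
  · rintro E ⟨x, hx, rfl⟩
    have := conjBy_mono (le_sup_left : A ≤ A ⊔ C) x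
    rwa [t.normX hx] at this
  · intro x hx hx1
    rw [t.eq_one]
    rw [mem_sup_comm (fun c hc a ha => (commute_of_commutator_bot t.AC ha hc).symm)] at hx
    obtain ⟨a, ha, c, hc, rfl⟩ := hx
    by_cases ha1 : a = 1
    · refine ⟨C, Or.inr rfl, ?_⟩
      rw [ha1, one_mul]; exact hc
    · rw [← t.hAB] at hc
      obtain ⟨b, hb, hm, _⟩ := cc_mem_conj t.ccAB ha ha1 hc
      exact ⟨_, Or.inl ⟨b, hb, rfl⟩, hm⟩
  · intro E₁ h₁ E₂ h₂ hne
    rw [t.eq_one] at h₁ h₂
    have hAC : ∀ b ∈ B, conjBy A b ⊓ C = ⊥ := by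
      intro b hb
      have h3 : conjBy (A ⊓ C) b = ⊥ := by rw [t.inf_AC]; simp
      rw [conjBy_inf, conj_eq_of_commutator_bot t.BC hb] at h3
      exact h3
    rcases h₁ with ⟨b, hb, rfl⟩ | h₁
    · rcases h₂ with ⟨b', hb', rfl⟩ | h₂
      · have hbb : b⁻¹ * b' ≠ 1 := by
          intro e
          apply hne
          rw [inv_mul_eq_one] at e
          rw [e]
        have h3 := t.inf_conj_b (B.mul_mem (B.inv_mem hb) hb') hbb
        have h4 : conjBy (A ⊓ conjBy A (b⁻¹ * b')) b = ⊥ := by rw [h3]; simp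
        rw [conjBy_inf, ← conjBy_mul] at h4
        simpa using h4
      · rw [Set.mem_singleton_iff] at h₂
        rw [h₂]; exact hAC b hb
    · rw [Set.mem_singleton_iff] at h₁
      rcases h₂ with ⟨b', hb', rfl⟩ | h₂
      · rw [h₁, inf_comm]; exact hAC b' hb'
      · rw [Set.mem_singleton_iff] at h₂
        exact absurd (h₁.trans h₂.symm) hne

/-- the kernel of the action on `A ⊔ C` is central -/
lemma central {x : G} (hx : x ∈ B ⊔ D) (hc : x ∈ centralizer ((A ⊔ C : Subgroup G) : Set G)) :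
    ∀ y ∈ B ⊔ D, x * y = y * x := by
  -- `x` normalizes `B`
  have key : ∀ x ∈ B ⊔ D, x ∈ centralizer ((A ⊔ C : Subgroup G) : Set G) → conjBy B x = B := by
    intro x hx hc
    rw [Subgroup.mem_centralizer_iff] at hc
    have hxC : conjBy C x = C := by
      rw [conjBy_eq_self_iff, Subgroup.mem_normalizer_iff]
      intro c
      constructor
      · intro h
        have h1 := hc c (Subgroup.mem_sup_right h)
        have : x * c * x⁻¹ = c := by rw [← h1]; group
        rw [this]; exact h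
      · intro h
        have h1 := hc _ (Subgroup.mem_sup_right h)
        have : c = x * c * x⁻¹ := by
          have h2 : x⁻¹ * (x * c * x⁻¹ * x) * 1 = x⁻¹ * (x * (x * c * x⁻¹)) * 1 := by rw [h1]
          have h3 : x⁻¹ * (x * c * x⁻¹ * x) * 1 = c := by group
          have h4 : x⁻¹ * (x * (x * c * x⁻¹)) * 1 = x * c * x⁻¹ := by group
          rw [h3, h4] at h2; exact h2
        rw [this]; exact h
    by_contra hne
    have hm : conjBy B x ∈ unipotentSubgroups B D := conj_mem_unip (left_mem_unip _ _) hx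
    obtain ⟨b, hb, e⟩ := exists_conj_of_ne t.pair hm hne
    have h1 := t.conj_fix B hx
    have h2 := t.conj_fix D (Subgroup.mem_sup_left hb)
    rw [t.fixB_eq, hxC] at h1
    rw [t.fixD_eq] at h2
    have h3 : C = conjBy A b := by rw [h1, h2, e]
    apply t.A_ne_C
    have h4 := conj_eq_of_commutator_bot t.BC hb
    rw [← conjBy_inj (g := b), h4]; exact h3.symm
  apply commute_of_forall t.pair
  rintro E ⟨y, hy, rfl⟩
  have hyc : y⁻¹ * x * y ∈ centralizer ((A ⊔ C : Subgroup G) : Set G) := by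
    rw [Subgroup.mem_centralizer_iff] at hc ⊢
    intro n hn
    have h1 : y * n * y⁻¹ ∈ A ⊔ C := by
      have := conjBy_mem hn y
      rwa [t.normX hy] at this
    have h2 := hc _ h1
    have h3 : y⁻¹ * ((y * n * y⁻¹) * x) * y = y⁻¹ * (x * (y * n * y⁻¹)) * y := by rw [h2]
    have h4 : y⁻¹ * ((y * n * y⁻¹) * x) * y = n * (y⁻¹ * x * y) := by group
    have h5 : y⁻¹ * (x * (y * n * y⁻¹)) * y = (y⁻¹ * x * y) * n := by group
    rw [h4, h5] at h3; exact h3
  have h1 := key _ (Subgroup.mul_mem _ (Subgroup.mul_mem _ (Subgroup.inv_mem _ hy) hx) hy) hyc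
  have h2 : x * y = y * (y⁻¹ * x * y) := by group
  rw [← conjBy_mul, h2, conjBy_mul, h1]

end Tri

end Cfsg.Agent.Lib.RootOpp
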