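import Cfsg.Agent.Lib.RootFrame
import Cfsg.Agent.Lib.SympGen

/-!
# Symplectic transvection subgroups as root subgroups (`S5070`) (helper93)
-/

set_option autoImplicit false
set_option linter.unusedSimpArgs false
set_option linter.unusedSectionVars false
set_option linter.unusedVariables false

namespace Cfsg.Agent.Lib.RootSp
open Cfsg Subgroup Matrix
open Cfsg.Agent.Lib.RankOneGrp Cfsg.Agent.Lib.SL2RankOne Cfsg.Agent.Lib.RootSL2 Cfsg.Agent.Lib.RootFrame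
open Cfsg.Agent.Lib.SympMat Cfsg.Agent.Lib.SympGen

/-- an embedded `SL_2` lies in a submonoid as soon as the one-parameter groups do -/
theorem emb_mem {k : Type*} [Field k] {ι : Type*} [Fintype ι] [DecidableEq ι] {P : Matrix ι (Fin 2) k}
    {R : Matrix (Fin 2) ι k} (h : R * P = 1) (Mo : Submonoid (Matrix ι ι k)) (h1 : ∀ t, emb P R (up t).1 ∈ Mo)
    (h2 : ∀ t, emb P R (lo t).1 ∈ Mo) (g : SpecialLinearGroup (Fin 2) k) : emb P R g.1 ∈ Mo := by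
  let K : Subgroup (SpecialLinearGroup (Fin 2) k) :=
    { carrier := {g | emb P R g.1 ∈ Mo ∧ emb P R (g⁻¹).1 ∈ Mo}
      one_mem' := by
        refine ⟨?_, ?_⟩
        · show emb P R 1 ∈ Mo
          rw [emb_one]; exact Mo.one_mem
        · rw [inv_one]
          show emb P R 1 ∈ Mo
          rw [emb_one]; exact Mo.one_mem
      mul_mem' := by
        rintro a b ⟨ha, ha'⟩ ⟨hb, hb'⟩
        refine ⟨?_, ?_⟩
        · show emb P R (a.1 * b.1) ∈ Mo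
          rw [emb_mul h]; exact Mo.mul_mem ha hb
        · rw [_root_.mul_inv_rev]
          show emb P R ((b⁻¹).1 * (a⁻¹).1) ∈ Mo
          rw [emb_mul h]; exact Mo.mul_mem hb' ha'
      inv_mem' := by
        rintro a ⟨ha, ha'⟩
        exact ⟨ha', by rw [inv_inv]; exact ha⟩ }
  exact (mem_of_up_lo K (fun t => ⟨h1 t, by rw [← up_neg]; exact h1 _⟩)
    (fun t => ⟨h2 t, by rw [← lo_neg]; exact h2 _⟩) g).1

variable {F : Type*} [Field F] {M : ℕ}

theorem ext_mulVec {A B : symplecticGroup (Fin M) F} (h : ∀ x, A.1 *ᵥ x = B.1 *ᵥ x) : A = B := by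
  apply Φ_injective
  ext1 x
  rw [Φ_apply, Φ_apply]; exact h x

/-- the symplectic transvection -/
def sT (p : Fin M ⊕ Fin M → F) (c : F) : symplecticGroup (Fin M) F := ⟨sympTransvection M p c, transvection_mem p c⟩

theorem sT_mulVec (p : Fin M ⊕ Fin M → F) (c : F) (x : Fin M ⊕ Fin M → F) :
    (sT p c).1 *ᵥ x = x + (c * sympForm M F x p) • p := transvection_mulVec p x c

theorem sT_add (p : Fin M ⊕ Fin M → F) (c d : F) : sT p (c + d) = sT p c * sT p d := by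
  apply ext_mulVec
  intro x
  show _ = ((sT p c).1 * (sT p d).1) *ᵥ x
  rw [← mulVec_mulVec, sT_mulVec, sT_mulVec, sT_mulVec, sympForm_add_left, sympForm_smul_left, sympForm_self, mul_zero,
    add_zero]
  module

theorem sT_zero (p : Fin M ⊕ Fin M → F) : sT p 0 = 1 := by
  apply ext_mulVec
  intro x
  rw [sT_mulVec]
  show _ = (1 : Matrix (Fin M ⊕ Fin M) (Fin M ⊕ Fin M) F) *ᵥ x
  rw [one_mulVec, zero_mul, zero_smul, add_zero]

theorem sT_neg (p : Fin M ⊕ Fin M → F) (c : F) : sT p (-c) = (sT p c)⁻¹ := by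
  rw [eq_inv_iff_mul_eq_one, ← sT_add, neg_add_cancel, sT_zero]

theorem exists_form {p : Fin M ⊕ Fin M → F} (hp : p ≠ 0) : ∃ x, sympForm M F x p ≠ 0 := by
  by_contra h
  push Not at h
  apply hp
  apply eq_zero_of_sympForm
  intro v
  rw [sympForm_swap, h, neg_zero]

theorem sT_eq_one {p : Fin M ⊕ Fin M → F} (hp : p ≠ 0) {c : F} (h : sT p c = 1) : c = 0 := by
  obtain ⟨x, hx⟩ := exists_form hp
  have h1 := sT_mulVec p c x
  rw [h] at h1
  have h2 : (1 : Matrix (Fin M ⊕ Fin M) (Fin M ⊕ Fin M) F) *ᵥ x = x + (c * sympForm M F x p) • p := h1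
  rw [one_mulVec, left_eq_add, smul_eq_zero] at h2
  have h3 := h2.resolve_right hp
  exact (mul_eq_zero.1 h3).resolve_right hx

theorem form_inv (g : symplecticGroup (Fin M) F) (x p : Fin M ⊕ Fin M → F) :
    sympForm M F ((g⁻¹).1 *ᵥ x) p = sympForm M F x (g.1 *ᵥ p) := by
  have h1 := mem_iff.1 g.2 ((g⁻¹).1 *ᵥ x) p
  have h2 : g.1 * (g⁻¹).1 = 1 := congrArg Subtype.val (mul_inv_cancel g)
  rw [mulVec_mulVec, h2, one_mulVec] at h1
  exact h1.symm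

theorem conj_sT (g : symplecticGroup (Fin M) F) (p : Fin M ⊕ Fin M → F) (c : F) :
    g * sT p c * g⁻¹ = sT (g.1 *ᵥ p) c := by
  apply ext_mulVec
  intro x
  show (g.1 * (sT p c).1 * (g⁻¹).1) *ᵥ x = _
  have h2 : g.1 * (g⁻¹).1 = 1 := congrArg Subtype.val (mul_inv_cancel g)
  rw [← mulVec_mulVec, ← mulVec_mulVec, sT_mulVec, sT_mulVec, mulVec_add, mulVec_mulVec, h2, one_mulVec, form_inv,
    mulVec_smul]

/-- the transvection group of a point -/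
def TG (p : Fin M ⊕ Fin M → F) : Subgroup (symplecticGroup (Fin M) F) where
  carrier := {g | ∃ c : F, g = sT p c}
  one_mem' := ⟨0, (sT_zero p).symm⟩
  mul_mem' := by
    rintro _ _ ⟨c, rfl⟩ ⟨d, rfl⟩
    exact ⟨c + d, (sT_add p c d).symm⟩
  inv_mem' := by
    rintro _ ⟨c, rfl⟩
    exact ⟨-c, (sT_neg p c).symm⟩

theorem conj_TG (g : symplecticGroup (Fin M) F) (p : Fin M ⊕ Fin M → F) : conjBy (TG p) g = TG (g.1 *ᵥ p) := by
  ext x
  constructor
  · rintro ⟨_, ⟨c, rfl⟩, rfl⟩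
    exact ⟨c, conj_sT g p c⟩
  · rintro ⟨c, rfl⟩
    exact ⟨sT p c, ⟨c, rfl⟩, conj_sT g p c⟩

theorem mulVec_ne (g : symplecticGroup (Fin M) F) {v : Fin M ⊕ Fin M → F} (hv : v ≠ 0) : g.1 *ᵥ v ≠ 0 := by
  intro h
  apply hv
  have h1 : (g⁻¹).1 * g.1 = 1 := congrArg Subtype.val (inv_mul_cancel g)
  rw [← one_mulVec v, ← h1, ← mulVec_mulVec, h, mulVec_zero]

/-- the class -/
def SS (F : Type*) [Field F] (M : ℕ) : Set (Subgroup (symplecticGroup (Fin M) F)) :=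
  {A | ∃ p : Fin M ⊕ Fin M → F, p ≠ 0 ∧ A = TG p}

theorem commute_sT {p r : Fin M ⊕ Fin M → F} (h : sympForm M F p r = 0) (c d : F) : sT p c * sT r d = sT r d * sT p c := by
  apply ext_mulVec
  intro x
  show ((sT p c).1 * (sT r d).1) *ᵥ x = ((sT r d).1 * (sT p c).1) *ᵥ x
  have h' : sympForm M F r p = 0 := by rw [sympForm_swap, h, neg_zero]
  rw [← mulVec_mulVec, ← mulVec_mulVec]
  simp only [sT_mulVec, sympForm_add_left, sympForm_smul_left, h, h', mul_zero, add_zero]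
  module

theorem homPair {p r : Fin M ⊕ Fin M → F} (h : sympForm M F p r ≠ 0) : HomPair F (TG p) (TG r) := by
  have hv : ∀ x y : Fin M ⊕ Fin M → F, (J (Fin M) F *ᵥ y) ⬝ᵥ x = sympForm M F x y := fun x y => by
    rw [dotProduct_comm]; rfl
  have hb : (J (Fin M) F *ᵥ r) ⬝ᵥ p ≠ 0 := by rw [hv]; exact h
  have ha : (J (Fin M) F *ᵥ p) ⬝ᵥ r ≠ 0 := by
    rw [hv, sympForm_swap]; exact neg_ne_zero.2 h
  have hPR : rows (((J (Fin M) F *ᵥ r) ⬝ᵥ p)⁻¹ • (J (Fin M) F *ᵥ r)) (((J (Fin M) F *ᵥ p) ⬝ᵥ r)⁻¹ • (J (Fin M) F *ᵥ p)) *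
      cols p r = 1 := by
    apply rows_mul_cols
    · rw [smul_dotProduct, smul_eq_mul, inv_mul_cancel₀ hb]
    · rw [smul_dotProduct, hv r r, sympForm_self, smul_zero]
    · rw [smul_dotProduct, hv p p, sympForm_self, smul_zero]
    · rw [smul_dotProduct, smul_eq_mul, inv_mul_cancel₀ ha]
  have hup : ∀ t, emb (cols p r) (rows (((J (Fin M) F *ᵥ r) ⬝ᵥ p)⁻¹ • (J (Fin M) F *ᵥ r))
      (((J (Fin M) F *ᵥ p) ⬝ᵥ r)⁻¹ • (J (Fin M) F *ᵥ p))) (up t).1 = (sT p (t * ((J (Fin M) F *ᵥ p) ⬝ᵥ r)⁻¹)).1 := by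
    intro t
    rw [emb_up]
    show _ = 1 + (t * ((J (Fin M) F *ᵥ p) ⬝ᵥ r)⁻¹) • vecMulVec p (J (Fin M) F *ᵥ p)
    congr 1
    ext i j; simp [vecMulVec_apply]; ring
  have hlo : ∀ t, emb (cols p r) (rows (((J (Fin M) F *ᵥ r) ⬝ᵥ p)⁻¹ • (J (Fin M) F *ᵥ r))
      (((J (Fin M) F *ᵥ p) ⬝ᵥ r)⁻¹ • (J (Fin M) F *ᵥ p))) (lo t).1 = (sT r (t * ((J (Fin M) F *ᵥ r) ⬝ᵥ p)⁻¹)).1 := by
    intro t
    rw [emb_lo]
    show _ = 1 + (t * ((J (Fin M) F *ᵥ r) ⬝ᵥ p)⁻¹) • vecMulVec r (J (Fin M) F *ᵥ r)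
    congr 1
    ext i j; simp [vecMulVec_apply]; ring
  have hm : ∀ g : SpecialLinearGroup (Fin 2) F, emb (cols p r) (rows (((J (Fin M) F *ᵥ r) ⬝ᵥ p)⁻¹ • (J (Fin M) F *ᵥ r))
      (((J (Fin M) F *ᵥ p) ⬝ᵥ r)⁻¹ • (J (Fin M) F *ᵥ p))) g.1 ∈ symplecticGroup (Fin M) F :=
    emb_mem hPR _ (fun t => by rw [hup]; exact (sT _ _).2) (fun t => by rw [hlo]; exact (sT _ _).2)
  let φ : SpecialLinearGroup (Fin 2) F →* symplecticGroup (Fin M) F :=
    { toFun := fun g => ⟨_, hm g⟩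
      map_one' := Subtype.ext (emb_one _ _)
      map_mul' := fun g g' => Subtype.ext (emb_mul hPR g.1 g'.1) }
  refine homPair_of φ ?_ ?_ ?_ ?_ ?_
  · intro g g' hg
    exact Subtype.ext (emb_injective hPR (congrArg Subtype.val hg))
  · intro t
    exact ⟨_, Subtype.ext (hup t)⟩
  · rintro _ ⟨c, rfl⟩
    refine ⟨c * ((J (Fin M) F *ᵥ p) ⬝ᵥ r), Subtype.ext ?_⟩
    show emb _ _ _ = _
    rw [hup, mul_assoc, mul_inv_cancel₀ ha, mul_one]
  · intro t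
    exact ⟨_, Subtype.ext (hlo t)⟩
  · rintro _ ⟨c, rfl⟩
    refine ⟨c * ((J (Fin M) F *ᵥ r) ⬝ᵥ p), Subtype.ext ?_⟩
    show emb _ _ _ = _
    rw [hlo, mul_assoc, mul_inv_cancel₀ hb, mul_one]

theorem pair_cases {A B : Subgroup (symplecticGroup (Fin M) F)} (hA : A ∈ SS F M) (hB : B ∈ SS F M) :
    ⁅A, B⁆ = ⊥ ∨ HomPair F A B := by
  obtain ⟨p, hp, rfl⟩ := hA
  obtain ⟨r, hr, rfl⟩ := hB
  by_cases h : sympForm M F p r = 0
  · left
    rw [RootSub.comm_bot_iff]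
    rintro _ ⟨c, rfl⟩ _ ⟨d, rfl⟩
    exact commute_sT h c d
  · right
    exact homPair h

theorem isRootSet : IsRootSubgroupSet (SS F M) where
  commutative := by
    rintro _ ⟨p, hp, rfl⟩
    refine ⟨⟨?_⟩⟩
    rintro ⟨_, c, rfl⟩ ⟨_, d, rfl⟩
    apply Subtype.ext
    show sT p c * sT p d = sT p d * sT p c
    rw [← sT_add, ← sT_add, add_comm]
  ne_bot := by
    rintro _ ⟨p, hp, rfl⟩ hb
    have h1 : sT p 1 ∈ TG p := ⟨1, rfl⟩
    rw [hb, Subgroup.mem_bot] at h1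
    exact one_ne_zero (sT_eq_one hp h1)
  generates := by
    rw [eq_top_iff, ← closure_transvections M F, Subgroup.closure_le]
    rintro g ⟨w, c, hg⟩
    have h1 : g = sT w c := Subtype.ext hg
    by_cases hw : w = 0
    · have h2 : sT w c = 1 := by
        apply ext_mulVec
        intro x
        rw [sT_mulVec, hw, smul_zero, add_zero]
        show _ = (1 : Matrix (Fin M ⊕ Fin M) (Fin M ⊕ Fin M) F) *ᵥ x
        rw [one_mulVec]
      rw [h1, h2]; exact one_mem _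
    · have h2 : TG w ≤ ⨆ A ∈ SS F M, A := le_G0 ⟨w, hw, rfl⟩
      rw [h1]
      exact h2 ⟨c, rfl⟩
  conj_mem := by
    rintro _ ⟨p, hp, rfl⟩ g
    exact ⟨_, mulVec_ne g hp, conj_TG g p⟩
  pair := fun A hA B hB => by
    rcases pair_cases hA hB with h | h
    · exact Or.inl h
    · exact Or.inr (Or.inl h.pair)

theorem conn_hom {A B : Subgroup (symplecticGroup (Fin M) F)} (hA : A ∈ SS F M) (hB : B ∈ SS F M) :
    Relation.ReflTransGen (fun A B => A ∈ SS F M ∧ B ∈ SS F M ∧ HomPair F A B) A B := by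
  obtain ⟨p, hp, rfl⟩ := hA
  obtain ⟨r, hr, rfl⟩ := hB
  obtain ⟨x, hx⟩ := exists_form hp
  obtain ⟨y, hy⟩ := exists_form hr
  obtain ⟨s, h1, h2⟩ : ∃ s, sympForm M F s p ≠ 0 ∧ sympForm M F s r ≠ 0 := by
    by_cases h1 : sympForm M F x r = 0
    · by_cases h2 : sympForm M F y p = 0
      · refine ⟨x + y, ?_, ?_⟩
        · rw [sympForm_add_left, h2, add_zero]; exact hx
        · rw [sympForm_add_left, h1, zero_add]; exact hy
      · exact ⟨y, h2, hy⟩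
    · exact ⟨x, hx, h1⟩
  have hs : s ≠ 0 := by
    rintro rfl
    apply h1
    have := sympForm_smul_left (0 : F) (0 : Fin M ⊕ Fin M → F) p
    rw [zero_smul, zero_mul] at this
    exact this
  have h3 : sympForm M F p s ≠ 0 := by
    rw [sympForm_swap]; exact neg_ne_zero.2 h1
  exact (Relation.ReflTransGen.single ⟨⟨p, hp, rfl⟩, ⟨s, hs, rfl⟩, homPair h3⟩).tail
    ⟨⟨s, hs, rfl⟩, ⟨r, hr, rfl⟩, homPair h2⟩

theorem SS_eq {m : ℕ} : {A : Subgroup ↥(Matrix.symplecticGroup (Fin (m + 1)) F) | ∃ p : Fin (m + 1) ⊕ Fin (m + 1) → F, p ≠ 0 ∧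
        A = Subgroup.closure {g : ↥(Matrix.symplecticGroup (Fin (m + 1)) F) | ∃ c : F, ∀ v : Fin (m + 1) ⊕ Fin (m + 1) → F,
          (g : Matrix (Fin (m + 1) ⊕ Fin (m + 1)) (Fin (m + 1) ⊕ Fin (m + 1)) F) *ᵥ v =
            v + (c * (v ⬝ᵥ (Matrix.J (Fin (m + 1)) F *ᵥ p))) • p}} = SS F (m + 1) := by
  have key : ∀ p : Fin (m + 1) ⊕ Fin (m + 1) → F, Subgroup.closure {g : ↥(Matrix.symplecticGroup (Fin (m + 1)) F) |
      ∃ c : F, ∀ v : Fin (m + 1) ⊕ Fin (m + 1) → F,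
          (g : Matrix (Fin (m + 1) ⊕ Fin (m + 1)) (Fin (m + 1) ⊕ Fin (m + 1)) F) *ᵥ v =
            v + (c * (v ⬝ᵥ (Matrix.J (Fin (m + 1)) F *ᵥ p))) • p} = TG p := by
    intro p
    have h1 : {g : ↥(Matrix.symplecticGroup (Fin (m + 1)) F) |
      ∃ c : F, ∀ v : Fin (m + 1) ⊕ Fin (m + 1) → F,
          (g : Matrix (Fin (m + 1) ⊕ Fin (m + 1)) (Fin (m + 1) ⊕ Fin (m + 1)) F) *ᵥ v =
            v + (c * (v ⬝ᵥ (Matrix.J (Fin (m + 1)) F *ᵥ p))) • p} = (TG p : Set (symplecticGroup (Fin (m + 1)) F)) := by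
      ext g
      constructor
      · rintro ⟨c, hc⟩
        refine ⟨c, ext_mulVec fun x => ?_⟩
        rw [sT_mulVec]; exact hc x
      · rintro ⟨c, rfl⟩
        exact ⟨c, fun v => sT_mulVec p c v⟩
    rw [h1, Subgroup.closure_eq]
  ext A
  constructor
  · rintro ⟨p, hp, rfl⟩
    exact ⟨p, hp, key p⟩
  · rintro ⟨p, hp, rfl⟩
    exact ⟨p, hp, (key p).symm⟩

theorem final {m : ℕ} : IsRootSubgroupClass (SS F (m + 1)) ∧ IsDegenerateRootSet (SS F (m + 1)) ∧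
    IsKRootSubgroupSet F (SS F (m + 1)) ∧ IsConnectedFamily (FAdj (SS F (m + 1))) (SS F (m + 1)) := by
  have hR := isRootSet (F := F) (M := m + 1)
  have hC : IsConnectedFamily (FAdj (SS F (m + 1))) (SS F (m + 1)) := conn fun A hA B hB => conn_hom hA hB
  have hp : (Pi.single (Sum.inl 0) 1 : Fin (m + 1) ⊕ Fin (m + 1) → F) ≠ 0 := fun h => by
    simpa using congrFun h (Sum.inl 0)
  obtain ⟨x, hx⟩ := exists_form hp
  have hx0 : x ≠ 0 := by
    rintro rfl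
    apply hx
    have := sympForm_smul_left (0 : F) (0 : Fin (m + 1) ⊕ Fin (m + 1) → F) (Pi.single (Sum.inl 0) 1)
    rw [zero_smul, zero_mul] at this
    exact this
  refine ⟨⟨hR, class_of hR hC ⟨_, ⟨x, hx0, rfl⟩, _, ⟨_, hp, rfl⟩, (homPair hx).pair⟩⟩,
    degenerate_of hR fun A hA B hB => (pair_cases hA hB).imp_right HomPair.pair,
    kroot_of hR fun A hA B hB => (pair_cases hA hB).imp_right fun h => Or.inl h.psl2, hC⟩

end Cfsg.Agent.Lib.RootSp
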