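import Cfsg.Agent.Lib.S3FacElem
import Cfsg.Agent.Lib.KS9Fac
import Cfsg.Agent.Lib.ThompsonFact
import Cfsg.Agent.Lib.FusionJ
import Cfsg.Agent.Lib.ClSmall
import Cfsg.Agent.Lib.Fitting
import Cfsg.Agent.Lib.PLength

/-!
# Solvable groups with `F(X) = O₂(X)`: Thompson factorization or a product of copies of `S₃` (helper11)
-/

set_option autoImplicit false
set_option linter.unusedSectionVars false

namespace Cfsg.Agent.Lib.S3Fac

open Subgroup Cfsg.Agent.Lib.SubgroupTools Cfsg.Agent.Lib.KS9 Cfsg.Agent.Lib.KS9Rep Cfsg.Agent.Lib.ThompsonJ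
open scoped commutatorElement MatrixGroups Pointwise

universe u

section general

variable {X : Type u} [Group X] [Finite X]

/-- the subgroup generated by the centres of the Sylow subgroups -/
def V0 (p : ℕ) (X : Type u) [Group X] : Subgroup X := ⨆ S : Sylow p X, OffenderGen.zen S

variable {p : ℕ} [hp : Fact p.Prime]

omit [Finite X] hp in
theorem V0_normal : (V0 p X).Normal := by
  refine Normal.of_conjugate_fixed (fun g => ?_)
  have hmap : ∀ g : X, MulAut.conj g • V0 p X ≤ V0 p X := by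
    intro g
    change (V0 p X).map (MulAut.conj g).toMonoidHom ≤ _
    unfold V0
    rw [Subgroup.map_iSup]
    apply iSup_le
    intro S
    rw [OffenderGen.map_zen g S]
    exact le_iSup (fun S : Sylow p X => OffenderGen.zen S) (g • S)
  apply le_antisymm (hmap g)
  have h1 := hmap g⁻¹
  rw [map_inv, pointwise_smul_subset_iff, inv_inv] at h1
  exact h1

omit [Finite X] hp in
theorem zen_le_V0 (S : Sylow p X) : OffenderGen.zen S ≤ V0 p X :=
  le_iSup (fun S : Sylow p X => OffenderGen.zen S) S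

omit [Finite X] hp in
theorem V0_le_pCore (hc : centralizer (Cfsg.pCore p X : Set X) ≤ Cfsg.pCore p X) : V0 p X ≤ Cfsg.pCore p X := by
  apply iSup_le
  intro S
  refine le_trans ?_ hc
  exact inf_le_right.trans (centralizer_le (OffenderGen.pCore_le_sylow S))

omit [Finite X] hp in
theorem V0_le_centralizer :
    V0 p X ≤ centralizer (Cfsg.pCore p X : Set X) := by
  apply iSup_le
  intro S
  exact inf_le_right.trans (centralizer_le (OffenderGen.pCore_le_sylow S))

omit [Finite X] hp in
theorem V0_comm (hc : centralizer (Cfsg.pCore p X : Set X) ≤ Cfsg.pCore p X) : IsMulCommutative ↥(V0 p X) := by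
  rw [← le_centralizer_iff_isMulCommutative]
  exact V0_le_centralizer.trans (centralizer_le (V0_le_pCore hc))

omit [Finite X] hp in
theorem V0_gen : V0 p X ≤ ⨆ S : Sylow p X, V0 p X ⊓ centralizer ((S : Subgroup X) : Set X) := by
  have h : ∀ S : Sylow p X, OffenderGen.zen S ≤ ⨆ S : Sylow p X, V0 p X ⊓ centralizer ((S : Subgroup X) : Set X) := by
    intro S
    refine le_trans ?_ (le_iSup _ S)
    exact le_inf (zen_le_V0 S) inf_le_right
  exact iSup_le h

theorem normalCore_eq (T : Sylow p X) :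
    (centralizer ((OffenderGen.zen T : Subgroup X) : Set X)).normalCore = centralizer (V0 p X : Set X) := by
  have : (V0 p X).Normal := V0_normal
  apply le_antisymm
  · rw [le_centralizer_iff]
    apply iSup_le
    intro S
    rw [le_centralizer_iff]
    intro x hx
    obtain ⟨g, hg⟩ := MulAction.exists_smul_eq X T S
    rw [← hg, ← OffenderGen.map_zen]
    rw [mem_centralizer_iff]
    rintro _ ⟨y, hy, rfl⟩
    have h1 := hx g⁻¹
    have h2 := mem_centralizer_iff.1 h1 y hy
    change g * y * g⁻¹ * x = x * (g * y * g⁻¹)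
    calc g * y * g⁻¹ * x = g * (y * (g⁻¹ * x * g⁻¹⁻¹)) * g⁻¹ := by group
      _ = g * ((g⁻¹ * x * g⁻¹⁻¹) * y) * g⁻¹ := by rw [h2]
      _ = _ := by group
  · rw [Subgroup.normal_le_normalCore]
    exact centralizer_le (zen_le_V0 T)

/-- `Ω₁(V₀)` -/
abbrev VV (p : ℕ) (X : Type u) [Group X] : Subgroup X := Cfsg.omegaOne p (V0 p X)

omit [Finite X] hp in
theorem VV_normal : (VV p X).Normal := StableClosure.omegaOne_normal V0_normal

omit [Finite X] hp in
theorem VV_elem (hc : centralizer (Cfsg.pCore p X : Set X) ≤ Cfsg.pCore p X) : Cfsg.IsElementaryAbelian p (VV p X) :=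
  elemAb_omegaOne (V0_comm hc)

theorem centralizer_VV (hc : centralizer (Cfsg.pCore p X : Set X) ≤ Cfsg.pCore p X) :
    centralizer (VV p X : Set X) = centralizer (V0 p X : Set X) := by
  have hn0 : (V0 p X).Normal := V0_normal
  have hn1 : (VV p X).Normal := VV_normal
  apply le_antisymm _ (centralizer_le (omegaOne_le _))
  apply OffenderGen.le_centralizer_of_gen (p := p) (V0 p X) V0_gen
  rintro ⟨_, ⟨x, hx, rfl⟩⟩
  refine ⟨(orderOf x).factorization p, ?_⟩
  apply Subtype.ext
  change (QuotientGroup.mk' (centralizer (V0 p X : Set X)) x) ^ p ^ ((orderOf x).factorization p) = 1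
  rw [← map_pow]
  apply (QuotientGroup.eq_one_iff _).mpr
  rw [ThompsonFact.mem_centralizer_iff_conj]
  apply ThompsonFact.centralizes_of_omega ((Cores.isPGroup_pCore p X).to_le (V0_le_pCore hc)) (V0_comm hc)
    (by rw [Subgroup.normalizer_eq_top]; exact mem_top _) (PStabPair.coprime_orderOf_pow x)
  intro v hv hvp
  exact ThompsonFact.mem_centralizer_iff_conj.1 (pow_mem hx _) v (mem_omegaOne hv hvp)

theorem pCore_quot (hc : centralizer (Cfsg.pCore p X : Set X) ≤ Cfsg.pCore p X)
    (hn : (VV p X).Normal) :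
    Cfsg.pCore p (X ⧸ centralizer (VV p X : Set X)) = ⊥ := by
  have hn0 : (V0 p X).Normal := V0_normal
  have aux : ∀ (C₁ C₂ : Subgroup X) [C₁.Normal] [C₂.Normal], C₁ = C₂ → Cfsg.pCore p (X ⧸ C₁) = ⊥ →
      Cfsg.pCore p (X ⧸ C₂) = ⊥ := by
    intro C₁ C₂ _ _ h
    subst h
    exact id
  exact aux _ _ (centralizer_VV hc).symm (OffenderGen.pCore_quotient_eq_bot (p := p) (V0 p X) V0_gen)

/-- the offender inequality for the abelian subgroups of largest order of a Sylow subgroup -/
theorem off (V : Subgroup X) (hVc : IsMulCommutative V) (T : Subgroup X) (hVT : V ≤ T) {A : Subgroup X}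
    (hA : A ∈ maxIn (fun A => IsMulCommutative A) T) (B : Subgroup X) (hB : B ≤ A) :
    Nat.card B * Nat.card ↥(V ⊓ centralizer (B : Set X)) ≤ Nat.card A * Nat.card ↥(V ⊓ centralizer (A : Set X)) := by
  have hAc : A ≤ centralizer (A : Set X) := by
    rw [le_centralizer_iff_isMulCommutative]; exact hA.2.1
  set W := V ⊓ centralizer (B : Set X) with hW
  have hBc : IsMulCommutative B := comm_mono hA.2.1 hB
  have hBW : IsMulCommutative (W ⊔ B : Subgroup X) := comm_sup (comm_mono hVc inf_le_left) hBc inf_le_right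
  have h1 := hA.2.2 (W ⊔ B) (sup_le (inf_le_left.trans hVT) (hB.trans hA.1)) hBW
  have hBn : B ≤ normalizer (W : Set X) := by
    have : B ≤ centralizer (W : Set X) := by
      rw [le_centralizer_iff]; exact inf_le_right
    exact this.trans (centralizer_le_normalizer _)
  have h2 := card_sup_mul_card_inf (N := W) (H := B) hBn
  have h3 : Nat.card ↥(W ⊓ B : Subgroup X) ≤ Nat.card ↥(V ⊓ centralizer (A : Set X)) := by
    apply card_le_of_le
    intro x hx
    exact mem_inf.mpr ⟨hx.1.1, hAc (hB hx.2)⟩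
  calc Nat.card B * Nat.card W = Nat.card W * Nat.card B := mul_comm _ _
    _ = Nat.card ↥(W ⊔ B) * Nat.card ↥(W ⊓ B : Subgroup X) := h2.symm
    _ ≤ _ := Nat.mul_le_mul h1 h3

end general

section rep

variable {K : Type u} [Group K] [Finite K] {Γ : Type u} [Group Γ] [Finite Γ]
  {V : Subgroup K} [V.Normal] {V' : Subgroup Γ} {θ : K →* Γ} {ψ : V ≃* V'}

/-- the offender inequality passes to the image -/
theorem off_map (R : IsRep V V' θ ψ) {A : Subgroup K}
    (hA : ∀ B : Subgroup K, B ≤ A → Nat.card B * Nat.card ↥(V ⊓ centralizer (B : Set K)) ≤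
      Nat.card A * Nat.card ↥(V ⊓ centralizer (A : Set K))) (B : Subgroup Γ) (hB : B ≤ A.map θ) :
    Nat.card B * Nat.card ↥(V' ⊓ centralizer (B : Set Γ)) ≤
      Nat.card (A.map θ) * Nat.card ↥(V' ⊓ centralizer ((A.map θ : Subgroup Γ) : Set Γ)) := by
  set B₀ := B.comap θ ⊓ A with hB₀
  have hB₀' : B₀.map θ = B := by
    apply le_antisymm
    · rintro _ ⟨x, hx, rfl⟩
      exact hx.1
    · intro b hb
      obtain ⟨a, ha, rfl⟩ := hB hb
      exact ⟨a, ⟨hb, ha⟩, rfl⟩
  have h1 := hA B₀ inf_le_right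
  have h2 := R.card_map B₀
  have h3 := R.card_map A
  rw [hB₀'] at h2
  have h4 : B₀ ⊓ centralizer (V : Set K) = A ⊓ centralizer (V : Set K) := by
    apply le_antisymm (inf_le_inf_right _ inf_le_right)
    rintro x ⟨hxA, hxC⟩
    refine ⟨⟨?_, hxA⟩, hxC⟩
    have : θ x = 1 := by
      have h5 : x ∈ θ.ker := by rw [R.ker]; exact hxC
      exact h5
    change θ x ∈ B
    rw [this]
    exact one_mem B
  rw [h4] at h2
  rw [← h2, ← h3, ← R.card_fix A, ← R.card_fix B₀, hB₀'] at h1
  have hpos : 0 < Nat.card ↥(A ⊓ centralizer (V : Set K)) := Nat.card_pos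
  refine Nat.le_of_mul_le_mul_right ?_ hpos
  calc Nat.card ↥B * Nat.card ↥(V' ⊓ centralizer (B : Set Γ)) * Nat.card ↥(A ⊓ centralizer (V : Set K)) =
        Nat.card ↥B * Nat.card ↥(A ⊓ centralizer (V : Set K)) *
        Nat.card ↥(V' ⊓ centralizer (B : Set Γ)) := by ring
    _ ≤ _ := h1
    _ = _ := by ring

/-- the abelian subgroups of largest order of the Sylow subgroups are mapped to best offenders -/
theorem bestOff (R : IsRep V V' θ ψ) (hV : Cfsg.IsElementaryAbelian 2 V) (hsep : Cfsg.IsPSolvable 2 K)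
    (hO : Cfsg.pCore 2 (K ⧸ centralizer (V : Set K)) = ⊥) (T : Sylow 2 K) {A : Subgroup K}
    (hA : A ∈ maxIn (fun A => IsMulCommutative A) (T : Subgroup K)) : Cfsg.IsBestOffenderOn 2 V' (A.map θ) := by
  have : Fact (Nat.Prime 2) := ⟨Nat.prime_two⟩
  have hVT : V ≤ T := OffenderGen.normal_le_sylow (elemAb_isPGroup hV) T
  have h1 := off_map R (off V hV.1 T hVT hA)
  have S := R.setting hV hsep hO ⊤
  have hAc : ∀ x ∈ A.map θ, ∀ y ∈ A.map θ, x * y = y * x := by
    rintro _ ⟨x, hx, rfl⟩ _ ⟨y, hy, rfl⟩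
    rw [← map_mul, ← map_mul]
    congr 1
    exact (isMulCommutative_iff_of_setLike.mp hA.2.1) x hx y hy
  have h2 := S3FacElem.sq_eq_one S (map_mono le_top) ((T.2.to_le hA.1).map θ) hAc h1
  refine ⟨h1, ?_, ?_⟩
  · rw [commutator_le]
    intro x hx y hy
    have : ⁅x, y⁆ = 1 := commutatorElement_eq_one_iff_mul_comm.mpr (hAc x hx y hy)
    rw [this]; exact one_mem _
  · intro a ha
    rw [h2 a ha]; exact one_mem _

end rep

section main

variable {X : Type u} [Group X] [Finite X]

/-- the conjugates of the Thompson subgroup -/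
theorem normalClosure_J_le (T : Sylow 2 X) {L : Subgroup X}
    (hL : ∀ (S : Sylow 2 X) (A : Subgroup X), A ∈ maxIn (fun A => IsMulCommutative A) (S : Subgroup X) →
      A ≤ normalClosure (J (fun A => IsMulCommutative A) (T : Subgroup X) : Set X) → A ≤ L) :
    normalClosure (J (fun A => IsMulCommutative A) (T : Subgroup X) : Set X) ≤ L := by
  set Y := normalClosure (J (fun A => IsMulCommutative A) (T : Subgroup X) : Set X) with hY
  have hYn : Y.Normal := normalClosure_normal
  have key : ∀ g : X, (J (fun A => IsMulCommutative A) (T : Subgroup X)).map (MulAut.conj g).toMonoidHom ≤ L := by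
    intro g
    have h0 : (J (fun A => IsMulCommutative A) (T : Subgroup X)).map (MulAut.conj g).toMonoidHom ≤ Y := by
      rintro _ ⟨y, hy, rfl⟩
      exact hYn.conj_mem y (subset_normalClosure hy) g
    have h1 := map_J_ab (conj_injective g) (T : Subgroup X)
    rw [h1] at h0 ⊢
    apply sSup_le
    intro A hA
    exact hL (g • T) A hA ((le_J hA).trans h0)
  rw [hY]
  unfold normalClosure
  rw [closure_le]
  intro y hy
  obtain ⟨x, hx, hxy⟩ := Group.mem_conjugatesOfSet_iff.mp hy
  obtain ⟨g, hg⟩ := isConj_iff.mp hxy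
  rw [← hg]
  exact key g ⟨x, hx, rfl⟩

theorem frattini_ab (T : Sylow 2 X) {N : Subgroup X} [hN : N.Normal]
    (hJ : J (fun A => IsMulCommutative A) (T : Subgroup X) ≤ N) :
    N ⊔ normalizer (J (fun A => IsMulCommutative A) (T : Subgroup X) : Set X) = ⊤ := by
  rw [eq_top_iff]
  intro h _
  obtain ⟨n, hn, x, hx, rfl⟩ := ((RelSylow.isSyl_top_iff T).inf (le_top : N ≤ ⊤)
    (by rw [Subgroup.normalizer_eq_top])).frattini (H := ⊤) (by rw [Subgroup.normalizer_eq_top]) (mem_top h)
  refine mul_mem_sup hn ?_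
  have h1 : J (fun A => IsMulCommutative A) ((T : Subgroup X) ⊓ N) = J (fun A => IsMulCommutative A) (T : Subgroup X) :=
    J_eq_of_J_le (maxAb_nonempty _) inf_le_left (le_inf J_le hJ)
  rw [← h1]
  exact normalizer_le_normalizer_J_ab _ hx

/-- the direct decomposition as a product of copies of `S₃` -/
theorem decomp {G : Type u} [Group G] [Finite G] {V H Q : Subgroup G} (S : Setting 2 V H Q) (hgen : GenOff 2 V H)
    (hH : H ≠ ⊥) : ∃ n : ℕ, 1 ≤ n ∧ Nonempty (H ≃* (Fin n → Equiv.Perm (Fin 3))) := by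
  classical
  obtain ⟨A, hAH, hA⟩ := exists_minOff S hgen hH
  have : Finite (EE 2 V H Q) := inferInstance
  have : Fintype (EE 2 V H Q) := Fintype.ofFinite _
  have hcomm : Pairwise fun E F : EE 2 V H Q => ∀ x y : G, x ∈ (E : Subgroup G) → y ∈ (F : Subgroup G) → Commute x y := by
    intro E F h x y hx hy
    have h1 := (comm_of_ne S h).1
    exact commutatorElement_eq_one_iff_mul_comm.mp (by
      have : ⁅x, y⁆ ∈ ⁅(E : Subgroup G), (F : Subgroup G)⁆ := commutator_mem_commutator hx hy
      rw [h1, mem_bot] at this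
      exact this)
  have hinj := injective_noncommPiCoprod_of_iSupIndep (hcomm := hcomm) (indep_EE S)
  have hrange := noncommPiCoprod_range (H := fun E : EE 2 V H Q => (E : Subgroup G)) (hcomm := hcomm)
  rw [iSup_EE S hgen] at hrange
  have e1 : ((E : EE 2 V H Q) → (E : Subgroup G)) ≃* H :=
    (MonoidHom.ofInjective hinj).trans (MulEquiv.subgroupCongr hrange)
  have e2 : ∀ E : EE 2 V H Q, Nonempty ((E : Subgroup G) ≃* Equiv.Perm (Fin 3)) := by
    intro E
    obtain ⟨B, hBH, hB, hE⟩ := EE_spec E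
    obtain ⟨e⟩ := (isPlane S hBH hB).iso
    obtain ⟨f⟩ := ClSmall.sl2_two (F := ZMod 2) (by simp)
    exact ⟨(MulEquiv.subgroupCongr hE).trans (e.trans f)⟩
  refine ⟨Nat.card (EE 2 V H Q), ?_, ?_⟩
  · have : Nonempty (EE 2 V H Q) := ⟨toEE Q hAH hA⟩
    exact Nat.card_pos
  · have e3 : ((E : EE 2 V H Q) → (E : Subgroup G)) ≃* (EE 2 V H Q → Equiv.Perm (Fin 3)) :=
      MulEquiv.piCongrRight fun E => (e2 E).some
    have e4 : (EE 2 V H Q → Equiv.Perm (Fin 3)) ≃* (Fin (Nat.card (EE 2 V H Q)) → Equiv.Perm (Fin 3)) :=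
      MulEquiv.arrowCongr (Finite.equivFin _) (MulEquiv.refl _)
    exact ⟨e1.symm.trans (e3.trans e4)⟩

theorem main [Group.IsSolvable X] (hF : Cfsg.fittingSubgroup X = Cfsg.pCore 2 X) (T : Sylow 2 X) :
    let C := (centralizer (((T : Subgroup X) ⊓ centralizer ((T : Subgroup X) : Set X) : Subgroup X) : Set X)).normalCore
    let Y := normalClosure (Cfsg.thompsonSubgroupAOf (T : Subgroup X) : Set X)
    (C ⊔ Y ⊔ normalizer (Cfsg.thompsonSubgroupAOf (T : Subgroup X) : Set X) = ⊤) ∧
    (Y ≤ C ∨ ∃ n : ℕ, 1 ≤ n ∧ Nonempty (↥Y ⧸ C.subgroupOf Y ≃* (Fin n → Equiv.Perm (Fin 3)))) := by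
  intro C Y
  have hc : centralizer (Cfsg.pCore 2 X : Set X) ≤ Cfsg.pCore 2 X := by
    rw [← hF]; exact Fitting.centralizer_fittingSubgroup_le
  have hVn : (VV 2 X).Normal := VV_normal
  have hCeq : C = centralizer (VV 2 X : Set X) := by
    rw [centralizer_VV hc, ← normalCore_eq T]
  have hYn : Y.Normal := normalClosure_normal
  have hYeq : Y = normalClosure (J (fun A => IsMulCommutative A) (T : Subgroup X) : Set X) := by
    change normalClosure (Cfsg.thompsonSubgroupAOf (T : Subgroup X) : Set X) = _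
    rw [thompsonSubgroupAOf_eq]
  constructor
  · rw [thompsonSubgroupAOf_eq, sup_assoc, frattini_ab T (N := Y) (by rw [hYeq]; exact subset_normalClosure), sup_top_eq]
  obtain ⟨Γ, _, _, V', θ, ψ, R⟩ := KS9Fac.exists_rep (VV 2 X)
  have hsep : Cfsg.IsPSolvable 2 X := PLength.isPSolvable_of_isSolvable
  have hV := VV_elem hc
  have hO := pCore_quot hc hVn
  have S := R.setting hV hsep hO Y
  have hgen : GenOff 2 V' (Y.map θ) := by
    apply le_antisymm
    · rw [map_le_iff_le_comap, hYeq]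
      apply normalClosure_J_le T
      intro U A hA hAY
      rw [← map_le_iff_le_comap]
      rw [← hYeq] at hAY ⊢
      exact le_iSup (fun A : {A : Subgroup Γ // A ≤ Y.map θ ∧ Cfsg.IsBestOffenderOn 2 V' A} => (A : Subgroup Γ))
        ⟨A.map θ, map_mono hAY, bestOff R hV hsep hO U hA⟩
    · exact iSup_le fun A => A.2.1
  by_cases hH : Y.map θ = ⊥
  · left
    rw [hCeq, ← R.ker, ← Subgroup.map_eq_bot_iff]
    exact hH
  · right
    obtain ⟨n, hn, ⟨e⟩⟩ := decomp S hgen hH
    refine ⟨n, hn, ⟨?_⟩⟩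
    have hk : C.subgroupOf Y = (θ.subgroupMap Y).ker := by
      ext x
      rw [MonoidHom.mem_ker, mem_subgroupOf, hCeq, ← R.ker, MonoidHom.mem_ker]
      exact ⟨fun h => Subtype.ext h, fun h => congrArg Subtype.val h⟩
    exact ((QuotientGroup.quotientMulEquivOfEq hk).trans
      (QuotientGroup.quotientKerEquivOfSurjective _ (θ.subgroupMap_surjective Y))).trans e

end main

end Cfsg.Agent.Lib.S3Fac
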