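import Mathlib

/-!
# Cyclic offenders normalising a faithful group of odd order are involutions (helper11, for S4302)
-/

set_option autoImplicit false

namespace Cfsg.Agent.Lib.S3FacCyc

open Subgroup

variable {W : Type*} [CommGroup W]

/-- the displacement of an automorphism -/
def dsp (g : MulAut W) : W →* W := MonoidHom.mk' (fun u => g u / u) (by
  intro u v
  rw [map_mul, mul_div_mul_comm])

theorem dsp_apply (g : MulAut W) (u : W) : dsp g u = g u / u := rfl

theorem eq_mul (g : MulAut W) (u : W) : g u = u * dsp g u := by rw [dsp_apply, mul_div_cancel]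

theorem sq_apply (hW : ∀ w : W, w * w = 1) (g : MulAut W) (u : W) :
    (g * g) u = u * dsp g (dsp g u) := by
  rw [MulAut.mul_apply, eq_mul g u, map_mul, eq_mul g (dsp g u), eq_mul g u]
  have := hW (dsp g u)
  calc u * dsp g u * (dsp g u * dsp g (dsp g u)) = u * (dsp g u * dsp g u) * dsp g (dsp g u) := by
        simp only [mul_assoc]
    _ = _ := by rw [this, mul_one]

theorem dsp_sq (hW : ∀ w : W, w * w = 1) (g : MulAut W) (u : W) : dsp (g * g) u = dsp g (dsp g u) := by
  rw [dsp_apply, sq_apply hW, mul_div_cancel_left]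

theorem dsp_pow (hW : ∀ w : W, w * w = 1) (g : MulAut W) (k : ℕ) (u : W) :
    dsp (g ^ 2 ^ k) u = (dsp g)^[2 ^ k] u := by
  induction k generalizing u with
  | zero => simp
  | succ k ih =>
    rw [pow_succ, pow_mul, pow_two, dsp_sq hW, ih, ih, ← Function.iterate_add_apply, mul_two]

theorem dsp_one_iff (g : MulAut W) : (∀ u, dsp g u = 1) ↔ g = 1 := by
  constructor
  · intro h
    apply MulEquiv.ext
    intro u
    rw [eq_mul g u, h u, mul_one, MulAut.one_apply]
  · rintro rfl u
    rw [dsp_apply, MulAut.one_apply, div_self']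

/-- an element of odd order with `(z - 1)^3 = 0` is trivial -/
theorem eq_one_of_cube (hW : ∀ w : W, w * w = 1) (z : MulAut W) (hz : Odd (orderOf z))
    (h : ∀ u, dsp z (dsp z (dsp z u)) = 1) : z = 1 := by
  have h4 : z ^ 4 = 1 := by
    rw [← dsp_one_iff]
    intro u
    have h1 := dsp_pow hW z 2 u
    have h2 : (2 : ℕ) ^ 2 = 4 := by norm_num
    rw [h2] at h1
    rw [h1]
    change dsp z (dsp z (dsp z (dsp z u))) = 1
    rw [h]
  have h1 : orderOf z ∣ 4 := orderOf_dvd_of_pow_eq_one h4
  have h2 : (orderOf z).Coprime 4 := by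
    have : Nat.Coprime (orderOf z) (2 ^ 2) := Nat.Coprime.pow_right 2 (Nat.coprime_two_right.2 hz)
    exact this
  have h3 := Nat.eq_one_of_dvd_coprimes h2 dvd_rfl h1
  exact orderOf_eq_one_iff.1 h3

theorem odd_of_mem [Finite W] {D : Subgroup (MulAut W)} (hD : Odd (Nat.card D)) {z : MulAut W} (hz : z ∈ D) :
    Odd (orderOf z) := by
  have h1 : orderOf z ∣ Nat.card D := by
    have := orderOf_dvd_natCard (⟨z, hz⟩ : D)
    rwa [Subgroup.orderOf_mk] at this
  exact hD.of_dvd_nat h1

section chain

variable [Finite W] (N : W →* W)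

/-- iterated images -/
def im : ℕ → Subgroup W
  | 0 => ⊤
  | i + 1 => (im i).map N

omit [Finite W] in
theorem mem_im {i : ℕ} {w : W} : w ∈ im N i ↔ ∃ u, N^[i] u = w := by
  induction i generalizing w with
  | zero => simp [im]
  | succ i ih =>
    change w ∈ (im N i).map N ↔ _
    rw [Subgroup.mem_map]
    constructor
    · rintro ⟨x, hx, rfl⟩
      obtain ⟨u, rfl⟩ := ih.1 hx
      exact ⟨u, Function.iterate_succ_apply' _ _ _⟩
    · rintro ⟨u, rfl⟩
      exact ⟨N^[i] u, ih.2 ⟨u, rfl⟩, (Function.iterate_succ_apply' _ _ _).symm⟩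

omit [Finite W] in
theorem im_antitone_succ (i : ℕ) : im N (i + 1) ≤ im N i := by
  intro w hw
  obtain ⟨u, rfl⟩ := (mem_im N).1 hw
  exact (mem_im N).2 ⟨N u, Function.iterate_succ_apply _ _ _⟩

/-- while the image is non-trivial, each step at least halves it -/
theorem two_mul_card_im {m : ℕ} (hnil : ∀ u, N^[m] u = 1) (i : ℕ) (hi : im N i ≠ ⊥) :
    2 * Nat.card (im N (i + 1)) ≤ Nat.card (im N i) := by
  -- a non-trivial kernel element inside `im N i`
  have hex : ∃ x ∈ im N i, x ≠ 1 ∧ N x = 1 := by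
    obtain ⟨x, hx, hx1⟩ : ∃ x : W, x ∈ im N i ∧ x ≠ 1 := by
      obtain ⟨x, hx⟩ := (Subgroup.ne_bot_iff_exists_ne_one).1 hi
      exact ⟨x, x.2, fun h => hx (Subtype.ext h)⟩
    classical
    have hfin : ∃ k, N^[k] x = 1 := ⟨m, hnil x⟩
    have hk := Nat.find_spec hfin
    have hk0 : Nat.find hfin ≠ 0 := by
      intro h
      rw [h] at hk
      exact hx1 hk
    obtain ⟨k, hk'⟩ := Nat.exists_eq_succ_of_ne_zero hk0
    have hmin := Nat.find_min hfin (m := k) (by rw [hk']; exact Nat.lt_succ_self k)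
    refine ⟨N^[k] x, ?_, hmin, ?_⟩
    · have h1 : ∀ k, ∀ y ∈ im N i, N^[k] y ∈ im N i := by
        intro k
        induction k with
        | zero => intro y hy; exact hy
        | succ k ih =>
          intro y hy
          rw [Function.iterate_succ_apply]
          apply ih
          exact im_antitone_succ N i ⟨y, hy, rfl⟩
      exact h1 k x hx
    · rw [← Function.iterate_succ_apply' N k x, ← hk']
      exact hk
  obtain ⟨x, hx, hx1, hNx⟩ := hex
  let f : im N i →* W := N.comp (im N i).subtype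
  have hr : f.range = im N (i + 1) := by
    ext w
    constructor
    · rintro ⟨y, rfl⟩
      exact ⟨y, y.2, rfl⟩
    · rintro ⟨y, hy, rfl⟩
      exact ⟨⟨y, hy⟩, rfl⟩
  have h1 : Nat.card f.ker * Nat.card f.range = Nat.card (im N i) := by
    rw [← Subgroup.index_ker f]
    exact Subgroup.card_mul_index f.ker
  have h2 : 2 ≤ Nat.card f.ker := by
    have : Nontrivial f.ker := by
      refine ⟨⟨1, ⟨⟨x, hx⟩, hNx⟩, ?_⟩⟩
      intro h
      apply hx1
      have := congrArg (fun z : f.ker => ((z : im N i) : W)) h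
      exact this.symm
    exact Finite.one_lt_card
  rw [hr] at h1
  calc 2 * Nat.card (im N (i + 1)) ≤ Nat.card f.ker * Nat.card (im N (i + 1)) := Nat.mul_le_mul_right _ h2
    _ = _ := h1

omit [Finite W] in
theorem im_ne_bot_of_le {i j : ℕ} (hij : i ≤ j) (h : im N j ≠ ⊥) : im N i ≠ ⊥ := by
  intro h0
  apply h
  have : im N j ≤ im N i := by
    obtain ⟨k, rfl⟩ := Nat.exists_eq_add_of_le hij
    clear h
    induction k with
    | zero => exact le_rfl
    | succ k ih => exact (im_antitone_succ N (i + k)).trans (ih (Nat.le_add_right _ _))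
  rw [eq_bot_iff, ← h0]
  exact this

theorem pow_le_card_im {m : ℕ} (hnil : ∀ u, N^[m] u = 1) (k : ℕ) (i : ℕ) (hk : im N (i + k) ≠ ⊥) :
    2 ^ (k + 1) ≤ Nat.card (im N i) := by
  induction k generalizing i with
  | zero =>
    have : Nontrivial (im N i) := (Subgroup.nontrivial_iff_ne_bot _).2 hk
    have := Finite.one_lt_card (α := im N i)
    simpa using Nat.succ_le_of_lt this
  | succ k ih =>
    have h1 := ih (i + 1) (by rw [show i + 1 + k = i + (k + 1) by ring]; exact hk)
    have h2 := two_mul_card_im N hnil i (im_ne_bot_of_le N (Nat.le_add_right i (k + 1)) hk)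
    calc 2 ^ (k + 1 + 1) = 2 * 2 ^ (k + 1) := by ring
      _ ≤ 2 * Nat.card (im N (i + 1)) := Nat.mul_le_mul_left _ h1
      _ ≤ _ := h2

end chain

section main

variable [Finite W]

omit [Finite W] in
/-- transvection pairs: `s₁, s₂` move everything by `w₁` resp. `w₂`, and `s₁ s₂` has odd order `≠ 1`; then `s₂` moves
`w₁` by `w₂`. -/
theorem tv_pair (hW : ∀ w : W, w * w = 1) {s₁ s₂ : MulAut W} {w₁ w₂ : W}
    (h1 : ∀ u, s₁ u = u ∨ s₁ u = u * w₁) (h2 : ∀ u, s₂ u = u ∨ s₂ u = u * w₂)
    (h11 : s₁ w₁ = w₁) (h22 : s₂ w₂ = w₂) (hodd : Odd (orderOf (s₁ * s₂))) (hne : s₁ * s₂ ≠ 1) :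
    s₂ w₁ = w₁ * w₂ := by
  by_contra hcon
  have h21 : s₂ w₁ = w₁ := (h2 w₁).resolve_right hcon
  apply hne
  apply eq_one_of_cube hW _ hodd
  -- the chain `⟨w₁, w₂⟩ > ⟨w₁⟩ > 1`
  have hs1 : ∀ u, s₁ u / u = 1 ∨ s₁ u / u = w₁ := by
    intro u
    rcases h1 u with h | h
    · left; rw [h, div_self']
    · right; rw [h, mul_div_cancel_left]
  have hs2 : ∀ u, s₂ u / u = 1 ∨ s₂ u / u = w₂ := by
    intro u
    rcases h2 u with h | h
    · left; rw [h, div_self']
    · right; rw [h, mul_div_cancel_left]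
  have hz : ∀ u, (s₁ * s₂) u / u = (s₁ (s₂ u) / s₂ u) * (s₂ u / u) := by
    intro u
    rw [MulAut.mul_apply, div_mul_div_cancel]
  have hf1 : dsp (s₁ * s₂) w₁ = 1 := by
    rw [dsp_apply, MulAut.mul_apply, h21, h11, div_self']
  have hf2 : dsp (s₁ * s₂) w₂ = 1 ∨ dsp (s₁ * s₂) w₂ = w₁ := by
    rw [dsp_apply, MulAut.mul_apply, h22]
    exact hs1 w₂
  have hstep : ∀ u, dsp (s₁ * s₂) u = 1 ∨ dsp (s₁ * s₂) u = w₁ ∨ dsp (s₁ * s₂) u = w₂ ∨
      dsp (s₁ * s₂) u = w₁ * w₂ := by
    intro u
    rw [dsp_apply, hz]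
    rcases hs1 (s₂ u) with h | h <;> rcases hs2 u with h' | h' <;> rw [h, h'] <;> simp
  have hstep2 : ∀ u, dsp (s₁ * s₂) (dsp (s₁ * s₂) u) = 1 ∨ dsp (s₁ * s₂) (dsp (s₁ * s₂) u) = w₁ := by
    intro u
    rcases hstep u with h | h | h | h
    · left; rw [h, map_one]
    · left; rw [h, hf1]
    · rw [h]; exact hf2
    · rw [h, map_mul, hf1, one_mul]; exact hf2
  intro u
  rcases hstep2 u with h | h
  · rw [h, map_one]
  · rw [h, hf1]

theorem cyclic_offender (hW : ∀ w : W, w * w = 1) (D : Subgroup (MulAut W)) (hD : Odd (Nat.card D))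
    (a : MulAut W) (ha : ∀ d ∈ D, a * d * a⁻¹ ∈ D) (hne : ∃ d ∈ D, a * d * a⁻¹ ≠ d) (e : ℕ)
    (hord : orderOf a = 2 ^ e) (hr : Nat.card (im (dsp a) 1) ≤ 2 ^ e) : a ^ 2 = 1 := by
  by_contra hcon
  have he2 : 2 ≤ e := by
    by_contra h
    push Not at h
    apply hcon
    have h1 : 2 ^ e ∣ 2 := by
      have : e ≤ 1 := by omega
      calc 2 ^ e ∣ 2 ^ 1 := pow_dvd_pow 2 this
        _ = 2 := by norm_num
    rw [← hord] at h1
    exact orderOf_dvd_iff_pow_eq_one.1 h1
  have hnil : ∀ u, (dsp a)^[2 ^ e] u = 1 := by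
    intro u
    rw [← dsp_pow hW a e u, ← hord, pow_orderOf_eq_one, dsp_apply, MulAut.one_apply, div_self']
  have hN : im (dsp a) (2 ^ (e - 1)) ≠ ⊥ := by
    intro h
    have h1 : a ^ 2 ^ (e - 1) = 1 := by
      rw [← dsp_one_iff]
      intro u
      rw [dsp_pow hW]
      have : (dsp a)^[2 ^ (e - 1)] u ∈ im (dsp a) (2 ^ (e - 1)) := (mem_im _).2 ⟨u, rfl⟩
      rwa [h, Subgroup.mem_bot] at this
    have h2 : 2 ^ e ∣ 2 ^ (e - 1) := by
      rw [← hord]
      exact orderOf_dvd_of_pow_eq_one h1
    have h3 := (Nat.pow_dvd_pow_iff_le_right (by norm_num : 1 < 2)).1 h2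
    omega
  have hrk : 2 ^ (2 ^ (e - 1)) ≤ 2 ^ e := by
    obtain ⟨m, hm⟩ : ∃ m, 2 ^ (e - 1) = m + 1 := ⟨2 ^ (e - 1) - 1, by
      have : 0 < 2 ^ (e - 1) := by positivity
      omega⟩
    have h1 := pow_le_card_im (dsp a) hnil m 1 (by rw [Nat.add_comm 1 m, ← hm]; exact hN)
    rw [← hm] at h1
    exact h1.trans hr
  have hle : 2 ^ (e - 1) ≤ e := (Nat.pow_le_pow_iff_right (by norm_num : 1 < 2)).1 hrk
  have he : e = 2 := by
    by_contra h
    have h3 : 3 ≤ e := by omega
    obtain ⟨m, rfl⟩ := Nat.exists_eq_add_of_le h3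
    have : ∀ m, 3 + m < 2 ^ (3 + m - 1) := by
      intro m
      induction m with
      | zero => norm_num
      | succ m ih =>
        have : 3 + (m + 1) - 1 = (3 + m - 1) + 1 := by omega
        rw [this, pow_succ]
        omega
    exact absurd hle (not_le.2 (this m))
  subst he
  norm_num at hord hr hN hnil
  -- ranks
  have c1 : 2 * Nat.card (im (dsp a) 2) ≤ Nat.card (im (dsp a) 1) :=
    two_mul_card_im (dsp a) (m := 4) hnil 1 (im_ne_bot_of_le (dsp a) (by norm_num) hN)
  have c2 : 2 * Nat.card (im (dsp a) 3) ≤ Nat.card (im (dsp a) 2) := two_mul_card_im (dsp a) (m := 4) hnil 2 hN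
  have c20 : 1 < Nat.card (im (dsp a) 2) := by
    have : Nontrivial (im (dsp a) 2) := (Subgroup.nontrivial_iff_ne_bot _).2 hN
    exact Finite.one_lt_card
  have c22 : Nat.card (im (dsp a) 2) = 2 := by omega
  have c3 : Nat.card (im (dsp a) 3) = 1 := by
    have : 0 < Nat.card (im (dsp a) 3) := Nat.card_pos
    omega
  have hN3 : ∀ u, dsp a (dsp a (dsp a u)) = 1 := by
    intro u
    have h1 : dsp a (dsp a (dsp a u)) ∈ im (dsp a) 3 := (mem_im _).2 ⟨u, rfl⟩
    rw [Subgroup.card_eq_one.1 c3, Subgroup.mem_bot] at h1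
    exact h1
  obtain ⟨w, hw1, hw⟩ : ∃ w : W, w ≠ 1 ∧ ∀ u, dsp a (dsp a u) = 1 ∨ dsp a (dsp a u) = w := by
    obtain ⟨⟨w, hwm⟩, hw⟩ := (Subgroup.ne_bot_iff_exists_ne_one).1 hN
    refine ⟨w, fun h => hw (Subtype.ext h), fun u => ?_⟩
    by_contra hcon
    push Not at hcon
    have h1 : dsp a (dsp a u) ∈ im (dsp a) 2 := (mem_im _).2 ⟨u, rfl⟩
    have h3 : 3 ≤ Nat.card (im (dsp a) 2) := by
      classical
      have := Fintype.ofFinite (im (dsp a) 2)
      rw [Nat.card_eq_fintype_card]
      have : ({(1 : im (dsp a) 2), ⟨w, hwm⟩, ⟨_, h1⟩} : Finset (im (dsp a) 2)).card = 3 := by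
        rw [Finset.card_eq_three]
        refine ⟨1, ⟨w, hwm⟩, ⟨_, h1⟩, fun h => hw h.symm, ?_, ?_, rfl⟩
        · intro h
          exact hcon.1 (congrArg Subtype.val h).symm
        · intro h
          exact hcon.2 (congrArg Subtype.val h).symm
      rw [← this]
      exact Finset.card_le_univ _
    omega
  obtain ⟨v0, hv0⟩ : ∃ v, dsp a (dsp a v) = w := by
    by_contra h
    push Not at h
    apply hN
    rw [eq_bot_iff]
    intro x hx
    obtain ⟨u, rfl⟩ := (mem_im _).1 hx
    exact (hw u).resolve_right (h u)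
  obtain ⟨t, ht⟩ : ∃ t, t = a * a := ⟨_, rfl⟩
  have htu : ∀ u, dsp t u = 1 ∨ dsp t u = w := by
    intro u
    rw [ht, dsp_sq hW]
    exact hw u
  have htu' : ∀ u, t u = u ∨ t u = u * w := by
    intro u
    rcases htu u with h | h
    · left; rw [eq_mul t u, h, mul_one]
    · right; rw [eq_mul t u, h]
  have haw : a w = w := by
    rw [eq_mul a w, ← hv0, hN3, mul_one]
  have htw : t w = w := by rw [ht, MulAut.mul_apply, haw, haw]
  have haw' : a⁻¹ w = w := by
    nth_rw 1 [← haw]
    rw [MulAut.inv_apply_self]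
  have ht2 : t * t = 1 := by
    have : a ^ 4 = 1 := by rw [← hord]; exact pow_orderOf_eq_one a
    rw [ht]
    rw [← this]
    simp only [pow_succ, pow_zero, one_mul, mul_assoc]
  have htinv : t⁻¹ = t := inv_eq_of_mul_eq_one_left ht2
  have htD : ∀ d ∈ D, t * d * t⁻¹ ∈ D := by
    intro d hd
    have := ha _ (ha d hd)
    rw [ht]
    have h2 : a * a * d * (a * a)⁻¹ = a * (a * d * a⁻¹) * a⁻¹ := by group
    rw [h2]
    exact this
  have hodd : ∀ z ∈ D, Odd (orderOf z) := fun z hz => odd_of_mem hD hz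
  have hinv2 : ∀ z ∈ D, z = z⁻¹ → z = 1 := by
    intro z hz h
    have h1 : z ^ 2 = 1 := by
      rw [pow_two]
      nth_rw 2 [h]
      exact mul_inv_cancel z
    have h2 := orderOf_dvd_of_pow_eq_one h1
    have h3 := Nat.eq_one_of_dvd_coprimes (Nat.coprime_two_right.2 (hodd z hz)) dvd_rfl h2
    exact orderOf_eq_one_iff.1 h3
  by_cases hcomm : ∀ d ∈ D, t * d * t⁻¹ = d
  · -- case (ii): `t` centralises `D`
    obtain ⟨d, hd, hda⟩ := hne
    have hdc : ∀ d ∈ D, ∀ u, t (d u) = d (t u) := by
      intro d hd u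
      have h1 : t * d = d * t := by
        have := hcomm d hd
        rw [mul_inv_eq_iff_eq_mul] at this
        exact this
      rw [← MulAut.mul_apply, h1, MulAut.mul_apply]
    have hdw : ∀ d ∈ D, d w = w := by
      intro d hd
      -- `d w` is a displacement of `t`
      have h1 : dsp t (d v0) = d (dsp t v0) := by
        rw [dsp_apply, dsp_apply, hdc d hd, map_div]
      have h2 : dsp t v0 = w := by rw [ht, dsp_sq hW, hv0]
      rw [h2] at h1
      rcases htu (d v0) with h | h
      · exfalso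
        rw [h] at h1
        apply hw1
        have : d w = d 1 := by rw [← h1, map_one]
        exact d.injective this
      · rw [← h1, h]
    -- the element `x = [d, a]`
    set x := d * (a * d⁻¹ * a⁻¹) with hx
    have hxD : x ∈ D := D.mul_mem hd (ha _ (D.inv_mem hd))
    have hx1 : x ≠ 1 := by
      intro h
      apply hda
      have h1 : d = (a * d⁻¹ * a⁻¹)⁻¹ := eq_inv_of_mul_eq_one_left (hx ▸ h)
      have h2 : a * d⁻¹ * a⁻¹ = d⁻¹ := by
        have := congrArg (fun z => z⁻¹) h1
        simp only [inv_inv] at this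
        exact this.symm
      calc a * d * a⁻¹ = (a * d⁻¹ * a⁻¹)⁻¹ := by group
        _ = d := by rw [h2, inv_inv]
    apply hx1
    apply eq_one_of_cube hW _ (hodd x hxD)
    -- `x - 1` maps `W` into `ker (t - 1)`
    have hU : ∀ u, t (dsp x u) = dsp x u := by
      intro u
      rw [dsp_apply, map_div, hdc x hxD]
      rcases htu' u with h | h
      · rw [h]
      · rw [h, map_mul, hdw x hxD, mul_div_mul_right_eq_div]
    -- on `ker (t - 1)` the displacement of `a` is in `⟨w⟩`
    have hkerN : ∀ u, t u = u → dsp a u = 1 ∨ dsp a u = w := by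
      -- counting
      let K₁ : Subgroup W := (dsp t).ker
      let f : K₁ →* W := (dsp a).comp K₁.subtype
      have e1 : Nat.card K₁ * Nat.card (dsp t).range = Nat.card W := by
        rw [← Subgroup.index_ker (dsp t)]
        exact Subgroup.card_mul_index _
      have e2 : Nat.card (dsp a).ker * Nat.card (dsp a).range = Nat.card W := by
        rw [← Subgroup.index_ker (dsp a)]
        exact Subgroup.card_mul_index _
      have e3 : Nat.card f.ker * Nat.card f.range = Nat.card K₁ := by
        rw [← Subgroup.index_ker f]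
        exact Subgroup.card_mul_index _
      have e4 : (dsp t).range = im (dsp a) 2 := by
        ext z
        rw [mem_im]
        constructor
        · rintro ⟨u, rfl⟩
          exact ⟨u, by rw [ht, dsp_sq hW]; rfl⟩
        · rintro ⟨u, rfl⟩
          exact ⟨u, by rw [ht, dsp_sq hW]; rfl⟩
      have e5 : (dsp a).range = im (dsp a) 1 := by
        ext z
        rw [mem_im]
        rfl
      have e6 : Nat.card f.ker = Nat.card (dsp a).ker := by
        have h1 : f.ker = (dsp a).ker.subgroupOf K₁ := rfl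
        rw [h1]
        apply Nat.card_congr
        refine Subgroup.subgroupOfEquivOfLe ?_ |>.toEquiv
        intro z hz
        change dsp t z = 1
        rw [ht, dsp_sq hW, MonoidHom.mem_ker.1 hz, map_one]
      rw [e4, c22] at e1
      rw [e5] at e2
      rw [e6] at e3
      have hpos : 0 < Nat.card (dsp a).ker := Nat.card_pos
      have e7 : Nat.card f.range ≤ 2 := by
        have h1 : Nat.card (dsp a).ker * (2 * Nat.card f.range) ≤ Nat.card (dsp a).ker * 4 := by
          calc Nat.card (dsp a).ker * (2 * Nat.card f.range) = (Nat.card (dsp a).ker * Nat.card f.range) * 2 := by ring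
            _ = Nat.card W := by rw [e3, e1]
            _ = Nat.card (dsp a).ker * Nat.card (im (dsp a) 1) := e2.symm
            _ ≤ _ := Nat.mul_le_mul_left _ hr
        have h2 := Nat.le_of_mul_le_mul_left h1 hpos
        omega
      have hwr : w ∈ f.range := by
        refine ⟨⟨dsp a v0, ?_⟩, hv0⟩
        change dsp t (dsp a v0) = 1
        rw [ht, dsp_sq hW, hN3]
      intro u hu
      by_contra hcon
      push Not at hcon
      have hur : dsp a u ∈ f.range := by
        refine ⟨⟨u, ?_⟩, rfl⟩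
        change dsp t u = 1
        rw [dsp_apply, hu, div_self']
      have h3 : 3 ≤ Nat.card f.range := by
        classical
        have := Fintype.ofFinite f.range
        rw [Nat.card_eq_fintype_card]
        have : ({(1 : f.range), ⟨w, hwr⟩, ⟨_, hur⟩} : Finset f.range).card = 3 := by
          rw [Finset.card_eq_three]
          refine ⟨1, ⟨w, hwr⟩, ⟨_, hur⟩, fun h => hw1 (congrArg Subtype.val h).symm, ?_, ?_, rfl⟩
          · intro h
            exact hcon.1 (congrArg Subtype.val h).symm
          · intro h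
            exact hcon.2 (congrArg Subtype.val h).symm
        rw [← this]
        exact Finset.card_le_univ _
      omega
    have hww : w * w = 1 := hW w
    have hcom : t * a = a * t := by rw [ht]; group
    have ha1 : ∀ u, t u = u → a u = u ∨ a u = u * w := by
      intro u hu
      rcases hkerN u hu with h | h
      · left; rw [eq_mul a u, h, mul_one]
      · right; rw [eq_mul a u, h]
    have ha2 : ∀ u, t u = u → a⁻¹ u = u ∨ a⁻¹ u = u * w := by
      intro u hu
      have h1 : t (a⁻¹ u) = a⁻¹ u := by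
        have h2 : t * a⁻¹ = a⁻¹ * t := by
          rw [mul_inv_eq_iff_eq_mul, mul_assoc, hcom, inv_mul_cancel_left]
        rw [← MulAut.mul_apply, h2, MulAut.mul_apply, hu]
      rcases ha1 _ h1 with h | h
      · left
        rw [MulAut.apply_inv_self] at h
        exact h.symm
      · right
        rw [MulAut.apply_inv_self] at h
        nth_rw 2 [h]
        rw [mul_assoc, hww, mul_one]
    have hta2 : ∀ u, t u = u → t (a⁻¹ u) = a⁻¹ u := by
      intro u hu
      have h2 : t * a⁻¹ = a⁻¹ * t := by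
        rw [mul_inv_eq_iff_eq_mul, mul_assoc, hcom, inv_mul_cancel_left]
      rw [← MulAut.mul_apply, h2, MulAut.mul_apply, hu]
    have hx2 : ∀ u, t u = u → dsp x u = 1 ∨ dsp x u = w := by
      intro u hu
      have hp : t (d⁻¹ (a⁻¹ u)) = d⁻¹ (a⁻¹ u) := by
        rw [hdc _ (D.inv_mem hd), hta2 u hu]
      have h1 : x u = d (a (d⁻¹ (a⁻¹ u))) := by
        rw [hx]; rfl
      have h2 : x u = a⁻¹ u ∨ x u = a⁻¹ u * w := by
        rcases ha1 _ hp with h | h
        · left; rw [h1, h, MulAut.apply_inv_self]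
        · right; rw [h1, h, map_mul, MulAut.apply_inv_self, hdw d hd]
      rw [dsp_apply]
      rcases h2 with h2 | h2 <;> rcases ha2 u hu with h3 | h3 <;> rw [h2, h3]
      · left; rw [div_self']
      · right; rw [mul_div_cancel_left]
      · right; rw [mul_div_cancel_left]
      · left; rw [mul_assoc, hww, mul_one, div_self']
    intro u
    rcases hx2 _ (hU u) with h | h
    · rw [h, map_one]
    · rw [h, dsp_apply, hdw x hxD, div_self']
  · -- case (i)
    push Not at hcomm
    obtain ⟨d, hd, htd⟩ := hcomm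
    have hcom : t * a = a * t := by rw [ht]; group
    have hta : a * t * a⁻¹ = t := by rw [← hcom, mul_inv_cancel_right]
    -- conjugates of `t`
    have hSu : ∀ c : MulAut W, ∀ u, (c * t * c⁻¹) u = u ∨ (c * t * c⁻¹) u = u * c w := by
      intro c u
      rcases htu' (c⁻¹ u) with h | h
      · left
        rw [MulAut.mul_apply, MulAut.mul_apply, h, MulAut.apply_inv_self]
      · right
        rw [MulAut.mul_apply, MulAut.mul_apply, h, map_mul, MulAut.apply_inv_self]
    have hSw : ∀ c : MulAut W, (c * t * c⁻¹) (c w) = c w := by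
      intro c
      rw [MulAut.mul_apply, MulAut.mul_apply, MulAut.inv_apply_self, htw]
    have hSS : ∀ c ∈ D, ∀ c' ∈ D, (c * t * c⁻¹) * (c' * t * c'⁻¹) ∈ D := by
      intro c hc c' hc'
      have h1 : (c * t * c⁻¹) * (c' * t * c'⁻¹) = c * (t * (c⁻¹ * c') * t⁻¹) * c'⁻¹ := by
        rw [htinv]; simp only [mul_assoc]
      rw [h1]
      exact D.mul_mem (D.mul_mem hc (htD _ (D.mul_mem (D.inv_mem hc) hc'))) (D.inv_mem hc')
    have hpair : ∀ c ∈ D, ∀ c' ∈ D, (c * t * c⁻¹) * (c' * t * c'⁻¹) ≠ 1 →
        (c' * t * c'⁻¹) (c w) = c w * c' w := by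
      intro c hc c' hc' hne
      exact tv_pair hW (hSu c) (hSu c') (hSw c) (hSw c') (hodd _ (hSS c hc c' hc')) hne
    have hcw : ∀ c : MulAut W, c w ≠ 1 := by
      intro c h
      apply hw1
      exact c.injective (h.trans (map_one c).symm)
    obtain ⟨x, hx⟩ : ∃ x, x = d * t * d⁻¹ * t := ⟨_, rfl⟩
    have hxD : x ∈ D := by
      have := hSS d hd 1 D.one_mem
      simpa [hx] using this
    have hx1 : x ≠ 1 := by
      intro h
      apply htd
      have h1 : d * t * d⁻¹ = t := by
        have h2 : d * t * d⁻¹ = t⁻¹ := eq_inv_of_mul_eq_one_left (hx ▸ h)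
        rw [h2, htinv]
      have h3 : d * t = t * d := by
        rw [mul_inv_eq_iff_eq_mul] at h1
        exact h1
      rw [← h3, mul_inv_cancel_right]
    have hs : d * t * d⁻¹ = x * t := by rw [hx, mul_assoc _ t t, ht2, mul_one]
    have htx : t * x * t = x⁻¹ := by
      symm
      apply inv_eq_of_mul_eq_one_left
      rw [hx]
      calc t * (d * t * d⁻¹ * t) * t * (d * t * d⁻¹ * t) = t * (d * t * d⁻¹) * (t * t) * (d * t * d⁻¹) * t := by
            simp only [mul_assoc]
        _ = t * (d * t * d⁻¹) * 1 * (d * t * d⁻¹) * t := by rw [ht2]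
        _ = t * (d * (t * t) * d⁻¹) * t := by group
        _ = 1 := by rw [ht2]; simp [ht2]
    have htx' : ∀ z, t * z * t = z⁻¹ → t * z⁻¹ * t = z := by
      intro z hz
      have : (t * z * t)⁻¹ = z := by rw [hz, inv_inv]
      rw [mul_inv_rev, mul_inv_rev, htinv] at this
      rw [mul_assoc]
      exact this
    -- `w' = d w`, `x w = w w'`
    have r1 : (d * t * d⁻¹) w = w * d w := by
      have := hpair 1 D.one_mem d hd (by
        intro h
        apply hx1
        rw [one_mul, inv_one, mul_one, hs] at h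
        have h2 : t * x * t = 1 := by rw [mul_assoc]; exact h
        rw [htx] at h2
        exact inv_eq_one.1 h2)
      simpa using this
    have r2 : t (d w) = d w * w := by
      have := hpair d hd 1 D.one_mem (by
        intro h
        apply hx1
        rw [hx]
        simpa using h)
      simpa using this
    have hxw : x w = w * d w := by
      rw [hx, MulAut.mul_apply, htw, r1]
    have hx3 : x * x = x⁻¹ := by
      have hc5 : t * d * t⁻¹ ∈ D := htD d hd
      have h5w : (t * d * t⁻¹) w = x w := by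
        rw [hxw, htinv, MulAut.mul_apply, MulAut.mul_apply, htw, r2, mul_comm]
      by_contra hcon
      have h1 := hpair (t * d * t⁻¹) hc5 x hxD (by
        intro h
        apply hcon
        have h2 : (t * d * t⁻¹) * t * (t * d * t⁻¹)⁻¹ = t * (d * t * d⁻¹) * t := by
          rw [htinv, mul_inv_rev, mul_inv_rev, htinv]
          calc t * d * t * t * (t * (d⁻¹ * t)) = t * d * (t * t) * t * d⁻¹ * t := by simp only [mul_assoc]
            _ = _ := by rw [ht2]; group
        rw [h2, hs] at h
        have h3 : t * (x * t) * t * (x * t * x⁻¹) = t * x * (t * t) * x * t * x⁻¹ := by simp only [mul_assoc]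
        rw [h3, ht2, mul_one] at h
        have h4 : t * x * x * t * x⁻¹ = (t * x * t) * (t * x * t) * x⁻¹ := by
          have : (t * x * t) * (t * x * t) = t * x * (t * t) * x * t := by simp only [mul_assoc]
          rw [this, ht2, mul_one]
        rw [h4, htx] at h
        have h5 : x⁻¹ * x⁻¹ = x := mul_inv_eq_one.1 h
        calc x * x = x * (x⁻¹ * x⁻¹) := by rw [h5]
          _ = x⁻¹ := by group)
      rw [h5w] at h1
      have h6 : (x * t * x⁻¹) (x w) = x w := hSw x
      rw [h6] at h1
      have h7 : x w = 1 := by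
        have := hW (x w)
        rw [h1]
        rw [← h1] at this
        exact hW _
      exact hcw x h7
    obtain ⟨y, hy⟩ : ∃ y, y = a * x * a⁻¹ := ⟨_, rfl⟩
    have hyD : y ∈ D := by rw [hy]; exact ha x hxD
    have hd'D : a * d * a⁻¹ ∈ D := ha d hd
    have hs' : (a * d * a⁻¹) * t * (a * d * a⁻¹)⁻¹ = y * t := by
      have h1 : (a * d * a⁻¹) * t * (a * d * a⁻¹)⁻¹ = a * (d * (a⁻¹ * t * a) * d⁻¹) * a⁻¹ := by group
      have h2 : a⁻¹ * t * a = t := by rw [mul_assoc, hcom, inv_mul_cancel_left]
      rw [h1, h2, hs, hy]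
      have h3 : a * (x * t) * a⁻¹ = a * x * a⁻¹ * (a * t * a⁻¹) := by group
      rw [h3, hta]
    have hty : t * y * t = y⁻¹ := by
      rw [hy]
      have h1 : t * (a * x * a⁻¹) * t = a * (t * x * t) * a⁻¹ := by
        have h2 : t * a = a * t := hcom
        have h3 : a⁻¹ * t = t * a⁻¹ := by
          rw [inv_mul_eq_iff_eq_mul, ← mul_assoc, ← hcom, mul_inv_cancel_right]
        calc t * (a * x * a⁻¹) * t = (t * a) * x * (a⁻¹ * t) := by simp only [mul_assoc]
          _ = a * t * x * (t * a⁻¹) := by rw [h2, h3]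
          _ = _ := by simp only [mul_assoc]
      rw [h1, htx]
      group
    have hy1 : y ≠ 1 := by
      intro h
      apply hx1
      rw [hy] at h
      have : x = a⁻¹ * (a * x * a⁻¹) * a := by group
      rw [this, h]
      group
    -- the three relations for `S d'`
    have r3 : ((a * d * a⁻¹) * t * (a * d * a⁻¹)⁻¹) w = w * (a * d * a⁻¹) w := by
      have := hpair 1 D.one_mem _ hd'D (by
        intro h
        apply hy1
        rw [one_mul, inv_one, mul_one, hs'] at h
        have h2 : t * y * t = 1 := by rw [mul_assoc]; exact h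
        rw [hty] at h2
        exact inv_eq_one.1 h2)
      simpa using this
    have hcase : y = x ∨ y = x * x := by
      by_contra hcon
      push Not at hcon
      have r4 := hpair d hd _ hd'D (by
        intro h
        apply hcon.1
        rw [hs, hs'] at h
        have h2 : x * t * (y * t) = x * (t * y * t) := by simp only [mul_assoc]
        rw [h2, hty] at h
        exact (mul_inv_eq_one.1 h).symm)
      have r5 := hpair x hxD _ hd'D (by
        intro h
        apply hcon.2
        rw [hs'] at h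
        have h2 : x * t * x⁻¹ * (y * t) = x * (t * x⁻¹ * t) * (t * y * t) := by
          have : x * (t * x⁻¹ * t) * (t * y * t) = x * t * x⁻¹ * (t * t) * y * t := by simp only [mul_assoc]
          rw [this, ht2]
          simp only [mul_assoc, one_mul]
        rw [h2, htx' x htx, hty] at h
        exact (mul_inv_eq_one.1 h).symm)
      rw [hxw, map_mul, r3, r4] at r5
      apply hcw (a * d * a⁻¹)
      have h6 : w * (a * d * a⁻¹) w * (d w * (a * d * a⁻¹) w) =
          w * d w * ((a * d * a⁻¹) w * (a * d * a⁻¹) w) := by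
        rw [mul_mul_mul_comm]
      rw [h6, hW, mul_one] at r5
      exact (mul_eq_left.1 r5.symm)
    have hax : a * (a * x * a⁻¹) * a⁻¹ = x := by
      rcases hcase with h | h
      · rw [← hy, h, ← hy, h]
      · rw [hx3] at h
        rw [← hy, h]
        have : a * x⁻¹ * a⁻¹ = (a * x * a⁻¹)⁻¹ := by group
        rw [this, ← hy, h, inv_inv]
    have htx2 : t * x * t = x := by
      have h1 : t * x * t = a * (a * x * a⁻¹) * a⁻¹ := by
        nth_rw 2 [← htinv]
        rw [ht]
        group
      rw [h1, hax]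
    apply hx1
    apply hinv2 x hxD
    rw [← htx]
    exact htx2.symm

end main

end Cfsg.Agent.Lib.S3FacCyc
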