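import Mathlib
import Cfsg.Agent.Lib.S3FacCyc
import Cfsg.Agent.Lib.AbGen
import Cfsg.Agent.Lib.CoprimeAction2
import Cfsg.Agent.Lib.KS9Off

/-!
# Abelian offenders in a group with self-centralising subgroup of odd order are elementary abelian (helper11)
-/

set_option autoImplicit false
set_option linter.unusedSectionVars false

namespace Cfsg.Agent.Lib.S3FacElem

open Subgroup Cfsg.Agent.Lib.KS9 Cfsg.Agent.Lib.S3FacCyc
open scoped commutatorElement

universe u

variable {G : Type u} [Group G] [Finite G]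

/-- the one-step version: `A = B⟨a₀⟩` acts on `U = C_V(B)` with `a² = 1` for all `a ∈ A`, as soon as `D`, of odd order, acts
faithfully on `U` and is not centralised by `A`. -/
theorem step {V A B D : Subgroup G} (hV : ∀ v ∈ V, v * v = 1) (hVc : ∀ v ∈ V, ∀ w ∈ V, v * w = w * v)
    (hAV : A ≤ normalizer (V : Set G)) (hA2 : IsPGroup 2 A) (hAc : ∀ x ∈ A, ∀ y ∈ A, x * y = y * x)
    (hoff : ∀ B : Subgroup G, B ≤ A → Nat.card B * Nat.card ↥(V ⊓ centralizer (B : Set G)) ≤
      Nat.card A * Nat.card ↥(V ⊓ centralizer (A : Set G)))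
    (hBA : B ≤ A) {a₀ : G} (ha₀ : a₀ ∈ A) (hgen : B ⊔ zpowers a₀ = A)
    (hDV : D ≤ normalizer (V : Set G)) (hDB : D ≤ centralizer (B : Set G)) (hD : Odd (Nat.card D))
    (hAD : ∀ a ∈ A, ∀ d ∈ D, a * d * a⁻¹ ∈ D)
    (hf : ∀ d ∈ D, d ∈ centralizer ((V ⊓ centralizer (B : Set G) : Subgroup G) : Set G) → d = 1) :
    ∀ a ∈ A, ∀ d ∈ D, a ^ 2 * d * (a ^ 2)⁻¹ = d := by
  classical
  by_cases hcen : ∀ d ∈ D, a₀ * d * a₀⁻¹ = d
  · -- `A` centralises `D`
    have h1 : A ≤ centralizer (D : Set G) := by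
      rw [← hgen]
      apply sup_le
      · rw [le_centralizer_iff]; exact hDB
      · rw [zpowers_le, mem_centralizer_iff]
        intro d hd
        have := hcen d hd
        rw [mul_inv_eq_iff_eq_mul] at this
        exact this.symm
    intro a ha d hd
    have h2 := mem_centralizer_iff.1 (h1 (A.pow_mem ha 2)) d hd
    rw [← h2, mul_inv_cancel_right]
  push Not at hcen
  obtain ⟨d₀, hd₀, hd₀ne⟩ := hcen
  set U := V ⊓ centralizer (B : Set G) with hU
  have hAB : A ≤ centralizer (B : Set G) := by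
    intro a ha
    rw [mem_centralizer_iff]
    intro b hb
    exact hAc b (hBA hb) a ha
  have hnorm : ∀ g : G, g ∈ normalizer (V : Set G) → g ∈ centralizer (B : Set G) → g ∈ normalizer (U : Set G) := by
    intro g hg hgB
    have key : ∀ g ∈ normalizer (V : Set G), g ∈ centralizer (B : Set G) → ∀ u ∈ U, g * u * g⁻¹ ∈ U := by
      intro g hg hgB u hu
      refine mem_inf.2 ⟨(mem_normalizer_iff.1 hg u).1 hu.1, ?_⟩
      exact mul_mem (mul_mem hgB hu.2) (inv_mem hgB)
    rw [mem_normalizer_iff]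
    intro u
    refine ⟨key g hg hgB u, fun h => ?_⟩
    have := key g⁻¹ (inv_mem hg) (inv_mem hgB) _ h
    have h2 : g⁻¹ * (g * u * g⁻¹) * g⁻¹⁻¹ = u := by group
    rwa [h2] at this
  have hAU : A ≤ normalizer (U : Set G) := fun a ha => hnorm a (hAV ha) (hAB ha)
  have hDU : D ≤ normalizer (U : Set G) := fun d hd => hnorm d (hDV hd) (hDB hd)
  let _ : CommGroup U := { (inferInstance : Group U) with
    mul_comm := fun a b => Subtype.ext (hVc a a.2.1 b b.2.1) }
  have hW : ∀ w : U, w * w = 1 := fun w => Subtype.ext (hV w w.2.1)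
  let ρ : ↥(normalizer (U : Set G)) →* MulAut U := U.normalizerMonoidHom
  have hρ : ∀ (g : ↥(normalizer (U : Set G))) (u : U), ((ρ g u : U) : G) = g * u * (g : G)⁻¹ := fun g u => rfl
  have hρ1 : ∀ g : ↥(normalizer (U : Set G)), ρ g = 1 ↔ (g : G) ∈ centralizer (U : Set G) := by
    intro g
    rw [mem_centralizer_iff]
    constructor
    · intro h u hu
      have h1 := hρ g ⟨u, hu⟩
      rw [h, MulAut.one_apply] at h1
      change u = g * u * (g : G)⁻¹ at h1
      nth_rw 1 [h1]; group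
    · intro h
      apply MulEquiv.ext
      intro u
      apply Subtype.ext
      rw [hρ, ← h u u.2, MulAut.one_apply]
      group
  let D' : Subgroup (MulAut U) := (D.subgroupOf (normalizer (U : Set G))).map ρ
  let a' : MulAut U := ρ ⟨a₀, hAU ha₀⟩
  have hD' : Odd (Nat.card D') := by
    have h1 : Nat.card D' ∣ Nat.card (D.subgroupOf (normalizer (U : Set G))) := card_map_dvd _ _
    have h2 : Nat.card (D.subgroupOf (normalizer (U : Set G))) = Nat.card D :=
      Nat.card_congr (subgroupOfEquivOfLe hDU).toEquiv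
    rw [h2] at h1
    exact hD.of_dvd_nat h1
  have ha' : ∀ d ∈ D', a' * d * a'⁻¹ ∈ D' := by
    rintro _ ⟨d, hd, rfl⟩
    refine ⟨⟨a₀, hAU ha₀⟩ * d * ⟨a₀, hAU ha₀⟩⁻¹, ?_, ?_⟩
    · exact hAD a₀ ha₀ d hd
    · simp only [map_mul, map_inv]
      rfl
  have hne' : ∃ d ∈ D', a' * d * a'⁻¹ ≠ d := by
    refine ⟨ρ ⟨d₀, hDU hd₀⟩, ⟨⟨d₀, hDU hd₀⟩, hd₀, rfl⟩, ?_⟩
    intro h
    apply hd₀ne
    have h1 : ρ (⟨a₀, hAU ha₀⟩ * ⟨d₀, hDU hd₀⟩ * ⟨a₀, hAU ha₀⟩⁻¹ * ⟨d₀, hDU hd₀⟩⁻¹) = 1 := by
      rw [map_mul, map_mul, map_mul, map_inv, map_inv]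
      change a' * ρ ⟨d₀, hDU hd₀⟩ * a'⁻¹ * _ = 1
      rw [h, mul_inv_cancel]
    rw [hρ1] at h1
    have h2 := hf _ (D.mul_mem (hAD a₀ ha₀ d₀ hd₀) (D.inv_mem hd₀)) h1
    exact mul_inv_eq_one.1 h2
  -- the order of `a'`
  obtain ⟨e, he⟩ : ∃ e, orderOf a' = 2 ^ e := by
    obtain ⟨k, hk⟩ := hA2 ⟨a₀, ha₀⟩
    have h1 : a' ^ 2 ^ k = 1 := by
      change (ρ ⟨a₀, hAU ha₀⟩) ^ 2 ^ k = 1
      rw [← map_pow]
      have : (⟨a₀, hAU ha₀⟩ : ↥(normalizer (U : Set G))) ^ 2 ^ k = 1 := by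
        apply Subtype.ext
        have := congrArg (fun z : A => (z : G)) hk
        exact this
      rw [this, map_one]
    obtain ⟨e, -, he⟩ := (Nat.dvd_prime_pow Nat.prime_two).1 (orderOf_dvd_of_pow_eq_one h1)
    exact ⟨e, he⟩
  -- the image of `A`
  have hBU : ∀ b ∈ B, b ∈ centralizer (U : Set G) := by
    intro b hb
    rw [mem_centralizer_iff]
    intro u hu
    exact (mem_centralizer_iff.1 hu.2 b hb).symm
  have himg : ∀ a (ha : a ∈ A), ρ ⟨a, hAU ha⟩ ∈ zpowers a' := by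
    intro a ha
    have h1 : A ≤ ((zpowers a').comap ρ).map (normalizer (U : Set G)).subtype := by
      rw [← hgen]
      apply sup_le
      · intro b hb
        refine ⟨⟨b, hAU (hBA hb)⟩, ?_, rfl⟩
        rw [SetLike.mem_coe, mem_comap, (hρ1 _).2 (hBU b hb)]
        exact one_mem _
      · rw [zpowers_le]
        exact ⟨⟨a₀, hAU ha₀⟩, mem_zpowers a', rfl⟩
    obtain ⟨x, hx, hxa⟩ := h1 ha
    have : x = ⟨a, hAU ha⟩ := Subtype.ext hxa
    rw [← this]
    exact hx
  have hr : Nat.card (im (dsp a') 1) ≤ 2 ^ e := by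
    set B₁ := A ⊓ centralizer (U : Set G) with hB₁
    have hBB₁ : B ≤ B₁ := le_inf hBA hBU
    have h1 : V ⊓ centralizer (B₁ : Set G) = U := by
      apply le_antisymm
      · exact inf_le_inf_left _ (centralizer_le (SetLike.coe_subset_coe.2 hBB₁))
      · refine le_inf inf_le_left ?_
        rw [le_centralizer_iff]
        exact inf_le_right
    have h2 := hoff B₁ inf_le_left
    rw [h1] at h2
    -- `|A| = |B₁| 2^e`
    let f : A →* MulAut U := ρ.comp (inclusion hAU)
    have h3 : f.range ≤ zpowers a' := by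
      rintro _ ⟨a, rfl⟩
      exact himg a a.2
    have h4 : Nat.card f.range ≤ 2 ^ e := by
      rw [← he, ← Nat.card_zpowers]
      exact Nat.card_le_card_of_injective _ (inclusion_injective h3)
    have h5 : f.ker = B₁.subgroupOf A := by
      ext a
      rw [MonoidHom.mem_ker, mem_subgroupOf]
      change ρ ⟨a, hAU a.2⟩ = 1 ↔ _
      rw [hρ1]
      exact ⟨fun h => ⟨a.2, h⟩, fun h => h.2⟩
    have h6 : Nat.card f.ker * Nat.card f.range = Nat.card A := by
      rw [← Subgroup.index_ker f]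
      exact Subgroup.card_mul_index f.ker
    have h7 : Nat.card f.ker = Nat.card B₁ := by
      rw [h5]
      exact Nat.card_congr (subgroupOfEquivOfLe inf_le_left).toEquiv
    rw [h7] at h6
    have h8 : Nat.card U ≤ 2 ^ e * Nat.card ↥(V ⊓ centralizer (A : Set G)) := by
      have hpos : 0 < Nat.card B₁ := Nat.card_pos
      apply Nat.le_of_mul_le_mul_left _ hpos
      calc Nat.card B₁ * Nat.card U ≤ Nat.card A * Nat.card ↥(V ⊓ centralizer (A : Set G)) := h2
        _ = Nat.card B₁ * Nat.card f.range * Nat.card ↥(V ⊓ centralizer (A : Set G)) := by rw [h6]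
        _ ≤ Nat.card B₁ * 2 ^ e * Nat.card ↥(V ⊓ centralizer (A : Set G)) :=
          Nat.mul_le_mul_right _ (Nat.mul_le_mul_left _ h4)
        _ = _ := by ring
    have h9 : Nat.card (dsp a').ker * Nat.card (dsp a').range = Nat.card U := by
      rw [← Subgroup.index_ker (dsp a')]
      exact Subgroup.card_mul_index _
    have h10 : (dsp a').range = im (dsp a') 1 := by
      ext z
      rw [mem_im]
      rfl
    have h11 : Nat.card (dsp a').ker = Nat.card ↥(V ⊓ centralizer (A : Set G)) := by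
      have h12 : V ⊓ centralizer (A : Set G) ≤ U := by
        apply le_inf inf_le_left
        exact inf_le_right.trans (centralizer_le (SetLike.coe_subset_coe.2 hBA))
      rw [← Nat.card_congr (subgroupOfEquivOfLe h12).toEquiv]
      congr 1
      have : (dsp a').ker = (V ⊓ centralizer (A : Set G)).subgroupOf U := by
        ext u
        rw [MonoidHom.mem_ker, mem_subgroupOf, dsp_apply, div_eq_one]
        constructor
        · intro h
          have h13 : a₀ * u * a₀⁻¹ = u := by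
            have := hρ ⟨a₀, hAU ha₀⟩ u
            change ((a' u : U) : G) = a₀ * u * a₀⁻¹ at this
            rw [← this, h]
          refine mem_inf.2 ⟨u.2.1, ?_⟩
          rw [← hgen]
          have h14 : B ⊔ zpowers a₀ ≤ centralizer ({(u : G)} : Set G) := by
            apply sup_le
            · intro b hb
              rw [mem_centralizer_singleton_iff]
              exact mem_centralizer_iff.1 u.2.2 b hb
            · rw [zpowers_le, mem_centralizer_singleton_iff]
              rw [mul_inv_eq_iff_eq_mul] at h13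
              exact h13
          rw [mem_centralizer_iff]
          intro y hy
          exact mem_centralizer_singleton_iff.1 (h14 hy)
        · intro h
          apply Subtype.ext
          have := hρ ⟨a₀, hAU ha₀⟩ u
          change ((a' u : U) : G) = a₀ * u * a₀⁻¹ at this
          rw [this, mem_centralizer_iff.1 h.2 a₀ ha₀, mul_inv_cancel_right]
      rw [this]
    rw [h10, h11] at h9
    have hpos : 0 < Nat.card ↥(V ⊓ centralizer (A : Set G)) := Nat.card_pos
    apply Nat.le_of_mul_le_mul_left _ hpos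
    rw [h9, mul_comm]
    exact h8
  have hfin := cyclic_offender hW D' hD' a' ha' hne' e he hr
  intro a ha d hd
  -- `a²` centralises `U`
  have h1 : (a ^ 2 : G) ∈ centralizer (U : Set G) := by
    have h2 := (hρ1 (⟨a, hAU ha⟩ ^ 2)).1 (by
      rw [map_pow]
      obtain ⟨k, hk⟩ := himg a ha
      change a' ^ k = _ at hk
      rw [← hk, ← zpow_natCast, ← zpow_mul, mul_comm, zpow_mul, zpow_natCast, hfin, one_zpow])
    exact h2
  have h3 : a ^ 2 * d * (a ^ 2)⁻¹ * d⁻¹ ∈ D := D.mul_mem (hAD _ (A.pow_mem ha 2) d hd) (D.inv_mem hd)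
  have h4 : a ^ 2 * d * (a ^ 2)⁻¹ * d⁻¹ ∈ centralizer (U : Set G) := by
    have h5 : a ^ 2 * d * (a ^ 2)⁻¹ * d⁻¹ = a ^ 2 * (d * (a ^ 2)⁻¹ * d⁻¹) := by group
    rw [h5]
    refine mul_mem h1 ?_
    rw [mem_centralizer_iff]
    intro u hu
    have hdu : d⁻¹ * u * d ∈ U := by
      have := (mem_normalizer_iff.1 (inv_mem (hDU hd)) u).1 hu
      rwa [inv_inv] at this
    have h6 := mem_centralizer_iff.1 (inv_mem h1) _ hdu
    calc u * (d * (a ^ 2)⁻¹ * d⁻¹) = d * ((d⁻¹ * u * d) * (a ^ 2)⁻¹) * d⁻¹ := by group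
      _ = d * ((a ^ 2)⁻¹ * (d⁻¹ * u * d)) * d⁻¹ := by rw [h6]
      _ = d * (a ^ 2)⁻¹ * d⁻¹ * u := by group
  exact mul_inv_eq_one.1 (hf _ h3 h4)

/-- an abelian best offender is elementary abelian -/
theorem sq_eq_one {V H Q A : Subgroup G} (S : Setting 2 V H Q) (hAH : A ≤ H) (hA2 : IsPGroup 2 A)
    (hAc : ∀ x ∈ A, ∀ y ∈ A, x * y = y * x)
    (hoff : ∀ B : Subgroup G, B ≤ A → Nat.card B * Nat.card ↥(V ⊓ centralizer (B : Set G)) ≤
      Nat.card A * Nat.card ↥(V ⊓ centralizer (A : Set G))) : ∀ a ∈ A, a ^ 2 = 1 := by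
  have hVc : ∀ v ∈ V, ∀ w ∈ V, v * w = w * v := by
    intro v hv w hw
    exact (isMulCommutative_iff_of_setLike.mp S.hV.1) v hv w hw
  have hV2 : ∀ v ∈ V, v * v = 1 := by
    intro v hv
    rw [← pow_two]
    exact S.hV.2 v hv
  have hAV : A ≤ normalizer (V : Set G) := hAH.trans S.hHV
  have hAQ : A ≤ normalizer (Q : Set G) := hAH.trans S.hHQ
  have hQodd : Odd (Nat.card Q) := by
    rw [← Nat.not_even_iff_odd, even_iff_two_dvd]
    exact S.hQp
  have hVp : IsPGroup 2 V := by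
    intro v
    exact ⟨1, Subtype.ext (by simpa using S.hV.2 v v.2)⟩
  have hcop : (Nat.card A).Coprime (Nat.card Q) := by
    obtain ⟨k, hk⟩ := IsPGroup.iff_card.1 hA2
    rw [hk]
    exact Nat.Coprime.pow_left k (Nat.coprime_two_left.2 hQodd)
  have hAcm : IsMulCommutative A := ⟨⟨fun a b => Subtype.ext (hAc a a.2 b b.2)⟩⟩
  have hgen := AbGen.iSup_commutator_eq hAcm hAQ hcop
  -- squares centralise `[Q, A]`
  have key : ∀ a ∈ A, ⁅Q, A⁆ ≤ centralizer ({a ^ 2} : Set G) := by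
    intro a ha
    rw [← hgen]
    refine iSup₂_le ?_
    rintro B ⟨hBA, a₀, ha₀, hgB⟩
    have hAB : A ≤ centralizer (B : Set G) := by
      intro a ha
      rw [mem_centralizer_iff]
      intro b hb
      exact hAc b (hBA hb) a ha
    -- `D = [C_Q(B), A]`
    have hAQB : A ≤ normalizer ((Q ⊓ centralizer (B : Set G) : Subgroup G) : Set G) := by
      have k1 : ∀ a ∈ A, ∀ x ∈ Q ⊓ centralizer (B : Set G), a * x * a⁻¹ ∈ Q ⊓ centralizer (B : Set G) := by
        intro a ha x hx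
        refine mem_inf.2 ⟨(mem_normalizer_iff.1 (hAQ ha) x).1 hx.1, ?_⟩
        exact mul_mem (mul_mem (hAB ha) hx.2) (inv_mem (hAB ha))
      intro a ha
      rw [mem_normalizer_iff]
      intro x
      refine ⟨k1 a ha x, fun h => ?_⟩
      have := k1 a⁻¹ (inv_mem ha) _ h
      have h2 : a⁻¹ * (a * x * a⁻¹) * a⁻¹⁻¹ = x := by group
      rwa [h2] at this
    have hDle : ⁅Q ⊓ centralizer (B : Set G), A⁆ ≤ Q ⊓ centralizer (B : Set G) :=
      le_normalizer_iff_commutator_le_left.mp hAQB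
    have hD : Odd (Nat.card ↥⁅Q ⊓ centralizer (B : Set G), A⁆) :=
      hQodd.of_dvd_nat (card_dvd_of_le (hDle.trans inf_le_left))
    have hDH : ⁅Q ⊓ centralizer (B : Set G), A⁆ ≤ H := (hDle.trans inf_le_left).trans S.hQH
    have hADn : A ≤ normalizer ((⁅Q ⊓ centralizer (B : Set G), A⁆ : Subgroup G) : Set G) :=
      OffenderBasic.le_normalizer_comm A _
    have hst := step (V := V) (A := A) (B := B) (D := ⁅Q ⊓ centralizer (B : Set G), A⁆) hV2 hVc hAV hA2 hAc hoff hBA
      ha₀ hgB (hDH.trans S.hHV) (hDle.trans inf_le_right) hD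
      (fun a ha d hd => (mem_normalizer_iff.1 (hADn ha) d).1 hd) (by
        intro d hd hdU
        -- Thompson's `P × Q` lemma
        have h1 : zpowers d ≤ ⁅Q ⊓ centralizer (B : Set G), A⁆ := by rw [zpowers_le]; exact hd
        have h2 : (Nat.card (zpowers d)).Coprime 2 := by
          rw [Nat.coprime_two_right]
          exact hD.of_dvd_nat (card_dvd_of_le h1)
        have h3 := CoprimeAction2.thompson_PxQ (p := 2) (P := B) (Q := zpowers d) (hA2.to_le hBA) h2 (by
            rw [le_centralizer_iff]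
            exact h1.trans (hDle.trans inf_le_right)) _ V rfl hVp (hBA.trans hAV)
          (h1.trans (hDH.trans S.hHV)) (by
            rw [le_centralizer_iff, zpowers_le]
            exact hdU)
        rw [zpowers_le] at h3
        have h4 : d ∈ H ⊓ centralizer (V : Set G) := mem_inf.2 ⟨hDH hd, h3⟩
        rwa [S.hf, mem_bot] at h4)
    intro d hd
    rw [mem_centralizer_singleton_iff]
    have := hst a ha d hd
    rw [mul_inv_eq_iff_eq_mul] at this
    exact this.symm
  intro a ha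
  -- `a²` centralises `Q`
  have h1 : a ^ 2 ∈ centralizer (Q : Set G) := by
    rw [mem_centralizer_iff]
    intro q hq
    obtain ⟨c, hc⟩ : ∃ c, c = q * a ^ 2 * q⁻¹ * (a ^ 2)⁻¹ := ⟨_, rfl⟩
    have hcQA : c ∈ ⁅Q, A⁆ := by
      rw [hc]
      have : q * a ^ 2 * q⁻¹ * (a ^ 2)⁻¹ = ⁅q, a ^ 2⁆ := by rw [commutatorElement_def]
      rw [this]
      exact commutator_mem_commutator hq (A.pow_mem ha 2)
    have hcQ : c ∈ Q := le_normalizer_iff_commutator_le_left.mp hAQ hcQA
    have hcomm : Commute c (a ^ 2) := mem_centralizer_singleton_iff.1 (key a ha hcQA)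
    have h2 : q * a ^ 2 * q⁻¹ = c * a ^ 2 := by rw [hc]; group
    obtain ⟨k, hk⟩ := hA2 ⟨a ^ 2, A.pow_mem ha 2⟩
    have hk' : (a ^ 2) ^ 2 ^ k = 1 := congrArg (fun z : A => (z : G)) hk
    have h3 : (q * a ^ 2 * q⁻¹) ^ 2 ^ k = 1 := by
      have : (q * a ^ 2 * q⁻¹) ^ 2 ^ k = q * (a ^ 2) ^ 2 ^ k * q⁻¹ := conj_pow
      rw [this, hk', mul_one, mul_inv_cancel]
    rw [h2, hcomm.mul_pow, hk', mul_one] at h3
    have h4 : orderOf c ∣ 2 ^ k := orderOf_dvd_of_pow_eq_one h3
    have h5 : Odd (orderOf c) := by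
      have h6 : orderOf c ∣ Nat.card Q := by
        have := orderOf_dvd_natCard (⟨c, hcQ⟩ : Q)
        rwa [Subgroup.orderOf_mk] at this
      exact hQodd.of_dvd_nat h6
    have h6 : orderOf c = 1 := Nat.eq_one_of_dvd_coprimes (Nat.Coprime.pow_right k (Nat.coprime_two_right.2 h5)) dvd_rfl h4
    rw [orderOf_eq_one_iff.1 h6, one_mul] at h2
    exact mul_inv_eq_iff_eq_mul.1 h2
  have h2 : a ^ 2 ∈ Q := S.hCQ (mem_inf.2 ⟨H.pow_mem (hAH ha) 2, h1⟩)
  obtain ⟨k, hk⟩ := hA2 ⟨a ^ 2, A.pow_mem ha 2⟩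
  have hk' : (a ^ 2) ^ 2 ^ k = 1 := congrArg (fun z : A => (z : G)) hk
  have h4 : orderOf (a ^ 2) ∣ 2 ^ k := orderOf_dvd_of_pow_eq_one hk'
  have h5 : Odd (orderOf (a ^ 2)) := by
    have h6 : orderOf (a ^ 2) ∣ Nat.card Q := by
      have := orderOf_dvd_natCard (⟨a ^ 2, h2⟩ : Q)
      rwa [Subgroup.orderOf_mk] at this
    exact hQodd.of_dvd_nat h6
  exact orderOf_eq_one_iff.1 (Nat.eq_one_of_dvd_coprimes (Nat.Coprime.pow_right k (Nat.coprime_two_right.2 h5)) dvd_rfl h4)

end Cfsg.Agent.Lib.S3FacElem
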