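import Mathlib
import Cfsg.Prelude.Def_CaseTheorems
import Cfsg.Agent.Lib.FratConstr

set_option autoImplicit false

/-!
# Sections of rank at least five (S3104; helper61)
-/

namespace Cfsg.Agent.Lib.S4R6

open Module Cfsg Cfsg.Agent.Lib.FratRep

universe u

variable {X : Type u} [Group X] [Finite X] {V : Type u} [AddCommGroup V] [Module (ZMod 2) V]

theorem pi_one (D : Data 2 (pCore 2 X) V) : D.π 1 = 0 := by
  have h := D.map_mul 1 1
  rw [one_mul] at h
  exact left_eq_add.1 h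

/-- Data on a subgroup between `O₂(X)` and `X`. -/
theorem rank_lemma (D : Data 2 (pCore 2 X) V) (h4 : SectionalPRankLE 2 4 X) (E : Subgroup X) (hQE : pCore 2 X ≤ E)
    (U : AddSubgroup V) (hinv : ∀ x ∈ E, ∀ u ∈ U, D.ρ x u ∈ U)
    (hsq : ∀ x ∈ E, ∃ h : x * x ∈ pCore 2 X, D.π ⟨x * x, h⟩ ∈ U) :
    (pCore 2 X).relIndex E * U.index ≤ 2 ^ 4 := by
  classical
  -- the subgroup `N`
  let f : (pCore 2 X) →* Multiplicative V :=
    { toFun := fun a => Multiplicative.ofAdd (D.π a)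
      map_one' := by rw [pi_one D]; rfl
      map_mul' := fun a b => by rw [D.map_mul]; rfl }
  have hf : Function.Surjective f := fun v => by
    obtain ⟨a, ha⟩ := D.surj v.toAdd
    exact ⟨a, congrArg Multiplicative.ofAdd ha⟩
  let U' : Subgroup (Multiplicative V) := AddSubgroup.toSubgroup U
  have hU' : ∀ v : V, Multiplicative.ofAdd v ∈ U' ↔ v ∈ U := fun v => Iff.rfl
  let N : Subgroup X := (U'.comap f).map (pCore 2 X).subtype
  have hN : ∀ x : X, x ∈ N ↔ ∃ h : x ∈ pCore 2 X, D.π ⟨x, h⟩ ∈ U := by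
    intro x
    constructor
    · rintro ⟨a, ha, rfl⟩
      exact ⟨a.2, ha⟩
    · rintro ⟨h, hx⟩
      exact ⟨⟨x, h⟩, hx, rfl⟩
  have hNQ : N ≤ pCore 2 X := by
    intro x hx
    exact ((hN x).1 hx).1
  have hNE : N ≤ E := hNQ.trans hQE
  have hnorm : (N.subgroupOf E).Normal := by
    constructor
    rintro ⟨n, hnE⟩ hn ⟨x, hx⟩
    rw [Subgroup.mem_subgroupOf] at hn ⊢
    obtain ⟨hnQ, hnU⟩ := (hN n).1 hn
    refine (hN _).2 ⟨D.conj_mem x ⟨n, hnQ⟩, ?_⟩
    have h1 := D.apply x ⟨n, hnQ⟩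
    have h2 := hinv x hx _ hnU
    rw [h1] at h2
    exact h2
  have hsq' : ∀ a : (E ⧸ N.subgroupOf E), a ^ 2 = 1 := by
    intro a
    obtain ⟨⟨x, hx⟩, rfl⟩ := QuotientGroup.mk_surjective a
    rw [← QuotientGroup.mk_pow, QuotientGroup.eq_one_iff, Subgroup.mem_subgroupOf]
    obtain ⟨h1, h2⟩ := hsq x hx
    have h3 : ((⟨x, hx⟩ ^ 2 : E) : X) = x * x := by rw [sq]; rfl
    rw [h3]
    exact (hN _).2 ⟨h1, h2⟩
  have hcard := h4 E (N.subgroupOf E) ⊤ ⟨⟨fun a b => by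
    apply Subtype.ext
    show (a : E ⧸ N.subgroupOf E) * b = b * a
    have h1 := hsq' ((a : E ⧸ N.subgroupOf E) * b)
    have h2 := hsq' (a : E ⧸ N.subgroupOf E)
    have h3 := hsq' (b : E ⧸ N.subgroupOf E)
    rw [sq] at h1 h2 h3
    calc (a : E ⧸ N.subgroupOf E) * b = ((a : E ⧸ N.subgroupOf E) * b)⁻¹ := (inv_eq_of_mul_eq_one_left h1).symm
      _ = (b : E ⧸ N.subgroupOf E)⁻¹ * (a : E ⧸ N.subgroupOf E)⁻¹ := mul_inv_rev _ _
      _ = b * a := by rw [inv_eq_of_mul_eq_one_left h2, inv_eq_of_mul_eq_one_left h3]⟩⟩ (fun a _ => hsq' a)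
  rw [Subgroup.card_top] at hcard
  have h5 : Nat.card (E ⧸ N.subgroupOf E) = N.relIndex E := rfl
  rw [h5, ← Subgroup.relIndex_mul_relIndex N (pCore 2 X) E hNQ hQE] at hcard
  have h6 : N.relIndex (pCore 2 X) = U.index := by
    have h7 : N.subgroupOf (pCore 2 X) = U'.comap f :=
      Subgroup.comap_map_eq_self_of_injective (Subgroup.subtype_injective _) _
    rw [Subgroup.relIndex, h7, Subgroup.index_comap_of_surjective _ hf]
    rfl
  rw [h6, mul_comm] at hcard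
  exact hcard

set_option synthInstance.maxHeartbeats 200000 in
set_option synthInstance.maxSize 1000 in
set_option maxRecDepth 100000 in
/-- the finite check behind the squares -/
theorem fin_check : ∀ α β γ l m s t s' t' : ZMod 2, α * l + β * m = 0 → β * l + γ * m = 0 →
    l = α * s + β * t → 0 = β * s + γ * t → 0 = α * s' + β * t' → m = β * s' + γ * t' → l = 0 ∧ m = 0 := by
  decide

theorem z2_add (a b : ZMod 2) : a + b + b = a := by
  rw [add_assoc, CharTwo.add_self_eq_zero, add_zero]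

omit [Finite X] in
theorem vadd_self (v : V) : v + v = 0 := by
  have h : (2 : ZMod 2) • v = 0 := by
    rw [show (2 : ZMod 2) = 0 from rfl, zero_smul]
  rwa [two_smul] at h

section par

variable (D : Data 2 (pCore 2 X) V) (l m : V →ₗ[ZMod 2] ZMod 2) (v w : V)

/-- the element acts with the given symmetric parameters -/
def Par (x : X) (α β γ : ZMod 2) : Prop :=
  ∀ y, D.ρ x y = y + (α * l y + β * m y) • v + (β * l y + γ * m y) • w

variable {D l m v w}
variable (hlv : l v = 0) (hlw : l w = 0) (hmv : m v = 0) (hmw : m w = 0)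

include hlv hlw hmv hmw

theorem Par.mul {x x' : X} {α β γ α' β' γ' : ZMod 2} (h : Par D l m v w x α β γ) (h' : Par D l m v w x' α' β' γ') :
    Par D l m v w (x * x') (α + α') (β + β') (γ + γ') := by
  intro y
  rw [map_mul, Module.End.mul_apply, h', h]
  simp only [map_add, map_smul, hlv, hlw, hmv, hmw, smul_eq_mul, mul_zero, add_zero]
  module

omit hlv hlw hmv hmw in
theorem Par.one : Par D l m v w 1 0 0 0 := by
  intro y
  rw [map_one]
  simp

theorem Par.sq {x : X} {α β γ : ZMod 2} (h : Par D l m v w x α β γ) : D.ρ (x * x) = 1 := by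
  ext y
  rw [h.mul hlv hlw hmv hmw h]
  simp [CharTwo.add_self_eq_zero]

theorem Par.inv {x : X} {α β γ : ZMod 2} (h : Par D l m v w x α β γ) : Par D l m v w x⁻¹ α β γ := by
  intro y
  rw [← h y]
  have h1 : D.ρ x * D.ρ x = 1 := by rw [← map_mul]; exact h.sq hlv hlw hmv hmw
  have h2 : D.ρ x⁻¹ * D.ρ x = 1 := by rw [← map_mul, inv_mul_cancel, map_one]
  have h3 : D.ρ x⁻¹ = D.ρ x := by
    calc D.ρ x⁻¹ = D.ρ x⁻¹ * (D.ρ x * D.ρ x) := by rw [h1, mul_one]
      _ = D.ρ x := by rw [← mul_assoc, h2, one_mul]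
  rw [h3]

theorem Par.comm {x x' : X} {α β γ α' β' γ' : ZMod 2} (h : Par D l m v w x α β γ) (h' : Par D l m v w x' α' β' γ') :
    D.ρ x * D.ρ x' = D.ρ x' * D.ρ x := by
  rw [← map_mul, ← map_mul]
  ext y
  rw [h.mul hlv hlw hmv hmw h', h'.mul hlv hlw hmv hmw h, add_comm α, add_comm β, add_comm γ]

/-- the square of `x` modulo the commutator space -/
theorem sq_rel (hk : ∀ g, D.ρ g = 1 ↔ g ∈ pCore 2 X) {x g : X} {α β γ : ZMod 2} (h : Par D l m v w x α β γ)
    (hg : D.ρ g * D.ρ x = D.ρ x * D.ρ g) (hx : x * x ∈ pCore 2 X) : ∃ s t : ZMod 2,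
    D.ρ g (D.π ⟨x * x, hx⟩) = D.π ⟨x * x, hx⟩ + (α * s + β * t) • v + (β * s + γ * t) • w := by
  have hq : x⁻¹ * g * x * g⁻¹ ∈ pCore 2 X := by
    rw [← hk, map_mul, map_mul, map_mul, mul_assoc (D.ρ x⁻¹), hg, ← mul_assoc (D.ρ x⁻¹), ← map_mul, inv_mul_cancel,
      map_one, one_mul, ← map_mul, mul_inv_cancel, map_one]
  set q : pCore 2 X := ⟨x⁻¹ * g * x * g⁻¹, hq⟩ with hqd
  have hxq : x⁻¹ * (q : X) * x⁻¹⁻¹ ∈ pCore 2 X := D.conj_mem x⁻¹ q
  have h1 : (⟨g * (x * x) * g⁻¹, D.conj_mem g ⟨x * x, hx⟩⟩ : pCore 2 X) =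
      ⟨x * x, hx⟩ * ⟨x⁻¹ * (q : X) * x⁻¹⁻¹, hxq⟩ * q := by
    apply Subtype.ext
    simp only [Subgroup.coe_mul, hqd]
    group
  have h2 := D.apply g ⟨x * x, hx⟩
  have h3 := D.apply x⁻¹ q
  rw [h2, h1, D.map_mul, D.map_mul, ← h3, h.inv hlv hlw hmv hmw]
  refine ⟨l (D.π q), m (D.π q), ?_⟩
  have h4 := vadd_self (D.π q)
  rw [show D.π ⟨x * x, hx⟩ + (D.π q + (α * l (D.π q) + β * m (D.π q)) • v + (β * l (D.π q) + γ * m (D.π q)) • w) + D.π q =
    D.π ⟨x * x, hx⟩ + (α * l (D.π q) + β * m (D.π q)) • v + (β * l (D.π q) + γ * m (D.π q)) • w + (D.π q + D.π q) by abel,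
    h4, add_zero]

end par

theorem E_contra (D : Data 2 (pCore 2 X) V) (hk : ∀ g, D.ρ g = 1 ↔ g ∈ pCore 2 X) (h4 : SectionalPRankLE 2 4 X)
    (l m : V →ₗ[ZMod 2] ZMod 2) (v w : V) (hlv : l v = 0) (hlw : l w = 0) (hmv : m v = 0) (hmw : m w = 0)
    (hind : ∀ a b : ZMod 2, a • v + b • w = 0 → a = 0 ∧ b = 0)
    (hsurj : ∀ a b : ZMod 2, ∃ x, l x = a ∧ m x = b)
    (a1 a3 a5 : X) (h1 : ∀ x, D.ρ a1 x = x + l x • v) (h3 : ∀ x, D.ρ a3 x = x + m x • w)
    (h5 : ∀ x, D.ρ a5 x = x + (l x + m x) • (v + w)) : False := by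
  classical
  have p1 : Par D l m v w a1 1 0 0 := fun y => by rw [h1]; simp
  have p3 : Par D l m v w a3 0 0 1 := fun y => by rw [h3]; simp
  have p5 : Par D l m v w a5 1 1 1 := fun y => by rw [h5]; simp only [one_mul]; module
  let E : Subgroup X :=
    { carrier := {x | ∃ α β γ : ZMod 2, Par D l m v w x α β γ}
      mul_mem' := by
        rintro x x' ⟨α, β, γ, h⟩ ⟨α', β', γ', h'⟩
        exact ⟨_, _, _, h.mul hlv hlw hmv hmw h'⟩
      one_mem' := ⟨0, 0, 0, Par.one⟩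
      inv_mem' := by
        rintro x ⟨α, β, γ, h⟩
        exact ⟨α, β, γ, h.inv hlv hlw hmv hmw⟩ }
  have hQE : pCore 2 X ≤ E := by
    intro x hx
    refine ⟨0, 0, 0, fun y => ?_⟩
    rw [(hk x).2 hx]
    simp
  let g : V →+ ZMod 2 × ZMod 2 := (l.prod m).toAddMonoidHom
  have hg : ∀ y, g y = (l y, m y) := fun y => rfl
  have hgs : Function.Surjective g := by
    rintro ⟨a, b⟩
    obtain ⟨x, hx, hx'⟩ := hsurj a b
    exact ⟨x, by rw [hg, hx, hx']⟩
  have hker : ∀ y, y ∈ g.ker ↔ l y = 0 ∧ m y = 0 := by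
    intro y
    rw [AddMonoidHom.mem_ker, hg, Prod.mk_eq_zero]
  have hidx : g.ker.index = 4 := by
    rw [AddSubgroup.index_ker, AddMonoidHom.range_eq_top.2 hgs, AddSubgroup.card_top]
    simp
  have hrank := rank_lemma D h4 E hQE g.ker (by
    rintro x ⟨α, β, γ, h⟩ u hu
    rw [hker] at hu ⊢
    rw [h u, hu.1, hu.2]
    simp [hu.1, hu.2]) (by
    rintro x ⟨α, β, γ, h⟩
    have hx : x * x ∈ pCore 2 X := (hk _).1 (h.sq hlv hlw hmv hmw)
    refine ⟨hx, ?_⟩
    rw [hker]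
    set y := D.π ⟨x * x, hx⟩ with hy
    have hfix : D.ρ x y = y := by
      rw [hy, D.apply]
      congr 1
      apply Subtype.ext
      show x * (x * x) * x⁻¹ = x * x
      group
    have e0 : (α * l y + β * m y) • v + (β * l y + γ * m y) • w = 0 := by
      rw [h y, add_assoc] at hfix
      exact left_eq_add.1 hfix.symm
    obtain ⟨e1, e2⟩ := hind _ _ e0
    obtain ⟨s, t, e3⟩ := sq_rel hlv hlw hmv hmw hk h (p1.comm hlv hlw hmv hmw h) hx
    obtain ⟨s', t', e4⟩ := sq_rel hlv hlw hmv hmw hk h (p3.comm hlv hlw hmv hmw h) hx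
    rw [← hy, h1, add_assoc] at e3
    rw [← hy, h3, add_assoc] at e4
    have e3' := add_left_cancel e3
    have e4' := add_left_cancel e4
    have e5 : (l y - (α * s + β * t)) • v + (-(β * s + γ * t)) • w = 0 := by
      rw [sub_smul, e3', neg_smul]; abel
    have e6 : (-(α * s' + β * t')) • v + (m y - (β * s' + γ * t')) • w = 0 := by
      rw [sub_smul, e4', neg_smul]; abel
    obtain ⟨e7, e8⟩ := hind _ _ e5
    obtain ⟨e9, e10⟩ := hind _ _ e6
    exact fin_check α β γ _ _ s t s' t' e1 e2 (sub_eq_zero.1 e7) (neg_eq_zero.1 e8).symm (neg_eq_zero.1 e9).symm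
      (sub_eq_zero.1 e10))
  rw [hidx] at hrank
  -- the order of `E / Q`
  let F := D.ρ.toHomUnits
  have hF : F.ker = pCore 2 X := by
    ext x
    rw [MonoidHom.mem_ker, ← hk x]
    exact ⟨fun h => congrArg Units.val h, fun h => Units.ext h⟩
  have hex : ∀ c : ZMod 2 × ZMod 2 × ZMod 2, ∃ x : X, Par D l m v w x c.1 c.2.1 c.2.2 := by
    rintro ⟨α, β, γ⟩
    have key : ∀ z : ZMod 2, z = 0 ∨ z = 1 := by decide
    obtain ⟨x, hx⟩ : ∃ x, Par D l m v w x (α + β) 0 0 := by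
      rcases key (α + β) with h | h <;> rw [h]
      · exact ⟨1, Par.one⟩
      · exact ⟨a1, p1⟩
    obtain ⟨x', hx'⟩ : ∃ x, Par D l m v w x 0 0 (γ + β) := by
      rcases key (γ + β) with h | h <;> rw [h]
      · exact ⟨1, Par.one⟩
      · exact ⟨a3, p3⟩
    obtain ⟨x'', hx''⟩ : ∃ x, Par D l m v w x β β β := by
      rcases key β with h | h <;> rw [h]
      · exact ⟨1, Par.one⟩
      · exact ⟨a5, p5⟩
    refine ⟨x * x' * x'', ?_⟩
    have h := (hx.mul hlv hlw hmv hmw hx').mul hlv hlw hmv hmw hx''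
    simp only [add_zero, zero_add, z2_add] at h
    exact h
  choose ξ hξ using hex
  let φ : ZMod 2 × ZMod 2 × ZMod 2 → E.map F := fun c => ⟨F (ξ c), Subgroup.mem_map_of_mem F ⟨_, _, _, hξ c⟩⟩
  have hφ : Function.Injective φ := by
    rintro ⟨α, β, γ⟩ ⟨α', β', γ'⟩ h
    have h6 : D.ρ (ξ (α, β, γ)) = D.ρ (ξ (α', β', γ')) := congrArg (fun z : E.map F => (z : (Module.End (ZMod 2) V)ˣ).val) h
    obtain ⟨x, hx1, hx2⟩ := hsurj 1 0
    obtain ⟨y, hy1, hy2⟩ := hsurj 0 1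
    have h7 := congrArg (fun f => f x) h6
    have h8 := congrArg (fun f => f y) h6
    simp only [hξ (α, β, γ) _, hξ (α', β', γ') _, hx1, hx2, hy1, hy2, mul_one, mul_zero, add_zero, zero_add, add_assoc] at h7 h8
    have h9 := add_left_cancel h7
    have h10 := add_left_cancel h8
    have h11 : (α - α') • v + (β - β') • w = 0 := by
      rw [sub_smul, sub_smul]
      rw [show α • v - α' • v + (β • w - β' • w) = (α • v + β • w) - (α' • v + β' • w) by abel, h9, sub_self]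
    have h12 : (β - β') • v + (γ - γ') • w = 0 := by
      rw [sub_smul, sub_smul]
      rw [show β • v - β' • v + (γ • w - γ' • w) = (β • v + γ • w) - (β' • v + γ' • w) by abel, h10, sub_self]
    obtain ⟨k1, k2⟩ := hind _ _ h11
    obtain ⟨k3, k4⟩ := hind _ _ h12
    rw [sub_eq_zero.1 k1, sub_eq_zero.1 k2, sub_eq_zero.1 k4]
  have h8 : 8 ≤ (pCore 2 X).relIndex E := by
    rw [← hF, Subgroup.relIndex_ker]
    have hfin : Finite (E.map F) := by
      have : Finite E := inferInstance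
      exact Finite.of_surjective (fun x : E => (⟨F x, Subgroup.mem_map_of_mem F x.2⟩ : E.map F)) (by
        rintro ⟨_, x, hx, rfl⟩
        exact ⟨⟨x, hx⟩, rfl⟩)
    have h9 := Nat.card_le_card_of_injective φ hφ
    have h10 : Nat.card (ZMod 2 × ZMod 2 × ZMod 2) = 8 := by
      rw [Nat.card_prod, Nat.card_prod, Nat.card_zmod]
    rwa [h10] at h9
  omega

end Cfsg.Agent.Lib.S4R6
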