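import Mathlib
import Cfsg.Agent.Lib.S4R6A

set_option autoImplicit false

/-!
# The symmetric group of degree six on a space of order sixteen (S3104; helper61)
-/

namespace Cfsg.Agent.Lib.S4R6

open Module

variable {V : Type*} [AddCommGroup V] [Module (ZMod 2) V]

theorem dbl (v : V) : v + v = 0 := by
  have h : (2 : ZMod 2) • v = 0 := by
    rw [show (2 : ZMod 2) = 0 from rfl, zero_smul]
  rwa [two_smul] at h

theorem neg_eq (v : V) : -v = v := neg_eq_of_add_eq_zero_left (dbl v)

theorem end_dbl (f : Module.End (ZMod 2) V) : f + f = 0 := by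
  ext v; exact dbl (f v)

/-- a map of square zero has rank at most half the dimension of an invariant subspace -/
theorem rank_half [Finite V] (S : Submodule (ZMod 2) V) (B : Module.End (ZMod 2) V) (hB : ∀ x, B (B x) = 0)
    (hinv : ∀ s ∈ S, B s ∈ S) : 2 * finrank (ZMod 2) (S.map B) ≤ finrank (ZMod 2) S := by
  have hfd : Module.Finite (ZMod 2) V := Module.Finite.of_finite
  let f : S →ₗ[ZMod 2] V := B.comp S.subtype
  have h1 := f.finrank_range_add_finrank_ker
  have h2 : LinearMap.range f = S.map B := by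
    rw [LinearMap.range_comp, Submodule.range_subtype]
  have h3 : S.map B ≤ (LinearMap.ker f).map S.subtype := by
    rintro _ ⟨s, hs, rfl⟩
    exact ⟨⟨B s, hinv s hs⟩, by rw [SetLike.mem_coe, LinearMap.mem_ker]; exact hB s, rfl⟩
  have h4 := Submodule.finrank_mono h3
  have h5 : finrank (ZMod 2) ((LinearMap.ker f).map S.subtype) = finrank (ZMod 2) (LinearMap.ker f) :=
    Submodule.finrank_map_subtype_eq S (LinearMap.ker f)
  rw [h2] at h1
  omega

/-- an involution commuting with an element of order three with fixed points is a transvection -/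
theorem transv [Finite V] (hV : finrank (ZMod 2) V ≤ 4) (z t : Module.End (ZMod 2) V) (hz : z ^ 3 = 1) (hz1 : z ≠ 1)
    (ht : t * t = 1) (ht1 : t ≠ 1) (hzt : z * t = t * z) (hk : ∃ k, k ≠ 0 ∧ z k = k) :
    ∃ (v : V) (l : V →ₗ[ZMod 2] ZMod 2), v ≠ 0 ∧ l v = 0 ∧ ∀ x, t x = x + l x • v := by
  have hfd : Module.Finite (ZMod 2) V := Module.Finite.of_finite
  set A : Module.End (ZMod 2) V := z + 1 with hA
  set B : Module.End (ZMod 2) V := t + 1 with hB
  have hAB : A * B = B * A := by
    rw [hA, hB]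
    calc (z + 1) * (t + 1) = z * t + z + t + 1 := by noncomm_ring
      _ = t * z + z + t + 1 := by rw [hzt]
      _ = (t + 1) * (z + 1) := by noncomm_ring
  have hAB' : ∀ x, A (B x) = B (A x) := fun x => congrArg (fun f => f x) hAB
  have hBB : ∀ x, B (B x) = 0 := by
    intro x
    have h1 : B * B = 0 := by
      rw [hB, add_mul, mul_add, ht, mul_one, one_mul, add_assoc, ← add_assoc t t, end_dbl, zero_add, end_dbl]
    exact congrArg (fun f => f x) h1
  have hzA : ∀ x, z (A x) = A (z x) := by
    intro x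
    have : z * A = A * z := by rw [hA, mul_add, add_mul, mul_one, one_mul]
    exact congrArg (fun f => f x) this
  have hzB : ∀ x, z (B x) = B (z x) := by
    intro x
    have : z * B = B * z := by rw [hB, mul_add, add_mul, hzt, mul_one, one_mul]
    exact congrArg (fun f => f x) this
  set N : Module.End (ZMod 2) V := 1 + z + z * z with hN
  have hAN : N * A = 0 := by
    have h3 : z * z * z = 1 := by rw [← hz, pow_succ, pow_two]
    rw [hN, hA]
    calc (1 + z + z * z) * (z + 1) = z * z * z + 1 + ((z + z) + (z * z + z * z)) := by noncomm_ring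
      _ = 0 := by rw [h3, end_dbl, end_dbl, end_dbl, add_zero, add_zero]
  have hAN' : A * N = 0 := by
    have h3 : z * z * z = 1 := by rw [← hz, pow_succ, pow_two]
    rw [hN, hA]
    calc (z + 1) * (1 + z + z * z) = z * z * z + 1 + ((z + z) + (z * z + z * z)) := by noncomm_ring
      _ = 0 := by rw [h3, end_dbl, end_dbl, end_dbl, add_zero, add_zero]
  have hzinj : ∀ x, z x = 0 → x = 0 := by
    intro x hx
    have h1 : (z ^ 3) x = x := by rw [hz]; rfl
    rw [pow_succ, Module.End.mul_apply, hx, map_zero] at h1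
    exact h1.symm
  set K := LinearMap.ker A with hK
  set W := LinearMap.range A with hW
  have hmemK : ∀ x, x ∈ K ↔ z x = x := by
    intro x
    rw [hK, LinearMap.mem_ker, hA]
    show z x + x = 0 ↔ z x = x
    constructor
    · intro h; exact (eq_neg_of_add_eq_zero_left h).trans (neg_eq x)
    · intro h; rw [h]; exact dbl x
  have hdim := A.finrank_range_add_finrank_ker
  rw [← hK, ← hW] at hdim
  have hK1 : 1 ≤ finrank (ZMod 2) K := by
    obtain ⟨k, hk0, hk⟩ := hk
    rw [Nat.one_le_iff_ne_zero]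
    intro h
    have h1 : K = ⊥ := Submodule.finrank_eq_zero.1 h
    have h2 : k ∈ K := (hmemK k).2 hk
    rw [h1, Submodule.mem_bot] at h2
    exact hk0 h2
  have hW1 : 1 ≤ finrank (ZMod 2) W := by
    rw [Nat.one_le_iff_ne_zero]
    intro h
    have h1 : W = ⊥ := Submodule.finrank_eq_zero.1 h
    apply hz1
    ext x
    have h2 : A x ∈ W := LinearMap.mem_range_self A x
    rw [h1, Submodule.mem_bot] at h2
    exact (hmemK x).1 (LinearMap.mem_ker.2 h2)
  -- `B` vanishes on `W`
  have hBW : W.map B = ⊥ := by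
    have h1 := rank_half W B hBB (by
      rintro _ ⟨x, rfl⟩
      exact ⟨B x, hAB' x⟩)
    by_contra hne
    have h2 : finrank (ZMod 2) (W.map B) ≠ 0 := fun h => hne (Submodule.finrank_eq_zero.1 h)
    have h3 : finrank (ZMod 2) (W.map B) = 1 := by omega
    obtain ⟨⟨r, hr⟩, hr0, hspan⟩ := finrank_eq_one_iff'.1 h3
    have hr0' : r ≠ 0 := fun h => hr0 (Subtype.ext h)
    obtain ⟨_, ⟨y, rfl⟩, hy⟩ := hr
    have hzr : z r ∈ W.map B := by
      refine ⟨A (z y), ⟨z y, rfl⟩, ?_⟩
      rw [← hy, hzB, hzA]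
    obtain ⟨c, hc⟩ := hspan ⟨z r, hzr⟩
    have hc' : c • r = z r := congrArg Subtype.val hc
    have key : ∀ c : ZMod 2, c = 0 ∨ c = 1 := by decide
    rcases key c with rfl | rfl
    · rw [zero_smul] at hc'
      exact hr0' (hzinj r hc'.symm)
    · rw [one_smul] at hc'
      have h4 : N r = 0 := by
        rw [← hy, ← hAB']
        exact congrArg (fun f => f (B y)) hAN
      have h5 : N r = r := by
        rw [hN]
        show r + z r + z (z r) = r
        rw [← hc', ← hc', add_assoc, dbl, add_zero]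
      exact hr0' (by rw [← h5, h4])
  have hBW' : ∀ x, B (A x) = 0 := by
    intro x
    have h1 : B (A x) ∈ W.map B := ⟨A x, ⟨x, rfl⟩, rfl⟩
    rwa [hBW, Submodule.mem_bot] at h1
  -- `B x = B (N x)`
  have hBN : ∀ x, B x = B (N x) := by
    intro x
    have h1 : x = N x + A (z x) := by
      show x = (x + z x + z (z x)) + (z (z x) + z x)
      have h2 := dbl (z x)
      have h3 := dbl (z (z x))
      calc x = x + (z x + z x) + (z (z x) + z (z x)) := by rw [h2, h3]; simp
        _ = _ := by abel
    nth_rewrite 1 [h1]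
    rw [map_add, hBW', add_zero]
  have hrange : LinearMap.range B = K.map B := by
    apply le_antisymm
    · rintro _ ⟨x, rfl⟩
      refine ⟨N x, ?_, (hBN x).symm⟩
      rw [hK, SetLike.mem_coe, LinearMap.mem_ker]
      exact congrArg (fun f => f x) hAN'
    · rintro _ ⟨x, -, rfl⟩
      exact ⟨x, rfl⟩
  have h6 := rank_half K B hBB (by
    intro x hx
    rw [hK, LinearMap.mem_ker] at hx ⊢
    rw [hAB', hx, map_zero])
  have hBne : LinearMap.range B ≠ ⊥ := by
    intro h
    apply ht1
    ext x
    have h7 : B x ∈ LinearMap.range B := ⟨x, rfl⟩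
    rw [h, Submodule.mem_bot] at h7
    have h8 : t x + x = 0 := h7
    show t x = x
    exact (eq_neg_of_add_eq_zero_left h8).trans (neg_eq x)
  rw [← hrange] at h6
  have h7 : finrank (ZMod 2) (LinearMap.range B) ≠ 0 := fun h => hBne (Submodule.finrank_eq_zero.1 h)
  have h8 : finrank (ZMod 2) (LinearMap.range B) = 1 := by omega
  obtain ⟨⟨v, hv⟩, hv0, hspan⟩ := finrank_eq_one_iff'.1 h8
  have hv0' : v ≠ 0 := fun h => hv0 (Subtype.ext h)
  obtain ⟨φ, hφ⟩ : ∃ φ : V →ₗ[ZMod 2] ZMod 2, φ v ≠ 0 := by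
    by_contra hcon
    push Not at hcon
    exact hv0' ((Module.forall_dual_apply_eq_zero_iff (ZMod 2) v).1 hcon)
  have key : ∀ c : ZMod 2, c ≠ 0 → c = 1 := by decide
  have hφ1 : φ v = 1 := key _ hφ
  refine ⟨v, φ.comp B, hv0', ?_, ?_⟩
  · obtain ⟨u, rfl⟩ := hv
    rw [LinearMap.comp_apply, hBB, map_zero]
  · intro x
    obtain ⟨c, hc⟩ := hspan ⟨B x, ⟨x, rfl⟩⟩
    have hc' : c • v = B x := congrArg Subtype.val hc
    have h9 : (φ.comp B) x = c := by
      rw [LinearMap.comp_apply, ← hc', map_smul, hφ1, smul_eq_mul, mul_one]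
    rw [h9, hc']
    show t x = x + (t x + x)
    rw [add_comm (t x) x, ← add_assoc, dbl, zero_add]

end Cfsg.Agent.Lib.S4R6
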