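import Mathlib
import Cfsg.Agent.Lib.S4R6B

set_option autoImplicit false

/-!
# Transvections with Coxeter relations (S3104; helper61)
-/

namespace Cfsg.Agent.Lib.S4R6

open Module

variable {V : Type*} [AddCommGroup V] [Module (ZMod 2) V]

theorem z2_cases : ∀ c : ZMod 2, c = 0 ∨ c = 1 := by decide

/-- `T` is the transvection `x ↦ x + l(x) v` -/
structure TV (T : Module.End (ZMod 2) V) (l : V →ₗ[ZMod 2] ZMod 2) (v : V) : Prop where
  ne : v ≠ 0
  lv : l v = 0
  app : ∀ x, T x = x + l x • v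
  one : T ≠ 1

theorem TV.exists_one {T : Module.End (ZMod 2) V} {l : V →ₗ[ZMod 2] ZMod 2} {v : V} (h : TV T l v) : ∃ x, l x = 1 := by
  by_contra hcon
  push Not at hcon
  apply h.one
  ext x
  rw [h.app]
  rcases z2_cases (l x) with h0 | h1
  · rw [h0, zero_smul, add_zero]; rfl
  · exact absurd h1 (hcon x)

theorem TV.conj {T g g' : Module.End (ZMod 2) V} {l : V →ₗ[ZMod 2] ZMod 2} {v : V} (h : TV T l v)
    (h1 : g * g' = 1) (h2 : g' * g = 1) : TV (g * T * g') (l.comp g') (g v) := by
  have e1 : ∀ x, g (g' x) = x := fun x => congrArg (fun f => f x) h1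
  have e2 : ∀ x, g' (g x) = x := fun x => congrArg (fun f => f x) h2
  refine ⟨?_, ?_, ?_, ?_⟩
  · intro h0
    apply h.ne
    rw [← e2 v, h0, map_zero]
  · rw [LinearMap.comp_apply, e2, h.lv]
  · intro x
    show g (T (g' x)) = x + l (g' x) • g v
    rw [h.app, map_add, map_smul, e1]
  · intro h0
    apply h.one
    calc T = g' * (g * T * g') * g := by
          rw [show g' * (g * T * g') * g = (g' * g) * T * (g' * g) by noncomm_ring, h2]; simp
      _ = 1 := by rw [h0, mul_one, h2]

theorem TV.comm {T T' : Module.End (ZMod 2) V} {l l' : V →ₗ[ZMod 2] ZMod 2} {v v' : V} (h : TV T l v) (h' : TV T' l' v')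
    (hc : T * T' = T' * T) : l v' = 0 := by
  rcases z2_cases (l v') with h0 | h1
  · exact h0
  exfalso
  obtain ⟨x, hx⟩ := h'.exists_one
  have e : T (T' x) = T' (T x) := congrArg (fun f => f x) hc
  rw [h'.app x, h.app x, h.app, h'.app] at e
  simp only [map_add, map_smul, smul_eq_mul] at e
  have e' : (x + l' x • v' + l x • v) + (l' x * l v') • v = (x + l' x • v' + l x • v) + (l x * l' v) • v' := by
    linear_combination (norm := module) e
  have e2 := add_left_cancel e'
  rw [hx, h1, one_mul, one_smul] at e2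
  rcases z2_cases (l x * l' v) with a0 | a1
  · rw [a0, zero_smul] at e2; exact h.ne e2
  · rw [a1, one_smul] at e2
    rw [← e2, h.lv] at h1
    exact absurd h1 (by decide)

theorem TV.braid {T T' : Module.End (ZMod 2) V} {l l' : V →ₗ[ZMod 2] ZMod 2} {v v' : V} (h : TV T l v) (h' : TV T' l' v')
    (hb : T * T' * T = T' * T * T') (hne : T ≠ T') : l v' = 1 ∧ l' v = 1 := by
  have key : ∀ x, (l v' * l' x + l v' * l' v * l x) • v + (l' x + l' v * l x) • v' =
      (l x + l v' * l' x) • v + (l' v * l x + l' v * l v' * l' x) • v' := by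
    intro x
    have e : T (T' (T x)) = T' (T (T' x)) := congrArg (fun f => f x) hb
    rw [h.app x, h'.app x, h'.app, h.app (x + l' x • v'), h.app, h'.app] at e
    simp only [map_add, map_smul, smul_eq_mul, h.lv, h'.lv, mul_zero, add_zero] at e
    have d1 : (l x + l x : ZMod 2) = 0 := CharTwo.add_self_eq_zero _
    have d2 : (l' x + l' x : ZMod 2) = 0 := CharTwo.add_self_eq_zero _
    have e1 : x + ((l v' * l' x + l v' * l' v * l x) • v + (l' x + l' v * l x) • v') + (l x + l x) • v =
        x + ((l x + l v' * l' x) • v + (l' v * l x + l' v * l v' * l' x) • v') + (l' x + l' x) • v' := by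
      linear_combination (norm := module) e
    rw [d1, d2, zero_smul, zero_smul, add_zero, add_zero] at e1
    exact add_left_cancel e1
  have hcon : ¬ (∀ x, l x • v = l' x • v') := by
    intro h0
    apply hne
    ext x
    rw [h.app, h'.app, h0]
  rcases z2_cases (l v') with a0 | a1
  · exfalso
    apply hcon
    intro x
    have e := key x
    rw [a0] at e
    simp only [zero_mul, mul_zero, add_zero, zero_smul, zero_add] at e
    have e2 : (l' v * l x) • v' + l' x • v' = (l' v * l x) • v' + l x • v := by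
      linear_combination (norm := module) e
    exact (add_left_cancel e2).symm
  · rcases z2_cases (l' v) with b0 | b1
    · exfalso
      apply hcon
      intro x
      have e := key x
      rw [b0, a1] at e
      simp only [zero_mul, mul_zero, add_zero, zero_smul, one_mul] at e
      have e2 : l' x • v + l' x • v' = l' x • v + l x • v := by
        linear_combination (norm := module) e
      exact (add_left_cancel e2).symm
    · exact ⟨a1, b1⟩

/-- Five transvections with the Coxeter relations of type `A₅` on a space of order at most sixteen. -/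
theorem cox [Finite V] (hV : finrank (ZMod 2) V ≤ 4) {T1 T2 T3 T4 T5 : Module.End (ZMod 2) V}
    {l1 l2 l3 l4 l5 : V →ₗ[ZMod 2] ZMod 2} {v1 v2 v3 v4 v5 : V}
    (h1 : TV T1 l1 v1) (h2 : TV T2 l2 v2) (h3 : TV T3 l3 v3) (h4 : TV T4 l4 v4) (h5 : TV T5 l5 v5)
    (c13 : T1 * T3 = T3 * T1) (c14 : T1 * T4 = T4 * T1) (c15 : T1 * T5 = T5 * T1) (c24 : T2 * T4 = T4 * T2)
    (c25 : T2 * T5 = T5 * T2) (c35 : T3 * T5 = T5 * T3)
    (b12 : T1 * T2 * T1 = T2 * T1 * T2) (b23 : T2 * T3 * T2 = T3 * T2 * T3) (b34 : T3 * T4 * T3 = T4 * T3 * T4)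
    (b45 : T4 * T5 * T4 = T5 * T4 * T5) (n12 : T1 ≠ T2) (n23 : T2 ≠ T3) (n34 : T3 ≠ T4) (n45 : T4 ≠ T5) :
    l1 v1 = 0 ∧ l1 v3 = 0 ∧ l3 v1 = 0 ∧ l3 v3 = 0 ∧ (∀ a b : ZMod 2, a • v1 + b • v3 = 0 → a = 0 ∧ b = 0) ∧
    (∀ a b : ZMod 2, ∃ x, l1 x = a ∧ l3 x = b) ∧ ∀ x, T5 x = x + (l1 x + l3 x) • (v1 + v3) := by
  have hfd : Module.Finite (ZMod 2) V := Module.Finite.of_finite
  have m11 := h1.lv
  have m22 := h2.lv
  have m33 := h3.lv
  have m44 := h4.lv
  have m13 := h1.comm h3 c13
  have m31 := h3.comm h1 c13.symm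
  have m14 := h1.comm h4 c14
  have m41 := h4.comm h1 c14.symm
  have m15 := h1.comm h5 c15
  have m51 := h5.comm h1 c15.symm
  have m24 := h2.comm h4 c24
  have m42 := h4.comm h2 c24.symm
  have m25 := h2.comm h5 c25
  have m52 := h5.comm h2 c25.symm
  have m35 := h3.comm h5 c35
  have m53 := h5.comm h3 c35.symm
  obtain ⟨m12, m21⟩ := h1.braid h2 b12 n12
  obtain ⟨m23, m32⟩ := h2.braid h3 b23 n23
  obtain ⟨m34, m43⟩ := h3.braid h4 b34 n34
  obtain ⟨m45, m54⟩ := h4.braid h5 b45 n45
  have hcomb : ∀ a b c d : ZMod 2, (l1 (a • v1 + b • v2 + c • v3 + d • v4) = b) ∧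
      (l2 (a • v1 + b • v2 + c • v3 + d • v4) = a + c) ∧ (l3 (a • v1 + b • v2 + c • v3 + d • v4) = b + d) ∧
      (l4 (a • v1 + b • v2 + c • v3 + d • v4) = c) := by
    intro a b c d
    simp only [map_add, map_smul, smul_eq_mul, m11, m12, m13, m14, m21, m22, m23, m24, m31, m32, m33, m34, m41, m42, m43,
      m44, mul_zero, mul_one, zero_add, add_zero, and_self]
  have hli : LinearIndependent (ZMod 2) ![v1, v2, v3, v4] := by
    rw [Fintype.linearIndependent_iff]
    intro g hg
    rw [Fin.sum_univ_four] at hg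
    simp only [Matrix.cons_val_zero, Matrix.cons_val_one, Matrix.cons_val] at hg
    obtain ⟨e1, e2, e3, e4⟩ := hcomb (g 0) (g 1) (g 2) (g 3)
    rw [hg, map_zero] at e1 e2 e3 e4
    have f1 : g 1 = 0 := e1.symm
    have f2 : g 2 = 0 := e4.symm
    have f3 : g 0 = 0 := by rw [f2, add_zero] at e2; exact e2.symm
    have f4 : g 3 = 0 := by rw [f1, zero_add] at e3; exact e3.symm
    intro i
    fin_cases i
    · exact f3
    · exact f1
    · exact f2
    · exact f4
  have hfr : finrank (ZMod 2) V = 4 := by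
    apply le_antisymm hV
    have := hli.fintype_card_le_finrank
    simpa using this
  have hsp := hli.span_eq_top_of_card_eq_finrank (by rw [hfr]; simp)
  have hex : ∀ x : V, ∃ a b c d : ZMod 2, x = a • v1 + b • v2 + c • v3 + d • v4 := by
    intro x
    have hx : x ∈ Submodule.span (ZMod 2) (Set.range ![v1, v2, v3, v4]) := by rw [hsp]; trivial
    obtain ⟨c, hc⟩ := (Submodule.mem_span_range_iff_exists_fun (ZMod 2)).1 hx
    rw [Fin.sum_univ_four] at hc
    simp only [Matrix.cons_val_zero, Matrix.cons_val_one, Matrix.cons_val] at hc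
    exact ⟨c 0, c 1, c 2, c 3, hc.symm⟩
  have hsep : ∀ x y : V, l1 x = l1 y → l2 x = l2 y → l3 x = l3 y → l4 x = l4 y → x = y := by
    intro x y e1 e2 e3 e4
    obtain ⟨a, b, c, d, rfl⟩ := hex x
    obtain ⟨a', b', c', d', rfl⟩ := hex y
    obtain ⟨f1, f2, f3, f4⟩ := hcomb a b c d
    obtain ⟨g1, g2, g3, g4⟩ := hcomb a' b' c' d'
    rw [f1, g1] at e1
    rw [f2, g2] at e2
    rw [f3, g3] at e3
    rw [f4, g4] at e4
    rw [e4] at e2
    rw [e1] at e3
    rw [e1, e4, add_right_cancel e2, add_left_cancel e3]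
  have hv5 : v5 = v1 + v3 := by
    apply hsep
    · rw [m15, map_add, m11, m13, add_zero]
    · rw [m25, map_add, m21, m23]; rfl
    · rw [m35, map_add, m31, m33, add_zero]
    · rw [m45, map_add, m41, m43, zero_add]
  have hl5 : ∀ x, l5 x = l1 x + l3 x := by
    intro x
    obtain ⟨a, b, c, d, rfl⟩ := hex x
    obtain ⟨f1, f2, f3, f4⟩ := hcomb a b c d
    rw [f1, f3]
    simp only [map_add, map_smul, smul_eq_mul, m51, m52, m53, m54, mul_zero, mul_one, zero_add, add_zero]
    rw [← add_assoc, CharTwo.add_self_eq_zero, zero_add]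
  refine ⟨m11, m13, m31, m33, ?_, ?_, ?_⟩
  · intro a b hab
    have e1 := congrArg l2 hab
    have e2 := congrArg l4 hab
    simp only [map_add, map_smul, smul_eq_mul, m21, m23, m41, m43, mul_one, mul_zero, zero_add, map_zero] at e1 e2
    rw [e2, add_zero] at e1
    exact ⟨e1, e2⟩
  · intro a b
    refine ⟨a • v2 + (a + b) • v4, ?_, ?_⟩
    · simp only [map_add, map_smul, smul_eq_mul, m12, m14, mul_one, mul_zero, add_zero]
    · simp only [map_add, map_smul, smul_eq_mul, m32, m34, mul_one]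
      rw [← add_assoc, CharTwo.add_self_eq_zero, zero_add]
  · intro x
    rw [h5.app, hl5, hv5]

end Cfsg.Agent.Lib.S4R6
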