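import Mathlib
import Cfsg.Agent.Lib.S4R6C

set_option autoImplicit false

/-!
# The symmetric group of degree six on a space of order sixteen (S3104; helper61)
-/

namespace Cfsg.Agent.Lib.S4R6

open Module

section six

variable {V : Type*} [AddCommGroup V] [Module (ZMod 2) V] [Finite V]
variable {G : Type*} [Group G] {R : G →* Module.End (ZMod 2) V}

omit [Finite V] in
theorem tv_next {a b : G} {l : V →ₗ[ZMod 2] ZMod 2} {v : V} (h : TV (R a) l v) (hb : a * b * a = b * a * b) :
    ∃ (l' : V →ₗ[ZMod 2] ZMod 2) (v' : V), TV (R b) l' v' := by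
  have h1 : R (a * b) * R (a * b)⁻¹ = 1 := by rw [← map_mul, mul_inv_cancel, map_one]
  have h2 : R (a * b)⁻¹ * R (a * b) = 1 := by rw [← map_mul, inv_mul_cancel, map_one]
  have h3 := h.conj h1 h2
  have h4 : R (a * b) * R a * R (a * b)⁻¹ = R b := by
    rw [← map_mul, ← map_mul]
    congr 1
    rw [hb, mul_inv_rev]
    group
  rw [h4] at h3
  exact ⟨_, _, h3⟩

/-- what we need about the action -/
def Good (R : G →* Module.End (ZMod 2) V) : Prop :=
  ∃ (l m : V →ₗ[ZMod 2] ZMod 2) (v w : V) (s1 s3 s5 : G), l v = 0 ∧ l w = 0 ∧ m v = 0 ∧ m w = 0 ∧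
    (∀ a b : ZMod 2, a • v + b • w = 0 → a = 0 ∧ b = 0) ∧ (∀ a b : ZMod 2, ∃ x, l x = a ∧ m x = b) ∧
    (∀ x, R s1 x = x + l x • v) ∧ (∀ x, R s3 x = x + m x • w) ∧ (∀ x, R s5 x = x + (l x + m x) • (v + w))

theorem family (hV : finrank (ZMod 2) V ≤ 4) (hR : Function.Injective R) {z a b c d e : G} (hz : z ^ 3 = 1)
    (hz1 : z ≠ 1) (ha : a * a = 1) (ha1 : a ≠ 1) (hza : z * a = a * z) (hk : ∃ k, k ≠ 0 ∧ R z k = k)
    (cac : a * c = c * a) (cad : a * d = d * a) (cae : a * e = e * a) (cbd : b * d = d * b)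
    (cbe : b * e = e * b) (cce : c * e = e * c)
    (bab : a * b * a = b * a * b) (bbc : b * c * b = c * b * c) (bcd : c * d * c = d * c * d)
    (bde : d * e * d = e * d * e) (nab : a ≠ b) (nbc : b ≠ c) (ncd : c ≠ d) (nde : d ≠ e) : Good R := by
  obtain ⟨v1, l1, hv1, hl1, h1⟩ := transv hV (R z) (R a) (by rw [← map_pow, hz, map_one])
    (fun h => hz1 (hR (by rw [h, map_one]))) (by rw [← map_mul, ha, map_one])
    (fun h => ha1 (hR (by rw [h, map_one]))) (by rw [← map_mul, hza, map_mul]) hk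
  have t1 : TV (R a) l1 v1 := ⟨hv1, hl1, h1, fun h => ha1 (hR (by rw [h, map_one]))⟩
  obtain ⟨l2, v2, t2⟩ := tv_next t1 bab
  obtain ⟨l3, v3, t3⟩ := tv_next t2 bbc
  obtain ⟨l4, v4, t4⟩ := tv_next t3 bcd
  obtain ⟨l5, v5, t5⟩ := tv_next t4 bde
  obtain ⟨e1, e2, e3, e4, e5, e6, e7⟩ := cox hV t1 t2 t3 t4 t5
    (by rw [← map_mul, cac, map_mul]) (by rw [← map_mul, cad, map_mul]) (by rw [← map_mul, cae, map_mul])
    (by rw [← map_mul, cbd, map_mul]) (by rw [← map_mul, cbe, map_mul]) (by rw [← map_mul, cce, map_mul])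
    (by rw [← map_mul, ← map_mul, bab, map_mul, map_mul]) (by rw [← map_mul, ← map_mul, bbc, map_mul, map_mul])
    (by rw [← map_mul, ← map_mul, bcd, map_mul, map_mul]) (by rw [← map_mul, ← map_mul, bde, map_mul, map_mul])
    (fun h => nab (hR h)) (fun h => nbc (hR h)) (fun h => ncd (hR h)) (fun h => nde (hR h))
  exact ⟨l1, l3, v1, v3, a, c, e, e1, e2, e3, e4, e5, e6, t1.app, t3.app, e7⟩

omit [Finite V] in
/-- an element of order three without fixed points -/
theorem quad_of_fpf {z : Module.End (ZMod 2) V} (hz : z ^ 3 = 1) (hf : ¬ ∃ k, k ≠ 0 ∧ z k = k) :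
    z * z = z + 1 := by
  have h1 : ∀ x, x + z x + z (z x) = 0 := by
    intro x
    by_contra hne
    apply hf
    refine ⟨x + z x + z (z x), hne, ?_⟩
    rw [map_add, map_add]
    have h2 : z (z (z x)) = x := by
      have := congrArg (fun f => f x) hz
      rw [pow_succ, pow_two] at this
      exact this
    rw [h2]; abel
  ext x
  show z (z x) = z x + x
  have h2 := h1 x
  rw [add_comm] at h2
  rw [eq_neg_of_add_eq_zero_left h2, neg_eq, add_comm]

end six

def gc : Equiv.Perm (Fin 6) := ⟨![1, 2, 0, 3, 4, 5], ![2, 0, 1, 3, 4, 5], by decide, by decide⟩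
def gd : Equiv.Perm (Fin 6) := ⟨![0, 1, 2, 4, 5, 3], ![0, 1, 2, 5, 3, 4], by decide, by decide⟩
def gt : Equiv.Perm (Fin 6) := ⟨![3, 4, 5, 0, 1, 2], ![3, 4, 5, 0, 1, 2], by decide, by decide⟩
def g2 : Equiv.Perm (Fin 6) := ⟨![1, 0, 3, 2, 5, 4], ![1, 0, 3, 2, 5, 4], by decide, by decide⟩
def g3 : Equiv.Perm (Fin 6) := ⟨![2, 4, 0, 5, 1, 3], ![2, 4, 0, 5, 1, 3], by decide, by decide⟩
def g4 : Equiv.Perm (Fin 6) := ⟨![1, 0, 5, 4, 3, 2], ![1, 0, 5, 4, 3, 2], by decide, by decide⟩
def g5 : Equiv.Perm (Fin 6) := ⟨![5, 4, 3, 2, 1, 0], ![5, 4, 3, 2, 1, 0], by decide, by decide⟩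

theorem six {V : Type*} [AddCommGroup V] [Module (ZMod 2) V] [Finite V]
    {R : Equiv.Perm (Fin 6) →* Module.End (ZMod 2) V}
    (hV : finrank (ZMod 2) V ≤ 4) (hR : Function.Injective R) : Good R := by
  by_cases hc : ∃ k, k ≠ 0 ∧ R gc k = k
  · exact family hV hR (z := gc) (a := Equiv.swap 4 5) (b := Equiv.swap 3 4) (c := Equiv.swap 2 3) (d := Equiv.swap 1 2)
      (e := Equiv.swap 0 1) (by decide) (by decide) (by decide) (by decide) (by decide) hc (by decide) (by decide)
      (by decide) (by decide) (by decide) (by decide) (by decide) (by decide) (by decide) (by decide) (by decide)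
      (by decide) (by decide) (by decide)
  by_cases hcd : ∃ k, k ≠ 0 ∧ R (gc * gd) k = k
  · exact family hV hR (z := gc * gd) (a := gt) (b := g2) (c := g3) (d := g4)
      (e := g5) (by decide) (by decide) (by decide) (by decide) (by decide) hcd (by decide) (by decide)
      (by decide) (by decide) (by decide) (by decide) (by decide) (by decide) (by decide) (by decide) (by decide)
      (by decide) (by decide) (by decide)
  exfalso
  have hd : ¬ ∃ k, k ≠ 0 ∧ R gd k = k := by
    rintro ⟨k, hk0, hk⟩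
    apply hc
    -- `gt` conjugates `gd` to `gc`
    refine ⟨R gt k, ?_, ?_⟩
    · intro h
      apply hk0
      have h1 : R (gt * gt) k = k := by rw [show gt * gt = 1 by decide, map_one]; rfl
      rw [map_mul, Module.End.mul_apply, h, map_zero] at h1
      exact h1.symm
    · rw [← Module.End.mul_apply, ← map_mul, show gc * gt = gt * gd by decide, map_mul, Module.End.mul_apply, hk]
  have q1 := quad_of_fpf (z := R gc) (by rw [← map_pow, show gc ^ 3 = 1 by decide, map_one]) hc
  have q2 := quad_of_fpf (z := R gd) (by rw [← map_pow, show gd ^ 3 = 1 by decide, map_one]) hd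
  have q3 := quad_of_fpf (z := R (gc * gd)) (by rw [← map_pow, show (gc * gd) ^ 3 = 1 by decide, map_one]) hcd
  have hcomm : R gc * R gd = R gd * R gc := by rw [← map_mul, ← map_mul, show gc * gd = gd * gc by decide]
  rw [map_mul] at q3
  have h1 : R gc * R gd * (R gc * R gd) = (R gc * R gc) * (R gd * R gd) := by
    rw [mul_assoc, ← mul_assoc (R gd), ← hcomm]; noncomm_ring
  rw [h1, q1, q2] at q3
  have h2 : R gc + R gd = 0 := by
    have h3 : (R gc + 1) * (R gd + 1) = (R gc * R gd + 1) + (R gc + R gd) := by noncomm_ring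
    rw [h3] at q3
    exact add_eq_left.1 q3
  have h4 : R gc = R gd := by
    have h5 := eq_neg_of_add_eq_zero_left h2
    rw [h5]
    ext x
    exact neg_eq _
  exact absurd (hR h4) (by decide)

end Cfsg.Agent.Lib.S4R6
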