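import Mathlib
import Cfsg.Agent.Lib.S4R6A
import Cfsg.Agent.Lib.S4R6D

set_option autoImplicit false

/-!
# No `S₆` in `X/O₂(X)` when the sectional rank is at most four (S3104; helper61)
-/

namespace Cfsg.Agent.Lib.S4R6

open Module Cfsg Cfsg.Agent.Lib.FratRep Cfsg.Agent.Lib.FratConstr
open Cfsg.Agent.Lib.CoprimeAction2 Cfsg.Agent.Lib.HBBasic
open scoped commutatorElement

universe u

variable {X : Type u} [Group X] [Finite X]

/-- the representation on the Frattini quotient -/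
theorem exists_rep (hC : Subgroup.centralizer ((pCore 2 X : Subgroup X) : Set X) ≤ pCore 2 X)
    (h4 : Cfsg.SectionalPRankLE 2 4 ↥(Cfsg.pCore 2 X)) :
    ∃ (V : Type u) (_ : AddCommGroup V) (_ : Module (ZMod 2) V) (_ : Finite V) (_ : Data 2 (pCore 2 X) V),
      Module.finrank (ZMod 2) V ≤ 4 := by
  have : Fact (Nat.Prime 2) := ⟨Nat.prime_two⟩
  have hNp : IsPGroup 2 (pCore 2 X) := Cfsg.Agent.Lib.H32Cores.pCore_isPGroup 2
  obtain ⟨V, _, _, _, ⟨D⟩⟩ := exists_data (pCore 2 X) inferInstance hNp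
  refine ⟨V, _, _, ‹_›, D, ?_⟩
  have hidx : (frattini (pCore 2 X)).index ≤ 2 ^ 4 := by
    have h5 := h4 ⊤ ((frattini (pCore 2 X)).comap (⊤ : Subgroup (pCore 2 X)).subtype) ⊤ ?_ ?_
    · rw [Subgroup.card_top, ← Subgroup.index_eq_card, Subgroup.index_comap_of_surjective] at h5
      · exact h5
      · intro x; exact ⟨⟨x, Subgroup.mem_top x⟩, rfl⟩
    · refine ⟨⟨?_⟩⟩
      rintro ⟨a, -⟩ ⟨b, -⟩
      obtain ⟨a, rfl⟩ := QuotientGroup.mk'_surjective _ a
      obtain ⟨b, rfl⟩ := QuotientGroup.mk'_surjective _ b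
      apply Subtype.ext
      change (QuotientGroup.mk' _ a * QuotientGroup.mk' _ b) = QuotientGroup.mk' _ b * QuotientGroup.mk' _ a
      rw [← map_mul, ← map_mul]
      apply (QuotientGroup.eq).mpr
      change ((a * b)⁻¹ * (b * a)).1 ∈ frattini (pCore 2 X)
      apply commutator_le_frattini hNp
      have h6 : ((a * b)⁻¹ * (b * a)).1 = ⁅b.1⁻¹, a.1⁻¹⁆ := by
        simp only [commutatorElement_def, Subgroup.coe_mul, Subgroup.coe_inv]; group
      rw [h6]
      exact Subgroup.commutator_mem_commutator (Subgroup.mem_top _) (Subgroup.mem_top _)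
    · rintro a -
      obtain ⟨a, rfl⟩ := QuotientGroup.mk'_surjective _ a
      rw [← map_pow]
      apply (QuotientGroup.eq_one_iff _).mpr
      change (a ^ 2).1 ∈ frattini (pCore 2 X)
      exact H70Frattini.pow_mem_frattini hNp a.1
  have h5 := card_V D
  rw [Module.natCard_eq_pow_finrank (K := ZMod 2), Nat.card_zmod] at h5
  rw [← h5] at hidx
  exact (Nat.pow_le_pow_iff_right (by norm_num)).mp hidx

theorem no_six (hC : Subgroup.centralizer ((pCore 2 X : Subgroup X) : Set X) ≤ pCore 2 X)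
    (h4' : Cfsg.SectionalPRankLE 2 4 ↥(Cfsg.pCore 2 X)) (h4 : SectionalPRankLE 2 4 X)
    (j : Equiv.Perm (Fin 6) →* X ⧸ pCore 2 X) (hj : Function.Injective j) : False := by
  have : Fact (Nat.Prime 2) := ⟨Nat.prime_two⟩
  obtain ⟨V, _, _, _, D, hV⟩ := exists_rep hC h4'
  obtain ⟨σ, hσ, hσρ⟩ := exists_quot hC D
  obtain ⟨l, m, v, w, s1, s3, s5, e1, e2, e3, e4, e5, e6, e7, e8, e9⟩ :=
    six (R := σ.comp j) hV (hσ.comp hj)
  obtain ⟨a1, h1⟩ := QuotientGroup.mk'_surjective _ (j s1)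
  obtain ⟨a3, h3⟩ := QuotientGroup.mk'_surjective _ (j s3)
  obtain ⟨a5, h5⟩ := QuotientGroup.mk'_surjective _ (j s5)
  refine E_contra D (fun g => ρ_eq_one_iff_mem hC D g) h4 l m v w e1 e2 e3 e4 e5 e6 a1 a3 a5 ?_ ?_ ?_
  · intro x; rw [← hσρ, h1]; exact e7 x
  · intro x; rw [← hσρ, h3]; exact e8 x
  · intro x; rw [← hσρ, h5]; exact e9 x

/-- `S₆` in `S₇` -/
theorem six_in_seven : ∃ j : Equiv.Perm (Fin 6) →* Equiv.Perm (Fin 7), Function.Injective j := by
  refine ⟨Equiv.Perm.viaEmbeddingHom (Fin.castSuccEmb : Fin 6 ↪ Fin 7), ?_⟩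
  exact Equiv.Perm.viaEmbeddingHom_injective _

/-- `S₆` in `A₈` -/
theorem six_in_alt8 : ∃ j : Equiv.Perm (Fin 6) →* alternatingGroup (Fin 8), Function.Injective j := by
  classical
  -- `ℤˣ → Perm (Fin 2)`
  let s : ℤˣ →* Equiv.Perm (Fin 2) :=
    { toFun := fun u => if u = 1 then 1 else Equiv.swap 0 1
      map_one' := by simp
      map_mul' := by decide }
  have hs : ∀ u : ℤˣ, Equiv.Perm.sign (s u) = u := by decide
  let e : Fin 6 ⊕ Fin 2 ≃ Fin 8 := finSumFinEquiv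
  let φ : Equiv.Perm (Fin 6) →* Equiv.Perm (Fin 6 ⊕ Fin 2) :=
    (Equiv.Perm.sumCongrHom (Fin 6) (Fin 2)).comp ((MonoidHom.id _).prod (s.comp Equiv.Perm.sign))
  have hφ : Function.Injective φ := by
    intro g h hgh
    have h1 := Equiv.Perm.sumCongrHom_injective hgh
    exact congrArg Prod.fst h1
  let ψ : Equiv.Perm (Fin 6) →* Equiv.Perm (Fin 8) := (e.permCongrHom : _ ≃* _).toMonoidHom.comp φ
  have hψ : Function.Injective ψ := by
    intro g h hgh
    exact hφ ((e.permCongrHom).injective hgh)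
  refine ⟨ψ.codRestrict _ (fun g => ?_), fun g h hgh => hψ (congrArg Subtype.val hgh)⟩
  rw [Equiv.Perm.mem_alternatingGroup]
  show Equiv.Perm.sign (e.permCongr (φ g)) = 1
  rw [Equiv.Perm.sign_permCongr]
  show Equiv.Perm.sign (Equiv.sumCongr g (s (Equiv.Perm.sign g))) = 1
  rw [Equiv.Perm.sign_sumCongr, hs]
  exact Int.units_mul_self _

end Cfsg.Agent.Lib.S4R6
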