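import Mathlib

/-! # SL(2,16) in groups of J3 type (S1652): configuration (helper84) -/

set_option autoImplicit false

namespace Cfsg.Agent.Lib.SL16

/-- the configuration `B = V H`, `w` -/
structure Cfg {G : Type*} [Group G] (V H B : Subgroup G) (w t : G) : Prop where
  hV2 : ∀ v ∈ V, v * v = 1
  cardV : Nat.card V = 16
  cardH : Nat.card H = 15
  hVB : V ≤ B
  hHB : H ≤ B
  hB : ∀ b ∈ B, ∃ v ∈ V, ∃ h ∈ H, b = v * h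
  hVn : ∀ b ∈ B, ∀ v ∈ V, b * v * b⁻¹ ∈ V
  hHc : ∀ h ∈ H, ∀ k ∈ H, h * k = k * h
  fpf : ∀ h ∈ H, h ≠ 1 → ∀ v ∈ V, h * v = v * h → v = 1
  wH : ∀ h ∈ H, w * h * w⁻¹ ∈ H
  w2 : w * w = 1
  w1 : w ≠ 1
  tV : t ∈ V
  t1 : t ≠ 1
  rel : w * t * w = t * w * t

end Cfsg.Agent.Lib.SL16
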