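import Mathlib

/-! S1652, piece A5 (helper42). -/

set_option autoImplicit false
set_option maxRecDepth 100000

namespace Cfsg.Agent.Lib.SL16

def A5ap (p x : ℕ) : ℕ := (p / 8 ^ x) % 8
def A5cm (p q : ℕ) : ℕ := A5ap p (A5ap q 0) + 8 * A5ap p (A5ap q 1) + 64 * A5ap p (A5ap q 2) + 512 * A5ap p (A5ap q 3) +
  4096 * A5ap p (A5ap q 4)
def A5enc (s : Equiv.Perm (Fin 5)) : ℕ := (s 0 : ℕ) + 8 * (s 1 : ℕ) + 64 * (s 2 : ℕ) + 512 * (s 3 : ℕ) + 4096 * (s 4 : ℕ)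

def A5one : ℕ := 0 + 8 * 1 + 64 * 2 + 512 * 3 + 4096 * 4

theorem A5ap_enc (s : Equiv.Perm (Fin 5)) (x : Fin 5) : A5ap (A5enc s) (x : ℕ) = (s x : ℕ) := by
  have h0 := (s 0).2
  have h1 := (s 1).2
  have h2 := (s 2).2
  have h3 := (s 3).2
  have h4 := (s 4).2
  unfold A5ap A5enc
  fin_cases x
  · simp only [Fin.zero_eta, Fin.isValue, Fin.val_zero, pow_zero]; omega
  · simp only [Fin.mk_one, Fin.isValue, Fin.val_one, pow_one]; omega
  · change (_ / 8 ^ 2) % 8 = ((s 2 : Fin 5) : ℕ); norm_num only; omega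
  · change (_ / 8 ^ 3) % 8 = ((s 3 : Fin 5) : ℕ); norm_num only; omega
  · change (_ / 8 ^ 4) % 8 = ((s 4 : Fin 5) : ℕ); norm_num only; omega

theorem A5enc_mul (s r : Equiv.Perm (Fin 5)) : A5enc (s * r) = A5cm (A5enc s) (A5enc r) := by
  have h0 : A5ap (A5enc r) 0 = (r 0 : ℕ) := A5ap_enc r 0
  have h1 : A5ap (A5enc r) 1 = (r 1 : ℕ) := A5ap_enc r 1
  have h2 : A5ap (A5enc r) 2 = (r 2 : ℕ) := A5ap_enc r 2
  have h3 : A5ap (A5enc r) 3 = (r 3 : ℕ) := A5ap_enc r 3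
  have h4 : A5ap (A5enc r) 4 = (r 4 : ℕ) := A5ap_enc r 4
  unfold A5cm
  rw [h0, h1, h2, h3, h4]
  simp only [A5ap_enc]
  rfl

theorem A5enc_inj {s r : Equiv.Perm (Fin 5)} (h : A5enc s = A5enc r) : s = r := by
  ext x
  rw [← A5ap_enc s x, ← A5ap_enc r x, h]

theorem A5enc_one : A5enc 1 = A5one := rfl

/-- the codes of all permutations that occur -/
def A5all : List ℕ :=
  (List.range 5).flatMap fun a => ((List.range 5).filter (fun b => b ≠ a)).flatMap fun b =>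
    ((List.range 5).filter (fun c => c ≠ a ∧ c ≠ b)).flatMap fun c =>
    ((List.range 5).filter (fun d => d ≠ a ∧ d ≠ b ∧ d ≠ c)).flatMap fun d =>
    ((List.range 5).filter (fun e => e ≠ a ∧ e ≠ b ∧ e ≠ c ∧ e ≠ d)).map fun e => a + 8 * b + 64 * c + 512 * d + 4096 * e

theorem A5enc_mem (s : Equiv.Perm (Fin 5)) : A5enc s ∈ A5all := by
  have inj : ∀ x y : Fin 5, x ≠ y → (s x : ℕ) ≠ (s y : ℕ) := fun x y h h' => h (s.injective (Fin.ext h'))
  unfold A5all A5enc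
  simp only [List.mem_flatMap, List.mem_map, List.mem_filter, List.mem_range, decide_eq_true_eq]
  refine ⟨(s 0 : ℕ), (s 0).2, (s 1 : ℕ), ⟨(s 1).2, inj _ _ (by decide)⟩, (s 2 : ℕ), ⟨(s 2).2, inj _ _ (by decide), inj _ _ (by decide)⟩,
    (s 3 : ℕ), ⟨(s 3).2, inj _ _ (by decide), inj _ _ (by decide), inj _ _ (by decide)⟩,
    (s 4 : ℕ), ⟨(s 4).2, inj _ _ (by decide), inj _ _ (by decide), inj _ _ (by decide), inj _ _ (by decide)⟩, rfl⟩

/-- even involutions, by the number of fixed points -/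
def A5inv (p : ℕ) : Bool := A5cm p p == A5one &&
  ((List.range 5).filter (fun x => A5ap p x = x)).length == 1

def A5ok (g : ℕ) : Bool := A5cm (A5cm (A5cm g g) (A5cm g g)) g == A5one && !(g == A5one)

def A5P3 (t y w : ℕ) : Bool :=
  (A5ok (A5cm w t) && A5ok (A5cm w (A5cm (A5cm y t) (A5cm y y)))) ||
  (A5ok (A5cm w (A5cm (A5cm y t) (A5cm y y))) && A5ok (A5cm w (A5cm (A5cm (A5cm y y) t) y))) ||
  (A5ok (A5cm w (A5cm (A5cm (A5cm y y) t) y)) && A5ok (A5cm w t))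

def A5invs : List ℕ := A5all.filter A5inv
def A5ys : List ℕ := A5all.filter (fun y => A5cm (A5cm y y) y == A5one)

def A5main : Bool :=
  A5invs.all fun t => A5ys.all fun y =>
    (A5cm (A5cm y t) (A5cm y y) == t) || !(A5cm t (A5cm (A5cm y t) (A5cm y y)) == A5cm (A5cm (A5cm y y) t) y) ||
    A5invs.all fun w => !(A5cm (A5cm w y) w == A5cm y y) || A5P3 t y w

theorem A5main_true : A5main = true := by decide +kernel

theorem A5inv_even : ∀ s : Equiv.Perm (Fin 5), Equiv.Perm.sign s = 1 → s * s = 1 → s ≠ 1 → A5inv (A5enc s) = true := by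
  decide +kernel

theorem A5invs_mem (s : alternatingGroup (Fin 5)) (h : s * s = 1) (h1 : s ≠ 1) : A5enc s ∈ A5invs := by
  unfold A5invs
  rw [List.mem_filter]
  refine ⟨A5enc_mem _, A5inv_even _ ?_ ?_ ?_⟩
  · exact Equiv.Perm.mem_alternatingGroup.1 s.2
  · exact congrArg Subtype.val h
  · exact fun h2 => h1 (Subtype.ext h2)

theorem A5ok_iff (g : alternatingGroup (Fin 5)) (h : A5ok (A5enc g) = true) : g ^ 5 = 1 ∧ g ≠ 1 := by
  unfold A5ok at h
  rw [Bool.and_eq_true, Bool.not_eq_true', beq_iff_eq, beq_eq_false_iff_ne, ← A5enc_mul, ← A5enc_mul, ← A5enc_mul,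
    ← A5enc_one] at h
  refine ⟨?_, fun h2 => h.2 (by rw [h2]; rfl)⟩
  apply Subtype.ext
  have := A5enc_inj h.1
  have e : g ^ 5 = g * g * (g * g) * g := by
    simp only [pow_succ, pow_zero, one_mul, mul_assoc]
  rw [e]
  exact this

/-- A5 : finite check -/
theorem a5 (t y w : alternatingGroup (Fin 5)) (ht : t * t = 1) (ht1 : t ≠ 1) (hy : y ^ 3 = 1) (hn : y * t * y⁻¹ ≠ t)
    (hc : t * (y * t * y⁻¹) = y⁻¹ * t * y) (hw : w * w = 1) (hwy : w * y * w = y⁻¹) :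
    ((w * t) ^ 5 = 1 ∧ w * t ≠ 1 ∧ (w * (y * t * y⁻¹)) ^ 5 = 1 ∧ w * (y * t * y⁻¹) ≠ 1) ∨
    ((w * (y * t * y⁻¹)) ^ 5 = 1 ∧ w * (y * t * y⁻¹) ≠ 1 ∧ (w * (y⁻¹ * t * y)) ^ 5 = 1 ∧ w * (y⁻¹ * t * y) ≠ 1) ∨
    ((w * (y⁻¹ * t * y)) ^ 5 = 1 ∧ w * (y⁻¹ * t * y) ≠ 1 ∧ (w * t) ^ 5 = 1 ∧ w * t ≠ 1) := by
  have hyi : y⁻¹ = y * y := by
    rw [inv_eq_iff_mul_eq_one]
    rw [← hy, pow_succ, pow_two, mul_assoc]
  have hy1 : y * y * y = 1 := by
    rw [← hy, pow_succ, pow_two]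
  have hw1 : w ≠ 1 := by
    intro h
    rw [h, one_mul, mul_one] at hwy
    apply hn
    have : y * y = 1 := by
      calc y * y = y * y⁻¹ := by rw [← hwy]
        _ = 1 := mul_inv_cancel y
    rw [this, one_mul] at hy1
    rw [hy1]; group
  rw [hyi] at hn hc hwy ⊢
  have key := A5main_true
  unfold A5main at key
  rw [List.all_eq_true] at key
  have k1 := key _ (A5invs_mem t ht ht1)
  rw [List.all_eq_true] at k1
  have hys : A5enc y ∈ A5ys := by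
    unfold A5ys
    rw [List.mem_filter]
    refine ⟨A5enc_mem _, ?_⟩
    rw [← A5enc_mul, ← A5enc_mul, beq_iff_eq, ← A5enc_one]
    exact congrArg A5enc (congrArg Subtype.val hy1)
  have k2 := k1 _ hys
  rw [Bool.or_eq_true, Bool.or_eq_true] at k2
  rcases k2 with (k2 | k2) | k2
  · exfalso
    apply hn
    rw [beq_iff_eq, ← A5enc_mul, ← A5enc_mul, ← A5enc_mul] at k2
    exact Subtype.ext (A5enc_inj k2)
  · exfalso
    rw [Bool.not_eq_true', beq_eq_false_iff_ne, ← A5enc_mul, ← A5enc_mul, ← A5enc_mul, ← A5enc_mul, ← A5enc_mul,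
      ← A5enc_mul] at k2
    exact k2 (congrArg A5enc (congrArg Subtype.val hc))
  · rw [List.all_eq_true] at k2
    have k3 := k2 _ (A5invs_mem w hw hw1)
    rw [Bool.or_eq_true] at k3
    rcases k3 with k3 | k3
    · exfalso
      rw [Bool.not_eq_true', beq_eq_false_iff_ne, ← A5enc_mul, ← A5enc_mul, ← A5enc_mul] at k3
      exact k3 (congrArg A5enc (congrArg Subtype.val hwy))
    · unfold A5P3 at k3
      simp only [← A5enc_mul] at k3
      rw [Bool.or_eq_true, Bool.or_eq_true, Bool.and_eq_true, Bool.and_eq_true, Bool.and_eq_true] at k3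
      rcases k3 with (⟨h1, h2⟩ | ⟨h1, h2⟩) | ⟨h1, h2⟩
      · exact Or.inl ⟨(A5ok_iff (w * t) h1).1, (A5ok_iff (w * t) h1).2, (A5ok_iff (w * (y * t * (y * y))) h2).1,
          (A5ok_iff (w * (y * t * (y * y))) h2).2⟩
      · exact Or.inr (Or.inl ⟨(A5ok_iff (w * (y * t * (y * y))) h1).1, (A5ok_iff (w * (y * t * (y * y))) h1).2,
          (A5ok_iff (w * (y * y * t * y)) h2).1, (A5ok_iff (w * (y * y * t * y)) h2).2⟩)
      · exact Or.inr (Or.inr ⟨(A5ok_iff (w * (y * y * t * y)) h1).1, (A5ok_iff (w * (y * y * t * y)) h1).2,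
          (A5ok_iff (w * t) h2).1, (A5ok_iff (w * t) h2).2⟩)

end Cfsg.Agent.Lib.SL16
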