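import Mathlib
import Cfsg.Agent.Lib.SL16A

/-! # SL(2,16) in groups of J3 type (S1652): assembly, abstract part (helper84) -/

set_option autoImplicit false

namespace Cfsg.Agent.Lib.SL16

variable {G : Type*} [Group G] [Finite G]

theorem mem_zp_of_prime {p : ℕ} (hp : p.Prime) {a : G} (ha : orderOf a = p) {n : ℤ} (hn : a ^ n ≠ 1) :
    a ∈ Subgroup.zpowers (a ^ n) := by
  have hle : Subgroup.zpowers (a ^ n) ≤ Subgroup.zpowers a := by
    rw [Subgroup.zpowers_le]; exact Subgroup.zpow_mem_zpowers a n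
  have hdvd : Nat.card (Subgroup.zpowers (a ^ n)) ∣ p := by
    rw [← ha, ← Nat.card_zpowers]; exact Subgroup.card_dvd_of_le hle
  have h1 : Nat.card (Subgroup.zpowers (a ^ n)) = p := by
    rcases (Nat.dvd_prime hp).1 hdvd with h | h
    · exfalso
      rw [Nat.card_zpowers, orderOf_eq_one_iff] at h
      exact hn h
    · exact h
  have h2 : Subgroup.zpowers (a ^ n) = Subgroup.zpowers a := by
    apply Subgroup.eq_of_le_of_card_ge hle
    rw [h1, Nat.card_zpowers, ha]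
  rw [h2]; exact Subgroup.mem_zpowers a

theorem conj_zpow_mem {V : Subgroup G} {y : G} (hy : orderOf y = 3) (hyV : ∀ v ∈ V, y * v * y⁻¹ ∈ V) (k : ℤ) :
    ∀ v ∈ V, y ^ k * v * (y ^ k)⁻¹ ∈ V := by
  have y3 : y ^ 3 = 1 := by rw [← hy]; exact pow_orderOf_eq_one y
  have hyN : ∀ v ∈ V, y⁻¹ * v * y ∈ V := by
    intro v hv
    have e : y⁻¹ = y ^ 2 := by
      rw [inv_eq_iff_mul_eq_one, ← pow_succ', y3]
    have e' : y = (y ^ 2)⁻¹ := by rw [← e, inv_inv]
    have h4 : y⁻¹ * v * y = y * (y * v * y⁻¹) * y⁻¹ := by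
      calc y⁻¹ * v * y = y ^ 2 * v * (y ^ 2)⁻¹ := by rw [← e', ← e]
        _ = _ := by simp only [pow_succ, pow_zero, one_mul, mul_inv_rev, mul_assoc]
    rw [h4]
    exact hyV _ (hyV _ hv)
  have h1 : y ∈ Subgroup.normalizer (V : Set G) := by
    rw [Subgroup.mem_normalizer_iff]
    intro v
    constructor
    · exact fun hv => hyV v hv
    · intro hv
      have e : v = y⁻¹ * (y * v * y⁻¹) * y := by group
      rw [e]
      exact hyN _ hv
  intro v hv
  have h2 : y ^ k ∈ Subgroup.normalizer (V : Set G) := Subgroup.zpow_mem _ h1 k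
  exact (Subgroup.mem_normalizer_iff.1 h2 v).1 hv

/-- the Borel subgroup -/
def Bor (V H : Subgroup G) (hn : ∀ h ∈ H, ∀ v ∈ V, h * v * h⁻¹ ∈ V) : Subgroup G where
  carrier := {g | ∃ v ∈ V, ∃ h ∈ H, g = v * h}
  one_mem' := ⟨1, V.one_mem, 1, H.one_mem, by group⟩
  mul_mem' := by
    rintro _ _ ⟨v, hv, h, hh, rfl⟩ ⟨v', hv', h', hh', rfl⟩
    exact ⟨v * (h * v' * h⁻¹), V.mul_mem hv (hn h hh v' hv'), h * h', H.mul_mem hh hh', by group⟩
  inv_mem' := by
    rintro _ ⟨v, hv, h, hh, rfl⟩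
    exact ⟨h⁻¹ * v⁻¹ * h⁻¹⁻¹, hn _ (H.inv_mem hh) _ (V.inv_mem hv), h⁻¹, H.inv_mem hh, by group⟩

theorem mk_cfg {V : Subgroup G} {x y w t : G} (hV2 : ∀ v ∈ V, v * v = 1) (cardV : Nat.card V = 16)
    (hx : orderOf x = 5) (hy : orderOf y = 3) (hxy : x * y = y * x)
    (hxV : ∀ v ∈ V, x * v * x⁻¹ ∈ V) (hyV : ∀ v ∈ V, y * v * y⁻¹ ∈ V)
    (fx : ∀ v ∈ V, x * v = v * x → v = 1) (fy : ∀ v ∈ V, y * v = v * y → v = 1)
    (wx : w * x * w⁻¹ ∈ Subgroup.zpowers (x * y)) (wy : w * y * w⁻¹ ∈ Subgroup.zpowers (x * y))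
    (w2 : w * w = 1) (w1 : w ≠ 1) (tV : t ∈ V) (t1 : t ≠ 1) (rel : w * t * w = t * w * t)
    (hn : ∀ h ∈ Subgroup.zpowers (x * y), ∀ v ∈ V, h * v * h⁻¹ ∈ V) :
    Cfg V (Subgroup.zpowers (x * y)) (Bor V (Subgroup.zpowers (x * y)) hn) w t where
  hV2 := hV2
  cardV := cardV
  cardH := by
    rw [Nat.card_zpowers, (show Commute x y from hxy).orderOf_mul_eq_mul_orderOf_of_coprime (by rw [hx, hy]; norm_num),
      hx, hy]
  hVB := fun v hv => ⟨v, hv, 1, one_mem _, by group⟩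
  hHB := fun h hh => ⟨1, V.one_mem, h, hh, by group⟩
  hB := fun b hb => hb
  hVn := by
    rintro _ ⟨v, hv, h, hh, rfl⟩ v' hv'
    have h1 : v * h * v' * (v * h)⁻¹ = v * (h * v' * h⁻¹) * v⁻¹ := by group
    rw [h1]
    exact V.mul_mem (V.mul_mem hv (hn h hh v' hv')) (V.inv_mem hv)
  hHc := by
    intro h hh k hk
    obtain ⟨a, rfl⟩ := Subgroup.mem_zpowers_iff.1 hh
    obtain ⟨b, rfl⟩ := Subgroup.mem_zpowers_iff.1 hk
    rw [← zpow_add, ← zpow_add, add_comm]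
  fpf := by
    intro h hh h1 v hv hvh
    obtain ⟨k, rfl⟩ := Subgroup.mem_zpowers_iff.1 hh
    have hc : Commute x y := hxy
    have hvh' : Commute ((x * y) ^ k) v := hvh
    have x5 : x ^ (5 : ℤ) = 1 := by
      rw [show (5 : ℤ) = ((5 : ℕ) : ℤ) by norm_num, zpow_natCast, ← hx]; exact pow_orderOf_eq_one x
    have y3 : y ^ (3 : ℤ) = 1 := by
      rw [show (3 : ℤ) = ((3 : ℕ) : ℤ) by norm_num, zpow_natCast, ← hy]; exact pow_orderOf_eq_one y
    have e3 : ((x * y) ^ k) ^ (3 : ℤ) = x ^ (k * 3) := by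
      rw [← zpow_mul, hc.mul_zpow, mul_comm k 3, zpow_mul y, y3, one_zpow, mul_one]
    have e5 : ((x * y) ^ k) ^ (5 : ℤ) = y ^ (k * 5) := by
      rw [← zpow_mul, hc.mul_zpow, mul_comm k 5, zpow_mul x, x5, one_zpow, one_mul]
    by_cases hx1 : x ^ (k * 3) = 1
    · by_cases hy1 : y ^ (k * 5) = 1
      · exfalso
        apply h1
        rw [hx1] at e3
        rw [hy1] at e5
        have : (x * y) ^ k = (((x * y) ^ k) ^ (3 : ℤ)) ^ (2 : ℤ) * (((x * y) ^ k) ^ (5 : ℤ))⁻¹ := by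
          group
        rw [this, e3, e5]; group
      · apply fy v hv
        obtain ⟨m, hm⟩ := Subgroup.mem_zpowers_iff.1 (mem_zp_of_prime Nat.prime_three hy hy1)
        have h2 : Commute (y ^ (k * 5)) v := by rw [← e5]; exact hvh'.zpow_left 5
        have h3 := h2.zpow_left m
        rw [hm] at h3
        exact h3
    · apply fx v hv
      obtain ⟨m, hm⟩ := Subgroup.mem_zpowers_iff.1 (mem_zp_of_prime Nat.prime_five hx hx1)
      have h2 : Commute (x ^ (k * 3)) v := by rw [← e3]; exact hvh'.zpow_left 3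
      have h3 := h2.zpow_left m
      rw [hm] at h3
      exact h3
  wH := by
    intro h hh
    obtain ⟨k, rfl⟩ := Subgroup.mem_zpowers_iff.1 hh
    have : w * (x * y) ^ k * w⁻¹ = ((w * x * w⁻¹) * (w * y * w⁻¹)) ^ k := by
      rw [← conj_zpow]; congr 1; group
    rw [this]
    exact Subgroup.zpow_mem _ (Subgroup.mul_mem _ wx wy) k
  w2 := w2
  w1 := w1
  tV := tV
  t1 := t1
  rel := rel

end Cfsg.Agent.Lib.SL16
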