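import Cfsg.Agent.Lib.SL16A
set_option autoImplicit false
namespace Cfsg.Agent.Lib.SL16

/-- `H` is transitive on the nonidentity elements of `V` -/
theorem Cfg.bn1_trans {G : Type*} [Group G] [Finite G] {V H B : Subgroup G} {w t : G} (c : Cfg V H B w t)
    {v : G} (hv : v ∈ V) (hv1 : v ≠ 1) : ∃ h ∈ H, v = h * t * h⁻¹ := by
  classical
  let f : H → ↥((V : Set G) \ {1}) := fun h => ⟨h.1 * t * h.1⁻¹, c.hVn _ (c.hHB h.2) _ c.tV, by
    intro h1
    have h2 : h.1 * t * h.1⁻¹ = 1 := h1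
    have h3 : t = 1 := by
      have h4 : t = h.1⁻¹ * (h.1 * t * h.1⁻¹) * h.1 := by group
      rw [h4, h2]; group
    exact c.t1 h3⟩
  have hf : Function.Injective f := by
    intro h k hk
    have h1 : h.1 * t * h.1⁻¹ = k.1 * t * k.1⁻¹ := congrArg Subtype.val hk
    by_contra hne
    have h2 : (k⁻¹ * h : H) ≠ 1 := by
      intro h3
      apply hne
      exact (inv_mul_eq_one.mp h3).symm
    have h3 : (k⁻¹ * h : H).1 ≠ 1 := fun h4 => h2 (Subtype.ext h4)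
    have h4 : (k⁻¹ * h : H).1 * t = t * (k⁻¹ * h : H).1 := by
      show (k.1⁻¹ * h.1) * t = t * (k.1⁻¹ * h.1)
      calc (k.1⁻¹ * h.1) * t = k.1⁻¹ * (h.1 * t * h.1⁻¹) * h.1 := by group
        _ = k.1⁻¹ * (k.1 * t * k.1⁻¹) * h.1 := by rw [h1]
        _ = t * (k.1⁻¹ * h.1) := by group
    exact c.t1 (c.fpf _ (k⁻¹ * h : H).2 h3 t c.tV h4)
  have hc : Nat.card ↥((V : Set G) \ {1}) ≤ Nat.card H := by
    rw [c.cardH, Nat.card_coe_set_eq, Set.ncard_sdiff_singleton_of_mem V.one_mem]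
    have h1 : (V : Set G).ncard = 16 := by
      rw [← Nat.card_coe_set_eq]; exact c.cardV
    omega
  have hb : Function.Bijective f := Function.Injective.bijective_of_nat_card_le hf hc
  obtain ⟨h, hh⟩ := hb.2 ⟨v, hv, hv1⟩
  exact ⟨h.1, h.2, (congrArg Subtype.val hh).symm⟩

/-- `B = H V` -/
theorem Cfg.bn1_hv {G : Type*} [Group G] {V H B : Subgroup G} {w t : G} (c : Cfg V H B w t)
    {b : G} (hb : b ∈ B) : ∃ h ∈ H, ∃ v ∈ V, b = h * v := by
  obtain ⟨v, hv, h, hh, e⟩ := c.hB b⁻¹ (B.inv_mem hb)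
  refine ⟨h⁻¹, H.inv_mem hh, v⁻¹, V.inv_mem hv, ?_⟩
  rw [← mul_inv_rev, ← e, inv_inv]

theorem Cfg.bn1_winv {G : Type*} [Group G] {V H B : Subgroup G} {w t : G} (c : Cfg V H B w t) : w⁻¹ = w :=
  inv_eq_of_mul_eq_one_left c.w2

/-- `w v w ∈ B ∪ B w V` -/
theorem Cfg.bn1_wvw {G : Type*} [Group G] [Finite G] {V H B : Subgroup G} {w t : G} (c : Cfg V H B w t)
    {v : G} (hv : v ∈ V) : w * v * w ∈ B ∨ ∃ b ∈ B, ∃ u ∈ V, w * v * w = b * w * u := by
  by_cases hv1 : v = 1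
  · left
    rw [hv1, mul_one, c.w2]; exact B.one_mem
  right
  obtain ⟨h, hh, e⟩ := c.bn1_trans hv hv1
  have hw := c.bn1_winv
  have h' := c.wH h hh
  have h'' := c.wH _ (H.inv_mem h')
  refine ⟨(w * h * w⁻¹) * t * (w * (w * h * w⁻¹)⁻¹ * w⁻¹), ?_, (w * h * w⁻¹) * t * (w * h * w⁻¹)⁻¹, ?_, ?_⟩
  · exact B.mul_mem (B.mul_mem (c.hHB h') (c.hVB c.tV)) (c.hHB h'')
  · exact c.hVn _ (c.hHB h') _ c.tV
  · rw [e]
    have h1 : w * (h * t * h⁻¹) * w = (w * h * w⁻¹) * (w * t * w) * (w * h * w⁻¹)⁻¹ := by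
      rw [mul_inv_rev, mul_inv_rev, inv_inv]
      simp only [mul_assoc, inv_mul_cancel_left, mul_inv_cancel_left]
      rw [hw]
      simp only [← mul_assoc]
      have : w * h * t * w * w * h⁻¹ = w * h * t * (w * w) * h⁻¹ := by group
      rw [show w * h * t * h⁻¹ * w = w * h * t * h⁻¹ * w from rfl]
      simp only [mul_assoc, ← mul_assoc w w, c.w2, one_mul]
    rw [h1, c.rel]
    group

/-- BN1 -/
theorem Cfg.exists_M {G : Type*} [Group G] [Finite G] {V H B : Subgroup G} {w t : G} (c : Cfg V H B w t) :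
    ∃ M : Subgroup G, ∀ g, g ∈ M ↔ (g ∈ B ∨ ∃ b ∈ B, ∃ v ∈ V, g = b * w * v) := by
  have hw := c.bn1_winv
  -- right multiplication by an element of `B`
  have key : ∀ b ∈ B, ∀ v ∈ V, ∀ b' ∈ B, ∃ b₁ ∈ B, ∃ v₁ ∈ V, b * w * v * b' = b₁ * w * v₁ := by
    intro b hb v hv b' hb'
    obtain ⟨h, hh, u, hu, e⟩ := c.bn1_hv (B.mul_mem (c.hVB hv) hb')
    refine ⟨b * (w * h * w⁻¹), B.mul_mem hb (c.hHB (c.wH h hh)), u, hu, ?_⟩
    calc b * w * v * b' = b * w * (v * b') := by group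
      _ = b * w * (h * u) := by rw [e]
      _ = b * (w * h * w⁻¹) * w * u := by group
  refine ⟨{ carrier := {g | g ∈ B ∨ ∃ b ∈ B, ∃ v ∈ V, g = b * w * v}, mul_mem' := ?_, one_mem' := ?_, inv_mem' := ?_ }, fun g => Iff.rfl⟩
  · rintro g g' hg hg'
    rcases hg with hg | ⟨b, hb, v, hv, rfl⟩
    · rcases hg' with hg' | ⟨b', hb', v', hv', rfl⟩
      · exact Or.inl (B.mul_mem hg hg')
      · exact Or.inr ⟨g * b', B.mul_mem hg hb', v', hv', by group⟩
    · rcases hg' with hg' | ⟨b', hb', v', hv', rfl⟩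
      · exact Or.inr (key b hb v hv g' hg')
      · obtain ⟨b₁, hb₁, v₁, hv₁, e⟩ := key b hb v hv b' hb'
        have h1 : b * w * v * (b' * w * v') = b₁ * (w * v₁ * w) * v' := by
          calc b * w * v * (b' * w * v') = (b * w * v * b') * w * v' := by group
            _ = (b₁ * w * v₁) * w * v' := by rw [e]
            _ = b₁ * (w * v₁ * w) * v' := by group
        show b * w * v * (b' * w * v') ∈ B ∨ _
        rcases c.bn1_wvw hv₁ with h2 | ⟨b₂, hb₂, u, hu, h2⟩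
        · left
          rw [h1]
          exact B.mul_mem (B.mul_mem hb₁ h2) (c.hVB hv')
        · right
          refine ⟨b₁ * b₂, B.mul_mem hb₁ hb₂, u * v', V.mul_mem hu hv', ?_⟩
          rw [h1, h2]
          group
  · exact Or.inl B.one_mem
  · rintro g hg
    rcases hg with hg | ⟨b, hb, v, hv, rfl⟩
    · exact Or.inl (B.inv_mem hg)
    · right
      obtain ⟨b₁, hb₁, v₁, hv₁, e⟩ := key v⁻¹ (B.inv_mem (c.hVB hv)) 1 V.one_mem b⁻¹ (B.inv_mem hb)
      refine ⟨b₁, hb₁, v₁, hv₁, ?_⟩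
      rw [← e, mul_inv_rev, mul_inv_rev, hw]
      group

end Cfsg.Agent.Lib.SL16
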