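import Mathlib
import Cfsg.Agent.Lib.SL16A

set_option autoImplicit false
set_option linter.all false

namespace Cfsg.Agent.Lib.SL16

variable {G : Type*} [Group G] {V H B : Subgroup G} {w t : G}

theorem BN2.inf_eq (c : Cfg V H B w t) {x : G} (h1 : x ∈ V) (h2 : x ∈ H) : x = 1 := by
  have h3 : orderOf x ∣ 16 := by rw [← c.cardV]; exact Subgroup.orderOf_dvd_natCard V h1
  have h4 : orderOf x ∣ 15 := by rw [← c.cardH]; exact Subgroup.orderOf_dvd_natCard H h2
  have h5 : orderOf x ∣ 1 := by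
    have := Nat.dvd_gcd h3 h4
    simpa using this
  exact orderOf_eq_one_iff.1 (Nat.dvd_one.1 h5)

theorem BN2.mem_of_sq (c : Cfg V H B w t) {b : G} (hb : b ∈ B) (hbb : b * b = 1) : b ∈ V := by
  obtain ⟨v, hv, h, hh, rfl⟩ := c.hB b hb
  have h1 : h * v * h⁻¹ ∈ V := c.hVn h (c.hHB hh) v hv
  have h2 : h * h = (v * (h * v * h⁻¹))⁻¹ := by
    rw [eq_inv_iff_mul_eq_one]
    have h3 : v * (h * v * h⁻¹) * (h * h) = 1 := by
      calc v * (h * v * h⁻¹) * (h * h) = v * h * (v * h) := by group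
        _ = 1 := hbb
    have h4 := eq_inv_of_mul_eq_one_right h3
    rw [h4, inv_mul_cancel]
  have h3 : h * h = 1 := BN2.inf_eq c (by rw [h2]; exact V.inv_mem (V.mul_mem hv h1)) (H.mul_mem hh hh)
  have h4 : orderOf h ∣ 15 := by rw [← c.cardH]; exact Subgroup.orderOf_dvd_natCard H hh
  have h5 : orderOf h ∣ 2 := orderOf_dvd_of_pow_eq_one (by rw [pow_two]; exact h3)
  have h6 : orderOf h ∣ 1 := by
    have := Nat.dvd_gcd h4 h5
    simpa using this
  have h7 : h = 1 := orderOf_eq_one_iff.1 (Nat.dvd_one.1 h6)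
  rw [h7, mul_one]
  exact hv

theorem BN2.winv (c : Cfg V H B w t) : w⁻¹ = w := inv_eq_of_mul_eq_one_right c.w2

theorem BN2.not_mem (c : Cfg V H B w t) : w ∉ B := by
  intro hw
  have h1 : w ∈ V := BN2.mem_of_sq c hw c.w2
  have h2 : ∃ h ∈ H, h ≠ 1 := by
    by_contra hcon
    push Not at hcon
    have h3 : H = ⊥ := (Subgroup.eq_bot_iff_forall H).2 hcon
    have h4 := c.cardH
    rw [h3, Subgroup.card_bot] at h4
    omega
  obtain ⟨h, hh, hne⟩ := h2
  have h3 : w * h * w⁻¹ * h⁻¹ = 1 := by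
    apply BN2.inf_eq c
    · have h4 : h * w⁻¹ * h⁻¹ ∈ V := c.hVn h (c.hHB hh) _ (V.inv_mem h1)
      have h5 : w * h * w⁻¹ * h⁻¹ = w * (h * w⁻¹ * h⁻¹) := by group
      rw [h5]
      exact V.mul_mem h1 h4
    · exact H.mul_mem (c.wH h hh) (H.inv_mem hh)
  have h4 : h * w = w * h := by
    have h5 : w * h * w⁻¹ = h := by
      rw [mul_inv_eq_one] at h3
      exact h3
    rw [mul_inv_eq_iff_eq_mul] at h5
    exact h5.symm
  exact c.w1 (c.fpf h hh hne w h1 h4)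

theorem BN2.trans (c : Cfg V H B w t) [Finite G] {v : G} (hv : v ∈ V) (hv1 : v ≠ 1) {v' : G} (hv' : v' ∈ V) (hv1' : v' ≠ 1) :
    ∃ h ∈ H, h * v * h⁻¹ = v' := by
  classical
  have : Fintype G := Fintype.ofFinite G
  let f : H → {x : V // x ≠ 1} := fun h => ⟨⟨h.1 * v * h.1⁻¹, c.hVn h.1 (c.hHB h.2) v hv⟩, by
    intro h1
    have h2 : h.1 * v * h.1⁻¹ = 1 := congrArg Subtype.val h1
    apply hv1
    have h3 : v = h.1⁻¹ * (h.1 * v * h.1⁻¹) * h.1 := by group
    rw [h3, h2]; group⟩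
  have hf : Function.Injective f := by
    intro h k hhk
    have h1 : h.1 * v * h.1⁻¹ = k.1 * v * k.1⁻¹ := congrArg (fun z => (z.1 : V).1) hhk
    by_contra hne
    have h2 : k.1⁻¹ * h.1 ≠ 1 := by
      intro h3
      exact hne (Subtype.ext (inv_mul_eq_one.1 h3).symm)
    apply hv1
    refine c.fpf (k.1⁻¹ * h.1) (H.mul_mem (H.inv_mem k.2) h.2) h2 v hv ?_
    calc k.1⁻¹ * h.1 * v = k.1⁻¹ * (h.1 * v * h.1⁻¹) * h.1 := by group
      _ = k.1⁻¹ * (k.1 * v * k.1⁻¹) * h.1 := by rw [h1]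
      _ = v * (k.1⁻¹ * h.1) := by group
  have hcard : Nat.card {x : V // x ≠ 1} = 15 := by
    have h1 : Fintype.card V = 16 := by rw [← Nat.card_eq_fintype_card]; exact c.cardV
    rw [Nat.card_eq_fintype_card, Fintype.card_subtype_compl (fun x : V => x = 1), Fintype.card_subtype_eq, h1]
  have hbij : Function.Bijective f := by
    rw [Nat.bijective_iff_injective_and_card]
    exact ⟨hf, by rw [c.cardH, hcard]⟩
  obtain ⟨h, hh⟩ := hbij.2 ⟨⟨v', hv'⟩, fun h => hv1' (congrArg Subtype.val h)⟩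
  exact ⟨h.1, h.2, congrArg (fun z => (z.1 : V).1) hh⟩

/-- BN2 -/
theorem Cfg.ti {G : Type*} [Group G] [Finite G] {V H B : Subgroup G} {w t : G} (c : Cfg V H B w t) :
    w ∉ B ∧ ∀ v ∈ V, w * v * w ∈ B → v = 1 := by
  refine ⟨BN2.not_mem c, ?_⟩
  intro v hv hb
  by_contra hv1
  have hwi := BN2.winv c
  have hbb : (w * v * w) * (w * v * w) = 1 := by
    calc (w * v * w) * (w * v * w) = w * v * (w * w) * v * w := by group
      _ = w * (v * v) * w := by rw [c.w2]; group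
      _ = 1 := by rw [c.hV2 v hv, mul_one, c.w2]
  have h1 : w * v * w ∈ V := BN2.mem_of_sq c hb hbb
  obtain ⟨h, hh, hht⟩ := BN2.trans c hv hv1 c.tV c.t1
  have h2 : w * t * w ∈ V := by
    have h3 : (w * h * w⁻¹) * (w * v * w) * (w * h * w⁻¹)⁻¹ ∈ V := c.hVn _ (c.hHB (c.wH h hh)) _ h1
    have h4 : (w * h * w⁻¹) * (w * v * w) * (w * h * w⁻¹)⁻¹ = w * t * w := by
      rw [← hht]
      have h5 : (w * h * w⁻¹) * (w * v * w) * (w * h * w⁻¹)⁻¹ = w * h * v * (w * w) * h⁻¹ * w⁻¹ := by group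
      rw [h5, c.w2, hwi]; group
    rw [← h4]; exact h3
  have h3 : w = t * (w * t * w) * t := by
    rw [c.rel]
    have h4 := c.hV2 t c.tV
    calc w = (t * t) * w * (t * t) := by rw [h4]; group
      _ = t * (t * w * t) * t := by group
  apply BN2.not_mem c
  apply c.hVB
  rw [h3]
  exact V.mul_mem (V.mul_mem c.tV h2) c.tV

end Cfsg.Agent.Lib.SL16
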