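import Cfsg.Agent.Lib.SL16A

/-! S1652 piece BN3 (helper75): the group `M = B ∪ B w V`. -/

set_option autoImplicit false

namespace Cfsg.Agent.Lib.SL16

theorem bn3_comm {G : Type*} [Group G] {V H B : Subgroup G} {w t : G} (c : Cfg V H B w t) {u v : G} (hu : u ∈ V)
    (hv : v ∈ V) : u * v = v * u := by
  have h1 := c.hV2 _ (mul_mem hu hv)
  have h2 := c.hV2 _ hu
  have h3 := c.hV2 _ hv
  have e1 : u⁻¹ = u := inv_eq_of_mul_eq_one_right h2
  have e2 : v⁻¹ = v := inv_eq_of_mul_eq_one_right h3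
  have e3 : (u * v)⁻¹ = u * v := inv_eq_of_mul_eq_one_right h1
  rw [← e3, mul_inv_rev, e1, e2]

theorem bn3_cardB {G : Type*} [Group G] [Finite G] {V H B : Subgroup G} {w t : G} (c : Cfg V H B w t) :
    Nat.card B = 240 := by
  have hbij : Function.Bijective (fun p : V × H => (⟨(p.1 : G) * (p.2 : G), mul_mem (c.hVB p.1.2) (c.hHB p.2.2)⟩ : B)) := by
    constructor
    · rintro ⟨v, h⟩ ⟨v', h'⟩ heq
      have h0 : (v : G) * h = v' * h' := congrArg Subtype.val heq
      have h1 : (v' : G)⁻¹ * v = h' * (h : G)⁻¹ := by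
        rw [inv_mul_eq_iff_eq_mul, ← mul_assoc, eq_mul_inv_iff_mul_eq]; exact h0
      have h2 : (v' : G)⁻¹ * v ∈ V := mul_mem (inv_mem v'.2) v.2
      have h3 : (v' : G)⁻¹ * v ∈ H := by rw [h1]; exact mul_mem h'.2 (inv_mem h.2)
      set z : G := (v' : G)⁻¹ * v with hz
      have h4 : z ^ 2 = 1 := by rw [pow_two]; exact c.hV2 z h2
      have h5 : z ^ 15 = 1 := by
        have := pow_card_eq_one' (x := (⟨z, h3⟩ : H))
        rw [c.cardH] at this
        have := congrArg Subtype.val this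
        simpa using this
      have h6 : z = 1 := by
        have e : z ^ 15 = (z ^ 2) ^ 7 * z := by rw [← pow_mul, ← pow_succ]
        rw [e, h4, one_pow, one_mul] at h5
        exact h5
      have h7 : (v : G) = v' := by
        rw [hz, inv_mul_eq_one] at h6; exact h6.symm
      rw [h7] at h0
      have h8 : (h : G) = h' := mul_left_cancel h0
      exact Prod.ext (Subtype.ext h7) (Subtype.ext h8)
    · rintro ⟨b, hb⟩
      obtain ⟨v, hv, h, hh, rfl⟩ := c.hB b hb
      exact ⟨(⟨v, hv⟩, ⟨h, hh⟩), rfl⟩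
  rw [← Nat.card_congr (Equiv.ofBijective _ hbij), Nat.card_prod, c.cardV, c.cardH]

/-- BN3 : the facts about M (uses BN2) -/
theorem Cfg.facts {G : Type*} [Group G] [Finite G] {V H B : Subgroup G} {w t : G} (c : Cfg V H B w t)
    (hti : w ∉ B ∧ ∀ v ∈ V, w * v * w ∈ B → v = 1)
    (M : Subgroup G) (hM : ∀ g, g ∈ M ↔ (g ∈ B ∨ ∃ b ∈ B, ∃ v ∈ V, g = b * w * v)) :
    Nat.card M = 4080 ∧ (∀ g ∈ M, (∀ v ∈ V, g * v * g⁻¹ ∈ V) → g ∈ B) ∧
      (∀ s ∈ V, s ≠ 1 → ∀ g ∈ M, g * s = s * g → g ∈ V) ∧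
      (∀ g ∈ M, g * g = 1 → g ≠ 1 → ∃ m ∈ M, m * g * m⁻¹ ∈ V) := by
  classical
  have hBM : B ≤ M := fun b hb => (hM b).mpr (Or.inl hb)
  have hVM : V ≤ M := c.hVB.trans hBM
  have winv : w⁻¹ = w := inv_eq_of_mul_eq_one_right c.w2
  have hcard : Nat.card M = 4080 := by
    have hmem : ∀ (b : B) (v : V), (b : G) * w * v ∈ M := fun b v => (hM _).mpr (Or.inr ⟨b, b.2, v, v.2, rfl⟩)
    have hbij : Function.Bijective (Sum.elim (fun b : B => (⟨(b : G), hBM b.2⟩ : M))
        (fun p : B × V => (⟨(p.1 : G) * w * p.2, hmem p.1 p.2⟩ : M))) := by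
      constructor
      · rintro (b | ⟨b, v⟩) (b' | ⟨b', v'⟩) heq
        · have h0 : (b : G) = b' := congrArg (fun z : M => (z : G)) heq
          exact congrArg Sum.inl (Subtype.ext h0)
        · exfalso
          have h0 : (b : G) = b' * w * v' := congrArg (fun z : M => (z : G)) heq
          apply hti.1
          have : w = (b' : G)⁻¹ * b * (v' : G)⁻¹ := by rw [h0]; group
          rw [this]
          exact mul_mem (mul_mem (inv_mem b'.2) b.2) (inv_mem (c.hVB v'.2))
        · exfalso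
          have h0 : (b : G) * w * v = b' := congrArg (fun z : M => (z : G)) heq
          apply hti.1
          have : w = (b : G)⁻¹ * b' * (v : G)⁻¹ := by rw [← h0]; group
          rw [this]
          exact mul_mem (mul_mem (inv_mem b.2) b'.2) (inv_mem (c.hVB v.2))
        · have h0 : (b : G) * w * v = b' * w * v' := congrArg (fun z : M => (z : G)) heq
          have h1 : w * ((v : G) * (v' : G)⁻¹) * w = (b : G)⁻¹ * b' := by
            have e : w * ((v : G) * (v' : G)⁻¹) * w⁻¹ = (b : G)⁻¹ * ((b : G) * w * v) * (v' : G)⁻¹ * w⁻¹ := by group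
            rw [h0] at e
            rw [winv] at e
            rw [e]
            calc (b : G)⁻¹ * (b' * w * v') * (v' : G)⁻¹ * w = (b : G)⁻¹ * b' * (w * w) := by group
              _ = (b : G)⁻¹ * b' := by rw [c.w2, mul_one]
          have h2 := hti.2 _ (mul_mem v.2 (inv_mem v'.2)) (by rw [h1]; exact mul_mem (inv_mem b.2) b'.2)
          have h3 : (v : G) = v' := mul_inv_eq_one.mp h2
          rw [h3] at h0
          have h4 : (b : G) = b' := mul_right_cancel (mul_right_cancel h0)
          exact congrArg Sum.inr (Prod.ext (Subtype.ext h4) (Subtype.ext h3))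
      · rintro ⟨g, hg⟩
        rcases (hM g).mp hg with hb | ⟨b, hb, v, hv, rfl⟩
        · exact ⟨Sum.inl ⟨g, hb⟩, rfl⟩
        · exact ⟨Sum.inr (⟨b, hb⟩, ⟨v, hv⟩), rfl⟩
    rw [← Nat.card_congr (Equiv.ofBijective _ hbij), Nat.card_sum, Nat.card_prod, bn3_cardB c, c.cardV]
  refine ⟨hcard, ?_, ?_, ?_⟩
  · intro g hg hn
    rcases (hM g).mp hg with hb | ⟨b, hb, v, hv, rfl⟩
    · exact hb
    · exfalso
      apply c.t1
      apply hti.2 t c.tV
      have h1 := hn t c.tV
      have e : b * w * v * t * (b * w * v)⁻¹ = b * (w * t * w) * b⁻¹ := by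
        calc b * w * v * t * (b * w * v)⁻¹ = b * w * (v * t) * v⁻¹ * w⁻¹ * b⁻¹ := by group
          _ = b * w * (t * v) * v⁻¹ * w⁻¹ * b⁻¹ := by rw [bn3_comm c hv c.tV]
          _ = b * (w * t * w) * b⁻¹ := by rw [winv]; group
      rw [e] at h1
      have h2 := c.hVn b⁻¹ (inv_mem hb) _ h1
      have e2 : b⁻¹ * (b * (w * t * w) * b⁻¹) * b⁻¹⁻¹ = w * t * w := by group
      rw [e2] at h2
      exact c.hVB h2
  · intro s hs hs1 g hg hgs
    rcases (hM g).mp hg with hb | ⟨b, hb, v, hv, rfl⟩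
    · obtain ⟨v, hv, h, hh, rfl⟩ := c.hB g hb
      have hcm : h * s = s * h := by
        have : v * (h * s) = v * (s * h) := by
          rw [← mul_assoc, hgs, ← mul_assoc, bn3_comm c hs hv, mul_assoc]
        exact mul_left_cancel this
      by_cases h1 : h = 1
      · rw [h1, mul_one]; exact hv
      · exact absurd (c.fpf h hh h1 s hs hcm) hs1
    · exfalso
      apply hs1
      apply hti.2 s hs
      have h1 : w * s * w = b⁻¹ * s * b := by
        have h2 : b * w * s * v = s * b * w * v := by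
          calc b * w * s * v = b * w * (s * v) := by group
            _ = b * w * (v * s) := by rw [bn3_comm c hs hv]
            _ = b * w * v * s := by group
            _ = s * (b * w * v) := hgs
            _ = s * b * w * v := by group
        have h3 : b * w * s = s * b * w := mul_right_cancel h2
        calc w * s * w = b⁻¹ * (b * w * s) * w := by group
          _ = b⁻¹ * (s * b * w) * w := by rw [h3]
          _ = b⁻¹ * s * b * (w * w) := by group
          _ = b⁻¹ * s * b := by rw [c.w2, mul_one]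
      rw [h1]
      exact mul_mem (mul_mem (inv_mem hb) (c.hVB hs)) hb
  · intro g hg hg2 hg1
    have : Fact (Nat.Prime 2) := ⟨Nat.prime_two⟩
    have hV'card : Nat.card (V.subgroupOf M) = 16 := by
      rw [Nat.card_congr (Subgroup.subgroupOfEquivOfLe hVM).toEquiv, c.cardV]
    have hidx : (V.subgroupOf M).index = 255 := by
      have := Subgroup.card_mul_index (V.subgroupOf M)
      rw [hV'card, hcard] at this
      omega
    have hV'p : IsPGroup 2 (V.subgroupOf M) := IsPGroup.of_card (n := 4) (by rw [hV'card]; norm_num)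
    let P : Sylow 2 M := hV'p.toSylow (by rw [hidx]; norm_num)
    have hPc : (P : Subgroup M) = V.subgroupOf M := rfl
    have hgp : IsPGroup 2 (Subgroup.zpowers (⟨g, hg⟩ : M)) := by
      rw [IsPGroup.iff_card]
      refine ⟨1, ?_⟩
      rw [Nat.card_zpowers, pow_one]
      apply orderOf_eq_prime
      · rw [pow_two]; exact Subtype.ext hg2
      · intro hh; exact hg1 (congrArg Subtype.val hh)
    obtain ⟨Q, hQ⟩ := hgp.exists_le_sylow
    obtain ⟨m, hm⟩ := MulAction.exists_smul_eq M Q P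
    have h1 : m * ⟨g, hg⟩ * m⁻¹ ∈ (m • Q : Sylow 2 M) := by
      have h2 := Subgroup.smul_mem_pointwise_smul _ (MulAut.conj m) (Q : Subgroup M) (hQ (Subgroup.mem_zpowers _))
      have h3 : (MulAut.conj m) • (⟨g, hg⟩ : M) = m * ⟨g, hg⟩ * m⁻¹ := by simp [MulAut.smul_def]
      rw [h3] at h2
      exact h2
    rw [hm] at h1
    have h4 : m * ⟨g, hg⟩ * m⁻¹ ∈ V.subgroupOf M := h1
    exact ⟨m, m.2, Subgroup.mem_subgroupOf.mp h4⟩

end Cfsg.Agent.Lib.SL16
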