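import Mathlib

/-! S1652, piece FIN (helper42). -/

set_option autoImplicit false

namespace Cfsg.Agent.Lib.SL16

/-- FIN : the extension by `i` -/
theorem fin {G : Type*} [Group G] [Finite G] {M : Subgroup G} {i : G} (hi : i * i = 1) (hiM : i ∉ M)
    (hn : ∀ g ∈ M, i * g * i ∈ M) {K : Type} [Field K] [Fintype K] (hK : Fintype.card K = 16)
    (e : Nonempty (M ≃* Matrix.SpecialLinearGroup (Fin 2) K)) :
    ∃ (H : Subgroup G) (N : Subgroup H) (K : Type) (_ : Field K) (_ : Fintype K), N.Normal ∧ N.index = 2 ∧
      Fintype.card K = 16 ∧ Nonempty (N ≃* Matrix.SpecialLinearGroup (Fin 2) K) := by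
  have hinv : i⁻¹ = i := inv_eq_of_mul_eq_one_left hi
  let H : Subgroup G :=
    { carrier := {g | g ∈ M ∨ i * g ∈ M}
      one_mem' := Or.inl M.one_mem
      mul_mem' := by
        rintro a b (ha | ha) (hb | hb)
        · exact Or.inl (M.mul_mem ha hb)
        · right
          have : i * (a * b) = (i * a * i) * (i * b) := by
            calc i * (a * b) = i * a * 1 * b := by group
              _ = i * a * (i * i) * b := by rw [hi]
              _ = (i * a * i) * (i * b) := by group
          rw [this]
          exact M.mul_mem (hn a ha) hb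
        · right
          have : i * (a * b) = (i * a) * b := by group
          rw [this]
          exact M.mul_mem ha hb
        · left
          have : a * b = (i * (i * a) * i) * (i * b) := by
            calc a * b = 1 * a * 1 * b := by group
              _ = (i * i) * a * (i * i) * b := by rw [hi]
              _ = (i * (i * a) * i) * (i * b) := by group
          rw [this]
          exact M.mul_mem (hn _ ha) hb
      inv_mem' := by
        rintro a (ha | ha)
        · exact Or.inl (M.inv_mem ha)
        · right
          have : i * a⁻¹ = i * (i * a)⁻¹ * i := by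
            calc i * a⁻¹ = i * a⁻¹ * 1 := by group
              _ = i * a⁻¹ * (i * i) := by rw [hi]
              _ = i * (a⁻¹ * i) * i := by group
              _ = i * (a⁻¹ * i⁻¹) * i := by rw [hinv]
              _ = i * (i * a)⁻¹ * i := by rw [mul_inv_rev]
          rw [this]
          exact hn _ (M.inv_mem ha) }
  have hH : ∀ g, g ∈ H ↔ (g ∈ M ∨ i * g ∈ M) := fun g => Iff.rfl
  have hMH : M ≤ H := fun g hg => Or.inl hg
  have hiH : i ∈ H := by rw [hH, hi]; exact Or.inr M.one_mem
  refine ⟨H, M.subgroupOf H, K, inferInstance, inferInstance, ?_, ?_, hK, ?_⟩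
  · refine ⟨fun n hn' g => ?_⟩
    rw [Subgroup.mem_subgroupOf] at hn' ⊢
    change (g : G) * (n : G) * (g : G)⁻¹ ∈ M
    rcases g.2 with hg | hg
    · exact M.mul_mem (M.mul_mem hg hn') (M.inv_mem hg)
    · have : (g : G) * (n : G) * (g : G)⁻¹ = i * ((i * g) * n * (i * g)⁻¹) * i := by
        rw [mul_inv_rev, hinv]
        calc (g : G) * (n : G) * (g : G)⁻¹ = 1 * (g * n * (g : G)⁻¹) * 1 := by group
          _ = (i * i) * (g * n * (g : G)⁻¹) * (i * i) := by rw [hi]
          _ = _ := by group
      rw [this]
      exact hn _ (M.mul_mem (M.mul_mem hg hn') (M.inv_mem hg))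
  · rw [Subgroup.index_eq_two_iff]
    refine ⟨⟨i, hiH⟩, fun b => ?_⟩
    rw [Subgroup.mem_subgroupOf, Subgroup.mem_subgroupOf]
    change Xor' ((b : G) * i ∈ M) ((b : G) ∈ M)
    rcases b.2 with hb | hb
    · right
      refine ⟨hb, fun h => hiM ?_⟩
      exact (M.mul_mem_cancel_left hb).1 h
    · left
      have hbi : (b : G) * i = i * (i * b) * i := by
        calc (b : G) * i = 1 * b * i := by group
          _ = (i * i) * b * i := by rw [hi]
          _ = _ := by group
      refine ⟨by rw [hbi]; exact hn _ hb, fun h => hiM ?_⟩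
      exact (M.mul_mem_cancel_right h).1 hb
  · obtain ⟨e⟩ := e
    exact ⟨(Subgroup.subgroupOfEquivOfLe hMH).trans e⟩

end Cfsg.Agent.Lib.SL16
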