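import Mathlib
import Cfsg.Agent.Lib.ElemCent3
import Cfsg.Agent.Lib.SL16A

set_option autoImplicit false

namespace Cfsg.Agent.Lib.SL16

theorem rec_center_bot {K : Type*} [Field K] [Fintype K] (hK : Fintype.card K = 16) :
    Subgroup.center (Matrix.SpecialLinearGroup (Fin 2) K) = ⊥ := by
  have h2 : (2 : K) = 0 := by
    have h := FiniteField.cast_card_eq_zero K
    rw [hK] at h
    have h3 : (2 : K) ^ 4 = 0 := by
      rw [← h]; norm_num
    exact pow_eq_zero_iff (by norm_num) |>.1 h3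
  rw [eq_bot_iff]
  intro A hA
  rw [Matrix.SpecialLinearGroup.mem_center_iff] at hA
  obtain ⟨r, hr, hrA⟩ := hA
  have hr1 : r = 1 := by
    have h3 : (r - 1) ^ 2 = 0 := by
      rw [Fintype.card_fin] at hr
      have : (r - 1) ^ 2 = r ^ 2 - 2 * r + 1 := by ring
      rw [this, hr, h2]
      have : (1 : K) - 0 * r + 1 = 2 := by ring
      rw [this, h2]
    exact sub_eq_zero.1 (pow_eq_zero_iff (by norm_num) |>.1 h3)
  rw [Subgroup.mem_bot]
  ext i j
  rw [← hrA, hr1]
  simp

theorem rec_psl_sl {K : Type*} [Field K] [Fintype K] (hK : Fintype.card K = 16) :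
    Nonempty (Matrix.ProjectiveSpecialLinearGroup (Fin 2) K ≃* Matrix.SpecialLinearGroup (Fin 2) K) := by
  have h := rec_center_bot hK
  exact ⟨(QuotientGroup.quotientMulEquivOfEq h).trans QuotientGroup.quotientBot⟩

/-- REC : recognition -/
theorem Cfg.rec' {G : Type*} [Group G] [Finite G] {V H B : Subgroup G} {w t : G} (c : Cfg V H B w t)
    (M : Subgroup G) (hM : ∀ g, g ∈ M ↔ (g ∈ B ∨ ∃ b ∈ B, ∃ v ∈ V, g = b * w * v))
    (h1 : Nat.card M = 4080) (h2 : ∀ g ∈ M, (∀ v ∈ V, g * v * g⁻¹ ∈ V) → g ∈ B)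
    (h3 : ∀ s ∈ V, s ≠ 1 → ∀ g ∈ M, g * s = s * g → g ∈ V)
    (h4 : ∀ g ∈ M, g * g = 1 → g ≠ 1 → ∃ m ∈ M, m * g * m⁻¹ ∈ V) :
    ∃ (K : Type) (_ : Field K) (_ : Fintype K), Fintype.card K = 16 ∧
      Nonempty (M ≃* Matrix.SpecialLinearGroup (Fin 2) K) := by
  classical
  have hBM : B ≤ M := fun b hb => (hM b).2 (Or.inl hb)
  have hVM : V ≤ M := c.hVB.trans hBM
  have hcV : Nat.card (V.subgroupOf M) = 16 := by
    rw [Nat.card_congr (Subgroup.subgroupOfEquivOfLe hVM).toEquiv, c.cardV]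
  have : Fact (Nat.Prime 2) := ⟨Nat.prime_two⟩
  let T : Sylow 2 M := Sylow.ofCard (V.subgroupOf M) (by
    rw [hcV, h1]
    have : (4080 : ℕ) = 2 ^ 4 * 255 := by norm_num
    rw [this, Nat.factorization_mul (by norm_num) (by norm_num), Nat.Prime.factorization_pow Nat.prime_two]
    have h0 : (Nat.factorization 255) 2 = 0 := Nat.factorization_eq_zero_of_not_dvd (by norm_num)
    simp [h0])
  have hT : (T : Subgroup M) = V.subgroupOf M := rfl
  have hsq : ∀ x : M, (∃ m ∈ M, m * (x : G) * m⁻¹ ∈ V) → x * x = 1 := by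
    rintro x ⟨m, hm, hx⟩
    have h := c.hV2 _ hx
    apply Subtype.ext
    have e1 : (x : G) * x = m⁻¹ * ((m * (x : G) * m⁻¹) * (m * (x : G) * m⁻¹)) * m := by group
    show (x : G) * x = 1
    rw [e1, h]; group
  have hC : ∀ t : M, orderOf t = 2 → ∀ g ∈ Subgroup.centralizer ({t} : Set M), g * g = 1 := by
    intro t ht g hg
    rw [Subgroup.mem_centralizer_singleton_iff] at hg
    have ht2 : (t : G) * t = 1 := by
      have := pow_orderOf_eq_one t
      rw [ht, pow_two] at this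
      exact congrArg Subtype.val this
    have ht1 : (t : G) ≠ 1 := by
      intro h
      have : t = 1 := Subtype.ext h
      rw [this, orderOf_one] at ht
      norm_num at ht
    obtain ⟨m, hm, hmt⟩ := h4 t t.2 ht2 ht1
    apply hsq
    refine ⟨m, hm, h3 _ hmt ?_ _ (M.mul_mem (M.mul_mem hm g.2) (M.inv_mem hm)) ?_⟩
    · intro h
      apply ht1
      rw [mul_inv_eq_one] at h
      exact mul_eq_left.1 h
    · have hg' : (g : G) * t = t * g := congrArg Subtype.val hg
      calc m * (g : G) * m⁻¹ * (m * (t : G) * m⁻¹) = m * ((g : G) * t) * m⁻¹ := by group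
        _ = m * ((t : G) * g) * m⁻¹ := by rw [hg']
        _ = _ := by group
  obtain ⟨F, hF1, hF2, hF3, ⟨e⟩⟩ := Cfsg.Agent.Lib.ElemCent.psl_two T (by
      intro hcyc
      rw [hT] at hcyc
      obtain ⟨g, hg⟩ := hcyc.exists_ofOrder_eq_natCard
      rw [hcV] at hg
      have hg2 : g ^ 2 = 1 := by
        apply Subtype.ext
        apply Subtype.ext
        have := c.hV2 _ (Subgroup.mem_subgroupOf.1 g.2)
        rw [pow_two]
        exact this
      have := Nat.le_of_dvd (by norm_num) (orderOf_dvd_of_pow_eq_one hg2)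
      omega) (by
      intro hn
      rw [hT] at hn
      have hMB : M ≤ B := by
        intro g hg
        apply h2 g hg
        intro v hv
        have := hn.conj_mem (⟨v, hVM hv⟩ : M) (Subgroup.mem_subgroupOf.2 hv) ⟨g, hg⟩
        exact Subgroup.mem_subgroupOf.1 this
      have hle : Nat.card B ≤ Nat.card (V × H) := by
        apply Nat.card_le_card_of_surjective (fun p : V × H => (⟨p.1 * p.2, B.mul_mem (c.hVB p.1.2) (c.hHB p.2.2)⟩ : B))
        rintro ⟨b, hb⟩
        obtain ⟨v, hv, h, hh, rfl⟩ := c.hB b hb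
        exact ⟨(⟨v, hv⟩, ⟨h, hh⟩), rfl⟩
      rw [Nat.card_prod, c.cardV, c.cardH] at hle
      have := Subgroup.card_le_of_le hMB
      omega) (by
      intro t ht
      refine ⟨⟨⟨fun a b => ?_⟩⟩, fun g hg => by rw [pow_two]; exact hC t ht g hg⟩
      apply Subtype.ext
      have ha := hC t ht a a.2
      have hb := hC t ht b b.2
      have hab := hC t ht _ (a * b).2
      show (a : M) * b = b * a
      have hab' : (a : M) * b * (a * b) = 1 := hab
      calc (a : M) * b = a * b * (((a : M) * b * (a * b))⁻¹ * 1) * 1 := by rw [hab']; group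
        _ = (b : M)⁻¹ * (a : M)⁻¹ := by group
        _ = b * a := by rw [← eq_inv_of_mul_eq_one_left ha, ← eq_inv_of_mul_eq_one_left hb])
  have hF4 : Fintype.card F = 16 := by rw [hF3, hT, hcV]
  obtain ⟨e2⟩ := rec_psl_sl hF4
  exact ⟨F, hF1, hF2, hF4, ⟨e.trans e2⟩⟩

end Cfsg.Agent.Lib.SL16
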