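import Mathlib
import Cfsg.Agent.Lib.SL16B
import Cfsg.Agent.Lib.SL16BN1
import Cfsg.Agent.Lib.SL16BN2
import Cfsg.Agent.Lib.SL16BN3
import Cfsg.Agent.Lib.SL16REC
import Cfsg.Agent.Lib.SL16FIN

/-! # SL(2,16) in groups of J3 type (S1652): assembly (helper84) -/

set_option autoImplicit false

namespace Cfsg.Agent.Lib.SL16

variable {G : Type*} [Group G] [Finite G]

theorem asm {V : Subgroup G} {x y i j t : G} (cardV : Nat.card V = 16) (hV2 : ∀ v ∈ V, v * v = 1)
    (hx : orderOf x = 5) (hy : orderOf y = 3) (hi : orderOf i = 2) (hxy : x * y = y * x)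
    (ix : i * x * i⁻¹ = x⁻¹) (iy : i * y = y * i)
    (hxV : ∀ v ∈ V, x * v * x⁻¹ ∈ V) (hyV : ∀ v ∈ V, y * v * y⁻¹ ∈ V) (hiV : ∀ v ∈ V, i * v * i⁻¹ ∈ V)
    (fx : ∀ v ∈ V, x * v = v * x → v = 1) (fy : ∀ v ∈ V, y * v = v * y → v = 1)
    (hj : orderOf j = 2) (jx : j * x = x * j) (jy : j * y * j⁻¹ = y⁻¹) (ij : i * j = j * i)
    (tV : t ∈ V) (t1 : t ≠ 1)
    (hrel : (i * j) * t * (i * j) = t * (i * j) * t ∨ j * t * j = t * j * t) :
    ∃ (H : Subgroup G) (N : Subgroup H) (K : Type) (_ : Field K) (_ : Fintype K), N.Normal ∧ N.index = 2 ∧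
      Fintype.card K = 16 ∧ Nonempty (N ≃* Matrix.SpecialLinearGroup (Fin 2) K) := by
  have ii : i * i = 1 := by rw [← pow_two, ← hi]; exact pow_orderOf_eq_one i
  have jj : j * j = 1 := by rw [← pow_two, ← hj]; exact pow_orderOf_eq_one j
  have iinv : i⁻¹ = i := inv_eq_of_mul_eq_one_left ii
  have jinv : j⁻¹ = j := inv_eq_of_mul_eq_one_left jj
  have hc : Commute x y := hxy
  have x5 : x ^ 5 = 1 := by rw [← hx]; exact pow_orderOf_eq_one x
  have y3 : y ^ 3 = 1 := by rw [← hy]; exact pow_orderOf_eq_one y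
  have hxH : x ∈ Subgroup.zpowers (x * y) := by
    refine Subgroup.mem_zpowers_iff.2 ⟨6, ?_⟩
    rw [hc.mul_zpow]
    have e1 : x ^ (6 : ℤ) = x ^ 5 * x := by group
    have e2 : y ^ (6 : ℤ) = y ^ 3 * y ^ 3 := by group
    rw [e1, e2, x5, y3]; group
  have hyH : y ∈ Subgroup.zpowers (x * y) := by
    refine Subgroup.mem_zpowers_iff.2 ⟨10, ?_⟩
    rw [hc.mul_zpow]
    have e1 : x ^ (10 : ℤ) = x ^ 5 * x ^ 5 := by group
    have e2 : y ^ (10 : ℤ) = y ^ 3 * y ^ 3 * y ^ 3 * y := by group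
    rw [e1, e2, x5, y3]; group
  have hxN : ∀ v ∈ V, x⁻¹ * v * x ∈ V := by
    intro v hv
    have e : x⁻¹ = x ^ 4 := by
      rw [inv_eq_iff_mul_eq_one, ← pow_succ', x5]
    have e' : x = (x ^ 4)⁻¹ := by rw [← e, inv_inv]
    have h4 : x⁻¹ * v * x = x * (x * (x * (x * v * x⁻¹) * x⁻¹) * x⁻¹) * x⁻¹ := by
      calc x⁻¹ * v * x = x ^ 4 * v * (x ^ 4)⁻¹ := by rw [← e', ← e]
        _ = _ := by simp only [pow_succ, pow_zero, one_mul, mul_inv_rev, mul_assoc]
    rw [h4]
    exact hxV _ (hxV _ (hxV _ (hxV _ hv)))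
  have hyN : ∀ v ∈ V, y⁻¹ * v * y ∈ V := by
    intro v hv
    have e : y⁻¹ = y ^ 2 := by
      rw [inv_eq_iff_mul_eq_one, ← pow_succ', y3]
    have e' : y = (y ^ 2)⁻¹ := by rw [← e, inv_inv]
    have h4 : y⁻¹ * v * y = y * (y * v * y⁻¹) * y⁻¹ := by
      calc y⁻¹ * v * y = y ^ 2 * v * (y ^ 2)⁻¹ := by rw [← e', ← e]
        _ = _ := by simp only [pow_succ, pow_zero, one_mul, mul_inv_rev, mul_assoc]
    rw [h4]
    exact hyV _ (hyV _ hv)
  have hxyN : x * y ∈ Subgroup.normalizer (V : Set G) := by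
    rw [Subgroup.mem_normalizer_iff]
    intro v
    constructor
    · intro hv
      have e : x * y * v * (x * y)⁻¹ = x * (y * v * y⁻¹) * x⁻¹ := by group
      rw [e]
      exact hxV _ (hyV _ hv)
    · intro hv
      have e : v = y⁻¹ * (x⁻¹ * (x * y * v * (x * y)⁻¹) * x) * y := by group
      rw [e]
      exact hyN _ (hxN _ hv)
  have hn : ∀ h ∈ Subgroup.zpowers (x * y), ∀ v ∈ V, h * v * h⁻¹ ∈ V := by
    intro h hh v hv
    have h1 : h ∈ Subgroup.normalizer (V : Set G) := (Subgroup.zpowers_le.2 hxyN) hh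
    exact (Subgroup.mem_normalizer_iff.1 h1 v).1 hv
  have hx' : x⁻¹ ∈ Subgroup.zpowers (x * y) := Subgroup.inv_mem _ hxH
  have hy' : y⁻¹ ∈ Subgroup.zpowers (x * y) := Subgroup.inv_mem _ hyH
  have iy' : i * y * i⁻¹ = y := by rw [iy]; group
  have jx' : j * x * j⁻¹ = x := by rw [jx]; group
  have hiV1 : i ∉ V := by
    intro h
    have := fy i h iy.symm
    rw [this, orderOf_one] at hi
    omega
  rcases hrel with hrel | hrel
  · -- the good case
    have w2 : (i * j) * (i * j) = 1 := by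
      calc (i * j) * (i * j) = i * (j * i) * j := by group
        _ = i * (i * j) * j := by rw [ij]
        _ = (i * i) * (j * j) := by group
        _ = 1 := by rw [ii, jj, one_mul]
    have wx : (i * j) * x * (i * j)⁻¹ = x⁻¹ := by
      have e : (i * j) * x * (i * j)⁻¹ = i * (j * x * j⁻¹) * i⁻¹ := by group
      rw [e, jx', ix]
    have wy : (i * j) * y * (i * j)⁻¹ = y⁻¹ := by
      have e : (i * j) * y * (i * j)⁻¹ = i * (j * y * j⁻¹) * i⁻¹ := by group
      have e2 : i * y⁻¹ * i⁻¹ = (i * y * i⁻¹)⁻¹ := by group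
      rw [e, jy, e2, iy']
    have w1 : i * j ≠ 1 := by
      intro h
      rw [h] at wx
      have h2 : x = x⁻¹ := by simpa using wx
      have h3 : x ^ 2 = 1 := by
        rw [pow_two]; nth_rewrite 2 [h2]; exact mul_inv_cancel x
      have h4 := orderOf_dvd_of_pow_eq_one h3
      rw [hx] at h4
      norm_num at h4
    have c := mk_cfg hV2 cardV hx hy hxy hxV hyV fx fy (by rw [wx]; exact hx') (by rw [wy]; exact hy') w2 w1 tV t1
      hrel hn
    set H := Subgroup.zpowers (x * y) with hH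
    set B := Bor V H hn with hB
    obtain ⟨M, hM⟩ := c.exists_M
    obtain ⟨f1, f2, f3, f4⟩ := c.facts c.ti M hM
    have hiM : i ∉ M := by
      intro hiM
      exact hiV1 (BN2.mem_of_sq c (f2 i hiM hiV) ii)
    have hiB : ∀ b ∈ B, i * b * i ∈ B := by
      intro b hb
      obtain ⟨v, hv, h, hh, rfl⟩ := c.hB b hb
      have e : i * (v * h) * i = (i * v * i⁻¹) * (i * h * i⁻¹) := by
        rw [iinv]
        calc i * (v * h) * i = i * v * 1 * h * i := by group
          _ = i * v * (i * i) * h * i := by rw [ii]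
          _ = i * v * i * (i * h * i) := by group
      rw [e]
      refine B.mul_mem (c.hVB (hiV v hv)) (c.hHB ?_)
      obtain ⟨k, rfl⟩ := Subgroup.mem_zpowers_iff.1 hh
      have e2 : i * (x * y) ^ k * i⁻¹ = ((i * x * i⁻¹) * (i * y * i⁻¹)) ^ k := by
        rw [← conj_zpow]; congr 1; group
      rw [e2, ix, iy']
      exact Subgroup.zpow_mem _ (Subgroup.mul_mem _ hx' hyH) k
    have hn2 : ∀ g ∈ M, i * g * i ∈ M := by
      intro g hg
      rcases (hM g).1 hg with hb | ⟨b, hb, v, hv, rfl⟩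
      · exact (hM _).2 (Or.inl (hiB g hb))
      · refine (hM _).2 (Or.inr ⟨i * b * i, hiB b hb, i * v * i, ?_, ?_⟩)
        · have := hiV v hv
          rwa [iinv] at this
        · calc i * (b * (i * j) * v) * i = i * b * 1 * (i * j) * 1 * v * i := by group
            _ = i * b * (i * i) * (i * j) * (i * i) * v * i := by rw [ii]
            _ = i * b * i * (i * (i * j) * i) * (i * v * i) := by group
            _ = i * b * i * (i * j) * (i * v * i) := by
              congr 2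
              rw [ij, ← mul_assoc, mul_assoc, ii, mul_one, ← ij]
    obtain ⟨K, iK1, iK2, hK, e⟩ := c.rec' M hM f1 f2 f3 f4
    exact fin ii hiM hn2 hK e
  · exfalso
    have wx : j * x * j⁻¹ ∈ Subgroup.zpowers (x * y) := by rw [jx']; exact hxH
    have wy : j * y * j⁻¹ ∈ Subgroup.zpowers (x * y) := by rw [jy]; exact hy'
    have j1 : j ≠ 1 := by
      intro h
      rw [h, orderOf_one] at hj
      omega
    have c := mk_cfg hV2 cardV hx hy hxy hxV hyV fx fy wx wy jj j1 tV t1 hrel hn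
    obtain ⟨M, hM⟩ := c.exists_M
    obtain ⟨f1, f2, f3, f4⟩ := c.facts c.ti M hM
    have hjM : j ∈ M := (hM j).2 (Or.inr ⟨1, one_mem _, 1, one_mem _, by group⟩)
    have hxM : x ∈ M := (hM x).2 (Or.inl (c.hHB hxH))
    obtain ⟨m, hm, hmj⟩ := f4 j hjM jj j1
    have hne : m * j * m⁻¹ ≠ 1 := by
      intro h
      apply j1
      have : j = m⁻¹ * (m * j * m⁻¹) * m := by group
      rw [this, h]; group
    have h1 := f3 _ hmj hne (m * x * m⁻¹) (M.mul_mem (M.mul_mem hm hxM) (M.inv_mem hm)) (by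
      calc m * x * m⁻¹ * (m * j * m⁻¹) = m * (x * j) * m⁻¹ := by group
        _ = m * (j * x) * m⁻¹ := by rw [jx]
        _ = m * j * m⁻¹ * (m * x * m⁻¹) := by group)
    have h2 := hV2 _ h1
    have h3 : x ^ 2 = 1 := by
      calc x ^ 2 = m⁻¹ * (m * x * m⁻¹ * (m * x * m⁻¹)) * m := by rw [pow_two]; group
        _ = 1 := by rw [h2]; group
    have h4 := orderOf_dvd_of_pow_eq_one h3
    rw [hx] at h4
    norm_num at h4

end Cfsg.Agent.Lib.SL16
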