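import Cfsg.Agent.Lib.SL16REL
import Cfsg.Agent.Lib.SL16A5

/-! S1652, piece LIFT (helper47) -/

set_option autoImplicit false
namespace Cfsg.Agent.Lib.SL16

/-- `g^5 ∈ {1,z}` when `φ g` has order five -/
theorem pow5 {C : Type*} [Group C] [Finite C] (Q : Subgroup C) (z : C) (hQ : Nat.card Q = 32)
    (φ : C →* alternatingGroup (Fin 5)) (hφ : ∀ g, φ g = 1 ↔ g ∈ Q)
    (fix : ∀ g : C, orderOf g = 5 → ∀ q ∈ Q, g * q = q * g → q = 1 ∨ q = z)
    (g : C) (h5 : (φ g) ^ 5 = 1) (h1 : φ g ≠ 1) : g ^ 5 = 1 ∨ g ^ 5 = z := by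
  have hq : g ^ 5 ∈ Q := by rw [← hφ, map_pow]; exact h5
  have h160 : (g ^ 32) ^ 5 = 1 := by
    have h := pow_card_eq_one' (G := Q) (x := ⟨g ^ 5, hq⟩)
    rw [hQ] at h
    have h' := congrArg Subtype.val h
    simp only [SubmonoidClass.coe_pow, OneMemClass.coe_one] at h'
    rw [← pow_mul] at h' ⊢
    exact h'
  have hne : g ^ 32 ≠ 1 := by
    intro h
    have h' : (φ g) ^ 32 = 1 := by rw [← map_pow, h, map_one]
    have h2 : (φ g) ^ 2 = 1 := by
      have : (φ g) ^ 32 = ((φ g) ^ 5) ^ 6 * (φ g) ^ 2 := by rw [← pow_mul, ← pow_add]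
      rw [this, h5, one_pow, one_mul] at h'
      exact h'
    have h3 : (φ g) ^ 5 = ((φ g) ^ 2) ^ 2 * φ g := by rw [← pow_mul, ← pow_succ]
    rw [h5, h2, one_pow, one_mul] at h3
    exact h1 h3.symm
  have ho : orderOf (g ^ 32) = 5 := by
    have : Fact (Nat.Prime 5) := ⟨by norm_num⟩
    exact orderOf_eq_prime h160 hne
  exact fix _ ho _ hq (by rw [← pow_add, ← pow_add])

/-- LIFT -/
theorem lift {C : Type*} [Group C] [Finite C] (Q : Subgroup C) (z : C) (hz : z ∈ Q) (hzz : z * z = 1)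
    (hzc : ∀ g : C, g * z = z * g) (hQ : Nat.card Q = 32) (φ : C →* alternatingGroup (Fin 5))
    (hφ : ∀ g, φ g = 1 ↔ g ∈ Q) (fix : ∀ g : C, orderOf g = 5 → ∀ q ∈ Q, g * q = q * g → q = 1 ∨ q = z)
    (t y w : C) (ht : t * t = 1) (htQ : t ∉ Q) (hy : orderOf y = 3)
    (hn : t * (y * t * y⁻¹) ∉ Q) (hc : t * (y * t * y⁻¹) = y⁻¹ * t * y) (hw : w * w = 1) (hwy : w * y * w = y⁻¹) :
    ∃ k : ℤ, (w * (y ^ k * t * (y ^ k)⁻¹)) ^ 3 = 1 ∨ (w * (y ^ k * t * (y ^ k)⁻¹)) ^ 3 = z := by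
  have hy3 : y * y * y = 1 := by
    have := pow_orderOf_eq_one y
    rw [hy] at this
    rw [← this, pow_succ, pow_two]
  have hyy : y⁻¹ = y * y := by rw [inv_eq_iff_mul_eq_one, ← mul_assoc, hy3]
  -- the three conjugates
  obtain ⟨t1, e1⟩ : ∃ t1, t1 = y * t * y⁻¹ := ⟨_, rfl⟩
  obtain ⟨t2, e2⟩ : ∃ t2, t2 = y⁻¹ * t * y := ⟨_, rfl⟩
  have y0 : y * t = t1 * y := by rw [e1]; group
  have y1 : y * t1 = t2 * y := by
    have h : y * t1 * y⁻¹ = t2 := by
      rw [e1, e2, hyy]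
      have : y * (y * t * (y * y)) * (y * y) = (y * y) * t * (y * y * y) * y := by group
      rw [this, hy3, mul_one]
    rw [← h]; group
  have y2 : y * t2 = t * y := by rw [e2]; group
  have h1 : t1 * t1 = 1 := by
    have : t1 * t1 = y * (t * t) * y⁻¹ := by rw [e1]; group
    rw [this, ht]; group
  have h2 : t2 * t2 = 1 := by
    have : t2 * t2 = y⁻¹ * (t * t) * y := by rw [e2]; group
    rw [this, ht]; group
  have h01 : t * t1 = t2 := by rw [e1, e2]; exact hc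
  have h12 : t1 * t2 = t := by
    have : y * (t * t1) = y * t2 := by rw [h01]
    rw [← mul_assoc, y0, mul_assoc, y1, ← mul_assoc, y2] at this
    exact mul_right_cancel this
  have h20 : t2 * t = t1 := by
    have : y * (t1 * t2) = y * t := by rw [h12]
    rw [← mul_assoc, y1, mul_assoc, y2, ← mul_assoc, y0] at this
    exact mul_right_cancel this
  have hwy' : w * y = y⁻¹ * w := by
    rw [← hwy, mul_assoc, hw, mul_one]
  -- the quotient
  have hN : (Subgroup.zpowers z).Normal := by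
    refine ⟨fun n hn g => ?_⟩
    obtain ⟨k, rfl⟩ := Subgroup.mem_zpowers_iff.1 hn
    have : g * z ^ k * g⁻¹ = z ^ k := by
      have hc : Commute g z := hzc g
      rw [(hc.zpow_right k).eq, mul_inv_cancel_right]
    rw [this]; exact hn
  have hmem : ∀ g : C, (QuotientGroup.mk' (Subgroup.zpowers z) g = 1) ↔ (g = 1 ∨ g = z) := by
    intro g
    rw [← MonoidHom.mem_ker, QuotientGroup.ker_mk']
    constructor
    · intro h
      obtain ⟨k, rfl⟩ := Subgroup.mem_zpowers_iff.1 h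
      rcases Int.even_or_odd' k with ⟨m, rfl | rfl⟩
      · left
        rw [zpow_mul, zpow_two, hzz, one_zpow]
      · right
        rw [zpow_add, zpow_mul, zpow_two, hzz, one_zpow, one_mul, zpow_one]
    · rintro (rfl | rfl)
      · exact one_mem _
      · exact Subgroup.mem_zpowers _
  -- key : from two fifth powers
  have key : ∀ a b c : C, a * a = 1 → b * b = 1 → c * c = 1 → a * b = c → b * c = a → c * a = b →
      y * a = b * y → y * b = c * y → y * c = a * y →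
      (φ (w * b)) ^ 5 = 1 → φ (w * b) ≠ 1 → (φ (w * c)) ^ 5 = 1 → φ (w * c) ≠ 1 →
      (w * a) ^ 3 = 1 ∨ (w * a) ^ 3 = z := by
    intro a b c ha hb hc' hab hbc hca ya yb yc f1 f2 f3 f4
    have g1 := (hmem _).2 (pow5 Q z hQ φ hφ fix _ f1 f2)
    have g2 := (hmem _).2 (pow5 Q z hQ φ hφ fix _ f3 f4)
    rw [← hmem, map_pow, map_mul]
    rw [map_pow, map_mul] at g1 g2
    refine rel (t1 := QuotientGroup.mk' (Subgroup.zpowers z) b) (t2 := QuotientGroup.mk' (Subgroup.zpowers z) c)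
      (y := QuotientGroup.mk' (Subgroup.zpowers z) y) ?_ ?_ ?_ ?_ ?_ ?_ ?_ ?_ ?_ ?_ ?_ ?_ g1 g2
    · rw [← map_mul, ha, map_one]
    · rw [← map_mul, hb, map_one]
    · rw [← map_mul, hc', map_one]
    · rw [← map_mul, hab]
    · rw [← map_mul, hbc]
    · rw [← map_mul, hca]
    · rw [← map_mul, ← map_mul, hy3, map_one]
    · rw [← map_mul, ← map_mul, ya]
    · rw [← map_mul, ← map_mul, yb]
    · rw [← map_mul, ← map_mul, yc]
    · rw [← map_mul, hw, map_one]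
    · rw [← map_inv, ← map_mul, ← map_mul, hwy']
  have A := a5 (φ t) (φ y) (φ w) (by rw [← map_mul, ht, map_one]) (fun h => htQ ((hφ t).1 h))
    (by rw [pow_succ, pow_two, ← map_mul, ← map_mul, hy3, map_one])
    (by
      intro h
      apply hn
      rw [← hφ, map_mul, map_mul, map_mul, map_inv, h, ← map_mul, ht, map_one])
    (by rw [← map_inv, ← map_mul, ← map_mul, ← map_mul, ← map_mul, ← map_mul, hc])
    (by rw [← map_mul, hw, map_one])
    (by rw [← map_inv, ← map_mul, ← map_mul, hwy])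
  have m1 : φ w * (φ y * φ t * (φ y)⁻¹) = φ (w * t1) := by
    rw [e1, ← map_inv, ← map_mul, ← map_mul, ← map_mul]
  have m2 : φ w * ((φ y)⁻¹ * φ t * φ y) = φ (w * t2) := by
    rw [e2, ← map_inv, ← map_mul, ← map_mul, ← map_mul]
  have m0 : φ w * φ t = φ (w * t) := by rw [map_mul]
  rw [m0, m1, m2] at A
  rcases A with ⟨a1, a2, a3, a4⟩ | ⟨a1, a2, a3, a4⟩ | ⟨a1, a2, a3, a4⟩
  · -- t, t1 good: (w t2)^3
    refine ⟨-1, ?_⟩
    have h := key t2 t t1 h2 ht h1 h20 h01 h12 y2 y0 y1 a1 a2 a3 a4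
    rw [zpow_neg_one, inv_inv, ← e2]
    exact h
  · refine ⟨0, ?_⟩
    have h := key t t1 t2 ht h1 h2 h01 h12 h20 y0 y1 y2 a1 a2 a3 a4
    rw [zpow_zero, inv_one, one_mul, mul_one]
    exact h
  · refine ⟨1, ?_⟩
    have h := key t1 t2 t h1 h2 ht h12 h20 h01 y1 y2 y0 a1 a2 a3 a4
    rw [zpow_one, ← e1]
    exact h

end Cfsg.Agent.Lib.SL16
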