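import Mathlib

/-!
# S1652, piece REL (helper44): pure words
-/

set_option autoImplicit false
set_option linter.unusedSimpArgs false
set_option linter.unusedVariables false

namespace Cfsg.Agent.Lib.SL16

theorem REL_tail {G : Type*} [Group G] {a b c : G} (h : a * b = c) (x : G) : a * (b * x) = c * x := by
  rw [← mul_assoc, h]

/-- REL : pure words -/
theorem rel {G : Type*} [Group G] {t0 t1 t2 y w : G} (h0 : t0 * t0 = 1) (h1 : t1 * t1 = 1) (h2 : t2 * t2 = 1)
    (h01 : t0 * t1 = t2) (h12 : t1 * t2 = t0) (h20 : t2 * t0 = t1) (hy : y * y * y = 1)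
    (y0 : y * t0 = t1 * y) (y1 : y * t1 = t2 * y) (y2 : y * t2 = t0 * y)
    (hw : w * w = 1) (hwy : w * y = y⁻¹ * w) (e1 : (w * t1) ^ 5 = 1) (e2 : (w * t2) ^ 5 = 1) : (w * t0) ^ 3 = 1 := by
  have h02 : t0 * t2 = t1 := by rw [← h01, REL_tail h0, one_mul]
  have h10 : t1 * t0 = t2 := by rw [← h12, REL_tail h1, one_mul]
  have h21 : t2 * t1 = t0 := by rw [← h20, REL_tail h2, one_mul]
  have yy : y * y = y⁻¹ := eq_inv_of_mul_eq_one_left hy
  have yiyi : y⁻¹ * y⁻¹ = y := by rw [← _root_.mul_inv_rev, yy, inv_inv]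
  have yiy : y⁻¹ * y = 1 := inv_mul_cancel y
  have yyi : y * y⁻¹ = 1 := mul_inv_cancel y
  have z0 : y⁻¹ * t0 = t2 * y⁻¹ := by rw [inv_mul_eq_iff_eq_mul, ← mul_assoc, y2, mul_assoc, yyi, mul_one]
  have z1 : y⁻¹ * t1 = t0 * y⁻¹ := by rw [inv_mul_eq_iff_eq_mul, ← mul_assoc, y0, mul_assoc, yyi, mul_one]
  have z2 : y⁻¹ * t2 = t1 * y⁻¹ := by rw [inv_mul_eq_iff_eq_mul, ← mul_assoc, y1, mul_assoc, yyi, mul_one]
  -- the second half
  have key : ∀ v : G, v * v = 1 → v * y = y⁻¹ * v → (v * t0) ^ 3 = 1 → (v * t1) ^ 5 = 1 := by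
    intro v vv vy e
    have yv : y * v = v * y⁻¹ := by
      have h6 : y * (v * y) = v := by rw [vy, ← mul_assoc, yyi, one_mul]
      calc y * v = (y * (v * y)) * y⁻¹ := by rw [mul_assoc, mul_assoc, yyi, mul_one]
        _ = v * y⁻¹ := by rw [h6]
    have yiv : y⁻¹ * v = v * y := vy.symm
    have A : v * (t0 * v) = t0 * (v * t0) := by
      have hB : (t0 * (v * t0)) * (t0 * (v * t0)) = 1 := by
        simp only [mul_assoc, REL_tail h0, REL_tail vv, one_mul, h0]
      have hAB : (v * (t0 * v)) * (t0 * (v * t0)) = 1 := by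
        rw [← e]; simp only [pow_succ, pow_zero, one_mul, mul_assoc]
      exact mul_right_cancel (hAB.trans hB.symm)
    have B : v * (t1 * v) = t2 * (v * (t1 * y⁻¹)) := by
      have := congrArg (fun g => y⁻¹ * g * y) A
      simp only [mul_assoc, h0, h1, h2, h01, h12, h20, h02, h10, h21, yy, yiyi, yiy, yyi, y0, y1, y2, z0, z1, z2, yv, yiv, vv,
        REL_tail h0, REL_tail h1, REL_tail h2, REL_tail h01, REL_tail h12, REL_tail h20, REL_tail h02, REL_tail h10,
        REL_tail h21, REL_tail yy, REL_tail yiyi, REL_tail yiy, REL_tail yyi, REL_tail y0, REL_tail y1, REL_tail y2,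
        REL_tail z0, REL_tail z1, REL_tail z2, REL_tail yv, REL_tail yiv, REL_tail vv, one_mul, mul_one] at this
      exact this
    calc (v * t1) ^ 5 = (v * (t1 * v)) * (t1 * ((v * (t1 * v)) * (t1 * (v * t1)))) := by
          simp only [pow_succ, pow_zero, one_mul, mul_assoc]
      _ = (t2 * (v * (t1 * y⁻¹))) * (t1 * ((t2 * (v * (t1 * y⁻¹))) * (t1 * (v * t1)))) := by rw [B]
      _ = t2 * ((v * (t0 * v)) * (t0 * (v * t1))) := by
        simp only [mul_assoc, h0, h1, h2, h01, h12, h20, h02, h10, h21, yy, yiyi, yiy, yyi, y0, y1, y2, z0, z1, z2, yv, yiv, vv,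
          REL_tail h0, REL_tail h1, REL_tail h2, REL_tail h01, REL_tail h12, REL_tail h20, REL_tail h02, REL_tail h10,
          REL_tail h21, REL_tail yy, REL_tail yiyi, REL_tail yiy, REL_tail yyi, REL_tail y0, REL_tail y1, REL_tail y2,
          REL_tail z0, REL_tail z1, REL_tail z2, REL_tail yv, REL_tail yiv, REL_tail vv, one_mul, mul_one]
      _ = t2 * ((t0 * (v * t0)) * (t0 * (v * t1))) := by rw [A]
      _ = 1 := by
        simp only [mul_assoc, h0, h1, h2, h01, h12, h20, h02, h10, h21, yy, yiyi, yiy, yyi, y0, y1, y2, z0, z1, z2, yv, yiv, vv,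
          REL_tail h0, REL_tail h1, REL_tail h2, REL_tail h01, REL_tail h12, REL_tail h20, REL_tail h02, REL_tail h10,
          REL_tail h21, REL_tail yy, REL_tail yiyi, REL_tail yiy, REL_tail yyi, REL_tail y0, REL_tail y1, REL_tail y2,
          REL_tail z0, REL_tail z1, REL_tail z2, REL_tail yv, REL_tail yiv, REL_tail vv, one_mul, mul_one]
  -- the first half
  have yiw : y⁻¹ * w = w * y := hwy.symm
  have yw : y * w = w * y⁻¹ := by
    have h6 : y * (w * y) = w := by rw [hwy, ← mul_assoc, yyi, one_mul]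
    calc y * w = (y * (w * y)) * y⁻¹ := by rw [mul_assoc, mul_assoc, yyi, mul_one]
      _ = w * y⁻¹ := by rw [h6]
  have R11 : w * (t1 * (w * (t1 * w))) = t1 * (w * (t1 * (w * t1))) := by
    have hB : (t1 * (w * (t1 * (w * t1)))) * (t1 * (w * (t1 * (w * t1)))) = 1 := by
      simp only [mul_assoc, REL_tail h1, REL_tail hw, one_mul, h1]
    have hAB : (w * (t1 * (w * (t1 * w)))) * (t1 * (w * (t1 * (w * t1)))) = 1 := by
      rw [← e1]; simp only [pow_succ, pow_zero, one_mul, mul_assoc]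
    exact mul_right_cancel (hAB.trans hB.symm)
  have R22 : w * (t2 * (w * (t2 * w))) = t2 * (w * (t2 * (w * t2))) := by
    have hB : (t2 * (w * (t2 * (w * t2)))) * (t2 * (w * (t2 * (w * t2)))) = 1 := by
      simp only [mul_assoc, REL_tail h2, REL_tail hw, one_mul, h2]
    have hAB : (w * (t2 * (w * (t2 * w)))) * (t2 * (w * (t2 * (w * t2)))) = 1 := by
      rw [← e2]; simp only [pow_succ, pow_zero, one_mul, mul_assoc]
    exact mul_right_cancel (hAB.trans hB.symm)
  have R02 := congrArg (fun g => y * g * y) R11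
  have R20 := congrArg (fun g => y⁻¹ * g * y⁻¹) R11
  have R10 := congrArg (fun g => y * g * y) R22
  have R01 := congrArg (fun g => y⁻¹ * g * y⁻¹) R22
  simp only [mul_assoc, h0, h1, h2, h01, h12, h20, h02, h10, h21, yy, yiyi, yiy, yyi, y0, y1, y2, z0, z1, z2, yw, yiw, hw,
    REL_tail h0, REL_tail h1, REL_tail h2, REL_tail h01, REL_tail h12, REL_tail h20, REL_tail h02, REL_tail h10,
    REL_tail h21, REL_tail yy, REL_tail yiyi, REL_tail yiy, REL_tail yyi, REL_tail y0, REL_tail y1, REL_tail y2,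
    REL_tail z0, REL_tail z1, REL_tail z2, REL_tail yw, REL_tail yiw, REL_tail hw, one_mul, mul_one] at R02 R20 R10 R01
  have W1 := congrArg (fun g => g * (t2 * w)) R10
  have W2 := congrArg (fun g => (w * t1) * g) R02
  have W3 := congrArg (fun g => g * (t1 * w)) R20
  have W4 := congrArg (fun g => (w * t2) * g) R01
  simp only [mul_assoc, h0, h1, h2, h01, h12, h20, h02, h10, h21, yy, yiyi, yiy, yyi, y0, y1, y2, z0, z1, z2, yw, yiw, hw,
    REL_tail h0, REL_tail h1, REL_tail h2, REL_tail h01, REL_tail h12, REL_tail h20, REL_tail h02, REL_tail h10,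
    REL_tail h21, REL_tail yy, REL_tail yiyi, REL_tail yiy, REL_tail yyi, REL_tail y0, REL_tail y1, REL_tail y2,
    REL_tail z0, REL_tail z1, REL_tail z2, REL_tail yw, REL_tail yiw, REL_tail hw, one_mul, mul_one] at W1 W2 W3 W4
  set q : G := (w * t0) ^ 3 with hq
  have hq' : q = w * (t0 * (w * (t0 * (w * t0)))) := by
    rw [hq]; simp only [pow_succ, pow_zero, one_mul, mul_assoc]
  have c1 : Commute (t0 * y⁻¹) q := by
    have V := congrArg (fun g => g * (y⁻¹ * t1 * y)) (W1.symm.trans W2)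
    simp only [mul_assoc, h0, h1, h2, h01, h12, h20, h02, h10, h21, yy, yiyi, yiy, yyi, y0, y1, y2, z0, z1, z2, yw, yiw, hw,
      REL_tail h0, REL_tail h1, REL_tail h2, REL_tail h01, REL_tail h12, REL_tail h20, REL_tail h02, REL_tail h10,
      REL_tail h21, REL_tail yy, REL_tail yiyi, REL_tail yiy, REL_tail yyi, REL_tail y0, REL_tail y1, REL_tail y2,
      REL_tail z0, REL_tail z1, REL_tail z2, REL_tail yw, REL_tail yiw, REL_tail hw, one_mul, mul_one] at V
    change t0 * y⁻¹ * q = q * (t0 * y⁻¹)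
    rw [hq']
    simp only [mul_assoc, h0, h1, h2, h01, h12, h20, h02, h10, h21, yy, yiyi, yiy, yyi, y0, y1, y2, z0, z1, z2, yw, yiw, hw,
      REL_tail h0, REL_tail h1, REL_tail h2, REL_tail h01, REL_tail h12, REL_tail h20, REL_tail h02, REL_tail h10,
      REL_tail h21, REL_tail yy, REL_tail yiyi, REL_tail yiy, REL_tail yyi, REL_tail y0, REL_tail y1, REL_tail y2,
      REL_tail z0, REL_tail z1, REL_tail z2, REL_tail yw, REL_tail yiw, REL_tail hw, one_mul, mul_one]
    exact V
  have c2 : Commute (t0 * y) q := by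
    have V := congrArg (fun g => g * (y * t2 * y⁻¹)) (W3.symm.trans W4)
    simp only [mul_assoc, h0, h1, h2, h01, h12, h20, h02, h10, h21, yy, yiyi, yiy, yyi, y0, y1, y2, z0, z1, z2, yw, yiw, hw,
      REL_tail h0, REL_tail h1, REL_tail h2, REL_tail h01, REL_tail h12, REL_tail h20, REL_tail h02, REL_tail h10,
      REL_tail h21, REL_tail yy, REL_tail yiyi, REL_tail yiy, REL_tail yyi, REL_tail y0, REL_tail y1, REL_tail y2,
      REL_tail z0, REL_tail z1, REL_tail z2, REL_tail yw, REL_tail yiw, REL_tail hw, one_mul, mul_one] at V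
    change t0 * y * q = q * (t0 * y)
    rw [hq']
    simp only [mul_assoc, h0, h1, h2, h01, h12, h20, h02, h10, h21, yy, yiyi, yiy, yyi, y0, y1, y2, z0, z1, z2, yw, yiw, hw,
      REL_tail h0, REL_tail h1, REL_tail h2, REL_tail h01, REL_tail h12, REL_tail h20, REL_tail h02, REL_tail h10,
      REL_tail h21, REL_tail yy, REL_tail yiyi, REL_tail yiy, REL_tail yyi, REL_tail y0, REL_tail y1, REL_tail y2,
      REL_tail z0, REL_tail z1, REL_tail z2, REL_tail yw, REL_tail yiw, REL_tail hw, one_mul, mul_one]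
    exact V
  have ct2 : Commute t2 q := by
    have h := c2.mul_left c1
    have e : t0 * y * (t0 * y⁻¹) = t2 := by rw [mul_assoc, REL_tail y0, mul_assoc, yyi, mul_one, h01]
    rwa [e] at h
  have ct1 : Commute t1 q := by
    have h := c1.mul_left c2
    have e : t0 * y⁻¹ * (t0 * y) = t1 := by rw [mul_assoc, REL_tail z0, mul_assoc, yiy, mul_one, h02]
    rwa [e] at h
  have ct0 : Commute t0 q := by
    have h := ct1.mul_left ct2
    rwa [h12] at h
  have cy : Commute y q := by
    have h := ct0.mul_left c2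
    rwa [REL_tail h0, one_mul] at h
  have qt0 : q * t0 = w * (t0 * (w * (t0 * w))) := by
    rw [hq']; simp only [mul_assoc, h0, mul_one]
  have q2 : q * q = 1 := by
    calc q * q = (q * t0) * (t0 * q) := by rw [mul_assoc, ← mul_assoc t0, h0, one_mul]
      _ = (q * t0) * (q * t0) := by rw [ct0.eq]
      _ = 1 := by
        rw [qt0]
        simp only [mul_assoc, REL_tail h0, REL_tail hw, one_mul, hw]
  have q3 : q = t0 * (w * (t0 * (w * (t0 * w)))) := by
    have h : q * (t0 * (w * (t0 * (w * (t0 * w))))) = 1 := by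
      rw [hq']
      simp only [mul_assoc, REL_tail h0, REL_tail hw, one_mul, hw]
    exact mul_left_cancel (q2.trans h.symm)
  have cw : Commute w q := by
    change w * q = q * w
    have h : w * q = t0 * (w * (t0 * (w * t0))) := by
      rw [hq']
      simp only [REL_tail hw, one_mul]
    rw [h]
    conv_rhs => rw [q3]
    simp only [mul_assoc, hw, mul_one]
  have v2 : (w * q) * (w * q) = 1 := by
    rw [mul_assoc, ← mul_assoc q w, ← cw.eq, mul_assoc w q q, q2, mul_one, hw]
  have vy : (w * q) * y = y⁻¹ * (w * q) := by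
    rw [mul_assoc, ← cy.eq, ← mul_assoc, hwy, mul_assoc]
  have v3 : ((w * q) * t0) ^ 3 = 1 := by
    have h : (w * q) * t0 = (w * t0) * q := by rw [mul_assoc, ← ct0.eq, mul_assoc]
    rw [h, (cw.mul_left ct0).mul_pow, ← hq, pow_succ, pow_two, q2, one_mul, q2]
  have v5 := key (w * q) v2 vy v3
  have h : (w * q) * t1 = (w * t1) * q := by rw [mul_assoc, ← ct1.eq, mul_assoc]
  rw [h, (cw.mul_left ct1).mul_pow, e1, one_mul] at v5
  calc q = q * (q * q) * (q * q) := by rw [q2, mul_one, mul_one]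
    _ = q ^ 5 := by simp only [pow_succ, pow_zero, one_mul, mul_assoc]
    _ = 1 := v5

end Cfsg.Agent.Lib.SL16
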