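import Cfsg.Agent.Lib.JTw2
import Mathlib

set_option autoImplicit false
open Cfsg Cfsg.Agent.Lib.LargeExtra Cfsg.Agent.Lib.JTw Cfsg.Agent.Lib.JTw.Setup
namespace Cfsg.Agent.Lib.SL16

variable {G : Type*} [Group G] [Finite G]

/-- TV : the involutions of `V` commuting with `i` (`h1` is `J3P.One S`, unfolded) -/
theorem tv (S : Setup G) (h1 : ∀ y : G, y * y = 1 → y ≠ 1 → S.Z y) {V : Subgroup G} {y i : G} (hV : Nat.card V = 16) (hV2 : ∀ v ∈ V, v * v = 1)
    (hy : orderOf y = 3) (hi : orderOf i = 2) (iy : i * y = y * i) (hyV : ∀ v ∈ V, y * v * y⁻¹ ∈ V)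
    (hiV : ∀ v ∈ V, i * v * i⁻¹ ∈ V) (hfy : ∀ v ∈ V, y * v = v * y → v = 1) :
    ∃ t ∈ V, t ≠ 1 ∧ t * i = i * t ∧ t ∉ S.q i ∧ t * (y * t * y⁻¹) ∉ S.q i ∧ t * (y * t * y⁻¹) = y⁻¹ * t * y := by
  have : Fact (Nat.Prime 2) := ⟨Nat.prime_two⟩
  have hii : i * i = 1 := by rw [← pow_two, ← hi]; exact pow_orderOf_eq_one i
  have hi1 : i ≠ 1 := by
    rintro rfl; rw [orderOf_one] at hi; omega
  have hZi : S.Z i := h1 i hii hi1
  have hy3 : y * y * y = 1 := by
    have := pow_orderOf_eq_one y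
    rw [hy, pow_succ, pow_two] at this; exact this
  have hyy : y * y = y⁻¹ := eq_inv_of_mul_eq_one_left hy3
  have hcomm : ∀ a ∈ V, ∀ b ∈ V, a * b = b * a := by
    intro a ha b hb
    have h3 := hV2 _ (mul_mem ha hb)
    have ia : a⁻¹ = a := inv_eq_of_mul_eq_one_left (hV2 a ha)
    have ib : b⁻¹ = b := inv_eq_of_mul_eq_one_left (hV2 b hb)
    have := eq_inv_of_mul_eq_one_left h3
    rw [mul_inv_rev, ia, ib] at this
    exact this
  have hiVn : i ∉ V := by
    intro h; exact hi1 (hfy i h iy.symm)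
  have hyV' : ∀ v ∈ V, y⁻¹ * v * y ∈ V := by
    intro v hv
    have h2 := hyV _ (hyV v hv)
    have : y * (y * v * y⁻¹) * y⁻¹ = (y * y) * v * (y * y)⁻¹ := by group
    rw [this, hyy, inv_inv] at h2
    exact h2
  -- a fixed point of `i`
  obtain ⟨t, htV, ht1, hti⟩ : ∃ t ∈ V, t ≠ 1 ∧ i * t = t * i := by
    have h2 := fix_mod (p := 2) (g := i) (by rw [pow_two]; exact hii) (V : Set G) (fun a ha => hiV a ha)
    rw [← card_eq_ncard, hV] at h2
    by_contra hcon
    push Not at hcon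
    have h3 : {a : G | a ∈ (V : Set G) ∧ i * a = a * i} = {1} := by
      ext a
      simp only [Set.mem_ofPred_eq, SetLike.mem_coe, Set.mem_singleton_iff]
      constructor
      · rintro ⟨ha, ha2⟩
        by_contra ha1
        exact hcon a ha ha1 ha2
      · rintro rfl; exact ⟨one_mem _, by simp⟩
    rw [h3, Set.ncard_singleton] at h2
    simp [Nat.ModEq] at h2
  have htt := hV2 t htV
  have hnq : t ∉ S.q i := by
    intro hq
    have f : S.Four i t := ⟨hZi, hq, htt, ht1, fun h => hiVn (h ▸ htV)⟩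
    have hq' : y * t * y⁻¹ ∈ S.q i := by
      have := conj_mem_q hZi y hq
      rwa [show y * i * y⁻¹ = i from mul_inv_eq_iff_eq_mul.2 iy.symm] at this
    have hV' := hyV t htV
    have hc := hcomm _ hV' _ htV
    by_cases hm : y * t * y⁻¹ ∈ Four.V i t
    · rcases f.mem_V.1 hm with h | h | h | h
      · exact ht1 (cj_eq_one.1 h)
      · exact hiVn (h ▸ hV')
      · exact ht1 (hfy t htV (cj_eq_self.1 h))
      · apply hiVn
        have : i = (y * t * y⁻¹) * t := by rw [h, mul_assoc, htt, mul_one]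
        rw [this]; exact mul_mem hV' htV
    · have := f.sq_eq hq' hc hm
      rw [hV2 _ hV'] at this
      exact hi1 this.symm
  have hprod : t * (y * t * y⁻¹) = y⁻¹ * t * y := by
    have hpV : t * (y * t * y⁻¹) * (y⁻¹ * t * y) ∈ V := mul_mem (mul_mem htV (hyV t htV)) (hyV' t htV)
    have hp := hfy _ hpV (by
      rw [← cj_eq_self]
      have e1 : y * (t * (y * t * y⁻¹) * (y⁻¹ * t * y)) * y⁻¹ = (y * t * y⁻¹) * ((y * y) * t * (y * y)⁻¹) * t := by
        group
      rw [e1, hyy, inv_inv, ← hcomm t htV _ (mul_mem (hyV t htV) (hyV' t htV)), ← mul_assoc])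
    have := eq_inv_of_mul_eq_one_left hp
    rw [this]
    exact inv_eq_of_mul_eq_one_left (hV2 _ (hyV' t htV))
  refine ⟨t, htV, ht1, hti.symm, hnq, ?_, hprod⟩
  rw [hprod]
  intro hq
  apply hnq
  have := conj_mem_q hZi y hq
  rw [show y * i * y⁻¹ = i from mul_inv_eq_iff_eq_mul.2 iy.symm] at this
  have e : y * (y⁻¹ * t * y) * y⁻¹ = t := by group
  rwa [e] at this

end Cfsg.Agent.Lib.SL16
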