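import Mathlib
import Cfsg.Agent.Lib.SL25
import Cfsg.Agent.Lib.FrobExist
import Cfsg.Agent.Lib.H53SL2
import Cfsg.Agent.Lib.SL2Basic

set_option autoImplicit false

/-! `SL(2,5)` is a Frobenius complement (helper56). -/

namespace Cfsg.Agent.Lib.SL25Frob

open Cfsg.Agent.Lib.SL25 Cfsg.Agent.Lib

local instance fact5 : Fact (Nat.Prime 5) := ⟨by norm_num⟩
local instance fact11 : Fact (Nat.Prime 11) := ⟨by norm_num⟩

open Matrix in
/-- generators in `SL(2,11)`. -/
def nx : SpecialLinearGroup (Fin 2) (ZMod 11) := ⟨!![0, -1; 1, -1], by simp [Matrix.det_fin_two]⟩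
open Matrix in
def ny : SpecialLinearGroup (Fin 2) (ZMod 11) := ⟨!![0, 3; 7, 7], by simp [Matrix.det_fin_two]; decide⟩
open Matrix in
def nz : SpecialLinearGroup (Fin 2) (ZMod 11) := ⟨!![-1, 0; 0, -1], by simp [Matrix.det_fin_two]⟩

theorem rel_n : Rel nx ny nz where
  hx := by decide
  hy := by decide
  hz := by decide
  hzx := by decide
  hzy := by decide
  hxy := by decide

/-- the representation of the presented group. -/
noncomputable def rep : PresentedGroup rels3 →* Matrix.SpecialLinearGroup (Fin 2) (ZMod 11) :=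
  PresentedGroup.toGroup (f := ![nx, ny, nz]) (by
    rintro r (rfl | rfl | rfl | rfl | rfl | rfl)
    · simpa using rel_n.hx
    · simpa using rel_n.hy
    · simpa using rel_n.hz
    · simp only [map_mul, map_inv, FreeGroup.lift_apply_of, Matrix.cons_val]
      rw [mul_inv_eq_one, mul_assoc, inv_mul_eq_iff_eq_mul]
      exact rel_n.hzx
    · simp only [map_mul, map_inv, FreeGroup.lift_apply_of, Matrix.cons_val]
      rw [mul_inv_eq_one, mul_assoc, inv_mul_eq_iff_eq_mul]
      exact rel_n.hzy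
    · simp only [map_mul, map_inv, map_pow, FreeGroup.lift_apply_of, Matrix.cons_val]
      rw [mul_inv_eq_one]
      exact rel_n.hxy)

theorem rep0 : rep (PresentedGroup.of 0) = nx := by simp [rep]
theorem rep1 : rep (PresentedGroup.of 1) = ny := by simp [rep]
theorem rep2 : rep (PresentedGroup.of 2) = nz := by simp [rep]

theorem nz_ne : nz ≠ 1 := by decide
theorem nx_ne : nx ≠ 1 := by decide
theorem ny_ne : ny ≠ 1 := by decide

theorem rep_injective : Function.Injective rep := by
  obtain ⟨e⟩ := presEquiv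
  have hcard : Nat.card (PresentedGroup rels3) = 120 := by
    rw [Nat.card_congr e.toEquiv, card_mat]
  have hfin : Finite (PresentedGroup rels3) := Nat.finite_of_card_ne_zero (by omega)
  have hdvd : ∀ n, (∃ g, orderOf (rep g) = n) → n ∣ Nat.card rep.range := by
    rintro n ⟨g, rfl⟩
    have h1 : orderOf (⟨rep g, g, rfl⟩ : rep.range) = orderOf (rep g) := by
      rw [← Subgroup.orderOf_coe]
    rw [← h1]
    exact orderOf_dvd_natCard _
  have h3 : 3 ∣ Nat.card rep.range := hdvd 3 ⟨PresentedGroup.of 0, by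
    rw [rep0]; exact orderOf_eq_prime rel_n.hx nx_ne⟩
  have h5 : 5 ∣ Nat.card rep.range := hdvd 5 ⟨PresentedGroup.of 1, by
    rw [rep1]; exact orderOf_eq_prime rel_n.hy ny_ne⟩
  have h4 : 4 ∣ Nat.card rep.range := hdvd 4 ⟨PresentedGroup.of 0 * PresentedGroup.of 1, by
    rw [map_mul, rep0, rep1]
    have h1 : orderOf (nx * ny) = 2 ^ (1 + 1) := by
      apply orderOf_eq_prime_pow
      · rw [pow_one, rel_n.hxy]; exact nz_ne
      · rw [show 2 ^ (1 + 1) = 2 * 2 by norm_num, pow_mul, rel_n.hxy, rel_n.hz]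
    rw [h1]; norm_num⟩
  have h60 : 60 ∣ Nat.card rep.range := by
    have h12 : 3 * 4 ∣ Nat.card rep.range := Nat.Coprime.mul_dvd_of_dvd_of_dvd (by norm_num) h3 h4
    have := Nat.Coprime.mul_dvd_of_dvd_of_dvd (by norm_num : Nat.Coprime (3 * 4) 5) h12 h5
    norm_num at this
    exact this
  have hmul : Nat.card rep.ker * Nat.card rep.range = 120 := by
    rw [← hcard, ← rep.ker.card_mul_index]
    congr 1
    exact (Subgroup.index_ker rep).symm
  have hk2 : Nat.card rep.ker ≤ 2 := by
    have h1 := Nat.le_of_dvd (Nat.card_pos) h60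
    by_contra hcon
    push Not at hcon
    have := Nat.mul_le_mul hcon h1
    omega
  have hz : orderOf (PresentedGroup.of 2 : PresentedGroup rels3) = 2 := by
    apply orderOf_eq_prime rel_of.hz
    intro h
    apply nz_ne
    rw [← rep2, h, map_one]
  rw [← MonoidHom.ker_eq_bot_iff, eq_bot_iff]
  intro k hk
  rw [Subgroup.mem_bot]
  by_contra hk1
  have hkk : k * k = 1 := by
    have h1 : orderOf (⟨k, hk⟩ : rep.ker) ≤ 2 := by
      refine le_trans ?_ hk2
      exact Nat.le_of_dvd Nat.card_pos (orderOf_dvd_natCard _)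
    rw [Subgroup.orderOf_mk] at h1
    have h2 := orderOf_pos k
    have h3 : orderOf k ≠ 1 := fun h => hk1 (orderOf_eq_one_iff.1 h)
    have h4 : orderOf k = 2 := by omega
    have h5 := pow_orderOf_eq_one k
    rwa [h4, sq] at h5
  rcases H53SL2.eq_of_sq_eq_one e (by decide) hz hkk with h | h
  · exact hk1 h
  · apply nz_ne
    rw [← rep2, ← h]
    exact hk

/-- a matrix of `SL(2,11)` fixing a nonzero vector has order dividing 11. -/
theorem pow_eleven {A : Matrix.SpecialLinearGroup (Fin 2) (ZMod 11)} {v : Fin 2 → ZMod 11} (hv : v ≠ 0)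
    (h : (A : Matrix (Fin 2) (Fin 2) (ZMod 11)).mulVec v = v) : A ^ 11 = 1 := by
  have hdet : ((A : Matrix (Fin 2) (Fin 2) (ZMod 11)) - 1).det = 0 := by
    rw [← Matrix.exists_mulVec_eq_zero_iff]
    refine ⟨v, hv, ?_⟩
    rw [Matrix.sub_mulVec, Matrix.one_mulVec, h, sub_self]
  have hA := A.2
  rw [Matrix.det_fin_two] at hdet hA
  simp only [Matrix.sub_apply, Matrix.one_apply_eq, Matrix.one_apply_ne (show (0 : Fin 2) ≠ 1 by decide),
    Matrix.one_apply_ne (show (1 : Fin 2) ≠ 0 by decide), sub_zero] at hdet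
  have htr : SL2Basic.tr A = 2 := by
    rw [SL2Basic.tr_def]
    linear_combination hA - hdet
  apply Subtype.ext
  rw [SL2Basic.pow_of_tr_two htr 11]
  have : ((11 : ℕ) : ZMod 11) = 0 := by decide
  rw [this, zero_smul, add_zero]
  rfl

theorem occurs : FrobExist.Occurs (Matrix.SpecialLinearGroup (Fin 2) (ZMod 5)) := by
  obtain ⟨e⟩ := presEquiv
  have hcard : Nat.card (PresentedGroup rels3) = 120 := by
    rw [Nat.card_congr e.toEquiv, card_mat]
  have hfin : Finite (PresentedGroup rels3) := Nat.finite_of_card_ne_zero (by omega)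
  have hnt : Nontrivial (PresentedGroup rels3) := by
    rw [← Finite.one_lt_card_iff_nontrivial]; omega
  apply FrobExist.Occurs.of_equiv e.symm
  apply FrobExist.of_hom (V := Fin 2 → ZMod 11) ((Matrix.SpecialLinearGroup.toLin').comp rep)
  intro a ha v hv
  by_contra hv0
  apply ha
  have h1 : (rep a : Matrix (Fin 2) (Fin 2) (ZMod 11)).mulVec v = v := hv
  have h2 := pow_eleven hv0 h1
  rw [← map_pow] at h2
  have h3 : a ^ 11 = 1 := rep_injective (h2.trans (map_one rep).symm)
  have h4 : orderOf a ∣ 11 := orderOf_dvd_of_pow_eq_one h3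
  have h5 : orderOf a ∣ 120 := by rw [← hcard]; exact orderOf_dvd_natCard a
  exact orderOf_eq_one_iff.1 (Nat.eq_one_of_dvd_coprimes (by norm_num : Nat.Coprime 120 11) h5 h4)

end Cfsg.Agent.Lib.SL25Frob
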