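import Cfsg.Agent.Lib.SL2LemmaL
import Cfsg.Agent.S0801
set_option autoImplicit false
set_option linter.unusedSimpArgs false

/-!
# `⟨X(c), Y(c z)⟩ = SL₂(k(z))`, general `k` (helper84)
-/

namespace Cfsg.Agent.Lib.SL2Gen
open Subgroup Matrix
open Cfsg.Agent.Lib.SL2Ring Cfsg.Agent.Lib.SL2LemmaL

universe u v

theorem dickson {F : Type u} [Field F] [Fintype F] (h2 : (2 : F) ≠ 0) (lam : F) (hlam : lam ≠ 0)
    (hgen : Subfield.closure ({lam} : Set F) = ⊤) :
    (Subgroup.closure {g : Matrix.SpecialLinearGroup (Fin 2) F |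
      (g : Matrix (Fin 2) (Fin 2) F) = !![1, 0; 1, 1] ∨
      (g : Matrix (Fin 2) (Fin 2) F) = !![1, lam; 0, 1]} = ⊤ ∧ ¬ (Fintype.card F = 9 ∧ lam ^ 2 = -1)) ∨
      (Fintype.card F = 9 ∧ lam ^ 2 = -1 ∧
        Nat.card ↥(Subgroup.closure {g : Matrix.SpecialLinearGroup (Fin 2) F |
          (g : Matrix (Fin 2) (Fin 2) F) = !![1, 0; 1, 1] ∨
          (g : Matrix (Fin 2) (Fin 2) F) = !![1, lam; 0, 1]}) = 120) := by
  exact Cfsg.Agent.S0801.result h2 lam hlam hgen

variable {k : Type u} {K : Type v} [Field k] [Field K] [Algebra k K]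

lemma exists_scalar (h20 : (2 : k) ≠ 0) (hk3 : Nat.card k ≠ 3) [Finite k] :
    ∃ c : k, c ≠ 0 ∧ c ^ 2 ≠ 1 := by
  classical
  have := Fintype.ofFinite k
  by_contra hcon
  push Not at hcon
  have hsub : ∀ c : k, c = 0 ∨ c = 1 ∨ c = -1 := by
    intro c
    by_cases hc : c = 0
    · exact Or.inl hc
    · right
      have := hcon c hc
      have h1 : (c - 1) * (c + 1) = 0 := by linear_combination this
      rcases mul_eq_zero.1 h1 with h | h
      · left; exact sub_eq_zero.1 h
      · right; exact eq_neg_of_add_eq_zero_left h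
  have h1 : (Finset.univ : Finset k) = {0, 1, -1} := by
    ext c
    simp only [Finset.mem_univ, Finset.mem_insert, Finset.mem_singleton, true_iff]
    exact hsub c
  have h01 : (1 : k) ≠ -1 := by
    intro h
    apply h20
    have : (1 : k) + 1 = 0 := by nth_rewrite 2 [h]; ring
    linear_combination this
  apply hk3
  rw [Nat.card_eq_fintype_card, ← Finset.card_univ, h1]
  rw [Finset.card_insert_of_notMem, Finset.card_insert_of_notMem, Finset.card_singleton]
  · simpa using h01
  · simp

/-- the case handled directly by the two transvections `X(1)`, `Y(z)` -/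
lemma eq_top_of_dickson {z : K} (hz : z ≠ 0) (h2K : (2 : K) ≠ 0) [Finite K]
    (hgen : Algebra.adjoin k {z} = ⊤) (c : k) (hc : c ≠ 0)
    (hex : ¬ ((algebraMap k K c * z) ^ 2 = -1)) : grp k z = ⊤ := by
  classical
  set w := algebraMap k K c * z with hw
  have hc' : algebraMap k K c ≠ 0 := (map_ne_zero (algebraMap k K)).2 hc
  have hw0 : w ≠ 0 := mul_ne_zero hc' hz
  let L : Subfield K := Subfield.closure {w}
  have hwL : w ∈ L := Subfield.subset_closure (Set.mem_singleton w)
  have : Fintype ↥L := Fintype.ofFinite _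
  let wL : ↥L := ⟨w, hwL⟩
  have hL2 : (2 : ↥L) ≠ 0 := by
    intro h
    apply h2K
    have := congrArg (Subfield.subtype L) h
    rw [map_ofNat, map_zero] at this
    exact this
  have hwL0 : wL ≠ 0 := fun h => hw0 (congrArg Subtype.val h)
  have hLgen : Subfield.closure ({wL} : Set ↥L) = ⊤ := by
    rw [eq_top_iff]
    rintro ⟨x, hx⟩ _
    have hle : L ≤ (Subfield.closure ({wL} : Set ↥L)).map L.subtype := by
      rw [Subfield.closure_le]
      intro y hy
      rw [Set.mem_singleton_iff] at hy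
      rw [hy]
      exact ⟨wL, Subfield.subset_closure (Set.mem_singleton wL), rfl⟩
    obtain ⟨y, hy, e⟩ := hle hx
    have : y = ⟨x, hx⟩ := Subtype.ext e
    rw [← this]; exact hy
  rcases dickson hL2 wL hwL0 hLgen with ⟨htop, _⟩ | ⟨_, h2, _⟩
  swap
  · exfalso
    apply hex
    have := congrArg Subtype.val h2
    simpa using this
  -- the subgroup `scl w H`
  let W : Kˣ := Units.mk0 w hw0
  let H' : Subgroup (SpecialLinearGroup (Fin 2) K) := (grp k z).map (scl W)
  have hX1 : X w ∈ H' := by
    refine ⟨X 1, X_one_mem z, ?_⟩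
    rw [scl_X]
    congr 1
    exact mul_one w
  have hY1 : Y (1 : K) ∈ H' := by
    refine ⟨Y w, Y_mem_grp z c, ?_⟩
    rw [scl_Y]
    congr 1
    show w⁻¹ * w = 1
    exact inv_mul_cancel₀ hw0
  have hmap : (⊤ : Subgroup (SpecialLinearGroup (Fin 2) ↥L)) ≤
      H'.comap (SpecialLinearGroup.map L.subtype) := by
    rw [← htop, Subgroup.closure_le]
    rintro g (hg | hg)
    · show SpecialLinearGroup.map L.subtype g ∈ H'
      have : SpecialLinearGroup.map L.subtype g = Y 1 := by
        apply Subtype.ext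
        show (L.subtype).mapMatrix g.1 = _
        rw [hg]
        ext i j
        fin_cases i <;> fin_cases j <;> simp [Y]
      rw [this]; exact hY1
    · show SpecialLinearGroup.map L.subtype g ∈ H'
      have : SpecialLinearGroup.map L.subtype g = X w := by
        apply Subtype.ext
        show (L.subtype).mapMatrix g.1 = _
        rw [hg]
        ext i j
        fin_cases i <;> fin_cases j <;> simp [X, wL]
      rw [this]; exact hX1
  have hXL : ∀ l ∈ L, X (w⁻¹ * l) ∈ grp k z := by
    intro l hl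
    have h1 := hmap (Subgroup.mem_top (X (⟨l, hl⟩ : ↥L)))
    obtain ⟨g, hg, e⟩ := h1
    have e2 : SpecialLinearGroup.map L.subtype (X (⟨l, hl⟩ : ↥L)) = X l := by
      apply Subtype.ext
      show (L.subtype).mapMatrix (X (⟨l, hl⟩ : ↥L)).1 = _
      ext i j
      fin_cases i <;> fin_cases j <;> simp [X]
    rw [e2] at e
    have e3 : scl W⁻¹ (scl W g) = g := by
      apply sl_ext <;> simp
    rw [e] at e3
    rw [scl_X] at e3
    have : ((W⁻¹ : Kˣ) : K) = w⁻¹ := rfl
    rw [this] at e3
    rw [e3]; exact hg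
  have hXL' : ∀ l ∈ L, X l ∈ grp k z := by
    intro l hl
    have := hXL (w * l) (L.mul_mem hwL hl)
    rwa [← mul_assoc, inv_mul_cancel₀ hw0, one_mul] at this
  let T := TT (k := k) (grp k z) (fun c hc g hg => scl_mem_grp z c hc hg)
  apply eq_top_of_X hz
  intro r
  have hr : r ∈ Algebra.adjoin k {z} := by rw [hgen]; trivial
  rw [Algebra.adjoin_singleton_eq_range_aeval] at hr
  obtain ⟨f, rfl⟩ := hr
  show (Polynomial.aeval z f : K) ∈ T
  rw [Polynomial.aeval_eq_sum_range]
  refine Submodule.sum_mem _ ?_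
  intro i _
  apply T.smul_mem
  have e : z ^ i = (c⁻¹ ^ i) • w ^ i := by
    rw [hw, Algebra.smul_def, mul_pow, map_pow, map_inv₀, ← mul_assoc, ← mul_pow,
      inv_mul_cancel₀ hc', one_pow, one_mul]
  rw [e]
  apply T.smul_mem
  exact hXL' _ (L.pow_mem hwL i)

/-- **Lemma L**: if `K = k(z)` is finite over `k`, `char k ≠ 2` and `|k| ≠ 3` then
`X(k)` and `Y(k z)` generate `SL₂(K)`. -/
theorem grp_eq_top (h20 : (2 : k) ≠ 0) (hk3 : Nat.card k ≠ 3) {z : K} (hz : z ≠ 0)
    [FiniteDimensional k K] (hgen : Algebra.adjoin k {z} = ⊤) : grp k z = ⊤ := by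
  rcases finite_or_infinite k with hfin | hinf
  · have : Finite K := Module.finite_of_finite k
    have h2K : (2 : K) ≠ 0 := by
      have := (map_ne_zero (algebraMap k K)).2 h20
      rwa [map_ofNat] at this
    by_cases hex : (algebraMap k K 1 * z) ^ 2 = -1
    · obtain ⟨c, hc, hc2⟩ := exists_scalar h20 hk3
      refine eq_top_of_dickson hz h2K hgen c hc ?_
      intro h
      rw [map_one, one_mul] at hex
      rw [mul_pow, hex, mul_neg_one, neg_inj] at h
      apply hc2
      rw [← map_pow] at h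
      exact (algebraMap k K).injective (by rw [h, map_one])
    · exact eq_top_of_dickson hz h2K hgen 1 one_ne_zero hex
  · exact grp_eq_top_of_infinite h20 hz hgen

end Cfsg.Agent.Lib.SL2Gen
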