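import Cfsg.Agent.Lib.SL2Count
import Cfsg.Agent.Lib.SqChar
import Cfsg.Agent.Lib.ExtraChar

/-! Values of the characters of degree `(q ± 1)/2` of `SL₂(q)` on unipotent elements. -/

namespace Cfsg.Agent.Lib.SL2Half

open Cfsg Classical Matrix ComplexConjugate
open Cfsg.Agent.Lib.SL2Basic Cfsg.Agent.Lib.SL2Tori Cfsg.Agent.Lib.SL2Int Cfsg.Agent.Lib.SL2Ind
open Cfsg.Agent.Lib.CharBasic Cfsg.Agent.Lib.LinChar Cfsg.Agent.Lib.SL2Ortho
open Cfsg.Agent.Lib.SL2Class Cfsg.Agent.Lib.SL2Vals Cfsg.Agent.Lib.SL2Deg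

universe u

variable {F : Type u} [Field F]

local notation "SL2" => Matrix.SpecialLinearGroup (Fin 2) F
local notation "M2" => Matrix (Fin 2) (Fin 2) F
local notation "q" => (Nat.card F : ℂ)

/-- the diagonal matrix `diag(ν, 1)` -/
noncomputable def dgl (ν : Fˣ) : GL (Fin 2) F :=
  Matrix.GeneralLinearGroup.mkOfDetNeZero !![(ν : F), 0; 0, 1] (by simp [Matrix.det_fin_two])

theorem dgl_coe (ν : Fˣ) : ((dgl ν : GL (Fin 2) F) : M2) = !![(ν : F), 0; 0, 1] := rfl

theorem dgl_inv_coe (ν : Fˣ) : (((dgl ν)⁻¹ : GL (Fin 2) F) : M2) = !![((ν⁻¹ : Fˣ) : F), 0; 0, 1] := by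
  have h : (dgl ν)⁻¹ = (dgl ν⁻¹ : GL (Fin 2) F) := by
    rw [inv_eq_iff_mul_eq_one]
    apply Units.ext
    rw [Units.val_mul]
    rw [dgl_coe, dgl_coe]
    ext i j
    fin_cases i <;> fin_cases j <;> simp [Matrix.mul_apply, Fin.sum_univ_two]
  rw [h]; rfl

theorem glConj_entries (ν : Fˣ) (h : SL2) : (glConj (dgl ν) h : M2) =
    !![(h : M2) 0 0, (ν : F) * (h : M2) 0 1; ((ν⁻¹ : Fˣ) : F) * (h : M2) 1 0, (h : M2) 1 1] := by
  rw [glConj_coe, dgl_coe, dgl_inv_coe]
  ext i j
  fin_cases i <;> fin_cases j <;>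
    simp [Matrix.mul_apply, Fin.sum_univ_two, Matrix.vecMul, dotProduct]
  · field_simp
  · ring

theorem glConj_uu (ν b : Fˣ) : glConj (dgl ν) (uu (b : F)) = uu ((ν * b : Fˣ) : F) := by
  have h := glConj_entries ν (uu (b : F))
  apply Subtype.ext
  change (glConj (dgl ν) (uu (b : F)) : M2) = _
  rw [h]
  ext i j
  fin_cases i <;> fin_cases j <;> simp [coe_uu]

theorem glConj_Zs (ν : Fˣ) {z : SL2} (hz : z ∈ Zs F) : glConj (dgl ν) z = z := by
  have h := glConj_entries ν z
  obtain ⟨h1, h2, _⟩ := Zs_entries hz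
  apply Subtype.ext
  change (glConj (dgl ν) z : M2) = _
  rw [h]
  ext i j
  fin_cases i <;> fin_cases j <;> simp [h1, h2]

theorem glConj_dg (ν c : Fˣ) : glConj (dgl ν) (dg c) = dg c := by
  have h := glConj_entries ν (dg c)
  apply Subtype.ext
  change (glConj (dgl ν) (dg c) : M2) = _
  rw [h]
  ext i j
  fin_cases i <;> fin_cases j <;> simp [dg]

theorem glConj_surjective (g : GL (Fin 2) F) : Function.Surjective (glConjHom g : SL2 →* SL2) := by
  intro h
  refine ⟨glConj g⁻¹ h, ?_⟩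
  change glConj g (glConj g⁻¹ h) = h
  rw [glConj_glConj, mul_inv_cancel, glConj_id]

theorem dg_conj_uu (c b : Fˣ) : dg c * uu (b : F) * (dg c)⁻¹ = uu ((c ^ 2 * b : Fˣ) : F) := by
  rw [mul_inv_eq_iff_eq_mul]
  apply Subtype.ext
  change ((dg c * uu (b : F) : SL2) : M2) = ((uu ((c ^ 2 * b : Fˣ) : F) * dg c : SL2) : M2)
  rw [Matrix.SpecialLinearGroup.coe_mul, Matrix.SpecialLinearGroup.coe_mul, coe_uu, coe_uu]
  have : ((dg c : SL2) : M2) = !![(c : F), 0; 0, ((c⁻¹ : Fˣ) : F)] := rfl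
  rw [this]
  ext i j
  fin_cases i <;> fin_cases j <;> simp [Matrix.mul_apply, Fin.sum_univ_two]
  field_simp

variable [Finite F]

section

variable [Fintype (Matrix.SpecialLinearGroup (Fin 2) F)]

omit [Finite F] in
theorem R_glConj (α : MulChar F ℂ) (ν : Fˣ) (h : SL2) : R α (glConj (dgl ν) h) = R α h := by
  rw [SL2Ind.R_apply, SL2Ind.R_apply]
  congr 1
  symm
  apply Fintype.sum_equiv (Equiv.ofBijective (glConjHom (dgl ν) : SL2 →* SL2)
    ⟨by
      intro a b hab
      have := congrArg (fun x => glConj (dgl ν)⁻¹ x) hab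
      change glConj (dgl ν)⁻¹ (glConj (dgl ν) a) = glConj (dgl ν)⁻¹ (glConj (dgl ν) b) at this
      rwa [glConj_glConj, glConj_glConj, inv_mul_cancel, glConj_id, glConj_id] at this,
     glConj_surjective _⟩)
  intro x
  have e : (Equiv.ofBijective (glConjHom (dgl ν) : SL2 →* SL2) ⟨by
      intro a b hab
      have := congrArg (fun x => glConj (dgl ν)⁻¹ x) hab
      change glConj (dgl ν)⁻¹ (glConj (dgl ν) a) = glConj (dgl ν)⁻¹ (glConj (dgl ν) b) at this
      rwa [glConj_glConj, glConj_glConj, inv_mul_cancel, glConj_id, glConj_id] at this,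
     glConj_surjective _⟩ : SL2 ≃ SL2) x = glConj (dgl ν) x := rfl
  rw [e, ← glConj_inv, ← glConj_mul, ← glConj_mul, glConj_entries]
  simp

end

/-! ### Unipotent values of class functions -/

/-- `α` is the character of order two and `ν` a non-square -/
structure Quad (α : MulChar F ℂ) (ν : Fˣ) : Prop where
  sq : α ^ 2 = 1
  ne : α ≠ 1
  val : α (ν : F) = -1

theorem exists_quad (hodd : Odd (Nat.card F)) : ∃ (α : MulChar F ℂ) (ν : Fˣ), Quad α ν := by
  have h := card_mulChar_sq_one hodd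
  rw [Nat.card_eq_two_iff] at h
  obtain ⟨⟨a, ha⟩, ⟨b, hb⟩, hab, _⟩ := h
  have key : ∀ α : MulChar F ℂ, α ^ 2 = 1 → α ≠ 1 → ∃ ν : Fˣ, Quad α ν := by
    intro α h1 h2
    have h3 : ∃ ν : Fˣ, α (ν : F) ≠ 1 := by
      by_contra hcon
      push Not at hcon
      apply h2
      ext c
      rw [hcon c, MulChar.one_apply_coe]
    obtain ⟨ν, hν⟩ := h3
    refine ⟨ν, h1, h2, ?_⟩
    have h4 : α (ν : F) ^ 2 = 1 := by
      rw [← MulChar.pow_apply_coe, h1, MulChar.one_apply_coe]
    rcases mul_self_eq_one_iff.1 ((pow_two _).symm.trans h4) with h | h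
    · exact absurd h hν
    · exact h
  by_cases h1 : a = 1
  · exact ⟨b, key b hb (fun h => hab (Subtype.ext (h1.trans h.symm)))⟩
  · exact ⟨a, key a ha h1⟩

variable {α : MulChar F ℂ} {ν : Fˣ}

omit [Finite F] in
theorem Quad.val_cases (h : Quad α ν) (b : Fˣ) : α (b : F) = 1 ∨ α (b : F) = -1 := by
  have h4 : α (b : F) ^ 2 = 1 := by
    rw [← MulChar.pow_apply_coe, h.sq, MulChar.one_apply_coe]
  exact mul_self_eq_one_iff.1 ((pow_two _).symm.trans h4)

theorem Quad.sq_iff (h : Quad α ν) (b : Fˣ) : α (b : F) = 1 ↔ ∃ r : Fˣ, b = r ^ 2 := by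
  have hU : (toU α) ^ 2 = 1 := by rw [pow_two, ← toU_mul, ← pow_two, h.sq, toU_one]
  have hU1 : toU α ≠ 1 := by
    intro h1; apply h.ne; apply toU_injective; rw [h1, toU_one]
  rw [← toU_apply]
  exact SqChar.eq_one_iff hU hU1 b

theorem Quad.unique (h : Quad α ν) {β : MulChar F ℂ} (h1 : β ^ 2 = 1) (h2 : β ≠ 1) : β = α := by
  apply toU_injective
  apply sq_one_unique (A := Fˣ)
  · rw [pow_two, ← toU_mul, ← pow_two, h1, toU_one]
  · rw [pow_two, ← toU_mul, ← pow_two, h.sq, toU_one]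
  · intro h3; apply h2; apply toU_injective; rw [h3, toU_one]
  · intro h3; apply h.ne; apply toU_injective; rw [h3, toU_one]

theorem Quad.uu_val (h : Quad α ν) {χ : SL2 → ℂ} (hχ : IsClassFunction SL2 χ) (b : Fˣ) :
    χ (uu (b : F)) = (χ (uu 1) + χ (uu (ν : F))) / 2 +
      α (b : F) * ((χ (uu 1) - χ (uu (ν : F))) / 2) := by
  rcases h.val_cases b with hb | hb
  · obtain ⟨r, rfl⟩ := (h.sq_iff b).1 hb
    rw [hb]
    have h1 := hχ (uu ((1 : Fˣ) : F)) (dg r)
    rw [dg_conj_uu, mul_one, Units.val_one] at h1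
    rw [h1]; ring
  · have h2 : α ((b * ν⁻¹ : Fˣ) : F) = 1 := by
      rw [Units.val_mul, map_mul, hb, ← inv_apply_unit]
      have : α⁻¹ = α := by
        rw [eq_comm, ← mul_eq_one_iff_eq_inv, ← pow_two, h.sq]
      rw [this, h.val]; norm_num
    obtain ⟨r, hr⟩ := (h.sq_iff _).1 h2
    have h3 : b = r ^ 2 * ν := by rw [← hr]; group
    rw [hb]
    have h1 := hχ (uu (ν : F)) (dg r)
    rw [dg_conj_uu, ← h3] at h1
    rw [h1]; ring

theorem sum_mulChar_units [Fintype Fˣ] {β : MulChar F ℂ} (hβ : β ≠ 1) : ∑ b : Fˣ, β (b : F) = 0 := by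
  have h := sum_mulChar_mul_conj β (1 : MulChar F ℂ)
  rw [if_neg hβ] at h
  simpa using h

theorem Quad.sum_uu (h : Quad α ν) {χ : SL2 → ℂ} (hχ : IsClassFunction SL2 χ) [Fintype Fˣ] :
    ∑ b : Fˣ, χ (uu (b : F)) = (q - 1) * ((χ (uu 1) + χ (uu (ν : F))) / 2) := by
  rw [Finset.sum_congr rfl (fun b _ => h.uu_val hχ b), Finset.sum_add_distrib, ← Finset.sum_mul,
    sum_mulChar_units h.ne, zero_mul, add_zero, Finset.sum_const, Finset.card_univ, nsmul_eq_mul,
    ← Nat.card_eq_fintype_card, Nat.card_units]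
  have h2 : 1 ≤ Nat.card F := Finite.card_pos
  push_cast [Nat.cast_sub h2]
  ring

variable [Fintype (Matrix.SpecialLinearGroup (Fin 2) F)] {A₀ : Matrix.SpecialLinearGroup (Fin 2) F}

/-- sum of the two unipotent values, half principal series -/
theorem half_ps_sum (h : Quad α ν) {χ : SL2 → ℂ} (hχ : IsIrrCharacter SL2 χ)
    (hne : classInner χ (R α) ≠ 0) : χ (uu 1) + χ (uu (ν : F)) = 1 := by
  have : Fintype F := Fintype.ofFinite F
  have : Fintype (MulChar F ℂ) := Fintype.ofFinite _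
  obtain ⟨A₀, h0⟩ := exists_isEll (F := F)
  obtain ⟨h1, h2, h3, h4⟩ := half_ps h0 hχ h.sq h.ne hne
  have hs := sum_inner_R hχ.isClassFunction
  rw [Finset.sum_eq_single_of_mem α (Finset.mem_univ _) (fun β _ hβ => h4 β hβ), h1,
    h.sum_uu hχ.isClassFunction] at hs
  apply mul_left_cancel₀ (q_sub_one_ne_zero (F := F))
  linear_combination -2 * hs - h2

/-- sum of the two unipotent values, half cuspidal -/
theorem half_cusp_sum (h : Quad α ν) (h0 : IsEll A₀)
    {θ : Subgroup.centralizer ({A₀} : Set (Matrix.SpecialLinearGroup (Fin 2) F)) →* ℂˣ}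
    {χ : SL2 → ℂ} (hχ : IsIrrCharacter SL2 χ) (hθ : θ ^ 2 = 1) (hθ1 : θ ≠ 1)
    (hne : classInner χ (cusp θ) ≠ 0) : χ (uu 1) + χ (uu (ν : F)) = -1 := by
  have : Fintype F := Fintype.ofFinite F
  have : Fintype (MulChar F ℂ) := Fintype.ofFinite _
  obtain ⟨h1, h2, h3, h4⟩ := half_cusp h0 hχ hθ hθ1 hne
  have hs := sum_inner_R hχ.isClassFunction
  simp only [h3, Finset.sum_const_zero, mul_zero] at hs
  rw [h.sum_uu hχ.isClassFunction] at hs
  apply mul_left_cancel₀ (q_sub_one_ne_zero (F := F))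
  linear_combination -2 * hs - h2

omit [Fintype (Matrix.SpecialLinearGroup (Fin 2) F)] in
/-- the two unipotent values differ -/
theorem val_ne {χ : SL2 → ℂ} (hχ : IsIrrCharacter SL2 χ)
    (h : χ (uu 1) + χ (uu (ν : F)) = 1 ∨ χ (uu 1) + χ (uu (ν : F)) = -1) :
    χ (uu 1) ≠ χ (uu (ν : F)) := by
  intro heq
  obtain ⟨n, ρ, hρ, rfl⟩ := hχ
  have hint := Cfsg.Agent.Lib.CharValues.isIntegral_character ρ (uu 1)
  rcases h with h | h
  · rw [← heq] at h
    obtain ⟨m, hm⟩ := Cfsg.Agent.Lib.CharCentral.exists_int_of_isIntegral_rat hint (1 / 2)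
      (by push_cast; linear_combination h / 2)
    rw [hm] at h
    have : m + m = 1 := by exact_mod_cast h
    omega
  · rw [← heq] at h
    obtain ⟨m, hm⟩ := Cfsg.Agent.Lib.CharCentral.exists_int_of_isIntegral_rat hint (-1 / 2)
      (by push_cast; linear_combination h / 2)
    rw [hm] at h
    have : m + m = -1 := by exact_mod_cast h
    omega

omit [Fintype (Matrix.SpecialLinearGroup (Fin 2) F)] in
/-- absolute values of central translates -/
theorem mul_conj_center {χ : SL2 → ℂ} (hχ : IsIrrCharacter SL2 χ) {z : SL2} (hz : z ∈ Zs F) (g : SL2) :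
    χ (z * g) * conj (χ (z * g)) = χ g * conj (χ g) := by
  obtain ⟨μ, hμ⟩ := Cfsg.Agent.Lib.ExtraChar.exists_central_hom hχ
  have h1 := hμ ⟨z, mem_Zs.1 hz⟩ g
  have hc : z * g = g * z := (Subgroup.mem_center_iff.1 (mem_Zs.1 hz) g).symm
  simp only at h1
  rw [hc, h1, map_mul, conj_coe]
  have : (μ ⟨z, mem_Zs.1 hz⟩ : ℂ) * ((μ ⟨z, mem_Zs.1 hz⟩)⁻¹ : ℂˣ) = 1 := by
    rw [← Units.val_mul, mul_inv_cancel, Units.val_one]
  linear_combination (χ g * conj (χ g)) * this

/-- the norm equation, half principal series -/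
theorem half_ps_norm (h2F : (2 : F) ≠ 0) (h : Quad α ν) {χ : SL2 → ℂ} (hχ : IsIrrCharacter SL2 χ)
    (hne : classInner χ (R α) ≠ 0) :
    χ (uu 1) * conj (χ (uu 1)) + χ (uu (ν : F)) * conj (χ (uu (ν : F))) = (q + 1) / 2 := by
  have : Fintype F := Fintype.ofFinite F
  obtain ⟨A₀, h0⟩ := exists_isEll (F := F)
  have hcl := isClassFunction_mul_conj hχ.isClassFunction hχ.isClassFunction
  have hin := inner_formula hχ.isClassFunction hχ.isClassFunction h0 (fun _ => 1) (fun _ => 0) ?_ ?_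
  · rw [hχ.classInner_self] at hin
    have h2 := (half_ps h0 hχ h.sq h.ne hne).2.1
    have e1 : ∑ z ∈ Zs F, χ z * conj (χ z) = 2 * (χ 1) ^ 2 := by
      have : ∀ z ∈ Zs F, χ z * conj (χ z) = (χ 1) ^ 2 := by
        intro z hz
        have := mul_conj_center hχ hz 1
        rw [mul_one] at this
        rw [this]
        obtain ⟨d, _, hd⟩ := hχ.exists_degree
        rw [hd, Complex.conj_natCast]; ring
      rw [Finset.sum_congr rfl this, Finset.sum_const, SL2Count.card_Zs_odd h2F]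
      simp
    have e2 : ∑ z ∈ Zs F, ∑ b : Fˣ, χ (z * uu (b : F)) * conj (χ (z * uu (b : F))) =
        2 * ((q - 1) * ((χ (uu 1) * conj (χ (uu 1)) + χ (uu (ν : F)) * conj (χ (uu (ν : F)))) / 2)) := by
      have e3 := h.sum_uu hcl
      have : ∀ z ∈ Zs F, ∑ b : Fˣ, χ (z * uu (b : F)) * conj (χ (z * uu (b : F))) =
          (q - 1) * ((χ (uu 1) * conj (χ (uu 1)) + χ (uu (ν : F)) * conj (χ (uu (ν : F)))) / 2) := by
        intro z hz
        rw [← e3]
        apply Finset.sum_congr rfl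
        intro b _
        exact mul_conj_center hχ hz _
      rw [Finset.sum_congr rfl this, Finset.sum_const, SL2Count.card_Zs_odd h2F]
      simp
    rw [e1, e2] at hin
    simp only [Finset.sum_const, Finset.card_univ, nsmul_eq_mul, mul_one, mul_zero, sub_zero,
      add_zero, SL2Count.card_Zs_odd h2F] at hin
    rw [← Nat.card_eq_fintype_card, Nat.card_units] at hin
    have h3 : 1 ≤ Nat.card F := Finite.card_pos
    push_cast [Nat.cast_sub h3] at hin
    have h4 := q_sub_one_ne_zero (F := F)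
    have h5 := q_add_one_ne_zero (F := F)
    have h6 : χ 1 = (q + 1) / 2 := by linear_combination h2 / 2
    rw [h6] at hin
    apply mul_left_cancel₀ (mul_ne_zero h4 h5)
    linear_combination -hin / 2
  · intro g hg
    obtain ⟨c, hc, rfl⟩ := exists_dg_of_mem_ST hg
    rw [half_ps_ST h0 hχ h.sq h.ne hne hc]
    rcases h.val_cases c with h1 | h1 <;> rw [h1] <;> simp
  · intro g hg
    rw [vanish_SC h0 hχ.isClassFunction (half_ps h0 hχ h.sq h.ne hne).2.2.1 hg]
    simp

/-- the norm equation, half cuspidal -/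
theorem half_cusp_norm (h2F : (2 : F) ≠ 0) (h : Quad α ν) (h0 : IsEll A₀)
    {θ : Subgroup.centralizer ({A₀} : Set (Matrix.SpecialLinearGroup (Fin 2) F)) →* ℂˣ}
    {χ : SL2 → ℂ} (hχ : IsIrrCharacter SL2 χ) (hθ : θ ^ 2 = 1) (hθ1 : θ ≠ 1)
    (hne : classInner χ (cusp θ) ≠ 0) :
    χ (uu 1) * conj (χ (uu 1)) + χ (uu (ν : F)) * conj (χ (uu (ν : F))) = (q + 1) / 2 := by
  have : Fintype F := Fintype.ofFinite F
  have hcl := isClassFunction_mul_conj hχ.isClassFunction hχ.isClassFunction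
  have hin := inner_formula hχ.isClassFunction hχ.isClassFunction h0 (fun _ => 0) (fun _ => 1) ?_ ?_
  · rw [hχ.classInner_self] at hin
    have h2 := (half_cusp h0 hχ hθ hθ1 hne).2.1
    have e1 : ∑ z ∈ Zs F, χ z * conj (χ z) = 2 * (χ 1) ^ 2 := by
      have : ∀ z ∈ Zs F, χ z * conj (χ z) = (χ 1) ^ 2 := by
        intro z hz
        have := mul_conj_center hχ hz 1
        rw [mul_one] at this
        rw [this]
        obtain ⟨d, _, hd⟩ := hχ.exists_degree
        rw [hd, Complex.conj_natCast]; ring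
      rw [Finset.sum_congr rfl this, Finset.sum_const, SL2Count.card_Zs_odd h2F]
      simp
    have e2 : ∑ z ∈ Zs F, ∑ b : Fˣ, χ (z * uu (b : F)) * conj (χ (z * uu (b : F))) =
        2 * ((q - 1) * ((χ (uu 1) * conj (χ (uu 1)) + χ (uu (ν : F)) * conj (χ (uu (ν : F)))) / 2)) := by
      have e3 := h.sum_uu hcl
      have : ∀ z ∈ Zs F, ∑ b : Fˣ, χ (z * uu (b : F)) * conj (χ (z * uu (b : F))) =
          (q - 1) * ((χ (uu 1) * conj (χ (uu 1)) + χ (uu (ν : F)) * conj (χ (uu (ν : F)))) / 2) := by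
        intro z hz
        rw [← e3]
        apply Finset.sum_congr rfl
        intro b _
        exact mul_conj_center hχ hz _
      rw [Finset.sum_congr rfl this, Finset.sum_const, SL2Count.card_Zs_odd h2F]
      simp
    rw [e1, e2] at hin
    simp only [Finset.sum_const, Finset.card_univ, nsmul_eq_mul, mul_one, mul_zero, sub_zero,
      add_zero, SL2Count.card_Zs_odd h2F] at hin
    rw [← Nat.card_eq_fintype_card (α := Subgroup.centralizer ({A₀} : Set SL2)), C_card h0] at hin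
    push_cast at hin
    have h4 := q_sub_one_ne_zero (F := F)
    have h5 := q_add_one_ne_zero (F := F)
    have h6 : χ 1 = (q - 1) / 2 := by linear_combination h2 / 2
    rw [h6] at hin
    apply mul_left_cancel₀ (mul_ne_zero h4 h5)
    linear_combination -hin / 2
  · intro g hg
    rw [vanish_ST hχ.isClassFunction (half_cusp h0 hχ hθ hθ1 hne).2.2.1 hg]
    simp
  · intro g hg
    have h1 := half_cusp_SC h0 hχ hθ hθ1 hne ⟨g, hg.1⟩ hg.2
    simp only at h1
    rw [h1]
    rcases SqChar.val_cases hθ ⟨g, hg.1⟩ with h2 | h2 <;> rw [h2] <;> simp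

omit [Finite F] [Fintype (Matrix.SpecialLinearGroup (Fin 2) F)] in
theorem uu_inv (b : F) : (uu b : SL2)⁻¹ = uu (-b) := by
  rw [inv_eq_iff_mul_eq_one]
  apply ext2 <;> simp [coe_uu]

omit [Fintype (Matrix.SpecialLinearGroup (Fin 2) F)] in
/-- the square of the difference of the unipotent values -/
theorem diff_sq {p' : ℂ} (h : Quad α ν) {χ : SL2 → ℂ} (hχ : IsIrrCharacter SL2 χ)
    (hsum : χ (uu 1) + χ (uu (ν : F)) = p') (hp : p' ^ 2 = 1)
    (hnorm : χ (uu 1) * conj (χ (uu 1)) + χ (uu (ν : F)) * conj (χ (uu (ν : F))) = (q + 1) / 2) :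
    (2 * χ (uu 1) - p') ^ 2 = α (-1) * q := by
  have hcl := hχ.isClassFunction
  have hinv : ∀ b : Fˣ, conj (χ (uu (b : F))) = χ (uu ((-b : Fˣ) : F)) := by
    intro b
    rw [← hχ.inv, uu_inv]
    simp
  have h1 := hinv 1
  have h2 := hinv ν
  rw [h.uu_val hcl (-1)] at h1
  rw [h.uu_val hcl (-ν)] at h2
  rw [Units.val_one] at h1
  have e1 : ((-1 : Fˣ) : F) = -1 := by simp
  have e2 : α ((-ν : Fˣ) : F) = - α (-1) := by
    have : ((-ν : Fˣ) : F) = (-1) * (ν : F) := by simp
    rw [this, map_mul, h.val]; ring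
  rw [e1] at h1
  rw [e2] at h2
  rw [h1, h2] at hnorm
  have h3 : α (-1) = 1 ∨ α (-1) = -1 := by
    have := h.val_cases (-1)
    rwa [e1] at this
  subst hsum
  rcases h3 with h3 | h3
  · rw [h3] at hnorm ⊢
    linear_combination 2 * hnorm - hp
  · rw [h3] at hnorm ⊢
    linear_combination hp - 2 * hnorm

end Cfsg.Agent.Lib.SL2Half

namespace Cfsg.Agent.Lib.SL2Half

open Cfsg Classical Matrix ComplexConjugate
open Cfsg.Agent.Lib.SL2Basic Cfsg.Agent.Lib.SL2Tori Cfsg.Agent.Lib.SL2Int Cfsg.Agent.Lib.SL2Ind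
open Cfsg.Agent.Lib.CharBasic Cfsg.Agent.Lib.LinChar Cfsg.Agent.Lib.SL2Ortho
open Cfsg.Agent.Lib.SL2Class Cfsg.Agent.Lib.SL2Vals Cfsg.Agent.Lib.SL2Deg

/-- over the field with three elements the cuspidal characters vanish on elliptic elements -/
theorem cusp_vanish_three {F : Type*} [Field F] [Finite F] [Fintype (Matrix.SpecialLinearGroup (Fin 2) F)]
    (h3 : Nat.card F = 3)
    {A₀ : Matrix.SpecialLinearGroup (Fin 2) F} (h0 : IsEll A₀)
    {θ : Subgroup.centralizer ({A₀} : Set (Matrix.SpecialLinearGroup (Fin 2) F)) →* ℂˣ}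
    (hθ : θ ^ 2 ≠ 1) {g : Matrix.SpecialLinearGroup (Fin 2) F} (hg : g ∈ SC A₀) : cusp θ g = 0 := by
  have : Fintype F := Fintype.ofFinite F
  have hcard : Fintype.card F = 3 := by rw [← Nat.card_eq_fintype_card, h3]
  have h30 : (3 : F) = 0 := by
    have h1 : ((Fintype.card F : ℕ) : F) = 0 := Nat.cast_card_eq_zero F
    rw [hcard] at h1
    exact_mod_cast h1
  -- elliptic elements square to `-1`
  have hsq : ∀ s : Matrix.SpecialLinearGroup (Fin 2) F, IsEll s → s * s = -1 := by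
    intro s hs
    have ht : tr s = 0 := by
      by_contra ht
      have h4 := sq_ne_four_of_no_root hs
      apply h4
      have h5 : tr s ^ (Fintype.card F - 1) = 1 := FiniteField.pow_card_sub_one_eq_one _ ht
      rw [hcard] at h5
      have h5' : tr s ^ 2 = 1 := h5
      rw [h5']
      linear_combination -h30
    apply Subtype.ext
    have h6 := sq_eq s
    rw [ht, zero_smul, zero_sub] at h6
    rw [Matrix.SpecialLinearGroup.coe_neg, Matrix.SpecialLinearGroup.coe_one, ← h6,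
      Matrix.SpecialLinearGroup.coe_mul]
  set m : Subgroup.centralizer ({A₀} : Set (Matrix.SpecialLinearGroup (Fin 2) F)) :=
    ⟨-1, neg_one_mem_centralizer A₀⟩ with hm
  have hkey : ∀ s : Subgroup.centralizer ({A₀} : Set (Matrix.SpecialLinearGroup (Fin 2) F)),
      (s : Matrix.SpecialLinearGroup (Fin 2) F) ∉ Subgroup.center _ → s ^ 2 = m := by
    intro s hs
    apply Subtype.ext
    rw [Subgroup.coe_pow, pow_two]
    exact hsq _ (isEll_of_mem_SC h0 ⟨s.2, hs⟩)
  have hm2 : m ^ 2 = 1 := by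
    apply Subtype.ext
    simp [hm]
  have hθm : (θ m : ℂ) = -1 := by
    have h5 : ((θ m : ℂˣ) : ℂ) ^ 2 = 1 := by
      rw [← Units.val_pow_eq_pow_val, ← map_pow, hm2, map_one, Units.val_one]
    rcases mul_self_eq_one_iff.1 ((pow_two _).symm.trans h5) with h | h
    · exfalso
      apply hθ
      apply MonoidHom.ext
      intro s
      rw [MonoidHom.pow_apply, MonoidHom.one_apply, ← map_pow]
      by_cases hs : (s : Matrix.SpecialLinearGroup (Fin 2) F) ∈ Subgroup.center _
      · have : s ^ 2 = 1 := by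
          apply Subtype.ext
          rcases (mem_center_iff' _).1 hs with h6 | h6
          · rw [Subgroup.coe_pow, h6]; simp
          · rw [Subgroup.coe_pow, h6]; simp
        rw [this, map_one]
      · rw [hkey s hs]
        exact Units.ext (by rw [h, Units.val_one])
    · exact h
  rw [cusp_SC θ h0 hg]
  have e1 := xt_coe θ ⟨g, hg.1⟩
  have e2 := xt_coe θ (⟨g, hg.1⟩ : Subgroup.centralizer ({A₀} : Set (Matrix.SpecialLinearGroup (Fin 2) F)))⁻¹
  simp only [Subgroup.coe_inv, map_inv] at e1 e2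
  rw [e1, e2, Units.val_inv_eq_inv_val]
  have h7 := hkey ⟨g, hg.1⟩ hg.2
  have h8 : (θ ⟨g, hg.1⟩ : ℂ) ^ 2 = -1 := by
    rw [← Units.val_pow_eq_pow_val, ← map_pow, h7, hθm]
  have h9 : (θ ⟨g, hg.1⟩ : ℂ) ≠ 0 := (θ ⟨g, hg.1⟩).ne_zero
  field_simp
  rw [h8]; ring


/-- cyclic subgroups of order `q + 1` are non-split tori -/
theorem exists_eq_centralizer {F : Type*} [Field F] [Fintype F] (hodd : Odd (Fintype.card F))
    (C : Subgroup (Matrix.SpecialLinearGroup (Fin 2) F)) (hC : IsCyclic C)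
    (hcard : Nat.card C = Fintype.card F + 1) :
    ∃ A₀ : Matrix.SpecialLinearGroup (Fin 2) F, IsEll A₀ ∧ C = Subgroup.centralizer {A₀} := by
  obtain ⟨⟨c, hc⟩, hgen⟩ := IsCyclic.exists_generator (α := C)
  have hord : orderOf c = Fintype.card F + 1 := by
    rw [← hcard, ← orderOf_eq_card_of_forall_mem_zpowers hgen, Subgroup.orderOf_mk]
  have h2F := two_ne_zero_of_odd hodd
  have hq3 : 3 ≤ Fintype.card F := by
    have h1 : 1 < Fintype.card F := Fintype.one_lt_card
    obtain ⟨k, hk⟩ := hodd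
    omega
  obtain ⟨p, hp⟩ := CharP.exists F
  have hpp : Fact p.Prime := ⟨CharP.char_is_prime F p⟩
  have hpq : p ∣ Fintype.card F := by
    have h1 : ((Fintype.card F : ℕ) : F) = 0 := Nat.cast_card_eq_zero F
    exact (CharP.cast_eq_zero_iff F p _).1 h1
  have hcop : Nat.Coprime (Fintype.card F + 1) p := by
    rw [Nat.coprime_comm, hpp.out.coprime_iff_not_dvd]
    intro h
    have := (Nat.dvd_add_right hpq).1 h
    exact hpp.out.one_lt.ne' (Nat.dvd_one.1 this)
  have hE : IsEll c := by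
    rcases types c with ⟨h1, _, _, _⟩ | ⟨_, h2, _, _⟩ | ⟨_, _, h3, _⟩ | ⟨_, _, _, h4⟩
    · exfalso
      have h5 : c ^ 2 = 1 := by
        rcases (mem_center_iff' c).1 h1 with h | h <;> rw [h] <;> simp
      have := orderOf_dvd_of_pow_eq_one h5
      rw [hord] at this
      have := Nat.le_of_dvd (by norm_num) this
      omega
    · exfalso
      have h5 : c ^ (p * 2) = 1 := by
        rw [pow_mul]
        rcases pow_char_of_tr_sq (p := p) h2.2 with h | h <;> rw [h] <;> simp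
      have h6 := orderOf_dvd_of_pow_eq_one h5
      rw [hord] at h6
      have h7 := hcop.dvd_of_dvd_mul_left h6
      have := Nat.le_of_dvd (by norm_num) h7
      omega
    · exfalso
      obtain ⟨x, hx⟩ := h3.2
      have h5 := pow_card_sub_one_of_root h3.1 hx
      have h6 := orderOf_dvd_of_pow_eq_one h5
      rw [hord] at h6
      have := Nat.le_of_dvd (by omega) h6
      omega
    · exact h4
  refine ⟨c, hE, ?_⟩
  have hle : C ≤ Subgroup.centralizer {c} := by
    intro x hx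
    rw [Subgroup.mem_centralizer_singleton_iff]
    obtain ⟨k, hk⟩ := hgen ⟨x, hx⟩
    have h1 : c ^ k = x := congrArg Subtype.val hk
    rw [← h1]
    exact ((Commute.refl c).zpow_left k).eq
  apply Subgroup.eq_of_le_of_card_ge hle
  rw [C_card hE, hcard, Nat.card_eq_fintype_card]

end Cfsg.Agent.Lib.SL2Half
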