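import Cfsg.Agent.Lib.SL2Ring
import Cfsg.Agent.Lib.SL2RankOne
set_option autoImplicit false
set_option linter.unusedSimpArgs false

/-!
# `⟨X(c), Y(c z)⟩ = SL₂(k(z))`, infinite `k` (helper84)
-/

namespace Cfsg.Agent.Lib.SL2LemmaL
open Subgroup Matrix Polynomial
open Cfsg.Agent.Lib.SL2Ring

variable {k K : Type*} [Field k] [Field K] [Algebra k K]

/-! ### Reachable columns -/

/-- some element of `⟨X(k), Y(k z)⟩` has first column a `k`-multiple of `(p, q)` -/
def Rch (k : Type*) {K : Type*} [Field k] [Field K] [Algebra k K] (z : K) (p q : K) : Prop :=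
  ∃ g ∈ grp k z, ∃ l : k, l ≠ 0 ∧ g.1 0 0 = algebraMap k K l * p ∧ g.1 1 0 = algebraMap k K l * q

lemma rch_one (z : K) : Rch k z 1 0 :=
  ⟨1, Subgroup.one_mem _, 1, one_ne_zero, by simp, by simp⟩

lemma rch_X {z p q : K} (h : Rch k z p q) (c : k) : Rch k z (p + algebraMap k K c * q) q := by
  obtain ⟨g, hg, l, hl, h1, h2⟩ := h
  refine ⟨X (algebraMap k K c) * g, Subgroup.mul_mem _ (X_mem_grp z c) hg, l, hl, ?_, ?_⟩
  · simp [h1, h2]; ring
  · simp [h2]

lemma rch_Y {z p q : K} (h : Rch k z p q) (c : k) : Rch k z p (q + algebraMap k K c * z * p) := by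
  obtain ⟨g, hg, l, hl, h1, h2⟩ := h
  refine ⟨Y (algebraMap k K c * z) * g, Subgroup.mul_mem _ (Y_mem_grp z c) hg, l, hl, ?_, ?_⟩
  · simp [h1]
  · simp [h1, h2]; ring

lemma rch_scale {z p q : K} (h : Rch k z p q) {a b : k} (ha : a ≠ 0) (hb : b ≠ 0) :
    Rch k z (algebraMap k K a * p) (algebraMap k K b * q) := by
  obtain ⟨g, hg, l, hl, h1, h2⟩ := h
  have hc : a / b ≠ 0 := div_ne_zero ha hb
  refine ⟨scl (sc K (a / b) hc) g, scl_mem_grp z _ hc hg, l / a, div_ne_zero hl ha, ?_, ?_⟩
  · have : algebraMap k K a ≠ 0 := by simpa using ha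
    simp only [scl_00, h1, map_div₀]
    field_simp
  · have ha' : algebraMap k K a ≠ 0 := by simpa using ha
    have hb' : algebraMap k K b ≠ 0 := by simpa using hb
    simp only [scl_10, sc_inv_coe, h2, map_div₀, map_inv₀]
    field_simp

lemma rch_ne {z p q : K} (h : Rch k z p q) : p ≠ 0 ∨ q ≠ 0 := by
  obtain ⟨g, _, l, _, h1, h2⟩ := h
  by_contra hcon
  push Not at hcon
  have hd := det_eq g
  rw [h1, h2, hcon.1, hcon.2] at hd
  simp at hd

/-- multipliers of the space of translations -/
lemma rch_mul {z p q θ : K} (h : Rch k z p q) (h' : Rch k z (θ * p) (θ * q)) {r : K}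
    (hr : X r ∈ grp k z) : X (θ ^ 2 * r) ∈ grp k z := by
  obtain ⟨g, hg, l, hl, h1, h2⟩ := h
  obtain ⟨g', hg', l', hl', h1', h2'⟩ := h'
  have hl0 : algebraMap k K l ≠ 0 := by simpa using hl
  have hl0' : algebraMap k K l' ≠ 0 := by simpa using hl'
  set b := g⁻¹ * g' with hb
  have hbm : b ∈ grp k z := Subgroup.mul_mem _ (Subgroup.inv_mem _ hg) hg'
  have hd := det_eq g
  have hb10 : b.1 1 0 = 0 := by
    rw [hb, mul_10, inv_10, inv_11, h1, h2, h1', h2']; ring
  have hb00 : b.1 0 0 = θ * (algebraMap k K l' / algebraMap k K l) := by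
    rw [hb, mul_00, inv_00, inv_01, h1', h2']
    have e1 : g.1 1 1 * p - g.1 0 1 * q = 1 / algebraMap k K l := by
      rw [h1, h2] at hd
      field_simp
      linear_combination hd
    calc g.1 1 1 * (algebraMap k K l' * (θ * p)) + -g.1 0 1 * (algebraMap k K l' * (θ * q))
        = algebraMap k K l' * θ * (g.1 1 1 * p - g.1 0 1 * q) := by ring
      _ = _ := by rw [e1]; ring
  have hconj : b * X r * b⁻¹ = X (b.1 0 0 ^ 2 * r) := by
    have hdb := det_eq b
    rw [hb10, mul_zero, sub_zero] at hdb
    apply sl_ext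
    · simp only [mul_00, mul_01, mul_10, mul_11, X_00, X_01, X_10, X_11, inv_00, inv_01, inv_10,
        inv_11, hb10]
      linear_combination hdb
    · simp only [mul_00, mul_01, mul_10, mul_11, X_00, X_01, X_10, X_11, inv_00, inv_01, inv_10,
        inv_11, hb10]
      ring
    · simp only [mul_00, mul_01, mul_10, mul_11, X_00, X_01, X_10, X_11, inv_00, inv_01, inv_10,
        inv_11, hb10]
      ring
    · simp only [mul_00, mul_01, mul_10, mul_11, X_00, X_01, X_10, X_11, inv_00, inv_01, inv_10,
        inv_11, hb10]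
      linear_combination hdb
  have h3 : X (b.1 0 0 ^ 2 * r) ∈ grp k z := by
    rw [← hconj]
    exact Subgroup.mul_mem _ (Subgroup.mul_mem _ hbm hr) (Subgroup.inv_mem _ hbm)
  have h4 : l ^ 2 / l' ^ 2 ≠ 0 := div_ne_zero (pow_ne_zero 2 hl) (pow_ne_zero 2 hl')
  have h5 := scl_mem_grp z (l ^ 2 / l' ^ 2) h4 h3
  rw [scl_X, sc_coe, hb00] at h5
  have h6 : algebraMap k K (l ^ 2 / l' ^ 2) * ((θ * (algebraMap k K l' / algebraMap k K l)) ^ 2 * r) =
      θ ^ 2 * r := by
    rw [map_div₀, map_pow, map_pow]
    field_simp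
  rwa [h6] at h5

/-! ### The Euclidean algorithm -/

/-- the nondegeneracy expression of the Euclidean algorithm -/
noncomputable def Dlt {R : Type*} [CommRing R] : ℕ → R[X] → R[X] → R
  | 0, S, _ => S.coeff 0
  | i + 1, S, W =>
    S.coeff (i + 1) * (C (S.coeff (i + 1)) * W - C (W.coeff (i + 1)) * S).coeff i *
      Dlt i (C ((C (S.coeff (i + 1)) * W - C (W.coeff (i + 1)) * S).coeff i) * S -
        C (S.coeff (i + 1)) * Polynomial.X *
          (C (S.coeff (i + 1)) * W - C (W.coeff (i + 1)) * S))
        (C (S.coeff (i + 1)) * W - C (W.coeff (i + 1)) * S)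

lemma Dlt_map {R R' : Type*} [CommRing R] [CommRing R'] (f : R →+* R') (i : ℕ) :
    ∀ S W : R[X], f (Dlt i S W) = Dlt i (S.map f) (W.map f) := by
  induction i with
  | zero => intro S W; simp [Dlt]
  | succ i ih =>
    intro S W
    simp only [Dlt, map_mul, ih]
    simp [Polynomial.coeff_map, Polynomial.map_sub, Polynomial.map_mul]

lemma rch_of_Dlt (z : K) (i : ℕ) : ∀ S W : k[X], S.natDegree ≤ i → W.natDegree ≤ i →
    Dlt i S W ≠ 0 → Rch k z (aeval z S) (z * aeval z W) := by
  induction i with
  | zero =>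
    intro S W hS hW hD
    rw [Nat.le_zero, Polynomial.natDegree_eq_zero] at hS hW
    obtain ⟨σ, rfl⟩ := hS
    obtain ⟨ω, rfl⟩ := hW
    have hσ : σ ≠ 0 := by simpa [Dlt] using hD
    rw [aeval_C, aeval_C]
    have h1 := rch_scale (rch_Y (rch_one (k := k) z) (ω / σ)) hσ hσ
    have e1 : algebraMap k K σ * 1 = algebraMap k K σ := mul_one _
    have e2 : algebraMap k K σ * (0 + algebraMap k K (ω / σ) * z * 1) = z * algebraMap k K ω := by
      have : algebraMap k K σ ≠ 0 := by simpa using hσ
      rw [map_div₀]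
      field_simp
      ring
    rwa [e1, e2] at h1
  | succ i ih =>
    intro S W hS hW hD
    simp only [Dlt] at hD
    set σ := S.coeff (i + 1) with hσdef
    set ω := W.coeff (i + 1) with hωdef
    set W1 := C σ * W - C ω * S with hW1
    set ω1 := W1.coeff i with hω1
    set S1 := C ω1 * S - C σ * Polynomial.X * W1 with hS1
    have hσ : σ ≠ 0 := by
      intro e; apply hD; rw [e]; ring
    have hω10 : ω1 ≠ 0 := by
      intro e; apply hD; rw [e]; ring
    have hD1 : Dlt i S1 W1 ≠ 0 := by
      intro e; apply hD; rw [e]; ring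
    have hW1d : W1.natDegree ≤ i := by
      rw [Polynomial.natDegree_le_iff_coeff_eq_zero]
      intro N hN
      rcases Nat.eq_or_lt_of_le (Nat.succ_le_of_lt hN) with h1 | h1
      · rw [← h1, hW1]
        simp only [Polynomial.coeff_sub, Polynomial.coeff_C_mul]
        show σ * W.coeff (i + 1) - ω * S.coeff (i + 1) = 0
        rw [← hσdef, ← hωdef]; ring
      · rw [hW1]
        simp only [Polynomial.coeff_sub, Polynomial.coeff_C_mul]
        rw [Polynomial.coeff_eq_zero_of_natDegree_lt (lt_of_le_of_lt hW h1),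
          Polynomial.coeff_eq_zero_of_natDegree_lt (lt_of_le_of_lt hS h1)]
        ring
    have hS1d : S1.natDegree ≤ i := by
      rw [Polynomial.natDegree_le_iff_coeff_eq_zero]
      intro N hN
      have hNs : ∃ N', N = N' + 1 := ⟨N - 1, by omega⟩
      obtain ⟨N', rfl⟩ := hNs
      have e : S1.coeff (N' + 1) = ω1 * S.coeff (N' + 1) - σ * W1.coeff N' := by
        rw [hS1, Polynomial.coeff_sub, Polynomial.coeff_C_mul, mul_assoc, Polynomial.coeff_C_mul,
          Polynomial.coeff_X_mul]
      rw [e]
      rcases Nat.eq_or_lt_of_le (Nat.lt_succ_iff.1 hN) with h1 | h1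
      · rw [← h1, ← hσdef, ← hω1]; ring
      · rw [Polynomial.coeff_eq_zero_of_natDegree_lt (lt_of_le_of_lt hS (by omega)),
          Polynomial.coeff_eq_zero_of_natDegree_lt (lt_of_le_of_lt hW1d h1)]
        ring
    have h1 := ih S1 W1 hS1d hW1d hD1
    have h2 := rch_X h1 σ
    have e2 : aeval z S1 + algebraMap k K σ * (z * aeval z W1) = algebraMap k K ω1 * aeval z S := by
      rw [hS1]
      simp only [map_sub, map_mul, aeval_C, aeval_X]
      ring
    rw [e2] at h2
    have h3 := rch_scale h2 (inv_ne_zero hω10) one_ne_zero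
    have e3 : algebraMap k K ω1⁻¹ * (algebraMap k K ω1 * aeval z S) = aeval z S := by
      rw [← mul_assoc, ← map_mul, inv_mul_cancel₀ hω10, map_one, one_mul]
    rw [e3, map_one, one_mul] at h3
    have h4 := rch_Y h3 ω
    have e4 : z * aeval z W1 + algebraMap k K ω * z * aeval z S =
        algebraMap k K σ * (z * aeval z W) := by
      rw [hW1]
      simp only [map_sub, map_mul, aeval_C]
      ring
    rw [e4] at h4
    have h5 := rch_scale h4 one_ne_zero (inv_ne_zero hσ)
    have e5 : algebraMap k K σ⁻¹ * (algebraMap k K σ * (z * aeval z W)) = z * aeval z W := by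
      rw [← mul_assoc, ← map_mul, inv_mul_cancel₀ hσ, map_one, one_mul]
    rwa [e5, map_one, one_mul] at h5

/-- the model pair `(P_i, Q_i)` -/
noncomputable def PQ (R : Type*) [CommRing R] : ℕ → R[X] × R[X]
  | 0 => (1, 1)
  | i + 1 => ((PQ R i).1 + Polynomial.X * (PQ R i).2,
      (PQ R i).2 + ((PQ R i).1 + Polynomial.X * (PQ R i).2))

lemma PQ_spec (R : Type*) [CommRing R] [Nontrivial R] (i : ℕ) :
    (PQ R i).1.natDegree ≤ i ∧ (PQ R i).2.natDegree ≤ i ∧ (PQ R i).1.coeff i = 1 ∧
      (PQ R i).2.coeff i = 1 := by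
  induction i with
  | zero => simp [PQ]
  | succ i ih =>
    obtain ⟨h1, h2, h3, h4⟩ := ih
    have hX : (Polynomial.X * (PQ R i).2).natDegree ≤ i + 1 := by
      refine (Polynomial.natDegree_mul_le).trans ?_
      have := Polynomial.natDegree_X_le (R := R)
      omega
    have hP : ((PQ R i).1 + Polynomial.X * (PQ R i).2).natDegree ≤ i + 1 :=
      (Polynomial.natDegree_add_le _ _).trans (max_le (by omega) hX)
    have hc1 : ((PQ R i).1 + Polynomial.X * (PQ R i).2).coeff (i + 1) = 1 := by
      rw [Polynomial.coeff_add, Polynomial.coeff_X_mul, h4,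
        Polynomial.coeff_eq_zero_of_natDegree_lt (by omega), zero_add]
    refine ⟨hP, (Polynomial.natDegree_add_le _ _).trans (max_le (by omega) hP), hc1, ?_⟩
    show ((PQ R i).2 + ((PQ R i).1 + Polynomial.X * (PQ R i).2)).coeff (i + 1) = 1
    rw [Polynomial.coeff_add, hc1, Polynomial.coeff_eq_zero_of_natDegree_lt (by omega), zero_add]

lemma Dlt_PQ (R : Type*) [CommRing R] [Nontrivial R] (i : ℕ) :
    Dlt i (PQ R i).1 (PQ R i).2 = 1 := by
  induction i with
  | zero => simp [Dlt, PQ]
  | succ i ih =>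
    obtain ⟨_, _, h3, h4⟩ := PQ_spec R (i + 1)
    obtain ⟨_, _, _, h4'⟩ := PQ_spec R i
    have e1 : C (1 : R) * (PQ R (i + 1)).2 - C (1 : R) * (PQ R (i + 1)).1 = (PQ R i).2 := by
      rw [C_1]
      simp only [PQ]; ring
    have e2 : C (1 : R) * (PQ R (i + 1)).1 - C (1 : R) * Polynomial.X * (PQ R i).2 = (PQ R i).1 := by
      rw [C_1]
      simp only [PQ]; ring
    simp only [Dlt, h3, h4, e1, h4', e2, ih]
    ring

/-- existence of a multiplier outside `k` -/
lemma exists_mult (h20 : (2 : k) ≠ 0) (z : K) [FiniteDimensional k K] [Infinite k]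
    (hgen : Algebra.adjoin k {z} = ⊤) (hn : 1 < Module.finrank k K) :
    ∃ η : K, η ∉ Set.range (algebraMap k K) ∧ ∀ r : K, X r ∈ grp k z → X (η * r) ∈ grp k z := by
  classical
  set n := Module.finrank k K with hndef
  set i := (n + 1) / 2 with hi
  have hin : i < n := by omega
  have h2i : n ≤ 2 * i := by omega
  have hint : IsIntegral k z := Algebra.IsIntegral.isIntegral z
  -- degree of the minimal polynomial
  have hmin : (minpoly k z).natDegree = n := by
    have e1 := (Algebra.adjoin.powerBasis hint).finrank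
    have e2 : Module.finrank k (Algebra.adjoin k {z}) = n := by
      rw [hgen, hndef]
      exact (Subalgebra.topEquiv (R := k) (A := K)).toLinearEquiv.finrank_eq
    rw [e2] at e1
    rw [e1]; exact (Algebra.adjoin.powerBasis_dim hint).symm
  obtain ⟨hP, hQ, _, _⟩ := PQ_spec k i
  set P := (PQ k i).1 with hPdef
  set Q := (PQ k i).2 with hQdef
  have hD : Dlt i P Q = 1 := Dlt_PQ k i
  have hPQ := rch_of_Dlt z i P Q hP hQ (by rw [hD]; exact one_ne_zero)
  -- the linear map
  let V := Polynomial.degreeLT k (i + 1)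
  let Φ : (V × V) →ₗ[k] K :=
    { toFun := fun AB => aeval z (AB.1 : k[X]) * aeval z Q - aeval z (AB.2 : k[X]) * aeval z P
      map_add' := by
        rintro ⟨A, B⟩ ⟨A', B'⟩
        simp only [Prod.mk_add_mk, Submodule.coe_add, map_add]
        ring
      map_smul' := by
        rintro c ⟨A, B⟩
        simp only [Prod.smul_mk, Submodule.coe_smul, map_smul, RingHom.id_apply, smul_sub,
          smul_mul_assoc] }
  have hV : Module.finrank k V = i + 1 := by
    rw [(Polynomial.degreeLTEquiv k (i + 1)).finrank_eq]; simp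
  have : FiniteDimensional k V := by
    exact Module.Finite.equiv (Polynomial.degreeLTEquiv k (i + 1)).symm
  have hker : 2 ≤ Module.finrank k (LinearMap.ker Φ) := by
    have h1 := LinearMap.finrank_range_add_finrank_ker Φ
    have h2 : Module.finrank k (LinearMap.range Φ) ≤ n := Submodule.finrank_le _
    rw [Module.finrank_prod, hV] at h1
    omega
  have hPV : P ∈ V := by
    rw [Polynomial.mem_degreeLT]
    exact lt_of_le_of_lt Polynomial.degree_le_natDegree (by exact_mod_cast Nat.lt_succ_of_le hP)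
  have hQV : Q ∈ V := by
    rw [Polynomial.mem_degreeLT]
    exact lt_of_le_of_lt Polynomial.degree_le_natDegree (by exact_mod_cast Nat.lt_succ_of_le hQ)
  -- an element of the kernel outside the line of `(P, Q)`
  obtain ⟨A, B, hAV, hBV, hAB, hnot⟩ : ∃ A B : k[X], A.natDegree ≤ i ∧ B.natDegree ≤ i ∧
      aeval z A * aeval z Q = aeval z B * aeval z P ∧ ∀ c : k, ¬ (A = c • P ∧ B = c • Q) := by
    by_contra hcon
    push Not at hcon
    have hle : LinearMap.ker Φ ≤ Submodule.span k {((⟨P, hPV⟩ : V), (⟨Q, hQV⟩ : V))} := by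
      rintro ⟨⟨A, hA⟩, ⟨B, hB⟩⟩ hmem
      rw [LinearMap.mem_ker] at hmem
      have hA' : A.natDegree ≤ i := by
        rw [Polynomial.mem_degreeLT] at hA
        by_cases hA0 : A = 0
        · rw [hA0]; simp
        · rw [Polynomial.degree_eq_natDegree hA0] at hA
          have : A.natDegree < i + 1 := by exact_mod_cast hA
          omega
      have hB' : B.natDegree ≤ i := by
        rw [Polynomial.mem_degreeLT] at hB
        by_cases hB0 : B = 0
        · rw [hB0]; simp
        · rw [Polynomial.degree_eq_natDegree hB0] at hB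
          have : B.natDegree < i + 1 := by exact_mod_cast hB
          omega
      have hmem' : aeval z A * aeval z Q - aeval z B * aeval z P = 0 := hmem
      obtain ⟨c, hc1, hc2⟩ := hcon A B hA' hB' (sub_eq_zero.1 hmem')
      rw [Submodule.mem_span_singleton]
      refine ⟨c, ?_⟩
      ext1
      · exact Subtype.ext hc1.symm
      · exact Subtype.ext hc2.symm
    have h1 := Submodule.finrank_mono hle
    have h2 := finrank_span_le_card (R := k) ({((⟨P, hPV⟩ : V), (⟨Q, hQV⟩ : V))} : Set (V × V))
    simp at h2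
    omega
  -- the multiplier
  obtain ⟨η, hη1, hη2⟩ : ∃ η : K, aeval z A = η * aeval z P ∧ aeval z B = η * aeval z Q := by
    by_cases hP0 : aeval z P = 0
    · have hQ0 : aeval z Q ≠ 0 := by
        intro hQ0
        rcases rch_ne hPQ with h | h
        · exact h hP0
        · apply h; rw [hQ0, mul_zero]
      refine ⟨aeval z B / aeval z Q, ?_, ?_⟩
      · rw [hP0, mul_zero] at hAB ⊢
        rcases mul_eq_zero.1 hAB with h | h
        · exact h
        · exact absurd h hQ0
      · field_simp
    · refine ⟨aeval z A / aeval z P, ?_, ?_⟩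
      · field_simp
      · field_simp
        linear_combination -hAB
  have hηk : η ∉ Set.range (algebraMap k K) := by
    rintro ⟨c, rfl⟩
    apply hnot c
    have key : ∀ f : k[X], f.natDegree ≤ i → aeval z f = 0 → f = 0 := by
      intro f hf hz
      by_contra hf0
      have h1 := Polynomial.natDegree_le_natDegree (minpoly.degree_le_of_ne_zero k z hf0 hz)
      omega
    constructor
    · rw [← sub_eq_zero]
      apply key
      · exact (Polynomial.natDegree_sub_le _ _).trans
          (max_le hAV ((Polynomial.natDegree_smul_le _ _).trans hP))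
      · rw [map_sub, map_smul, hη1, Algebra.smul_def, sub_self]
    · rw [← sub_eq_zero]
      apply key
      · exact (Polynomial.natDegree_sub_le _ _).trans
          (max_le hBV ((Polynomial.natDegree_smul_le _ _).trans hQ))
      · rw [map_sub, map_smul, hη2, Algebra.smul_def, sub_self]
  -- the polynomial in `u`
  let Su : (k[X])[X] := P.map C + C Polynomial.X * A.map C
  let Wu : (k[X])[X] := Q.map C + C Polynomial.X * B.map C
  let D : k[X] := Dlt i Su Wu
  have hDeval : ∀ u : k, D.eval u = Dlt i (P + u • A) (Q + u • B) := by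
    intro u
    have h1 := Dlt_map (Polynomial.evalRingHom u) i Su Wu
    have e : ∀ F : k[X], (F.map C).map (Polynomial.evalRingHom u) = F := by
      intro F
      rw [Polynomial.map_map]
      have : (Polynomial.evalRingHom u).comp C = RingHom.id k := by
        ext x; simp
      rw [this, Polynomial.map_id]
    have e1 : Su.map (Polynomial.evalRingHom u) = P + u • A := by
      show (P.map C + C Polynomial.X * A.map C).map (Polynomial.evalRingHom u) = _
      rw [Polynomial.map_add, Polynomial.map_mul, e, e, Polynomial.map_C]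
      simp [Polynomial.smul_eq_C_mul]
    have e2 : Wu.map (Polynomial.evalRingHom u) = Q + u • B := by
      show (Q.map C + C Polynomial.X * B.map C).map (Polynomial.evalRingHom u) = _
      rw [Polynomial.map_add, Polynomial.map_mul, e, e, Polynomial.map_C]
      simp [Polynomial.smul_eq_C_mul]
    rw [e1, e2] at h1
    exact h1
  have hD0 : D ≠ 0 := by
    intro h0
    have := hDeval 0
    rw [h0, zero_smul, zero_smul, add_zero, add_zero, hD, Polynomial.eval_zero] at this
    exact zero_ne_one this
  have hgood : ∀ u : k, D.eval u ≠ 0 → ∀ r : K, X r ∈ grp k z →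
      X ((1 + algebraMap k K u * η) ^ 2 * r) ∈ grp k z := by
    intro u hu r hr
    rw [hDeval] at hu
    have h1 := rch_of_Dlt z i (P + u • A) (Q + u • B)
      ((Polynomial.natDegree_add_le _ _).trans
        (max_le hP ((Polynomial.natDegree_smul_le _ _).trans hAV)))
      ((Polynomial.natDegree_add_le _ _).trans
        (max_le hQ ((Polynomial.natDegree_smul_le _ _).trans hBV))) hu
    have e1 : aeval z (P + u • A) = (1 + algebraMap k K u * η) * aeval z P := by
      rw [map_add, map_smul, hη1, Algebra.smul_def]; ring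
    have e2 : z * aeval z (Q + u • B) = (1 + algebraMap k K u * η) * (z * aeval z Q) := by
      rw [map_add, map_smul, hη2, Algebra.smul_def]; ring
    rw [e1, e2] at h1
    exact rch_mul hPQ h1 hr
  refine ⟨η, hηk, ?_⟩
  -- two good nonzero values
  have hfin : (D.rootSet k ∪ {0} : Set k).Finite := (D.rootSet_finite k).union (Set.finite_singleton 0)
  obtain ⟨u, hu⟩ := hfin.exists_notMem
  obtain ⟨v, hv⟩ := (hfin.union (Set.finite_singleton u)).exists_notMem
  have hmem : ∀ w : k, w ∉ D.rootSet k ∪ {0} → D.eval w ≠ 0 ∧ w ≠ 0 := by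
    intro w hw
    constructor
    · intro h0
      apply hw
      left
      rw [Polynomial.mem_rootSet]
      exact ⟨hD0, by simpa using h0⟩
    · intro h0; apply hw; right; exact h0
  have hu' := hmem u hu
  have hv' := hmem v (fun h => hv (Or.inl h))
  have huv : v ≠ u := fun h => hv (Or.inr h)
  intro r hr
  let T := TT (k := k) (grp k z) (fun c hc g hg => scl_mem_grp z c hc hg)
  have hrT : r ∈ T := hr
  have hX : ∀ w : k, D.eval w ≠ 0 → w ≠ 0 → (2 : K) * η * r + algebraMap k K w * (η ^ 2 * r) ∈ T := by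
    intro w hw hw0
    have h1 : (1 + algebraMap k K w * η) ^ 2 * r ∈ T := hgood w hw r hr
    have h2 := T.smul_mem w⁻¹ (T.sub_mem h1 hrT)
    have e : w⁻¹ • ((1 + algebraMap k K w * η) ^ 2 * r - r) =
        (2 : K) * η * r + algebraMap k K w * (η ^ 2 * r) := by
      have : algebraMap k K w ≠ 0 := by simpa using hw0
      rw [Algebra.smul_def, map_inv₀]
      field_simp
      ring
    rwa [e] at h2
  have h1 := hX u hu'.1 hu'.2
  have h2 := hX v hv'.1 hv'.2
  have h3 : η ^ 2 * r ∈ T := by
    have h4 := T.smul_mem (v - u)⁻¹ (T.sub_mem h2 h1)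
    have e : (v - u)⁻¹ • ((2 : K) * η * r + algebraMap k K v * (η ^ 2 * r) -
        ((2 : K) * η * r + algebraMap k K u * (η ^ 2 * r))) = η ^ 2 * r := by
      have h0 : algebraMap k K v - algebraMap k K u ≠ 0 := by
        rw [← map_sub]
        exact (map_ne_zero (algebraMap k K)).2 (sub_ne_zero.2 huv)
      rw [Algebra.smul_def, map_inv₀, map_sub]
      field_simp
      ring
    rwa [e] at h4
  have h4 : (2 : K) * η * r ∈ T := by
    have h5 := T.sub_mem h1 (T.smul_mem u h3)
    have e : (2 : K) * η * r + algebraMap k K u * (η ^ 2 * r) - u • (η ^ 2 * r) = (2 : K) * η * r := by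
      rw [Algebra.smul_def]; ring
    rwa [e] at h5
  have h5 : η * r ∈ T := by
    have h6 := T.smul_mem (2 : k)⁻¹ h4
    have e : (2 : k)⁻¹ • ((2 : K) * η * r) = η * r := by
      have h0 : algebraMap k K 2 ≠ 0 := (map_ne_zero (algebraMap k K)).2 h20
      rw [Algebra.smul_def, map_inv₀, ← mul_assoc, ← mul_assoc]
      have : (2 : K) = algebraMap k K 2 := (map_ofNat (algebraMap k K) 2).symm
      rw [← this] at h0 ⊢
      rw [inv_mul_cancel₀ h0, one_mul]
    rwa [e] at h6
  exact h5

/-! ### Generation -/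

lemma eq_top_of_X_Y {H : Subgroup (SpecialLinearGroup (Fin 2) K)} (hX : ∀ r : K, X r ∈ H)
    (hY : ∀ r : K, Y r ∈ H) : H = ⊤ := by
  rw [eq_top_iff, ← Cfsg.Agent.Lib.SL2RankOne.sup_eq_top]
  refine sup_le ?_ ?_
  · intro g hg
    obtain ⟨t, rfl⟩ := Cfsg.Agent.Lib.SL2RankOne.mem_lower.1 hg
    exact hY t
  · intro g hg
    obtain ⟨t, rfl⟩ := Cfsg.Agent.Lib.SL2RankOne.mem_upper.1 hg
    exact hX t

lemma eq_top_of_X {z : K} (hz : z ≠ 0) (hX : ∀ r : K, X r ∈ grp k z) : grp k z = ⊤ := by
  refine eq_top_of_X_Y hX ?_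
  intro r
  have h1 := swp_mem_grp (k := k) (Units.mk0 z hz) (hX (z⁻¹ * r))
  rw [swp_X] at h1
  have : ((Units.mk0 z hz : Kˣ) : K) * (z⁻¹ * r) = r := by
    rw [Units.val_mk0, ← mul_assoc, mul_inv_cancel₀ hz, one_mul]
  rwa [this] at h1

theorem grp_eq_top_of_infinite (h20 : (2 : k) ≠ 0) {z : K} (hz : z ≠ 0) [FiniteDimensional k K]
    [Infinite k] (hgen : Algebra.adjoin k {z} = ⊤) : grp k z = ⊤ := by
  let F0 : Subalgebra k K :=
    { carrier := {a | ∀ r : K, X r ∈ grp k z → X (a * r) ∈ grp k z}
      mul_mem' := by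
        intro a b ha hb r hr
        rw [mul_assoc]
        exact ha _ (hb _ hr)
      add_mem' := by
        intro a b ha hb r hr
        rw [add_mul, X_add]
        exact Subgroup.mul_mem _ (ha _ hr) (hb _ hr)
      algebraMap_mem' := by
        intro c r hr
        let T := TT (k := k) (grp k z) (fun c hc g hg => scl_mem_grp z c hc hg)
        have : c • r ∈ T := T.smul_mem c hr
        rw [Algebra.smul_def] at this
        exact this }
  let F := subalgebraEquivIntermediateField F0
  have hF : ∀ a : K, a ∈ F ↔ ∀ r : K, X r ∈ grp k z → X (a * r) ∈ grp k z := by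
    intro a
    exact mem_subalgebraEquivIntermediateField
  have hgrp : grp (↥F) z = grp k z := by
    apply le_antisymm
    · unfold grp
      rw [Subgroup.closure_le]
      rintro _ (⟨c, rfl⟩ | ⟨c, rfl⟩)
      · have := (hF c).1 c.2 1 (X_one_mem z)
        rw [mul_one] at this
        exact this
      · have h1 := (hF c).1 c.2 1 (X_one_mem z)
        rw [mul_one] at h1
        have h2 := swp_mem_grp (k := k) (Units.mk0 z hz) h1
        rw [swp_X, mul_comm] at h2
        exact h2
    · unfold grp
      rw [Subgroup.closure_le]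
      rintro _ (⟨c, rfl⟩ | ⟨c, rfl⟩)
      · exact Subgroup.subset_closure (Or.inl ⟨algebraMap k F c, rfl⟩)
      · exact Subgroup.subset_closure (Or.inr ⟨algebraMap k F c, rfl⟩)
  have hFtop : F = ⊤ := by
    by_contra hne
    have hinf : Infinite ↥F := Infinite.of_injective (algebraMap k F) (algebraMap k F).injective
    have hgen' : Algebra.adjoin (↥F) {z} = ⊤ := by
      rw [eq_top_iff]
      intro x _
      have hx : x ∈ Algebra.adjoin k {z} := by rw [hgen]; trivial
      have hle : Algebra.adjoin k {z} ≤ (Algebra.adjoin (↥F) {z}).restrictScalars k :=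
        Algebra.adjoin_le (by
          intro y hy
          exact Algebra.subset_adjoin hy)
      exact hle hx
    have hn : 1 < Module.finrank (↥F) K := by
      have h1 : 0 < Module.finrank (↥F) K := Module.finrank_pos
      have h2 : Module.finrank (↥F) K ≠ 1 := by
        intro h
        exact hne (IntermediateField.finrank_eq_one_iff_eq_top.1 h)
      omega
    have h20' : (2 : ↥F) ≠ 0 := by
      intro h
      apply h20
      have : algebraMap k F 2 = 0 := by rw [map_ofNat]; exact h
      exact (map_eq_zero (algebraMap k F)).1 this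
    obtain ⟨η, hη, hη2⟩ := exists_mult (k := ↥F) h20' z hgen' hn
    apply hη
    rw [hgrp] at hη2
    have : η ∈ F := (hF η).2 hη2
    exact ⟨⟨η, this⟩, rfl⟩
  apply eq_top_of_X hz
  intro r
  have h1 := (hF r).1 (by rw [hFtop]; trivial) 1 (X_one_mem z)
  rwa [mul_one] at h1

end Cfsg.Agent.Lib.SL2LemmaL
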