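import Cfsg.Agent.Lib.SL2Star
set_option autoImplicit false
set_option linter.unusedSimpArgs false

/-!
# Noncentral normal subgroups of `⟨X(k), Y(k z)⟩` contain some `X(r)`, `r ≠ 0`; the field criterion
(helper84)
-/

namespace Cfsg.Agent.Lib.SL2Normal
open Subgroup Matrix
open Cfsg.Agent.Lib.SL2Ring Cfsg.Agent.Lib.SL2Gen Cfsg.Agent.Lib.SL2LemmaL Cfsg.Agent.Lib.SL2Star

universe u v

variable {k : Type u} [Field k] {R : Type v} [CommRing R] [Algebra k R]

/-- `Γ` contains an element not commuting with `⟨X(k), Y(kz)⟩` -/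
def NonCen (k : Type u) [Field k] {R : Type v} [CommRing R] [Algebra k R] (z : R)
    (Γ : Subgroup (SpecialLinearGroup (Fin 2) R)) : Prop :=
  ∃ g ∈ Γ, ∃ h ∈ grp k z, g * h ≠ h * g

lemma not_nonCen {z : R} {Γ : Subgroup (SpecialLinearGroup (Fin 2) R)} (h : ¬ NonCen k z Γ) :
    ∀ g ∈ Γ, ∀ h ∈ grp k z, g * h = h * g := by
  intro g hg x hx
  by_contra hne
  exact h ⟨g, hg, x, hx, hne⟩

/-- elements commuting with all generators are central -/
lemma central_of_gens {z : R} {g : SpecialLinearGroup (Fin 2) R}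
    (hX : ∀ c : k, g * X (algebraMap k R c) = X (algebraMap k R c) * g)
    (hY : ∀ c : k, g * Y (algebraMap k R c * z) = Y (algebraMap k R c * z) * g) :
    ∀ h ∈ grp k z, g * h = h * g := by
  have hle : grp k z ≤ centralizer {g} := by
    unfold grp
    rw [Subgroup.closure_le]
    rintro _ (⟨c, rfl⟩ | ⟨c, rfl⟩)
    · show _ ∈ centralizer {g}
      rw [Subgroup.mem_centralizer_singleton_iff]
      exact (hX c).symm
    · show _ ∈ centralizer {g}
      rw [Subgroup.mem_centralizer_singleton_iff]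
      exact (hY c).symm
  intro h hh
  exact (Subgroup.mem_centralizer_singleton_iff.1 (hle hh)).symm

lemma X_mem_of_good (h20 : (2 : k) ≠ 0) {z : Rˣ} {Γ : Subgroup (SpecialLinearGroup (Fin 2) R)}
    {g : SpecialLinearGroup (Fin 2) R} (hg : g ∈ Γ) (hb : g.1 0 1 ≠ 0)
    (hc : ∀ h ∈ grp k (z : R), (X 1 * g * (X 1)⁻¹ * g⁻¹) * h = h * (X 1 * g * (X 1)⁻¹ * g⁻¹)) :
    ∃ r : R, r ≠ 0 ∧ X r ∈ Γ := by
  have hcomm : g * X 1 = X 1 * g := by
    apply commute_of_central h20 (z := z) (u := X 1)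
    · simp; norm_num
    · intro h hh
      have h1 := hc h hh
      have e : g * X 1 * g⁻¹ * (X 1)⁻¹ = (X 1 * g * (X 1)⁻¹ * g⁻¹)⁻¹ := by group
      rw [e]
      have h2 : (X 1 * g * (X 1)⁻¹ * g⁻¹)⁻¹ * ((X 1 * g * (X 1)⁻¹ * g⁻¹) * h) *
          (X 1 * g * (X 1)⁻¹ * g⁻¹)⁻¹ = (X 1 * g * (X 1)⁻¹ * g⁻¹)⁻¹ *
          (h * (X 1 * g * (X 1)⁻¹ * g⁻¹)) * (X 1 * g * (X 1)⁻¹ * g⁻¹)⁻¹ := by rw [h1]
      have h3 : ∀ n : SpecialLinearGroup (Fin 2) R, n⁻¹ * (n * h) * n⁻¹ = h * n⁻¹ := by
        intro n; group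
      have h4 : ∀ n : SpecialLinearGroup (Fin 2) R, n⁻¹ * (h * n) * n⁻¹ = n⁻¹ * h := by
        intro n; group
      rw [h3, h4] at h2
      exact h2.symm
  obtain ⟨h1, h2⟩ := sq_eq_X h20 hcomm hb
  exact ⟨_, h2, by rw [← h1]; exact Γ.mul_mem hg hg⟩

/-- **(★★★)** a noncentral normal subgroup of `⟨X(k), Y(kz)⟩` contains some `X(r)`, `r ≠ 0` -/
theorem exists_X_mem [FiniteDimensional k R] (h20 : (2 : k) ≠ 0) (hk3 : Nat.card k ≠ 3) (z : Rˣ)
    (hgen : Algebra.adjoin k {(z : R)} = ⊤) {Γ : Subgroup (SpecialLinearGroup (Fin 2) R)}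
    (hnorm : ∀ h ∈ grp k (z : R), ∀ g ∈ Γ, h * g * h⁻¹ ∈ Γ) (hnc : NonCen k (z : R) Γ) :
    ∃ r : R, r ≠ 0 ∧ X r ∈ Γ := by
  classical
  have : IsArtinianRing R := IsArtinianRing.of_finite k R
  have : IsNoetherianRing R := inferInstance
  -- minimal ideal
  let Sx : Set (Ideal R) := {I | NonCen k (z : R) (Γ ⊓ cong I)}
  have hSx : Sx.Nonempty := ⟨⊤, by
    show NonCen k (z : R) (Γ ⊓ cong ⊤)
    rw [cong_top, inf_top_eq]; exact hnc⟩
  obtain ⟨I, hI, hImin⟩ := (wellFounded_lt (α := Ideal R)).has_min Sx hSx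
  have hIbot : I ≠ ⊥ := by
    rintro rfl
    obtain ⟨g, hg, h, _, hne⟩ := hI
    apply hne
    have hg2 := (Subgroup.mem_inf.1 hg).2
    rw [mem_cong] at hg2
    have : g = 1 := by
      apply sl_ext
      · have := hg2.1; rw [Ideal.mem_bot, sub_eq_zero] at this; rw [this]; simp
      · have := hg2.2.1; rw [Ideal.mem_bot] at this; rw [this]; simp
      · have := hg2.2.2.1; rw [Ideal.mem_bot] at this; rw [this]; simp
      · have := hg2.2.2.2; rw [Ideal.mem_bot, sub_eq_zero] at this; rw [this]; simp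
    rw [this, one_mul, mul_one]
  obtain ⟨I', hI', hI'max⟩ := (wellFounded_gt (α := Ideal R)).has_min {J : Ideal R | J < I}
    ⟨⊥, bot_lt_iff_ne_bot.2 hIbot⟩
  have hI'lt : I' < I := hI'
  have hcen : ∀ g ∈ Γ, g ∈ cong I' → ∀ h ∈ grp k (z : R), g * h = h * g := by
    intro g hg hgI
    have : ¬ NonCen k (z : R) (Γ ⊓ cong I') := fun hn => hImin I' hn hI'lt
    exact not_nonCen this g ⟨hg, hgI⟩
  obtain ⟨g, hg, h₀, hh₀, hne⟩ := hI
  have hgΓ := (Subgroup.mem_inf.1 hg).1
  have hgI := (Subgroup.mem_inf.1 hg).2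
  -- commutators with `X 1`
  have hcomm : ∀ g ∈ Γ, X 1 * g * (X 1)⁻¹ * g⁻¹ ∈ Γ := fun g hg =>
    Γ.mul_mem (hnorm _ (X_one_mem _) g hg) (Γ.inv_mem hg)
  have hcommI : ∀ g ∈ cong I, X 1 * g * (X 1)⁻¹ * g⁻¹ ∈ cong I := fun g hg =>
    (cong I).mul_mem ((inferInstance : (cong I).Normal).conj_mem g hg (X 1)) ((cong I).inv_mem hg)
  by_cases hII : I * I ≤ I'
  · -- nilpotent case
    have h2I : ∀ a : R, (2 : R) * a ∈ I' → a ∈ I' := by
      intro a ha
      obtain ⟨w, hw⟩ := two_unit (k := k) (R := R) h20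
      have := I'.mul_mem_left ((w⁻¹ : Rˣ) : R) ha
      rw [← hw] at this
      simpa [← mul_assoc] using this
    -- it suffices to find `g'` with entries `(0, β, 0, 0)` modulo `I'`, `β ≠ 0`
    have key : ∀ g' ∈ Γ, g' ∈ cong I → g'.1 1 0 ∈ I' → g'.1 0 0 - 1 ∈ I' → g'.1 0 1 ∉ I' →
        ∃ r : R, r ≠ 0 ∧ X r ∈ Γ := by
      intro g' hg' hg'I h10 h00 h01
      refine X_mem_of_good h20 (z := z) hg' (fun e => h01 (by rw [e]; exact I'.zero_mem)) ?_
      have ht := trace_mem hII hg'I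
      have h11 : g'.1 1 1 - 1 ∈ I' := by
        convert I'.sub_mem ht h00 using 1; ring
      apply hcen _ (hcomm g' hg')
      obtain ⟨a0, a1, a2, a3⟩ := entries_comm hII hg'I
      rw [mem_cong]
      refine ⟨?_, ?_, a2, ?_⟩
      · convert I'.add_mem a0 h10 using 1; ring
      · convert I'.add_mem a1 (I'.sub_mem (I'.sub_mem h11 h00) h10) using 1; ring
      · convert I'.sub_mem a3 h10 using 1; ring
    by_cases h10 : g.1 1 0 ∈ I'
    · by_cases h00 : g.1 0 0 - 1 ∈ I'
      · by_cases h01 : g.1 0 1 ∈ I'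
        · exfalso
          apply hne
          refine hcen g hgΓ ?_ h₀ hh₀
          rw [mem_cong]
          refine ⟨h00, h01, h10, ?_⟩
          have ht := trace_mem hII hgI
          convert I'.sub_mem ht h00 using 1; ring
        · exact key g hgΓ hgI h10 h00 h01
      · obtain ⟨a0, a1, a2, a3⟩ := entries_comm hII hgI
        refine key _ (hcomm g hgΓ) (hcommI g hgI) a2 ?_ ?_
        · convert I'.add_mem a0 h10 using 1; ring
        · intro hmem
          apply h00
          apply h2I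
          have ht := trace_mem hII hgI
          have e : (2 : R) * (g.1 0 0 - 1) = ((g.1 0 0 - 1) + (g.1 1 1 - 1)) -
              (((X 1 * g * (X 1)⁻¹ * g⁻¹).1 0 1) - ((X 1 * g * (X 1)⁻¹ * g⁻¹).1 0 1 -
                ((g.1 1 1 - 1) - (g.1 0 0 - 1) - g.1 1 0)) + g.1 1 0) := by ring
          rw [e]
          exact I'.sub_mem ht (I'.add_mem (I'.sub_mem hmem a1) h10)
    · -- double commutator
      obtain ⟨a0, a1, a2, a3⟩ := entries_comm hII hgI
      set g1 := X 1 * g * (X 1)⁻¹ * g⁻¹ with hg1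
      have hg1Γ := hcomm g hgΓ
      have hg1I := hcommI g hgI
      rw [← hg1] at hg1Γ hg1I
      obtain ⟨b0, b1, b2, b3⟩ := entries_comm hII hg1I
      refine key _ (hcomm g1 hg1Γ) (hcommI g1 hg1I) b2 ?_ ?_
      · convert I'.add_mem b0 a2 using 1; ring
      · intro hmem
        apply h10
        apply h2I
        have e : (2 : R) * g.1 1 0 = -((X 1 * g1 * (X 1)⁻¹ * g1⁻¹).1 0 1) +
            ((X 1 * g1 * (X 1)⁻¹ * g1⁻¹).1 0 1 - ((g1.1 1 1 - 1) - (g1.1 0 0 - 1) - g1.1 1 0)) +
            (g1.1 1 1 - 1 + g.1 1 0) - (g1.1 0 0 - 1 - g.1 1 0) - g1.1 1 0 := by ring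
        rw [e]
        exact I'.sub_mem (I'.sub_mem (I'.add_mem (I'.add_mem (I'.neg_mem hmem) b1) a3) a0) a2
  · -- semisimple case
    obtain ⟨i, hiI, hinm⟩ : ∃ i ∈ I, ∃ j ∈ I, i * j ∉ I' := by
      by_contra hcon
      push Not at hcon
      exact hII (Ideal.mul_le.2 hcon)
    obtain ⟨j, hjI, hij⟩ := hinm
    -- the annihilator of `I/I'`
    let m : Ideal R :=
      { carrier := {r | ∀ x ∈ I, r * x ∈ I'}
        add_mem' := by
          intro a b ha hb x hx
          rw [add_mul]; exact I'.add_mem (ha x hx) (hb x hx)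
        zero_mem' := by intro x _; rw [zero_mul]; exact I'.zero_mem
        smul_mem' := by
          intro c a ha x hx
          rw [smul_eq_mul, mul_assoc]; exact I'.mul_mem_left c (ha x hx) }
    have hmdef : ∀ r : R, r ∈ m ↔ ∀ x ∈ I, r * x ∈ I' := fun r => Iff.rfl
    -- for `r ∉ m`: `I' + r I = I`
    have hspan : ∀ r : R, r ∉ m → ∀ x ∈ I, ∃ y ∈ I', ∃ w ∈ I, x = y + r * w := by
      intro r hr x hx
      rw [hmdef] at hr
      push Not at hr
      obtain ⟨x₀, hx₀, hrx₀⟩ := hr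
      let J : Ideal R := I' ⊔ (Ideal.span {r} * I)
      have hJI : J ≤ I := sup_le hI'lt.le (Ideal.mul_le_right.trans le_rfl)
      have hJ' : I' < J := by
        refine lt_of_le_of_ne le_sup_left ?_
        intro e
        apply hrx₀
        rw [e]
        exact Ideal.mem_sup_right (Ideal.mul_mem_mul (Ideal.mem_span_singleton_self r) hx₀)
      have hJeq : J = I := by
        by_contra hne'
        exact hI'max J (lt_of_le_of_ne hJI hne') hJ'
      rw [← hJeq] at hx
      obtain ⟨y, hy, w', hw', e⟩ := Submodule.mem_sup.1 hx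
      rw [Ideal.mem_span_singleton_mul] at hw'
      obtain ⟨w, hw, e'⟩ := hw'
      exact ⟨y, hy, w, hw, by rw [← e, ← e']⟩
    have him : i ∉ m := by
      intro h; exact hij (h j hjI)
    obtain ⟨i', hi', e, heI, hie⟩ := hspan i him i hiI
    -- `1 - e ∈ m`
    have h1e : 1 - e ∈ m := by
      intro x hx
      obtain ⟨x', hx', l, hl, hxl⟩ := hspan i him x hx
      have : (1 - e) * x = (1 - e) * x' + l * i' := by
        rw [hxl]; linear_combination l * hie
      rw [this]
      exact I'.add_mem (I'.mul_mem_left _ hx') (I'.mul_mem_left _ hi')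
    have hI'm : I' ≤ m := by
      intro x hx y _
      exact I'.mul_mem_right y hx
    have hinf : I ⊓ m ≤ I' := by
      rintro x ⟨hxI, hxm⟩
      have e1 : x = x * e + (1 - e) * x := by ring
      rw [e1]
      exact I'.add_mem (hxm e heI) (h1e x hxI)
    have hmne : m ≠ ⊤ := by
      intro h
      apply him; rw [h]; trivial
    have hmmax : m.IsMaximal := by
      rw [Ideal.isMaximal_iff]
      refine ⟨fun h => hmne ((Ideal.eq_top_iff_one m).2 h), ?_⟩
      intro J r hmJ hrm hrJ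
      obtain ⟨e', he', s, _, hes⟩ := hspan r hrm e heI
      have : (1 : R) = (1 - e) + e' + r * s := by linear_combination hes
      rw [this]
      exact J.add_mem (J.add_mem (hmJ h1e) (hmJ (hI'm he'))) (J.mul_mem_right s hrJ)
    let _ := Ideal.Quotient.field m
    let π := Ideal.Quotient.mk m
    let N : Subgroup (SpecialLinearGroup (Fin 2) (R ⧸ m)) :=
      (Γ ⊓ cong I).map (SpecialLinearGroup.map π)
    have hN : N.Normal := by
      constructor
      rintro _ ⟨a, ha, rfl⟩ x
      obtain ⟨h, hh, rfl⟩ := surj_residue h20 hk3 z hgen m hmmax x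
      refine ⟨h * a * h⁻¹, ⟨hnorm h hh a ha.1,
        (inferInstance : (cong I).Normal).conj_mem a ha.2 h⟩, ?_⟩
      rw [map_mul, map_mul, map_inv]
    rcases Cfsg.Agent.Lib.RankOneGrp.group_dichotomy
      (Cfsg.Agent.Lib.SL2RankOne.group (k := R ⧸ m)) hN with hcenN | ⟨hsupN, _⟩
    · -- `N` central: then `g` is central
      exfalso
      apply hne
      have key : ∀ h ∈ grp k (z : R), ∀ x ∈ grp k (z : R),
          (g * h * g⁻¹ * h⁻¹) * x = x * (g * h * g⁻¹ * h⁻¹) := by
        intro h hh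
        apply hcen
        · have e1 : g * h * g⁻¹ * h⁻¹ = g * (h * g⁻¹ * h⁻¹) := by group
          rw [e1]
          exact Γ.mul_mem hgΓ (hnorm h hh _ (Γ.inv_mem hgΓ))
        · have h1 : g * h * g⁻¹ * h⁻¹ ∈ cong I := by
            have e1 : g * h * g⁻¹ * h⁻¹ = g * (h * g⁻¹ * h⁻¹) := by group
            rw [e1]
            exact (cong I).mul_mem hgI
              ((inferInstance : (cong I).Normal).conj_mem _ ((cong I).inv_mem hgI) h)
          refine cong_inf hinf h1 ?_
          show g * h * g⁻¹ * h⁻¹ ∈ (SpecialLinearGroup.map (Ideal.Quotient.mk m)).ker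
          rw [MonoidHom.mem_ker]
          have h2 : SpecialLinearGroup.map π g ∈ N := ⟨g, hg, rfl⟩
          have h3 := Subgroup.mem_center_iff.1 (hcenN h2) (SpecialLinearGroup.map π h)
          rw [map_mul, map_mul, map_mul, map_inv, map_inv]
          show SpecialLinearGroup.map π g * SpecialLinearGroup.map π h *
            (SpecialLinearGroup.map π g)⁻¹ * (SpecialLinearGroup.map π h)⁻¹ = 1
          rw [← h3]; group
      refine central_of_gens (z := (z : R)) ?_ ?_ h₀ hh₀
      · intro c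
        refine commute_of_central h20 (z := z) ?_ (key _ (X_mem_grp _ c))
        simp; norm_num
      · intro c
        refine commute_of_central h20 (z := z) ?_ (key _ (Y_mem_grp _ c))
        simp; norm_num
    · -- `X(β) ∈ N`
      obtain ⟨c, hc0, hc1⟩ := exists_sq_ne_one (k := k) h20 hk3
      set κ : R ⧸ m := algebraMap k (R ⧸ m) c with hκ
      have hκ0 : κ ≠ 0 := (map_ne_zero (algebraMap k (R ⧸ m))).2 hc0
      have hκ1 : κ ^ 2 - 1 ≠ 0 := by
        rw [hκ, ← map_pow, ← map_one (algebraMap k (R ⧸ m)), ← map_sub]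
        exact (map_ne_zero (algebraMap k (R ⧸ m))).2 (sub_ne_zero.2 hc1)
      have hβ : X (κ ^ 2 - 1) ∈ N := by
        let dg : SpecialLinearGroup (Fin 2) (R ⧸ m) := mk4 κ 0 0 κ⁻¹ (by
          rw [mul_inv_cancel₀ hκ0]; ring)
        have e1 : dg * X 1 * dg⁻¹ * (X 1)⁻¹ = X (κ ^ 2 - 1) := by
          have hk : κ * κ⁻¹ = 1 := mul_inv_cancel₀ hκ0
          apply sl_ext
          · simp [dg]; rw [hk]
          · simp [dg]; linear_combination -hk
          · simp [dg]
          · simp [dg]; rw [mul_comm]; exact hk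
        rw [← e1, ← QuotientGroup.eq_one_iff (N := N)]
        have hquot : ∀ x y : SpecialLinearGroup (Fin 2) (R ⧸ m),
            (QuotientGroup.mk' N x) * (QuotientGroup.mk' N y) =
              (QuotientGroup.mk' N y) * (QuotientGroup.mk' N x) := by
          have hrep : ∀ x : SpecialLinearGroup (Fin 2) (R ⧸ m),
              ∃ a ∈ Cfsg.lowerUnipotentSL2 (R ⧸ m), QuotientGroup.mk' N x = QuotientGroup.mk' N a := by
            intro x
            have hx : x ∈ N ⊔ Cfsg.lowerUnipotentSL2 (R ⧸ m) := by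
              rw [hsupN]; exact Subgroup.mem_top x
            rw [Subgroup.mem_sup_of_normal_left] at hx
            obtain ⟨n, hn, a, ha, rfl⟩ := hx
            refine ⟨a, ha, ?_⟩
            rw [map_mul]
            have : QuotientGroup.mk' N n = 1 := by
              rw [QuotientGroup.mk'_apply, QuotientGroup.eq_one_iff]; exact hn
            rw [this, one_mul]
          intro x y
          obtain ⟨a, ha, e1⟩ := hrep x
          obtain ⟨b, hb, e2⟩ := hrep y
          rw [e1, e2, ← map_mul, ← map_mul]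
          congr 1
          exact Cfsg.Agent.Lib.RankOneGrp.commute_of_isMulCommutative
            Cfsg.Agent.Lib.SL2RankOne.lower_comm ha hb
        show QuotientGroup.mk' N (dg * X 1 * dg⁻¹ * (X 1)⁻¹) = 1
        rw [map_mul, map_mul, map_mul, map_inv, map_inv, hquot]
        group
      obtain ⟨g', hg', e'⟩ := hβ
      have hg'Γ := hg'.1
      have hg'I := hg'.2
      have h01 : π (g'.1 0 1) = κ ^ 2 - 1 :=
        congrArg (fun x : SpecialLinearGroup (Fin 2) (R ⧸ m) => x.1 0 1) e'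
      refine X_mem_of_good h20 (z := z) hg'Γ ?_ ?_
      · intro h0
        rw [h0, map_zero] at h01
        exact hκ1 h01.symm
      · apply hcen _ (hcomm g' hg'Γ)
        refine cong_inf hinf (hcommI g' hg'I) ?_
        show X 1 * g' * (X 1)⁻¹ * g'⁻¹ ∈ (SpecialLinearGroup.map (Ideal.Quotient.mk m)).ker
        rw [MonoidHom.mem_ker, map_mul, map_mul, map_mul, map_inv, map_inv]
        show SpecialLinearGroup.map π (X 1) * SpecialLinearGroup.map π g' *
            (SpecialLinearGroup.map π (X 1))⁻¹ * (SpecialLinearGroup.map π g')⁻¹ = 1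
        have e'' : SpecialLinearGroup.map π g' = X (κ ^ 2 - 1) := e'
        rw [e'', map_X, ← X_add, ← X_neg, ← X_neg, ← X_add, ← X_add]
        rw [← X_zero]
        congr 1
        ring

end Cfsg.Agent.Lib.SL2Normal
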