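import Cfsg.Agent.Lib.SL2Gen
set_option autoImplicit false
set_option linter.unusedSimpArgs false

/-!
# Normal subgroups of `⟨X(k), Y(k z)⟩ ≤ SL₂(R)`, `R` a finite-dimensional `k`-algebra (helper84)
-/

namespace Cfsg.Agent.Lib.SL2Star
open Subgroup Matrix
open Cfsg.Agent.Lib.SL2Ring Cfsg.Agent.Lib.SL2Gen Cfsg.Agent.Lib.SL2LemmaL

universe u v

/-! ### Congruence subgroups -/

section cong

variable {R : Type v} [CommRing R]

/-- the congruence subgroup of an ideal -/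
def cong (I : Ideal R) : Subgroup (SpecialLinearGroup (Fin 2) R) :=
  (SpecialLinearGroup.map (Ideal.Quotient.mk I)).ker

instance (I : Ideal R) : (cong I).Normal := MonoidHom.normal_ker _

lemma mem_cong {I : Ideal R} {g : SpecialLinearGroup (Fin 2) R} :
    g ∈ cong I ↔ g.1 0 0 - 1 ∈ I ∧ g.1 0 1 ∈ I ∧ g.1 1 0 ∈ I ∧ g.1 1 1 - 1 ∈ I := by
  unfold cong
  rw [MonoidHom.mem_ker]
  constructor
  · intro h
    have h' : ∀ i j, Ideal.Quotient.mk I (g.1 i j) =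
        (1 : SpecialLinearGroup (Fin 2) (R ⧸ I)).1 i j := by
      intro i j
      have := congrArg (fun x : SpecialLinearGroup (Fin 2) (R ⧸ I) => x.1 i j) h
      exact this
    refine ⟨?_, ?_, ?_, ?_⟩
    · rw [← Ideal.Quotient.eq_zero_iff_mem, map_sub, h' 0 0]; simp
    · rw [← Ideal.Quotient.eq_zero_iff_mem, h' 0 1]; simp
    · rw [← Ideal.Quotient.eq_zero_iff_mem, h' 1 0]; simp
    · rw [← Ideal.Quotient.eq_zero_iff_mem, map_sub, h' 1 1]; simp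
  · rintro ⟨h00, h01, h10, h11⟩
    rw [← Ideal.Quotient.eq_zero_iff_mem, map_sub, map_one, sub_eq_zero] at h00 h11
    rw [← Ideal.Quotient.eq_zero_iff_mem] at h01 h10
    apply sl_ext
    · exact h00
    · exact h01
    · exact h10
    · exact h11

lemma cong_mono {I J : Ideal R} (h : I ≤ J) : cong I ≤ cong J := by
  intro g hg
  rw [mem_cong] at hg ⊢
  exact ⟨h hg.1, h hg.2.1, h hg.2.2.1, h hg.2.2.2⟩

lemma cong_inf {I J L : Ideal R} (h : I ⊓ J ≤ L) {g : SpecialLinearGroup (Fin 2) R}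
    (h1 : g ∈ cong I) (h2 : g ∈ cong J) : g ∈ cong L := by
  rw [mem_cong] at h1 h2 ⊢
  exact ⟨h ⟨h1.1, h2.1⟩, h ⟨h1.2.1, h2.2.1⟩, h ⟨h1.2.2.1, h2.2.2.1⟩, h ⟨h1.2.2.2, h2.2.2.2⟩⟩

lemma cong_top : cong (⊤ : Ideal R) = ⊤ := by
  rw [eq_top_iff]
  intro g _
  rw [mem_cong]
  exact ⟨trivial, trivial, trivial, trivial⟩

/-- entries modulo `I'` of a product of elements of `cong I`, `I * I ≤ I'` -/
lemma entries_mul {I I' : Ideal R} (hII : I * I ≤ I') {g h : SpecialLinearGroup (Fin 2) R}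
    (hg : g ∈ cong I) (hh : h ∈ cong I) :
    (g * h).1 0 0 - 1 - ((g.1 0 0 - 1) + (h.1 0 0 - 1)) ∈ I' ∧
    (g * h).1 0 1 - (g.1 0 1 + h.1 0 1) ∈ I' ∧
    (g * h).1 1 0 - (g.1 1 0 + h.1 1 0) ∈ I' ∧
    (g * h).1 1 1 - 1 - ((g.1 1 1 - 1) + (h.1 1 1 - 1)) ∈ I' := by
  rw [mem_cong] at hg hh
  obtain ⟨g0, g1, g2, g3⟩ := hg
  obtain ⟨h0, h1, h2, h3⟩ := hh
  have m : ∀ {a b : R}, a ∈ I → b ∈ I → a * b ∈ I' := fun ha hb => hII (Ideal.mul_mem_mul ha hb)
  refine ⟨?_, ?_, ?_, ?_⟩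
  · have e : (g * h).1 0 0 - 1 - ((g.1 0 0 - 1) + (h.1 0 0 - 1)) =
        (g.1 0 0 - 1) * (h.1 0 0 - 1) + g.1 0 1 * h.1 1 0 := by rw [mul_00]; ring
    rw [e]; exact I'.add_mem (m g0 h0) (m g1 h2)
  · have e : (g * h).1 0 1 - (g.1 0 1 + h.1 0 1) =
        (g.1 0 0 - 1) * h.1 0 1 + g.1 0 1 * (h.1 1 1 - 1) := by rw [mul_01]; ring
    rw [e]; exact I'.add_mem (m g0 h1) (m g1 h3)
  · have e : (g * h).1 1 0 - (g.1 1 0 + h.1 1 0) =
        g.1 1 0 * (h.1 0 0 - 1) + (g.1 1 1 - 1) * h.1 1 0 := by rw [mul_10]; ring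
    rw [e]; exact I'.add_mem (m g2 h0) (m g3 h2)
  · have e : (g * h).1 1 1 - 1 - ((g.1 1 1 - 1) + (h.1 1 1 - 1)) =
        g.1 1 0 * h.1 0 1 + (g.1 1 1 - 1) * (h.1 1 1 - 1) := by rw [mul_11]; ring
    rw [e]; exact I'.add_mem (m g2 h1) (m g3 h3)

lemma trace_mem {I I' : Ideal R} (hII : I * I ≤ I') {g : SpecialLinearGroup (Fin 2) R}
    (hg : g ∈ cong I) : (g.1 0 0 - 1) + (g.1 1 1 - 1) ∈ I' := by
  rw [mem_cong] at hg
  obtain ⟨g0, g1, g2, g3⟩ := hg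
  have m : ∀ {a b : R}, a ∈ I → b ∈ I → a * b ∈ I' := fun ha hb => hII (Ideal.mul_mem_mul ha hb)
  have hd := det_eq g
  have e : (g.1 0 0 - 1) + (g.1 1 1 - 1) = g.1 0 1 * g.1 1 0 - (g.1 0 0 - 1) * (g.1 1 1 - 1) := by
    linear_combination hd
  rw [e]; exact I'.sub_mem (m g1 g2) (m g0 g3)

/-- entries modulo `I'` of `⁅X 1, g⁆` -/
lemma entries_comm {I I' : Ideal R} (hII : I * I ≤ I') {g : SpecialLinearGroup (Fin 2) R}
    (hg : g ∈ cong I) :
    (X 1 * g * (X 1)⁻¹ * g⁻¹).1 0 0 - 1 - g.1 1 0 ∈ I' ∧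
    (X 1 * g * (X 1)⁻¹ * g⁻¹).1 0 1 - ((g.1 1 1 - 1) - (g.1 0 0 - 1) - g.1 1 0) ∈ I' ∧
    (X 1 * g * (X 1)⁻¹ * g⁻¹).1 1 0 ∈ I' ∧
    (X 1 * g * (X 1)⁻¹ * g⁻¹).1 1 1 - 1 + g.1 1 0 ∈ I' := by
  have hc : X 1 * g * (X 1)⁻¹ ∈ cong I := (inferInstance : (cong I).Normal).conj_mem g hg (X 1)
  have hi : g⁻¹ ∈ cong I := Subgroup.inv_mem _ hg
  obtain ⟨a0, a1, a2, a3⟩ := entries_mul hII hc hi
  have ht := trace_mem hII hg
  have c00 : (X 1 * g * (X 1)⁻¹).1 0 0 = g.1 0 0 + g.1 1 0 := by simp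
  have c01 : (X 1 * g * (X 1)⁻¹).1 0 1 = g.1 0 1 + g.1 1 1 - g.1 0 0 - g.1 1 0 := by simp; ring
  have c10 : (X 1 * g * (X 1)⁻¹).1 1 0 = g.1 1 0 := by simp
  have c11 : (X 1 * g * (X 1)⁻¹).1 1 1 = g.1 1 1 - g.1 1 0 := by simp; ring
  rw [c00, inv_00] at a0
  rw [c01, inv_01] at a1
  rw [c10, inv_10] at a2
  rw [c11, inv_11] at a3
  refine ⟨?_, ?_, ?_, ?_⟩
  · convert I'.add_mem a0 ht using 1; ring
  · convert a1 using 1; ring
  · convert a2 using 1; ring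
  · convert I'.add_mem a3 ht using 1; ring

end cong

/-! ### Central elements -/

section central

variable {k : Type u} [Field k] {R : Type v} [CommRing R] [Algebra k R]

lemma two_unit (h20 : (2 : k) ≠ 0) : IsUnit (2 : R) := by
  have := (IsUnit.mk0 (2 : k) h20).map (algebraMap k R)
  rwa [map_ofNat] at this

/-- an element commuting with `X 1` -/
lemma comm_X_one {g : SpecialLinearGroup (Fin 2) R} (h : g * X 1 = X 1 * g) :
    g.1 1 0 = 0 ∧ g.1 0 0 = g.1 1 1 := by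
  have h00 := congrArg (fun x : SpecialLinearGroup (Fin 2) R => x.1 0 0) h
  have h01 := congrArg (fun x : SpecialLinearGroup (Fin 2) R => x.1 0 1) h
  simp only [mul_00, mul_01, X_00, X_01, X_10, X_11] at h00 h01
  exact ⟨by linear_combination -h00, by linear_combination h01⟩

lemma central_scalar {z : Rˣ} {n : SpecialLinearGroup (Fin 2) R}
    (hn : ∀ h ∈ grp k (z : R), n * h = h * n) :
    n.1 0 1 = 0 ∧ n.1 1 0 = 0 ∧ n.1 0 0 = n.1 1 1 := by
  obtain ⟨h1, h2⟩ := comm_X_one (hn _ (X_one_mem _))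
  have h3 := hn _ (Y_z_mem (k := k) (z : R))
  have h00 := congrArg (fun x : SpecialLinearGroup (Fin 2) R => x.1 0 0) h3
  simp only [mul_00, Y_00, Y_01, Y_10, Y_11] at h00
  have h4 : n.1 0 1 * (z : R) = 0 := by linear_combination h00
  have h5 : n.1 0 1 = 0 := by
    have := congrArg (fun x => x * ((z⁻¹ : Rˣ) : R)) h4
    simpa [mul_assoc] using this
  exact ⟨h5, h1, h2⟩

/-- if `u` has trace 2 and `⁅g, u⁆` is central then `g` commutes with `u` -/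
lemma commute_of_central (h20 : (2 : k) ≠ 0) {z : Rˣ} {g u : SpecialLinearGroup (Fin 2) R}
    (hu : u.1 0 0 + u.1 1 1 = 2) (hn : ∀ h ∈ grp k (z : R), (g * u * g⁻¹ * u⁻¹) * h = h * (g * u * g⁻¹ * u⁻¹)) :
    g * u = u * g := by
  obtain ⟨h01, h10, h00⟩ := central_scalar hn
  set n := g * u * g⁻¹ * u⁻¹ with hndef
  have e : g * u * g⁻¹ = n * u := by rw [hndef]; group
  have t1 : (g * u * g⁻¹).1 0 0 + (g * u * g⁻¹).1 1 1 = 2 := by
    have hd := det_eq g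
    simp only [mul_00, mul_01, mul_10, mul_11, inv_00, inv_01, inv_10, inv_11]
    linear_combination hu * (g.1 0 0 * g.1 1 1 - g.1 0 1 * g.1 1 0) + 2 * hd
  have t2 : (n * u).1 0 0 + (n * u).1 1 1 = n.1 0 0 * 2 := by
    simp only [mul_00, mul_01, mul_10, mul_11, h01, h10, ← h00]
    linear_combination n.1 0 0 * hu
  rw [e, t2] at t1
  have h2 := two_unit (R := R) h20
  have h1 : n.1 0 0 = 1 := by
    obtain ⟨w, hw⟩ := h2
    have := congrArg (fun x => x * ((w⁻¹ : Rˣ) : R)) t1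
    rw [← hw] at this
    simpa [mul_assoc] using this
  have hn1 : n = 1 := by
    apply sl_ext
    · rw [h1]; simp
    · rw [h01]; simp
    · rw [h10]; simp
    · rw [← h00, h1]; simp
  rw [hn1, one_mul] at e
  calc g * u = (g * u * g⁻¹) * g := by group
    _ = u * g := by rw [e]

/-- an element `g` commuting with `X 1`, `g₀₁ ≠ 0`: its square is `X(r)`, `r ≠ 0` -/
lemma sq_eq_X (h20 : (2 : k) ≠ 0) {g : SpecialLinearGroup (Fin 2) R} (h : g * X 1 = X 1 * g)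
    (hb : g.1 0 1 ≠ 0) : g * g = X (2 * g.1 0 0 * g.1 0 1) ∧ 2 * g.1 0 0 * g.1 0 1 ≠ 0 := by
  obtain ⟨h1, h2⟩ := comm_X_one h
  have hd := det_eq g
  rw [h1, mul_zero, sub_zero, ← h2] at hd
  constructor
  · apply sl_ext
    · rw [mul_00, h1, X_00]; linear_combination hd
    · rw [mul_01, ← h2, X_01]; ring
    · rw [mul_10, h1, X_10]; ring
    · rw [mul_11, h1, ← h2, X_11]; linear_combination hd
  · intro h0
    obtain ⟨w, hw⟩ := two_unit (R := R) h20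
    apply hb
    have h3 : g.1 0 0 * (2 * g.1 0 0 * g.1 0 1) = 0 := by rw [h0, mul_zero]
    have h4 : (w : R) * g.1 0 1 = 0 := by
      rw [hw]; linear_combination h3 - 2 * g.1 0 1 * hd
    have := congrArg (fun x => ((w⁻¹ : Rˣ) : R) * x) h4
    simpa [← mul_assoc] using this

end central

/-! ### Surjectivity onto `SL₂` of a residue field -/

section main

variable {k : Type u} [Field k] {R : Type v} [CommRing R] [Algebra k R] [FiniteDimensional k R]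

lemma exists_sq_ne_one (h20 : (2 : k) ≠ 0) (hk3 : Nat.card k ≠ 3) : ∃ c : k, c ≠ 0 ∧ c ^ 2 ≠ 1 := by
  rcases finite_or_infinite k with hfin | hinf
  · exact exists_scalar h20 hk3
  · have hfin : ({0, 1, -1} : Set k).Finite := Set.toFinite _
    obtain ⟨c, hc⟩ := hfin.exists_notMem
    simp only [Set.mem_insert_iff, Set.mem_singleton_iff, not_or] at hc
    refine ⟨c, hc.1, ?_⟩
    intro h
    have h1 : (c - 1) * (c + 1) = 0 := by linear_combination h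
    rcases mul_eq_zero.1 h1 with h | h
    · exact hc.2.1 (sub_eq_zero.1 h)
    · exact hc.2.2 (eq_neg_of_add_eq_zero_left h)

/-- `⟨X(k), Y(k z)⟩` maps onto `SL₂(R/𝔪)` -/
lemma surj_residue (h20 : (2 : k) ≠ 0) (hk3 : Nat.card k ≠ 3) (z : Rˣ)
    (hgen : Algebra.adjoin k {(z : R)} = ⊤) (m : Ideal R) (hm : m.IsMaximal)
    (x : SpecialLinearGroup (Fin 2) (R ⧸ m)) :
    ∃ g ∈ grp k (z : R), SpecialLinearGroup.map (Ideal.Quotient.mk m) g = x := by
  let _ := Ideal.Quotient.field m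
  have hz : Ideal.Quotient.mk m (z : R) ≠ 0 := (z.isUnit.map (Ideal.Quotient.mk m)).ne_zero
  have : FiniteDimensional k (R ⧸ m) :=
    Module.Finite.of_surjective (Ideal.Quotient.mkₐ k m).toLinearMap (Ideal.Quotient.mkₐ_surjective k m)
  have hgen' : Algebra.adjoin k {Ideal.Quotient.mk m (z : R)} = ⊤ := by
    have h1 := congrArg (Subalgebra.map (Ideal.Quotient.mkₐ k m)) hgen
    rw [AlgHom.map_adjoin, Set.image_singleton, Algebra.map_top] at h1
    rw [(AlgHom.range_eq_top _).2 (Ideal.Quotient.mkₐ_surjective k m)] at h1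
    exact h1
  have htop := grp_eq_top (K := R ⧸ m) h20 hk3 hz hgen'
  have hle : grp k (Ideal.Quotient.mk m (z : R)) ≤
      (grp k (z : R)).map (SpecialLinearGroup.map (Ideal.Quotient.mk m)) := by
    conv_lhs => unfold grp
    rw [Subgroup.closure_le]
    rintro _ (⟨c, rfl⟩ | ⟨c, rfl⟩)
    · exact ⟨X (algebraMap k R c), X_mem_grp _ c, map_X _ _⟩
    · refine ⟨Y (algebraMap k R c * z), Y_mem_grp _ c, ?_⟩
      rw [map_Y, map_mul]; rfl
  rw [htop] at hle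
  obtain ⟨g, hg, e⟩ := hle (Subgroup.mem_top x)
  exact ⟨g, hg, e⟩

end main

end Cfsg.Agent.Lib.SL2Star
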