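import Cfsg.Agent.Lib.SLNot

/-!
`SL_n(F)` does not normalise a group of symplectic type.
-/

set_option autoImplicit false
set_option linter.unusedSectionVars false

namespace Cfsg.Agent.Lib.SLNotSymp

open Cfsg Cfsg.Geo Cfsg.Agent.Lib.AschMU Cfsg.Agent.Lib.AschCore Cfsg.Agent.Lib.AschField Cfsg.Agent.Lib.AschAlg
  Cfsg.Agent.Lib.AschDescent Cfsg.Agent.Lib.AschForm Cfsg.Agent.Lib.AschGroup Cfsg.Agent.Lib.AschGood
  Cfsg.Agent.Lib.AschNonab Cfsg.Agent.Lib.AschTensor Cfsg.Agent.Lib.AschComp Cfsg.Agent.Lib.AschSymp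
  Cfsg.Agent.Lib.AschForm2 Cfsg.Agent.Lib.AschLinear Cfsg.Agent.Lib.SLGeom Cfsg.Agent.Lib.SLNot
open scoped Matrix MatrixGroups Kronecker commutatorElement
open Matrix (vecMulVec)

variable {ι : Type} [Fintype ι] [DecidableEq ι] {F : Type*} [Field F]

open Polynomial in
theorem prod_X_sub_C_eq (F : Type*) [Field F] [Fintype F] : ∏ a : F, (X - C a) = (X ^ Fintype.card F - X : F[X]) := by
  classical
  have h1 := FiniteField.roots_X_pow_card_sub_X F
  have hm : (X ^ Fintype.card F - X : F[X]).Monic := by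
    apply Polynomial.monic_X_pow_sub
    rw [Polynomial.degree_X]
    exact_mod_cast Fintype.one_lt_card (α := F)
  have h2 := Polynomial.prod_multiset_X_sub_C_of_monic_of_roots_card_eq hm (by
    rw [h1, FiniteField.X_pow_card_sub_X_natDegree_eq F Fintype.one_lt_card]
    rfl)
  rw [h1] at h2
  exact h2

/-- A matrix with `x^q = x` over the field with `q` elements has an eigenvector. -/
theorem exists_eigen [Fintype F] [Nonempty ι] {x : Matrix ι ι F} (hx : x ^ Fintype.card F = x) :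
    ∃ (c : F) (w : ι → F), w ≠ 0 ∧ x *ᵥ w = c • w := by
  classical
  let Φ : Polynomial F →* F := (Matrix.detMonoidHom (n := ι) (R := F)).comp (Polynomial.aeval x : Polynomial F →ₐ[F] Matrix ι ι F).toRingHom.toMonoidHom
  have h1 : Φ (∏ a : F, (Polynomial.X - Polynomial.C a)) = 0 := by
    rw [prod_X_sub_C_eq]
    show (Polynomial.aeval x (Polynomial.X ^ Fintype.card F - Polynomial.X : Polynomial F)).det = 0
    rw [map_sub, map_pow, Polynomial.aeval_X, hx, sub_self]
    exact Matrix.det_zero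
  rw [map_prod, Finset.prod_eq_zero_iff] at h1
  obtain ⟨a, -, ha⟩ := h1
  have h2 : (x - a • (1 : Matrix ι ι F)).det = 0 := by
    have h3 : Φ (Polynomial.X - Polynomial.C a) = (Polynomial.aeval x (Polynomial.X - Polynomial.C a : Polynomial F)).det := rfl
    rw [h3, map_sub, Polynomial.aeval_X, Polynomial.aeval_C, Algebra.algebraMap_eq_smul_one] at ha
    exact ha
  obtain ⟨w, hw0, hw⟩ := Matrix.exists_mulVec_eq_zero_iff.2 h2
  refine ⟨a, w, hw0, ?_⟩
  rw [Matrix.sub_mulVec, Matrix.smul_mulVec, Matrix.one_mulVec, sub_eq_zero] at hw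
  exact hw

/-- `x^q = x` and `(x - c)^2 = 0` imply `x = c`. -/
theorem eq_of_sq_eq_zero [Fintype F] {x : Matrix ι ι F} (hx : x ^ Fintype.card F = x) {c : F}
    (h : (x - c • (1 : Matrix ι ι F)) * (x - c • (1 : Matrix ι ι F)) = 0) : x = c • (1 : Matrix ι ι F) := by
  rcases isEmpty_or_nonempty ι with hι | hι
  · ext i; exact (hι.false i).elim
  obtain ⟨p, hp⟩ := CharP.exists F
  obtain ⟨e, hpp, hcard⟩ := FiniteField.card F p
  have : Fact p.Prime := ⟨hpp⟩
  have : CharP (Matrix ι ι F) p := inferInstance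
  set N := x - c • (1 : Matrix ι ι F) with hN
  have hxe : x = c • (1 : Matrix ι ι F) + N := by rw [hN]; abel
  have hcomm : Commute (c • (1 : Matrix ι ι F)) N := by
    show c • (1 : Matrix ι ι F) * N = N * c • (1 : Matrix ι ι F)
    rw [Matrix.smul_mul, one_mul, Matrix.mul_smul, mul_one]
  have h1 : x ^ Fintype.card F = (c • (1 : Matrix ι ι F)) ^ Fintype.card F + N ^ Fintype.card F := by
    rw [hcard]
    conv_lhs => rw [hxe]
    exact add_pow_char_pow_of_commute p e hcomm
  have h2 : N ^ Fintype.card F = 0 := by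
    have h3 : 2 ≤ Fintype.card F := Fintype.one_lt_card
    obtain ⟨k, hk⟩ := Nat.exists_eq_add_of_le h3
    rw [hk, pow_add, sq, h, zero_mul]
  rw [h2, add_zero, smul_pow, one_pow, FiniteField.pow_card] at h1
  rw [← hx, h1]

/-- The special linear group does not normalise a non-scalar group of elements with `x^(q-1) = 1`. -/
theorem not_le_normalizer [Fintype F] [Nonempty ι] {R : Subgroup (GL ι F)} (hR : ¬ R ≤ scalars ι F)
    (hpow : ∀ x ∈ R, x ^ (Fintype.card F - 1) = 1) : ¬ specialLinear ι F ≤ subgroupNormalizer R := by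
  intro hle
  have hq : ∀ x ∈ R, (x : Matrix ι ι F) ^ Fintype.card F = x := by
    intro x hx
    have h1 : x ^ Fintype.card F = x := by
      have h2 : Fintype.card F = Fintype.card F - 1 + 1 := (Nat.sub_add_cancel Fintype.card_pos).symm
      rw [h2, pow_succ, hpow x hx, one_mul]
    rw [← Units.val_pow_eq_pow_val, h1]
  apply hR
  intro x hx
  obtain ⟨c, w, hw0, hw⟩ := exists_eigen (hq x hx)
  have hc0 : c ≠ 0 := by
    rintro rfl
    rw [zero_smul] at hw
    apply hw0
    have h1 := congrArg (fun z => ((x⁻¹ : GL ι F) : Matrix ι ι F) *ᵥ z) hw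
    simp only [Matrix.mulVec_mulVec, gl_inv_mul, Matrix.one_mulVec, Matrix.mulVec_zero] at h1
    exact h1
  have hwi : ((x⁻¹ : GL ι F) : Matrix ι ι F) *ᵥ w = c⁻¹ • w := by
    have h1 := congrArg (fun z => c⁻¹ • (((x⁻¹ : GL ι F) : Matrix ι ι F) *ᵥ z)) hw
    simp only [Matrix.mulVec_mulVec, gl_inv_mul, Matrix.one_mulVec, Matrix.mulVec_smul, smul_smul, inv_mul_cancel₀ hc0, one_smul] at h1
    exact h1.symm
  have key : ∀ η : ι → F, η ⬝ᵥ w = 0 → η ᵥ* ((x : Matrix ι ι F) - c • (1 : Matrix ι ι F)) = 0 := by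
    intro η hη
    set T := tv w η hη with hT
    have hTmem : T * x * T⁻¹ * x⁻¹ ∈ R := by
      have h1 := (Subgroup.mem_normalizer_iff.1 (hle (tv_mem w η hη)) x).1 hx
      exact R.mul_mem h1 (R.inv_mem hx)
    have hval : ((T * x * T⁻¹ * x⁻¹ : GL ι F) : Matrix ι ι F) =
        1 + vecMulVec w (η - c • (η ᵥ* ((x⁻¹ : GL ι F) : Matrix ι ι F))) := by
      have h1 : ((T * x * T⁻¹ * x⁻¹ : GL ι F) : Matrix ι ι F) = cj T (x : Matrix ι ι F) * ((x⁻¹ : GL ι F) : Matrix ι ι F) := rfl
      rw [h1, hT, cj_tv, hw, dotProduct_smul, hη, smul_zero, zero_smul, sub_zero, sub_mul, add_mul, gl_mul_inv,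
        Matrix.vecMulVec_mul, Matrix.vecMulVec_mul, Matrix.vecMul_vecMul, gl_mul_inv, Matrix.vecMul_one,
        Matrix.vecMulVec_sub, Matrix.smul_vecMulVec, Matrix.vecMulVec_smul, add_sub_assoc]
    set ζ := η - c • (η ᵥ* ((x⁻¹ : GL ι F) : Matrix ι ι F)) with hζ
    have hζw : ζ ⬝ᵥ w = 0 := by
      rw [hζ, sub_dotProduct, smul_dotProduct, ← Matrix.dotProduct_mulVec, hwi, dotProduct_smul, hη]
      simp
    have h2 := eq_of_sq_eq_zero (c := 1) (hq _ hTmem) (by
      rw [hval, one_smul, add_sub_cancel_left]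
      exact vecMulVec_sq w ζ hζw)
    rw [hval, one_smul, add_eq_left, Matrix.vecMulVec_eq_zero] at h2
    have h3 := h2.resolve_left hw0
    rw [hζ, sub_eq_zero] at h3
    have h4 := congrArg (fun z => z ᵥ* (x : Matrix ι ι F)) h3
    simp only [Matrix.smul_vecMul, Matrix.vecMul_vecMul, gl_inv_mul, Matrix.vecMul_one] at h4
    rw [Matrix.vecMul_sub, Matrix.vecMul_smul, Matrix.vecMul_one, h4, sub_self]
  obtain ⟨ζ, hζ⟩ := eq_vecMulVec_of key
  have hζw : ζ ⬝ᵥ w = 0 := by
    have h1 : ((x : Matrix ι ι F) - c • (1 : Matrix ι ι F)) *ᵥ w = 0 := by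
      rw [Matrix.sub_mulVec, hw, Matrix.smul_mulVec, Matrix.one_mulVec, sub_self]
    rw [hζ, Matrix.vecMulVec_mulVec] at h1
    by_contra hne
    obtain ⟨i, hi⟩ : ∃ i, w i ≠ 0 := by
      by_contra hcon
      push Not at hcon
      exact hw0 (funext hcon)
    have h2 := congrFun h1 i
    simp at h2
    rcases h2 with h2 | h2
    · exact hi h2
    · exact hne h2
  have h5 := eq_of_sq_eq_zero (c := c) (hq _ hx) (by
    rw [hζ]; exact vecMulVec_sq w ζ hζw)
  rw [mem_scalars_iff]
  exact ⟨Units.mk0 c hc0, h5⟩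

/-- An absolutely irreducible group in dimension at least two is not scalar. -/
theorem not_le_scalars_of_irr (hι : 2 ≤ Fintype.card ι) {H : Subgroup (GL ι F)} (hirr : ActsIrreducibly (matrixSet H)) :
    ¬ H ≤ scalars ι F := by
  intro hle
  obtain ⟨i, j, hij⟩ := Fintype.one_lt_card_iff.1 (show 1 < Fintype.card ι by omega)
  rcases hirr (Submodule.span F {(Pi.single i 1 : ι → F)}) (by
    rintro _ ⟨g, hg, rfl⟩ _ ⟨v, hv, rfl⟩
    obtain ⟨c, hc⟩ := (mem_scalars_iff g).1 (hle hg)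
    show Matrix.toLin' (g : Matrix ι ι F) v ∈ _
    rw [Matrix.toLin'_apply, hc, Matrix.smul_mulVec, Matrix.one_mulVec]
    exact Submodule.smul_mem _ _ hv) with h1 | h1
  · rw [Submodule.span_singleton_eq_bot] at h1
    have := congrFun h1 i
    simp at this
  · have h2 : (Pi.single j 1 : ι → F) ∈ Submodule.span F {(Pi.single i 1 : ι → F)} := by rw [h1]; trivial
    rw [Submodule.mem_span_singleton] at h2
    obtain ⟨a, ha⟩ := h2
    have := congrFun ha j
    simp [hij.symm] at this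

theorem not_le_symplecticType [Fintype F] (hι : 3 ≤ Fintype.card ι) {r : ℕ} {R : Subgroup (GL ι F)}
    (h : IsLinearSymplecticTypeData r R) : ¬ specialLinear ι F ≤ subgroupNormalizer R := by
  have hne : Nonempty ι := Fintype.card_pos_iff.1 (by omega)
  apply not_le_normalizer (not_le_scalars_of_irr (by omega) h.absIrred.1)
  intro x hx
  obtain ⟨p, e, -, ⟨-, -, hcard, hz, -⟩, hcase⟩ := h.field
  have hexp : Monoid.exponent R ∣ Fintype.card F - 1 := by
    rw [h.symplecticType.exponent_eq, hcard]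
    rcases hcase with ⟨hodd, -, hc, -⟩ | ⟨h2, -, hc, -⟩ | ⟨-, -, hn, -⟩
    · have : Nat.gcd 2 r = 1 := Nat.coprime_two_left.2 hodd
      rw [this, mul_one]
      rwa [hc] at hz
    · subst h2
      rw [hc] at hz
      exact hz
    · omega
  obtain ⟨s, hs⟩ := hexp
  have h1 : (⟨x, hx⟩ : R) ^ (Fintype.card F - 1) = 1 := by
    rw [hs, pow_mul, Monoid.pow_exponent_eq_one, one_pow]
  exact congrArg Subtype.val h1

end Cfsg.Agent.Lib.SLNotSymp
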