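import Cfsg.Agent.Lib.SMFa
import Cfsg.Agent.Lib.FERel
import Cfsg.Agent.Lib.Fi24Ord
import Cfsg.Agent.S1691

/-! The generators of the even subgroup of the Fischer group `Fi24`. -/

set_option autoImplicit false
set_option maxRecDepth 100000

namespace Cfsg.Agent.Lib.SMFb

open Subgroup Cfsg.Agent.Lib.SchurSylow Cfsg.Agent.Lib.SMFa
open scoped commutatorElement
open Cfsg.Spor Cfsg.Agent.Lib.BenesPerm Cfsg.Agent.Lib.BenesAct Cfsg.Agent.Lib.BenesWord
open Cfsg.Agent.Lib.CoxBridge Cfsg.Agent.Lib.CosetGroup Cfsg.Agent.Lib.CosetChain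
open Cfsg.Agent.Lib.Fi24Sub (G xx xinv comm_l)

/-- the letters in the big group -/
noncomputable def yG (c : ℕ) : G := if c < 10 then xx c * xx 11 else if c = 10 then xx 10 * xx 9 else 1

theorem yG_lt {c : ℕ} (hc : c < 10) : yG c = xx c * xx 11 := if_pos hc

theorem yG_ten : yG 10 = xx 10 * xx 9 := by
  unfold yG
  rw [if_neg (by norm_num), if_pos rfl]

theorem rel24 : ∀ W ∈ Fi24Rel.rels, W.eval xx = 1 := Fi24W.rel_eval Fi24W.L0

/-- commuting letters from the Coxeter relators -/
theorem comm_of_sq {A : Type*} [Group A] {a b : A} (ha : a * a = 1) (hb : b * b = 1) (h : (a * b) ^ 2 = 1) :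
    a * b = b * a := by
  have ha' : a⁻¹ = a := inv_eq_of_mul_eq_one_right ha
  have hb' : b⁻¹ = b := inv_eq_of_mul_eq_one_right hb
  rw [pow_two] at h
  have := inv_eq_of_mul_eq_one_right h
  rw [mul_inv_rev, ha', hb'] at this
  exact this.symm

theorem comm24 {i j : ℕ} (hi : i < 12) (hj : j < 12) (h : Wd.pow (Wd.mul (Wd.g i) (Wd.g j)) 2 ∈ Fi24Rel.rels) :
    xx i * xx j = xx j * xx i := comm_of_sq (xinv i hi) (xinv j hj) (rel24 _ h)

theorem l_sq : xx 11 * xx 11 = 1 := xinv 11 (by norm_num)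

/-- the eight generators commuting with `j`, `k` and `l` -/
theorem yG_sq {c : ℕ} (hc : c < 10) : yG c * yG c = 1 := by
  rw [yG_lt hc]
  calc xx c * xx 11 * (xx c * xx 11) = xx c * (xx 11 * xx c) * xx 11 := by group
    _ = xx c * (xx c * xx 11) * xx 11 := by rw [comm_l c hc]
    _ = (xx c * xx c) * (xx 11 * xx 11) := by group
    _ = 1 := by rw [xinv c (by omega), l_sq, one_mul]

/-- relators of the subgroup: words of even or odd length -/
theorem yG_word {W : Wd} (hW : lets 10 W = true) :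
    W.eval yG = W.eval xx * Wd.eval (fun _ => xx 11) W := by
  rw [← (eval_comm (n := 10) (x := xx) comm_l W hW).2.2.2]
  exact eval_congr (fun c hc => yG_lt hc) W hW

theorem cox23 : ∀ W ∈ FERel.coxW, W.eval yG = 1 := by
  intro W hW
  have h1 : lets 10 W = true := (show ∀ W ∈ FERel.coxW, lets 10 W = true by decide) W hW
  have h2 : W ∈ Fi24Rel.rels := (show ∀ W ∈ FERel.coxW, W ∈ Fi24Rel.rels by decide) W hW
  have h3 : ∀ W ∈ FERel.coxW, ∃ i j m, W = Wd.pow (Wd.mul (Wd.g i) (Wd.g j)) m := by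
    intro W hW
    unfold FERel.coxW at hW
    simp only [List.mem_cons, List.not_mem_nil, or_false] at hW
    rcases hW with h | h | h | h | h | h | h | h | h | h | h | h | h | h | h | h | h | h | h | h | h | h | h | h | h |
      h | h | h | h | h | h | h | h | h | h | h | h | h | h | h | h | h | h | h | h <;> exact ⟨_, _, _, h⟩
  obtain ⟨i, j, m, e⟩ := h3 W hW
  rw [yG_word h1, rel24 W h2, one_mul, e]
  change (xx 11 * xx 11) ^ m = 1
  rw [l_sq, one_pow]

/-- the two words of the subgroup -/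
def spW : Wd := (Wd.pow (Wd.mul (Wd.mul (Wd.mul (Wd.mul (Wd.mul (Wd.mul (Wd.mul (Wd.mul (Wd.g 3) (Wd.g 2)) (Wd.g 1)) (Wd.g 3)) (Wd.g 4)) (Wd.g 5)) (Wd.g 3)) (Wd.g 7)) (Wd.g 8)) 10)
/-- the two words of the subgroup -/
def e7W : Wd := (Wd.pow (Wd.mul (Wd.mul (Wd.mul (Wd.mul (Wd.mul (Wd.mul (Wd.g 0) (Wd.g 1)) (Wd.g 2)) (Wd.g 3)) (Wd.g 4)) (Wd.g 5)) (Wd.g 7)) 9)

theorem w_mem : spW ∈ FERel.extraW ∧ e7W ∈ FERel.extraW ∧ spW ∈ Fi23Rel.rels ∧ e7W ∈ Fi23Rel.rels := by decide

theorem e7_xx : e7W.eval xx = xx 11 := Fi24Sub.e7_rel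

theorem e7_yG : e7W.eval yG = 1 := by
  rw [yG_word (by decide), e7_xx]
  change xx 11 * (xx 11 * xx 11 * xx 11 * xx 11 * xx 11 * xx 11 * xx 11) ^ 9 = 1
  have h := l_sq
  have h7 : xx 11 * xx 11 * xx 11 * xx 11 * xx 11 * xx 11 * xx 11 = xx 11 := by
    simp only [h, one_mul]
  have h9 : (xx 11) ^ 9 = xx 11 := by
    have : (xx 11) ^ 9 = (xx 11 * xx 11) ^ 4 * xx 11 := by rw [← pow_two, ← pow_mul, ← pow_succ]
    rw [this, h, one_pow, one_mul]
  rw [h7, h9, h]

theorem sp_xx : spW.eval xx = 1 := by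
  have h := Fi24Sub.spider_loc
  rw [eval_congr (y' := fun c => xx ((Fi24Sub.sub24[c]?).getD 0)) (n := 10) ?_ _ Fi24Sub.spider_lets] at h
  · exact h
  · intro c hc
    rw [loc_of_lt xx (show c < Fi24Sub.sub24.length from hc)]
    interval_cases c <;> rfl

theorem sp_yG : spW.eval yG = 1 := by
  rw [yG_word (by decide), sp_xx, one_mul]
  change (xx 11 * xx 11 * xx 11 * xx 11 * xx 11 * xx 11 * xx 11 * xx 11 * xx 11) ^ 10 = 1
  have h := l_sq
  simp only [h, one_mul]
  have : (xx 11) ^ 10 = (xx 11 * xx 11) ^ 5 := by rw [← pow_two, ← pow_mul]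
  rw [this, h, one_pow]

/-- all relators of the subgroup -/
theorem rel23 : ∀ W ∈ Fi23Rel.rels, W.eval yG = 1 := by
  intro W hW
  rcases List.mem_append.mp hW with h | h
  · exact cox23 W ((show ∀ W ∈ Fi23Rel.coxW, W ∈ FERel.coxW by decide) W h)
  · have h2 : W = spW ∨ W = e7W := by
      have h3 : ∀ W ∈ Fi23Rel.extraW, W = spW ∨ W = e7W := by decide
      exact h3 W h
    rcases h2 with rfl | rfl
    · exact sp_yG
    · exact e7_yG

/-! ### the further generator -/

theorem K_sq : yG 10 * yG 10 = 1 := by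
  rw [yG_ten]
  have h := comm24 (i := 9) (j := 10) (by norm_num) (by norm_num) (by decide)
  calc xx 10 * xx 9 * (xx 10 * xx 9) = xx 10 * (xx 9 * xx 10) * xx 9 := by group
    _ = xx 10 * (xx 10 * xx 9) * xx 9 := by rw [h]
    _ = (xx 10 * xx 10) * (xx 9 * xx 9) := by group
    _ = 1 := by rw [xinv 10 (by norm_num), xinv 9 (by norm_num), one_mul]

theorem K_nine : yG 10 * yG 9 = xx 10 * xx 11 := by
  rw [yG_ten, yG_lt (by norm_num)]
  calc xx 10 * xx 9 * (xx 9 * xx 11) = xx 10 * (xx 9 * xx 9) * xx 11 := by group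
    _ = xx 10 * xx 11 := by rw [xinv 9 (by norm_num), mul_one]

theorem K3 : (yG 10 * yG 9) ^ 3 = 1 := by
  rw [K_nine]
  exact rel24 (Wd.pow (Wd.mul (Wd.g 10) (Wd.g 11)) 3) (by decide)

theorem K_c {c : ℕ} (hc : c < 10) : yG 10 * yG 9 * yG c = xx 10 * xx c := by
  rw [K_nine, yG_lt hc, comm_l c hc]
  calc xx 10 * xx 11 * (xx 11 * xx c) = xx 10 * (xx 11 * xx 11) * xx c := by group
    _ = xx 10 * xx c := by rw [l_sq, mul_one]

theorem Kc2 {c : ℕ} (hc : c < 9) (h0 : c ≠ 0) : (yG 10 * yG 9 * yG c) ^ 2 = 1 := by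
  rw [K_c (by omega), pow_two]
  have h : xx c * xx 10 = xx 10 * xx c := by
    apply comm24 (by omega) (by norm_num)
    interval_cases c
    · exact absurd rfl h0
    all_goals decide
  calc xx 10 * xx c * (xx 10 * xx c) = xx 10 * (xx c * xx 10) * xx c := by group
    _ = xx 10 * (xx 10 * xx c) * xx c := by rw [h]
    _ = (xx 10 * xx 10) * (xx c * xx c) := by group
    _ = 1 := by rw [xinv 10 (by norm_num), xinv c (by omega), one_mul]

theorem K03 : (yG 10 * yG 9 * yG 0) ^ 3 = 1 := by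
  rw [K_c (by norm_num)]
  have h := rel24 (Wd.pow (Wd.mul (Wd.g 0) (Wd.g 10)) 3) (by decide)
  exact CosetOrder.swap_pow h

/-! ### the even subgroup -/

/-- the Fischer group -/
abbrev GF : Type := ↥(commutator G)

theorem nodes_ab (c : ℕ) (hc : c < 12) : Abelianization.of (xx c) = Abelianization.of (xx 11) := by
  let X : ℕ → Abelianization G := fun c => Abelianization.of (xx c)
  have hs : ∀ c, c < 12 → X c * X c = 1 := fun c hc => by
    change Abelianization.of (xx c) * Abelianization.of (xx c) = 1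
    rw [← map_mul, xinv c hc, map_one]
  have key : ∀ i j, i < 12 → j < 12 → Wd.pow (Wd.mul (Wd.g i) (Wd.g j)) 3 ∈ Fi24Rel.rels → X i = X j := by
    intro i j hi hj h
    have h3 : (X i * X j) ^ 3 = 1 := by
      change (Abelianization.of (xx i) * Abelianization.of (xx j)) ^ 3 = 1
      rw [← map_mul, ← map_pow, show (xx i * xx j) ^ 3 = 1 from rel24 _ h, map_one]
    have e : (X i * X j) ^ 3 = (X i * X i) * (X j * X j) * (X i * X j) := by
      rw [pow_succ, pow_two]
      simp only [mul_assoc, mul_left_comm]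
    rw [e, hs i hi, hs j hj, one_mul, one_mul] at h3
    rw [← mul_one (X i), ← hs j hj, ← mul_assoc, h3, one_mul]
  have k1 := key 10 11 (by norm_num) (by norm_num) (by decide)
  have k2 := key 0 10 (by norm_num) (by norm_num) (by decide)
  have k3 := key 0 1 (by norm_num) (by norm_num) (by decide)
  have k4 := key 1 2 (by norm_num) (by norm_num) (by decide)
  have k5 := key 2 3 (by norm_num) (by norm_num) (by decide)
  have k6 := key 3 4 (by norm_num) (by norm_num) (by decide)
  have k7 := key 3 7 (by norm_num) (by norm_num) (by decide)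
  have k8 := key 4 5 (by norm_num) (by norm_num) (by decide)
  have k9 := key 5 6 (by norm_num) (by norm_num) (by decide)
  have k10 := key 6 9 (by norm_num) (by norm_num) (by decide)
  have k11 := key 7 8 (by norm_num) (by norm_num) (by decide)
  change X c = X 11
  have e0 : X 0 = X 11 := k2.trans k1
  have e1 : X 1 = X 11 := k3.symm.trans e0
  have e2 : X 2 = X 11 := k4.symm.trans e1
  have e3 : X 3 = X 11 := k5.symm.trans e2
  have e4 : X 4 = X 11 := k6.symm.trans e3
  have e7 : X 7 = X 11 := k7.symm.trans e3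
  have e5 : X 5 = X 11 := k8.symm.trans e4
  have e6 : X 6 = X 11 := k9.symm.trans e5
  have e9 : X 9 = X 11 := k10.symm.trans e6
  have e8 : X 8 = X 11 := k11.symm.trans e7
  interval_cases c
  · exact e0
  · exact e1
  · exact e2
  · exact e3
  · exact e4
  · exact e5
  · exact e6
  · exact e7
  · exact e8
  · exact e9
  · exact k1
  · rfl

theorem yG_mem (c : ℕ) : yG c ∈ commutator G := by
  rw [← Abelianization.ker_of G]
  have h2 : Abelianization.of (xx 11) * Abelianization.of (xx 11) = 1 := by rw [← map_mul, l_sq, map_one]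
  unfold yG
  split_ifs with h h'
  · change Abelianization.of (xx c * xx 11) = 1
    rw [map_mul, nodes_ab c (by omega), h2]
  · change Abelianization.of (xx 10 * xx 9) = 1
    rw [map_mul, nodes_ab 10 (by norm_num), nodes_ab 9 (by norm_num), h2]
  · exact one_mem _

/-- the letters in the Fischer group -/
noncomputable def y0 (c : ℕ) : GF := ⟨yG c, yG_mem c⟩

theorem eval_y0 (W : Wd) : ((W.eval y0 : GF) : G) = W.eval yG := Wd.map_eval (commutator G).subtype y0 W

theorem eval_y0_one {W : Wd} (h : W.eval yG = 1) : W.eval y0 = 1 := Subtype.ext ((eval_y0 W).trans h)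

end Cfsg.Agent.Lib.SMFb
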