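import Cfsg.Agent.Lib.SMFb
import Cfsg.Agent.S2054

/-! Lifts of the generators of the Fischer group to stem extensions. -/

set_option autoImplicit false
set_option maxRecDepth 100000

namespace Cfsg.Agent.Lib.SMFc

open Subgroup Cfsg.Agent.Lib.SchurSylow Cfsg.Agent.Lib.SMFa Cfsg.Agent.Lib.SMFb
open scoped commutatorElement
open Cfsg.Spor Cfsg.Agent.Lib.BenesPerm Cfsg.Agent.Lib.BenesAct Cfsg.Agent.Lib.BenesWord
open Cfsg.Agent.Lib.CoxBridge Cfsg.Agent.Lib.CosetGroup Cfsg.Agent.Lib.CosetChain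
open Cfsg.Agent.Lib.Fi24Sub (G xx F)

/-- the letters of the subgroup -/
noncomputable def x23 : ℕ → F := Fi23Rel.C.x []

theorem rel_x23 : ∀ W ∈ Fi23Rel.rels, W.eval x23 = 1 := by
  have h := Fi23Rel.C.rel_x []
  intro W hW
  rcases List.mem_append.mp hW with h1 | h1
  · exact h.1 W (by rw [show coxWds Fi23.edges Fi23Rel.C.gen Fi23Rel.C.nn = Fi23Rel.coxW from Fi23Rel.coxW_eq]; exact h1)
  · exact h.2.1 W h1

theorem lets23 : ∀ W ∈ Fi23Rel.rels, lets 10 W = true := by decide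

theorem card_F : Nat.card F = 4089470473293004800 := Fi23Ord.main.2.1

instance finite_F : Finite F := Nat.finite_of_card_ne_zero (by rw [card_F]; norm_num)

theorem perfect_F : commutator F = ⊤ := by
  have hsim : IsSimpleGroup F := Fi23Ord.main.1
  rcases (inferInstance : (commutator F).Normal).eq_bot_or_eq_top with h1 | h1
  · exfalso
    have hc : ∀ a b : F, a * b = b * a := by
      intro a b
      have h2 : ⁅a, b⁆ ∈ commutator F := Subgroup.commutator_mem_commutator (Subgroup.mem_top _) (Subgroup.mem_top _)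
      rw [h1, Subgroup.mem_bot, commutatorElement_eq_one_iff_mul_comm] at h2
      exact h2
    let _ : CommGroup F := { (inferInstance : Group F) with mul_comm := hc }
    have h3 : (Nat.card F).Prime := IsSimpleGroup.prime_card
    rw [card_F] at h3
    revert h3
    norm_num
  · exact h1

theorem stem_F : StemDvd F 1 := stemDvd_of_hasTrivial Cfsg.Agent.S2054.result

theorem exists_theta : ∃ θ : F →* GF, ∀ c, c < 10 → θ (x23 c) = y0 c := by
  obtain ⟨θ, hθ⟩ := Fi23Rel.C.hom y0 (fun i hi => Subtype.ext (yG_sq hi))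
    (fun W hW => eval_y0_one (rel23 W (List.mem_append_left _ (by rw [← Fi23Rel.coxW_eq]; exact hW))))
    (fun W hW => eval_y0_one (rel23 W (List.mem_append_right _ hW)))
  refine ⟨θ, fun c hc => ?_⟩
  rw [x23, Fi23Rel.C.x_of_lt [] hc]
  exact hθ c hc

variable {Γ : Type} [Group Γ] {σ : Γ →* GF}

theorem exists_sub [Finite Γ] (hσ : IsStemExtension σ) : ∃ z : ℕ → Γ, (∀ c, c < 10 → σ (z c) = y0 c) ∧
    (∀ W ∈ Fi23Rel.rels, W.eval z = 1) ∧ (∀ c, c < 10 → z c * z c = 1) := by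
  obtain ⟨θ, hθ⟩ := exists_theta
  obtain ⟨τ, hτ⟩ := exists_lift perfect_F stem_F hσ.1 hσ.2.1 θ
  refine ⟨fun c => τ (x23 c), ?_, ?_, ?_⟩
  · intro c hc
    rw [← hθ c hc, ← hτ]; rfl
  · intro W hW
    rw [← Wd.map_eval, rel_x23 W hW, map_one]
  · intro c hc
    rw [← map_mul, show x23 c * x23 c = 1 from (Fi23Rel.C.rel_x []).2.2 c hc, map_one]

/-- suitable lifts of the generators -/
structure Lft (σ : Γ →* GF) (y : ℕ → Γ) : Prop where
  cen : σ.ker ≤ center Γ
  lift : ∀ c, c < 11 → σ (y c) = y0 c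
  sub : ∀ W ∈ Fi23Rel.rels, W.eval y = 1
  inv : ∀ c, c < 10 → y c * y c = 1
  k2 : y 10 * y 10 = 1
  k3 : (y 10 * y 9) ^ 3 = 1
  kx : ∀ c, c < 9 → c ≠ 0 → (y 10 * y 9 * y c) ^ 2 = 1
  r2 : (y 10 * y 9 * y 0) ^ 3 * (y 10 * y 9 * y 0) ^ 3 = 1

theorem Lft.mk' (hσ : IsStemExtension σ) {z : ℕ → Γ} (h1 : ∀ c, c < 10 → σ (z c) = y0 c)
    (h2 : ∀ W ∈ Fi23Rel.rels, W.eval z = 1) (h3 : ∀ c, c < 10 → z c * z c = 1) {k : Γ} (hk : σ k = y0 10)
    (k2 : k * k = 1) (k3 : (k * z 9) ^ 3 = 1) (kx : ∀ c, c < 9 → c ≠ 0 → (k * z 9 * z c) ^ 2 = 1)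
    (r2 : (k * z 9 * z 0) ^ 3 * (k * z 9 * z 0) ^ 3 = 1) : Lft σ (fun c => if c < 10 then z c else k) := by
  refine ⟨hσ.2.1, ?_, ?_, ?_, k2, k3, ?_, r2⟩
  · intro c hc
    by_cases h : c < 10
    · simp only [if_pos h]; exact h1 c h
    · have : c = 10 := by omega
      subst this
      simp only [if_neg h]; exact hk
  · intro W hW
    rw [← h2 W hW]
    apply eval_congr (n := 10) _ W (lets23 W hW)
    intro c hc
    simp only [if_pos hc]
  · intro c hc
    simp only [if_pos hc]; exact h3 c hc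
  · intro c hc h0
    have h10 : c < 10 := by omega
    have := kx c hc h0
    show ((if (10 : ℕ) < 10 then z 10 else k) * (if (9 : ℕ) < 10 then z 9 else k) * (if c < 10 then z c else k)) ^ 2 = 1
    rw [if_pos h10, if_neg (show ¬ (10 : ℕ) < 10 by norm_num), if_pos (show (9 : ℕ) < 10 by norm_num)]
    exact this

theorem y0_val (c : ℕ) : ((y0 c : GF) : G) = yG c := rfl

theorem K_sq0 : y0 10 * y0 10 = 1 := Subtype.ext K_sq
theorem K30 : (y0 10 * y0 9) ^ 3 = 1 := Subtype.ext K3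
theorem Kc20 {c : ℕ} (hc : c < 9) (h0 : c ≠ 0) : (y0 10 * y0 9 * y0 c) ^ 2 = 1 := Subtype.ext (Kc2 hc h0)
theorem K030 : (y0 10 * y0 9 * y0 0) ^ 3 = 1 := Subtype.ext K03
theorem sq0 {c : ℕ} (hc : c < 10) : y0 c * y0 c = 1 := Subtype.ext (yG_sq hc)

/-! ### odd kernels -/

theorem one_of_sq_odd {z : Γ} (ho : Odd (orderOf z)) (h2 : z * z = 1) : z = 1 := by
  rw [← orderOf_eq_one_iff]
  have h : orderOf z ∣ 2 := orderOf_dvd_of_pow_eq_one (by rw [pow_two, h2])
  rcases (Nat.dvd_prime Nat.prime_two).1 h with h | h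
  · exact h
  · rw [h] at ho; exact absurd ho (by decide)

theorem dih_core (hc : σ.ker ≤ center Γ) (ho : ∀ z ∈ σ.ker, Odd (orderOf z)) {s t : Γ} {m : ℕ} (hs : s * s = 1)
    (ht : t * t = 1) (h : (s * t) ^ m ∈ σ.ker) : (s * t) ^ m = 1 := by
  have hc := mem_center_iff.1 (hc h)
  have hs' : s⁻¹ = s := inv_eq_of_mul_eq_one_right hs
  have ht' : t⁻¹ = t := inv_eq_of_mul_eq_one_right ht
  have e1 : s * (s * t) ^ m * s⁻¹ = ((s * t) ^ m)⁻¹ := by
    rw [← MulAut.conj_apply, map_pow, MulAut.conj_apply, ← inv_pow]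
    congr 1
    rw [mul_inv_rev, hs', ht', ← mul_assoc, hs, one_mul]
  rw [hc s, mul_inv_cancel_right] at e1
  exact one_of_sq_odd (ho _ h) (mul_eq_one_iff_eq_inv.2 e1)

theorem exists_odd [Finite Γ] (hσ : IsStemExtension σ) (ho : ∀ z ∈ σ.ker, Odd (orderOf z)) :
    ∃ y : ℕ → Γ, Lft σ y := by
  obtain ⟨z, h1, h2, h3⟩ := exists_sub hσ
  obtain ⟨k0, hk0⟩ := hσ.1 (y0 10)
  have hq : k0 * k0 ∈ σ.ker := by rw [MonoidHom.mem_ker, map_mul, hk0, K_sq0]
  obtain ⟨m, hm⟩ := ho _ hq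
  obtain ⟨k, hk⟩ : ∃ k, k = k0 * (k0 * k0) ^ m := ⟨_, rfl⟩
  have hkσ : σ k = y0 10 := by rw [hk, map_mul, MonoidHom.mem_ker.1 (pow_mem hq m), mul_one, hk0]
  have k2 : k * k = 1 := by
    have e : k * k = (k0 * k0) ^ (2 * m + 1) := by
      rw [hk]
      simp only [← pow_two, ← pow_mul, ← pow_succ']
      congr 1; ring
    rw [e, ← hm, pow_orderOf_eq_one]
  have hc := hσ.2.1
  have sq_comm : ∀ i j, i < 10 → j < 10 → Wd.pow (Wd.mul (Wd.g i) (Wd.g j)) 2 ∈ Fi23Rel.rels →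
      (z i * z j) * (z i * z j) = 1 ∧ (z j * z i) * (z j * z i) = 1 := by
    intro i j hi hj h
    have h4 : (z i * z j) ^ 2 = 1 := h2 _ h
    exact ⟨by rw [← pow_two]; exact h4, by rw [← pow_two]; exact CosetOrder.swap_pow h4⟩
  have k3 : (k * z 9) ^ 3 = 1 := by
    apply dih_core hc ho k2 (h3 9 (by norm_num))
    rw [MonoidHom.mem_ker, map_pow, map_mul, hkσ, h1 9 (by norm_num)]
    exact K30
  have kx' : ∀ c, c < 9 → c ≠ 0 → c ≠ 6 → (k * z 9 * z c) ^ 2 = 1 := by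
    intro c hc9 h0 h6
    rw [mul_assoc]
    apply dih_core hc ho k2
    · refine (sq_comm c 9 (by omega) (by norm_num) ?_).2
      interval_cases c
      · exact absurd rfl h0
      · decide
      · decide
      · decide
      · decide
      · decide
      · exact absurd rfl h6
      · decide
      · decide
    · rw [MonoidHom.mem_ker, map_pow, ← mul_assoc, map_mul, map_mul, hkσ, h1 9 (by norm_num), h1 c (by omega)]
      exact Kc20 hc9 h0
  refine ⟨_, Lft.mk' hσ h1 h2 h3 hkσ k2 k3 ?_ ?_⟩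
  · intro c hc9 h0
    by_cases h6 : c = 6
    · subst h6
      have e : k * z 9 * z 6 = (k * z 9 * z 8) * (z 8 * z 6) := by
        calc k * z 9 * z 6 = k * z 9 * 1 * z 6 := by rw [mul_one]
          _ = k * z 9 * (z 8 * z 8) * z 6 := by rw [h3 8 (by norm_num)]
          _ = (k * z 9 * z 8) * (z 8 * z 6) := by group
      rw [e]
      apply dih_core hc ho
      · rw [← pow_two]; exact kx' 8 (by norm_num) (by norm_num) (by norm_num)
      · exact (sq_comm 6 8 (by norm_num) (by norm_num) (by decide)).2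
      · rw [← e, MonoidHom.mem_ker, map_pow, map_mul, map_mul, hkσ, h1 9 (by norm_num), h1 6 (by norm_num)]
        exact Kc20 (by norm_num) (by norm_num)
    · exact kx' c hc9 h0 h6
  · have e : (k * z 9 * z 0) ^ 3 = 1 := by
      rw [mul_assoc]
      apply dih_core hc ho k2
      · exact (sq_comm 0 9 (by norm_num) (by norm_num) (by decide)).2
      · rw [MonoidHom.mem_ker, map_pow, ← mul_assoc, map_mul, map_mul, hkσ, h1 9 (by norm_num), h1 0 (by norm_num)]
        exact K030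
    rw [e, one_mul]

/-! ### kernels of exponent two -/

theorem exists_two [Finite Γ] (hσ : IsStemExtension σ) (hz : ∀ z ∈ σ.ker, z * z = 1) :
    ∃ y : ℕ → Γ, Lft σ y := by
  obtain ⟨z, h1, h2, h3⟩ := exists_sub hσ
  obtain ⟨s0, hs0⟩ := hσ.1 (y0 10 * y0 9)
  have hq : s0 ^ 3 ∈ σ.ker := by rw [MonoidHom.mem_ker, map_pow, hs0, K30]
  obtain ⟨u, hu⟩ : ∃ u, u = s0 ^ 3 := ⟨_, rfl⟩
  rw [← hu] at hq
  have hcu := mem_center_iff.1 (hσ.2.1 hq)
  obtain ⟨s, hs⟩ : ∃ s, s = s0 * u := ⟨_, rfl⟩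
  have hsσ : σ s = y0 10 * y0 9 := by rw [hs, map_mul, MonoidHom.mem_ker.1 hq, mul_one, hs0]
  have s3 : s ^ 3 = 1 := by
    rw [hs, (show Commute s0 u from hcu s0).mul_pow, ← hu]
    have : u * u ^ 3 = (u * u) * (u * u) := by simp only [pow_succ, pow_zero, one_mul, mul_assoc]
    rw [this, hz u hq, one_mul]
  -- inversion
  have key : ∀ t : Γ, t * t = 1 → σ ((s * t) ^ 2) = 1 → (s * t) ^ 2 = 1 := by
    intro t ht hst
    have ht' : t⁻¹ = t := inv_eq_of_mul_eq_one_right ht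
    have e1 : t * s * t⁻¹ = s⁻¹ := by
      apply lift_unique hσ.2.1 hz
      · rw [← MulAut.conj_apply, ← map_pow, s3, map_one]
      · rw [inv_pow, s3, inv_one]
      · have h5 : σ s * (σ t * σ s * σ t) = 1 := by
          rw [← hst, pow_two, map_mul, map_mul]
          simp only [mul_assoc]
        rw [ht', map_mul, map_mul, map_inv]
        exact (eq_inv_of_mul_eq_one_right h5)
    calc (s * t) ^ 2 = s * (t * s * t⁻¹) * (t * t) := by rw [pow_two]; group
      _ = 1 := by rw [e1, ht, mul_one, mul_inv_cancel]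
  have e9 : s * z 9 * z 9 = s := by rw [mul_assoc, h3 9 (by norm_num), mul_one]
  refine ⟨_, Lft.mk' hσ h1 h2 h3 (k := s * z 9) ?_ ?_ ?_ ?_ ?_⟩
  · rw [map_mul, hsσ, h1 9 (by norm_num), mul_assoc, sq0 (by norm_num), mul_one]
  · rw [← pow_two]
    apply key _ (h3 9 (by norm_num))
    rw [map_pow, map_mul, hsσ, h1 9 (by norm_num), mul_assoc, sq0 (by norm_num), mul_one, pow_two, K_sq0]
  · rw [e9, s3]
  · intro c hc h0
    rw [e9]
    apply key _ (h3 c (by omega))
    rw [map_pow, map_mul, hsσ, h1 c (by omega)]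
    exact Kc20 hc h0
  · rw [e9]
    apply hz
    rw [MonoidHom.mem_ker, map_pow, map_mul, hsσ, h1 0 (by norm_num)]
    exact K030

end Cfsg.Agent.Lib.SMFc
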