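import Cfsg.Agent.Lib.SMFc
import Cfsg.Agent.Lib.FEWIdx
import Cfsg.Agent.Lib.CovC

/-! The triple cover of the Fischer group. -/

set_option autoImplicit false
set_option maxRecDepth 100000

namespace Cfsg.Agent.Lib.SMFd

open Subgroup Cfsg.Agent.Lib.SchurSylow Cfsg.Agent.Lib.SMFa Cfsg.Agent.Lib.SMFb Cfsg.Agent.Lib.SMFc Cfsg.Agent.Lib.Cov
open scoped commutatorElement
open Cfsg.Spor Cfsg.Agent.Lib.BenesPerm Cfsg.Agent.Lib.BenesAct Cfsg.Agent.Lib.BenesWord
open Cfsg.Agent.Lib.CosetFacts Cfsg.Agent.Lib.CoxBridge Cfsg.Agent.Lib.CosetGroup Cfsg.Agent.Lib.CosetChain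
open Cfsg.Agent.Lib.Fi24Sub (G xx F xinv comm_l)
open Cfsg.Agent.Lib.FERel

/-- the presented group -/
abbrev E : Type := CoxPresented FE.Gen FE.edges FE.extra

/-- its letters -/
noncomputable def xE : ℕ → E := FERel.C.x FEW.L0

theorem relE : ∀ W ∈ FERel.rels, W.eval xE = 1 := FEW.rel_eval FEW.L0

theorem cox_sub : ∀ W ∈ FERel.coxW, W ∈ Fi23Rel.rels := by decide

theorem sub_cox : ∀ W ∈ Fi23Rel.coxW, W ∈ FERel.rels := by decide

theorem sub_ext : ∀ W ∈ Fi23Rel.extraW, W ∈ FERel.rels := by decide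

/-- commutators with central elements -/
def cm (U : Wd) (c : ℕ) : Wd := Wd.mul (Wd.mul (Wd.mul U (Wd.g c)) (Wd.inv U)) (Wd.inv (Wd.g c))

/-- the unknown central element -/
def wr : Wd := Wd.pow (Wd.mul (Wd.mul (Wd.g 10) (Wd.g 9)) (Wd.g 0)) 3

section

variable {Γ : Type} [Group Γ] {σ : Γ →* GF} {y : ℕ → Γ}

theorem eval_lift (hy : ∀ c, c < 11 → σ (y c) = y0 c) {W : Wd} (hW : lets 11 W = true) :
    σ (W.eval y) = W.eval y0 := by
  rw [Wd.map_eval]
  exact eval_congr hy W hW

theorem wr_ker (H : Lft σ y) : wr.eval y ∈ σ.ker := by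
  rw [MonoidHom.mem_ker, eval_lift H.lift (by decide)]
  exact K030

theorem comm_r (H : Lft σ y) (c : ℕ) : (cm wr c).eval y = 1 := by
  change wr.eval y * y c * (wr.eval y)⁻¹ * (y c)⁻¹ = 1
  rw [← mem_center_iff.1 (H.cen (wr_ker H)) (y c)]
  group

theorem rext (H : Lft σ y) : ∀ W ∈ FERel.extraW, W.eval y = 1 := by
  intro W hW
  unfold FERel.extraW at hW
  rcases List.mem_cons.mp hW with rfl | hW
  · exact H.sub spW w_mem.2.2.1
  rcases List.mem_cons.mp hW with rfl | hW
  · exact H.sub e7W w_mem.2.2.2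
  rcases List.mem_cons.mp hW with rfl | hW
  · exact (pow_two (y 10)).trans H.k2
  rcases List.mem_cons.mp hW with rfl | hW
  · exact H.k3
  rcases List.mem_cons.mp hW with rfl | hW
  · exact H.kx 1 (by norm_num) (by norm_num)
  rcases List.mem_cons.mp hW with rfl | hW
  · exact H.kx 2 (by norm_num) (by norm_num)
  rcases List.mem_cons.mp hW with rfl | hW
  · exact H.kx 3 (by norm_num) (by norm_num)
  rcases List.mem_cons.mp hW with rfl | hW
  · exact H.kx 4 (by norm_num) (by norm_num)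
  rcases List.mem_cons.mp hW with rfl | hW
  · exact H.kx 5 (by norm_num) (by norm_num)
  rcases List.mem_cons.mp hW with rfl | hW
  · exact H.kx 6 (by norm_num) (by norm_num)
  rcases List.mem_cons.mp hW with rfl | hW
  · exact H.kx 7 (by norm_num) (by norm_num)
  rcases List.mem_cons.mp hW with rfl | hW
  · exact H.kx 8 (by norm_num) (by norm_num)
  rcases List.mem_cons.mp hW with rfl | hW
  · exact comm_r H 0
  rcases List.mem_cons.mp hW with rfl | hW
  · exact comm_r H 1
  rcases List.mem_cons.mp hW with rfl | hW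
  · exact comm_r H 2
  rcases List.mem_cons.mp hW with rfl | hW
  · exact comm_r H 3
  rcases List.mem_cons.mp hW with rfl | hW
  · exact comm_r H 4
  rcases List.mem_cons.mp hW with rfl | hW
  · exact comm_r H 5
  rcases List.mem_cons.mp hW with rfl | hW
  · exact comm_r H 6
  rcases List.mem_cons.mp hW with rfl | hW
  · exact comm_r H 7
  rcases List.mem_cons.mp hW with rfl | hW
  · exact comm_r H 8
  rcases List.mem_cons.mp hW with rfl | hW
  · exact comm_r H 9
  rcases List.mem_cons.mp hW with rfl | hW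
  · exact comm_r H 10
  rcases List.mem_cons.mp hW with rfl | hW
  · exact (pow_two (wr.eval y)).trans H.r2
  exact absurd hW List.not_mem_nil

theorem exists_hom (H : Lft σ y) : ∃ φ : E →* Γ, ∀ c, c < 11 → φ (PresentedGroup.of (FERel.C.gen c)) = y c :=
  FERel.C.hom y H.inv (fun W hW => H.sub W (cox_sub W (by rw [← FERel.coxW_eq]; exact hW))) (rext H)

end

/-! ### the order of the presented group -/

theorem xE_of {c : ℕ} (hc : c < 11) : xE c = PresentedGroup.of (FERel.C.gen c) := FERel.C.x_of_lt FEW.L0 hc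

theorem xE_sq {c : ℕ} (hc : c < 10) : xE c * xE c = 1 := (FERel.C.rel_x FEW.L0).2.2 c hc

theorem exists_thetaE : ∃ θ : F →* E, ∀ c, c < 10 → θ (x23 c) = xE c := by
  obtain ⟨θ, hθ⟩ := Fi23Rel.C.hom xE (fun i hi => xE_sq hi)
    (fun W hW => relE W (sub_cox W (by rw [← Fi23Rel.coxW_eq]; exact hW)))
    (fun W hW => relE W (sub_ext W hW))
  refine ⟨θ, fun c hc => ?_⟩
  rw [x23, Fi23Rel.C.x_of_lt [] hc]
  exact hθ c hc

theorem card_E : Finite E ∧ Nat.card E ∣ 3765617127571985163878400 := by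
  obtain ⟨φ, f, -, -, -, -, -, -, -, -, hidx⟩ := FEWIdx.main _ rfl
  obtain ⟨θ, hθ⟩ := exists_thetaE
  obtain ⟨HE, hHE⟩ : ∃ HE, HE = Subgroup.closure (wset (FERel.C.x FEW.L0) FEWB.WS) := ⟨_, rfl⟩
  rw [← hHE] at hidx
  have hle : HE ≤ θ.range := by
    rw [hHE, closure_le]
    rintro _ ⟨W, hW, rfl⟩
    simp only [FEWB.WS, List.mem_cons, List.not_mem_nil, or_false] at hW
    rcases hW with rfl | rfl | rfl | rfl | rfl | rfl | rfl | rfl | rfl | rfl
    · exact ⟨x23 0, hθ 0 (by norm_num)⟩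
    · exact ⟨x23 1, hθ 1 (by norm_num)⟩
    · exact ⟨x23 2, hθ 2 (by norm_num)⟩
    · exact ⟨x23 3, hθ 3 (by norm_num)⟩
    · exact ⟨x23 4, hθ 4 (by norm_num)⟩
    · exact ⟨x23 5, hθ 5 (by norm_num)⟩
    · exact ⟨x23 6, hθ 6 (by norm_num)⟩
    · exact ⟨x23 7, hθ 7 (by norm_num)⟩
    · exact ⟨x23 8, hθ 8 (by norm_num)⟩
    · exact ⟨x23 9, hθ 9 (by norm_num)⟩
  have hfr : Finite θ.range := Finite.of_surjective _ θ.rangeRestrict_surjective
  have hfH : Finite HE := Finite.of_injective _ (Subgroup.inclusion_injective hle)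
  have h3 : HE.FiniteIndex := ⟨by rw [hidx]; norm_num⟩
  have h4 : Finite E := Finite.of_equiv _ (Subgroup.groupEquivQuotientProdSubgroup (s := HE)).symm
  refine ⟨h4, ?_⟩
  rw [← HE.index_mul_card, hidx, show (3765617127571985163878400 : ℕ) = 920808 * 4089470473293004800 from by norm_num,
    ← card_F]
  exact Nat.mul_dvd_mul_left _ ((Subgroup.card_dvd_of_le hle).trans
    (Subgroup.card_dvd_of_surjective θ.rangeRestrict θ.rangeRestrict_surjective))

instance : Finite E := card_E.1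

theorem card_GF : Nat.card GF = 1255205709190661721292800 := Fi24Ord.card_comm

instance : Finite GF := Nat.finite_of_card_ne_zero (by rw [card_GF]; norm_num)

/-! ### generation -/

theorem comm_le : commutator G ≤ closure (yG '' {c | c < 11}) := by
  obtain ⟨R, hR⟩ : ∃ R, R = closure (yG '' {c | c < 11}) := ⟨_, rfl⟩
  rw [← hR]
  have hy : ∀ c, c < 11 → yG c ∈ R := fun c hc => by rw [hR]; exact subset_closure ⟨c, hc, rfl⟩
  -- `l` normalises `R`
  have hl : ∀ g ∈ R, xx 11 * g * (xx 11)⁻¹ ∈ R := by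
    have h1 : R ≤ R.comap (MulAut.conj (xx 11)).toMonoidHom := by
      conv_lhs => rw [hR]
      rw [closure_le]
      rintro _ ⟨c, hc, rfl⟩
      change xx 11 * yG c * (xx 11)⁻¹ ∈ R
      have hc : c < 11 := hc
      by_cases h10 : c < 10
      · have e : xx 11 * yG c * (xx 11)⁻¹ = yG c := by
          rw [yG_lt h10, ← mul_assoc, ← comm_l c h10]; group
        rw [e]; exact hy c hc
      · have : c = 10 := by omega
        subst this
        have e : xx 11 * yG 10 * (xx 11)⁻¹ = (yG 10 * yG 9)⁻¹ * yG 9 := by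
          have hl' : (xx 11)⁻¹ = xx 11 := inv_eq_of_mul_eq_one_right l_sq
          have hk' : (xx 10)⁻¹ = xx 10 := inv_eq_of_mul_eq_one_right (xinv 10 (by norm_num))
          rw [K_nine, mul_inv_rev, hl', hk', yG_ten, yG_lt (by norm_num)]
          simp only [mul_assoc]
        rw [e]
        exact R.mul_mem (R.inv_mem (R.mul_mem (hy 10 (by norm_num)) (hy 9 (by norm_num)))) (hy 9 (by norm_num))
    exact fun g hg => h1 hg
  -- normality
  have hgen : (⊤ : Subgroup G) ≤ closure (xx '' {c | c < 12}) := by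
    rw [← Fi24Rel.C.closure_letters Fi24W.L0, closure_le]
    rintro _ ⟨W, hW, rfl⟩
    obtain ⟨c, hc, rfl⟩ := List.mem_map.mp hW
    exact subset_closure ⟨c, List.mem_range.mp hc, rfl⟩
  have hx9 : xx 9 = yG 9 * xx 11 := by rw [yG_lt (by norm_num), mul_assoc, l_sq, mul_one]
  have hxc : ∀ c, c < 12 → ∃ r ∈ R, xx c = r * xx 11 := by
    intro c hc
    by_cases h10 : c < 10
    · exact ⟨yG c, hy c (by omega), by rw [yG_lt h10, mul_assoc, l_sq, mul_one]⟩
    · by_cases h : c = 10
      · subst h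
        refine ⟨yG 10 * yG 9, R.mul_mem (hy 10 (by norm_num)) (hy 9 (by norm_num)), ?_⟩
        rw [K_nine, mul_assoc, l_sq, mul_one]
      · have : c = 11 := by omega
        subst this
        exact ⟨1, R.one_mem, (one_mul _).symm⟩
  have hN : ∀ c, c < 12 → ∀ g ∈ R, xx c * g * (xx c)⁻¹ ∈ R := by
    intro c hc g hg
    obtain ⟨r, hr, e⟩ := hxc c hc
    rw [e, mul_inv_rev]
    have e2 : r * xx 11 * g * ((xx 11)⁻¹ * r⁻¹) = r * (xx 11 * g * (xx 11)⁻¹) * r⁻¹ := by group
    rw [e2]
    exact R.mul_mem (R.mul_mem hr (hl g hg)) (R.inv_mem hr)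
  have hnorm : R.Normal := by
    have h1 : ∀ g : G, g ∈ closure (xx '' {c | c < 12}) → ∀ r ∈ R, g * r * g⁻¹ ∈ R := by
      intro g hg
      induction hg using closure_induction with
      | mem x hx => obtain ⟨c, hc, rfl⟩ := hx; exact hN c hc
      | one => intro r hr; simpa using hr
      | mul a b _ _ iha ihb =>
        intro r hr
        have := iha _ (ihb r hr)
        have e : a * b * r * (a * b)⁻¹ = a * (b * r * b⁻¹) * a⁻¹ := by group
        rw [e]; exact this
      | inv a _ iha =>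
        -- finite order
        intro r hr
        have hfin : Finite R := by
          have : Finite G := Fi24Ord.finG
          infer_instance
        have h2 : R ≤ R.comap (MulAut.conj a).toMonoidHom := fun r hr => iha r hr
        have h3 : R.map (MulAut.conj a).toMonoidHom ≤ R := map_le_iff_le_comap.2 h2
        have h4 : R.map (MulAut.conj a).toMonoidHom = R := by
          apply eq_of_le_of_card_ge h3
          rw [card_map_of_injective (MulAut.conj a).injective]
        rw [← h4] at hr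
        obtain ⟨s, hs, e⟩ := hr
        have e : a * s * a⁻¹ = r := e
        rw [← e]
        have e3 : a⁻¹ * (a * s * a⁻¹) * a⁻¹⁻¹ = s := by group
        rw [e3]; exact hs
    exact ⟨fun r hr g => h1 g (hgen (mem_top g)) r hr⟩
  -- the quotient is generated by the image of `l`
  have hq : ∀ g : G, ∃ i : ℤ, QuotientGroup.mk' R g = (QuotientGroup.mk' R (xx 11)) ^ i := by
    intro g
    have hg := hgen (mem_top g)
    induction hg using closure_induction with
    | mem x hx =>
      obtain ⟨c, hc, rfl⟩ := hx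
      obtain ⟨r, hr, e⟩ := hxc c hc
      refine ⟨1, ?_⟩
      rw [e, map_mul, (QuotientGroup.eq_one_iff r).2 hr |> fun h : QuotientGroup.mk' R r = 1 => h, one_mul, zpow_one]
    | one => exact ⟨0, by simp⟩
    | mul a b _ _ iha ihb =>
      obtain ⟨i, hi⟩ := iha
      obtain ⟨j, hj⟩ := ihb
      exact ⟨i + j, by rw [map_mul, hi, hj, zpow_add]⟩
    | inv a _ iha =>
      obtain ⟨i, hi⟩ := iha
      exact ⟨-i, by rw [map_inv, hi, zpow_neg]⟩
  rw [commutator_def, commutator_le]
  intro a _ b _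
  obtain ⟨i, hi⟩ := hq a
  obtain ⟨j, hj⟩ := hq b
  have h1 : QuotientGroup.mk' R ⁅a, b⁆ = 1 := by
    rw [map_commutatorElement, hi, hj, commutatorElement_eq_one_iff_mul_comm, ← zpow_add, ← zpow_add, add_comm]
  exact (QuotientGroup.eq_one_iff _).1 h1

theorem closure_y0 : closure (y0 '' {c | c < 11}) = ⊤ := by
  rw [eq_top_iff]
  intro g _
  have h1 : (g : G) ∈ closure (yG '' {c | c < 11}) := comm_le g.2
  have h2 : (closure (y0 '' {c | c < 11})).map (commutator G).subtype = closure (yG '' {c | c < 11}) := by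
    rw [MonoidHom.map_closure, ← Set.image_comp]; rfl
  rw [← h2] at h1
  obtain ⟨x, hx, hxg⟩ := h1
  have : x = g := Subtype.ext hxg
  rwa [← this]

/-! ### the upper bound -/

theorem card_dvd {Γ : Type} [Group Γ] [Finite Γ] {σ : Γ →* GF} (hσ : IsStemExtension σ) {y : ℕ → Γ} (H : Lft σ y) :
    Nat.card σ.ker ∣ 3 := by
  obtain ⟨φ, hφ⟩ := exists_hom H
  have hs : Function.Surjective (σ.comp φ) := by
    rw [← MonoidHom.range_eq_top, eq_top_iff, ← closure_y0, closure_le]
    rintro _ ⟨c, hc, rfl⟩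
    exact ⟨_, (congrArg σ (hφ c hc)).trans (H.lift c hc)⟩
  have h1 : Nat.card Γ ∣ Nat.card E := Subgroup.card_dvd_of_surjective φ (SMONa.surj_of_stem hσ φ hs)
  have h2 := σ.ker.card_mul_index
  rw [Subgroup.index_ker, MonoidHom.range_eq_top.2 hσ.1, Subgroup.card_top, card_GF] at h2
  have h3 : Nat.card σ.ker * 1255205709190661721292800 ∣ 3 * 1255205709190661721292800 := by
    rw [h2]; exact h1.trans (by rw [show 3 * 1255205709190661721292800 = 3765617127571985163878400 from by norm_num]; exact card_E.2)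
  exact Nat.dvd_of_mul_dvd_mul_right (by norm_num) h3

theorem stem_three : StemDvd GF 3 := by
  apply StemDvd.of_forall
  intro p hp
  have : Fact p.Prime := ⟨hp⟩
  by_cases h2 : p = 2
  · subst h2
    intro Γ _ _ σ hσ hp
    refine SMGen.dvd_of_exp (p := 2) (m := 2) (q := 1) (N := 3) (⊥ : Subgroup GF) (by norm_num) ?_ Γ σ hσ hp ?_
    · intro Γ _ _ σ hσ hp _ h2
      obtain ⟨y, H⟩ := exists_two hσ (fun z hz => by rw [← pow_two]; exact h2 z hz)
      have h3 := card_dvd hσ H
      refine ⟨?_, h3⟩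
      obtain ⟨n, hn⟩ := IsPGroup.iff_card.1 hp
      have h4 : Nat.card σ.ker = 1 := by
        rcases Nat.eq_zero_or_pos n with h0 | h0
        · rw [hn, h0, pow_zero]
        · exfalso
          rw [hn] at h3
          have : 2 ∣ 3 := (dvd_pow_self 2 h0.ne').trans h3
          revert this; decide
      intro z hz
      rw [Subgroup.card_eq_one] at h4
      rw [h4, mem_bot] at hz
      rw [hz, one_pow]
    · change σ.ker ⊓ ⁅(⊥ : Subgroup GF).comap σ, (⊥ : Subgroup GF).comap σ⁆ = ⊥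
      rw [eq_bot_iff]
      refine inf_le_right.trans ?_
      rw [le_bot_iff, commutator_eq_bot_iff_le_centralizer, MonoidHom.comap_bot]
      exact hσ.2.1.trans (center_le_centralizer _)
  · intro Γ _ _ σ hσ hpg
    obtain ⟨y, H⟩ := exists_odd hσ (by
      intro z hz
      obtain ⟨k, hk⟩ := hpg ⟨z, hz⟩
      have hk' : z ^ p ^ k = 1 := by simpa using congrArg Subtype.val hk
      have h3 : orderOf z ∣ p ^ k := orderOf_dvd_of_pow_eq_one hk'
      have h4 : Odd (p ^ k) := (hp.odd_of_ne_two h2).pow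
      exact Odd.of_dvd_nat h4 h3)
    exact card_dvd hσ H

/-! ### the lower bound -/

theorem lft_id : Lft (MonoidHom.id GF) y0 := by
  refine ⟨?_, fun c _ => rfl, fun W hW => eval_y0_one (rel23 W hW), fun c hc => sq0 hc, K_sq0, K30,
    fun c hc h0 => Kc20 hc h0, ?_⟩
  · intro z hz
    have : z = 1 := hz
    rw [this]; exact one_mem _
  · rw [K030, one_mul]

theorem exists_pi : ∃ π : E →* GF, ∀ c, c < 11 → π (xE c) = y0 c := by
  obtain ⟨φ, hφ⟩ := exists_hom lft_id
  refine ⟨φ, fun c hc => ?_⟩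
  rw [xE_of hc]
  exact hφ c hc

theorem closure_xE : closure (xE '' {c | c < 11}) = ⊤ := by
  rw [← FERel.C.closure_letters FEW.L0]
  congr 1
  ext h
  constructor
  · rintro ⟨c, hc, rfl⟩
    exact ⟨Wd.g c, List.mem_map.mpr ⟨c, List.mem_range.mpr hc, rfl⟩, rfl⟩
  · rintro ⟨W, hW, rfl⟩
    obtain ⟨c, hc, rfl⟩ := List.mem_map.mp hW
    exact ⟨c, List.mem_range.mp hc, rfl⟩

theorem perfect_E : commutator E = ⊤ := by
  let q : E →* Abelianization E := Abelianization.of
  let X : ℕ → Abelianization E := fun c => q (xE c)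
  have hr : ∀ W ∈ FERel.rels, W.eval X = 1 := fun W hW => by
    rw [← Wd.map_eval q xE W, relE W hW, map_one]
  have hs : ∀ c, c < 10 → X c * X c = 1 := fun c hc => by
    change q (xE c) * q (xE c) = 1
    rw [← map_mul, xE_sq hc, map_one]
  have key : ∀ i j, i < 10 → j < 10 → Wd.pow (Wd.mul (Wd.g i) (Wd.g j)) 3 ∈ FERel.rels → X i = X j := by
    intro i j hi hj h
    have h3 : (X i * X j) ^ 3 = 1 := hr _ h
    have e : (X i * X j) ^ 3 = (X i * X i) * (X j * X j) * (X i * X j) := by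
      rw [pow_succ, pow_two]
      simp only [mul_assoc, mul_left_comm]
    rw [e, hs i hi, hs j hj, one_mul, one_mul] at h3
    rw [← mul_one (X i), ← hs j hj, ← mul_assoc, h3, one_mul]
  have e1 : X 0 = X 1 := key 0 1 (by norm_num) (by norm_num) (by decide)
  have e2 : X 1 = X 2 := key 1 2 (by norm_num) (by norm_num) (by decide)
  have e3 : X 2 = X 3 := key 2 3 (by norm_num) (by norm_num) (by decide)
  have e4 : X 3 = X 4 := key 3 4 (by norm_num) (by norm_num) (by decide)
  have e5 : X 4 = X 5 := key 4 5 (by norm_num) (by norm_num) (by decide)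
  have e6 : X 5 = X 6 := key 5 6 (by norm_num) (by norm_num) (by decide)
  have e7 : X 3 = X 7 := key 3 7 (by norm_num) (by norm_num) (by decide)
  have e8 : X 7 = X 8 := key 7 8 (by norm_num) (by norm_num) (by decide)
  have e9 : X 6 = X 9 := key 6 9 (by norm_num) (by norm_num) (by decide)
  have h7 : (X 0 * X 1 * X 2 * X 3 * X 4 * X 5 * X 7) ^ 9 = 1 := hr e7W (List.mem_append_right _ w_mem.2.1)
  have hs0 := hs 0 (by norm_num)
  rw [← e7, ← e5, ← e4, ← e3, ← e2, ← e1] at h7
  have h0 : X 0 = 1 := by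
    have e : X 0 * X 0 * X 0 * X 0 * X 0 * X 0 * X 0 = X 0 := by simp only [hs0, one_mul]
    rw [e] at h7
    have e' : X 0 ^ 9 = (X 0 * X 0) ^ 4 * X 0 := by rw [← pow_two, ← pow_mul, ← pow_succ]
    rw [e', hs0, one_pow, one_mul] at h7
    exact h7
  have h9 : X 9 = 1 := by rw [← e9, ← e6, ← e5, ← e4, ← e3, ← e2, ← e1]; exact h0
  have hk2 : X 10 ^ 2 = 1 := hr (Wd.pow (Wd.g 10) 2) (by decide)
  have hk3 : (X 10 * X 9) ^ 3 = 1 := hr (Wd.pow (Wd.mul (Wd.g 10) (Wd.g 9)) 3) (by decide)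
  have h10 : X 10 = 1 := by
    rw [h9, mul_one, pow_succ, hk2, one_mul] at hk3
    exact hk3
  have hX : ∀ c, c < 11 → xE c ∈ commutator E := by
    intro c hc
    rw [← Abelianization.ker_of E]
    change X c = 1
    have g1 : X 1 = 1 := e1 ▸ h0
    have g2 : X 2 = 1 := e2 ▸ g1
    have g3 : X 3 = 1 := e3 ▸ g2
    have g4 : X 4 = 1 := e4 ▸ g3
    have g5 : X 5 = 1 := e5 ▸ g4
    have g6 : X 6 = 1 := e6 ▸ g5
    have g7 : X 7 = 1 := e7 ▸ g3
    have g8 : X 8 = 1 := e8 ▸ g7
    interval_cases c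
    · exact h0
    · exact g1
    · exact g2
    · exact g3
    · exact g4
    · exact g5
    · exact g6
    · exact g7
    · exact g8
    · exact h9
    · exact h10
  rw [eq_top_iff, ← closure_xE, closure_le]
  rintro _ ⟨c, hc, rfl⟩
  exact hX c hc

/-- first half of the word -/
def wA : Wd := Wd.mul (Wd.mul (Wd.mul (Wd.g 3) (Wd.g 2)) (Wd.g 1)) (Wd.g 0)
/-- second half of the word -/
def wB : Wd := Wd.mul (Wd.mul (Wd.mul (Wd.mul (Wd.mul (Wd.mul (Wd.mul (Wd.g 3) (Wd.g 4)) (Wd.g 5)) (Wd.g 6)) (Wd.g 9)) (Wd.g 3)) (Wd.g 7)) (Wd.g 8)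
/-- the central word -/
def w17 : Wd := Wd.pow (Wd.mul (Wd.mul wA (Wd.mul (Wd.g 10) (Wd.g 9))) wB) 17

theorem w17_yG : w17.eval yG = 1 := by
  have h := l_sq
  have hA : wA.eval yG = wA.eval xx := by
    rw [yG_word (by decide)]
    change wA.eval xx * (xx 11 * xx 11 * xx 11 * xx 11) = wA.eval xx
    rw [h, one_mul, h, mul_one]
  have hB : wB.eval yG = wB.eval xx := by
    rw [yG_word (by decide)]
    change wB.eval xx * (xx 11 * xx 11 * xx 11 * xx 11 * xx 11 * xx 11 * xx 11 * xx 11) = wB.eval xx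
    simp only [h, one_mul, mul_one]
  change (wA.eval yG * (yG 10 * yG 9) * wB.eval yG) ^ 17 = 1
  rw [hA, hB, K_nine]
  have h17 := rel24 (Wd.pow (Wd.mul (Wd.mul (Wd.mul (Wd.mul (Wd.mul (Wd.mul (Wd.mul (Wd.mul (Wd.mul (Wd.mul (Wd.mul
    (Wd.mul (Wd.mul (Wd.g 3) (Wd.g 2)) (Wd.g 1)) (Wd.g 0)) (Wd.g 10)) (Wd.g 11)) (Wd.g 3)) (Wd.g 4)) (Wd.g 5)) (Wd.g 6))
    (Wd.g 9)) (Wd.g 3)) (Wd.g 7)) (Wd.g 8)) 17) (by decide)
  rw [← h17]
  simp only [wA, wB, Wd.eval, mul_assoc]

/-- the images of the first point -/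
theorem w17_pt : SMONa.ptK FEWB.nets (w17.flat FEWB.ivx) (fun j => Nat.beq j 0) 0 = false := by decide +kernel

theorem w17_ne : w17.eval xE ≠ 1 := by
  obtain ⟨φ, f, hφ, -⟩ := FEWIdx.main _ rfl
  intro h
  have hok : ∀ c, (netOf FEWB.nets c).OK := fun c => Net.ok_of_check (check_netOf FEWS.c_nets c)
  have e : φ (w17.eval xE) = ((w17.flat FEWB.ivx).map (sperm FEWB.nets)).prod := by
    rw [Wd.map_eval, Wd.eval_flat _ _ FEW.lane_inv]
    congr 1
    funext c
    exact hφ c
  rw [h, map_one] at e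
  have h1 := w17_pt
  rw [SMONa.ptK_eq hok, ← e] at h1
  exact absurd h1 (by decide)

theorem card_ker_pi {π : E →* GF} (hπ : ∀ c, c < 11 → π (xE c) = y0 c) (hs : Function.Surjective π) :
    Nat.card π.ker = 3 := by
  have h2 := π.ker.card_mul_index
  rw [Subgroup.index_ker, MonoidHom.range_eq_top.2 hs, Subgroup.card_top, card_GF] at h2
  have h3 : Nat.card π.ker * 1255205709190661721292800 ∣ 3 * 1255205709190661721292800 := by
    rw [h2, show 3 * 1255205709190661721292800 = 3765617127571985163878400 from by norm_num]; exact card_E.2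
  have h4 := Nat.dvd_of_mul_dvd_mul_right (by norm_num) h3
  rcases (Nat.dvd_prime Nat.prime_three).1 h4 with h5 | h5
  · exfalso
    rw [Subgroup.card_eq_one] at h5
    have h6 : w17.eval xE ∈ π.ker := by
      rw [MonoidHom.mem_ker, Wd.map_eval, eval_congr (y := fun c => π (xE c)) (y' := y0) (n := 11) hπ w17 (by decide)]
      exact eval_y0_one w17_yG
    rw [h5, mem_bot] at h6
    exact w17_ne h6
  · exact h5

/-- a normal subgroup of prime order of a perfect group is central -/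
theorem central_of_prime {A : Type} [Group A] (hA : commutator A = ⊤) (N : Subgroup A) [N.Normal] [IsCyclic N] :
    N ≤ center A := by
  let ψ : A →* (ZMod (Nat.card N))ˣ := (IsCyclic.mulAutMulEquiv N).toMonoidHom.comp MulAut.conjNormal
  have h1 : ∀ a : A, (MulAut.conjNormal a : MulAut N) = 1 := by
    intro a
    have h2 : a ∈ ψ.ker := Abelianization.commutator_subset_ker ψ (by rw [hA]; trivial)
    have h3 : (IsCyclic.mulAutMulEquiv N) (MulAut.conjNormal a) = 1 := h2
    exact (MulEquiv.map_eq_one_iff _).1 h3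
  intro z hz
  rw [mem_center_iff]
  intro a
  have h4 : ((MulAut.conjNormal a : MulAut N) ⟨z, hz⟩ : A) = z := by rw [h1 a]; rfl
  rw [MulAut.conjNormal_apply] at h4
  have h5 : a * z * a⁻¹ = z := h4
  rw [mul_inv_eq_iff_eq_mul] at h5
  exact h5

theorem low_three : IsQuot GF (Multiplicative (ZMod 3)) := by
  obtain ⟨π, hπ⟩ := exists_pi
  have hs : Function.Surjective π := by
    rw [← MonoidHom.range_eq_top, eq_top_iff, ← closure_y0, closure_le]
    rintro _ ⟨c, hc, rfl⟩
    exact ⟨xE c, hπ c hc⟩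
  have h2 := card_ker_pi hπ hs
  have : Fact (Nat.Prime 3) := ⟨Nat.prime_three⟩
  have h3 : IsCyclic π.ker := isCyclic_of_prime_card (p := 3) h2
  have h4 : Nat.card (Multiplicative (ZMod 3)) = 3 := Nat.card_zmod 3
  exact IsQuot.of_stem π ⟨hs, central_of_prime perfect_E _, by rw [perfect_E]; exact le_top⟩
    (mulEquivOfCyclicCardEq (by rw [h2, h4]))

theorem has_three : Cfsg.HasCyclicSchurMultiplier Cfsg.Spor.Fi24' 3 := by
  refine hasSchur_of ?_ low_three
  rw [show Nat.card (Multiplicative (ZMod 3)) = 3 from Nat.card_zmod 3]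
  exact stem_three

end Cfsg.Agent.Lib.SMFd
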