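import Cfsg.Agent.Lib.SMRefl
import Cfsg.Agent.Lib.O73
import Cfsg.Agent.Lib.SMO7t

/-!
The group `Ω₇(3)`: explicit generators, action on the 756 vectors of norm 1 (helper45)
-/

set_option autoImplicit false

namespace Cfsg.Agent.Lib.SMO7

open Cfsg.Agent.Lib.Quad QuadraticMap Module Cfsg.Agent.Lib.H58SM Cfsg.Agent.Lib.Cov Cfsg.Agent.Lib.ClOrthSiegel
  Cfsg.Agent.Lib.O73 Cfsg.Agent.Lib.SMRefl

/-- digit -/
def dg (u j : ℕ) : ℕ := gt u 2 3 j

def bb (u x : ℕ) : ℕ := Nat.add (Nat.mul (Nat.mul 2 (dg u 0)) (dg x 0))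
  (Nat.add (Nat.add (Nat.add (Nat.mul (dg u 1) (dg x 4)) (Nat.mul (dg u 4) (dg x 1)))
    (Nat.add (Nat.mul (dg u 2) (dg x 5)) (Nat.mul (dg u 5) (dg x 2))))
    (Nat.add (Nat.mul (dg u 3) (dg x 6)) (Nat.mul (dg u 6) (dg x 3))))

def qq (u : ℕ) : ℕ := Nat.add (Nat.mul (dg u 0) (dg u 0))
  (Nat.add (Nat.add (Nat.mul (dg u 1) (dg u 4)) (Nat.mul (dg u 2) (dg u 5))) (Nat.mul (dg u 3) (dg u 6)))

theorem hbb (u x : ℕ) : polar Q (dv 3 2 3 pos u) (dv 3 2 3 pos x) = ((bb u x : ℕ) : ZMod 3) := by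
  change polar (Cfsg.quadFormOdd 3 (ZMod 3)) _ _ = _
  rw [polar_quadOdd, Fin.sum_univ_three]
  show _ = ((2 * dg u 0 * dg x 0 + ((dg u 1 * dg x 4 + dg u 4 * dg x 1) + (dg u 2 * dg x 5 + dg u 5 * dg x 2) +
    (dg u 3 * dg x 6 + dg u 6 * dg x 3)) : ℕ) : ZMod 3)
  push_cast
  rfl

theorem hqq (u : ℕ) : Q (dv 3 2 3 pos u) = ((qq u : ℕ) : ZMod 3) := by
  change Cfsg.quadFormOdd 3 (ZMod 3) _ = _
  unfold Cfsg.quadFormOdd
  rw [Fin.sum_univ_three]
  show _ = ((dg u 0 * dg u 0 + (dg u 1 * dg u 4 + dg u 2 * dg u 5 + dg u 3 * dg u 6) : ℕ) : ZMod 3)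
  push_cast
  rw [pow_two]
  rfl

/-- the coded space -/
noncomputable def R : RD 3 I Q where
  N := 7
  w := 2
  m := 3
  pos := pos
  bb := bb
  qq := qq
  hm := rfl
  hpw := by decide
  hpos i := by rcases i with u | i | i <;> simp only [pos] <;> omega
  hinj := by
    rintro (i | i | i) (j | j | j) h <;> simp only [pos] at h
    · rfl
    · omega
    · omega
    · omega
    · congr 2; apply Fin.ext; omega
    · omega
    · omega
    · omega
    · congr 2; apply Fin.ext; omega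
  hsur := by
    intro j hj
    interval_cases j
    · exact ⟨.inl (), rfl⟩
    · exact ⟨.inr (.inl 0), rfl⟩
    · exact ⟨.inr (.inl 1), rfl⟩
    · exact ⟨.inr (.inl 2), rfl⟩
    · exact ⟨.inr (.inr 0), rfl⟩
    · exact ⟨.inr (.inr 1), rfl⟩
    · exact ⟨.inr (.inr 2), rfl⟩
  inv c := by
    have h : ∀ c : ZMod 3, c = 0 ∨ c * c = 1 := by decide
    rcases h c with rfl | h1
    · exact inv_zero
    · exact inv_eq_of_mul_eq_one_right h1
  hbb := hbb
  hqq := hqq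

/-- the group -/
abbrev G := ↥(Om Q)

instance : Finite (V ≃ₗ[ZMod 3] V) := Finite.of_injective (fun f => (f : V → V)) DFunLike.coe_injective

theorem hneg : (LinearEquiv.neg (ZMod 3) : V ≃ₗ[ZMod 3] V) ∉ Om Q := by
  rw [hQ.neg_mem_Om_iff h2 (Pi.basisFun (ZMod 3) _), finrank_odd]
  rintro ⟨h, -⟩
  exact absurd h (by decide)

theorem center_eq : Subgroup.center G = ⊥ := by
  rw [← Subgroup.card_eq_one]
  exact ClOmega.card_center_of_not_mem hQ hR hframe le_rfl (fun _ => hneg)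

/-- the quotient by the trivial center -/
noncomputable def quo : (Om Q ⧸ Subgroup.center (Om Q)) ≃* G :=
  (QuotientGroup.quotientMulEquivOfEq center_eq).trans QuotientGroup.quotientBot

theorem card_G : Nat.card G = 4585351680 := by
  rw [← Nat.card_congr quo.toEquiv]; exact card_Om

instance simple_G : IsSimpleGroup G := by
  have := simple_Om
  exact quo.symm.isSimpleGroup

/-- the negative reflections generate -/
theorem top_of' (K : Subgroup G) (hK : ∀ v (hv : Q v = 2), (⟨nr v, nr_mem v hv⟩ : Om Q) ∈ K) : K = ⊤ := by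
  have h1 : K.map (QuotientGroup.mk' (Subgroup.center (Om Q))) = ⊤ :=
    top_of _ fun v hv => ⟨_, hK v hv, rfl⟩
  rw [eq_top_iff]
  intro y _
  have h2 : QuotientGroup.mk' (Subgroup.center (Om Q)) y ∈ K.map (QuotientGroup.mk' (Subgroup.center (Om Q))) := by
    rw [h1]; trivial
  obtain ⟨z, hz, hzy⟩ := h2
  have h3 : z⁻¹ * y ∈ Subgroup.center (Om Q) := QuotientGroup.eq.1 hzy
  rw [show Subgroup.center (Om Q) = ⊥ from center_eq, Subgroup.mem_bot, inv_mul_eq_one] at h3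
  rwa [← h3]

theorem hT (u v : V) (hu : Q u ≠ 0) (huv : Q u = Q v) : refl Q u * refl Q v ∈ Om Q := by
  rw [← T_eq]
  exact refl_mul_refl_mem hQ hframe (i := 0) (j := 1) (by decide) hu huv

theorem pokU : ∀ i : ℕ, R.pok (US i) = true
  | 0 => by decide +kernel
  | 1 => by decide +kernel
  | _ + 2 => rfl

/-- generators -/
noncomputable def g (i : ℕ) : G := ⟨R.gp (US i), R.gp_mem hT (pokU i)⟩

theorem hg (k : ℕ) : ∀ i < k, ((g i : Om Q) : V ≃ₗ[ZMod 3] V) = R.gp (US i) := fun _ _ => rfl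

/-- codes of the points -/
def VC (a : ℕ) : ℕ := gt VCB 14 16383 a

/-- the points -/
noncomputable def e (a : ℕ) : V := R.d (VC a)

theorem bas_ok : R.basOk = true := by decide +kernel

theorem base_ok : alln (fun a => cond (Nat.beq a 0) true (!(R.eqv (VC a) (VC 0)))) 756 = true := by decide +kernel

theorem base : ∀ a < 756, e a = e 0 → a = 0 := by
  intro a ha h
  by_contra h0
  have h1 := alln_iff.1 base_ok a ha
  rw [beq_ne h0, cond_false, R.eqv_iff.2 h] at h1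
  exact absurd h1 (by decide)

theorem act (D : Dat) (hn : D.n = 756) (hk : D.k = 2) (h1 : D.tab1 = true) (h2 : D.tab2 = true) (h3 : D.tab3 = true)
    (hf : R.fwdV US 756 2 D.T VC = true) : Act D.n D.k g e D.T D.pi D.pq := by
  refine Dat.act_of (by rw [hn]; decide) h1 h2 h3 ?_ ?_
  · rw [hn, hk]
    exact R.fwdV_spec hf (hg 2)
  · rw [hn]; exact base

theorem span_ok : R.spanOk (fun j => VC (AL.getD j 0)) (fun j => VC (BL.getD j 0)) = true := by decide +kernel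

theorem AL_lt : ∀ j < 7, AL.getD j 0 < 756 ∧ BL.getD j 0 < 756 := by decide +kernel

theorem faithful (y : G) (h : ∀ a < 756, y • e a = e a) : y = 1 := by
  apply Subtype.ext
  exact R.faithful bas_ok span_ok (fun j hj => h _ (AL_lt j hj).1) (fun j hj => h _ (AL_lt j hj).2)

/-! ### generation -/

def VC2 (a : ℕ) : ℕ := gt VCB2 14 16383 a
def IX (t : ℕ) : ℕ := gt IXB 10 1023 t

theorem tree2_ok : R.treeV US 702 2 (gt PIB2 1 1) (gt PQB2 10 1023) VC2 = true := by decide +kernel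

theorem compl_ok : R.allV (fun t => frc (R.cod t) fun c => cond (Nat.beq (Nat.mod (R.qq c) 3) 2)
    (frc (IX t) fun b => Nat.blt b 702 && R.eqv (VC2 b) c) true) = true := by decide +kernel

/-- code of the opposite vector -/
def ngc (x : ℕ) : ℕ := pk 2 (fun j => Nat.mod (Nat.mul 2 (gt x 2 3 j)) 3) 7

theorem d_ngc (x : ℕ) : R.d (ngc x) = - R.d x := by
  funext i
  refine (R.d_pk (f := fun j => 2 * gt x 2 3 j % 3) (fun j _ => Nat.mod_lt _ (by decide)) i).trans ?_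
  show ((2 * gt x 2 3 (pos i) % 3 : ℕ) : ZMod 3) = - ((gt x 2 3 (pos i) : ℕ) : ZMod 3)
  rw [ZMod.natCast_mod]
  push_cast
  rw [show (2 : ZMod 3) = -1 from by decide, neg_one_mul]

theorem neg_ok : alln (fun j => R.eqv (R.wd US wN (R.bas j)) (ngc (R.rf (VC2 0) (R.bas j)))) 7 = true := by decide +kernel

theorem wN_lt : ∀ l ∈ wN, l < 2 * 2 := by decide +kernel

theorem ev_wN : ((ev g wN : Om Q) : V ≃ₗ[ZMod 3] V) = nr (R.d (VC2 0)) := by
  apply R.ext_bas bas_ok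
  intro j hj
  rw [R.ev_d (hg 2) wN_lt, nr_apply, R.refl_d, ← d_ngc]
  exact R.eqv_iff.1 (alln_iff.1 neg_ok j hj)

theorem gen : Subgroup.closure {z | ∃ i < 2, z = g i} = ⊤ := by
  apply top_of'
  intro v hv
  obtain ⟨t, -, h1, h2⟩ := R.allV_spec compl_ok v
  rw [frc_eq, frc_eq] at h2
  have h3 : Nat.beq (Nat.mod (R.qq (R.cod t)) 3) 2 = true := by
    rw [Sol.beq_iff]
    have h4 : ((R.qq (R.cod t) : ℕ) : ZMod 3) = ((2 : ℕ) : ZMod 3) := by
      rw [← R.hqq, show dv 3 R.w R.m R.pos (R.cod t) = v from h1, hv]; rfl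
    exact (ZMod.natCast_eq_natCast_iff' _ _ 3).1 h4
  rw [h3, cond_true, Bool.and_eq_true, Sol.blt_iff, R.eqv_iff, h1] at h2
  obtain ⟨h4, h5⟩ := h2
  obtain ⟨y, hy, h6⟩ := R.treeV_spec tree2_ok (hg 2) _ h4
  rw [h5] at h6
  have h7 : (⟨nr v, nr_mem v hv⟩ : Om Q) = y * ev g wN * y⁻¹ := by
    apply Subtype.ext
    show nr v = (y : V ≃ₗ[ZMod 3] V) * ((ev g wN : Om Q) : V ≃ₗ[ZMod 3] V) * (y : V ≃ₗ[ZMod 3] V)⁻¹
    rw [ev_wN, nr_conj (Om_le y.2)]
    congr 1
    exact h6.symm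
  rw [h7]
  exact mul_mem (mul_mem hy (CovPair.ev_mem wN_lt)) (inv_mem hy)

end Cfsg.Agent.Lib.SMO7
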