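import Cfsg.Agent.Lib.SMO7S
import Cfsg.Agent.Lib.SMO7c
import Cfsg.Agent.Lib.H92SpinCover
import Cfsg.Agent.Lib.IsomTransport
import Cfsg.Agent.Lib.SUTransport

/-!
Lower bound for the multiplier of `Ω₇(3)` and transport to the official form (helper45)
-/

set_option autoImplicit false

open scoped commutatorElement

namespace Cfsg.Agent.Lib.SMFpf

open Equiv Equiv.Perm

/-- an involution is a product of disjoint transpositions -/
theorem exists_list {n : ℕ} : ∀ (k : ℕ) (π : Perm (Fin n)), π.support.card = k → π * π = 1 →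
    ∃ l : List (Fin n × Fin n), (∀ p ∈ l, p.1 ≠ p.2) ∧
      (l.Pairwise fun p q => p.1 ≠ q.1 ∧ p.1 ≠ q.2 ∧ p.2 ≠ q.1 ∧ p.2 ≠ q.2) ∧
      π = (l.map fun p => swap p.1 p.2).prod ∧ 2 * l.length = k ∧
      (∀ p ∈ l, p.1 ∈ π.support ∧ p.2 ∈ π.support) := by
  intro k
  induction k using Nat.strong_induction_on with
  | _ k ih =>
    intro π hk hπ
    have hpp : ∀ x, π (π x) = x := fun x => by
      have := congrArg (fun f : Perm (Fin n) => f x) hπ
      exact this
    rcases Finset.eq_empty_or_nonempty π.support with h0 | ⟨i, hi⟩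
    · refine ⟨[], by simp, List.Pairwise.nil, ?_, ?_, by simp⟩
      · rw [Equiv.Perm.support_eq_empty_iff.1 h0]; rfl
      · rw [← hk, h0]; rfl
    · rw [Equiv.Perm.mem_support] at hi
      have hj : π (π i) ≠ π i := fun h => hi (π.injective h)
      -- the rest
      have hπ' : ∀ x, x ≠ i → x ≠ π i → (swap i (π i) * π) x = π x := by
        intro x h1 h2
        rw [Perm.mul_apply]
        apply swap_apply_of_ne_of_ne
        · intro h; exact h2 (by rw [← h, hpp])
        · exact fun h => h1 (π.injective h)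
      have hi' : (swap i (π i) * π) i = i := by rw [Perm.mul_apply, swap_apply_right]
      have hj' : (swap i (π i) * π) (π i) = π i := by rw [Perm.mul_apply, hpp, swap_apply_left]
      have hsupp : (swap i (π i) * π).support = (π.support.erase i).erase (π i) := by
        ext x
        rw [Finset.mem_erase, Finset.mem_erase, Equiv.Perm.mem_support, Equiv.Perm.mem_support]
        by_cases h1 : x = i
        · subst h1; simp [hi']
        by_cases h2 : x = π i
        · subst h2; simp [hj']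
        rw [hπ' x h1 h2]; simp [h1, h2]
      have hcard : (swap i (π i) * π).support.card + 2 = k := by
        rw [hsupp, Finset.card_erase_of_mem, Finset.card_erase_of_mem, hk]
        · have h3 : 2 ≤ k := by
            rw [← hk]
            have h4 : ({i, π i} : Finset (Fin n)) ⊆ π.support := by
              intro x hx
              rw [Finset.mem_insert, Finset.mem_singleton] at hx
              rw [Equiv.Perm.mem_support]
              rcases hx with rfl | rfl
              · exact hi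
              · exact hj
            have h5 := Finset.card_le_card h4
            rwa [Finset.card_pair (Ne.symm hi)] at h5
          omega
        · rw [Equiv.Perm.mem_support]; exact hi
        · rw [Finset.mem_erase, Equiv.Perm.mem_support]; exact ⟨hi, hj⟩
      have hsq : (swap i (π i) * π) * (swap i (π i) * π) = 1 := by
        ext x
        rw [Perm.mul_apply]
        by_cases h1 : x = i
        · subst h1; rw [hi', hi']; rfl
        by_cases h2 : x = π i
        · subst h2; rw [hj', hj']; rfl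
        rw [hπ' x h1 h2, hπ' (π x) (fun h => h2 (by rw [← h, hpp])) (fun h => h1 (π.injective h)), hpp]; rfl
      obtain ⟨l, h1, h2, h3, h4, h5⟩ := ih _ (by omega) _ rfl hsq
      have h6 : ∀ p ∈ l, p.1 ≠ i ∧ p.1 ≠ π i ∧ p.2 ≠ i ∧ p.2 ≠ π i := by
        intro p hp
        obtain ⟨h7, h8⟩ := h5 p hp
        rw [hsupp, Finset.mem_erase, Finset.mem_erase] at h7 h8
        exact ⟨h7.2.1, h7.1, h8.2.1, h8.1⟩
      refine ⟨(i, π i) :: l, ?_, ?_, ?_, ?_, ?_⟩
      · intro p hp
        rcases List.mem_cons.1 hp with rfl | hp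
        · exact Ne.symm hi
        · exact h1 p hp
      · rw [List.pairwise_cons]
        refine ⟨fun q hq => ?_, h2⟩
        obtain ⟨a, b, c, d⟩ := h6 q hq
        exact ⟨a.symm, c.symm, b.symm, d.symm⟩
      · rw [List.map_cons, List.prod_cons, ← h3, ← mul_assoc, swap_mul_self, one_mul]
      · rw [List.length_cons]; omega
      · intro p hp
        rcases List.mem_cons.1 hp with rfl | hp
        · rw [Equiv.Perm.mem_support, Equiv.Perm.mem_support]; exact ⟨hi, hj⟩
        · obtain ⟨h7, h8⟩ := h5 p hp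
          rw [hsupp, Finset.mem_erase, Finset.mem_erase] at h7 h8
          exact ⟨h7.2.2, h8.2.2⟩

/-- double cover from an involution without fixed points -/
theorem exists_stem_two_fpf {G : Type} [Group G] [Finite G] {α : Type} [MulAction G α] [Finite α]
    (hperf : commutator G = ⊤) {t : G} (ht : t * t = 1) (hf : ∀ a : α, t • a ≠ a) {m : ℕ} (hn : Nat.card α = 2 * m)
    (hodd : Odd (m * (m + 1) / 2)) :
    ∃ (Γ : Type) (_ : Group Γ) (_ : Finite Γ) (σ : Γ →* G), Cfsg.IsStemExtension σ ∧ Nat.card σ.ker = 2 := by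
  let f : α ≃ Fin (2 * m) := Finite.equivFinOfCardEq hn
  let ι : G →* Perm (Fin (2 * m)) := (Equiv.permCongrHom f).toMonoidHom.comp (MulAction.toPermHom G α)
  have hι : ∀ x a, ι x a = f (x • f.symm a) := fun x a => rfl
  have h1 : ι t * ι t = 1 := by rw [← map_mul, ht, map_one]
  have h2 : (ι t).support = Finset.univ := by
    ext a
    rw [Equiv.Perm.mem_support, hι]
    simp only [Finset.mem_univ, iff_true]
    intro h
    apply hf (f.symm a)
    apply f.injective
    rw [h, Equiv.apply_symm_apply]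
  have h3 : (ι t).support.card = 2 * m := by rw [h2, Finset.card_univ, Fintype.card_fin]
  obtain ⟨l, h4, h5, h6, h7, -⟩ := exists_list _ _ h3 h1
  have h8 : l.length = m := by omega
  exact H92SpinCover.exists_stem_two hperf ι ht l h4 h5 h6 (by rw [h8]; exact hodd)

end Cfsg.Agent.Lib.SMFpf

namespace Cfsg.Agent.Lib.SMO7

open Cfsg.Agent.Lib.Quad QuadraticMap Module Cfsg.Agent.Lib.H58SM Cfsg.Agent.Lib.Cov Cfsg.Agent.Lib.ClOrthSiegel
  Cfsg.Agent.Lib.O73 Cfsg.Agent.Lib.SMRefl Cfsg.Agent.Lib.SchurSylow Cfsg.Agent.Lib.SMGen Cfsg.Agent.Lib.ClOmega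
  Cfsg.Agent.Lib.OrthEmb67

theorem low_three : IsQuot G (Multiplicative (ZMod 3)) := by
  have A : Act SMO7c.Dt.n SMO7c.Dt.k g e SMO7c.Dt.T SMO7c.Dt.pi SMO7c.Dt.pq :=
    act SMO7c.Dt rfl rfl SMO7c.tab1_ok SMO7c.tab2_ok SMO7c.tab3_ok (by decide +kernel)
  exact isQuot_one SMO7c.Dt SMO7c.D SMO7c.W1 A rfl rfl (fun _ => rfl) gen perfect_G SMO7c.w_ok
    (Dat.rel_of A (fun y h => faithful y h) SMO7c.w_ok SMO7c.rel_ok)
    SMO7c.rows_ok SMO7c.im_ok SMO7c.par_ok SMO7c.wt_W1 SMO7c.o SMO7c.ord_W1 (by decide) 2 (by decide) SMO7c.val_W1_0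

/-- the points as orbit -/
abbrev Pt := ↥(MulAction.orbit G (e 0))

theorem card_Pt : Nat.card Pt = 2 * 378 := by
  have h : Nat.card (MulAction.orbit G (e 0)) * Nat.card S = Nat.card G := by
    rw [← Nat.card_prod]
    exact Nat.card_congr (MulAction.orbitProdStabilizerEquivGroup G (e 0))
  have h4 : Nat.card S = 6065280 := card_S
  have h5 : Nat.card Pt * Nat.card S = Nat.card G := h
  rw [h4, card_G] at h5
  generalize Nat.card Pt = N at h5 ⊢
  omega

theorem norm_e0 : Q (e 0) = 1 := by
  have h0 : e 0 = Pi.single (.inl ()) 1 := by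
    rw [← R.d_bas bas_ok]
    exact R.eqv_iff.1 (by decide +kernel)
  rw [h0]
  change Cfsg.quadFormOdd 3 (ZMod 3) _ = _
  unfold Cfsg.quadFormOdd
  simp

theorem norm_pt (x : Pt) : Q (x : V) = 1 := by
  obtain ⟨y, hy⟩ := x.2
  have h1 : (y • e 0 : V) = (x : V) := hy
  rw [← h1, ← norm_e0]
  exact (mem_O.1 (Om_le y.2)) (e 0)

theorem refl_neg_line {v x : V} (hv : Q v ≠ 0) (h : refl Q v x = -x) : ∃ c : ZMod 3, x = c • v := by
  rw [refl_apply hv] at h
  have h1 : x + x = ((Q v)⁻¹ * polar Q v x) • v := by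
    rw [sub_eq_iff_eq_add, ← sub_eq_iff_eq_add'] at h
    rw [← h]; abel
  refine ⟨2 * ((Q v)⁻¹ * polar Q v x), ?_⟩
  rw [mul_smul, ← h1, ← two_smul (ZMod 3) x, smul_smul, show (2 : ZMod 3) * 2 = 1 from by decide, one_smul]

theorem nr_ne (v : V) (hv : Q v = 2) (x : V) (hx : Q x = 1) : nr v x ≠ x := by
  intro h
  rw [nr_apply, neg_eq_iff_eq_neg] at h
  obtain ⟨c, hc⟩ := refl_neg_line (by rw [hv]; decide) h
  rw [hc, QuadraticMap.map_smul, hv, smul_eq_mul] at hx
  revert hx
  revert c
  have h2 : ∀ c : ZMod 3, c * c * 2 ≠ 1 := by decide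
  exact fun c _ => h2 c

theorem nr_sq (v : V) : nr v * nr v = 1 := by
  ext1 x
  show nr v (nr v x) = x
  rw [nr_apply, nr_apply, map_neg, refl_refl, neg_neg]

/-- a vector of norm two -/
noncomputable def v2 : V := Pi.single (.inr (.inl 0)) 1 + Pi.single (.inr (.inr 0)) 2

theorem Q_v2 : Q v2 = 2 := by
  change Cfsg.quadFormOdd 3 (ZMod 3) _ = _
  unfold Cfsg.quadFormOdd v2
  rw [Fin.sum_univ_three]
  simp

theorem low_two : IsQuot G (Multiplicative (ZMod 2)) := by
  obtain ⟨Γ, _, _, σ, h1, h2⟩ := SMFpf.exists_stem_two_fpf (G := G) (α := Pt) perfect_G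
    (t := ⟨nr v2, nr_mem v2 Q_v2⟩) (Subtype.ext (nr_sq v2)) (by
      intro a h
      have h3 : nr v2 (a : V) = (a : V) := congrArg Subtype.val h
      exact nr_ne v2 Q_v2 _ (norm_pt a) h3) card_Pt (by decide)
  have : Finite σ.ker := Nat.finite_of_card_ne_zero (by rw [h2]; decide)
  have : Fact (Nat.Prime 2) := ⟨Nat.prime_two⟩
  have h3 : IsCyclic σ.ker := isCyclic_of_prime_card (p := 2) h2
  have h4 : Nat.card (Multiplicative (ZMod 2)) = 2 := Nat.card_zmod 2
  exact IsQuot.of_stem σ h1 (mulEquivOfCyclicCardEq (by rw [h2, h4]))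

theorem has_six : Cfsg.HasSchurMultiplier G (Multiplicative (ZMod 6)) := by
  have h1 : IsQuot G (Multiplicative (ZMod (2 * 3))) := IsQuot.cyclic low_two low_three (by decide)
  refine hasSchur_of ?_ h1
  rw [show Nat.card (Multiplicative (ZMod 6)) = Nat.card (ZMod 6) from rfl, Nat.card_zmod]
  exact stem_six

/-- isomorphic groups have isomorphic commutator subgroups -/
noncomputable def commCongr {A B : Type*} [Group A] [Group B] (e : A ≃* B) : ↥(commutator A) ≃* ↥(commutator B) :=
  (e.subgroupMap (commutator A)).trans (MulEquiv.subgroupCongr (by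
    rw [commutator_def, commutator_def, Subgroup.map_commutator]
    congr 1 <;> exact Subgroup.map_top_of_surjective _ e.surjective))

/-- transport along field isomorphisms -/
noncomputable def pomegaCongr {K F : Type*} [Field K] [Field F] {ι : Type} [Fintype ι] [DecidableEq ι] (σ : K ≃+* F)
    (QK : (ι → K) → K) (QF : (ι → F) → F) (h : ∀ v, QF (fun i => σ (v i)) = σ (QK v)) :
    Cfsg.POmega K QK ≃* Cfsg.POmega F QF :=
  SUTransport.quotCenterCongr (commCongr (IsomTransport.isometryEquiv σ QK QF h))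

theorem has_main {F : Type*} [Field F] [Fintype F] (hF : Fintype.card F = 3) :
    Cfsg.HasSchurMultiplier (Cfsg.POmega F (Cfsg.quadFormOdd 3 F)) (Multiplicative (ZMod 6)) := by
  have σ : ZMod 3 ≃+* F := FiniteField.ringEquivOfCardEq (by rw [ZMod.card, hF])
  have e1 : Cfsg.POmega (ZMod 3) (Cfsg.quadFormOdd 3 (ZMod 3)) ≃* Cfsg.POmega F (Cfsg.quadFormOdd 3 F) :=
    pomegaCongr σ _ _ (IsomTransport.quadFormOdd_map σ 3)
  have e2 : Cfsg.POmega (ZMod 3) (Cfsg.quadFormOdd 3 (ZMod 3)) ≃* (Om Q ⧸ Subgroup.center (Om Q)) :=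
    SUTransport.quotCenterCongr (omEquiv Q)
  exact hasSchurMultiplier_congr ((quo.symm.trans e2.symm).trans e1) has_six

end Cfsg.Agent.Lib.SMO7
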