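import Cfsg.Agent.Lib.SMO7
import Cfsg.Agent.Lib.SMO7a
import Cfsg.Agent.Lib.SMO7b
import Cfsg.Agent.S0302
import Cfsg.Agent.S2086

/-!
Upper bound for the multiplier of `Ω₇(3)` (helper45)
-/

set_option autoImplicit false

open scoped commutatorElement

namespace Cfsg.Agent.Lib.SMO7

open Cfsg.Agent.Lib.Quad QuadraticMap Module Cfsg.Agent.Lib.H58SM Cfsg.Agent.Lib.Cov Cfsg.Agent.Lib.ClOrthSiegel
  Cfsg.Agent.Lib.O73 Cfsg.Agent.Lib.SMRefl Cfsg.Agent.Lib.SchurSylow Cfsg.Agent.Lib.SMGen Cfsg.Agent.Lib.ClOmega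
  Cfsg.Agent.Lib.OrthEmb67

universe u v

/-- nonabelian simple groups are perfect -/
theorem perfect_of_not_prime {G : Type u} [Group G] [Finite G] [hs : IsSimpleGroup G] (h : ¬ (Nat.card G).Prime) :
    commutator G = ⊤ := by
  rcases hs.eq_bot_or_eq_top_of_normal (commutator G) inferInstance with h1 | h1
  · exfalso
    apply h
    have hc : ∀ a b : G, a * b = b * a := fun a b => by
      have h2 : ⁅a, b⁆ ∈ commutator G := Subgroup.commutator_mem_commutator (Subgroup.mem_top _) (Subgroup.mem_top _)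
      rw [h1, Subgroup.mem_bot, commutatorElement_eq_one_iff_mul_comm] at h2
      exact h2
    let _ : CommGroup G := { (inferInstance : Group G) with mul_comm := hc }
    exact IsSimpleGroup.prime_card
  · exact h1

/-- from a multiplier to a bound -/
theorem stemDvd_of_has {G : Type u} [Group G] {A : Type v} [CommGroup A] (h : Cfsg.HasSchurMultiplier G A) {n : ℕ}
    (hn : Nat.card A = n) : StemDvd G n := by
  intro Γ _ _ σ hσ
  obtain ⟨π, hπ⟩ := h.2 Γ σ hσ
  rw [← hn]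
  exact Subgroup.card_dvd_of_surjective π hπ

theorem pStemDvd_one_of_coprime {p n : ℕ} [hp : Fact p.Prime] {G : Type u} [Group G] (h : StemDvd G n) (hpn : ¬ p ∣ n) :
    PStemDvd p G 1 := by
  intro Γ _ _ σ hσ hpg
  have h1 := h Γ σ hσ
  obtain ⟨k, hk⟩ := IsPGroup.iff_card.1 hpg
  rcases Nat.eq_zero_or_pos k with rfl | h0
  · rw [hk, pow_zero]
  · exfalso
    apply hpn
    rw [hk] at h1
    exact (dvd_pow_self p h0.ne').trans h1

/-! ### the stabilizer -/

/-- the subspace -/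
noncomputable def jj : (Fin 3 ⊕ Fin 3 → ZMod 3) →ₗ[ZMod 3] V where
  toFun w := Sum.elim (fun _ => 0) w
  map_add' x y := by
    funext i
    rcases i with i | i
    · exact (add_zero 0).symm
    · rfl
  map_smul' c x := by
    funext i
    rcases i with i | i
    · exact (mul_zero c).symm
    · rfl

noncomputable abbrev Q' : QuadraticForm (ZMod 3) (Fin 3 ⊕ Fin 3 → ZMod 3) := quadPlus 3 (ZMod 3)

theorem hjj (x : Fin 3 ⊕ Fin 3 → ZMod 3) : Q (jj x) = Q' x := by
  change Cfsg.quadFormOdd 3 (ZMod 3) _ = Cfsg.quadFormPlus 3 (ZMod 3) x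
  unfold Cfsg.quadFormOdd Cfsg.quadFormPlus
  change (0 : ZMod 3) ^ 2 + _ = _
  rw [zero_pow two_ne_zero, zero_add]
  rfl

theorem e0_perp (w : Fin 3 ⊕ Fin 3 → ZMod 3) : polar Q (e 0) (jj w) = 0 := by
  have h0 : e 0 = Pi.single (.inl ()) 1 := by
    rw [← R.d_bas bas_ok]
    exact R.eqv_iff.1 (by decide +kernel)
  rw [h0]
  change polar (Cfsg.quadFormOdd 3 (ZMod 3)) _ _ = _
  rw [polar_quadOdd]
  have h1 : jj w (.inl ()) = 0 := rfl
  rw [h1, mul_zero, zero_add]
  apply Finset.sum_eq_zero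
  intro i _
  rw [Pi.single_eq_of_ne (by simp), Pi.single_eq_of_ne (by simp), zero_mul, zero_mul, add_zero]

theorem card_Q' : Nat.card (Cfsg.POmega (ZMod 3) (Cfsg.quadFormPlus 3 (ZMod 3))) = 6065280 := by
  have h := card_POmega_plus (F := ZMod 3) 3 le_rfl
  generalize Nat.card (Cfsg.POmega (ZMod 3) (Cfsg.quadFormPlus 3 (ZMod 3))) = N at h ⊢
  rw [ZMod.card] at h
  simp only [Finset.prod_range_succ, Finset.prod_range_zero] at h
  norm_num at h
  omega

noncomputable def eQ' : Cfsg.POmega (ZMod 3) (Cfsg.quadFormPlus 3 (ZMod 3)) ≃* (Om Q' ⧸ Subgroup.center (Om Q')) :=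
  SUTransport.quotCenterCongr (omEquiv Q')

theorem actA : Act O7a.Q.toDat.n O7a.Q.toDat.k g e O7a.Q.toDat.T O7a.Q.toDat.pi O7a.Q.toDat.pq :=
  act O7a.Q.toDat rfl rfl O7a.tab1_ok O7a.tab2_ok O7a.tab3_ok (by decide +kernel)

theorem actB : Act O7b.Q.toDat.n O7b.Q.toDat.k g e O7b.Q.toDat.T O7b.Q.toDat.pi O7b.Q.toDat.pq :=
  act O7b.Q.toDat rfl rfl O7b.tab1_ok O7b.tab2_ok O7b.tab3_ok (by decide +kernel)

/-- the stabilizer -/
noncomputable abbrev S : Subgroup G := MulAction.stabilizer G (e 0)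

theorem card_S : Nat.card S = 6065280 := by
  have h := actA.card_stabilizer gen
  rw [card_G] at h
  have h : 756 * Nat.card S = 4585351680 := h
  omega

theorem nonempty_S : Nonempty (S ≃* Matrix.ProjectiveSpecialLinearGroup (Fin 4) (ZMod 3)) := by
  obtain ⟨f⟩ := equiv_stab (Q := Q) (nd_quadPlus (m := 3) (F := ZMod 3)) (j := jj) hjj S (by
    rintro y ⟨t, -, hy⟩
    rw [MulAction.mem_stabilizer_iff]
    show (y : V ≃ₗ[ZMod 3] V) (e 0) = e 0
    rw [hy]
    exact extHom_perp _ hjj t e0_perp) (by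
    rw [card_S, ← Nat.card_congr eQ'.toEquiv, card_Q'])
  obtain ⟨f'⟩ := Cfsg.Agent.S0302.result (F := ZMod 3)
  exact ⟨(f.trans eQ'.symm).trans f'⟩

theorem stem_S : StemDvd S 2 := by
  obtain ⟨f⟩ := nonempty_S
  have h := Cfsg.Agent.S2086.result (F := ZMod 3) (q := 3) (by rw [ZMod.card]) 4 (by norm_num) (by norm_num) (by simp)
  exact (stemDvd_of_has h (by
    rw [show Nat.card (Multiplicative (ZMod (Nat.gcd 4 (3 - 1)))) = Nat.card (ZMod (Nat.gcd 4 (3 - 1))) from rfl,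
      Nat.card_zmod]; rfl)).congr f.symm

theorem simple_Q' : IsSimpleGroup (Cfsg.POmega (ZMod 3) (Cfsg.quadFormPlus 3 (ZMod 3))) := by
  have h := isSimple_POmega (F := ZMod 3) (nd_quadPlus (m := 3) (F := ZMod 3)) (genHyp_plus 3 le_rfl) (hpPlus 3) le_rfl
  rw [coe_quadPlus] at h
  exact h

theorem perfect_S : commutator S = ⊤ := by
  obtain ⟨f⟩ := nonempty_S
  obtain ⟨f'⟩ := Cfsg.Agent.S0302.result (F := ZMod 3)
  have := simple_Q'
  have : IsSimpleGroup S := (f.trans f'.symm).isSimpleGroup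
  apply perfect_of_not_prime
  rw [card_S]
  norm_num

theorem perfect_G : commutator G = ⊤ := by
  apply perfect_of_not_prime
  rw [card_G]
  norm_num

theorem relA : ∀ j < O7a.Q.toDat.J, ev g (O7a.Q.toDat.W j) = 1 :=
  Dat.rel_of actA (fun y h => faithful y h) O7a.w_ok O7a.rel_ok

theorem relB : ∀ j < O7b.Q.toDat.J, ev g (O7b.Q.toDat.W j) = 1 := relA

theorem two_up : PStemDvd 2 G 2 := by
  have : Fact (Nat.Prime 2) := ⟨Nat.prime_two⟩
  have h := pStemDvd_of_checks_gen (p := 2) (s := 2) (q := 2) (N := 1) (M := 2) O7a.Q.toDat actA gen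
    (stem_S.pStemDvd 2) (not_dvd_index_of_perfect perfect_S) O7a.w_ok relA O7a.nr O7a.nr_ok O7a.zl_ok rfl rfl (by decide)
    O7a.chk_ok O7a.gen_ok O7a.par_ok (by decide) (by decide)
  exact h

theorem three_up : PStemDvd 3 G 3 := by
  have : Fact (Nat.Prime 3) := ⟨Nat.prime_three⟩
  have h := pStemDvd_of_checks_gen (p := 3) (s := 2) (q := 3) (N := 3) (M := 1) O7b.Q.toDat actB gen
    (pStemDvd_one_of_coprime stem_S (by norm_num)) (not_dvd_index_of_perfect perfect_S) O7b.w_ok relB O7b.nr O7b.nr_ok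
    O7b.zl_ok rfl rfl (by decide) O7b.chk_ok O7b.gen_ok O7b.par_ok (by decide) (by decide)
  exact h

theorem stem_six : StemDvd G 6 := by
  apply StemDvd.of_forall
  intro p hp
  have : Fact p.Prime := ⟨hp⟩
  by_cases h2 : p = 2
  · subst h2; exact two_up.mono (by norm_num)
  by_cases h3 : p = 3
  · subst h3; exact three_up.mono (by norm_num)
  refine PStemDvd.mono ?_ (one_dvd 6)
  apply Cfsg.Agent.Lib.H92Stem.pStemDvd_of_sq
  rw [card_G]
  intro hd
  have h4 : (p ^ 2).Coprime (2 ^ 9) := Nat.Coprime.pow 2 9 ((Nat.coprime_primes hp Nat.prime_two).2 h2)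
  have h5 : (p ^ 2).Coprime (3 ^ 9) := Nat.Coprime.pow 2 9 ((Nat.coprime_primes hp Nat.prime_three).2 h3)
  have h6 : p ^ 2 ∣ 455 := by
    refine (h4.mul_right h5).dvd_of_dvd_mul_left ?_
    exact hd
  have h7 : Squarefree 455 := by decide +kernel
  rw [pow_two] at h6
  exact hp.one_lt.ne' (Nat.isUnit_iff.1 (h7 p h6))

end Cfsg.Agent.Lib.SMO7
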