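import Cfsg.Agent.Lib.SMRefl
import Cfsg.Agent.Lib.SMO8t
import Cfsg.Agent.Lib.SMO8d

/-!
The group `Ω₈⁺(2)`: explicit generators, action on vectors and pairs of vectors (helper45)
-/

set_option autoImplicit false

namespace Cfsg.Agent.Lib.SMO8

open Cfsg.Agent.Lib.Quad QuadraticMap Module Cfsg.Agent.Lib.H58SM Cfsg.Agent.Lib.Cov Cfsg.Agent.Lib.ClOrthSiegel
  Cfsg.Agent.Lib.SMRefl Cfsg.Agent.Lib.ClOmega

abbrev I := Fin 4 ⊕ Fin 4
abbrev V := I → ZMod 2
noncomputable abbrev Q : QuadraticForm (ZMod 2) V := quadPlus 4 (ZMod 2)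

theorem hQ : Nd Q := nd_quadPlus
theorem hgen : GenHyp Q := ClOmega.genHyp_plus 4 (by norm_num)
theorem hR : Quad.R Q = O Q := hQ.R_eq_O hgen
theorem hframe : Frame Q 4 (hpPlus (F := ZMod 2) 4).e (hpPlus (F := ZMod 2) 4).f := frame_of_HP (hpPlus 4)

theorem T_eq : T hQ = Om Q :=
  T_eq_Om hQ hR hframe (i := 0) (j := 1) (l := 2) (by decide) (by decide) (by decide)

theorem card_P : Nat.card (Cfsg.POmega (ZMod 2) (Cfsg.quadFormPlus 4 (ZMod 2))) = 174182400 := by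
  have h := card_POmega_plus (F := ZMod 2) 4 (by norm_num)
  generalize Nat.card (Cfsg.POmega (ZMod 2) (Cfsg.quadFormPlus 4 (ZMod 2))) = N at h ⊢
  rw [ZMod.card] at h
  simp only [Finset.prod_range_succ, Finset.prod_range_zero] at h
  norm_num at h
  omega

theorem simple_P : IsSimpleGroup (Cfsg.POmega (ZMod 2) (Cfsg.quadFormPlus 4 (ZMod 2))) := by
  have h := isSimple_POmega (F := ZMod 2) hQ hgen (hpPlus 4) (by norm_num)
  rw [coe_quadPlus] at h
  exact h

/-- position of a coordinate -/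
def pos : I → ℕ
  | .inl k => k.val
  | .inr k => 4 + k.val

/-- digit -/
def dg (u j : ℕ) : ℕ := gt u 1 1 j

def bb (u x : ℕ) : ℕ := Nat.add
  (Nat.add (Nat.add (Nat.mul (dg u 0) (dg x 4)) (Nat.mul (dg u 4) (dg x 0)))
    (Nat.add (Nat.mul (dg u 1) (dg x 5)) (Nat.mul (dg u 5) (dg x 1))))
  (Nat.add (Nat.add (Nat.mul (dg u 2) (dg x 6)) (Nat.mul (dg u 6) (dg x 2)))
    (Nat.add (Nat.mul (dg u 3) (dg x 7)) (Nat.mul (dg u 7) (dg x 3))))

def qq (u : ℕ) : ℕ := Nat.add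
  (Nat.add (Nat.mul (dg u 0) (dg u 4)) (Nat.mul (dg u 1) (dg u 5)))
  (Nat.add (Nat.mul (dg u 2) (dg u 6)) (Nat.mul (dg u 3) (dg u 7)))

theorem hbb (u x : ℕ) : polar Q (dv 2 1 1 pos u) (dv 2 1 1 pos x) = ((bb u x : ℕ) : ZMod 2) := by
  change polar (Cfsg.quadFormPlus 4 (ZMod 2)) _ _ = _
  rw [polar_quadPlus, Fin.sum_univ_four]
  refine (add_assoc _ _ _).trans ?_
  show _ = ((((dg u 0 * dg x 4 + dg u 4 * dg x 0) + (dg u 1 * dg x 5 + dg u 5 * dg x 1)) +
    ((dg u 2 * dg x 6 + dg u 6 * dg x 2) + (dg u 3 * dg x 7 + dg u 7 * dg x 3)) : ℕ) : ZMod 2)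
  push_cast
  rfl

theorem hqq (u : ℕ) : Q (dv 2 1 1 pos u) = ((qq u : ℕ) : ZMod 2) := by
  change Cfsg.quadFormPlus 4 (ZMod 2) _ = _
  unfold Cfsg.quadFormPlus
  rw [Fin.sum_univ_four]
  refine (add_assoc _ _ _).trans ?_
  show _ = ((((dg u 0 * dg u 4 + dg u 1 * dg u 5) + (dg u 2 * dg u 6 + dg u 3 * dg u 7)) : ℕ) : ZMod 2)
  push_cast
  rfl

/-- the coded space -/
noncomputable def R : RD 2 I Q where
  N := 8
  w := 1
  m := 1
  pos := pos
  bb := bb
  qq := qq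
  hm := rfl
  hpw := by decide
  hpos i := by rcases i with i | i <;> simp only [pos] <;> omega
  hinj := by
    rintro (i | i) (j | j) h <;> simp only [pos] at h
    · congr 1; exact Fin.ext h
    · omega
    · omega
    · congr 1; apply Fin.ext; omega
  hsur := by
    intro j hj
    interval_cases j
    · exact ⟨.inl 0, rfl⟩
    · exact ⟨.inl 1, rfl⟩
    · exact ⟨.inl 2, rfl⟩
    · exact ⟨.inl 3, rfl⟩
    · exact ⟨.inr 0, rfl⟩
    · exact ⟨.inr 1, rfl⟩
    · exact ⟨.inr 2, rfl⟩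
    · exact ⟨.inr 3, rfl⟩
  inv c := by
    have h : ∀ c : ZMod 2, c = 0 ∨ c * c = 1 := by decide
    rcases h c with rfl | h1
    · exact inv_zero
    · exact inv_eq_of_mul_eq_one_right h1
  hbb := hbb
  hqq := hqq

/-- the group -/
abbrev G := ↥(Om Q)

instance : Finite (V ≃ₗ[ZMod 2] V) := Finite.of_injective (fun f => (f : V → V)) DFunLike.coe_injective

theorem center_eq : Subgroup.center G = ⊥ := by
  rw [← Subgroup.card_eq_one]
  exact ClOmega.card_center_of_not_mem hQ hR hframe (by norm_num) (fun h => absurd (by decide) h)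

/-- the quotient by the trivial center -/
noncomputable def quo : (Om Q ⧸ Subgroup.center (Om Q)) ≃* G :=
  (QuotientGroup.quotientMulEquivOfEq center_eq).trans QuotientGroup.quotientBot

/-- isomorphism with the official form -/
noncomputable def eP : Cfsg.POmega (ZMod 2) (Cfsg.quadFormPlus 4 (ZMod 2)) ≃* G :=
  (SUTransport.quotCenterCongr (omEquiv Q)).trans quo

theorem card_G : Nat.card G = 174182400 := by
  rw [← Nat.card_congr eP.toEquiv]; exact card_P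

instance simple_G : IsSimpleGroup G := by
  have := simple_P
  exact eP.symm.isSimpleGroup

theorem hT (u v : V) (hu : Q u ≠ 0) (huv : Q u = Q v) : refl Q u * refl Q v ∈ Om Q := by
  rw [← T_eq]
  exact refl_mul_refl_mem hQ hframe (i := 0) (j := 1) (by decide) hu huv

theorem hT' {u v : V} (hu : Q u = 1) (hv : Q v = 1) : refl Q u * refl Q v ∈ Om Q :=
  hT u v (by rw [hu]; decide) (by rw [hu, hv])

/-- products of two reflections generate -/
theorem top_of' (K : Subgroup G) (hK : ∀ u v (hu : Q u = 1) (hv : Q v = 1), polar Q u v = 1 →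
    (⟨refl Q u * refl Q v, hT' hu hv⟩ : Om Q) ∈ K) {u0 v0 : V} (hu0 : Q u0 = 1) (hv0 : Q v0 = 1)
    (h0 : polar Q u0 v0 = 1) : K = ⊤ := by
  let D : Set G := {g | ∃ u v, Q u = 1 ∧ Q v = 1 ∧ polar Q u v = 1 ∧ (g : V ≃ₗ[ZMod 2] V) = refl Q u * refl Q v}
  have hD : (Subgroup.closure D).Normal := by
    constructor
    intro n hn g
    induction hn using Subgroup.closure_induction with
    | mem x hx =>
      obtain ⟨u, v, hu, hv, huv, hx⟩ := hx
      apply Subgroup.subset_closure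
      have hg := Om_le g.2
      refine ⟨(g : V ≃ₗ[ZMod 2] V) u, (g : V ≃ₗ[ZMod 2] V) v, ?_, ?_, ?_, ?_⟩
      · rw [hg, hu]
      · rw [hg, hv]
      · rw [← huv]
        show Q (_ + _) - Q _ - Q _ = Q (_ + _) - Q _ - Q _
        rw [← map_add, hg, hg, hg]
      · rw [← refl_conj hg, ← refl_conj hg]
        show (g : V ≃ₗ[ZMod 2] V) * (x : V ≃ₗ[ZMod 2] V) * (g : V ≃ₗ[ZMod 2] V)⁻¹ = _
        rw [hx]; group
    | one => rw [mul_one, mul_inv_cancel]; exact Subgroup.one_mem _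
    | mul x y _ _ hx hy =>
      have : g * (x * y) * g⁻¹ = (g * x * g⁻¹) * (g * y * g⁻¹) := by group
      rw [this]; exact Subgroup.mul_mem _ hx hy
    | inv x _ hx =>
      have : g * x⁻¹ * g⁻¹ = (g * x * g⁻¹)⁻¹ := by group
      rw [this]; exact Subgroup.inv_mem _ hx
  have hle : Subgroup.closure D ≤ K := by
    rw [Subgroup.closure_le]
    rintro g ⟨u, v, hu, hv, huv, hg⟩
    have : g = ⟨refl Q u * refl Q v, hT' hu hv⟩ := Subtype.ext hg
    rw [this]
    exact hK u v hu hv huv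
  rcases simple_G.eq_bot_or_eq_top_of_normal _ hD with h | h
  · exfalso
    have h1 : (⟨refl Q u0 * refl Q v0, hT' hu0 hv0⟩ : G) ∈ Subgroup.closure D :=
      Subgroup.subset_closure ⟨u0, v0, hu0, hv0, h0, rfl⟩
    rw [h, Subgroup.mem_bot] at h1
    have h2 : refl Q u0 (refl Q v0 v0) = v0 := congrArg (fun g : G => (g : V ≃ₗ[ZMod 2] V) v0) h1
    have hu : Q u0 ≠ 0 := by rw [hu0]; decide
    rw [refl_self (by rw [hv0]; decide), map_neg, refl_apply hu, h0, hu0, inv_one, one_mul, one_smul] at h2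
    have h3 : u0 = 0 := by
      rw [neg_sub, sub_eq_iff_eq_add] at h2
      rw [h2]
      funext i
      exact CharTwo.add_self_eq_zero _
    rw [h3, QuadraticMap.map_zero] at hu0
    exact absurd hu0 (by decide)
  · rw [h] at hle
    exact top_le_iff.1 hle

theorem pokU : ∀ i : ℕ, R.pok (US i) = true
  | 0 => by decide +kernel
  | 1 => by decide +kernel
  | _ + 2 => rfl

/-- generators -/
noncomputable def g (i : ℕ) : G := ⟨R.gp (US i), R.gp_mem hT (pokU i)⟩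

theorem hg (k : ℕ) : ∀ i < k, ((g i : Om Q) : V ≃ₗ[ZMod 2] V) = R.gp (US i) := fun _ _ => rfl

theorem bas_ok : R.basOk = true := by decide +kernel

/-! ### the nonsingular vectors -/

def VC (a : ℕ) : ℕ := gt VCB 8 255 a
def IX (c : ℕ) : ℕ := gt IXB 7 127 c

noncomputable def e0 (a : ℕ) : V := R.d (VC a)

theorem ix_ok : alln (fun a => Nat.beq (IX (VC a)) a && Nat.blt (VC a) 256) 120 = true := by decide +kernel

theorem pk_ok : alln (fun c => Nat.beq (pk 1 (fun j => Nat.mod (gt c 1 1 j) 2) 8) c) 256 = true := by decide +kernel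

theorem pk_congr {w : ℕ} {f f' : ℕ → ℕ} : ∀ {N : ℕ}, (∀ j < N, f j = f' j) → pk w f N = pk w f' N
  | 0, _ => rfl
  | N + 1, h => by
    show Nat.add (pk w f N) (Nat.shiftLeft (f N) (Nat.mul w N)) = Nat.add (pk w f' N) (Nat.shiftLeft (f' N) (Nat.mul w N))
    rw [pk_congr (fun j hj => h j (by omega)), h N (by omega)]

theorem code_inj {c c' : ℕ} (hc : c < 256) (hc' : c' < 256) (h : R.d c = R.d c') : c = c' := by
  have h1 := alln_iff.1 (R.eqv_iff.2 h)
  have h2 : pk 1 (fun j => Nat.mod (gt c 1 1 j) 2) 8 = pk 1 (fun j => Nat.mod (gt c' 1 1 j) 2) 8 := by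
    apply pk_congr
    intro j hj
    exact Sol.beq_iff.1 (h1 j hj)
  rw [← Sol.beq_iff.1 (alln_iff.1 pk_ok c hc), ← Sol.beq_iff.1 (alln_iff.1 pk_ok c' hc'), h2]

theorem e0_inj {a b : ℕ} (ha : a < 120) (hb : b < 120) (h : e0 a = e0 b) : a = b := by
  have h1 := alln_iff.1 ix_ok a ha
  have h2 := alln_iff.1 ix_ok b hb
  rw [Bool.and_eq_true, Sol.beq_iff, Sol.blt_iff] at h1 h2
  rw [← h1.1, ← h2.1, code_inj h1.2 h2.2 h]

/-- table on the nonsingular vectors -/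
def T0 : ℕ → ℕ → ℕ := SMO8d.Dt.T

theorem fwd0_ok : R.fwdV US 120 2 T0 VC = true := by decide +kernel

theorem fwd0 : ∀ i < 2, ∀ a < 120, g i • e0 a = e0 (T0 (2 * i) a) := R.fwdV_spec fwd0_ok (hg 2)

theorem act0 : Act SMO8d.Dt.n SMO8d.Dt.k g e0 SMO8d.Dt.T SMO8d.Dt.pi SMO8d.Dt.pq :=
  Dat.act_of (by decide) SMO8d.tab1_ok SMO8d.tab2_ok SMO8d.tab3_ok fwd0 (fun _ ha h => e0_inj ha (by decide) h)

theorem span_ok : R.spanOk (fun j => VC (AL.getD j 0)) (fun j => VC (BL.getD j 0)) = true := by decide +kernel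

theorem AL_lt : ∀ j < 8, AL.getD j 0 < 120 ∧ BL.getD j 0 < 120 := by decide +kernel

theorem faithful (y : G) (h : ∀ a < 120, y • e0 a = e0 a) : y = 1 := by
  apply Subtype.ext
  exact R.faithful bas_ok span_ok (fun j hj => h _ (AL_lt j hj).1) (fun j hj => h _ (AL_lt j hj).2)

/-! ### pairs -/

def FA (a : ℕ) : ℕ := gt FAB 7 127 a
def SA (a : ℕ) : ℕ := gt SAB 7 127 a
def PX (a : ℕ) : ℕ := gt PXB 13 8191 a

noncomputable def e (a : ℕ) : V × V := (e0 (FA a), e0 (SA a))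

theorem lt_ok : alln (fun a => Nat.blt (FA a) 120 && Nat.blt (SA a) 120) 6720 = true := by decide +kernel

theorem FA_lt {a : ℕ} (ha : a < 6720) : FA a < 120 ∧ SA a < 120 := by
  have h := alln_iff.1 lt_ok a ha
  rwa [Bool.and_eq_true, Sol.blt_iff, Sol.blt_iff] at h

theorem base_ok : alln (fun a => cond (Nat.beq a 0) true (!(Nat.beq (FA a) (FA 0) && Nat.beq (SA a) (SA 0)))) 6720 = true := by
  decide +kernel

theorem base : ∀ a < 6720, e a = e 0 → a = 0 := by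
  intro a ha h
  by_contra h0
  have h1 := alln_iff.1 base_ok a ha
  have h2 := e0_inj (FA_lt ha).1 (FA_lt (by decide)).1 (Prod.ext_iff.1 h).1
  have h3 := e0_inj (FA_lt ha).2 (FA_lt (by decide)).2 (Prod.ext_iff.1 h).2
  rw [beq_ne h0, cond_false, h2, h3, Nat.beq_refl, Nat.beq_refl] at h1
  exact absurd h1 (by decide)

def prOk (T : ℕ → ℕ → ℕ) : Bool := alln (fun i => alln (fun a => frc (T (Nat.mul 2 i) a) fun b =>
  Nat.beq (FA b) (T0 (Nat.mul 2 i) (FA a)) && Nat.beq (SA b) (T0 (Nat.mul 2 i) (SA a))) 6720) 2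

theorem pr_spec {T : ℕ → ℕ → ℕ} (h : prOk T = true) : ∀ i < 2, ∀ a < 6720, g i • e a = e (T (2 * i) a) := by
  intro i hi a ha
  have h1 := alln_iff.1 (alln_iff.1 h i hi) a ha
  rw [frc_eq, Bool.and_eq_true, Sol.beq_iff, Sol.beq_iff] at h1
  have h2 : FA (T (2 * i) a) = T0 (2 * i) (FA a) := h1.1
  have h3 : SA (T (2 * i) a) = T0 (2 * i) (SA a) := h1.2
  apply Prod.ext
  · show g i • e0 (FA a) = e0 (FA (T (2 * i) a))
    rw [h2, fwd0 i hi _ (FA_lt ha).1]
  · show g i • e0 (SA a) = e0 (SA (T (2 * i) a))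
    rw [h3, fwd0 i hi _ (FA_lt ha).2]

theorem act (D : Dat) (hn : D.n = 6720) (hk : D.k = 2) (h1 : D.tab1 = true) (h2 : D.tab2 = true) (h3 : D.tab3 = true)
    (hf : prOk D.T = true) : Act D.n D.k g e D.T D.pi D.pq := by
  refine Dat.act_of (by rw [hn]; decide) h1 h2 h3 ?_ ?_
  · rw [hn, hk]
    exact pr_spec hf
  · rw [hn]; exact base

/-! ### generation -/

theorem compl_ok : R.allV (fun t => frc (R.cod t) fun c => cond (Nat.beq (Nat.mod (R.qq c) 2) 1)
    (frc (IX c) fun b => Nat.blt b 120 && R.eqv (VC b) c) true) = true := by decide +kernel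

theorem exists_e0 {v : V} (hv : Q v = 1) : ∃ a < 120, e0 a = v := by
  obtain ⟨t, -, h1, h2⟩ := R.allV_spec compl_ok v
  rw [frc_eq, frc_eq] at h2
  have h3 : Nat.beq (Nat.mod (R.qq (R.cod t)) 2) 1 = true := by
    rw [Sol.beq_iff]
    have h4 : ((R.qq (R.cod t) : ℕ) : ZMod 2) = ((1 : ℕ) : ZMod 2) := by
      rw [← R.hqq, show dv 2 R.w R.m R.pos (R.cod t) = v from h1, hv]; rfl
    exact (ZMod.natCast_eq_natCast_iff' _ _ 2).1 h4
  rw [h3, cond_true, Bool.and_eq_true, Sol.blt_iff, R.eqv_iff, h1] at h2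
  exact ⟨_, h2.1, h2.2⟩

theorem px_ok : alln (fun x => alln (fun y => cond (Nat.beq (Nat.mod (R.bb (VC x) (VC y)) 2) 1)
    (frc (PX (Nat.add (Nat.mul 120 x) y)) fun b => Nat.blt b 6720 && (Nat.beq (FA b) x && Nat.beq (SA b) y)) true) 120) 120
      = true := by decide +kernel

theorem exists_e {u v : V} (hu : Q u = 1) (hv : Q v = 1) (huv : polar Q u v = 1) : ∃ a < 6720, e a = (u, v) := by
  obtain ⟨x, hx, rfl⟩ := exists_e0 hu
  obtain ⟨y, hy, rfl⟩ := exists_e0 hv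
  have h1 := alln_iff.1 (alln_iff.1 px_ok x hx) y hy
  have h3 : Nat.beq (Nat.mod (R.bb (VC x) (VC y)) 2) 1 = true := by
    rw [Sol.beq_iff]
    have h4 : ((R.bb (VC x) (VC y) : ℕ) : ZMod 2) = ((1 : ℕ) : ZMod 2) := by
      rw [← R.hbb]; exact huv
    exact (ZMod.natCast_eq_natCast_iff' _ _ 2).1 h4
  rw [h3, cond_true, frc_eq, Bool.and_eq_true, Bool.and_eq_true, Sol.blt_iff, Sol.beq_iff, Sol.beq_iff] at h1
  refine ⟨_, h1.1, ?_⟩
  unfold e
  rw [h1.2.1, h1.2.2]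

theorem wN_ok : alln (fun j => R.eqv (R.wd US wN (R.bas j)) (R.rf (VC (FA bN)) (R.rf (VC (SA bN)) (R.bas j)))) 8 = true := by
  decide +kernel

theorem wN_lt : ∀ l ∈ wN, l < 2 * 2 := by decide +kernel

theorem ev_wN : ((ev g wN : Om Q) : V ≃ₗ[ZMod 2] V) = refl Q (e0 (FA bN)) * refl Q (e0 (SA bN)) := by
  apply R.ext_bas bas_ok
  intro j hj
  rw [R.ev_d (hg 2) wN_lt]
  show _ = refl Q (R.d _) (refl Q (R.d _) _)
  rw [R.refl_d, R.refl_d]
  exact R.eqv_iff.1 (alln_iff.1 wN_ok j hj)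

theorem bN_ok : (Nat.blt bN 6720 && (Nat.beq (Nat.mod (R.qq (VC (FA bN))) 2) 1 && (Nat.beq (Nat.mod (R.qq (VC (SA bN))) 2) 1 &&
    Nat.beq (Nat.mod (R.bb (VC (FA bN)) (VC (SA bN))) 2) 1))) = true := by decide +kernel

end Cfsg.Agent.Lib.SMO8
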