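import Cfsg.Agent.Lib.SMO8S
import Cfsg.Agent.Lib.SMO8e
import Cfsg.Agent.Lib.SMO7L

/-!
Lower bound for the multiplier of `Ω₈⁺(2)`: double covers from the nonsingular vectors and from the nonsingular half
spinors (helper45)
-/

set_option autoImplicit false

open scoped commutatorElement Pointwise

namespace Cfsg.Agent.Lib.SMO8

open Cfsg.Agent.Lib.Quad QuadraticMap Module Cfsg.Agent.Lib.H58SM Cfsg.Agent.Lib.Cov Cfsg.Agent.Lib.ClOrthSiegel
  Cfsg.Agent.Lib.SMRefl Cfsg.Agent.Lib.SchurSylow Cfsg.Agent.Lib.SMGen Cfsg.Agent.Lib.ClOmega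
  Cfsg.Agent.Lib.OrthEmb67 Cfsg.Agent.Lib.SMO7

/-! ### singular vectors -/

def SC (a : ℕ) : ℕ := gt SCB 8 255 a

noncomputable def eS (a : ℕ) : V := R.d (SC a)

theorem fwdS_ok : R.fwdV US 135 2 DS.T SC = true := by decide +kernel

theorem baseS_ok : alln (fun a => Nat.blt (SC a) 256 && cond (Nat.beq a 0) true (!(Nat.beq (SC a) (SC 0)))) 135 = true := by
  decide +kernel

theorem baseS : ∀ a < 135, eS a = eS 0 → a = 0 := by
  intro a ha h
  by_contra h0
  have h1 := alln_iff.1 baseS_ok a ha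
  have h2 := alln_iff.1 baseS_ok 0 (by decide)
  rw [Bool.and_eq_true, Sol.blt_iff] at h1 h2
  have h3 := code_inj h1.1 h2.1 h
  have h4 := h1.2
  rw [beq_ne h0, cond_false, h3, Nat.beq_refl] at h4
  exact absurd h4 (by decide)

theorem actS : Act DS.n DS.k g eS DS.T DS.pi DS.pq :=
  Dat.act_of (by decide) tab1_S tab2_S tab3_S (R.fwdV_spec fwdS_ok (hg 2)) baseS

/-! ### maximal totally singular subspaces of one family -/

def M1 (a : ℕ) : ℕ := gt M1B 135 43556142965880123323311949751266331066367 a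

def eF (a : ℕ) : Set V := bset 135 eS (M1 a)

theorem blkF_ok : blkOk 2 135 135 DS.T DF.T M1 = true := by decide +kernel

theorem lt_of {D : Dat} (h : D.tab1 = true) : ∀ l < 2 * D.k, ∀ a < D.n, D.T l a < D.n := fun l hl a ha =>
  Sol.blt_iff.1 (alln_iff.1 (alln_iff.1 h l hl) a ha)

theorem bwd_of {D : Dat} (h : D.tab2 = true) : ∀ i < D.k, ∀ a < D.n, D.T (2 * i) (D.T (2 * i + 1) a) = a := by
  intro i hi a ha
  have h1 := alln_iff.1 (alln_iff.1 h i hi) a ha
  rw [frc_eq] at h1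
  exact Sol.beq_iff.1 h1

theorem fwdF : ∀ i < 2, ∀ a < 135, g i • eF a = eF (DF.T (2 * i) a) :=
  blk_spec blkF_ok (lt_of tab1_S) (R.fwdV_spec fwdS_ok (hg 2)) (bwd_of tab2_S)

theorem neF_ok : alln (fun a => cond (Nat.beq a 0) true (neM 135 (M1 a) (M1 0))) 135 = true := by decide +kernel

theorem baseF : ∀ a < 135, eF a = eF 0 → a = 0 := by
  intro a ha h
  by_contra h0
  have h1 := alln_iff.1 neF_ok a ha
  rw [beq_ne h0, cond_false] at h1
  exact neM_spec (fun x hx y hy => actS.inj hx hy) h1 h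

theorem actF : Act DF.n DF.k g eF DF.T DF.pi DF.pq :=
  Dat.act_of (by decide) tab1_F tab2_F tab3_F fwdF baseF

/-! ### nonsingular half spinors -/

def M2 (a : ℕ) : ℕ := gt M2B 135 43556142965880123323311949751266331066367 a

def eP' (a : ℕ) : Set (Set V) := bset 135 eF (M2 a)

theorem blkP_ok : blkOk 2 135 120 DF.T SMO8e.Dt.T M2 = true := by decide +kernel

theorem fwdP : ∀ i < 2, ∀ a < 120, g i • eP' a = eP' (SMO8e.Dt.T (2 * i) a) :=
  blk_spec blkP_ok (lt_of tab1_F) fwdF (bwd_of tab2_F)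

theorem neP_ok : alln (fun a => cond (Nat.beq a 0) true (neM 135 (M2 a) (M2 0))) 120 = true := by decide +kernel

theorem baseP : ∀ a < 120, eP' a = eP' 0 → a = 0 := by
  intro a ha h
  by_contra h0
  have h1 := alln_iff.1 neP_ok a ha
  rw [beq_ne h0, cond_false] at h1
  exact neM_spec (fun x hx y hy => actF.inj hx hy) h1 h

theorem actP : Act SMO8e.Dt.n SMO8e.Dt.k g eP' SMO8e.Dt.T SMO8e.Dt.pi SMO8e.Dt.pq :=
  Dat.act_of (by decide) SMO8e.tab1_ok SMO8e.tab2_ok SMO8e.tab3_ok fwdP baseP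

theorem low : IsQuot G (Multiplicative (ZMod 2 × ZMod 2)) :=
  CovPair.isQuot_pair SMO8d.Dt SMO8d.D SMO8d.W1 SMO8e.Dt SMO8e.D SMO8e.W1 act0 rfl rfl (fun _ => rfl) actP rfl rfl
    (fun _ => rfl) rfl gen perfect_G SMO8d.w_ok (Dat.rel_of act0 (fun y h => faithful y h) SMO8d.w_ok SMO8d.rel_ok)
    SMO8d.rows_ok SMO8d.im_ok SMO8d.par_ok SMO8d.wt_W1 SMO8e.rows_ok SMO8e.im_ok SMO8e.par_ok SMO8e.wt_W1
    SMO8d.o SMO8d.ord_W1 SMO8e.ord_W1 (by decide) (by decide) 2 (by decide) (by decide +kernel) (by decide +kernel)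
    3 (by decide) (by decide +kernel) (by decide +kernel)

theorem has_four : Cfsg.HasSchurMultiplier G (Multiplicative (ZMod 2 × ZMod 2)) := by
  refine hasSchur_of ?_ low
  rw [show Nat.card (Multiplicative (ZMod 2 × ZMod 2)) = Nat.card (ZMod 2 × ZMod 2) from rfl, Nat.card_prod, Nat.card_zmod]
  exact stem_four

theorem has_main {F : Type*} [Field F] [Fintype F] (hF : Fintype.card F = 2) :
    Cfsg.HasSchurMultiplier (Cfsg.POmega F (Cfsg.quadFormPlus 4 F)) (Multiplicative (ZMod 2 × ZMod 2)) := by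
  have σ : ZMod 2 ≃+* F := FiniteField.ringEquivOfCardEq (by rw [ZMod.card, hF])
  have e1 : Cfsg.POmega (ZMod 2) (Cfsg.quadFormPlus 4 (ZMod 2)) ≃* Cfsg.POmega F (Cfsg.quadFormPlus 4 F) :=
    pomegaCongr σ _ _ (IsomTransport.quadFormPlus_map σ 4)
  exact hasSchurMultiplier_congr (eP.symm.trans e1) has_four

end Cfsg.Agent.Lib.SMO8
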