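import Cfsg.Agent.Lib.SMO8
import Cfsg.Agent.Lib.SMO8a
import Cfsg.Agent.Lib.SMO8b
import Cfsg.Agent.Lib.SMO8c
import Cfsg.Agent.Lib.SMO7S
import Cfsg.Agent.Lib.H89MV4
import Cfsg.Agent.S0303
import Cfsg.Agent.S0822
import Cfsg.Agent.S2092

/-!
Generation of `Ω₈⁺(2)` and upper bound for its multiplier (helper45)
-/

set_option autoImplicit false

open scoped commutatorElement

namespace Cfsg.Agent.Lib.SMO8

open Cfsg.Agent.Lib.Quad QuadraticMap Module Cfsg.Agent.Lib.H58SM Cfsg.Agent.Lib.Cov Cfsg.Agent.Lib.ClOrthSiegel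
  Cfsg.Agent.Lib.SMRefl Cfsg.Agent.Lib.SchurSylow Cfsg.Agent.Lib.SMGen Cfsg.Agent.Lib.ClOmega
  Cfsg.Agent.Lib.OrthEmb67 Cfsg.Agent.Lib.SMO7

theorem actA : Act O8a.Q.toDat.n O8a.Q.toDat.k g e O8a.Q.toDat.T O8a.Q.toDat.pi O8a.Q.toDat.pq :=
  act O8a.Q.toDat rfl rfl O8a.tab1_ok O8a.tab2_ok O8a.tab3_ok (by decide +kernel)

theorem actB : Act O8b.Q.toDat.n O8b.Q.toDat.k g e O8b.Q.toDat.T O8b.Q.toDat.pi O8b.Q.toDat.pq :=
  act O8b.Q.toDat rfl rfl O8b.tab1_ok O8b.tab2_ok O8b.tab3_ok (by decide +kernel)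

theorem actC : Act O8c.Q.toDat.n O8c.Q.toDat.k g e O8c.Q.toDat.T O8c.Q.toDat.pi O8c.Q.toDat.pq :=
  act O8c.Q.toDat rfl rfl O8c.tab1_ok O8c.tab2_ok O8c.tab3_ok (by decide +kernel)

theorem castQ {c : ℕ} (h : Nat.beq (Nat.mod (R.qq c) 2) 1 = true) : Q (R.d c) = 1 := by
  have h1 : ((R.qq c : ℕ) : ZMod 2) = ((1 : ℕ) : ZMod 2) :=
    (ZMod.natCast_eq_natCast_iff' _ _ 2).2 (Sol.beq_iff.1 h)
  rw [← R.hqq] at h1
  exact h1

theorem castB {c c' : ℕ} (h : Nat.beq (Nat.mod (R.bb c c') 2) 1 = true) : polar Q (R.d c) (R.d c') = 1 := by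
  have h1 : ((R.bb c c' : ℕ) : ZMod 2) = ((1 : ℕ) : ZMod 2) :=
    (ZMod.natCast_eq_natCast_iff' _ _ 2).2 (Sol.beq_iff.1 h)
  rw [← R.hbb] at h1
  exact h1

theorem gen : Subgroup.closure {z | ∃ i < 2, z = g i} = ⊤ := by
  have hb := bN_ok
  rw [Bool.and_eq_true, Bool.and_eq_true, Bool.and_eq_true, Sol.blt_iff] at hb
  obtain ⟨hb0, hb1, hb2, hb3⟩ := hb
  apply top_of' _ _ (castQ hb1) (castQ hb2) (castB hb3)
  intro u v hu hv huv
  obtain ⟨a, ha, h1⟩ := exists_e hu hv huv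
  have key : ∀ b < 6720, ∃ y ∈ Subgroup.closure {z | ∃ i < 2, z = g i}, y • e b = e 0 := by
    intro b hb
    obtain ⟨w, hw, h⟩ := actA.to_base hb
    exact ⟨ev g w, CovPair.ev_mem hw, by rw [actA.smul_ev hw hb, h]⟩
  obtain ⟨y, hy, h2⟩ := key a ha
  obtain ⟨z, hz, h3⟩ := key bN hb0
  have h4 : (y⁻¹ * z) • e bN = (u, v) := by rw [mul_smul, h3, ← h2, inv_smul_smul, h1]
  have h5 : ((y⁻¹ * z : G) : V ≃ₗ[ZMod 2] V) (e0 (FA bN)) = u := (Prod.ext_iff.1 h4).1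
  have h6 : ((y⁻¹ * z : G) : V ≃ₗ[ZMod 2] V) (e0 (SA bN)) = v := (Prod.ext_iff.1 h4).2
  have h7 : (⟨refl Q u * refl Q v, hT' hu hv⟩ : Om Q) = (y⁻¹ * z) * ev g wN * (y⁻¹ * z)⁻¹ := by
    have hx := Om_le (y⁻¹ * z : G).2
    apply Subtype.ext
    show refl Q u * refl Q v = ((y⁻¹ * z : G) : V ≃ₗ[ZMod 2] V) * ((ev g wN : Om Q) : V ≃ₗ[ZMod 2] V) *
      ((y⁻¹ * z : G) : V ≃ₗ[ZMod 2] V)⁻¹
    rw [ev_wN, ← h5, ← h6, ← refl_conj hx, ← refl_conj hx]
    group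
  rw [h7]
  exact mul_mem (mul_mem (mul_mem (inv_mem hy) hz) (CovPair.ev_mem wN_lt)) (inv_mem (mul_mem (inv_mem hy) hz))

/-! ### the stabilizer -/

abbrev I6 := (Fin 2 ⊕ Fin 2) ⊕ Fin 2

/-- the form -/
noncomputable abbrev Q' : QuadraticForm (ZMod 2) (I6 → ZMod 2) := quadMinus 2 (ZMod 2) 1 1

/-- the subspace -/
noncomputable def jj : (I6 → ZMod 2) →ₗ[ZMod 2] V where
  toFun w := Sum.elim ![w (.inl (.inl 0)), w (.inl (.inl 1)), w (.inr 0), w (.inr 1)]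
    ![w (.inl (.inr 0)), w (.inl (.inr 1)), w (.inr 0) + w (.inr 1), w (.inr 1)]
  map_add' x y := by
    funext i
    rcases i with i | i <;> fin_cases i <;> first | rfl | exact add_add_add_comm _ _ _ _
  map_smul' c x := by
    funext i
    rcases i with i | i <;> fin_cases i <;> first | rfl | exact (mul_add _ _ _).symm

theorem hjj (x : I6 → ZMod 2) : Q (jj x) = Q' x := by
  change Cfsg.quadFormPlus 4 (ZMod 2) _ = Cfsg.quadFormMinus 2 (ZMod 2) 1 1 x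
  unfold Cfsg.quadFormPlus Cfsg.quadFormMinus
  rw [Fin.sum_univ_four, Fin.sum_univ_two]
  show x (.inl (.inl 0)) * x (.inl (.inr 0)) + x (.inl (.inl 1)) * x (.inl (.inr 1)) +
    x (.inr 0) * (x (.inr 0) + x (.inr 1)) + x (.inr 1) * x (.inr 1) = _
  ring

theorem ev0 : e0 (FA 0) = fun i => if i = .inl 3 ∨ i = .inr 3 then 1 else 0 := funext (by decide +kernel)

theorem eu0 : e0 (SA 0) = fun i => if i = .inl 3 ∨ i = .inl 2 ∨ i = .inr 2 then 1 else 0 := funext (by decide +kernel)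

theorem ev0_perp (w : I6 → ZMod 2) : polar Q (e0 (FA 0)) (jj w) = 0 := by
  rw [ev0]
  change polar (Cfsg.quadFormPlus 4 (ZMod 2)) _ _ = _
  rw [polar_quadPlus, Fin.sum_univ_four]
  have h1 : jj w (.inr 3) = w (.inr 1) := rfl
  have h2 : jj w (.inl 3) = w (.inr 1) := rfl
  rw [h1, h2]
  simp [CharTwo.add_self_eq_zero]

theorem eu0_perp (w : I6 → ZMod 2) : polar Q (e0 (SA 0)) (jj w) = 0 := by
  rw [eu0]
  change polar (Cfsg.quadFormPlus 4 (ZMod 2)) _ _ = _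
  rw [polar_quadPlus, Fin.sum_univ_four]
  have h1 : jj w (.inr 3) = w (.inr 1) := rfl
  have h2 : jj w (.inr 2) = w (.inr 0) + w (.inr 1) := rfl
  have h3 : jj w (.inl 2) = w (.inr 0) := rfl
  rw [h1, h2, h3]
  simp
  have h4 : ∀ a b : ZMod 2, a + b + a + b = 0 := by decide
  exact h4 _ _

theorem hab : ∀ z₁ z₂ : ZMod 2, z₁ ^ 2 + 1 * z₁ * z₂ + 1 * z₂ ^ 2 = 0 → z₁ = 0 ∧ z₂ = 0 := by decide

theorem nd' : Nd Q' := nd_quadMinus (by decide)

/-- a field with four elements -/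
abbrev K4 := GaloisField 2 2

noncomputable instance : Fintype K4 := Fintype.ofFinite _

theorem card_K4 : Fintype.card K4 = 2 ^ 2 := by
  rw [← Nat.card_eq_fintype_card]
  exact GaloisField.card 2 2 (by norm_num)

theorem nonempty_Q' : Nonempty (Cfsg.POmega (ZMod 2) (Cfsg.quadFormMinus 2 (ZMod 2) 1 1) ≃* Cfsg.PSU 4 K4 2) :=
  Cfsg.Agent.S0303.result (F := ZMod 2) (K := K4) (q := 2) (ZMod.card 2) card_K4 1 1 hab

theorem card_Q' : Nat.card (Cfsg.POmega (ZMod 2) (Cfsg.quadFormMinus 2 (ZMod 2) 1 1)) = 25920 := by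
  obtain ⟨f⟩ := nonempty_Q'
  rw [Nat.card_congr f.toEquiv, H89MV.card_PSU42 card_K4]

noncomputable def eQ' : Cfsg.POmega (ZMod 2) (Cfsg.quadFormMinus 2 (ZMod 2) 1 1) ≃* (Om Q' ⧸ Subgroup.center (Om Q')) :=
  SUTransport.quotCenterCongr (omEquiv Q')

/-- the stabilizer -/
noncomputable abbrev S : Subgroup G := MulAction.stabilizer G (e 0)

theorem card_S : Nat.card S = 25920 := by
  have h := actA.card_stabilizer gen
  rw [card_G] at h
  have h : 6720 * Nat.card S = 174182400 := h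
  omega

theorem nonempty_S : Nonempty (S ≃* Cfsg.PSU 4 K4 2) := by
  obtain ⟨f⟩ := equiv_stab (Q := Q) nd' (j := jj) hjj S (by
    rintro y ⟨t, -, hy⟩
    rw [MulAction.mem_stabilizer_iff]
    apply Prod.ext
    · show (y : V ≃ₗ[ZMod 2] V) (e0 (FA 0)) = e0 (FA 0)
      rw [hy]
      exact extHom_perp _ hjj t ev0_perp
    · show (y : V ≃ₗ[ZMod 2] V) (e0 (SA 0)) = e0 (SA 0)
      rw [hy]
      exact extHom_perp _ hjj t eu0_perp) (by
    rw [card_S, ← Nat.card_congr eQ'.toEquiv, card_Q'])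
  obtain ⟨f'⟩ := nonempty_Q'
  exact ⟨(f.trans eQ'.symm).trans f'⟩

theorem stem_S : StemDvd S 2 := by
  obtain ⟨f⟩ := nonempty_S
  obtain ⟨f'⟩ := Cfsg.Agent.S0822.result (F := K4) (K := ZMod 3) card_K4 (ZMod.card 3)
  have h := Cfsg.Agent.S2092.result (F := ZMod 3) (q := 3) (by rw [ZMod.card]) 2 le_rfl (by norm_num) (by simp)
  exact (stemDvd_of_has h (by
    rw [show Nat.card (Multiplicative (ZMod (Nat.gcd 2 (3 - 1)))) = Nat.card (ZMod (Nat.gcd 2 (3 - 1))) from rfl,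
      Nat.card_zmod]; rfl)).congr (f.trans f').symm

theorem perfect_S : commutator S = ⊤ := by
  obtain ⟨f⟩ := nonempty_S
  have := H89MV.simple_PSU42 card_K4
  have : IsSimpleGroup S := f.isSimpleGroup
  apply perfect_of_not_prime
  rw [card_S]
  norm_num

theorem perfect_G : commutator G = ⊤ := by
  apply perfect_of_not_prime
  rw [card_G]
  norm_num

theorem relD_ok : alln (fun j => frc 0 fun _ => alln (fun a => Nat.beq (Dat.ptf T0 (O8a.Q.toDat.W j) a) a) 120) 66 = true := by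
  decide +kernel

theorem relA : ∀ j < 66, ev g (O8a.Q.toDat.W j) = 1 := by
  refine rel_of_tab (n := 120) (k := 2) (e := e0) (T := T0) act0.ltn act0.fwd act0.bwd faithful
    (Dat.wOk_iff O8a.w_ok) ?_
  intro j hj a ha
  have h1 := alln_iff.1 relD_ok j hj
  rw [frc_eq] at h1
  rw [← Dat.ptf_eq]
  exact Sol.beq_iff.1 (alln_iff.1 h1 a ha)

theorem relB : ∀ j < 66, ev g (O8b.Q.toDat.W j) = 1 := relA

theorem relC : ∀ j < 66, ev g (O8c.Q.toDat.W j) = 1 := relA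

theorem two_up : PStemDvd 2 G 4 := by
  have : Fact (Nat.Prime 2) := ⟨Nat.prime_two⟩
  have h := pStemDvd_of_checks_gen (p := 2) (s := 2) (q := 2) (N := 2) (M := 2) O8a.Q.toDat actA gen
    (stem_S.pStemDvd 2) (not_dvd_index_of_perfect perfect_S) O8a.w_ok relA O8a.nr O8a.nr_ok O8a.zl_ok rfl rfl (by decide)
    O8a.chk_ok O8a.gen_ok O8a.par_ok (by decide) (by decide)
  exact h

theorem three_up : PStemDvd 3 G 1 := by
  have : Fact (Nat.Prime 3) := ⟨Nat.prime_three⟩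
  have h := pStemDvd_of_checks_gen (p := 3) (s := 1) (q := 1) (N := 1) (M := 1) O8b.Q.toDat actB gen
    (pStemDvd_one_of_coprime stem_S (by norm_num)) (not_dvd_index_of_perfect perfect_S) O8b.w_ok relB O8b.nr O8b.nr_ok
    O8b.zl_ok rfl rfl (by decide) O8b.chk_ok O8b.gen_ok O8b.par_ok (by decide) (by decide)
  exact h

theorem five_up : PStemDvd 5 G 1 := by
  have : Fact (Nat.Prime 5) := ⟨Nat.prime_five⟩
  have h := pStemDvd_of_checks_gen (p := 5) (s := 1) (q := 1) (N := 1) (M := 1) O8c.Q.toDat actC gen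
    (pStemDvd_one_of_coprime stem_S (by norm_num)) (not_dvd_index_of_perfect perfect_S) O8c.w_ok relC O8c.nr O8c.nr_ok
    O8c.zl_ok rfl rfl (by decide) O8c.chk_ok O8c.gen_ok O8c.par_ok (by decide) (by decide)
  exact h

theorem stem_four : StemDvd G 4 := by
  apply StemDvd.of_forall
  intro p hp
  have : Fact p.Prime := ⟨hp⟩
  by_cases h2 : p = 2
  · subst h2; exact two_up.mono (by norm_num)
  by_cases h3 : p = 3
  · subst h3; exact three_up.mono (one_dvd 4)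
  by_cases h5 : p = 5
  · subst h5; exact five_up.mono (one_dvd 4)
  refine PStemDvd.mono ?_ (one_dvd 4)
  apply Cfsg.Agent.Lib.H92Stem.pStemDvd_of_sq
  rw [card_G]
  intro hd
  have e2 : (p ^ 2).Coprime (2 ^ 12) := Nat.Coprime.pow 2 12 ((Nat.coprime_primes hp Nat.prime_two).2 h2)
  have e3 : (p ^ 2).Coprime (3 ^ 5) := Nat.Coprime.pow 2 5 ((Nat.coprime_primes hp Nat.prime_three).2 h3)
  have e5 : (p ^ 2).Coprime (5 ^ 2) := Nat.Coprime.pow 2 2 ((Nat.coprime_primes hp Nat.prime_five).2 h5)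
  have h6 : p ^ 2 ∣ 7 := by
    refine ((e2.mul_right e3).mul_right e5).dvd_of_dvd_mul_left ?_
    exact hd
  have h7 : Squarefree 7 := by decide +kernel
  rw [pow_two] at h6
  exact hp.one_lt.ne' (Nat.isUnit_iff.1 (h7 p h6))

end Cfsg.Agent.Lib.SMO8
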