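import Cfsg.Agent.Lib.CovPair
import Cfsg.Agent.Lib.SMGen
import Cfsg.Agent.Lib.ClOmega
import Cfsg.Agent.Lib.OrthEmb67
import Cfsg.Agent.Lib.SUTransport

/-!
Orthogonal groups over the fields with 2 and 3 elements: vectors as numbers, products of reflections, explicit
actions and generation (helper45)
-/

set_option autoImplicit false

namespace Cfsg.Agent.Lib.SMRefl

open Cfsg.Agent.Lib.Quad QuadraticMap Module Cfsg.Agent.Lib.H58SM Cfsg.Agent.Lib.Cov Cfsg.Agent.Lib.ClOrthSiegel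

/-- vector of a code -/
def dv (p w m : ℕ) {ι : Type} (pos : ι → ℕ) (c : ℕ) : ι → ZMod p := fun i => ((gt c w m (pos i) : ℕ) : ZMod p)

/-- coded quadratic space -/
structure RD (p : ℕ) [Fact p.Prime] (ι : Type) (Q : QuadraticForm (ZMod p) (ι → ZMod p)) where
  N : ℕ
  w : ℕ
  m : ℕ
  pos : ι → ℕ
  bb : ℕ → ℕ → ℕ
  qq : ℕ → ℕ
  hm : m = 2 ^ w - 1
  hpw : p ≤ 2 ^ w
  hpos : ∀ i, pos i < N
  hinj : ∀ i j, pos i = pos j → i = j
  hsur : ∀ j < N, ∃ i, pos i = j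
  inv : ∀ c : ZMod p, c⁻¹ = c
  hbb : ∀ u x, polar Q (dv p w m pos u) (dv p w m pos x) = (bb u x : ZMod p)
  hqq : ∀ u, Q (dv p w m pos u) = (qq u : ZMod p)

namespace RD

variable {p : ℕ} [hp : Fact p.Prime] {ι : Type} {Q : QuadraticForm (ZMod p) (ι → ZMod p)} (R : RD p ι Q)

/-- vector of a code -/
abbrev d (c : ℕ) : ι → ZMod p := dv p R.w R.m R.pos c

theorem d_pk {f : ℕ → ℕ} (hf : ∀ j < R.N, f j < p) (i : ι) : R.d (pk R.w f R.N) i = (f (R.pos i) : ZMod p) := by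
  show ((gt (pk R.w f R.N) R.w R.m (R.pos i) : ℕ) : ZMod p) = _
  rw [gt_pk R.hm (fun j hj => (hf j hj).trans_le R.hpw) (R.hpos i)]

/-- reflection on codes -/
def rf (u x : ℕ) : ℕ := frc (Nat.mod (Nat.mul (R.qq u) (R.bb u x)) p) fun t =>
  pk R.w (fun j => Nat.mod (Nat.add (gt x R.w R.m j) (Nat.mul (Nat.mul (Nat.pred p) t) (gt u R.w R.m j))) p) R.N

theorem refl_d (u x : ℕ) : refl Q (R.d u) (R.d x) = R.d (R.rf u x) := by
  have hp0 : 0 < p := hp.out.pos
  have h1 : R.d (R.rf u x) = R.d x - (Q (R.d u) * polar Q (R.d u) (R.d x)) • R.d u := by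
    funext i
    unfold rf
    rw [frc_eq]
    refine (d_pk R (f := fun j => (gt x R.w R.m j + (p - 1) * (R.qq u * R.bb u x % p) * gt u R.w R.m j) % p)
      (fun j _ => Nat.mod_lt _ hp0) i).trans ?_
    show (((gt x R.w R.m (R.pos i) + (p - 1) * (R.qq u * R.bb u x % p) * gt u R.w R.m (R.pos i)) % p : ℕ) : ZMod p) = _
    rw [ZMod.natCast_mod]
    push_cast
    rw [ZMod.natCast_mod, Nat.cast_sub hp0, ZMod.natCast_self, R.hqq, R.hbb]
    show _ = ((gt x R.w R.m (R.pos i) : ℕ) : ZMod p) - (R.qq u * R.bb u x : ZMod p) * ((gt u R.w R.m (R.pos i) : ℕ) : ZMod p)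
    push_cast
    ring
  rw [h1]
  by_cases hQ : Q (R.d u) = 0
  · rw [refl_of_eq_zero hQ, hQ, zero_mul, zero_smul, sub_zero]; rfl
  · rw [refl_apply hQ, R.inv]

/-- products of reflections on codes; the last one is applied first -/
def rfs : List ℕ → ℕ → ℕ
  | [], x => x
  | u :: us, x => frc (rfs us x) fun y => R.rf u y

/-- products of reflections -/
noncomputable def gp : List ℕ → ((ι → ZMod p) ≃ₗ[ZMod p] (ι → ZMod p))
  | [] => 1
  | u :: us => refl Q (R.d u) * gp us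

theorem gp_d (us : List ℕ) (x : ℕ) : R.gp us (R.d x) = R.d (R.rfs us x) := by
  induction us with
  | nil => rfl
  | cons u us ih =>
    show refl Q (R.d u) (R.gp us (R.d x)) = R.d (frc _ _)
    rw [ih, frc_eq, refl_d]

theorem gp_append (us vs : List ℕ) : R.gp (us ++ vs) = R.gp us * R.gp vs := by
  induction us with
  | nil => rw [List.nil_append]; exact (one_mul _).symm
  | cons u us ih =>
    show refl Q (R.d u) * R.gp (us ++ vs) = refl Q (R.d u) * R.gp us * R.gp vs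
    rw [ih, mul_assoc]

theorem gp_inv (us : List ℕ) : (R.gp us)⁻¹ = R.gp us.reverse := by
  induction us with
  | nil => exact inv_one
  | cons u us ih =>
    rw [List.reverse_cons, gp_append, ← ih]
    show (refl Q (R.d u) * R.gp us)⁻¹ = (R.gp us)⁻¹ * (refl Q (R.d u) * 1)
    rw [mul_inv_rev, refl_inv, mul_one]

/-- pairs of equal norms -/
def pok : List ℕ → Bool
  | [] => true
  | [_] => false
  | u :: v :: l => (!(Nat.beq (Nat.mod (R.qq u) p) 0)) && (Nat.beq (Nat.mod (R.qq u) p) (Nat.mod (R.qq v) p) && pok l)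

theorem gp_mem (hT : ∀ u v, Q u ≠ 0 → Q u = Q v → refl Q u * refl Q v ∈ Om Q) : ∀ {us : List ℕ}, R.pok us = true →
    R.gp us ∈ Om Q
  | [], _ => one_mem _
  | [_], h => absurd h (by simp [pok])
  | u :: v :: l, h => by
    unfold pok at h
    rw [Bool.and_eq_true, Bool.and_eq_true, Sol.beq_iff] at h
    obtain ⟨h1, h2, h3⟩ := h
    show refl Q (R.d u) * (refl Q (R.d v) * R.gp l) ∈ Om Q
    rw [← mul_assoc]
    refine mul_mem (hT _ _ ?_ ?_) (gp_mem hT h3)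
    · rw [R.hqq]
      intro h4
      rw [ZMod.natCast_eq_zero_iff] at h4
      have : Nat.beq (Nat.mod (R.qq u) p) 0 = true := Sol.beq_iff.2 (Nat.mod_eq_zero_of_dvd h4)
      rw [this] at h1
      exact absurd h1 (by decide)
    · rw [R.hqq, R.hqq]
      exact (ZMod.natCast_eq_natCast_iff' _ _ p).2 h2

/-- equality of vectors on codes -/
def eqv (x y : ℕ) : Bool := alln (fun j => Nat.beq (Nat.mod (gt x R.w R.m j) p) (Nat.mod (gt y R.w R.m j) p)) R.N

theorem eqv_iff {x y : ℕ} : R.eqv x y = true ↔ R.d x = R.d y := by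
  unfold eqv
  rw [alln_iff]
  constructor
  · intro h
    funext i
    exact (ZMod.natCast_eq_natCast_iff' _ _ p).2 (Sol.beq_iff.1 (h _ (R.hpos i)))
  · intro h j hj
    obtain ⟨i, rfl⟩ := R.hsur j hj
    exact Sol.beq_iff.2 ((ZMod.natCast_eq_natCast_iff' _ _ p).1 (congrFun h i))

/-- code of the base vectors -/
def bas (j : ℕ) : ℕ := Nat.shiftLeft 1 (Nat.mul R.w j)

def basOk : Bool := alln (fun j => alln (fun l => Nat.beq (gt (R.bas j) R.w R.m l) (cond (Nat.beq l j) 1 0)) R.N) R.N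

theorem d_bas [DecidableEq ι] (h : R.basOk = true) (i : ι) : R.d (R.bas (R.pos i)) = Pi.single i 1 := by
  funext l
  have h1 := Sol.beq_iff.1 (alln_iff.1 (alln_iff.1 h _ (R.hpos i)) _ (R.hpos l))
  show ((gt (R.bas (R.pos i)) R.w R.m (R.pos l) : ℕ) : ZMod p) = _
  rw [h1]
  by_cases hl : l = i
  · subst hl
    rw [Pi.single_eq_same, Nat.beq_refl, cond_true, Nat.cast_one]
  · rw [Pi.single_eq_of_ne hl, beq_ne (fun h2 => hl (R.hinj _ _ h2)), cond_false, Nat.cast_zero]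

theorem ext_bas [Fintype ι] [DecidableEq ι] (h : R.basOk = true) {f g : (ι → ZMod p) ≃ₗ[ZMod p] (ι → ZMod p)}
    (hfg : ∀ j < R.N, f (R.d (R.bas j)) = g (R.d (R.bas j))) : f = g := by
  apply LinearEquiv.toLinearMap_injective
  apply (Pi.basisFun (ZMod p) ι).ext
  intro i
  rw [Pi.basisFun_apply, ← R.d_bas h i]
  exact hfg _ (R.hpos i)

/-- base vectors as sums of two vectors of a family -/
def spanOk (A B : ℕ → ℕ) : Bool := alln (fun j => alln (fun l =>
  Nat.beq (Nat.mod (Nat.add (gt (A j) R.w R.m l) (gt (B j) R.w R.m l)) p) (Nat.mod (gt (R.bas j) R.w R.m l) p)) R.N) R.N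

theorem span_add {A B : ℕ → ℕ} (h : R.spanOk A B = true) {j : ℕ} (hj : j < R.N) :
    R.d (R.bas j) = R.d (A j) + R.d (B j) := by
  funext l
  have h1 := Sol.beq_iff.1 (alln_iff.1 (alln_iff.1 h _ hj) _ (R.hpos l))
  have h2 := (ZMod.natCast_eq_natCast_iff' _ _ p).2 h1
  show ((gt (R.bas j) R.w R.m (R.pos l) : ℕ) : ZMod p) = ((gt (A j) R.w R.m (R.pos l) : ℕ) : ZMod p) +
    ((gt (B j) R.w R.m (R.pos l) : ℕ) : ZMod p)
  rw [← h2, ← Nat.cast_add]
  rfl

theorem faithful [Fintype ι] [DecidableEq ι] (h0 : R.basOk = true) {A B : ℕ → ℕ} (h : R.spanOk A B = true)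
    {f : (ι → ZMod p) ≃ₗ[ZMod p] (ι → ZMod p)}
    (hA : ∀ j < R.N, f (R.d (A j)) = R.d (A j)) (hB : ∀ j < R.N, f (R.d (B j)) = R.d (B j)) : f = 1 := by
  apply R.ext_bas h0
  intro j hj
  rw [R.span_add h hj, map_add, hA j hj, hB j hj]
  rfl

/-- all vectors -/
def cod (t : ℕ) : ℕ := pk R.w (fun j => Nat.mod (Nat.div t (Nat.pow p j)) p) R.N

def allV (P : ℕ → Bool) : Bool := alln P (Nat.pow p R.N)

theorem exists_cod (v : ι → ZMod p) : ∃ t < p ^ R.N, R.d (R.cod t) = v := by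
  have hp0 : 0 < p := hp.out.pos
  have : NeZero p := ⟨hp0.ne'⟩
  choose s hs using R.hsur
  let f : Fin R.N → Fin p := fun j => ⟨(v (s j j.2)).val, ZMod.val_lt _⟩
  refine ⟨(finFunctionFinEquiv f : Fin (p ^ R.N)), (finFunctionFinEquiv f).2, ?_⟩
  funext i
  unfold cod
  refine (d_pk R (f := fun j => ((finFunctionFinEquiv f : Fin (p ^ R.N)) : ℕ) / p ^ j % p)
    (fun j _ => Nat.mod_lt _ hp0) i).trans ?_
  have h1 := congrFun (finFunctionFinEquiv.symm_apply_apply f) ⟨R.pos i, R.hpos i⟩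
  have h2 : ((finFunctionFinEquiv f : Fin (p ^ R.N)) : ℕ) / p ^ (R.pos i) % p = (v (s (R.pos i) (R.hpos i))).val :=
    congrArg Fin.val h1
  show (((finFunctionFinEquiv f : Fin (p ^ R.N)) : ℕ) / p ^ (R.pos i) % p : ℕ) = v i
  rw [h2, R.hinj _ _ (hs _ (R.hpos i)), ZMod.natCast_val, ZMod.cast_id', id]

theorem allV_spec {P : ℕ → Bool} (h : R.allV P = true) (v : ι → ZMod p) : ∃ t < p ^ R.N, R.d (R.cod t) = v ∧ P t = true := by
  obtain ⟨t, ht, h1⟩ := R.exists_cod v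
  exact ⟨t, ht, h1, alln_iff.1 h t ht⟩

/-! ### the group generated -/

variable (US : ℕ → List ℕ)

/-- reflections of a letter -/
def LT (l : ℕ) : List ℕ := cond (Nat.beq (Nat.mod l 2) 0) (US (Nat.div l 2)) (US (Nat.div l 2)).reverse

/-- action of a word on codes; the head is applied first -/
def wd : List ℕ → ℕ → ℕ
  | [], x => x
  | l :: v, x => frc (R.rfs (LT US l) x) fun y => wd v y

variable {US}

theorem lt_gp {g : ℕ → Om Q} {k : ℕ} (hg : ∀ i < k, (g i : (ι → ZMod p) ≃ₗ[ZMod p] (ι → ZMod p)) = R.gp (US i))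
    {l : ℕ} (hl : l < 2 * k) : ((H58SM.lt g l : Om Q) : (ι → ZMod p) ≃ₗ[ZMod p] (ι → ZMod p)) = R.gp (LT US l) := by
  unfold H58SM.lt LT
  by_cases h : l % 2 = 0
  · rw [if_pos h]
    show _ = R.gp (cond (Nat.beq (l % 2) 0) (US (l / 2)) (US (l / 2)).reverse)
    rw [h, hg _ (by omega)]; rfl
  · rw [if_neg h]
    show _ = R.gp (cond (Nat.beq (l % 2) 0) (US (l / 2)) (US (l / 2)).reverse)
    rw [beq_ne h, cond_false, ← gp_inv, ← hg _ (by omega)]; rfl

theorem ev_d {g : ℕ → Om Q} {k : ℕ} (hg : ∀ i < k, (g i : (ι → ZMod p) ≃ₗ[ZMod p] (ι → ZMod p)) = R.gp (US i))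
    {v : List ℕ} (hv : ∀ l ∈ v, l < 2 * k) (x : ℕ) :
    ((ev g v : Om Q) : (ι → ZMod p) ≃ₗ[ZMod p] (ι → ZMod p)) (R.d x) = R.d (R.wd US v x) := by
  induction v generalizing x with
  | nil => rfl
  | cons l v ih =>
    rw [ev_cons]
    show ((ev g v : Om Q) : (ι → ZMod p) ≃ₗ[ZMod p] (ι → ZMod p))
      (((H58SM.lt g l : Om Q) : (ι → ZMod p) ≃ₗ[ZMod p] (ι → ZMod p)) (R.d x)) = R.d (frc _ _)
    rw [R.lt_gp hg (hv l List.mem_cons_self), gp_d, ih (fun l hl => hv l (List.mem_cons_of_mem _ hl)), frc_eq]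

/-- forward check of a table -/
def fwdV (US : ℕ → List ℕ) (n k : ℕ) (T : ℕ → ℕ → ℕ) (VC : ℕ → ℕ) : Bool :=
  alln (fun i => alln (fun a => Nat.beq (R.rfs (US i) (VC a)) (VC (T (Nat.mul 2 i) a))) n) k

theorem fwdV_spec {n k : ℕ} {T : ℕ → ℕ → ℕ} {VC : ℕ → ℕ} (h : R.fwdV US n k T VC = true) {g : ℕ → Om Q}
    (hg : ∀ i < k, (g i : (ι → ZMod p) ≃ₗ[ZMod p] (ι → ZMod p)) = R.gp (US i)) :
    ∀ i < k, ∀ a < n, g i • R.d (VC a) = R.d (VC (T (2 * i) a)) := by
  intro i hi a ha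
  have h1 := Sol.beq_iff.1 (alln_iff.1 (alln_iff.1 h i hi) a ha)
  show (g i : (ι → ZMod p) ≃ₗ[ZMod p] (ι → ZMod p)) (R.d (VC a)) = _
  rw [hg i hi, gp_d, h1]
  rfl

/-- a table with a spanning tree: all vectors are images of the first one -/
def treeV (US : ℕ → List ℕ) (n k : ℕ) (pi pq : ℕ → ℕ) (VC : ℕ → ℕ) : Bool :=
  alln (fun b => cond (Nat.beq b 0) true (frc (pi b) fun i => frc (pq b) fun a => Nat.blt i k && (Nat.blt a b &&
    Nat.beq (R.rfs (US i) (VC a)) (VC b)))) n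

theorem treeV_spec {n k : ℕ} {pi pq : ℕ → ℕ} {VC : ℕ → ℕ} (h : R.treeV US n k pi pq VC = true) {g : ℕ → Om Q}
    (hg : ∀ i < k, (g i : (ι → ZMod p) ≃ₗ[ZMod p] (ι → ZMod p)) = R.gp (US i)) :
    ∀ b < n, ∃ y ∈ Subgroup.closure {z | ∃ i < k, z = g i}, y • R.d (VC 0) = R.d (VC b) := by
  intro b
  induction b using Nat.strong_induction_on with
  | _ b ih =>
    intro hb
    by_cases h0 : b = 0
    · subst h0; exact ⟨1, one_mem _, one_smul _ _⟩
    · have h1 := alln_iff.1 h b hb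
      rw [beq_ne h0, cond_false, frc_eq, frc_eq, Bool.and_eq_true, Bool.and_eq_true, Sol.blt_iff, Sol.blt_iff,
        Sol.beq_iff] at h1
      obtain ⟨h2, h3, h4⟩ := h1
      obtain ⟨y, hy, h5⟩ := ih _ h3 (h3.trans hb)
      refine ⟨g (pi b) * y, mul_mem (Subgroup.subset_closure ⟨_, h2, rfl⟩) hy, ?_⟩
      rw [mul_smul, h5]
      show (g (pi b) : (ι → ZMod p) ≃ₗ[ZMod p] (ι → ZMod p)) (R.d (VC (pq b))) = _
      rw [hg _ h2, gp_d, h4]

end RD

/-! ### subgroups of stabilizers -/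

section stab

universe u v

variable {F : Type u} [Field F] {V : Type v} [AddCommGroup V] [Module F V] [FiniteDimensional F V]
  {W : Type v} [AddCommGroup W] [Module F W] [FiniteDimensional F W] {Q : QuadraticForm F V} {Q' : QuadraticForm F W}

open Cfsg.Agent.Lib.OrthEmb67

theorem extHom_mem_Om (hQ' : Nd Q') {j : W →ₗ[F] V} (hj : ∀ x, Q (j x) = Q' x) {t : W ≃ₗ[F] W} (ht : t ∈ Om Q') :
    extHom Q hQ' j hj t ∈ Om Q := by
  have h1 : (Om Q').map (extHom Q hQ' j hj) ≤ Om Q := by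
    rw [Om, Subgroup.map_commutator]
    apply Subgroup.commutator_mono <;>
    · rintro _ ⟨s, hs, rfl⟩
      exact extHom_mem hQ' hj hs
  exact h1 ⟨t, ht, rfl⟩

/-- a subgroup of `Ω` containing the group of the subspace and of the right order is isomorphic to it -/
theorem equiv_stab [Finite (Om Q)] (hQ' : Nd Q') {j : W →ₗ[F] V} (hj : ∀ x, Q (j x) = Q' x) (S : Subgroup (Om Q))
    (hS : ∀ y : Om Q, (∃ t ∈ Om Q', (y : V ≃ₗ[F] V) = extHom Q hQ' j hj t) → y ∈ S)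
    (hcard : Nat.card S = Nat.card (Om Q' ⧸ Subgroup.center (Om Q'))) :
    Nonempty (S ≃* (Om Q' ⧸ Subgroup.center (Om Q'))) := by
  let f : Om Q' →* S :=
    { toFun := fun t => ⟨⟨extHom Q hQ' j hj t, extHom_mem_Om hQ' hj t.2⟩, hS _ ⟨t, t.2, rfl⟩⟩
      map_one' := Subtype.ext (Subtype.ext (map_one _))
      map_mul' := fun s t => Subtype.ext (Subtype.ext (map_mul _ _ _)) }
  have hf : Function.Injective f := by
    intro s t h
    have h1 : extHom Q hQ' j hj s = extHom Q hQ' j hj t :=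
      congrArg (fun y : S => ((y : Om Q) : V ≃ₗ[F] V)) h
    exact Subtype.ext (extHom_injective hQ' hj h1)
  haveI : Finite (Om Q') := Finite.of_injective f hf
  have h1 : Nat.card (Om Q') ≤ Nat.card S := Nat.card_le_card_of_injective f hf
  have hmk : Function.Surjective (QuotientGroup.mk' (Subgroup.center (Om Q'))) := QuotientGroup.mk'_surjective _
  have h2 : Nat.card (Om Q' ⧸ Subgroup.center (Om Q')) ≤ Nat.card (Om Q') := Nat.card_le_card_of_surjective _ hmk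
  have h3 : Function.Bijective f := (Nat.bijective_iff_injective_and_card f).2 ⟨hf, by omega⟩
  have h4 : Function.Bijective (QuotientGroup.mk' (Subgroup.center (Om Q'))) :=
    (Nat.bijective_iff_surjective_and_card _).2 ⟨hmk, by omega⟩
  exact ⟨(MulEquiv.ofBijective f h3).symm.trans (MulEquiv.ofBijective _ h4)⟩

end stab

/-! ### blocks -/

section blocks

variable {G X : Type*} [Group G] [MulAction G X] {g : ℕ → G} {k n0 n1 : ℕ} {e : ℕ → X} {T0 T1 : ℕ → ℕ → ℕ}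

/-- bit of a mask -/
def bt (M x : ℕ) : ℕ := Nat.land (Nat.shiftRight M x) 1

/-- the set of points given by a mask -/
def bset (n0 : ℕ) (e : ℕ → X) (M : ℕ) : Set X := {p | ∃ x < n0, bt M x = 1 ∧ p = e x}

def blkOk (k n0 n1 : ℕ) (T0 T1 : ℕ → ℕ → ℕ) (MB : ℕ → ℕ) : Bool :=
  alln (fun i => alln (fun a => frc (MB a) fun M => frc (MB (T1 (Nat.mul 2 i) a)) fun M' =>
    alln (fun x => Nat.beq (bt M x) (bt M' (T0 (Nat.mul 2 i) x))) n0) n1) k

open Pointwise in
theorem blk_spec {MB : ℕ → ℕ} (h : blkOk k n0 n1 T0 T1 MB = true) (hlt : ∀ l < 2 * k, ∀ x < n0, T0 l x < n0)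
    (hfwd : ∀ i < k, ∀ x < n0, g i • e x = e (T0 (2 * i) x)) (hbwd : ∀ i < k, ∀ x < n0, T0 (2 * i) (T0 (2 * i + 1) x) = x) :
    ∀ i < k, ∀ a < n1, g i • bset n0 e (MB a) = bset n0 e (MB (T1 (2 * i) a)) := by
  intro i hi a ha
  have h1 := alln_iff.1 (alln_iff.1 h i hi) a ha
  rw [frc_eq, frc_eq] at h1
  have h2 : ∀ x < n0, bt (MB a) x = bt (MB (T1 (2 * i) a)) (T0 (2 * i) x) := fun x hx =>
    Sol.beq_iff.1 (alln_iff.1 h1 x hx)
  ext q
  constructor
  · rintro ⟨_, ⟨x, hx, hb, rfl⟩, rfl⟩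
    exact ⟨T0 (2 * i) x, hlt _ (by omega) _ hx, by rw [← h2 x hx]; exact hb, hfwd i hi x hx⟩
  · rintro ⟨y, hy, hb, rfl⟩
    have hx := hlt (2 * i + 1) (by omega) y hy
    have h3 := hbwd i hi y hy
    refine ⟨e (T0 (2 * i + 1) y), ⟨_, hx, ?_, rfl⟩, ?_⟩
    · rw [h2 _ hx, h3]; exact hb
    · show g i • e (T0 (2 * i + 1) y) = e y
      rw [hfwd i hi _ hx, h3]

theorem bset_inj {n0 : ℕ} {e : ℕ → X} (he : ∀ x < n0, ∀ y < n0, e x = e y → x = y) {M M' : ℕ}
    (h : bset n0 e M = bset n0 e M') : ∀ x < n0, bt M x = bt M' x := by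
  have key : ∀ {M M' : ℕ}, bset n0 e M = bset n0 e M' → ∀ x < n0, bt M x = 1 → bt M' x = 1 := by
    intro M M' h x hx hb
    have h1 : e x ∈ bset n0 e M := ⟨x, hx, hb, rfl⟩
    rw [h] at h1
    obtain ⟨y, hy, hb', hxy⟩ := h1
    rwa [← he x hx y hy hxy] at hb'
  intro x hx
  have h01 : ∀ M : ℕ, bt M x = 0 ∨ bt M x = 1 := by
    intro M
    have h3 : bt M x = (M >>> x) % 2 := Nat.and_one_is_mod _
    omega
  rcases h01 M with h1 | h1 <;> rcases h01 M' with h2 | h2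
  · rw [h1, h2]
  · have := key h.symm x hx h2
    rw [h1] at this
    exact absurd this (by decide)
  · have := key h x hx h1
    rw [h2] at this
    exact absurd this (by decide)
  · rw [h1, h2]

/-- the masks differ -/
def neM (n0 M M' : ℕ) : Bool := !(alln (fun x => Nat.beq (bt M x) (bt M' x)) n0)

theorem neM_spec {n0 : ℕ} {e : ℕ → X} (he : ∀ x < n0, ∀ y < n0, e x = e y → x = y) {M M' : ℕ} (h : neM n0 M M' = true) :
    bset n0 e M ≠ bset n0 e M' := by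
  intro h1
  have h2 : alln (fun x => Nat.beq (bt M x) (bt M' x)) n0 = true := by
    rw [alln_iff]
    intro x hx
    exact Sol.beq_iff.2 (bset_inj he h1 x hx)
  unfold neM at h
  rw [h2] at h
  exact absurd h (by decide)

end blocks

end Cfsg.Agent.Lib.SMRefl
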