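import Mathlib

set_option autoImplicit false
set_option linter.unusedSectionVars false

/-!
Overgroups of the stabiliser of a pair of complementary totally singular subspaces, for
skew-hermitian forms (this covers symplectic forms in odd characteristic and hermitian forms).
-/

namespace Cfsg.Agent.Lib.TSPairH94

open Module

variable {F V : Type*} [Field F] [AddCommGroup V] [Module F V]

/-- nondegenerate skew-hermitian forms with nonzero trace -/
structure SH (σ : F →+* F) (h : V → V → F) : Prop where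
  inv : ∀ a, σ (σ a) = a
  add_left : ∀ x y z, h (x + y) z = h x z + h y z
  smul_left : ∀ (c : F) (x y : V), h (c • x) y = c * h x y
  skew : ∀ x y, h y x = -σ (h x y)
  nd : ∀ x, (∀ y, h x y = 0) → x = 0
  tr : ∃ τ, τ + σ τ ≠ 0

namespace SH
variable {σ : F →+* F} {h : V → V → F} (H : SH σ h)
include H

theorem add_right (x y z : V) : h x (y + z) = h x y + h x z := by
  rw [H.skew, H.add_left, map_add, H.skew x y, H.skew x z]
  simp only [map_neg, H.inv]
  ring

theorem smul_right (c : F) (x y : V) : h x (c • y) = σ c * h x y := by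
  rw [H.skew, H.smul_left, map_mul, H.skew x y]
  simp only [map_neg, H.inv]
  ring

theorem zero_left (y : V) : h 0 y = 0 := by
  have := H.smul_left 0 0 y; simpa using this

theorem zero_right (x : V) : h x 0 = 0 := by
  rw [H.skew, H.zero_left, map_zero, neg_zero]

theorem neg_left (x y : V) : h (-x) y = -h x y := by
  have := H.smul_left (-1) x y; simpa using this

theorem neg_right (x y : V) : h x (-y) = -h x y := by
  rw [H.skew, H.neg_left, map_neg, H.skew x y]
  simp only [map_neg, H.inv, neg_neg]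

theorem sub_left (x y z : V) : h (x - y) z = h x z - h y z := by
  rw [sub_eq_add_neg, H.add_left, H.neg_left, sub_eq_add_neg]

theorem sub_right (x y z : V) : h x (y - z) = h x y - h x z := by
  rw [sub_eq_add_neg, H.add_right, H.neg_right, sub_eq_add_neg]

theorem symm_zero {x y : V} (hxy : h x y = 0) : h y x = 0 := by
  rw [H.skew, hxy, map_zero, neg_zero]

theorem skew' (x y : V) : σ (h x y) = -h y x := by rw [H.skew x y, neg_neg]

/-- traces are all of the fixed field -/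
theorem exists_trace (c : F) (hc : σ c = c) : ∃ τ, τ + σ τ = c := by
  obtain ⟨τ, hτ⟩ := H.tr
  have h1 : σ (τ + σ τ) = τ + σ τ := by rw [map_add, H.inv]; ring
  refine ⟨c / (τ + σ τ) * τ, ?_⟩
  rw [map_mul, map_div₀, hc, h1]
  field_simp

/-- every functional is represented -/
theorem rep [Finite F] [FiniteDimensional F V] (φ : Dual F V) : ∃ y, ∀ x, h x y = φ x := by
  haveI : Finite V := Module.finite_of_finite F
  let Φ : V → Dual F V := fun y =>
    { toFun := fun x => h x y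
      map_add' := fun x x' => H.add_left x x' y
      map_smul' := fun c x => H.smul_left c x y }
  have hinj : Function.Injective Φ := by
    intro y y' hyy
    have h1 : y - y' = 0 := by
      apply H.nd
      intro x
      have h2 : h x y = h x y' := congrArg (fun f : Dual F V => f x) hyy
      rw [H.skew x, H.sub_right, h2, sub_self, map_zero, neg_zero]
    exact sub_eq_zero.1 h1
  let e : V ≃ₗ[F] Dual F V := LinearEquiv.ofFinrankEq V (Dual F V) (Subspace.dual_finrank_eq).symm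
  have hsurj : Function.Surjective Φ := (Finite.injective_iff_surjective_of_equiv e.toEquiv).1 hinj
  obtain ⟨y, hy⟩ := hsurj φ
  exact ⟨y, fun x => congrArg (fun f : Dual F V => f x) hy⟩

end SH

/-- the transvection with centre `v` lies in `M` -/
def T (h : V → V → F) (M : Subgroup (V ≃ₗ[F] V)) (v : V) (c : F) : Prop :=
  ∃ g ∈ M, ∀ x, g x = x + (c * h x v) • v

/-- the element `x ↦ x + h(x,a) y + h(x,y) a` lies in `M` -/
def R (h : V → V → F) (M : Subgroup (V ≃ₗ[F] V)) (a y : V) : Prop :=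
  ∃ g ∈ M, ∀ x, g x = x + h x a • y + h x y • a

section
variable {σ : F →+* F} {h : V → V → F} (H : SH σ h) {M : Subgroup (V ≃ₗ[F] V)}
  (hM : ∀ g ∈ M, ∀ x y, h (g x) (g y) = h x y)
include hM

theorem T.conj {v : V} {c : F} (ht : T h M v c) {g : V ≃ₗ[F] V} (hg : g ∈ M) : T h M (g v) c := by
  obtain ⟨t, htM, htx⟩ := ht
  refine ⟨g * t * g⁻¹, mul_mem (mul_mem hg htM) (inv_mem hg), fun x => ?_⟩
  obtain ⟨x, rfl⟩ := g.surjective x
  have : (g * t * g⁻¹) (g x) = g (t x) := by
    show (g * t * g⁻¹ * g) x = _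
    rw [inv_mul_cancel_right]; rfl
  rw [this, htx, hM g hg, map_add, LinearEquiv.map_smul]

theorem R.conj {a y : V} (hr : R h M a y) {g : V ≃ₗ[F] V} (hg : g ∈ M) : R h M (g a) (g y) := by
  obtain ⟨t, htM, htx⟩ := hr
  refine ⟨g * t * g⁻¹, mul_mem (mul_mem hg htM) (inv_mem hg), fun x => ?_⟩
  obtain ⟨x, rfl⟩ := g.surjective x
  have : (g * t * g⁻¹) (g x) = g (t x) := by
    show (g * t * g⁻¹ * g) x = _
    rw [inv_mul_cancel_right]; rfl
  rw [this, htx, hM g hg, hM g hg, map_add, map_add, LinearEquiv.map_smul, LinearEquiv.map_smul]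

end

theorem R.symm {h : V → V → F} {M : Subgroup (V ≃ₗ[F] V)} {a y : V} (hr : R h M a y) : R h M y a := by
  obtain ⟨t, htM, htx⟩ := hr
  exact ⟨t, htM, fun x => by rw [htx]; abel⟩

section
variable {σ : F →+* F} {h : V → V → F} (H : SH σ h) {M : Subgroup (V ≃ₗ[F] V)}
include H

/-- commutator of two `R` elements with the same centre -/
theorem T_of_R {a y y' : V} (haa : h a a = 0) (hay : h y a = 0) (hay' : h y' a = 0)
    (hyy : h y y = 0) (hyy' : h y' y' = 0) (hr : R h M a y) (hr' : R h M a y') :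
    T h M a (h y' y - h y y') := by
  obtain ⟨g, hg, hgx⟩ := hr
  obtain ⟨g', hg', hgx'⟩ := hr'
  have e1 : ∀ x, (g * g') x = x + h x a • (y' + y) + (h x y' + h x y + h x a * h y' y) • a := by
    intro x
    rw [LinearEquiv.mul_apply, hgx', hgx]
    simp only [H.add_left, H.smul_left, haa, hay', H.symm_zero hay]
    module
  have e2 : ∀ x, (g' * g) x = x + h x a • (y' + y) + (h x y' + h x y + h x a * h y y') • a := by
    intro x
    rw [LinearEquiv.mul_apply, hgx, hgx']
    simp only [H.add_left, H.smul_left, haa, hay, H.symm_zero hay']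
    module
  refine ⟨g * g' * (g' * g)⁻¹, mul_mem (mul_mem hg hg') (inv_mem (mul_mem hg' hg)), fun x => ?_⟩
  obtain ⟨x, rfl⟩ := (g' * g).surjective x
  have e3 : (g * g' * (g' * g)⁻¹) ((g' * g) x) = (g * g') x := by
    show (g * g' * (g' * g)⁻¹ * (g' * g)) x = _
    rw [inv_mul_cancel_right]
  rw [e3, e1, e2]
  simp only [H.add_left, H.smul_left, haa, hay, hay']
  module

end

/-- the configuration -/
structure Pair (σ : F →+* F) (h : V → V → F) (G M : Subgroup (V ≃ₗ[F] V)) (A B : Submodule F V) :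
    Prop where
  sh : SH σ h
  iso : ∀ g ∈ G, ∀ x y, h (g x) (g y) = h x y
  le : M ≤ G
  tv : ∀ v, h v v = 0 → ∀ c, σ c = c → T h G v c
  tsA : ∀ x ∈ A, ∀ y ∈ A, h x y = 0
  tsB : ∀ x ∈ B, ∀ y ∈ B, h x y = 0
  dec : ∀ v, ∃ a ∈ A, ∃ b ∈ B, a + b = v
  int : ∀ v, v ∈ A → v ∈ B → v = 0
  five : 5 ≤ finrank F A
  eqd : finrank F A = finrank F B
  stab : ∀ g ∈ G, (∀ a ∈ A, g a ∈ A) → (∀ b ∈ B, g b ∈ B) → g ∈ M
  swap : ∀ g ∈ G, (∀ a ∈ A, g a ∈ B) → (∀ b ∈ B, g b ∈ A) → g ∈ M

namespace Pair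
variable {σ : F →+* F} {h : V → V → F} {G M : Subgroup (V ≃ₗ[F] V)} {A B : Submodule F V}

theorem symm (P : Pair σ h G M A B) : Pair σ h G M B A where
  sh := P.sh
  iso := P.iso
  le := P.le
  tv := P.tv
  tsA := P.tsB
  tsB := P.tsA
  dec v := by
    obtain ⟨a, ha, b, hb, h1⟩ := P.dec v
    exact ⟨b, hb, a, ha, by rw [add_comm]; exact h1⟩
  int v hv hv' := P.int v hv' hv
  five := by rw [← P.eqd]; exact P.five
  eqd := P.eqd.symm
  stab g hg h1 h2 := P.stab g hg h2 h1
  swap g hg h1 h2 := P.swap g hg h2 h1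

variable [Finite F] [FiniteDimensional F V] (P : Pair σ h G M A B)
include P

theorem isoM : ∀ g ∈ M, ∀ x y, h (g x) (g y) = h x y := fun g hg => P.iso g (P.le hg)

/-- duality between `A` and `B` -/
theorem dual {C : Submodule F V} (hC : C ≤ A) {a : V} (ha : a ∈ A) (haC : a ∉ C) :
    ∃ b ∈ B, h a b = 1 ∧ ∀ c ∈ C, h c b = 0 := by
  have h1 : a ∉ C ⊔ B := by
    intro hmem
    obtain ⟨c, hc, b, hb, hcb⟩ := Submodule.mem_sup.1 hmem
    have h2 : b ∈ A := by
      have : b = a - c := by rw [← hcb]; abel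
      rw [this]; exact A.sub_mem ha (hC hc)
    have h3 := P.int b h2 hb
    rw [h3, add_zero] at hcb
    exact haC (hcb ▸ hc)
  obtain ⟨φ, hφa, hφ⟩ := Submodule.exists_le_ker_of_notMem h1
  obtain ⟨y, hy⟩ := P.sh.rep ((φ a)⁻¹ • φ)
  have hy0 : ∀ x ∈ C ⊔ B, h x y = 0 := by
    intro x hx
    rw [hy]
    have : φ x = 0 := hφ hx
    show (φ a)⁻¹ * φ x = 0
    rw [this, mul_zero]
  refine ⟨y, ?_, ?_, fun c hc => hy0 c (Submodule.mem_sup_left hc)⟩
  · obtain ⟨a', ha', b', hb', hab⟩ := P.dec y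
    have h2 : a' = 0 := by
      apply P.sh.nd
      intro z
      obtain ⟨a'', ha'', b'', hb'', rfl⟩ := P.dec z
      rw [P.sh.add_right, P.tsA _ ha' _ ha'', zero_add]
      have h3 := hy0 b'' (Submodule.mem_sup_right hb'')
      rw [← hab, P.sh.add_right, P.tsB _ hb'' _ hb', add_zero] at h3
      exact P.sh.symm_zero h3
    rw [h2, zero_add] at hab
    rw [← hab]; exact hb'
  · rw [hy]
    exact inv_mul_cancel₀ hφa

theorem Rab {a b : V} (ha : a ∈ A) (hb : b ∈ B) (hab : h a b = 0) :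
    ∃ g ∈ M, (∀ x, g x = x + h x a • b + h x b • a) := by
  have hba := P.sh.symm_zero hab
  have haa := P.tsA a ha a ha
  have hbb := P.tsB b hb b hb
  obtain ⟨g₁, hg₁, hx₁⟩ := P.tv (a + b) (by
    rw [P.sh.add_left, P.sh.add_right, P.sh.add_right, haa, hab, hba, hbb]; ring) 1 (map_one σ)
  obtain ⟨g₂, hg₂, hx₂⟩ := P.tv a haa (-1) (by rw [map_neg, map_one])
  obtain ⟨g₃, hg₃, hx₃⟩ := P.tv b hbb (-1) (by rw [map_neg, map_one])
  have hx : ∀ x, (g₁ * (g₂ * g₃)) x = x + h x a • b + h x b • a := by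
    intro x
    rw [LinearEquiv.mul_apply, LinearEquiv.mul_apply, hx₃, hx₂, hx₁]
    simp only [P.sh.add_left, P.sh.add_right, P.sh.smul_left, haa, hbb, hab, hba]
    module
  refine ⟨_, P.stab _ (mul_mem hg₁ (mul_mem hg₂ hg₃)) ?_ ?_, hx⟩
  · intro a' ha'
    rw [hx, P.tsA a' ha' a ha, zero_smul, add_zero]
    exact A.add_mem ha' (A.smul_mem _ ha)
  · intro b' hb'
    rw [hx, P.tsB b' hb' b hb, zero_smul, add_zero]
    exact B.add_mem hb' (B.smul_mem _ hb)

theorem RabR {a b : V} (ha : a ∈ A) (hb : b ∈ B) (hab : h a b = 0) : R h M a b := P.Rab ha hb hab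

/-- invariant subspaces of the group generated by the `R` elements -/
theorem eq_of_invariant {U : Submodule F V} (hU : finrank F U = finrank F A)
    (hinv : ∀ a ∈ A, ∀ b ∈ B, h a b = 0 → ∀ u ∈ U, h u a • b + h u b • a ∈ U) : U = A ∨ U = B := by
  have key : ∀ {A B : Submodule F V}, Pair σ h G M A B → finrank F U = finrank F B →
      (∀ a ∈ A, ∀ b ∈ B, h a b = 0 → ∀ u ∈ U, h u a • b + h u b • a ∈ U) →
      ∀ u ∈ U, u ∈ B → u ≠ 0 → U = B := by
    intro A B P hU hinv u hu huB hu0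
    have h1 : ∀ b ∈ B, b ∉ F ∙ u → b ∈ U := by
      intro b hb hbu
      -- a ∈ A with h(u,a)=1, h(b,a)=0
      have hub : u ∉ F ∙ b := by
        intro hmem
        obtain ⟨c, rfl⟩ := Submodule.mem_span_singleton.1 hmem
        have hc : c ≠ 0 := by rintro rfl; rw [zero_smul] at hu0; exact hu0 rfl
        apply hbu
        rw [Submodule.mem_span_singleton]
        exact ⟨c⁻¹, by rw [smul_smul, inv_mul_cancel₀ hc, one_smul]⟩
      obtain ⟨a, ha, h2, h3⟩ := P.symm.dual ((Submodule.span_singleton_le_iff_mem _ _).2 hb) huB hub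
      replace h3 := h3 b (Submodule.mem_span_singleton_self b)
      have h4 := hinv a ha b hb (P.sh.symm_zero h3) u hu
      rw [h2, P.tsB u huB b hb, one_smul, zero_smul, add_zero] at h4
      exact h4
    have h2 : B ≤ U := by
      intro b hb
      by_cases hbu : b ∈ F ∙ u
      · obtain ⟨c, rfl⟩ := Submodule.mem_span_singleton.1 hbu
        exact U.smul_mem _ hu
      · exact h1 b hb hbu
    exact (Submodule.eq_of_le_of_finrank_eq h2 hU.symm).symm
  have hU0 : U ≠ ⊥ := by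
    rintro rfl
    rw [finrank_bot] at hU
    have := P.five
    omega
  obtain ⟨u, hu, hu0⟩ := Submodule.exists_mem_ne_zero_of_ne_bot hU0
  obtain ⟨a₁, ha₁, b₁, hb₁, hab⟩ := P.dec u
  by_cases ha0 : a₁ = 0
  · right
    rw [ha0, zero_add] at hab
    exact key P (by rw [hU, P.eqd]) hinv u hu (hab ▸ hb₁) hu0
  by_cases hb0 : b₁ = 0
  · left
    rw [hb0, add_zero] at hab
    refine key P.symm hU ?_ u hu (hab ▸ ha₁) hu0
    intro b hb a ha hba u hu
    rw [add_comm]
    exact hinv a ha b hb (P.sh.symm_zero hba) u hu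
  · right
    -- b ∈ B, b ⊥ a₁, b ∉ ⟨b₁⟩
    obtain ⟨b, hb, hab₁, hbb⟩ : ∃ b ∈ B, h a₁ b = 0 ∧ b ∉ F ∙ b₁ := by
      by_contra hcon
      push Not at hcon
      -- the functional h(a₁,·) on B has kernel inside a line
      let φ : V →ₗ[F] F :=
        { toFun := fun x => h x a₁
          map_add' := fun x x' => P.sh.add_left x x' a₁
          map_smul' := fun c x => P.sh.smul_left c x a₁ }
      have h1 : finrank F ↥(B ⊓ LinearMap.ker φ) + 1 ≥ finrank F B := by
        have h2 := Submodule.finrank_sup_add_finrank_inf_eq B (LinearMap.ker φ)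
        have h3 := LinearMap.finrank_range_add_finrank_ker φ
        have h4 : finrank F (LinearMap.range φ) ≤ 1 := by
          have := Submodule.finrank_le (LinearMap.range φ)
          rwa [finrank_self] at this
        have h5 := Submodule.finrank_le (B ⊔ LinearMap.ker φ)
        omega
      have h2 : B ⊓ LinearMap.ker φ ≤ F ∙ b₁ := by
        rintro x ⟨hx, hx'⟩
        exact hcon x hx (P.sh.symm_zero hx')
      have h3 := Submodule.finrank_mono h2
      rw [finrank_span_singleton hb0] at h3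
      have h4 := P.five
      have h5 := P.eqd
      omega
    have hb0' : b ≠ 0 := by rintro rfl; exact hbb (Submodule.zero_mem _)
    have hb₁b : b₁ ∉ F ∙ b := by
      intro hmem
      obtain ⟨c, rfl⟩ := Submodule.mem_span_singleton.1 hmem
      have hc : c ≠ 0 := by rintro rfl; rw [zero_smul] at hb0; exact hb0 rfl
      apply hbb
      rw [Submodule.mem_span_singleton]
      exact ⟨c⁻¹, by rw [smul_smul, inv_mul_cancel₀ hc, one_smul]⟩
    obtain ⟨a, ha, h2, h3⟩ := P.symm.dual ((Submodule.span_singleton_le_iff_mem _ _).2 hb) hb₁ hb₁b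
    replace h3 := h3 b (Submodule.mem_span_singleton_self b)
    have h4 := hinv a ha b hb (P.sh.symm_zero h3) u hu
    rw [← hab, P.sh.add_left, P.sh.add_left, P.tsA a₁ ha₁ a ha, h2, hab₁, P.tsB b₁ hb₁ b hb, add_zero,
      zero_smul, zero_add, one_smul, add_zero] at h4
    exact key P (by rw [hU, P.eqd]) hinv b h4 hb hb0'

theorem finrank_inf_ker (U : Submodule F V) (w : V) :
    ∃ U' ≤ U, (∀ x ∈ U', h x w = 0) ∧ finrank F U ≤ finrank F U' + 1 := by
  let φ : V →ₗ[F] F :=
    { toFun := fun x => h x w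
      map_add' := fun x x' => P.sh.add_left x x' w
      map_smul' := fun c x => P.sh.smul_left c x w }
  refine ⟨U ⊓ LinearMap.ker φ, inf_le_left, fun x hx => hx.2, ?_⟩
  have h2 := Submodule.finrank_sup_add_finrank_inf_eq U (LinearMap.ker φ)
  have h3 := LinearMap.finrank_range_add_finrank_ker φ
  have h4 : finrank F (LinearMap.range φ) ≤ 1 := by
    have := Submodule.finrank_le (LinearMap.range φ)
    rwa [finrank_self] at this
  have h5 := Submodule.finrank_le (U ⊔ LinearMap.ker φ)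
  omega

theorem exists_T {x : V ≃ₗ[F] V} (hx : x ∈ M) {a' b' : V}
    (hxe : ∀ v, x v = v + h v a' • b' + h v b' • a') {b₀ : V} (hb₀ : b₀ ∈ B) (hxb : x b₀ ∉ B) :
    ∃ a ∈ A, a ≠ 0 ∧ ∀ c, σ c = c → T h M a c := by
  obtain ⟨U₁, hU₁, h₁, hd₁⟩ := P.finrank_inf_ker A a'
  obtain ⟨U₂, hU₂, h₂, hd₂⟩ := P.finrank_inf_ker U₁ b'
  obtain ⟨U₃, hU₃, h₃, hd₃⟩ := P.finrank_inf_ker U₂ b₀
  have hd := P.five
  have hU₃0 : U₃ ≠ ⊥ := by
    rintro rfl
    rw [finrank_bot] at hd₃
    omega
  obtain ⟨a₁, ha₁, ha₁0⟩ := Submodule.exists_mem_ne_zero_of_ne_bot hU₃0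
  obtain ⟨a₂, ha₂, ha₂1⟩ : ∃ a₂ ∈ U₃, a₂ ∉ F ∙ a₁ := by
    by_contra hcon
    push Not at hcon
    have := Submodule.finrank_mono (show U₃ ≤ F ∙ a₁ from hcon)
    rw [finrank_span_singleton ha₁0] at this
    omega
  have hprop : ∀ a ∈ U₃, a ∈ A ∧ x a = a ∧ h a b₀ = 0 := by
    intro a ha
    refine ⟨hU₁ (hU₂ (hU₃ ha)), ?_, h₃ a ha⟩
    rw [hxe, h₁ a (hU₂ (hU₃ ha)), h₂ a (hU₃ ha)]; simp
  obtain ⟨a, haU, ha0, hxa⟩ : ∃ a ∈ U₃, a ≠ 0 ∧ x b₀ ∉ B ⊔ F ∙ a := by
    by_contra hcon
    push Not at hcon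
    have ha₂0 : a₂ ≠ 0 := by rintro rfl; exact ha₂1 (Submodule.zero_mem _)
    obtain ⟨β₁, hβ₁, s₁, hs₁, e₁⟩ := Submodule.mem_sup.1 (hcon a₁ ha₁ ha₁0)
    obtain ⟨β₂, hβ₂, s₂, hs₂, e₂⟩ := Submodule.mem_sup.1 (hcon a₂ ha₂ ha₂0)
    obtain ⟨c₁, rfl⟩ := Submodule.mem_span_singleton.1 hs₁
    obtain ⟨c₂, rfl⟩ := Submodule.mem_span_singleton.1 hs₂
    have h4 : c₁ • a₁ - c₂ • a₂ = 0 := by
      apply P.int
      · exact A.sub_mem (A.smul_mem _ (hprop a₁ ha₁).1) (A.smul_mem _ (hprop a₂ ha₂).1)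
      · have : c₁ • a₁ - c₂ • a₂ = β₂ - β₁ := by
          have h5 : β₁ + c₁ • a₁ = β₂ + c₂ • a₂ := by rw [e₁, e₂]
          have h6 : c₁ • a₁ - c₂ • a₂ = (β₁ + c₁ • a₁) - (β₂ + c₂ • a₂) + β₂ - β₁ := by abel
          rw [h6, h5]; abel
        rw [this]; exact B.sub_mem hβ₂ hβ₁
    have hc₂ : c₂ = 0 := by
      by_contra hc
      apply ha₂1
      rw [Submodule.mem_span_singleton]
      refine ⟨c₂⁻¹ * c₁, ?_⟩
      rw [mul_smul, sub_eq_zero.1 h4, smul_smul, inv_mul_cancel₀ hc, one_smul]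
    rw [hc₂, zero_smul, add_zero] at e₂
    exact hxb (e₂ ▸ hβ₂)
  obtain ⟨haA, hxaa, hab₀⟩ := hprop a haU
  have hR := (P.RabR haA hb₀ hab₀).conj P.isoM hx
  rw [hxaa] at hR
  obtain ⟨yA, hyA, yB, hyB, hy⟩ := P.dec (x b₀)
  have hyAa : yA ∉ F ∙ a := by
    intro hmem
    apply hxa
    rw [← hy]
    exact Submodule.add_mem _ (Submodule.mem_sup_right hmem) (Submodule.mem_sup_left hyB)
  obtain ⟨b, hb, hyb, hab⟩ := P.dual ((Submodule.span_singleton_le_iff_mem _ _).2 haA) hyA hyAa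
  replace hab := hab a (Submodule.mem_span_singleton_self a)
  refine ⟨a, haA, ha0, fun c hc => ?_⟩
  obtain ⟨τ, hτ⟩ := P.sh.exists_trace (-c) (by rw [map_neg, hc])
  have hab' : h a (τ • b) = 0 := by rw [P.sh.smul_right, hab, mul_zero]
  have hR' := P.RabR haA (B.smul_mem τ hb) hab'
  have h5 := T_of_R P.sh (P.tsA a haA a haA) (y := x b₀) (y' := τ • b) ?_ (P.sh.symm_zero hab') ?_
    (P.tsB _ (B.smul_mem τ hb) _ (B.smul_mem τ hb)) hR hR'
  · have h6 : h (x b₀) (τ • b) = σ τ := by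
      rw [← hy, P.sh.add_left, P.tsB yB hyB _ (B.smul_mem τ hb), P.sh.smul_right, hyb]; ring
    have h7 : h (τ • b) (x b₀) = -τ := by
      rw [P.sh.skew (x b₀), h6, P.sh.inv]
    rw [h6, h7, show -τ - σ τ = c by linear_combination -hτ] at h5
    exact h5
  · have h6 := P.isoM x hx b₀ a
    rw [hxaa] at h6
    rw [h6]; exact P.sh.symm_zero hab₀
  · rw [P.isoM x hx]; exact P.tsB _ hb₀ _ hb₀

theorem T_A {a : V} (ha : a ∈ A) (ha0 : a ≠ 0) (hT : ∀ c, σ c = c → T h M a c) :
    ∀ a'' ∈ A, ∀ c, σ c = c → T h M a'' c := by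
  have key : ∀ a ∈ A, (∀ c, σ c = c → T h M a c) → ∀ a'' ∈ A, a ∉ F ∙ (a'' - a) →
      ∀ c, σ c = c → T h M a'' c := by
    intro a ha hT a'' ha'' hind c hc
    obtain ⟨b₁, hb₁, h1, h2⟩ := P.dual
      ((Submodule.span_singleton_le_iff_mem _ _).2 (A.sub_mem ha'' ha)) ha hind
    replace h2 := h2 _ (Submodule.mem_span_singleton_self _)
    obtain ⟨g, hg, hgx⟩ := P.Rab (A.sub_mem ha'' ha) hb₁ h2
    have h3 : g a = a'' := by
      rw [hgx, P.tsA a ha _ (A.sub_mem ha'' ha), h1]; simp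
    rw [← h3]
    exact (hT c hc).conj P.isoM hg
  have key' : ∀ a ∈ A, a ≠ 0 → (∀ c, σ c = c → T h M a c) → ∀ a'' ∈ A, a'' ∉ F ∙ a →
      ∀ c, σ c = c → T h M a'' c := by
    intro a ha ha0 hT a'' ha'' hind
    refine key a ha hT a'' ha'' fun hmem => hind ?_
    obtain ⟨c, hc⟩ := Submodule.mem_span_singleton.1 hmem
    have hc0 : c ≠ 0 := by rintro rfl; rw [zero_smul] at hc; exact ha0 hc.symm
    rw [Submodule.mem_span_singleton]
    refine ⟨1 + c⁻¹, ?_⟩
    rw [add_smul, one_smul]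
    conv_lhs => arg 2; rw [← hc]
    rw [smul_smul, inv_mul_cancel₀ hc0, one_smul]; abel
  intro a'' ha'' c hc
  by_cases ha''0 : a'' = 0
  · rw [ha''0]
    exact ⟨1, one_mem _, fun x => by rw [smul_zero, add_zero]; rfl⟩
  by_cases hmem : a'' ∈ F ∙ a
  · obtain ⟨a₃, ha₃, ha₃a⟩ : ∃ a₃ ∈ A, a₃ ∉ F ∙ a := by
      by_contra hcon
      push Not at hcon
      have := Submodule.finrank_mono (show A ≤ F ∙ a from hcon)
      rw [finrank_span_singleton ha0] at this
      have h5 := P.five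
      omega
    have h4 := key' a ha ha0 hT a₃ ha₃ ha₃a
    refine key' a₃ ha₃ ?_ h4 a'' ha'' ?_ c hc
    · rintro rfl; exact ha₃a (Submodule.zero_mem _)
    · intro h5
      obtain ⟨d, rfl⟩ := Submodule.mem_span_singleton.1 h5
      have hd : d ≠ 0 := by rintro rfl; rw [zero_smul] at ha''0; exact ha''0 rfl
      exact ha₃a ((Submodule.smul_mem_iff _ hd).1 hmem)
  · exact key' a ha ha0 hT a'' ha'' hmem c hc

/-- the element interchanging `A` and `B` -/
theorem exists_swap : ∃ s ∈ M, (∀ a ∈ A, s a ∈ B) ∧ (∀ b ∈ B, s b ∈ A) := by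
  let e₀ := finBasis F A
  let e : Fin (finrank F A) → V := fun i => (e₀ i : V)
  have heA : ∀ i, e i ∈ A := fun i => (e₀ i).2
  have hli : LinearIndependent F e := e₀.linearIndependent.map' A.subtype (Submodule.ker_subtype A)
  have hspan : Submodule.span F (Set.range e) = A := by
    have h1 := e₀.span_eq
    have h2 : Set.range e = A.subtype '' Set.range e₀ := by
      rw [← Set.range_comp]; rfl
    rw [h2, ← Submodule.map_span, h1, Submodule.map_top, Submodule.range_subtype]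
  have hf : ∀ i, ∃ f ∈ B, h (e i) f = 1 ∧ ∀ j, j ≠ i → h (e j) f = 0 := by
    intro i
    obtain ⟨f, hf, h1, h2⟩ := P.dual (C := Submodule.span F (e '' {j | j ≠ i})) (by
      rw [Submodule.span_le]
      rintro _ ⟨j, _, rfl⟩
      exact heA j) (heA i) (hli.notMem_span_image (by simp))
    exact ⟨f, hf, h1, fun j hj => h2 _ (Submodule.subset_span ⟨j, hj, rfl⟩)⟩
  choose f hfB hef hef' using hf
  have hw : ∀ i, ∃ w ∈ G, ∀ x, w x = x + (h x (e i) - h x (f i)) • e i + (h x (e i) + h x (f i)) • f i := by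
    intro i
    have hee := P.tsA _ (heA i) _ (heA i)
    have hff := P.tsB _ (hfB i) _ (hfB i)
    have hfe : h (f i) (e i) = -1 := by rw [P.sh.skew (e i), hef, map_one]
    obtain ⟨g₁, hg₁, hx₁⟩ := P.tv (e i) hee 1 (map_one σ)
    obtain ⟨g₂, hg₂, hx₂⟩ := P.tv (f i) hff 1 (map_one σ)
    refine ⟨g₁ * (g₂ * g₁), mul_mem hg₁ (mul_mem hg₂ hg₁), fun x => ?_⟩
    rw [LinearEquiv.mul_apply, LinearEquiv.mul_apply, hx₁, hx₂, hx₁]
    simp only [P.sh.add_left, P.sh.smul_left, hee, hff, hef, hfe]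
    module
  choose w hwG hwx using hw
  have hfe : ∀ i, h (f i) (e i) = -1 := fun i => by rw [P.sh.skew (e i), hef, map_one]
  have hfe' : ∀ i j, j ≠ i → h (f i) (e j) = 0 := fun i j hij => P.sh.symm_zero (hef' i j hij)
  have hww : ∀ i, w i (e i) = f i ∧ w i (f i) = -e i := by
    intro i
    rw [hwx, hwx, P.tsA _ (heA i) _ (heA i), P.tsB _ (hfB i) _ (hfB i), hef, hfe]
    constructor <;> module
  have hww' : ∀ i j, j ≠ i → w i (e j) = e j ∧ w i (f j) = f j := by
    intro i j hij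
    rw [hwx, hwx, P.tsA _ (heA j) _ (heA i), P.tsB _ (hfB j) _ (hfB i), hef' i j hij,
      hfe' j i (Ne.symm hij)]
    constructor <;> module
  have hlist : ∀ l : List (Fin (finrank F A)), l.Nodup → ∀ j,
      (l.map w).prod (e j) = (if j ∈ l then f j else e j) ∧
      (l.map w).prod (f j) = (if j ∈ l then -e j else f j) := by
    intro l
    induction l with
    | nil => intro _ j; simp
    | cons i l ih =>
      intro hnd j
      obtain ⟨h1, h2⟩ := List.nodup_cons.1 hnd
      obtain ⟨h3, h4⟩ := ih h2 j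
      rw [List.map_cons, List.prod_cons, LinearEquiv.mul_apply, LinearEquiv.mul_apply, h3, h4]
      by_cases hji : j = i
      · subst hji
        rw [if_neg h1, if_neg h1, if_pos List.mem_cons_self, if_pos List.mem_cons_self]
        exact hww j
      · obtain ⟨h5, h6⟩ := hww' i j hji
        by_cases hjl : j ∈ l
        · rw [if_pos hjl, if_pos hjl, if_pos (List.mem_cons_of_mem _ hjl),
            if_pos (List.mem_cons_of_mem _ hjl), map_neg, h5, h6]
          exact ⟨rfl, rfl⟩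
        · rw [if_neg hjl, if_neg hjl, if_neg (by simp [hji, hjl]), if_neg (by simp [hji, hjl]), h5, h6]
          exact ⟨rfl, rfl⟩
  set s := ((List.finRange (finrank F A)).map w).prod with hs
  have hsG : s ∈ G := by
    apply Subgroup.list_prod_mem
    intro g hg
    obtain ⟨i, _, rfl⟩ := List.mem_map.1 hg
    exact hwG i
  have hse : ∀ j, s (e j) = f j := fun j => by
    have := (hlist _ (List.nodup_finRange _) j).1
    rwa [if_pos (List.mem_finRange j)] at this
  have hsf : ∀ j, s (f j) = -e j := fun j => by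
    have := (hlist _ (List.nodup_finRange _) j).2
    rwa [if_pos (List.mem_finRange j)] at this
  have hsA : A.map s.toLinearMap ≤ B := by
    rw [← hspan, Submodule.map_span, Submodule.span_le]
    rintro _ ⟨_, ⟨j, rfl⟩, rfl⟩
    show s (e j) ∈ B
    rw [hse]; exact hfB j
  have hsA' : A.map s.toLinearMap = B := by
    apply Submodule.eq_of_le_of_finrank_eq hsA
    rw [← P.eqd]
    exact LinearEquiv.finrank_map_eq s A
  have hss : (A.map s.toLinearMap).map s.toLinearMap ≤ A := by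
    conv_lhs => rw [← hspan]
    rw [Submodule.map_span, Submodule.map_span, Submodule.span_le]
    rintro _ ⟨_, ⟨_, ⟨j, rfl⟩, rfl⟩, rfl⟩
    show s (s (e j)) ∈ A
    rw [hse, hsf]; exact A.neg_mem (heA j)
  have h1 : ∀ a ∈ A, s a ∈ B := fun a ha => hsA ⟨a, ha, rfl⟩
  have h2 : ∀ b ∈ B, s b ∈ A := by
    intro b hb
    rw [← hsA'] at hb
    exact hss ⟨b, hb, rfl⟩
  exact ⟨s, P.swap s hsG h1 h2, h1, h2⟩

theorem T_all (hA : ∀ a ∈ A, ∀ c, σ c = c → T h M a c) (hB : ∀ b ∈ B, ∀ c, σ c = c → T h M b c) :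
    ∀ v, h v v = 0 → ∀ c, σ c = c → T h M v c := by
  have key : ∀ a ∈ A, ∀ b ∈ B, h a b ≠ 0 → h (a + b) (a + b) = 0 → ∀ c, σ c = c → T h M (a + b) c := by
    intro a ha b hb hab hv c hc
    have h1 : σ (h a b) = h a b := by
      rw [P.sh.add_left, P.sh.add_right, P.sh.add_right, P.tsA a ha a ha, P.tsB b hb b hb,
        P.sh.skew a b] at hv
      linear_combination -hv
    obtain ⟨g, hg, hgx⟩ := hB b hb (h a b)⁻¹ (by rw [map_inv₀, h1])
    have h2 : g a = a + b := by rw [hgx, inv_mul_cancel₀ hab, one_smul]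
    rw [← h2]
    exact (hA a ha c hc).conj P.isoM hg
  intro v hv c hc
  obtain ⟨a, ha, b, hb, rfl⟩ := P.dec v
  by_cases hb0 : b = 0
  · rw [hb0, add_zero]; exact hA a ha c hc
  by_cases hab : h a b = 0
  · obtain ⟨a₂, ha₂, h1, -⟩ := P.symm.dual (C := ⊥) bot_le hb (by simpa using hb0)
    obtain ⟨g, hg, hgx⟩ := hA a₂ ha₂ 1 (map_one σ)
    have h2 : g (a + b) = (a + a₂) + b := by
      rw [hgx, P.sh.add_left, P.tsA a ha a₂ ha₂, h1, zero_add, mul_one, one_smul]; abel
    have h3 : h (a + a₂) b ≠ 0 := by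
      rw [P.sh.add_left, hab, zero_add, P.sh.skew b, h1, map_one]
      exact neg_ne_zero.2 one_ne_zero
    have h4 := key _ (A.add_mem ha ha₂) b hb h3 (by rw [← h2, P.isoM g hg, hv]) c hc
    rw [← h2] at h4
    have h5 := h4.conj P.isoM (inv_mem hg)
    have h6 : g⁻¹ (g (a + b)) = a + b := by
      show (g⁻¹ * g) (a + b) = _
      rw [inv_mul_cancel]; rfl
    rwa [h6] at h5
  · exact key a ha b hb hab hv c hc

/-- **Main theorem.** -/
theorem main (hex : ∃ g ∈ M, ¬ ((∀ a ∈ A, g a ∈ A) ∧ (∀ b ∈ B, g b ∈ B)) ∧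
      ¬ ((∀ a ∈ A, g a ∈ B) ∧ (∀ b ∈ B, g b ∈ A))) :
    ∀ v, h v v = 0 → ∀ c, σ c = c → T h M v c := by
  obtain ⟨g, hg, hg1, hg2⟩ := hex
  obtain ⟨s, hs, hsA, hsB⟩ := P.exists_swap
  have hor : (∃ a ∈ A, a ≠ 0 ∧ ∀ c, σ c = c → T h M a c) ∨
      (∃ b ∈ B, b ≠ 0 ∧ ∀ c, σ c = c → T h M b c) := by
    have hcomap : ∀ W : Submodule F V, finrank F (W.comap g.toLinearMap) = finrank F W := by
      intro W
      have h1 : (W.comap g.toLinearMap).map g.toLinearMap = W :=
        Submodule.map_comap_eq_of_surjective g.surjective W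
      conv_rhs => rw [← h1]
      exact (LinearEquiv.finrank_map_eq g _).symm
    have hstep : ∀ W : Submodule F V, ¬ (∀ a ∈ A, ∀ b ∈ B, h a b = 0 → ∀ u ∈ W.comap g.toLinearMap,
        h u a • b + h u b • a ∈ W.comap g.toLinearMap) →
        ∃ x ∈ M, ∃ a' b' : V, (∀ v, x v = v + h v a' • b' + h v b' • a') ∧ ∃ w ∈ W, x w ∉ W := by
      intro W hW
      push Not at hW
      obtain ⟨a, ha, b, hb, hab, u, hu, hu'⟩ := hW
      obtain ⟨r, hr, hrx⟩ := P.Rab ha hb hab
      refine ⟨g * r * g⁻¹, mul_mem (mul_mem hg hr) (inv_mem hg), g a, g b, ?_, g u, hu, ?_⟩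
      · intro v
        obtain ⟨v, rfl⟩ := g.surjective v
        have : (g * r * g⁻¹) (g v) = g (r v) := by
          show (g * r * g⁻¹ * g) v = _
          rw [inv_mul_cancel_right]; rfl
        rw [this, hrx, P.isoM g hg, P.isoM g hg, map_add, map_add, LinearEquiv.map_smul,
          LinearEquiv.map_smul]
      · have : (g * r * g⁻¹) (g u) = g (r u) := by
          show (g * r * g⁻¹ * g) u = _
          rw [inv_mul_cancel_right]; rfl
        rw [this, hrx]
        intro hmem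
        apply hu'
        have h1 : g (u + h u a • b + h u b • a) - g u ∈ W := W.sub_mem hmem hu
        rw [← map_sub] at h1
        have e1 : u + h u a • b + h u b • a - u = h u a • b + h u b • a := by abel
        rw [e1] at h1
        exact h1
    by_cases hA : ∀ a ∈ A, ∀ b ∈ B, h a b = 0 → ∀ u ∈ A.comap g.toLinearMap,
        h u a • b + h u b • a ∈ A.comap g.toLinearMap
    · by_cases hB : ∀ a ∈ A, ∀ b ∈ B, h a b = 0 → ∀ u ∈ B.comap g.toLinearMap,
          h u a • b + h u b • a ∈ B.comap g.toLinearMap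
      · exfalso
        have hne : A ≠ B := by
          intro heq
          have h5 := P.five
          obtain ⟨a, ha, ha0⟩ := Submodule.exists_mem_ne_zero_of_ne_bot (show A ≠ ⊥ by
            intro h0; rw [h0, finrank_bot] at h5; omega)
          exact ha0 (P.int a ha (heq ▸ ha))
        have hne' : A.comap g.toLinearMap ≠ B.comap g.toLinearMap := fun heq =>
          hne (Submodule.comap_injective_of_surjective g.surjective heq)
        rcases P.eq_of_invariant (hcomap A) hA with h1 | h1 <;>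
          rcases P.eq_of_invariant (by rw [hcomap B, P.eqd]) hB with h2 | h2
        · exact hne' (h1.trans h2.symm)
        · exact hg1 ⟨fun a ha => by rw [← h1] at ha; exact ha, fun b hb => by rw [← h2] at hb; exact hb⟩
        · exact hg2 ⟨fun a ha => by rw [← h2] at ha; exact ha, fun b hb => by rw [← h1] at hb; exact hb⟩
        · exact hne' (h1.trans h2.symm)
      · obtain ⟨x, hx, a', b', hxe, w, hw, hxw⟩ := hstep B hB
        exact Or.inl (P.exists_T hx hxe hw hxw)
    · obtain ⟨x, hx, a', b', hxe, w, hw, hxw⟩ := hstep A hA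
      exact Or.inr (P.symm.exists_T hx hxe hw hxw)
  have hAall : ∀ a ∈ A, ∀ c, σ c = c → T h M a c := by
    rcases hor with ⟨a, ha, ha0, hT⟩ | ⟨b, hb, hb0, hT⟩
    · exact P.T_A ha ha0 hT
    · exact P.T_A (hsB b hb) (by simpa using hb0) fun c hc => (hT c hc).conj P.isoM hs
  have hBall : ∀ b ∈ B, ∀ c, σ c = c → T h M b c := by
    rcases hor with ⟨a, ha, ha0, hT⟩ | ⟨b, hb, hb0, hT⟩
    · exact P.symm.T_A (hsA a ha) (by simpa using ha0) fun c hc => (hT c hc).conj P.isoM hs
    · exact P.symm.T_A hb hb0 hT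
  exact P.T_all hAall hBall

/-- some element of `G` does not permute `A` and `B` -/
theorem exists_not : ∃ g ∈ G, ¬ ((∀ a ∈ A, g a ∈ A) ∧ (∀ b ∈ B, g b ∈ B)) ∧
      ¬ ((∀ a ∈ A, g a ∈ B) ∧ (∀ b ∈ B, g b ∈ A)) := by
  have hA0 : A ≠ ⊥ := by
    intro h0
    have h5 := P.five
    rw [h0, finrank_bot] at h5; omega
  obtain ⟨a, ha, ha0⟩ := Submodule.exists_mem_ne_zero_of_ne_bot hA0
  obtain ⟨b, hb, hab, -⟩ := P.dual (C := ⊥) bot_le ha (by simpa using ha0)
  have hb0 : b ≠ 0 := by rintro rfl; rw [P.sh.zero_right] at hab; exact zero_ne_one hab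
  obtain ⟨U, hU, hUb, hUd⟩ := P.finrank_inf_ker A b
  have hU0 : U ≠ ⊥ := by
    intro h0
    have h5 := P.five
    rw [h0, finrank_bot] at hUd; omega
  obtain ⟨x, hx, hx0⟩ := Submodule.exists_mem_ne_zero_of_ne_bot hU0
  have haa := P.tsA a ha a ha
  have hbb := P.tsB b hb b hb
  have hba : h b a = -1 := by rw [P.sh.skew a, hab, map_one]
  obtain ⟨g, hg, hgx⟩ := P.tv (a + b) (by
    rw [P.sh.add_left, P.sh.add_right, P.sh.add_right, haa, hab, hba, hbb]; ring) 1 (map_one σ)
  refine ⟨g, hg, ?_, ?_⟩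
  · rintro ⟨h1, -⟩
    have h2 := h1 a ha
    rw [hgx, P.sh.add_right, haa, hab, zero_add, mul_one, one_smul] at h2
    have h3 : b ∈ A := by
      have := A.sub_mem (A.sub_mem h2 ha) ha
      have e : a + (a + b) - a - a = b := by abel
      rwa [e] at this
    exact hb0 (P.int b h3 hb)
  · rintro ⟨h1, -⟩
    have h2 := h1 x (hU hx)
    rw [hgx, P.sh.add_right, P.tsA x (hU hx) a ha, hUb x hx, add_zero, mul_zero, zero_smul, add_zero] at h2
    exact hx0 (P.int x (hU hx) h2)

end Pair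

/-- permutations of two subspaces of equal dimension -/
theorem perm_iff [FiniteDimensional F V] {D : Fin 2 → Submodule F V}
    (hd : finrank F (D 0) = finrank F (D 1)) (g : V ≃ₗ[F] V) :
    (∃ σ : Equiv.Perm (Fin 2), ∀ i, (D i).map g.toLinearMap = D (σ i)) ↔
      ((∀ a ∈ D 0, g a ∈ D 0) ∧ (∀ b ∈ D 1, g b ∈ D 1)) ∨
      ((∀ a ∈ D 0, g a ∈ D 1) ∧ (∀ b ∈ D 1, g b ∈ D 0)) := by
  have key : ∀ i : Fin 2, i = 0 ∨ i = 1 := by decide
  constructor
  · rintro ⟨σ, hσ⟩
    rcases key (σ 0) with h0 | h0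
    · have h1 : σ 1 = 1 := by
        rcases key (σ 1) with h1 | h1
        · exact absurd (σ.injective (h0.trans h1.symm)) (by decide)
        · exact h1
      left
      constructor
      · intro a ha; have := hσ 0; rw [h0] at this; rw [← this]; exact ⟨a, ha, rfl⟩
      · intro a ha; have := hσ 1; rw [h1] at this; rw [← this]; exact ⟨a, ha, rfl⟩
    · have h1 : σ 1 = 0 := by
        rcases key (σ 1) with h1 | h1
        · exact h1
        · exact absurd (σ.injective (h0.trans h1.symm)) (by decide)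
      right
      constructor
      · intro a ha; have := hσ 0; rw [h0] at this; rw [← this]; exact ⟨a, ha, rfl⟩
      · intro a ha; have := hσ 1; rw [h1] at this; rw [← this]; exact ⟨a, ha, rfl⟩
  · have hmap : ∀ {W W' : Submodule F V}, finrank F W = finrank F W' → (∀ a ∈ W, g a ∈ W') →
        W.map g.toLinearMap = W' := by
      intro W W' hd h
      apply Submodule.eq_of_le_of_finrank_eq
      · rintro _ ⟨a, ha, rfl⟩; exact h a ha
      · rw [← hd]; exact LinearEquiv.finrank_map_eq g W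
    rintro (⟨h1, h2⟩ | ⟨h1, h2⟩)
    · refine ⟨1, fun i => ?_⟩
      rcases key i with rfl | rfl
      · exact hmap rfl h1
      · exact hmap rfl h2
    · refine ⟨Equiv.swap 0 1, fun i => ?_⟩
      rcases key i with rfl | rfl
      · rw [Equiv.swap_apply_left]; exact hmap hd h1
      · rw [Equiv.swap_apply_right]; exact hmap hd.symm h2

theorem dec_of {D : Fin 2 → Submodule F V} (hi : iSupIndep D) (hs : iSup D = ⊤) :
    (∀ v, ∃ a ∈ D 0, ∃ b ∈ D 1, a + b = v) ∧ ∀ v, v ∈ D 0 → v ∈ D 1 → v = 0 := by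
  constructor
  · intro v
    have h1 : iSup D = D 0 ⊔ D 1 := by
      apply le_antisymm
      · apply iSup_le
        have key : ∀ i : Fin 2, i = 0 ∨ i = 1 := by decide
        intro i
        rcases key i with rfl | rfl
        · exact le_sup_left
        · exact le_sup_right
      · exact sup_le (le_iSup D 0) (le_iSup D 1)
    have h2 : v ∈ D 0 ⊔ D 1 := by rw [← h1, hs]; trivial
    exact Submodule.mem_sup.1 h2
  · intro v h0 h1
    have h2 := (hi.pairwiseDisjoint (by decide : (0 : Fin 2) ≠ 1)).eq_bot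
    have h3 : v ∈ D 0 ⊓ D 1 := ⟨h0, h1⟩
    rw [h2] at h3
    exact h3

end Cfsg.Agent.Lib.TSPairH94
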