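import Cfsg.Prelude.Def_GeometricClasses
import Cfsg.Agent.Lib.UnMax
import Cfsg.Agent.Lib.UnBridge
import Cfsg.Agent.Lib.GeoBridge
import Cfsg.Agent.Lib.TSPairH94


set_option autoImplicit false
open Cfsg

/-! Dimension at least twelve versions of S5653, S5654, S5657 (helper86). -/

namespace Cfsg.Agent.Lib.SU12

section


open Cfsg.Agent.Lib.UnTrans Cfsg.Agent.Lib.UnMax Cfsg.Agent.Lib.GeoBridge Cfsg.Agent.Lib.UnBridge


theorem it1 {F : Type*} [Field F] [Fintype F] (n q : ℕ) (hF : Fintype.card F = q ^ 2) (hn : 12 ≤ n) (W : Submodule F (Fin n → F)) (hW0 : W ≠ ⊥) (hW : Cfsg.Geo.IsTotallySingularFor (Cfsg.hermForm n F q) W) : Cfsg.Geo.IsMaximalIn (Cfsg.GU n F q ⊓ Cfsg.Geo.specialLinear (Fin n) F) (Cfsg.Geo.subspaceStabilizer W ⊓ (Cfsg.GU n F q ⊓ Cfsg.Geo.specialLinear (Fin n) F)) := by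
  have H := herm_HS n hF
  have hnd := herm_nd n hF
  have hWs : ∀ u ∈ W, ∀ v ∈ W, hermForm n F q u v = 0 := hW
  have hdim : 4 ≤ Module.finrank F (Fin n → F) := by rw [Module.finrank_fin_fun]; omega
  apply SU_max_of n (P := fun g => ∀ w ∈ W, g w ∈ W) (fun g => mem_subspaceStabilizer_iff' W g)
  · obtain ⟨w, hw, hw0⟩ := W.ne_bot_iff.1 hW0
    obtain ⟨v, -, hwv⟩ := hnd w trivial hw0
    obtain ⟨a, ha⟩ := H.exists_add_norm (hWs w hw w hw) hwv (map_zero _)
    obtain ⟨τ, hτ0, hτ⟩ := H.exists_tr0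
    refine ⟨tv H _ ha τ hτ, tv_mem H _ _ _ _, tv_det H _ _ _ _, fun h => ?_⟩
    have h1 := h w hw
    have h2 : hermForm n F q w (v + a • w) ≠ 0 := by
      rw [H.add_right, H.smul_right, hWs w hw w hw, mul_zero, add_zero]; exact hwv
    rw [tv_apply] at h1
    have h3 := W.sub_mem h1 hw
    rw [add_sub_cancel_left] at h3
    have h4 := hWs w hw _ h3
    rw [H.smul_right] at h4
    rcases mul_eq_zero.1 h4 with h5 | h5
    · exact H.sigma_ne (mul_ne_zero hτ0 h2) h5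
    · exact h2 h5
  · intro M hM hH _ hex
    refine ts_stab_max H hnd hdim hWs hM hH ?_
    obtain ⟨g, hg, h⟩ := hex
    push Not at h
    exact ⟨g, hg, h⟩


end

section


open Cfsg.Agent.Lib.UnTrans Cfsg.Agent.Lib.UnMax Cfsg.Agent.Lib.GeoBridge Cfsg.Agent.Lib.UnBridge


theorem it2 {F : Type*} [Field F] [Fintype F] (n q : ℕ) (hF : Fintype.card F = q ^ 2) (hn : 12 ≤ n) (W : Submodule F (Fin n → F)) (hW0 : W ≠ ⊥) (hW : Cfsg.Geo.IsNondegenerateOn (Cfsg.hermForm n F q) W) (hdim : 2 * Module.finrank F W < n) : Cfsg.Geo.IsMaximalIn (Cfsg.GU n F q ⊓ Cfsg.Geo.specialLinear (Fin n) F) (Cfsg.Geo.subspaceStabilizer W ⊓ (Cfsg.GU n F q ⊓ Cfsg.Geo.specialLinear (Fin n) F)) := by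
  have H := herm_HS n hF
  have hnd := herm_nd n hF
  have hWn : Nd (hermForm n F q) W := fun x hx hx0 => (hW x hx hx0).2
  have hfr : Module.finrank F (Fin n → F) = n := Module.finrank_fin_fun F
  have hdim : 4 ≤ Module.finrank F (Fin n → F) := by omega
  have hp := finrank_perp H hWn
  have h4 : 4 ≤ Module.finrank F (perp H W) := by omega
  apply SU_max_of n (P := fun g => ∀ w ∈ W, g w ∈ W) (fun g => mem_subspaceStabilizer_iff' W g)
  · obtain ⟨z1, hz1, hz11⟩ : ∃ z ∈ W, hermForm n F q z z ≠ 0 := by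
      by_contra hcon
      push Not at hcon
      obtain ⟨w, hw, hw0⟩ := W.ne_bot_iff.1 hW0
      obtain ⟨y, hy, hwy⟩ := hWn w hw hw0
      exact hwy (H.eq_zero_of_iso hcon hw hy)
    obtain ⟨c, hc, -, hcc, d, hd, -, hcd⟩ := H.exists_hyp (nd_perp H hnd hWn) h4 (Submodule.zero_mem _)
    obtain ⟨z2, hz2, ha⟩ : ∃ z2 ∈ perp H W, hermForm n F q z2 z2 = -(hermForm n F q z1 z1) := by
      obtain ⟨a, ha⟩ := H.exists_add_norm (u := d) hcc hcd (c := -(hermForm n F q z1 z1))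
        (by rw [map_neg, H.self_fixed])
      exact ⟨_, Submodule.add_mem _ hd (Submodule.smul_mem _ _ hc), ha⟩
    obtain ⟨τ, hτ0, hτ⟩ := H.exists_tr0
    have hz12 : hermForm n F q z1 z2 = 0 := perp_symm H hz2 hz1
    have hz : hermForm n F q (z1 + z2) (z1 + z2) = 0 := by
      rw [H.add_left, H.add_right, H.add_right, ha, hz12, hz2 z1 hz1]; ring
    refine ⟨tv H _ hz τ hτ, tv_mem H _ _ _ _, tv_det H _ _ _ _, fun h => ?_⟩
    have h1 := h z1 hz1
    rw [tv_apply] at h1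
    have h3 := W.sub_mem h1 hz1
    rw [add_sub_cancel_left, H.add_right, hz12, add_zero] at h3
    have h4 := W.smul_mem (τ * hermForm n F q z1 z1)⁻¹ h3
    rw [smul_smul, inv_mul_cancel₀ (mul_ne_zero hτ0 hz11), one_smul] at h4
    have h5 : z2 ∈ W := by
      have := W.sub_mem h4 hz1
      simpa using this
    have h6 := inf_perp H hWn h5 hz2
    rw [h6, H.zero_left] at ha
    exact hz11 (neg_eq_zero.1 ha.symm)
  · intro M hM hH _ hex
    refine nd_stab_max H hnd hdim hWn (by omega) h4 hM hH ?_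
    obtain ⟨g, hg, h⟩ := hex
    push Not at h
    exact ⟨g, hg, h⟩


end

section


open Cfsg.Agent.Lib.UnTrans Cfsg.Agent.Lib.UnBridge Cfsg.Agent.Lib.GeoBridge Cfsg.Agent.Lib.TSPairH94
open Cfsg.Agent.Lib.SpTrans (isom mem_isom)


theorem it8 {F : Type*} [Field F] [Fintype F] (n q : ℕ) (hF : Fintype.card F = q ^ 2) (hn : 12 ≤ n) (k : ℕ) (hk : 2 * k = n) (D : Fin 2 → Submodule F (Fin n → F)) (hD : Cfsg.Geo.IsMDecomposition k D) (hts : ∀ i, Cfsg.Geo.IsTotallySingularFor (Cfsg.hermForm n F q) (D i)) : Cfsg.Geo.IsMaximalIn (Cfsg.GU n F q ⊓ Cfsg.Geo.specialLinear (Fin n) F) (Cfsg.Geo.decompositionStabilizer D ⊓ (Cfsg.GU n F q ⊓ Cfsg.Geo.specialLinear (Fin n) F)) := by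
  have H := herm_HS n hF
  have hnd := herm_nd n hF
  have hfr : Module.finrank F (Fin n → F) = n := Module.finrank_fin_fun F
  obtain ⟨δ, hδ0, hδ⟩ := H.exists_tr0
  have hδ' : sig hF δ = -δ := by linear_combination hδ
  obtain ⟨hdec, hint⟩ := dec_of hD.indep hD.iSup_eq_top
  let G : Subgroup ((Fin n → F) ≃ₗ[F] (Fin n → F)) :=
    isom (Cfsg.hermForm n F q) ⊓ (LinearEquiv.det (R := F) (M := Fin n → F)).ker
  have hGmem : ∀ g, g ∈ G ↔ g ∈ isom (Cfsg.hermForm n F q) ∧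
      LinearMap.det ((g : (Fin n → F) ≃ₗ[F] (Fin n → F)) : (Fin n → F) →ₗ[F] (Fin n → F)) = 1 := by
    intro g
    rw [Subgroup.mem_inf, MonoidHom.mem_ker, ← Units.val_inj, LinearEquiv.coe_det]; rfl
  have P0 : ∀ M : Subgroup ((Fin n → F) ≃ₗ[F] (Fin n → F)), M ≤ G →
      (∀ g ∈ G, (∀ a ∈ D 0, g a ∈ D 0) → (∀ b ∈ D 1, g b ∈ D 1) → g ∈ M) →
      (∀ g ∈ G, (∀ a ∈ D 0, g a ∈ D 1) → (∀ b ∈ D 1, g b ∈ D 0) → g ∈ M) →
      Pair (sig hF) (fun x y => δ * Cfsg.hermForm n F q x y) G M (D 0) (D 1) := by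
    intro M hM h1 h3
    refine ⟨⟨H.inv, fun x y z => by rw [H.add_left]; ring, fun c x y => by rw [H.smul_left]; ring,
      fun x y => by rw [map_mul, hδ', ← H.herm]; ring, ?_, ?_⟩,
      fun g hg x y => by rw [(hGmem g).1 hg |>.1 x y], hM, ?_,
      fun x hx y hy => by rw [hts 0 x hx y hy, mul_zero], fun x hx y hy => by rw [hts 1 x hx y hy, mul_zero],
      hdec, hint, ?_, ?_, h1, h3⟩
    · intro x hx
      by_contra hx0
      obtain ⟨y, -, hy⟩ := hnd x trivial hx0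
      exact hy ((mul_eq_zero.1 (hx y)).resolve_left hδ0)
    · obtain ⟨τ, hτ⟩ := H.exists_trace 1 (map_one _)
      exact ⟨τ, by rw [hτ]; exact one_ne_zero⟩
    · intro v hv c hc
      have hv' : Cfsg.hermForm n F q v v = 0 := (mul_eq_zero.1 hv).resolve_left hδ0
      have hc' : c * δ + sig hF (c * δ) = 0 := by rw [map_mul, hc, hδ']; ring
      refine ⟨tv H v hv' (c * δ) hc', (hGmem _).2 ⟨tv_mem H _ _ _ _, tv_det H _ _ _ _⟩, fun x => ?_⟩
      rw [tv_apply, mul_assoc]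
    · rw [hD.finrank_eq]; omega
    · rw [hD.finrank_eq, hD.finrank_eq]
  have hdd : Module.finrank F (D 0) = Module.finrank F (D 1) := by rw [hD.finrank_eq, hD.finrank_eq]
  refine SU_max_of n (P := fun g => ∃ σ : Equiv.Perm (Fin 2), ∀ i, (D i).map g.toLinearMap = D (σ i))
    (mem_decompositionStabilizer_iff D) ?_ ?_
  · obtain ⟨g, hg, hg1, hg2⟩ := (P0 _ le_rfl (fun g hg _ _ => hg) (fun g hg _ _ => hg)).exists_not
    refine ⟨g, ((hGmem g).1 hg).1, ((hGmem g).1 hg).2, fun hcon => ?_⟩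
    rcases (perm_iff hdd g).1 hcon with h4 | h4
    · exact hg1 h4
    · exact hg2 h4
  · intro M hM hH hdet ⟨x, hx, hxP⟩ g hg hgd
    have P := P0 M (fun y hy => (hGmem y).2 ⟨hM hy, hdet y hy⟩)
      (fun y hy h1 h3 => hH y ((hGmem y).1 hy).1 ((hGmem y).1 hy).2 ((perm_iff hdd y).2 (Or.inl ⟨h1, h3⟩)))
      (fun y hy h1 h3 => hH y ((hGmem y).1 hy).1 ((hGmem y).1 hy).2 ((perm_iff hdd y).2 (Or.inr ⟨h1, h3⟩)))
    have hall := P.main (by
      refine ⟨x, hx, ?_⟩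
      rw [← not_or, ← perm_iff hdd]
      exact hxP)
    have h5 : tgrp H (⊤ : Submodule F (Fin n → F)) ≤ M := by
      rw [tgrp, Subgroup.closure_le]
      rintro t ⟨w, -, hw, a, ha, rfl⟩
      obtain ⟨t, ht, htx⟩ := hall w (by rw [hw, mul_zero]) (a / δ) (by
        rw [map_div₀, hδ', show sig hF a = -a by linear_combination ha, neg_div_neg_eq])
      have : tv H w hw a ha = t := by
        apply LinearEquiv.ext
        intro x
        rw [tv_apply, htx, ← mul_assoc, div_mul_cancel₀ _ hδ0]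
      rw [this]; exact ht
    exact h5 (su_le H hnd (by omega) hg hgd)


end

end Cfsg.Agent.Lib.SU12
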