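import Cfsg.Prelude.Def_GeometricClasses
import Cfsg.Agent.Lib.SubfUnT5
import Cfsg.Agent.Lib.UnBridge
import Cfsg.Agent.S5650


set_option autoImplicit false
open Cfsg

/-! Dimension at least twelve versions of S5658 (helper86). -/

namespace Cfsg.Agent.Lib.SU12

section


open Matrix Cfsg.Geo Cfsg.Agent.Lib Cfsg.Agent.Lib.SubfUnT Cfsg.Agent.Lib.SubfieldGeo Cfsg.Agent.Lib.GeoBridge
  Cfsg.Agent.Lib.UnTrans Cfsg.Agent.Lib.UnBridge
open Cfsg.Agent.Lib.SpTrans (isom mem_isom)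
open Cfsg.Agent.S5650 (ratS mem_ratS finrank_ratS range_par)
open scoped MatrixGroups

theorem it12 {F : Type*} [Field F] [Fintype F] (n q : ℕ) (hF : Fintype.card F = q ^ 2) (hn : 12 ≤ n) (F₀ : Subfield F) (r : ℕ) (hr : r.Prime) (hro : Odd r) (hcard : Fintype.card F = Nat.card F₀ ^ r) (P : Matrix.GeneralLinearGroup (Fin n) F) (hP : Cfsg.Geo.IsFormRationalStructure (Cfsg.hermForm n F q) F₀ 1 P) : Cfsg.Geo.IsMaximalIn (Cfsg.GU n F q ⊓ Cfsg.Geo.specialLinear (Fin n) F) (Cfsg.Geo.subfieldSubgroup F₀ P ⊓ (Cfsg.GU n F q ⊓ Cfsg.Geo.specialLinear (Fin n) F)) := by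
  have HH := herm_HS n hF
  have hcard' : Nat.card F = Nat.card F₀ ^ r := by rw [Nat.card_eq_fintype_card]; exact hcard
  have h1F : 1 < Nat.card F₀ := Finite.one_lt_card
  have hsig : ∀ a ∈ F₀, sig hF a ∈ F₀ := fun a ha => by rw [sig_apply]; exact F₀.pow_mem ha q
  have hne0 : ∃ a ∈ F₀, sig hF a ≠ a := by
    by_contra hcon
    push Not at hcon
    have hle : F₀ ≤ EE (sig hF) := fun a ha => hcon a ha
    obtain ⟨d, hd⟩ := SubfRankTwo.exists_pow_of_le hle
    have h1 : Nat.card F = Nat.card (EE (sig hF)) ^ 2 := card_fixed (sig hF) (sig_inv hF) (sig_ne hF)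
    rw [hd, hcard', ← pow_mul] at h1
    have h2 := Nat.pow_right_injective h1F h1
    rw [h2] at hro
    exact (Nat.not_odd_iff_even.mpr (even_two.mul_left d)) hro
  have S : UnF (sig hF) (hermForm n F q) F₀ (ratS F₀ P) :=
    { hs := HH
      sig := hsig
      ne0 := hne0
      form := by
        rintro _ ⟨u, hu, rfl⟩ _ ⟨w, hw, rfl⟩
        have := hP u w hu hw
        rwa [one_mul] at this
      span := span_rat
      nd := herm_nd n hF
      fin := by rw [← range_par]; infer_instance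
      dim := by rw [finrank_ratS, Fintype.card_fin]; exact hn }
  have hne : ∃ x : F, x ∉ F₀ := by
    by_contra hcon
    push Not at hcon
    have h1 : Nat.card F₀ = Nat.card F :=
      Nat.card_congr (Equiv.subtypeUnivEquiv hcon)
    rw [hcard'] at h1
    have h3 : Nat.card F₀ ^ 1 < Nat.card F₀ ^ r := Nat.pow_lt_pow_right h1F hr.one_lt
    rw [pow_one] at h3
    omega
  apply SU_max_of n (P := fun g => ∃ c : F, c ≠ 0 ∧ ∀ x ∈ ratS F₀ P, ∃ x' ∈ ratS F₀ P, g x = c • x')
    (fun g => mem_subfieldSubgroup_iff g)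
  · obtain ⟨v, hv, hvv, a, ha, h⟩ := exists_nonrational S hne
    exact ⟨tv S.hs v hvv a ha, tv_mem _ _ _ _ _, tv_det _ _ _ _ _, h⟩
  · intro M hM hH _ hex g hg hdet
    have H : Hyp (sig hF) (hermForm n F q) F₀ (ratS F₀ P) M :=
      { le := hM
        mem := by
          intro v hv hvv a ha haa
          refine ⟨tv S.hs v hvv a haa, hH _ (tv_mem _ _ _ _ _) (tv_det _ _ _ _ _) ⟨1, one_ne_zero, fun x hx =>
            ⟨x + (a * hermForm n F q x v) • v, tv_rational S hv ha hx, ?_⟩⟩, fun x => tv_apply _ _ _ _ _ _⟩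
          rw [tv_apply, one_smul] }
    exact SubfUnT.main S (by rw [Module.finrank_fin_fun]; omega) r hr hcard' H hex hg hdet


end

end Cfsg.Agent.Lib.SU12
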