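import Cfsg.Agent.Lib.SU3Inv
set_option autoImplicit false
set_option linter.style.haveILetI false
set_option linter.unusedVariables false
set_option linter.unusedSectionVars false
set_option linter.unusedSimpArgs false

/-!
A set of 105 points of the projective plane over the field with twenty-five elements.
-/

namespace Cfsg.Agent.Lib.SU3

open Cfsg Cfsg.Geo

/-- The code of the unitary form. -/
def hhT (x y z : ℕ) : ℕ := fa 5 (fa 5 (fm 5 x (fc 5 x)) (fm 5 y (fc 5 y))) (fm 5 z (fc 5 z))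
/-- The code of the quadratic form. -/
def qqT (x y z : ℕ) : ℕ := fa 5 (fa 5 (fm 5 x x) (fm 5 y y)) (fm 5 z z)
/-- Real points. -/
def rlT (x y z : ℕ) : Bool :=
  (fm 5 x (fc 5 y) == fm 5 y (fc 5 x)) && ((fm 5 x (fc 5 z) == fm 5 z (fc 5 x)) && (fm 5 y (fc 5 z) == fm 5 z (fc 5 y)))
/-- The set of points. -/
def daT (x y z : ℕ) : Bool :=
  !(hhT x y z == 0) && (rlT x y z || (qqT x y z == 0 || fm 5 (fm 5 (qqT x y z) (qqT x y z)) (qqT x y z) == fm 5 2 (hhT x y z)))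

theorem bruteA : ∀ x < 25, ∀ y < 25, ∀ z < 25, (!(daT x y z) || daT x (fm 5 12 y) (fm 5 (fm 5 12 12) z)) = true := by decide +kernel

theorem cubeA : ∀ u < 25, (!(fm 5 (fm 5 u u) u == 1) || (u == 1 || (u == 12 || u == 17))) = true := by decide +kernel

section
variable {F : Type*} [Field F]

/-- The unitary form. -/
def HH (a b c : F) : F := a * a ^ 5 + b * b ^ 5 + c * c ^ 5
/-- The quadratic form. -/
def QQ (a b c : F) : F := a * a + b * b + c * c
/-- Real points. -/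
def RL (a b c : F) : Prop := a * b ^ 5 = b * a ^ 5 ∧ a * c ^ 5 = c * a ^ 5 ∧ b * c ^ 5 = c * b ^ 5
/-- The set of points. -/
def DA (a b c : F) : Prop := HH a b c ≠ 0 ∧ (RL a b c ∨ QQ a b c = 0 ∨ QQ a b c * QQ a b c * QQ a b c = 2 * HH a b c)

variable {ψ : ℕ → F} (h : Tab 5 ψ)
include h

lemma hh_tab (x y z : ℕ) : HH (ψ x) (ψ y) (ψ z) = ψ (hhT x y z) := by
  unfold HH hhT
  simp only [h.add, h.mul, h.conj]

lemma qq_tab (x y z : ℕ) : QQ (ψ x) (ψ y) (ψ z) = ψ (qqT x y z) := by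
  unfold QQ qqT
  simp only [h.add, h.mul, h.conj]

lemma da_tab (x y z : ℕ) : DA (ψ x) (ψ y) (ψ z) ↔ daT x y z = true := by
  have h5 : 0 < 5 := by norm_num
  have h2 : ψ 2 = 2 := by have := h.nat 2 (by norm_num); exact_mod_cast this
  have e1 : HH (ψ x) (ψ y) (ψ z) ≠ 0 ↔ ¬ (hhT x y z = 0) := by
    rw [hh_tab h, Ne, h.eq_zero_iff h5 (show hhT x y z < 5 ^ 2 from fa_lt h5 _ _)]
  have e2 : ∀ x y, (ψ x * ψ y ^ 5 = ψ y * ψ x ^ 5) ↔ fm 5 x (fc 5 y) = fm 5 y (fc 5 x) := by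
    intro x y
    rw [← h.eq_iff (fm_lt h5 _ _) (fm_lt h5 _ _)]
    simp only [h.add, h.mul, h.conj]
  have e3 : QQ (ψ x) (ψ y) (ψ z) = 0 ↔ qqT x y z = 0 := by
    rw [qq_tab h, h.eq_zero_iff h5 (show qqT x y z < 5 ^ 2 from fa_lt h5 _ _)]
  have e4 : (QQ (ψ x) (ψ y) (ψ z) * QQ (ψ x) (ψ y) (ψ z) * QQ (ψ x) (ψ y) (ψ z) = 2 * HH (ψ x) (ψ y) (ψ z)) ↔
      fm 5 (fm 5 (qqT x y z) (qqT x y z)) (qqT x y z) = fm 5 2 (hhT x y z) := by
    rw [← h.eq_iff (fm_lt h5 _ _) (fm_lt h5 _ _), qq_tab h, hh_tab h]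
    simp only [h.mul, h2]
  unfold DA RL daT rlT
  rw [e1, e2, e2, e2, e3, e4]
  simp only [Bool.or_eq_true, Bool.and_eq_true, beq_iff_eq, Bool.not_eq_true', beq_eq_false_iff_ne, ne_eq]

lemma da_omega {a b c : F} (hd : DA a b c) : DA a (ψ 12 * b) (ψ 12 * ψ 12 * c) := by
  obtain ⟨x, hx, rfl⟩ := h.surj a
  obtain ⟨y, hy, rfl⟩ := h.surj b
  obtain ⟨z, hz, rfl⟩ := h.surj c
  rw [da_tab h] at hd
  rw [← h.mul, ← h.mul, ← h.mul, da_tab h]
  have := bruteA x hx y hy z hz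
  rw [hd] at this
  simpa using this

lemma cube_cases {u : F} (hu : u * u * u = 1) : u = 1 ∨ u = ψ 12 ∨ u = ψ 12 * ψ 12 := by
  obtain ⟨x, hx, rfl⟩ := h.surj u
  have h5 : 0 < 5 := by norm_num
  have h1 : ψ 1 = 1 := by have := h.nat 1 (by norm_num); exact_mod_cast this
  rw [← h.mul, ← h.mul, ← h1, h.eq_iff (fm_lt h5 _ _) (by norm_num)] at hu
  have := cubeA x hx
  rw [hu] at this
  simp at this
  rcases this with rfl | rfl | rfl
  · exact Or.inl h1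
  · exact Or.inr (Or.inl rfl)
  · refine Or.inr (Or.inr ?_)
    rw [← h.mul]; rfl

lemma da_cube {u : F} (hu : u * u * u = 1) {a b c : F} (hd : DA a b c) : DA a (u * b) (u * u * c) := by
  rcases cube_cases h hu with h1 | h1 | h1
  · rw [h1]; simpa using hd
  · rw [h1]; exact da_omega h hd
  · have h2 : ψ 12 * ψ 12 * ψ 12 = 1 := by
      have h1 : ψ 1 = 1 := by have := h.nat 1 (by norm_num); exact_mod_cast this
      rw [← h.mul, ← h.mul, ← h1]; rfl
    have := da_omega h (da_omega h hd)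
    rw [h1]
    convert this using 1
    · ring
    · ring

omit h in
lemma da_smul {k : F} (hk : k ≠ 0) {a b c : F} (hd : DA a b c) : DA (k * a) (k * b) (k * c) := by
  have e1 : HH (k * a) (k * b) (k * c) = k ^ 6 * HH a b c := by unfold HH; ring
  have e2 : QQ (k * a) (k * b) (k * c) = k ^ 2 * QQ a b c := by unfold QQ; ring
  obtain ⟨h1, h2⟩ := hd
  refine ⟨by rw [e1]; exact mul_ne_zero (pow_ne_zero _ hk) h1, ?_⟩
  rcases h2 with ⟨r1, r2, r3⟩ | h2 | h2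
  · left
    refine ⟨?_, ?_, ?_⟩
    · linear_combination k ^ 6 * r1
    · linear_combination k ^ 6 * r2
    · linear_combination k ^ 6 * r3
  · right; left
    rw [e2, h2, mul_zero]
  · right; right
    rw [e1, e2]
    linear_combination k ^ 6 * h2

omit h in
/-- Real orthogonal matrices preserve the set. -/
lemma da_orth [CharP F 5] {G : Matrix (Fin 3) (Fin 3) F} (hr : ∀ i j, G i j ^ 5 = G i j) (hG : G.transpose * G = 1) {v : Fin 3 → F}
    (hd : DA (v 0) (v 1) (v 2)) : DA ((G.mulVec v) 0) ((G.mulVec v) 1) ((G.mulVec v) 2) := by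
  haveI : Fact (Nat.Prime 5) := ⟨by norm_num⟩
  have hmv : ∀ i, (G.mulVec v) i = G i 0 * v 0 + G i 1 * v 1 + G i 2 * v 2 := by
    intro i
    rw [Matrix.mulVec, dotProduct, Fin.sum_univ_three]
  have hmv5 : ∀ i, (G.mulVec v) i ^ 5 = G i 0 * v 0 ^ 5 + G i 1 * v 1 ^ 5 + G i 2 * v 2 ^ 5 := by
    intro i
    rw [hmv, add_pow_char _ _ 5, add_pow_char _ _ 5, mul_pow, mul_pow, mul_pow, hr, hr, hr]
  have hGe : ∀ i j, G 0 i * G 0 j + G 1 i * G 1 j + G 2 i * G 2 j = if i = j then 1 else 0 := by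
    intro i j
    have := congrFun (congrFun hG i) j
    rw [Matrix.mul_apply, Fin.sum_univ_three, Matrix.one_apply] at this
    exact this
  have g00 := hGe 0 0
  have g01 := hGe 0 1
  have g02 := hGe 0 2
  have g11 := hGe 1 1
  have g12 := hGe 1 2
  have g22 := hGe 2 2
  simp at g00 g01 g02 g11 g12 g22
  have e1 : HH ((G.mulVec v) 0) ((G.mulVec v) 1) ((G.mulVec v) 2) = HH (v 0) (v 1) (v 2) := by
    unfold HH
    simp only [hmv5]
    simp only [hmv]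
    linear_combination v 0 * v 0 ^ 5 * g00 + (v 0 * v 1 ^ 5 + v 1 * v 0 ^ 5) * g01 + (v 0 * v 2 ^ 5 + v 2 * v 0 ^ 5) * g02 +
      v 1 * v 1 ^ 5 * g11 + (v 1 * v 2 ^ 5 + v 2 * v 1 ^ 5) * g12 + v 2 * v 2 ^ 5 * g22
  have e2 : QQ ((G.mulVec v) 0) ((G.mulVec v) 1) ((G.mulVec v) 2) = QQ (v 0) (v 1) (v 2) := by
    unfold QQ
    simp only [hmv]
    linear_combination v 0 * v 0 * g00 + (v 0 * v 1 + v 1 * v 0) * g01 + (v 0 * v 2 + v 2 * v 0) * g02 +
      v 1 * v 1 * g11 + (v 1 * v 2 + v 2 * v 1) * g12 + v 2 * v 2 * g22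
  unfold DA
  rw [e1, e2]
  refine ⟨hd.1, ?_⟩
  rcases hd.2 with ⟨r1, r2, r3⟩ | h2 | h2
  · left
    have key : ∀ i j, (G.mulVec v) i * (G.mulVec v) j ^ 5 = (G.mulVec v) j * (G.mulVec v) i ^ 5 := by
      intro i j
      rw [hmv5, hmv5, hmv, hmv]
      linear_combination (G i 0 * G j 1 - G i 1 * G j 0) * r1 + (G i 0 * G j 2 - G i 2 * G j 0) * r2 + (G i 1 * G j 2 - G i 2 * G j 1) * r3
    exact ⟨key _ _, key _ _, key _ _⟩
  · exact Or.inr (Or.inl h2)
  · exact Or.inr (Or.inr h2)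

end

end Cfsg.Agent.Lib.SU3
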