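import Cfsg.Agent.Lib.SU3Mat
set_option autoImplicit false
set_option linter.style.haveILetI false
set_option linter.unusedVariables false
set_option linter.unusedSectionVars false
set_option linter.unusedSimpArgs false

/-!
Adjoint closed cubic fields of matrices over the fields with nine and twenty-five elements.
-/

namespace Cfsg.Agent.Lib.SU3

open Cfsg Cfsg.Geo Cfsg.Agent.Lib.AschMU Cfsg.Agent.Lib.AschCore Cfsg.Agent.Lib.AschField Cfsg.Agent.Lib.AschAlg
  Cfsg.Agent.Lib.AschGroup Cfsg.Agent.Lib.AschGood Cfsg.Agent.Lib.AschAdj Cfsg.Agent.Lib.AschNonab Cfsg.Agent.Lib.AschTensor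
  Cfsg.Agent.Lib.AschComp Cfsg.Agent.Lib.AschSp Cfsg.Agent.Lib.AschESys Cfsg.Agent.Lib.UnBridge Cfsg.Agent.Lib.HermMat
  Cfsg.Agent.Lib.UnEx
open scoped Matrix MatrixGroups Kronecker

open Polynomial in
theorem exists_root_cubic (p : ℕ) [Fact p.Prime] (K : Type*) [Field K] [Finite K] [CharP K p] (hcard : Nat.card K = p ^ 6) (N : ℕ)
    (hN : ∀ x : ZMod p, x ^ 3 ≠ x ^ 2 + (N : ZMod p)) : ∃ α : K, α ^ 3 = α ^ 2 + (N : K) := by
  letI : Algebra (ZMod p) K := ZMod.algebra K p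
  set f : (ZMod p)[X] := X ^ 3 - X ^ 2 - C (N : ZMod p) with hf
  have hdeg : f.natDegree = 3 := by
    rw [hf]; compute_degree!
  have hmonic : f.Monic := by
    rw [hf]; monicity!
  have hirr : Irreducible f := by
    rw [hmonic.irreducible_iff_roots_eq_zero_of_degree_le_three (by rw [hdeg]; norm_num) (by rw [hdeg])]
    rw [Multiset.eq_zero_iff_forall_notMem]
    intro x hx
    have h1 := (mem_roots'.1 hx).2
    rw [IsRoot.def, hf] at h1
    simp at h1
    exact hN x (by linear_combination h1)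
  haveI : Fact (Irreducible f) := ⟨hirr⟩
  have hfr : Module.finrank (ZMod p) (AdjoinRoot f) = 3 := by
    rw [(AdjoinRoot.powerBasis hirr.ne_zero).finrank, AdjoinRoot.powerBasis_dim, hdeg]
  have hfK : Module.finrank (ZMod p) K = 6 := by
    have h1 : Nat.card K = Nat.card (ZMod p) ^ Module.finrank (ZMod p) K := Module.natCard_eq_pow_finrank
    rw [hcard, Nat.card_zmod] at h1
    exact (Nat.pow_right_injective (Fact.out : p.Prime).two_le h1).symm
  obtain ⟨φ⟩ := FiniteField.nonempty_algHom_of_finrank_dvd (F := ZMod p) (K := AdjoinRoot f) (L := K) (by rw [hfr, hfK]; norm_num)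
  have h1 : aeval (AdjoinRoot.root f) f = 0 := by
    rw [AdjoinRoot.aeval_eq, AdjoinRoot.mk_self]
  have h2 : aeval (φ (AdjoinRoot.root f)) f = 0 := by
    have := aeval_algHom_apply φ (AdjoinRoot.root f) f
    rw [this]
    exact (congrArg φ h1).trans (map_zero φ)
  have hev : ∀ x : K, aeval x f = x ^ 3 - x ^ 2 - (N : K) := by
    intro x
    rw [hf]; simp
  rw [hev] at h2
  exact ⟨φ (AdjoinRoot.root f), by linear_combination h2⟩

lemma no_root5 : ∀ x : ZMod 5, x ^ 3 ≠ x ^ 2 + ((1 : ℕ) : ZMod 5) := by decide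

lemma no_root3 : ∀ x : ZMod 3, x ^ 3 ≠ x ^ 2 + ((2 : ℕ) : ZMod 3) := by decide

section field
variable {K : Type*} [Field K]

lemma root3 (hp : (3 : K) = 0) {a y : K} (ha : a ^ 3 = a ^ 2 + 2) (hy : y ^ 3 = y ^ 2 + 2) : y = a ∨ y = 2 + a ^ 2 ∨ y = 2 + 2 * a + 2 * a ^ 2 := by
  have h : (y - a) * ((y - (2 + a ^ 2)) * (y - (2 + 2 * a + 2 * a ^ 2))) = 0 := by
    linear_combination hy - (2 * a ^ 2 + (-2) * a * y + 4 * a + (-7) * y + 10) * ha - (1 * a ^ 2 * y ^ 2 + (-5) * a ^ 2 * y + 6 * a ^ 2 + 1 * a * y ^ 2 + (-4) * a * y + 4 * a + 1 * y ^ 2 + (-6) * y + 6) * hp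
  rcases mul_eq_zero.1 h with h | h
  · exact Or.inl (sub_eq_zero.1 h)
  rcases mul_eq_zero.1 h with h | h
  · exact Or.inr (Or.inl (sub_eq_zero.1 h))
  · exact Or.inr (Or.inr (sub_eq_zero.1 h))

lemma fix3 (hp : (3 : K) = 0) {a : K} (ha : a ^ 3 = a ^ 2 + 2) {τ : K →+* K} (hτ : ∀ x, τ (τ x) = x) : τ a = a := by
  have h1 : (τ a) ^ 3 = (τ a) ^ 2 + 2 := by
    rw [← map_pow, ha, map_add, map_pow, map_ofNat]
  rcases root3 hp ha h1 with h | h | h
  · exact h
  · exfalso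
    have h2 : τ (τ a) = 2 + (τ a) ^ 2 := by
      conv_lhs => rw [h]
      rw [map_add, map_pow, map_ofNat]
    rw [hτ, h] at h2
    have h3 : (2 + 2 * a + 2 * a ^ 2) - a = 0 := by linear_combination -h2 - (1 * a + 1) * ha - (1 * a ^ 2 + 2) * hp
    exact one_ne_zero (α := K) (by linear_combination (1 * a ^ 2 + 2) * h3 - (2 * a + 3) * ha - (3 * a ^ 2 + 2 * a + 3) * hp)
  · exfalso
    have h2 : τ (τ a) = 2 + 2 * (τ a) + 2 * (τ a) ^ 2 := by
      conv_lhs => rw [h]
      rw [map_add, map_add, map_mul, map_mul, map_pow, map_ofNat]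
    rw [hτ, h] at h2
    have h3 : (2 + a ^ 2) - a = 0 := by linear_combination -h2 - (8 * a + 24) * ha - (17 * a ^ 2 + 12 * a + 20) * hp
    exact one_ne_zero (α := K) (by linear_combination (1 * a ^ 2 + 1 * a + 1) * h3 - (1 * a + 1) * ha - (1 * a ^ 2 + 1 * a + 1) * hp)

lemma root5 (hp : (5 : K) = 0) {a y : K} (ha : a ^ 3 = a ^ 2 + 1) (hy : y ^ 3 = y ^ 2 + 1) : y = a ∨ y = 1 + a + 2 * a ^ 2 ∨ y = 3 * a + 3 * a ^ 2 := by
  have h : (y - a) * ((y - (1 + a + 2 * a ^ 2)) * (y - (3 * a + 3 * a ^ 2))) = 0 := by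
    linear_combination hy - (6 * a ^ 2 + (-6) * a * y + 15 * a + (-20) * y + 21) * ha - (1 * a ^ 2 * y ^ 2 + (-6) * a ^ 2 * y + 6 * a ^ 2 + 1 * a * y ^ 2 + (-2) * a * y + 3 * a + (-4) * y + 4) * hp
  rcases mul_eq_zero.1 h with h | h
  · exact Or.inl (sub_eq_zero.1 h)
  rcases mul_eq_zero.1 h with h | h
  · exact Or.inr (Or.inl (sub_eq_zero.1 h))
  · exact Or.inr (Or.inr (sub_eq_zero.1 h))

lemma fix5 (hp : (5 : K) = 0) {a : K} (ha : a ^ 3 = a ^ 2 + 1) {τ : K →+* K} (hτ : ∀ x, τ (τ x) = x) : τ a = a := by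
  have h1 : (τ a) ^ 3 = (τ a) ^ 2 + 1 := by
    rw [← map_pow, ha, map_add, map_pow, map_one]
  rcases root5 hp ha h1 with h | h | h
  · exact h
  · exfalso
    have h2 : τ (τ a) = 1 + (τ a) + 2 * (τ a) ^ 2 := by
      conv_lhs => rw [h]
      rw [map_add, map_add, map_mul, map_pow, map_ofNat, map_one]
    rw [hτ, h] at h2
    have h3 : (3 * a + 3 * a ^ 2) - a = 0 := by linear_combination -h2 - (8 * a + 16) * ha - (5 * a ^ 2 + 2 * a + 4) * hp
    exact one_ne_zero (α := K) (by linear_combination (2 * a) * h3 - 6 * ha - (2 * a ^ 2 + 1) * hp)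
  · exfalso
    have h2 : τ (τ a) = 3 * (τ a) + 3 * (τ a) ^ 2 := by
      conv_lhs => rw [h]
      rw [map_add, map_mul, map_mul, map_pow, map_ofNat]
    rw [hτ, h] at h2
    have h3 : (1 + a + 2 * a ^ 2) - a = 0 := by linear_combination -h2 - (27 * a + 81) * ha - (23 * a ^ 2 + 7 * a + 16) * hp
    exact one_ne_zero (α := K) (by linear_combination (1 * a ^ 2 + 3 * a + 3) * h3 - (2 * a + 8) * ha - (3 * a ^ 2 + 1 * a + 2) * hp)

end field

section
variable {F : Type*} [Field F] [Fintype F] {q : ℕ}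

/-- The adjoint as a ring homomorphism of an adjoint closed field. -/
lemma exists_tau (hF : Fintype.card F = q ^ 2) {K : Subalgebra F (Matrix (Fin 3) (Fin 3) F)} (hK : IsFieldSubalgebra 3 K)
    (hac : IsAdjointClosedFor (hermForm 3 F q) K) : ∃ τ : K →+* K, (∀ x, τ (τ x) = x) ∧ ∀ x : K, ((τ x : K) : Matrix (Fin 3) (Fin 3) F) = adj (sg hF) 1 (x : Matrix (Fin 3) (Fin 3) F) := by
  have hr := rf_one (ι := Fin 3) hF
  refine ⟨{ toFun := fun x => ⟨adj (sg hF) 1 (x : Matrix (Fin 3) (Fin 3) F), adj_mem_of hF hac x.2⟩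
            map_one' := Subtype.ext (adj_one hr)
            map_mul' := fun x y => Subtype.ext (by
              show adj (sg hF) 1 ((x : Matrix (Fin 3) (Fin 3) F) * (y : Matrix (Fin 3) (Fin 3) F)) = adj (sg hF) 1 (x : Matrix (Fin 3) (Fin 3) F) * adj (sg hF) 1 (y : Matrix (Fin 3) (Fin 3) F)
              rw [hK.comm x x.2 y y.2, adj_mul hr])
            map_zero' := Subtype.ext (by
              show adj (sg hF) 1 (0 : Matrix (Fin 3) (Fin 3) F) = 0
              have := adj_add (σ := sg hF) (G := (1 : Matrix (Fin 3) (Fin 3) F)) 0 0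
              rw [add_zero] at this
              exact left_eq_add.1 this)
            map_add' := fun x y => Subtype.ext (adj_add _ _) }, ?_, fun x => rfl⟩
  intro x
  exact Subtype.ext (adj_adj hr _)

lemma field_card (hF : Fintype.card F = q ^ 2) {K : Subalgebra F (Matrix (Fin 3) (Fin 3) F)} (hK : IsFieldSubalgebra 3 K) :
    Nat.card K = q ^ 6 := by
  have h1 : Nat.card K = Nat.card F ^ Module.finrank F K := Module.natCard_eq_pow_finrank (K := F) (V := K)
  rw [hK.finrank_eq, Nat.card_eq_fintype_card (α := F), hF, ← pow_mul] at h1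
  exact h1

theorem alpha5 (hF : Fintype.card F = 5 ^ 2) {K : Subalgebra F (Matrix (Fin 3) (Fin 3) F)} (hK : IsFieldSubalgebra 3 K)
    (hac : IsAdjointClosedFor (hermForm 3 F 5) K) : ∃ α ∈ K, α ^ 3 = α ^ 2 + 1 ∧ adj (sg hF) 1 α = α ∧
      ∀ y ∈ K, y ^ 3 = y ^ 2 + 1 → y = α ∨ y = 1 + α + 2 * α ^ 2 ∨ y = 3 * α + 3 * α ^ 2 := by
  haveI : Nonempty (Fin 3) := ⟨0⟩
  haveI : Fact (Nat.Prime 5) := ⟨by norm_num⟩
  have hfinM : Finite (Matrix (Fin 3) (Fin 3) F) := inferInstanceAs (Finite (Fin 3 → Fin 3 → F))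
  haveI : Finite K := Finite.of_injective (fun a : K => (a : Matrix (Fin 3) (Fin 3) F)) Subtype.coe_injective
  have hcard := field_card hF hK
  obtain ⟨τ, hτ, hτa⟩ := exists_tau hF hK hac
  letI : Field K := (isField_of hK).toField
  have h5K : (5 : K) = 0 := by
    have h3 : (5 : K) = algebraMap F K 5 := by rw [map_ofNat]
    rw [h3, five_zero hF, map_zero]
  haveI : CharP K 5 := by
    haveI := charP5 hF
    exact charP_of_injective_algebraMap (algebraMap F K).injective 5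
  obtain ⟨a, ha⟩ := exists_root_cubic 5 K hcard 1 no_root5
  rw [Nat.cast_one] at ha
  refine ⟨a, a.2, congrArg Subtype.val ha, ?_, ?_⟩
  · rw [← hτa]
    exact congrArg Subtype.val (fix5 h5K ha (τ := τ) hτ)
  · intro y hy hy3
    have hb : (⟨y, hy⟩ : K) ^ 3 = (⟨y, hy⟩ : K) ^ 2 + 1 := Subtype.ext hy3
    rcases root5 h5K ha hb with h | h | h
    · exact Or.inl (congrArg Subtype.val h)
    · exact Or.inr (Or.inl (congrArg Subtype.val h))
    · exact Or.inr (Or.inr (congrArg Subtype.val h))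

theorem alpha3 (hF : Fintype.card F = 3 ^ 2) {K : Subalgebra F (Matrix (Fin 3) (Fin 3) F)} (hK : IsFieldSubalgebra 3 K)
    (hac : IsAdjointClosedFor (hermForm 3 F 3) K) : ∃ α ∈ K, α ^ 3 = α ^ 2 + 2 ∧ adj (sg hF) 1 α = α ∧
      ∀ y ∈ K, y ^ 3 = y ^ 2 + 2 → y = α ∨ y = 2 + α ^ 2 ∨ y = 2 + 2 * α + 2 * α ^ 2 := by
  haveI : Nonempty (Fin 3) := ⟨0⟩
  haveI : Fact (Nat.Prime 3) := ⟨by norm_num⟩
  have hfinM : Finite (Matrix (Fin 3) (Fin 3) F) := inferInstanceAs (Finite (Fin 3 → Fin 3 → F))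
  haveI : Finite K := Finite.of_injective (fun a : K => (a : Matrix (Fin 3) (Fin 3) F)) Subtype.coe_injective
  have hcard := field_card hF hK
  obtain ⟨τ, hτ, hτa⟩ := exists_tau hF hK hac
  letI : Field K := (isField_of hK).toField
  haveI : CharP F 3 := charP_of (by norm_num) hF
  have h3F : (3 : F) = 0 := by
    have := CharP.cast_eq_zero F 3
    exact_mod_cast this
  have h3K : (3 : K) = 0 := by
    have h3 : (3 : K) = algebraMap F K 3 := by rw [map_ofNat]
    rw [h3, h3F, map_zero]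
  haveI : CharP K 3 := charP_of_injective_algebraMap (algebraMap F K).injective 3
  obtain ⟨a, ha⟩ := exists_root_cubic 3 K hcard 2 no_root3
  rw [Nat.cast_ofNat] at ha
  refine ⟨a, a.2, congrArg Subtype.val ha, ?_, ?_⟩
  · rw [← hτa]
    exact congrArg Subtype.val (fix3 h3K ha (τ := τ) hτ)
  · intro y hy hy3
    have hb : (⟨y, hy⟩ : K) ^ 3 = (⟨y, hy⟩ : K) ^ 2 + 2 := Subtype.ext hy3
    rcases root3 h3K ha hb with h | h | h
    · exact Or.inl (congrArg Subtype.val h)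
    · exact Or.inr (Or.inl (congrArg Subtype.val h))
    · exact Or.inr (Or.inr (congrArg Subtype.val h))

end

end Cfsg.Agent.Lib.SU3
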