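import Cfsg.Agent.Lib.SU3FldA
set_option autoImplicit false
set_option linter.style.haveILetI false
set_option linter.unusedVariables false
set_option linter.unusedSectionVars false
set_option linter.unusedSimpArgs false

/-!
Orthonormal bases adapted to cubic fields.
-/

namespace Cfsg.Agent.Lib.SU3

open Cfsg Cfsg.Geo Cfsg.Agent.Lib.AschMU Cfsg.Agent.Lib.AschCore Cfsg.Agent.Lib.AschField Cfsg.Agent.Lib.AschAlg
  Cfsg.Agent.Lib.AschGroup Cfsg.Agent.Lib.AschGood Cfsg.Agent.Lib.AschAdj Cfsg.Agent.Lib.AschNonab Cfsg.Agent.Lib.AschTensor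
  Cfsg.Agent.Lib.AschComp Cfsg.Agent.Lib.AschSp Cfsg.Agent.Lib.AschESys Cfsg.Agent.Lib.UnBridge Cfsg.Agent.Lib.HermMat
  Cfsg.Agent.Lib.UnEx
open scoped Matrix MatrixGroups Kronecker

/-- One step. -/
def st3 (p N : ℕ) (t : ℕ × ℕ × ℕ) : ℕ × ℕ × ℕ := (t.2.2 % p, (t.2.2 + N * t.1) % p, (t.2.2 + N * t.1 + N * t.2.1) % p)

/-- Iterated steps. -/
def st3s (p N : ℕ) : ℕ → ℕ × ℕ × ℕ → ℕ × ℕ × ℕ
  | 0, t => t
  | n + 1, t => st3s p N n (st3 p N t)

/-- Multiple. -/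
def mu3 (p n : ℕ) (t : ℕ × ℕ × ℕ) : ℕ × ℕ × ℕ := (n * t.1 % p, n * t.2.1 % p, n * t.2.2 % p)

lemma reach5 : ∀ a b c : Fin 5, (a : ℕ) ≠ 0 → ∃ (i : Fin 31) (n : Fin 5), (n : ℕ) ≠ 0 ∧ mu3 5 n (st3s 5 1 i (a, b, c)) = (3, 1, 1) := by
  decide +kernel
lemma reach3 : ∀ a b c : Fin 3, (a : ℕ) ≠ 0 → ∃ (i : Fin 13) (n : Fin 3), (n : ℕ) ≠ 0 ∧ mu3 3 n (st3s 3 2 i (a, b, c)) = (0, 1, 1) := by
  decide +kernel

section
variable {F : Type*} [Field F]

lemma fixed_nat (p : ℕ) (hp : p = 3 ∨ p = 5) [CharP F p] {x : F} (hx : x ^ p = x) : ∃ n < p, (n : F) = x := by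
  have hp0 : (p : F) = 0 := CharP.cast_eq_zero F p
  rcases hp with rfl | rfl
  · have h3 : (3 : F) = 0 := by exact_mod_cast hp0
    have h : x * ((x - 1) * (x - 2)) = 0 := by linear_combination hx + (-x ^ 2 + x) * h3
    rcases mul_eq_zero.1 h with h | h
    · exact ⟨0, by norm_num, by rw [h]; norm_num⟩
    rcases mul_eq_zero.1 h with h | h
    · exact ⟨1, by norm_num, by rw [sub_eq_zero.1 h]; norm_num⟩
    · exact ⟨2, by norm_num, by rw [sub_eq_zero.1 h]; norm_num⟩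
  · have h5 : (5 : F) = 0 := by exact_mod_cast hp0
    have h : x * ((x - 1) * ((x - 2) * ((x - 3) * (x - 4)))) = 0 := by
      linear_combination hx + (-2 * x ^ 4 + 7 * x ^ 3 - 10 * x ^ 2 + 5 * x) * h5
    rcases mul_eq_zero.1 h with h | h
    · exact ⟨0, by norm_num, by rw [h]; norm_num⟩
    rcases mul_eq_zero.1 h with h | h
    · exact ⟨1, by norm_num, by rw [sub_eq_zero.1 h]; norm_num⟩
    rcases mul_eq_zero.1 h with h | h
    · exact ⟨2, by norm_num, by rw [sub_eq_zero.1 h]; norm_num⟩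
    rcases mul_eq_zero.1 h with h | h
    · exact ⟨3, by norm_num, by rw [sub_eq_zero.1 h]; norm_num⟩
    · exact ⟨4, by norm_num, by rw [sub_eq_zero.1 h]; norm_num⟩

variable [Fintype F] {q : ℕ}

/-- The sequence of values. -/
def sq (q : ℕ) (α : Matrix (Fin 3) (Fin 3) F) (w : Fin 3 → F) (k : ℕ) : F := hermForm 3 F q ((α ^ k) *ᵥ w) w

variable {α : Matrix (Fin 3) (Fin 3) F}

lemma sq_adj (hF : Fintype.card F = q ^ 2) (ha : adj (sg hF) 1 α = α) (u v : Fin 3 → F) :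
    hermForm 3 F q (α *ᵥ u) v = hermForm 3 F q u (α *ᵥ v) := by
  rw [herm_eq hF, bf_adj (rf_one hF), ha]

lemma sq_adj_pow (hF : Fintype.card F = q ^ 2) (ha : adj (sg hF) 1 α = α) (k : ℕ) (u v : Fin 3 → F) :
    hermForm 3 F q ((α ^ k) *ᵥ u) v = hermForm 3 F q u ((α ^ k) *ᵥ v) := by
  induction k generalizing u v with
  | zero => rw [pow_zero, Matrix.one_mulVec, Matrix.one_mulVec]
  | succ k ih => rw [pow_succ, ← Matrix.mulVec_mulVec, ih, sq_adj hF ha, Matrix.mulVec_mulVec, ← pow_succ', ← pow_succ]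

lemma sq_pow (hF : Fintype.card F = q ^ 2) (ha : adj (sg hF) 1 α = α) (i j : ℕ) (w : Fin 3 → F) :
    hermForm 3 F q ((α ^ i) *ᵥ w) ((α ^ j) *ᵥ w) = sq q α w (i + j) := by
  rw [← sq_adj_pow hF ha, Matrix.mulVec_mulVec, ← pow_add, add_comm j]
  rfl

lemma sq_rec {N : F} (h3 : α ^ 3 = α ^ 2 + N • 1) (w : Fin 3 → F) (k : ℕ) : sq q α w (k + 3) = sq q α w (k + 2) + N * sq q α w k := by
  unfold sq
  rw [pow_add, h3, mul_add, Matrix.mul_smul, mul_one, ← pow_add, Matrix.add_mulVec, hermForm_add_left, Matrix.smul_mulVec, hermForm_smul_left]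

lemma sq_fix (hF : Fintype.card F = q ^ 2) (ha : adj (sg hF) 1 α = α) (w : Fin 3 → F) (k : ℕ) : sq q α w k ^ q = sq q α w k := by
  unfold sq
  rw [hermForm_swap hF, sq_adj_pow hF ha]

lemma sq_shift (hF : Fintype.card F = q ^ 2) (ha : adj (sg hF) 1 α = α) (w : Fin 3 → F) (k : ℕ) :
    sq q α (α *ᵥ w) k = sq q α w (k + 2) := by
  unfold sq
  rw [Matrix.mulVec_mulVec, ← sq_adj hF ha, Matrix.mulVec_mulVec, ← mul_assoc, ← pow_succ', ← pow_succ]

lemma sq_smul (w : Fin 3 → F) (m : F) (k : ℕ) : sq q α (m • w) k = m * m ^ q * sq q α w k := by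
  unfold sq
  rw [Matrix.mulVec_smul, hermForm_smul_left, hermForm_smul_right, mul_assoc]

/-- The state of a vector. -/
def St3 (q : ℕ) (α : Matrix (Fin 3) (Fin 3) F) (w : Fin 3 → F) (t : ℕ × ℕ × ℕ) : Prop :=
  sq q α w 0 = t.1 ∧ sq q α w 1 = t.2.1 ∧ sq q α w 2 = t.2.2

lemma St3_step [CharP F q] (hF : Fintype.card F = q ^ 2) (ha : adj (sg hF) 1 α = α) {N : ℕ} (h3 : α ^ 3 = α ^ 2 + (N : F) • 1) {w : Fin 3 → F}
    {t : ℕ × ℕ × ℕ} (h : St3 q α w t) : St3 q α (α *ᵥ w) (st3 q N t) := by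
  have hmod : ∀ a : ℕ, ((a % q : ℕ) : F) = (a : F) := fun a => (CharP.cast_eq_mod F q a).symm
  obtain ⟨e0, e1, e2⟩ := h
  have r0 := sq_rec (q := q) h3 w 0
  have r1 := sq_rec (q := q) h3 w 1
  rw [zero_add, zero_add] at r0
  unfold St3 st3
  simp only [sq_shift hF ha, hmod]
  refine ⟨e2, ?_, ?_⟩
  · show sq q α w 3 = _
    rw [r0, e2, e0]; push_cast; ring
  · show sq q α w 4 = _
    have r1' : sq q α w 4 = sq q α w 3 + (N : F) * sq q α w 1 := r1
    rw [r1', r0, e2, e0, e1]; push_cast; ring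

lemma St3_steps [CharP F q] (hF : Fintype.card F = q ^ 2) (ha : adj (sg hF) 1 α = α) {N : ℕ} (h3 : α ^ 3 = α ^ 2 + (N : F) • 1) (i : ℕ) :
    ∀ {w : Fin 3 → F} {t : ℕ × ℕ × ℕ}, St3 q α w t → ∃ w', St3 q α w' (st3s q N i t) := by
  induction i with
  | zero => intro w t h; exact ⟨w, h⟩
  | succ i ih => intro w t h; exact ih (St3_step hF ha h3 h)

lemma St3_mul [CharP F q] (hF : Fintype.card F = q ^ 2) {n : ℕ} (hn : (n : F) ≠ 0) (hnq : (n : F) ^ q = n) {w : Fin 3 → F}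
    {t : ℕ × ℕ × ℕ} (h : St3 q α w t) : ∃ w', St3 q α w' (mu3 q n t) := by
  have hmod : ∀ a : ℕ, ((a % q : ℕ) : F) = (a : F) := fun a => (CharP.cast_eq_mod F q a).symm
  obtain ⟨m, hm0, hm⟩ := AschAdj.norm_surj' (sg_inv hF) (sg_ne hF) (c := (n : F)) (by rw [sg_apply, hnq]) hn
  rw [sg_apply] at hm
  obtain ⟨e0, e1, e2⟩ := h
  refine ⟨m • w, ?_⟩
  unfold St3 mu3
  simp only [sq_smul, hm, hmod, e0, e1, e2]
  push_cast
  exact ⟨rfl, rfl, rfl⟩

lemma exists_state (hp : q = 3 ∨ q = 5) [CharP F q] (hF : Fintype.card F = q ^ 2) (ha : adj (sg hF) 1 α = α) {N : ℕ} (h3 : α ^ 3 = α ^ 2 + (N : F) • 1)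
    {t : ℕ × ℕ × ℕ} {m : ℕ} (hreach : ∀ a b c : Fin q, (a : ℕ) ≠ 0 → ∃ (i : Fin m) (n : Fin q), (n : ℕ) ≠ 0 ∧ mu3 q n (st3s q N i (a, b, c)) = t) :
    ∃ w, St3 q α w t := by
  have hpp : q.Prime := by rcases hp with rfl | rfl <;> norm_num
  haveI : Fact q.Prime := ⟨hpp⟩
  have hcast : ∀ n : ℕ, (n : F) ^ q = n := by
    intro n
    have := map_natCast (frobenius F q) n
    rwa [frobenius_def] at this
  have hex := fun k => fixed_nat q hp (sq_fix hF ha (Pi.single 0 1) k)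
  obtain ⟨a, ha', e0⟩ := hex 0
  obtain ⟨b, hb', e1⟩ := hex 1
  obtain ⟨c, hc', e2⟩ := hex 2
  have ha0 : a ≠ 0 := by
    rintro rfl
    have : sq q α (Pi.single 0 1) 0 = 1 := by
      unfold sq
      rw [pow_zero, Matrix.one_mulVec, hermForm_single _ hpp.ne_zero]
      simp
    rw [this, Nat.cast_zero] at e0
    exact zero_ne_one e0
  obtain ⟨i, n, hn0, hin⟩ := hreach ⟨a, ha'⟩ ⟨b, hb'⟩ ⟨c, hc'⟩ ha0
  have hn := n.2
  obtain ⟨w, hw⟩ := St3_steps hF ha h3 i (w := Pi.single 0 1) (t := (a, b, c)) ⟨e0.symm, e1.symm, e2.symm⟩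
  have hnF : (n : F) ≠ 0 := by
    intro h0
    rw [CharP.cast_eq_zero_iff F q] at h0
    exact hn0 (Nat.eq_zero_of_dvd_of_lt h0 hn)
  obtain ⟨w', hw'⟩ := St3_mul hF hnF (hcast n) hw
  rw [hin] at hw'
  exact ⟨w', hw'⟩

/-- The matrix of `α` for `q = 5`. -/
def A5m (F : Type*) [Field F] : Matrix (Fin 3) (Fin 3) F := !![4, 0, 2; 0, 2, 3; 2, 3, 0]

/-- The matrix of `α` for `q = 3`. -/
def A3m (F : Type*) [Field F] : Matrix (Fin 3) (Fin 3) F := !![1, 2, 1; 2, 1, 0; 1, 0, 2]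

lemma exists_T_of {A B : Matrix (Fin 3) (Fin 3) F} (hF : Fintype.card F = q ^ 2) {b : Fin 3 → Fin 3 → F}
    (hb : ∀ i j, hermForm 3 F q (b i) (b j) = if i = j then 1 else 0) (hAB : ∀ j, A *ᵥ b j = B 0 j • b 0 + B 1 j • b 1 + B 2 j • b 2) :
    ∃ T : GL (Fin 3) F, T ∈ GU 3 F q ∧ A * (T : Matrix (Fin 3) (Fin 3) F) = (T : Matrix (Fin 3) (Fin 3) F) * B := by
  obtain ⟨T, hT, hTe⟩ := exists_gl_of_orthonormal hF b hb
  refine ⟨T, hT, ?_⟩
  have hcol : ∀ j, (fun k => (T : Matrix (Fin 3) (Fin 3) F) k j) = b j := by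
    intro j
    rw [← hTe, Matrix.mulVec_single_one]
    rfl
  ext k j
  have e : (A * (T : Matrix (Fin 3) (Fin 3) F)) k j = (A *ᵥ (fun k => (T : Matrix (Fin 3) (Fin 3) F) k j)) k := rfl
  have c0 := congrFun (hcol 0) k
  have c1 := congrFun (hcol 1) k
  have c2 := congrFun (hcol 2) k
  rw [e, hcol, hAB, Matrix.mul_apply, Fin.sum_univ_three, c0, c1, c2]
  simp only [Pi.add_apply, Pi.smul_apply, smul_eq_mul]
  ring

theorem basis5 (hF : Fintype.card F = 5 ^ 2) (ha : adj (sg hF) 1 α = α) (h3 : α ^ 3 = α ^ 2 + 1) :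
    ∃ T : GL (Fin 3) F, T ∈ GU 3 F 5 ∧ α * (T : Matrix (Fin 3) (Fin 3) F) = (T : Matrix (Fin 3) (Fin 3) F) * A5m F := by
  haveI := charP5 hF
  have h5 := five_zero hF
  have h3' : α ^ 3 = α ^ 2 + ((1 : ℕ) : F) • 1 := by rw [h3, Nat.cast_one, one_smul]
  obtain ⟨w, s0, s1, s2⟩ := exists_state (Or.inr rfl) hF ha h3' reach5
  simp only [Nat.cast_ofNat, Nat.cast_one] at s0 s1 s2
  have s3 : sq 5 α w 3 = 4 := by
    have := sq_rec (q := 5) h3' w 0
    rw [zero_add, zero_add, s2, s0, Nat.cast_one] at this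
    rw [this]; norm_num
  have s4 : sq 5 α w 4 = 0 := by
    have : sq 5 α w 4 = sq 5 α w 3 + ((1 : ℕ) : F) * sq 5 α w 1 := sq_rec (q := 5) h3' w 1
    rw [this, s3, s1, Nat.cast_one]
    linear_combination h5
  have g : ∀ i j, hermForm 3 F 5 ((α ^ i) *ᵥ w) ((α ^ j) *ᵥ w) = sq 5 α w (i + j) := fun i j => sq_pow hF ha i j w
  set w0 := w with hw0
  set w1 := α *ᵥ w with hw1
  set w2 := (α ^ 2) *ᵥ w with hw2
  have g00 : hermForm 3 F 5 w0 w0 = 3 := by have := g 0 0; rw [pow_zero, Matrix.one_mulVec] at this; rw [this]; exact s0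
  have g01 : hermForm 3 F 5 w0 w1 = 1 := by have := g 0 1; rw [pow_zero, Matrix.one_mulVec, pow_one] at this; rw [this]; exact s1
  have g02 : hermForm 3 F 5 w0 w2 = 1 := by have := g 0 2; rw [pow_zero, Matrix.one_mulVec] at this; rw [this]; exact s2
  have g10 : hermForm 3 F 5 w1 w0 = 1 := by have := g 1 0; rw [pow_zero, Matrix.one_mulVec, pow_one] at this; rw [this]; exact s1
  have g11 : hermForm 3 F 5 w1 w1 = 1 := by have := g 1 1; rw [pow_one] at this; rw [this]; exact s2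
  have g12 : hermForm 3 F 5 w1 w2 = 4 := by have := g 1 2; rw [pow_one] at this; rw [this]; exact s3
  have g20 : hermForm 3 F 5 w2 w0 = 1 := by have := g 2 0; rw [pow_zero, Matrix.one_mulVec] at this; rw [this]; exact s2
  have g21 : hermForm 3 F 5 w2 w1 = 4 := by have := g 2 1; rw [pow_one] at this; rw [this]; exact s3
  have g22 : hermForm 3 F 5 w2 w2 = 0 := by have := g 2 2; rw [this]; exact s4
  have n2 : (2 : F) ^ 5 = 2 := by have := natCast_pow5 (F := F) 2; exact_mod_cast this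
  have n3 : (3 : F) ^ 5 = 3 := by have := natCast_pow5 (F := F) 3; exact_mod_cast this
  apply exists_T_of hF (b := ![w1, w0 + w1 + (2 : F) • w2, (3 : F) • w1 + (3 : F) • w2])
  · intro i j
    fin_cases i <;> fin_cases j <;>
      simp [hermForm_add_left, hermForm_add_right hF, hermForm_smul_left, hermForm_smul_right, g00, g01, g02, g10, g11, g12, g20, g21, g22, n2, n3]
    · linear_combination 2 * h5
    · linear_combination 3 * h5
    · linear_combination 2 * h5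
    · linear_combination 5 * h5
    · linear_combination 9 * h5
    · linear_combination 3 * h5
    · linear_combination 9 * h5
    · linear_combination 16 * h5
  · have e1 : α *ᵥ w0 = w1 := rfl
    have e2 : α *ᵥ w1 = w2 := by rw [hw1, hw2, Matrix.mulVec_mulVec, ← pow_two]
    have e3 : α *ᵥ w2 = w2 + w0 := by
      rw [hw2, Matrix.mulVec_mulVec, ← pow_succ', h3, Matrix.add_mulVec, Matrix.one_mulVec]
    have h5v : ∀ x : Fin 3 → F, (5 : F) • x = 0 := fun x => by rw [h5, zero_smul]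
    intro j
    fin_cases j
    · show α *ᵥ w1 = (4 : F) • w1 + (0 : F) • (w0 + w1 + (2 : F) • w2) + (2 : F) • ((3 : F) • w1 + (3 : F) • w2)
      rw [e2]
      have : (4 : F) • w1 + (0 : F) • (w0 + w1 + (2 : F) • w2) + (2 : F) • ((3 : F) • w1 + (3 : F) • w2) = w2 + (5 : F) • ((2 : F) • w1 + w2) := by
        module
      rw [this, h5v, add_zero]
    · show α *ᵥ (w0 + w1 + (2 : F) • w2) = (0 : F) • w1 + (2 : F) • (w0 + w1 + (2 : F) • w2) + (3 : F) • ((3 : F) • w1 + (3 : F) • w2)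
      rw [Matrix.mulVec_add, Matrix.mulVec_add, Matrix.mulVec_smul, e1, e2, e3]
      have : (0 : F) • w1 + (2 : F) • (w0 + w1 + (2 : F) • w2) + (3 : F) • ((3 : F) • w1 + (3 : F) • w2) =
          w1 + w2 + (2 : F) • (w2 + w0) + (5 : F) • ((2 : F) • w1 + (2 : F) • w2) := by
        module
      rw [this, h5v, add_zero]
    · show α *ᵥ ((3 : F) • w1 + (3 : F) • w2) = (2 : F) • w1 + (3 : F) • (w0 + w1 + (2 : F) • w2) + (0 : F) • ((3 : F) • w1 + (3 : F) • w2)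
      rw [Matrix.mulVec_add, Matrix.mulVec_smul, Matrix.mulVec_smul, e2, e3]
      have : (2 : F) • w1 + (3 : F) • (w0 + w1 + (2 : F) • w2) + (0 : F) • ((3 : F) • w1 + (3 : F) • w2) =
          (3 : F) • w2 + (3 : F) • (w2 + w0) + (5 : F) • w1 := by
        module
      rw [this, h5v, add_zero]

theorem basis3 (hF : Fintype.card F = 3 ^ 2) (ha : adj (sg hF) 1 α = α) (h3 : α ^ 3 = α ^ 2 + 2) :
    ∃ T : GL (Fin 3) F, T ∈ GU 3 F 3 ∧ α * (T : Matrix (Fin 3) (Fin 3) F) = (T : Matrix (Fin 3) (Fin 3) F) * A3m F := by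
  haveI : CharP F 3 := charP_of (by norm_num) hF
  have h30 : (3 : F) = 0 := by
    have := CharP.cast_eq_zero F 3
    exact_mod_cast this
  have h2m : (2 : Matrix (Fin 3) (Fin 3) F) = (2 : F) • 1 := by
    rw [two_smul, one_add_one_eq_two]
  have h3' : α ^ 3 = α ^ 2 + ((2 : ℕ) : F) • 1 := by rw [h3, Nat.cast_ofNat, h2m]
  obtain ⟨w, s0, s1, s2⟩ := exists_state (Or.inl rfl) hF ha h3' reach3
  simp only [Nat.cast_ofNat, Nat.cast_one, Nat.cast_zero] at s0 s1 s2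
  have s3 : sq 3 α w 3 = 1 := by
    have := sq_rec (q := 3) h3' w 0
    rw [zero_add, zero_add, s2, s0] at this
    rw [this]; norm_num
  have s4 : sq 3 α w 4 = 0 := by
    have : sq 3 α w 4 = sq 3 α w 3 + ((2 : ℕ) : F) * sq 3 α w 1 := sq_rec (q := 3) h3' w 1
    rw [this, s3, s1, Nat.cast_ofNat]
    linear_combination h30
  have g : ∀ i j, hermForm 3 F 3 ((α ^ i) *ᵥ w) ((α ^ j) *ᵥ w) = sq 3 α w (i + j) := fun i j => sq_pow hF ha i j w
  set w0 := w with hw0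
  set w1 := α *ᵥ w with hw1
  set w2 := (α ^ 2) *ᵥ w with hw2
  have g00 : hermForm 3 F 3 w0 w0 = 0 := by have := g 0 0; rw [pow_zero, Matrix.one_mulVec] at this; rw [this]; exact s0
  have g01 : hermForm 3 F 3 w0 w1 = 1 := by have := g 0 1; rw [pow_zero, Matrix.one_mulVec, pow_one] at this; rw [this]; exact s1
  have g02 : hermForm 3 F 3 w0 w2 = 1 := by have := g 0 2; rw [pow_zero, Matrix.one_mulVec] at this; rw [this]; exact s2
  have g10 : hermForm 3 F 3 w1 w0 = 1 := by have := g 1 0; rw [pow_zero, Matrix.one_mulVec, pow_one] at this; rw [this]; exact s1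
  have g11 : hermForm 3 F 3 w1 w1 = 1 := by have := g 1 1; rw [pow_one] at this; rw [this]; exact s2
  have g12 : hermForm 3 F 3 w1 w2 = 1 := by have := g 1 2; rw [pow_one] at this; rw [this]; exact s3
  have g20 : hermForm 3 F 3 w2 w0 = 1 := by have := g 2 0; rw [pow_zero, Matrix.one_mulVec] at this; rw [this]; exact s2
  have g21 : hermForm 3 F 3 w2 w1 = 1 := by have := g 2 1; rw [pow_one] at this; rw [this]; exact s3
  have g22 : hermForm 3 F 3 w2 w2 = 0 := by have := g 2 2; rw [this]; exact s4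
  have n2 : (2 : F) ^ 3 = 2 := by linear_combination 2 * h30
  -- the basis `α w`, `(2 + α ^ 2) w`, `(2 + 2 α + 2 α ^ 2) w`
  apply exists_T_of hF (b := ![w1, (2 : F) • w0 + w2, (2 : F) • w0 + (2 : F) • w1 + (2 : F) • w2])
  · intro i j
    fin_cases i <;> fin_cases j <;>
      simp [hermForm_add_left, hermForm_add_right hF, hermForm_smul_left, hermForm_smul_right, g00, g01, g02, g10, g11, g12, g20, g21, g22, n2]
    all_goals first
      | linear_combination 1 * h30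
      | linear_combination 2 * h30
      | linear_combination 3 * h30
      | linear_combination 4 * h30
      | linear_combination 9 * h30
      | linear_combination 12 * h30
  · have e1 : α *ᵥ w0 = w1 := rfl
    have e2 : α *ᵥ w1 = w2 := by rw [hw1, hw2, Matrix.mulVec_mulVec, ← pow_two]
    have e3 : α *ᵥ w2 = w2 + (2 : F) • w0 := by
      rw [hw2, Matrix.mulVec_mulVec, ← pow_succ', h3, h2m, Matrix.add_mulVec, Matrix.smul_mulVec, Matrix.one_mulVec]
    have h3v : ∀ x : Fin 3 → F, (3 : F) • x = 0 := fun x => by rw [h30, zero_smul]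
    intro j
    fin_cases j
    · show α *ᵥ w1 = (1 : F) • w1 + (2 : F) • ((2 : F) • w0 + w2) + (1 : F) • ((2 : F) • w0 + (2 : F) • w1 + (2 : F) • w2)
      rw [e2]
      have : (1 : F) • w1 + (2 : F) • ((2 : F) • w0 + w2) + (1 : F) • ((2 : F) • w0 + (2 : F) • w1 + (2 : F) • w2) =
          w2 + (3 : F) • ((2 : F) • w0 + w1 + w2) := by
        module
      rw [this, h3v, add_zero]
    · show α *ᵥ ((2 : F) • w0 + w2) = (2 : F) • w1 + (1 : F) • ((2 : F) • w0 + w2) + (0 : F) • ((2 : F) • w0 + (2 : F) • w1 + (2 : F) • w2)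
      rw [Matrix.mulVec_add, Matrix.mulVec_smul, e1, e3]
      module
    · show α *ᵥ ((2 : F) • w0 + (2 : F) • w1 + (2 : F) • w2) = (1 : F) • w1 + (0 : F) • ((2 : F) • w0 + w2) + (2 : F) • ((2 : F) • w0 + (2 : F) • w1 + (2 : F) • w2)
      rw [Matrix.mulVec_add, Matrix.mulVec_add, Matrix.mulVec_smul, Matrix.mulVec_smul, Matrix.mulVec_smul, e1, e2, e3]
      have : (1 : F) • w1 + (0 : F) • ((2 : F) • w0 + w2) + (2 : F) • ((2 : F) • w0 + (2 : F) • w1 + (2 : F) • w2) =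
          (2 : F) • w1 + (2 : F) • w2 + (2 : F) • (w2 + (2 : F) • w0) + (3 : F) • w1 := by
        module
      rw [this, h3v, add_zero]

end

end Cfsg.Agent.Lib.SU3
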