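import Cfsg.Agent.Lib.SU3FldB
set_option autoImplicit false
set_option linter.style.haveILetI false
set_option linter.unusedVariables false
set_option linter.unusedSectionVars false
set_option linter.unusedSimpArgs false

/-!
Normalisers of cubic fields in `SU_3(5)` are not maximal.
-/

namespace Cfsg.Agent.Lib.SU3

open Cfsg Cfsg.Geo Cfsg.Agent.Lib.AschMU Cfsg.Agent.Lib.AschCore Cfsg.Agent.Lib.AschField Cfsg.Agent.Lib.AschAlg
  Cfsg.Agent.Lib.AschGroup Cfsg.Agent.Lib.AschGood Cfsg.Agent.Lib.AschAdj Cfsg.Agent.Lib.AschNonab Cfsg.Agent.Lib.AschTensor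
  Cfsg.Agent.Lib.AschComp Cfsg.Agent.Lib.AschSp Cfsg.Agent.Lib.AschESys Cfsg.Agent.Lib.UnBridge Cfsg.Agent.Lib.HermMat
  Cfsg.Agent.Lib.UnEx
open scoped Matrix MatrixGroups Kronecker

/-- Code of `α`. -/
def cA0 : Matrix (Fin 3) (Fin 3) ℕ := !![4, 0, 2; 0, 2, 3; 2, 3, 0]
/-- Code of the first conjugate of `α`. -/
def cA1 : Matrix (Fin 3) (Fin 3) ℕ := !![0, 2, 3; 2, 4, 0; 3, 0, 2]
/-- Code of the second conjugate of `α`. -/
def cA2 : Matrix (Fin 3) (Fin 3) ℕ := !![2, 3, 0; 3, 0, 2; 0, 2, 4]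
/-- Code of the permutation matrix. -/
def cP : Matrix (Fin 3) (Fin 3) ℕ := !![0, 0, 1; 1, 0, 0; 0, 1, 0]
/-- Code of the additional element. -/
def cR : Matrix (Fin 3) (Fin 3) ℕ := !![1, 1, 2; 1, 2, 1; 2, 1, 1]
/-- Code of a diagonal element. -/
def cW : Matrix (Fin 3) (Fin 3) ℕ := !![4, 0, 0; 0, 1, 0; 0, 0, 4]

/-- Code of a linear combination. -/
def cM (x y z : ℕ) : Matrix (Fin 3) (Fin 3) ℕ := Matrix.of fun i j => fa 5 (fa 5 (fm 5 x (cA0 i j)) (fm 5 y (cA1 i j))) (fm 5 z (cA2 i j))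

/-- Code of the invariant. -/
def tcT (x y z : ℕ) : ℕ :=
  fa 5 (fa 5 (fa 5 (fm 5 4 (fm 5 x (fc 5 x))) (fm 5 2 (fm 5 y (fc 5 y)))) (fm 5 2 (fa 5 (fm 5 z (fc 5 x)) (fm 5 x (fc 5 z)))))
    (fm 5 3 (fa 5 (fm 5 z (fc 5 y)) (fm 5 y (fc 5 z))))

/-- Condition. -/
def ecT (a b c n : ℕ) : Bool := (c == b && a == fm 5 4 b) && (fm 5 n n == b && !(b == 0))

/-- Condition up to cyclic shifts. -/
def gcT (a b c n : ℕ) : Bool := ecT a b c n || (ecT b c a n || ecT c a b n)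

/-- The set of points. -/
def dcT (x y z : ℕ) : Bool := gcT (tcT x y z) (tcT y z x) (tcT z x y) (dtT 5 (cM x y z))

/-- Image under the permutation and the additional element. -/
def checkC (x y z : ℕ) : Bool := !(dcT x y z) || (dcT z x y && dcT (mvT 5 cR x y z 0) (mvT 5 cR x y z 1) (mvT 5 cR x y z 2))

theorem bruteC : ∀ x < 25, ∀ y < 25, ∀ z < 25, checkC x y z = true := by decide +kernel

section
variable {F : Type*} [Field F] [Fintype F] {q : ℕ}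

/-- Elements that permute three matrices cyclically. -/
lemma cyc_step {A0 A1 A2 P G : Matrix (Fin 3) (Fin 3) F} (h10 : A1 * P = P * A0) (h21 : A2 * P = P * A1) (hPPP : P * P * P = 1)
    (hPU : ∀ x y, hermForm 3 F q (P *ᵥ x) (P *ᵥ y) = hermForm 3 F q x y)
    (hGU : ∀ x y, hermForm 3 F q (G *ᵥ x) (G *ᵥ y) = hermForm 3 F q x y) (hPdet : P.det = 1) (hGdet : G.det = 1)
    (hG : A0 * G = G * A0 ∨ A0 * G = G * A1 ∨ A0 * G = G * A2) {D : (Fin 3 → F) → Prop} (hDP : ∀ x, D x → D (P *ᵥ x))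
    (hDZ : ∀ Z : Matrix (Fin 3) (Fin 3) F, A0 * Z = Z * A0 → Z.det = 1 →
      (∀ x y, hermForm 3 F q (Z *ᵥ x) (Z *ᵥ y) = hermForm 3 F q x y) → ∀ x, D x → D (Z *ᵥ x)) {x : Fin 3 → F} (hx : D x) : D (G *ᵥ x) := by
  rcases hG with hG | hG | hG
  · exact hDZ G hG hGdet hGU x hx
  · have hZ : A0 * (G * P) = G * P * A0 := by
      rw [← mul_assoc, hG, mul_assoc, h10, mul_assoc]
    have h1 := hDZ (G * P) hZ (by rw [Matrix.det_mul, hGdet, hPdet, mul_one]) (fun x y => by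
      rw [← Matrix.mulVec_mulVec, ← Matrix.mulVec_mulVec, hGU, hPU]) _ (hDP _ (hDP _ hx))
    rw [Matrix.mulVec_mulVec, Matrix.mulVec_mulVec] at h1
    have e : G * P * P * P = G := by rw [mul_assoc, mul_assoc, ← mul_assoc P P P, hPPP, mul_one]
    rwa [e] at h1
  · have hZ : A0 * (G * P * P) = G * P * P * A0 := by
      rw [← mul_assoc, ← mul_assoc, hG, mul_assoc G A2 P, h21, ← mul_assoc, mul_assoc (G * P) A1 P, h10, ← mul_assoc]
    have h1 := hDZ (G * P * P) hZ (by rw [Matrix.det_mul, Matrix.det_mul, hGdet, hPdet, mul_one, mul_one]) (fun x y => by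
      rw [← Matrix.mulVec_mulVec, ← Matrix.mulVec_mulVec, ← Matrix.mulVec_mulVec, ← Matrix.mulVec_mulVec, hGU, hPU, hPU]) _ (hDP _ hx)
    rw [Matrix.mulVec_mulVec] at h1
    have e : G * P * P * P = G := by rw [mul_assoc, mul_assoc, ← mul_assoc P P P, hPPP, mul_one]
    rwa [e] at h1

/-- The action on a cubic field. -/
lemma root_step (hF : Fintype.card F = q ^ 2) {K : Subalgebra F (Matrix (Fin 3) (Fin 3) F)} {α β γ : Matrix (Fin 3) (Fin 3) F} (hα : α ∈ K)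
    {T g : GL (Fin 3) F} {A0 A1 A2 : Matrix (Fin 3) (Fin 3) F} (h0 : α * (T : Matrix (Fin 3) (Fin 3) F) = (T : Matrix (Fin 3) (Fin 3) F) * A0)
    (h1 : β * (T : Matrix (Fin 3) (Fin 3) F) = (T : Matrix (Fin 3) (Fin 3) F) * A1)
    (h2 : γ * (T : Matrix (Fin 3) (Fin 3) F) = (T : Matrix (Fin 3) (Fin 3) F) * A2)
    (hg : g ∈ subalgebraNormalizer K)
    (hroot : ∀ y ∈ K, y = cj g⁻¹ α → y = α ∨ y = β ∨ y = γ) :
    A0 * ((T⁻¹ * g * T : GL (Fin 3) F) : Matrix (Fin 3) (Fin 3) F) = ((T⁻¹ * g * T : GL (Fin 3) F) : Matrix (Fin 3) (Fin 3) F) * A0 ∨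
    A0 * ((T⁻¹ * g * T : GL (Fin 3) F) : Matrix (Fin 3) (Fin 3) F) = ((T⁻¹ * g * T : GL (Fin 3) F) : Matrix (Fin 3) (Fin 3) F) * A1 ∨
    A0 * ((T⁻¹ * g * T : GL (Fin 3) F) : Matrix (Fin 3) (Fin 3) F) = ((T⁻¹ * g * T : GL (Fin 3) F) : Matrix (Fin 3) (Fin 3) F) * A2 := by
  have hgi : g⁻¹ ∈ subalgebraNormalizer K := inv_mem hg
  have hcjK : cj g⁻¹ α ∈ K := (hgi α).1 hα
  have key : ∀ (y B : Matrix (Fin 3) (Fin 3) F), y * (T : Matrix (Fin 3) (Fin 3) F) = (T : Matrix (Fin 3) (Fin 3) F) * B →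
      cj g⁻¹ α = y →
      A0 * ((T⁻¹ * g * T : GL (Fin 3) F) : Matrix (Fin 3) (Fin 3) F) = ((T⁻¹ * g * T : GL (Fin 3) F) : Matrix (Fin 3) (Fin 3) F) * B := by
    intro y B hyB hy
    have e1 : α * (g : Matrix (Fin 3) (Fin 3) F) = (g : Matrix (Fin 3) (Fin 3) F) * y := by
      rw [← hy, cj_apply, inv_inv, mul_assoc, ← mul_assoc, gl_mul_inv, one_mul]
    have e2 : A0 * ((T⁻¹ : GL (Fin 3) F) : Matrix (Fin 3) (Fin 3) F) = ((T⁻¹ : GL (Fin 3) F) : Matrix (Fin 3) (Fin 3) F) * α := by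
      have h3 := congrArg (fun X => ((T⁻¹ : GL (Fin 3) F) : Matrix (Fin 3) (Fin 3) F) * X * ((T⁻¹ : GL (Fin 3) F) : Matrix (Fin 3) (Fin 3) F)) h0
      beta_reduce at h3
      rw [mul_assoc, mul_assoc α, gl_mul_inv, mul_one, ← mul_assoc ((T⁻¹ : GL (Fin 3) F) : Matrix (Fin 3) (Fin 3) F) (T : Matrix (Fin 3) (Fin 3) F) A0,
        gl_inv_mul, one_mul] at h3
      exact h3.symm
    rw [Units.val_mul, Units.val_mul, ← mul_assoc, ← mul_assoc, e2, mul_assoc _ α, e1, mul_assoc, mul_assoc, hyB, mul_assoc, mul_assoc]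
  rcases hroot _ hcjK rfl with h | h | h
  · exact Or.inl (key α A0 h0 h)
  · exact Or.inr (Or.inl (key β A1 h1 h))
  · exact Or.inr (Or.inr (key γ A2 h2 h))

end

end Cfsg.Agent.Lib.SU3
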