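import Cfsg.Agent.Lib.SU3FldC
set_option autoImplicit false
set_option linter.style.haveILetI false
set_option linter.unusedVariables false
set_option linter.unusedSectionVars false
set_option linter.unusedSimpArgs false

/-!
Normalisers of cubic fields in `SU_3(5)` are not maximal.
-/

namespace Cfsg.Agent.Lib.SU3

open Cfsg Cfsg.Geo Cfsg.Agent.Lib.AschMU Cfsg.Agent.Lib.AschCore Cfsg.Agent.Lib.AschField Cfsg.Agent.Lib.AschAlg
  Cfsg.Agent.Lib.AschGroup Cfsg.Agent.Lib.AschGood Cfsg.Agent.Lib.AschAdj Cfsg.Agent.Lib.AschNonab Cfsg.Agent.Lib.AschTensor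
  Cfsg.Agent.Lib.AschComp Cfsg.Agent.Lib.AschSp Cfsg.Agent.Lib.AschESys Cfsg.Agent.Lib.UnBridge Cfsg.Agent.Lib.HermMat
  Cfsg.Agent.Lib.UnEx
open scoped Matrix MatrixGroups Kronecker

section
variable {F : Type*} [Field F]

/-- The Hermitian form of a matrix. -/
def tk (q : ℕ) (A : Matrix (Fin 3) (Fin 3) F) (x : Fin 3 → F) : F := hermForm 3 F q (A *ᵥ x) x

/-- The element of the field that corresponds to a vector. -/
def mt (A0 A1 A2 : Matrix (Fin 3) (Fin 3) F) (x : Fin 3 → F) : Matrix (Fin 3) (Fin 3) F := x 0 • A0 + x 1 • A1 + x 2 • A2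

lemma tk_comm {q : ℕ} {A Z : Matrix (Fin 3) (Fin 3) F} (hZ : A * Z = Z * A)
    (hU : ∀ x y, hermForm 3 F q (Z *ᵥ x) (Z *ᵥ y) = hermForm 3 F q x y) (x : Fin 3 → F) : tk q A (Z *ᵥ x) = tk q A x := by
  unfold tk
  rw [Matrix.mulVec_mulVec, hZ, ← Matrix.mulVec_mulVec, hU]

lemma single_exp (x : Fin 3 → F) : x = x 0 • Pi.single 0 1 + x 1 • Pi.single 1 1 + x 2 • Pi.single 2 1 := by
  funext i
  fin_cases i <;> simp

lemma mt_mul {A0 A1 A2 Z : Matrix (Fin 3) (Fin 3) F} {u : Fin 3 → F} (hu : u = ![1, 1, 1]) (h0 : A0 *ᵥ u = Pi.single 0 1)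
    (h1 : A1 *ᵥ u = Pi.single 1 1) (h2 : A2 *ᵥ u = Pi.single 2 1) (hbc : (A0 *ᵥ Pi.single 0 1) 1 ≠ (A0 *ᵥ Pi.single 0 1) 2)
    (c10 : A0 * A1 = A1 * A0) (c20 : A0 * A2 = A2 * A0)
    (z0 : A0 * Z = Z * A0) (x : Fin 3 → F) : mt A0 A1 A2 (Z *ᵥ x) = Z * mt A0 A1 A2 x := by
  have hmu : ∀ y, mt A0 A1 A2 y *ᵥ u = y := by
    intro y
    unfold mt
    rw [Matrix.add_mulVec, Matrix.add_mulVec, Matrix.smul_mulVec, Matrix.smul_mulVec, Matrix.smul_mulVec, h0, h1, h2, ← single_exp]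
  have hmc : ∀ y, A0 * mt A0 A1 A2 y = mt A0 A1 A2 y * A0 := by
    intro y
    unfold mt
    simp only [mul_add, add_mul, Matrix.mul_smul, Matrix.smul_mul, c10, c20]
  set C := mt A0 A1 A2 (Z *ᵥ x) - Z * mt A0 A1 A2 x with hC
  have hC0 : A0 * C = C * A0 := by
    rw [hC, mul_sub, sub_mul, hmc, ← mul_assoc, z0, mul_assoc, hmc, mul_assoc]
  have hCu : C *ᵥ u = 0 := by
    rw [hC, Matrix.sub_mulVec, hmu, ← Matrix.mulVec_mulVec, hmu, sub_self]
  have e0 : C *ᵥ Pi.single 0 1 = 0 := by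
    rw [← h0, Matrix.mulVec_mulVec, ← hC0, ← Matrix.mulVec_mulVec, hCu, Matrix.mulVec_zero]
  have e1 : C *ᵥ (A0 *ᵥ Pi.single 0 1) = 0 := by
    rw [Matrix.mulVec_mulVec, ← hC0, ← Matrix.mulVec_mulVec, e0, Matrix.mulVec_zero]
  rw [single_exp (A0 *ᵥ Pi.single 0 1), Matrix.mulVec_add, Matrix.mulVec_add, Matrix.mulVec_smul, Matrix.mulVec_smul, Matrix.mulVec_smul,
    e0, smul_zero, zero_add] at e1
  have hu' : u = Pi.single 0 1 + Pi.single 1 1 + Pi.single 2 1 := by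
    rw [hu]
    funext i
    fin_cases i <;> simp
  rw [hu', Matrix.mulVec_add, Matrix.mulVec_add, e0, zero_add] at hCu
  have e2 : C *ᵥ Pi.single 2 1 = -(C *ᵥ Pi.single 1 1) := by
    rw [eq_neg_iff_add_eq_zero, add_comm]; exact hCu
  rw [e2, smul_neg, ← sub_eq_add_neg, ← sub_smul] at e1
  have e3 : C *ᵥ Pi.single 1 1 = 0 := (smul_eq_zero.1 e1).resolve_left (sub_ne_zero.2 hbc)
  rw [e3, neg_zero] at e2
  have hC00 : C = 0 := by
    ext i j
    have : (C *ᵥ Pi.single j 1) i = 0 := by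
      fin_cases j
      · exact congrFun e0 i
      · exact congrFun e3 i
      · exact congrFun e2 i
    rw [Matrix.mulVec_single_one] at this
    exact this
  exact sub_eq_zero.1 hC00

/-- The condition for `q = 5`. -/
def E5 (a b c n : F) : Prop := (c = b ∧ a = 4 * b) ∧ n * n = b ∧ b ≠ 0

/-- The condition for `q = 5`, up to cyclic shifts. -/
def G5 (a b c n : F) : Prop := E5 a b c n ∨ E5 b c a n ∨ E5 c a b n

/-- The set for `q = 5`. -/
def D5 (A0 A1 A2 : Matrix (Fin 3) (Fin 3) F) (x : Fin 3 → F) : Prop :=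
  G5 (tk 5 A0 x) (tk 5 A1 x) (tk 5 A2 x) (mt A0 A1 A2 x).det

section
variable {ψ : ℕ → F} (h : Tab 5 ψ)
include h

lemma psi5 : ψ 0 = 0 ∧ ψ 1 = 1 ∧ ψ 2 = 2 ∧ ψ 3 = 3 ∧ ψ 4 = 4 := by
  refine ⟨?_, ?_, ?_, ?_, ?_⟩
  · have := h.nat 0 (by norm_num); exact_mod_cast this
  · have := h.nat 1 (by norm_num); exact_mod_cast this
  · have := h.nat 2 (by norm_num); exact_mod_cast this
  · have := h.nat 3 (by norm_num); exact_mod_cast this
  · have := h.nat 4 (by norm_num); exact_mod_cast this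

lemma tk_tab (x y z : ℕ) : tk 5 (cA0.map ψ) ![ψ x, ψ y, ψ z] = ψ (tcT x y z) ∧ tk 5 (cA1.map ψ) ![ψ x, ψ y, ψ z] = ψ (tcT y z x) ∧
    tk 5 (cA2.map ψ) ![ψ x, ψ y, ψ z] = ψ (tcT z x y) := by
  obtain ⟨p0, p1, p2, p3, p4⟩ := psi5 h
  refine ⟨?_, ?_, ?_⟩ <;>
  · unfold tk hermForm tcT
    simp only [h.add, h.mul, h.conj, p0, p1, p2, p3, p4, Fin.sum_univ_three, Matrix.mulVec, dotProduct]
    simp [cA0, cA1, cA2, p0, p1, p2, p3, p4]
    ring

lemma mt_tab [Fintype F] (hF : Fintype.card F = 5 ^ 2) (x y z : ℕ) :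
    (mt (cA0.map ψ) (cA1.map ψ) (cA2.map ψ) ![ψ x, ψ y, ψ z]).det = ψ (dtT 5 (cM x y z)) := by
  rw [← dtT_eq h (by norm_num) hF]
  congr 1
  ext i j
  simp only [mt, cM, Matrix.map_apply, Matrix.of_apply, h.add, h.mul, Matrix.add_apply, Matrix.smul_apply, smul_eq_mul]
  simp

lemma E5_tab {a b c n : ℕ} (ha : a < 25) (hb : b < 25) (hc : c < 25) : E5 (ψ a) (ψ b) (ψ c) (ψ n) ↔ ecT a b c n = true := by
  have h5 : 0 < 5 := by norm_num
  obtain ⟨p0, p1, p2, p3, p4⟩ := psi5 h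
  have e1 : ψ a = 4 * ψ b ↔ a = fm 5 4 b := by
    rw [← h.eq_iff ha (fm_lt h5 _ _), h.mul, p4]
  have e2 : ψ n * ψ n = ψ b ↔ fm 5 n n = b := by
    rw [← h.mul, h.eq_iff (fm_lt h5 _ _) hb]
  unfold E5 ecT
  rw [h.eq_iff hc hb, e1, e2, Ne, h.eq_zero_iff h5 hb]
  simp only [Bool.and_eq_true, beq_iff_eq, Bool.not_eq_true', beq_eq_false_iff_ne, ne_eq]

lemma D5_tab [Fintype F] (hF : Fintype.card F = 5 ^ 2) (x y z : ℕ) :
    D5 (cA0.map ψ) (cA1.map ψ) (cA2.map ψ) ![ψ x, ψ y, ψ z] ↔ dcT x y z = true := by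
  obtain ⟨t0, t1, t2⟩ := tk_tab h x y z
  have hlt : ∀ x y z, tcT x y z < 25 := fun x y z => fa_lt (by norm_num) _ _
  unfold D5 G5
  rw [t0, t1, t2, mt_tab h hF, E5_tab h (hlt _ _ _) (hlt _ _ _) (hlt _ _ _), E5_tab h (hlt _ _ _) (hlt _ _ _) (hlt _ _ _),
    E5_tab h (hlt _ _ _) (hlt _ _ _) (hlt _ _ _)]
  unfold dcT gcT
  simp only [Bool.or_eq_true]

/-- Sum of coded matrices. -/
def amT (p : ℕ) (A B : Matrix (Fin 3) (Fin 3) ℕ) : Matrix (Fin 3) (Fin 3) ℕ := Matrix.of fun i j => fa p (A i j) (B i j)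

end

lemma map_amT {p : ℕ} {ψ : ℕ → F} (h : Tab p ψ) (A B : Matrix (Fin 3) (Fin 3) ℕ) : (amT p A B).map ψ = A.map ψ + B.map ψ := by
  ext i j
  rw [Matrix.map_apply, amT, Matrix.of_apply, h.add, Matrix.add_apply, Matrix.map_apply, Matrix.map_apply]

lemma map_inj {p : ℕ} {ψ : ℕ → F} (h : Tab p ψ) {A B : Matrix (Fin 3) (Fin 3) ℕ} (hA : ∀ i j, A i j < p ^ 2) (hB : ∀ i j, B i j < p ^ 2)
    (hAB : A.map ψ = B.map ψ) : A = B := by
  ext i j
  exact h.inj _ (hA i j) _ (hB i j) (congrFun (congrFun hAB i) j)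

lemma mmT_lt {p : ℕ} (hp : 0 < p) (A B : Matrix (Fin 3) (Fin 3) ℕ) (i j : Fin 3) : mmT p A B i j < p ^ 2 := fa_lt hp _ _

lemma vec_map {p : ℕ} {ψ : ℕ → F} (h : Tab p ψ) (A : Matrix (Fin 3) (Fin 3) ℕ) (x y z : ℕ) :
    A.map ψ *ᵥ ![ψ x, ψ y, ψ z] = ![ψ (mvT p A x y z 0), ψ (mvT p A x y z 1), ψ (mvT p A x y z 2)] := by
  rw [mvT_eq h, mvT_eq h, mvT_eq h]
  funext i
  fin_cases i <;> rfl

variable [Fintype F]

/-- The normaliser of a cubic field is not maximal for `q = 5`. -/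
theorem field_five3_not_maximal (hF : Fintype.card F = 5 ^ 2) {K : Subalgebra F (Matrix (Fin 3) (Fin 3) F)} (hK : IsFieldSubalgebra 3 K)
    (hac : IsAdjointClosedFor (hermForm 3 F 5) K) {H : Subgroup (GL (Fin 3) F)}
    (hH : IsMaximalIn (GU 3 F 5 ⊓ specialLinear (Fin 3) F) H)
    (hKH : H = subalgebraNormalizer K ⊓ (GU 3 F 5 ⊓ specialLinear (Fin 3) F)) : False := by
  classical
  obtain ⟨ψ, h⟩ := exists_tab (p := 5) (Or.inr rfl) hF
  obtain ⟨p0, p1, p2, p3, p4⟩ := psi5 h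
  have h5 := five_zero hF
  haveI := charP5 hF
  obtain ⟨α, hα, hα3, haα, hroots⟩ := alpha5 hF hK hac
  obtain ⟨T, hT, hαT⟩ := basis5 hF haα hα3
  have hA0 : A5m F = cA0.map ψ := by
    ext i j
    fin_cases i <;> fin_cases j <;> simp [A5m, cA0, p0, p1, p2, p3, p4]
  rw [hA0] at hαT
  set A0 := cA0.map ψ with hA0'
  set A1 := cA1.map ψ with hA1'
  set A2 := cA2.map ψ with hA2'
  have hA1 : A1 = 1 + A0 + (2 : F) • (A0 * A0) := by
    rw [hA1', hA0', ← map_mmT h, ← p2, ← map_smT h, ← map_oneT h (by norm_num : 1 < 5), ← map_amT h, ← map_amT h]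
    congr 1
    decide
  have hA2 : A2 = (3 : F) • A0 + (3 : F) • (A0 * A0) := by
    rw [hA2', hA0', ← map_mmT h, ← p3, ← map_smT h, ← map_smT h, ← map_amT h]
    congr 1
    decide
  have c10 : A0 * A1 = A1 * A0 := by
    rw [hA1]
    simp only [mul_add, add_mul, Matrix.mul_smul, Matrix.smul_mul, mul_assoc, mul_one, one_mul]
  have c20 : A0 * A2 = A2 * A0 := by
    rw [hA2]
    simp only [mul_add, add_mul, Matrix.mul_smul, Matrix.smul_mul, mul_assoc]
  have h2m : (2 : Matrix (Fin 3) (Fin 3) F) = (2 : F) • 1 := by rw [two_smul, one_add_one_eq_two]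
  have h3m : (3 : Matrix (Fin 3) (Fin 3) F) = (3 : F) • 1 := by
    ext i j
    rw [Matrix.smul_apply, smul_eq_mul, Matrix.one_apply]
    rw [Matrix.ofNat_apply]
    split_ifs <;> simp
  have hsqT : α * α * (T : Matrix (Fin 3) (Fin 3) F) = (T : Matrix (Fin 3) (Fin 3) F) * (A0 * A0) := by
    rw [mul_assoc, hαT, ← mul_assoc, hαT, mul_assoc]
  have hβT : (1 + α + 2 * α ^ 2) * (T : Matrix (Fin 3) (Fin 3) F) = (T : Matrix (Fin 3) (Fin 3) F) * A1 := by
    rw [hA1, h2m, Matrix.smul_mul, one_mul, pow_two]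
    simp only [mul_add, add_mul, Matrix.mul_smul, Matrix.smul_mul, mul_one, one_mul, hαT, hsqT]
  have hγT : (3 * α + 3 * α ^ 2) * (T : Matrix (Fin 3) (Fin 3) F) = (T : Matrix (Fin 3) (Fin 3) F) * A2 := by
    rw [hA2, h3m, Matrix.smul_mul, Matrix.smul_mul, one_mul, one_mul, pow_two]
    simp only [mul_add, add_mul, Matrix.mul_smul, Matrix.smul_mul, hαT, hsqT]
  -- elements of `H`
  have hcyc : ∀ g ∈ H, A0 * ((T⁻¹ * g * T : GL (Fin 3) F) : Matrix (Fin 3) (Fin 3) F) = ((T⁻¹ * g * T : GL (Fin 3) F) : Matrix (Fin 3) (Fin 3) F) * A0 ∨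
    A0 * ((T⁻¹ * g * T : GL (Fin 3) F) : Matrix (Fin 3) (Fin 3) F) = ((T⁻¹ * g * T : GL (Fin 3) F) : Matrix (Fin 3) (Fin 3) F) * A1 ∨
    A0 * ((T⁻¹ * g * T : GL (Fin 3) F) : Matrix (Fin 3) (Fin 3) F) = ((T⁻¹ * g * T : GL (Fin 3) F) : Matrix (Fin 3) (Fin 3) F) * A2 := by
    intro g hg
    rw [hKH] at hg
    refine root_step hF hα hαT hβT hγT hg.1 ?_
    intro y hy hyc
    refine hroots y hy ?_
    rw [hyc, ← map_pow, hα3, map_add, map_one, map_pow]
  have hPPP : cP.map ψ * cP.map ψ * cP.map ψ = 1 := by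
    rw [← map_mmT h, ← map_mmT h, ← map_oneT h (by norm_num : 1 < 5)]
    congr 1
    decide
  obtain ⟨P, hPv, -, hPG⟩ := exists_of_code h (by norm_num) hF (A := cP) (by decide) (by decide)
  obtain ⟨r, hrv, -, hrG⟩ := exists_of_code h (by norm_num) hF (A := cR) (by decide) (by decide)
  obtain ⟨s, hsv, -, hsG⟩ := exists_of_code h (by norm_num) hF (A := cW) (by decide) (by decide)
  -- the table
  have hbr : ∀ x, D5 A0 A1 A2 x → D5 A0 A1 A2 (cP.map ψ *ᵥ x) ∧ D5 A0 A1 A2 (cR.map ψ *ᵥ x) := by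
    intro v hv
    obtain ⟨x, hx, hx'⟩ := h.surj (v 0)
    obtain ⟨y, hy, hy'⟩ := h.surj (v 1)
    obtain ⟨z, hz, hz'⟩ := h.surj (v 2)
    have hv' : v = ![ψ x, ψ y, ψ z] := by
      funext i
      fin_cases i
      · exact hx'.symm
      · exact hy'.symm
      · exact hz'.symm
    rw [hv', hA0', hA1', hA2', D5_tab h hF] at hv
    have hb := bruteC x hx y hy z hz
    unfold checkC at hb
    rw [hv] at hb
    simp only [Bool.not_true, Bool.false_or, Bool.and_eq_true] at hb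
    constructor
    · have e : cP.map ψ *ᵥ v = ![ψ z, ψ x, ψ y] := by
        rw [hv']
        funext i
        fin_cases i <;> simp [cP, Matrix.mulVec, dotProduct, Fin.sum_univ_three, p0, p1]
      rw [e, hA0', hA1', hA2', D5_tab h hF]
      exact hb.1
    · rw [hv', vec_map h, hA0', hA1', hA2', D5_tab h hF]
      exact hb.2
  refine inv_not_max hF hT (D5 A0 A1 A2) hH ?_ hrG ?_ ?_ hsG (x := ![ψ 1, ψ 3, ψ 1]) ?_ ?_
  · intro g hg x hx
    have hgG := conj_mem' hT (hH.1.le hg)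
    have hPP := hPG.1
    rw [← hPv] at hPPP hbr
    refine cyc_step (q := 5) (P := (P : Matrix (Fin 3) (Fin 3) F)) ?_ ?_ hPPP (fun x y => hPG.1 x y) (fun x y => hgG.1 x y) (det_of_mem hPG.2) (det_of_mem hgG.2) (hcyc g hg)
      (fun x hx => (hbr x hx).1) ?_ hx
    · rw [hPv, hA1', hA0', ← map_mmT h, ← map_mmT h]
      congr 1
      decide
    · rw [hPv, hA1', hA2', ← map_mmT h, ← map_mmT h]
      congr 1
      decide
    · intro Z hZ hZd hZU x hx
      have z1 : A1 * Z = Z * A1 := by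
        rw [hA1]
        simp only [mul_add, add_mul, Matrix.mul_smul, Matrix.smul_mul, mul_one, one_mul, hZ]
        rw [mul_assoc, hZ, ← mul_assoc, hZ, mul_assoc]
      have z2 : A2 * Z = Z * A2 := by
        rw [hA2]
        simp only [mul_add, add_mul, Matrix.mul_smul, Matrix.smul_mul, mul_one, one_mul, hZ]
        rw [mul_assoc, hZ, ← mul_assoc, hZ, mul_assoc]
      unfold D5
      rw [tk_comm hZ hZU, tk_comm z1 hZU, tk_comm z2 hZU, mt_mul rfl ?_ ?_ ?_ ?_ c10 c20 hZ, Matrix.det_mul, hZd, one_mul]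
      · exact hx
      · funext i
        fin_cases i <;> simp [hA0', cA0, Matrix.mulVec, dotProduct, Fin.sum_univ_three, p0, p2, p3, p4]
        · linear_combination h5
        · linear_combination h5
        · linear_combination h5
      · funext i
        fin_cases i <;> simp [hA1', cA1, Matrix.mulVec, dotProduct, Fin.sum_univ_three, p0, p2, p3, p4]
        · linear_combination h5
        · linear_combination h5
        · linear_combination h5
      · funext i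
        fin_cases i <;> simp [hA2', cA2, Matrix.mulVec, dotProduct, Fin.sum_univ_three, p0, p2, p3, p4]
        · linear_combination h5
        · linear_combination h5
        · linear_combination h5
      · rw [Matrix.mulVec_single_one]
        show ψ 0 ≠ ψ 2
        rw [Ne, h.eq_iff (by norm_num) (by norm_num)]
        norm_num
  · intro x hx
    rw [hrv]
    exact (hbr x hx).2
  · intro hrH
    have e : T⁻¹ * (T * r * T⁻¹) * T = r := by group
    have h1 := hcyc _ hrH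
    rw [e, hrv] at h1
    simp only [hA0', hA1', hA2', ← map_mmT h] at h1
    rcases h1 with h1 | h1 | h1
    · exact absurd (map_inj h (mmT_lt (by norm_num) _ _) (mmT_lt (by norm_num) _ _) h1) (by decide)
    · exact absurd (map_inj h (mmT_lt (by norm_num) _ _) (mmT_lt (by norm_num) _ _) h1) (by decide)
    · exact absurd (map_inj h (mmT_lt (by norm_num) _ _) (mmT_lt (by norm_num) _ _) h1) (by decide)
  · rw [hA0', hA1', hA2', D5_tab h hF]
    decide
  · rw [hsv, vec_map h, hA0', hA1', hA2', D5_tab h hF]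
    decide

end

end Cfsg.Agent.Lib.SU3
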