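import Cfsg.Agent.Lib.SU3FldD
set_option autoImplicit false
set_option linter.style.haveILetI false
set_option linter.unusedVariables false
set_option linter.unusedSectionVars false
set_option linter.unusedSimpArgs false

/-!
Normalisers of cubic fields in `SU_3(3)` are not maximal.
-/

namespace Cfsg.Agent.Lib.SU3

open Cfsg Cfsg.Geo Cfsg.Agent.Lib.AschMU Cfsg.Agent.Lib.AschCore Cfsg.Agent.Lib.AschField Cfsg.Agent.Lib.AschAlg
  Cfsg.Agent.Lib.AschGroup Cfsg.Agent.Lib.AschGood Cfsg.Agent.Lib.AschAdj Cfsg.Agent.Lib.AschNonab Cfsg.Agent.Lib.AschTensor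
  Cfsg.Agent.Lib.AschComp Cfsg.Agent.Lib.AschSp Cfsg.Agent.Lib.AschESys Cfsg.Agent.Lib.UnBridge Cfsg.Agent.Lib.HermMat
  Cfsg.Agent.Lib.UnEx
open scoped Matrix MatrixGroups Kronecker

/-- Code of `α`. -/
def bA03 : Matrix (Fin 3) (Fin 3) ℕ := !![1, 2, 1; 2, 1, 0; 1, 0, 2]
/-- Code of the first conjugate of `α`. -/
def bA13 : Matrix (Fin 3) (Fin 3) ℕ := !![2, 1, 0; 1, 1, 2; 0, 2, 1]
/-- Code of the second conjugate of `α`. -/
def bA23 : Matrix (Fin 3) (Fin 3) ℕ := !![1, 0, 2; 0, 2, 1; 2, 1, 1]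
/-- Code of the permutation matrix. -/
def bP3 : Matrix (Fin 3) (Fin 3) ℕ := !![0, 0, 1; 1, 0, 0; 0, 1, 0]
/-- Code of the additional element. -/
def bR3 : Matrix (Fin 3) (Fin 3) ℕ := !![2, 0, 0; 0, 0, 2; 0, 2, 0]
/-- Code of a diagonal element. -/
def bW3 : Matrix (Fin 3) (Fin 3) ℕ := !![2, 0, 0; 0, 2, 0; 0, 0, 1]

/-- Code of the invariant. -/
def tbT3 (x y z : ℕ) : ℕ :=
  fa 3 (fa 3 (fa 3 (fm 3 x (fc 3 x)) (fm 3 y (fc 3 y))) (fm 3 2 (fm 3 z (fc 3 z))))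
    (fa 3 (fm 3 2 (fa 3 (fm 3 x (fc 3 y)) (fm 3 y (fc 3 x)))) (fa 3 (fm 3 x (fc 3 z)) (fm 3 z (fc 3 x))))

/-- Condition. -/
def ebT3 (a b c : ℕ) : Bool := a == 0 && (b == c && !(b == 0))

/-- Condition up to cyclic shifts. -/
def gbT3 (a b c : ℕ) : Bool := ebT3 a b c || (ebT3 b c a || ebT3 c a b)

/-- The set of points. -/
def dbT3 (x y z : ℕ) : Bool := gbT3 (tbT3 x y z) (tbT3 y z x) (tbT3 z x y)

/-- Image under the permutation and the additional element. -/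
def checkB3 (x y z : ℕ) : Bool := !(dbT3 x y z) || (dbT3 z x y && dbT3 (mvT 3 bR3 x y z 0) (mvT 3 bR3 x y z 1) (mvT 3 bR3 x y z 2))

theorem bruteB3 : ∀ x < 9, ∀ y < 9, ∀ z < 9, checkB3 x y z = true := by decide +kernel

section
variable {F : Type*} [Field F]

/-- The condition for `q = 3`. -/
def E3 (a b c : F) : Prop := a = 0 ∧ b = c ∧ b ≠ 0

/-- The condition for `q = 3`, up to cyclic shifts. -/
def G3 (a b c : F) : Prop := E3 a b c ∨ E3 b c a ∨ E3 c a b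

/-- The set for `q = 3`. -/
def D3 (A0 A1 A2 : Matrix (Fin 3) (Fin 3) F) (x : Fin 3 → F) : Prop :=
  G3 (tk 3 A0 x) (tk 3 A1 x) (tk 3 A2 x)

section
variable {ψ : ℕ → F} (h : Tab 3 ψ)
include h

lemma psi3 : ψ 0 = 0 ∧ ψ 1 = 1 ∧ ψ 2 = 2 := by
  refine ⟨?_, ?_, ?_⟩
  · have := h.nat 0 (by norm_num); exact_mod_cast this
  · have := h.nat 1 (by norm_num); exact_mod_cast this
  · have := h.nat 2 (by norm_num); exact_mod_cast this

lemma tb_tab (x y z : ℕ) : tk 3 (bA03.map ψ) ![ψ x, ψ y, ψ z] = ψ (tbT3 x y z) ∧ tk 3 (bA13.map ψ) ![ψ x, ψ y, ψ z] = ψ (tbT3 y z x) ∧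
    tk 3 (bA23.map ψ) ![ψ x, ψ y, ψ z] = ψ (tbT3 z x y) := by
  obtain ⟨p0, p1, p2⟩ := psi3 h
  refine ⟨?_, ?_, ?_⟩ <;>
  · unfold tk hermForm tbT3
    simp only [h.add, h.mul, h.conj, p0, p1, p2, Fin.sum_univ_three, Matrix.mulVec, dotProduct]
    simp [bA03, bA13, bA23, p0, p1, p2]
    ring

lemma E3_tab {a b c : ℕ} (ha : a < 9) (hb : b < 9) (hc : c < 9) : E3 (ψ a) (ψ b) (ψ c) ↔ ebT3 a b c = true := by
  have h5 : 0 < 3 := by norm_num
  unfold E3 ebT3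
  rw [h.eq_iff hb hc, Ne, h.eq_zero_iff h5 hb, h.eq_zero_iff h5 ha]
  simp only [Bool.and_eq_true, beq_iff_eq, Bool.not_eq_true', beq_eq_false_iff_ne, ne_eq]

lemma D3_tab (x y z : ℕ) : D3 (bA03.map ψ) (bA13.map ψ) (bA23.map ψ) ![ψ x, ψ y, ψ z] ↔ dbT3 x y z = true := by
  obtain ⟨t0, t1, t2⟩ := tb_tab h x y z
  have hlt : ∀ x y z, tbT3 x y z < 9 := fun x y z => fa_lt (by norm_num) _ _
  unfold D3 G3
  rw [t0, t1, t2, E3_tab h (hlt _ _ _) (hlt _ _ _) (hlt _ _ _), E3_tab h (hlt _ _ _) (hlt _ _ _) (hlt _ _ _),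
    E3_tab h (hlt _ _ _) (hlt _ _ _) (hlt _ _ _)]
  unfold dbT3 gbT3
  simp only [Bool.or_eq_true]

end

variable [Fintype F]

/-- The normaliser of a cubic field is not maximal for `q = 3`. -/
theorem field_three3_not_maximal (hF : Fintype.card F = 3 ^ 2) {K : Subalgebra F (Matrix (Fin 3) (Fin 3) F)} (hK : IsFieldSubalgebra 3 K)
    (hac : IsAdjointClosedFor (hermForm 3 F 3) K) {H : Subgroup (GL (Fin 3) F)}
    (hH : IsMaximalIn (GU 3 F 3 ⊓ specialLinear (Fin 3) F) H)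
    (hKH : H = subalgebraNormalizer K ⊓ (GU 3 F 3 ⊓ specialLinear (Fin 3) F)) : False := by
  classical
  obtain ⟨ψ, h⟩ := exists_tab (p := 3) (Or.inl rfl) hF
  obtain ⟨p0, p1, p2⟩ := psi3 h
  haveI : CharP F 3 := charP_of (by norm_num) hF
  have h30 : (3 : F) = 0 := by
    have := CharP.cast_eq_zero F 3
    exact_mod_cast this
  obtain ⟨α, hα, hα3, haα, hroots⟩ := alpha3 hF hK hac
  obtain ⟨T, hT, hαT⟩ := basis3 hF haα hα3
  have hA0 : A3m F = bA03.map ψ := by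
    ext i j
    fin_cases i <;> fin_cases j <;> simp [A3m, bA03, p0, p1, p2]
  rw [hA0] at hαT
  set A0 := bA03.map ψ with hA0'
  set A1 := bA13.map ψ with hA1'
  set A2 := bA23.map ψ with hA2'
  have hA1 : A1 = (2 : F) • 1 + A0 * A0 := by
    rw [hA1', hA0', ← map_mmT h, ← p2, ← map_oneT h (by norm_num : 1 < 3), ← map_smT h, ← map_amT h]
    congr 1
    decide
  have hA2 : A2 = (2 : F) • 1 + (2 : F) • A0 + (2 : F) • (A0 * A0) := by
    rw [hA2', hA0', ← map_mmT h, ← p2, ← map_oneT h (by norm_num : 1 < 3), ← map_smT h, ← map_smT h, ← map_smT h, ← map_amT h, ← map_amT h]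
    congr 1
    decide
  have h2m : (2 : Matrix (Fin 3) (Fin 3) F) = (2 : F) • 1 := by rw [two_smul, one_add_one_eq_two]
  have hsqT : α * α * (T : Matrix (Fin 3) (Fin 3) F) = (T : Matrix (Fin 3) (Fin 3) F) * (A0 * A0) := by
    rw [mul_assoc, hαT, ← mul_assoc, hαT, mul_assoc]
  have hβT : (2 + α ^ 2) * (T : Matrix (Fin 3) (Fin 3) F) = (T : Matrix (Fin 3) (Fin 3) F) * A1 := by
    rw [hA1, h2m, pow_two]
    simp only [mul_add, add_mul, Matrix.mul_smul, Matrix.smul_mul, mul_one, one_mul, hαT, hsqT]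
  have hγT : (2 + 2 * α + 2 * α ^ 2) * (T : Matrix (Fin 3) (Fin 3) F) = (T : Matrix (Fin 3) (Fin 3) F) * A2 := by
    rw [hA2, h2m, Matrix.smul_mul, Matrix.smul_mul, one_mul, one_mul, pow_two]
    simp only [mul_add, add_mul, Matrix.mul_smul, Matrix.smul_mul, mul_one, one_mul, hαT, hsqT]
  -- elements of `H`
  have hcyc : ∀ g ∈ H, A0 * ((T⁻¹ * g * T : GL (Fin 3) F) : Matrix (Fin 3) (Fin 3) F) = ((T⁻¹ * g * T : GL (Fin 3) F) : Matrix (Fin 3) (Fin 3) F) * A0 ∨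
    A0 * ((T⁻¹ * g * T : GL (Fin 3) F) : Matrix (Fin 3) (Fin 3) F) = ((T⁻¹ * g * T : GL (Fin 3) F) : Matrix (Fin 3) (Fin 3) F) * A1 ∨
    A0 * ((T⁻¹ * g * T : GL (Fin 3) F) : Matrix (Fin 3) (Fin 3) F) = ((T⁻¹ * g * T : GL (Fin 3) F) : Matrix (Fin 3) (Fin 3) F) * A2 := by
    intro g hg
    rw [hKH] at hg
    refine root_step hF hα hαT hβT hγT hg.1 ?_
    intro y hy hyc
    refine hroots y hy ?_
    rw [hyc, ← map_pow, hα3, map_add, map_pow, map_ofNat]
  have hPPP : bP3.map ψ * bP3.map ψ * bP3.map ψ = 1 := by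
    rw [← map_mmT h, ← map_mmT h, ← map_oneT h (by norm_num : 1 < 3)]
    congr 1
    decide
  obtain ⟨P, hPv, -, hPG⟩ := exists_of_code h (by norm_num) hF (A := bP3) (by decide) (by decide)
  obtain ⟨r, hrv, -, hrG⟩ := exists_of_code h (by norm_num) hF (A := bR3) (by decide) (by decide)
  obtain ⟨s, hsv, -, hsG⟩ := exists_of_code h (by norm_num) hF (A := bW3) (by decide) (by decide)
  -- the table
  have hbr : ∀ x, D3 A0 A1 A2 x → D3 A0 A1 A2 (bP3.map ψ *ᵥ x) ∧ D3 A0 A1 A2 (bR3.map ψ *ᵥ x) := by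
    intro v hv
    obtain ⟨x, hx, hx'⟩ := h.surj (v 0)
    obtain ⟨y, hy, hy'⟩ := h.surj (v 1)
    obtain ⟨z, hz, hz'⟩ := h.surj (v 2)
    have hv' : v = ![ψ x, ψ y, ψ z] := by
      funext i
      fin_cases i
      · exact hx'.symm
      · exact hy'.symm
      · exact hz'.symm
    rw [hv', hA0', hA1', hA2', D3_tab h] at hv
    have hb := bruteB3 x hx y hy z hz
    unfold checkB3 at hb
    rw [hv] at hb
    simp only [Bool.not_true, Bool.false_or, Bool.and_eq_true] at hb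
    constructor
    · have e : bP3.map ψ *ᵥ v = ![ψ z, ψ x, ψ y] := by
        rw [hv']
        funext i
        fin_cases i <;> simp [bP3, Matrix.mulVec, dotProduct, Fin.sum_univ_three, p0, p1]
      rw [e, hA0', hA1', hA2', D3_tab h]
      exact hb.1
    · rw [hv', vec_map h, hA0', hA1', hA2', D3_tab h]
      exact hb.2
  refine inv_not_max hF hT (D3 A0 A1 A2) hH ?_ hrG ?_ ?_ hsG (x := ![ψ 0, ψ 1, ψ 2]) ?_ ?_
  · intro g hg x hx
    have hgG := conj_mem' hT (hH.1.le hg)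
    rw [← hPv] at hPPP hbr
    refine cyc_step (q := 3) (P := (P : Matrix (Fin 3) (Fin 3) F)) ?_ ?_ hPPP (fun x y => hPG.1 x y) (fun x y => hgG.1 x y) (det_of_mem hPG.2) (det_of_mem hgG.2) (hcyc g hg)
      (fun x hx => (hbr x hx).1) ?_ hx
    · rw [hPv, hA1', hA0', ← map_mmT h, ← map_mmT h]
      congr 1
      decide
    · rw [hPv, hA1', hA2', ← map_mmT h, ← map_mmT h]
      congr 1
      decide
    · intro Z hZ hZd hZU x hx
      have z1 : A1 * Z = Z * A1 := by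
        rw [hA1]
        simp only [mul_add, add_mul, Matrix.mul_smul, Matrix.smul_mul, mul_one, one_mul, hZ]
        rw [mul_assoc, hZ, ← mul_assoc, hZ, mul_assoc]
      have z2 : A2 * Z = Z * A2 := by
        rw [hA2]
        simp only [mul_add, add_mul, Matrix.mul_smul, Matrix.smul_mul, mul_one, one_mul, hZ]
        rw [mul_assoc, hZ, ← mul_assoc, hZ, mul_assoc]
      unfold D3
      rw [tk_comm hZ hZU, tk_comm z1 hZU, tk_comm z2 hZU]
      exact hx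
  · intro x hx
    rw [hrv]
    exact (hbr x hx).2
  · intro hrH
    have e : T⁻¹ * (T * r * T⁻¹) * T = r := by group
    have h1 := hcyc _ hrH
    rw [e, hrv] at h1
    simp only [hA0', hA1', hA2', ← map_mmT h] at h1
    rcases h1 with h1 | h1 | h1
    · exact absurd (map_inj h (mmT_lt (by norm_num) _ _) (mmT_lt (by norm_num) _ _) h1) (by decide)
    · exact absurd (map_inj h (mmT_lt (by norm_num) _ _) (mmT_lt (by norm_num) _ _) h1) (by decide)
    · exact absurd (map_inj h (mmT_lt (by norm_num) _ _) (mmT_lt (by norm_num) _ _) h1) (by decide)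
  · rw [hA0', hA1', hA2', D3_tab h]
    decide
  · rw [hsv, vec_map h, hA0', hA1', hA2', D3_tab h]
    decide

end

end Cfsg.Agent.Lib.SU3
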