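import Cfsg.Agent.Lib.SU3Brute
set_option autoImplicit false
set_option linter.style.haveILetI false
set_option linter.unusedVariables false
set_option linter.unusedSectionVars false
set_option linter.unusedSimpArgs false

/-!
The stabiliser of an orthonormal frame of the unitary space of dimension three over the field with twenty-five elements is not
maximal.
-/

namespace Cfsg.Agent.Lib.SU3

open Cfsg Cfsg.Geo Cfsg.Agent.Lib.AschMU Cfsg.Agent.Lib.AschCore Cfsg.Agent.Lib.AschField Cfsg.Agent.Lib.AschAlg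
  Cfsg.Agent.Lib.AschGroup Cfsg.Agent.Lib.AschGood Cfsg.Agent.Lib.AschAdj Cfsg.Agent.Lib.AschNonab Cfsg.Agent.Lib.AschTensor
  Cfsg.Agent.Lib.AschComp Cfsg.Agent.Lib.AschSp Cfsg.Agent.Lib.AschESys Cfsg.Agent.Lib.UnBridge Cfsg.Agent.Lib.HermMat
  Cfsg.Agent.Lib.UnEx
open scoped Matrix MatrixGroups Kronecker

section
variable {F : Type*} [Field F]

lemma da_sign [CharP F 5] {ε δ : F} (hε : ε * ε = 1) (hδ : δ * δ = 1) {a b c : F} (hd : DA a b c) : DA a (ε * b) (δ * c) := by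
  have hε5 : ε ^ 5 = ε := by linear_combination (ε * (ε * ε + 1)) * hε
  have hδ5 : δ ^ 5 = δ := by linear_combination (δ * (δ * δ + 1)) * hδ
  have e1 : HH a (ε * b) (δ * c) = HH a b c := by
    unfold HH
    rw [mul_pow, mul_pow, hε5, hδ5]
    linear_combination b * b ^ 5 * hε + c * c ^ 5 * hδ
  have e2 : QQ a (ε * b) (δ * c) = QQ a b c := by
    unfold QQ
    linear_combination b * b * hε + c * c * hδ
  unfold DA
  rw [e1, e2]
  refine ⟨hd.1, ?_⟩
  rcases hd.2 with ⟨r1, r2, r3⟩ | h2 | h2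
  · left
    unfold RL
    rw [mul_pow, mul_pow, hε5, hδ5]
    exact ⟨by linear_combination ε * r1, by linear_combination δ * r2, by linear_combination ε * δ * r3⟩
  · exact Or.inr (Or.inl h2)
  · exact Or.inr (Or.inr h2)

lemma da_diag [CharP F 5] {ψ : ℕ → F} (h : Tab 5 ψ) {d : Fin 3 → F} (hd : ∀ i, d i ^ 6 = 1) (hp : (d 0 * d 1 * d 2) ^ 2 = 1) {v : Fin 3 → F}
    (hv : DA (v 0) (v 1) (v 2)) : DA (d 0 * v 0) (d 1 * v 1) (d 2 * v 2) := by
  have h0 : ∀ i, d i ≠ 0 := by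
    intro i h0
    have := hd i
    rw [h0, zero_pow (by norm_num)] at this
    exact zero_ne_one this
  set a := d 1 / d 0 with ha
  set b := d 2 / d 0 with hb
  have ha' : d 1 = d 0 * a := by rw [ha]; field_simp [h0 0]
  have hb' : d 2 = d 0 * b := by rw [hb]; field_simp [h0 0]
  have ha6 : a ^ 6 = 1 := by rw [ha, div_pow, hd, hd, div_one]
  have hab : (a * b) * (a * b) = 1 := by
    have h1 := hd 0
    rw [ha', hb'] at hp
    linear_combination hp - (a * b) * (a * b) * h1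
  have hε : a ^ 3 * a ^ 3 = 1 := by linear_combination ha6
  have hu : (a * a ^ 3) * (a * a ^ 3) * (a * a ^ 3) = 1 := by
    linear_combination (a ^ 6 + 1) * ha6
  have hδ : (a * b * a ^ 3) * (a * b * a ^ 3) = 1 := by
    linear_combination hab * a ^ 6 + ha6
  have h1 := da_smul (h0 0) (da_sign hε hδ (da_cube h hu hv))
  rw [ha', hb']
  convert h1 using 1
  · linear_combination (-(d 0 * a * v 1)) * ha6
  · linear_combination (-(d 0 * v 2 * b) * (a ^ 6 + 1)) * ha6
end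

section
variable {F : Type*} [Field F] [Fintype F]

/-- A real orthogonal matrix. -/
def S5 (F : Type*) [Field F] : Matrix (Fin 3) (Fin 3) F := !![1, 1, 2; 1, 2, 1; 2, 1, 1]

lemma S5_sq (h5 : (5 : F) = 0) : S5 F * S5 F = 1 := by
  ext i j
  fin_cases i <;> fin_cases j <;> simp [S5, Matrix.mul_apply, Fin.sum_univ_three] <;> linear_combination h5

lemma S5_t : (S5 F)ᵀ = S5 F := by
  ext i j
  fin_cases i <;> fin_cases j <;> rfl

lemma S5_det (h5 : (5 : F) = 0) : (S5 F).det = 1 := by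
  rw [S5, Matrix.det_fin_three]
  simp
  linear_combination -h5

lemma natCast_pow5 [CharP F 5] (n : ℕ) : ((n : F)) ^ 5 = n := by
  haveI : Fact (Nat.Prime 5) := ⟨by norm_num⟩
  have := map_natCast (frobenius F 5) n
  rwa [frobenius_def] at this

lemma S5_real [CharP F 5] (i j : Fin 3) : S5 F i j ^ 5 = S5 F i j := by
  have h2 : (2 : F) ^ 5 = 2 := by have := natCast_pow5 (F := F) 2; exact_mod_cast this
  fin_cases i <;> fin_cases j <;> simp [S5, h2]

/-- A conjugate of the real orthogonal matrix. -/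
def W5 {F : Type*} [Field F] (w : F) : Matrix (Fin 3) (Fin 3) F := !![1, w, 2 * w; w ^ 2, 2, 1; 2 * w ^ 2, 1, 1]

lemma charP5 (hF : Fintype.card F = 5 ^ 2) : CharP F 5 := charP_of (by norm_num) hF

lemma five_zero (hF : Fintype.card F = 5 ^ 2) : (5 : F) = 0 := by
  haveI := charP5 hF
  have := CharP.cast_eq_zero F 5
  exact_mod_cast this

/-- The primitive cube root of unity. -/
lemma omega_eq {ψ : ℕ → F} (h : Tab 5 ψ) : ψ 12 * ψ 12 + ψ 12 + 1 = 0 ∧ ψ 12 ^ 5 = ψ 12 ^ 2 ∧ ψ 12 ^ 3 = 1 := by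
  have h1 : ψ 1 = 1 := by have := h.nat 1 (by norm_num); exact_mod_cast this
  have e1 : ψ 12 * ψ 12 + ψ 12 + 1 = 0 := by
    rw [← h1, ← h.mul, ← h.add, ← h.add, ← h.zero (by norm_num)]; rfl
  have e3 : ψ 12 ^ 3 = 1 := by linear_combination (ψ 12 - 1) * e1
  exact ⟨e1, by linear_combination ψ 12 ^ 2 * e3, e3⟩

lemma W5_mul {w : F} (h5 : (5 : F) = 0) (hw : w ^ 3 = 1) : W5 w * W5 w = 1 := by
  ext i j
  fin_cases i <;> fin_cases j <;> simp [W5, Matrix.mul_apply, Fin.sum_univ_three]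
  · linear_combination (5 : F) * hw + h5
  · linear_combination w * h5
  · linear_combination w * h5
  · linear_combination w ^ 2 * h5
  · linear_combination hw + h5
  · linear_combination 2 * hw + h5
  · linear_combination w ^ 2 * h5
  · linear_combination 2 * hw + h5
  · linear_combination 4 * hw + h5

lemma W5_unit (hF : Fintype.card F = 5 ^ 2) {w : F} (hw : w ^ 3 = 1) : (W5 w)ᵀ.map (sg hF) = W5 w := by
  have h5 := five_zero hF
  haveI := charP5 hF
  have h2 : (2 : F) ^ 5 = 2 := by have := natCast_pow5 (F := F) 2; exact_mod_cast this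
  ext i j
  rw [Matrix.map_apply, sg_apply, Matrix.transpose_apply]
  have e1 : (w ^ 2) ^ 5 = w := by linear_combination w * (w ^ 6 + w ^ 3 + 1) * hw
  have e2 : w ^ 5 = w ^ 2 := by linear_combination w ^ 2 * hw
  fin_cases i <;> fin_cases j <;> simp [W5, mul_pow, h2, e1, e2]

lemma W5_det {w : F} (h5 : (5 : F) = 0) (hw : w ^ 3 = 1) : (W5 w).det = 1 := by
  rw [W5, Matrix.det_fin_three]
  simp
  linear_combination (-w ^ 3) * h5

lemma mem_gu_sl (hF : Fintype.card F = 5 ^ 2) {g : GL (Fin 3) F} (h1 : (g : Matrix (Fin 3) (Fin 3) F)ᵀ.map (sg hF) = (g : Matrix (Fin 3) (Fin 3) F))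
    (h2 : (g : Matrix (Fin 3) (Fin 3) F) * g = 1) (h3 : (g : Matrix (Fin 3) (Fin 3) F).det = 1) : g ∈ GU 3 F 5 ⊓ specialLinear (Fin 3) F :=
  ⟨(mem_GU_iff hF).2 (by rw [h1, h2]), mem_sl_of_det h3⟩

/-- The elements for the set of 105 points. -/
theorem data5 (hF : Fintype.card F = 5 ^ 2) : ∃ (ψ : ℕ → F) (r s : GL (Fin 3) F), Tab 5 ψ ∧ (r : Matrix (Fin 3) (Fin 3) F) = S5 F ∧
    r ∈ GU 3 F 5 ⊓ specialLinear (Fin 3) F ∧ (s : Matrix (Fin 3) (Fin 3) F) = W5 (ψ 12) ∧
    s ∈ GU 3 F 5 ⊓ specialLinear (Fin 3) F ∧ DA (1 : F) 0 0 ∧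
    ¬ DA (((s : Matrix (Fin 3) (Fin 3) F) *ᵥ ![1, 0, 0]) 0) (((s : Matrix (Fin 3) (Fin 3) F) *ᵥ ![1, 0, 0]) 1)
      (((s : Matrix (Fin 3) (Fin 3) F) *ᵥ ![1, 0, 0]) 2) := by
  obtain ⟨ψ, h⟩ := exists_tab (p := 5) (Or.inr rfl) hF
  have h5 := five_zero hF
  haveI := charP5 hF
  obtain ⟨e1, e2, e3⟩ := omega_eq h
  have hS := S5_sq h5
  have hW := W5_mul h5 e3
  have h1 : ψ 1 = 1 := by have := h.nat 1 (by norm_num); exact_mod_cast this
  have h0 : ψ 0 = 0 := by have := h.nat 0 (by norm_num); exact_mod_cast this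
  have h2 : ψ 2 = 2 := by have := h.nat 2 (by norm_num); exact_mod_cast this
  refine ⟨ψ, ⟨S5 F, S5 F, hS, hS⟩, ⟨W5 (ψ 12), W5 (ψ 12), hW, hW⟩, h, rfl, mem_gu_sl hF ?_ hS (S5_det h5), rfl,
    mem_gu_sl hF (W5_unit hF e3) hW (W5_det h5 e3), ?_, ?_⟩
  · show (S5 F)ᵀ.map (sg hF) = S5 F
    rw [S5_t]
    ext i j
    rw [Matrix.map_apply, sg_apply, S5_real]
  · rw [← h1, ← h0, da_tab h]; rfl
  · have v0 : (W5 (ψ 12) *ᵥ ![1, 0, 0]) 0 = ψ 1 := by
      rw [Matrix.mulVec, dotProduct, Fin.sum_univ_three, h1]; simp [W5]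
    have v1 : (W5 (ψ 12) *ᵥ ![1, 0, 0]) 1 = ψ (fm 5 12 12) := by
      rw [Matrix.mulVec, dotProduct, Fin.sum_univ_three, h.mul]; simp [W5, sq]
    have v2 : (W5 (ψ 12) *ᵥ ![1, 0, 0]) 2 = ψ (fm 5 2 (fm 5 12 12)) := by
      rw [Matrix.mulVec, dotProduct, Fin.sum_univ_three, h.mul, h.mul, h2]; simp [W5, sq]
    show ¬ DA ((W5 (ψ 12) *ᵥ ![1, 0, 0]) 0) ((W5 (ψ 12) *ᵥ ![1, 0, 0]) 1) ((W5 (ψ 12) *ᵥ ![1, 0, 0]) 2)
    rw [v0, v1, v2, da_tab h]
    decide

theorem frame_five_not_maximal (hF : Fintype.card F = 5 ^ 2) {D : Fin 3 → Submodule F (Fin 3 → F)}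
    (hD : IsNondegenerateMDecomposition (hermForm 3 F 5) 1 D) {H : Subgroup (GL (Fin 3) F)}
    (hH : IsMaximalIn (GU 3 F 5 ⊓ specialLinear (Fin 3) F) H)
    (hDH : H = decompositionStabilizer D ⊓ (GU 3 F 5 ⊓ specialLinear (Fin 3) F)) : False := by
  classical
  haveI := charP5 hF
  obtain ⟨ψ, r, s, h, hr, hrG, hs, hsG, hd1, hd2⟩ := data5 hF
  obtain ⟨b, hb, hbD⟩ := exists_orthonormal hF hD
  obtain ⟨T, hT, hTb⟩ := exists_gl_of_orthonormal hF b hb
  have hTD : ∀ i, D i = F ∙ ((T : Matrix (Fin 3) (Fin 3) F) *ᵥ Pi.single i 1) := by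
    intro i; rw [hTb, hbD]
  refine inv_not_max hF hT (fun v => DA (v 0) (v 1) (v 2)) hH ?_ hrG ?_ ?_ hsG (x := ![1, 0, 0]) hd1 hd2
  · intro g hg x hx
    have hgG := hH.1.le hg
    rw [hDH] at hg
    obtain ⟨π, d, hd, hm⟩ := stab_mono hF hT hTD hgG.1 hg.1
    set g' : GL (Fin 3) F := T⁻¹ * g * T with hg'
    have hdet : (g' : Matrix (Fin 3) (Fin 3) F).det = 1 := det_of_mem (conj_mem' hT hgG).2
    -- the permutation matrix
    set P : Matrix (Fin 3) (Fin 3) F := Matrix.of fun i j => if i = π j then 1 else 0 with hP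
    have hPe : ∀ i j, P i j = if i = π j then 1 else 0 := fun i j => rfl
    have hPt : Pᵀ * P = 1 := by
      ext i j
      rw [Matrix.mul_apply, Finset.sum_eq_single (π j), Matrix.transpose_apply, hPe, hPe, if_pos rfl, Matrix.one_apply, mul_one]
      · by_cases hij : i = j
        · rw [hij, if_pos rfl, if_pos rfl]
        · rw [if_neg hij, if_neg (fun h => hij (π.injective h).symm)]
      · intro k _ hk
        rw [hPe k j, if_neg hk, mul_zero]
      · intro h; exact absurd (Finset.mem_univ _) h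
    have hPr : ∀ i j, P i j ^ 5 = P i j := by
      intro i j
      rw [hPe]
      split_ifs <;> simp
    have hgP : (g' : Matrix (Fin 3) (Fin 3) F) = P * Matrix.diagonal d := by
      ext i j
      rw [Matrix.mul_diagonal, hm, hPe]
      split_ifs <;> simp
    have hp : (d 0 * d 1 * d 2) ^ 2 = 1 := by
      have h1 := congrArg Matrix.det hgP
      rw [hdet, Matrix.det_mul, Matrix.det_diagonal, Fin.prod_univ_three] at h1
      have h2 := congrArg Matrix.det hPt
      rw [Matrix.det_mul, Matrix.det_transpose, Matrix.det_one] at h2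
      linear_combination (-(P.det * (d 0 * d 1 * d 2)) - 1) * h1 - (d 0 * d 1 * d 2) ^ 2 * h2
    have hx' := da_diag h hd hp hx
    have e : (g' : Matrix (Fin 3) (Fin 3) F) *ᵥ x = P *ᵥ (fun i => d i * x i) := by
      rw [hgP, ← Matrix.mulVec_mulVec]
      congr 1
      funext i
      rw [Matrix.mulVec_diagonal]
    rw [e]
    exact da_orth hPr hPt (v := fun i => d i * x i) hx'
  · intro x hx
    rw [hr]
    refine da_orth S5_real ?_ hx
    show (S5 F)ᵀ * S5 F = 1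
    rw [S5_t, S5_sq (five_zero hF)]
  · intro hrH
    rw [hDH] at hrH
    obtain ⟨π, d, hd, hm⟩ := stab_mono hF hT hTD hrH.2.1 hrH.1
    have e : T⁻¹ * (T * r * T⁻¹) * T = r := by group
    rw [e, hr] at hm
    have m0 := hm 0 0
    have m1 := hm 1 0
    simp [S5] at m0 m1
    by_cases h0 : 0 = π 0
    · rw [← h0] at m1
      simp at m1
    · rw [if_neg h0] at m0
      exact one_ne_zero m0

end

end Cfsg.Agent.Lib.SU3
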