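import Cfsg.Agent.Lib.SU3Tab
set_option autoImplicit false
set_option linter.style.haveILetI false
set_option linter.unusedVariables false
set_option linter.unusedSectionVars false

/-!
Subgroups of unitary groups that preserve a set of vectors are not maximal.
-/

namespace Cfsg.Agent.Lib.SU3

open Cfsg Cfsg.Geo Cfsg.Agent.Lib.AschMU Cfsg.Agent.Lib.AschCore Cfsg.Agent.Lib.AschField Cfsg.Agent.Lib.AschAlg
  Cfsg.Agent.Lib.AschGroup Cfsg.Agent.Lib.AschGood Cfsg.Agent.Lib.AschAdj Cfsg.Agent.Lib.AschNonab Cfsg.Agent.Lib.AschTensor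
  Cfsg.Agent.Lib.AschComp Cfsg.Agent.Lib.AschSp Cfsg.Agent.Lib.AschESys Cfsg.Agent.Lib.UnBridge Cfsg.Agent.Lib.HermMat
  Cfsg.Agent.Lib.UnEx
open scoped Matrix MatrixGroups Kronecker

section
variable {F : Type*} [Field F] [Fintype F] {n q : ℕ}

lemma mem_sl_of_det {x : GL (Fin n) F} (hx : (x : Matrix (Fin n) (Fin n) F).det = 1) : x ∈ specialLinear (Fin n) F := by
  show Matrix.GeneralLinearGroup.det x = 1
  apply Units.ext
  rw [Matrix.GeneralLinearGroup.val_det_apply, hx, Units.val_one]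

lemma conj_val (T g : GL (Fin n) F) (x : Fin n → F) : ((T⁻¹ * g * T : GL (Fin n) F) : Matrix (Fin n) (Fin n) F) *ᵥ x =
    ((T⁻¹ : GL (Fin n) F) : Matrix (Fin n) (Fin n) F) *ᵥ ((g : Matrix (Fin n) (Fin n) F) *ᵥ ((T : Matrix (Fin n) (Fin n) F) *ᵥ x)) := by
  rw [Units.val_mul, Units.val_mul, ← Matrix.mulVec_mulVec, ← Matrix.mulVec_mulVec]

lemma conj_mem {T g : GL (Fin n) F} (hT : T ∈ GU n F q) (hg : g ∈ GU n F q ⊓ specialLinear (Fin n) F) :
    T * g * T⁻¹ ∈ GU n F q ⊓ specialLinear (Fin n) F := by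
  refine ⟨(GU n F q).mul_mem ((GU n F q).mul_mem hT hg.1) ((GU n F q).inv_mem hT), mem_sl_of_det ?_⟩
  rw [Units.val_mul, Units.val_mul, Matrix.det_mul, Matrix.det_mul, det_of_mem hg.2, mul_one, ← Matrix.det_mul, gl_mul_inv,
    Matrix.det_one]

lemma conj_mem' {T g : GL (Fin n) F} (hT : T ∈ GU n F q) (hg : g ∈ GU n F q ⊓ specialLinear (Fin n) F) :
    T⁻¹ * g * T ∈ GU n F q ⊓ specialLinear (Fin n) F := by
  have := conj_mem (inv_mem hT) hg
  rwa [inv_inv] at this

lemma gl_finite : Finite (GL (Fin n) F) := by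
  have hfinM : Finite (Matrix (Fin n) (Fin n) F) := inferInstanceAs (Finite (Fin n → Fin n → F))
  exact Finite.of_injective (fun g : GL (Fin n) F => (g : Matrix (Fin n) (Fin n) F)) Units.val_injective

/-- A subgroup that preserves a set of vectors which has more symmetries is not maximal. -/
theorem inv_not_max (hF : Fintype.card F = q ^ 2) {T : GL (Fin n) F} (hT : T ∈ GU n F q) (D : (Fin n → F) → Prop)
    {H : Subgroup (GL (Fin n) F)} (hH : IsMaximalIn (GU n F q ⊓ specialLinear (Fin n) F) H)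
    (h1 : ∀ g ∈ H, ∀ x, D x → D (((T⁻¹ * g * T : GL (Fin n) F) : Matrix (Fin n) (Fin n) F) *ᵥ x))
    {r : GL (Fin n) F} (hr : r ∈ GU n F q ⊓ specialLinear (Fin n) F)
    (h2 : ∀ x, D x → D ((r : Matrix (Fin n) (Fin n) F) *ᵥ x)) (h3 : T * r * T⁻¹ ∉ H)
    {s : GL (Fin n) F} (hs : s ∈ GU n F q ⊓ specialLinear (Fin n) F) {x : Fin n → F} (h4 : D x)
    (h5 : ¬ D ((s : Matrix (Fin n) (Fin n) F) *ᵥ x)) : False := by
  haveI : Finite (GL (Fin n) F) := gl_finite
  let M : Subgroup (GL (Fin n) F) :=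
    { carrier := {g | ∀ x, D x → D (((T⁻¹ * g * T : GL (Fin n) F) : Matrix (Fin n) (Fin n) F) *ᵥ x)}
      mul_mem' := by
        intro a b ha hb x hx
        have := ha _ (hb x hx)
        rw [Matrix.mulVec_mulVec, ← Units.val_mul] at this
        have e : T⁻¹ * a * T * (T⁻¹ * b * T) = T⁻¹ * (a * b) * T := by group
        rwa [e] at this
      one_mem' := by
        intro x hx
        rw [mul_one, inv_mul_cancel, Units.val_one, Matrix.one_mulVec]
        exact hx
      inv_mem' := by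
        intro a ha
        have hpow : ∀ k : ℕ, ∀ x, D x → D (((T⁻¹ * a ^ k * T : GL (Fin n) F) : Matrix (Fin n) (Fin n) F) *ᵥ x) := by
          intro k
          induction k with
          | zero =>
            intro x hx
            rw [pow_zero, mul_one, inv_mul_cancel, Units.val_one, Matrix.one_mulVec]
            exact hx
          | succ k ih =>
            intro x hx
            have := ih _ (ha x hx)
            rw [Matrix.mulVec_mulVec, ← Units.val_mul] at this
            have e : T⁻¹ * a ^ k * T * (T⁻¹ * a * T) = T⁻¹ * a ^ (k + 1) * T := by rw [pow_succ]; group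
            rwa [e] at this
        have hinv : a⁻¹ = a ^ (orderOf a - 1) := by
          rw [inv_eq_iff_mul_eq_one, ← pow_succ', Nat.sub_add_cancel (orderOf_pos a), pow_orderOf_eq_one]
        intro x hx
        rw [hinv]
        exact hpow _ x hx }
  have hHM : H ≤ M ⊓ (GU n F q ⊓ specialLinear (Fin n) F) := le_inf (fun g hg => h1 g hg) hH.1.le
  have hconj : ∀ r : GL (Fin n) F, T⁻¹ * (T * r * T⁻¹) * T = r := fun r => by group
  rcases hH.2 _ hHM inf_le_right with h | h
  · apply h3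
    rw [← h]
    refine ⟨?_, conj_mem hT hr⟩
    show ∀ x, D x → D _
    rw [hconj]
    exact h2
  · have h6 : T * s * T⁻¹ ∈ M ⊓ (GU n F q ⊓ specialLinear (Fin n) F) := by
      rw [h]; exact conj_mem hT hs
    have h7 : ∀ x, D x → D (((T⁻¹ * (T * s * T⁻¹) * T : GL (Fin n) F) : Matrix (Fin n) (Fin n) F) *ᵥ x) := h6.1
    rw [hconj] at h7
    exact h5 (h7 x h4)

end

end Cfsg.Agent.Lib.SU3
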