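import Cfsg.Agent.Lib.SU3Frame
set_option autoImplicit false
set_option linter.style.haveILetI false
set_option linter.unusedVariables false
set_option linter.unusedSectionVars false
set_option linter.unusedSimpArgs false

/-!
Matrices with coded entries.
-/

namespace Cfsg.Agent.Lib.SU3

open Cfsg Cfsg.Geo Cfsg.Agent.Lib.AschMU Cfsg.Agent.Lib.AschCore Cfsg.Agent.Lib.AschField Cfsg.Agent.Lib.AschAlg
  Cfsg.Agent.Lib.AschGroup Cfsg.Agent.Lib.AschGood Cfsg.Agent.Lib.AschAdj Cfsg.Agent.Lib.AschNonab Cfsg.Agent.Lib.AschTensor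
  Cfsg.Agent.Lib.AschComp Cfsg.Agent.Lib.AschSp Cfsg.Agent.Lib.AschESys Cfsg.Agent.Lib.UnBridge Cfsg.Agent.Lib.HermMat
  Cfsg.Agent.Lib.UnEx
open scoped Matrix MatrixGroups Kronecker

/-- Product of coded matrices. -/
def mmT (p : ℕ) (A B : Matrix (Fin 3) (Fin 3) ℕ) : Matrix (Fin 3) (Fin 3) ℕ :=
  Matrix.of fun i j => fa p (fa p (fm p (A i 0) (B 0 j)) (fm p (A i 1) (B 1 j))) (fm p (A i 2) (B 2 j))

/-- Adjoint of a coded matrix. -/
def stT (p : ℕ) (A : Matrix (Fin 3) (Fin 3) ℕ) : Matrix (Fin 3) (Fin 3) ℕ := Matrix.of fun i j => fc p (A j i)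

/-- Scalar multiple of a coded matrix. -/
def smT (p c : ℕ) (A : Matrix (Fin 3) (Fin 3) ℕ) : Matrix (Fin 3) (Fin 3) ℕ := Matrix.of fun i j => fm p c (A i j)

/-- Product with a coded vector. -/
def mvT (p : ℕ) (A : Matrix (Fin 3) (Fin 3) ℕ) (x y z : ℕ) (i : Fin 3) : ℕ :=
  fa p (fa p (fm p (A i 0) x) (fm p (A i 1) y)) (fm p (A i 2) z)

/-- Negative. -/
def ngT (p x : ℕ) : ℕ := fm p (p - 1) x

/-- Determinant of a coded matrix. -/
def dtT (p : ℕ) (A : Matrix (Fin 3) (Fin 3) ℕ) : ℕ :=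
  fa p (fa p (fa p (fm p (A 0 0) (fm p (A 1 1) (A 2 2))) (fm p (A 0 1) (fm p (A 1 2) (A 2 0)))) (fm p (A 0 2) (fm p (A 1 0) (A 2 1))))
    (ngT p (fa p (fa p (fm p (A 0 0) (fm p (A 1 2) (A 2 1))) (fm p (A 0 1) (fm p (A 1 0) (A 2 2)))) (fm p (A 0 2) (fm p (A 1 1) (A 2 0)))))

section
variable {p : ℕ} {F : Type*} [Field F] {ψ : ℕ → F} (h : Tab p ψ)
include h

lemma map_mmT (A B : Matrix (Fin 3) (Fin 3) ℕ) : (mmT p A B).map ψ = A.map ψ * B.map ψ := by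
  ext i j
  rw [Matrix.map_apply, mmT, Matrix.of_apply, Matrix.mul_apply, Fin.sum_univ_three]
  simp only [h.add, h.mul, Matrix.map_apply]

lemma map_smT (c : ℕ) (A : Matrix (Fin 3) (Fin 3) ℕ) : (smT p c A).map ψ = ψ c • A.map ψ := by
  ext i j
  rw [Matrix.map_apply, smT, Matrix.of_apply, Matrix.smul_apply, h.mul, Matrix.map_apply, smul_eq_mul]

lemma mvT_eq (A : Matrix (Fin 3) (Fin 3) ℕ) (x y z : ℕ) (i : Fin 3) : ψ (mvT p A x y z i) = (A.map ψ *ᵥ ![ψ x, ψ y, ψ z]) i := by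
  rw [Matrix.mulVec, dotProduct, Fin.sum_univ_three, mvT]
  simp only [h.add, h.mul, Matrix.map_apply]
  simp

lemma psi_one (hp : 1 < p) : ψ 1 = 1 := by
  have := h.nat 1 hp
  rw [this, Nat.cast_one]

lemma psi_zero (hp : 0 < p) : ψ 0 = 0 := by
  have := h.nat 0 hp
  rw [this, Nat.cast_zero]

lemma ngT_eq [Fintype F] (hpp : p.Prime) (hF : Fintype.card F = p ^ 2) (x : ℕ) : ψ (ngT p x) = -ψ x := by
  have hp := hpp.two_le
  haveI := charP_of hpp hF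
  rw [ngT, h.mul, h.nat _ (by omega), Nat.cast_sub (by omega), CharP.cast_eq_zero F p, Nat.cast_one]
  ring

lemma dtT_eq [Fintype F] (hpp : p.Prime) (hF : Fintype.card F = p ^ 2) (A : Matrix (Fin 3) (Fin 3) ℕ) : (A.map ψ).det = ψ (dtT p A) := by
  rw [Matrix.det_fin_three, dtT]
  simp only [h.add, h.mul, ngT_eq h hpp hF, Matrix.map_apply]
  ring

lemma map_stT [Fintype F] (hF : Fintype.card F = p ^ 2) (A : Matrix (Fin 3) (Fin 3) ℕ) : (stT p A).map ψ = (A.map ψ)ᵀ.map (sg hF) := by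
  ext i j
  rw [Matrix.map_apply, stT, Matrix.of_apply, h.conj, Matrix.map_apply, Matrix.transpose_apply, Matrix.map_apply, sg_apply]

lemma map_oneT (hp : 1 < p) : (1 : Matrix (Fin 3) (Fin 3) ℕ).map ψ = 1 := by
  ext i j
  rw [Matrix.map_apply, Matrix.one_apply, Matrix.one_apply]
  split_ifs
  · exact psi_one h hp
  · exact psi_zero h (by omega)

/-- Elements of the special unitary group given by coded matrices. -/
theorem exists_of_code [Fintype F] (hpp : p.Prime) (hF : Fintype.card F = p ^ 2) {A : Matrix (Fin 3) (Fin 3) ℕ} (h1 : mmT p (stT p A) A = 1)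
    (h2 : dtT p A = 1) : ∃ g : GL (Fin 3) F, (g : Matrix (Fin 3) (Fin 3) F) = A.map ψ ∧ ((g⁻¹ : GL (Fin 3) F) : Matrix (Fin 3) (Fin 3) F) = (stT p A).map ψ ∧
      g ∈ GU 3 F p ⊓ specialLinear (Fin 3) F := by
  have hp := hpp.two_le
  have h3 : (stT p A).map ψ * A.map ψ = 1 := by
    rw [← map_mmT h, h1, map_oneT h (by omega)]
  refine ⟨⟨A.map ψ, (stT p A).map ψ, mul_eq_one_comm.1 h3, h3⟩, rfl, rfl, (mem_GU_iff hF).2 ?_, mem_sl_of_det ?_⟩
  · show (A.map ψ)ᵀ.map (sg hF) * A.map ψ = 1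
    rw [← map_stT h, h3]
  · show (A.map ψ).det = 1
    rw [dtT_eq h hpp hF, h2, psi_one h (by omega)]

end

end Cfsg.Agent.Lib.SU3
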