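import Cfsg.Agent.Lib.SU3Mat
set_option autoImplicit false
set_option linter.style.haveILetI false
set_option linter.unusedVariables false
set_option linter.unusedSectionVars false
set_option linter.unusedSimpArgs false

/-!
A set of 36 isotropic points of the projective plane over the field with twenty-five elements.
-/

namespace Cfsg.Agent.Lib.SU3

open Cfsg Cfsg.Geo
open scoped Matrix

/-- The code of the cubic form. -/
def acT (x y z : ℕ) : ℕ := fa 5 (fa 5 (fm 5 (fm 5 x x) x) (fm 5 (fm 5 y y) y)) (fm 5 (fm 5 z z) z)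
/-- The quartic in the two cubic forms. -/
def wwT (a b : ℕ) : ℕ :=
  fa 5 (fa 5 (fa 5 (fa 5 (fm 5 (fm 5 a a) (fm 5 a a)) (fm 5 (fm 5 a a) (fm 5 a b))) (fm 5 4 (fm 5 (fm 5 a a) (fm 5 b b))))
    (fm 5 2 (fm 5 (fm 5 a b) (fm 5 b b)))) (fm 5 4 (fm 5 (fm 5 b b) (fm 5 b b)))
/-- The set of points. -/
def dbT (x y z : ℕ) : Bool := hhT x y z == 0 && wwT (acT x y z) (fm 5 (fm 5 x y) z) == 0

/-- Diagonal matrix. -/
def cX : Matrix (Fin 3) (Fin 3) ℕ := !![1, 0, 0; 0, 12, 0; 0, 0, 17]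
/-- Permutation matrix. -/
def cY : Matrix (Fin 3) (Fin 3) ℕ := !![0, 0, 1; 1, 0, 0; 0, 1, 0]
/-- Inversion. -/
def cU : Matrix (Fin 3) (Fin 3) ℕ := !![4, 0, 0; 0, 0, 4; 0, 4, 0]
/-- Fourier matrix. -/
def cF0 : Matrix (Fin 3) (Fin 3) ℕ := !![22, 22, 22; 22, 10, 23; 22, 23, 10]
/-- Fourier matrix. -/
def cF1 : Matrix (Fin 3) (Fin 3) ℕ := !![22, 23, 23; 10, 10, 23; 10, 23, 10]
/-- Fourier matrix. -/
def cF2 : Matrix (Fin 3) (Fin 3) ℕ := !![22, 10, 10; 23, 10, 23; 23, 23, 10]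
/-- The extra element. -/
def cG : Matrix (Fin 3) (Fin 3) ℕ := !![3, 1, 1; 1, 3, 4; 1, 4, 3]

/-- The matrices. -/
def cList : List (Matrix (Fin 3) (Fin 3) ℕ) := [cX, cY, cU, cF0, cF1, cF2, cG]

theorem bruteB : ∀ x < 25, ∀ y < 25, ∀ z < 25,
    (!(dbT x y z) || cList.all fun M => dbT (mvT 5 M x y z 0) (mvT 5 M x y z 1) (mvT 5 M x y z 2)) = true := by decide +kernel

section
variable {F : Type*} [Field F]

/-- The quartic. -/
def WW (a b : F) : F := a * a * (a * a) + a * a * (a * b) + 4 * (a * a * (b * b)) + 2 * (a * b * (b * b)) + 4 * (b * b * (b * b))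

/-- The set of points. -/
def DB (a b c : F) : Prop := HH a b c = 0 ∧ WW (a * a * a + b * b * b + c * c * c) (a * b * c) = 0

variable {ψ : ℕ → F} (h : Tab 5 ψ)
include h

lemma db_tab (x y z : ℕ) : DB (ψ x) (ψ y) (ψ z) ↔ dbT x y z = true := by
  have h5 : 0 < 5 := by norm_num
  have h2 : ψ 2 = 2 := by have := h.nat 2 (by norm_num); exact_mod_cast this
  have h4 : ψ 4 = 4 := by have := h.nat 4 (by norm_num); exact_mod_cast this
  have e1 : HH (ψ x) (ψ y) (ψ z) = 0 ↔ hhT x y z = 0 := by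
    rw [hh_tab h, h.eq_zero_iff h5 (show hhT x y z < 5 ^ 2 from fa_lt h5 _ _)]
  have e2 : WW (ψ x * ψ x * ψ x + ψ y * ψ y * ψ y + ψ z * ψ z * ψ z) (ψ x * ψ y * ψ z) = 0 ↔ wwT (acT x y z) (fm 5 (fm 5 x y) z) = 0 := by
    rw [← h.eq_zero_iff h5 (show wwT (acT x y z) (fm 5 (fm 5 x y) z) < 5 ^ 2 from fa_lt h5 _ _)]
    unfold WW wwT acT
    simp only [h.add, h.mul, h2, h4]
  unfold DB dbT
  rw [e1, e2]
  simp only [Bool.and_eq_true, beq_iff_eq]

lemma db_mat {M : Matrix (Fin 3) (Fin 3) ℕ} (hM : M ∈ cList) {v : Fin 3 → F} (hd : DB (v 0) (v 1) (v 2)) :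
    DB ((M.map ψ *ᵥ v) 0) ((M.map ψ *ᵥ v) 1) ((M.map ψ *ᵥ v) 2) := by
  obtain ⟨x, hx, hx'⟩ := h.surj (v 0)
  obtain ⟨y, hy, hy'⟩ := h.surj (v 1)
  obtain ⟨z, hz, hz'⟩ := h.surj (v 2)
  have hv : v = ![ψ x, ψ y, ψ z] := by
    funext i
    fin_cases i
    · exact hx'.symm
    · exact hy'.symm
    · exact hz'.symm
  rw [← hx', ← hy', ← hz', db_tab h] at hd
  rw [hv, ← mvT_eq h, ← mvT_eq h, ← mvT_eq h, db_tab h]
  have := bruteB x hx y hy z hz
  rw [hd] at this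
  simp only [Bool.not_true, Bool.false_or, List.all_eq_true] at this
  exact this M hM

omit h in
lemma db_smul (k : F) {v : Fin 3 → F} (hd : DB (v 0) (v 1) (v 2)) : DB ((k • v) 0) ((k • v) 1) ((k • v) 2) := by
  obtain ⟨h1, h2⟩ := hd
  simp only [Pi.smul_apply, smul_eq_mul]
  constructor
  · have : HH (k * v 0) (k * v 1) (k * v 2) = k ^ 6 * HH (v 0) (v 1) (v 2) := by unfold HH; ring
    rw [this, h1, mul_zero]
  · have : WW (k * v 0 * (k * v 0) * (k * v 0) + k * v 1 * (k * v 1) * (k * v 1) + k * v 2 * (k * v 2) * (k * v 2)) (k * v 0 * (k * v 1) * (k * v 2)) =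
        k ^ 12 * WW (v 0 * v 0 * v 0 + v 1 * v 1 * v 1 + v 2 * v 2 * v 2) (v 0 * v 1 * v 2) := by
      unfold WW; ring
    rw [this, h2, mul_zero]

end

end Cfsg.Agent.Lib.SU3
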