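import Cfsg.Agent.Lib.SU3SixA
set_option autoImplicit false
set_option linter.style.haveILetI false
set_option linter.unusedVariables false
set_option linter.unusedSectionVars false
set_option linter.unusedSimpArgs false

/-!
The normaliser of an extraspecial group of order 27 in `SU_3(5)`.
-/

namespace Cfsg.Agent.Lib.SU3

open Cfsg Cfsg.Geo Cfsg.Agent.Lib.AschMU Cfsg.Agent.Lib.AschCore Cfsg.Agent.Lib.AschField Cfsg.Agent.Lib.AschAlg
  Cfsg.Agent.Lib.AschGroup Cfsg.Agent.Lib.AschGood Cfsg.Agent.Lib.AschAdj Cfsg.Agent.Lib.AschNonab Cfsg.Agent.Lib.AschTensor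
  Cfsg.Agent.Lib.AschComp Cfsg.Agent.Lib.AschSp Cfsg.Agent.Lib.AschESys Cfsg.Agent.Lib.UnBridge Cfsg.Agent.Lib.HermMat
  Cfsg.Agent.Lib.UnEx
open scoped Matrix MatrixGroups Kronecker

/-- Scalar matrix. -/
def cZ : Matrix (Fin 3) (Fin 3) ℕ := !![12, 0, 0; 0, 12, 0; 0, 0, 12]

section
variable {F : Type*} [Field F]

/-- The element has the given code. -/
def Cd (ψ : ℕ → F) (g : GL (Fin 3) F) (A : Matrix (Fin 3) (Fin 3) ℕ) : Prop := (g : Matrix (Fin 3) (Fin 3) F) = A.map ψ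

variable {ψ : ℕ → F} {g g' : GL (Fin 3) F} {A B : Matrix (Fin 3) (Fin 3) ℕ}

lemma Cd.mul (h : Tab 5 ψ) (hg : Cd ψ g A) (hg' : Cd ψ g' B) : Cd ψ (g * g') (mmT 5 A B) := by
  unfold Cd at *
  rw [Units.val_mul, hg, hg', map_mmT h]

lemma Cd.eq (hg : Cd ψ g A) (hg' : Cd ψ g' B) (hAB : A = B) : g = g' := by
  apply Units.ext
  unfold Cd at *
  rw [hg, hg', hAB]

/-- The data. -/
structure SD (ψ : ℕ → F) (X Y Z U P0 P1 P2 E : GL (Fin 3) F) : Prop where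
  hX : Cd ψ X cX
  hY : Cd ψ Y cY
  hZ : Cd ψ Z cZ
  hU : Cd ψ U cU
  h0 : Cd ψ P0 cF0
  h1 : Cd ψ P1 cF1
  h2 : Cd ψ P2 cF2
  hE : Cd ψ E cG
  gX : X ∈ GU 3 F 5 ⊓ specialLinear (Fin 3) F
  gY : Y ∈ GU 3 F 5 ⊓ specialLinear (Fin 3) F
  gZ : Z ∈ GU 3 F 5 ⊓ specialLinear (Fin 3) F
  gU : U ∈ GU 3 F 5 ⊓ specialLinear (Fin 3) F
  g0 : P0 ∈ GU 3 F 5 ⊓ specialLinear (Fin 3) F
  g1 : P1 ∈ GU 3 F 5 ⊓ specialLinear (Fin 3) F
  g2 : P2 ∈ GU 3 F 5 ⊓ specialLinear (Fin 3) F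
  gE : E ∈ GU 3 F 5 ⊓ specialLinear (Fin 3) F

theorem exists_sd [Fintype F] (hF : Fintype.card F = 5 ^ 2) (h : Tab 5 ψ) : ∃ X Y Z U P0 P1 P2 E : GL (Fin 3) F, SD ψ X Y Z U P0 P1 P2 E := by
  have h5 : Nat.Prime 5 := by norm_num
  obtain ⟨X, hX, -, gX⟩ := exists_of_code h h5 hF (A := cX) (by decide +kernel) (by decide +kernel)
  obtain ⟨Y, hY, -, gY⟩ := exists_of_code h h5 hF (A := cY) (by decide +kernel) (by decide +kernel)
  obtain ⟨Z, hZ, -, gZ⟩ := exists_of_code h h5 hF (A := cZ) (by decide +kernel) (by decide +kernel)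
  obtain ⟨U, hU, -, gU⟩ := exists_of_code h h5 hF (A := cU) (by decide +kernel) (by decide +kernel)
  obtain ⟨P0, h0, -, g0⟩ := exists_of_code h h5 hF (A := cF0) (by decide +kernel) (by decide +kernel)
  obtain ⟨P1, h1, -, g1⟩ := exists_of_code h h5 hF (A := cF1) (by decide +kernel) (by decide +kernel)
  obtain ⟨P2, h2, -, g2⟩ := exists_of_code h h5 hF (A := cF2) (by decide +kernel) (by decide +kernel)
  obtain ⟨E, hE, -, gE⟩ := exists_of_code h h5 hF (A := cG) (by decide +kernel) (by decide +kernel)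
  exact ⟨X, Y, Z, U, P0, P1, P2, E, ⟨hX, hY, hZ, hU, h0, h1, h2, hE, gX, gY, gZ, gU, g0, g1, g2, gE⟩⟩

variable {X Y Z U P0 P1 P2 E : GL (Fin 3) F} (h : Tab 5 ψ) (sd : SD ψ X Y Z U P0 P1 P2 E)
include h sd

lemma SD.xy : X * Y = Z * (Y * X) := (sd.hX.mul h sd.hY).eq (sd.hZ.mul h (sd.hY.mul h sd.hX)) (by decide +kernel)
lemma SD.ux : U * X = X * X * U := (sd.hU.mul h sd.hX).eq ((sd.hX.mul h sd.hX).mul h sd.hU) (by decide +kernel)
lemma SD.uy : U * Y = Y * Y * U := (sd.hU.mul h sd.hY).eq ((sd.hY.mul h sd.hY).mul h sd.hU) (by decide +kernel)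
lemma SD.x0 : P0 * X = Y * Y * P0 := (sd.h0.mul h sd.hX).eq ((sd.hY.mul h sd.hY).mul h sd.h0) (by decide +kernel)
lemma SD.y0 : P0 * Y = X * P0 := (sd.h0.mul h sd.hY).eq (sd.hX.mul h sd.h0) (by decide +kernel)
lemma SD.x1 : P1 * X = Z * Z * X * (Y * Y) * P1 :=
  (sd.h1.mul h sd.hX).eq ((((sd.hZ.mul h sd.hZ).mul h sd.hX).mul h (sd.hY.mul h sd.hY)).mul h sd.h1) (by decide +kernel)
lemma SD.y1 : P1 * Y = Z * (X * X) * (Y * Y) * P1 :=
  (sd.h1.mul h sd.hY).eq (((sd.hZ.mul h (sd.hX.mul h sd.hX)).mul h (sd.hY.mul h sd.hY)).mul h sd.h1) (by decide +kernel)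
lemma SD.x2 : P2 * X = Z * (X * X) * (Y * Y) * P2 :=
  (sd.h2.mul h sd.hX).eq (((sd.hZ.mul h (sd.hX.mul h sd.hX)).mul h (sd.hY.mul h sd.hY)).mul h sd.h2) (by decide +kernel)
lemma SD.y2 : P2 * Y = Z * Z * (X * X) * Y * P2 :=
  (sd.h2.mul h sd.hY).eq ((((sd.hZ.mul h sd.hZ).mul h (sd.hX.mul h sd.hX)).mul h sd.hY).mul h sd.h2) (by decide +kernel)
lemma SD.r01 : Y * P0 = P0 * (X * X) := (sd.hY.mul h sd.h0).eq (sd.h0.mul h (sd.hX.mul h sd.hX)) (by decide +kernel)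
lemma SD.r02 : Y * Y * P0 = P0 * X := (sd.x0 h).symm
lemma SD.r12 : X * (Y * Y) * P1 = Z * P1 * X :=
  ((sd.hX.mul h (sd.hY.mul h sd.hY)).mul h sd.h1).eq ((sd.hZ.mul h sd.h1).mul h sd.hX) (by decide +kernel)
lemma SD.r21 : X * X * Y * P1 = Z * P1 * (X * X) :=
  (((sd.hX.mul h sd.hX).mul h sd.hY).mul h sd.h1).eq ((sd.hZ.mul h sd.h1).mul h (sd.hX.mul h sd.hX)) (by decide +kernel)
lemma SD.r11 : X * Y * P2 = Z * Z * P2 * (X * X) :=
  ((sd.hX.mul h sd.hY).mul h sd.h2).eq (((sd.hZ.mul h sd.hZ).mul h sd.h2).mul h (sd.hX.mul h sd.hX)) (by decide +kernel)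
lemma SD.r22 : X * X * (Y * Y) * P2 = Z * Z * P2 * X :=
  (((sd.hX.mul h sd.hX).mul h (sd.hY.mul h sd.hY)).mul h sd.h2).eq (((sd.hZ.mul h sd.hZ).mul h sd.h2).mul h sd.hX) (by decide +kernel)
lemma SD.uu : U * U = 1 := by
  apply Units.ext
  rw [Units.val_mul, Units.val_one, sd.hU, ← map_mmT h, ← map_oneT h (by norm_num)]
  congr 1
  decide +kernel
lemma SD.xxx : X * X * X = 1 := by
  apply Units.ext
  rw [Units.val_mul, Units.val_mul, Units.val_one, sd.hX, ← map_mmT h, ← map_mmT h, ← map_oneT h (by norm_num)]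
  congr 1
  decide +kernel
lemma SD.yyy : Y * Y * Y = 1 := by
  apply Units.ext
  rw [Units.val_mul, Units.val_mul, Units.val_one, sd.hY, ← map_mmT h, ← map_mmT h, ← map_oneT h (by norm_num)]
  congr 1
  decide +kernel
lemma SD.zzz : Z * Z * Z = 1 := by
  apply Units.ext
  rw [Units.val_mul, Units.val_mul, Units.val_one, sd.hZ, ← map_mmT h, ← map_mmT h, ← map_oneT h (by norm_num)]
  congr 1
  decide +kernel

omit h in
lemma SD.zc (hp : ψ 0 = 0) (g : GL (Fin 3) F) : Z * g = g * Z := by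
  have hz : (Z : Matrix (Fin 3) (Fin 3) F) = ψ 12 • 1 := by
    rw [sd.hZ]
    ext i j
    rw [Matrix.map_apply, Matrix.smul_apply, smul_eq_mul]
    fin_cases i <;> fin_cases j <;> simp [cZ, hp]
  apply Units.ext
  rw [Units.val_mul, Units.val_mul, hz, Matrix.smul_mul, Matrix.mul_smul, one_mul, mul_one]

end

end Cfsg.Agent.Lib.SU3
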