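import Cfsg.Agent.Lib.SU3SixB
set_option autoImplicit false
set_option linter.style.haveILetI false
set_option linter.unusedVariables false
set_option linter.unusedSectionVars false
set_option linter.unusedSimpArgs false

/-!
The normaliser of an extraspecial group of order 27 in `SU_3(5)` preserves the set of 36 points.
-/

namespace Cfsg.Agent.Lib.SU3

open Cfsg Cfsg.Geo Cfsg.Agent.Lib.AschMU Cfsg.Agent.Lib.AschCore Cfsg.Agent.Lib.AschField Cfsg.Agent.Lib.AschAlg
  Cfsg.Agent.Lib.AschGroup Cfsg.Agent.Lib.AschGood Cfsg.Agent.Lib.AschAdj Cfsg.Agent.Lib.AschNonab Cfsg.Agent.Lib.AschTensor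
  Cfsg.Agent.Lib.AschComp Cfsg.Agent.Lib.AschSp Cfsg.Agent.Lib.AschESys Cfsg.Agent.Lib.UnBridge Cfsg.Agent.Lib.HermMat
  Cfsg.Agent.Lib.UnEx
open scoped Matrix MatrixGroups Kronecker

section
variable {F : Type*} [Field F]

/-- The element preserves the set of points. -/
def Inv (g : GL (Fin 3) F) : Prop := ∀ v : Fin 3 → F, DB (v 0) (v 1) (v 2) →
  DB (((g : Matrix (Fin 3) (Fin 3) F) *ᵥ v) 0) (((g : Matrix (Fin 3) (Fin 3) F) *ᵥ v) 1) (((g : Matrix (Fin 3) (Fin 3) F) *ᵥ v) 2)

lemma Inv.mul {g g' : GL (Fin 3) F} (hg : Inv g) (hg' : Inv g') : Inv (g * g') := by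
  intro v hv
  rw [Units.val_mul, ← Matrix.mulVec_mulVec]
  exact hg _ (hg' _ hv)

lemma Inv.one : Inv (1 : GL (Fin 3) F) := by
  intro v hv
  rw [Units.val_one, Matrix.one_mulVec]
  exact hv

lemma Inv.pow {g : GL (Fin 3) F} (hg : Inv g) (k : ℕ) : Inv (g ^ k) := by
  induction k with
  | zero => rw [pow_zero]; exact Inv.one
  | succ k ih => rw [pow_succ]; exact ih.mul hg

variable {ψ : ℕ → F} {X Y Z U P0 P1 P2 E : GL (Fin 3) F} (h : Tab 5 ψ) (sd : SD ψ X Y Z U P0 P1 P2 E)

include h in
lemma inv_of {g : GL (Fin 3) F} {M : Matrix (Fin 3) (Fin 3) ℕ} (hg : Cd ψ g M) (hM : M ∈ cList) : Inv g := by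
  intro v hv
  rw [hg]
  exact db_mat h hM hv

include h sd

lemma SD.iX : Inv X := inv_of h sd.hX (by simp [cList])
lemma SD.iY : Inv Y := inv_of h sd.hY (by simp [cList])
lemma SD.iU : Inv U := inv_of h sd.hU (by simp [cList])
lemma SD.i0 : Inv P0 := inv_of h sd.h0 (by simp [cList])
lemma SD.i1 : Inv P1 := inv_of h sd.h1 (by simp [cList])
lemma SD.i2 : Inv P2 := inv_of h sd.h2 (by simp [cList])
lemma SD.iE : Inv E := inv_of h sd.hE (by simp [cList])

variable [Fintype F] (hF : Fintype.card F = 5 ^ 2)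
include hF

/-- Cubes. -/
lemma not_cube {d : F} (hd : d * d * d = ψ 12 ∨ d * d * d = ψ 12 * ψ 12) : False := by
  obtain ⟨w2, w5, w3⟩ := omega_eq h
  set w := ψ 12 with hw
  have h5 := five_zero hF
  have hw0 : w ≠ 0 := by
    intro h0
    rw [h0] at w3
    norm_num at w3
  have hw1 : w ≠ 1 := by
    intro h1
    rw [h1] at w2
    have h6 : (1 : F) = 0 := by linear_combination 2 * w2 - h5
    exact one_ne_zero h6
  have hd0 : d ≠ 0 := by
    rintro rfl
    rcases hd with hd | hd
    · rw [mul_zero] at hd; exact hw0 hd.symm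
    · rw [mul_zero] at hd; exact mul_ne_zero hw0 hw0 hd.symm
  have hd24 : d ^ 24 = 1 := by
    have := FiniteField.pow_card_sub_one_eq_one d hd0
    rw [hF] at this
    norm_num at this
    exact this
  have hd9 : d ^ 9 = 1 := by
    rcases hd with hd | hd
    · have : d ^ 9 = (d * d * d) ^ 3 := by ring
      rw [this, hd, w3]
    · have : d ^ 9 = (d * d * d) ^ 3 := by ring
      rw [this, hd]
      linear_combination (w ^ 3 + 1) * w3
  have hd3 : d * d * d = 1 := by
    calc d * d * d = d ^ 24 * (d * d * d) := by rw [hd24, one_mul]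
      _ = (d ^ 9) ^ 3 := by ring
      _ = 1 := by rw [hd9, one_pow]
  rcases hd with hd | hd
  · exact hw1 (hd.symm.trans hd3)
  · apply hw1
    have h1 : w * w = 1 := hd.symm.trans hd3
    calc w = w * (w * w) := by rw [h1, mul_one]
      _ = 1 := by rw [← w3]; ring

/-- Elements of the normaliser that commute with `X`. -/
lemma inv_diag {g : GL (Fin 3) F} (hg : g ∈ GU 3 F 5 ⊓ specialLinear (Fin 3) F) (hgX : g * X = X * g)
    {k i j : ℕ} (hi : i < 3) (hj : j < 3) (hgY : g * Y = Z ^ k * X ^ i * Y ^ j * g) : Inv g := by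
  obtain ⟨w2, w5, w3⟩ := omega_eq h
  have hw : ψ 12 ≠ 0 := by
    intro h0
    rw [h0] at w3
    norm_num at w3
  have h5 := five_zero hF
  have hw1 : ψ 12 ≠ 1 := by
    intro h1
    rw [h1] at w2
    have h6 : (1 : F) = 0 := by linear_combination 2 * w2 - h5
    exact one_ne_zero h6
  have p0 : ψ 0 = 0 := h.zero (by norm_num)
  have p1 : ψ 1 = 1 := psi_one h (by norm_num)
  have p17 : ψ 17 = ψ 12 * ψ 12 := by rw [← h.mul]; rfl
  set w := ψ 12 with hwd
  have hXm : (X : Matrix (Fin 3) (Fin 3) F) = !![1, 0, 0; 0, w, 0; 0, 0, w * w] := by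
    rw [sd.hX]
    ext i j
    fin_cases i <;> fin_cases j <;> simp [cX, p0, p1, p17, hwd]
  have hYm : (Y : Matrix (Fin 3) (Fin 3) F) = !![0, 0, 1; 1, 0, 0; 0, 1, 0] := by
    rw [sd.hY]
    ext i j
    fin_cases i <;> fin_cases j <;> simp [cY, p0, p1]
  have hZm : (Z : Matrix (Fin 3) (Fin 3) F) = w • 1 := by
    rw [sd.hZ]
    ext i j
    rw [Matrix.map_apply, Matrix.smul_apply, smul_eq_mul]
    fin_cases i <;> fin_cases j <;> simp [cZ, p0, hwd]
  set M : Matrix (Fin 3) (Fin 3) F := (g : Matrix (Fin 3) (Fin 3) F) with hM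
  have hcomm : M * !![1, 0, 0; 0, w, 0; 0, 0, w * w] = !![1, 0, 0; 0, w, 0; 0, 0, w * w] * M := by
    rw [← hXm, hM, ← Units.val_mul, hgX, Units.val_mul]
  have hww : w * w ≠ 1 := by
    intro h1
    apply hw1
    calc w = w * (w * w) := by rw [h1, mul_one]
      _ = 1 := by rw [← w3]; ring
  have hdet : M.det = 1 := det_of_mem hg.2
  have hent := fun i j => congrFun (congrFun hcomm i) j
  simp only [Matrix.mul_apply, Fin.sum_univ_three] at hent
  have z01 : M 0 1 = 0 := by
    have := hent 0 1
    simp at this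
    have h1 : M 0 1 * (w - 1) = 0 := by linear_combination this
    exact (mul_eq_zero.1 h1).resolve_right (sub_ne_zero.2 hw1)
  have z02 : M 0 2 = 0 := by
    have := hent 0 2
    simp at this
    have h1 : M 0 2 * (w * w - 1) = 0 := by linear_combination this
    exact (mul_eq_zero.1 h1).resolve_right (sub_ne_zero.2 hww)
  have z10 : M 1 0 = 0 := by
    have := hent 1 0
    simp at this
    have h1 : M 1 0 * (w - 1) = 0 := by linear_combination -this
    exact (mul_eq_zero.1 h1).resolve_right (sub_ne_zero.2 hw1)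
  have z20 : M 2 0 = 0 := by
    have := hent 2 0
    simp at this
    have h1 : M 2 0 * (w * w - 1) = 0 := by linear_combination -this
    exact (mul_eq_zero.1 h1).resolve_right (sub_ne_zero.2 hww)
  have z12 : M 1 2 = 0 := by
    have := hent 1 2
    simp at this
    have h1 : M 1 2 * (w * (w - 1)) = 0 := by linear_combination this
    exact (mul_eq_zero.1 h1).resolve_right (mul_ne_zero hw (sub_ne_zero.2 hw1))
  have z21 : M 2 1 = 0 := by
    have := hent 2 1
    simp at this
    have h1 : M 2 1 * (w * (w - 1)) = 0 := by linear_combination -this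
    exact (mul_eq_zero.1 h1).resolve_right (mul_ne_zero hw (sub_ne_zero.2 hw1))
  have hMd : M = !![M 0 0, 0, 0; 0, M 1 1, 0; 0, 0, M 2 2] := by
    ext i j
    fin_cases i <;> fin_cases j <;> simp [z01, z02, z10, z20, z12, z21]
  set a := M 0 0 with ha
  set b := M 1 1 with hb
  set c := M 2 2 with hc
  have habc : a * b * c = 1 := by
    rw [hMd, Matrix.det_fin_three] at hdet
    simp at hdet
    exact hdet
  have hb0 : b ≠ 0 := by
    intro h0
    rw [h0, mul_zero, zero_mul] at habc
    exact zero_ne_one habc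
  set κ := w ^ k with hκ
  have hκ3 : κ ^ 3 = 1 := by rw [hκ, ← pow_mul, mul_comm, pow_mul, w3, one_pow]
  have hY1 : M * !![0, 0, 1; 1, 0, 0; 0, 1, 0] = κ • (!![1, 0, 0; 0, w, 0; 0, 0, w * w] ^ i * !![0, 0, 1; 1, 0, 0; 0, 1, 0] ^ j) * M := by
    rw [← hXm, ← hYm, hM, ← Units.val_mul, hgY, Units.val_mul, Units.val_mul, Units.val_mul, Units.val_pow_eq_pow_val,
      Units.val_pow_eq_pow_val, Units.val_pow_eq_pow_val, hZm, smul_pow, one_pow, Matrix.smul_mul, one_mul, Matrix.smul_mul,
      Matrix.smul_mul]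
  rw [hMd] at hY1
  have hent2 := fun i j => congrFun (congrFun hY1 i) j
  have hj1 : j = 1 := by
    have e := hent2 1 0
    interval_cases j
    · exfalso
      interval_cases i <;> simp [Matrix.mul_apply, Fin.sum_univ_three, sq] at e <;> exact hb0 e
    · rfl
    · exfalso
      interval_cases i <;> simp [Matrix.mul_apply, Fin.sum_univ_three, sq] at e <;> exact hb0 e
  subst hj1
  have e10 := hent2 1 0
  have e21 := hent2 2 1
  have e02 := hent2 0 2
  have hfin : i = 0 := by
    by_contra hne
    apply not_cube h sd hF (d := a)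
    interval_cases i
    · exact absurd rfl hne
    · right
      simp [Matrix.mul_apply, Fin.sum_univ_three, sq] at e10 e21 e02
      have h1 : b = κ * w * a := by linear_combination e10
      have h2 : c = κ * (w * w) * b := by linear_combination e21
      rw [h2, h1] at habc
      have h3 : a * a * a * w = 1 := by
        linear_combination habc - a * a * a * w * hκ3 - a * a * a * w * κ ^ 3 * w3
      linear_combination w * w * h3 - a * a * a * w3
    · left
      simp [Matrix.mul_apply, Fin.sum_univ_three, sq] at e10 e21 e02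
      have h1 : b = κ * (w * w) * a := by linear_combination e10
      have h2 : c = κ * (w * w * (w * w)) * b := by linear_combination e21
      rw [h2, h1] at habc
      have h3 : a * a * a * (w * w) = 1 := by
        linear_combination habc - a * a * a * (w * w) * hκ3 - a * a * a * (w * w) * κ ^ 3 * (w ^ 3 + 1) * w3
      linear_combination w * h3 - a * a * a * w3
  subst hfin
  simp [Matrix.mul_apply, Fin.sum_univ_three, sq] at e10 e21 e02
  have h1 : b = κ * a := by linear_combination e10
  have h2 : c = κ * κ * a := by rw [e21, h1]; ring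
  -- `g = a • X ^ k`
  have hXk : ∀ n : ℕ, (!![1, 0, 0; 0, w, 0; 0, 0, w * w] : Matrix (Fin 3) (Fin 3) F) ^ n = !![1, 0, 0; 0, w ^ n, 0; 0, 0, w ^ n * w ^ n] := by
    intro n
    induction n with
    | zero =>
      rw [pow_zero]
      ext i j
      fin_cases i <;> fin_cases j <;> simp
    | succ n ih =>
      rw [pow_succ, ih]
      ext i j
      fin_cases i <;> fin_cases j <;> simp [Matrix.mul_apply, Fin.sum_univ_three] <;> ring
  have hgk : (g : Matrix (Fin 3) (Fin 3) F) = a • ((X ^ k : GL (Fin 3) F) : Matrix (Fin 3) (Fin 3) F) := by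
    rw [Units.val_pow_eq_pow_val, hXm, hXk, ← hκ]
    show M = _
    rw [hMd, h1, h2]
    ext i j
    fin_cases i <;> fin_cases j <;> simp <;> ring
  intro v hv
  rw [hgk, Matrix.smul_mulVec]
  exact db_smul a ((SD.iX h sd).pow k v hv)

end

end Cfsg.Agent.Lib.SU3
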