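import Cfsg.Agent.Lib.SU3SixC
set_option autoImplicit false
set_option linter.style.haveILetI false
set_option linter.unusedVariables false
set_option linter.unusedSectionVars false
set_option linter.unusedSimpArgs false

/-!
The normaliser of an extraspecial group of order 27 in `SU_3(5)` preserves the set of 36 points.
-/

namespace Cfsg.Agent.Lib.SU3

open Cfsg Cfsg.Geo Cfsg.Agent.Lib.AschMU Cfsg.Agent.Lib.AschCore Cfsg.Agent.Lib.AschField Cfsg.Agent.Lib.AschAlg
  Cfsg.Agent.Lib.AschGroup Cfsg.Agent.Lib.AschGood Cfsg.Agent.Lib.AschAdj Cfsg.Agent.Lib.AschNonab Cfsg.Agent.Lib.AschTensor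
  Cfsg.Agent.Lib.AschComp Cfsg.Agent.Lib.AschSp Cfsg.Agent.Lib.AschESys Cfsg.Agent.Lib.UnBridge Cfsg.Agent.Lib.HermMat
  Cfsg.Agent.Lib.UnEx
open scoped Matrix MatrixGroups Kronecker

section
variable {F : Type*} [Field F] [Fintype F] {ψ : ℕ → F} {X Y Z U P0 P1 P2 E : GL (Fin 3) F} (h : Tab 5 ψ)
  (sd : SD ψ X Y Z U P0 P1 P2 E) (hF : Fintype.card F = 5 ^ 2) {R : Subgroup (GL (Fin 3) F)}
  (hR : ∀ ρ, ρ ∈ R ↔ ∃ k i j : ℕ, k < 3 ∧ i < 3 ∧ j < 3 ∧ ρ = Z ^ k * X ^ i * Y ^ j)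
include h sd

lemma SD.zcc (g : GL (Fin 3) F) : Z * g = g * Z := sd.zc (h.zero (by norm_num)) g

lemma SD.zk (k : ℕ) (g : GL (Fin 3) F) : Z ^ k * g = g * Z ^ k := by
  have : Commute Z g := sd.zcc h g
  exact this.pow_left k

lemma SD.xyk (k : ℕ) : X * Y ^ k = Z ^ k * (Y ^ k * X) := by
  induction k with
  | zero => simp
  | succ k ih =>
    calc X * Y ^ (k + 1) = (X * Y ^ k) * Y := by rw [pow_succ]; group
      _ = Z ^ k * Y ^ k * (X * Y) := by rw [ih]; group
      _ = Z ^ k * Y ^ k * (Z * (Y * X)) := by rw [sd.xy h]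
      _ = Z ^ k * (Y ^ k * Z) * (Y * X) := by group
      _ = Z ^ k * (Z * Y ^ k) * (Y * X) := by rw [sd.zcc h]
      _ = Z ^ (k + 1) * (Y ^ (k + 1) * X) := by rw [pow_succ, pow_succ]; group

include hR in
omit h sd in
lemma mem_X : X ∈ R := (hR _).2 ⟨0, 1, 0, by norm_num, by norm_num, by norm_num, by group⟩
include hR in
omit h sd in
lemma mem_Y : Y ∈ R := (hR _).2 ⟨0, 0, 1, by norm_num, by norm_num, by norm_num, by group⟩
include hR in
omit h sd in
lemma mem_Z : Z ∈ R := (hR _).2 ⟨1, 0, 0, by norm_num, by norm_num, by norm_num, by group⟩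

include hR in
/-- Criterion for membership in the normaliser. -/
lemma mem_norm {g : GL (Fin 3) F} (hX : g * X * g⁻¹ ∈ R) (hY : g * Y * g⁻¹ ∈ R) : g ∈ Subgroup.normalizer (R : Set (GL (Fin 3) F)) := by
  haveI : Finite (GL (Fin 3) F) := gl_finite
  haveI : Finite (R : Set (GL (Fin 3) F)) := Subtype.finite
  apply Subgroup.mem_normalizer_fintype
  intro ρ hρ
  obtain ⟨k, i, j, -, -, -, rfl⟩ := (hR ρ).1 hρ
  have e : g * (Z ^ k * X ^ i * Y ^ j) * g⁻¹ = Z ^ k * (g * X * g⁻¹) ^ i * (g * Y * g⁻¹) ^ j := by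
    rw [conj_pow, conj_pow]
    calc g * (Z ^ k * X ^ i * Y ^ j) * g⁻¹ = (g * Z ^ k) * X ^ i * Y ^ j * g⁻¹ := by group
      _ = (Z ^ k * g) * X ^ i * Y ^ j * g⁻¹ := by rw [sd.zk h]
      _ = _ := by group
  rw [e]
  exact R.mul_mem (R.mul_mem (R.pow_mem (mem_Z hR) _) (R.pow_mem hX _)) (R.pow_mem hY _)

include hR hF

lemma inv_alpha {g : GL (Fin 3) F} (hgN : g ∈ Subgroup.normalizer (R : Set (GL (Fin 3) F))) (hg : g ∈ GU 3 F 5 ⊓ specialLinear (Fin 3) F)
    {k : ℕ} (hgX : g * X = Z ^ k * X * g) : Inv g := by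
  have hYN : Y ∈ Subgroup.normalizer (R : Set (GL (Fin 3) F)) := Subgroup.le_normalizer (mem_Y hR)
  set g' := g * Y ^ k with hg'
  have h1 : g' * X = X * g' := by
    have h2 : Z ^ k * (X * g * Y ^ k) = Z ^ k * (g * Y ^ k * X) := by
      calc Z ^ k * (X * g * Y ^ k) = (Z ^ k * X * g) * Y ^ k := by group
        _ = g * (X * Y ^ k) := by rw [← hgX]; group
        _ = g * (Z ^ k * (Y ^ k * X)) := by rw [sd.xyk h]
        _ = (g * Z ^ k) * (Y ^ k * X) := by group
        _ = (Z ^ k * g) * (Y ^ k * X) := by rw [sd.zk h]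
        _ = _ := by group
    have h3 := mul_left_cancel h2
    rw [hg', ← h3]; group
  have hN' : g' ∈ Subgroup.normalizer (R : Set (GL (Fin 3) F)) := Subgroup.mul_mem _ hgN (Subgroup.pow_mem _ hYN k)
  have hG' : g' ∈ GU 3 F 5 ⊓ specialLinear (Fin 3) F := Subgroup.mul_mem _ hg (Subgroup.pow_mem _ sd.gY k)
  have h2 : g' * Y * g'⁻¹ ∈ R := (Subgroup.mem_set_normalizer_iff.1 hN' _).1 (mem_Y hR)
  obtain ⟨k', i, j, -, hi, hj, h3⟩ := (hR _).1 h2
  have h4 : Inv g' := inv_diag h sd hF hG' h1 hi hj (k := k') (by rw [← h3]; group)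
  have h5 : g = g' * Y ^ (2 * k) := by
    rw [hg', mul_assoc, ← pow_add, show k + 2 * k = 3 * k by ring, pow_mul, show Y ^ 3 = 1 by rw [← sd.yyy h, pow_succ, pow_succ, pow_one],
      one_pow, mul_one]
  rw [h5]
  exact h4.mul ((SD.iY h sd).pow _)

lemma u_norm : U ∈ Subgroup.normalizer (R : Set (GL (Fin 3) F)) := by
  have hX := mem_X hR
  have hY := mem_Y hR
  apply mem_norm h sd hR
  · rw [sd.ux h, mul_inv_cancel_right]
    exact R.mul_mem hX hX
  · rw [sd.uy h, mul_inv_cancel_right]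
    exact R.mul_mem hY hY

lemma inv_beta {g : GL (Fin 3) F} (hgN : g ∈ Subgroup.normalizer (R : Set (GL (Fin 3) F))) (hg : g ∈ GU 3 F 5 ⊓ specialLinear (Fin 3) F)
    {k : ℕ} (hgX : g * X = Z ^ k * (X * X) * g) : Inv g := by
  have hX3 := sd.xxx h
  have h1 : (U * g) * X = Z ^ k * X * (U * g) := by
    have h2 : U * (X * X) = X * U := by
      calc U * (X * X) = (U * X) * X := by group
        _ = X * X * U * X := by rw [sd.ux h]
        _ = X * X * (U * X) := by group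
        _ = (X * X * X) * X * U := by rw [sd.ux h]; simp only [mul_assoc]
        _ = X * U := by rw [hX3, one_mul]
    calc (U * g) * X = U * (g * X) := by group
      _ = (U * Z ^ k) * (X * X) * g := by rw [hgX]; group
      _ = Z ^ k * (U * (X * X)) * g := by rw [← sd.zk h]; group
      _ = _ := by rw [h2]; group
  have h2 := inv_alpha h sd hF hR (Subgroup.mul_mem _ (u_norm h sd hF hR) hgN) (Subgroup.mul_mem _ sd.gU hg) h1
  have h3 : g = U * (U * g) := by rw [← mul_assoc, sd.uu h, one_mul]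
  rw [h3]
  exact (SD.iU h sd).mul h2

lemma inv_gamma {g P : GL (Fin 3) F} (hgN : g ∈ Subgroup.normalizer (R : Set (GL (Fin 3) F))) (hg : g ∈ GU 3 F 5 ⊓ specialLinear (Fin 3) F)
    (hPN : P ∈ Subgroup.normalizer (R : Set (GL (Fin 3) F))) (hP : P ∈ GU 3 F 5 ⊓ specialLinear (Fin 3) F) (hPI : Inv P)
    {k m : ℕ} {W : GL (Fin 3) F} (hgX : g * X = Z ^ k * W * g) (hW : W * P = Z ^ m * P * X ∨ W * P = Z ^ m * P * (X * X)) : Inv g := by
  have h1 : ∀ V, W * P = Z ^ m * P * V → (P⁻¹ * g) * X = Z ^ (k + m) * V * (P⁻¹ * g) := by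
    intro V hV
    calc (P⁻¹ * g) * X = P⁻¹ * (g * X) := by group
      _ = (P⁻¹ * Z ^ k) * (W * P) * P⁻¹ * g := by rw [hgX]; group
      _ = (P⁻¹ * Z ^ k) * (Z ^ m * P * V) * P⁻¹ * g := by rw [hV]
      _ = (P⁻¹ * Z ^ (k + m)) * P * V * P⁻¹ * g := by rw [pow_add]; group
      _ = (Z ^ (k + m) * P⁻¹) * P * V * P⁻¹ * g := by rw [sd.zk h]
      _ = _ := by group
  have h2 : Inv (P⁻¹ * g) := by
    have hN' := Subgroup.mul_mem _ (Subgroup.inv_mem _ hPN) hgN
    have hG' := Subgroup.mul_mem _ (Subgroup.inv_mem _ hP) hg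
    rcases hW with hW | hW
    · exact inv_alpha h sd hF hR hN' hG' (h1 _ hW)
    · exact inv_beta h sd hF hR hN' hG' (h1 _ hW)
  have h3 : g = P * (P⁻¹ * g) := by group
  rw [h3]
  exact hPI.mul h2

/-- The normaliser preserves the set of points. -/
theorem inv_norm {g : GL (Fin 3) F} (hgN : g ∈ Subgroup.normalizer (R : Set (GL (Fin 3) F))) (hg : g ∈ GU 3 F 5 ⊓ specialLinear (Fin 3) F) :
    Inv g := by
  have hX := mem_X hR
  have hY := mem_Y hR
  have hZ := mem_Z hR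
  have n0 : P0 ∈ Subgroup.normalizer (R : Set (GL (Fin 3) F)) := by
    apply mem_norm h sd hR
    · rw [sd.x0 h, mul_inv_cancel_right]
      exact R.mul_mem hY hY
    · rw [sd.y0 h, mul_inv_cancel_right]
      exact hX
  have n1 : P1 ∈ Subgroup.normalizer (R : Set (GL (Fin 3) F)) := by
    apply mem_norm h sd hR
    · rw [sd.x1 h, mul_inv_cancel_right]
      exact R.mul_mem (R.mul_mem (R.mul_mem hZ hZ) hX) (R.mul_mem hY hY)
    · rw [sd.y1 h, mul_inv_cancel_right]
      exact R.mul_mem (R.mul_mem hZ (R.mul_mem hX hX)) (R.mul_mem hY hY)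
  have n2 : P2 ∈ Subgroup.normalizer (R : Set (GL (Fin 3) F)) := by
    apply mem_norm h sd hR
    · rw [sd.x2 h, mul_inv_cancel_right]
      exact R.mul_mem (R.mul_mem hZ (R.mul_mem hX hX)) (R.mul_mem hY hY)
    · rw [sd.y2 h, mul_inv_cancel_right]
      exact R.mul_mem (R.mul_mem (R.mul_mem hZ hZ) (R.mul_mem hX hX)) hY
  have h1 : g * X * g⁻¹ ∈ R := (Subgroup.mem_set_normalizer_iff.1 hgN _).1 hX
  obtain ⟨k, i, j, -, hi, hj, h2⟩ := (hR _).1 h1
  have h3 : g * X = Z ^ k * X ^ i * Y ^ j * g := by rw [← h2]; group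
  interval_cases i <;> interval_cases j
  · -- `X` would be scalar
    exfalso
    have h4 : X = Z ^ k := by
      have h5 : g * X = g * Z ^ k := by
        rw [h3, ← sd.zk h]; group
      exact mul_left_cancel h5
    have h5 := congrArg (fun z : GL (Fin 3) F => (z : Matrix (Fin 3) (Fin 3) F)) h4
    have p0 : ψ 0 = 0 := h.zero (by norm_num)
    have p1 : ψ 1 = 1 := psi_one h (by norm_num)
    have hZm : (Z : Matrix (Fin 3) (Fin 3) F) = ψ 12 • 1 := by
      rw [sd.hZ]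
      ext i j
      rw [Matrix.map_apply, Matrix.smul_apply, smul_eq_mul]
      fin_cases i <;> fin_cases j <;> simp [cZ, p0]
    simp only [Units.val_pow_eq_pow_val] at h5
    rw [hZm, smul_pow, one_pow, sd.hX] at h5
    have e0 := congrFun (congrFun h5 0) 0
    have e1 := congrFun (congrFun h5 1) 1
    simp [cX, p1] at e0 e1
    rw [← e0] at e1
    rw [← p1, h.eq_iff (by norm_num) (by norm_num)] at e1
    norm_num at e1
  · exact inv_gamma h sd hF hR hgN hg n0 sd.g0 (SD.i0 h sd) (k := k) (m := 0) (W := Y) (by rw [h3]; simp only [pow_zero, pow_one, pow_two, mul_one, one_mul, mul_assoc]) (Or.inr (by rw [sd.r01 h]; simp only [pow_zero, pow_one, pow_two, mul_one, one_mul, mul_assoc]))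
  · exact inv_gamma h sd hF hR hgN hg n0 sd.g0 (SD.i0 h sd) (k := k) (m := 0) (W := Y * Y) (by rw [h3]; simp only [pow_zero, pow_one, pow_two, mul_one, one_mul, mul_assoc]) (Or.inl (by rw [sd.r02 h]; simp only [pow_zero, pow_one, pow_two, mul_one, one_mul, mul_assoc]))
  · exact inv_alpha h sd hF hR hgN hg (k := k) (by rw [h3]; simp only [pow_zero, pow_one, pow_two, mul_one, one_mul, mul_assoc])
  · exact inv_gamma h sd hF hR hgN hg n2 sd.g2 (SD.i2 h sd) (k := k) (m := 2) (W := X * Y) (by rw [h3]; simp only [pow_zero, pow_one, pow_two, mul_one, one_mul, mul_assoc]) (Or.inr (by rw [sd.r11 h]; simp only [pow_zero, pow_one, pow_two, mul_one, one_mul, mul_assoc]))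
  · exact inv_gamma h sd hF hR hgN hg n1 sd.g1 (SD.i1 h sd) (k := k) (m := 1) (W := X * (Y * Y)) (by rw [h3]; simp only [pow_zero, pow_one, pow_two, mul_one, one_mul, mul_assoc]) (Or.inl (by rw [sd.r12 h]; simp only [pow_zero, pow_one, pow_two, mul_one, one_mul, mul_assoc]))
  · exact inv_beta h sd hF hR hgN hg (k := k) (by rw [h3]; simp only [pow_zero, pow_one, pow_two, mul_one, one_mul, mul_assoc])
  · exact inv_gamma h sd hF hR hgN hg n1 sd.g1 (SD.i1 h sd) (k := k) (m := 1) (W := X * X * Y) (by rw [h3]; simp only [pow_zero, pow_one, pow_two, mul_one, one_mul, mul_assoc]) (Or.inr (by rw [sd.r21 h]; simp only [pow_zero, pow_one, pow_two, mul_one, one_mul, mul_assoc]))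
  · exact inv_gamma h sd hF hR hgN hg n2 sd.g2 (SD.i2 h sd) (k := k) (m := 2) (W := X * X * (Y * Y)) (by rw [h3]; simp only [pow_zero, pow_one, pow_two, mul_one, one_mul, mul_assoc]) (Or.inl (by rw [sd.r22 h]; simp only [pow_zero, pow_one, pow_two, mul_one, one_mul, mul_assoc]))

end

end Cfsg.Agent.Lib.SU3
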