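import Cfsg.Agent.Lib.SU3SixD
set_option autoImplicit false
set_option linter.style.haveILetI false
set_option linter.unusedVariables false
set_option linter.unusedSectionVars false
set_option linter.unusedSimpArgs false

/-!
The normaliser of an extraspecial group of order 27 in `SU_3(5)` is not maximal.
-/

namespace Cfsg.Agent.Lib.SU3

open Cfsg Cfsg.Geo Cfsg.Agent.Lib.AschMU Cfsg.Agent.Lib.AschCore Cfsg.Agent.Lib.AschField Cfsg.Agent.Lib.AschAlg
  Cfsg.Agent.Lib.AschGroup Cfsg.Agent.Lib.AschGood Cfsg.Agent.Lib.AschAdj Cfsg.Agent.Lib.AschNonab Cfsg.Agent.Lib.AschTensor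
  Cfsg.Agent.Lib.AschComp Cfsg.Agent.Lib.AschSp Cfsg.Agent.Lib.AschESys Cfsg.Agent.Lib.UnBridge Cfsg.Agent.Lib.HermMat
  Cfsg.Agent.Lib.UnEx
open scoped Matrix MatrixGroups Kronecker

/-- Powers. -/
def pwT (A : Matrix (Fin 3) (Fin 3) ℕ) : Fin 3 → Matrix (Fin 3) (Fin 3) ℕ := ![1, A, mmT 5 A A]

/-- Codes of the 27 elements. -/
def cdT (k i j : Fin 3) : Matrix (Fin 3) (Fin 3) ℕ := mmT 5 (mmT 5 (pwT cZ k) (pwT cX i)) (pwT cY j)

theorem cdT_inj : ∀ k i j k' i' j' : Fin 3, cdT k i j = cdT k' i' j' → (k, i, j) = (k', i', j') := by decide +kernel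

theorem cdT_ne : ∀ k i j : Fin 3, cdT k i j ≠ mmT 5 (mmT 5 cG cX) cG := by decide +kernel

section
variable {F : Type*} [Field F] [Fintype F] {ψ : ℕ → F} {X Y Z U P0 P1 P2 E : GL (Fin 3) F} (h : Tab 5 ψ)
  (sd : SD ψ X Y Z U P0 P1 P2 E) (hF : Fintype.card F = 5 ^ 2)
include h

lemma cd_pow {g : GL (Fin 3) F} {A : Matrix (Fin 3) (Fin 3) ℕ} (hg : Cd ψ g A) (k : Fin 3) : Cd ψ (g ^ (k : ℕ)) (pwT A k) := by
  fin_cases k
  · show Cd ψ (g ^ 0) 1
    unfold Cd
    rw [pow_zero, Units.val_one, map_oneT h (by norm_num)]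
  · show Cd ψ (g ^ 1) A
    rw [pow_one]; exact hg
  · show Cd ψ (g ^ 2) (mmT 5 A A)
    rw [pow_two]; exact hg.mul h hg

lemma mmT_inj {A B A' B' : Matrix (Fin 3) (Fin 3) ℕ} (he : (mmT 5 A B).map ψ = (mmT 5 A' B').map ψ) : mmT 5 A B = mmT 5 A' B' := by
  ext i j
  have := congrFun (congrFun he i) j
  rw [Matrix.map_apply, Matrix.map_apply] at this
  exact h.inj _ (fa_lt (by norm_num) _ _) _ (fa_lt (by norm_num) _ _) this

include sd

lemma cd_elt (k i j : Fin 3) : Cd ψ (Z ^ (k : ℕ) * X ^ (i : ℕ) * Y ^ (j : ℕ)) (cdT k i j) :=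
  ((cd_pow h sd.hZ k).mul h (cd_pow h sd.hX i)).mul h (cd_pow h sd.hY j)

/-- Description of the extraspecial group. -/
lemma mem_iff_of {R : Subgroup (GL (Fin 3) F)} (hX : X ∈ R) (hY : Y ∈ R) (hR : Nat.card R = 27) :
    ∀ ρ, ρ ∈ R ↔ ∃ k i j : ℕ, k < 3 ∧ i < 3 ∧ j < 3 ∧ ρ = Z ^ k * X ^ i * Y ^ j := by
  haveI : Finite (GL (Fin 3) F) := gl_finite
  have hZ : Z ∈ R := by
    have h1 : Z = X * Y * (Y * X)⁻¹ := by rw [sd.xy h, mul_inv_cancel_right]
    rw [h1]
    exact R.mul_mem (R.mul_mem hX hY) (R.inv_mem (R.mul_mem hY hX))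
  let f : Fin 3 × Fin 3 × Fin 3 → R := fun t =>
    ⟨Z ^ (t.1 : ℕ) * X ^ (t.2.1 : ℕ) * Y ^ (t.2.2 : ℕ), R.mul_mem (R.mul_mem (R.pow_mem hZ _) (R.pow_mem hX _)) (R.pow_mem hY _)⟩
  have hinj : Function.Injective f := by
    rintro ⟨k, i, j⟩ ⟨k', i', j'⟩ he
    have h1 : Z ^ (k : ℕ) * X ^ (i : ℕ) * Y ^ (j : ℕ) = Z ^ (k' : ℕ) * X ^ (i' : ℕ) * Y ^ (j' : ℕ) := congrArg Subtype.val he
    have h2 : (cdT k i j).map ψ = (cdT k' i' j').map ψ := by
      rw [← cd_elt h sd k i j, ← cd_elt h sd k' i' j', h1]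
    exact cdT_inj _ _ _ _ _ _ (mmT_inj h h2)
  have hbij : Function.Bijective f := (Nat.bijective_iff_injective_and_card f).2 ⟨hinj, by rw [hR]; simp⟩
  intro ρ
  constructor
  · intro hρ
    obtain ⟨⟨k, i, j⟩, ht⟩ := hbij.2 ⟨ρ, hρ⟩
    exact ⟨k, i, j, k.2, i.2, j.2, (congrArg Subtype.val ht).symm⟩
  · rintro ⟨k, i, j, -, -, -, rfl⟩
    exact R.mul_mem (R.mul_mem (R.pow_mem hZ _) (R.pow_mem hX _)) (R.pow_mem hY _)

omit h sd in
/-- Commutators in the extraspecial group are scalars. -/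
lemma comm_scalar {R : Subgroup (GL (Fin 3) F)} (hirr : ActsAbsolutelyIrreducibly (matrixSet R)) (hR : Nat.card R = 27)
    (hc : Nat.card (Subgroup.center R) = 3) {a b : GL (Fin 3) F} (ha : a ∈ R) (hb : b ∈ R) :
    ∃ c : F, c * c * c = 1 ∧ (a : Matrix (Fin 3) (Fin 3) F) * b = c • ((b : Matrix (Fin 3) (Fin 3) F) * a) := by
  haveI : Finite (GL (Fin 3) F) := gl_finite
  haveI : Fact (Nat.Prime 3) := ⟨by norm_num⟩
  have hq : Nat.card (R ⧸ Subgroup.center R) = 3 ^ 2 := by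
    have := Subgroup.card_eq_card_quotient_mul_card_subgroup (Subgroup.center R)
    rw [hR, hc] at this
    omega
  have hcom := (IsPGroup.isMulCommutative_of_card_eq_prime_sq hq).is_comm.comm
  let a' : R := ⟨a, ha⟩
  let b' : R := ⟨b, hb⟩
  have h1 : (b' * a')⁻¹ * (a' * b') ∈ Subgroup.center R := by
    rw [← QuotientGroup.eq]
    exact hcom (QuotientGroup.mk' (Subgroup.center R) b') (QuotientGroup.mk' (Subgroup.center R) a')
  set z : R := (b' * a')⁻¹ * (a' * b') with hz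
  have hz3 : z ^ 3 = 1 := by
    have h5 : (⟨z, h1⟩ : Subgroup.center R) ^ Nat.card (Subgroup.center R) = 1 := pow_card_eq_one'
    have h6 := congrArg Subtype.val h5
    rw [hc] at h6
    exact h6
  obtain ⟨c, hc'⟩ := hirr.2 ((z : GL (Fin 3) F) : Matrix (Fin 3) (Fin 3) F) (by
    rintro s ⟨g, hg, rfl⟩
    have h2 := Subgroup.mem_center_iff.1 h1 ⟨g, hg⟩
    have h3 : g * (z : GL (Fin 3) F) = (z : GL (Fin 3) F) * g := congrArg Subtype.val h2
    have h4 := congrArg (fun t : GL (Fin 3) F => (t : Matrix (Fin 3) (Fin 3) F)) h3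
    simp only [Units.val_mul] at h4
    exact h4.symm)
  refine ⟨c, ?_, ?_⟩
  · have h2 : ((z : GL (Fin 3) F)) ^ 3 = 1 := congrArg Subtype.val hz3
    have h3 := congrArg (fun t : GL (Fin 3) F => (t : Matrix (Fin 3) (Fin 3) F)) h2
    simp only [Units.val_pow_eq_pow_val, Units.val_one] at h3
    rw [hc', smul_pow, one_pow] at h3
    have h4 := congrFun (congrFun h3 0) 0
    rw [Matrix.smul_apply, Matrix.one_apply_eq, smul_eq_mul, mul_one] at h4
    linear_combination h4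
  · have h2 : a' * b' = b' * a' * z := by rw [hz]; group
    have h3 : a * b = b * a * (z : GL (Fin 3) F) := congrArg Subtype.val h2
    have h4 := congrArg (fun t : GL (Fin 3) F => (t : Matrix (Fin 3) (Fin 3) F)) h3
    simp only [Units.val_mul] at h4
    rw [h4, hc', Matrix.mul_smul, mul_one]

omit h sd in
/-- An adapted basis. -/
lemma exists_basis_six (hF : Fintype.card F = 5 ^ 2) {w : F} (w2 : w * w + w + 1 = 0) (w5 : w ^ 5 = w ^ 2) (w3 : w ^ 3 = 1) {x y : GL (Fin 3) F}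
    (hx : x ∈ GU 3 F 5) (hy : y ∈ GU 3 F 5) (hx3 : x ^ 3 = 1) (hy3 : y ^ 3 = 1)
    (hxy : (x : Matrix (Fin 3) (Fin 3) F) * y = w • ((y : Matrix (Fin 3) (Fin 3) F) * x)) :
    ∃ T : GL (Fin 3) F, T ∈ GU 3 F 5 ∧ (x : Matrix (Fin 3) (Fin 3) F) * (T : Matrix (Fin 3) (Fin 3) F) = (T : Matrix (Fin 3) (Fin 3) F) * !![1, 0, 0; 0, w, 0; 0, 0, w * w] ∧
      (y : Matrix (Fin 3) (Fin 3) F) * (T : Matrix (Fin 3) (Fin 3) F) = (T : Matrix (Fin 3) (Fin 3) F) * !![0, 0, 1; 1, 0, 0; 0, 1, 0] := by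
  have h5 := five_zero hF
  have hw0 : w ≠ 0 := by
    intro h0
    rw [h0] at w3
    norm_num at w3
  have hw1 : w ≠ 1 := by
    intro h1
    rw [h1] at w2
    have h6 : (1 : F) = 0 := by linear_combination 2 * w2 - h5
    exact one_ne_zero h6
  have hww : w * w ≠ 1 := by
    intro h1
    apply hw1
    calc w = w * (w * w) := by rw [h1, mul_one]
      _ = 1 := by rw [← w3]; ring
  set x' : Matrix (Fin 3) (Fin 3) F := (x : Matrix (Fin 3) (Fin 3) F) with hx'
  set y' : Matrix (Fin 3) (Fin 3) F := (y : Matrix (Fin 3) (Fin 3) F) with hy'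
  have hX3 : x' * x' * x' = 1 := by
    have := congrArg (fun t : GL (Fin 3) F => (t : Matrix (Fin 3) (Fin 3) F)) hx3
    simp only [Units.val_pow_eq_pow_val, Units.val_one] at this
    rw [← this, pow_succ, pow_succ, pow_one]
  have hY3 : y' * y' * y' = 1 := by
    have := congrArg (fun t : GL (Fin 3) F => (t : Matrix (Fin 3) (Fin 3) F)) hy3
    simp only [Units.val_pow_eq_pow_val, Units.val_one] at this
    rw [← this, pow_succ, pow_succ, pow_one]
  -- the projection is nonzero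
  have hcan : ∀ M : Matrix (Fin 3) (Fin 3) F, y' * M = 0 → M = 0 := by
    intro M hM
    calc M = (y' * y' * y') * M := by rw [hY3, one_mul]
      _ = y' * y' * (y' * M) := by simp only [mul_assoc]
      _ = 0 := by rw [hM, mul_zero]
  have hstep : ∀ α β : F, 1 + α • x' + β • (x' * x') = 0 → 1 + (w * α) • x' + (w * w * β) • (x' * x') = 0 := by
    intro α β h0
    apply hcan
    have h1 : y' * (1 + (w * α) • x' + (w * w * β) • (x' * x')) = (1 + α • x' + β • (x' * x')) * y' := by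
      have e2 : x' * x' * y' = (w * w) • (y' * (x' * x')) := by
        rw [mul_assoc, hxy, Matrix.mul_smul, ← mul_assoc, hxy, Matrix.smul_mul, smul_smul, mul_assoc]
      rw [add_mul, add_mul, one_mul, Matrix.smul_mul, Matrix.smul_mul, hxy, e2, mul_add, mul_add, mul_one, Matrix.mul_smul, Matrix.mul_smul,
        smul_smul, smul_smul, mul_comm α w, mul_comm β (w * w)]
    rw [h1, h0, zero_mul]
  have hS : (1 + x' + x' * x') ≠ 0 := by
    intro h0
    have h1 : 1 + (1 : F) • x' + (1 : F) • (x' * x') = 0 := by rw [one_smul, one_smul]; exact h0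
    have h2 := hstep 1 1 h1
    have h3 := hstep _ _ h2
    have h4 : (3 : F) • (1 : Matrix (Fin 3) (Fin 3) F) = 0 := by
      have e1 : (1 + w + w * w) • x' = 0 := by rw [show 1 + w + w * w = 0 by linear_combination w2, zero_smul]
      have e2 : (1 + w * w + w * w * (w * w)) • (x' * x') = 0 := by
        rw [show 1 + w * w + w * w * (w * w) = 0 by linear_combination w2 + w * w3, zero_smul]
      have e3 : (3 : F) • (1 : Matrix (Fin 3) (Fin 3) F) = (1 + (1 : F) • x' + (1 : F) • (x' * x')) +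
          (1 + (w * 1) • x' + (w * w * 1) • (x' * x')) + (1 + (w * (w * 1)) • x' + (w * w * (w * w * 1)) • (x' * x')) -
          (1 + w + w * w) • x' - (1 + w * w + w * w * (w * w)) • (x' * x') := by
        module
      rw [e3, h1, h2, h3, e1, e2]
      simp
    have h6 := congrFun (congrFun h4 0) 0
    rw [Matrix.smul_apply, Matrix.one_apply_eq, smul_eq_mul, mul_one, Matrix.zero_apply] at h6
    have h7 : (1 : F) = 0 := by linear_combination 2 * h6 - h5
    exact one_ne_zero h7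
  have hv0 : ∃ v, (1 + x' + x' * x') *ᵥ v ≠ 0 := by
    by_contra hcon
    push Not at hcon
    apply hS
    ext i j
    have := congrFun (hcon (Pi.single j 1)) i
    rw [Matrix.mulVec_single_one] at this
    exact this
  obtain ⟨v, hv⟩ := hv0
  have hproj : ∀ v, x' *ᵥ ((1 + x' + x' * x') *ᵥ v) = (1 + x' + x' * x') *ᵥ v := by
    intro v
    rw [Matrix.mulVec_mulVec]
    congr 1
    rw [mul_add, mul_add, mul_one, ← mul_assoc, hX3]
    abel
  have hxU : ∀ a b, hermForm 3 F 5 (x' *ᵥ a) (x' *ᵥ b) = hermForm 3 F 5 a b := fun a b => hx a b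
  have hyU : ∀ a b, hermForm 3 F 5 (y' *ᵥ a) (y' *ᵥ b) = hermForm 3 F 5 a b := fun a b => hy a b
  have hex : ∃ e, x' *ᵥ e = e ∧ hermForm 3 F 5 e e ≠ 0 := by
    by_contra hcon
    push Not at hcon
    have hpol : ∀ e f, x' *ᵥ e = e → x' *ᵥ f = f → hermForm 3 F 5 e f = 0 := by
      intro e f he hf
      have h1 : ∀ c : F, c ^ 5 * hermForm 3 F 5 e f + c * hermForm 3 F 5 f e = 0 := by
        intro c
        have h2 := hcon (e + c • f) (by rw [Matrix.mulVec_add, Matrix.mulVec_smul, he, hf])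
        rw [hermForm_add_left, hermForm_add_right hF, hermForm_add_right hF, hermForm_smul_left, hermForm_smul_left, hermForm_smul_right,
          hermForm_smul_right, hcon e he, hcon f hf] at h2
        linear_combination h2
      have h2 := h1 1
      have h3 := h1 w
      rw [w5] at h3
      have h4 : (w * (w - 1)) * hermForm 3 F 5 e f = 0 := by linear_combination h3 - w * h2
      exact (mul_eq_zero.1 h4).resolve_left (mul_ne_zero hw0 (sub_ne_zero.2 hw1))
    apply hv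
    by_contra hne
    obtain ⟨z, hz⟩ := HermMat.exists_ne_zero hF hne
    apply hz
    set e := (1 + x' + x' * x') *ᵥ v with he
    have hxe : x' *ᵥ e = e := hproj v
    have h1 := hpol _ e (hproj z) hxe
    have h2 : hermForm 3 F 5 (x' *ᵥ z) e = hermForm 3 F 5 z e := by
      conv_lhs => rw [← hxe]
      exact hxU _ _
    have h3 : hermForm 3 F 5 ((x' * x') *ᵥ z) e = hermForm 3 F 5 z e := by
      rw [← Matrix.mulVec_mulVec]
      conv_lhs => rw [← hxe]
      rw [hxU, h2]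
    rw [Matrix.add_mulVec, Matrix.add_mulVec, Matrix.one_mulVec, hermForm_add_left, hermForm_add_left, h2, h3] at h1
    linear_combination 2 * h1 - hermForm 3 F 5 z e * h5
  obtain ⟨e, hxe, hee⟩ := hex
  have hfix : sg hF (hermForm 3 F 5 e e)⁻¹ = (hermForm 3 F 5 e e)⁻¹ := by
    rw [map_inv₀, sg_apply]
    congr 1
    exact hermForm_swap hF e e
  obtain ⟨m, hm0, hm⟩ := AschAdj.norm_surj' (sg_inv hF) (sg_ne hF) hfix (inv_ne_zero hee)
  rw [sg_apply] at hm
  set e0 := m • e with he0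
  have hx0 : x' *ᵥ e0 = e0 := by rw [he0, Matrix.mulVec_smul, hxe]
  have h00 : hermForm 3 F 5 e0 e0 = 1 := by
    rw [he0, hermForm_smul_left, hermForm_smul_right, ← mul_assoc, hm, inv_mul_cancel₀ hee]
  set e1 := y' *ᵥ e0 with he1
  set e2 := y' *ᵥ e1 with he2
  have hxy' : ∀ z, x' *ᵥ (y' *ᵥ z) = w • (y' *ᵥ (x' *ᵥ z)) := by
    intro z
    rw [Matrix.mulVec_mulVec, hxy, Matrix.smul_mulVec, Matrix.mulVec_mulVec]
  have hx1 : x' *ᵥ e1 = w • e1 := by rw [he1, hxy', hx0]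
  have hx2 : x' *ᵥ e2 = (w * w) • e2 := by rw [he2, hxy', hx1, Matrix.mulVec_smul, smul_smul]
  have hy2 : y' *ᵥ e2 = e0 := by
    rw [he2, he1, Matrix.mulVec_mulVec, Matrix.mulVec_mulVec, hY3, Matrix.one_mulVec]
  have h11 : hermForm 3 F 5 e1 e1 = 1 := by rw [he1, hyU, h00]
  have h22 : hermForm 3 F 5 e2 e2 = 1 := by rw [he2, hyU, h11]
  have horth : ∀ (a b : Fin 3 → F) (α β : F), x' *ᵥ a = α • a → x' *ᵥ b = β • b → α * β ^ 5 ≠ 1 → hermForm 3 F 5 a b = 0 := by
    intro a b α β ha hb hne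
    have h1 := hxU a b
    rw [ha, hb, hermForm_smul_left, hermForm_smul_right] at h1
    have h2 : (α * β ^ 5 - 1) * hermForm 3 F 5 a b = 0 := by linear_combination h1
    exact (mul_eq_zero.1 h2).resolve_left (sub_ne_zero.2 hne)
  have hx0' : x' *ᵥ e0 = (1 : F) • e0 := by rw [one_smul]; exact hx0
  have w10 : (w * w) ^ 5 = w := by linear_combination w * (w ^ 6 + w ^ 3 + 1) * w3
  have n01 := horth _ _ _ _ hx0' hx1 (by rw [w5, one_mul, sq]; exact hww)
  have n02 := horth _ _ _ _ hx0' hx2 (by rw [w10, one_mul]; exact hw1)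
  have n10 := horth _ _ _ _ hx1 hx0' (by rw [one_pow, mul_one]; exact hw1)
  have n12 := horth _ _ _ _ hx1 hx2 (by rw [w10]; exact hww)
  have n20 := horth _ _ _ _ hx2 hx0' (by rw [one_pow, mul_one]; exact hww)
  have n21 := horth _ _ _ _ hx2 hx1 (by
    rw [w5]
    intro h1
    apply hw1
    linear_combination h1 - w * w3)
  obtain ⟨T, hT, hTe⟩ := exists_gl_of_orthonormal hF ![e0, e1, e2] (by
    intro i j
    fin_cases i <;> fin_cases j <;> simp [h00, h11, h22, n01, n02, n10, n12, n20, n21])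
  have hcol : ∀ j, (fun k => (T : Matrix (Fin 3) (Fin 3) F) k j) = (![e0, e1, e2] : Fin 3 → Fin 3 → F) j := by
    intro j
    rw [← hTe, Matrix.mulVec_single_one]
    rfl
  have hmat : ∀ (A B : Matrix (Fin 3) (Fin 3) F), (∀ j, A *ᵥ (![e0, e1, e2] : Fin 3 → Fin 3 → F) j =
      B 0 j • e0 + B 1 j • e1 + B 2 j • e2) → A * (T : Matrix (Fin 3) (Fin 3) F) = (T : Matrix (Fin 3) (Fin 3) F) * B := by
    intro A B hAB
    ext k j
    have e : (A * (T : Matrix (Fin 3) (Fin 3) F)) k j = (A *ᵥ (fun k => (T : Matrix (Fin 3) (Fin 3) F) k j)) k := rfl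
    have c0 := congrFun (hcol 0) k
    have c1 := congrFun (hcol 1) k
    have c2 := congrFun (hcol 2) k
    rw [e, hcol, hAB, Matrix.mul_apply, Fin.sum_univ_three, c0, c1, c2]
    simp only [Pi.add_apply, Pi.smul_apply, smul_eq_mul]
    simp
    ring
  refine ⟨T, hT, ?_, ?_⟩
  · apply hmat
    intro j
    fin_cases j
    · simp [hx0]
    · simp [hx1]
    · simp [hx2]
  · apply hmat
    intro j
    fin_cases j
    · simp [he1]
    · simp [he2]
    · simp [hy2]

end

end Cfsg.Agent.Lib.SU3
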