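import Cfsg.Agent.Lib.SU3SixE
set_option autoImplicit false
set_option linter.style.haveILetI false
set_option linter.unusedVariables false
set_option linter.unusedSectionVars false
set_option linter.unusedSimpArgs false

/-!
The normaliser of an extraspecial group of order 27 in `SU_3(5)` is not maximal.
-/

namespace Cfsg.Agent.Lib.SU3

open Cfsg Cfsg.Geo Cfsg.Agent.Lib.AschMU Cfsg.Agent.Lib.AschCore Cfsg.Agent.Lib.AschField Cfsg.Agent.Lib.AschAlg
  Cfsg.Agent.Lib.AschGroup Cfsg.Agent.Lib.AschGood Cfsg.Agent.Lib.AschAdj Cfsg.Agent.Lib.AschNonab Cfsg.Agent.Lib.AschTensor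
  Cfsg.Agent.Lib.AschComp Cfsg.Agent.Lib.AschSp Cfsg.Agent.Lib.AschESys Cfsg.Agent.Lib.UnBridge Cfsg.Agent.Lib.HermMat
  Cfsg.Agent.Lib.UnEx
open scoped Matrix MatrixGroups Kronecker

/-- A diagonal matrix. -/
def cS : Matrix (Fin 3) (Fin 3) ℕ := !![4, 0, 0; 0, 1, 0; 0, 0, 4]

section
variable {F : Type*} [Field F] [Fintype F]

theorem six_not_maximal (hF : Fintype.card F = 5 ^ 2) {R : Subgroup (GL (Fin 3) F)} (hsy : IsSymplecticTypeGroup 3 R)
    (hirr : ActsAbsolutelyIrreducibly (matrixSet R)) (hRG : R ≤ GU 3 F 5) (hR : Nat.card R = 27)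
    (hc : Nat.card (Subgroup.center R) = 3) {H : Subgroup (GL (Fin 3) F)}
    (hH : IsMaximalIn (GU 3 F 5 ⊓ specialLinear (Fin 3) F) H)
    (hRH : H = subgroupNormalizer R ⊓ (GU 3 F 5 ⊓ specialLinear (Fin 3) F)) : False := by
  classical
  haveI : Finite (GL (Fin 3) F) := gl_finite
  haveI := charP5 hF
  have h5 := five_zero hF
  obtain ⟨ψ, h⟩ := exists_tab (p := 5) (Or.inr rfl) hF
  obtain ⟨w2, w5, w3⟩ := omega_eq h
  obtain ⟨X, Y, Z, U, P0, P1, P2, E, sd⟩ := exists_sd hF h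
  have hexp : Monoid.exponent R = 3 := by rw [hsy.exponent_eq]; norm_num
  have hcube : ∀ a ∈ R, a ^ 3 = 1 := by
    intro a ha
    have := Monoid.pow_exponent_eq_one (⟨a, ha⟩ : R)
    have h1 := congrArg Subtype.val this
    rw [hexp] at h1
    exact h1
  -- a noncommuting pair
  have hex : ∃ a ∈ R, ∃ b ∈ R, a * b ≠ b * a := by
    by_contra hcon
    push Not at hcon
    have h1 : Subgroup.center R = ⊤ := by
      rw [eq_top_iff]
      rintro ⟨a, ha⟩ -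
      rw [Subgroup.mem_center_iff]
      rintro ⟨b, hb⟩
      exact Subtype.ext (hcon b hb a ha)
    rw [h1, Subgroup.card_top, hR] at hc
    omega
  obtain ⟨a, ha, b, hb, hab⟩ := hex
  have hpair : ∃ x ∈ R, ∃ y ∈ R, (x : Matrix (Fin 3) (Fin 3) F) * (y : Matrix (Fin 3) (Fin 3) F) = ψ 12 • ((y : Matrix (Fin 3) (Fin 3) F) * (x : Matrix (Fin 3) (Fin 3) F)) := by
    obtain ⟨c, hc3, hcab⟩ := comm_scalar hirr hR hc ha hb
    rcases cube_cases h hc3 with h1 | h1 | h1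
    · exfalso
      apply hab
      rw [h1, one_smul] at hcab
      exact Units.ext hcab
    · rw [h1] at hcab
      exact ⟨a, ha, b, hb, hcab⟩
    · refine ⟨b, hb, a, ha, ?_⟩
      rw [hcab, smul_smul, h1, ← mul_assoc, show ψ 12 * ψ 12 * ψ 12 = 1 by linear_combination w3, one_smul]
  obtain ⟨x, hx, y, hy, hxy⟩ := hpair
  obtain ⟨T, hT, hxT, hyT⟩ := exists_basis_six hF w2 w5 w3 (hRG hx) (hRG hy) (hcube x hx) (hcube y hy) hxy
  have p0 : ψ 0 = 0 := h.zero (by norm_num)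
  have p1 : ψ 1 = 1 := psi_one h (by norm_num)
  have p17 : ψ 17 = ψ 12 * ψ 12 := by rw [← h.mul]; rfl
  have hXm : (X : Matrix (Fin 3) (Fin 3) F) = !![1, 0, 0; 0, ψ 12, 0; 0, 0, ψ 12 * ψ 12] := by
    rw [sd.hX]
    ext i j
    fin_cases i <;> fin_cases j <;> simp [cX, p0, p1, p17]
  have hYm : (Y : Matrix (Fin 3) (Fin 3) F) = !![0, 0, 1; 1, 0, 0; 0, 1, 0] := by
    rw [sd.hY]
    ext i j
    fin_cases i <;> fin_cases j <;> simp [cY, p0, p1]
  have hTX : x * T = T * X := by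
    apply Units.ext
    rw [Units.val_mul, Units.val_mul, hXm, hxT]
  have hTY : y * T = T * Y := by
    apply Units.ext
    rw [Units.val_mul, Units.val_mul, hYm, hyT]
  -- the conjugate group
  let R' : Subgroup (GL (Fin 3) F) := R.comap (MulAut.conj T).toMonoidHom
  have hR'm : ∀ ρ, ρ ∈ R' ↔ T * ρ * T⁻¹ ∈ R := fun ρ => Iff.rfl
  have hX' : X ∈ R' := by
    rw [hR'm, ← hTX, mul_inv_cancel_right]; exact hx
  have hY' : Y ∈ R' := by
    rw [hR'm, ← hTY, mul_inv_cancel_right]; exact hy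
  have hcard : Nat.card R' = 27 := by
    rw [← hR]
    exact Nat.card_congr
      { toFun := fun ρ => ⟨T * ρ * T⁻¹, ρ.2⟩
        invFun := fun r => ⟨T⁻¹ * r * T, by
          rw [hR'm]
          have e : T * (T⁻¹ * (r : GL (Fin 3) F) * T) * T⁻¹ = r := by group
          rw [e]; exact r.2⟩
        left_inv := fun ρ => Subtype.ext (by
          show T⁻¹ * (T * (ρ : GL (Fin 3) F) * T⁻¹) * T = ρ
          group)
        right_inv := fun r => Subtype.ext (by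
          show T * (T⁻¹ * (r : GL (Fin 3) F) * T) * T⁻¹ = r
          group) }
  have hR' := mem_iff_of h sd hX' hY' hcard
  have hnorm : ∀ g, g ∈ Subgroup.normalizer (R : Set (GL (Fin 3) F)) → T⁻¹ * g * T ∈ Subgroup.normalizer (R' : Set (GL (Fin 3) F)) := by
    intro g hg
    haveI : Finite (R' : Set (GL (Fin 3) F)) := Subtype.finite
    apply Subgroup.mem_normalizer_fintype
    intro ρ hρ
    have h1 := (Subgroup.mem_set_normalizer_iff.1 hg _).1 ((hR'm ρ).1 hρ)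
    show T * (T⁻¹ * g * T * ρ * (T⁻¹ * g * T)⁻¹) * T⁻¹ ∈ R
    have e : T * (T⁻¹ * g * T * ρ * (T⁻¹ * g * T)⁻¹) * T⁻¹ = g * (T * ρ * T⁻¹) * g⁻¹ := by group
    rw [e]; exact h1
  obtain ⟨S, hS, -, hSG⟩ := exists_of_code h (by norm_num) hF (A := cS) (by decide +kernel) (by decide +kernel)
  have d1 : DB (ψ 1) (ψ 8) (ψ 8) := (db_tab h 1 8 8).2 (by decide +kernel)
  have d2 : ¬ DB (((S : Matrix (Fin 3) (Fin 3) F) *ᵥ ![ψ 1, ψ 8, ψ 8]) 0) (((S : Matrix (Fin 3) (Fin 3) F) *ᵥ ![ψ 1, ψ 8, ψ 8]) 1)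
      (((S : Matrix (Fin 3) (Fin 3) F) *ᵥ ![ψ 1, ψ 8, ψ 8]) 2) := by
    rw [hS, ← mvT_eq h, ← mvT_eq h, ← mvT_eq h, db_tab h]
    decide +kernel
  refine inv_not_max hF hT (fun v => DB (v 0) (v 1) (v 2)) hH ?_ sd.gE (SD.iE h sd) ?_ hSG (x := ![ψ 1, ψ 8, ψ 8]) d1 d2
  · intro g hg
    have hgG := hH.1.le hg
    rw [hRH] at hg
    exact inv_norm h sd hF hR' (hnorm g hg.1) (conj_mem' hT hgG)
  · intro hEH
    rw [hRH] at hEH
    have h1 := hnorm _ hEH.1
    have e : T⁻¹ * (T * E * T⁻¹) * T = E := by group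
    rw [e] at h1
    have h2 : E * X * E⁻¹ ∈ R' := (Subgroup.mem_set_normalizer_iff.1 h1 _).1 hX'
    have hEE : E * E = 1 := by
      apply Units.ext
      rw [Units.val_mul, Units.val_one, sd.hE, ← map_mmT h, ← map_oneT h (by norm_num)]
      congr 1
      decide +kernel
    have hEi : E⁻¹ = E := inv_eq_of_mul_eq_one_right hEE
    rw [hEi] at h2
    obtain ⟨k, i, j, hk, hi, hj, h3⟩ := (hR' _).1 h2
    have c1 := (sd.hE.mul h sd.hX).mul h sd.hE
    have c2 := cd_elt h sd ⟨k, hk⟩ ⟨i, hi⟩ ⟨j, hj⟩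
    have h4 : (cdT ⟨k, hk⟩ ⟨i, hi⟩ ⟨j, hj⟩).map ψ = (mmT 5 (mmT 5 cG cX) cG).map ψ := by
      rw [← c1, ← c2, h3]
    exact cdT_ne _ _ _ (mmT_inj h h4)

end

end Cfsg.Agent.Lib.SU3
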