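import Cfsg.Agent.Lib.SU3Frame
import Cfsg.Agent.Lib.SymBasis
set_option autoImplicit false
set_option linter.style.haveILetI false
set_option linter.unusedVariables false
set_option linter.unusedSectionVars false
set_option linter.unusedSimpArgs false

/-!
Subfield groups of index two in `SU_3(3)` and `SU_3(5)`.
-/

namespace Cfsg.Agent.Lib.SU3

open Cfsg Cfsg.Geo Cfsg.Agent.Lib.AschMU Cfsg.Agent.Lib.AschCore Cfsg.Agent.Lib.AschField Cfsg.Agent.Lib.AschAlg
  Cfsg.Agent.Lib.AschGroup Cfsg.Agent.Lib.AschGood Cfsg.Agent.Lib.AschAdj Cfsg.Agent.Lib.AschNonab Cfsg.Agent.Lib.AschTensor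
  Cfsg.Agent.Lib.AschComp Cfsg.Agent.Lib.AschSp Cfsg.Agent.Lib.AschESys Cfsg.Agent.Lib.UnBridge Cfsg.Agent.Lib.HermMat
  Cfsg.Agent.Lib.UnEx
open scoped Matrix MatrixGroups Kronecker

section
variable {F : Type*} [Field F] [Fintype F] {q : ℕ}

/-- Pairwise orthogonal vectors of equal norm in the rational structure. -/
theorem rat_vectors (hF : Fintype.card F = q ^ 2) (hq : Odd q) {F₀ : Subfield F} (hc : Fintype.card F = Nat.card F₀ ^ 2)
    {P : GL (Fin 3) F} (hst : IsFormRationalStructure (hermForm 3 F q) F₀ 1 P) :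
    ∃ (e : Fin 3 → Fin 3 → F) (c : F), c ≠ 0 ∧ c ^ q = c ∧ (∀ i j, e i j ∈ F₀) ∧
      ∀ i j, hermForm 3 F q ((P : Matrix (Fin 3) (Fin 3) F) *ᵥ e i) ((P : Matrix (Fin 3) (Fin 3) F) *ᵥ e j) = if i = j then c else 0 := by
  classical
  have hq0 : q ≠ 0 := by rintro rfl; exact absurd hq (by decide)
  have hcard : Nat.card F₀ = q := by
    rw [hF] at hc
    exact (Nat.pow_left_injective (n := 2) (by norm_num) hc).symm
  haveI : Fintype F₀ := Fintype.ofFinite _
  have hfix : ∀ x ∈ F₀, x ^ q = x := by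
    intro x hx
    have := FiniteField.pow_card (⟨x, hx⟩ : F₀)
    rw [← Nat.card_eq_fintype_card, hcard] at this
    exact congrArg Subtype.val this
  have h2F : (2 : F₀) ≠ 0 := by
    intro h2
    have h3 : ringChar F₀ = 2 := by
      have h4 := (ringChar.spec F₀ 2).1 (by exact_mod_cast h2)
      have h5 : ringChar F₀ ≠ 1 := CharP.ringChar_ne_one
      exact ((Nat.dvd_prime Nat.prime_two).1 h4).resolve_left h5
    have h4 := FiniteField.even_card_iff_char_two.1 h3
    rw [← Nat.card_eq_fintype_card, hcard] at h4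
    obtain ⟨k, hk⟩ := hq
    omega
  have hmem : ∀ u v : Fin 3 → F₀, hermForm 3 F q ((P : Matrix (Fin 3) (Fin 3) F) *ᵥ fun i => (u i : F)) ((P : Matrix (Fin 3) (Fin 3) F) *ᵥ fun i => (v i : F)) ∈ F₀ := by
    intro u v
    have := hst (fun i => (u i : F)) (fun i => (v i : F)) (fun i => (u i).2) (fun i => (v i).2)
    rwa [one_mul] at this
  have hadd : ∀ u v : Fin 3 → F₀, (fun i => (((u + v) i : F₀) : F)) = (fun i => (u i : F)) + fun i => (v i : F) := fun u v => rfl
  have hsmul : ∀ (c : F₀) (u : Fin 3 → F₀), (fun i => (((c • u) i : F₀) : F)) = (c : F) • fun i => (u i : F) := fun c u => rfl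
  let B : LinearMap.BilinForm F₀ (Fin 3 → F₀) := LinearMap.mk₂ F₀ (fun u v => ⟨_, hmem u v⟩)
    (by
      intro u v w
      apply Subtype.ext
      show hermForm 3 F q _ _ = hermForm 3 F q _ _ + hermForm 3 F q _ _
      rw [hadd, Matrix.mulVec_add, hermForm_add_left])
    (by
      intro c u v
      apply Subtype.ext
      show hermForm 3 F q _ _ = (c : F) * hermForm 3 F q _ _
      rw [hsmul, Matrix.mulVec_smul, hermForm_smul_left])
    (by
      intro u v w
      apply Subtype.ext
      show hermForm 3 F q _ _ = hermForm 3 F q _ _ + hermForm 3 F q _ _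
      rw [hadd, Matrix.mulVec_add, hermForm_add_right hF])
    (by
      intro c u v
      apply Subtype.ext
      show hermForm 3 F q _ _ = (c : F) * hermForm 3 F q _ _
      rw [hsmul, Matrix.mulVec_smul, hermForm_smul_right, hfix _ c.2])
  have hB : ∀ u v, ((B u v : F₀) : F) = hermForm 3 F q ((P : Matrix (Fin 3) (Fin 3) F) *ᵥ fun i => (u i : F)) ((P : Matrix (Fin 3) (Fin 3) F) *ᵥ fun i => (v i : F)) :=
    fun u v => rfl
  have hS : B.IsSymm := ⟨by
    intro u v
    apply Subtype.ext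
    show ((B u v : F₀) : F) = ((B v u : F₀) : F)
    rw [hB, hB, ← hermForm_swap hF, hfix _ (hmem v u)]⟩
  have hnd : ∀ x ∈ (⊤ : Submodule F₀ (Fin 3 → F₀)), (∀ y ∈ (⊤ : Submodule F₀ (Fin 3 → F₀)), B x y = 0) → x = 0 := by
    intro x _ hx
    have h1 : ∀ j, hermForm 3 F q ((P : Matrix (Fin 3) (Fin 3) F) *ᵥ fun i => (x i : F)) ((P : Matrix (Fin 3) (Fin 3) F) *ᵥ Pi.single j 1) = 0 := by
      intro j
      have h2 := congrArg Subtype.val (hx (Pi.single j 1) trivial)
      have h3 : (fun i => (((Pi.single j 1 : Fin 3 → F₀) i : F₀) : F)) = Pi.single j 1 := by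
        funext i
        simp only [Pi.single_apply]
        split_ifs <;> rfl
      have h4 : ((B x (Pi.single j 1) : F₀) : F) = 0 := h2
      rw [hB, h3] at h4
      exact h4
    have h2 : ∀ y : Fin 3 → F, hermForm 3 F q ((P : Matrix (Fin 3) (Fin 3) F) *ᵥ fun i => (x i : F)) ((P : Matrix (Fin 3) (Fin 3) F) *ᵥ y) = 0 := by
      intro y
      have hy : y = y 0 • Pi.single 0 1 + (y 1 • Pi.single 1 1 + y 2 • Pi.single 2 1) := by
        funext i
        fin_cases i <;> simp
      rw [hy, Matrix.mulVec_add, Matrix.mulVec_add, Matrix.mulVec_smul, Matrix.mulVec_smul, Matrix.mulVec_smul, hermForm_add_right hF,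
        hermForm_add_right hF, hermForm_smul_right, hermForm_smul_right, hermForm_smul_right, h1, h1, h1]
      ring
    have h3 : (P : Matrix (Fin 3) (Fin 3) F) *ᵥ (fun i => (x i : F)) = 0 := by
      by_contra hne
      obtain ⟨z, hz⟩ := HermMat.exists_ne_zero hF hne
      apply hz
      have h4 := h2 (((P⁻¹ : GL (Fin 3) F) : Matrix (Fin 3) (Fin 3) F) *ᵥ z)
      rw [gl_mulVec_inv] at h4
      rw [← hermForm_swap hF, h4, zero_pow hq0]
    have h4 : (fun i => (x i : F)) = 0 := by
      rw [← gl_inv_mulVec P (fun i => (x i : F)), h3, Matrix.mulVec_zero]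
    funext i
    exact Subtype.ext (congrFun h4 i)
  obtain ⟨α, hα⟩ := FiniteField.exists_nonsquare (F := F₀) (fun h => h2F (by
    have := ringChar.Nat.cast_ringChar (R := F₀)
    rw [h] at this
    exact_mod_cast this))
  have hα0 : α ≠ 0 := by rintro rfl; exact hα ⟨0, by simp⟩
  obtain ⟨e, -, horth, hone, hlast⟩ := SymBasis.exists_family h2F hS hα 2 ⊤ (by rw [finrank_top]; simp) hnd
  have key : ∃ (e : Fin 3 → Fin 3 → F₀) (c : F₀), c ≠ 0 ∧ ∀ i j, B (e i) (e j) = if i = j then c else 0 := by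
    have h01 := horth 0 1 (by decide)
    have h02 := horth 0 2 (by decide)
    have h12 := horth 1 2 (by decide)
    have h10 := horth 1 0 (by decide)
    have h20 := horth 2 0 (by decide)
    have h21 := horth 2 1 (by decide)
    have h00 := hone 0 (by decide)
    have h11 := hone 1 (by decide)
    have hl : (Fin.last 2) = 2 := rfl
    rw [hl] at hlast
    rcases hlast with h22 | h22
    · refine ⟨e, 1, one_ne_zero, ?_⟩
      intro i j
      fin_cases i <;> fin_cases j <;> simp [h01, h02, h12, h10, h20, h21, h00, h11, h22]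
    · obtain ⟨s, t, hst'⟩ := SymBasis.universal h2F (a := (1 : F₀)) (b := 1) one_ne_zero one_ne_zero α
      refine ⟨![s • e 0 + t • e 1, (-t) • e 0 + s • e 1, e 2], α, hα0, ?_⟩
      intro i j
      fin_cases i <;> fin_cases j <;>
        simp [h01, h02, h12, h10, h20, h21, h00, h11, h22]
      · linear_combination hst'
      · ring
      · ring
      · linear_combination hst'
  obtain ⟨e', c, hc0, he'⟩ := key
  refine ⟨fun i j => (e' i j : F), (c : F), fun h => hc0 (Subtype.ext h), hfix _ c.2, fun i j => (e' i j).2, ?_⟩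
  intro i j
  rw [← hB, he']
  split_ifs <;> rfl

/-- An orthonormal basis in which the subfield group consists of multiples of matrices over the subfield. -/
theorem rat_frame (hF : Fintype.card F = q ^ 2) (hq : Odd q) {F₀ : Subfield F} (hc : Fintype.card F = Nat.card F₀ ^ 2)
    {P : GL (Fin 3) F} (hst : IsFormRationalStructure (hermForm 3 F q) F₀ 1 P) :
    ∃ T : GL (Fin 3) F, T ∈ GU 3 F q ∧ ∀ g ∈ subfieldSubgroup F₀ P, ∃ (c : F) (A : Matrix (Fin 3) (Fin 3) F), c ≠ 0 ∧
      (∀ i j, A i j ^ q = A i j) ∧ ((T⁻¹ * g * T : GL (Fin 3) F) : Matrix (Fin 3) (Fin 3) F) = c • A := by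
  classical
  have hq0 : q ≠ 0 := by rintro rfl; exact absurd hq (by decide)
  have hcard : Nat.card F₀ = q := by
    rw [hF] at hc
    exact (Nat.pow_left_injective (n := 2) (by norm_num) hc).symm
  haveI : Fintype F₀ := Fintype.ofFinite _
  have hfix : ∀ x ∈ F₀, x ^ q = x := by
    intro x hx
    have := FiniteField.pow_card (⟨x, hx⟩ : F₀)
    rw [← Nat.card_eq_fintype_card, hcard] at this
    exact congrArg Subtype.val this
  obtain ⟨e, c, hc0, hcq, heF, he⟩ := rat_vectors hF hq hc hst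
  have hσc : sg hF c⁻¹ = c⁻¹ := by rw [map_inv₀, sg_apply, hcq]
  obtain ⟨m, hm0, hm⟩ := AschAdj.norm_surj' (sg_inv hF) (sg_ne hF) hσc (inv_ne_zero hc0)
  rw [sg_apply] at hm
  obtain ⟨T, hT, hTe⟩ := exists_gl_of_orthonormal hF (fun i => m • ((P : Matrix (Fin 3) (Fin 3) F) *ᵥ e i)) (by
    intro i j
    rw [hermForm_smul_left, hermForm_smul_right, he, ← mul_assoc, hm]
    split_ifs
    · exact inv_mul_cancel₀ hc0
    · exact mul_zero _)
  refine ⟨T, hT, fun g hg => ?_⟩
  obtain ⟨k, a, hga⟩ := AschDescent.mem_subfieldSubgroup.1 hg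
  have hav : ∀ j i, ((((a : Matrix (Fin 3) (Fin 3) F₀).map F₀.subtype) *ᵥ e j) i) ∈ F₀ := by
    intro j i
    rw [Matrix.mulVec, dotProduct]
    refine F₀.sum_mem fun l _ => F₀.mul_mem ?_ (heF _ _)
    exact ((a : Matrix (Fin 3) (Fin 3) F₀) i l).2
  refine ⟨k, Matrix.of fun i j => m * m ^ q * hermForm 3 F q ((P : Matrix (Fin 3) (Fin 3) F) *ᵥ (((a : Matrix (Fin 3) (Fin 3) F₀).map F₀.subtype) *ᵥ e j))
    ((P : Matrix (Fin 3) (Fin 3) F) *ᵥ e i), k.ne_zero, ?_, ?_⟩
  · intro i j
    rw [Matrix.of_apply]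
    have h1 := hst _ _ (hav j) (heF i)
    rw [one_mul] at h1
    rw [mul_pow, hfix _ h1, hm, inv_pow, hcq]
  · ext i j
    have h1 : ((T⁻¹ * g * T : GL (Fin 3) F) : Matrix (Fin 3) (Fin 3) F) i j =
        hermForm 3 F q (((T⁻¹ * g * T : GL (Fin 3) F) : Matrix (Fin 3) (Fin 3) F) *ᵥ Pi.single j 1) (Pi.single i 1) := by
      rw [hermForm_single _ hq0, Matrix.mulVec_single_one]
      rfl
    have h2 : hermForm 3 F q (((T⁻¹ * g * T : GL (Fin 3) F) : Matrix (Fin 3) (Fin 3) F) *ᵥ Pi.single j 1) (Pi.single i 1) =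
        hermForm 3 F q ((T : Matrix (Fin 3) (Fin 3) F) *ᵥ (((T⁻¹ * g * T : GL (Fin 3) F) : Matrix (Fin 3) (Fin 3) F) *ᵥ Pi.single j 1))
          ((T : Matrix (Fin 3) (Fin 3) F) *ᵥ Pi.single i 1) := (hT _ _).symm
    rw [h1, h2, conj_val, gl_mulVec_inv, hTe, hTe, hga, Matrix.smul_apply, Matrix.of_apply, Matrix.smul_mulVec, Matrix.mulVec_smul,
      ← Matrix.mulVec_mulVec, gl_inv_mulVec, ← Matrix.mulVec_mulVec, hermForm_smul_left, hermForm_smul_left, hermForm_smul_right, smul_eq_mul]
    ring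

/-- An orthonormal basis in which the elements of the subfield group are multiples of real orthogonal matrices. -/
theorem rat_orth (hF : Fintype.card F = q ^ 2) (hq : Odd q) {F₀ : Subfield F} (hc : Fintype.card F = Nat.card F₀ ^ 2)
    {P : GL (Fin 3) F} (hst : IsFormRationalStructure (hermForm 3 F q) F₀ 1 P) :
    ∃ T : GL (Fin 3) F, T ∈ GU 3 F q ∧ ∀ g ∈ subfieldSubgroup F₀ P ⊓ (GU 3 F q ⊓ specialLinear (Fin 3) F), ∃ (c : F) (A : Matrix (Fin 3) (Fin 3) F), c ≠ 0 ∧
      (∀ i j, A i j ^ q = A i j) ∧ Aᵀ * A = 1 ∧ ((T⁻¹ * g * T : GL (Fin 3) F) : Matrix (Fin 3) (Fin 3) F) = c • A := by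
  obtain ⟨T, hT, hTg⟩ := rat_frame hF hq hc hst
  refine ⟨T, hT, fun g hg => ?_⟩
  obtain ⟨c, A, hc0, hA, hcA⟩ := hTg g hg.1
  have hgU := (mem_GU_iff hF).1 (conj_mem' hT hg.2).1
  have hdA : A.det ^ q = A.det := by
    have h1 : (A.map (sg hF)).det = sg hF A.det := ((sg hF).toRingHom.map_det A).symm
    have h2 : A.map (sg hF) = A := by
      ext i j
      rw [Matrix.map_apply, sg_apply, hA]
    rw [← sg_apply hF, ← h1, h2]
  have h1 : (c * c ^ q) • (Aᵀ * A) = 1 := by
    rw [hcA] at hgU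
    rw [← hgU]
    ext i j
    rw [Matrix.smul_apply, Matrix.mul_apply, Matrix.mul_apply, smul_eq_mul, Finset.mul_sum]
    refine Finset.sum_congr rfl fun k _ => ?_
    rw [Matrix.map_apply, Matrix.transpose_apply, Matrix.transpose_apply, Matrix.smul_apply, Matrix.smul_apply, smul_eq_mul, smul_eq_mul,
      sg_apply, mul_pow, hA]
    ring
  set N := c * c ^ q with hN
  have hNq : N ^ q = N := by
    rw [hN, mul_pow, ← pow_mul, ← sq, ← hF, FiniteField.pow_card, mul_comm]
  have h2 : N ^ 3 * A.det ^ 2 = 1 := by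
    have := congrArg Matrix.det h1
    rw [Matrix.det_smul, Matrix.det_mul, Matrix.det_transpose, Matrix.det_one, Fintype.card_fin] at this
    rw [sq]; exact this
  set μ := N * A.det with hμ
  have hμN : μ * μ * N = 1 := by rw [hμ]; linear_combination h2
  have hμ0 : μ ≠ 0 := by
    intro h0
    rw [h0, zero_mul, zero_mul] at hμN
    exact zero_ne_one hμN
  have hμq : μ ^ q = μ := by rw [hμ, mul_pow, hNq, hdA]
  refine ⟨c * μ, μ⁻¹ • A, mul_ne_zero hc0 hμ0, ?_, ?_, ?_⟩
  · intro i j
    rw [Matrix.smul_apply, smul_eq_mul, mul_pow, inv_pow, hμq, hA]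
  · rw [Matrix.transpose_smul, Matrix.smul_mul, Matrix.mul_smul, smul_smul]
    have h3 : μ⁻¹ * μ⁻¹ = N := by
      field_simp
      linear_combination -hμN
    rw [h3, h1]
  · rw [hcA, smul_smul, mul_assoc, mul_inv_cancel₀ hμ0, mul_one]

theorem subfield_five_not_maximal (hF : Fintype.card F = 5 ^ 2) {F₀ : Subfield F} (hc : Fintype.card F = Nat.card F₀ ^ 2)
    {P : GL (Fin 3) F} (hst : IsFormRationalStructure (hermForm 3 F 5) F₀ 1 P) {H : Subgroup (GL (Fin 3) F)}
    (hH : IsMaximalIn (GU 3 F 5 ⊓ specialLinear (Fin 3) F) H)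
    (hPH : H = subfieldSubgroup F₀ P ⊓ (GU 3 F 5 ⊓ specialLinear (Fin 3) F)) : False := by
  haveI := charP5 hF
  have h5 := five_zero hF
  obtain ⟨ψ, -, s, h, -, -, hs, hsG, hd1, hd2⟩ := data5 hF
  obtain ⟨w2, w5, w3⟩ := omega_eq h
  set w := ψ 12 with hw
  obtain ⟨T, hT, hTg⟩ := rat_orth hF (by decide) hc hst
  have hw0 : w ≠ 0 := by
    intro h0
    rw [h0] at w3
    norm_num at w3
  let R : Matrix (Fin 3) (Fin 3) F := Matrix.diagonal ![1, w, w * w]
  let R' : Matrix (Fin 3) (Fin 3) F := Matrix.diagonal ![1, w * w, w]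
  have hRR' : R * R' = 1 := by
    rw [Matrix.diagonal_mul_diagonal, ← Matrix.diagonal_one]
    congr 1
    funext i
    fin_cases i <;> simp
    · linear_combination w3
    · linear_combination w3
  let r : GL (Fin 3) F := ⟨R, R', hRR', mul_eq_one_comm.1 hRR'⟩
  have hrG : r ∈ GU 3 F 5 ⊓ specialLinear (Fin 3) F := by
    refine ⟨(mem_GU_iff hF).2 ?_, mem_sl_of_det ?_⟩
    · show Rᵀ.map (sg hF) * R = 1
      rw [Matrix.diagonal_transpose, Matrix.diagonal_map (map_zero _), Matrix.diagonal_mul_diagonal, ← Matrix.diagonal_one]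
      congr 1
      funext i
      fin_cases i <;> simp [sg_apply]
      · rw [w5]; linear_combination w3
      · linear_combination (w ^ 9 + w ^ 6 + w ^ 3 + 1) * w3
    · show R.det = 1
      rw [Matrix.det_diagonal, Fin.prod_univ_three]
      simp
      linear_combination w3
  refine inv_not_max hF hT (fun v => DA (v 0) (v 1) (v 2)) hH ?_ hrG ?_ ?_ hsG (x := ![1, 0, 0]) hd1 hd2
  · intro g hg x hx
    rw [hPH] at hg
    obtain ⟨c, A, hc0, hA, hAA, hcA⟩ := hTg g hg
    rw [hcA, Matrix.smul_mulVec]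
    exact da_smul hc0 (da_orth hA hAA hx)
  · intro x hx
    have := da_cube h (u := w) (by linear_combination w3) hx
    show DA ((R *ᵥ x) 0) ((R *ᵥ x) 1) ((R *ᵥ x) 2)
    rw [Matrix.mulVec_diagonal, Matrix.mulVec_diagonal, Matrix.mulVec_diagonal]
    simpa using this
  · intro hrH
    rw [hPH] at hrH
    obtain ⟨c, A, hc0, hA, hAA, hcA⟩ := hTg _ hrH
    have e : T⁻¹ * (T * r * T⁻¹) * T = r := by group
    rw [e] at hcA
    have m0 : R 0 0 = c * A 0 0 := congrFun (congrFun hcA 0) 0
    have m1 : R 1 1 = c * A 1 1 := congrFun (congrFun hcA 1) 1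
    have e0 : R 0 0 = 1 := rfl
    have e1 : R 1 1 = w := rfl
    rw [e0] at m0
    rw [e1] at m1
    have h1 : w * A 0 0 = A 1 1 := by
      rw [m1]; linear_combination -(A 1 1) * m0
    have h2 : w ^ 5 * A 0 0 = A 1 1 := by
      have := congrArg (fun z => z ^ 5) h1
      simp only [mul_pow, hA] at this
      exact this
    have hA0 : A 0 0 ≠ 0 := by
      intro h0
      rw [h0, mul_zero] at m0
      exact one_ne_zero m0
    have h3 : w ^ 5 = w := mul_right_cancel₀ hA0 (h2.trans h1.symm)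
    rw [w5] at h3
    have h4 : w = 1 := by
      have : w * (w - 1) = 0 := by linear_combination h3
      exact sub_eq_zero.1 ((mul_eq_zero.1 this).resolve_left hw0)
    rw [h4] at w2
    have h6 : (1 : F) = 0 := by linear_combination 2 * w2 - h5
    exact one_ne_zero h6

lemma three_cases (h3 : (3 : F) = 0) {x : F} (hx : x ^ 3 = x) : x = 0 ∨ x * x = 1 := by
  have h : x * (x * x - 1) = 0 := by linear_combination hx
  rcases mul_eq_zero.1 h with h | h
  · exact Or.inl h
  · exact Or.inr (sub_eq_zero.1 h)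

theorem subfield_three (hF : Fintype.card F = 3 ^ 2) {F₀ : Subfield F} (hc : Fintype.card F = Nat.card F₀ ^ 2)
    {P : GL (Fin 3) F} (hst : IsFormRationalStructure (hermForm 3 F 3) F₀ 1 P) {H : Subgroup (GL (Fin 3) F)}
    (hH : IsMaximalIn (GU 3 F 3 ⊓ specialLinear (Fin 3) F) H)
    (hPH : H = subfieldSubgroup F₀ P ⊓ (GU 3 F 3 ⊓ specialLinear (Fin 3) F)) :
    ∃ D : Fin 3 → Submodule F (Fin 3 → F), IsNondegenerateMDecomposition (hermForm 3 F 3) 1 D ∧
      H = decompositionStabilizer D ⊓ (GU 3 F 3 ⊓ specialLinear (Fin 3) F) := by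
  haveI : CharP F 3 := charP_of (by norm_num) hF
  have h3 : (3 : F) = 0 := by
    have := CharP.cast_eq_zero F 3
    exact_mod_cast this
  obtain ⟨T, hT, hTg⟩ := rat_orth hF (by decide) hc hst
  have hT1 : ∀ i j, hermForm 3 F 3 ((T : Matrix (Fin 3) (Fin 3) F) *ᵥ Pi.single i 1) ((T : Matrix (Fin 3) (Fin 3) F) *ᵥ Pi.single j 1) =
      if i = j then 1 else 0 := by
    intro i j
    have : hermForm 3 F 3 ((T : Matrix (Fin 3) (Fin 3) F) *ᵥ Pi.single i 1) ((T : Matrix (Fin 3) (Fin 3) F) *ᵥ Pi.single j 1) =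
      hermForm 3 F 3 (Pi.single i 1) (Pi.single j 1) := hT _ _
    rw [this, hermForm_single _ (by norm_num), Pi.single_apply]
    simp only [eq_comm]
  have hD := UnNot.decomp_of_orthonormal hF (by norm_num) _ hT1
  refine ⟨_, hD, ?_⟩
  set D : Fin 3 → Submodule F (Fin 3 → F) := fun i => F ∙ ((T : Matrix (Fin 3) (Fin 3) F) *ᵥ Pi.single i 1) with hDd
  have hle : H ≤ decompositionStabilizer D ⊓ (GU 3 F 3 ⊓ specialLinear (Fin 3) F) := by
    refine le_inf (fun g hg => ?_) hH.1.le
    rw [hPH] at hg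
    obtain ⟨c, A, hc0, hA, hAA, hcA⟩ := hTg g hg
    apply UnNot.mem_decomposition_of hD.decomp
    intro j
    -- the column `j` of `A` has one nonzero entry
    have hcol : ∃ i, ∀ l, l ≠ i → A l j = 0 := by
      have h1 := congrFun (congrFun hAA j) j
      rw [Matrix.mul_apply, Fin.sum_univ_three, Matrix.one_apply_eq, Matrix.transpose_apply, Matrix.transpose_apply, Matrix.transpose_apply] at h1
      have h1ne : (1 : F) ≠ 0 := one_ne_zero
      rcases three_cases h3 (hA 0 j) with a0 | a0 <;> rcases three_cases h3 (hA 1 j) with a1 | a1 <;>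
        rcases three_cases h3 (hA 2 j) with a2 | a2
      · refine ⟨0, fun l hl => ?_⟩
        fin_cases l
        · exact absurd rfl hl
        · exact a1
        · exact a2
      · refine ⟨2, fun l hl => ?_⟩
        fin_cases l
        · exact a0
        · exact a1
        · exact absurd rfl hl
      · refine ⟨1, fun l hl => ?_⟩
        fin_cases l
        · exact a0
        · exact absurd rfl hl
        · exact a2
      · exfalso
        rw [a0, a1, a2] at h1
        exact h1ne (by linear_combination h1)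
      · refine ⟨0, fun l hl => ?_⟩
        fin_cases l
        · exact absurd rfl hl
        · exact a1
        · exact a2
      · exfalso
        rw [a0, a1, a2] at h1
        exact h1ne (by linear_combination h1)
      · exfalso
        rw [a0, a1, a2] at h1
        exact h1ne (by linear_combination h1)
      · exfalso
        rw [a0, a1, a2] at h1
        exact h1ne (by linear_combination -h1 + h3)
    obtain ⟨i, hi⟩ := hcol
    refine ⟨i, ?_⟩
    rw [Submodule.map_le_iff_le_comap, Submodule.span_singleton_le_iff_mem, Submodule.mem_comap, Matrix.toLin'_apply]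
    have h1 : (g : Matrix (Fin 3) (Fin 3) F) *ᵥ ((T : Matrix (Fin 3) (Fin 3) F) *ᵥ Pi.single j 1) =
        (c * A i j) • ((T : Matrix (Fin 3) (Fin 3) F) *ᵥ Pi.single i 1) := by
      have h2 : ((T⁻¹ * g * T : GL (Fin 3) F) : Matrix (Fin 3) (Fin 3) F) *ᵥ Pi.single j 1 = (c * A i j) • Pi.single i 1 := by
        rw [hcA, Matrix.mulVec_single_one]
        funext l
        show c * A l j = (c * A i j) * (Pi.single i 1 : Fin 3 → F) l
        rw [Pi.single_apply]
        split_ifs with hl
        · rw [hl, mul_one]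
        · rw [hi l hl, mul_zero, mul_zero]
      rw [← Matrix.mulVec_smul, ← h2, conj_val, gl_mulVec_inv]
    rw [h1]
    exact Submodule.smul_mem _ _ (Submodule.mem_span_singleton_self _)
  rcases hH.2 _ hle inf_le_right with h | h
  · exact h.symm
  · exact (UnNot.su_not_one_decomposition hF (Or.inr ⟨rfl, le_refl 3⟩) hD (by
      rw [← h]; exact inf_le_left)).elim

end

end Cfsg.Agent.Lib.SU3
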