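import Cfsg.Agent.Lib.UnExM
set_option autoImplicit false
set_option linter.style.haveILetI false
set_option linter.unusedVariables false
set_option linter.unusedSectionVars false

/-!
Arithmetic tables for the fields with nine and twenty-five elements.
-/

namespace Cfsg.Agent.Lib.SU3

open Cfsg

/-- Addition of codes. -/
def fa (p x y : ℕ) : ℕ := (x + y) % p + p * ((x / p + y / p) % p)
/-- Multiplication of codes. -/
def fm (p x y : ℕ) : ℕ := (x % p * (y % p) + 2 * (x / p * (y / p))) % p + p * ((x % p * (y / p) + x / p * (y % p)) % p)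
/-- Conjugation of codes. -/
def fc (p x : ℕ) : ℕ := x % p + p * ((p - x / p % p) % p)

/-- Coordinates on a field with `p ^ 2` elements. -/
structure Tab (p : ℕ) {F : Type*} [Field F] (ψ : ℕ → F) : Prop where
  inj : ∀ x < p ^ 2, ∀ y < p ^ 2, ψ x = ψ y → x = y
  surj : ∀ a : F, ∃ x < p ^ 2, ψ x = a
  nat : ∀ n < p, ψ n = n
  add : ∀ x y, ψ (fa p x y) = ψ x + ψ y
  mul : ∀ x y, ψ (fm p x y) = ψ x * ψ y
  conj : ∀ x, ψ (fc p x) = ψ x ^ p

section
variable {p : ℕ}

lemma pair_lt {a b : ℕ} (hp : 0 < p) : a % p + p * (b % p) < p ^ 2 := by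
  have h1 := Nat.mod_lt a hp
  have h2 := Nat.mod_lt b hp
  nlinarith

lemma fa_lt (hp : 0 < p) (x y : ℕ) : fa p x y < p ^ 2 := pair_lt hp
lemma fm_lt (hp : 0 < p) (x y : ℕ) : fm p x y < p ^ 2 := pair_lt hp
lemma fc_lt (hp : 0 < p) (x : ℕ) : fc p x < p ^ 2 := pair_lt hp

lemma pair_mod {a b : ℕ} (hp : 0 < p) : (a % p + p * (b % p)) % p = a % p := by
  rw [Nat.add_mul_mod_self_left, Nat.mod_mod]

lemma pair_div {a b : ℕ} (hp : 0 < p) : (a % p + p * (b % p)) / p = b % p := by
  rw [Nat.add_mul_div_left _ _ hp, Nat.div_eq_of_lt (Nat.mod_lt _ hp), zero_add]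

variable {F : Type*} [Field F] [Fintype F]

lemma charP_of (hp : p.Prime) (hF : Fintype.card F = p ^ 2) : CharP F p := by
  obtain ⟨r, hr⟩ := CharP.exists F
  haveI := hr
  obtain ⟨n, hrp, hcard⟩ := FiniteField.card F r
  have h1 : r ∣ p ^ 2 := by rw [← hF, hcard]; exact dvd_pow_self r n.pos.ne'
  have h2 : r = p := (Nat.prime_dvd_prime_iff_eq hrp hp).1 (hrp.dvd_of_dvd_pow h1)
  rw [h2] at hr; exact hr

lemma exists_theta (hp : p = 3 ∨ p = 5) (hF : Fintype.card F = p ^ 2) : ∃ θ : F, θ * θ = 2 := by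
  have hpp : p.Prime := by rcases hp with rfl | rfl <;> norm_num
  haveI := charP_of hpp hF
  have hp0 : (p : F) = 0 := CharP.cast_eq_zero F p
  have h2 : (2 : F) ≠ 0 := by
    intro h
    have h1 : ((2 : ℕ) : F) = 0 := by exact_mod_cast h
    rw [CharP.cast_eq_zero_iff F p] at h1
    rcases hp with rfl | rfl <;> omega
  have hchar : ringChar F ≠ 2 := by
    rw [ringChar.eq F p]
    rcases hp with rfl | rfl <;> norm_num
  have h3 := (FiniteField.isSquare_iff hchar h2).2 (by
    rcases hp with rfl | rfl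
    · rw [hF]
      norm_num at hp0 ⊢
      linear_combination 5 * hp0
    · rw [hF]
      norm_num at hp0 ⊢
      linear_combination 819 * hp0)
  obtain ⟨θ, hθ⟩ := h3
  exact ⟨θ, hθ.symm⟩

theorem exists_tab (hp : p = 3 ∨ p = 5) (hF : Fintype.card F = p ^ 2) : ∃ ψ : ℕ → F, Tab p ψ := by
  have hpp : p.Prime := by rcases hp with rfl | rfl <;> norm_num
  haveI : Fact p.Prime := ⟨hpp⟩
  haveI := charP_of hpp hF
  have hppos := hpp.pos
  have hp0 : (p : F) = 0 := CharP.cast_eq_zero F p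
  have hmod : ∀ a : ℕ, ((a % p : ℕ) : F) = (a : F) := fun a => CharP.cast_eq_mod F p a |>.symm
  obtain ⟨θ, hθ⟩ := exists_theta hp hF
  have hθp : θ ^ p = -θ := by
    rcases hp with rfl | rfl
    · have h3 : (3 : F) = 0 := by exact_mod_cast hp0
      linear_combination θ * hθ + θ * h3
    · have h5 : (5 : F) = 0 := by exact_mod_cast hp0
      linear_combination θ * (θ * θ + 2) * hθ + θ * h5
  have h2 : (2 : F) ≠ 0 := by
    intro h
    have h1 : ((2 : ℕ) : F) = 0 := by exact_mod_cast h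
    rw [CharP.cast_eq_zero_iff F p] at h1
    rcases hp with rfl | rfl <;> omega
  have hθ0 : θ ≠ 0 := by
    rintro rfl
    apply h2
    rw [← hθ, mul_zero]
  -- the fixed field
  have hfix : ∀ x : F, x ^ p = x → ∃ n < p, (n : F) = x := by
    intro x hx
    rcases hp with rfl | rfl
    · have h3 : (3 : F) = 0 := by exact_mod_cast hp0
      have h : x * ((x - 1) * (x - 2)) = 0 := by linear_combination hx + (-x ^ 2 + x) * h3
      rcases mul_eq_zero.1 h with h | h
      · exact ⟨0, by norm_num, by rw [h]; norm_num⟩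
      rcases mul_eq_zero.1 h with h | h
      · exact ⟨1, by norm_num, by rw [sub_eq_zero.1 h]; norm_num⟩
      · exact ⟨2, by norm_num, by rw [sub_eq_zero.1 h]; norm_num⟩
    · have h5 : (5 : F) = 0 := by exact_mod_cast hp0
      have h : x * ((x - 1) * ((x - 2) * ((x - 3) * (x - 4)))) = 0 := by
        linear_combination hx + (-2 * x ^ 4 + 7 * x ^ 3 - 10 * x ^ 2 + 5 * x) * h5
      rcases mul_eq_zero.1 h with h | h
      · exact ⟨0, by norm_num, by rw [h]; norm_num⟩
      rcases mul_eq_zero.1 h with h | h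
      · exact ⟨1, by norm_num, by rw [sub_eq_zero.1 h]; norm_num⟩
      rcases mul_eq_zero.1 h with h | h
      · exact ⟨2, by norm_num, by rw [sub_eq_zero.1 h]; norm_num⟩
      rcases mul_eq_zero.1 h with h | h
      · exact ⟨3, by norm_num, by rw [sub_eq_zero.1 h]; norm_num⟩
      · exact ⟨4, by norm_num, by rw [sub_eq_zero.1 h]; norm_num⟩
  have hcast : ∀ n : ℕ, (n : F) ^ p = n := by
    intro n
    have := map_natCast (frobenius F p) n
    rwa [frobenius_def] at this
  have hadd : ∀ x y : F, (x + y) ^ p = x ^ p + y ^ p := fun x y => add_pow_char x y p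
  have hodd : Odd p := by rcases hp with rfl | rfl <;> decide
  set ψ : ℕ → F := fun x => (x : F) + ((x / p : ℕ) : F) * θ with hψ
  have hpair : ∀ a b : ℕ, ψ (a % p + p * (b % p)) = (a : F) + (b : F) * θ := by
    intro a b
    rw [hψ]
    simp only
    rw [pair_div hppos, hmod b, Nat.cast_add, Nat.cast_mul, hp0, zero_mul, add_zero, hmod a]
  have hψm : ∀ x, ψ x = ((x % p : ℕ) : F) + ((x / p : ℕ) : F) * θ := by
    intro x
    rw [hmod]
  have hsurj : ∀ a : F, ∃ x < p ^ 2, ψ x = a := by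
    intro a
    obtain ⟨m, hm, hm'⟩ := hfix ((a + a ^ p) / 2) (by
      rw [div_pow, hadd, ← pow_mul, ← sq, ← hF, FiniteField.pow_card]
      have : (2 : F) ^ p = 2 := by have := hcast 2; exact_mod_cast this
      rw [this, add_comm])
    obtain ⟨n, hn, hn'⟩ := hfix ((a - a ^ p) / (2 * θ)) (by
      rw [div_pow, sub_eq_add_neg, hadd, hodd.neg_pow, ← pow_mul, ← sq, ← hF, FiniteField.pow_card, mul_pow, hθp]
      have : (2 : F) ^ p = 2 := by have := hcast 2; exact_mod_cast this
      rw [this]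
      field_simp
      ring)
    refine ⟨m + p * n, by nlinarith, ?_⟩
    have := hpair m n
    rw [Nat.mod_eq_of_lt hm, Nat.mod_eq_of_lt hn] at this
    rw [this, hm', hn']
    field_simp
    ring
  refine ⟨ψ, ?_, hsurj, ?_, ?_, ?_, ?_⟩
  · -- injectivity by counting
    let f : Fin (p ^ 2) → F := fun x => ψ x
    have hfs : Function.Surjective f := by
      intro a
      obtain ⟨x, hx, h⟩ := hsurj a
      exact ⟨⟨x, hx⟩, h⟩
    have hfi : Function.Injective f := ((Fintype.bijective_iff_surjective_and_card f).2 ⟨hfs, by rw [hF, Fintype.card_fin]⟩).1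
    intro x hx y hy hxy
    have := @hfi ⟨x, hx⟩ ⟨y, hy⟩ hxy
    exact congrArg Fin.val this
  · intro n hn
    rw [hψ]
    simp only
    rw [Nat.div_eq_of_lt hn, Nat.cast_zero, zero_mul, add_zero]
  · intro x y
    rw [fa, hpair, hψ]
    simp only
    push_cast
    ring
  · intro x y
    rw [fm, hpair, hψm x, hψm y]
    simp only [Nat.cast_add, Nat.cast_mul, Nat.cast_ofNat]
    linear_combination (-((x / p : ℕ) : F) * ((y / p : ℕ) : F)) * hθ
  · intro x
    have h1 : x % p + p * ((p - x / p % p) % p) = x % p % p + p * ((p - x / p % p) % p) := by rw [Nat.mod_mod]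
    rw [fc, hpair, hψm x, hadd, mul_pow, hcast, hcast, hθp, Nat.cast_sub (Nat.mod_lt _ hppos).le, hmod (x / p), hp0, hmod]
    ring

variable {ψ : ℕ → F}

omit [Fintype F] in
lemma Tab.eq_iff (h : Tab p ψ) {x y : ℕ} (hx : x < p ^ 2) (hy : y < p ^ 2) : ψ x = ψ y ↔ x = y :=
  ⟨h.inj x hx y hy, fun h' => by rw [h']⟩

omit [Fintype F] in
lemma Tab.zero (h : Tab p ψ) (hp : 0 < p) : ψ 0 = 0 := by
  have := h.nat 0 hp
  simpa using this

omit [Fintype F] in
lemma Tab.eq_zero_iff (h : Tab p ψ) (hp : 0 < p) {x : ℕ} (hx : x < p ^ 2) : ψ x = 0 ↔ x = 0 := by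
  rw [← h.zero hp, h.eq_iff hx (by positivity)]

end

end Cfsg.Agent.Lib.SU3
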