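import Mathlib
import Cfsg.Agent.Lib.OrthExtH94
import Cfsg.Agent.Lib.UnMax

set_option autoImplicit false
set_option linter.unusedSectionVars false
set_option linter.unusedSimpArgs false

/-!
Overgroups of an orthogonal group over the fixed field inside a unitary group (odd characteristic).
-/

namespace Cfsg.Agent.Lib.SURealH94

open QuadraticMap Module Cfsg.Agent.Lib.OrthMax Cfsg.Agent.Lib.OrthPoint Cfsg.Agent.Lib.OrthExtH94
open Cfsg.Agent.Lib.SpTrans (isom mem_isom)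
open Cfsg.Agent.Lib.UnTrans Cfsg.Agent.Lib.UnMax
open Cfsg.Agent.Lib.Quad (O Om O_polar siegMap siegMap_apply GenHyp Om_le sieg_apply Q_add Q_sub Q_smul polar_self')

variable {F₀ V₀ F V : Type*} [Field F₀] [AddCommGroup V₀] [Module F₀ V₀] [FiniteDimensional F₀ V₀]
  [Field F] [AddCommGroup V] [Module F V] [FiniteDimensional F V]

/-- a subspace invariant under all Siegel maps is trivial -/
theorem sieg_irred [Finite F₀] {Q : QuadraticForm F₀ V₀} (hQ : Quad.Nd Q) (hgen : GenHyp Q)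
    (hn : 5 ≤ finrank F₀ V₀) {U : Submodule F₀ V₀}
    (hinv : ∀ a b, Q a = 0 → polar Q a b = 0 → ∀ u ∈ U, siegMap Q a b u ∈ U) (h0 : U ≠ ⊥) : U = ⊤ := by
  by_contra h1
  obtain ⟨g, hg, w, hw, hgw⟩ := OrthMax.exists_move hQ hgen (by omega) h0 h1
  apply hgw
  rw [hQ.Om_eq_Sg hgen (by omega)] at hg
  have hmap : ∀ t : V₀ ≃ₗ[F₀] V₀, (∀ u ∈ U, t u ∈ U) → ∀ u ∈ U, t⁻¹ u ∈ U := by
    intro t ht u hu
    have h2 : U.map t.toLinearMap = U := by
      apply Submodule.eq_of_le_of_finrank_eq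
      · rintro _ ⟨x, hx, rfl⟩; exact ht x hx
      · exact LinearEquiv.finrank_map_eq t U
    rw [← h2] at hu
    obtain ⟨x, hx, rfl⟩ := hu
    have : t⁻¹ (t.toLinearMap x) = x := by
      show (t⁻¹ * t) x = x
      rw [inv_mul_cancel]; rfl
    rw [this]; exact hx
  refine Subgroup.closure_induction (p := fun t _ => ∀ u ∈ U, t u ∈ U) ?_ ?_ ?_ ?_ hg w hw
  · rintro _ ⟨z, y, hz, hzy, rfl⟩ u hu
    have := hinv z y hz hzy u hu
    rw [siegMap_apply] at this
    rw [sieg_apply]; exact this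
  · intro u hu; exact hu
  · intro a b _ _ ha hb u hu
    exact ha _ (hb u hu)
  · intro a _ ha
    exact hmap a ha

/-- `rho e u c` with its inverse -/
theorem rhoIn_neg {σ : F →+* F} {f : V → V → F} (H : HS σ f) {M : Subgroup (V ≃ₗ[F] V)} {e u : V} {c : F}
    (hee : f e e = 0) (heu : f u e = 0) (h : RhoIn f M e u c) : RhoIn f M e (-u) (-c - f u u) := by
  obtain ⟨t, ht, htx⟩ := h
  refine ⟨t⁻¹, inv_mem ht, fun x => ?_⟩
  apply t.injective
  rw [← LinearEquiv.mul_apply, mul_inv_cancel, htx, rho, rho]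
  show x = _
  have heu' : f e u = 0 := H.symm_zero heu
  simp only [H.add_left, H.sub_left, H.smul_left, H.neg_left, H.neg_right, hee, heu, heu', smul_neg]
  module

theorem rhoIn_map {f : V → V → F} {M : Subgroup (V ≃ₗ[F] V)}
    (hM : M ≤ isom f) {e u : V} {c : F} (h : RhoIn f M e u c) {g : V ≃ₗ[F] V} (hg : g ∈ M) :
    RhoIn f M (g e) (g u) c := by
  obtain ⟨t, ht, htx⟩ := h
  refine ⟨g * t * g⁻¹, mul_mem (mul_mem hg ht) (inv_mem hg), fun x => ?_⟩
  obtain ⟨x, rfl⟩ := g.surjective x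
  have : (g * t * g⁻¹) (g x) = g (t x) := by
    show (g * t * g⁻¹ * g) x = _
    rw [inv_mul_cancel_right]; rfl
  rw [this, htx, rho, rho, hM hg, hM hg, map_add, map_sub, map_add, LinearEquiv.map_smul,
    LinearEquiv.map_smul, LinearEquiv.map_smul]

/-- all isotropic vectors are centres once one root group is full -/
theorem cen_all {σ : F →+* F} {f : V → V → F} (H : HS σ f) (hnd : UnTrans.Nd f (⊤ : Submodule F V))
    {M : Subgroup (V ≃ₗ[F] V)} (hM : M ≤ isom f) {e e' : V} (hee : f e e = 0)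
    (hR : ∀ u, f u e = 0 → ∃ c, c + σ c + f u u = 0 ∧ RhoIn f M e u c) (hec : e ∈ cen H M)
    (he' : e' ∈ cen H M) (h : f e' e ≠ 0) : ∀ z, f z z = 0 → z ∈ cen H M := by
  have he0 : e ≠ 0 := by rintro rfl; exact h (H.zero_right _)
  have hR' : ∀ u c, f u e = 0 → c + σ c + f u u = 0 → RhoIn f M e u c := by
    intro u c hu hc
    obtain ⟨c', hc', h1⟩ := hR u hu
    have h2 : RhoIn f M e 0 (c - c') := by
      have h3 : (c - c') + σ (c - c') = 0 := by rw [map_sub]; linear_combination hc - hc'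
      refine ⟨tv H e hee (c - c') h3, hec.2 _ _ _, fun x => ?_⟩
      rw [tv_apply, rho, H.zero_right]; simp
    have h4 := rhoIn_comp H hee hu (H.zero_left e) h1 h2
    rw [add_zero, H.zero_left, sub_zero] at h4
    have e1 : c' + (c - c') = c := by ring
    rwa [e1] at h4
  have key : ∀ z, f z z = 0 → f z e ≠ 0 → z ∈ cen H M := by
    intro z hz hze
    obtain ⟨μ, hμ⟩ : ∃ μ, μ = f e' e := ⟨_, rfl⟩
    rw [← hμ] at h
    obtain ⟨z', hz'⟩ : ∃ z', z' = (μ / f z e) • z := ⟨_, rfl⟩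
    have hz'e : f z' e = μ := by rw [hz', H.smul_left, div_mul_cancel₀ _ hze]
    have hz'z' : f z' z' = 0 := by rw [hz', H.smul_left, H.smul_right, hz]; ring
    have hσμ : σ μ ≠ 0 := H.sigma_ne h
    have he'e' := he'.1
    obtain ⟨u, hu⟩ : ∃ u, u = μ⁻¹ • (z' - e') := ⟨_, rfl⟩
    have hue : f u e = 0 := by rw [hu, H.smul_left, H.sub_left, hz'e, ← hμ, sub_self, mul_zero]
    have he'u : f e' u = (σ μ)⁻¹ * f e' z' := by
      rw [hu, H.smul_right, map_inv₀, H.sub_right, he'e', sub_zero]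
    have hc : f e' u / μ + σ (f e' u / μ) + f u u = 0 := by
      have h1 : f u u = μ⁻¹ * (σ μ)⁻¹ * (-f z' e' - f e' z') := by
        rw [hu, H.smul_left, H.smul_right, map_inv₀, H.sub_left, H.sub_right, H.sub_right, hz'z', he'e']
        ring
      rw [h1, he'u, map_div₀, map_mul, map_inv₀, H.inv, ← H.herm z' e']
      field_simp
      ring
    obtain ⟨t, ht, htx⟩ := hR' u _ hue hc
    have h1 : t e' = z' := by
      rw [htx, rho, ← hμ, div_mul_cancel₀ _ h]
      have : μ • u = z' - e' := by rw [hu, smul_smul, mul_inv_cancel₀ h, one_smul]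
      rw [this]; abel
    have h2 := cen_map hM he' ht
    rw [h1, hz'] at h2
    exact cen_of_smul (div_ne_zero h hze) h2
  intro z hz
  by_cases hze : f z e = 0
  · by_cases hz0 : z = 0
    · rw [hz0]; exact cen_zero
    obtain ⟨y₀, -, hey, hzy⟩ := H.exists_common hnd (u := e) (v := z) trivial trivial he0 hz0
    obtain ⟨a, ha⟩ := H.exists_add_norm hee hey (map_zero _)
    obtain ⟨y, hy⟩ : ∃ y, y = y₀ + a • e := ⟨_, rfl⟩
    rw [← hy] at ha
    have hez : f e z = 0 := H.symm_zero hze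
    have h1 : f y e ≠ 0 := by
      rw [hy, H.add_left, H.smul_left, hee, mul_zero, add_zero]; exact H.symm_ne hey
    have h2 : f y z ≠ 0 := by
      rw [hy, H.add_left, H.smul_left, hez, mul_zero, add_zero]; exact H.symm_ne hzy
    have hyc := key y ha h1
    obtain ⟨τ, hτ0, hτ⟩ := H.exists_tr0
    obtain ⟨b, hb⟩ : ∃ b, b = τ / f y z := ⟨_, rfl⟩
    have hb0 : b ≠ 0 := by rw [hb]; exact div_ne_zero hτ0 h2
    have h3 : f (z + b • y) (z + b • y) = 0 := by
      rw [H.expand, hz, ha, hb, div_mul_cancel₀ _ h2, hτ]; ring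
    have h4 := key _ h3 (by
      rw [H.add_left, H.smul_left, hze, zero_add]; exact mul_ne_zero hb0 h1)
    have h5 := cen_add hM hyc h4 (c := -b) (by
      rw [H.add_right, H.smul_right, ha, mul_zero, add_zero]; exact h2) (by
      have : z + b • y + -b • y = z := by module
      rw [this, hz])
    have : z + b • y + -b • y = z := by module
    rwa [this] at h5
  · exact key z hz hze

/-- a rational structure carrying a symmetric form -/
structure RS (σ : F →+* F) (h : V → V → F) (ι : F₀ →+* F) (Q : QuadraticForm F₀ V₀) (j : V₀ → V)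
    (δ : F) : Prop where
  hs : HS σ h
  nd : UnTrans.Nd h (⊤ : Submodule F V)
  nQ : Quad.Nd Q
  δ0 : δ ≠ 0
  sδ : σ δ = -δ
  sι : ∀ b, σ (ι b) = ι b
  two : (2 : F₀) ≠ 0
  dec : ∀ a : F, ∃ b c : F₀, a = ι b + ι c * δ
  jadd : ∀ x y, j (x + y) = j x + j y
  jsmul : ∀ (c : F₀) (x : V₀), j (c • x) = ι c • j x
  form : ∀ x y, h (j x) (j y) = ι (polar Q x y)
  span : ∀ v, ∃ x y, v = j x + δ • j y

namespace RS
variable {σ : F →+* F} {h : V → V → F} {ι : F₀ →+* F} {Q : QuadraticForm F₀ V₀} {j : V₀ → V} {δ : F}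
  (R : RS σ h ι Q j δ) {M : Subgroup (V ≃ₗ[F] V)}
include R

theorem jzero : j 0 = 0 := by
  have := R.jsmul 0 0; simpa using this

theorem jneg (x : V₀) : j (-x) = -j x := by
  have := R.jsmul (-1) x; simpa using this

theorem jsub (x y : V₀) : j (x - y) = j x - j y := by
  rw [sub_eq_add_neg, R.jadd, R.jneg, sub_eq_add_neg]

theorem twoF : (2 : F) ≠ 0 := by
  have h1 : ι 2 ≠ 0 := (map_ne_zero ι).2 R.two
  rwa [map_ofNat] at h1

theorem uniqF {b c : F₀} (hbc : ι b + ι c * δ = 0) : b = 0 ∧ c = 0 := by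
  have h1 : ι b - ι c * δ = 0 := by
    have := congrArg σ hbc
    rw [map_add, map_mul, R.sι, R.sι, R.sδ, map_zero] at this
    linear_combination this
  have h2 : 2 * ι b = 0 := by linear_combination hbc + h1
  have h3 : 2 * (ι c * δ) = 0 := by linear_combination hbc - h1
  have h4 := (mul_eq_zero.1 h2).resolve_left R.twoF
  have h5 := (mul_eq_zero.1 ((mul_eq_zero.1 h3).resolve_left R.twoF)).resolve_right R.δ0
  exact ⟨(map_eq_zero ι).1 h4, (map_eq_zero ι).1 h5⟩

theorem h_left (x y z : V₀) : h (j x + δ • j y) (j z) = ι (polar Q x z) + ι (polar Q y z) * δ := by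
  rw [R.hs.add_left, R.hs.smul_left, R.form, R.form]; ring

theorem perp_iff {x y z : V₀} : h (j x + δ • j y) (j z) = 0 ↔ polar Q x z = 0 ∧ polar Q y z = 0 := by
  rw [R.h_left]
  constructor
  · exact fun h1 => R.uniqF h1
  · rintro ⟨h1, h2⟩; rw [h1, h2]; simp

theorem uniq {x y : V₀} (hxy : j x + δ • j y = 0) : x = 0 ∧ y = 0 := by
  have h1 : ∀ z, polar Q x z = 0 ∧ polar Q y z = 0 := by
    intro z
    rw [← R.perp_iff, hxy, R.hs.zero_left]
  exact ⟨R.nQ.eq_zero fun z => (h1 z).1, R.nQ.eq_zero fun z => (h1 z).2⟩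

theorem jinj {x y : V₀} (hxy : j x = j y) : x = y := by
  have h1 : j (x - y) + δ • j 0 = 0 := by rw [R.jsub, hxy, R.jzero]; simp
  exact sub_eq_zero.1 (R.uniq h1).1

theorem j0 {x : V₀} (hx : x ≠ 0) : j x ≠ 0 := by
  intro h0
  exact hx (R.jinj (h0.trans R.jzero.symm))

theorem iso {x : V₀} (hx : Q x = 0) : h (j x) (j x) = 0 := by
  rw [R.form, polar_self', hx, mul_zero, map_zero]

theorem tr0 {a : F} (ha : a + σ a = 0) : ∃ c, a = ι c * δ := by
  obtain ⟨b, c, rfl⟩ := R.dec a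
  refine ⟨c, ?_⟩
  rw [map_add, map_mul, R.sι, R.sι, R.sδ] at ha
  have h2 : 2 * ι b = 0 := by linear_combination ha
  rw [(mul_eq_zero.1 h2).resolve_left R.twoF, zero_add]

/-- Siegel elements as Eichler elements -/
theorem rho_of (hO : ∀ a b, Q a = 0 → polar Q a b = 0 → ∃ t ∈ M, ∀ x, t (j x) = j (siegMap Q a b x))
    {a b : V₀} (ha : Q a = 0) (hab : polar Q a b = 0) : RhoIn h M (j a) (j b) (-ι (Q b)) := by
  obtain ⟨t, ht, htx⟩ := hO a b ha hab
  refine ⟨t, ht, fun w => ?_⟩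
  have h1 : ∀ x, t (j x) = rho h (j a) (j b) (-ι (Q b)) (j x) := by
    intro x
    rw [htx, siegMap_apply, rho, R.jsub, R.jsub, R.jadd, R.jsmul, R.jsmul, R.jsmul, R.form, R.form,
      polar_comm Q x a, polar_comm Q x b, map_mul]
    module
  obtain ⟨x, y, rfl⟩ := R.span w
  rw [map_add, LinearEquiv.map_smul, h1, h1]
  simp only [rho, R.hs.add_left, R.hs.smul_left]
  module

variable [Finite F₀] (hM : M ≤ isom h)
  (hO : ∀ a b, Q a = 0 → polar Q a b = 0 → ∃ t ∈ M, ∀ x, t (j x) = j (siegMap Q a b x))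
  (hn : 13 ≤ finrank F₀ V₀)
include hM hO hn

theorem cen_move {v v' : V₀} (hv : Q v = 0) (hv' : Q v' = 0) (hv0 : v ≠ 0) (hv'0 : v' ≠ 0)
    (hc : j v ∈ cen R.hs M) : j v' ∈ cen R.hs M := by
  obtain ⟨a, ha, -, h1, h2, -⟩ := exists_sing_gen R.nQ ⊥ ⊥ (y₁ := v) (y₂ := v') (by simpa using hv0)
    (by simpa using hv'0) 2 (by
      have h3 := finrank_sup_le ⊥ (Submodule.span F₀ {v, v'})
      have h5 := finrank_pair_le (F := F₀) v v'
      rw [finrank_bot] at h3
      omega) (by omega) (by rw [finrank_bot]; omega)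
  obtain ⟨μ, hμ⟩ : ∃ μ, μ = polar Q a v := ⟨_, rfl⟩
  rw [← hμ] at h1
  obtain ⟨w, hw⟩ : ∃ w, w = (μ / polar Q a v') • v' := ⟨_, rfl⟩
  have haw : polar Q a w = μ := by rw [hw, polar_smul_right, smul_eq_mul, div_mul_cancel₀ _ h2]
  have hQw : Q w = 0 := by rw [hw, Q_smul, hv', mul_zero]
  have hay : polar Q a (μ⁻¹ • (w - v)) = 0 := by
    rw [polar_smul_right, polar_sub_right, haw, ← hμ, sub_self, smul_zero]
  obtain ⟨t, ht, htx⟩ := hO a (μ⁻¹ • (w - v)) ha hay
  have h3 : t (j v) = j w := by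
    rw [htx, siegMap_apply, ← hμ, Q_smul, Q_sub, hQw, hv, polar_smul_left, polar_sub_left, polar_self', hv,
      smul_smul, mul_inv_cancel₀ h1]
    have e1 : μ⁻¹ * μ⁻¹ * (0 + 0 - polar Q w v) * μ = -(μ⁻¹ * polar Q w v) := by
      field_simp; ring
    rw [e1]
    congr 1
    simp only [smul_eq_mul]
    module
  have h4 := cen_map hM hc ht
  rw [h3, hw, R.jsmul] at h4
  exact cen_of_smul ((map_ne_zero ι).2 (div_ne_zero h1 h2)) h4

theorem rho_full (hcen : ∀ v, Q v = 0 → j v ∈ cen R.hs M) {v : V₀} (hv : Q v = 0) :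
    ∀ u, h u (j v) = 0 → ∃ c, c + σ c + h u u = 0 ∧ RhoIn h M (j v) u c := by
  have H := R.hs
  have hee := R.iso hv
  have hadd : ∀ u u', h u (j v) = 0 → h u' (j v) = 0 →
      (∃ c, c + σ c + h u u = 0 ∧ RhoIn h M (j v) u c) →
      (∃ c, c + σ c + h u' u' = 0 ∧ RhoIn h M (j v) u' c) →
      (∃ c, c + σ c + h (u + u') (u + u') = 0 ∧ RhoIn h M (j v) (u + u') c) := by
    rintro u u' hu hu' ⟨c, hc, h1⟩ ⟨c', hc', h2⟩
    refine ⟨_, ?_, rhoIn_comp H hee hu hu' h1 h2⟩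
    rw [H.add_left, H.add_right, H.add_right, map_sub, map_add, ← H.herm u u']
    linear_combination hc + hc'
  have hneg : ∀ u, h u (j v) = 0 → (∃ c, c + σ c + h u u = 0 ∧ RhoIn h M (j v) u c) →
      (∃ c, c + σ c + h (-u) (-u) = 0 ∧ RhoIn h M (j v) (-u) c) := by
    rintro u hu ⟨c, hc, h1⟩
    refine ⟨_, ?_, rhoIn_neg H hee hu h1⟩
    rw [H.neg_left, H.neg_right, neg_neg, map_sub, map_neg, H.self_fixed]
    linear_combination -hc
  have hreal : ∀ b, polar Q v b = 0 → ∃ c, c + σ c + h (j b) (j b) = 0 ∧ RhoIn h M (j v) (j b) c := by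
    intro b hb
    refine ⟨_, ?_, R.rho_of hO hv hb⟩
    rw [map_neg, R.sι, R.form, polar_self', map_mul, map_ofNat]; ring
  have hδj : ∀ b, h (δ • j b) (j v) = δ * ι (polar Q b v) := by
    intro b; rw [H.smul_left, R.form]
  have himag : ∀ b, Q b = 0 → polar Q v b = 0 →
      ∃ c, c + σ c + h (δ • j b) (δ • j b) = 0 ∧ RhoIn h M (j v) (δ • j b) c := by
    intro b hQb hb
    have hbb : h (δ • j b) (δ • j b) = 0 := by
      rw [H.smul_left, H.smul_right, R.iso hQb]; ring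
    by_cases hdep : b ∈ Submodule.span F₀ {v}
    · obtain ⟨c, rfl⟩ := Submodule.mem_span_singleton.1 hdep
      refine ⟨0, by rw [hbb]; simp, ?_⟩
      have h1 : 2 * (δ * ι c) + σ (2 * (δ * ι c)) = 0 := by
        rw [map_mul, map_mul, R.sδ, R.sι, map_ofNat]; ring
      refine ⟨tv H (j v) hee _ h1, (hcen v hv).2 _ _ _, fun x => ?_⟩
      rw [tv_apply, rho, R.jsmul, H.smul_right, H.smul_right, R.sδ, R.sι]
      module
    · obtain ⟨y, hy, hby⟩ := R.nQ.exists_polar_one _ hdep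
      have hvy : polar Q v y = 0 := Quad.mem_perp_singleton.1 hy
      have h1 : δ + σ δ = 0 := by rw [R.sδ]; ring
      have ht := (hcen b hQb).2 (R.iso hQb) δ h1
      obtain ⟨c, hc, h2⟩ := hreal y hvy
      have h3 := rhoIn_map hM h2 ht
      have e1 : tv H (j b) (R.iso hQb) δ h1 (j v) = j v := by
        rw [tv_apply, R.form, hb, map_zero, mul_zero, zero_smul, add_zero]
      have e2 : tv H (j b) (R.iso hQb) δ h1 (j y) = j y + δ • j b := by
        rw [tv_apply, R.form, polar_comm, hby, map_one, mul_one]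
      have e3 : h (j y + δ • j b) (j y + δ • j b) = h (j y) (j y) := by
        rw [← e2, tv_mem H (j b) (R.iso hQb) δ h1]
      rw [e1, e2] at h3
      have h4 : ∃ c, c + σ c + h (j y + δ • j b) (j y + δ • j b) = 0 ∧
          RhoIn h M (j v) (j y + δ • j b) c := ⟨c, by rw [e3]; exact hc, h3⟩
      have hyv : h (j y) (j v) = 0 := by rw [R.form, polar_comm, hvy, map_zero]
      have hbv : h (δ • j b) (j v) = 0 := by rw [hδj, polar_comm, hb, map_zero, mul_zero]
      have h5 := hadd _ _ (by rw [H.add_left, hyv, hbv, add_zero]) (by rw [H.neg_left, hyv, neg_zero])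
        h4 (hneg _ hyv (hreal y hvy))
      have e4 : j y + δ • j b + -j y = δ • j b := by abel
      rwa [e4] at h5
  intro u hu
  obtain ⟨x, y, rfl⟩ := R.span u
  obtain ⟨h1, h2⟩ := R.perp_iff.1 hu
  have h1' : polar Q v x = 0 := by rw [polar_comm]; exact h1
  have h2' : polar Q v y = 0 := by rw [polar_comm]; exact h2
  -- all δ • j y
  have hdv : finrank F₀ (Submodule.span F₀ {v}) ≤ 1 := by
    have := finrank_span_le_card (R := F₀) ({v} : Set V₀)
    simpa using this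
  have hpv := R.nQ.finrank_add_finrank_perp (Submodule.span F₀ {v})
  obtain ⟨s, hs, hsv, hQs⟩ := exists_sing_avoid (Q := Q) (Quad.perp Q (Submodule.span F₀ {v}))
    (Submodule.span F₀ {v}) (by omega)
  obtain ⟨z, hz, hsz⟩ := R.nQ.exists_polar_one _ hsv
  have hsv' : polar Q v s = 0 := Quad.mem_perp_singleton.1 hs
  have hall := all_of_sing (Q := Q) (R := Quad.perp Q (Submodule.span F₀ {v}))
    (P := fun y => ∃ c, c + σ c + h (δ • j y) (δ • j y) = 0 ∧ RhoIn h M (j v) (δ • j y) c)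
    (by
      intro a ha b hb h3 h4
      have ha' : polar Q a v = 0 := by rw [polar_comm]; exact Quad.mem_perp_singleton.1 ha
      have hb' : polar Q b v = 0 := by rw [polar_comm]; exact Quad.mem_perp_singleton.1 hb
      have := hadd _ _ (by rw [hδj, ha', map_zero, mul_zero]) (by rw [hδj, hb', map_zero, mul_zero]) h3 h4
      rwa [← smul_add, ← R.jadd] at this)
    (u := s) (z := z) hs hQs hz (by rw [hsz]; exact one_ne_zero)
    (fun c => himag _ (by rw [Q_smul, hQs, mul_zero]) (by rw [polar_smul_right, hsv', smul_zero]))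
    (fun a ha hQa _ => himag a hQa (Quad.mem_perp_singleton.1 ha))
    (by
      intro a ha h3
      have ha' : polar Q a v = 0 := by rw [polar_comm]; exact Quad.mem_perp_singleton.1 ha
      have := hneg _ (by rw [hδj, ha', map_zero, mul_zero]) h3
      rwa [← smul_neg, ← R.jneg] at this)
  exact hadd _ _ (by rw [R.form, h1, map_zero]) (by rw [hδj, h2, map_zero, mul_zero]) (hreal x h1')
    (hall y (Quad.mem_perp_singleton.2 h2'))

theorem exists_cen {x : V ≃ₗ[F] V} (hx : x ∈ M) {a' b' : V} {c₀ : F} (hxw : ∀ w, x w = rho h a' b' c₀ w)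
    {y₀ : V₀} (hy₀ : ∀ p, x (j y₀) ≠ j p) : ∃ v, Q v = 0 ∧ v ≠ 0 ∧ j v ∈ cen R.hs M := by
  have H := R.hs
  obtain ⟨a₁, a₂, ha'⟩ := R.span a'
  obtain ⟨b₁, b₂, hb'⟩ := R.span b'
  obtain ⟨p, q, hpq⟩ := R.span (x (j y₀))
  have hq0 : q ≠ 0 := by
    rintro rfl
    apply hy₀ p
    rw [hpq, R.jzero, smul_zero, add_zero]
  obtain ⟨W, hW⟩ : ∃ W, W = (Submodule.span F₀ {a₁, a₂} ⊔ Submodule.span F₀ {b₁, b₂}) ⊔
    Submodule.span F₀ {y₀, q} := ⟨_, rfl⟩
  have hWd : finrank F₀ W ≤ 6 := by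
    rw [hW]
    have h1 := finrank_sup_le (Submodule.span F₀ {a₁, a₂} ⊔ Submodule.span F₀ {b₁, b₂})
      (Submodule.span F₀ {y₀, q})
    have h2 := finrank_sup_le (Submodule.span F₀ {a₁, a₂}) (Submodule.span F₀ {b₁, b₂})
    have h3 := finrank_pair_le (F := F₀) a₁ a₂
    have h4 := finrank_pair_le (F := F₀) b₁ b₂
    have h5 := finrank_pair_le (F := F₀) y₀ q
    omega
  have hp := R.nQ.finrank_add_finrank_perp W
  have hdq : finrank F₀ (Submodule.span F₀ {q}) ≤ 1 := by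
    have := finrank_span_le_card (R := F₀) ({q} : Set V₀)
    simpa using this
  obtain ⟨v, hv, hvq, hQv⟩ := exists_sing_avoid (Q := Q) (Quad.perp Q W) (Submodule.span F₀ {q}) (by omega)
  have hv0 : v ≠ 0 := by rintro rfl; exact hvq (Submodule.zero_mem _)
  have hv' := Quad.mem_perp.1 hv
  rw [hW] at hv'
  have m1 : polar Q a₁ v = 0 :=
    hv' _ (Submodule.mem_sup_left (Submodule.mem_sup_left (Submodule.subset_span (by simp))))
  have m2 : polar Q a₂ v = 0 :=
    hv' _ (Submodule.mem_sup_left (Submodule.mem_sup_left (Submodule.subset_span (by simp))))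
  have m3 : polar Q b₁ v = 0 :=
    hv' _ (Submodule.mem_sup_left (Submodule.mem_sup_right (Submodule.subset_span (by simp))))
  have m4 : polar Q b₂ v = 0 :=
    hv' _ (Submodule.mem_sup_left (Submodule.mem_sup_right (Submodule.subset_span (by simp))))
  have m5 : polar Q y₀ v = 0 := hv' _ (Submodule.mem_sup_right (Submodule.subset_span (by simp)))
  have hva : h (j v) a' = 0 := by
    apply H.symm_zero
    rw [ha', R.perp_iff]; exact ⟨m1, m2⟩
  have hvb : h (j v) b' = 0 := by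
    apply H.symm_zero
    rw [hb', R.perp_iff]; exact ⟨m3, m4⟩
  have hxv : x (j v) = j v := by rw [hxw, rho, hva, hvb]; simp
  have h1 := rhoIn_map hM (R.rho_of hO hQv (b := y₀) (by rw [polar_comm]; exact m5)) hx
  rw [hxv] at h1
  obtain ⟨U, hU⟩ : ∃ U, U = x (j y₀) := ⟨_, rfl⟩
  have hUv : h U (j v) = 0 := by
    rw [hU, ← hxv, hM hx, R.form, m5, map_zero]
  rw [← hU] at h1 hpq
  have hee := R.iso hQv
  have hqv : q ∉ Submodule.span F₀ {v} := by
    intro hmem
    obtain ⟨c, hc⟩ := Submodule.mem_span_singleton.1 hmem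
    have hc0 : c ≠ 0 := by rintro rfl; rw [zero_smul] at hc; exact hq0 hc.symm
    apply hvq
    rw [Submodule.mem_span_singleton]
    exact ⟨c⁻¹, by rw [← hc, smul_smul, inv_mul_cancel₀ hc0, one_smul]⟩
  obtain ⟨y', hy', hqy'⟩ := R.nQ.exists_polar_one _ hqv
  have hvy' : polar Q v y' = 0 := Quad.mem_perp_singleton.1 hy'
  refine ⟨v, hQv, hv0, hee, fun hz a ha => ?_⟩
  obtain ⟨r, hr⟩ := R.tr0 ha
  have h2 := R.rho_of hO hQv (b := (r / 2) • y') (by rw [polar_smul_right, hvy', smul_zero])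
  obtain ⟨u', hu'⟩ : ∃ u', u' = j ((r / 2) • y') := ⟨_, rfl⟩
  have hu'v : h u' (j v) = 0 := by
    rw [hu', R.form, polar_smul_left, polar_comm, hvy', smul_zero, map_zero]
  rw [← hu'] at h2
  have h3 := rhoIn_comp H hee hUv hu'v h1 h2
  have h4 := rhoIn_comp H hee hu'v hUv h2 h1
  have h5 := rhoIn_neg H hee (by rw [H.add_left, hUv, hu'v, add_zero]) h4
  have h6 := rhoIn_comp H hee (by rw [H.add_left, hUv, hu'v, add_zero])
    (by rw [H.neg_left, H.add_left, hUv, hu'v]; simp) h3 h5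
  have e1 : U + u' + -(u' + U) = 0 := by abel
  have e2 : polar Q q ((r / 2) • y') = r / 2 := by
    rw [polar_smul_right, hqy', smul_eq_mul, mul_one]
  have e4 : ι (r / 2) * 2 = ι r := by
    rw [map_div₀, map_ofNat, div_mul_cancel₀ _ R.twoF]
  have e3 : h U u' - h u' U = a := by
    rw [hu', hpq, R.h_left, H.herm (j _) (j p + δ • j q), R.h_left, map_add, map_mul, R.sι, R.sι, R.sδ,
      e2, hr]
    linear_combination δ * e4
  rw [e1] at h6
  obtain ⟨t, ht, htx⟩ := h6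
  have : tv H (j v) hz a ha = t := by
    apply LinearEquiv.ext
    intro w
    rw [tv_apply, htx, rho, H.zero_right, ← e3]
    simp only [smul_zero, zero_smul, add_zero, sub_zero, H.neg_left, H.add_left, H.add_right]
    congr 2
    ring
  rw [this]; exact ht

theorem exists_moving {g : V ≃ₗ[F] V} (hg : g ∈ M) (hgP : ¬ ∃ κ : F, κ ≠ 0 ∧ ∀ x, ∃ y, g (j x) = κ • j y) :
    ∃ x ∈ M, ∃ a' b' : V, ∃ c₀ : F, (∀ w, x w = rho h a' b' c₀ w) ∧ ∃ y₀, ∀ p, x (j y₀) ≠ j p := by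
  have H := R.hs
  by_contra hcon
  push Not at hcon
  apply hgP
  have hinv : ∀ w, (∃ y, g w = j y) → ∀ a b, Q a = 0 → polar Q a b = 0 →
      ∃ y, g (rho h (j a) (j b) (-ι (Q b)) w) = j y := by
    rintro w ⟨y, hy⟩ a b ha hab
    obtain ⟨t, ht, htx⟩ := R.rho_of hO ha hab
    obtain ⟨x, hx, hxw⟩ := rhoIn_map hM (R.rho_of hO ha hab) hg
    obtain ⟨p, hp⟩ := hcon x hx _ _ _ hxw y
    refine ⟨p, ?_⟩
    rw [← hp, hxw, ← hy, rho, rho, hM hg, hM hg, map_add, map_sub, map_add, LinearEquiv.map_smul,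
      LinearEquiv.map_smul, LinearEquiv.map_smul]
  have hgx : ∀ x, g (g⁻¹ x) = x := fun x => by
    rw [← LinearEquiv.mul_apply, mul_inv_cancel]; rfl
  obtain ⟨x₀, hx₀, -⟩ := R.nQ.exists_singular (by omega)
  obtain ⟨w₀, hw₀⟩ : ∃ w₀, w₀ = g⁻¹ (j x₀) := ⟨_, rfl⟩
  have hgw₀ : g w₀ = j x₀ := by rw [hw₀, hgx]
  obtain ⟨x, y, hxy⟩ := R.span w₀
  obtain ⟨a, ha, hκ⟩ : ∃ a, Q a = 0 ∧ h w₀ (j a) ≠ 0 := by
    have key : ∀ z : V₀, z ≠ 0 → ∃ a, Q a = 0 ∧ polar Q z a ≠ 0 := by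
      intro z hz
      obtain ⟨a, ha, -, h1, -, -⟩ := exists_sing_gen R.nQ ⊥ ⊥ (y₁ := z) (y₂ := z) (by simpa using hz)
        (by simpa using hz) 2 (by
          have h3 := finrank_sup_le ⊥ (Submodule.span F₀ {z, z})
          have h5 := finrank_pair_le (F := F₀) z z
          rw [finrank_bot] at h3
          omega) (by omega) (by rw [finrank_bot]; omega)
      exact ⟨a, ha, by rw [polar_comm]; exact h1⟩
    by_cases hx0 : x = 0
    · by_cases hy0 : y = 0
      · exfalso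
        rw [hx0, hy0, R.jzero, smul_zero, add_zero] at hxy
        rw [hxy, map_zero] at hgw₀
        exact R.j0 hx₀ hgw₀.symm
      · obtain ⟨a, ha, h1⟩ := key y hy0
        exact ⟨a, ha, fun h0 => h1 (by rw [hxy] at h0; exact (R.perp_iff.1 h0).2)⟩
    · obtain ⟨a, ha, h1⟩ := key x hx0
      exact ⟨a, ha, fun h0 => h1 (by rw [hxy] at h0; exact (R.perp_iff.1 h0).1)⟩
  obtain ⟨κ, hκd⟩ : ∃ κ, κ = h w₀ (j a) := ⟨_, rfl⟩
  rw [← hκd] at hκ
  obtain ⟨W, hW⟩ : ∃ W, W = Submodule.span F₀ {a, x} ⊔ Submodule.span F₀ {y, y} := ⟨_, rfl⟩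
  have hWd : finrank F₀ W ≤ 4 := by
    rw [hW]
    have h1 := finrank_sup_le (Submodule.span F₀ {a, x}) (Submodule.span F₀ {y, y})
    have h2 := finrank_pair_le (F := F₀) a x
    have h3 := finrank_pair_le (F := F₀) y y
    omega
  have hp := R.nQ.finrank_add_finrank_perp W
  obtain ⟨b, hb, hb0, hQb⟩ := exists_sing_avoid (Q := Q) (Quad.perp Q W) ⊥ (by rw [finrank_bot]; omega)
  have hb' := Quad.mem_perp.1 hb
  rw [hW] at hb'
  have n1 : polar Q a b = 0 := hb' a (Submodule.mem_sup_left (Submodule.subset_span (by simp)))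
  have n2 : polar Q x b = 0 := hb' x (Submodule.mem_sup_left (Submodule.subset_span (by simp)))
  have n3 : polar Q y b = 0 := hb' y (Submodule.mem_sup_right (Submodule.subset_span (by simp)))
  have hwb : h w₀ (j b) = 0 := by rw [hxy, R.perp_iff]; exact ⟨n2, n3⟩
  have hκb : ∃ y, g (κ • j b) = j y := by
    obtain ⟨y', hy'⟩ := hinv w₀ ⟨x₀, hgw₀⟩ a b ha n1
    rw [rho, hwb, ← hκd, hQb, map_zero, neg_zero, zero_mul, zero_smul, add_zero, sub_zero,
      map_add, hgw₀] at hy'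
    refine ⟨y' - x₀, ?_⟩
    rw [R.jsub, ← hy', add_sub_cancel_left]
  let U : Submodule F₀ V₀ :=
    { carrier := {z | ∃ y, g (κ • j z) = j y}
      add_mem' := by
        rintro z z' ⟨y, hy⟩ ⟨y', hy'⟩
        exact ⟨y + y', by rw [R.jadd, R.jadd, smul_add, map_add, hy, hy']⟩
      zero_mem' := ⟨0, by rw [R.jzero, smul_zero, map_zero]⟩
      smul_mem' := by
        rintro c z ⟨y, hy⟩
        refine ⟨c • y, ?_⟩
        rw [R.jsmul, R.jsmul, smul_comm, LinearEquiv.map_smul, hy] }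
  have hU : U = ⊤ := by
    apply sieg_irred R.nQ (Or.inr (Or.inl (by omega))) (by omega)
    · rintro a b ha hab z ⟨y, hy⟩
      obtain ⟨y', hy'⟩ := hinv (κ • j z) ⟨y, hy⟩ a b ha hab
      refine ⟨y', ?_⟩
      rw [← hy']
      congr 1
      rw [siegMap_apply, rho, R.jsub, R.jsub, R.jadd, R.jsmul, R.jsmul, R.jsmul, R.hs.smul_left,
        R.hs.smul_left, R.form, R.form, polar_comm Q z a, polar_comm Q z b, map_mul]
      module
    · intro h0
      have : b ∈ U := hκb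
      rw [h0, Submodule.mem_bot] at this
      rw [this] at hb0
      exact hb0 (Submodule.zero_mem _)
  refine ⟨κ⁻¹, inv_ne_zero hκ, fun z => ?_⟩
  have hz : z ∈ U := by rw [hU]; trivial
  obtain ⟨y', hy'⟩ := hz
  refine ⟨y', ?_⟩
  rw [← hy', LinearEquiv.map_smul, smul_smul, inv_mul_cancel₀ hκ, one_smul]

/-- **Main theorem.** -/
theorem main (hdim : 4 ≤ finrank F V) (hex : ∃ g ∈ M, ¬ ∃ κ : F, κ ≠ 0 ∧ ∀ x, ∃ y, g (j x) = κ • j y) :
    ∀ g ∈ isom h, LinearMap.det ((g : V ≃ₗ[F] V) : V →ₗ[F] V) = 1 → g ∈ M := by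
  have H := R.hs
  obtain ⟨g, hg, hgP⟩ := hex
  obtain ⟨x, hx, a', b', c₀, hxw, y₀, hy₀⟩ := R.exists_moving hM hO hn hg hgP
  obtain ⟨v, hv, hv0, hvc⟩ := R.exists_cen hM hO hn hx hxw hy₀
  have hcen : ∀ v, Q v = 0 → j v ∈ cen R.hs M := by
    intro w hw
    by_cases hw0 : w = 0
    · rw [hw0, R.jzero]; exact cen_zero
    · exact R.cen_move hM hO hn hv hw hv0 hw0 hvc
  obtain ⟨z, hz⟩ := R.nQ.exists_polar_one' hv0
  obtain ⟨h1, h2⟩ := Quad.adjust_singular hv hz
  have hall := cen_all R.hs R.nd hM (R.iso hv) (R.rho_full hM hO hn hcen hv) (hcen v hv)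
    (hcen _ h1) (by rw [R.form, polar_comm, h2, map_one]; exact one_ne_zero)
  intro t ht htd
  exact tgrp_le_of_cen (W := ⊤) (fun z _ hz => hall z hz) (su_le R.hs R.nd hdim ht htd)

omit hM hO in
theorem exists_not : ∃ g ∈ isom h, LinearMap.det ((g : V ≃ₗ[F] V) : V →ₗ[F] V) = 1 ∧
    ¬ ∃ κ : F, κ ≠ 0 ∧ ∀ x, ∃ y, g (j x) = κ • j y := by
  have H := R.hs
  obtain ⟨v, hv0, hv⟩ := R.nQ.exists_singular (by omega)
  have h1 : δ + σ δ = 0 := by rw [R.sδ]; ring
  refine ⟨tv R.hs (j v) (R.iso hv) δ h1, tv_mem _ _ _ _ _, tv_det _ _ _ _ _, ?_⟩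
  rintro ⟨κ, hκ, h⟩
  obtain ⟨y, hy⟩ := R.nQ.exists_polar_one' hv0
  have hpv := R.nQ.finrank_add_finrank_perp (Submodule.span F₀ {v})
  have hdv : finrank F₀ (Submodule.span F₀ {v}) ≤ 1 := by
    have := finrank_span_le_card (R := F₀) ({v} : Set V₀)
    simpa using this
  obtain ⟨p₁, h2⟩ := h v
  rw [tv_apply, R.iso hv, mul_zero, zero_smul, add_zero] at h2
  obtain ⟨p₂, h3⟩ := h y
  rw [tv_apply, R.form, polar_comm, hy, map_one, mul_one] at h3
  -- κ is real
  obtain ⟨b, c, hbc⟩ := R.dec κ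
  have h4 : j (b • p₁ - v) + δ • j (c • p₁) = 0 := by
    rw [R.jsub, R.jsmul, R.jsmul, h2, hbc]; module
  have hp₁ : p₁ ≠ 0 := by
    rintro rfl
    rw [R.jzero, smul_zero] at h2
    exact R.j0 hv0 h2
  have hc0 : c = 0 := by
    rcases smul_eq_zero.1 (R.uniq h4).2 with h5 | h5
    · exact h5
    · exact absurd h5 hp₁
  rw [hc0, map_zero, zero_mul, add_zero] at hbc
  have h5 : j (y - b • p₂) + δ • j v = 0 := by
    rw [R.jsub, R.jsmul, ← hbc, ← h3]; module
  exact hv0 (R.uniq h5).2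

end RS

end Cfsg.Agent.Lib.SURealH94
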