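import Cfsg.Agent.Lib.FrobGroup
import Cfsg.Agent.Lib.NilpTools

/-!
# Schmidt: a finite group all of whose maximal subgroups are nilpotent is solvable
-/

set_option autoImplicit false

namespace Cfsg.Agent.Lib.Schmidt

open Subgroup Pointwise Cfsg Cfsg.Agent.Lib.SubgroupTools Cfsg.Agent.Lib.NilpTools

universe u

section

variable {G : Type u} [Group G] [Finite G]

theorem exists_le_coatom {H : Subgroup G} (h : H ≠ ⊤) : ∃ M : Subgroup G, IsCoatom M ∧ H ≤ M :=
  (eq_top_or_exists_le_coatom H).resolve_left h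

omit [Finite G] in
theorem isCoatom_conj_smul {M : Subgroup G} (h : IsCoatom M) (g : G) :
    IsCoatom (MulAut.conj g • M : Subgroup G) := by
  refine ⟨fun h1 => h.1 ?_, fun B hB => ?_⟩
  · rw [conj_smul_eq_iff] at h1
    rw [h1]
    exact conj_smul_normal g⁻¹ ⊤
  · have h1 : M < MulAut.conj g⁻¹ • B := by
      refine lt_of_le_of_ne ?_ ?_
      · rw [← conj_smul_le_iff]; exact hB.le
      · intro h2
        rw [← conj_smul_eq_iff] at h2
        exact hB.ne h2
    have h2 := h.2 _ h1
    rw [conj_smul_eq_iff, inv_inv] at h2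
    rw [h2]
    exact conj_smul_normal g ⊤

/-- In a simple group all of whose maximal subgroups are nilpotent, distinct maximal subgroups
intersect trivially. -/
theorem inf_eq_bot_of_ne (hsimple : ∀ N : Subgroup G, N.Normal → N = ⊥ ∨ N = ⊤)
    (hnil : ∀ M : Subgroup G, IsCoatom M → Group.IsNilpotent M)
    {M₁ M₂ : Subgroup G} (h₁ : IsCoatom M₁) (h₂ : IsCoatom M₂) (hne : M₁ ≠ M₂) :
    M₁ ⊓ M₂ = ⊥ := by
  classical
  by_contra hcon
  -- choose a pair with maximal intersection
  obtain ⟨⟨X, Y⟩, ⟨hX, hY, hXY, hD⟩, hmax⟩ := Set.Finite.exists_maximalFor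
    (fun P : Subgroup G × Subgroup G => Nat.card (P.1 ⊓ P.2 : Subgroup G))
    {P : Subgroup G × Subgroup G | IsCoatom P.1 ∧ IsCoatom P.2 ∧ P.1 ≠ P.2 ∧ P.1 ⊓ P.2 ≠ ⊥}
    (Set.toFinite _) ⟨(M₁, M₂), h₁, h₂, hne, hcon⟩
  simp only at hX hY hXY hD hmax
  set D := X ⊓ Y with hDdef
  have hDX : D < X := by
    refine lt_of_le_of_ne inf_le_left fun h => ?_
    have h1 : X ≤ Y := by rw [← h]; exact inf_le_right
    rcases hX.le_iff.mp h1 with h2 | h2
    · exact hY.1 h2
    · exact hXY h2.symm
  have hDY : D < Y := by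
    refine lt_of_le_of_ne inf_le_right fun h => ?_
    have h1 : Y ≤ X := by rw [← h]; exact inf_le_left
    rcases hY.le_iff.mp h1 with h2 | h2
    · exact hX.1 h2
    · exact hXY h2
  have hND : normalizer (D : Set G) ≠ ⊤ := by
    intro h
    rw [normalizer_eq_top_iff] at h
    rcases hsimple D h with h1 | h1
    · exact hD h1
    · rw [h1] at hDX
      exact not_top_lt hDX
  obtain ⟨Z, hZ, hNZ⟩ := exists_le_coatom hND
  have hXZ : X = Z := by
    by_contra hne
    have h1 := lt_inf_normalizer (hnil X hX) hDX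
    have h2 : D < X ⊓ Z := lt_of_lt_of_le h1 (inf_le_inf_left _ hNZ)
    have h3 : X ⊓ Z ≠ ⊥ := fun h => by
      rw [h] at h2
      exact not_lt_bot h2
    have h4 := hmax (j := (X, Z)) ⟨hX, hZ, hne, h3⟩ (card_le_of_le h2.le)
    exact h2.ne (eq_of_le_of_card_ge h2.le h4)
  have hYZ : Y = Z := by
    by_contra hne
    have h1 := lt_inf_normalizer (hnil Y hY) hDY
    have h2 : D < Y ⊓ Z := lt_of_lt_of_le h1 (inf_le_inf_left _ hNZ)
    have h3 : Y ⊓ Z ≠ ⊥ := fun h => by
      rw [h] at h2
      exact not_lt_bot h2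
    have h4 := hmax (j := (Y, Z)) ⟨hY, hZ, hne, h3⟩ (card_le_of_le h2.le)
    exact h2.ne (eq_of_le_of_card_ge h2.le h4)
  exact hXY (hXZ.trans hYZ.symm)

/-- Maximal subgroups are Frobenius complements in the minimal situation. -/
theorem isFrobeniusComplement_of_coatom (hsimple : ∀ N : Subgroup G, N.Normal → N = ⊥ ∨ N = ⊤)
    (hnil : ∀ M : Subgroup G, IsCoatom M → Group.IsNilpotent M)
    {M : Subgroup G} (hM : IsCoatom M) (hM1 : M ≠ ⊥) : IsFrobeniusComplement M := by
  refine ⟨hM1, hM.1, fun g hg => ?_⟩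
  refine inf_eq_bot_of_ne hsimple hnil hM (isCoatom_conj_smul hM g) fun h => ?_
  have h1 : g ∈ normalizer (M : Set G) := mem_normalizer_iff_conj_smul.mpr h.symm
  rcases hM.le_iff.mp (le_normalizer : M ≤ normalizer (M : Set G)) with h2 | h2
  · rw [normalizer_eq_top_iff] at h2
    rcases hsimple M h2 with h3 | h3
    · exact hM1 h3
    · exact hM.1 h3
  · rw [h2] at h1
    exact hg h1

end

theorem solvable_aux (n : ℕ) : ∀ {G : Type u} [Group G] [Finite G] (_ : Nat.card G = n)
    (_ : ∀ M : Subgroup G, IsCoatom M → Group.IsNilpotent M), Group.IsSolvable G := by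
  classical
  induction n using Nat.strong_induction_on with
  | _ n ih =>
  intro G _ _ hn hnil
  by_cases hsimple : ∀ N : Subgroup G, N.Normal → N = ⊥ ∨ N = ⊤
  · -- `G` is simple or trivial
    rcases subsingleton_or_nontrivial G with hG | hG
    · exact Group.isSolvable_of_comm fun a b => Subsingleton.elim _ _
    by_cases hcyc : ∃ x : G, zpowers x = ⊤
    · obtain ⟨x, hx⟩ := hcyc
      have hc : IsCyclic G := ⟨x, fun y => mem_zpowers_iff.mp (by rw [hx]; exact mem_top y)⟩
      exact Group.isSolvable_of_comm fun a b => isMulCommutative_iff.mp inferInstance a b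
    exfalso
    -- every element is in a maximal subgroup
    have hmem : ∀ x : G, ∃ M : Subgroup G, IsCoatom M ∧ x ∈ M := by
      intro x
      obtain ⟨M, hM, h⟩ := exists_le_coatom (fun h => hcyc ⟨x, h⟩ : zpowers x ≠ ⊤)
      exact ⟨M, hM, h (mem_zpowers x)⟩
    obtain ⟨x, hx⟩ := exists_ne (1 : G)
    obtain ⟨M, hM, hxM⟩ := hmem x
    have hM1 : M ≠ ⊥ := fun h => hx (by rw [h, mem_bot] at hxM; exact hxM)
    have hF := isFrobeniusComplement_of_coatom hsimple hnil hM hM1
    obtain ⟨y, hy, hy1⟩ := FrobGroup.exists_kernel_ne_one hF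
    obtain ⟨M', hM', hyM'⟩ := hmem y
    have hM'1 : M' ≠ ⊥ := fun h => hy1 (by rw [h, mem_bot] at hyM'; exact hyM')
    have hF' := isFrobeniusComplement_of_coatom hsimple hnil hM' hM'1
    have hnc : ∀ g : G, MulAut.conj g • M ≠ M' := by
      intro g h
      rcases hy with hy | hy
      · exact hy1 hy
      · exact hy g (by rw [h]; exact hyM')
    -- counting
    have hk := FrobGroup.card_kernel hF
    have hk' := FrobGroup.card_kernel hF'
    have hunion : (frobeniusKernel M) ∪ (frobeniusKernel M') = Set.univ := by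
      ext z
      simp only [Set.mem_union, Set.mem_univ, iff_true]
      by_contra hcon
      push Not at hcon
      obtain ⟨h1, h2⟩ := hcon
      have h3 : z ≠ 1 ∧ ∃ g : G, z ∈ MulAut.conj g • M := by
        by_contra h
        apply h1
        rw [not_and_or] at h
        rcases h with h | h
        · exact Or.inl (not_not.mp h)
        · push Not at h; exact Or.inr h
      have h4 : z ≠ 1 ∧ ∃ g : G, z ∈ MulAut.conj g • M' := by
        by_contra h
        apply h2
        rw [not_and_or] at h
        rcases h with h | h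
        · exact Or.inl (not_not.mp h)
        · push Not at h; exact Or.inr h
      obtain ⟨hz, g, hg⟩ := h3
      obtain ⟨-, g', hg'⟩ := h4
      have h5 : (MulAut.conj g • M) ⊓ (MulAut.conj g' • M') = ⊥ := by
        apply inf_eq_bot_of_ne hsimple hnil (isCoatom_conj_smul hM g) (isCoatom_conj_smul hM' g')
        intro h6
        apply hnc (g'⁻¹ * g)
        rw [conj_smul_mul, h6, ← conj_smul_mul, inv_mul_cancel, conj_smul_one]
      have h6 : z ∈ (MulAut.conj g • M) ⊓ (MulAut.conj g' • M') := mem_inf.mpr ⟨hg, hg'⟩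
      rw [h5, mem_bot] at h6
      exact hz h6
    have hinter : (1 : G) ∈ (frobeniusKernel M) ∩ (frobeniusKernel M') := ⟨Or.inl rfl, Or.inl rfl⟩
    have h1 := Set.ncard_union_add_ncard_inter (frobeniusKernel M) (frobeniusKernel M')
    rw [hunion, Set.ncard_univ] at h1
    have h2 : 0 < ((frobeniusKernel M) ∩ (frobeniusKernel M')).ncard :=
      (Set.ncard_pos (Set.toFinite _)).mpr ⟨1, hinter⟩
    rw [Nat.card_coe_set_eq] at hk hk'
    rw [hk, hk'] at h1
    have h3 := M.card_mul_index
    have h4 := M'.card_mul_index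
    have h5 : 2 ≤ Nat.card M := M.one_lt_card_iff_ne_bot.mpr hM1
    have h6 : 2 ≤ Nat.card M' := M'.one_lt_card_iff_ne_bot.mpr hM'1
    have h7 : 2 * M.index ≤ Nat.card G := by rw [← h3]; exact Nat.mul_le_mul_right _ h5
    have h8 : 2 * M'.index ≤ Nat.card G := by rw [← h4]; exact Nat.mul_le_mul_right _ h6
    omega
  · push Not at hsimple
    obtain ⟨N, hNn, hN1, hN2⟩ := hsimple
    obtain ⟨M, hM, hNM⟩ := exists_le_coatom hN2
    have hNs : Group.IsSolvable N := by
      have := hnil M hM
      exact isSolvable_of_le hNM inferInstance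
    let f := QuotientGroup.mk' N
    have hf : Function.Surjective f := QuotientGroup.mk'_surjective N
    have hlt : Nat.card (G ⧸ N) < n := by
      rw [← hn, card_eq_card_quotient_mul_card_subgroup N]
      exact lt_mul_of_one_lt_right Nat.card_pos (N.one_lt_card_iff_ne_bot.mpr hN1)
    have hq : Group.IsSolvable (G ⧸ N) := by
      refine ih _ hlt rfl ?_
      intro L hL
      have h1 : IsCoatom (L.comap f) := isCoatom_comap_of_surjective hf hL
      have h2 := hnil _ h1
      have h3 : Function.Surjective (f.subgroupComap L) := by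
        rintro ⟨y, hy⟩
        obtain ⟨x, rfl⟩ := hf y
        exact ⟨⟨x, hy⟩, rfl⟩
      exact Group.nilpotent_of_surjective (f.subgroupComap L) h3
    exact Group.isSolvable_of_ker_le_range N.subtype f (by
      rw [QuotientGroup.ker_mk', range_subtype])

end Cfsg.Agent.Lib.Schmidt
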