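import Mathlib
import Cfsg.Agent.Lib.SchurMult

/-!
Schur multiplier of a direct product (helper66).
-/

set_option autoImplicit false
set_option linter.style.haveILetI false

namespace Cfsg.Agent.Lib.SchurProd

open Cfsg Cfsg.Agent.Lib.SchurMult
open scoped commutatorElement TensorProduct

universe u v w x

/-- central product-like extension of `X × Y` by `T` given by a bimultiplicative map -/
@[ext]
structure BilExt {X : Type u} {Y : Type v} {T : Type w} [Group X] [Group Y] [CommGroup T] (β : X →* Y →* T) where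
  /-- first coordinate -/
  fst : X
  /-- second coordinate -/
  snd : Y
  /-- third coordinate -/
  thd : T

namespace BilExt

variable {X : Type u} {Y : Type v} {T : Type w} [Group X] [Group Y] [CommGroup T] (β : X →* Y →* T)

instance instMul : Mul (BilExt β) := ⟨fun a b => ⟨a.fst * b.fst, a.snd * b.snd, a.thd * b.thd * β b.fst a.snd⟩⟩
instance instOne : One (BilExt β) := ⟨⟨1, 1, 1⟩⟩
instance instInv : Inv (BilExt β) := ⟨fun a => ⟨a.fst⁻¹, a.snd⁻¹, a.thd⁻¹ * β a.fst a.snd⟩⟩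

theorem mul_def (a b : BilExt β) : a * b = ⟨a.fst * b.fst, a.snd * b.snd, a.thd * b.thd * β b.fst a.snd⟩ := rfl
theorem one_def : (1 : BilExt β) = ⟨1, 1, 1⟩ := rfl
theorem inv_def (a : BilExt β) : a⁻¹ = ⟨a.fst⁻¹, a.snd⁻¹, a.thd⁻¹ * β a.fst a.snd⟩ := rfl

instance instGroup : Group (BilExt β) :=
  Group.ofLeftAxioms
    (by
      intro a b c
      simp only [mul_def]
      ext
      · exact mul_assoc _ _ _
      · exact mul_assoc _ _ _
      · simp only [map_mul, MonoidHom.mul_apply]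
        have : ∀ p q r s t k : T, p * q * s * r * (t * k) = p * (q * r * k) * (s * t) := by
          intro p q r s t k
          rw [mul_assoc p q s, mul_comm q s]
          simp only [mul_assoc]
          congr 1
          rw [mul_left_comm s q]
          congr 1
          rw [mul_left_comm s r]
          congr 1
          rw [mul_comm t k, ← mul_assoc, mul_comm s k, mul_assoc]
        exact this _ _ _ _ _ _)
    (by
      intro a
      rw [one_def, mul_def]
      ext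
      · exact one_mul _
      · exact one_mul _
      · simp)
    (by
      intro a
      rw [inv_def, mul_def, one_def]
      ext
      · exact inv_mul_cancel _
      · exact inv_mul_cancel _
      · simp only [map_inv]
        rw [mul_assoc a.thd⁻¹, mul_comm (β a.fst a.snd), ← mul_assoc, inv_mul_cancel, one_mul, mul_inv_cancel])

/-- underlying equivalence with the product type -/
def equivProd : BilExt β ≃ X × Y × T where
  toFun a := (a.fst, a.snd, a.thd)
  invFun a := ⟨a.1, a.2.1, a.2.2⟩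
  left_inv _ := rfl
  right_inv _ := rfl

instance instFinite [Finite X] [Finite Y] [Finite T] : Finite (BilExt β) := Finite.of_equiv _ (equivProd β).symm

/-- projection to `X × Y` -/
def proj : BilExt β →* X × Y where
  toFun a := (a.fst, a.snd)
  map_one' := rfl
  map_mul' _ _ := rfl

/-- inclusion of `X` -/
def inl : X →* BilExt β where
  toFun x := ⟨x, 1, 1⟩
  map_one' := rfl
  map_mul' a b := by rw [mul_def]; ext <;> simp

/-- inclusion of `Y` -/
def inr : Y →* BilExt β where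
  toFun y := ⟨1, y, 1⟩
  map_one' := rfl
  map_mul' a b := by rw [mul_def]; ext <;> simp

/-- inclusion of `T` -/
def inT : T →* BilExt β where
  toFun t := ⟨1, 1, t⟩
  map_one' := rfl
  map_mul' a b := by rw [mul_def]; ext <;> simp

theorem commutator_inr_inl (x : X) (y : Y) : ⁅inr β y, inl β x⁆ = inT β (β x y) := by
  rw [commutatorElement_def, mul_inv_eq_iff_eq_mul, mul_inv_eq_iff_eq_mul]
  show (⟨1, y, 1⟩ : BilExt β) * ⟨x, 1, 1⟩ = ⟨1, 1, β x y⟩ * ⟨x, 1, 1⟩ * ⟨1, y, 1⟩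
  simp only [mul_def]
  ext <;> simp

end BilExt

section

variable {Q₁ : Type u} {Q₂ : Type v} [Group Q₁] [Group Q₂]

/-- the universal bimultiplicative map -/
def tens (Q₁ : Type u) (Q₂ : Type v) [Group Q₁] [Group Q₂] :
    Q₁ →* Q₂ →* Multiplicative (TensorProduct ℤ (Additive (Abelianization Q₁)) (Additive (Abelianization Q₂))) where
  toFun x :=
    { toFun := fun y => Multiplicative.ofAdd (Additive.ofMul (Abelianization.of x) ⊗ₜ[ℤ] Additive.ofMul (Abelianization.of y))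
      map_one' := by
        rw [map_one, ofMul_one, TensorProduct.tmul_zero, ofAdd_zero]
      map_mul' := by
        intro a b
        rw [map_mul, ofMul_mul, TensorProduct.tmul_add, ofAdd_add] }
  map_one' := by
    ext y
    show Multiplicative.ofAdd (Additive.ofMul (Abelianization.of (1 : Q₁)) ⊗ₜ[ℤ] Additive.ofMul (Abelianization.of y)) = 1
    rw [map_one, ofMul_one, TensorProduct.zero_tmul, ofAdd_zero]
  map_mul' := by
    intro a b
    ext y
    show Multiplicative.ofAdd (Additive.ofMul (Abelianization.of (a * b)) ⊗ₜ[ℤ] Additive.ofMul (Abelianization.of y)) = 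
      Multiplicative.ofAdd (Additive.ofMul (Abelianization.of a) ⊗ₜ[ℤ] Additive.ofMul (Abelianization.of y)) *
      Multiplicative.ofAdd (Additive.ofMul (Abelianization.of b) ⊗ₜ[ℤ] Additive.ofMul (Abelianization.of y))
    rw [map_mul, ofMul_mul, TensorProduct.add_tmul, ofAdd_add]

theorem of_surj {G : Type u} [Group G] : Function.Surjective (Abelianization.of : G → Abelianization G) :=
  QuotientGroup.mk'_surjective _

/-- values of `tens` generate -/
theorem tens_closure (S : Subgroup (Multiplicative (TensorProduct ℤ (Additive (Abelianization Q₁)) (Additive (Abelianization Q₂)))))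
    (h : ∀ x y, tens Q₁ Q₂ x y ∈ S) : S = ⊤ := by
  rw [eq_top_iff]
  intro t _
  suffices ∀ s : TensorProduct ℤ (Additive (Abelianization Q₁)) (Additive (Abelianization Q₂)), Multiplicative.ofAdd s ∈ S by
    exact this (Multiplicative.toAdd t)
  intro s
  induction s using TensorProduct.induction_on with
  | zero => exact S.one_mem
  | tmul a b =>
    obtain ⟨x, hx⟩ := of_surj (Additive.toMul a)
    obtain ⟨y, hy⟩ := of_surj (Additive.toMul b)
    have := h x y
    have e1 : a = Additive.ofMul (Abelianization.of x) := by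
      rw [← ofMul_toMul a, ← hx]
    have e2 : b = Additive.ofMul (Abelianization.of y) := by
      rw [← ofMul_toMul b, ← hy]
    rw [e1, e2]
    exact this
  | add a b ha hb => exact S.mul_mem ha hb

end

section Lower

variable {Q₁ : Type u} {Q₂ : Type v} [Group Q₁] [Group Q₂] {Γ₁ : Type w} {Γ₂ : Type x} [Group Γ₁] [Group Γ₂]

/-- the pulled back bimultiplicative map -/
def pull (σ₁ : Γ₁ →* Q₁) (σ₂ : Γ₂ →* Q₂) :
    Γ₁ →* Γ₂ →* Multiplicative (TensorProduct ℤ (Additive (Abelianization Q₁)) (Additive (Abelianization Q₂))) where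
  toFun x := (tens Q₁ Q₂ (σ₁ x)).comp σ₂
  map_one' := by ext y; simp
  map_mul' := by intro a b; ext y; simp

theorem pull_apply (σ₁ : Γ₁ →* Q₁) (σ₂ : Γ₂ →* Q₂) (x : Γ₁) (y : Γ₂) :
    pull σ₁ σ₂ x y = tens Q₁ Q₂ (σ₁ x) (σ₂ y) := rfl

/-- the projection of the product extension -/
def prodProj (σ₁ : Γ₁ →* Q₁) (σ₂ : Γ₂ →* Q₂) : BilExt (pull σ₁ σ₂) →* Q₁ × Q₂ :=
  (MonoidHom.prodMap σ₁ σ₂).comp (BilExt.proj _)

theorem prodProj_apply (σ₁ : Γ₁ →* Q₁) (σ₂ : Γ₂ →* Q₂) (a : BilExt (pull σ₁ σ₂)) :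
    prodProj σ₁ σ₂ a = (σ₁ a.fst, σ₂ a.snd) := rfl

theorem mem_ker_prodProj {σ₁ : Γ₁ →* Q₁} {σ₂ : Γ₂ →* Q₂} {a : BilExt (pull σ₁ σ₂)} :
    a ∈ (prodProj σ₁ σ₂).ker ↔ σ₁ a.fst = 1 ∧ σ₂ a.snd = 1 := by
  rw [MonoidHom.mem_ker, prodProj_apply, Prod.mk_eq_one]

theorem isStem_prodProj {σ₁ : Γ₁ →* Q₁} {σ₂ : Γ₂ →* Q₂} (h₁ : IsStemExtension σ₁) (h₂ : IsStemExtension σ₂) :
    IsStemExtension (prodProj σ₁ σ₂) := by
  refine ⟨?_, ?_, ?_⟩
  · rintro ⟨q₁, q₂⟩
    obtain ⟨x, rfl⟩ := h₁.1 q₁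
    obtain ⟨y, rfl⟩ := h₂.1 q₂
    exact ⟨⟨x, y, 1⟩, rfl⟩
  · intro a ha
    rw [mem_ker_prodProj] at ha
    rw [Subgroup.mem_center_iff]
    intro b
    rw [BilExt.mul_def, BilExt.mul_def]
    ext
    · exact Subgroup.mem_center_iff.1 (h₁.2.1 ha.1) b.fst
    · exact Subgroup.mem_center_iff.1 (h₂.2.1 ha.2) b.snd
    · rw [pull_apply, pull_apply, ha.1, ha.2, map_one, map_one, MonoidHom.one_apply, mul_one, mul_one, mul_comm]
  · intro a ha
    rw [mem_ker_prodProj] at ha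
    have e : a = BilExt.inl _ a.fst * BilExt.inr _ a.snd * BilExt.inT _ a.thd := by
      show a = (⟨a.fst, 1, 1⟩ : BilExt (pull σ₁ σ₂)) * ⟨1, a.snd, 1⟩ * ⟨1, 1, a.thd⟩
      simp only [BilExt.mul_def]
      ext <;> simp
    rw [e]
    have hin : ∀ {Y : Type _} [Group Y] (f : Y →* BilExt (pull σ₁ σ₂)) (y : Y), y ∈ commutator Y → f y ∈ commutator (BilExt (pull σ₁ σ₂)) := by
      intro Y _ f y hy
      have : (commutator Y).map f ≤ commutator (BilExt (pull σ₁ σ₂)) := by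
        rw [commutator_def, commutator_def, Subgroup.map_commutator]
        exact Subgroup.commutator_mono le_top le_top
      exact this (Subgroup.mem_map_of_mem _ hy)
    have hin2 : ∀ {Y : Type _} [Group Y] (f : Y →* BilExt (pull σ₁ σ₂)) (y : Y), y ∈ commutator Y → f y ∈ commutator (BilExt (pull σ₁ σ₂)) := by
      intro Y _ f y hy
      have : (commutator Y).map f ≤ commutator (BilExt (pull σ₁ σ₂)) := by
        rw [commutator_def, commutator_def, Subgroup.map_commutator]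
        exact Subgroup.commutator_mono le_top le_top
      exact this (Subgroup.mem_map_of_mem _ hy)
    refine Subgroup.mul_mem _ (Subgroup.mul_mem _ (hin _ _ (h₁.2.2 ha.1)) (hin2 _ _ (h₂.2.2 ha.2))) ?_
    have htop := tens_closure ((commutator (BilExt (pull σ₁ σ₂))).comap (BilExt.inT (pull σ₁ σ₂))) (by
      intro x y
      obtain ⟨x', rfl⟩ := h₁.1 x
      obtain ⟨y', rfl⟩ := h₂.1 y
      rw [Subgroup.mem_comap, ← pull_apply, ← BilExt.commutator_inr_inl]
      exact Subgroup.commutator_mem_commutator (Subgroup.mem_top _) (Subgroup.mem_top _))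
    have : a.thd ∈ (commutator (BilExt (pull σ₁ σ₂))).comap (BilExt.inT (pull σ₁ σ₂)) := by rw [htop]; trivial
    exact this

/-- the kernel of the product extension -/
def kerProdEquiv (σ₁ : Γ₁ →* Q₁) (σ₂ : Γ₂ →* Q₂) :
    (prodProj σ₁ σ₂).ker ≃* σ₁.ker × σ₂.ker × Multiplicative (TensorProduct ℤ (Additive (Abelianization Q₁)) (Additive (Abelianization Q₂))) where
  toFun a := (⟨a.1.fst, (mem_ker_prodProj.1 a.2).1⟩, ⟨a.1.snd, (mem_ker_prodProj.1 a.2).2⟩, a.1.thd)
  invFun b := ⟨⟨b.1.1, b.2.1.1, b.2.2⟩, mem_ker_prodProj.2 ⟨b.1.2, b.2.1.2⟩⟩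
  left_inv _ := rfl
  right_inv _ := rfl
  map_mul' := by
    rintro ⟨a, ha⟩ ⟨b, hb⟩
    refine Prod.ext rfl (Prod.ext rfl ?_)
    show a.thd * b.thd * pull σ₁ σ₂ b.fst a.snd = a.thd * b.thd
    rw [pull_apply, (mem_ker_prodProj.1 ha).2, map_one, mul_one]

end Lower

section Upper

variable {Q₁ : Type u} {Q₂ : Type v} [Group Q₁] [Group Q₂] {E₁ : Type w} {E₂ : Type x} [Group E₁] [Group E₂]

theorem mem_commutator_prod {e : E₁ × E₂} (he : e ∈ commutator (E₁ × E₂)) : e.1 ∈ commutator E₁ ∧ e.2 ∈ commutator E₂ := by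
  have hin : (commutator (E₁ × E₂)).map (MonoidHom.fst E₁ E₂) ≤ commutator E₁ := by
    rw [commutator_def, commutator_def, Subgroup.map_commutator]
    exact Subgroup.commutator_mono le_top le_top
  have hin2 : (commutator (E₁ × E₂)).map (MonoidHom.snd E₁ E₂) ≤ commutator E₂ := by
    rw [commutator_def, commutator_def, Subgroup.map_commutator]
    exact Subgroup.commutator_mono le_top le_top
  exact ⟨hin (Subgroup.mem_map_of_mem _ he), hin2 (Subgroup.mem_map_of_mem _ he)⟩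

/-- Upper bound: given central extensions `E_i → Q_i` mapping to `Δ` over `Q₁ × 1` and `1 × Q₂`, the kernel of the
stem extension `Δ → Q₁ × Q₂` is a homomorphic image. -/
theorem upper {π₁ : E₁ →* Q₁} {π₂ : E₂ →* Q₂} (hs₁ : Function.Surjective π₁) (hs₂ : Function.Surjective π₂)
    {Δ : Type*} [Group Δ] (τ : Δ →* Q₁ × Q₂) (hτ : IsStemExtension τ)
    (θ₁ : E₁ →* Δ) (θ₂ : E₂ →* Δ) (h₁ : ∀ e, τ (θ₁ e) = (π₁ e, 1)) (h₂ : ∀ e, τ (θ₂ e) = (1, π₂ e)) :
    ∃ f : mult π₁ × mult π₂ × Multiplicative (TensorProduct ℤ (Additive (Abelianization Q₁)) (Additive (Abelianization Q₂))) →* τ.ker,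
      Function.Surjective f := by
  classical
  letI : CommGroup τ.ker := { (inferInstance : Group τ.ker) with
    mul_comm := fun a b => by
      ext
      exact (Subgroup.mem_center_iff.1 (hτ.2.1 b.2) a) }
  -- the commutator pairing
  have hcen : ∀ e₁ e₂, ⁅θ₁ e₁, θ₂ e₂⁆ ∈ τ.ker := by
    intro e₁ e₂
    rw [MonoidHom.mem_ker, map_commutatorElement, h₁, h₂, commutatorElement_eq_one_iff_mul_comm]
    ext <;> simp
  have hind₁ : ∀ e₁ e₁' e₂, π₁ e₁ = π₁ e₁' → ⁅θ₁ e₁, θ₂ e₂⁆ = ⁅θ₁ e₁', θ₂ e₂⁆ := by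
    intro e₁ e₁' e₂ h
    have hz : (θ₁ e₁')⁻¹ * θ₁ e₁ ∈ Subgroup.center Δ := by
      apply hτ.2.1
      rw [MonoidHom.mem_ker, map_mul, map_inv, h₁, h₁, h, inv_mul_cancel]
    have := commutatorElement_mul_central (a := θ₁ e₁') (b := θ₂ e₂) hz (Subgroup.center Δ).one_mem
    rw [mul_inv_cancel_left, mul_one] at this
    exact this
  have hind₂ : ∀ e₁ e₂ e₂', π₂ e₂ = π₂ e₂' → ⁅θ₁ e₁, θ₂ e₂⁆ = ⁅θ₁ e₁, θ₂ e₂'⁆ := by
    intro e₁ e₂ e₂' h
    have hz : (θ₂ e₂')⁻¹ * θ₂ e₂ ∈ Subgroup.center Δ := by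
      apply hτ.2.1
      rw [MonoidHom.mem_ker, map_mul, map_inv, h₂, h₂, h, inv_mul_cancel]
    have := commutatorElement_mul_central (a := θ₁ e₁) (b := θ₂ e₂') (Subgroup.center Δ).one_mem hz
    rw [mul_inv_cancel_left, mul_one] at this
    exact this
  have hbil₁ : ∀ e₁ e₁' e₂, ⁅θ₁ (e₁ * e₁'), θ₂ e₂⁆ = ⁅θ₁ e₁, θ₂ e₂⁆ * ⁅θ₁ e₁', θ₂ e₂⁆ := by
    intro e₁ e₁' e₂
    have hz := Subgroup.mem_center_iff.1 (hτ.2.1 (hcen e₁' e₂)) (θ₁ e₁)
    have hz' := Subgroup.mem_center_iff.1 (hτ.2.1 (hcen e₁' e₂)) (⁅θ₁ e₁, θ₂ e₂⁆)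
    rw [map_mul]
    have e : ⁅θ₁ e₁ * θ₁ e₁', θ₂ e₂⁆ = (θ₁ e₁ * ⁅θ₁ e₁', θ₂ e₂⁆) * (θ₁ e₁)⁻¹ * ⁅θ₁ e₁, θ₂ e₂⁆ := by
      simp only [commutatorElement_def]; group
    rw [e, hz, hz']
    group
  have hbil₂ : ∀ e₁ e₂ e₂', ⁅θ₁ e₁, θ₂ (e₂ * e₂')⁆ = ⁅θ₁ e₁, θ₂ e₂⁆ * ⁅θ₁ e₁, θ₂ e₂'⁆ := by
    intro e₁ e₂ e₂'
    have hz := Subgroup.mem_center_iff.1 (hτ.2.1 (hcen e₁ e₂')) (θ₂ e₂)
    rw [map_mul]
    have e : ⁅θ₁ e₁, θ₂ e₂ * θ₂ e₂'⁆ = ⁅θ₁ e₁, θ₂ e₂⁆ * (θ₂ e₂ * ⁅θ₁ e₁, θ₂ e₂'⁆) * (θ₂ e₂)⁻¹ := by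
      simp only [commutatorElement_def]; group
    rw [e, hz]
    group
  choose s₁ hs₁' using hs₁
  choose s₂ hs₂' using hs₂
  let b : Q₁ →* Q₂ →* τ.ker :=
    { toFun := fun q₁ =>
        { toFun := fun q₂ => ⟨⁅θ₁ (s₁ q₁), θ₂ (s₂ q₂)⁆, hcen _ _⟩
          map_one' := by
            ext
            show ⁅θ₁ (s₁ q₁), θ₂ (s₂ 1)⁆ = 1
            rw [hind₂ _ _ 1 (by rw [hs₂', map_one]), map_one, commutatorElement_one_right]
          map_mul' := by
            intro a c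
            ext
            show ⁅θ₁ (s₁ q₁), θ₂ (s₂ (a * c))⁆ = ⁅θ₁ (s₁ q₁), θ₂ (s₂ a)⁆ * ⁅θ₁ (s₁ q₁), θ₂ (s₂ c)⁆
            rw [← hbil₂]
            exact hind₂ _ _ _ (by rw [hs₂', map_mul, hs₂', hs₂']) }
      map_one' := by
        ext q₂
        show ⁅θ₁ (s₁ 1), θ₂ (s₂ q₂)⁆ = 1
        rw [hind₁ _ 1 _ (by rw [hs₁', map_one]), map_one, commutatorElement_one_left]
      map_mul' := by
        intro a c
        ext q₂
        show ⁅θ₁ (s₁ (a * c)), θ₂ (s₂ q₂)⁆ = ⁅θ₁ (s₁ a), θ₂ (s₂ q₂)⁆ * ⁅θ₁ (s₁ c), θ₂ (s₂ q₂)⁆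
        rw [← hbil₁]
        exact hind₁ _ _ _ (by rw [hs₁', map_mul, hs₁', hs₁']) }
  have hb : ∀ e₁ e₂, ((b (π₁ e₁) (π₂ e₂) : τ.ker) : Δ) = ⁅θ₁ e₁, θ₂ e₂⁆ := by
    intro e₁ e₂
    show ⁅θ₁ (s₁ (π₁ e₁)), θ₂ (s₂ (π₂ e₂))⁆ = _
    rw [hind₁ _ e₁ _ (hs₁' _), hind₂ _ _ e₂ (hs₂' _)]
  -- lift to the tensor product
  let bq : Q₁ →* (Abelianization Q₂ →* τ.ker) :=
    { toFun := fun q => Abelianization.lift (b q)
      map_one' := by
        refine MonoidHom.ext fun y => ?_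
        obtain ⟨y, rfl⟩ := of_surj y
        rw [Abelianization.lift_apply_of, map_one]; rfl
      map_mul' := by
        intro a c
        refine MonoidHom.ext fun y => ?_
        obtain ⟨y, rfl⟩ := of_surj y
        rw [MonoidHom.mul_apply, Abelianization.lift_apply_of, Abelianization.lift_apply_of,
          Abelianization.lift_apply_of, map_mul]; rfl }
  let b' : Abelianization Q₁ →* (Abelianization Q₂ →* τ.ker) := Abelianization.lift bq
  have hb' : ∀ x y, b' (Abelianization.of x) (Abelianization.of y) = b x y := by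
    intro x y
    have e1 : b' (Abelianization.of x) = bq x := Abelianization.lift_apply_of _ _
    rw [e1]
    show (Abelianization.lift (b x)) (Abelianization.of y) = _
    rw [Abelianization.lift_apply_of]
  let B : Additive (Abelianization Q₁) →+ Additive (Abelianization Q₂) →+ Additive τ.ker :=
    { toFun := fun a => MonoidHom.toAdditive (b' (Additive.toMul a))
      map_zero' := by
        refine AddMonoidHom.ext fun y => ?_
        show Additive.ofMul (b' (Additive.toMul 0) (Additive.toMul y)) = 0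
        rw [toMul_zero, map_one]; rfl
      map_add' := by
        intro a c
        refine AddMonoidHom.ext fun y => ?_
        show Additive.ofMul (b' (Additive.toMul (a + c)) (Additive.toMul y)) = _
        rw [toMul_add, map_mul]; rfl }
  let L : TensorProduct ℤ (Additive (Abelianization Q₁)) (Additive (Abelianization Q₂)) →+ Additive τ.ker :=
    TensorProduct.liftAddHom B (by
      intro r m n
      rw [map_zsmul, map_zsmul]
      rfl)
  have hL : ∀ m n, L (m ⊗ₜ[ℤ] n) = B m n := fun m n => TensorProduct.liftAddHom_tmul _ _ _ _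
  let f₃ : Multiplicative (TensorProduct ℤ (Additive (Abelianization Q₁)) (Additive (Abelianization Q₂))) →* τ.ker :=
    { toFun := fun t => Additive.toMul (L (Multiplicative.toAdd t))
      map_one' := by rw [toAdd_one, map_zero, toMul_zero]
      map_mul' := by intro a c; rw [toAdd_mul, map_add, toMul_add] }
  have hf₃ : ∀ x y, f₃ (tens Q₁ Q₂ x y) = b x y := by
    intro x y
    show Additive.toMul (L (Additive.ofMul (Abelianization.of x) ⊗ₜ[ℤ] Additive.ofMul (Abelianization.of y))) = _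
    rw [hL]
    exact hb' x y
  have hm₁ : ∀ m : mult π₁, θ₁ m ∈ τ.ker := by
    intro m
    rw [MonoidHom.mem_ker, h₁, (mem_mult.1 m.2).1]; rfl
  have hm₂ : ∀ m : mult π₂, θ₂ m ∈ τ.ker := by
    intro m
    rw [MonoidHom.mem_ker, h₂, (mem_mult.1 m.2).1]; rfl
  let f₁ : mult π₁ →* τ.ker :=
    { toFun := fun m => ⟨θ₁ m, hm₁ m⟩
      map_one' := by ext; simp
      map_mul' := by intro a c; ext; simp }
  let f₂ : mult π₂ →* τ.ker :=
    { toFun := fun m => ⟨θ₂ m, hm₂ m⟩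
      map_one' := by ext; simp
      map_mul' := by intro a c; ext; simp }
  refine ⟨f₁.coprod (f₂.coprod f₃), ?_⟩
  -- surjectivity
  let R : Subgroup Δ := f₃.range.map τ.ker.subtype
  have hRk : R ≤ τ.ker := by
    rintro _ ⟨x, _, rfl⟩
    exact x.2
  haveI hRn : R.Normal := normal_of_le_center (hRk.trans hτ.2.1)
  have hcomm : ∀ e₁ e₂, Commute (((QuotientGroup.mk' R).comp θ₁) e₁) (((QuotientGroup.mk' R).comp θ₂) e₂) := by
    intro e₁ e₂
    rw [commute_iff_eq, ← commutatorElement_eq_one_iff_mul_comm]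
    rw [MonoidHom.comp_apply, MonoidHom.comp_apply, ← map_commutatorElement]
    apply (QuotientGroup.eq_one_iff _).2
    refine ⟨b (π₁ e₁) (π₂ e₂), ⟨tens Q₁ Q₂ (π₁ e₁) (π₂ e₂), hf₃ _ _⟩, hb e₁ e₂⟩
  let Φ : E₁ × E₂ →* Δ ⧸ R := MonoidHom.noncommCoprod _ _ hcomm
  let τ' : Δ ⧸ R →* Q₁ × Q₂ := QuotientGroup.lift R τ hRk
  have hτ' : ∀ d, τ' (QuotientGroup.mk' R d) = τ d := fun d => rfl
  have hΦ : ∀ e, τ' (Φ e) = (MonoidHom.prodMap π₁ π₂) e := by
    rintro ⟨e₁, e₂⟩
    show τ' ((QuotientGroup.mk' R (θ₁ e₁)) * (QuotientGroup.mk' R (θ₂ e₂))) = (π₁ e₁, π₂ e₂)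
    rw [map_mul, hτ', hτ', h₁, h₂]
    simp
  have hπs : Function.Surjective (MonoidHom.prodMap π₁ π₂) := by
    rintro ⟨q₁, q₂⟩
    exact ⟨(s₁ q₁, s₂ q₂), Prod.ext (hs₁' q₁) (hs₂' q₂)⟩
  have hτ'c : τ'.ker ≤ Subgroup.center (Δ ⧸ R) := by
    intro x hx
    obtain ⟨d, rfl⟩ := QuotientGroup.mk'_surjective R x
    have hd : d ∈ Subgroup.center Δ := hτ.2.1 hx
    rw [Subgroup.mem_center_iff]
    intro y
    obtain ⟨y, rfl⟩ := QuotientGroup.mk'_surjective R y
    rw [← map_mul, ← map_mul, Subgroup.mem_center_iff.1 hd y]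
  have hmap := map_mult_eq (π := MonoidHom.prodMap π₁ π₂) (ξ := τ') hπs hτ'c Φ hΦ
  rintro ⟨z, hz⟩
  have hzm : QuotientGroup.mk' R z ∈ mult τ' := by
    rw [mem_mult]
    refine ⟨hz, ?_⟩
    have : (commutator Δ).map (QuotientGroup.mk' R) ≤ commutator (Δ ⧸ R) := by
      rw [commutator_def, commutator_def, Subgroup.map_commutator]
      exact Subgroup.commutator_mono le_top le_top
    exact this (Subgroup.mem_map_of_mem _ (hτ.2.2 hz))
  rw [← hmap] at hzm
  obtain ⟨⟨e₁, e₂⟩, he, hez⟩ := hzm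
  rw [SetLike.mem_coe, mem_mult] at he
  obtain ⟨hc₁, hc₂⟩ := mem_commutator_prod he.2
  have he' : (π₁ e₁, π₂ e₂) = (1, 1) := he.1
  rw [Prod.mk.injEq] at he'
  have hmem₁ : e₁ ∈ mult π₁ := mem_mult.2 ⟨he'.1, hc₁⟩
  have hmem₂ : e₂ ∈ mult π₂ := mem_mult.2 ⟨he'.2, hc₂⟩
  have hR : (θ₁ e₁ * θ₂ e₂)⁻¹ * z ∈ R := by
    rw [← QuotientGroup.ker_mk' R, MonoidHom.mem_ker, map_mul, map_inv, ← hez]
    show (QuotientGroup.mk' R (θ₁ e₁ * θ₂ e₂))⁻¹ * ((QuotientGroup.mk' R (θ₁ e₁)) * (QuotientGroup.mk' R (θ₂ e₂))) = 1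
    rw [map_mul, inv_mul_cancel]
  obtain ⟨_, ⟨t, rfl⟩, ht⟩ := hR
  refine ⟨(⟨e₁, hmem₁⟩, ⟨e₂, hmem₂⟩, t), ?_⟩
  apply Subtype.ext
  show θ₁ e₁ * (θ₂ e₂ * ((f₃ t : τ.ker) : Δ)) = z
  have ht' : ((f₃ t : τ.ker) : Δ) = (θ₁ e₁ * θ₂ e₂)⁻¹ * z := ht
  rw [ht']
  group

end Upper

theorem finite_tensor (M : Type u) (N : Type v) [AddCommGroup M] [AddCommGroup N] [Finite M] [Finite N] :
    Finite (TensorProduct ℤ M N) := by
  haveI : Module.Finite ℤ M := inferInstance
  haveI : Module.Finite ℤ N := inferInstance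
  have h := Module.Finite.tensorProduct ℤ M N
  refine @Module.finite_of_fg_torsion (TensorProduct ℤ M N) _ TensorProduct.leftModule h ?_
  intro x
  refine ⟨⟨(Nat.card M : ℤ), mem_nonZeroDivisors_of_ne_zero (by exact_mod_cast Nat.card_pos.ne')⟩, ?_⟩
  show (Nat.card M : ℤ) • x = 0
  induction x using TensorProduct.induction_on with
  | zero => exact smul_zero _
  | tmul a b =>
    rw [TensorProduct.smul_tmul']
    have : (Nat.card M : ℤ) • a = 0 := by
      rw [natCast_zsmul]; exact card_nsmul_eq_zero'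
    rw [this, TensorProduct.zero_tmul]
  | add a b ha hb => rw [smul_add, ha, hb, add_zero]

/-- Schur's formula for the multiplier of a direct product -/
theorem hasSchurMultiplier_prod {Q₁ : Type u} {Q₂ : Type v} [Group Q₁] [Group Q₂] [Finite Q₁] [Finite Q₂]
    {A : Type w} {B : Type x} [CommGroup A] [CommGroup B] (hA : HasSchurMultiplier Q₁ A) (hB : HasSchurMultiplier Q₂ B) :
    HasSchurMultiplier (Q₁ × Q₂)
      (A × B × Multiplicative (TensorProduct ℤ (Additive (Abelianization Q₁)) (Additive (Abelianization Q₂)))) := by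
  obtain ⟨eA⟩ := (hasSchurMultiplier_pres_iff Q₁).1 hA
  obtain ⟨eB⟩ := (hasSchurMultiplier_pres_iff Q₂).1 hB
  constructor
  · obtain ⟨Γ₁, _, hf₁, σ₁, h₁, ⟨e₁⟩⟩ := hA.1
    obtain ⟨Γ₂, _, hf₂, σ₂, h₂, ⟨e₂⟩⟩ := hB.1
    haveI : Finite (Multiplicative (TensorProduct ℤ (Additive (Abelianization Q₁)) (Additive (Abelianization Q₂)))) := by
      exact finite_tensor (Additive (Abelianization Q₁)) (Additive (Abelianization Q₂))
    refine ⟨BilExt (pull σ₁ σ₂), inferInstance, inferInstance, prodProj σ₁ σ₂, isStem_prodProj h₁ h₂, ?_⟩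
    exact ⟨(kerProdEquiv σ₁ σ₂).trans (MulEquiv.prodCongr e₁ (MulEquiv.prodCongr e₂ (MulEquiv.refl _)))⟩
  · intro Δ _ _ τ hτ
    -- lifts
    let τ₁ : (MonoidHom.ker ((MonoidHom.snd Q₁ Q₂).comp τ)) →* Q₁ := (MonoidHom.fst Q₁ Q₂).comp (τ.comp (Subgroup.subtype _))
    let τ₂ : (MonoidHom.ker ((MonoidHom.fst Q₁ Q₂).comp τ)) →* Q₂ := (MonoidHom.snd Q₁ Q₂).comp (τ.comp (Subgroup.subtype _))
    have hs₁ : Function.Surjective τ₁ := by
      intro q
      obtain ⟨d, hd⟩ := hτ.1 (q, 1)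
      refine ⟨⟨d, ?_⟩, ?_⟩
      · rw [MonoidHom.mem_ker]
        show (τ d).2 = 1
        rw [hd]
      · show (τ d).1 = q
        rw [hd]
    have hs₂ : Function.Surjective τ₂ := by
      intro q
      obtain ⟨d, hd⟩ := hτ.1 (1, q)
      refine ⟨⟨d, ?_⟩, ?_⟩
      · rw [MonoidHom.mem_ker]
        show (τ d).1 = 1
        rw [hd]
      · show (τ d).2 = q
        rw [hd]
    have hc₁ : τ₁.ker ≤ Subgroup.center _ := by
      rintro ⟨d, hd⟩ hk
      have hdk : d ∈ τ.ker := by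
        rw [MonoidHom.mem_ker]
        exact Prod.ext hk hd
      rw [Subgroup.mem_center_iff]
      rintro ⟨g, hg⟩
      exact Subtype.ext (Subgroup.mem_center_iff.1 (hτ.2.1 hdk) g)
    have hc₂ : τ₂.ker ≤ Subgroup.center _ := by
      rintro ⟨d, hd⟩ hk
      have hdk : d ∈ τ.ker := by
        rw [MonoidHom.mem_ker]
        exact Prod.ext hd hk
      rw [Subgroup.mem_center_iff]
      rintro ⟨g, hg⟩
      exact Subtype.ext (Subgroup.mem_center_iff.1 (hτ.2.1 hdk) g)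
    obtain ⟨θ₁, hθ₁⟩ := exists_lift (pres Q₁) τ₁ hs₁ hc₁
    obtain ⟨θ₂, hθ₂⟩ := exists_lift (pres Q₂) τ₂ hs₂ hc₂
    obtain ⟨f, hf⟩ := upper (toG_surjective (pres_surjective Q₁)) (toG_surjective (pres_surjective Q₂)) τ hτ
      ((Subgroup.subtype _).comp θ₁) ((Subgroup.subtype _).comp θ₂)
      (fun e => Prod.ext (hθ₁ e) (θ₁ e).2) (fun e => Prod.ext (θ₂ e).2 (hθ₂ e))
    refine ⟨f.comp (MulEquiv.prodCongr eA.symm (MulEquiv.prodCongr eB.symm (MulEquiv.refl _))).toMonoidHom, ?_⟩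
    exact hf.comp (MulEquiv.surjective _)

theorem congr_right {G : Type u} [Group G] {A : Type v} {B : Type w} [CommGroup A] [CommGroup B] (e : A ≃* B)
    (h : HasSchurMultiplier G A) : HasSchurMultiplier G B := by
  obtain ⟨⟨Γ, _, hf, σ, hσ, ⟨f⟩⟩, h2⟩ := h
  refine ⟨⟨Γ, inferInstance, hf, σ, hσ, ⟨f.trans e⟩⟩, ?_⟩
  intro Δ _ _ τ hτ
  obtain ⟨π, hπ⟩ := h2 Δ τ hτ
  exact ⟨π.comp e.symm.toMonoidHom, hπ.comp e.symm.surjective⟩

/-- post-composition of a stem extension with an isomorphism -/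
theorem isStem_comp_equiv {Γ : Type u} {G : Type v} {H : Type w} [Group Γ] [Group G] [Group H] {σ : Γ →* G}
    (h : IsStemExtension σ) (e : G ≃* H) : IsStemExtension (e.toMonoidHom.comp σ) ∧ (e.toMonoidHom.comp σ).ker = σ.ker := by
  have hk : (e.toMonoidHom.comp σ).ker = σ.ker := by
    ext x
    rw [MonoidHom.mem_ker, MonoidHom.mem_ker, MonoidHom.comp_apply]
    exact e.map_eq_one_iff
  refine ⟨⟨e.surjective.comp h.1, ?_, ?_⟩, hk⟩
  · rw [hk]; exact h.2.1
  · rw [hk]; exact h.2.2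

theorem congr_left {G : Type u} {H : Type v} [Group G] [Group H] [Finite G] {A : Type w} [CommGroup A] (e : G ≃* H)
    (h : HasSchurMultiplier G A) : HasSchurMultiplier H A := by
  haveI : Finite H := Finite.of_equiv _ e.toEquiv
  have h1 := (hasSchurMultiplier_pres_iff G).1 h
  have h2 : Function.Surjective (e.toMonoidHom.comp (pres G)) := e.surjective.comp (pres_surjective G)
  rw [hasSchurMultiplier_iff (e.toMonoidHom.comp (pres G)) h2]
  have hk : (e.toMonoidHom.comp (pres G)).ker = (pres G).ker := by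
    ext x
    rw [MonoidHom.mem_ker, MonoidHom.mem_ker, MonoidHom.comp_apply]
    exact e.map_eq_one_iff
  obtain ⟨θ, _, hθ⟩ := exists_lift_of_hom (pres G) (e.symm.toMonoidHom.comp (toG (e.toMonoidHom.comp (pres G)))) (by
      intro x hx
      apply ker_toG_le_center (e.toMonoidHom.comp (pres G))
      rw [MonoidHom.mem_ker] at hx ⊢
      exact (e.symm.map_eq_one_iff).1 hx) (mkUE _) (by
      intro f
      show e.symm (e (pres G f)) = _
      exact e.symm_apply_apply _)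
  obtain ⟨η, _, hη⟩ := exists_lift_of_hom (e.toMonoidHom.comp (pres G)) (e.toMonoidHom.comp (toG (pres G))) (by
      intro x hx
      apply ker_toG_le_center (pres G)
      rw [MonoidHom.mem_ker] at hx ⊢
      exact (e.map_eq_one_iff).1 hx) (mkUE _) (by
      intro f; rfl)
  obtain ⟨f⟩ := h1
  have hη' : ∀ x, toG (pres G) (η x) = (e.symm.toMonoidHom.comp (toG (e.toMonoidHom.comp (pres G)))) x := by
    intro x
    have := hη x
    rw [MonoidHom.comp_apply, ← this]
    exact (e.symm_apply_apply _).symm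
  have hm : mult (e.symm.toMonoidHom.comp (toG (e.toMonoidHom.comp (pres G)))) = mult (toG (e.toMonoidHom.comp (pres G))) := by
    ext x
    rw [mem_mult, mem_mult]
    refine and_congr_left fun _ => ?_
    exact e.symm.map_eq_one_iff
  have e1 := multEquiv (π := toG (pres G)) (ξ := e.symm.toMonoidHom.comp (toG (e.toMonoidHom.comp (pres G))))
    (ker_toG_le_center _) (by
      intro x hx
      apply ker_toG_le_center (e.toMonoidHom.comp (pres G))
      rw [MonoidHom.mem_ker] at hx ⊢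
      exact (e.symm.map_eq_one_iff).1 hx) θ hθ η hη'
  exact ⟨((MulEquiv.subgroupCongr hm).symm.trans e1.symm).trans f⟩

theorem subsingleton_tensor (M : Type u) (N : Type v) [AddCommGroup M] [AddCommGroup N]
    (h : Nat.Coprime (Nat.card M) (Nat.card N)) : Subsingleton (TensorProduct ℤ M N) := by
  have key : ∀ x : TensorProduct ℤ M N, x = 0 := by
    intro x
    induction x using TensorProduct.induction_on with
    | zero => rfl
    | tmul a b =>
      have h1 : (Nat.card M : ℤ) • (a ⊗ₜ[ℤ] b) = 0 := by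
        rw [TensorProduct.smul_tmul', natCast_zsmul, card_nsmul_eq_zero', TensorProduct.zero_tmul]
      have h2 : (Nat.card N : ℤ) • (a ⊗ₜ[ℤ] b) = 0 := by
        rw [← TensorProduct.tmul_smul, natCast_zsmul, card_nsmul_eq_zero', TensorProduct.tmul_zero]
      have h3 : IsCoprime (Nat.card M : ℤ) (Nat.card N : ℤ) := Nat.isCoprime_iff_coprime.2 h
      obtain ⟨u, v, huv⟩ := h3
      calc a ⊗ₜ[ℤ] b = (1 : ℤ) • (a ⊗ₜ[ℤ] b) := (one_smul _ _).symm
        _ = u • ((Nat.card M : ℤ) • (a ⊗ₜ[ℤ] b)) + v • ((Nat.card N : ℤ) • (a ⊗ₜ[ℤ] b)) := by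
            rw [← huv, add_smul, mul_smul, mul_smul]
        _ = 0 := by rw [h1, h2, smul_zero, smul_zero, add_zero]
    | add a b ha hb => rw [ha, hb, add_zero]
  exact ⟨fun a b => by rw [key a, key b]⟩

end Cfsg.Agent.Lib.SchurProd
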