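import Mathlib
import Cfsg.Agent.Lib.SchurProd
import Cfsg.Agent.Lib.SchurFiber
import Cfsg.Agent.Lib.SchurTwoGen

/-!
Schur multipliers of abelian groups (helper66).
-/

set_option autoImplicit false
set_option linter.style.haveILetI false

namespace Cfsg.Agent.Lib.SchurAbel

open Cfsg Cfsg.Agent.Lib.SchurMult Cfsg.Agent.Lib.SchurProd Cfsg.Agent.Lib.SchurFiber Cfsg.Agent.Lib.SchurTwoGen
open scoped commutatorElement TensorProduct

universe u v w x

/-- universal property of `tens` -/
theorem tens_lift {Q₁ : Type u} {Q₂ : Type v} [Group Q₁] [Group Q₂] {Z : Type w} [CommGroup Z] (b : Q₁ →* Q₂ →* Z) :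
    ∃ f : Multiplicative (TensorProduct ℤ (Additive (Abelianization Q₁)) (Additive (Abelianization Q₂))) →* Z,
      ∀ x y, f (tens Q₁ Q₂ x y) = b x y := by
  let bq : Q₁ →* (Abelianization Q₂ →* Z) :=
    { toFun := fun q => Abelianization.lift (b q)
      map_one' := by
        refine MonoidHom.ext fun y => ?_
        obtain ⟨y, rfl⟩ := of_surj y
        rw [Abelianization.lift_apply_of, map_one]; rfl
      map_mul' := by
        intro a c
        refine MonoidHom.ext fun y => ?_
        obtain ⟨y, rfl⟩ := of_surj y
        rw [MonoidHom.mul_apply, Abelianization.lift_apply_of, Abelianization.lift_apply_of,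
          Abelianization.lift_apply_of, map_mul]; rfl }
  let b' : Abelianization Q₁ →* (Abelianization Q₂ →* Z) := Abelianization.lift bq
  have hb' : ∀ x y, b' (Abelianization.of x) (Abelianization.of y) = b x y := by
    intro x y
    have e1 : b' (Abelianization.of x) = bq x := Abelianization.lift_apply_of _ _
    rw [e1]
    show (Abelianization.lift (b x)) (Abelianization.of y) = _
    rw [Abelianization.lift_apply_of]
  let B : Additive (Abelianization Q₁) →+ Additive (Abelianization Q₂) →+ Additive Z :=
    { toFun := fun a => MonoidHom.toAdditive (b' (Additive.toMul a))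
      map_zero' := by
        refine AddMonoidHom.ext fun y => ?_
        show Additive.ofMul (b' (Additive.toMul 0) (Additive.toMul y)) = 0
        rw [toMul_zero, map_one]; rfl
      map_add' := by
        intro a c
        refine AddMonoidHom.ext fun y => ?_
        show Additive.ofMul (b' (Additive.toMul (a + c)) (Additive.toMul y)) = _
        rw [toMul_add, map_mul]; rfl }
  let L : TensorProduct ℤ (Additive (Abelianization Q₁)) (Additive (Abelianization Q₂)) →+ Additive Z :=
    TensorProduct.liftAddHom B (by
      intro r m n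
      rw [map_zsmul, map_zsmul]
      rfl)
  have hL : ∀ m n, L (m ⊗ₜ[ℤ] n) = B m n := fun m n => TensorProduct.liftAddHom_tmul _ _ _ _
  refine ⟨{ toFun := fun t => Additive.toMul (L (Multiplicative.toAdd t))
            map_one' := by rw [toAdd_one, map_zero, toMul_zero]
            map_mul' := by intro a c; rw [toAdd_mul, map_add, toMul_add] }, ?_⟩
  intro x y
  show Additive.toMul (L (Additive.ofMul (Abelianization.of x) ⊗ₜ[ℤ] Additive.ofMul (Abelianization.of y))) = _
  rw [hL]
  exact hb' x y

/-- the tensor product of two cyclic groups -/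
theorem tens_zmod (m n : ℕ) [NeZero m] [NeZero n] (hnm : n ∣ m) :
    ∃ g : Multiplicative (TensorProduct ℤ (Additive (Abelianization (Multiplicative (ZMod m))))
        (Additive (Abelianization (Multiplicative (ZMod n))))), orderOf g = n ∧ Subgroup.zpowers g = ⊤ := by
  let g := tens (Multiplicative (ZMod m)) (Multiplicative (ZMod n)) (Multiplicative.ofAdd 1) (Multiplicative.ofAdd 1)
  refine ⟨g, ?_, ?_⟩
  · have h1 : g ^ n = 1 := by
      have : g ^ n = tens (Multiplicative (ZMod m)) (Multiplicative (ZMod n)) (Multiplicative.ofAdd 1) ((Multiplicative.ofAdd 1) ^ n) := by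
        rw [map_pow]
      rw [this, ← ofAdd_nsmul, nsmul_one, ZMod.natCast_self, ofAdd_zero, map_one]
    let b : Multiplicative (ZMod m) →* Multiplicative (ZMod n) →* Multiplicative (ZMod n) :=
      { toFun := fun x => AddMonoidHom.toMultiplicative (AddMonoidHom.mulLeft (ZMod.castHom hnm (ZMod n) (Multiplicative.toAdd x)))
        map_one' := by
          refine MonoidHom.ext fun y => ?_
          show Multiplicative.ofAdd (ZMod.castHom hnm (ZMod n) (Multiplicative.toAdd 1) * Multiplicative.toAdd y) = 1
          rw [toAdd_one, map_zero, zero_mul, ofAdd_zero]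
        map_mul' := by
          intro a c
          refine MonoidHom.ext fun y => ?_
          show Multiplicative.ofAdd (ZMod.castHom hnm (ZMod n) (Multiplicative.toAdd (a * c)) * Multiplicative.toAdd y) =
            Multiplicative.ofAdd (ZMod.castHom hnm (ZMod n) (Multiplicative.toAdd a) * Multiplicative.toAdd y) *
            Multiplicative.ofAdd (ZMod.castHom hnm (ZMod n) (Multiplicative.toAdd c) * Multiplicative.toAdd y)
          rw [toAdd_mul, map_add, add_mul, ofAdd_add] }
    obtain ⟨f, hf⟩ := tens_lift b
    have h2 : f g = Multiplicative.ofAdd 1 := by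
      rw [hf]
      show Multiplicative.ofAdd (ZMod.castHom hnm (ZMod n) 1 * 1) = Multiplicative.ofAdd 1
      rw [map_one, one_mul]
    apply Nat.dvd_antisymm (orderOf_dvd_of_pow_eq_one h1)
    have h3 : orderOf (f g) ∣ orderOf g := orderOf_map_dvd _ _
    rw [h2] at h3
    have h4 : orderOf (Multiplicative.ofAdd (1 : ZMod n)) = n := by
      rw [orderOf_ofAdd_eq_addOrderOf, ZMod.addOrderOf_one]
    rwa [h4] at h3
  · apply tens_closure
    intro x y
    obtain ⟨a, rfl⟩ : ∃ a : ℕ, (Multiplicative.ofAdd (1 : ZMod m)) ^ a = x := by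
      refine ⟨(Multiplicative.toAdd x).val, ?_⟩
      rw [← ofAdd_nsmul, nsmul_one, ZMod.natCast_zmod_val, ofAdd_toAdd]
    obtain ⟨c, rfl⟩ : ∃ c : ℕ, (Multiplicative.ofAdd (1 : ZMod n)) ^ c = y := by
      refine ⟨(Multiplicative.toAdd y).val, ?_⟩
      rw [← ofAdd_nsmul, nsmul_one, ZMod.natCast_zmod_val, ofAdd_toAdd]
    rw [map_pow, map_pow, MonoidHom.pow_apply]
    exact Subgroup.pow_mem _ (Subgroup.pow_mem _ (Subgroup.mem_zpowers _) _) _

theorem mult_zmod_prod (m n : ℕ) [NeZero m] [NeZero n] (hnm : n ∣ m) :
    HasCyclicSchurMultiplier (Multiplicative (ZMod m × ZMod n)) n := by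
  have hA : HasCyclicSchurMultiplier (Multiplicative (ZMod m)) 1 := SchurBasic.hasCyclic_one_of_isCyclic _
  have hB : HasCyclicSchurMultiplier (Multiplicative (ZMod n)) 1 := SchurBasic.hasCyclic_one_of_isCyclic _
  have h1 := hasSchurMultiplier_prod hA hB
  obtain ⟨g, hg, hgt⟩ := tens_zmod m n hnm
  let e : Multiplicative (ZMod m) × Multiplicative (ZMod n) ≃* Multiplicative (ZMod m × ZMod n) :=
    (MulEquiv.prodMultiplicative (ZMod m) (ZMod n)).symm
  have h2 := congr_left e h1
  have hcyc : IsCyclic (Multiplicative (TensorProduct ℤ (Additive (Abelianization (Multiplicative (ZMod m))))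
        (Additive (Abelianization (Multiplicative (ZMod n)))))) := by
    refine ⟨g, fun x => ?_⟩
    have hx : x ∈ Subgroup.zpowers g := by rw [hgt]; trivial
    exact Subgroup.mem_zpowers_iff.1 hx
  have hcard : Nat.card (Multiplicative (TensorProduct ℤ (Additive (Abelianization (Multiplicative (ZMod m))))
        (Additive (Abelianization (Multiplicative (ZMod n)))))) = n := by
    have h3 : Nat.card (Subgroup.zpowers g) = n := by rw [Nat.card_zpowers, hg]
    rw [hgt] at h3
    exact (Nat.card_congr (Subgroup.topEquiv).toEquiv).symm.trans h3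
  haveI : Unique (Multiplicative (ZMod 1)) := inferInstanceAs (Unique (ZMod 1))
  refine congr_right ?_ h2
  have e1 : Multiplicative (TensorProduct ℤ (Additive (Abelianization (Multiplicative (ZMod m))))
        (Additive (Abelianization (Multiplicative (ZMod n))))) ≃* Multiplicative (ZMod n) := by
    have := (zmodCyclicMulEquiv hcyc).symm
    rwa [hcard] at this
  exact (MulEquiv.uniqueProd.trans MulEquiv.uniqueProd).trans e1

/-- An abelian group with a surjection onto `C × D` with nontrivial `C ⊗ D` has nontrivial multiplier -/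
theorem not_trivial_of_surj {G : Type u} [CommGroup G] [Finite G] {C : Type v} {D : Type w} [CommGroup C] [CommGroup D]
    (φ : G →* C × D) (hφ : Function.Surjective φ) (x : C) (y : D) (hxy : tens C D x y ≠ 1) :
    ¬ HasCyclicSchurMultiplier G 1 := by
  intro h
  let τ := prodProj (MonoidHom.id C) (MonoidHom.id D)
  have hτ : IsStemExtension τ := isStem_prodProj (SchurBasic.isStem_id C) (SchurBasic.isStem_id D)
  have hm := mult_eq_bot_of_trivial h (p1 φ τ) (p1_surjective hτ.1) (ker_p1_le_center hτ.2.1)
  let k : BilExt (pull (MonoidHom.id C) (MonoidHom.id D)) := BilExt.inT _ (tens C D x y)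
  have hk : k ∈ τ.ker := mem_ker_prodProj.2 ⟨rfl, rfl⟩
  have hk1 : k ≠ 1 := by
    intro h1
    apply hxy
    exact congrArg BilExt.thd h1
  have hk2 : k ∈ commutator _ := hτ.2.2 hk
  -- lift to the commutator subgroup of the fibre product
  have hmap : (commutator (fib φ τ)).map (p2 φ τ) = commutator _ := by
    rw [commutator_def, Subgroup.map_commutator, Subgroup.map_top_of_surjective _ (p2_surjective hφ), ← commutator_def]
  rw [← hmap] at hk2
  obtain ⟨p, hp, hpk⟩ := hk2
  have hp1 : p1 φ τ p = 1 := by
    have h1 : commutator (fib φ τ) ≤ (p1 φ τ).ker := SchurBasic.commutator_le_ker _ (fun a b => mul_comm _ _)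
    exact h1 hp
  have h2 : p ∈ mult (p1 φ τ) := mem_mult.2 ⟨hp1, hp⟩
  rw [hm, Subgroup.mem_bot] at h2
  rw [h2, map_one] at hpk
  exact hk1 hpk.symm

theorem isCyclic_of_trivial {G : Type u} [CommGroup G] [Finite G] (h : HasCyclicSchurMultiplier G 1) : IsCyclic G := by
  classical
  obtain ⟨ι, hι, n, hn, ⟨e⟩⟩ := CommGroup.equiv_prod_multiplicative_zmod_of_finite G
  by_cases hco : Pairwise (Function.onFun Nat.Coprime n)
  · have e2 : ZMod (∏ i, n i) ≃+* (∀ i, ZMod (n i)) := ZMod.prodEquivPi n hco
    let f : Multiplicative (ZMod (∏ i, n i)) →* G :=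
      e.symm.toMonoidHom.comp
        { toFun := fun x i => Multiplicative.ofAdd (e2 (Multiplicative.toAdd x) i)
          map_one' := by
            funext i
            rw [toAdd_one, map_zero]; rfl
          map_mul' := by
            intro a b
            funext i
            rw [toAdd_mul, map_add]; rfl }
    apply isCyclic_of_surjective f
    intro g
    obtain ⟨y, rfl⟩ := e.symm.surjective g
    refine ⟨Multiplicative.ofAdd (e2.symm (fun i => Multiplicative.toAdd (y i))), ?_⟩
    show e.symm _ = e.symm y
    congr 1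
    funext i
    show Multiplicative.ofAdd (e2 (e2.symm (fun i => Multiplicative.toAdd (y i))) i) = y i
    rw [RingEquiv.apply_symm_apply]
    rfl
  · exfalso
    rw [Pairwise] at hco
    push Not at hco
    obtain ⟨i, j, hij, hc⟩ := hco
    have hc' : ¬ Nat.Coprime (n i) (n j) := hc
    obtain ⟨p, hp, hpi, hpj⟩ := Nat.Prime.not_coprime_iff_dvd.1 hc'
    haveI : NeZero p := ⟨hp.ne_zero⟩
    haveI : Fact (1 < p) := ⟨hp.one_lt⟩
    let φ₀ : (∀ i, Multiplicative (ZMod (n i))) →* Multiplicative (ZMod p) × Multiplicative (ZMod p) :=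
      MonoidHom.prod
        ((AddMonoidHom.toMultiplicative (ZMod.castHom hpi (ZMod p)).toAddMonoidHom).comp (Pi.evalMonoidHom _ i))
        ((AddMonoidHom.toMultiplicative (ZMod.castHom hpj (ZMod p)).toAddMonoidHom).comp (Pi.evalMonoidHom _ j))
    have hφ₀ : Function.Surjective φ₀ := by
      rintro ⟨a, b⟩
      obtain ⟨a', ha'⟩ := ZMod.castHom_surjective hpi (Multiplicative.toAdd a)
      obtain ⟨b', hb'⟩ := ZMod.castHom_surjective hpj (Multiplicative.toAdd b)
      let Y0 : ∀ k, Multiplicative (ZMod (n k)) := 1
      let Y : ∀ k, Multiplicative (ZMod (n k)) := Function.update (Function.update Y0 i (Multiplicative.ofAdd a')) j (Multiplicative.ofAdd b')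
      have hY1 : Y i = Multiplicative.ofAdd a' := by
        show Function.update (Function.update Y0 i (Multiplicative.ofAdd a')) j (Multiplicative.ofAdd b') i = _
        rw [Function.update_of_ne hij, Function.update_self]
      have hY2 : Y j = Multiplicative.ofAdd b' := Function.update_self _ _ _
      refine ⟨Y, ?_⟩
      apply Prod.ext
      · show Multiplicative.ofAdd (ZMod.castHom hpi (ZMod p) (Multiplicative.toAdd (Y i))) = a
        rw [hY1, toAdd_ofAdd, ha']
        rfl
      · show Multiplicative.ofAdd (ZMod.castHom hpj (ZMod p) (Multiplicative.toAdd (Y j))) = b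
        rw [hY2, toAdd_ofAdd, hb']
        rfl
    obtain ⟨g, hg, hgt⟩ := tens_zmod p p dvd_rfl
    have hne : ∃ x y, tens (Multiplicative (ZMod p)) (Multiplicative (ZMod p)) x y ≠ 1 := by
      by_contra hcon
      push Not at hcon
      have h1 := tens_closure (⊥ : Subgroup _) (fun x y => Subgroup.mem_bot.2 (hcon x y))
      have h2 : g ∈ (⊥ : Subgroup (Multiplicative (TensorProduct ℤ (Additive (Abelianization (Multiplicative (ZMod p))))
        (Additive (Abelianization (Multiplicative (ZMod p))))))) := by rw [h1]; trivial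
      rw [Subgroup.mem_bot] at h2
      rw [h2, orderOf_one] at hg
      exact hp.one_lt.ne hg
    obtain ⟨x, y, hxy⟩ := hne
    exact not_trivial_of_surj (φ₀.comp e.toMonoidHom) (hφ₀.comp e.surjective) x y hxy h

end Cfsg.Agent.Lib.SchurAbel
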