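import Cfsg.Agent.Lib.FrobDiv

set_option autoImplicit false

/-!
Burnside--Schur for cyclic groups of prime power order `p ^ m`, `m ≥ 2`:
a primitive group containing a regular cyclic subgroup of order `p ^ m` is doubly transitive.
-/

namespace Cfsg.Agent.Lib.SchurCyclic

open Finset

universe u

section frob
variable {p n : ℕ} [hp : Fact p.Prime] [NeZero n]

/-- translation operator -/
def tau (t : ZMod n) : Module.End (ZMod p) (ZMod n → ZMod p) where
  toFun f := fun x => f (x + t)
  map_add' _ _ := rfl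
  map_smul' _ _ := rfl

theorem tau_apply (t : ZMod n) (f : ZMod n → ZMod p) (x : ZMod n) : tau t f x = f (x + t) := rfl

theorem tau_mul (s t : ZMod n) : (tau s : Module.End (ZMod p) (ZMod n → ZMod p)) * tau t = tau (s + t) := by
  ext f x
  show _ = _
  simp only [Module.End.mul_apply, LinearMap.comp_apply]
  rw [tau_apply, tau_apply, tau_apply, add_assoc]

theorem tau_pow (t : ZMod n) (k : ℕ) : (tau t : Module.End (ZMod p) (ZMod n → ZMod p)) ^ k = tau (k • t) := by
  induction k with
  | zero =>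
    rw [pow_zero, zero_smul]
    apply LinearMap.ext; intro f; funext x
    rw [tau_apply, add_zero]; rfl
  | succ k ih => rw [pow_succ, ih, tau_mul, succ_nsmul]

instance : CharP (Module.End (ZMod p) (ZMod n → ZMod p)) p :=
  charP_of_injective_algebraMap (FaithfulSMul.algebraMap_injective (ZMod p) _) p

theorem sum_tau_pow (T : Finset (ZMod n)) :
    (∑ t ∈ T, (tau t : Module.End (ZMod p) (ZMod n → ZMod p))) ^ p = ∑ t ∈ T, tau (p • t) := by
  classical
  induction T using Finset.induction_on with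
  | empty => simp [hp.1.ne_zero]
  | insert a T ha ih =>
    rw [Finset.sum_insert ha, Finset.sum_insert ha, ← ih, ← tau_pow]
    apply add_pow_char_of_commute
    refine Commute.sum_right _ _ _ fun t _ => ?_
    show tau a * tau t = tau t * tau a
    rw [tau_mul, tau_mul, add_comm]
end frob

section main
variable {p n : ℕ} [hp : Fact p.Prime] [NeZero n] {Γ : Type u} [Group Γ] [MulAction Γ (ZMod n)]

/-- invariance of a set of differences -/
def InvSet (Γ : Type u) [Group Γ] {n : ℕ} [MulAction Γ (ZMod n)] (S : Set (ZMod n)) : Prop :=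
  ∀ (γ : Γ) (x y : ZMod n), y - x ∈ S → γ • y - γ • x ∈ S

theorem InvSet.iff {S : Set (ZMod n)} (h : InvSet Γ S) (γ : Γ) (x y : ZMod n) :
    γ • y - γ • x ∈ S ↔ y - x ∈ S := by
  refine ⟨fun h1 => ?_, h γ x y⟩
  have := h γ⁻¹ _ _ h1
  rwa [inv_smul_smul, inv_smul_smul] at this

theorem closure_inv {U : Set (ZMod n)} (hU : InvSet Γ U) : InvSet Γ (AddSubgroup.closure U : Set (ZMod n)) := by
  have key : ∀ z ∈ AddSubgroup.closure U, ∀ (γ : Γ) (x : ZMod n), γ • (x + z) - γ • x ∈ AddSubgroup.closure U := by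
    intro z hz
    induction hz using AddSubgroup.closure_induction with
    | mem u hu =>
      intro γ x
      exact AddSubgroup.subset_closure (hU γ x (x + u) (by rw [add_sub_cancel_left]; exact hu))
    | zero => intro γ x; rw [add_zero, sub_self]; exact zero_mem _
    | add a b _ _ ha hb =>
      intro γ x
      have h1 := hb γ (x + a)
      have h2 := ha γ x
      have := add_mem h1 h2
      rwa [sub_add_sub_cancel, add_assoc] at this
    | neg a _ ha =>
      intro γ x
      have h1 := ha γ (x + -a)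
      rw [neg_add_cancel_right] at h1
      have := neg_mem h1
      rwa [neg_sub] at this
  intro γ x y hxy
  have := key _ hxy γ x
  rwa [add_sub_cancel] at this

/-- orbit of the stabilizer of `0` -/
def Orb (Γ : Type u) [Group Γ] {n : ℕ} [MulAction Γ (ZMod n)] (t : ZMod n) : Set (ZMod n) :=
  {y | ∃ γ : Γ, γ • (0 : ZMod n) = 0 ∧ γ • t = y}

theorem mem_orb_self (t : ZMod n) : t ∈ Orb Γ t := ⟨1, one_smul _ _, one_smul _ _⟩

theorem orb_eq {t s : ZMod n} (h : s ∈ Orb Γ t) : Orb Γ s = Orb Γ t := by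
  obtain ⟨γ, h0, rfl⟩ := h
  ext y
  constructor
  · rintro ⟨δ, h1, rfl⟩
    exact ⟨δ * γ, by rw [mul_smul, h0, h1], by rw [mul_smul]⟩
  · rintro ⟨δ, h1, rfl⟩
    refine ⟨δ * γ⁻¹, ?_, by rw [mul_smul, inv_smul_smul]⟩
    rw [mul_smul]
    have : γ⁻¹ • (0 : ZMod n) = 0 := by rw [inv_smul_eq_iff, h0]
    rw [this, h1]

theorem orb_inv (htr : ∀ x : ZMod n, ∃ γ : Γ, ∀ y : ZMod n, γ • y = y + x) (t : ZMod n) :
    InvSet Γ (Orb Γ t) := by
  rintro γ x y ⟨δ, hδ0, hδ⟩
  obtain ⟨σ, hσ⟩ := htr x
  obtain ⟨τ, hτ⟩ := htr (-(γ • x))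
  refine ⟨τ * γ * σ * δ, ?_, ?_⟩
  · rw [mul_smul, mul_smul, mul_smul, hδ0, hσ, zero_add, hτ, add_neg_cancel]
  · rw [mul_smul, mul_smul, mul_smul, hδ, hσ, sub_add_cancel, hτ, sub_eq_add_neg]

/-- the number of ways function is constant on orbits -/
theorem count_inv {T : Set (ZMod n)} (hT : InvSet Γ T) (γ : Γ) (x y : ZMod n) :
    Nat.card {z : ZMod n // z ∈ T ∧ z - (γ • y - γ • x) ∈ T} = Nat.card {z : ZMod n // z ∈ T ∧ z - (y - x) ∈ T} := by
  symm
  refine Nat.card_congr ⟨fun z => ⟨γ • (z.1 + x) - γ • x, ?_, ?_⟩, fun z => ⟨γ⁻¹ • (z.1 + γ • x) - x, ?_, ?_⟩, ?_, ?_⟩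
  · rw [hT.iff]; simpa using z.2.1
  · have h1 : γ • (z.1 + x) - γ • x - (γ • y - γ • x) = γ • (z.1 + x) - γ • y := by ring
    rw [h1, hT.iff]
    have h2 : z.1 + x - y = z.1 - (y - x) := by ring
    rw [h2]; exact z.2.2
  · have h1 := z.2.1
    rw [← hT.iff γ, smul_inv_smul, add_sub_cancel_right]
    exact h1
  · have h1 := z.2.2
    have h2 : γ⁻¹ • (z.1 + γ • x) - x - (y - x) = γ⁻¹ • (z.1 + γ • x) - y := by ring
    rw [h2, ← hT.iff γ, smul_inv_smul]
    have h3 : z.1 + γ • x - γ • y = z.1 - (γ • y - γ • x) := by ring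
    rw [h3]; exact h1
  · intro z
    apply Subtype.ext
    show γ⁻¹ • (γ • (z.1 + x) - γ • x + γ • x) - x = z.1
    rw [sub_add_cancel, inv_smul_smul, add_sub_cancel_right]
  · intro z
    apply Subtype.ext
    show γ • (γ⁻¹ • (z.1 + γ • x) - x + x) - γ • x = z.1
    rw [sub_add_cancel, smul_inv_smul, add_sub_cancel_right]

/-- Schur's `p`-th power argument -/
theorem power_inv {T : Finset (ZMod n)} (hT : InvSet Γ (T : Set (ZMod n))) (γ : Γ) (x y : ZMod n) :
    (((T.filter (fun t => p • t = γ • y - γ • x)).card : ℕ) : ZMod p) =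
      ((T.filter (fun t => p • t = y - x)).card : ZMod p) := by
  classical
  set L : Module.End (ZMod p) (ZMod n → ZMod p) := ∑ t ∈ T, tau t with hL
  have hLa : ∀ (f : ZMod n → ZMod p) (x : ZMod n), L f x = ∑ t ∈ T, f (x + t) := by
    intro f x
    rw [hL, LinearMap.sum_apply, Finset.sum_apply]
    rfl
  -- `L` commutes with the action
  have hcomm : ∀ (f : ZMod n → ZMod p) (x : ZMod n), L (fun z => f (γ • z)) x = L f (γ • x) := by
    intro f x
    rw [hLa, hLa]
    refine Finset.sum_bij' (fun t _ => γ • (x + t) - γ • x) (fun t _ => γ⁻¹ • (γ • x + t) - x) ?_ ?_ ?_ ?_ ?_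
    · intro t ht
      have := hT γ x (x + t) (by rw [add_sub_cancel_left]; exact ht)
      exact this
    · intro t ht
      have := hT γ⁻¹ (γ • x) (γ • x + t) (by rw [add_sub_cancel_left]; exact ht)
      rw [inv_smul_smul] at this
      exact this
    · intro t _
      rw [add_sub_cancel, inv_smul_smul, add_sub_cancel_left]
    · intro t _
      rw [add_sub_cancel, smul_inv_smul, add_sub_cancel_left]
    · intro t _
      rw [add_sub_cancel]
  have hcommk : ∀ (k : ℕ) (f : ZMod n → ZMod p) (x : ZMod n), (L ^ k) (fun z => f (γ • z)) x = (L ^ k) f (γ • x) := by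
    intro k
    induction k with
    | zero => intro f x; rfl
    | succ k ih =>
      intro f x
      rw [pow_succ', Module.End.mul_apply, Module.End.mul_apply]
      have : (L ^ k) (fun z => f (γ • z)) = fun z => (L ^ k) f (γ • z) := by
        funext z; exact ih f z
      rw [this, hcomm]
  have hLp : ∀ (f : ZMod n → ZMod p) (x : ZMod n), (L ^ p) f x = ∑ t ∈ T, f (x + p • t) := by
    intro f x
    rw [hL, sum_tau_pow, LinearMap.sum_apply, Finset.sum_apply]
    rfl
  have h1 := hcommk p (fun z => if z = γ • y then 1 else 0) x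
  rw [hLp, hLp] at h1
  have e1 : ∀ a b : ZMod n, ∑ t ∈ T, (if a + p • t = b then (1 : ZMod p) else 0) =
      ((T.filter (fun t => p • t = b - a)).card : ZMod p) := by
    intro a b
    rw [Finset.sum_boole]
    congr 2
    ext t
    simp only [Finset.mem_filter]
    rw [eq_sub_iff_add_eq, add_comm]
  rw [e1] at h1
  rw [← h1]
  have e2 : ∑ t ∈ T, (if γ • (x + p • t) = γ • y then (1 : ZMod p) else 0) =
      ∑ t ∈ T, (if x + p • t = y then (1 : ZMod p) else 0) := by
    refine Finset.sum_congr rfl fun t _ => ?_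
    simp only [smul_left_cancel_iff]
  rw [e2, e1]

end main

end Cfsg.Agent.Lib.SchurCyclic
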