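import Cfsg.Agent.Lib.SchurCyclic

set_option autoImplicit false

/-!
Burnside--Schur, second part.
-/

namespace Cfsg.Agent.Lib.SchurCyclic

open Finset

universe u

section basics
variable {p m : ℕ} [hp : Fact p.Prime]

theorem card_E (hm : 1 ≤ m) : Nat.card {e : ZMod (p ^ m) // p • e = 0} = p := by
  have : NeZero (p ^ m) := ⟨pow_ne_zero _ hp.1.ne_zero⟩
  have h1 := IsAddCyclic.card_nsmulAddMonoidHom_ker (G := ZMod (p ^ m)) p
  rw [Nat.card_zmod, Nat.gcd_eq_right (dvd_pow_self p (by omega))] at h1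
  exact h1

theorem card_fiber (hm : 1 ≤ m) (t : ZMod (p ^ m)) : Nat.card {s : ZMod (p ^ m) // p • s = p • t} = p := by
  refine (Nat.card_congr ((Equiv.subRight t).subtypeEquiv ?_)).trans (card_E (p := p) hm)
  intro s
  show p • s = p • t ↔ p • (s - t) = 0
  rw [nsmul_sub, sub_eq_zero]

theorem estable_dvd (hm : 1 ≤ m) (U : Set (ZMod (p ^ m))) (hU : ∀ u ∈ U, ∀ e : ZMod (p ^ m), p • e = 0 → u + e ∈ U) :
    p ∣ Nat.card {u // u ∈ U} := by
  have : NeZero (p ^ m) := ⟨pow_ne_zero _ hp.1.ne_zero⟩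
  refine Cfsg.Agent.Lib.FrobDiv.dvd_card_of_fibers (fun u => p • u.1) p ?_
  rintro ⟨u, hu⟩
  have h1 : Nat.card {a' : {u // u ∈ U} // p • a'.1 = p • u} = p := by
    refine Eq.trans ?_ (card_fiber hm u)
    refine Nat.card_congr ⟨fun a => ⟨a.1.1, a.2⟩, fun s => ⟨⟨s.1, ?_⟩, s.2⟩, fun _ => rfl, fun _ => rfl⟩
    have := hU u hu (s.1 - u) (by rw [nsmul_sub, s.2, sub_self])
    rwa [add_sub_cancel] at this
  exact dvd_of_eq h1.symm

theorem gen_E (hm : 1 ≤ m) {e z : ZMod (p ^ m)} (he : e ≠ 0) (hpe : p • e = 0) (hz : p • z = 0) :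
    ∃ k : ℕ, z = k • e := by
  classical
  have : NeZero (p ^ m) := ⟨pow_ne_zero _ hp.1.ne_zero⟩
  have hord : addOrderOf e = p := addOrderOf_eq_prime hpe he
  have h1 : ((AddSubgroup.zmultiples e : AddSubgroup (ZMod (p ^ m))) : Set (ZMod (p ^ m))) ⊆ {s | p • s = 0} := by
    rintro _ ⟨k, rfl⟩
    show p • (k • e) = 0
    rw [smul_comm, hpe, smul_zero]
  have h2 : ({s : ZMod (p ^ m) | p • s = 0}).ncard ≤
      ((AddSubgroup.zmultiples e : AddSubgroup (ZMod (p ^ m))) : Set (ZMod (p ^ m))).ncard := by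
    have h3 : ({s : ZMod (p ^ m) | p • s = 0}).ncard = p := card_E hm
    have h4 : ((AddSubgroup.zmultiples e : AddSubgroup (ZMod (p ^ m))) : Set (ZMod (p ^ m))).ncard = p := by
      have : Nat.card (AddSubgroup.zmultiples e) = p := by rw [Nat.card_zmultiples, hord]
      exact this
    rw [h3, h4]
  have h3 := Set.eq_of_subset_of_ncard_le h1 h2
  have h4 : z ∈ ((AddSubgroup.zmultiples e : AddSubgroup (ZMod (p ^ m))) : Set (ZMod (p ^ m))) := by
    rw [h3]; exact hz
  have h5 := mem_multiples_iff_mem_zmultiples.2 h4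
  obtain ⟨k, hk⟩ := (AddSubmonoid.mem_multiples_iff _ _).1 h5
  exact ⟨k, hk.symm⟩

theorem card_split {X : Type*} [Finite X] (P Q : X → Prop) :
    Nat.card {z // P z} = Nat.card {z // P z ∧ Q z} + Nat.card {z // P z ∧ ¬ Q z} := by
  classical
  have h1 : ({z | P z} : Set X).ncard = ({z | P z ∧ Q z} : Set X).ncard + ({z | P z ∧ ¬ Q z} : Set X).ncard := by
    rw [← Set.ncard_union_eq]
    · congr 1
      ext z
      simp only [Set.mem_setOf_eq, Set.mem_union]
      tauto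
    · rw [Set.disjoint_left]
      rintro z ⟨_, h1⟩ ⟨_, h2⟩
      exact h2 h1
  exact h1

end basics

section main
variable {p m : ℕ} [hp : Fact p.Prime] {Γ : Type u} [Group Γ] [MulAction Γ (ZMod (p ^ m))]

/-- no invariant subgroups -/
def Prim (Γ : Type u) [Group Γ] (n : ℕ) [MulAction Γ (ZMod n)] : Prop :=
  ∀ S : AddSubgroup (ZMod n), InvSet Γ (S : Set (ZMod n)) → S = ⊥ ∨ S = ⊤

theorem not_top_range (hm : 1 ≤ m) (S : AddSubgroup (ZMod (p ^ m))) (hS : ∀ x ∈ S, ∃ t, p • t = x) : S ≠ ⊤ := by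
  intro h
  have : Fact (1 < p ^ m) := ⟨Nat.one_lt_pow (by omega) hp.1.one_lt⟩
  obtain ⟨t, ht⟩ := hS 1 (by rw [h]; trivial)
  have h1 : (p ^ m) • t = 0 := by
    rw [nsmul_eq_mul, ZMod.natCast_self, zero_mul]
  have h2 : p ^ (m - 1) • (1 : ZMod (p ^ m)) = 0 := by
    rw [← ht, ← mul_nsmul', ← pow_succ, Nat.sub_add_cancel hm, h1]
  rw [nsmul_eq_mul, mul_one, ZMod.natCast_eq_zero_iff] at h2
  have := (Nat.pow_dvd_pow_iff_le_right hp.1.one_lt).1 h2
  omega

theorem not_top_ker (hm : 2 ≤ m) (S : AddSubgroup (ZMod (p ^ m))) (hS : ∀ x ∈ S, p • x = 0) : S ≠ ⊤ := by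
  intro h
  have h1 := hS 1 (by rw [h]; trivial)
  rw [nsmul_eq_mul, mul_one, ZMod.natCast_eq_zero_iff] at h1
  have h2 : p ^ 2 ∣ p ^ 1 := by rw [pow_one]; exact (pow_dvd_pow p hm).trans h1
  have := (Nat.pow_dvd_pow_iff_le_right hp.1.one_lt).1 h2
  omega

/-- Step 1 -/
theorem stable (hm : 1 ≤ m) (hprim : Prim Γ (p ^ m)) {T : Set (ZMod (p ^ m))} (hT : InvSet Γ T) {t : ZMod (p ^ m)}
    (ht : t ∈ T) (hpt : p • t ≠ 0) {e : ZMod (p ^ m)} (he : p • e = 0) : t + e ∈ T := by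
  classical
  have : NeZero (p ^ m) := ⟨pow_ne_zero _ hp.1.ne_zero⟩
  set Tf : Finset (ZMod (p ^ m)) := Set.Finite.toFinset (Set.toFinite T) with hTf
  have hTfT : (Tf : Set (ZMod (p ^ m))) = T := Set.Finite.coe_toFinset _
  have hTi : InvSet Γ (Tf : Set (ZMod (p ^ m))) := by rw [hTfT]; exact hT
  set U : Set (ZMod (p ^ m)) := {y | ((Tf.filter (fun t => p • t = y)).card : ZMod p) ≠ 0} with hU
  have hUi : InvSet Γ U := by
    intro γ x y hxy
    show ((Tf.filter (fun t => p • t = γ • y - γ • x)).card : ZMod p) ≠ 0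
    rw [power_inv hTi]
    exact hxy
  have hUsub : ∀ y ∈ U, ∃ t, p • t = y := by
    intro y hy
    by_contra hcon
    push Not at hcon
    apply hy
    have : Tf.filter (fun t => p • t = y) = ∅ := by
      rw [Finset.filter_eq_empty_iff]
      intro t _; exact hcon t
    rw [this, Finset.card_empty, Nat.cast_zero]
  have hcl : ∀ y ∈ AddSubgroup.closure U, ∃ t, p • t = y := by
    intro y hy
    have h1 : AddSubgroup.closure U ≤ (nsmulAddMonoidHom p : ZMod (p ^ m) →+ ZMod (p ^ m)).range := by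
      rw [AddSubgroup.closure_le]
      intro y hy
      obtain ⟨t, ht⟩ := hUsub y hy
      exact ⟨t, ht⟩
    obtain ⟨t, ht⟩ := h1 hy
    exact ⟨t, ht⟩
  have hbot : AddSubgroup.closure U = ⊥ := by
    rcases hprim _ (closure_inv hUi) with h | h
    · exact h
    · exact absurd h (not_top_range hm _ hcl)
  have h1 : p • t ∉ U := by
    intro hmem
    have := AddSubgroup.subset_closure hmem
    rw [hbot] at this
    exact hpt this
  have h2 : p ∣ (Tf.filter (fun s => p • s = p • t)).card := by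
    rw [← CharP.cast_eq_zero_iff (ZMod p) p]
    by_contra hcon
    exact h1 hcon
  have h3 : (Finset.univ.filter (fun s : ZMod (p ^ m) => p • s = p • t)).card = p := by
    have := card_fiber hm t
    rwa [Nat.card_eq_fintype_card, Fintype.card_subtype] at this
  have h4 : Tf.filter (fun s => p • s = p • t) ⊆ Finset.univ.filter (fun s : ZMod (p ^ m) => p • s = p • t) :=
    Finset.filter_subset_filter _ (Finset.subset_univ _)
  have h5 : Tf.filter (fun s => p • s = p • t) = Finset.univ.filter (fun s : ZMod (p ^ m) => p • s = p • t) := by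
    apply Finset.eq_of_subset_of_card_le h4
    rw [h3]
    refine Nat.le_of_dvd (Finset.card_pos.2 ⟨t, ?_⟩) h2
    rw [Finset.mem_filter]
    refine ⟨?_, rfl⟩
    rw [← Finset.mem_coe, hTfT]; exact ht
  have h6 : t + e ∈ Tf.filter (fun s => p • s = p • t) := by
    rw [h5, Finset.mem_filter]
    exact ⟨Finset.mem_univ _, by rw [nsmul_add, he, add_zero]⟩
  have h7 := (Finset.mem_filter.1 h6).1
  rw [← Finset.mem_coe, hTfT] at h7
  exact h7

/-- Step 2a -/
theorem meets_E (hm : 1 ≤ m) (hprim : Prim Γ (p ^ m)) {T : Set (ZMod (p ^ m))} (hT : InvSet Γ T)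
    (h0 : (0 : ZMod (p ^ m)) ∉ T) {t : ZMod (p ^ m)} (ht : t ∈ T) : ∃ a ∈ T, p • a = 0 := by
  classical
  have : NeZero (p ^ m) := ⟨pow_ne_zero _ hp.1.ne_zero⟩
  by_contra hcon
  push Not at hcon
  have hst : ∀ s ∈ T, ∀ e : ZMod (p ^ m), p • e = 0 → s + e ∈ T := fun s hs e he =>
    stable hm hprim hT hs (hcon s hs) he
  let S : AddSubgroup (ZMod (p ^ m)) :=
    { carrier := {h | ∀ z, z ∈ T ↔ z - h ∈ T}
      zero_mem' := by intro z; rw [sub_zero]
      add_mem' := by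
        intro a b ha hb z
        rw [ha z, hb (z - a)]
        have : z - a - b = z - (a + b) := by ring
        rw [this]
      neg_mem' := by
        intro a ha z
        have := ha (z - -a)
        have h1 : z - -a - a = z := by ring
        rw [h1] at this
        exact this.symm }
  have hSi : InvSet Γ (S : Set (ZMod (p ^ m))) := by
    intro γ x y hxy z
    have h1 : ∀ w, w - x ∈ T ↔ w - y ∈ T := by
      intro w
      have h2 : w - x - (y - x) = w - y := by ring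
      rw [← h2]
      exact hxy (w - x)
    have h2 := h1 (γ⁻¹ • (z + γ • x))
    rw [← hT.iff γ, ← hT.iff γ y, smul_inv_smul, add_sub_cancel_right] at h2
    have h3 : z + γ • x - γ • y = z - (γ • y - γ • x) := by ring
    rwa [h3] at h2
  rcases hprim S hSi with h | h
  · -- but `S` contains an element of order `p`
    have h1 : Nat.card {e : ZMod (p ^ m) // p • e = 0} = p := card_E hm
    obtain ⟨e, he, he0⟩ : ∃ e : ZMod (p ^ m), p • e = 0 ∧ e ≠ 0 := by
      by_contra hcon2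
      push Not at hcon2
      have h2 : Nat.card {e : ZMod (p ^ m) // p • e = 0} ≤ 1 := by
        rw [Finite.card_le_one_iff_subsingleton]
        refine ⟨fun a b => Subtype.ext ?_⟩
        rw [hcon2 a a.2, hcon2 b b.2]
      have := hp.1.one_lt
      omega
    have h2 : e ∈ S := by
      intro z
      constructor
      · intro hz
        have := hst z hz (-e) (by rw [smul_neg, he, neg_zero])
        rwa [← sub_eq_add_neg] at this
      · intro hz
        have := hst _ hz e he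
        rwa [sub_add_cancel] at this
    rw [h] at h2
    exact he0 h2
  · have h1 : t ∈ S := by rw [h]; trivial
    have h2 := (h1 t).1 ht
    rw [sub_self] at h2
    exact h0 h2

/-- Step 2b -/
theorem not_sub_E (hm : 2 ≤ m) (hprim : Prim Γ (p ^ m)) {T : Set (ZMod (p ^ m))} (hT : InvSet Γ T)
    {t : ZMod (p ^ m)} (ht : t ∈ T) (ht0 : t ≠ 0) : ∃ h ∈ T, p • h ≠ 0 := by
  by_contra hcon
  push Not at hcon
  have hcl : ∀ y ∈ AddSubgroup.closure T, p • y = 0 := by
    intro y hy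
    have h1 : AddSubgroup.closure T ≤ (nsmulAddMonoidHom p : ZMod (p ^ m) →+ ZMod (p ^ m)).ker := by
      rw [AddSubgroup.closure_le]
      intro y hy
      exact hcon y hy
    exact h1 hy
  rcases hprim _ (closure_inv hT) with h | h
  · have h1 := AddSubgroup.subset_closure (k := T) ht
    rw [h] at h1
    exact ht0 h1
  · exact not_top_ker hm _ hcl h

/-- the counting function -/
noncomputable def cnt (T : Set (ZMod (p ^ m))) (h : ZMod (p ^ m)) : ℕ := Nat.card {z : ZMod (p ^ m) // z ∈ T ∧ z - h ∈ T}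
/-- the part of `T` in `E` -/
def AA (p : ℕ) {m : ℕ} (T : Set (ZMod (p ^ m))) : Set (ZMod (p ^ m)) := {z | z ∈ T ∧ p • z = 0}

theorem cnt_E (hm : 1 ≤ m) (hprim : Prim Γ (p ^ m)) {T : Set (ZMod (p ^ m))} (hT : InvSet Γ T) {e : ZMod (p ^ m)}
    (he : p • e = 0) : cnt T e ≡ cnt (AA p T) e [MOD p] := by
  have : NeZero (p ^ m) := ⟨pow_ne_zero _ hp.1.ne_zero⟩
  unfold cnt
  rw [card_split (fun z => z ∈ T ∧ z - e ∈ T) (fun z => p • z = 0)]
  have h1 : Nat.card {z : ZMod (p ^ m) // (z ∈ T ∧ z - e ∈ T) ∧ p • z = 0} =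
      Nat.card {z : ZMod (p ^ m) // z ∈ AA p T ∧ z - e ∈ AA p T} := by
    refine Nat.card_congr (Equiv.subtypeEquivRight fun z => ?_)
    constructor
    · rintro ⟨⟨h1, h2⟩, h3⟩
      exact ⟨⟨h1, h3⟩, h2, by rw [nsmul_sub, h3, he, sub_zero]⟩
    · rintro ⟨⟨h1, h3⟩, h2, _⟩
      exact ⟨⟨h1, h2⟩, h3⟩
  have h2 : p ∣ Nat.card {z : ZMod (p ^ m) // (z ∈ T ∧ z - e ∈ T) ∧ ¬ p • z = 0} := by
    refine estable_dvd hm {z : ZMod (p ^ m) | (z ∈ T ∧ z - e ∈ T) ∧ ¬ p • z = 0} ?_
    rintro u ⟨⟨h3, h4⟩, h5⟩ e' he'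
    refine ⟨⟨stable hm hprim hT h3 h5 he', ?_⟩, by rwa [nsmul_add, he', add_zero]⟩
    have h6 := stable hm hprim hT h4 (by rwa [nsmul_sub, he, sub_zero]) he'
    have h7 : u - e + e' = u + e' - e := by ring
    rwa [h7] at h6
  rw [h1]
  have h3 := Nat.ModEq.add_left (Nat.card {z : ZMod (p ^ m) // z ∈ AA p T ∧ z - e ∈ AA p T})
    ((Nat.modEq_zero_iff_dvd).2 h2)
  rwa [add_zero] at h3

theorem cnt_not_E (hm : 1 ≤ m) (hprim : Prim Γ (p ^ m)) {T : Set (ZMod (p ^ m))} (hT : InvSet Γ T) {h : ZMod (p ^ m)}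
    (hh : p • h ≠ 0) : cnt T h ≡ (open Classical in (if -h ∈ T then Nat.card (AA p T) else 0) +
      (if h ∈ T then Nat.card (AA p T) else 0)) [MOD p] := by
  classical
  have : NeZero (p ^ m) := ⟨pow_ne_zero _ hp.1.ne_zero⟩
  unfold cnt
  rw [card_split (fun z => z ∈ T ∧ z - h ∈ T) (fun z => p • z = 0),
    card_split (fun z => (z ∈ T ∧ z - h ∈ T) ∧ ¬ p • z = 0) (fun z => p • (z - h) = 0)]
  have h1 : Nat.card {z : ZMod (p ^ m) // (z ∈ T ∧ z - h ∈ T) ∧ p • z = 0} =
      if -h ∈ T then Nat.card (AA p T) else 0 := by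
    split_ifs with hT'
    · refine Nat.card_congr (Equiv.subtypeEquivRight fun z => ?_)
      constructor
      · rintro ⟨⟨h1, h2⟩, h3⟩
        exact ⟨h1, h3⟩
      · rintro ⟨h1, h3⟩
        refine ⟨⟨h1, ?_⟩, h3⟩
        have h4 := stable hm hprim hT hT' (by rwa [smul_neg, neg_ne_zero]) h3
        rwa [neg_add_eq_sub] at h4
    · rw [Nat.card_eq_zero]
      left
      refine ⟨?_⟩
      rintro ⟨z, ⟨h1, h2⟩, h3⟩
      apply hT'
      have h4 := stable hm hprim hT h2 (by rwa [nsmul_sub, h3, zero_sub, neg_ne_zero]) (e := -z)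
        (by rw [smul_neg, h3, neg_zero])
      have h5 : z - h + -z = -h := by ring
      rwa [h5] at h4
  have h2 : Nat.card {z : ZMod (p ^ m) // ((z ∈ T ∧ z - h ∈ T) ∧ ¬ p • z = 0) ∧ p • (z - h) = 0} =
      if h ∈ T then Nat.card (AA p T) else 0 := by
    split_ifs with hT'
    · refine Nat.card_congr ((Equiv.subRight h).subtypeEquiv ?_)
      intro z
      show _ ↔ z - h ∈ AA p T
      constructor
      · rintro ⟨⟨⟨h1, h2⟩, h3⟩, h4⟩
        exact ⟨h2, h4⟩
      · rintro ⟨h2, h4⟩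
        have h5 := stable hm hprim hT hT' hh h4
        rw [add_sub_cancel] at h5
        refine ⟨⟨⟨h5, h2⟩, ?_⟩, h4⟩
        intro h6
        apply hh
        rwa [nsmul_sub, h6, zero_sub, neg_eq_zero] at h4
    · rw [Nat.card_eq_zero]
      left
      refine ⟨?_⟩
      rintro ⟨z, ⟨⟨h1, h2⟩, h3⟩, h4⟩
      apply hT'
      have h5 := stable hm hprim hT h1 h3 (e := -(z - h)) (by rw [smul_neg, h4, neg_zero])
      have h6 : z + -(z - h) = h := by ring
      rwa [h6] at h5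
  have h3 : p ∣ Nat.card {z : ZMod (p ^ m) // ((z ∈ T ∧ z - h ∈ T) ∧ ¬ p • z = 0) ∧ ¬ p • (z - h) = 0} := by
    refine estable_dvd hm {z : ZMod (p ^ m) | ((z ∈ T ∧ z - h ∈ T) ∧ ¬ p • z = 0) ∧ ¬ p • (z - h) = 0} ?_
    rintro u ⟨⟨⟨h3, h4⟩, h5⟩, h5'⟩ e' he'
    refine ⟨⟨⟨stable hm hprim hT h3 h5 he', ?_⟩, ?_⟩, ?_⟩
    · have h6 := stable hm hprim hT h4 h5' he'
      have h7 : u - h + e' = u + e' - h := by ring
      rwa [h7] at h6
    · rwa [nsmul_add, he', add_zero]
    · have h7 : u + e' - h = u - h + e' := by ring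
      rwa [h7, nsmul_add, he', add_zero]
  rw [h1, h2]
  have h4 := Nat.ModEq.add_left ((if -h ∈ T then Nat.card (AA p T) else 0) +
      (if h ∈ T then Nat.card (AA p T) else 0)) ((Nat.modEq_zero_iff_dvd).2 h3)
  rw [add_zero, add_assoc] at h4
  exact h4

end main

end Cfsg.Agent.Lib.SchurCyclic
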