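import Cfsg.Agent.Lib.SchurCyclic2

set_option autoImplicit false

/-!
Burnside--Schur, end of the proof.
-/

namespace Cfsg.Agent.Lib.SchurCyclic

open Finset

universe u

section main
variable {p m : ℕ} [hp : Fact p.Prime] {Γ : Type u} [Group Γ] [MulAction Γ (ZMod (p ^ m))]

theorem cnt_orb {T : Set (ZMod (p ^ m))} (hT : InvSet Γ T) {s t : ZMod (p ^ m)} (hs : s ∈ Orb Γ t) :
    cnt T s = cnt T t := by
  obtain ⟨γ, h0, rfl⟩ := hs
  have h1 := count_inv hT γ 0 t
  rw [h0, sub_zero, sub_zero] at h1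
  exact h1

theorem zero_notMem_orb {t : ZMod (p ^ m)} (ht : t ≠ 0) : (0 : ZMod (p ^ m)) ∉ Orb Γ t := by
  rintro ⟨γ, h0, h1⟩
  apply ht
  rw [← h0] at h1
  exact smul_left_cancel γ h1

theorem cnt_lt {T : Set (ZMod (p ^ m))} (hm : 1 ≤ m) (h0 : (0 : ZMod (p ^ m)) ∉ T) {e a : ZMod (p ^ m)} (he : e ≠ 0)
    (hpe : p • e = 0) (ha : a ∈ AA p T) : cnt (AA p T) e < Nat.card (AA p T) := by
  classical
  have : NeZero (p ^ m) := ⟨pow_ne_zero _ hp.1.ne_zero⟩
  -- some `z ∈ A` with `z - e ∉ A`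
  obtain ⟨z, hz, hze⟩ : ∃ z ∈ AA p T, z - e ∉ AA p T := by
    by_contra hcon
    push Not at hcon
    have h1 : ∀ k : ℕ, a - k • e ∈ AA p T := by
      intro k
      induction k with
      | zero => rwa [zero_smul, sub_zero]
      | succ k ih =>
        have := hcon _ ih
        have h2 : a - k • e - e = a - (k + 1) • e := by rw [succ_nsmul]; ring
        rwa [h2] at this
    obtain ⟨k, hk⟩ := gen_E hm he hpe ha.2
    have := h1 k
    rw [← hk, sub_self] at this
    exact h0 this.1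
  have h1 : (({w : ZMod (p ^ m) | w ∈ AA p T ∧ w - e ∈ AA p T}) : Set (ZMod (p ^ m))).ncard < (AA p T).ncard := by
    refine Set.ncard_lt_ncard ?_ (Set.toFinite _)
    rw [Set.ssubset_iff_of_subset (fun w hw => hw.1)]
    exact ⟨z, hz, fun h => hze h.2⟩
  exact h1

theorem card_AA_lt {T : Set (ZMod (p ^ m))} (hm : 1 ≤ m) (h0 : (0 : ZMod (p ^ m)) ∉ T) :
    Nat.card (AA p T) < p := by
  have : NeZero (p ^ m) := ⟨pow_ne_zero _ hp.1.ne_zero⟩
  have h1 : (AA p T).ncard < ({e : ZMod (p ^ m) | p • e = 0} : Set _).ncard := by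
    refine Set.ncard_lt_ncard ?_ (Set.toFinite _)
    rw [Set.ssubset_iff_of_subset (fun w hw => hw.2)]
    exact ⟨0, smul_zero _, fun h => h0 h.1⟩
  have h2 : ({e : ZMod (p ^ m) | p • e = 0} : Set _).ncard = p := card_E hm
  rw [h2] at h1
  exact h1

theorem eq_of_modEq {a b : ℕ} (h : a ≡ b [MOD p]) (ha : a < p) (hb : b < p) : a = b := by
  have := Nat.ModEq.eq_of_lt_of_lt h ha hb
  exact this

theorem two_transitive (hm : 2 ≤ m) (hprim : Prim Γ (p ^ m))
    (htr : ∀ x : ZMod (p ^ m), ∃ γ : Γ, ∀ y : ZMod (p ^ m), γ • y = y + x) {t s : ZMod (p ^ m)} (ht : t ≠ 0)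
    (hs : s ≠ 0) : s ∈ Orb Γ t := by
  classical
  have : NeZero (p ^ m) := ⟨pow_ne_zero _ hp.1.ne_zero⟩
  have hm1 : 1 ≤ m := by omega
  set T := Orb Γ t with hTdef
  have hT : InvSet Γ T := orb_inv htr t
  have h0 : (0 : ZMod (p ^ m)) ∉ T := zero_notMem_orb ht
  obtain ⟨a, haT, hpa⟩ := meets_E hm1 hprim hT h0 (mem_orb_self t)
  have haA : a ∈ AA p T := ⟨haT, hpa⟩
  have ha0 : a ≠ 0 := by rintro rfl; exact h0 haT
  obtain ⟨h, hhT, hph⟩ := not_sub_E hm hprim hT (mem_orb_self t) ht
  have hAp : Nat.card (AA p T) < p := card_AA_lt hm1 h0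
  -- (i)
  have hneg : ∀ w ∈ T, p • w ≠ 0 → -w ∈ T := by
    intro w hw hpw
    by_contra hcon
    have h1 := cnt_E hm1 hprim hT hpa
    have h2 := cnt_not_E hm1 hprim hT hpw
    rw [if_neg hcon, if_pos hw, zero_add] at h2
    have h3 : cnt T a = cnt T w := cnt_orb hT (by rw [orb_eq hw]; exact haT)
    rw [h3] at h1
    have h4 := h1.symm.trans h2
    have h5 := cnt_lt hm1 h0 ha0 hpa haA
    have h6 := eq_of_modEq h4 (h5.trans hAp) hAp
    omega
  -- (iii)
  have hzero : ∀ e : ZMod (p ^ m), e ≠ 0 → p • e = 0 → e ∉ T → cnt (AA p T) e = 0 := by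
    intro e he hpe heT
    obtain ⟨w, hw, hpw⟩ := not_sub_E hm hprim (orb_inv htr e) (mem_orb_self e) he
    have hwT : w ∉ T := by
      intro hwT
      apply heT
      have h1 : Orb Γ w = Orb Γ e := orb_eq hw
      have h2 : Orb Γ w = T := orb_eq hwT
      rw [← h2, h1]
      exact mem_orb_self e
    have hwT' : -w ∉ T := by
      intro hcon
      have := hneg _ hcon (by rwa [smul_neg, neg_ne_zero])
      rw [neg_neg] at this
      exact hwT this
    have h1 := cnt_E hm1 hprim hT hpe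
    have h2 := cnt_not_E hm1 hprim hT hpw
    rw [if_neg hwT, if_neg hwT', zero_add] at h2
    have h3 : cnt T w = cnt T e := cnt_orb hT hw
    rw [← h3] at h1
    have h4 := h1.symm.trans h2
    have h5 := cnt_lt hm1 h0 he hpe haA
    exact eq_of_modEq h4 (h5.trans hAp) hp.1.pos
  -- differences
  have hdiff : ∀ z ∈ AA p T, ∀ w ∈ AA p T, z ≠ w → z - w ∈ AA p T := by
    intro z hz w hw hzw
    have hp0 : p • (z - w) = 0 := by rw [nsmul_sub, hz.2, hw.2, sub_zero]
    refine ⟨?_, hp0⟩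
    by_contra hcon
    have h1 := hzero (z - w) (sub_ne_zero.2 hzw) hp0 hcon
    unfold cnt at h1
    rw [Nat.card_eq_zero] at h1
    rcases h1 with h1 | h1
    · exact h1.elim ⟨z, hz, by rw [sub_sub_cancel]; exact hw⟩
    · exact h1.not_finite (inferInstance)
  -- negatives
  have hnegA : ∀ z ∈ AA p T, -z ∈ AA p T := by
    intro z hz
    by_cases hc : cnt (AA p T) z = 0
    · -- `p = 2`
      have hz0 : z ≠ 0 := by rintro rfl; exact h0 hz.1
      have h1 := cnt_E hm1 hprim hT hz.2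
      have h2 := cnt_not_E hm1 hprim hT hph
      rw [if_pos hhT, if_pos (hneg h hhT hph)] at h2
      have h3 : cnt T z = cnt T h := cnt_orb hT (by rw [orb_eq hhT]; exact hz.1)
      rw [h3] at h1
      have h4 := h1.symm.trans h2
      rw [hc] at h4
      have h5 : p ∣ Nat.card (AA p T) + Nat.card (AA p T) := (Nat.modEq_zero_iff_dvd).1 h4.symm
      rw [← two_mul] at h5
      rcases (Nat.Prime.dvd_mul hp.1).1 h5 with h6 | h6
      · have h7 : p = 2 := (Nat.prime_dvd_prime_iff_eq hp.1 Nat.prime_two).1 h6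
        have h8 : -z = z := by
          have h9 : (2 : ℕ) • z = 0 := (congrArg (fun k : ℕ => k • z) h7.symm).trans hz.2
          rw [two_nsmul] at h9
          exact neg_eq_of_add_eq_zero_left h9
        rw [h8]; exact hz
      · exfalso
        have h7 : 0 < Nat.card (AA p T) := by
          have : Nonempty (AA p T) := ⟨⟨z, hz⟩⟩
          exact Nat.card_pos
        have := Nat.le_of_dvd h7 h6
        omega
    · unfold cnt at hc
      rw [← Ne, Nat.card_ne_zero] at hc
      obtain ⟨⟨⟨w, hw, hwz⟩⟩, _⟩ := hc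
      have h1 := hdiff _ hwz _ hw (by
        intro h2
        have h3 : z = 0 := by
          have := sub_eq_self.1 h2
          exact this
        rw [h3] at hz
        exact h0 hz.1)
      have h2 : w - z - w = -z := by ring
      rwa [h2] at h1
  -- multiples of `a`
  have hmul : ∀ k : ℕ, k • a = 0 ∨ k • a ∈ AA p T := by
    intro k
    induction k with
    | zero => left; exact zero_smul _ _
    | succ k ih =>
      rw [succ_nsmul]
      rcases ih with h1 | h1
      · right; rw [h1, zero_add]; exact haA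
      · by_cases h2 : k • a = -a
        · left; rw [h2, neg_add_cancel]
        · right
          have := hdiff _ h1 _ (hnegA a haA) h2
          rwa [sub_neg_eq_add] at this
  have hE : ∀ e : ZMod (p ^ m), e ≠ 0 → p • e = 0 → e ∈ T := by
    intro e he hpe
    obtain ⟨k, hk⟩ := gen_E hm1 ha0 hpa hpe
    rcases hmul k with h1 | h1
    · rw [← hk] at h1; exact absurd h1 he
    · rw [← hk] at h1; exact h1.1
  -- conclusion
  obtain ⟨e, heS, hpe⟩ := meets_E hm1 hprim (orb_inv htr s) (zero_notMem_orb hs) (mem_orb_self s)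
  have he0 : e ≠ 0 := by rintro rfl; exact zero_notMem_orb hs heS
  have heT := hE e he0 hpe
  have h1 : Orb Γ e = T := orb_eq heT
  have h2 : Orb Γ e = Orb Γ s := orb_eq heS
  rw [← h1, h2]
  exact mem_orb_self s

end main

end Cfsg.Agent.Lib.SchurCyclic
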