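import Cfsg.Agent.Lib.SchurCyclic3

set_option autoImplicit false

/-!
Burnside--Schur for a permutation group of prime power degree containing a full cycle.
-/

namespace Cfsg.Agent.Lib.SchurCyclic

open MulAction

universe u

/-- the identification of the points with `ZMod (p ^ m)` -/
theorem exists_equiv {Ω : Type u} [Finite Ω] {G : Type u} [Group G] [MulAction G Ω] [FaithfulSMul G Ω] {p m : ℕ}
    (hp : p.Prime) (hm : 1 ≤ m) (hΩ : Nat.card Ω = p ^ m) (g : G) (hg : orderOf g = p ^ m) :
    ∃ e : ZMod (p ^ m) ≃ Ω, ∀ (k : ℕ) (x : ZMod (p ^ m)), g ^ k • e x = e (x + k) := by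
  classical
  have : NeZero (p ^ m) := ⟨pow_ne_zero _ hp.ne_zero⟩
  have h1 : g ^ (p ^ (m - 1)) ≠ 1 := by
    intro h
    have h2 := orderOf_dvd_of_pow_eq_one h
    rw [hg] at h2
    have := (Nat.pow_dvd_pow_iff_le_right hp.one_lt).1 h2
    omega
  obtain ⟨ω, hω⟩ : ∃ ω : Ω, g ^ (p ^ (m - 1)) • ω ≠ ω := by
    by_contra hcon
    push Not at hcon
    apply h1
    apply FaithfulSMul.eq_of_smul_eq_smul (α := Ω)
    intro a
    rw [hcon, one_smul]
  have hper : period g ω = p ^ m := by
    have h2 := period_dvd_orderOf g ω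
    rw [hg] at h2
    obtain ⟨j, hj, hjp⟩ := (Nat.dvd_prime_pow hp).1 h2
    have h3 : ¬ j ≤ m - 1 := by
      intro hle
      apply hω
      rw [pow_smul_eq_iff_period_dvd, hjp]
      exact pow_dvd_pow p hle
    have : j = m := by omega
    rw [hjp, this]
  have hmod : ∀ a b : ℕ, ((a : ZMod (p ^ m)) = b) → g ^ a = g ^ b := by
    intro a b hab
    rw [ZMod.natCast_eq_natCast_iff, ← hg] at hab
    exact pow_eq_pow_iff_modEq.2 hab
  let F : ZMod (p ^ m) → Ω := fun k => g ^ k.val • ω
  have hFinj : Function.Injective F := by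
    have key : ∀ a b : ℕ, a ≤ b → b < p ^ m → g ^ a • ω = g ^ b • ω → a = b := by
      intro a b hab hb h
      have h2 : g ^ (b - a) • ω = ω := by
        have h3 : g ^ b = g ^ a * g ^ (b - a) := by rw [← pow_add]; congr 1; omega
        rw [h3, mul_smul] at h
        exact (smul_left_cancel _ h).symm
      rw [pow_smul_eq_iff_period_dvd, hper] at h2
      have := Nat.eq_zero_of_dvd_of_lt h2 (by omega)
      omega
    intro a b hab
    have hab' : g ^ a.val • ω = g ^ b.val • ω := hab
    apply ZMod.val_injective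
    rcases le_total a.val b.val with h | h
    · exact key _ _ h (ZMod.val_lt b) hab'
    · exact (key _ _ h (ZMod.val_lt a) hab'.symm).symm
  have hFbij : Function.Bijective F := by
    have := Fintype.ofFinite Ω
    rw [Fintype.bijective_iff_injective_and_card]
    refine ⟨hFinj, ?_⟩
    rw [← Nat.card_eq_fintype_card, ← Nat.card_eq_fintype_card, hΩ, Nat.card_zmod]
  refine ⟨Equiv.ofBijective F hFbij, ?_⟩
  intro k x
  show g ^ k • (g ^ x.val • ω) = g ^ (x + (k : ZMod (p ^ m))).val • ω
  rw [← mul_smul, ← pow_add]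
  congr 1
  apply hmod
  rw [ZMod.natCast_zmod_val, Nat.cast_add, ZMod.natCast_zmod_val, add_comm]

theorem main {Ω : Type u} [Finite Ω] {G : Type u} [Group G] [MulAction G Ω] [FaithfulSMul G Ω] {p m : ℕ}
    (hp : p.Prime) (hm : 2 ≤ m) (hΩ : Nat.card Ω = p ^ m) (g : G) (hg : orderOf g = p ^ m)
    (h2 : ¬ IsMultiplyPretransitive G Ω 2) :
    ¬ IsPreprimitive G Ω ∧ ¬ IsPretransitive (Subgroup.normalClosure ({g ^ (p ^ (m - 1))} : Set G)) Ω := by
  classical
  have hFp : Fact p.Prime := ⟨hp⟩
  have : NeZero (p ^ m) := ⟨pow_ne_zero _ hp.ne_zero⟩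
  obtain ⟨e, he⟩ := exists_equiv hp (by omega) hΩ g hg
  let _ : MulAction G (ZMod (p ^ m)) := e.mulAction G
  have hact : ∀ (γ : G) (x : ZMod (p ^ m)), e (γ • x) = γ • e x := by
    intro γ x
    rw [Equiv.smul_def, Equiv.apply_symm_apply]
  have htr' : ∀ (k : ℕ) (y : ZMod (p ^ m)), g ^ k • y = y + k := by
    intro k y
    apply e.injective
    rw [hact, he]
  have htr : ∀ x : ZMod (p ^ m), ∃ γ : G, ∀ y : ZMod (p ^ m), γ • y = y + x := by
    intro x
    refine ⟨g ^ x.val, fun y => ?_⟩
    rw [htr', ZMod.natCast_zmod_val]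
  -- an invariant subgroup
  obtain ⟨S, hSi, hS1, hS2⟩ : ∃ S : AddSubgroup (ZMod (p ^ m)), InvSet G (S : Set (ZMod (p ^ m))) ∧ S ≠ ⊥ ∧ S ≠ ⊤ := by
    by_contra hcon
    push Not at hcon
    have hprim : Prim G (p ^ m) := by
      intro S hS
      by_cases h : S = ⊥
      · exact Or.inl h
      · exact Or.inr (hcon S hS h)
    apply h2
    rw [is_two_pretransitive_iff]
    intro a b c d hab hcd
    obtain ⟨i, rfl⟩ := e.surjective a
    obtain ⟨j, rfl⟩ := e.surjective b
    obtain ⟨k, rfl⟩ := e.surjective c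
    obtain ⟨l, rfl⟩ := e.surjective d
    have hij : j - i ≠ 0 := fun h => hab (by rw [sub_eq_zero.1 h])
    have hkl : l - k ≠ 0 := fun h => hcd (by rw [sub_eq_zero.1 h])
    obtain ⟨γ, h0, hγ⟩ := two_transitive hm hprim htr hij hkl
    obtain ⟨σ, hσ⟩ := htr (-i)
    obtain ⟨τ, hτ⟩ := htr k
    refine ⟨τ * γ * σ, ?_, ?_⟩
    · rw [← hact, mul_smul, mul_smul, hσ, add_neg_cancel, h0, hτ, zero_add]
    · rw [← hact, mul_smul, mul_smul, hσ, ← sub_eq_add_neg, hγ, hτ, sub_add_cancel]
  constructor
  · intro hprim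
    have hblock : IsBlock G (e '' (S : Set (ZMod (p ^ m)))) := by
      rw [isBlock_iff_smul_eq_of_nonempty]
      rintro γ ⟨w, ⟨_, ⟨x, hx, rfl⟩, hxw⟩, ⟨y, hy, hyw⟩⟩
      have h3 : γ • x = y := by
        apply e.injective
        rw [hact, hyw]
        exact hxw
      -- `γ • S = S`
      have h4 : ∀ z : ZMod (p ^ m), γ • z ∈ S ↔ z ∈ S := by
        intro z
        have h5 : γ • z - γ • x ∈ (S : Set (ZMod (p ^ m))) ↔ z - x ∈ (S : Set (ZMod (p ^ m))) := by
          refine ⟨fun h => ?_, hSi γ x z⟩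
          have := hSi γ⁻¹ _ _ h
          rwa [inv_smul_smul, inv_smul_smul] at this
        rw [h3] at h5
        constructor
        · intro h
          have := h5.1 (sub_mem h hy)
          have := add_mem (show z - x ∈ S from this) (show x ∈ S from hx)
          rwa [sub_add_cancel] at this
        · intro h
          have := h5.2 (sub_mem h hx)
          have := add_mem (show γ • z - y ∈ S from this) (show y ∈ S from hy)
          rwa [sub_add_cancel] at this
      ext w'
      constructor
      · rintro ⟨_, ⟨z, hz, rfl⟩, rfl⟩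
        exact ⟨γ • z, (h4 z).2 hz, hact γ z⟩
      · rintro ⟨z, hz, rfl⟩
        refine ⟨e (γ⁻¹ • z), ⟨γ⁻¹ • z, ?_, rfl⟩, ?_⟩
        · show γ⁻¹ • z ∈ S
          rw [← h4, smul_inv_smul]; exact hz
        · show γ • e (γ⁻¹ • z) = e z
          rw [← hact, smul_inv_smul]
    rcases hprim.isTrivialBlock_of_isBlock hblock with h3 | h3
    · apply hS1
      rw [eq_bot_iff]
      intro x hx
      have := h3 ⟨x, hx, rfl⟩ ⟨0, S.zero_mem, rfl⟩
      exact e.injective this
    · apply hS2
      rw [eq_top_iff]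
      intro x _
      have : e x ∈ e '' (S : Set (ZMod (p ^ m))) := by rw [h3]; trivial
      obtain ⟨y, hy, hyx⟩ := this
      rw [← e.injective hyx]; exact hy
  · intro htrN
    -- the kernel on the blocks
    let K : Subgroup G :=
      { carrier := {γ | ∀ x : ZMod (p ^ m), γ • x - x ∈ S}
        one_mem' := by intro x; rw [one_smul, sub_self]; exact S.zero_mem
        mul_mem' := by
          intro a b ha hb x
          have h3 := ha (b • x)
          have h4 := hb x
          have := add_mem h3 h4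
          rwa [sub_add_sub_cancel, ← mul_smul] at this
        inv_mem' := by
          intro a ha x
          have h3 := ha (a⁻¹ • x)
          rw [smul_inv_smul] at h3
          have := neg_mem h3
          rwa [neg_sub] at this }
    have hKn : K.Normal := by
      constructor
      intro γ hγ δ x
      have h3 := hSi δ _ _ (hγ (δ⁻¹ • x))
      rw [smul_inv_smul] at h3
      rw [mul_smul, mul_smul]
      exact h3
    have hmem : g ^ (p ^ (m - 1)) ∈ K := by
      intro x
      rw [htr', add_sub_cancel_left]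
      -- `p ^ (m - 1) ∈ S`
      have h3 : ∃ s ∈ S, s ≠ 0 := by
        by_contra hcon
        push Not at hcon
        apply hS1
        rw [eq_bot_iff]
        intro x hx
        exact hcon x hx
      obtain ⟨s, hs, hs0⟩ := h3
      -- an element of order `p` in `S`
      have hdvd : addOrderOf s ∣ p ^ m := by
        have := addOrderOf_dvd_natCard s
        rwa [Nat.card_zmod] at this
      obtain ⟨j, hj, hjs⟩ := (Nat.dvd_prime_pow hp).1 hdvd
      have hj0 : j ≠ 0 := by
        rintro rfl
        rw [pow_zero, AddMonoid.addOrderOf_eq_one_iff] at hjs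
        exact hs0 hjs
      have h4 : addOrderOf (p ^ (j - 1) • s) = p := by
        rw [addOrderOf_nsmul_of_dvd (pow_ne_zero _ hp.ne_zero) (by rw [hjs]; exact pow_dvd_pow p (by omega)), hjs]
        have : p ^ j = p * p ^ (j - 1) := by rw [← pow_succ']; congr 1; omega
        rw [this, Nat.mul_div_cancel _ (pow_pos hp.pos _)]
      have h5 : p ^ (j - 1) • s ≠ 0 := by
        intro h
        rw [h, addOrderOf_zero] at h4
        exact hp.one_lt.ne h4
      have h6 : p • (p ^ (j - 1) • s) = 0 := by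
        have := addOrderOf_nsmul_eq_zero (p ^ (j - 1) • s)
        rwa [h4] at this
      obtain ⟨k, hk⟩ := gen_E (by omega : 1 ≤ m) h5 h6 (z := ((p ^ (m - 1) : ℕ) : ZMod (p ^ m))) (by
        rw [nsmul_eq_mul, ← Nat.cast_mul, ← pow_succ', Nat.sub_add_cancel (by omega), ZMod.natCast_self])
      rw [hk]
      exact S.nsmul_mem (S.nsmul_mem hs _) _
    have hle : Subgroup.normalClosure ({g ^ (p ^ (m - 1))} : Set G) ≤ K :=
      Subgroup.normalClosure_le_normal (Set.singleton_subset_iff.2 hmem)
    apply hS2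
    rw [eq_top_iff]
    intro x _
    obtain ⟨⟨γ, hγ⟩, hγx⟩ := htrN.exists_smul_eq (e 0) (e x)
    have h3 : γ • (0 : ZMod (p ^ m)) = x := by
      apply e.injective
      rw [hact]; exact hγx
    have h4 := hle hγ 0
    rwa [h3, sub_zero] at h4

end Cfsg.Agent.Lib.SchurCyclic
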