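import Cfsg.Agent.Lib.CharBasic
import Cfsg.Agent.Lib.CharCentral
import Cfsg.Agent.Lib.SchurBasic

set_option autoImplicit false

/-!
The square of the exponent of the kernel of a stem extension divides the order of the quotient.
-/

namespace Cfsg.Agent.Lib.SchurExp

open Cfsg Cfsg.Agent.Lib.CharBasic Representation Module

universe u

/-- The central character of an irreducible character on a subgroup of `Z(Γ) ∩ Γ'`. -/
theorem exists_central {Γ : Type u} [Group Γ] [Finite Γ] (Z : Subgroup Γ) (hZc : Z ≤ Subgroup.center Γ)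
    (hZd : Z ≤ commutator Γ) {χ : Γ → ℂ} (hχ : IsIrrCharacter Γ χ) :
    ∃ (n : ℕ) (μ : Z →* ℂˣ), χ 1 = n ∧ (∀ z : Z, χ z = n * (μ z : ℂ)) ∧ μ ^ n = 1 := by
  obtain ⟨n, ρ, hρ, rfl⟩ := hχ
  have hn : 0 < n := by
    have := CharCentral.finrank_pos_of_irreducible ρ
    simpa using this
  have hsc : ∀ z : Z, ∃ c : ℂ, ρ z = c • (LinearMap.id : (Fin n → ℂ) →ₗ[ℂ] (Fin n → ℂ)) := by
    intro z
    refine CharCentral.exists_scalar_of_commute ρ (ρ z) ?_
    intro g v
    have h1 : (z : Γ) * g = g * z := (Subgroup.mem_center_iff.1 (hZc z.2) g).symm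
    rw [← Module.End.mul_apply, ← map_mul, h1, map_mul, Module.End.mul_apply]
  choose c hc using hsc
  obtain ⟨v, hv⟩ : ∃ v : Fin n → ℂ, v ≠ 0 := ⟨fun _ => 1, fun h => one_ne_zero (congrFun h ⟨0, hn⟩)⟩
  have hc1 : c 1 = 1 := by
    have h1 := congrArg (fun f => f v) (hc 1)
    simp only [OneMemClass.coe_one, map_one, Module.End.one_apply, LinearMap.smul_apply, LinearMap.id_coe, id_eq] at h1
    have h2 : ((1 : ℂ) - c 1) • v = 0 := by rw [sub_smul, one_smul, ← h1, sub_self]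
    rcases smul_eq_zero.1 h2 with h3 | h3
    · exact (sub_eq_zero.1 h3).symm
    · exact absurd h3 hv
  have hcm : ∀ z w : Z, c (z * w) = c z * c w := by
    intro z w
    have h1 := congrArg (fun f => f v) (hc (z * w))
    have h2 : ρ ((z * w : Z) : Γ) v = (c z * c w) • v := by
      rw [Subgroup.coe_mul, map_mul, Module.End.mul_apply, hc w, hc z]
      simp [smul_smul, mul_comm]
    simp only [LinearMap.smul_apply, LinearMap.id_coe, id_eq] at h1
    rw [h2] at h1
    have h3 : (c z * c w - c (z * w)) • v = 0 := by rw [sub_smul, h1, sub_self]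
    rcases smul_eq_zero.1 h3 with h4 | h4
    · exact (sub_eq_zero.1 h4).symm
    · exact absurd h4 hv
  let μ0 : Z →* ℂ := { toFun := c, map_one' := hc1, map_mul' := hcm }
  let μ : Z →* ℂˣ := μ0.toHomUnits
  have hμ : ∀ z : Z, (μ z : ℂ) = c z := fun z => rfl
  let δ : Γ →* ℂˣ := MonoidHom.toHomUnits ((LinearMap.det : ((Fin n → ℂ) →ₗ[ℂ] (Fin n → ℂ)) →* ℂ).comp ρ)
  have hδ : ∀ g, (δ g : ℂ) = LinearMap.det (ρ g) := fun g => rfl
  have hδk : commutator Γ ≤ δ.ker := Abelianization.commutator_subset_ker δ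
  refine ⟨n, μ, by simp, ?_, ?_⟩
  · intro z
    rw [hμ]
    show (LinearMap.trace ℂ (Fin n → ℂ)) (ρ z) = _
    rw [hc z, map_smul, LinearMap.trace_id]
    simp [mul_comm]
  · ext z
    have h1 : δ z = 1 := hδk (hZd z.2)
    have h2 : (δ z : ℂ) = 1 := by rw [h1]; rfl
    rw [hδ, hc z, LinearMap.det_smul, LinearMap.det_id, mul_one] at h2
    have h3 : finrank ℂ (Fin n → ℂ) = n := by simp
    rw [h3] at h2
    show ((μ z) ^ n : ℂˣ).val = 1
    rw [Units.val_pow_eq_pow_val, hμ]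
    exact h2

theorem sq_dvd {Γ : Type u} [Group Γ] [Finite Γ] (Z : Subgroup Γ) (hZc : Z ≤ Subgroup.center Γ)
    (hZd : Z ≤ commutator Γ) (lam : Z →* ℂˣ) : orderOf lam ^ 2 ∣ Z.index := by
  classical
  have := Fintype.ofFinite Z
  set e := orderOf lam with he
  have h1 : ∀ χ : IrrCharacter Γ, ∃ t : ℕ,
      ∑ z : Z, (χ : Γ → ℂ) 1 * (χ : Γ → ℂ) z * ((lam z)⁻¹ : ℂˣ) = ((Nat.card Z * (e ^ 2 * t) : ℕ) : ℂ) := by
    intro χ
    obtain ⟨n, μ, hn, hμ, hμn⟩ := exists_central Z hZc hZd χ.2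
    have h2 : ∀ z : Z, (χ : Γ → ℂ) 1 * (χ : Γ → ℂ) z * ((lam z)⁻¹ : ℂˣ) =
        (n : ℂ) ^ 2 * (((Units.coeHom ℂ).comp (μ * lam⁻¹)) z) := by
      intro z
      rw [hn, hμ z]
      simp only [MonoidHom.coe_comp, Function.comp_apply, MonoidHom.mul_apply, MonoidHom.inv_apply,
        Units.coeHom_apply, Units.val_mul]
      ring
    rw [Finset.sum_congr rfl (fun z _ => h2 z), ← Finset.mul_sum]
    by_cases h : μ = lam
    · have h3 : e ∣ n := by rw [he, ← h]; exact orderOf_dvd_of_pow_eq_one hμn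
      obtain ⟨k, hk⟩ := h3
      refine ⟨k ^ 2, ?_⟩
      have h5 : lam * lam⁻¹ = 1 := by ext z; simp
      rw [h, h5]
      have h4 : ∑ z : Z, ((Units.coeHom ℂ).comp (1 : Z →* ℂˣ)) z = (Nat.card Z : ℂ) := by
        rw [Nat.card_eq_fintype_card]
        simp
      rw [h4, hk]
      push_cast
      ring
    · refine ⟨0, ?_⟩
      rw [sum_hom_units_eq_zero]
      · simp
      · intro h3
        apply h
        have h4 : μ * lam⁻¹ = 1 := by
          ext z
          have := congrArg (fun f => f z) h3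
          exact this
        ext z
        have h5 : μ z * (lam z)⁻¹ = 1 := congrArg (fun f => f z) h4
        rw [mul_inv_eq_one.1 h5]
  choose t ht using h1
  have h2 : ∑ χ : IrrCharacter Γ, ∑ z : Z, (χ : Γ → ℂ) 1 * (χ : Γ → ℂ) z * ((lam z)⁻¹ : ℂˣ) = (Nat.card Γ : ℂ) := by
    rw [Finset.sum_comm]
    rw [Finset.sum_eq_single (1 : Z)]
    · simp only [OneMemClass.coe_one, map_one, inv_one, Units.val_one, mul_one]
      rw [← sum_degree_sq]
      exact Finset.sum_congr rfl (fun χ _ => (pow_two _).symm)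
    · intro z _ hz
      rw [← Finset.sum_mul, sum_degree_mul (z : Γ) (fun h => hz (Subtype.ext h)), zero_mul]
    · intro h
      exact absurd (Finset.mem_univ _) h
  rw [Finset.sum_congr rfl (fun χ _ => ht χ)] at h2
  have h3 : ∑ χ : IrrCharacter Γ, Nat.card Z * (e ^ 2 * t χ) = Nat.card Γ := by exact_mod_cast h2
  rw [← Finset.mul_sum, ← Finset.mul_sum, ← Subgroup.card_mul_index Z] at h3
  exact ⟨_, (Nat.eq_of_mul_eq_mul_left Nat.card_pos h3).symm⟩

theorem exponent_sq_dvd {Γ : Type u} [Group Γ] [Finite Γ] (Z : Subgroup Γ) (hZc : Z ≤ Subgroup.center Γ)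
    (hZd : Z ≤ commutator Γ) : Monoid.exponent Z ^ 2 ∣ Z.index := by
  letI : CommGroup Z := { (inferInstance : Group Z) with
    mul_comm := fun a b => Subtype.ext (Subgroup.mem_center_iff.1 (hZc b.2) a) }
  obtain ⟨f⟩ := CommGroup.monoidHom_mulEquiv_of_hasEnoughRootsOfUnity Z ℂ
  obtain ⟨z, hz⟩ := Monoid.exists_orderOf_eq_exponent (G := Z) (Monoid.ExponentExists.of_finite)
  have h1 : orderOf (f.symm z) = Monoid.exponent Z := by rw [MulEquiv.orderOf_eq, hz]
  rw [← h1]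
  exact sq_dvd Z hZc hZd (f.symm z)

end Cfsg.Agent.Lib.SchurExp
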