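import Cfsg.Agent.Lib.SchurMult

set_option autoImplicit false

/-!
The Schur multiplier of a finite metacyclic group given by generators and relations.
-/

namespace Cfsg.Agent.Lib.SchurMeta

open Cfsg Cfsg.Agent.Lib.SchurMult

universe u

section Calc

variable {E : Type u} [Group E] {A B z : E} {r : ℕ}

theorem conjPow (hz : ∀ g, Commute z g) (hB : B * A * B⁻¹ = z * A ^ r) (k : ℕ) :
    B * A ^ k * B⁻¹ = z ^ k * A ^ (r * k) := by
  rw [← _root_.conj_pow, hB, (hz _).mul_pow, ← pow_mul]

theorem pow_conj (hz : ∀ g, Commute z g) (hB : B * A * B⁻¹ = z * A ^ r) (k : ℕ) :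
    B ^ k * A * (B ^ k)⁻¹ = z ^ (∑ i ∈ Finset.range k, r ^ i) * A ^ (r ^ k) := by
  induction k with
  | zero => simp
  | succ k ih =>
    have h1 : B ^ (k + 1) * A * (B ^ (k + 1))⁻¹ = B * (B ^ k * A * (B ^ k)⁻¹) * B⁻¹ := by
      rw [pow_succ']; group
    have h2 : B * (z ^ (∑ i ∈ Finset.range k, r ^ i) * A ^ (r ^ k)) * B⁻¹ =
        z ^ (∑ i ∈ Finset.range k, r ^ i) * (B * A ^ (r ^ k) * B⁻¹) := by
      have h3 : B * z ^ (∑ i ∈ Finset.range k, r ^ i) = z ^ (∑ i ∈ Finset.range k, r ^ i) * B :=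
        (((hz B).pow_left _).eq).symm
      rw [← mul_assoc, h3]; group
    rw [h1, ih, h2, conjPow hz hB, ← mul_assoc, ← pow_add, Finset.sum_range_succ, pow_succ' r k]

/-- consequences of the relations when the three words are central -/
theorem rel1 {m : ℕ} (hr : 0 < r) (hz : ∀ g, Commute z g) (hB : B * A * B⁻¹ = z * A ^ r)
    (hx : ∀ g, Commute (A ^ m) g) : z ^ m * (A ^ m) ^ (r - 1) = 1 := by
  have h1 := conjPow hz hB m
  have h2 : B * A ^ m * B⁻¹ = A ^ m := by rw [← (hx B).eq, mul_inv_cancel_right]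
  rw [h2] at h1
  obtain ⟨s, rfl⟩ : ∃ s, r = s + 1 := ⟨r - 1, by omega⟩
  rw [add_mul, one_mul, pow_add, ← mul_assoc] at h1
  have h3 := mul_right_cancel (b := A ^ m) (a := 1) (c := z ^ m * A ^ (s * m)) (by rw [one_mul]; exact h1)
  rw [Nat.add_sub_cancel, ← pow_mul, mul_comm m s]
  exact h3.symm

theorem rel3 {t n m l : ℕ} (hr : 0 < r) (hz : ∀ g, Commute z g) (hB : B * A * B⁻¹ = z * A ^ r)
    (hy : ∀ g, Commute (B ^ n * (A ^ t)⁻¹) g) (ht : (r - 1) * t = m * l) : z ^ t * (A ^ m) ^ l = 1 := by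
  have h1 := conjPow hz hB t
  have h2 : B * A ^ t * B⁻¹ = A ^ t := by
    have h3 := (hy B).eq
    have h4 : B * (A ^ t)⁻¹ = (A ^ t)⁻¹ * B := by
      have h5 : B ^ n * (B * (A ^ t)⁻¹) = B ^ n * ((A ^ t)⁻¹ * B) := by
        rw [← mul_assoc, ← mul_assoc, h3, ← mul_assoc, ← pow_succ, ← pow_succ']
      exact mul_left_cancel h5
    have h6 : B * A ^ t = A ^ t * B := by
      have := congrArg (fun w => A ^ t * w * A ^ t) h4
      simp only [← mul_assoc, mul_inv_cancel, one_mul, inv_mul_cancel_right] at this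
      exact this.symm
    rw [h6, mul_inv_cancel_right]
  rw [h2] at h1
  obtain ⟨s, rfl⟩ : ∃ s, r = s + 1 := ⟨r - 1, by omega⟩
  rw [add_mul, one_mul, pow_add, ← mul_assoc] at h1
  have h3 := mul_right_cancel (b := A ^ t) (a := 1) (c := z ^ t * A ^ (s * t)) (by rw [one_mul]; exact h1)
  rw [Nat.add_sub_cancel] at ht
  rw [← pow_mul, ← ht]
  exact h3.symm

theorem rel2 {t n m q : ℕ} (hr : 0 < r) (hz : ∀ g, Commute z g) (hB : B * A * B⁻¹ = z * A ^ r)
    (hy : ∀ g, Commute (B ^ n * (A ^ t)⁻¹) g) (hq : r ^ n = m * q + 1) :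
    z ^ (∑ i ∈ Finset.range n, r ^ i) * (A ^ m) ^ q = 1 := by
  have h1 := pow_conj hz hB n
  have h2 : B ^ n * A * (B ^ n)⁻¹ = A := by
    have h3 : B ^ n = (B ^ n * (A ^ t)⁻¹) * A ^ t := by rw [inv_mul_cancel_right]
    have h4 : Commute (B ^ n) A := by
      rw [h3]
      exact (hy A).mul_left ((Commute.refl A).pow_left t)
    rw [h4.eq, mul_inv_cancel_right]
  rw [h2, hq, pow_add, pow_one, ← mul_assoc] at h1
  have h3 := mul_right_cancel (b := A) (a := 1) (c := z ^ (∑ i ∈ Finset.range n, r ^ i) * A ^ (m * q))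
    (by rw [one_mul]; exact h1)
  rw [← pow_mul]
  exact h3.symm

end Calc

section Pres

variable (m n r t : ℕ)

/-- the relators -/
def rels : Set (FreeGroup Bool) := {FreeGroup.of true ^ m, (FreeGroup.of false) ^ n * (FreeGroup.of true ^ t)⁻¹,
  FreeGroup.of false * FreeGroup.of true * (FreeGroup.of false)⁻¹ * (FreeGroup.of true ^ r)⁻¹}

/-- the presentation map -/
abbrev mkG : FreeGroup Bool →* PresentedGroup (rels m n r t) := PresentedGroup.mk (rels m n r t)

theorem mkG_surjective : Function.Surjective (mkG m n r t) := PresentedGroup.mk_surjective _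

theorem closure_mkG : Subgroup.closure {mkG m n r t (FreeGroup.of true), mkG m n r t (FreeGroup.of false)} = ⊤ := by
  rw [eq_top_iff]
  rintro x -
  obtain ⟨f, rfl⟩ := mkG_surjective m n r t x
  induction f using FreeGroup.induction_on with
  | C1 => rw [map_one]; exact one_mem _
  | of b =>
    rcases b with _ | _
    · exact Subgroup.subset_closure (by simp)
    · exact Subgroup.subset_closure (by simp)
  | inv_of b ih => rw [map_inv]; exact inv_mem ih
  | mul x y ihx ihy => rw [map_mul]; exact mul_mem ihx ihy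

theorem rel_one {f : FreeGroup Bool} (hf : f ∈ rels m n r t) : mkG m n r t f = 1 :=
  PresentedGroup.one_of_mem hf

theorem finite_G (hm : 0 < m) (hn : 0 < n) (hr : 0 < r) (hrn : r ^ n ≡ 1 [MOD m]) : Finite (PresentedGroup (rels m n r t)) := by
  set A := mkG m n r t (FreeGroup.of true) with hA
  set B := mkG m n r t (FreeGroup.of false) with hB
  have h1 : A ^ m = 1 := by
    have := rel_one m n r t (f := FreeGroup.of true ^ m) (by simp [rels])
    rwa [map_pow] at this
  have h2 : B ^ n = A ^ t := by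
    have := rel_one m n r t (f := (FreeGroup.of false) ^ n * (FreeGroup.of true ^ t)⁻¹) (by simp [rels])
    rw [map_mul, map_inv, map_pow, map_pow] at this
    exact mul_inv_eq_one.1 this
  have h3 : B * A * B⁻¹ = A ^ r := by
    have := rel_one m n r t (f := FreeGroup.of false * FreeGroup.of true * (FreeGroup.of false)⁻¹ * (FreeGroup.of true ^ r)⁻¹)
      (by simp [rels])
    rw [map_mul, map_mul, map_mul, map_inv, map_inv, map_pow] at this
    exact mul_inv_eq_one.1 this
  have hAfin : IsOfFinOrder A := isOfFinOrder_iff_pow_eq_one.2 ⟨m, hm, h1⟩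
  have hfin : Finite (Subgroup.zpowers A) := hAfin.finite_zpowers
  have hBn : B ∈ Subgroup.normalizer (Subgroup.zpowers A : Set (PresentedGroup (rels m n r t))) := by
    have h4 : (Subgroup.zpowers A).map (MulAut.conj B).toMonoidHom = Subgroup.zpowers A := by
      refine Subgroup.eq_of_le_of_card_ge ?_ ?_
      · rw [Subgroup.map_le_iff_le_comap, Subgroup.zpowers_le]
        show B * A * B⁻¹ ∈ Subgroup.zpowers A
        rw [h3]
        exact Subgroup.npow_mem_zpowers A r
      · rw [Subgroup.card_map_of_injective (MulAut.conj B).injective]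
    rw [Subgroup.mem_normalizer_iff]
    intro x
    constructor
    · intro hx
      have h5 : B * x * B⁻¹ ∈ (Subgroup.zpowers A).map (MulAut.conj B).toMonoidHom := ⟨x, hx, rfl⟩
      rwa [h4] at h5
    · intro hx
      have hx' : B * x * B⁻¹ ∈ (Subgroup.zpowers A).map (MulAut.conj B).toMonoidHom := by rw [h4]; exact hx
      obtain ⟨y, hy, hxy⟩ := hx'
      have : y = x := (MulAut.conj B).injective hxy
      rw [← this]; exact hy
  have hN : (Subgroup.zpowers A).Normal := by
    rw [← Subgroup.normalizer_eq_top_iff, eq_top_iff, ← closure_mkG m n r t, Subgroup.closure_le]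
    rintro x (rfl | rfl)
    · exact Subgroup.le_normalizer (Subgroup.mem_zpowers A)
    · exact hBn
  have hcyc : Subgroup.zpowers (QuotientGroup.mk' (Subgroup.zpowers A) B) = ⊤ := by
    have h5 : Subgroup.map (QuotientGroup.mk' (Subgroup.zpowers A)) (Subgroup.closure {A, B}) = ⊤ := by
      have h6 : Subgroup.closure {A, B} = ⊤ := closure_mkG m n r t
      rw [h6, Subgroup.map_top_of_surjective _ (QuotientGroup.mk'_surjective _)]
    rw [MonoidHom.map_closure, Set.image_pair] at h5
    rw [eq_top_iff, ← h5, Subgroup.closure_le]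
    rintro x (rfl | rfl)
    · have h6 : QuotientGroup.mk' (Subgroup.zpowers A) A = 1 :=
        (QuotientGroup.eq_one_iff _).2 (Subgroup.mem_zpowers A)
      rw [h6]
      exact one_mem _
    · exact Subgroup.mem_zpowers _
  have hQ : Finite (PresentedGroup (rels m n r t) ⧸ Subgroup.zpowers A) := by
    have h6 : IsOfFinOrder (QuotientGroup.mk' (Subgroup.zpowers A) B) := by
      refine isOfFinOrder_iff_pow_eq_one.2 ⟨n, hn, ?_⟩
      rw [← map_pow, h2]
      exact (QuotientGroup.eq_one_iff _).2 (Subgroup.npow_mem_zpowers A t)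
    have h7 : Finite (Subgroup.zpowers (QuotientGroup.mk' (Subgroup.zpowers A) B)) := h6.finite_zpowers
    rw [hcyc] at h7
    exact Finite.of_equiv (⊤ : Subgroup (PresentedGroup (rels m n r t) ⧸ Subgroup.zpowers A)) Subgroup.topEquiv.toEquiv
  refine (QuotientGroup.mk' (Subgroup.zpowers A)).finite_iff_finite_ker_range.mpr ⟨?_, inferInstance⟩
  rw [QuotientGroup.ker_mk']
  exact hfin

end Pres

end Cfsg.Agent.Lib.SchurMeta
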