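import Cfsg.Agent.Lib.SchurMeta

set_option autoImplicit false

/-!
The Schur multiplier of a finite metacyclic group: the group `F/[R,F]`.
-/

namespace Cfsg.Agent.Lib.SchurMeta

open Cfsg Cfsg.Agent.Lib.SchurMult

universe u

theorem form_mul {E : Type u} [Group E] {x y z : E} (hx : ∀ g, Commute x g) (hy : ∀ g, Commute y g) (i j k i' j' k' : ℤ) :
    x ^ i * y ^ j * z ^ k * (x ^ i' * y ^ j' * z ^ k') = x ^ (i + i') * y ^ (j + j') * z ^ (k + k') := by
  have h1 : y ^ j * z ^ k * x ^ i' = x ^ i' * (y ^ j * z ^ k) := ((hx _).zpow_left i').eq.symm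
  have h2 : z ^ k * y ^ j' = y ^ j' * z ^ k := ((hy _).zpow_left j').eq.symm
  calc x ^ i * y ^ j * z ^ k * (x ^ i' * y ^ j' * z ^ k') = x ^ i * (y ^ j * z ^ k * x ^ i') * y ^ j' * z ^ k' := by
        simp only [mul_assoc]
    _ = x ^ i * x ^ i' * y ^ j * (z ^ k * y ^ j') * z ^ k' := by rw [h1]; simp only [mul_assoc]
    _ = x ^ i * x ^ i' * (y ^ j * y ^ j') * (z ^ k * z ^ k') := by rw [h2]; simp only [mul_assoc]
    _ = _ := by rw [← zpow_add, ← zpow_add, ← zpow_add]

theorem ab_calc {C : Type u} [CommGroup C] (a : C) {m r d m' ρ : ℕ} (hm : m = d * m') (hr : r = d * ρ + 1) :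
    (a * (a ^ r)⁻¹) ^ m' * (a ^ m) ^ ρ = 1 := by
  subst hm hr
  rw [pow_succ, mul_inv_rev, mul_inv_cancel_left, ← pow_mul, inv_pow, ← pow_mul]
  have h : d * ρ * m' = d * m' * ρ := by ring
  rw [h, inv_mul_cancel]

/-- exponent sum of the first generator -/
def eaF : FreeGroup Bool →* Multiplicative ℤ := FreeGroup.lift (fun b => if b then Multiplicative.ofAdd (1:ℤ) else 1)
/-- exponent sum of the second generator -/
def ebF : FreeGroup Bool →* Multiplicative ℤ := FreeGroup.lift (fun b => if b then 1 else Multiplicative.ofAdd (1:ℤ))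

theorem eaF_A : eaF (FreeGroup.of true) = Multiplicative.ofAdd (1:ℤ) := by simp [eaF]
theorem eaF_B : eaF (FreeGroup.of false) = 1 := by simp [eaF]
theorem ebF_A : ebF (FreeGroup.of true) = 1 := by simp [ebF]
theorem ebF_B : ebF (FreeGroup.of false) = Multiplicative.ofAdd (1:ℤ) := by simp [ebF]

section UEE

variable (m n r t : ℕ)

/-- the group `F/[R,F]` -/
abbrev EE := UE (mkG m n r t)

/-- generator `A` -/
def gA : EE m n r t := mkUE (mkG m n r t) (FreeGroup.of true)
/-- generator `B` -/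
def gB : EE m n r t := mkUE (mkG m n r t) (FreeGroup.of false)
/-- central element `z` -/
def gz : EE m n r t := gB m n r t * gA m n r t * (gB m n r t)⁻¹ * (gA m n r t ^ r)⁻¹

theorem central_of_rel {f : FreeGroup Bool} (hf : f ∈ rels m n r t) (g : EE m n r t) :
    Commute (mkUE (mkG m n r t) f) g := by
  have h1 : mkUE (mkG m n r t) f ∈ (toG (mkG m n r t)).ker := by
    rw [MonoidHom.mem_ker, toG_mkUE]; exact rel_one m n r t hf
  exact (Subgroup.mem_center_iff.1 (ker_toG_le_center _ h1) g).symm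

theorem central_x (g : EE m n r t) : Commute (gA m n r t ^ m) g := by
  have := central_of_rel m n r t (f := FreeGroup.of true ^ m) (by simp [rels]) g
  rwa [map_pow] at this

theorem central_y (g : EE m n r t) : Commute (gB m n r t ^ n * (gA m n r t ^ t)⁻¹) g := by
  have := central_of_rel m n r t (f := (FreeGroup.of false) ^ n * (FreeGroup.of true ^ t)⁻¹) (by simp [rels]) g
  rwa [map_mul, map_inv, map_pow, map_pow] at this

theorem central_z (g : EE m n r t) : Commute (gz m n r t) g := by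
  have := central_of_rel m n r t (f := FreeGroup.of false * FreeGroup.of true * (FreeGroup.of false)⁻¹ * (FreeGroup.of true ^ r)⁻¹)
    (by simp [rels]) g
  rwa [map_mul, map_mul, map_mul, map_inv, map_inv, map_pow] at this

theorem hB' : gB m n r t * gA m n r t * (gB m n r t)⁻¹ = gz m n r t * gA m n r t ^ r := by
  unfold gz
  rw [inv_mul_cancel_right]

theorem ker_le_closure : (toG (mkG m n r t)).ker ≤
    Subgroup.closure {gA m n r t ^ m, gB m n r t ^ n * (gA m n r t ^ t)⁻¹, gz m n r t} := by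
  rw [ker_toG]
  have h1 : (mkG m n r t).ker = Subgroup.normalClosure (rels m n r t) := QuotientGroup.ker_mk' _
  rw [Subgroup.map_le_iff_le_comap]
  conv_lhs => rw [h1]
  unfold Subgroup.normalClosure
  rw [Subgroup.closure_le]
  intro x hx
  rw [Group.mem_conjugatesOfSet_iff] at hx
  obtain ⟨s, hs, hsx⟩ := hx
  obtain ⟨g, rfl⟩ := isConj_iff.1 hsx
  rw [SetLike.mem_coe, Subgroup.mem_comap, map_mul, map_mul, map_inv]
  rw [← (central_of_rel m n r t hs _).eq, mul_inv_cancel_right]
  apply Subgroup.subset_closure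
  rcases hs with rfl | rfl | rfl
  · left; rw [map_pow]; rfl
  · right; left; rw [map_mul, map_inv, map_pow, map_pow]; rfl
  · right; right; rw [map_mul, map_mul, map_mul, map_inv, map_inv, map_pow]; rfl

theorem closure_le_ker : Subgroup.closure {gA m n r t ^ m, gB m n r t ^ n * (gA m n r t ^ t)⁻¹, gz m n r t} ≤
    (toG (mkG m n r t)).ker := by
  rw [Subgroup.closure_le]
  rintro x (rfl | rfl | rfl)
  · have := rel_one m n r t (f := FreeGroup.of true ^ m) (by simp [rels])
    exact this
  · have := rel_one m n r t (f := (FreeGroup.of false) ^ n * (FreeGroup.of true ^ t)⁻¹) (by simp [rels])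
    exact this
  · have := rel_one m n r t (f := FreeGroup.of false * FreeGroup.of true * (FreeGroup.of false)⁻¹ * (FreeGroup.of true ^ r)⁻¹)
      (by simp [rels])
    exact this

/-- normal form in the kernel -/
theorem exists_form {e : EE m n r t} (he : e ∈ (toG (mkG m n r t)).ker) :
    ∃ i j k : ℤ, e = (gA m n r t ^ m) ^ i * (gB m n r t ^ n * (gA m n r t ^ t)⁻¹) ^ j * (gz m n r t) ^ k := by
  have h := ker_le_closure m n r t he
  induction h using Subgroup.closure_induction with
  | mem x hx =>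
    rcases hx with rfl | rfl | rfl
    · exact ⟨1, 0, 0, by simp⟩
    · exact ⟨0, 1, 0, by simp⟩
    · exact ⟨0, 0, 1, by simp⟩
  | one => exact ⟨0, 0, 0, by simp⟩
  | mul a b ha hb iha ihb =>
    obtain ⟨i, j, k, rfl⟩ := iha (closure_le_ker m n r t ha)
    obtain ⟨i', j', k', rfl⟩ := ihb (closure_le_ker m n r t hb)
    exact ⟨i + i', j + j', k + k', form_mul (central_x m n r t) (central_y m n r t) _ _ _ _ _ _⟩
  | inv a ha iha =>
    obtain ⟨i, j, k, rfl⟩ := iha (closure_le_ker m n r t ha)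
    refine ⟨-i, -j, -k, ?_⟩
    rw [inv_eq_iff_mul_eq_one, form_mul (central_x m n r t) (central_y m n r t)]
    simp

/-- exponent sum of the first generator -/
def ea : EE m n r t →* Multiplicative ℤ :=
  QuotientGroup.lift (relComm (mkG m n r t)) eaF (by
    refine (relComm_le_commutator _).trans (SchurBasic.commutator_le_ker _ (fun a b => mul_comm _ _)))

/-- exponent sum of the second generator -/
def eb : EE m n r t →* Multiplicative ℤ :=
  QuotientGroup.lift (relComm (mkG m n r t)) ebF (by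
    refine (relComm_le_commutator _).trans (SchurBasic.commutator_le_ker _ (fun a b => mul_comm _ _)))

theorem ea_A : ea m n r t (gA m n r t) = Multiplicative.ofAdd (1:ℤ) := eaF_A
theorem ea_B : ea m n r t (gB m n r t) = 1 := eaF_B
theorem eb_A : eb m n r t (gA m n r t) = 1 := ebF_A
theorem eb_B : eb m n r t (gB m n r t) = Multiplicative.ofAdd (1:ℤ) := ebF_B

/-- the multiplier is generated by `w = z^{m'} x^ρ`, `m = d m'`, `r - 1 = d ρ` -/
theorem mult_le {d m' ρ : ℕ} (hd : 0 < d) (hm' : 0 < m') (hn : 0 < n) (hm : m = d * m') (hr : r = d * ρ + 1)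
    (hco : Nat.Coprime m' ρ) :
    mult (toG (mkG m n r t)) ≤ Subgroup.zpowers (gz m n r t ^ m' * (gA m n r t ^ m) ^ ρ) := by
  intro e he
  rw [mem_mult] at he
  obtain ⟨i, j, k, rfl⟩ := exists_form m n r t he.1
  have h1 : ea m n r t ((gA m n r t ^ m) ^ i * (gB m n r t ^ n * (gA m n r t ^ t)⁻¹) ^ j * (gz m n r t) ^ k) = 1 :=
    (SchurBasic.commutator_le_ker _ (fun a b => mul_comm _ _)) he.2
  have h2 : eb m n r t ((gA m n r t ^ m) ^ i * (gB m n r t ^ n * (gA m n r t ^ t)⁻¹) ^ j * (gz m n r t) ^ k) = 1 :=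
    (SchurBasic.commutator_le_ker _ (fun a b => mul_comm _ _)) he.2
  unfold gz at h1 h2
  simp only [map_mul, map_zpow, map_pow, map_inv, ea_A, ea_B, eb_A, eb_B] at h1 h2
  have h3 : (j : ℤ) * n = 0 := by
    have := congrArg Multiplicative.toAdd h2
    simp only [toAdd_mul, toAdd_zpow, toAdd_pow, toAdd_inv, toAdd_one, toAdd_ofAdd, smul_eq_mul] at this
    simpa using this
  have hj : j = 0 := by
    rcases mul_eq_zero.1 h3 with h | h
    · exact h
    · have : n = 0 := by exact_mod_cast h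
      omega
  subst hj
  have h4 : (i : ℤ) * m = k * (r - 1) := by
    have := congrArg Multiplicative.toAdd h1
    simp only [toAdd_mul, toAdd_zpow, toAdd_pow, toAdd_inv, toAdd_one, toAdd_ofAdd, smul_eq_mul] at this
    simp at this
    linear_combination this
  have h5 : (i : ℤ) * m' = k * ρ := by
    rw [hm, hr] at h4
    push_cast at h4
    have h6 : (d : ℤ) * (i * m') = d * (k * ρ) := by linear_combination h4
    exact mul_left_cancel₀ (by exact_mod_cast hd.ne') h6
  have h6 : (m' : ℤ) ∣ k := by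
    have h7 : (m' : ℤ) ∣ k * ρ := ⟨i, by rw [← h5, mul_comm]⟩
    exact (Nat.isCoprime_iff_coprime.2 hco).dvd_of_dvd_mul_right h7
  obtain ⟨k', rfl⟩ := h6
  have h7 : i = ρ * k' := by
    have h8 : (m' : ℤ) * i = m' * (ρ * k') := by linear_combination h5
    exact mul_left_cancel₀ (by exact_mod_cast hm'.ne') h8
  subst h7
  refine ⟨k', ?_⟩
  have hc := central_z m n r t
  show (gz m n r t ^ m' * (gA m n r t ^ m) ^ ρ) ^ k' = _
  have hc1 : Commute (gz m n r t ^ m') ((gA m n r t ^ m) ^ ρ) := (hc _).pow_left m'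
  rw [hc1.mul_zpow, zpow_mul, zpow_mul, zpow_natCast, zpow_natCast, zpow_zero, mul_one]
  exact (((hc _).pow_left m').zpow_left k').eq

theorem w_mem {d m' ρ : ℕ} (hm : m = d * m') (hr : r = d * ρ + 1) :
    gz m n r t ^ m' * (gA m n r t ^ m) ^ ρ ∈ mult (toG (mkG m n r t)) := by
  rw [mem_mult]
  refine ⟨?_, ?_⟩
  · rw [← MonoidHom.mem_ker]
    refine mul_mem (pow_mem (closure_le_ker m n r t (Subgroup.subset_closure (by simp))) _)
      (pow_mem (closure_le_ker m n r t (Subgroup.subset_closure (by simp))) _)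
  · rw [← Abelianization.ker_of, MonoidHom.mem_ker, map_mul, map_pow, map_pow, map_pow]
    unfold gz
    rw [map_mul, map_mul, map_mul, map_inv, map_inv, map_pow]
    set a := Abelianization.of (gA m n r t)
    set b := Abelianization.of (gB m n r t)
    rw [mul_comm b a, mul_inv_cancel_right]
    exact ab_calc a hm hr

/-- order of the generator divides `gcd(l, gcd(d, σ))` -/
theorem w_pow {d m' ρ σ l : ℕ} (hd : 0 < d) (hm' : 0 < m') (hm : m = d * m') (hr : r = d * ρ + 1)
    (hs : ∑ i ∈ Finset.range n, r ^ i = m' * σ) (ht : t = m' * l) :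
    (gz m n r t ^ m' * (gA m n r t ^ m) ^ ρ) ^ (Nat.gcd l (Nat.gcd d σ)) = 1 := by
  have hr0 : 0 < r := by omega
  have hc := central_z m n r t
  have hc1 : Commute (gz m n r t ^ m') ((gA m n r t ^ m) ^ ρ) := (hc _).pow_left m'
  have hr1 : r - 1 = d * ρ := by omega
  have e1 : (gz m n r t ^ m' * (gA m n r t ^ m) ^ ρ) ^ d = 1 := by
    have h := rel1 (m := m) hr0 hc (hB' m n r t) (central_x m n r t)
    rw [hc1.mul_pow, ← pow_mul, ← pow_mul, mul_comm m' d, mul_comm ρ d, ← hm, ← hr1]
    exact h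
  have e2 : (gz m n r t ^ m' * (gA m n r t ^ m) ^ ρ) ^ l = 1 := by
    have h := rel3 (m := m) (l := l * ρ) hr0 hc (hB' m n r t) (central_y m n r t) (by rw [hr1, ht, hm]; ring)
    rw [hc1.mul_pow, ← pow_mul, ← pow_mul, mul_comm ρ l, ← ht]
    exact h
  have e3 : (gz m n r t ^ m' * (gA m n r t ^ m) ^ ρ) ^ σ = 1 := by
    have h := rel2 (m := m) (q := ρ * σ) hr0 hc (hB' m n r t) (central_y m n r t) (by
      have h1 := geom_sum_mul_add (d * ρ) n
      rw [← hr, hs] at h1
      rw [← h1, hm]; ring)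
    rw [hc1.mul_pow, ← pow_mul, ← pow_mul, ← hs]
    exact h
  rw [← orderOf_dvd_iff_pow_eq_one] at e1 e2 e3 ⊢
  exact Nat.dvd_gcd e2 (Nat.dvd_gcd e1 e3)

end UEE

end Cfsg.Agent.Lib.SchurMeta
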