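import Cfsg.Agent.Lib.SchurMeta2

set_option autoImplicit false

/-!
The Schur multiplier of a finite metacyclic group: the lower bound and the main theorem.
-/

namespace Cfsg.Agent.Lib.SchurMeta

open Cfsg Cfsg.Agent.Lib.SchurMult

universe u

theorem exists_alpha {m' ρ c : ℕ} (hm' : 0 < m') (hc : 0 < c) (h : Nat.Coprime m' ρ) :
    ∃ α : ℕ, Nat.Coprime α c ∧ α ≡ ρ [MOD m'] := by
  have : NeZero (m' * c) := ⟨(Nat.mul_pos hm' hc).ne'⟩
  have : NeZero m' := ⟨hm'.ne'⟩
  obtain ⟨v, hv⟩ := ZMod.unitsMap_surjective (Dvd.intro c rfl : m' ∣ m' * c) (ZMod.unitOfCoprime ρ h.symm)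
  refine ⟨(v : ZMod (m' * c)).val, (ZMod.val_coe_unit_coprime v).coprime_dvd_right (Dvd.intro_left _ rfl), ?_⟩
  have h1 := congrArg (fun w : (ZMod m')ˣ => (w : ZMod m')) hv
  simp only [ZMod.unitsMap_def, Units.coe_map, MonoidHom.coe_coe, ZMod.castHom_apply, ZMod.coe_unitOfCoprime] at h1
  rw [← ZMod.natCast_eq_natCast_iff, ZMod.natCast_val]
  exact h1

section UEE

variable (m n r t : ℕ)

theorem lift_exists {X : Type u} [Group X] (η : FreeGroup Bool →* X)
    (h : ∀ f ∈ rels m n r t, ∀ b : Bool, Commute (η f) (η (FreeGroup.of b))) :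
    ∃ θ : EE m n r t →* X, ∀ f, θ (mkUE _ f) = η f := by
  have h1 : ∀ f ∈ rels m n r t, ∀ g : FreeGroup Bool, Commute (η f) (η g) := by
    intro f hf g
    induction g using FreeGroup.induction_on with
    | C1 => rw [map_one]; exact Commute.one_right _
    | of b => exact h f hf b
    | inv_of b ih => rw [map_inv]; exact ih.inv_right
    | mul x y ihx ihy => rw [map_mul]; exact ihx.mul_right ihy
  have h2 : ∀ f ∈ (mkG m n r t).ker, ∀ g : FreeGroup Bool, Commute (η f) (η g) := by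
    intro f hf
    have h3 : (mkG m n r t).ker = Subgroup.normalClosure (rels m n r t) := QuotientGroup.ker_mk' _
    rw [h3] at hf
    unfold Subgroup.normalClosure at hf
    induction hf using Subgroup.closure_induction with
    | mem x hx =>
      intro g
      rw [Group.mem_conjugatesOfSet_iff] at hx
      obtain ⟨s, hs, hsx⟩ := hx
      obtain ⟨k, rfl⟩ := isConj_iff.1 hsx
      rw [map_mul, map_mul, map_inv, ← (h1 s hs k).eq, mul_inv_cancel_right]
      exact h1 s hs g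
    | one => intro g; rw [map_one]; exact Commute.one_left _
    | mul a b _ _ iha ihb => intro g; rw [map_mul]; exact (iha g).mul_left (ihb g)
    | inv a _ iha => intro g; rw [map_inv]; exact (iha g).inv_left
  refine ⟨QuotientGroup.lift (relComm (mkG m n r t)) η ?_, fun f => rfl⟩
  unfold relComm
  rw [Subgroup.commutator_le]
  intro f hf g _
  rw [MonoidHom.mem_ker, map_commutatorElement, commutatorElement_eq_one_iff_mul_comm]
  exact (h2 f hf g).eq

end UEE

/-- translation -/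
def T {N : ℕ} (k : ZMod N) : Equiv.Perm (ZMod N) := Equiv.addRight k

theorem T_apply {N : ℕ} (k x : ZMod N) : T k x = x + k := rfl

theorem T_mul {N : ℕ} (k l : ZMod N) : T k * T l = T (k + l) := by
  ext x
  rw [Equiv.Perm.mul_apply, T_apply, T_apply, T_apply, add_assoc, add_comm l k]

theorem T_pow {N : ℕ} (k : ZMod N) (j : ℕ) : T k ^ j = T ((j : ZMod N) * k) := by
  induction j with
  | zero => ext x; rw [pow_zero, T_apply]; simp
  | succ j ih => rw [pow_succ, ih, T_mul]; push_cast; rw [add_mul, one_mul]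

theorem T_inv {N : ℕ} (k : ZMod N) : (T k)⁻¹ = T (-k) := by
  rw [inv_eq_iff_mul_eq_one, T_mul, add_neg_cancel]
  ext x; rw [T_apply]; simp

theorem T_comm {N : ℕ} (k l : ZMod N) : Commute (T k) (T l) := by
  show T k * T l = T l * T k
  rw [T_mul, T_mul, add_comm]

theorem T_eq_one {N : ℕ} {k : ZMod N} (h : T k = 1) : k = 0 := by
  have := congrArg (fun f => f 0) h
  simpa [T_apply] using this

/-- multiplication -/
def Mu {N : ℕ} (u : (ZMod N)ˣ) : Equiv.Perm (ZMod N) := Units.mulLeft u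

theorem Mu_apply {N : ℕ} (u : (ZMod N)ˣ) (x : ZMod N) : Mu u x = u * x := rfl

theorem Mu_pow {N : ℕ} (u : (ZMod N)ˣ) (j : ℕ) (h : u ^ j = 1) : Mu u ^ j = 1 := by
  have h1 : ∀ i : ℕ, ∀ x, (Mu u ^ i) x = ((u ^ i : (ZMod N)ˣ) : ZMod N) * x := by
    intro i
    induction i with
    | zero => intro x; simp
    | succ i ih => intro x; rw [pow_succ, Equiv.Perm.mul_apply, ih, Mu_apply, pow_succ, Units.val_mul, mul_assoc]
  ext x
  rw [h1, h]
  simp

theorem Mu_conj {N : ℕ} (u : (ZMod N)ˣ) (k : ZMod N) : Mu u * T k * (Mu u)⁻¹ = T ((u : ZMod N) * k) := by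
  rw [mul_inv_eq_iff_eq_mul]
  ext x
  rw [Equiv.Perm.mul_apply, Equiv.Perm.mul_apply, T_apply, T_apply, Mu_apply, Mu_apply, mul_add]

theorem Mu_commute {N : ℕ} (u : (ZMod N)ˣ) (k : ZMod N) (h : (u : ZMod N) * k = k) : Commute (T k) (Mu u) := by
  have h1 := Mu_conj u k
  rw [h, mul_inv_eq_iff_eq_mul] at h1
  exact h1.symm

theorem order_lower {m n r t d m' ρ σ l c : ℕ} (hd : 0 < d) (hm' : 0 < m') (hn : 0 < n) (hm : m = d * m')
    (hr : r = d * ρ + 1) (hco : Nat.Coprime m' ρ)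
    (hs : ∑ i ∈ Finset.range n, r ^ i = m' * σ) (ht : t = m' * l) (hc : 0 < c) (hcl : c ∣ l) (hcd : c ∣ d) (hcσ : c ∣ σ)
    {j : ℕ} (hj : (gz m n r t ^ m' * (gA m n r t ^ m) ^ ρ) ^ j = 1) : c ∣ j := by
  obtain ⟨α, hαc, hαρ⟩ := exists_alpha hm' hc hco
  have hm0 : 0 < m := by rw [hm]; exact Nat.mul_pos hd hm'
  set N := m * c with hN
  have hN0 : 0 < N := Nat.mul_pos hm0 hc
  set r' := d * α + 1 with hr'
  have hrr : r' ≡ r [MOD m] := by
    rw [hr', hr, hm]
    exact Nat.ModEq.add_right 1 (Nat.ModEq.mul_left' d hαρ)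
  have hcast : ∀ k : ℕ, N ∣ k → (k : ZMod N) = 0 := fun k hk => (ZMod.natCast_eq_zero_iff k N).2 hk
  -- `r' ^ n = 1`
  have h1 : ∃ σ' : ℕ, ∑ i ∈ Finset.range n, r' ^ i = m' * σ' ∧ c ∣ σ' := by
    have h2 : ∑ i ∈ Finset.range n, r' ^ i ≡ m' * σ [MOD m] := by
      rw [← hs]
      exact Nat.ModEq.sum (fun i _ => Nat.ModEq.pow i hrr)
    have h3 : m' ∣ ∑ i ∈ Finset.range n, r' ^ i := by
      have h4 : ∑ i ∈ Finset.range n, r' ^ i ≡ m' * σ [MOD m'] := h2.of_dvd (by rw [hm]; exact Dvd.intro_left _ rfl)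
      exact (Nat.modEq_zero_iff_dvd.1 (h4.trans (Nat.modEq_zero_iff_dvd.2 (Dvd.intro _ rfl))))
    obtain ⟨σ', hσ'⟩ := h3
    refine ⟨σ', hσ', ?_⟩
    rw [hσ', hm, mul_comm d m'] at h2
    have h5 : σ' ≡ σ [MOD d] := Nat.ModEq.mul_left_cancel' hm'.ne' h2
    have h6 : σ' ≡ σ [MOD c] := h5.of_dvd hcd
    exact Nat.modEq_zero_iff_dvd.1 (h6.trans (Nat.modEq_zero_iff_dvd.2 hcσ))
  obtain ⟨σ', hσ', hcσ'⟩ := h1
  have h2 : ((r' : ZMod N)) ^ n = 1 := by
    have h3 := geom_sum_mul_add (d * α) n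
    rw [← hr', hσ'] at h3
    have h4 : ((m' * σ' * (d * α) : ℕ) : ZMod N) = 0 := by
      apply hcast
      obtain ⟨k, rfl⟩ := hcσ'
      exact ⟨k * α, by rw [hN, hm]; ring⟩
    have h5 := congrArg (fun w : ℕ => (w : ZMod N)) h3
    simp only [Nat.cast_add, Nat.cast_one, Nat.cast_pow] at h5
    rw [h4, zero_add] at h5
    exact h5.symm
  let u : (ZMod N)ˣ := Units.ofPowEqOne (r' : ZMod N) n h2 hn.ne'
  have hu : (u : ZMod N) = r' := rfl
  have hun : u ^ n = 1 := Units.ext (by rw [Units.val_pow_eq_pow_val, hu, h2]; rfl)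
  have hfix : ∀ k : ℕ, N ∣ (d * α) * k → (u : ZMod N) * k = k := by
    intro k hk
    have h3 := hcast _ hk
    rw [hu, hr']
    push_cast at h3 ⊢
    linear_combination h3
  have hfix' : ∀ k : ZMod N, ((d * α : ℕ) : ZMod N) * k = 0 → (u : ZMod N) * k = k := by
    intro k hk
    rw [hu, hr']
    push_cast at hk ⊢
    linear_combination hk
  -- the homomorphism
  let η : FreeGroup Bool →* Equiv.Perm (ZMod N) := FreeGroup.lift (fun b => if b then T 1 else Mu u)
  have hη1 : η (FreeGroup.of true) = T 1 := by simp [η]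
  have hη2 : η (FreeGroup.of false) = Mu u := by simp [η]
  have hz : Mu u * T 1 * (Mu u)⁻¹ * (T 1 ^ r)⁻¹ = T ((r' : ZMod N) - (r : ZMod N)) := by
    rw [Mu_conj, T_pow, T_inv, T_mul, hu]
    ring_nf
  have hkey : ∀ k : ZMod N, (u : ZMod N) * k = k → ∀ b : Bool, Commute (T k) (η (FreeGroup.of b)) := by
    intro k hk b
    cases b
    · rw [hη2]; exact Mu_commute u k hk
    · rw [hη1]; exact T_comm k 1
  obtain ⟨θ, hθ⟩ := lift_exists m n r t η (by
    intro f hf
    rcases hf with rfl | rfl | rfl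
    · rw [map_pow, hη1, T_pow, mul_one]
      refine hkey _ (hfix m ?_)
      obtain ⟨k, hk⟩ := hcd
      exact ⟨k * α, by rw [hN, hk]; ring⟩
    · rw [map_mul, map_inv, map_pow, map_pow, hη1, hη2, Mu_pow u n hun, one_mul, T_pow, mul_one]
      intro b
      refine (hkey _ (hfix t ?_) b).inv_left
      obtain ⟨k, hk⟩ := hcl
      exact ⟨k * α, by rw [hN, ht, hk, hm]; ring⟩
    · rw [map_mul, map_mul, map_mul, map_inv, map_inv, map_pow, hη1, hη2, hz]
      refine hkey _ (hfix' _ ?_)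
      have h3 : (m : ℤ) ∣ (r' : ℤ) - r := (Nat.modEq_iff_dvd.1 hrr.symm)
      obtain ⟨q, hq⟩ := h3
      have h4 : ((r' : ZMod N) - r) = m * q := by
        have := congrArg (fun w : ℤ => (w : ZMod N)) hq
        simpa using this
      obtain ⟨k, hk⟩ := hcd
      rw [h4]
      have h5 : ((m * c : ℕ) : ZMod N) = 0 := hcast _ (by rw [hN])
      rw [hk]
      push_cast at h5 ⊢
      linear_combination (k * α * q : ZMod N) * h5)
  have h3 : θ (gA m n r t) = T 1 := by unfold gA; rw [hθ, hη1]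
  have h4 : θ (gB m n r t) = Mu u := by unfold gB; rw [hθ, hη2]
  have h5 : θ (gz m n r t) = T ((r' : ZMod N) - (r : ZMod N)) := by
    unfold gz
    rw [map_mul, map_mul, map_mul, map_inv, map_inv, map_pow, h3, h4, hz]
  have h6 : θ (gz m n r t ^ m' * (gA m n r t ^ m) ^ ρ) = T ((m * α : ℕ) : ZMod N) := by
    rw [map_mul, map_pow, map_pow, map_pow, h3, h5, T_pow, T_pow, T_pow, T_mul]
    congr 1
    rw [hr', hr, hm]
    push_cast
    ring
  have h7 := congrArg θ hj
  rw [map_pow, h6, T_pow, map_one] at h7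
  have h8 := T_eq_one h7
  have h9 : ((j * (m * α) : ℕ) : ZMod N) = 0 := by push_cast at h8 ⊢; exact h8
  rw [ZMod.natCast_eq_zero_iff, hN] at h9
  have h10 : m * c ∣ m * (j * α) := by
    have : j * (m * α) = m * (j * α) := by ring
    rwa [this] at h9
  exact hαc.symm.dvd_of_dvd_mul_right (Nat.dvd_of_mul_dvd_mul_left hm0 h10)

end Cfsg.Agent.Lib.SchurMeta
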