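import Cfsg.Agent.Lib.SchurMeta3

set_option autoImplicit false

/-!
The Schur multiplier of a finite metacyclic group: the main theorem.
-/

namespace Cfsg.Agent.Lib.SchurMeta

open Cfsg Cfsg.Agent.Lib.SchurMult

theorem main_aux {m n r t d m' ρ σ l : ℕ} (hd : 0 < d) (hm' : 0 < m') (hn : 0 < n) (hm : m = d * m')
    (hr : r = d * ρ + 1) (hco : Nat.Coprime m' ρ) (hrn : r ^ n ≡ 1 [MOD m])
    (hs : ∑ i ∈ Finset.range n, r ^ i = m' * σ) (ht : t = m' * l) :
    HasCyclicSchurMultiplier (PresentedGroup (rels m n r t)) (Nat.gcd l (Nat.gcd d σ)) := by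
  have hm0 : 0 < m := by rw [hm]; exact Nat.mul_pos hd hm'
  have hfin := finite_G m n r t hm0 hn (by omega) hrn
  apply (hasSchurMultiplier_iff (mkG m n r t) (mkG_surjective m n r t)).2
  set c := Nat.gcd l (Nat.gcd d σ) with hc
  have hc0 : 0 < c := Nat.gcd_pos_of_pos_right _ (Nat.gcd_pos_of_pos_left _ hd)
  set w := gz m n r t ^ m' * (gA m n r t ^ m) ^ ρ with hw
  have h1 : mult (toG (mkG m n r t)) = Subgroup.zpowers w := by
    apply le_antisymm
    · exact mult_le m n r t hd hm' hn hm hr hco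
    · rw [Subgroup.zpowers_le]
      exact w_mem m n r t hm hr
  have h2 : orderOf w = c := by
    apply Nat.dvd_antisymm
    · exact orderOf_dvd_of_pow_eq_one (w_pow m n r t hd hm' hm hr hs ht)
    · exact order_lower hd hm' hn hm hr hco hs ht hc0 (Nat.gcd_dvd_left _ _)
        ((Nat.gcd_dvd_right _ _).trans (Nat.gcd_dvd_left _ _)) ((Nat.gcd_dvd_right _ _).trans (Nat.gcd_dvd_right _ _))
        (pow_orderOf_eq_one w)
  rw [h1]
  have : NeZero c := ⟨hc0.ne'⟩
  refine ⟨mulEquivOfCyclicCardEq ?_⟩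
  rw [Nat.card_zpowers, h2]
  show c = Nat.card (ZMod c)
  rw [Nat.card_zmod]

theorem main (m n r l : ℕ) (hm : 0 < m) (hn : 0 < n) (hr : 0 < r) (hrn : r ^ n ≡ 1 [MOD m]) :
    HasCyclicSchurMultiplier (PresentedGroup (rels m n r (m * l / Nat.gcd m (r - 1))))
      (Nat.gcd l (Nat.gcd m (r - 1) * Nat.gcd m (∑ i ∈ Finset.range n, r ^ i) / m)) := by
  set d := Nat.gcd m (r - 1) with hd
  have hd0 : 0 < d := Nat.gcd_pos_of_pos_left _ hm
  obtain ⟨m', ρ, hco, hm', hρ⟩ : ∃ m' ρ : ℕ, Nat.Coprime m' ρ ∧ m = d * m' ∧ r - 1 = d * ρ := by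
    obtain ⟨a, b, h1, h2, h3⟩ := Nat.exists_coprime m (r - 1)
    exact ⟨a, b, h1, by rw [mul_comm]; exact h2, by rw [mul_comm]; exact h3⟩
  have hm'0 : 0 < m' := by
    rcases Nat.eq_zero_or_pos m' with h | h
    · rw [h, mul_zero] at hm'; omega
    · exact h
  have hr' : r = d * ρ + 1 := by omega
  have hs : m' ∣ ∑ i ∈ Finset.range n, r ^ i := by
    have h1 := geom_sum_mul_add (d * ρ) n
    rw [← hr'] at h1
    have h2 : m ∣ (∑ i ∈ Finset.range n, r ^ i) * (d * ρ) := by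
      have h3 := (Nat.modEq_iff_dvd' (Nat.one_le_pow _ _ hr)).1 hrn.symm
      rw [← h1, Nat.add_sub_cancel] at h3
      exact h3
    have h4 : d * m' ∣ d * ((∑ i ∈ Finset.range n, r ^ i) * ρ) := by
      have h5 : (∑ i ∈ Finset.range n, r ^ i) * (d * ρ) = d * ((∑ i ∈ Finset.range n, r ^ i) * ρ) := by ring
      rw [← hm', ← h5]
      exact h2
    exact hco.dvd_of_dvd_mul_right (Nat.dvd_of_mul_dvd_mul_left hd0 h4)
  obtain ⟨σ, hσ⟩ := hs
  have h1 : m * l / d = m' * l := by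
    rw [hm', mul_assoc, Nat.mul_div_cancel_left _ hd0]
  have h2 : d * Nat.gcd m (∑ i ∈ Finset.range n, r ^ i) / m = Nat.gcd d σ := by
    rw [hσ]
    have h3 : Nat.gcd m (m' * σ) = m' * Nat.gcd d σ := by
      conv_lhs => rw [hm', mul_comm d m']
      exact Nat.gcd_mul_left m' d σ
    rw [h3, ← mul_assoc, ← hm', Nat.mul_div_cancel_left _ hm]
  rw [h1, h2]
  exact main_aux hd0 hm'0 hn hm' hr' hco hrn hσ rfl

end Cfsg.Agent.Lib.SchurMeta
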