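import Mathlib
import Cfsg.Agent.Lib.SchurFiber

/-!
Projective representations and the Schur multiplier (helper66).
-/

set_option autoImplicit false
set_option linter.style.haveILetI false

namespace Cfsg.Agent.Lib.SchurProj

open Cfsg Cfsg.Agent.Lib.SchurMult Cfsg.Agent.Lib.SchurFiber
open scoped commutatorElement

universe u v w x

/-- functions on `Δ` transforming by the character `l` of the central subgroup `Z`. -/
def eigenSpace {Δ : Type u} [Group Δ] (Z : Subgroup Δ) (l : Z →* ℂˣ) : Submodule ℂ (Δ → ℂ) where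
  carrier := {f | ∀ (z : Z) (d : Δ), f (z * d) = (l z : ℂ) * f d}
  add_mem' := by
    intro f g hf hg z d
    rw [Pi.add_apply, Pi.add_apply, hf, hg, mul_add]
  zero_mem' := by intro z d; simp
  smul_mem' := by
    intro c f hf z d
    rw [Pi.smul_apply, Pi.smul_apply, hf, smul_eq_mul, smul_eq_mul]
    ring

/-- right translation on `eigenSpace` -/
def eigenRep {Δ : Type u} [Group Δ] (Z : Subgroup Δ) (l : Z →* ℂˣ) : Δ →* (eigenSpace Z l →ₗ[ℂ] eigenSpace Z l) where
  toFun g :=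
    { toFun := fun f => ⟨fun x => f.1 (x * g), by
        intro z d
        show f.1 (z * d * g) = (l z : ℂ) * f.1 (d * g)
        rw [mul_assoc, f.2]⟩
      map_add' := by intro f g; rfl
      map_smul' := by intro c f; rfl }
  map_one' := by
    ext f x
    show f.1 (x * 1) = f.1 x
    rw [mul_one]
  map_mul' := by
    intro g h
    ext f x
    show f.1 (x * (g * h)) = f.1 ((x * g) * h)
    rw [mul_assoc]

theorem eigenRep_central {Δ : Type u} [Group Δ] (Z : Subgroup Δ) (hZ : Z ≤ Subgroup.center Δ) (l : Z →* ℂˣ)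
    (z : Z) : eigenRep Z l z = (l z : ℂ) • (1 : eigenSpace Z l →ₗ[ℂ] eigenSpace Z l) := by
  ext f x
  show f.1 (x * z) = (l z : ℂ) * f.1 x
  rw [Subgroup.mem_center_iff.1 (hZ z.2) x, f.2]

theorem eigenSpace_ne_bot {Δ : Type u} [Group Δ] (Z : Subgroup Δ) (l : Z →* ℂˣ) : Nontrivial (eigenSpace Z l) := by
  classical
  let f0 : Δ → ℂ := fun x => if h : x ∈ Z then (l ⟨x, h⟩ : ℂ) else 0
  have hf0 : f0 ∈ eigenSpace Z l := by
    intro z d
    by_cases hd : d ∈ Z
    · have hzd : (z : Δ) * d ∈ Z := Z.mul_mem z.2 hd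
      have e1 : f0 (z * d) = (l ⟨z * d, hzd⟩ : ℂ) := dif_pos hzd
      have e2 : f0 d = (l ⟨d, hd⟩ : ℂ) := dif_pos hd
      rw [e1, e2, ← Units.val_mul, ← map_mul]
      rfl
    · have hzd : (z : Δ) * d ∉ Z := by
        intro h
        exact hd ((Subgroup.mul_mem_cancel_left Z z.2).1 h)
      have e1 : f0 (z * d) = 0 := dif_neg hzd
      have e2 : f0 d = 0 := dif_neg hd
      rw [e1, e2, mul_zero]
  refine ⟨⟨⟨f0, hf0⟩, 0, ?_⟩⟩
  intro h
  have h1 : f0 1 = 0 := congrFun (congrArg Subtype.val h) 1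
  have h2 : f0 1 = (l ⟨1, Z.one_mem⟩ : ℂ) := dif_pos Z.one_mem
  have h3 : (⟨1, Z.one_mem⟩ : Z) = 1 := rfl
  rw [h2, h3, map_one, Units.val_one] at h1
  exact one_ne_zero h1

/-- a finite group has a matrix representation on which a central subgroup acts by a given character. -/
theorem exists_rep {Δ : Type u} [Group Δ] [Finite Δ] (Z : Subgroup Δ) (hZ : Z ≤ Subgroup.center Δ) (l : Z →* ℂˣ) :
    ∃ (n : ℕ) (ρ : Δ →* GL (Fin n) ℂ), 0 < n ∧ ∀ z : Z, (ρ z : Matrix (Fin n) (Fin n) ℂ) = Matrix.scalar (Fin n) (l z : ℂ) := by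
  haveI : Finite Δ := inferInstance
  haveI : Module.Finite ℂ (Δ → ℂ) := inferInstance
  haveI : Module.Finite ℂ (eigenSpace Z l) := inferInstance
  haveI := eigenSpace_ne_bot Z l
  let b := Module.finBasis ℂ (eigenSpace Z l)
  let φ : (eigenSpace Z l →ₗ[ℂ] eigenSpace Z l) ≃ₐ[ℂ] Matrix (Fin (Module.finrank ℂ (eigenSpace Z l))) (Fin (Module.finrank ℂ (eigenSpace Z l))) ℂ :=
    LinearMap.toMatrixAlgEquiv b
  let ρ : Δ →* GL (Fin (Module.finrank ℂ (eigenSpace Z l))) ℂ :=
    (Units.map (φ : (eigenSpace Z l →ₗ[ℂ] eigenSpace Z l) →* Matrix (Fin (Module.finrank ℂ (eigenSpace Z l))) (Fin (Module.finrank ℂ (eigenSpace Z l))) ℂ)).comp (eigenRep Z l).toHomUnits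
  refine ⟨_, ρ, Module.finrank_pos, ?_⟩
  intro z
  have h1 : (ρ z : Matrix _ _ ℂ) = φ (eigenRep Z l z) := rfl
  rw [h1, eigenRep_central Z hZ l z, map_smul, map_one]
  ext i j
  simp [Matrix.scalar_apply, Matrix.one_apply, Matrix.diagonal_apply]

/-- extension of homomorphisms into divisible groups -/
theorem extend_hom {N : Type u} {A : Type v} {C : Type w} [CommGroup N] [CommGroup A] [CommGroup C]
    (hC : ∀ n : ℤ, n ≠ 0 → ∀ c : C, ∃ d : C, d ^ n = c) (i : N →* A) (hi : Function.Injective i) (g : N →* C) :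
    ∃ h : A →* C, ∀ x, h (i x) = g x := by
  letI : DivisibleBy (Additive C) ℤ := divisibleByOfSMulRightSurj _ _ (fun {n} hn c => by
    obtain ⟨d, hd⟩ := hC n hn (Additive.toMul c)
    exact ⟨Additive.ofMul d, congrArg Additive.ofMul hd⟩)
  obtain ⟨h, hh⟩ := Module.Baer.extension_property_addMonoidHom (Module.Baer.of_divisible (Additive C))
    (MonoidHom.toAdditive i) hi (MonoidHom.toAdditive g)
  refine ⟨AddMonoidHom.toMultiplicative h, ?_⟩
  intro x
  have := DFunLike.congr_fun hh (Additive.ofMul x)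
  exact congrArg Additive.toMul this

theorem units_complex_divisible (n : ℤ) (hn : n ≠ 0) (c : ℂˣ) : ∃ d : ℂˣ, d ^ n = c := by
  have key : ∀ m : ℕ, m ≠ 0 → ∀ c : ℂˣ, ∃ d : ℂˣ, d ^ m = c := by
    intro m hm c
    obtain ⟨z, hz⟩ := IsAlgClosed.exists_pow_nat_eq (c : ℂ) (Nat.pos_of_ne_zero hm)
    have hz0 : z ≠ 0 := by
      rintro rfl
      rw [zero_pow hm] at hz
      exact c.ne_zero hz.symm
    exact ⟨Units.mk0 z hz0, Units.ext (by simpa using hz)⟩
  rcases Int.natAbs_eq n with h | h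
  · obtain ⟨d, hd⟩ := key n.natAbs (Int.natAbs_ne_zero.2 hn) c
    exact ⟨d, by rw [h, zpow_natCast]; exact hd⟩
  · obtain ⟨d, hd⟩ := key n.natAbs (Int.natAbs_ne_zero.2 hn) c⁻¹
    exact ⟨d, by rw [h, zpow_neg, zpow_natCast, hd, inv_inv]⟩

theorem center_GL_divisible (m : ℕ) (n : ℤ) (hn : n ≠ 0) (c : Subgroup.center (GL (Fin m) ℂ)) :
    ∃ d : Subgroup.center (GL (Fin m) ℂ), d ^ n = c := by
  obtain ⟨c, hc⟩ := c
  have hc' := hc
  rw [Matrix.GeneralLinearGroup.center_eq_range_scalar] at hc'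
  obtain ⟨z, rfl⟩ := hc'
  obtain ⟨w, rfl⟩ := units_complex_divisible n hn z
  refine ⟨⟨Matrix.GeneralLinearGroup.scalar (Fin m) w, ?_⟩, ?_⟩
  · rw [Matrix.GeneralLinearGroup.center_eq_range_scalar]
    exact ⟨w, rfl⟩
  · ext1
    exact (map_zpow (Matrix.GeneralLinearGroup.scalar (Fin m)) w n).symm

/-- projective representations of `Q` lift to Schur covering groups -/
theorem lift_of_cover {Q : Type u} [Group Q] [Finite Q] {Γ : Type v} [Group Γ] [Finite Γ] (σ : Γ →* Q)
    (hσ : IsStemExtension σ) (hcard : Nat.card (mult (toG (pres Q))) = Nat.card σ.ker)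
    {X : Type w} [Group X] (C : Subgroup X) [C.Normal] (hCc : C ≤ Subgroup.center X)
    (hdiv : ∀ n : ℤ, n ≠ 0 → ∀ c : C, ∃ d : C, d ^ n = c)
    (γ : Q →* X ⧸ C) : ∃ ρ : Γ →* X, (QuotientGroup.mk' C).comp ρ = γ.comp σ := by
  classical
  -- map of the universal object to the fibre product
  have hkerC : (QuotientGroup.mk' C).ker ≤ Subgroup.center X := by rw [QuotientGroup.ker_mk']; exact hCc
  obtain ⟨θ, hθ⟩ := exists_lift (pres Q) (p1 γ (QuotientGroup.mk' C)) (p1_surjective (QuotientGroup.mk'_surjective C))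
    (ker_p1_le_center hkerC)
  let ψ : UE (pres Q) →* X := (p2 γ (QuotientGroup.mk' C)).comp θ
  have hψ : ∀ e, QuotientGroup.mk' C (ψ e) = γ (toG (pres Q) e) := by
    intro e
    have h1 := (mem_fib.1 (θ e).2)
    have h2 : (p1 γ (QuotientGroup.mk' C)) (θ e) = toG (pres Q) e := hθ e
    rw [← h2]
    exact h1.symm
  obtain ⟨η, hη⟩ := exists_lift (pres Q) σ hσ.1 hσ.2.1
  have hπs := toG_surjective (pres_surjective Q)
  have hηs : Function.Surjective η := surjective_of_stem hπs hσ η hη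
  have hms := multMap_surjective hπs hσ.2.1 η hη
  haveI : Finite (mult (toG (pres Q))) := finite_mult hπs (ker_toG_le_center _)
  have hmi : Function.Injective (multMap (π := toG (pres Q)) (ξ := σ) η hη) := by
    refine ((Nat.bijective_iff_surjective_and_card _).2 ⟨hms, ?_⟩).1
    rw [hcard, mult_eq_ker_of_stem hσ]
  -- the kernel N of η
  have hNK : η.ker ≤ (toG (pres Q)).ker := by
    intro x hx
    rw [MonoidHom.mem_ker] at hx ⊢
    rw [← hη, hx, map_one]
  have hNc : η.ker ≤ Subgroup.center (UE (pres Q)) := hNK.trans (ker_toG_le_center _)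
  letI : CommGroup η.ker := { (inferInstance : Group η.ker) with
    mul_comm := fun a b => by
      ext
      exact (Subgroup.mem_center_iff.1 (hNc b.2) a) }
  letI : CommGroup C := { (inferInstance : Group C) with
    mul_comm := fun a b => by
      ext
      exact (Subgroup.mem_center_iff.1 (hCc b.2) a) }
  let i : η.ker →* Abelianization (UE (pres Q)) := Abelianization.of.comp η.ker.subtype
  have hi : Function.Injective i := by
    rw [injective_iff_map_eq_one]
    rintro ⟨x, hx⟩ h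
    have h1 : x ∈ commutator (UE (pres Q)) := by
      rw [← Abelianization.ker_of, MonoidHom.mem_ker]; exact h
    have h2 : x ∈ mult (toG (pres Q)) := mem_mult.2 ⟨hNK hx, h1⟩
    have h3 : multMap (π := toG (pres Q)) (ξ := σ) η hη ⟨x, h2⟩ = 1 := Subtype.ext hx
    have h4 : (⟨x, h2⟩ : mult (toG (pres Q))) = 1 := by
      apply hmi
      rw [h3, map_one]
    have h5 : x = 1 := congrArg Subtype.val h4
    exact Subtype.ext h5
  have hgC : ∀ x : η.ker, (ψ x)⁻¹ ∈ C := by
    intro x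
    apply C.inv_mem
    rw [← QuotientGroup.ker_mk' C, MonoidHom.mem_ker, hψ]
    have : toG (pres Q) x = 1 := hNK x.2
    rw [this, map_one]
  let g : η.ker →* C :=
    { toFun := fun x => ⟨(ψ x)⁻¹, hgC x⟩
      map_one' := by ext; simp
      map_mul' := by
        intro a b
        apply Subtype.ext
        show (ψ (a * b : η.ker))⁻¹ = (ψ a)⁻¹ * (ψ b)⁻¹
        rw [Subgroup.coe_mul, map_mul, mul_inv_rev]
        exact ((Subgroup.mem_center_iff.1 (hCc (hgC b))) _).symm }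
  obtain ⟨h, hh⟩ := extend_hom hdiv i hi g
  let ρ' : UE (pres Q) →* X :=
    { toFun := fun e => ψ e * (h (Abelianization.of e) : X)
      map_one' := by simp
      map_mul' := by
        intro a b
        rw [map_mul, map_mul, map_mul, Subgroup.coe_mul]
        have h1 := Subgroup.mem_center_iff.1 (hCc (h (Abelianization.of a)).2) (ψ b)
        calc ψ a * ψ b * ((h (Abelianization.of a) : X) * (h (Abelianization.of b) : X))
            = ψ a * (ψ b * (h (Abelianization.of a) : X)) * (h (Abelianization.of b) : X) := by group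
          _ = ψ a * ((h (Abelianization.of a) : X) * ψ b) * (h (Abelianization.of b) : X) := by rw [h1]
          _ = ψ a * (h (Abelianization.of a) : X) * (ψ b * (h (Abelianization.of b) : X)) := by group }
  have hρ'N : η.ker ≤ ρ'.ker := by
    intro x hx
    rw [MonoidHom.mem_ker]
    show ψ x * (h (Abelianization.of x) : X) = 1
    have h1 := hh ⟨x, hx⟩
    have h2 : (h (Abelianization.of x) : X) = (ψ x)⁻¹ := congrArg Subtype.val h1
    rw [h2, mul_inv_cancel]
  let ρ : Γ →* X := (MonoidHom.liftOfSurjective η hηs) ⟨ρ', hρ'N⟩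
  have hρ : ∀ e, ρ (η e) = ρ' e := fun e => MonoidHom.liftOfRightInverse_comp_apply _ _ _ ⟨ρ', hρ'N⟩ e
  refine ⟨ρ, ?_⟩
  refine MonoidHom.ext fun x => ?_
  obtain ⟨e, rfl⟩ := hηs x
  rw [MonoidHom.comp_apply, MonoidHom.comp_apply, hρ, hη]
  show QuotientGroup.mk' C (ψ e * (h (Abelianization.of e) : X)) = _
  rw [map_mul, hψ]
  have : QuotientGroup.mk' C (h (Abelianization.of e) : X) = 1 := (QuotientGroup.eq_one_iff _).2 (h (Abelianization.of e)).2
  rw [this, mul_one]

/-- If all projective representations of `Q` lift along the stem extension `σ`, then every kernel of a finite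
stem extension of `Q` is a homomorphic image of `ker σ`. -/
theorem ker_hom_of_lift {Q : Type u} [Group Q] {Γ : Type v} [Group Γ] (σ : Γ →* Q) (hσ : IsStemExtension σ)
    (hlift : ∀ (n : ℕ) (γ : Q →* (GL (Fin n) ℂ ⧸ Subgroup.center (GL (Fin n) ℂ))),
      ∃ ρ : Γ →* GL (Fin n) ℂ, (QuotientGroup.mk' (Subgroup.center (GL (Fin n) ℂ))).comp ρ = γ.comp σ)
    {Δ : Type w} [Group Δ] [Finite Δ] (τ : Δ →* Q) (hτ : IsStemExtension τ) :
    ∃ π : σ.ker →* τ.ker, Function.Surjective π := by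
  classical
  apply exists_ker_hom hσ hτ
  intro p hp hp1
  by_contra hne
  have hk : τ (p2 σ τ p) = 1 := by
    rw [tau_p2, ← sigma_p1, hp1, map_one]
  have hk1 : p2 σ τ p ≠ 1 := by
    intro h
    apply hne
    apply Subtype.ext
    exact Prod.ext hp1 h
  letI : CommGroup τ.ker := { (inferInstance : Group τ.ker) with
    mul_comm := fun a b => by
      ext
      exact (Subgroup.mem_center_iff.1 (hτ.2.1 b.2) a) }
  haveI : NeZero (Monoid.exponent τ.ker) := ⟨Monoid.exponent_ne_zero_of_finite⟩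
  obtain ⟨l, hl⟩ := CommGroup.exists_apply_ne_one_of_hasEnoughRootsOfUnity τ.ker ℂ
    (a := (⟨p2 σ τ p, hk⟩ : τ.ker)) (by
      intro h
      exact hk1 (congrArg Subtype.val h))
  obtain ⟨n, ρ, hn, hρ⟩ := exists_rep τ.ker hτ.2.1 l
  have hρc : ∀ z : τ.ker, ρ z ∈ Subgroup.center (GL (Fin n) ℂ) := by
    intro z
    rw [Matrix.GeneralLinearGroup.mem_center_iff_val_mem_range_scalar]
    exact ⟨_, (hρ z).symm⟩
  let mk := QuotientGroup.mk' (Subgroup.center (GL (Fin n) ℂ))
  have hle : τ.ker ≤ (mk.comp ρ).ker := by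
    intro z hz
    rw [MonoidHom.mem_ker, MonoidHom.comp_apply]
    exact (QuotientGroup.eq_one_iff _).2 (hρc ⟨z, hz⟩)
  let γ : Q →* (GL (Fin n) ℂ ⧸ Subgroup.center (GL (Fin n) ℂ)) := (MonoidHom.liftOfSurjective τ hτ.1) ⟨mk.comp ρ, hle⟩
  have hγ : ∀ d, γ (τ d) = mk (ρ d) := fun d => MonoidHom.liftOfRightInverse_comp_apply _ _ _ ⟨mk.comp ρ, hle⟩ d
  obtain ⟨ρ', hρ'⟩ := hlift n γ
  have hρ'' : ∀ g, mk (ρ' g) = γ (σ g) := fun g => DFunLike.congr_fun hρ' g
  -- the difference is a homomorphism to the centre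
  have hc : ∀ q : fib σ τ, (ρ' (p1 σ τ q))⁻¹ * ρ (p2 σ τ q) ∈ Subgroup.center (GL (Fin n) ℂ) := by
    intro q
    rw [← QuotientGroup.ker_mk' (Subgroup.center (GL (Fin n) ℂ)), MonoidHom.mem_ker, map_mul, map_inv]
    have h1 : mk (ρ' (p1 σ τ q)) = mk (ρ (p2 σ τ q)) := by
      rw [hρ'', ← hγ, sigma_p1, tau_p2]
    show (mk (ρ' (p1 σ τ q)))⁻¹ * mk (ρ (p2 σ τ q)) = 1
    rw [h1, inv_mul_cancel]
  let c : fib σ τ →* Subgroup.center (GL (Fin n) ℂ) :=
    { toFun := fun q => ⟨(ρ' (p1 σ τ q))⁻¹ * ρ (p2 σ τ q), hc q⟩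
      map_one' := by ext1; simp
      map_mul' := by
        intro a b
        apply Subtype.ext
        show (ρ' (p1 σ τ (a * b)))⁻¹ * ρ (p2 σ τ (a * b)) =
          ((ρ' (p1 σ τ a))⁻¹ * ρ (p2 σ τ a)) * ((ρ' (p1 σ τ b))⁻¹ * ρ (p2 σ τ b))
        have h1 := Subgroup.mem_center_iff.1 (hc a) ((ρ' (p1 σ τ b))⁻¹)
        rw [map_mul, map_mul, map_mul, map_mul, mul_inv_rev]
        calc (ρ' (p1 σ τ b))⁻¹ * (ρ' (p1 σ τ a))⁻¹ * (ρ (p2 σ τ a) * ρ (p2 σ τ b))
            = ((ρ' (p1 σ τ b))⁻¹ * ((ρ' (p1 σ τ a))⁻¹ * ρ (p2 σ τ a))) * ρ (p2 σ τ b) := by group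
          _ = (((ρ' (p1 σ τ a))⁻¹ * ρ (p2 σ τ a)) * (ρ' (p1 σ τ b))⁻¹) * ρ (p2 σ τ b) := by rw [h1]
          _ = _ := by group }
  have hcomm : commutator (fib σ τ) ≤ c.ker := by
    apply SchurBasic.commutator_le_ker
    intro a b
    apply Subtype.ext
    exact Subgroup.mem_center_iff.1 (c b).2 (c a)
  have h1 : c p = 1 := hcomm hp
  have h2 : (ρ' (p1 σ τ p))⁻¹ * ρ (p2 σ τ p) = 1 := congrArg Subtype.val h1
  rw [hp1, map_one, inv_one, one_mul] at h2
  have h3 := hρ ⟨p2 σ τ p, hk⟩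
  rw [h2] at h3
  apply hl
  apply Units.ext
  have h4 := congrFun (congrFun h3 ⟨0, hn⟩) ⟨0, hn⟩
  simpa using h4.symm

end Cfsg.Agent.Lib.SchurProj
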