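import Mathlib
import Cfsg.Agent.Lib.SchurMult

/-!
Restriction/transfer for Schur multipliers (helper66).
-/

set_option autoImplicit false
set_option linter.style.haveILetI false

namespace Cfsg.Agent.Lib.SchurTransfer

open Cfsg Cfsg.Agent.Lib.SchurMult
open scoped commutatorElement
open Subgroup

universe u v w x

/-- commutative group structure on the kernel of `toG` -/
@[reducible]
def kerComm {F : Type u} {G : Type v} [Group F] [Group G] (π : F →* G) : CommGroup (toG π).ker :=
  { (inferInstance : Group (toG π).ker) with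
    mul_comm := fun a b => by
      ext
      exact (Subgroup.mem_center_iff.1 (ker_toG_le_center π b.2) a) }

variable {F : Type u} {G : Type v} [Group F] [Group G] (π : F →* G) (U : Subgroup G)

/-- restriction of `π` to the preimage of `U` -/
def piU : U.comap π →* U where
  toFun f := ⟨π f, f.2⟩
  map_one' := by ext; simp
  map_mul' := by intro a b; ext; simp

theorem piU_surjective (hπ : Function.Surjective π) : Function.Surjective (piU π U) := by
  rintro ⟨u, hu⟩
  obtain ⟨f, rfl⟩ := hπ u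
  exact ⟨⟨f, hu⟩, rfl⟩

theorem ker_le_comap : π.ker ≤ U.comap π := by
  intro r hr
  rw [Subgroup.mem_comap]
  have : π r = 1 := hr
  rw [this]; exact U.one_mem

theorem conj_mem_ker (t : F) (r : π.ker) : t⁻¹ * r * t ∈ π.ker := by
  have := π.normal_ker.conj_mem r r.2 t⁻¹
  rwa [inv_inv] at this

/-- the class of `t⁻¹ r t` -/
def cls (t : F) (r : π.ker) : (toG (piU π U)).ker :=
  ⟨mkUE (piU π U) ⟨t⁻¹ * r * t, ker_le_comap π U (conj_mem_ker π t r)⟩, by
    rw [MonoidHom.mem_ker, toG_mkUE]
    exact Subtype.ext (conj_mem_ker π t r)⟩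

theorem cls_mul (t : F) (r s : π.ker) : cls π U t (r * s) = cls π U t r * cls π U t s := by
  apply Subtype.ext
  show mkUE (piU π U) _ = mkUE (piU π U) _ * mkUE (piU π U) _
  rw [← map_mul]
  congr 1
  apply Subtype.ext
  show t⁻¹ * (r * s : π.ker) * t = (t⁻¹ * r * t) * (t⁻¹ * s * t)
  rw [Subgroup.coe_mul]; group

theorem cls_one (t : F) : cls π U t 1 = 1 := by
  have := cls_mul π U t 1 1
  rw [mul_one] at this
  exact (mul_eq_left.1 this.symm)

theorem cls_coset (t : F) (u : U.comap π) (r : π.ker) : cls π U (t * u) r = cls π U t r := by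
  apply Subtype.ext
  have h1 : (⟨(t * u)⁻¹ * r * (t * u), ker_le_comap π U (conj_mem_ker π (t * u) r)⟩ : U.comap π)
      = u⁻¹ * ⟨t⁻¹ * r * t, ker_le_comap π U (conj_mem_ker π t r)⟩ * u := by
    apply Subtype.ext
    show (t * u)⁻¹ * r * (t * u) = (u : F)⁻¹ * (t⁻¹ * r * t) * u
    group
  show mkUE (piU π U) _ = mkUE (piU π U) _
  rw [h1, map_mul, map_mul, map_inv]
  have h2 := Subgroup.mem_center_iff.1 (ker_toG_le_center (piU π U) (cls π U t r).2) (mkUE (piU π U) u)
  have h3 : ((cls π U t r : (toG (piU π U)).ker) : UE (piU π U)) = mkUE (piU π U) ⟨t⁻¹ * r * t, ker_le_comap π U (conj_mem_ker π t r)⟩ := rfl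
  rw [h3] at h2
  rw [mul_assoc, ← h2]
  group

theorem cls_conj (t f : F) (r : π.ker) (hr : f * r * f⁻¹ ∈ π.ker) : cls π U t ⟨f * r * f⁻¹, hr⟩ = cls π U (f⁻¹ * t) r := by
  apply Subtype.ext
  show mkUE (piU π U) _ = mkUE (piU π U) _
  congr 1
  apply Subtype.ext
  show t⁻¹ * (f * r * f⁻¹) * t = (f⁻¹ * t)⁻¹ * r * (f⁻¹ * t)
  group

section Tr

variable [(U.comap π).FiniteIndex]

open scoped Classical in
/-- the transfer `R → R/[F_U, R]` -/
noncomputable def trR (T : (U.comap π).LeftTransversal) : π.ker →* (toG (piU π U)).ker :=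
  letI := kerComm (piU π U)
  letI := (U.comap π).fintypeQuotientOfFiniteIndex
  { toFun := fun r => ∏ q : F ⧸ U.comap π, cls π U (T.2.leftQuotientEquiv q : F) r
    map_one' := by
      apply Finset.prod_eq_one
      intro q _
      exact cls_one π U _
    map_mul' := by
      intro r s
      rw [← Finset.prod_mul_distrib]
      apply Finset.prod_congr rfl
      intro q _
      exact cls_mul π U _ r s }

theorem trR_conj (T : (U.comap π).LeftTransversal) (f : F) (r : π.ker) (hr : f * r * f⁻¹ ∈ π.ker) :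
    trR π U T ⟨f * r * f⁻¹, hr⟩ = trR π U T r := by
  letI := kerComm (piU π U)
  letI := (U.comap π).fintypeQuotientOfFiniteIndex
  show (∏ q : F ⧸ U.comap π, cls π U (T.2.leftQuotientEquiv q : F) ⟨f * r * f⁻¹, hr⟩) = ∏ q : F ⧸ U.comap π, cls π U (T.2.leftQuotientEquiv q : F) r
  rw [← Equiv.prod_comp (MulAction.toPerm f⁻¹ : Equiv.Perm (F ⧸ U.comap π)) (fun q => cls π U (T.2.leftQuotientEquiv q : F) r)]
  apply Finset.prod_congr rfl
  intro q _
  rw [cls_conj]
  -- f⁻¹ * T q and T (f⁻¹ q) lie in the same coset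
  have h1 : ((T.2.leftQuotientEquiv ((MulAction.toPerm f⁻¹ : Equiv.Perm (F ⧸ U.comap π)) q) : F))⁻¹ * (f⁻¹ * (T.2.leftQuotientEquiv q : F)) ∈ U.comap π := by
    rw [← QuotientGroup.leftRel_apply]
    apply Quotient.exact'
    have e1 : (Quotient.mk'' ((T.2.leftQuotientEquiv ((MulAction.toPerm f⁻¹ : Equiv.Perm (F ⧸ U.comap π)) q) : F)) : F ⧸ U.comap π) = (MulAction.toPerm f⁻¹ : Equiv.Perm (F ⧸ U.comap π)) q :=
      T.2.leftQuotientEquiv.symm_apply_apply _
    have e2 : (Quotient.mk'' (T.2.leftQuotientEquiv q : F) : F ⧸ U.comap π) = q := T.2.leftQuotientEquiv.symm_apply_apply _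
    rw [e1]
    show f⁻¹ • q = _
    conv_lhs => rw [← e2]
    rfl
  have h2 : f⁻¹ * (T.2.leftQuotientEquiv q : F) = (T.2.leftQuotientEquiv ((MulAction.toPerm f⁻¹ : Equiv.Perm (F ⧸ U.comap π)) q) : F) *
      ((⟨_, h1⟩ : U.comap π) : F) := by
    show _ = _ * (_ * _)
    rw [mul_inv_cancel_left]
  rw [h2, cls_coset]

theorem trR_relComm (T : (U.comap π).LeftTransversal) (x : π.ker) (hx : (x : F) ∈ relComm π) : trR π U T x = 1 := by
  have hle : relComm π ≤ (trR π U T).ker.map π.ker.subtype := by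
    refine Subgroup.commutator_le.2 ?_
    intro r hr f _
    have hr' : f * r⁻¹ * f⁻¹ ∈ π.ker := π.normal_ker.conj_mem _ (π.ker.inv_mem hr) f
    have hr'' : f * ((⟨r, hr⟩⁻¹ : π.ker) : F) * f⁻¹ ∈ π.ker := hr'
    refine ⟨⟨r, hr⟩ * ⟨f * ((⟨r, hr⟩⁻¹ : π.ker) : F) * f⁻¹, hr''⟩, ?_, ?_⟩
    · rw [SetLike.mem_coe, MonoidHom.mem_ker, map_mul, trR_conj, map_inv, mul_inv_cancel]
    · show r * (f * r⁻¹ * f⁻¹) = ⁅r, f⁆
      rw [commutatorElement_def]; group
  obtain ⟨y, hy, hyx⟩ := hle hx
  have : y = x := Subtype.ext hyx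
  rw [← this]
  exact hy

/-- `R → R/[F,R]` -/
def mkK : π.ker →* (toG π).ker where
  toFun r := ⟨mkUE π r, by rw [MonoidHom.mem_ker, toG_mkUE]; exact r.2⟩
  map_one' := by ext1; exact map_one _
  map_mul' := by intro a b; ext1; exact map_mul _ _ _

theorem mkK_surjective : Function.Surjective (mkK π) := by
  rintro ⟨x, hx⟩
  rw [ker_toG] at hx
  obtain ⟨r, hr, rfl⟩ := hx
  exact ⟨⟨r, hr⟩, rfl⟩

/-- the transfer `R/[F,R] → R/[F_U,R]` -/
noncomputable def trK (T : (U.comap π).LeftTransversal) : (toG π).ker →* (toG (piU π U)).ker :=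
  MonoidHom.liftOfSurjective (mkK π) (mkK_surjective π) ⟨trR π U T, by
    intro x hx
    rw [MonoidHom.mem_ker] at hx
    have h1 : mkUE π x = 1 := congrArg Subtype.val hx
    rw [← MonoidHom.mem_ker, ker_mkUE] at h1
    exact trR_relComm π U T x h1⟩

theorem trK_mkK (T : (U.comap π).LeftTransversal) (r : π.ker) : trK π U T (mkK π r) = trR π U T r :=
  MonoidHom.liftOfRightInverse_comp_apply _ _ _ _ r

theorem smul_trivial (r : π.ker) (q : F ⧸ U.comap π) : (r : F)⁻¹ • q = q := by
  induction q using QuotientGroup.induction_on with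
  | H t =>
    show QuotientGroup.mk ((r : F)⁻¹ * t) = (QuotientGroup.mk t : F ⧸ U.comap π)
    rw [QuotientGroup.eq]
    have h1 : ((r : F)⁻¹ * t)⁻¹ * t = t⁻¹ * r * t := by group
    rw [h1]
    exact ker_le_comap π U (conj_mem_ker π t r)

/-- the transfer of an element of the commutator subgroup lies in the commutator subgroup -/
theorem trR_mem_commutator (T : (U.comap π).LeftTransversal) (r : π.ker) (hr : (r : F) ∈ commutator F) :
    ((trR π U T r : (toG (piU π U)).ker) : UE (piU π U)) ∈ commutator (UE (piU π U)) := by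
  classical
  letI := kerComm (piU π U)
  letI := (U.comap π).fintypeQuotientOfFiniteIndex
  rw [← ker_toAb, MonoidHom.mem_ker]
  have h1 : MonoidHom.transfer (Abelianization.of : U.comap π →* Abelianization (U.comap π)) (r : F) = 1 := by
    have := Abelianization.commutator_subset_ker (MonoidHom.transfer (Abelianization.of : U.comap π →* Abelianization (U.comap π)))
    exact this hr
  rw [MonoidHom.transfer_def _ T] at h1
  rw [← h1]
  let g : (toG (piU π U)).ker →* Abelianization (U.comap π) := (toAb (piU π U)).comp (Subgroup.subtype _)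
  show g (∏ q : F ⧸ U.comap π, cls π U (T.2.leftQuotientEquiv q : F) r) = _
  rw [map_prod]
  unfold Subgroup.leftTransversals.diff
  apply Finset.prod_congr rfl
  intro q _
  show Abelianization.of (⟨(T.2.leftQuotientEquiv q : F)⁻¹ * r * (T.2.leftQuotientEquiv q : F), _⟩ : U.comap π) = _
  congr 1
  apply Subtype.ext
  show (T.2.leftQuotientEquiv q : F)⁻¹ * r * (T.2.leftQuotientEquiv q : F) = (T.2.leftQuotientEquiv q : F)⁻¹ * (((r : F) • T).2.leftQuotientEquiv q : F)
  rw [Subgroup.smul_apply_eq_smul_apply_inv_smul, smul_trivial, smul_eq_mul, mul_assoc]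

end Tr

/-- corestriction `F_U/[F_U,R] → F/[F,R]` -/
theorem exists_cor : ∃ c : UE (piU π U) →* UE π, (∀ f : U.comap π, c (mkUE (piU π U) f) = mkUE π f) := by
  have hle : relComm (piU π U) ≤ ((mkUE π).comp (U.comap π).subtype).ker := by
    unfold relComm
    rw [Subgroup.commutator_le]
    rintro ⟨r, hr'⟩ hr ⟨f, hf⟩ _
    rw [MonoidHom.mem_ker, map_commutatorElement]
    show ⁅mkUE π r, mkUE π f⁆ = 1
    rw [← map_commutatorElement, ← MonoidHom.mem_ker, ker_mkUE]
    have hr2 : r ∈ π.ker := congrArg Subtype.val hr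
    exact Subgroup.commutator_mem_commutator hr2 (Subgroup.mem_top _)
  exact ⟨QuotientGroup.lift _ _ hle, fun f => rfl⟩

theorem toG_cor (c : UE (piU π U) →* UE π) (hc : ∀ f : U.comap π, c (mkUE (piU π U) f) = mkUE π f) (e : UE (piU π U)) :
    toG π (c e) = (toG (piU π U) e : G) := by
  obtain ⟨f, rfl⟩ := mkUE_surjective _ e
  rw [hc]; rfl

theorem cor_tr [(U.comap π).FiniteIndex] (T : (U.comap π).LeftTransversal) (c : UE (piU π U) →* UE π)
    (hc : ∀ f : U.comap π, c (mkUE (piU π U) f) = mkUE π f) (x : (toG π).ker) :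
    c (trK π U T x : (toG (piU π U)).ker) = (x : UE π) ^ (U.comap π).index := by
  classical
  obtain ⟨r, rfl⟩ := mkK_surjective π x
  rw [trK_mkK]
  letI := kerComm (piU π U)
  letI := kerComm π
  letI := (U.comap π).fintypeQuotientOfFiniteIndex
  have hck : ∀ y : (toG (piU π U)).ker, c y ∈ (toG π).ker := by
    intro y
    rw [MonoidHom.mem_ker, toG_cor π U c hc]
    have : toG (piU π U) y = 1 := y.2
    rw [this]; rfl
  let g : (toG (piU π U)).ker →* (toG π).ker :=
    { toFun := fun y => ⟨c y, hck y⟩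
      map_one' := by ext1; exact map_one c
      map_mul' := by intro a b; ext1; exact map_mul c _ _ }
  have h1 : g (∏ q : F ⧸ U.comap π, cls π U (T.2.leftQuotientEquiv q : F) r) = (mkK π r) ^ (U.comap π).index := by
    rw [map_prod]
    have h2 : ∀ q : F ⧸ U.comap π, g (cls π U (T.2.leftQuotientEquiv q : F) r) = mkK π r := by
      intro q
      apply Subtype.ext
      show c (mkUE (piU π U) _) = mkUE π r
      rw [hc]
      show mkUE π ((T.2.leftQuotientEquiv q : F)⁻¹ * r * (T.2.leftQuotientEquiv q : F)) = mkUE π r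
      rw [map_mul, map_mul, map_inv]
      have h3 := Subgroup.mem_center_iff.1 (ker_toG_le_center π (mkK π r).2) (mkUE π (T.2.leftQuotientEquiv q : F))
      have h4 : ((mkK π r : (toG π).ker) : UE π) = mkUE π r := rfl
      rw [h4] at h3
      rw [mul_assoc, ← h3]
      group
    rw [Finset.prod_congr rfl (fun q _ => h2 q), Finset.prod_const, Finset.card_univ, ← Nat.card_eq_fintype_card]
    rfl
  exact congrArg Subtype.val h1

end Cfsg.Agent.Lib.SchurTransfer
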