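import Mathlib
import Cfsg.Agent.Lib.SchurMult
import Cfsg.Agent.Lib.SchurTransfer

/-!
Rank of the multiplier and deficiency (helper66).
-/

set_option autoImplicit false
set_option linter.style.haveILetI false

namespace Cfsg.Agent.Lib.SchurRank

open Cfsg Cfsg.Agent.Lib.SchurMult Cfsg.Agent.Lib.SchurTransfer
open scoped commutatorElement
open Subgroup

universe u v w x

theorem finrank_eq_zero_of_finite (M : Type u) [AddCommGroup M] [Finite M] : Module.finrank ℤ M = 0 := by
  apply Module.finrank_eq_zero_of_rank_eq_zero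
  rw [Module.rank_eq_zero_iff_isTorsion]
  intro x
  refine ⟨⟨(Nat.card M : ℤ), mem_nonZeroDivisors_of_ne_zero (by exact_mod_cast Nat.card_pos.ne')⟩, ?_⟩
  show (Nat.card M : ℤ) • x = 0
  rw [natCast_zsmul]; exact card_nsmul_eq_zero'

theorem finrank_ab (n : ℕ) : Module.finrank ℤ (Additive (Abelianization (FreeGroup (Fin n)))) = n := by
  have e : FreeAbelianGroup (Fin n) ≃ₗ[ℤ] (Fin n →₀ ℤ) := (FreeAbelianGroup.equivFinsupp (Fin n)).toIntLinearEquiv
  have h := e.finrank_eq
  rw [Module.finrank_finsupp_self, Fintype.card_fin] at h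
  exact h

theorem ker_toG_eq_closure {n : ℕ} (rels : Set (FreeGroup (Fin n))) :
    (toG (PresentedGroup.mk rels)).ker ≤ Subgroup.closure (mkUE (PresentedGroup.mk rels) '' rels) := by
  rw [ker_toG]
  have h1 : (PresentedGroup.mk rels).ker = Subgroup.normalClosure rels := QuotientGroup.ker_mk' _
  rw [Subgroup.map_le_iff_le_comap]
  conv_lhs => rw [h1]
  unfold Subgroup.normalClosure
  rw [Subgroup.closure_le]
  intro x hx
  rw [Group.mem_conjugatesOfSet_iff] at hx
  obtain ⟨r, hr, hrx⟩ := hx
  obtain ⟨g, rfl⟩ := isConj_iff.1 hrx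
  rw [SetLike.mem_coe, Subgroup.mem_comap, map_mul, map_mul, map_inv]
  have h2 : mkUE (PresentedGroup.mk rels) r ∈ Subgroup.center _ := by
    apply ker_toG_le_center
    rw [MonoidHom.mem_ker, toG_mkUE, ← MonoidHom.mem_ker, h1]
    exact Subgroup.subset_normalClosure hr
  rw [Subgroup.mem_center_iff.1 h2, mul_inv_cancel_right]
  exact Subgroup.subset_closure ⟨r, hr, rfl⟩

theorem rank_le {n : ℕ} (rels : Finset (FreeGroup (Fin n))) [Finite (PresentedGroup (rels : Set (FreeGroup (Fin n))))]
    {A : Type u} [CommGroup A] [Finite A] (hA : HasSchurMultiplier (PresentedGroup (rels : Set (FreeGroup (Fin n)))) A) :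
    Group.rank A ≤ rels.card - n := by
  classical
  set π := PresentedGroup.mk (rels : Set (FreeGroup (Fin n))) with hπdef
  have hπ : Function.Surjective π := PresentedGroup.mk_surjective _
  obtain ⟨e⟩ := (hasSchurMultiplier_iff π hπ).1 hA
  letI := kerComm π
  have hrk : ∀ r : rels, mkUE π (r : FreeGroup (Fin n)) ∈ (toG π).ker := by
    intro r
    rw [MonoidHom.mem_ker, toG_mkUE]
    exact PresentedGroup.mk_eq_one_iff.2 (Subgroup.subset_normalClosure r.2)
  let ψ : (rels →₀ ℤ) →ₗ[ℤ] Additive (toG π).ker :=
    Finsupp.linearCombination ℤ (fun r : rels => Additive.ofMul (⟨mkUE π r, hrk r⟩ : (toG π).ker))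
  have hψ : Function.Surjective ψ := by
    have key : ∀ x ∈ Subgroup.closure (mkUE π '' (rels : Set (FreeGroup (Fin n)))), ∃ v, ((Additive.toMul (ψ v) : (toG π).ker) : UE π) = x := by
      intro x hx
      induction hx using Subgroup.closure_induction with
      | mem x hx =>
        obtain ⟨r, hr, rfl⟩ := hx
        refine ⟨Finsupp.single ⟨r, hr⟩ 1, ?_⟩
        show ((Additive.toMul (Finsupp.linearCombination ℤ _ (Finsupp.single _ 1)) : (toG π).ker) : UE π) = _
        rw [Finsupp.linearCombination_single, one_smul]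
        rfl
      | one => exact ⟨0, by rw [map_zero]; rfl⟩
      | mul x y _ _ hx hy =>
        obtain ⟨v, rfl⟩ := hx
        obtain ⟨w, rfl⟩ := hy
        exact ⟨v + w, by rw [map_add]; rfl⟩
      | inv x _ hx =>
        obtain ⟨v, rfl⟩ := hx
        exact ⟨-v, by rw [map_neg]; rfl⟩
    intro x
    obtain ⟨v, hv⟩ := key (Additive.toMul x : (toG π).ker) (ker_toG_eq_closure _ (Additive.toMul x).2)
    refine ⟨v, ?_⟩
    have : Additive.toMul (ψ v) = Additive.toMul x := Subtype.ext hv
    exact this
  let φ : Additive (toG π).ker →ₗ[ℤ] Additive (Abelianization (FreeGroup (Fin n))) :=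
    (MonoidHom.toAdditive ((toAb π).comp (Subgroup.subtype _))).toIntLinearMap
  let L := φ.comp ψ
  -- the range has finite index
  have hfin : Finite (Additive (Abelianization (FreeGroup (Fin n))) ⧸ LinearMap.range L) := by
    -- surjection from G
    let q : FreeGroup (Fin n) →* Multiplicative (Additive (Abelianization (FreeGroup (Fin n))) ⧸ LinearMap.range L) :=
      { toFun := fun f => Multiplicative.ofAdd (Submodule.Quotient.mk (Additive.ofMul (Abelianization.of f)))
        map_one' := by
          rw [map_one, ofMul_one, Submodule.Quotient.mk_zero, ofAdd_zero]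
        map_mul' := by
          intro a b
          rw [map_mul, ofMul_mul, Submodule.Quotient.mk_add, ofAdd_add] }
    have hq : Function.Surjective q := by
      intro y
      obtain ⟨z, hz⟩ := Submodule.Quotient.mk_surjective _ (Multiplicative.toAdd y)
      obtain ⟨f, hf⟩ := QuotientGroup.mk'_surjective _ (Additive.toMul z)
      refine ⟨f, ?_⟩
      show Multiplicative.ofAdd (Submodule.Quotient.mk (Additive.ofMul (Abelianization.of f))) = y
      have h1 : Abelianization.of f = Additive.toMul z := hf
      rw [h1, ofMul_toMul, hz, ofAdd_toAdd]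
    have hker : π.ker ≤ q.ker := by
      intro r hr
      rw [MonoidHom.mem_ker]
      show Multiplicative.ofAdd (Submodule.Quotient.mk (Additive.ofMul (Abelianization.of r))) = 1
      rw [← ofAdd_zero]
      congr 1
      rw [Submodule.Quotient.mk_eq_zero]
      obtain ⟨v, hv⟩ := hψ (Additive.ofMul ⟨mkUE π r, hr⟩)
      refine ⟨v, ?_⟩
      show φ (ψ v) = _
      rw [hv]
      rfl
    let q' := (MonoidHom.liftOfSurjective π hπ) ⟨q, hker⟩
    have hq' : ∀ f, q' (π f) = q f := fun f => MonoidHom.liftOfRightInverse_comp_apply _ _ _ ⟨q, hker⟩ f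
    have hq's : Function.Surjective q' := by
      intro y
      obtain ⟨f, rfl⟩ := hq y
      exact ⟨π f, hq' f⟩
    exact Finite.of_surjective q' hq's
  have h1 := Submodule.finrank_quotient_add_finrank (LinearMap.range L)
  rw [finrank_eq_zero_of_finite, zero_add, finrank_ab] at h1
  have h2 := Submodule.finrank_quotient_add_finrank (LinearMap.ker L)
  rw [L.quotKerEquivRange.finrank_eq, h1, Module.finrank_finsupp_self, Fintype.card_coe] at h2
  -- generators of the kernel
  haveI : Module.Free ℤ (LinearMap.ker L) := inferInstance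
  haveI : Module.Finite ℤ (LinearMap.ker L) := inferInstance
  let b := Module.finBasis ℤ (LinearMap.ker L)
  have hmem : ∀ v : LinearMap.ker L, ((Additive.toMul (ψ v) : (toG π).ker) : UE π) ∈ mult (toG π) := by
    intro v
    rw [mem_mult]
    refine ⟨(Additive.toMul (ψ v)).2, ?_⟩
    rw [← ker_toAb, MonoidHom.mem_ker]
    exact v.2
  let g : Multiplicative (LinearMap.ker L) →* mult (toG π) :=
    { toFun := fun v => ⟨_, hmem (Multiplicative.toAdd v)⟩
      map_one' := by
        apply Subtype.ext
        show ((Additive.toMul (ψ ((Multiplicative.toAdd (1 : Multiplicative (LinearMap.ker L)) : LinearMap.ker L) : rels →₀ ℤ)) : (toG π).ker) : UE π) = 1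
        rw [toAdd_one, Submodule.coe_zero, map_zero]; rfl
      map_mul' := by
        intro x y
        apply Subtype.ext
        show ((Additive.toMul (ψ ((Multiplicative.toAdd (x * y) : LinearMap.ker L) : rels →₀ ℤ)) : (toG π).ker) : UE π) = _
        rw [toAdd_mul, Submodule.coe_add, map_add]; rfl }
  have hg : Function.Surjective g := by
    rintro ⟨x, hx⟩
    obtain ⟨v, hv⟩ := hψ (Additive.ofMul ⟨x, (mem_mult.1 hx).1⟩)
    have hv' : v ∈ LinearMap.ker L := by
      rw [LinearMap.mem_ker]
      show φ (ψ v) = 0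
      rw [hv]
      show Additive.ofMul (toAb π x) = 0
      have : x ∈ (toAb π).ker := by rw [ker_toAb]; exact (mem_mult.1 hx).2
      rw [MonoidHom.mem_ker] at this
      rw [this]; rfl
    refine ⟨Multiplicative.ofAdd ⟨v, hv'⟩, ?_⟩
    apply Subtype.ext
    show ((Additive.toMul (ψ v) : (toG π).ker) : UE π) = x
    rw [hv]; rfl
  let f : Multiplicative (LinearMap.ker L) →* A := e.toMonoidHom.comp g
  have hf : Function.Surjective f := e.surjective.comp hg
  let S : Finset A := Finset.univ.image (fun i => f (Multiplicative.ofAdd (b i)))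
  have hS : Subgroup.closure (S : Set A) = ⊤ := by
    rw [eq_top_iff]
    intro a _
    obtain ⟨v, rfl⟩ := hf a
    have h3 : ∀ w : LinearMap.ker L, f (Multiplicative.ofAdd w) ∈ Subgroup.closure (S : Set A) := by
      intro w
      rw [← b.sum_repr w, ofAdd_sum, map_prod]
      apply Subgroup.prod_mem
      intro i _
      rw [ofAdd_zsmul, map_zpow]
      apply Subgroup.zpow_mem
      apply Subgroup.subset_closure
      exact Finset.mem_coe.2 (Finset.mem_image_of_mem _ (Finset.mem_univ i))
    exact h3 (Multiplicative.toAdd v)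
  have h4 := Group.rank_le hS
  have h5 : S.card ≤ Module.finrank ℤ (LinearMap.ker L) := by
    refine Finset.card_image_le.trans ?_
    rw [Finset.card_univ, Fintype.card_fin]
  omega

end Cfsg.Agent.Lib.SchurRank
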