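import Mathlib
import Cfsg.Agent.Lib.SchurTransfer

/-!
Multipliers of subgroups: consequences of the transfer (helper66).
-/

set_option autoImplicit false
set_option linter.style.haveILetI false

namespace Cfsg.Agent.Lib.SchurTransfer2

open Cfsg Cfsg.Agent.Lib.SchurMult Cfsg.Agent.Lib.SchurTransfer
open scoped commutatorElement
open Subgroup

universe u v w x

/-- corestriction and transfer between multipliers, abstractly: maps `tr`, `cor` with `cor ∘ tr` the power map. -/
theorem exists_tr_cor {G : Type u} [Group G] [Finite G] (U : Subgroup G) {A : Type v} {B : Type w} [CommGroup A] [CommGroup B]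
    (hA : HasSchurMultiplier G A) (hB : HasSchurMultiplier U B) :
    ∃ (tr : A →* B) (cor : B →* A), ∀ a, cor (tr a) = a ^ U.index := by
  classical
  obtain ⟨eA⟩ := (hasSchurMultiplier_pres_iff G).1 hA
  have hπ := pres_surjective G
  obtain ⟨eB⟩ := (hasSchurMultiplier_iff (piU (pres G) U) (piU_surjective (pres G) U hπ)).1 hB
  have hidx : (U.comap (pres G)).index = U.index := Subgroup.index_comap_of_surjective U hπ
  haveI : (U.comap (pres G)).FiniteIndex := ⟨by rw [hidx]; exact Subgroup.index_ne_zero_of_finite⟩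
  let T : (U.comap (pres G)).LeftTransversal := default
  obtain ⟨c, hc⟩ := exists_cor (pres G) U
  -- restriction of trK to mult
  have htr : ∀ x : mult (toG (pres G)), (trK (pres G) U T ⟨x, (mem_mult.1 x.2).1⟩ : UE (piU (pres G) U)) ∈ mult (toG (piU (pres G) U)) := by
    intro x
    rw [mem_mult]
    refine ⟨(trK (pres G) U T ⟨x, (mem_mult.1 x.2).1⟩).2, ?_⟩
    have hx := (mem_mult.1 x.2).2
    rw [← map_commutator_mkUE] at hx
    obtain ⟨f, hf, hfx⟩ := hx
    have hfk : f ∈ (pres G).ker := by
      rw [MonoidHom.mem_ker, ← toG_mkUE, hfx]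
      exact (mem_mult.1 x.2).1
    have h1 : (⟨x, (mem_mult.1 x.2).1⟩ : (toG (pres G)).ker) = mkK (pres G) ⟨f, hfk⟩ := Subtype.ext hfx.symm
    rw [h1, trK_mkK]
    exact trR_mem_commutator (pres G) U T ⟨f, hfk⟩ hf
  let tr' : mult (toG (pres G)) →* mult (toG (piU (pres G) U)) :=
    { toFun := fun x => ⟨_, htr x⟩
      map_one' := by
        apply Subtype.ext
        show ((trK (pres G) U T ⟨(1 : mult (toG (pres G))), _⟩ : (toG (piU (pres G) U)).ker) : UE (piU (pres G) U)) = 1
        have : (⟨((1 : mult (toG (pres G))) : UE (pres G)), (mem_mult.1 (1 : mult (toG (pres G))).2).1⟩ : (toG (pres G)).ker) = 1 := rfl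
        rw [this, map_one]; rfl
      map_mul' := by
        intro a b
        apply Subtype.ext
        show ((trK (pres G) U T ⟨(a * b : mult (toG (pres G))), _⟩ : (toG (piU (pres G) U)).ker) : UE (piU (pres G) U)) =
          (trK (pres G) U T ⟨a, _⟩ : (toG (piU (pres G) U)).ker) * (trK (pres G) U T ⟨b, _⟩ : (toG (piU (pres G) U)).ker)
        rw [← Subgroup.coe_mul, ← map_mul]
        rfl }
  have hcor : ∀ x : mult (toG (piU (pres G) U)), c x ∈ mult (toG (pres G)) := by
    intro x
    rw [mem_mult]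
    refine ⟨?_, ?_⟩
    · rw [toG_cor (pres G) U c hc, (mem_mult.1 x.2).1]; rfl
    · have : (commutator (UE (piU (pres G) U))).map c ≤ commutator (UE (pres G)) := by
        rw [commutator_def, commutator_def, Subgroup.map_commutator]
        exact Subgroup.commutator_mono le_top le_top
      exact this (Subgroup.mem_map_of_mem _ (mem_mult.1 x.2).2)
  let cor' : mult (toG (piU (pres G) U)) →* mult (toG (pres G)) :=
    { toFun := fun x => ⟨c x, hcor x⟩
      map_one' := by ext1; exact map_one c
      map_mul' := by intro a b; ext1; exact map_mul c _ _ }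
  have hcomp : ∀ x, cor' (tr' x) = x ^ U.index := by
    intro x
    apply Subtype.ext
    show c (trK (pres G) U T ⟨x, (mem_mult.1 x.2).1⟩ : (toG (piU (pres G) U)).ker) = _
    rw [cor_tr (pres G) U T c hc, hidx]
    rfl
  refine ⟨(eB.toMonoidHom.comp tr').comp eA.symm.toMonoidHom, (eA.toMonoidHom.comp cor').comp eB.symm.toMonoidHom, ?_⟩
  intro a
  show eA (cor' (eB.symm (eB (tr' (eA.symm a))))) = _
  rw [eB.symm_apply_apply, hcomp, map_pow, eA.apply_symm_apply]

/-- a quotient of a finite abelian group is isomorphic to a subgroup -/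
theorem exists_subgroup_of_surj {D : Type u} {Q : Type v} [CommGroup D] [CommGroup Q] [Finite D] (f : D →* Q)
    (hf : Function.Surjective f) : ∃ C : Subgroup D, Nonempty (Q ≃* C) := by
  haveI : Finite Q := Finite.of_surjective f hf
  haveI : NeZero (Monoid.exponent D) := ⟨Monoid.exponent_ne_zero_of_finite⟩
  haveI : NeZero (Monoid.exponent Q) := ⟨Monoid.exponent_ne_zero_of_finite⟩
  obtain ⟨e1⟩ := CommGroup.monoidHom_mulEquiv_of_hasEnoughRootsOfUnity D ℂ
  obtain ⟨e2⟩ := CommGroup.monoidHom_mulEquiv_of_hasEnoughRootsOfUnity Q ℂ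
  let g : (Q →* ℂˣ) →* (D →* ℂˣ) :=
    { toFun := fun l => l.comp f
      map_one' := rfl
      map_mul' := fun _ _ => rfl }
  have hg : Function.Injective g := by
    intro a b hab
    refine MonoidHom.ext fun x => ?_
    obtain ⟨d, rfl⟩ := hf x
    exact DFunLike.congr_fun hab d
  let h : Q →* D := (e1.toMonoidHom.comp g).comp e2.symm.toMonoidHom
  have hh : Function.Injective h := (e1.injective.comp hg).comp e2.symm.injective
  exact ⟨h.range, ⟨MonoidHom.ofInjective hh⟩⟩

theorem finite_of_hasSchurMultiplier {G : Type u} [Group G] [Finite G] {A : Type v} [CommGroup A] (hA : HasSchurMultiplier G A) :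
    Finite A := by
  obtain ⟨Γ, _, hf, σ, hσ, ⟨e⟩⟩ := hA.1
  exact Finite.of_equiv _ e.toEquiv

theorem powers_embed {G : Type u} [Group G] [Finite G] (U : Subgroup G) {A : Type v} {B : Type w} [CommGroup A] [CommGroup B]
    (hA : HasSchurMultiplier G A) (hB : HasSchurMultiplier U B) :
    ∃ C : Subgroup B, Nonempty ((powMonoidHom U.index : A →* A).range ≃* C) := by
  obtain ⟨tr, cor, h⟩ := exists_tr_cor U hA hB
  haveI : Finite B := finite_of_hasSchurMultiplier hB
  -- surjection tr.range → range pow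
  let f : tr.range →* (powMonoidHom U.index : A →* A).range :=
    { toFun := fun x => ⟨cor x, by
        obtain ⟨a, ha⟩ := x.2
        rw [← ha, h]
        exact ⟨a, rfl⟩⟩
      map_one' := by ext1; exact map_one cor
      map_mul' := by intro a b; ext1; exact map_mul cor _ _ }
  have hf : Function.Surjective f := by
    rintro ⟨_, a, rfl⟩
    exact ⟨⟨tr a, a, rfl⟩, Subtype.ext (h a)⟩
  obtain ⟨C, ⟨e⟩⟩ := exists_subgroup_of_surj f hf
  refine ⟨C.map tr.range.subtype, ⟨e.trans ?_⟩⟩
  exact Subgroup.equivMapOfInjective C tr.range.subtype tr.range.subtype_injective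

/-- the multiplier of a trivial group is trivial -/
theorem mult_trivial_group {G : Type u} [Group G] [Subsingleton G] {B : Type w} [CommGroup B] (hB : HasSchurMultiplier G B) :
    Subsingleton B := by
  haveI : Finite G := inferInstance
  obtain ⟨e⟩ := (hasSchurMultiplier_pres_iff G).1 hB
  have h1 : ∀ x : mult (toG (pres G)), x = 1 := by
    rintro ⟨x, hx⟩
    have h2 : commutator (UE (pres G)) ≤ ⊥ := by
      have := SchurBasic.commutator_le_ker (MonoidHom.id (UE (pres G))) (by
        intro a b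
        have ha : b ∈ Subgroup.center (UE (pres G)) := ker_toG_le_center _ (Subsingleton.elim _ _)
        exact Subgroup.mem_center_iff.1 ha a)
      rwa [MonoidHom.ker_id] at this
    exact Subtype.ext (Subgroup.mem_bot.1 (h2 (mem_mult.1 hx).2))
  refine ⟨fun a b => ?_⟩
  have := (h1 (e.symm a)).trans (h1 (e.symm b)).symm
  exact e.symm.injective this

theorem pow_card_eq_one {G : Type u} [Group G] [Finite G] {A : Type v} [CommGroup A] (hA : HasSchurMultiplier G A) (a : A) :
    a ^ Nat.card G = 1 := by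
  have hB : ∃ (B : Type u) (_ : CommGroup B), HasSchurMultiplier (⊥ : Subgroup G) B := by
    refine ⟨ULift (Multiplicative (ZMod 1)), inferInstance, ?_⟩
    haveI : IsCyclic (⊥ : Subgroup G) := inferInstance
    have h1 := SchurBasic.hasCyclic_one_of_isCyclic (⊥ : Subgroup G)
    obtain ⟨⟨Γ, _, hf, σ, hσ, ⟨f⟩⟩, h2⟩ := h1
    refine ⟨⟨Γ, inferInstance, hf, σ, hσ, ⟨f.trans MulEquiv.ulift.symm⟩⟩, ?_⟩
    intro Δ _ _ τ hτ
    obtain ⟨π, hπ⟩ := h2 Δ τ hτ
    refine ⟨π.comp MulEquiv.ulift.toMonoidHom, ?_⟩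
    intro y
    obtain ⟨x, hx⟩ := hπ y
    exact ⟨ULift.up x, hx⟩
  obtain ⟨B, _, hB⟩ := hB
  obtain ⟨tr, cor, h⟩ := exists_tr_cor (⊥ : Subgroup G) hA hB
  haveI := mult_trivial_group hB
  have h1 := h a
  rw [Subgroup.index_bot] at h1
  rw [← h1, Subsingleton.elim (tr a) 1, map_one]

theorem primary_summand {G : Type u} [Group G] [Finite G] (p : ℕ) [Fact p.Prime] (P : Sylow p G) {A : Type v} {B : Type w}
    [CommGroup A] [CommGroup B] (hA : HasSchurMultiplier G A) (hB : HasSchurMultiplier P B) :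
    ∃ C D : Subgroup B, C ⊓ D = ⊥ ∧ C ⊔ D = ⊤ ∧ Nonempty (CommGroup.primaryComponent A p ≃* C) := by
  have hp : p.Prime := Fact.out
  obtain ⟨tr, cor, h⟩ := exists_tr_cor (P : Subgroup G) hA hB
  set m := (P : Subgroup G).index with hm
  have hmp : ¬ p ∣ m := P.not_dvd_index
  have hBp : ∀ b : B, ∃ k : ℕ, b ^ p ^ k = 1 := by
    intro b
    obtain ⟨k, hk⟩ := (IsPGroup.iff_card).1 P.isPGroup'
    exact ⟨k, by rw [← hk]; exact pow_card_eq_one hB b⟩
  have hcop : ∀ k : ℕ, Nat.Coprime m (p ^ k) := fun k =>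
    Nat.Coprime.pow_right _ ((hp.coprime_iff_not_dvd.2 hmp).symm)
  have hinj : ∀ a ∈ CommGroup.primaryComponent A p, a ^ m = 1 → a = 1 := by
    rintro a ha ham
    obtain ⟨k, hk⟩ := CommGroup.mem_primaryComponent.1 ha
    have h1 : orderOf a ∣ m := orderOf_dvd_of_pow_eq_one ham
    have h2 : orderOf a ∣ p ^ k := orderOf_dvd_of_pow_eq_one hk
    have h3 := Nat.eq_one_of_dvd_coprimes (hcop k) h1 h2
    exact orderOf_eq_one_iff.1 h3
  refine ⟨(CommGroup.primaryComponent A p).map tr, cor.ker, ?_, ?_, ?_⟩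
  · rw [eq_bot_iff]
    rintro _ ⟨⟨a, ha, rfl⟩, hk⟩
    have h1 : cor (tr a) = 1 := hk
    rw [h] at h1
    rw [hinj a ha h1, map_one]
    exact one_mem _
  · rw [eq_top_iff]
    intro b _
    obtain ⟨k, hk⟩ := hBp b
    have hcb : (cor b) ^ p ^ k = 1 := by rw [← map_pow, hk, map_one]
    have hco : Nat.Coprime m (orderOf (cor b)) := (hcop k).coprime_dvd_right (orderOf_dvd_of_pow_eq_one hcb)
    obtain ⟨j, hj⟩ := exists_pow_eq_self_of_coprime hco
    have hmem : (cor b) ^ j ∈ CommGroup.primaryComponent A p := by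
      rw [CommGroup.mem_primaryComponent]
      exact ⟨k, by rw [← pow_mul, mul_comm, pow_mul, hcb, one_pow]⟩
    have h2 : b = tr ((cor b) ^ j) * ((tr ((cor b) ^ j))⁻¹ * b) := by group
    rw [h2]
    apply Subgroup.mul_mem_sup (Subgroup.mem_map_of_mem _ hmem)
    rw [MonoidHom.mem_ker, map_mul, map_inv, h, ← pow_mul, mul_comm j m, pow_mul, hj, inv_mul_cancel]
  · let f : CommGroup.primaryComponent A p →* B := tr.comp (CommGroup.primaryComponent A p).subtype
    have hf : Function.Injective f := by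
      rw [injective_iff_map_eq_one]
      rintro ⟨a, ha⟩ h1
      have h2 : tr a = 1 := h1
      have h3 := h a
      rw [h2, map_one] at h3
      exact Subtype.ext (hinj a ha h3.symm)
    have e := MonoidHom.ofInjective hf
    have hr : f.range = (CommGroup.primaryComponent A p).map tr := by
      rw [MonoidHom.range_comp, Subgroup.range_subtype]
    exact ⟨e.trans (MulEquiv.subgroupCongr hr)⟩

end Cfsg.Agent.Lib.SchurTransfer2
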