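import Mathlib
import Cfsg.Agent.Lib.SchurMult
import Cfsg.Agent.Lib.SchurTransfer2

/-!
Uniqueness of Schur covers over the base (helper66).
-/

set_option autoImplicit false
set_option linter.style.haveILetI false

namespace Cfsg.Agent.Lib.SchurUnique

open Cfsg Cfsg.Agent.Lib.SchurMult
open scoped commutatorElement
open Subgroup

universe u v w x

/-- a homomorphism on a submodule which does not extend -/
theorem exists_nonext {B : Type u} [AddCommGroup B] [Module.Free ℤ B] [Module.Finite ℤ B] (S : Submodule ℤ B)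
    {p : ℕ} (hp : p.Prime) (y : B) (hy : y ∉ S) (hpy : (p : ℤ) • y ∈ S) {M : Type v} [AddCommGroup M] [Finite M]
    (hM : p ∣ Nat.card M) : ∃ f : S →+ M, ∀ g : B →+ M, ∃ s : S, g s ≠ f s := by
  classical
  haveI : Module.Free ℤ S := inferInstance
  haveI : Module.Finite ℤ S := inferInstance
  let b := Module.finBasis ℤ S
  let x₀ : S := ⟨(p : ℤ) • y, hpy⟩
  have hp0 : (p : ℤ) ≠ 0 := by exact_mod_cast hp.ne_zero
  obtain ⟨i, hi⟩ : ∃ i, ¬ (p : ℤ) ∣ b.repr x₀ i := by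
    by_contra hcon
    push Not at hcon
    choose c hc using hcon
    apply hy
    have h1 : x₀ = (p : ℤ) • ∑ i, c i • b i := by
      rw [Finset.smul_sum]
      conv_lhs => rw [← b.sum_repr x₀]
      apply Finset.sum_congr rfl
      intro i _
      rw [hc i, mul_smul]
    have h2 : (p : ℤ) • y = (p : ℤ) • ((∑ i, c i • b i : S) : B) := congrArg Subtype.val h1
    have h3 : y = ((∑ i, c i • b i : S) : B) := smul_right_injective B hp0 h2
    rw [h3]
    exact (∑ i, c i • b i : S).2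
  -- an element of M which is not divisible by p
  obtain ⟨m₀, hm₀⟩ : ∃ m₀ : M, ∀ m : M, (p : ℤ) • m ≠ m₀ := by
    by_contra hcon
    push Not at hcon
    have hsurj : Function.Surjective (fun m : M => (p : ℤ) • m) := hcon
    have hinj : Function.Injective (fun m : M => (p : ℤ) • m) := Finite.injective_iff_surjective.2 hsurj
    haveI : Fact p.Prime := ⟨hp⟩
    obtain ⟨m, hm⟩ := exists_prime_addOrderOf_dvd_card' p hM
    have h1 : (p : ℤ) • m = (p : ℤ) • (0 : M) := by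
      rw [smul_zero, natCast_zsmul, ← hm, addOrderOf_nsmul_eq_zero]
    have h2 := hinj h1
    rw [h2, addOrderOf_zero] at hm
    exact hp.one_lt.ne hm
  let f : S →+ M :=
    { toFun := fun s => (b.repr s i) • m₀
      map_zero' := by rw [map_zero]; simp
      map_add' := by
        intro s t
        rw [map_add, Finsupp.add_apply, add_smul] }
  refine ⟨f, ?_⟩
  intro g
  by_contra hcon
  push Not at hcon
  have h1 : (p : ℤ) • g y = (b.repr x₀ i) • m₀ := by
    have := hcon x₀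
    show _ = f x₀
    rw [← this]
    show _ = g ((p : ℤ) • y)
    rw [map_zsmul]
  have hco : IsCoprime (p : ℤ) (b.repr x₀ i) := (Prime.coprime_iff_not_dvd (Nat.prime_iff_prime_int.1 hp)).2 hi
  obtain ⟨s, t, hst⟩ := hco
  apply hm₀ (s • m₀ + t • g y)
  calc (p : ℤ) • (s • m₀ + t • g y) = (s * p) • m₀ + t • ((p : ℤ) • g y) := by
        rw [smul_add, smul_smul, smul_smul, smul_smul, mul_comm (p : ℤ) s, mul_comm (p : ℤ) t]
    _ = (s * p + t * b.repr x₀ i) • m₀ := by rw [h1, smul_smul, add_smul]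
    _ = m₀ := by rw [hst, one_smul]

section

variable {F : Type u} {G : Type v} [Group F] [Group G]

theorem ker_ab_map {π : F →* G} (hπ : Function.Surjective π) :
    (Abelianization.map π).ker = π.ker.map Abelianization.of := by
  ext x
  constructor
  · intro hx
    obtain ⟨f, rfl⟩ := QuotientGroup.mk'_surjective _ x
    have h1 : Abelianization.of (π f) = 1 := hx
    rw [← MonoidHom.mem_ker, Abelianization.ker_of] at h1
    have h2 : (commutator F).map π = commutator G := by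
      rw [commutator_def, Subgroup.map_commutator, Subgroup.map_top_of_surjective _ hπ, ← commutator_def]
    rw [← h2] at h1
    obtain ⟨c, hc, hcf⟩ := h1
    refine ⟨f * c⁻¹, ?_, ?_⟩
    · rw [SetLike.mem_coe, MonoidHom.mem_ker, map_mul, map_inv, hcf, mul_inv_cancel]
    · rw [map_mul]
      have : Abelianization.of c⁻¹ = 1 := by
        rw [← MonoidHom.mem_ker, Abelianization.ker_of]; exact (commutator F).inv_mem hc
      rw [this, mul_one]
      rfl
  · rintro ⟨r, hr, rfl⟩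
    rw [MonoidHom.mem_ker]
    show Abelianization.of (π r) = 1
    have : π r = 1 := hr
    rw [this, map_one]

/-- `j : N → F/F'` -/
def jmap (π : F →* G) (N : Subgroup (UE π)) : N →* Abelianization F := (toAb π).comp N.subtype

theorem jmap_injective (π : F →* G) (N : Subgroup (UE π)) (hN : N ≤ (toG π).ker) (h1 : N ⊓ mult (toG π) = ⊥) :
    Function.Injective (jmap π N) := by
  rw [injective_iff_map_eq_one]
  rintro ⟨x, hx⟩ h
  have h2 : x ∈ (toAb π).ker := h
  rw [ker_toAb] at h2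
  have h3 : x ∈ N ⊓ mult (toG π) := ⟨hx, mem_mult.2 ⟨hN hx, h2⟩⟩
  rw [h1] at h3
  exact Subtype.ext (Subgroup.mem_bot.1 h3)

theorem range_jmap {π : F →* G} (hπ : Function.Surjective π) (N : Subgroup (UE π)) (hN : N ≤ (toG π).ker)
    (h2 : N ⊔ mult (toG π) = (toG π).ker) : (jmap π N).range = (Abelianization.map π).ker := by
  haveI : N.Normal := normal_of_le_center (hN.trans (ker_toG_le_center π))
  rw [ker_ab_map hπ]
  ext x
  constructor
  · rintro ⟨⟨y, hy⟩, rfl⟩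
    have h3 := hN hy
    rw [ker_toG] at h3
    obtain ⟨r, hr, rfl⟩ := h3
    exact ⟨r, hr, rfl⟩
  · rintro ⟨r, hr, rfl⟩
    have h3 : mkUE π r ∈ (toG π).ker := hr
    rw [← h2] at h3
    obtain ⟨n, hn, m, hm, hnm⟩ := Subgroup.mem_sup_of_normal_left.1 h3
    refine ⟨⟨n, hn⟩, ?_⟩
    show toAb π n = _
    have h4 : toAb π m = 1 := by
      rw [← MonoidHom.mem_ker, ker_toAb]; exact (mem_mult.1 hm).2
    have h5 : toAb π (mkUE π r) = Abelianization.of r := rfl
    rw [← h5, ← hnm, map_mul, h4, mul_one]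

end

/-- A map from the universal object to a finite stem extension with kernel of full order -/
theorem ker_props {Q : Type u} [Group Q] [Finite Q] {Γ : Type v} [Group Γ] [Finite Γ] (σ : Γ →* Q)
    (hσ : IsStemExtension σ) (hcard : Nat.card (mult (toG (pres Q))) = Nat.card σ.ker)
    (η : UE (pres Q) →* Γ) (hη : ∀ e, σ (η e) = toG (pres Q) e) :
    η.ker ≤ (toG (pres Q)).ker ∧ η.ker ⊓ mult (toG (pres Q)) = ⊥ ∧ η.ker ⊔ mult (toG (pres Q)) = (toG (pres Q)).ker := by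
  have hπs := toG_surjective (pres_surjective Q)
  have hms := multMap_surjective hπs hσ.2.1 η hη
  haveI : Finite (mult (toG (pres Q))) := finite_mult hπs (ker_toG_le_center _)
  have hmi : Function.Injective (multMap (π := toG (pres Q)) (ξ := σ) η hη) := by
    refine ((Nat.bijective_iff_surjective_and_card _).2 ⟨hms, ?_⟩).1
    rw [hcard, mult_eq_ker_of_stem hσ]
  have hNK : η.ker ≤ (toG (pres Q)).ker := by
    intro x hx
    rw [MonoidHom.mem_ker] at hx ⊢
    rw [← hη, hx, map_one]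
  refine ⟨hNK, ?_, ?_⟩
  · rw [eq_bot_iff]
    rintro x ⟨hx1, hx2⟩
    have h3 : multMap (π := toG (pres Q)) (ξ := σ) η hη ⟨x, hx2⟩ = 1 := Subtype.ext hx1
    have h4 : (⟨x, hx2⟩ : mult (toG (pres Q))) = 1 := by
      apply hmi
      rw [h3, map_one]
    exact Subgroup.mem_bot.2 (congrArg Subtype.val h4)
  · apply le_antisymm (sup_le hNK inf_le_left)
    intro x hx
    have h1 : η x ∈ σ.ker := by rw [MonoidHom.mem_ker, hη]; exact hx
    rw [← mult_eq_ker_of_stem hσ, ← map_mult_eq hπs hσ.2.1 η hη] at h1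
    obtain ⟨m, hm, hmx⟩ := h1
    have h2 : x = (x * m⁻¹) * m := by group
    rw [h2]
    apply Subgroup.mul_mem_sup _ hm
    rw [MonoidHom.mem_ker, map_mul, map_inv, hmx, mul_inv_cancel]

theorem iso_of_coprime {Q : Type u} [Group Q] [Finite Q] {Γ₁ : Type v} {Γ₂ : Type w} [Group Γ₁] [Finite Γ₁] [Group Γ₂] [Finite Γ₂]
    (σ₁ : Γ₁ →* Q) (σ₂ : Γ₂ →* Q) (h₁ : IsStemExtension σ₁) (h₂ : IsStemExtension σ₂)
    (hc₁ : Nat.card (mult (toG (pres Q))) = Nat.card σ₁.ker) (hc₂ : Nat.card (mult (toG (pres Q))) = Nat.card σ₂.ker)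
    (hcop : Nat.Coprime (Nat.card (Abelianization Q)) (Nat.card σ₂.ker)) :
    ∃ e : Γ₁ ≃* Γ₂, σ₂.comp e.toMonoidHom = σ₁ := by
  have hπ := pres_surjective Q
  obtain ⟨η₁, hη₁⟩ := exists_lift (pres Q) σ₁ h₁.1 h₁.2.1
  obtain ⟨η₂, hη₂⟩ := exists_lift (pres Q) σ₂ h₂.1 h₂.2.1
  have hs₁ := surjective_of_stem (toG_surjective hπ) h₁ η₁ hη₁
  obtain ⟨hN1, hN2, hN3⟩ := ker_props σ₁ h₁ hc₁ η₁ hη₁
  letI : CommGroup σ₂.ker := { (inferInstance : Group σ₂.ker) with
    mul_comm := fun a b => by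
      ext
      exact (Subgroup.mem_center_iff.1 (h₂.2.1 b.2) a) }
  letI : CommGroup η₁.ker := { (inferInstance : Group η₁.ker) with
    mul_comm := fun a b => by
      ext
      exact (Subgroup.mem_center_iff.1 (ker_toG_le_center _ (hN1 b.2)) a) }
  have hji := jmap_injective (pres Q) η₁.ker hN1 hN2
  have hjr := range_jmap hπ η₁.ker hN1 hN3
  set d := Nat.card (Abelianization Q) with hd
  -- f = (η₂)⁻¹ on N₁
  have hf : ∀ x : η₁.ker, η₂ x ∈ σ₂.ker := by
    intro x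
    rw [MonoidHom.mem_ker, hη₂]; exact hN1 x.2
  let f : η₁.ker →* σ₂.ker :=
    { toFun := fun x => ⟨η₂ x, hf x⟩⁻¹
      map_one' := by
        have : (⟨η₂ (1 : η₁.ker), hf 1⟩ : σ₂.ker) = 1 := by ext1; exact map_one _
        rw [this, inv_one]
      map_mul' := by
        intro a b
        have : (⟨η₂ (a * b : η₁.ker), hf (a * b)⟩ : σ₂.ker) = ⟨η₂ a, hf a⟩ * ⟨η₂ b, hf b⟩ := by ext1; exact map_mul _ _ _
        rw [this, mul_inv] }
  -- t : F^ab → N₁
  have hpow : ∀ y : Abelianization (FreeGroup Q), y ^ d ∈ (jmap (pres Q) η₁.ker).range := by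
    intro y
    rw [hjr, MonoidHom.mem_ker, map_pow, hd, pow_card_eq_one']
  let jj := MonoidHom.ofInjective hji
  let t : Abelianization (FreeGroup Q) →* η₁.ker := jj.symm.toMonoidHom.comp
    { toFun := fun y => ⟨y ^ d, hpow y⟩
      map_one' := by ext1; exact one_pow d
      map_mul' := by intro a b; ext1; exact mul_pow a b d }
  have ht : ∀ x : η₁.ker, t (toAb (pres Q) x) = x ^ d := by
    intro x
    show jj.symm ⟨(toAb (pres Q) x) ^ d, _⟩ = _
    rw [MulEquiv.symm_apply_eq]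
    apply Subtype.ext
    show _ = (jmap (pres Q) η₁.ker) (x ^ d)
    rw [map_pow]; rfl
  obtain ⟨k, hk⟩ : ∃ k : ℕ, ∀ z : σ₂.ker, (z ^ d) ^ k = z := by
    rcases Nat.lt_or_ge 1 (Nat.card σ₂.ker) with h1 | h1
    · obtain ⟨m, _, hm⟩ := Nat.exists_mul_mod_eq_one_of_coprime hcop h1
      refine ⟨m, fun z => ?_⟩
      rw [← pow_mul, ← pow_mod_natCard, hm, pow_one]
    · have h2 : Nat.card σ₂.ker = 1 := le_antisymm h1 Nat.card_pos
      haveI : Subsingleton σ₂.ker := (Nat.card_eq_one_iff_unique.1 h2).1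
      exact ⟨0, fun z => Subsingleton.elim _ _⟩
  let θ : UE (pres Q) →* σ₂.ker := ((powMonoidHom k).comp f).comp (t.comp (toAb (pres Q)))
  have hθ : ∀ x : η₁.ker, θ x = f x := by
    intro x
    show (f (t (toAb (pres Q) x))) ^ k = _
    rw [ht, map_pow, hk]
  let η₂' : UE (pres Q) →* Γ₂ :=
    { toFun := fun x => η₂ x * (θ x : Γ₂)
      map_one' := by rw [map_one, map_one]; simp
      map_mul' := by
        intro a b
        rw [map_mul, map_mul, Subgroup.coe_mul]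
        have h1 := Subgroup.mem_center_iff.1 (h₂.2.1 (θ a).2) (η₂ b)
        calc η₂ a * η₂ b * ((θ a : Γ₂) * θ b) = η₂ a * (η₂ b * (θ a : Γ₂)) * θ b := by group
          _ = η₂ a * ((θ a : Γ₂) * η₂ b) * θ b := by rw [h1]
          _ = _ := by group }
  have hη₂' : ∀ e, σ₂ (η₂' e) = toG (pres Q) e := by
    intro e
    show σ₂ (η₂ e * (θ e : Γ₂)) = _
    have : σ₂ (θ e : Γ₂) = 1 := (θ e).2
    rw [map_mul, this, mul_one, hη₂]
  have hs₂ := surjective_of_stem (toG_surjective hπ) h₂ η₂' hη₂'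
  have hle : η₁.ker ≤ η₂'.ker := by
    intro x hx
    rw [MonoidHom.mem_ker]
    show η₂ x * (θ x : Γ₂) = 1
    have h1 := hθ ⟨x, hx⟩
    have h2 : (θ x : Γ₂) = (η₂ x)⁻¹ := congrArg Subtype.val h1
    rw [h2, mul_inv_cancel]
  let g : Γ₁ →* Γ₂ := (MonoidHom.liftOfSurjective η₁ hs₁) ⟨η₂', hle⟩
  have hg : ∀ x, g (η₁ x) = η₂' x := fun x => MonoidHom.liftOfRightInverse_comp_apply _ _ _ ⟨η₂', hle⟩ x
  have hgs : Function.Surjective g := by
    intro y
    obtain ⟨x, rfl⟩ := hs₂ y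
    exact ⟨η₁ x, hg x⟩
  have hcard : Nat.card Γ₁ = Nat.card Γ₂ := by
    have e1 := Subgroup.card_mul_index σ₁.ker
    have e2 := Subgroup.card_mul_index σ₂.ker
    rw [Subgroup.index_ker, MonoidHom.range_eq_top.2 h₁.1, Subgroup.card_top] at e1
    rw [Subgroup.index_ker, MonoidHom.range_eq_top.2 h₂.1, Subgroup.card_top] at e2
    rw [← e1, ← e2, ← hc₁, ← hc₂]
  have hgb : Function.Bijective g := (Nat.bijective_iff_surjective_and_card g).2 ⟨hgs, hcard⟩
  refine ⟨MulEquiv.ofBijective g hgb, ?_⟩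
  refine MonoidHom.ext fun y => ?_
  obtain ⟨x, rfl⟩ := hs₁ y
  show σ₂ (g (η₁ x)) = σ₁ (η₁ x)
  rw [hg, hη₂', hη₁]

/-- central kernel gives a commutative multiplier -/
@[reducible]
def multComm {F : Type u} {G : Type v} [Group F] [Group G] (π : F →* G) : CommGroup (mult (toG π)) :=
  { (inferInstance : Group (mult (toG π))) with
    mul_comm := fun a b => by
      ext
      exact (Subgroup.mem_center_iff.1 (ker_toG_le_center π (mem_mult.1 b.2).1) a) }

theorem exists_nonext_mult {Q : Type u} [Group Q] [Finite Q] {p : ℕ} (hp : p.Prime)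
    (hpQ : p ∣ Nat.card (Abelianization Q)) (hpM : p ∣ Nat.card (mult (toG (pres Q))))
    (N : Subgroup (UE (pres Q))) (hN1 : N ≤ (toG (pres Q)).ker) (hN2 : N ⊓ mult (toG (pres Q)) = ⊥)
    (hN3 : N ⊔ mult (toG (pres Q)) = (toG (pres Q)).ker) :
    ∃ fN : N →* mult (toG (pres Q)), ∀ g : Abelianization (FreeGroup Q) →* mult (toG (pres Q)),
      ∃ x : N, g (jmap (pres Q) N x) ≠ fN x := by
  classical
  haveI : Fact p.Prime := ⟨hp⟩
  have hπ := pres_surjective Q
  have hπs := toG_surjective hπ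
  have hKc := ker_toG_le_center (pres Q)
  haveI hfm : Finite (mult (toG (pres Q))) := finite_mult hπs hKc
  have hji := jmap_injective (pres Q) N hN1 hN2
  have hjr := range_jmap hπ N hN1 hN3
  obtain ⟨y', hy'⟩ := exists_prime_orderOf_dvd_card' p hpQ
  have hmaps : Function.Surjective (Abelianization.map (pres Q)) := by
    intro z
    obtain ⟨q, rfl⟩ := QuotientGroup.mk'_surjective _ z
    obtain ⟨f, rfl⟩ := hπ q
    exact ⟨Abelianization.of f, rfl⟩
  obtain ⟨y, hy⟩ := hmaps y'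
  letI cgM := multComm (pres Q)
  have hy1 : y ∉ (jmap (pres Q) N).range := by
    intro h1
    rw [hjr, MonoidHom.mem_ker, hy] at h1
    rw [h1, orderOf_one] at hy'
    exact hp.one_lt.ne hy'
  have hy2 : y ^ p ∈ (jmap (pres Q) N).range := by
    rw [hjr, MonoidHom.mem_ker, map_pow, hy, ← hy', pow_orderOf_eq_one]
  generalize (jmap (pres Q) N) = j at *
  let S : AddSubgroup (Additive (Abelianization (FreeGroup Q))) := Subgroup.toAddSubgroup j.range
  have hyS : Additive.ofMul y ∉ AddSubgroup.toIntSubmodule S := hy1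
  have hpyS : (p : ℤ) • Additive.ofMul y ∈ AddSubgroup.toIntSubmodule S := by
    rw [natCast_zsmul]
    exact hy2
  obtain ⟨f, hf⟩ := exists_nonext (AddSubgroup.toIntSubmodule S) hp (Additive.ofMul y) hyS hpyS (M := Additive (mult (toG (pres Q)))) hpM
  refine ⟨{ toFun := fun x => Additive.toMul (f ⟨Additive.ofMul (j x), ⟨x, rfl⟩⟩)
            map_one' := ?_
            map_mul' := ?_ }, ?_⟩
  · have : (⟨Additive.ofMul (j 1), ⟨1, rfl⟩⟩ : AddSubgroup.toIntSubmodule S) = 0 := by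
      apply Subtype.ext
      show Additive.ofMul (j 1) = 0
      rw [map_one]; rfl
    rw [this, map_zero]; rfl
  · intro a b
    have : (⟨Additive.ofMul (j (a * b)), ⟨a * b, rfl⟩⟩ : AddSubgroup.toIntSubmodule S) =
        ⟨Additive.ofMul (j a), ⟨a, rfl⟩⟩ + ⟨Additive.ofMul (j b), ⟨b, rfl⟩⟩ := by
      apply Subtype.ext
      show Additive.ofMul (j (a * b)) = Additive.ofMul (j a) + Additive.ofMul (j b)
      rw [map_mul]; rfl
    rw [this, map_add]; rfl
  · intro g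
    obtain ⟨⟨s, x, hx⟩, hs⟩ := hf (MonoidHom.toAdditive g)
    refine ⟨x, fun h => hs ?_⟩
    have hx' : j x = Additive.toMul s := hx
    have h5 : f ⟨Additive.ofMul (j x), ⟨x, rfl⟩⟩ = f ⟨s, x, hx⟩ := congrArg f (Subtype.ext hx)
    have h6 : Additive.ofMul (g (Additive.toMul s)) = f ⟨Additive.ofMul (j x), ⟨x, rfl⟩⟩ := by
      rw [← congrArg g hx', h]
      rfl
    exact h6.trans h5

/-- twisting a complement -/
theorem twist_complement {E : Type u} [Group E] (K N M : Subgroup E) (hKc : K ≤ Subgroup.center E) (hN1 : N ≤ K)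
    (hMK : M ≤ K) (hN2 : N ⊓ M = ⊥) (hN3 : N ⊔ M = K) (f : N →* M) :
    ∃ N₂ : Subgroup E, N₂ ≤ K ∧ N₂ ⊓ M = ⊥ ∧ N₂ ⊔ M = K ∧ ∀ x : N, (x : E) * (f x : E) ∈ N₂ := by
  have hcm : ∀ a b : N, ((a * b : N) : E) * ((f (a * b) : M) : E) = ((a : E) * (f a : E)) * ((b : E) * (f b : E)) := by
    intro a b
    rw [map_mul, Subgroup.coe_mul, Subgroup.coe_mul]
    have h1 := Subgroup.mem_center_iff.1 (hKc (hMK (f a).2)) (b : E)
    calc (a : E) * b * ((f a : E) * f b) = a * (b * (f a : E)) * f b := by group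
      _ = a * ((f a : E) * b) * f b := by rw [h1]
      _ = _ := by group
  let g₂ : N →* E :=
    { toFun := fun x => (x : E) * (f x : E)
      map_one' := by rw [map_one]; simp
      map_mul' := hcm }
  have hg₂ : ∀ x, g₂ x = (x : E) * (f x : E) := fun x => rfl
  clear_value g₂
  refine ⟨g₂.range, ?_, ?_, ?_, ?_⟩
  · rintro _ ⟨x, rfl⟩
    rw [hg₂]
    exact Subgroup.mul_mem _ (hN1 x.2) (hMK (f x).2)
  · rw [eq_bot_iff]
    rintro _ ⟨⟨x, rfl⟩, hx⟩
    rw [hg₂] at hx ⊢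
    have h2 : (x : E) ∈ M := (Subgroup.mul_mem_cancel_right _ (f x).2).1 hx
    have h3 : (x : E) ∈ N ⊓ M := ⟨x.2, h2⟩
    rw [hN2, Subgroup.mem_bot] at h3
    have h4 : x = 1 := Subtype.ext h3
    rw [h4, map_one]
    simp
  · apply le_antisymm
    · apply sup_le _ hMK
      rintro _ ⟨x, rfl⟩
      rw [hg₂]
      exact Subgroup.mul_mem _ (hN1 x.2) (hMK (f x).2)
    · have hle : N ⊔ M ≤ g₂.range ⊔ M := by
        apply sup_le _ le_sup_right
        intro x hx
        have h1 : x = g₂ ⟨x, hx⟩ * ((f ⟨x, hx⟩ : E))⁻¹ := by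
          rw [hg₂]
          show x = x * (f ⟨x, hx⟩ : E) * ((f ⟨x, hx⟩ : E))⁻¹
          group
        rw [h1]
        exact Subgroup.mul_mem_sup ⟨_, rfl⟩ (M.inv_mem (f ⟨x, hx⟩).2)
      rw [hN3] at hle
      exact hle
  · intro x
    exact ⟨x, hg₂ x⟩

/-- if the two quotient extensions are isomorphic over the base then the twisting homomorphism extends -/
theorem extends_of_iso {E : Type u} {Q : Type v} [Group E] [Group Q] (π : E →* Q)
    (N N₂ M : Subgroup E) [N.Normal] [N₂.Normal] (f : N →* M)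
    (hx : ∀ x : N, (x : E) * (f x : E) ∈ N₂) (σ₁ : E ⧸ N →* Q) (σ₂ : E ⧸ N₂ →* Q) (hσ₁ : ∀ x, σ₁ (QuotientGroup.mk' N x) = π x)
    (hσ₂ : ∀ x, σ₂ (QuotientGroup.mk' N₂ x) = π x) (hc : σ₂.ker ≤ Subgroup.center (E ⧸ N₂))
    (e₂ : M ≃* σ₂.ker) (he₂ : ∀ x : M, ((e₂ x : σ₂.ker) : E ⧸ N₂) = QuotientGroup.mk' N₂ x)
    (e : E ⧸ N ≃* E ⧸ N₂) (he : ∀ x, σ₂ (e x) = σ₁ x) : ∃ g : E →* M, ∀ x : N, g x = f x := by
  have hθ : ∀ x : E, (QuotientGroup.mk' N₂ x)⁻¹ * e (QuotientGroup.mk' N x) ∈ σ₂.ker := by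
    intro x
    rw [MonoidHom.mem_ker, map_mul, map_inv, hσ₂, he, hσ₁, inv_mul_cancel]
  let θ : E →* σ₂.ker :=
    { toFun := fun x => ⟨_, hθ x⟩
      map_one' := by ext1; simp
      map_mul' := by
        intro a b
        apply Subtype.ext
        show (QuotientGroup.mk' N₂ (a * b))⁻¹ * e (QuotientGroup.mk' N (a * b)) =
          ((QuotientGroup.mk' N₂ a)⁻¹ * e (QuotientGroup.mk' N a)) * ((QuotientGroup.mk' N₂ b)⁻¹ * e (QuotientGroup.mk' N b))
        have h1 := Subgroup.mem_center_iff.1 (hc (hθ a)) (QuotientGroup.mk' N₂ b)⁻¹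
        rw [map_mul, map_mul, map_mul, mul_inv_rev]
        calc (QuotientGroup.mk' N₂ b)⁻¹ * (QuotientGroup.mk' N₂ a)⁻¹ * (e (QuotientGroup.mk' N a) * e (QuotientGroup.mk' N b))
            = ((QuotientGroup.mk' N₂ b)⁻¹ * ((QuotientGroup.mk' N₂ a)⁻¹ * e (QuotientGroup.mk' N a))) * e (QuotientGroup.mk' N b) := by group
          _ = (((QuotientGroup.mk' N₂ a)⁻¹ * e (QuotientGroup.mk' N a)) * (QuotientGroup.mk' N₂ b)⁻¹) * e (QuotientGroup.mk' N b) := by rw [h1]
          _ = _ := by group }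
  refine ⟨e₂.symm.toMonoidHom.comp θ, ?_⟩
  intro x
  show e₂.symm (θ x) = f x
  rw [MulEquiv.symm_apply_eq]
  apply Subtype.ext
  rw [he₂]
  show (QuotientGroup.mk' N₂ (x : E))⁻¹ * e (QuotientGroup.mk' N (x : E)) = QuotientGroup.mk' N₂ (f x : E)
  have h1 : QuotientGroup.mk' N (x : E) = 1 := (QuotientGroup.eq_one_iff _).2 x.2
  have h2 : QuotientGroup.mk' N₂ ((x : E) * (f x : E)) = 1 := (QuotientGroup.eq_one_iff _).2 (hx x)
  rw [h1, map_one, mul_one, inv_eq_iff_mul_eq_one, ← map_mul, h2]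

theorem coprime_of_iso {Q : Type u} [Group Q] [Finite Q]
    (h : ∀ (Γ₁ Γ₂ : Type u) [Group Γ₁] [Finite Γ₁] [Group Γ₂] [Finite Γ₂] (σ₁ : Γ₁ →* Q) (σ₂ : Γ₂ →* Q),
      IsStemExtension σ₁ → IsStemExtension σ₂ → Nonempty (mult (toG (pres Q)) ≃* σ₁.ker) →
      Nonempty (mult (toG (pres Q)) ≃* σ₂.ker) → ∃ e : Γ₁ ≃* Γ₂, σ₂.comp e.toMonoidHom = σ₁) :
    Nat.Coprime (Nat.card (Abelianization Q)) (Nat.card (mult (toG (pres Q)))) := by
  classical
  by_contra hco
  obtain ⟨p, hp, hpQ, hpM⟩ := Nat.Prime.not_coprime_iff_dvd.1 hco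
  have hπ := pres_surjective Q
  have hπs := toG_surjective hπ
  have hKc := ker_toG_le_center (pres Q)
  haveI hfm : Finite (mult (toG (pres Q))) := finite_mult hπs hKc
  obtain ⟨N, hN1, hN2, hN3⟩ := exists_compl_in (pres Q) (toG (pres Q)).ker le_rfl (sup_eq_left.2 inf_le_left)
  haveI hNn : N.Normal := normal_of_le_center (hN1.trans hKc)
  obtain ⟨fN, hfN⟩ := exists_nonext_mult hp hpQ hpM N hN1 hN2 hN3
  obtain ⟨N₂, hN₂1, hN₂2, hN₂3, hx⟩ := twist_complement (toG (pres Q)).ker N (mult (toG (pres Q))) hKc hN1 inf_le_left hN2 hN3 fN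
  haveI hN₂n : N₂.Normal := normal_of_le_center (hN₂1.trans hKc)
  obtain ⟨σ₁, hσ₁, hstem₁, e₁, he₁⟩ := cover_of_complement hπs hKc N hN1 hN2 hN3
  obtain ⟨σ₂, hσ₂, hstem₂, e₂, he₂⟩ := cover_of_complement hπs hKc N₂ hN₂1 hN₂2 hN₂3
  haveI : Finite σ₁.ker := Finite.of_equiv _ e₁.toEquiv
  haveI : Finite σ₂.ker := Finite.of_equiv _ e₂.toEquiv
  haveI : Finite (UE (pres Q) ⧸ N) := finite_of_ker σ₁
  haveI : Finite (UE (pres Q) ⧸ N₂) := finite_of_ker σ₂
  obtain ⟨e, he⟩ := h (UE (pres Q) ⧸ N) (UE (pres Q) ⧸ N₂) σ₁ σ₂ hstem₁ hstem₂ ⟨e₁⟩ ⟨e₂⟩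
  obtain ⟨θ, hθ⟩ := extends_of_iso (toG (pres Q)) N N₂ (mult (toG (pres Q))) fN hx σ₁ σ₂ hσ₁ hσ₂ hstem₂.2.1 e₂ he₂ e
    (fun x => DFunLike.congr_fun he x)
  -- descend to F^ab
  letI cgM := multComm (pres Q)
  obtain ⟨x, hxx⟩ := hfN (Abelianization.lift (θ.comp (mkUE (pres Q))))
  apply hxx
  obtain ⟨n, hn⟩ := mkUE_surjective (pres Q) (x : UE (pres Q))
  have h2 : jmap (pres Q) N x = Abelianization.of n := by
    show toAb (pres Q) x = _
    rw [← hn]; rfl
  rw [h2, Abelianization.lift_apply_of, MonoidHom.comp_apply, hn, hθ]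

end Cfsg.Agent.Lib.SchurUnique
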