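import Mathlib
import Cfsg.Prelude.Def_CaseTheorems
import Cfsg.Prelude.Def_Transfer

/-! Self-centralizing elementary abelian subgroups of order 8 (helper18). -/

set_option autoImplicit false

namespace Cfsg.Agent.Lib.Sec4A

open Cfsg

variable {S : Type*} [Group S]

/-- in `V₄ ≀ Z₂` -/
theorem wreath_E8 [Finite S] (Q E : Subgroup S) (hEQ : E ≤ Q) (hE : Cfsg.IsElementaryAbelian 2 E) (hE16 : Nat.card E = 16)
    (hQ32 : Nat.card Q = 32) (s : S) (hsQ : s ∈ Q) (hsE : s ∉ E) (hs : orderOf s = 2)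
    (hfix : Nat.card ↥(E ⊓ Subgroup.centralizer ({s} : Set S)) = 4)
    (hC : Subgroup.centralizer (((Subgroup.center Q).map Q.subtype : Subgroup S) : Set S) = Q) :
    ∃ A : Subgroup S, Cfsg.IsElementaryAbelian 2 A ∧ Nat.card A = 8 ∧ Subgroup.centralizer (A : Set S) = A := by
  set A := Q ⊓ Subgroup.centralizer ({s} : Set S) with hA
  have hs2 : s * s = 1 := by rw [← pow_two, ← hs]; exact pow_orderOf_eq_one s
  have hsi : s⁻¹ = s := inv_eq_of_mul_eq_one_left hs2
  have hmem : ∀ g, g ∈ A ↔ g ∈ Q ∧ g * s = s * g := by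
    intro g
    rw [hA, Subgroup.mem_inf, Subgroup.mem_centralizer_singleton_iff]
  have hidx : (E.subgroupOf Q).index = 2 := by
    have h1 := Subgroup.index_mul_card (E.subgroupOf Q)
    rw [Nat.card_congr (Subgroup.subgroupOfEquivOfLe hEQ).toEquiv, hE16, hQ32] at h1
    omega
  have hsplit : ∀ g ∈ Q, g ∉ E → g * s ∈ E := by
    intro g hg hgE
    have h1 := Subgroup.mul_mem_iff_of_index_two hidx (a := ⟨g, hg⟩) (b := ⟨s, hsQ⟩)
    simp only [Subgroup.mem_subgroupOf, Subgroup.coe_mul] at h1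
    rw [h1]
    exact ⟨fun h => absurd h hgE, fun h => absurd h hsE⟩
  have hEc : ∀ a ∈ E, ∀ b ∈ E, a * b = b * a := fun a ha b hb => by
    have := hE.1.is_comm.comm ⟨a, ha⟩ ⟨b, hb⟩
    exact congrArg Subtype.val this
  -- the decomposition
  have hform : ∀ g ∈ A, ∃ e ∈ E, e * s = s * e ∧ (g = e ∨ g = e * s) := by
    intro g hg
    obtain ⟨hgQ, hgs⟩ := (hmem g).1 hg
    by_cases hgE : g ∈ E
    · exact ⟨g, hgE, hgs, Or.inl rfl⟩
    · refine ⟨g * s, hsplit g hgQ hgE, ?_, Or.inr ?_⟩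
      · rw [mul_assoc, hs2, mul_one, ← mul_assoc, ← hgs, mul_assoc, hs2, mul_one]
      · rw [mul_assoc, hs2, mul_one]
  have hcomm : ∀ g ∈ A, ∀ g' ∈ A, g * g' = g' * g := by
    intro g hg g' hg'
    obtain ⟨e, he, hes, h1⟩ := hform g hg
    obtain ⟨e', he', hes', h2⟩ := hform g' hg'
    have c1 : Commute e e' := hEc e he e' he'
    have c2 : Commute e s := hes
    have c3 : Commute e' s := hes'
    show Commute g g'
    rcases h1 with rfl | rfl <;> rcases h2 with rfl | rfl
    · exact c1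
    · exact c1.mul_right c2
    · exact c1.mul_left c3.symm
    · exact (c1.mul_right c2).mul_left (c3.symm.mul_right (Commute.refl s))
  have hsq : ∀ g ∈ A, g ^ 2 = 1 := by
    intro g hg
    obtain ⟨e, he, hes, h1⟩ := hform g hg
    have he2 := hE.2 e he
    rcases h1 with rfl | rfl
    · exact he2
    · have c2 : Commute e s := hes
      rw [c2.mul_pow, he2, pow_two, hs2, one_mul]
  have hsA : s ∈ A := (hmem s).2 ⟨hsQ, rfl⟩
  refine ⟨A, ⟨⟨⟨fun a b => Subtype.ext (hcomm a a.2 b b.2)⟩⟩, hsq⟩, ?_, ?_⟩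
  · -- order
    have h1 : Nat.card (↥(E ⊓ Subgroup.centralizer ({s} : Set S)) × Fin 2) = 8 := by
      rw [Nat.card_prod, hfix]; simp
    rw [← h1]
    symm
    have hm : ∀ p : ↥(E ⊓ Subgroup.centralizer ({s} : Set S)) × Fin 2, (p.1 : S) * s ^ (p.2 : ℕ) ∈ A := by
      intro p
      have hp := Subgroup.mem_inf.1 p.1.2
      have h2 := Subgroup.mem_centralizer_singleton_iff.1 hp.2
      exact mul_mem ((hmem _).2 ⟨hEQ hp.1, h2⟩) (pow_mem hsA _)
    apply Nat.card_congr
    refine Equiv.ofBijective (fun p => ⟨(p.1 : S) * s ^ (p.2 : ℕ), hm p⟩) ⟨?_, ?_⟩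
    · rintro ⟨⟨e, he⟩, i⟩ ⟨⟨e', he'⟩, i'⟩ h
      have h2 : e * s ^ (i : ℕ) = e' * s ^ (i' : ℕ) := congrArg Subtype.val h
      have heE := (Subgroup.mem_inf.1 he).1
      have heE' := (Subgroup.mem_inf.1 he').1
      have key : ∀ x ∈ E, ∀ y ∈ E, x * s = y → False := by
        intro x hx y hy hxy
        apply hsE
        have : s = x⁻¹ * y := by rw [← hxy, inv_mul_cancel_left]
        rw [this]
        exact mul_mem (inv_mem hx) hy
      fin_cases i <;> fin_cases i'
      · simp at h2; simp [h2]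
      · simp at h2; exact (key e' heE' e heE h2.symm).elim
      · simp at h2; exact (key e heE e' heE' h2).elim
      · simp at h2; simp [h2]
    · rintro ⟨g, hg⟩
      obtain ⟨e, he, hes, h1⟩ := hform g hg
      have he' : e ∈ E ⊓ Subgroup.centralizer ({s} : Set S) := Subgroup.mem_inf.2 ⟨he, Subgroup.mem_centralizer_singleton_iff.2 hes⟩
      rcases h1 with rfl | rfl
      · exact ⟨(⟨g, he'⟩, 0), Subtype.ext (by simp)⟩
      · exact ⟨(⟨e, he'⟩, 1), Subtype.ext (by simp)⟩
  · apply le_antisymm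
    · intro g hg
      rw [Subgroup.mem_centralizer_iff] at hg
      have hgQ : g ∈ Q := by
        rw [← hC, Subgroup.mem_centralizer_iff]
        rintro _ ⟨z, hz, rfl⟩
        apply hg
        rw [SetLike.mem_coe, hmem]
        refine ⟨z.2, ?_⟩
        have := (Subgroup.mem_center_iff.1 hz) ⟨s, hsQ⟩
        exact (congrArg Subtype.val this).symm
      exact (hmem g).2 ⟨hgQ, (hg s hsA).symm⟩
    · intro g hg
      rw [Subgroup.mem_centralizer_iff]
      intro a ha
      exact hcomm a ha g hg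

end Cfsg.Agent.Lib.Sec4A
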