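import Cfsg.Agent.Lib.Sec4A
import Cfsg.Agent.Lib.PGroupOdd

/-! Self-centralizing elementary abelian subgroups of order 8 in 2-groups containing `Q₈ ∗ Q₈` (helper18). -/

set_option autoImplicit false

namespace Cfsg.Agent.Lib.Sec4B

open Cfsg

variable {S : Type*} [Group S]

abbrev Q8 := QuaternionGroup 2
abbrev z0 : Q8 := QuaternionGroup.a 2

theorem f1 : ∀ g : Q8, g * g = 1 → g = 1 ∨ g = z0 := by decide
theorem f2 : ∀ g : Q8, g * g = 1 ∨ g * g = z0 := by decide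
theorem f3 : ∀ g h : Q8, g * h = h * g ∨ g * h = z0 * (h * g) := by decide
theorem f4 : ∀ g : Q8, (∀ h, g * h = h * g) → g = 1 ∨ g = z0 := by decide
theorem f5 : ∀ q r : Q8, q * q = z0 → r * r = z0 → (q * r) * (q * r) = z0 → q * r = z0 * (r * q) := by decide
theorem f6 : z0 * z0 = 1 ∧ z0 ≠ 1 ∧ ∀ g : Q8, z0 * g = g * z0 := by decide
theorem f7 : ∀ u v : Q8, (u = QuaternionGroup.a 1 ∨ u = z0 * QuaternionGroup.a 1) → (v = QuaternionGroup.xa 0 ∨ v = z0 * QuaternionGroup.xa 0) →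
    ∃ y : Q8, u = y * QuaternionGroup.a 1 * y⁻¹ ∧ v = y * QuaternionGroup.xa 0 * y⁻¹ := by decide
theorem f9 : ∀ q r : Q8, q * q = z0 → r * r = z0 → (q * r) * (q * r) = z0 → ∀ g : Q8, ∃ i : Fin 4, ∃ j : Fin 2, g = q ^ (i : ℕ) * r ^ (j : ℕ) := by
  decide
theorem f8 : ∀ g : Q8, ∃ i : Fin 4, ∃ j : Fin 2, g = (QuaternionGroup.a 1 : Q8) ^ (i : ℕ) * (QuaternionGroup.xa 0 : Q8) ^ (j : ℕ) := by decide

/-- `R` is a quaternion group of order 8 with involution `z` -/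
structure IsQ8 (R : Subgroup S) (z : S) : Prop where
  card : Nat.card R = 8
  zm : z ∈ R
  zz : z * z = 1
  z1 : z ≠ 1
  zc : ∀ g ∈ R, z * g = g * z
  inv : ∀ g ∈ R, g * g = 1 → g = 1 ∨ g = z
  sq : ∀ g ∈ R, g * g = 1 ∨ g * g = z
  com : ∀ g ∈ R, ∀ h ∈ R, g * h = h * g ∨ g * h = z * (h * g)
  cen : ∀ g ∈ R, (∀ h ∈ R, g * h = h * g) → g = 1 ∨ g = z
  anti : ∀ q ∈ R, ∀ r ∈ R, q * q = z → r * r = z → (q * r) * (q * r) = z → q * r = z * (r * q)
  gen : ∀ q ∈ R, ∀ r ∈ R, q * q = z → r * r = z → (q * r) * (q * r) = z → ∀ g ∈ R, ∃ i j : ℕ, g = q ^ i * r ^ j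
  inn : ∀ n : S, n * z = z * n → (∀ g ∈ R, n * g * n⁻¹ = g ∨ n * g * n⁻¹ = z * g) → ∃ y ∈ R, ∀ g ∈ R, n * g * n⁻¹ = y * g * y⁻¹

theorem isQ8_of (R : Subgroup S) (e : R ≃* Q8) : IsQ8 R (e.symm z0 : R) := by
  have hz : e (e.symm z0) = z0 := e.apply_symm_apply _
  have lift : ∀ g (hg : g ∈ R) h (hh : h ∈ R), e ⟨g, hg⟩ = e ⟨h, hh⟩ → g = h :=
    fun g hg h hh he => congrArg Subtype.val (e.injective he)
  have zm : ((e.symm z0 : R) : S) ∈ R := (e.symm z0).2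
  have ez : e ⟨((e.symm z0 : R) : S), zm⟩ = z0 := hz
  have em : ∀ g (hg : g ∈ R) h (hh : h ∈ R), e ⟨g * h, mul_mem hg hh⟩ = e ⟨g, hg⟩ * e ⟨h, hh⟩ := fun g hg h hh => by
    rw [← map_mul]; rfl
  have e1 : e ⟨1, one_mem R⟩ = 1 := map_one e
  obtain ⟨h61, h62, h63⟩ := f6
  refine ⟨by rw [Nat.card_congr e.toEquiv, Nat.card_eq_fintype_card]; rfl, zm, ?_, ?_, ?_, ?_, ?_, ?_, ?_, ?_, ?_, ?_⟩
  · apply lift _ (mul_mem zm zm) _ (one_mem R)
    rw [em _ zm _ zm, ez, h61, e1]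
  · intro h
    apply h62
    rw [← ez, ← e1]
    congr 1
    exact Subtype.ext h
  · intro g hg
    apply lift _ (mul_mem zm hg) _ (mul_mem hg zm)
    rw [em _ zm _ hg, em _ hg _ zm, ez, h63]
  · intro g hg h
    have h1 : e ⟨g, hg⟩ * e ⟨g, hg⟩ = 1 := by
      rw [← em _ hg _ hg, ← e1]; congr 1; exact Subtype.ext h
    rcases f1 _ h1 with h2 | h2
    · left; exact lift _ hg _ (one_mem R) (by rw [h2, e1])
    · right; exact lift _ hg _ zm (by rw [h2, ez])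
  · intro g hg
    rcases f2 (e ⟨g, hg⟩) with h2 | h2
    · left; exact lift _ (mul_mem hg hg) _ (one_mem R) (by rw [em _ hg _ hg, h2, e1])
    · right; exact lift _ (mul_mem hg hg) _ zm (by rw [em _ hg _ hg, h2, ez])
  · intro g hg h hh
    rcases f3 (e ⟨g, hg⟩) (e ⟨h, hh⟩) with h2 | h2
    · left; exact lift _ (mul_mem hg hh) _ (mul_mem hh hg) (by rw [em _ hg _ hh, em _ hh _ hg, h2])
    · right
      refine lift _ (mul_mem hg hh) _ (mul_mem zm (mul_mem hh hg)) ?_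
      rw [em _ hg _ hh, em _ zm _ (mul_mem hh hg), em _ hh _ hg, ez, h2]
  · intro g hg h
    have h1 : ∀ k, e ⟨g, hg⟩ * k = k * e ⟨g, hg⟩ := by
      intro k
      obtain ⟨⟨k', hk'⟩, rfl⟩ := e.surjective k
      rw [← em _ hg _ hk', ← em _ hk' _ hg]
      congr 1
      exact Subtype.ext (h k' hk')
    rcases f4 _ h1 with h2 | h2
    · left; exact lift _ hg _ (one_mem R) (by rw [h2, e1])
    · right; exact lift _ hg _ zm (by rw [h2, ez])
  · intro q hq r hr h1 h2 h3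
    have k1 : e ⟨q, hq⟩ * e ⟨q, hq⟩ = z0 := by rw [← em _ hq _ hq, ← ez]; congr 1; exact Subtype.ext h1
    have k2 : e ⟨r, hr⟩ * e ⟨r, hr⟩ = z0 := by rw [← em _ hr _ hr, ← ez]; congr 1; exact Subtype.ext h2
    have k3 : (e ⟨q, hq⟩ * e ⟨r, hr⟩) * (e ⟨q, hq⟩ * e ⟨r, hr⟩) = z0 := by
      rw [← em _ hq _ hr, ← em _ (mul_mem hq hr) _ (mul_mem hq hr), ← ez]; congr 1; exact Subtype.ext h3
    refine lift _ (mul_mem hq hr) _ (mul_mem zm (mul_mem hr hq)) ?_
    rw [em _ hq _ hr, em _ zm _ (mul_mem hr hq), em _ hr _ hq, ez, f5 _ _ k1 k2 k3]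
  · intro q hq r hr h1 h2 h3 g hg
    have k1 : e ⟨q, hq⟩ * e ⟨q, hq⟩ = z0 := by rw [← em _ hq _ hq, ← ez]; congr 1; exact Subtype.ext h1
    have k2 : e ⟨r, hr⟩ * e ⟨r, hr⟩ = z0 := by rw [← em _ hr _ hr, ← ez]; congr 1; exact Subtype.ext h2
    have k3 : (e ⟨q, hq⟩ * e ⟨r, hr⟩) * (e ⟨q, hq⟩ * e ⟨r, hr⟩) = z0 := by
      rw [← em _ hq _ hr, ← em _ (mul_mem hq hr) _ (mul_mem hq hr), ← ez]; congr 1; exact Subtype.ext h3
    obtain ⟨i, j, h⟩ := f9 _ _ k1 k2 k3 (e ⟨g, hg⟩)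
    refine ⟨i, j, ?_⟩
    refine lift _ hg _ (mul_mem (pow_mem hq _) (pow_mem hr _)) ?_
    rw [h, ← map_pow, ← map_pow, ← map_mul]; rfl
  · intro n hnz hn
    -- the generators
    obtain ⟨⟨i, hi⟩, ei⟩ := e.surjective (QuaternionGroup.a 1)
    obtain ⟨⟨j, hj⟩, ej⟩ := e.surjective (QuaternionGroup.xa 0)
    have hnm : ∀ g ∈ R, n * g * n⁻¹ ∈ R := by
      intro g hg
      rcases hn g hg with h | h
      · rw [h]; exact hg
      · rw [h]; exact mul_mem zm hg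
    have key : ∀ g (hg : g ∈ R), e ⟨n * g * n⁻¹, hnm g hg⟩ = e ⟨g, hg⟩ ∨ e ⟨n * g * n⁻¹, hnm g hg⟩ = z0 * e ⟨g, hg⟩ := by
      intro g hg
      rcases hn g hg with h | h
      · left; congr 1; exact Subtype.ext h
      · right
        rw [← ez, ← em _ zm _ hg]
        congr 1; exact Subtype.ext h
    obtain ⟨y, hy1, hy2⟩ := f7 (e ⟨n * i * n⁻¹, hnm i hi⟩) (e ⟨n * j * n⁻¹, hnm j hj⟩) (by rw [← ei]; exact key i hi)
      (by rw [← ej]; exact key j hj)
    obtain ⟨⟨y', hy'⟩, rfl⟩ := e.surjective y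
    have ei' : n * i * n⁻¹ = y' * i * y'⁻¹ := by
      refine lift _ (hnm i hi) _ (mul_mem (mul_mem hy' hi) (inv_mem hy')) ?_
      rw [hy1, ← ei, ← map_inv, ← map_mul, ← map_mul]; rfl
    have ej' : n * j * n⁻¹ = y' * j * y'⁻¹ := by
      refine lift _ (hnm j hj) _ (mul_mem (mul_mem hy' hj) (inv_mem hy')) ?_
      rw [hy2, ← ej, ← map_inv, ← map_mul, ← map_mul]; rfl
    refine ⟨y', hy', fun g hg => ?_⟩
    obtain ⟨k, l, h⟩ := f8 (e ⟨g, hg⟩)
    have hg' : g = i ^ (k : ℕ) * j ^ (l : ℕ) := by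
      refine lift _ hg _ (mul_mem (pow_mem hi _) (pow_mem hj _)) ?_
      rw [h, ← ei, ← ej, ← map_pow, ← map_pow, ← map_mul]; rfl
    have c1 : ∀ (n : S), n * (i ^ (k : ℕ) * j ^ (l : ℕ)) * n⁻¹ = (n * i * n⁻¹) ^ (k : ℕ) * (n * j * n⁻¹) ^ (l : ℕ) := by
      intro n
      rw [conj_pow, conj_pow]; group
    rw [hg', c1, c1, ei', ej']

theorem step [Finite S] (A : Subgroup S) (hA : Cfsg.IsElementaryAbelian 2 A) {x : S} (hx : x * x = 1)
    (hc : ∀ a ∈ A, a * x = x * a) (hxA : x ∉ A) :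
    ∃ A' : Subgroup S, Cfsg.IsElementaryAbelian 2 A' ∧ A ≤ A' ∧ x ∈ A' ∧ Nat.card A' = 2 * Nat.card A ∧
      ∀ y, y ∈ A' ↔ y ∈ A ∨ y * x ∈ A := by
  have hcomm : ∀ a ∈ A, ∀ b ∈ A, a * b = b * a := fun a ha b hb => by
    have := hA.1.is_comm.comm ⟨a, ha⟩ ⟨b, hb⟩
    exact congrArg Subtype.val this
  have hsq : ∀ a ∈ A, a * a = 1 := fun a ha => by rw [← pow_two]; exact hA.2 a ha
  have hxi : x⁻¹ = x := inv_eq_of_mul_eq_one_left hx
  have hform : ∀ y, (y ∈ A ∨ y * x ∈ A) → ∃ a ∈ A, y = a ∨ y = a * x := by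
    rintro y (h | h)
    · exact ⟨y, h, Or.inl rfl⟩
    · exact ⟨y * x, h, Or.inr (by rw [mul_assoc, hx, mul_one])⟩
  have hcom2 : ∀ y, (y ∈ A ∨ y * x ∈ A) → ∀ y', (y' ∈ A ∨ y' * x ∈ A) → Commute y y' := by
    intro y hy y' hy'
    obtain ⟨a, ha, h1⟩ := hform y hy
    obtain ⟨a', ha', h2⟩ := hform y' hy'
    have c1 : Commute a a' := hcomm a ha a' ha'
    have c2 : Commute a x := hc a ha
    have c3 : Commute a' x := hc a' ha'
    rcases h1 with rfl | rfl <;> rcases h2 with rfl | rfl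
    · exact c1
    · exact c1.mul_right c2
    · exact c1.mul_left c3.symm
    · exact (c1.mul_right c2).mul_left (c3.symm.mul_right (Commute.refl x))
  have hsq2 : ∀ y, (y ∈ A ∨ y * x ∈ A) → y * y = 1 := by
    intro y hy
    obtain ⟨a, ha, h1⟩ := hform y hy
    rcases h1 with rfl | rfl
    · exact hsq _ ha
    · rw [mul_assoc, ← mul_assoc x a, ← hc a ha, mul_assoc a x x, hx, mul_one, hsq a ha]
  let A' : Subgroup S :=
    { carrier := {y | y ∈ A ∨ y * x ∈ A}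
      one_mem' := Or.inl (one_mem A)
      mul_mem' := by
        intro y y' hy hy'
        obtain ⟨a, ha, h1⟩ := hform y hy
        obtain ⟨a', ha', h2⟩ := hform y' hy'
        rcases h1 with rfl | rfl <;> rcases h2 with rfl | rfl
        · exact Or.inl (mul_mem ha ha')
        · right
          show y * (a' * x) * x ∈ A
          rw [mul_assoc, mul_assoc, hx, mul_one]; exact mul_mem ha ha'
        · right
          show a * x * y' * x ∈ A
          rw [mul_assoc a x y', ← hc y' ha', mul_assoc, mul_assoc, hx, mul_one]; exact mul_mem ha ha'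
        · left
          show a * x * (a' * x) ∈ A
          rw [mul_assoc, ← mul_assoc x a' x, ← hc a' ha', mul_assoc a' x x, hx, mul_one]; exact mul_mem ha ha'
      inv_mem' := by
        intro y hy
        have : y⁻¹ = y := inv_eq_of_mul_eq_one_left (hsq2 y hy)
        show y⁻¹ ∈ A ∨ y⁻¹ * x ∈ A
        rw [this]; exact hy }
  have hmem : ∀ y, y ∈ A' ↔ y ∈ A ∨ y * x ∈ A := fun y => Iff.rfl
  have hxA' : x ∈ A' := Or.inr (by rw [hx]; exact one_mem A)
  refine ⟨A', ⟨⟨⟨fun a b => Subtype.ext (hcom2 a a.2 b b.2)⟩⟩, fun y hy => by rw [pow_two]; exact hsq2 y hy⟩, fun y hy => Or.inl hy,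
    hxA', ?_, hmem⟩
  have h1 : Nat.card (Fin 2 × A) = 2 * Nat.card A := by rw [Nat.card_prod]; simp
  rw [← h1]
  symm
  apply Nat.card_congr
  refine Equiv.ofBijective (fun p => ⟨(p.2 : S) * x ^ (p.1 : ℕ), mul_mem (Or.inl p.2.2) (pow_mem hxA' _)⟩) ⟨?_, ?_⟩
  · rintro ⟨i, ⟨e, he⟩⟩ ⟨i', ⟨e', he'⟩⟩ h
    have h2 : e * x ^ (i : ℕ) = e' * x ^ (i' : ℕ) := congrArg Subtype.val h
    have key : ∀ u ∈ A, ∀ v ∈ A, u * x = v → False := by
      intro u hu v hv huv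
      apply hxA
      have : x = u⁻¹ * v := by rw [← huv, inv_mul_cancel_left]
      rw [this]
      exact mul_mem (inv_mem hu) hv
    fin_cases i <;> fin_cases i'
    · simp at h2; simp [h2]
    · simp at h2; exact (key e' he' e he h2.symm).elim
    · simp at h2; exact (key e he e' he' h2).elim
    · simp at h2; simp [h2]
  · rintro ⟨g, hg⟩
    obtain ⟨a, ha, h1⟩ := hform g hg
    rcases h1 with rfl | rfl
    · exact ⟨(0, ⟨g, ha⟩), Subtype.ext (by simp)⟩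
    · exact ⟨(1, ⟨a, ha⟩), Subtype.ext (by simp)⟩

/-- three commuting involutions -/
theorem e8_of [Finite S] {z a b : S} (hz : z * z = 1) (ha : a * a = 1) (hb : b * b = 1) (za : z * a = a * z)
    (zb : z * b = b * z) (ab : a * b = b * a) (z1 : z ≠ 1) (a1 : a ≠ 1) (a2 : a ≠ z) (b1 : b ≠ 1) (b2 : b ≠ z)
    (ab1 : a * b ≠ 1) (ab2 : a * b ≠ z) :
    ∃ A : Subgroup S, Cfsg.IsElementaryAbelian 2 A ∧ Nat.card A = 8 ∧ z ∈ A ∧ a ∈ A ∧ b ∈ A ∧
      ∀ K : Subgroup S, z ∈ K → a ∈ K → b ∈ K → A ≤ K := by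
  obtain ⟨A1, e1, -, m1, c1, f1⟩ := step (⊥ : Subgroup S) ⟨⟨⟨fun a b => Subtype.ext (by
    have := a.2; have := b.2; rw [Subgroup.mem_bot] at *; simp [*])⟩⟩, fun y hy => by rw [Subgroup.mem_bot.1 hy, one_pow]⟩ hz
    (fun y hy => by rw [Subgroup.mem_bot.1 hy, one_mul, mul_one]) (fun h => z1 (Subgroup.mem_bot.1 h))
  have g1 : ∀ y, y ∈ A1 → y = 1 ∨ y = z := by
    intro y hy
    rcases (f1 y).1 hy with h | h
    · left; exact Subgroup.mem_bot.1 h
    · right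
      have h2 := Subgroup.mem_bot.1 h
      rw [← mul_one y, ← hz, ← mul_assoc, h2, one_mul]
  obtain ⟨A2, e2, l2, m2, c2, f2⟩ := step A1 e1 ha (by
    intro y hy
    rcases g1 y hy with rfl | rfl
    · rw [one_mul, mul_one]
    · exact za) (fun h => by rcases g1 a h with h | h; exacts [a1 h, a2 h])
  have g2 : ∀ y, y ∈ A2 → y = 1 ∨ y = z ∨ y = a ∨ y = z * a := by
    intro y hy
    rcases (f2 y).1 hy with h | h
    · rcases g1 _ h with h | h
      · left; exact h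
      · right; left; exact h
    · have e : y = y * a * a := by rw [mul_assoc, ha, mul_one]
      rcases g1 _ h with h | h
      · right; right; left; rw [e, h, one_mul]
      · right; right; right; rw [e, h]
  obtain ⟨A3, e3, l3, m3, c3, f3⟩ := step A2 e2 hb (by
    intro y hy
    rcases g2 y hy with rfl | rfl | rfl | rfl
    · rw [one_mul, mul_one]
    · exact zb
    · exact ab
    · rw [mul_assoc, ab, ← mul_assoc, zb, mul_assoc]) (fun h => by
    rcases g2 b h with h | h | h | h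
    · exact b1 h
    · exact b2 h
    · apply ab1; rw [h, ha]
    · apply ab2; rw [h, ← mul_assoc, ← za, mul_assoc, ha, mul_one])
  refine ⟨A3, e3, ?_, l3 (l2 m1), l3 m2, m3, ?_⟩
  · rw [c3, c2, c1, Subgroup.card_bot]
  · intro K hzK haK hbK
    have hA2 : A2 ≤ K := by
      intro y hy
      rcases g2 y hy with rfl | rfl | rfl | rfl
      · exact one_mem _
      · exact hzK
      · exact haK
      · exact mul_mem hzK haK
    intro y hy
    rcases (f3 y).1 hy with h | h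
    · exact hA2 h
    · have : y = y * b * b := by rw [mul_assoc, hb, mul_one]
      rw [this]
      exact mul_mem (hA2 h) hbK

theorem exists_not_mem [Finite S] (N : Subgroup S) (s : Finset S) (h : s.card < Nat.card N) : ∃ n ∈ N, n ∉ s := by
  by_contra hcon
  push Not at hcon
  have := Nat.card_le_card_of_injective (fun n : N => (⟨n.1, hcon n.1 n.2⟩ : s)) (fun a b hab => Subtype.ext (by have := congrArg Subtype.val hab; exact this))
  rw [Nat.card_eq_fintype_card (α := s), Fintype.card_coe] at this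
  omega

/-- the core argument -/
theorem q8q8_E8 [Finite S] (hS : IsPGroup 2 S) (Q Q₁ Q₂ : Subgroup S) {z z₂ : S} (h1 : IsQ8 Q₁ z) (h2 : IsQ8 Q₂ z₂)
    (hcomm : ∀ a ∈ Q₁, ∀ b ∈ Q₂, a * b = b * a) (hQ : Q₁ ⊔ Q₂ = Q) (hQ32 : Nat.card Q = 32)
    (hC : Subgroup.centralizer (Q : Set S) ≤ Q) (N : Subgroup S) (hN : N.Normal) (hNe : Cfsg.IsElementaryAbelian 2 N)
    (hN8 : Nat.card N = 8) :
    ∃ A : Subgroup S, Cfsg.IsElementaryAbelian 2 A ∧ Nat.card A = 8 ∧ Subgroup.centralizer (A : Set S) = A := by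
  haveI : Fact (Nat.Prime 2) := ⟨Nat.prime_two⟩
  have hl1 : Q₁ ≤ Q := hQ ▸ le_sup_left
  have hl2 : Q₂ ≤ Q := hQ ▸ le_sup_right
  -- products
  have hform : ∀ q ∈ Q, ∃ a ∈ Q₁, ∃ b ∈ Q₂, q = a * b := by
    let T : Subgroup S :=
      { carrier := {q | ∃ a ∈ Q₁, ∃ b ∈ Q₂, q = a * b}
        one_mem' := ⟨1, one_mem _, 1, one_mem _, by rw [one_mul]⟩
        mul_mem' := by
          rintro _ _ ⟨a, ha, b, hb, rfl⟩ ⟨a', ha', b', hb', rfl⟩
          refine ⟨a * a', mul_mem ha ha', b * b', mul_mem hb hb', ?_⟩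
          rw [mul_assoc, ← mul_assoc b, ← hcomm a' ha' b hb]
          simp only [mul_assoc]
        inv_mem' := by
          rintro _ ⟨a, ha, b, hb, rfl⟩
          refine ⟨a⁻¹, inv_mem ha, b⁻¹, inv_mem hb, ?_⟩
          rw [mul_inv_rev, hcomm _ (inv_mem ha) _ (inv_mem hb)] }
    have : Q ≤ T := by
      rw [← hQ]
      apply sup_le
      · intro a ha; exact ⟨a, ha, 1, one_mem _, by rw [mul_one]⟩
      · intro b hb; exact ⟨1, one_mem _, b, hb, by rw [one_mul]⟩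
    exact fun q hq => this hq
  -- the intersection
  have hz12 : z = z₂ := by
    by_contra hne
    have hinter : ∀ x, x ∈ Q₁ → x ∈ Q₂ → x = 1 := by
      intro x hx1 hx2
      rcases h1.cen x hx1 (fun h hh => (hcomm h hh x hx2).symm) with e | e
      · exact e
      · rcases h2.cen x hx2 (fun h hh => hcomm x hx1 h hh) with e' | e'
        · exact e'
        · exact absurd (e.symm.trans e') hne
    have hc : Nat.card (Q₁ × Q₂) ≤ Nat.card Q := by
      apply Nat.card_le_card_of_injective (fun p => (⟨(p.1 : S) * p.2, mul_mem (hl1 p.1.2) (hl2 p.2.2)⟩ : Q))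
      rintro ⟨⟨a, ha⟩, ⟨b, hb⟩⟩ ⟨⟨a', ha'⟩, ⟨b', hb'⟩⟩ h
      have e : a * b = a' * b' := congrArg Subtype.val h
      have e2 : a'⁻¹ * a = b' * b⁻¹ := by
        rw [inv_mul_eq_iff_eq_mul, ← mul_assoc, ← e, mul_inv_cancel_right]
      have e3 := hinter (a'⁻¹ * a) (mul_mem (inv_mem ha') ha) (e2 ▸ mul_mem hb' (inv_mem hb))
      have e4 : a = a' := by rw [← mul_one a', ← e3, mul_inv_cancel_left]
      have e5 : b = b' := by rw [e4] at e; exact mul_left_cancel e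
      simp [e4, e5]
    rw [Nat.card_prod, h1.card, h2.card, hQ32] at hc
    omega
  subst hz12
  have zi : z⁻¹ = z := inv_eq_of_mul_eq_one_left h1.zz
  have zQ : z ∈ Q := hl1 h1.zm
  have hinter : ∀ x, x ∈ Q₁ → x ∈ Q₂ → x = 1 ∨ x = z := fun x hx1 hx2 => h1.cen x hx1 (fun h hh => (hcomm h hh x hx2).symm)
  have hcen : ∀ x ∈ Q, (∀ y ∈ Q, x * y = y * x) → x = 1 ∨ x = z := by
    intro x hx hc
    obtain ⟨a, ha, b, hb, rfl⟩ := hform x hx
    have k1 : a = 1 ∨ a = z := h1.cen a ha (fun h hh => by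
      have := hc h (hl1 hh)
      rw [mul_assoc, ← hcomm h hh b hb, ← mul_assoc, ← mul_assoc] at this
      exact mul_right_cancel this)
    have k2 : b = 1 ∨ b = z := h2.cen b hb (fun h hh => by
      have := hc h (hl2 hh)
      rw [← mul_assoc, ← hcomm a ha h hh, mul_assoc, mul_assoc] at this
      exact mul_left_cancel this)
    rcases k1 with k1 | k1 <;> rcases k2 with k2 | k2 <;> rw [k1, k2]
    · left; simp
    · right; simp
    · right; simp
    · left; exact h1.zz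
  have hCQ : ∀ x, (∀ y ∈ Q, x * y = y * x) → x = 1 ∨ x = z := fun x hx =>
    hcen x (hC (Subgroup.mem_centralizer_iff.2 fun y hy => (hx y hy).symm)) hx
  -- centre of S
  have zN : z ∈ N ∧ z ∈ Subgroup.center S := by
    have hN1 : N ≠ ⊥ := by
      rintro rfl
      rw [Subgroup.card_bot] at hN8
      omega
    obtain ⟨x, hxN, hxc, hxo⟩ := PGroupOdd.exists_central_mem hS hN hN1
    rcases hCQ x (fun y _ => (Subgroup.mem_center_iff.1 hxc y).symm) with e | e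
    · rw [e, orderOf_one] at hxo; omega
    · rw [← e]; exact ⟨hxN, hxc⟩
  obtain ⟨zN, zC⟩ := zN
  have zc : ∀ y : S, z * y = y * z := fun y => (Subgroup.mem_center_iff.1 zC y).symm
  -- inner automorphisms
  have hinn : ∀ n : S, (∀ q ∈ Q, n * q * n⁻¹ = q ∨ n * q * n⁻¹ = z * q) → n ∈ Q := by
    intro n hn
    obtain ⟨y1, hy1, e1⟩ := h1.inn n (zc n).symm (fun g hg => hn g (hl1 hg))
    obtain ⟨y2, hy2, e2⟩ := h2.inn n (zc n).symm (fun g hg => hn g (hl2 hg))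
    have k1 : ∀ g ∈ Q₁, (y1 * y2) * g * (y1 * y2)⁻¹ = n * g * n⁻¹ := by
      intro g hg
      rw [e1 g hg, mul_inv_rev]
      have := hcomm g hg y2 hy2
      calc y1 * y2 * g * (y2⁻¹ * y1⁻¹) = y1 * (y2 * g) * y2⁻¹ * y1⁻¹ := by simp only [mul_assoc]
        _ = _ := by rw [← this]; simp only [mul_assoc, mul_inv_cancel_left]
    have k2 : ∀ g ∈ Q₂, (y1 * y2) * g * (y1 * y2)⁻¹ = n * g * n⁻¹ := by
      intro g hg
      rw [e2 g hg, mul_inv_rev]
      have := hcomm y1 hy1 (y2 * g * y2⁻¹) (mul_mem (mul_mem hy2 hg) (inv_mem hy2))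
      calc y1 * y2 * g * (y2⁻¹ * y1⁻¹) = y1 * (y2 * g * y2⁻¹) * y1⁻¹ := by simp only [mul_assoc]
        _ = _ := by rw [this, mul_inv_cancel_right]
    have k3 : ∀ g ∈ Q, (y1 * y2) * g * (y1 * y2)⁻¹ = n * g * n⁻¹ := by
      intro g hg
      obtain ⟨a, ha, b, hb, rfl⟩ := hform g hg
      have e : ∀ u : S, u * (a * b) * u⁻¹ = (u * a * u⁻¹) * (u * b * u⁻¹) := fun u => by group
      rw [e, e, k1 a ha, k2 b hb]
    have hyQ : y1 * y2 ∈ Q := mul_mem (hl1 hy1) (hl2 hy2)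
    have k4 : (y1 * y2)⁻¹ * n ∈ Q := by
      rcases hCQ ((y1 * y2)⁻¹ * n) (fun y hy => by
        have := k3 y hy
        have k5 : n * y = (y1 * y2) * y * (y1 * y2)⁻¹ * n := by rw [this, inv_mul_cancel_right]
        rw [mul_assoc, k5]
        group) with e | e
      · rw [e]; exact one_mem _
      · rw [e]; exact zQ
    have : n = (y1 * y2) * ((y1 * y2)⁻¹ * n) := by rw [mul_inv_cancel_left]
    rw [this]
    exact mul_mem hyQ k4
  have hNc : ∀ a ∈ N, ∀ b ∈ N, a * b = b * a := fun a ha b hb => by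
    have := hNe.1.is_comm.comm ⟨a, ha⟩ ⟨b, hb⟩
    exact congrArg Subtype.val this
  have hNs : ∀ a ∈ N, a * a = 1 := fun a ha => by rw [← pow_two]; exact hNe.2 a ha
  have hQsq : ∀ q ∈ Q, q * q = 1 ∨ q * q = z := by
    intro q hq
    obtain ⟨a, ha, b, hb, rfl⟩ := hform q hq
    have e : a * b * (a * b) = (a * a) * (b * b) := by
      rw [mul_assoc, ← mul_assoc b a b, ← hcomm a ha b hb]; simp only [mul_assoc]
    rw [e]
    rcases h1.sq a ha with e1 | e1 <;> rcases h2.sq b hb with e2 | e2 <;> rw [e1, e2]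
    · left; simp
    · right; simp
    · right; simp
    · left; exact h1.zz
  have hQcom : ∀ q ∈ Q, ∀ q' ∈ Q, q * q' = q' * q ∨ q * q' = z * (q' * q) := by
    intro q hq q' hq'
    obtain ⟨a, ha, b, hb, rfl⟩ := hform q hq
    obtain ⟨a', ha', b', hb', rfl⟩ := hform q' hq'
    have e : ∀ a ∈ Q₁, ∀ b ∈ Q₂, ∀ a' ∈ Q₁, ∀ b' ∈ Q₂, a * b * (a' * b') = (a * a') * (b * b') := by
      intro a ha b hb a' ha' b' hb'
      rw [mul_assoc, ← mul_assoc b a' b', ← hcomm a' ha' b hb]; simp only [mul_assoc]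
    rw [e a ha b hb a' ha' b' hb', e a' ha' b' hb' a ha b hb]
    rcases h1.com a ha a' ha' with e1 | e1 <;> rcases h2.com b hb b' hb' with e2 | e2 <;> rw [e1, e2]
    · left; rfl
    · right
      calc a' * a * (z * (b' * b)) = (a' * a * z) * (b' * b) := by simp only [mul_assoc]
        _ = _ := by rw [← zc (a' * a)]; simp only [mul_assoc]
    · right; simp only [mul_assoc]
    · left
      calc z * (a' * a) * (z * (b' * b)) = (z * z) * ((a' * a) * (b' * b)) := by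
            rw [mul_assoc z, ← mul_assoc (a' * a) z, ← zc (a' * a)]; simp only [mul_assoc]
        _ = _ := by rw [h1.zz, one_mul]
  -- step 2
  have hdel : ∀ q ∈ Q, ∀ n ∈ N, q * n * q⁻¹ = n ∨ q * n * q⁻¹ = z * n := by
    intro q hq n hn
    have hmN : ∀ x ∈ N, q * x * q⁻¹ * x⁻¹ ∈ N := fun x hx => mul_mem (hN.conj_mem x hx q) (inv_mem hx)
    let δ : N →* N :=
      { toFun := fun x => ⟨q * x * q⁻¹ * (x : S)⁻¹, hmN x x.2⟩
        map_one' := Subtype.ext (by simp)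
        map_mul' := by
          rintro ⟨x, hx⟩ ⟨y, hy⟩
          apply Subtype.ext
          show q * (x * y) * q⁻¹ * (x * y)⁻¹ = (q * x * q⁻¹ * x⁻¹) * (q * y * q⁻¹ * y⁻¹)
          have e1 := hNc (q * y * q⁻¹ * y⁻¹) (hmN y hy) x⁻¹ (inv_mem hx)
          calc q * (x * y) * q⁻¹ * (x * y)⁻¹ = (q * x * q⁻¹) * ((q * y * q⁻¹ * y⁻¹) * x⁻¹) := by group
            _ = _ := by rw [e1]; group }
    have hδ : ∀ x : N, (δ x : S) = q * x * q⁻¹ * (x : S)⁻¹ := fun x => rfl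
    have hq2 : ∀ x : S, q * (q * x * q⁻¹) * q⁻¹ = x := by
      intro x
      have : q * (q * x * q⁻¹) * q⁻¹ = (q * q) * x * (q * q)⁻¹ := by group
      rw [this]
      rcases hQsq q hq with e | e <;> rw [e]
      · simp
      · rw [zc, mul_inv_cancel_right]
    have hδδ : ∀ x : N, δ (δ x) = 1 := by
      intro x
      apply Subtype.ext
      rw [hδ, hδ]
      show q * (q * x * q⁻¹ * (x : S)⁻¹) * q⁻¹ * (q * x * q⁻¹ * (x : S)⁻¹)⁻¹ = 1
      have e1 : q * (q * x * q⁻¹ * (x : S)⁻¹) * q⁻¹ = (q * (q * x * q⁻¹) * q⁻¹) * (q * x * q⁻¹)⁻¹ := by group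
      have e2 : (q * x * q⁻¹ * (x : S)⁻¹)⁻¹ = x * (q * x * q⁻¹)⁻¹ := by group
      rw [e1, hq2, e2]
      exact hNs _ (mul_mem x.2 (inv_mem (hN.conj_mem x x.2 q)))
    have hle : δ.range ≤ δ.ker := by
      rintro _ ⟨x, rfl⟩
      exact MonoidHom.mem_ker.2 (hδδ x)
    have hcard : Nat.card δ.range * Nat.card δ.ker = 8 := by
      rw [← hN8, Subgroup.card_eq_card_quotient_mul_card_subgroup δ.ker, Nat.card_congr (QuotientGroup.quotientKerEquivRange δ).toEquiv]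
    have hrk : Nat.card δ.range ≤ Nat.card δ.ker := Subgroup.card_le_of_le hle
    have hr2 : Nat.card δ.range ≤ 2 := by
      by_contra hcon
      have : 3 * 3 ≤ Nat.card δ.range * Nat.card δ.ker := Nat.mul_le_mul (by omega) (by omega)
      omega
    by_cases hm : δ ⟨n, hn⟩ = 1
    · left
      have := congrArg Subtype.val hm
      rw [hδ] at this
      exact mul_inv_eq_one.1 this
    · right
      have hr : Nat.card δ.range = 2 := by
        have h0 : 0 < Nat.card δ.range := Nat.card_pos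
        by_contra hcon
        have h1 : Nat.card δ.range = 1 := by omega
        have := Subgroup.card_eq_one.1 h1
        have h2 : δ ⟨n, hn⟩ ∈ δ.range := ⟨_, rfl⟩
        rw [this, Subgroup.mem_bot] at h2
        exact hm h2
      obtain ⟨y, -, hy⟩ := (Nat.card_eq_two_iff' (1 : δ.range)).1 hr
      have huniq : ∀ x y : N, x ∈ δ.range → y ∈ δ.range → x ≠ 1 → y ≠ 1 → x = y := by
        intro x x' hx hx' h1 h1'
        have e1 := hy ⟨x, hx⟩ (fun h => h1 (congrArg Subtype.val h))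
        have e2 := hy ⟨x', hx'⟩ (fun h => h1' (congrArg Subtype.val h))
        exact congrArg Subtype.val (e1.trans e2.symm)
      have hfix : ∀ q' ∈ Q, (δ ⟨n, hn⟩ : S) * q' = q' * (δ ⟨n, hn⟩ : S) := by
        intro q' hq'
        have hnq : q' * n * q'⁻¹ ∈ N := hN.conj_mem n hn q'
        have e1 : (δ ⟨q' * n * q'⁻¹, hnq⟩ : S) = q' * (δ ⟨n, hn⟩ : S) * q'⁻¹ := by
          rw [hδ, hδ]
          show q * (q' * n * q'⁻¹) * q⁻¹ * (q' * n * q'⁻¹)⁻¹ = q' * (q * n * q⁻¹ * n⁻¹) * q'⁻¹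
          have e2 : q * q' * n * (q * q')⁻¹ = q' * q * n * (q' * q)⁻¹ := by
            rcases hQcom q hq q' hq' with e | e
            · rw [e]
            · have e3 : z * (q' * q) * n * (z * (q' * q))⁻¹ = z * (q' * q * n * (q' * q)⁻¹) * z⁻¹ := by group
              rw [e, e3, zc, mul_inv_cancel_right]
          calc q * (q' * n * q'⁻¹) * q⁻¹ * (q' * n * q'⁻¹)⁻¹ = (q * q' * n * (q * q')⁻¹) * (q' * n * q'⁻¹)⁻¹ := by group
            _ = _ := by rw [e2]; group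
        have e3 : δ ⟨q' * n * q'⁻¹, hnq⟩ = δ ⟨n, hn⟩ := by
          apply huniq _ _ ⟨_, rfl⟩ ⟨_, rfl⟩ _ hm
          intro h0
          apply hm
          apply Subtype.ext
          have := congrArg Subtype.val h0
          rw [e1] at this
          have h5 : (δ ⟨n, hn⟩ : S) = q'⁻¹ * (q' * (δ ⟨n, hn⟩ : S) * q'⁻¹) * q' := by group
          rw [h5, this]
          show q'⁻¹ * 1 * q' = 1
          simp
        rw [← e3] at e1
        rw [e3] at e1
        exact (eq_mul_inv_iff_mul_eq.1 e1)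
      rcases hCQ _ hfix with e | e
      · exact absurd (Subtype.ext e) hm
      · rw [hδ] at e
        exact mul_inv_eq_iff_eq_mul.1 e
  -- step 3
  have hNQ : ∀ n ∈ N, n ∈ Q := by
    intro n hn
    apply hinn
    intro q hq
    rcases hdel q hq n hn with e | e
    · left
      rw [mul_inv_eq_iff_eq_mul] at e ⊢
      exact e.symm
    · right
      rw [mul_inv_eq_iff_eq_mul] at e ⊢
      rw [mul_assoc, e, ← mul_assoc, ← mul_assoc, h1.zz, one_mul]
  -- step 4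
  classical
  obtain ⟨n1, hn1, hn1'⟩ := exists_not_mem N {1, z} (by
    rw [hN8]; exact lt_of_le_of_lt Finset.card_le_two (by norm_num))
  obtain ⟨n2, hn2, hn2'⟩ := exists_not_mem N {1, z, n1, z * n1} (by
    rw [hN8]; exact lt_of_le_of_lt Finset.card_le_four (by norm_num))
  simp only [Finset.mem_insert, Finset.mem_singleton, not_or] at hn1' hn2'
  have hdec : ∀ a ∈ Q₁, ∀ b ∈ Q₂, a * b ∈ N → a * b ≠ 1 → a * b ≠ z → a * a = z ∧ b * b = z := by
    intro a ha b hb hab k1 k2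
    have e : (a * a) * (b * b) = 1 := by
      rw [← hNs _ hab, mul_assoc, mul_assoc, ← mul_assoc b a b, ← hcomm a ha b hb]; simp only [mul_assoc]
    rcases h1.sq a ha with e1 | e1 <;> rcases h2.sq b hb with e2 | e2
    · exfalso
      rcases h1.inv a ha e1 with e3 | e3 <;> rcases h2.inv b hb e2 with e4 | e4
      · exact k1 (by rw [e3, e4, one_mul])
      · exact k2 (by rw [e3, e4, one_mul])
      · exact k2 (by rw [e3, e4, mul_one])
      · exact k1 (by rw [e3, e4, h1.zz])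
    · rw [e1, e2, one_mul] at e; exact absurd e h1.z1
    · rw [e1, e2, mul_one] at e; exact absurd e h1.z1
    · exact ⟨e1, e2⟩
  obtain ⟨q1, hq1, q2, hq2, en1⟩ := hform n1 (hNQ n1 hn1)
  obtain ⟨r1, hr1, r2, hr2, en2⟩ := hform n2 (hNQ n2 hn2)
  obtain ⟨sq1, sq2⟩ := hdec q1 hq1 q2 hq2 (en1 ▸ hn1) (en1 ▸ hn1'.1) (en1 ▸ hn1'.2)
  obtain ⟨sr1, sr2⟩ := hdec r1 hr1 r2 hr2 (en2 ▸ hn2) (en2 ▸ hn2'.1) (en2 ▸ hn2'.2.1)
  have en12 : n1 * n2 = (q1 * r1) * (q2 * r2) := by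
    rw [en1, en2, mul_assoc, ← mul_assoc q2 r1 r2, ← hcomm r1 hr1 q2 hq2]; simp only [mul_assoc]
  obtain ⟨sqr1, sqr2⟩ := hdec (q1 * r1) (mul_mem hq1 hr1) (q2 * r2) (mul_mem hq2 hr2) (en12 ▸ mul_mem hn1 hn2)
    (by
      rw [← en12]; intro h
      apply hn2'.2.2.1
      calc n2 = n1 * (n1 * n2) := by rw [← mul_assoc, hNs n1 hn1, one_mul]
        _ = n1 := by rw [h, mul_one])
    (by
      rw [← en12]; intro h
      apply hn2'.2.2.2
      calc n2 = n1 * (n1 * n2) := by rw [← mul_assoc, hNs n1 hn1, one_mul]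
        _ = z * n1 := by rw [h, zc])
  have A1 := h1.anti q1 hq1 r1 hr1 sq1 sr1 sqr1
  have A2 := h2.anti q2 hq2 r2 hr2 sq2 sr2 sqr2
  have A3 : r2 * (q2 * r2) = q2 := by
    rw [A2, ← mul_assoc, ← zc, mul_assoc, ← mul_assoc r2, sr2, ← mul_assoc, h1.zz, one_mul]
  have A4 : (q2 * r2) * r2 = z * q2 := by rw [mul_assoc, sr2, zc]
  have hne : ∀ x, x * x = z → ¬ (x ∈ Q₁ ∧ x ∈ Q₂) := by
    rintro x hx ⟨k1, k2⟩
    apply h1.z1
    rcases hinter x k1 k2 with e | e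
    · rw [← hx, e, one_mul]
    · rw [← hx, e, h1.zz]
  have hprod : ∀ a ∈ Q₁, ∀ b ∈ Q₂, a * b = 1 ∨ a * b = z → b ∈ Q₁ := by
    intro a ha b hb h
    have : b = a⁻¹ * (a * b) := by rw [inv_mul_cancel_left]
    rw [this]
    rcases h with h | h <;> rw [h]
    · exact mul_mem (inv_mem ha) (one_mem _)
    · exact mul_mem (inv_mem ha) h1.zm
  have swap : ∀ a ∈ Q₁, ∀ b ∈ Q₂, ∀ c ∈ Q₁, ∀ d ∈ Q₂, (a * b) * (c * d) = (a * c) * (b * d) := by
    intro a ha b hb c hc d hd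
    rw [mul_assoc, ← mul_assoc b c d, ← hcomm c hc b hb]; simp only [mul_assoc]
  have hqr2 : q2 * r2 ∈ Q₂ := mul_mem hq2 hr2
  have k1 : (q1 * r2) * (r1 * (q2 * r2)) = (q1 * r1) * q2 := by rw [swap q1 hq1 r2 hr2 r1 hr1 _ hqr2, A3]
  obtain ⟨A, hAe, hA8, hzA, haA, hbA, hAmin⟩ := e8_of (z := z) (a := q1 * r2) (b := r1 * (q2 * r2)) h1.zz
    (by rw [swap q1 hq1 r2 hr2 q1 hq1 r2 hr2, sq1, sr2, h1.zz]) (by rw [swap r1 hr1 _ hqr2 r1 hr1 _ hqr2, sr1, sqr2, h1.zz])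
    (zc _) (zc _) (by
      rw [k1, swap r1 hr1 _ hqr2 q1 hq1 r2 hr2, A4, A1, mul_assoc z, zc, mul_assoc, ← mul_assoc _ z, ← zc q2]
      simp only [mul_assoc]) h1.z1
    (fun h => hne r2 sr2 ⟨hprod q1 hq1 r2 hr2 (Or.inl h), hr2⟩) (fun h => hne r2 sr2 ⟨hprod q1 hq1 r2 hr2 (Or.inr h), hr2⟩)
    (fun h => hne _ sqr2 ⟨hprod r1 hr1 _ hqr2 (Or.inl h), hqr2⟩) (fun h => hne _ sqr2 ⟨hprod r1 hr1 _ hqr2 (Or.inr h), hqr2⟩)
    (by rw [k1]; exact fun h => hne q2 sq2 ⟨hprod _ (mul_mem hq1 hr1) q2 hq2 (Or.inl h), hq2⟩)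
    (by rw [k1]; exact fun h => hne q2 sq2 ⟨hprod _ (mul_mem hq1 hr1) q2 hq2 (Or.inr h), hq2⟩)
  have hAQ : A ≤ Q := hAmin Q zQ (mul_mem (hl1 hq1) (hl2 hr2)) (mul_mem (hl1 hr1) (hl2 hqr2))
  have hAc : ∀ x ∈ A, ∀ y ∈ A, x * y = y * x := fun a ha b hb => by
    have := hAe.1.is_comm.comm ⟨a, ha⟩ ⟨b, hb⟩
    exact congrArg Subtype.val this
  have hmP : ∀ x, x ∈ A ⊔ N ↔ ∃ a ∈ A, ∃ n ∈ N, a * n = x := fun x => by
    rw [← SetLike.mem_coe, Subgroup.mul_normal]; exact Set.mem_mul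
  have hP : ∀ q ∈ Q, ∃ a ∈ A, ∃ n ∈ N, a * n = q := by
    have pA : ∀ x ∈ A, x ∈ A ⊔ N := fun x hx => (le_sup_left : A ≤ A ⊔ N) hx
    have pN : ∀ x ∈ N, x ∈ A ⊔ N := fun x hx => (le_sup_right : N ≤ A ⊔ N) hx
    have pq2 : q2 ∈ A ⊔ N := by
      have e1 : n2⁻¹ * (r1 * (q2 * r2)) = z * q2 := by
        rw [en2, mul_inv_rev, mul_assoc, inv_mul_cancel_left, A2, ← mul_assoc, ← zc, mul_assoc, inv_mul_cancel_left]
      have e2 : q2 = z * (n2⁻¹ * (r1 * (q2 * r2))) := by rw [e1, ← mul_assoc, h1.zz, one_mul]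
      rw [e2]
      exact mul_mem (pA _ hzA) (mul_mem (inv_mem (pN _ hn2)) (pA _ hbA))
    have pr2 : r2 ∈ A ⊔ N := by
      have e2 : r2 = q2 * (n1⁻¹ * (q1 * r2)) := by rw [en1, mul_inv_rev, mul_assoc, inv_mul_cancel_left, mul_inv_cancel_left]
      rw [e2]
      exact mul_mem pq2 (mul_mem (inv_mem (pN _ hn1)) (pA _ haA))
    have pq1 : q1 ∈ A ⊔ N := by
      have e2 : q1 = n1 * q2⁻¹ := by rw [en1, mul_inv_cancel_right]
      rw [e2]
      exact mul_mem (pN _ hn1) (inv_mem pq2)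
    have pr1 : r1 ∈ A ⊔ N := by
      have e2 : r1 = n2 * r2⁻¹ := by rw [en2, mul_inv_cancel_right]
      rw [e2]
      exact mul_mem (pN _ hn2) (inv_mem pr2)
    have hQP : Q ≤ A ⊔ N := by
      rw [← hQ]
      apply sup_le
      · intro g hg
        obtain ⟨i, j, e⟩ := h1.gen q1 hq1 r1 hr1 sq1 sr1 sqr1 g hg
        rw [e]; exact mul_mem (pow_mem pq1 _) (pow_mem pr1 _)
      · intro g hg
        obtain ⟨i, j, e⟩ := h2.gen q2 hq2 r2 hr2 sq2 sr2 sqr2 g hg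
        rw [e]; exact mul_mem (pow_mem pq2 _) (pow_mem pr2 _)
    exact fun q hq => (hmP q).1 (hQP hq)
  refine ⟨A, hAe, hA8, le_antisymm ?_ ?_⟩
  · intro s hs
    rw [Subgroup.mem_centralizer_iff] at hs
    have hsA : ∀ a ∈ A, a * s = s * a := hs
    -- s acts on N
    have hsN : ∀ n ∈ N, s * n * s⁻¹ = n ∨ s * n * s⁻¹ = z * n := by
      intro n hn
      have hn' : s * n * s⁻¹ ∈ N := hN.conj_mem n hn s
      have hm : s * n * s⁻¹ * n⁻¹ = 1 ∨ s * n * s⁻¹ * n⁻¹ = z := by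
        apply hCQ
        intro q hq
        obtain ⟨a, ha, x, hx, rfl⟩ := hP q hq
        have hmN : s * n * s⁻¹ * n⁻¹ ∈ N := mul_mem hn' (inv_mem hn)
        have c2 : Commute (s * n * s⁻¹ * n⁻¹) x := hNc _ hmN x hx
        have c1 : Commute (s * n * s⁻¹ * n⁻¹) a := by
          have e1 : a * (s * n * s⁻¹ * n⁻¹) * a⁻¹ = s * n * s⁻¹ * n⁻¹ := by
            have e2 : a * (s * n * s⁻¹) * a⁻¹ = s * (a * n * a⁻¹) * s⁻¹ := by
              have e4 : s⁻¹ * a⁻¹ = a⁻¹ * s⁻¹ := by rw [← mul_inv_rev, ← mul_inv_rev, hsA a ha]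
              calc a * (s * n * s⁻¹) * a⁻¹ = (a * s) * n * (s⁻¹ * a⁻¹) := by simp only [mul_assoc]
                _ = _ := by rw [hsA a ha, e4]; simp only [mul_assoc]
            have e3 : a * (s * n * s⁻¹ * n⁻¹) * a⁻¹ = (a * (s * n * s⁻¹) * a⁻¹) * (a * n * a⁻¹)⁻¹ := by group
            rw [e3, e2]
            rcases hdel a (hAQ ha) n hn with e | e
            · rw [e]
            · rw [e, mul_inv_rev, zi]
              have e5 : s * (z * n) * s⁻¹ = z * (s * n * s⁻¹) := by rw [← mul_assoc, ← zc s]; simp only [mul_assoc]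
              rw [e5, ← mul_assoc, ← zc, ← mul_assoc, ← mul_assoc, h1.zz, one_mul]
          exact (mul_inv_eq_iff_eq_mul.1 e1).symm
        exact (c1.mul_right c2).eq
      rcases hm with h | h
      · left; exact mul_inv_eq_one.1 h
      · right; exact mul_inv_eq_iff_eq_mul.1 h
    have hsQ : s ∈ Q := by
      apply hinn
      intro q hq
      obtain ⟨a, ha, n, hn, rfl⟩ := hP q hq
      have e1 : s * (a * n) * s⁻¹ = a * (s * n * s⁻¹) := by
        rw [← mul_assoc, ← hsA a ha]; simp only [mul_assoc]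
      rw [e1]
      rcases hsN n hn with e | e
      · left; rw [e]
      · right; rw [e, ← mul_assoc, ← zc, mul_assoc]
    obtain ⟨a, ha, n, hn, rfl⟩ := hP s hsQ
    have hn' : n = 1 ∨ n = z := by
      apply hCQ
      intro q hq
      obtain ⟨a', ha', n', hn', rfl⟩ := hP q hq
      have c1 : Commute n a' := by
        have e1 := hsA a' ha'
        have e2 : a * (n * a') = a * (a' * n) := by
          rw [← mul_assoc, ← e1, ← mul_assoc, ← mul_assoc, hAc a' ha' a ha]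
        exact mul_left_cancel e2
      have c2 : Commute n n' := hNc n hn n' hn'
      exact (c1.mul_right c2).eq
    rcases hn' with rfl | rfl
    · rw [mul_one]; exact ha
    · exact mul_mem ha hzA
  · intro x hx
    rw [Subgroup.mem_centralizer_iff]
    intro y hy
    exact hAc y hy x hx

end Cfsg.Agent.Lib.Sec4B
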