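import Cfsg.Agent.Lib.Cores
import Mathlib

set_option autoImplicit false

/-! Finite groups with a self-centralizing element of prime order. -/

namespace Cfsg.Agent.Lib.SelfCentPrime

open Subgroup Cfsg
open scoped commutatorElement

theorem card_of_fiber {α β : Type*} [Finite α] [Finite β] (f : α → β) (k : ℕ)
    (h : ∀ b, Nat.card {a // f a = b} = k) : Nat.card α = Nat.card β * k := by
  classical
  have := Fintype.ofFinite β
  rw [← Nat.card_congr (Equiv.sigmaFiberEquiv f), Nat.card_sigma]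
  simp [h]

variable {G : Type*} [Group G] [Finite G] {p : ℕ}

/-- The standing hypothesis. -/
structure H (p : ℕ) (x : G) : Prop where
  hp : p.Prime
  hx : orderOf x = p
  hC : Subgroup.centralizer ({x} : Set G) = Subgroup.zpowers x

variable {x : G}

theorem H.card (h : H p x) : Nat.card (Subgroup.zpowers x) = p := by
  rw [Nat.card_zpowers, h.hx]

theorem H.mem (h : H p x) {g : G} (hg : g * x = x * g) : g ∈ Subgroup.zpowers x := by
  rw [← h.hC, Subgroup.mem_centralizer_singleton_iff]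
  exact hg

theorem H.ne_one (h : H p x) : x ≠ 1 := by
  rintro rfl
  have := h.hx
  rw [orderOf_one] at this
  exact h.hp.one_lt.ne this

/-- in a subgroup of prime order every nontrivial element generates -/
theorem zpowers_eq_of_mem (hp : p.Prime) {H : Subgroup G} (hH : Nat.card H = p) {y : G} (hy : y ∈ H)
    (hy1 : y ≠ 1) : Subgroup.zpowers y = H := by
  have hle : Subgroup.zpowers y ≤ H := Subgroup.zpowers_le.2 hy
  apply Subgroup.eq_of_le_of_card_ge hle
  have h1 : Nat.card (Subgroup.zpowers y) ∣ p := by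
    rw [← hH]; exact Subgroup.card_dvd_of_le hle
  rcases (Nat.dvd_prime hp).1 h1 with h2 | h2
  · exfalso
    rw [Nat.card_zpowers, orderOf_eq_one_iff] at h2
    exact hy1 h2
  · rw [h2, hH]

theorem H.sylow (h : H p x) : ∃ Q : Sylow p G, (Q : Subgroup G) = Subgroup.zpowers x := by
  haveI := Fact.mk h.hp
  have hP : IsPGroup p (Subgroup.zpowers x) := by
    apply IsPGroup.of_card (n := 1)
    rw [h.card, pow_one]
  obtain ⟨Q, hQ⟩ := hP.exists_le_sylow
  refine ⟨Q, le_antisymm ?_ hQ⟩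
  have hxQ : x ∈ (Q : Subgroup G) := hQ (Subgroup.mem_zpowers x)
  haveI : Nontrivial Q := by
    refine ⟨⟨⟨x, hxQ⟩, 1, fun e => h.ne_one (congrArg Subtype.val e)⟩⟩
  haveI := Q.2.center_nontrivial
  obtain ⟨z, hz⟩ := exists_ne (1 : Subgroup.center Q)
  have hz1 : ((z : Q) : G) ≠ 1 := fun e => hz (by
    apply Subtype.ext
    apply Subtype.ext
    exact e)
  have hzc : ∀ q : Q, (q : G) * ((z : Q) : G) = ((z : Q) : G) * (q : G) := by
    intro q
    exact congrArg Subtype.val (Subgroup.mem_center_iff.1 z.2 q)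
  have hzx : ((z : Q) : G) ∈ Subgroup.zpowers x := h.mem (hzc ⟨x, hxQ⟩).symm
  have hzP := zpowers_eq_of_mem h.hp h.card hzx hz1
  intro q hq
  apply h.mem
  have hxz : x ∈ Subgroup.zpowers ((z : Q) : G) := by rw [hzP]; exact Subgroup.mem_zpowers x
  obtain ⟨k, hk⟩ := Subgroup.mem_zpowers_iff.1 hxz
  have : Commute q (((z : Q) : G) ^ k) := Commute.zpow_right (hzc ⟨q, hq⟩) k
  rw [hk] at this
  exact this

/-- any element of order `p` is conjugate into `zpowers x` -/
theorem H.conj (h : H p x) {y : G} (hy : orderOf y = p) : ∃ g : G, g * y * g⁻¹ ∈ Subgroup.zpowers x := by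
  haveI := Fact.mk h.hp
  obtain ⟨Q, hQ⟩ := h.sylow
  have hP : IsPGroup p (Subgroup.zpowers y) := by
    apply IsPGroup.of_card (n := 1)
    rw [Nat.card_zpowers, hy, pow_one]
  obtain ⟨R, hR⟩ := hP.exists_le_sylow
  obtain ⟨g, hg⟩ := MulAction.exists_smul_eq G R Q
  refine ⟨g, ?_⟩
  rw [← hQ, ← hg]
  have : y ∈ (R : Subgroup G) := hR (Subgroup.mem_zpowers y)
  rw [Sylow.coe_subgroup_smul, Subgroup.mem_pointwise_smul_iff_inv_smul_mem]
  simpa [MulAut.smul_def, mul_assoc] using this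

theorem H.subgroup_conj (h : H p x) {K : Subgroup G} (hK : Nat.card K = p) :
    ∃ g : G, ∀ y ∈ K, g * y * g⁻¹ ∈ Subgroup.zpowers x := by
  haveI := Fact.mk h.hp
  obtain ⟨Q, hQ⟩ := h.sylow
  have hP : IsPGroup p K := by
    apply IsPGroup.of_card (n := 1)
    rw [hK, pow_one]
  obtain ⟨R, hR⟩ := hP.exists_le_sylow
  obtain ⟨g, hg⟩ := MulAction.exists_smul_eq G R Q
  refine ⟨g, fun y hy => ?_⟩
  rw [← hQ, ← hg]
  have : y ∈ (R : Subgroup G) := hR hy
  rw [Sylow.coe_subgroup_smul, Subgroup.mem_pointwise_smul_iff_inv_smul_mem]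
  simpa [MulAut.smul_def, mul_assoc] using this

theorem H.of_orderOf (h : H p x) {y : G} (hy : orderOf y = p) : H p y := by
  refine ⟨h.hp, hy, ?_⟩
  obtain ⟨g, hg⟩ := h.conj hy
  have hy1 : y ≠ 1 := by
    rintro rfl
    rw [orderOf_one] at hy
    exact h.hp.one_lt.ne hy
  have hne : g * y * g⁻¹ ≠ 1 := fun e => hy1 (by
    have : y = g⁻¹ * (g * y * g⁻¹) * g := by group
    rw [this, e]; group)
  have hz := zpowers_eq_of_mem h.hp h.card hg hne
  apply le_antisymm
  · intro u hu
    rw [Subgroup.mem_centralizer_singleton_iff] at hu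
    have hcomm : Commute (g * u * g⁻¹) (g * y * g⁻¹) := by
      change g * u * g⁻¹ * (g * y * g⁻¹) = g * y * g⁻¹ * (g * u * g⁻¹)
      calc g * u * g⁻¹ * (g * y * g⁻¹) = g * (u * y) * g⁻¹ := by group
        _ = g * (y * u) * g⁻¹ := by rw [hu]
        _ = _ := by group
    have hxz : x ∈ Subgroup.zpowers (g * y * g⁻¹) := by rw [hz]; exact Subgroup.mem_zpowers x
    obtain ⟨k, hk⟩ := Subgroup.mem_zpowers_iff.1 hxz
    have h2 : Commute (g * u * g⁻¹) x := by
      rw [← hk]; exact hcomm.zpow_right k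
    have h3 := h.mem h2
    rw [← hz] at h3
    obtain ⟨m, hm⟩ := Subgroup.mem_zpowers_iff.1 h3
    refine Subgroup.mem_zpowers_iff.2 ⟨m, ?_⟩
    have h4 : (g * y * g⁻¹) ^ m = g * y ^ m * g⁻¹ := by
      rw [conj_zpow]
    rw [h4] at hm
    exact mul_left_cancel (mul_right_cancel hm)
  · rw [Subgroup.zpowers_le, Subgroup.mem_centralizer_singleton_iff]

/-- centralizers of elements of order p have order p -/
theorem H.card_carrier (h : H p x) (C : ConjClasses G) (hC : ∃ g ∈ C.carrier, orderOf g = p) :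
    Nat.card C.carrier * p = Nat.card G := by
  obtain ⟨g, hg, hgo⟩ := hC
  have h1 := h.of_orderOf hgo
  have h2 : C = ConjClasses.mk g := (ConjClasses.mem_carrier_iff_mk_eq.1 hg).symm
  subst h2
  have h3 : (ConjClasses.mk g).carrier = MulAction.orbit (ConjAct G) g := by
    rw [ConjAct.orbit_eq_carrier_conjClasses]
  rw [h3]
  have h4 : (MulAction.stabilizer (ConjAct G) g).index = Nat.card (MulAction.orbit (ConjAct G) g) := by
    rw [MulAction.index_stabilizer, Nat.card_coe_set_eq]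
  have h5 : Nat.card (MulAction.stabilizer (ConjAct G) g) = p := by
    rw [ConjAct.stabilizer_eq_centralizer, ← h1.card, ← h1.hC]
    rfl
  rw [← h4, ← h5, mul_comm, Subgroup.card_mul_index]
  rfl

/-- the subgroups of order `p` are the Sylow `p`-subgroups -/
theorem H.card_subgroups (h : H p x) : Nat.card {K : Subgroup G // Nat.card K = p} =
    (Subgroup.normalizer (Subgroup.zpowers x : Set G)).index := by
  haveI := Fact.mk h.hp
  obtain ⟨Q, hQ⟩ := h.sylow
  have hi := Sylow.card_eq_index_normalizer Q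
  have hi' : (Subgroup.normalizer (Subgroup.zpowers x : Set G)).index = Nat.card (Sylow p G) := by
    rw [hi, ← hQ]
    rfl
  rw [hi']
  have hcQ : Nat.card Q = p := by
    have : Nat.card (Q : Subgroup G) = p := by rw [hQ]; exact h.card
    exact this
  have hc : ∀ R : Sylow p G, Nat.card (R : Subgroup G) = p := fun R =>
    (Nat.card_congr (Sylow.equiv R Q).toEquiv).trans hcQ
  refine Nat.card_congr ⟨fun K => ?_, fun R => ⟨R, hc R⟩, fun K => ?_, fun R => ?_⟩
  · have hP : IsPGroup p (K : Subgroup G) := by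
      apply IsPGroup.of_card (n := 1)
      rw [K.2, pow_one]
    exact hP.exists_le_sylow.choose
  · have hP : IsPGroup p (K : Subgroup G) := by
      apply IsPGroup.of_card (n := 1)
      rw [K.2, pow_one]
    apply Subtype.ext
    change ((hP.exists_le_sylow.choose : Sylow p G) : Subgroup G) = K
    symm
    apply Subgroup.eq_of_le_of_card_ge hP.exists_le_sylow.choose_spec
    rw [hc, K.2]
  · have hP : IsPGroup p (R : Subgroup G) := R.2
    apply Sylow.ext
    change ((hP.exists_le_sylow.choose : Sylow p G) : Subgroup G) = R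
    symm
    apply Subgroup.eq_of_le_of_card_ge hP.exists_le_sylow.choose_spec
    rw [hc, hc]

theorem card_gen (hp : p.Prime) (K : Subgroup G) (hK : Nat.card K = p) :
    Nat.card {g : {g : G // orderOf g = p} // Subgroup.zpowers (g : G) = K} = p - 1 := by
  classical
  haveI := Fintype.ofFinite K
  have e : {g : {g : G // orderOf g = p} // Subgroup.zpowers (g : G) = K} ≃ {k : K // k ≠ 1} := {
    toFun := fun g => ⟨⟨g.1.1, (Subgroup.zpowers_le.1 g.2.le)⟩, by
      intro e
      have e1 : g.1.1 = 1 := congrArg Subtype.val e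
      have e2 := g.1.2
      rw [e1, orderOf_one] at e2
      exact hp.one_lt.ne e2⟩
    invFun := fun k => ⟨⟨k.1.1, by
      have h1 : (k.1.1 : G) ≠ 1 := fun e => k.2 (Subtype.ext e)
      have h2 := zpowers_eq_of_mem hp hK k.1.2 h1
      rw [← Nat.card_zpowers, h2, hK]⟩, zpowers_eq_of_mem hp hK k.1.2 fun e => k.2 (Subtype.ext e)⟩
    left_inv := fun g => rfl
    right_inv := fun k => rfl }
  rw [Nat.card_congr e, Nat.card_eq_fintype_card, Fintype.card_subtype_compl]
  simp [← Nat.card_eq_fintype_card, hK]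

/-- the fundamental relation `t * e = p - 1` -/
theorem H.card_classes (h : H p x) :
    Nat.card {C : ConjClasses G // ∃ g ∈ C.carrier, orderOf g = p} *
      (Subgroup.zpowers x).relIndex (Subgroup.normalizer (Subgroup.zpowers x : Set G)) = p - 1 := by
  classical
  set N := Subgroup.normalizer (Subgroup.zpowers x : Set G) with hN
  have hPN : Subgroup.zpowers x ≤ N := Subgroup.le_normalizer
  set e := (Subgroup.zpowers x).relIndex N with he
  have hNe : p * e = Nat.card N := by
    rw [he, ← h.card]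
    exact Lib.Cores.card_mul_relIndex hPN
  have hpos : 0 < Nat.card G := Nat.card_pos
  -- count by subgroups
  have h1 : Nat.card {g : G // orderOf g = p} = N.index * (p - 1) := by
    rw [hN, ← h.card_subgroups]
    apply card_of_fiber (fun g : {g : G // orderOf g = p} =>
      (⟨Subgroup.zpowers (g : G), by rw [Nat.card_zpowers, g.2]⟩ : {K : Subgroup G // Nat.card K = p}))
    rintro ⟨K, hK⟩
    rw [← card_gen h.hp K hK]
    apply Nat.card_congr
    refine Equiv.subtypeEquivRight fun g => ?_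
    rw [Subtype.mk.injEq]
  -- count by classes
  have h2 : Nat.card {g : G // orderOf g = p} =
      Nat.card {C : ConjClasses G // ∃ g ∈ C.carrier, orderOf g = p} * (Nat.card G / p) := by
    apply card_of_fiber (fun g : {g : G // orderOf g = p} =>
      (⟨ConjClasses.mk (g : G), ⟨g, ConjClasses.mem_carrier_mk, g.2⟩⟩ :
        {C : ConjClasses G // ∃ g ∈ C.carrier, orderOf g = p}))
    rintro ⟨C, hC⟩
    rw [← h.card_carrier C hC, Nat.mul_div_cancel _ h.hp.pos]
    have e : {a : {g : G // orderOf g = p} // (⟨ConjClasses.mk (a : G), ⟨a, ConjClasses.mem_carrier_mk, a.2⟩⟩ :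
        {C : ConjClasses G // ∃ g ∈ C.carrier, orderOf g = p}) = ⟨C, hC⟩} ≃ C.carrier := {
      toFun := fun a => ⟨a.1.1, ConjClasses.mem_carrier_iff_mk_eq.2 (congrArg Subtype.val a.2)⟩
      invFun := fun c => ⟨⟨c.1, by
        obtain ⟨g, hg, hgo⟩ := hC
        have h3 : ConjClasses.mk g = ConjClasses.mk c.1 := by
          rw [ConjClasses.mem_carrier_iff_mk_eq.1 hg, ConjClasses.mem_carrier_iff_mk_eq.1 c.2]
        rw [ConjClasses.mk_eq_mk_iff_isConj, isConj_iff] at h3
        obtain ⟨u, hu⟩ := h3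
        rw [← hu, ← hgo]
        exact orderOf_injective (MulAut.conj u).toMonoidHom (MulAut.conj u).injective g⟩, by
          apply Subtype.ext
          exact ConjClasses.mem_carrier_iff_mk_eq.1 c.2⟩
      left_inv := fun a => rfl
      right_inv := fun c => rfl }
    exact Nat.card_congr e
  have h3 : Nat.card G / p = N.index * e := by
    rw [← Subgroup.card_mul_index N, ← hNe, mul_assoc, Nat.mul_div_cancel_left _ h.hp.pos, mul_comm]
  rw [h3] at h2
  have h4 : N.index * (p - 1) = N.index *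
    (Nat.card {C : ConjClasses G // ∃ g ∈ C.carrier, orderOf g = p} * e) := by
    rw [← h1, h2]; ring
  exact (Nat.eq_of_mul_eq_mul_left (Nat.pos_of_ne_zero Subgroup.index_ne_zero_of_finite) h4).symm

/-! ### normal subgroups of order divisible by p -/

/-- a normal subgroup of order divisible by `p` contains every element of order `p` -/
theorem H.mem_of_dvd (h : H p x) {S : Subgroup G} (hS : S.Normal) (hd : p ∣ Nat.card S) {y : G}
    (hy : orderOf y = p) : y ∈ S := by
  haveI := Fact.mk h.hp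
  obtain ⟨z, hz⟩ := exists_prime_orderOf_dvd_card' p hd
  have hz' : orderOf (z : G) = p := by rw [Subgroup.orderOf_coe]; exact hz
  have hyH := h.of_orderOf hy
  obtain ⟨g, hg⟩ := hyH.conj hz'
  have hgS : g * z * g⁻¹ ∈ S := hS.conj_mem _ z.2 g
  have hz1 : (z : G) ≠ 1 := by
    intro e
    rw [e, orderOf_one] at hz'
    exact h.hp.one_lt.ne hz'
  have hne : g * z * g⁻¹ ≠ 1 := fun e => hz1 (by
    have : (z : G) = g⁻¹ * (g * z * g⁻¹) * g := by group
    rw [this, e]; group)
  have := zpowers_eq_of_mem h.hp hyH.card hg hne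
  have hy' : y ∈ Subgroup.zpowers (g * z * g⁻¹) := by rw [this]; exact Subgroup.mem_zpowers y
  exact (Subgroup.zpowers_le.2 hgS) hy'

/-- elements of the normalizer commute modulo `zpowers x` -/
theorem H.commutator_mem (h : H p x) {n m : G}
    (hn : n ∈ Subgroup.normalizer (Subgroup.zpowers x : Set G))
    (hm : m ∈ Subgroup.normalizer (Subgroup.zpowers x : Set G)) : ⁅n, m⁆ ∈ Subgroup.zpowers x := by
  have key : ∀ n ∈ Subgroup.normalizer (Subgroup.zpowers x : Set G), ∃ a : ℤ, n * x * n⁻¹ = x ^ a := by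
    intro n hn
    have h1 : n * x * n⁻¹ ∈ (Subgroup.zpowers x : Set G) :=
      (Subgroup.mem_set_normalizer_iff.1 hn x).1 (Subgroup.mem_zpowers x)
    obtain ⟨a, ha⟩ := Subgroup.mem_zpowers_iff.1 h1
    exact ⟨a, ha.symm⟩
  apply h.mem
  obtain ⟨a, ha⟩ := key n⁻¹ (inv_mem hn)
  obtain ⟨b, hb⟩ := key m⁻¹ (inv_mem hm)
  have h1 : n⁻¹ * m⁻¹ * x * (n⁻¹ * m⁻¹)⁻¹ = m⁻¹ * n⁻¹ * x * (m⁻¹ * n⁻¹)⁻¹ := by
    calc n⁻¹ * m⁻¹ * x * (n⁻¹ * m⁻¹)⁻¹ = n⁻¹ * (m⁻¹ * x * m⁻¹⁻¹) * n⁻¹⁻¹ := by group
      _ = (n⁻¹ * x * n⁻¹⁻¹) ^ b := by rw [hb, conj_zpow]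
      _ = (m⁻¹ * x * m⁻¹⁻¹) ^ a := by rw [ha, hb, ← zpow_mul, ← zpow_mul, mul_comm]
      _ = m⁻¹ * (n⁻¹ * x * n⁻¹⁻¹) * m⁻¹⁻¹ := by rw [ha, conj_zpow]
      _ = _ := by group
  have h2 : ⁅n, m⁆ * x * ⁅n, m⁆⁻¹ = x := by
    calc ⁅n, m⁆ * x * ⁅n, m⁆⁻¹ = n * m * (n⁻¹ * m⁻¹ * x * (n⁻¹ * m⁻¹)⁻¹) * (n * m)⁻¹ := by
          rw [commutatorElement_def]; group
      _ = x := by rw [h1]; group
  calc ⁅n, m⁆ * x = (⁅n, m⁆ * x * ⁅n, m⁆⁻¹) * ⁅n, m⁆ := by group
    _ = x * ⁅n, m⁆ := by rw [h2]

/-- Frattini -/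
theorem H.sup_eq_top (h : H p x) {S : Subgroup G} (hS : S.Normal) (hd : p ∣ Nat.card S) :
    Subgroup.normalizer (Subgroup.zpowers x : Set G) ⊔ S = ⊤ := by
  haveI := Fact.mk h.hp
  obtain ⟨Q, hQ⟩ := h.sylow
  have hle : (Q : Subgroup G) ≤ S := by
    rw [hQ, Subgroup.zpowers_le]
    exact h.mem_of_dvd hS hd h.hx
  have := Sylow.normalizer_sup_eq_top' Q hle
  rw [← hQ]
  exact this

theorem H.commutator_le (h : H p x) {S : Subgroup G} (hS : S.Normal) (hd : p ∣ Nat.card S) :
    commutator G ≤ S := by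
  have htop := h.sup_eq_top hS hd
  have hxS : Subgroup.zpowers x ≤ S := Subgroup.zpowers_le.2 (h.mem_of_dvd hS hd h.hx)
  rw [commutator_def, Subgroup.commutator_le]
  intro g _ k _
  have hg : g ∈ Subgroup.normalizer (Subgroup.zpowers x : Set G) ⊔ S := by rw [htop]; trivial
  have hk : k ∈ Subgroup.normalizer (Subgroup.zpowers x : Set G) ⊔ S := by rw [htop]; trivial
  obtain ⟨n, hn, s, hs, rfl⟩ := Subgroup.mem_sup_of_normal_right.1 hg
  obtain ⟨m, hm, r, hr, rfl⟩ := Subgroup.mem_sup_of_normal_right.1 hk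
  have h1 : ⁅n, m⁆ ∈ S := hxS (h.commutator_mem hn hm)
  rw [← QuotientGroup.eq_one_iff] at h1 hs hr ⊢
  simp only [commutatorElement_def, QuotientGroup.mk_mul, QuotientGroup.mk_inv] at h1 ⊢
  rw [hs, hr, mul_one, mul_one]
  exact h1

theorem H.index_dvd (h : H p x) {S : Subgroup G} (hS : S.Normal) (hd : p ∣ Nat.card S) :
    S.index ∣ (Subgroup.zpowers x).relIndex (Subgroup.normalizer (Subgroup.zpowers x : Set G)) := by
  have htop := h.sup_eq_top hS hd
  have hxS : Subgroup.zpowers x ≤ S := Subgroup.zpowers_le.2 (h.mem_of_dvd hS hd h.hx)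
  rw [← Subgroup.relIndex_top_right, ← htop, sup_comm, Subgroup.relIndex_sup_left]
  exact Subgroup.relIndex_dvd_of_le_left _ hxS

/-! ### normal subgroups of order prime to p -/

theorem H.notMem (h : H p x) {S : Subgroup G} (hd : ¬ p ∣ Nat.card S) {y : G} (hy : y ∈ Subgroup.zpowers x)
    (hyS : y ∈ S) : y = 1 := by
  by_contra hne
  have h1 := zpowers_eq_of_mem h.hp h.card hy hne
  have h2 : Subgroup.zpowers x ≤ S := by rw [← h1]; exact Subgroup.zpowers_le.2 hyS
  apply hd
  rw [← h.card]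
  exact Subgroup.card_dvd_of_le h2

/-- every element of `S * x` is a conjugate `s * x * s⁻¹` -/
theorem H.exists_conj (h : H p x) {S : Subgroup G} (hS : S.Normal) (hd : ¬ p ∣ Nat.card S) {u : G}
    (hu : u ∈ S) : ∃ s ∈ S, s * x * s⁻¹ * x⁻¹ = u := by
  let f : S → S := fun s => ⟨s * x * (s : G)⁻¹ * x⁻¹, by
    have : (s : G) * (x * (s : G)⁻¹ * x⁻¹) ∈ S := mul_mem s.2 (hS.conj_mem _ (inv_mem s.2) x)
    simpa [mul_assoc] using this⟩
  have hf : Function.Injective f := by
    intro s r hsr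
    have h1 : (s : G) * x * (s : G)⁻¹ * x⁻¹ = r * x * (r : G)⁻¹ * x⁻¹ := congrArg Subtype.val hsr
    have h2 : (s : G) * x * (s : G)⁻¹ = r * x * (r : G)⁻¹ := mul_right_cancel h1
    have h3 : ((r : G)⁻¹ * s) ∈ Subgroup.zpowers x := by
      apply h.mem
      calc (r : G)⁻¹ * s * x = (r : G)⁻¹ * (s * x * (s : G)⁻¹) * s := by group
        _ = (r : G)⁻¹ * (r * x * (r : G)⁻¹) * s := by rw [h2]
        _ = x * ((r : G)⁻¹ * s) := by group
    have h4 := h.notMem hd h3 (mul_mem (inv_mem r.2) s.2)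
    apply Subtype.ext
    rw [inv_mul_eq_one] at h4
    exact h4.symm
  obtain ⟨s, hs⟩ := (Finite.injective_iff_surjective.1 hf) ⟨u, hu⟩
  exact ⟨s, s.2, congrArg Subtype.val hs⟩

theorem H.le_commutator (h : H p x) {S : Subgroup G} (hS : S.Normal) (hd : ¬ p ∣ Nat.card S) :
    S ≤ ⁅S, Subgroup.zpowers x⁆ := by
  intro u hu
  obtain ⟨s, hs, hsu⟩ := h.exists_conj hS hd hu
  rw [← hsu]
  exact Subgroup.commutator_mem_commutator hs (Subgroup.mem_zpowers x)

theorem H.le_commutator' (h : H p x) {S : Subgroup G} (hS : S.Normal) (hd : ¬ p ∣ Nat.card S) :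
    S ≤ commutator G :=
  (h.le_commutator hS hd).trans (Subgroup.commutator_mono le_top le_top)

theorem H.inf_normalizer (h : H p x) {S : Subgroup G} (hS : S.Normal) (hd : ¬ p ∣ Nat.card S) :
    S ⊓ Subgroup.normalizer (Subgroup.zpowers x : Set G) = ⊥ := by
  rw [eq_bot_iff]
  intro s hs
  obtain ⟨hs1, hs2⟩ := Subgroup.mem_inf.1 hs
  have h1 : s * x * s⁻¹ ∈ (Subgroup.zpowers x : Set G) :=
    (Subgroup.mem_set_normalizer_iff.1 hs2 x).1 (Subgroup.mem_zpowers x)
  have h2 : s * x * s⁻¹ * x⁻¹ ∈ Subgroup.zpowers x := mul_mem h1 (inv_mem (Subgroup.mem_zpowers x))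
  have h3 : s * x * s⁻¹ * x⁻¹ ∈ S := by
    have : s * (x * s⁻¹ * x⁻¹) ∈ S := mul_mem hs1 (hS.conj_mem _ (inv_mem hs1) x)
    simpa [mul_assoc] using this
  have h4 := h.notMem hd h2 h3
  have h5 : s ∈ Subgroup.zpowers x := by
    apply h.mem
    rw [mul_inv_eq_one, mul_inv_eq_iff_eq_mul] at h4
    exact h4
  exact Subgroup.mem_bot.2 (h.notMem hd h5 hs1)

theorem H.card_dvd_index (h : H p x) {S : Subgroup G} (hS : S.Normal) (hd : ¬ p ∣ Nat.card S) :
    Nat.card S ∣ (Subgroup.normalizer (Subgroup.zpowers x : Set G)).index := by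
  have hinf := h.inf_normalizer hS hd
  set N := Subgroup.normalizer (Subgroup.zpowers x : Set G) with hN
  have h1 : N.relIndex (S ⊔ N) ∣ N.index := ⟨(S ⊔ N).index, (Subgroup.relIndex_mul_index le_sup_right).symm⟩
  have h2 : Nat.card S = N.relIndex (S ⊔ N) := by
    have h3 := Lib.Cores.card_mul_relIndex (le_sup_right : N ≤ S ⊔ N)
    have h4 := Lib.Cores.card_mul_relIndex (le_sup_left : S ≤ S ⊔ N)
    rw [Subgroup.relIndex_sup_left, ← Subgroup.inf_relIndex_right, hinf, Subgroup.relIndex_bot_left,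
      ← h3, mul_comm] at h4
    exact Nat.eq_of_mul_eq_mul_left Nat.card_pos h4
  rw [h2]
  exact h1

theorem H.card_mod (h : H p x) {S : Subgroup G} (hS : S.Normal) (hd : ¬ p ∣ Nat.card S) :
    Nat.card S % p = 1 := by
  haveI := Fact.mk h.hp
  letI : MulAction (Subgroup.zpowers x) S :=
    MulAction.compHom S ((MulAut.conjNormal : G →* MulAut S).comp (Subgroup.zpowers x).subtype)
  have hP : IsPGroup p (Subgroup.zpowers x) := by
    apply IsPGroup.of_card (n := 1)
    rw [h.card, pow_one]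
  have h1 := hP.card_modEq_card_fixedPoints S
  have h2 : Nat.card (MulAction.fixedPoints (Subgroup.zpowers x) S) = 1 := by
    rw [Nat.card_eq_one_iff_unique]
    have hfix : ∀ s ∈ MulAction.fixedPoints (Subgroup.zpowers x) S, s = 1 := by
      intro s hs
      have h3 : (MulAut.conjNormal x : MulAut S) s = s := hs ⟨x, Subgroup.mem_zpowers x⟩
      have h4 : x * (s : G) * x⁻¹ = s := by
        rw [← MulAut.conjNormal_apply, h3]
      have h5 : (s : G) ∈ Subgroup.zpowers x := by
        apply h.mem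
        rw [mul_inv_eq_iff_eq_mul] at h4
        exact h4.symm
      exact Subtype.ext (h.notMem hd h5 s.2)
    refine ⟨⟨fun a b => Subtype.ext ((hfix a.1 a.2).trans (hfix b.1 b.2).symm)⟩, ⟨⟨1, ?_⟩⟩⟩
    intro m
    change (MulAut.conjNormal (m : G) : MulAut S) 1 = 1
    exact map_one _
  rw [h2] at h1
  rw [h1, Nat.mod_eq_of_lt h.hp.one_lt]

theorem H.quotient (h : H p x) {S : Subgroup G} (hS : S.Normal) (hd : ¬ p ∣ Nat.card S) :
    H p (QuotientGroup.mk x : G ⧸ S) := by
  haveI := Fact.mk h.hp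
  refine ⟨h.hp, ?_, ?_⟩
  · apply orderOf_eq_prime
    · rw [← QuotientGroup.mk_pow, ← h.hx, pow_orderOf_eq_one, QuotientGroup.mk_one]
    · intro e
      rw [QuotientGroup.eq_one_iff] at e
      exact h.ne_one (h.notMem hd (Subgroup.mem_zpowers x) e)
  · apply le_antisymm
    · intro g' hg
      obtain ⟨g, rfl⟩ := QuotientGroup.mk_surjective g'
      rw [Subgroup.mem_centralizer_singleton_iff, ← QuotientGroup.mk_mul, ← QuotientGroup.mk_mul] at hg
      have h1 : g * x * g⁻¹ * x⁻¹ ∈ S := by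
        rw [← QuotientGroup.eq_one_iff]
        have : g * x * g⁻¹ * x⁻¹ = (g * x) * (x * g)⁻¹ := by group
        rw [this, QuotientGroup.mk_mul, QuotientGroup.mk_inv, hg, mul_inv_cancel]
      obtain ⟨s, hs, hsu⟩ := h.exists_conj hS hd h1
      have h2 : s⁻¹ * g ∈ Subgroup.zpowers x := by
        apply h.mem
        have h3 : s * x * s⁻¹ = g * x * g⁻¹ := mul_right_cancel hsu
        calc s⁻¹ * g * x = s⁻¹ * (g * x * g⁻¹) * g := by group
          _ = s⁻¹ * (s * x * s⁻¹) * g := by rw [h3]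
          _ = x * (s⁻¹ * g) := by group
      have h4 : (QuotientGroup.mk g : G ⧸ S) = QuotientGroup.mk (s⁻¹ * g) := by
        rw [QuotientGroup.mk_mul, (QuotientGroup.eq_one_iff _).2 (inv_mem hs), one_mul]
      rw [h4]
      obtain ⟨k, hk⟩ := Subgroup.mem_zpowers_iff.1 h2
      rw [← hk]
      exact Subgroup.mem_zpowers_iff.2 ⟨k, (QuotientGroup.mk_zpow _ _ _).symm⟩
    · rw [Subgroup.zpowers_le, Subgroup.mem_centralizer_singleton_iff]

/-! ### `e = 1`: the normal complement -/

theorem H.exists_complement (h : H p x)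
    (he : (Subgroup.zpowers x).relIndex (Subgroup.normalizer (Subgroup.zpowers x : Set G)) = 1) :
    ∃ K : Subgroup G, K.Normal ∧ ¬ p ∣ Nat.card K ∧ Nat.card K * p = Nat.card G := by
  haveI := Fact.mk h.hp
  obtain ⟨Q, hQ⟩ := h.sylow
  have hN : Subgroup.normalizer (Subgroup.zpowers x : Set G) ≤ Subgroup.zpowers x := Subgroup.relIndex_eq_one.1 he
  have hC : Subgroup.normalizer ((Q : Subgroup G) : Set G) ≤ Subgroup.centralizer ((Q : Subgroup G) : Set G) := by
    rw [hQ]
    refine hN.trans ?_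
    intro u hu v hv
    obtain ⟨a, rfl⟩ := Subgroup.mem_zpowers_iff.1 hu
    obtain ⟨b, rfl⟩ := Subgroup.mem_zpowers_iff.1 hv
    rw [← zpow_add, ← zpow_add, add_comm]
  have hcomp := MonoidHom.ker_transferSylow_isComplement' Q hC
  refine ⟨(MonoidHom.transferSylow Q hC).ker, inferInstance, MonoidHom.not_dvd_card_ker_transferSylow Q hC, ?_⟩
  have := hcomp.card_mul_card
  have hc : Nat.card (Q : Subgroup G) = p := by rw [hQ]; exact h.card
  rw [hc] at this
  exact this

/-- the subgroup `zpowers x` lies in `G'` if `e ≠ 1` -/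
theorem H.mem_commutator (h : H p x)
    (he : (Subgroup.zpowers x).relIndex (Subgroup.normalizer (Subgroup.zpowers x : Set G)) ≠ 1) :
    x ∈ commutator G := by
  have hN : ¬ Subgroup.normalizer (Subgroup.zpowers x : Set G) ≤ Subgroup.zpowers x :=
    fun e => he (Subgroup.relIndex_eq_one.2 e)
  obtain ⟨n, hn, hnP⟩ := SetLike.not_le_iff_exists.1 hN
  have h1 : n * x * n⁻¹ ∈ (Subgroup.zpowers x : Set G) :=
    (Subgroup.mem_set_normalizer_iff.1 hn x).1 (Subgroup.mem_zpowers x)
  have h2 : ⁅n, x⁆ ∈ Subgroup.zpowers x := by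
    rw [commutatorElement_def]
    exact mul_mem h1 (inv_mem (Subgroup.mem_zpowers x))
  have h3 : ⁅n, x⁆ ≠ 1 := by
    intro e
    rw [commutatorElement_eq_one_iff_mul_comm] at e
    exact hnP (h.mem e)
  have h4 := zpowers_eq_of_mem h.hp h.card h2 h3
  have h5 : x ∈ Subgroup.zpowers ⁅n, x⁆ := by rw [h4]; exact Subgroup.mem_zpowers x
  refine (Subgroup.zpowers_le.2 ?_) h5
  exact Subgroup.commutator_mem_commutator (Subgroup.mem_top _) (Subgroup.mem_top _)

theorem H.dvd_card (h : H p x) {S : Subgroup G} (hx : x ∈ S) : p ∣ Nat.card S := by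
  have h1 : Subgroup.zpowers x ≤ S := Subgroup.zpowers_le.2 hx
  have := Subgroup.card_dvd_of_le h1
  rwa [h.card] at this

theorem H.commutator_eq (h : H p x)
    (he : (Subgroup.zpowers x).relIndex (Subgroup.normalizer (Subgroup.zpowers x : Set G)) = 1) :
    ¬ p ∣ Nat.card (commutator G) ∧ Nat.card (commutator G) * p = Nat.card G := by
  haveI := Fact.mk h.hp
  obtain ⟨K, hKn, hKd, hKc⟩ := h.exists_complement he
  have h1 : K ≤ commutator G := h.le_commutator' hKn hKd
  have h2 : commutator G ≤ K := by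
    have hidx : K.index = p := by
      have := Subgroup.card_mul_index K
      rw [← hKc] at this
      exact Nat.eq_of_mul_eq_mul_left Nat.card_pos this
    have hq : Nat.card (G ⧸ K) = p := by rw [← Subgroup.index_eq_card]; exact hidx
    haveI : IsCyclic (G ⧸ K) := isCyclic_of_prime_card hq
    have hcomm : ∀ a b : G ⧸ K, a * b = b * a := by
      intro a b
      letI := IsCyclic.commGroup (α := G ⧸ K)
      exact mul_comm a b
    rw [_root_.commutator_def, Subgroup.commutator_le]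
    intro g _ k _
    rw [← QuotientGroup.eq_one_iff]
    simp only [commutatorElement_def, QuotientGroup.mk_mul, QuotientGroup.mk_inv]
    rw [hcomm (QuotientGroup.mk g : G ⧸ K) (QuotientGroup.mk k : G ⧸ K)]
    group
  have h3 := le_antisymm h1 h2
  rw [← h3]
  exact ⟨hKd, hKc⟩

theorem H.commutator_index (h : H p x)
    (he : (Subgroup.zpowers x).relIndex (Subgroup.normalizer (Subgroup.zpowers x : Set G)) = 1) :
    (commutator G).index = p := by
  have h1 := (h.commutator_eq he).2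
  rw [← Subgroup.card_mul_index (commutator G)] at h1
  exact (Nat.eq_of_mul_eq_mul_left Nat.card_pos h1).symm

/-- `t = p - 1` iff `e = 1` -/
theorem H.eq_iff (h : H p x) {t : ℕ} (ht : Nat.card {C : ConjClasses G // ∃ g ∈ C.carrier, orderOf g = p} = t) :
    t = p - 1 ↔ (Subgroup.zpowers x).relIndex (Subgroup.normalizer (Subgroup.zpowers x : Set G)) = 1 := by
  have h1 := h.card_classes
  rw [ht] at h1
  have hp : 0 < p - 1 := Nat.sub_pos_of_lt h.hp.one_lt
  constructor
  · intro e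
    rw [e] at h1
    exact Nat.eq_of_mul_eq_mul_left hp (by rw [h1, mul_one])
  · intro e
    rw [e, mul_one] at h1
    exact h1

theorem H.coprime (h : H p x) {S : Subgroup G} (hd : ¬ p ∣ Nat.card S) : (Nat.card S).Coprime p :=
  ((Nat.Prime.coprime_iff_not_dvd h.hp).2 hd).symm

theorem H.not_dvd_core (h : H p x) : ¬ p ∣ Nat.card (pPrimeCore p G) := by
  have := Lib.Cores.coprime_card_pPrimeCore p G
  exact (Nat.Prime.coprime_iff_not_dvd h.hp).1 this.symm

end Cfsg.Agent.Lib.SelfCentPrime
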