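import Mathlib
import Cfsg.Agent.Lib.Sesq14
import Cfsg.Agent.Lib.JordanNil2
import Cfsg.Agent.Lib.ElusiveUni

/-! Nondegenerate homogeneous Jordan blocks of unipotent isometries of alternating forms. (helper99) -/

set_option autoImplicit false

namespace Cfsg.Agent.Lib.Sesq

open Module Cfsg.Agent.Lib.InvSub Cfsg.Agent.Lib.JordanNil

variable {F V : Type*} [Field F] [AddCommGroup V] [Module F V] {B : V →ₗ[F] V →ₗ[F] F}

section basic
variable {T : Module.End F V}

lemma iso_N (hT : Iso (σ := RingHom.id F) B T) (x y : V) : B (T x) ((T - 1) y) = - B ((T - 1) x) y := by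
  rw [LinearMap.sub_apply, LinearMap.sub_apply, Module.End.one_apply, Module.End.one_apply, map_sub, hT x y, map_sub, LinearMap.sub_apply]
  ring

lemma comm_TN (j k : ℕ) (x : V) : (T ^ j) (((T - 1) ^ k) x) = ((T - 1) ^ k) ((T ^ j) x) := by
  have h : Commute (T ^ j) ((T - 1) ^ k) := ((Commute.refl T).sub_right (Commute.one_right T)).pow_pow j k
  exact congrArg (fun f : Module.End F V => f x) h.eq

lemma iso_N_pow (hT : Iso (σ := RingHom.id F) B T) (j : ℕ) (x y : V) :
    B ((T ^ j) x) (((T - 1) ^ j) y) = (-1) ^ j * B (((T - 1) ^ j) x) y := by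
  induction j generalizing x y with
  | zero => simp
  | succ j ih =>
    have h1 : (T ^ (j + 1)) x = T ((T ^ j) x) := by rw [pow_succ', Module.End.mul_apply]
    have h2 : ((T - 1) ^ (j + 1)) y = (T - 1) (((T - 1) ^ j) y) := by rw [pow_succ', Module.End.mul_apply]
    have h3 : ((T - 1) ^ (j + 1)) x = ((T - 1) ^ j) ((T - 1) x) := by rw [pow_succ, Module.End.mul_apply]
    have h4 : (T - 1) ((T ^ j) x) = (T ^ j) ((T - 1) x) := by
      have := comm_TN (T := T) j 1 x
      rw [pow_one] at this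
      exact this.symm
    rw [h1, h2, iso_N hT, h4, ih, h3]
    ring

variable {W : Submodule F V} {k : ℕ}

lemma exists_pre [FiniteDimensional F V] (hnd : ND (σ := RingHom.id F) B ⊤) (hT : Iso (σ := RingHom.id F) B T) (hW : Inv T W)
    (j : ℕ) {x : V} (hx : x ∈ W) : ∃ x' ∈ W, (T ^ j) x' = x := by
  induction j generalizing x with
  | zero => exact ⟨x, hx, rfl⟩
  | succ j ih =>
    have h1 := hT.map_eq hnd hW
    rw [← h1] at hx
    obtain ⟨y, hy, rfl⟩ := hx
    obtain ⟨x', hx', rfl⟩ := ih hy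
    exact ⟨x', hx', by rw [pow_succ', Module.End.mul_apply]⟩

/-- the form on the top layer -/
lemma top_eq [FiniteDimensional F V] (hnd : ND (σ := RingHom.id F) B ⊤) (hT : Iso (σ := RingHom.id F) B T) (hW : Inv T W)
    (hN : ∀ x ∈ W, ((T - 1) ^ k) x = 0) {a b : ℕ} (hab : a + b + 1 = k) {x y : V} (hx : x ∈ W) :
    B (((T - 1) ^ a) x) (((T - 1) ^ b) y) = (-1) ^ b * B (((T - 1) ^ (k - 1)) x) y := by
  obtain ⟨x', hx', rfl⟩ := exists_pre hnd hT hW b hx
  have h1 : ((T - 1) ^ a) ((T ^ b) x') = (T ^ b) (((T - 1) ^ a) x') := (comm_TN b a x').symm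
  have h2 : ((T - 1) ^ (k - 1)) ((T ^ b) x') = ((T - 1) ^ (k - 1)) x' := by
    rw [← comm_TN]
    have h3 : ∀ z : V, (T - 1) z = 0 → ∀ j : ℕ, (T ^ j) z = z := by
      intro z hz j
      have hz' : T z = z := by
        rw [LinearMap.sub_apply, Module.End.one_apply, sub_eq_zero] at hz
        exact hz
      induction j with
      | zero => rfl
      | succ j ih => rw [pow_succ, Module.End.mul_apply, hz', ih]
    apply h3
    rw [← Module.End.mul_apply, ← pow_succ', show k - 1 + 1 = k by omega]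
    exact hN x' hx'
  rw [h1, iso_N_pow hT, h2, ← Module.End.mul_apply, ← pow_add, show b + a = k - 1 by omega]

end basic

section layers

/-- combination map -/
noncomputable def ph (N : Module.End F V) (X : Submodule F V) (k j : ℕ) : (Fin k → X) →ₗ[F] V :=
  ∑ a : Fin k, (N ^ ((a : ℕ) + j)) ∘ₗ X.subtype ∘ₗ LinearMap.proj a

lemma ph_apply (N : Module.End F V) (X : Submodule F V) (k j : ℕ) (x : Fin k → X) :
    ph N X k j x = ∑ a : Fin k, (N ^ ((a : ℕ) + j)) (x a : V) := by
  simp [ph, LinearMap.sum_apply]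

/-- the block generated by a space -/
def gen (N : Module.End F V) (X : Submodule F V) (k : ℕ) : Submodule F V := ⨆ a ∈ Finset.range k, X.map (N ^ a)

variable {N : Module.End F V} {X W : Submodule F V} {k : ℕ}

lemma map_le_gen {a : ℕ} (ha : a < k) : X.map (N ^ a) ≤ gen N X k :=
  le_iSup₂_of_le a (Finset.mem_range.mpr ha) le_rfl

lemma gen_map (hX : X ≤ W) (hN : ∀ x ∈ W, (N ^ k) x = 0) (j : ℕ) :
    (gen N X k).map (N ^ j) = LinearMap.range (ph N X (k - j) j) := by
  apply le_antisymm
  · rw [gen, Submodule.map_iSup]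
    apply iSup_le
    intro a
    rw [Submodule.map_iSup]
    apply iSup_le
    intro _
    rintro _ ⟨_, ⟨x, hx, rfl⟩, rfl⟩
    by_cases h : a < k - j
    · refine ⟨Pi.single ⟨a, h⟩ ⟨x, hx⟩, ?_⟩
      rw [ph_apply, Finset.sum_eq_single ⟨a, h⟩]
      · rw [Pi.single_eq_same, ← Module.End.mul_apply, ← pow_add, add_comm]
      · intro b _ hb
        rw [Pi.single_eq_of_ne hb]; simp
      · intro h'; exact absurd (Finset.mem_univ _) h'
    · have : (N ^ j) ((N ^ a) x) = 0 := by
        rw [← Module.End.mul_apply, ← pow_add]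
        obtain ⟨c, hc⟩ := Nat.exists_eq_add_of_le (show k ≤ j + a by omega)
        rw [hc, add_comm k c, pow_add, Module.End.mul_apply, hN x (hX hx), map_zero]
      rw [this]; exact Submodule.zero_mem _
  · rintro _ ⟨x, rfl⟩
    rw [ph_apply]
    apply Submodule.sum_mem
    intro a _
    refine ⟨(N ^ (a : ℕ)) (x a : V), map_le_gen (by omega) ⟨_, (x a).2, rfl⟩, ?_⟩
    rw [← Module.End.mul_apply, ← pow_add, add_comm]

lemma gen_inv (hX : X ≤ W) (hN : ∀ x ∈ W, (N ^ k) x = 0) : Inv N (gen N X k) := by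
  rw [inv_iff_map_le]
  rw [gen, Submodule.map_iSup]
  apply iSup_le
  intro a
  rw [Submodule.map_iSup]
  apply iSup_le
  intro ha
  rw [Finset.mem_range] at ha
  rintro _ ⟨_, ⟨x, hx, rfl⟩, rfl⟩
  by_cases h : a + 1 < k
  · rw [← Module.End.mul_apply, ← pow_succ']
    exact map_le_gen h ⟨x, hx, rfl⟩
  · have : N ((N ^ a) x) = 0 := by
      rw [← Module.End.mul_apply, ← pow_succ', show a + 1 = k by omega]
      exact hN x (hX hx)
    rw [this]; exact Submodule.zero_mem _

lemma le_gen (hk : 0 < k) : X ≤ gen N X k := by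
  have := map_le_gen (N := N) (X := X) hk
  rwa [pow_zero, Module.End.one_eq_id, Submodule.map_id] at this

lemma gen_le (hX : X ≤ W) (hW : Inv N W) : gen N X k ≤ W := by
  apply iSup₂_le
  intro a _
  exact (Submodule.map_mono hX).trans (map_pow_le hW a)

/-- the key triangularity argument -/
lemma ph_zero (hX : X ≤ W) (hN : ∀ x ∈ W, (N ^ k) x = 0)
    (hβ : ∀ x ∈ X, (∀ y ∈ X, B ((N ^ (k - 1)) x) y = 0) → x = 0) {R : Submodule F V} (hR : Inv N R)
    (hRX : ∀ u ∈ R, ∀ y ∈ X, B u y = 0) {k' j : ℕ} (hk : k' + j = k) {x : Fin k' → X} (hx : ph N X k' j x ∈ R) : x = 0 := by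
  have key : ∀ (a : ℕ) (ha : a < k'), x ⟨a, ha⟩ = 0 := by
    intro a
    induction a using Nat.strong_induction_on with
    | _ a ih =>
      intro ha
      have h1 : (N ^ (k' - 1 - a)) (ph N X k' j x) = (N ^ (k - 1)) (x ⟨a, ha⟩ : V) := by
        rw [ph_apply, map_sum, Finset.sum_eq_single ⟨a, ha⟩]
        · rw [← Module.End.mul_apply, ← pow_add]
          congr 2
          change k' - 1 - a + (a + j) = k - 1
          omega
        · rintro ⟨b, hb⟩ _ hne
          have hne' : b ≠ a := fun h => hne (Fin.ext h)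
          rcases lt_or_gt_of_ne hne' with h | h
          · rw [ih b h hb]; simp
          · rw [← Module.End.mul_apply, ← pow_add]
            obtain ⟨c, hc⟩ := Nat.exists_eq_add_of_le (show k ≤ k' - 1 - a + (b + j) by omega)
            change (N ^ (k' - 1 - a + (b + j))) _ = 0
            rw [hc, add_comm k c, pow_add, Module.End.mul_apply, hN _ (hX (x _).2), map_zero]
        · intro h; exact absurd (Finset.mem_univ _) h
      have h2 : (N ^ (k - 1)) (x ⟨a, ha⟩ : V) ∈ R := by
        rw [← h1]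
        exact map_pow_le hR _ ⟨_, hx, rfl⟩
      apply Subtype.ext
      exact hβ _ (x ⟨a, ha⟩).2 (fun y hy => hRX _ h2 y hy)
  funext a
  exact key a a.2

theorem gen_typ [FiniteDimensional F V] (hX : X ≤ W) (hN : ∀ x ∈ W, (N ^ k) x = 0) (hk : 0 < k)
    (hβ : ∀ x ∈ X, (∀ y ∈ X, B ((N ^ (k - 1)) x) y = 0) → x = 0) : Typ N (gen N X k) (Multiset.replicate (finrank F X) k) := by
  refine ⟨?_, fun j => ?_⟩
  · intro h
    have := Multiset.eq_of_mem_replicate h
    omega
  · rw [gen_map hX hN, Multiset.map_replicate, Multiset.sum_replicate, smul_eq_mul]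
    rcases Nat.lt_or_ge k j with h | h
    · have h0 : k - j = 0 := by omega
      rw [h0, mul_zero]
      have : ph N X 0 j = 0 := by
        apply LinearMap.ext; intro x; rw [ph_apply]; simp
      rw [this, LinearMap.range_zero, finrank_bot]
    · have hinj : Function.Injective (ph N X (k - j) j) := by
        rw [← LinearMap.ker_eq_bot, LinearMap.ker_eq_bot']
        intro x hx
        exact ph_zero (B := B) (R := ⊥) (k := k) (k' := k - j) (j := j) hX hN hβ (by intro u hu; rw [(Submodule.mem_bot F).mp hu, map_zero]; exact Submodule.zero_mem _)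
          (fun u hu y _ => by rw [(Submodule.mem_bot F).mp hu, map_zero, LinearMap.zero_apply]) (by omega) (by rw [hx]; exact Submodule.zero_mem _)
      rw [LinearMap.finrank_range_of_inj hinj, Module.finrank_pi_fintype]
      simp [mul_comm]

end layers

section nd

variable {T : Module.End F V} {W X : Submodule F V} {k : ℕ}

theorem gen_nd [FiniteDimensional F V] (hB : Alt B) (hnd : ND (σ := RingHom.id F) B ⊤) (hT : Iso (σ := RingHom.id F) B T)
    (hX : X ≤ W) (hN : ∀ x ∈ W, ((T - 1) ^ k) x = 0) (hk : 0 < k)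
    (hβ : ∀ x ∈ X, (∀ y ∈ X, B (((T - 1) ^ (k - 1)) x) y = 0) → x = 0) :
    Inv T (gen (T - 1) X k) ∧ ND (σ := RingHom.id F) B (gen (T - 1) X k) := by
  have hinvN := gen_inv hX hN
  have hiff : ∀ R : Submodule F V, Inv (T - 1) R ↔ Inv T R := by
    intro R
    have := ElusiveUni.inv_sub_smul_iff (T := T) (y := (1 : F)) (W := R)
    rwa [one_smul] at this
  have hinv := (hiff _).mp hinvN
  refine ⟨hinv, ?_⟩
  rw [nd_iff hB.refl, eq_bot_iff]
  intro u hu
  have hR : Inv (T - 1) (gen (T - 1) X k ⊓ perp (σ := RingHom.id F) B (gen (T - 1) X k)) :=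
    (hiff _).mpr (inv_inf hinv (hT.inv_perp hnd hinv))
  have h1 := gen_map hX hN 0
  have hmid : ∀ S : Submodule F V, S.map (1 : Module.End F V) = S := fun S => Submodule.map_id S
  rw [pow_zero, hmid, Nat.sub_zero] at h1
  have h2 := hu.1
  rw [h1] at h2
  obtain ⟨x, hx⟩ := h2
  have h3 : x = 0 := ph_zero (B := B) hX hN hβ hR (fun u hu y hy => hB.refl _ _ (hu.2 y (le_gen hk hy))) (add_zero k) (by
    rw [hx]; exact hu)
  rw [Submodule.mem_bot, ← hx, h3, map_zero]

end nd

end Cfsg.Agent.Lib.Sesq
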