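import Mathlib

set_option autoImplicit false

namespace Cfsg.Agent.Lib.Shintani

variable {X : Type*} [Group X]

theorem pow_comm_apply (σ : MulAut X) (e : ℕ) (y : X) : (σ ^ e) (σ y) = σ ((σ ^ e) y) := by
  have h : (σ ^ e * σ) y = (σ * σ ^ e) y := by rw [← pow_succ, ← pow_succ']
  exact h

theorem fixed_pow (σ : MulAut X) (e : ℕ) (x : X) (h : σ x = x) : (σ ^ e) x = x := by
  induction e with
  | zero => rfl
  | succ n ih =>
    have : (σ ^ (n+1)) x = (σ ^ n) (σ x) := by rw [pow_succ]; rfl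
    rw [this, h, ih]

theorem x_fixed (σ : MulAut X) (e : ℕ) (a : X) (hg : (σ ^ e) (a * (σ a)⁻¹) = a * (σ a)⁻¹) :
    σ (((σ ^ e) a)⁻¹ * a) = ((σ ^ e) a)⁻¹ * a := by
  simp only [map_mul, map_inv] at hg ⊢
  rw [pow_comm_apply] at hg
  have h2 : (σ ((σ ^ e) a))⁻¹ = ((σ ^ e) a)⁻¹ * (a * (σ a)⁻¹) := by rw [← hg]; group
  rw [h2]; group

theorem norm_eq (σ : MulAut X) (d : ℕ) (a : X) :
    ((List.range d).map (fun i => (σ ^ i) (a * (σ a)⁻¹))).prod = a * ((σ ^ d) a)⁻¹ := by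
  induction d with
  | zero => simp
  | succ n ih =>
    rw [List.range_succ, List.map_append, List.prod_append, ih]
    simp only [List.map_cons, List.map_nil, List.prod_cons, List.prod_nil, mul_one, map_mul, map_inv]
    have : (σ ^ (n+1)) a = (σ ^ n) (σ a) := by rw [pow_succ]; rfl
    rw [this]; group

theorem pow_apply (σ : MulAut X) (e d : ℕ) (a x : X) (hx : (σ ^ e) x = x)
    (ha : (σ ^ e) a = a * x⁻¹) : ((σ ^ d) ^ e) a = a * (x ^ d)⁻¹ := by
  rw [← pow_mul, mul_comm, pow_mul]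
  induction d with
  | zero => simp
  | succ n ih =>
    have : ((σ ^ e) ^ (n+1)) a = (σ ^ e) (((σ ^ e) ^ n) a) := by rw [pow_succ']; rfl
    rw [this, ih, map_mul, map_inv, map_pow, hx, ha, pow_succ]; group


end Cfsg.Agent.Lib.Shintani
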