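import Cfsg.Agent.Lib.ShultGross
import Cfsg.Agent.Lib.FitRed
import Cfsg.Agent.Lib.FpfCop
import Cfsg.Agent.Lib.ClosedRep
import Cfsg.Agent.Lib.S3Fpf2

/-!
The Shult–Gross theorem for cyclic groups of order `p^n`, `p` odd (helper59).
-/

set_option autoImplicit false

namespace Cfsg.Agent.Lib.ShultGross2

open Module Subgroup Cfsg Cfsg.Agent.Lib.ActSemi Cfsg.Agent.Lib.SubgroupTools
open scoped commutatorElement

universe u v w

section Rep

variable {A : Type v} [Group A] [Fintype A]

theorem fixed_of_rep {σ : A} (hgen : ∀ a : A, a ∈ zpowers σ) {p n : ℕ} (hp : p.Prime)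
    (hp2 : p ≠ 2) (hn : 0 < n) (ho : orderOf σ = p ^ n) {Q : Type u} [Group Q] [Finite Q] {q : ℕ}
    (hq : q.Prime) (hqp : q ≠ p) (hQ : IsPGroup q Q) (φ : A →* MulAut Q)
    (hfix : ∀ g, φ σ g = g → g = 1) {k : Type w} [Field k] [IsAlgClosed k]
    {W : Type*} [AddCommGroup W] [Module k W] [FiniteDimensional k W]
    (hkq : (q : k) ≠ 0) (hkp : (p : k) ≠ 0)
    (h : Q →* Module.End k W) (s : A →* Module.End k W) (hinj : ∀ g, h g = 1 → g = 1)
    (hsh : ∀ a g, s a * h g = h (φ a g) * s a) (hsum : ∑ a, s a = 0) :
    ∀ x, φ (σ ^ p ^ (n - 1)) x = x := by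
  classical
  have hqf := Fact.mk hq
  obtain ⟨H, hH1, hH2⟩ := Ward2.exists_lift φ h s hsh
  have hKGn := KG_normal φ
  have hfin : Fintype (KA φ) := Fintype.ofFinite _
  have hmain := ShultGross.le_centralizer_of_cyclic (Γ := Q ⋊[φ] A) H (SemidirectProduct.inr σ)
    (KA φ) (by
      apply le_antisymm
      · rintro _ ⟨a, rfl⟩
        obtain ⟨i, rfl⟩ := mem_zpowers_iff.1 (hgen a)
        rw [map_zpow]
        exact zpow_mem (mem_zpowers _) i
      · rw [zpowers_le]
        exact ⟨σ, rfl⟩) hp hp2 hn (by
      rw [orderOf_injective _ (SemidirectProduct.inr_injective (φ := φ)), ho])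
    (by
      intro w
      have h1 : ∑ a : KA φ, H (a : Q ⋊[φ] A) w = ∑ a : A, s a w := by
        let e : A ≃ KA φ := (MonoidHom.ofInjective
          (SemidirectProduct.inr_injective (φ := φ))).toEquiv
        have he : ∀ a : A, ((e a : KA φ) : Q ⋊[φ] A) = SemidirectProduct.inr a := fun a => rfl
        symm
        exact Fintype.sum_equiv e (fun a : A => s a w) (fun a : KA φ => H (a : Q ⋊[φ] A) w)
          (fun a => by rw [he, hH2])
      rw [h1]
      have h3 := congrArg (fun f : Module.End k W => f w) hsum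
      simpa [LinearMap.sum_apply] using h3)
    hq hqp hkq hkp (Nat.card (KG φ)) (KG φ) (by rw [normalizer_eq_top]; exact le_top)
    (by
      obtain ⟨m, hm⟩ := IsPGroup.iff_card.1 hQ
      exact IsPGroup.of_card (by rw [card_KG, hm]))
    (by
      rintro _ ⟨x, rfl⟩ hx
      rw [hH1] at hx
      rw [hinj x hx, map_one])
    (by
      rw [eq_bot_iff]
      rintro _ ⟨⟨x, rfl⟩, hx⟩
      rw [mem_bot]
      have : x = 1 := by
        apply hfix
        have h2 := mem_centralizer_iff.1 hx (SemidirectProduct.inr σ) ⟨σ, rfl⟩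
        apply SemidirectProduct.inl_injective (φ := φ)
        rw [← conj_inl, h2]
        group
      rw [this, map_one]) le_rfl
  intro x
  have h1 := mem_centralizer_singleton_iff.1 (hmain ⟨x, rfl⟩)
  apply SemidirectProduct.inl_injective (φ := φ)
  rw [← conj_inl, map_pow, ← h1, mul_inv_cancel_right]

end Rep

theorem key {A : Type v} [Group A] [Fintype A] {σ : A} (hgen : ∀ a : A, a ∈ zpowers σ) {p n : ℕ}
    (hp : p.Prime) (hp2 : p ≠ 2) (hn : 0 < n) (ho : orderOf σ = p ^ n) :
    ∀ N : ℕ, ∀ (G : Type u) [Group G] [Finite G] (_ : Group.IsSolvable G)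
    (φ : A →* MulAut G) (_ : ∀ g : G, φ σ g = g → g = 1), Nat.card G ≤ N →
    ∀ g, g⁻¹ * φ (σ ^ p ^ (n - 1)) g ∈ fittingSubgroup G := by
  intro N
  induction N with
  | zero =>
    intro G _ _ _ φ _ hcard
    exact absurd hcard (by have := Nat.card_pos (α := G); omega)
  | succ N ih =>
    intro G _ _ hG φ hfpf hcard
    have hpf := Fact.mk hp
    set τ : A := σ ^ p ^ (n - 1) with hτ
    have hτp : τ ^ p = 1 := (ShultGross.order_pow_prime hp hn ho).1
    have hAc : Nat.card A = p ^ n := by
      rw [← ho]
      exact (orderOf_eq_card_of_forall_mem_zpowers hgen).symm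
    have hAp : IsPGroup p A := IsPGroup.of_card hAc
    have hfix' : ∀ (L : Type u) [Group L] (ψ : A →* MulAut L), (∀ g : L, ψ σ g = g → g = 1) →
        ∀ g, (∀ a, ψ a g = g) → g = 1 := fun L _ ψ h g hg => h g (hg σ)
    have hndvd : ¬ p ∣ Nat.card G := FpfCop.not_dvd_of_fpf φ hAp (hfix' G φ hfpf)
    by_contra hnot
    have hinv : ∀ N : Subgroup G, N.Characteristic → ∀ a, ∀ x ∈ N, φ a x ∈ N := fun N hNc a x hx =>
      (Subgroup.characteristic_iff_le_comap.1 hNc (φ a)) hx
    have hquot : ∀ M : Subgroup G, ∀ [M.Normal], M.Characteristic → M ≠ ⊥ →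
        ∀ ψ : A →* MulAut (G ⧸ M), (∀ a (g : G), ψ a (g : G ⧸ M) = ((φ a g : G) : G ⧸ M)) →
        ∀ g, g⁻¹ * ψ τ g ∈ fittingSubgroup (G ⧸ M) := by
      intro M _ hMc hMb ψ hψ
      refine ih (G ⧸ M) inferInstance ψ
        (FpfQuot.quot_fpf (φ σ) hfpf M (hinv M hMc σ) (ψ σ) (hψ σ)) ?_
      have h1 := M.card_eq_card_quotient_mul_card_subgroup
      have h2 : 1 < Nat.card M := by
        rw [Subgroup.one_lt_card_iff_ne_bot]; exact hMb
      have h3 : 0 < Nat.card (G ⧸ M) := Nat.card_pos
      nlinarith
    obtain ⟨r, hr, hFr, hPp, hPb, hPc, hPexp, -, hcent⟩ := FitRed.fit_red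
      (fun M : Subgroup G => ∀ g, g⁻¹ * φ τ g ∈ M) (fun g => trivial)
      (fun M M' _ _ hMN hM g => hMN (hM g)) (fun M M' _ _ hM hM' g => mem_inf.2 ⟨hM g, hM' g⟩)
      (by
        intro M hMc hMb
        have hMn : M.Normal := inferInstance
        obtain ⟨ψ, hψ⟩ := ActRep.exists_quot φ M (hinv M hMc)
        have h1 := hquot M hMc hMb ψ hψ
        have hFn : (fittingSubgroup (G ⧸ M)).Normal := Fitting.normal_fittingSubgroup
        refine ⟨(fittingSubgroup (G ⧸ M)).comap (QuotientGroup.mk' M), inferInstance, ?_, ?_, ?_⟩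
        · have h2 := MonoidHom.ker_le_comap (QuotientGroup.mk' M) (fittingSubgroup (G ⧸ M))
          rwa [QuotientGroup.ker_mk'] at h2
        · intro g
          have h2 := h1 (g : G ⧸ M)
          rw [hψ] at h2
          exact h2
        · have h2 : Group.IsNilpotent (fittingSubgroup (G ⧸ M)) := Fitting.isNilpotent_fittingSubgroup
          rw [Subgroup.isNilpotent_iff_lowerCentralSeries] at h2
          obtain ⟨i, hi⟩ := h2
          refine ⟨i, ?_⟩
          have h3 : (((fittingSubgroup (G ⧸ M)).comap (QuotientGroup.mk' M)).lowerCentralSeries i).map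
              (QuotientGroup.mk' M) = ⊥ := by
            rw [map_lowerCentralSeries, map_comap_eq_self_of_surjective
              (QuotientGroup.mk'_surjective M), hi]
          rwa [Subgroup.map_eq_bot_iff, QuotientGroup.ker_mk'] at h3)
      hnot
    have := Fact.mk hr
    have hPchar : (pCore r G).Characteristic := FitRed.characteristic_pCore G r
    have hPn : (pCore r G).Normal := inferInstance
    have hPinv := hinv _ hPchar
    obtain ⟨k, _, _, _, W, _, _, _, h, s, hker, hsh, hsum⟩ := ClosedRep.exists_closed_rep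
      φ (pCore r G) hPinv hPc r hPexp
    obtain ⟨ψ, hψ⟩ := ActRep.exists_quot φ (pCore r G) hPinv
    have hker' : pCore r G ≤ h.ker := by
      intro x hx
      rw [MonoidHom.mem_ker, hker, hcent]
      exact hx
    let hb : (G ⧸ pCore r G) →* Module.End k W := QuotientGroup.lift (pCore r G) h hker'
    have hb1 : ∀ g : G, hb (g : G ⧸ pCore r G) = h g := fun g => rfl
    have hbinj : ∀ x, hb x = 1 → x = 1 := by
      intro x
      induction x using QuotientGroup.induction_on with | H g => ?_
      intro hg
      rw [hb1, hker, hcent] at hg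
      exact (QuotientGroup.eq_one_iff _).2 hg
    have hbsh : ∀ a x, s a * hb x = hb (ψ a x) * s a := by
      intro a x
      induction x using QuotientGroup.induction_on with | H g => ?_
      rw [hψ, hb1, hb1]
      exact hsh a g
    have hs0 : ∑ a, s a = 0 := by
      exact hsum A (fun a => a) Set.univ
          (fun b _ => ⟨Equiv.mulLeft b, fun i => rfl⟩)
          (fun x _ hx => hfpf x (hx σ trivial))
    have hψfix : ∀ x, ψ σ x = x → x = 1 :=
      FpfQuot.quot_fpf (φ σ) hfpf (pCore r G) (hPinv σ) (ψ σ) (hψ σ)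
    -- `τ` is trivial on the Fitting subgroup of `K = G ⧸ O_r(G)`
    have hrp : r ≠ p := by
      rintro rfl
      have h1 : r ∣ Nat.card (pCore r G) := by
        obtain ⟨m, hm⟩ := IsPGroup.iff_card.1 hPp
        rw [hm]
        apply dvd_pow_self
        rintro rfl
        rw [pow_zero] at hm
        exact hPb (Subgroup.card_eq_one.1 hm)
      exact hndvd (h1.trans (Subgroup.card_subgroup_dvd_card _))
    have hndvdK : ¬ p ∣ Nat.card (G ⧸ pCore r G) := fun h0 =>
      hndvd (h0.trans (card_quotient_dvd_card _))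
    have hpk : (p : k) ≠ 0 := by
      rw [Ne, CharP.cast_eq_zero_iff k r, Nat.prime_dvd_prime_iff_eq hr hp]
      exact hrp
    have hF : ∀ x ∈ fittingSubgroup (G ⧸ pCore r G), ψ τ x = x := by
      let E : Subgroup (G ⧸ pCore r G) :=
        { carrier := {x | ψ τ x = x}
          one_mem' := map_one _
          mul_mem' := by
            intro a b ha hb
            change ψ τ (a * b) = a * b
            rw [map_mul, show ψ τ a = a from ha, show ψ τ b = b from hb]
          inv_mem' := by
            intro a ha
            change ψ τ a⁻¹ = a⁻¹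
            rw [map_inv, show ψ τ a = a from ha] }
      have hle : fittingSubgroup (G ⧸ pCore r G) ≤ E := by
        rw [Fitting.fittingSubgroup_eq_iSup_pCore]
        refine iSup_le fun q' => ?_
        obtain ⟨q, hq⟩ := q'
        change pCore q (G ⧸ pCore r G) ≤ E
        have hqf := Fact.mk hq
        by_cases hqr : q = r
        · rw [hqr, Fitting.pCore_quotient_pCore r]
          exact bot_le
        have hLp : IsPGroup q (pCore q (G ⧸ pCore r G)) := Fitting.isPGroup_pCore q
        by_cases hqp : q = p
        · -- trivial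
          have h1 : pCore q (G ⧸ pCore r G) = ⊥ := by
            obtain ⟨m, hm⟩ := IsPGroup.iff_card.1 hLp
            rcases Nat.eq_zero_or_pos m with h0 | h0
            · rw [h0, pow_zero] at hm
              exact Subgroup.card_eq_one.1 hm
            · exfalso
              apply hndvdK
              rw [← hqp]
              exact ((dvd_pow_self q h0.ne').trans (by rw [hm])).trans
                (Subgroup.card_subgroup_dvd_card _)
          rw [h1]
          exact bot_le
        have hLchar : (pCore q (G ⧸ pCore r G)).Characteristic := FitRed.characteristic_pCore _ q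
        have hLinv : ∀ a, ∀ x ∈ pCore q (G ⧸ pCore r G), ψ a x ∈ pCore q (G ⧸ pCore r G) :=
          fun a x hx => (Subgroup.characteristic_iff_le_comap.1 hLchar (ψ a)) hx
        obtain ⟨χ, hχ⟩ := S3Fpf2.exists_restrict ψ (pCore q (G ⧸ pCore r G)) hLinv
        have hfin := fixed_of_rep hgen hp hp2 hn ho hq hqp hLp χ (by
            intro g hg
            apply Subtype.ext
            apply hψfix
            rw [← hχ, hg]) (k := k) (W := W) (by
            rw [Ne, CharP.cast_eq_zero_iff k r, Nat.prime_dvd_prime_iff_eq hr hq]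
            exact fun h0 => hqr h0.symm) hpk
          (hb.comp (pCore q (G ⧸ pCore r G)).subtype) s (by
            intro g hg
            exact Subtype.ext (hbinj g hg)) (by
            intro a g
            change s a * hb g = hb ((χ a g : pCore q (G ⧸ pCore r G)) : G ⧸ pCore r G) * s a
            rw [hχ]
            exact hbsh a g) hs0
        intro x hx
        change ψ τ x = x
        have h1 := congrArg (Subtype.val : pCore q (G ⧸ pCore r G) → G ⧸ pCore r G) (hfin ⟨x, hx⟩)
        rwa [hχ] at h1
      exact fun x hx => hle hx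
    have hK := hquot (pCore r G) hPchar hPb ψ hψ
    have htriv : ∀ x, ψ τ x = x := by
      intro x
      have hc := hK x
      have hcτ := hF _ hc
      set c := x⁻¹ * ψ τ x with hcdef
      have h1 : ψ τ x = x * c := by rw [hcdef]; group
      have h2 : ∀ i : ℕ, ψ (τ ^ i) x = x * c ^ i := by
        intro i
        induction i with
        | zero => simp
        | succ i ih' =>
          have h0 : ψ (τ ^ (i + 1)) x = ψ τ (ψ (τ ^ i) x) := by
            rw [pow_succ' τ i, map_mul, MulAut.mul_apply]
          rw [h0, ih', map_mul (ψ τ) x (c ^ i), map_pow (ψ τ) c i, hcτ, h1, mul_assoc,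
            ← pow_succ']
      have h3 := h2 p
      rw [hτp, map_one, MulAut.one_apply] at h3
      have h4 : c ^ p = 1 := left_eq_mul.1 h3
      have h5 : c = 1 := by
        have h6 : orderOf c ∣ p := orderOf_dvd_of_pow_eq_one h4
        rcases (Nat.dvd_prime hp).1 h6 with h7 | h7
        · exact orderOf_eq_one_iff.1 h7
        · exfalso
          apply hndvdK
          rw [← h7]
          exact orderOf_dvd_natCard c
      rw [h1, h5, mul_one]
    apply hnot
    intro g
    rw [hFr, ← QuotientGroup.eq, ← hψ, htriv]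

end Cfsg.Agent.Lib.ShultGross2
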