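import Mathlib
import Cfsg.Prelude.Def_ClassicalGeometry

/-! Matrix lemmas for `polarVec`, `siegelMatrix`, `reflectionMatrix` of a quadratic form (helper14). -/

set_option autoImplicit false
open Cfsg

namespace Cfsg.Agent.Lib.SiegelMat

open Matrix

variable {F : Type*} [Field F] {ι : Type} [Fintype ι] [DecidableEq ι]

/-- the polar vector computes the polar form -/
lemma polarVec_dotProduct (Q : QuadraticForm F (ι → F)) (v x : ι → F) :
    Cfsg.polarVec ⇑Q v ⬝ᵥ x = QuadraticMap.polar ⇑Q v x := by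
  have h : QuadraticMap.polarBilin Q v x = ∑ j, x j * QuadraticMap.polarBilin Q v (Pi.single j 1) := by
    conv_lhs => rw [← Finset.univ_sum_single x]
    rw [map_sum]
    refine Finset.sum_congr rfl (fun j _ => ?_)
    have : (Pi.single j (x j) : ι → F) = x j • Pi.single j 1 := by
      rw [← Pi.single_smul, smul_eq_mul, mul_one]
    rw [this, map_smul, smul_eq_mul]
  rw [QuadraticMap.polarBilin_apply_apply] at h
  rw [h]
  simp only [dotProduct, Cfsg.polarVec, QuadraticMap.polarBilin_apply_apply]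
  exact Finset.sum_congr rfl (fun j _ => mul_comm _ _)

lemma siegelMatrix_mulVec (Q : QuadraticForm F (ι → F)) (u v x : ι → F) (c : F) :
    (Cfsg.siegelMatrix ⇑Q u v c) *ᵥ x =
      x + c • (QuadraticMap.polar ⇑Q u x • v - QuadraticMap.polar ⇑Q v x • u) := by
  rw [Cfsg.siegelMatrix, add_mulVec, one_mulVec, smul_mulVec, sub_mulVec,
    vecMulVec_mulVec, vecMulVec_mulVec, polarVec_dotProduct, polarVec_dotProduct, op_smul_eq_smul, op_smul_eq_smul]

lemma reflectionMatrix_mulVec (Q : QuadraticForm F (ι → F)) (v x : ι → F) :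
    (Cfsg.reflectionMatrix ⇑Q v) *ᵥ x = x - ((Q v)⁻¹ * QuadraticMap.polar ⇑Q v x) • v := by
  rw [Cfsg.reflectionMatrix, sub_mulVec, one_mulVec, smul_mulVec,
    vecMulVec_mulVec, polarVec_dotProduct, ← smul_smul, op_smul_eq_smul]

lemma polar_self' (Q : QuadraticForm F (ι → F)) (v : ι → F) : QuadraticMap.polar ⇑Q v v = 2 * Q v := by
  rw [QuadraticMap.polar_self, nsmul_eq_mul, Nat.cast_ofNat]

/-- expansion of a quadratic form at a sum -/
lemma map_add' (Q : QuadraticForm F (ι → F)) (x y : ι → F) :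
    Q (x + y) = Q x + Q y + QuadraticMap.polar ⇑Q x y := by
  rw [QuadraticMap.polar]; ring

lemma siegel_preserves (Q : QuadraticForm F (ι → F)) (u v : ι → F) (hu : Q u = 0) (hv : Q v = 0)
    (huv : QuadraticMap.polar ⇑Q u v = 0) (c : F) (x : ι → F) :
    Q ((Cfsg.siegelMatrix ⇑Q u v c) *ᵥ x) = Q x := by
  rw [siegelMatrix_mulVec, map_add', QuadraticMap.map_smul]
  have h1 : Q (QuadraticMap.polar ⇑Q u x • v - QuadraticMap.polar ⇑Q v x • u) = 0 := by
    rw [sub_eq_add_neg, ← neg_smul, map_add', QuadraticMap.map_smul, QuadraticMap.map_smul, hu, hv,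
      QuadraticMap.polar_smul_left, QuadraticMap.polar_smul_right, QuadraticMap.polar_comm ⇑Q v u, huv]
    simp
  have h2 : QuadraticMap.polar ⇑Q x (c • (QuadraticMap.polar ⇑Q u x • v - QuadraticMap.polar ⇑Q v x • u)) = 0 := by
    rw [QuadraticMap.polar_smul_right, QuadraticMap.polar_sub_right, QuadraticMap.polar_smul_right,
      QuadraticMap.polar_smul_right, QuadraticMap.polar_comm ⇑Q x v, QuadraticMap.polar_comm ⇑Q x u]
    simp only [smul_eq_mul]
    ring
  rw [h1, h2]
  simp

lemma siegel_mul (Q : QuadraticForm F (ι → F)) (u v : ι → F) (hu : Q u = 0) (hv : Q v = 0)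
    (huv : QuadraticMap.polar ⇑Q u v = 0) (c d : F) :
    Cfsg.siegelMatrix ⇑Q u v c * Cfsg.siegelMatrix ⇑Q u v d = Cfsg.siegelMatrix ⇑Q u v (c + d) := by
  have key : (vecMulVec v (polarVec (⇑Q) u) - vecMulVec u (polarVec (⇑Q) v)) *
      (vecMulVec v (polarVec (⇑Q) u) - vecMulVec u (polarVec (⇑Q) v)) = 0 := by
    rw [sub_mul, mul_sub, mul_sub]
    simp only [vecMulVec_mul_vecMulVec, polarVec_dotProduct, huv, QuadraticMap.polar_comm ⇑Q v u, polar_self', hu, hv,
      mul_zero, zero_smul, vecMulVec_zero, sub_zero]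
  rw [Cfsg.siegelMatrix, Cfsg.siegelMatrix, Cfsg.siegelMatrix]
  set N := vecMulVec v (polarVec (⇑Q) u) - vecMulVec u (polarVec (⇑Q) v) with hN
  rw [mul_add, add_mul, add_mul, mul_one, one_mul,
    Matrix.smul_mul c N (d • N), Matrix.mul_smul, key, smul_zero, smul_zero, add_zero, add_smul, mul_one, add_assoc]

end Cfsg.Agent.Lib.SiegelMat
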