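import Cfsg.Agent.Lib.Simple168

/-! The simple group of order 168: Klein four-subgroups and maximal subgroups. -/

set_option autoImplicit false
set_option linter.unusedSectionVars false

namespace Cfsg.Agent.Lib.Simple168

open Subgroup Cfsg.Agent.Lib.SmallSimple

theorem card_map_conj {G : Type*} [Group G] (H : Subgroup G) (g : G) :
    Nat.card (H.map (MulAut.conj g).toMonoidHom) = Nat.card H :=
  (Nat.card_congr (H.equivMapOfInjective _ (MulAut.conj g).injective).toEquiv).symm

theorem coe_smul_sylow {G : Type*} [Group G] {p : ℕ} (g : G) (P : Sylow p G) :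
    ((g • P : Sylow p G) : Subgroup G) = (P : Subgroup G).map (MulAut.conj g).toMonoidHom := by
  rw [Sylow.coe_subgroup_smul]
  rfl

theorem conj_in_subgroup {G : Type*} [Group G] [Finite G] {p : ℕ} [Fact p.Prime] (P Q : Sylow p G)
    (H : Subgroup G) (hP : (P : Subgroup G) ≤ H) (hQ : (Q : Subgroup G) ≤ H) : ∃ n ∈ H, n • P = Q := by
  let P' : Sylow p H := P.subtype hP
  let Q' : Sylow p H := Q.subtype hQ
  obtain ⟨c, hc⟩ := MulAction.exists_smul_eq H P' Q'
  refine ⟨c, c.2, ?_⟩
  apply Sylow.ext
  apply eq_of_le_of_card_ge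
  · intro x hx
    rw [coe_smul_sylow] at hx
    obtain ⟨y, hy, rfl⟩ := hx
    have h4 : c * ⟨y, hP hy⟩ * c⁻¹ ∈ (c • P') := by
      rw [Sylow.smul_def]
      exact ⟨⟨y, hP hy⟩, hy, rfl⟩
    rw [hc] at h4
    exact h4
  · rw [coe_smul_sylow, card_map_conj]
    have e1 : Nat.card (P : Subgroup G) = _ := P.card_eq_multiplicity
    have e2 : Nat.card (Q : Subgroup G) = _ := Q.card_eq_multiplicity
    rw [e1, e2]

theorem map_conj_conj {G : Type*} [Group G] (H : Subgroup G) (a b : G) :
    (H.map (MulAut.conj a).toMonoidHom).map (MulAut.conj b).toMonoidHom = H.map (MulAut.conj (b * a)).toMonoidHom := by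
  rw [Subgroup.map_map]
  congr 1
  ext x
  change b * (a * x * a⁻¹) * b⁻¹ = (b * a) * x * (b * a)⁻¹
  group

theorem map_conj_one {G : Type*} [Group G] (H : Subgroup G) :
    H.map (MulAut.conj (1 : G)).toMonoidHom = H := by
  ext x
  constructor
  · rintro ⟨y, hy, rfl⟩
    change 1 * y * 1⁻¹ ∈ H
    simpa using hy
  · intro hx
    exact ⟨x, hx, by change 1 * x * 1⁻¹ = x; simp⟩

theorem mem_normalizer_iff_map {G : Type*} [Group G] (H : Subgroup G) (g : G) :
    g ∈ normalizer (H : Set G) ↔ H.map (MulAut.conj g).toMonoidHom = H := mem_normalizer_iff_map_conj_eq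

theorem normalizer_map_conj {G : Type*} [Group G] (H : Subgroup G) (g : G) :
    normalizer ((H.map (MulAut.conj g).toMonoidHom : Subgroup G) : Set G) =
      (normalizer (H : Set G)).map (MulAut.conj g).toMonoidHom := by
  ext x
  rw [mem_normalizer_iff_map, map_conj_conj]
  constructor
  · intro h
    refine ⟨g⁻¹ * x * g, ?_, ?_⟩
    · change g⁻¹ * x * g ∈ normalizer (H : Set G)
      rw [mem_normalizer_iff_map]
      have h2 := congrArg (fun K : Subgroup G => K.map (MulAut.conj g⁻¹).toMonoidHom) h
      simp only [map_conj_conj] at h2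
      rw [inv_mul_cancel, map_conj_one, ← mul_assoc] at h2
      exact h2
    · change g * (g⁻¹ * x * g) * g⁻¹ = x
      group
  · rintro ⟨y, hy, rfl⟩
    change y ∈ normalizer (H : Set G) at hy
    rw [mem_normalizer_iff_map] at hy
    change H.map (MulAut.conj (g * y * g⁻¹ * g)).toMonoidHom = _
    have h3 : g * y * g⁻¹ * g = g * y := by group
    rw [h3, ← map_conj_conj, hy]

variable {G : Type*} [Group G] [Finite G] [IsSimpleGroup G]

theorem le_normalizer_of_card_four (h : Nat.card G = 168) (T : Sylow 2 G) (U : Subgroup G) (hU : U ≤ T)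
    (hU4 : Nat.card U = 4) : (T : Subgroup G) ≤ normalizer (U : Set G) := by
  have h1 : (U.subgroupOf (T : Subgroup G)).index = 2 := by
    have := (U.subgroupOf (T : Subgroup G)).index_mul_card
    rw [card_subgroupOf, inf_eq_left.2 hU, hU4, card2 h T] at this
    omega
  have h2 : (U.subgroupOf (T : Subgroup G)).Normal := normal_of_index_eq_two h1
  exact le_normalizer_of_normal_subgroupOf hU

theorem normalizer_ne_top (U : Subgroup G) (hU : U ≠ ⊥) (hU' : U ≠ ⊤) : normalizer (U : Set G) ≠ ⊤ := by
  intro h
  have hn : U.Normal := normalizer_eq_top_iff.1 h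
  rcases IsSimpleGroup.eq_bot_or_eq_top_of_normal U hn with h1 | h1
  · exact hU h1
  · exact hU' h1

theorem card_normalizer_kleinFour (h : Nat.card G = 168) (U : Subgroup G) (hU : IsKleinFour ↥U) :
    Nat.card (normalizer (U : Set G)) = 24 := by
  classical
  have hU4 : Nat.card U = 4 := hU.card_four
  have hfinU : Finite U := inferInstance
  have hUcomm : IsMulCommutative U := IsKleinFour.isMulCommutative
  have hord : ∀ u ∈ U, u ≠ 1 → orderOf u = 2 := by
    intro u hu hu1
    have h1 : (⟨u, hu⟩ : U) * ⟨u, hu⟩ = 1 := IsKleinFour.mul_self _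
    have h2 : u * u = 1 := congrArg Subtype.val h1
    exact orderOf_eq_prime (by rw [pow_two]; exact h2) hu1
  -- two distinct involutions
  obtain ⟨u, v, hu, hv, hu1, hv1, huv⟩ : ∃ u v : G, u ∈ U ∧ v ∈ U ∧ u ≠ 1 ∧ v ≠ 1 ∧ u ≠ v := by
    have : Fintype U := Fintype.ofFinite U
    have hc : 2 < Fintype.card U := by rw [← Nat.card_eq_fintype_card, hU4]; norm_num
    obtain ⟨a, b, c, hab, hac, hbc⟩ := Fintype.two_lt_card_iff.1 hc
    by_cases ha : a = 1
    · refine ⟨b, c, b.2, c.2, ?_, ?_, ?_⟩
      · intro hb; exact hab (by rw [ha]; exact Subtype.ext hb.symm)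
      · intro hb; exact hac (by rw [ha]; exact Subtype.ext hb.symm)
      · intro hb; exact hbc (Subtype.ext hb)
    · by_cases hb : b = 1
      · refine ⟨a, c, a.2, c.2, ?_, ?_, ?_⟩
        · intro hb; exact ha (Subtype.ext hb)
        · intro hc; exact hbc (by rw [hb]; exact Subtype.ext hc.symm)
        · intro hb; exact hac (Subtype.ext hb)
      · refine ⟨a, b, a.2, b.2, ?_, ?_, ?_⟩
        · intro hb; exact ha (Subtype.ext hb)
        · intro hc; exact hb (Subtype.ext hc)
        · intro hb; exact hab (Subtype.ext hb)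
  have key : ∀ w ∈ U, w ≠ 1 → ∃ T : Sylow 2 G, (T : Subgroup G) = centralizer ({w} : Set G) ∧ U ≤ T := by
    intro w hw hw1
    have h1 := card_centralizer_involution h w (hord w hw hw1)
    have h2 : IsPGroup 2 (centralizer ({w} : Set G)) := IsPGroup.of_card (n := 3) (by rw [h1]; norm_num)
    obtain ⟨T, hT⟩ := h2.exists_le_sylow
    have h3 : centralizer ({w} : Set G) = T := by
      apply eq_of_le_of_card_ge hT
      rw [h1, card2 h T]
    refine ⟨T, h3.symm, ?_⟩
    rw [← h3]
    intro x hx
    rw [mem_centralizer_singleton_iff]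
    exact congrArg Subtype.val (hUcomm.is_comm.comm (⟨x, hx⟩ : U) ⟨w, hw⟩)
  obtain ⟨Tu, hTu, hUTu⟩ := key u hu hu1
  obtain ⟨Tv, hTv, hUTv⟩ := key v hv hv1
  have hne : Tu ≠ Tv := by
    rintro rfl
    apply T_noncomm h Tu
    -- U is central in Tu
    have hUidx : (U.subgroupOf (Tu : Subgroup G)).index = 2 := by
      have := (U.subgroupOf (Tu : Subgroup G)).index_mul_card
      rw [card_subgroupOf, inf_eq_left.2 hUTu, hU4, card2 h Tu] at this
      omega
    have hUc : ∀ w ∈ U, ∀ t ∈ (Tu : Subgroup G), t * w = w * t := by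
      intro w hw t ht
      have h1 : ∀ x ∈ U, x = 1 ∨ x = u ∨ x = v ∨ x = u * v := by
        intro x hx
        by_cases hx1 : x = 1
        · exact Or.inl hx1
        by_cases hxu : x = u
        · exact Or.inr (Or.inl hxu)
        by_cases hxv : x = v
        · exact Or.inr (Or.inr (Or.inl hxv))
        · right; right; right
          have := IsKleinFour.eq_mul_of_ne_all (G := U) (x := ⟨u, hu⟩) (y := ⟨v, hv⟩) (z := ⟨x, hx⟩)
            (fun h => hu1 (congrArg Subtype.val h)) (fun h => hv1 (congrArg Subtype.val h))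
            (fun h => huv (congrArg Subtype.val h)) (fun h => hx1 (congrArg Subtype.val h))
            (fun h => hxu (congrArg Subtype.val h)) (fun h => hxv (congrArg Subtype.val h))
          exact congrArg Subtype.val this
      have htu : t * u = u * t := by
        have h2 := ht
        rw [hTu, mem_centralizer_singleton_iff] at h2
        exact h2
      have htv : t * v = v * t := by
        have h2 := ht
        rw [hTv, mem_centralizer_singleton_iff] at h2
        exact h2
      rcases h1 w hw with rfl | rfl | rfl | rfl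
      · rw [mul_one, one_mul]
      · exact htu
      · exact htv
      · rw [← mul_assoc, htu, mul_assoc, htv, mul_assoc]
    refine ⟨⟨fun a b => ?_⟩⟩
    apply Subtype.ext
    by_cases ha : a ∈ U.subgroupOf (Tu : Subgroup G)
    · exact (hUc a ha b b.2).symm
    by_cases hb : b ∈ U.subgroupOf (Tu : Subgroup G)
    · exact hUc b hb a a.2
    have hab : a⁻¹ * b ∈ U.subgroupOf (Tu : Subgroup G) := by
      rw [mul_mem_iff_of_index_two hUidx, inv_mem_iff]
      exact iff_of_false ha hb
    have h8 : (a : G) * ((a : G)⁻¹ * b) = ((a : G)⁻¹ * b) * a := hUc _ hab a a.2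
    have h10 : (b : G) = (a : G)⁻¹ * b * a := by rw [← h8]; group
    calc (a : G) * b = a * ((a : G)⁻¹ * b * a) := by rw [← h10]
      _ = b * a := by group
  -- orders
  have hTuN := le_normalizer_of_card_four h Tu U hUTu hU4
  have hTvN := le_normalizer_of_card_four h Tv U hUTv hU4
  have h8 : 8 ∣ Nat.card (normalizer (U : Set G)) := by
    have := card_dvd_of_le hTuN
    rwa [card2 h Tu] at this
  have hne8 : Nat.card (normalizer (U : Set G)) ≠ 8 := by
    intro h9
    apply hne
    apply Sylow.ext
    have e1 : (Tu : Subgroup G) = normalizer (U : Set G) := by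
      apply eq_of_le_of_card_ge hTuN
      rw [h9, card2 h Tu]
    have e2 : (Tv : Subgroup G) = normalizer (U : Set G) := by
      apply eq_of_le_of_card_ge hTvN
      rw [h9, card2 h Tv]
    rw [e1, e2]
  have hC : Nat.card (centralizer (U : Set G)) = 4 := by
    have h1 : centralizer (U : Set G) ≤ (Tu : Subgroup G) ⊓ (Tv : Subgroup G) := by
      rw [hTu, hTv]
      exact le_inf (centralizer_le (by simpa using hu)) (centralizer_le (by simpa using hv))
    have h2 : U ≤ centralizer (U : Set G) := le_centralizer_of_comm hUcomm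
    have h3 := card_dvd_of_le h2
    have h4 := card_dvd_of_le (h1.trans inf_le_left)
    rw [hU4] at h3
    rw [card2 h Tu] at h4
    have h5 := Nat.le_of_dvd (by norm_num) h4
    have h6 : Nat.card (centralizer (U : Set G)) ≠ 8 := by
      intro h9
      apply hne
      apply Sylow.ext
      have e1 : centralizer (U : Set G) = Tu := by
        apply eq_of_le_of_card_ge (h1.trans inf_le_left)
        rw [h9, card2 h Tu]
      have e2 : centralizer (U : Set G) = Tv := by
        apply eq_of_le_of_card_ge (h1.trans inf_le_right)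
        rw [h9, card2 h Tv]
      rw [← e1, ← e2]
    have h7 : 0 < Nat.card (centralizer (U : Set G)) := Nat.card_pos
    omega
  have h10 := (relIndex_centralizer_dvd U).trans (card_mulAut_dvd_factorial _)
  rw [hU4] at h10
  have h11 := relIndex_mul_card_of_le (centralizer_le_normalizer' U)
  rw [hC] at h11
  have h12 : (4 - 1).factorial = 6 := rfl
  rw [h12] at h10
  have h13 := Nat.le_of_dvd (by norm_num) h10
  generalize (centralizer (U : Set G)).relIndex (normalizer (U : Set G)) = m at *
  interval_cases m <;> omega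

theorem no_order_six (h : Nat.card G = 168) (g : G) : orderOf g ≠ 6 := by
  intro h6
  rcases orders h g with h1 | h1 | h1 | h1 | h1 <;> omega

theorem normalizer_kleinFour_iso (h : Nat.card G = 168) (U : Subgroup G) (hU : IsKleinFour ↥U) :
    Nonempty (↥(normalizer (U : Set G)) ≃* Equiv.Perm (Fin 4)) := by
  apply Cfsg.Agent.S1012.result (card_normalizer_kleinFour h U hU)
  intro g hg
  apply no_order_six h (g : G)
  exact (orderOf_coe g).trans hg

theorem not_conj_kleinFour (h : Nat.card G = 168) (T : Sylow 2 G) (U W : Subgroup G) (hU : U ≤ (T : Subgroup G))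
    (hW : W ≤ (T : Subgroup G)) (hUK : IsKleinFour ↥U) (hWK : IsKleinFour ↥W) (hne : U ≠ W) (g : G) :
    U.map (MulAut.conj g).toMonoidHom ≠ W := by
  intro hg
  apply hne
  have h1 := le_normalizer_of_card_four h T U hU hUK.card_four
  have h2 := le_normalizer_of_card_four h T W hW hWK.card_four
  have h3 : ((g • T : Sylow 2 G) : Subgroup G) ≤ normalizer (W : Set G) := by
    rw [coe_smul_sylow, ← hg, normalizer_map_conj]
    exact map_mono h1
  obtain ⟨n, hn, hnT⟩ := conj_in_subgroup (g • T) T _ h3 h2
  have h4 : (n * g) • T = T := by rw [mul_smul]; exact hnT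
  have h5 : n * g ∈ normalizer ((T : Subgroup G) : Set G) := Sylow.smul_eq_iff_mem_normalizer.1 h4
  rw [N2_eq h T] at h5
  have h6 := (mem_normalizer_iff_map U (n * g)).1 (h1 h5)
  rw [← map_conj_conj, hg, (mem_normalizer_iff_map W n).1 hn] at h6
  exact h6.symm

/-! ### Klein four-subgroups of the dihedral group of order 8 -/

theorem dihedral_four_decide : ∀ S : Finset (DihedralGroup 4), S.card = 4 → (∀ x ∈ S, x * x = 1) →
    (∀ x ∈ S, ∀ y ∈ S, x * y ∈ S) → S = {DihedralGroup.r 0, DihedralGroup.r 2, DihedralGroup.sr 0, DihedralGroup.sr 2} ∨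
      S = {DihedralGroup.r 0, DihedralGroup.r 2, DihedralGroup.sr 1, DihedralGroup.sr 3} := by
  decide +kernel

def VA : Subgroup (DihedralGroup 4) where
  carrier := {x | x ∈ ({DihedralGroup.r 0, DihedralGroup.r 2, DihedralGroup.sr 0, DihedralGroup.sr 2} : Finset (DihedralGroup 4))}
  mul_mem' := by
    intro a b ha hb
    revert a b
    show ∀ a b : DihedralGroup 4, a ∈ ({DihedralGroup.r 0, DihedralGroup.r 2, DihedralGroup.sr 0, DihedralGroup.sr 2} : Finset (DihedralGroup 4)) →
      b ∈ ({DihedralGroup.r 0, DihedralGroup.r 2, DihedralGroup.sr 0, DihedralGroup.sr 2} : Finset (DihedralGroup 4)) →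
      a * b ∈ ({DihedralGroup.r 0, DihedralGroup.r 2, DihedralGroup.sr 0, DihedralGroup.sr 2} : Finset (DihedralGroup 4))
    decide
  one_mem' := by
    show (1 : DihedralGroup 4) ∈ ({DihedralGroup.r 0, DihedralGroup.r 2, DihedralGroup.sr 0, DihedralGroup.sr 2} : Finset (DihedralGroup 4))
    decide
  inv_mem' := by
    intro a ha
    revert a
    show ∀ a : DihedralGroup 4, a ∈ ({DihedralGroup.r 0, DihedralGroup.r 2, DihedralGroup.sr 0, DihedralGroup.sr 2} : Finset (DihedralGroup 4)) →
      a⁻¹ ∈ ({DihedralGroup.r 0, DihedralGroup.r 2, DihedralGroup.sr 0, DihedralGroup.sr 2} : Finset (DihedralGroup 4))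
    decide

def VB : Subgroup (DihedralGroup 4) where
  carrier := {x | x ∈ ({DihedralGroup.r 0, DihedralGroup.r 2, DihedralGroup.sr 1, DihedralGroup.sr 3} : Finset (DihedralGroup 4))}
  mul_mem' := by
    intro a b ha hb
    revert a b
    show ∀ a b : DihedralGroup 4, a ∈ ({DihedralGroup.r 0, DihedralGroup.r 2, DihedralGroup.sr 1, DihedralGroup.sr 3} : Finset (DihedralGroup 4)) →
      b ∈ ({DihedralGroup.r 0, DihedralGroup.r 2, DihedralGroup.sr 1, DihedralGroup.sr 3} : Finset (DihedralGroup 4)) →
      a * b ∈ ({DihedralGroup.r 0, DihedralGroup.r 2, DihedralGroup.sr 1, DihedralGroup.sr 3} : Finset (DihedralGroup 4))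
    decide
  one_mem' := by
    show (1 : DihedralGroup 4) ∈ ({DihedralGroup.r 0, DihedralGroup.r 2, DihedralGroup.sr 1, DihedralGroup.sr 3} : Finset (DihedralGroup 4))
    decide
  inv_mem' := by
    intro a ha
    revert a
    show ∀ a : DihedralGroup 4, a ∈ ({DihedralGroup.r 0, DihedralGroup.r 2, DihedralGroup.sr 1, DihedralGroup.sr 3} : Finset (DihedralGroup 4)) →
      a⁻¹ ∈ ({DihedralGroup.r 0, DihedralGroup.r 2, DihedralGroup.sr 1, DihedralGroup.sr 3} : Finset (DihedralGroup 4))
    decide

theorem VA_ne_VB : VA ≠ VB := by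
  intro h
  have h1 : DihedralGroup.sr 0 ∈ VA := by
    show DihedralGroup.sr 0 ∈ ({DihedralGroup.r 0, DihedralGroup.r 2, DihedralGroup.sr 0, DihedralGroup.sr 2} : Finset (DihedralGroup 4))
    decide
  rw [h] at h1
  have h2 : DihedralGroup.sr 0 ∈ ({DihedralGroup.r 0, DihedralGroup.r 2, DihedralGroup.sr 1, DihedralGroup.sr 3} : Finset (DihedralGroup 4)) := h1
  revert h2
  decide

theorem isKleinFour_iff {A : Type*} [Group A] : IsKleinFour A ↔ Nat.card A = 4 ∧ ∀ a : A, a * a = 1 := by
  constructor
  · intro h
    exact ⟨h.card_four, fun a => IsKleinFour.mul_self a⟩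
  · rintro ⟨h1, h2⟩
    refine ⟨h1, ?_⟩
    have h3 : Monoid.exponent A ∣ 2 := Monoid.exponent_dvd_of_forall_pow_eq_one (fun a => by rw [pow_two]; exact h2 a)
    rcases (Nat.dvd_prime Nat.prime_two).1 h3 with h4 | h4
    · rw [Monoid.exp_eq_one_iff] at h4
      have := Nat.card_eq_one_iff_unique.2 ⟨h4, ⟨(1 : A)⟩⟩
      omega
    · exact h4

theorem VA_isKleinFour : IsKleinFour VA := by
  rw [isKleinFour_iff]
  constructor
  · have h : Nat.card VA = ((({DihedralGroup.r 0, DihedralGroup.r 2, DihedralGroup.sr 0, DihedralGroup.sr 2} : Finset (DihedralGroup 4)) : Set (DihedralGroup 4))).ncard := rfl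
    rw [h, Set.ncard_coe_finset]
    decide
  · rintro ⟨a, ha⟩
    apply Subtype.ext
    change a * a = 1
    have ha' : a ∈ ({DihedralGroup.r 0, DihedralGroup.r 2, DihedralGroup.sr 0, DihedralGroup.sr 2} : Finset (DihedralGroup 4)) := ha
    clear ha
    revert a
    decide

theorem VB_isKleinFour : IsKleinFour VB := by
  rw [isKleinFour_iff]
  constructor
  · have h : Nat.card VB = ((({DihedralGroup.r 0, DihedralGroup.r 2, DihedralGroup.sr 1, DihedralGroup.sr 3} : Finset (DihedralGroup 4)) : Set (DihedralGroup 4))).ncard := rfl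
    rw [h, Set.ncard_coe_finset]
    decide
  · rintro ⟨a, ha⟩
    apply Subtype.ext
    change a * a = 1
    have ha' : a ∈ ({DihedralGroup.r 0, DihedralGroup.r 2, DihedralGroup.sr 1, DihedralGroup.sr 3} : Finset (DihedralGroup 4)) := ha
    clear ha
    revert a
    decide

theorem kleinFour_in_dihedral (V : Subgroup (DihedralGroup 4)) : IsKleinFour V ↔ V = VA ∨ V = VB := by
  classical
  constructor
  · intro hV
    rw [isKleinFour_iff] at hV
    obtain ⟨h1, h2⟩ := hV
    have h3 := dihedral_four_decide (Finset.univ.filter (fun x => x ∈ V)) ?_ ?_ ?_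
    · rcases h3 with h3 | h3
      · left
        ext x
        have : x ∈ V ↔ x ∈ Finset.univ.filter (fun x => x ∈ V) := by simp
        rw [this, h3]; rfl
      · right
        ext x
        have : x ∈ V ↔ x ∈ Finset.univ.filter (fun x => x ∈ V) := by simp
        rw [this, h3]; rfl
    · rw [← Set.ncard_coe_finset]
      have h5 : ((Finset.univ.filter (fun x => x ∈ V) : Finset (DihedralGroup 4)) : Set (DihedralGroup 4)) = (V : Set (DihedralGroup 4)) := by
        ext x; simp
      rw [h5]; exact h1
    · intro x hx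
      simp only [Finset.mem_filter, Finset.mem_univ, true_and] at hx
      exact congrArg Subtype.val (h2 ⟨x, hx⟩)
    · intro x hx y hy
      simp only [Finset.mem_filter, Finset.mem_univ, true_and] at hx hy ⊢
      exact Subgroup.mul_mem _ hx hy
  · rintro (rfl | rfl)
    · exact VA_isKleinFour
    · exact VB_isKleinFour

theorem isKleinFour_of_equiv {A B : Type*} [Group A] [Group B] (e : A ≃* B) (h : IsKleinFour A) : IsKleinFour B := by
  rw [isKleinFour_iff] at h ⊢
  refine ⟨by rw [← Nat.card_congr e.toEquiv]; exact h.1, fun b => ?_⟩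
  obtain ⟨a, rfl⟩ := e.surjective b
  rw [← map_mul, h.2, map_one]

/-- A dihedral group of order 8 has exactly two Klein four-subgroups. -/
theorem exists_two_kleinFour {T : Type*} [Group T] (e : T ≃* DihedralGroup 4) :
    ∃ A B : Subgroup T, A ≠ B ∧ ∀ V : Subgroup T, IsKleinFour V ↔ V = A ∨ V = B := by
  refine ⟨VA.comap e.toMonoidHom, VB.comap e.toMonoidHom, ?_, ?_⟩
  · intro h
    exact VA_ne_VB (comap_injective e.surjective h)
  · intro V
    have h1 : IsKleinFour V ↔ IsKleinFour (V.map e.toMonoidHom) := by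
      have e' : V ≃* V.map e.toMonoidHom := V.equivMapOfInjective _ e.injective
      exact ⟨isKleinFour_of_equiv e', isKleinFour_of_equiv e'.symm⟩
    rw [h1, kleinFour_in_dihedral]
    have h2 : ∀ W : Subgroup (DihedralGroup 4), V.map e.toMonoidHom = W ↔ V = W.comap e.toMonoidHom := by
      intro W
      constructor
      · rintro rfl
        exact (comap_map_eq_self_of_injective e.injective V).symm
      · rintro rfl
        exact map_comap_eq_self_of_surjective e.surjective W
    rw [h2, h2]

theorem exists_two_kleinFour_le (h : Nat.card G = 168) (T : Sylow 2 G) :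
    ∃ A B : Subgroup G, A ≠ B ∧ A ≤ (T : Subgroup G) ∧ B ≤ (T : Subgroup G) ∧ IsKleinFour ↥A ∧ IsKleinFour ↥B ∧
      ∀ V : Subgroup G, V ≤ (T : Subgroup G) → IsKleinFour ↥V → V = A ∨ V = B := by
  obtain ⟨e⟩ := T_dihedral h T
  obtain ⟨A, B, hAB, hall⟩ := exists_two_kleinFour e
  have hmap : ∀ V : Subgroup (T : Subgroup G), IsKleinFour V ↔ IsKleinFour (V.map (T : Subgroup G).subtype) := by
    intro V
    have e' : V ≃* V.map (T : Subgroup G).subtype := V.equivMapOfInjective _ (T : Subgroup G).subtype_injective
    exact ⟨isKleinFour_of_equiv e', isKleinFour_of_equiv e'.symm⟩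
  refine ⟨A.map (T : Subgroup G).subtype, B.map (T : Subgroup G).subtype, ?_, map_subtype_le _, map_subtype_le _,
    (hmap A).1 ((hall A).2 (Or.inl rfl)), (hmap B).1 ((hall B).2 (Or.inr rfl)), ?_⟩
  · intro h1
    exact hAB (map_injective (T : Subgroup G).subtype_injective h1)
  · intro V hVT hV
    have h1 : (V.subgroupOf (T : Subgroup G)).map (T : Subgroup G).subtype = V := by
      rw [subgroupOf_map_subtype, inf_eq_left.2 hVT]
    have h2 : IsKleinFour (V.subgroupOf (T : Subgroup G)) := by
      rw [hmap]
      rw [h1]; exact hV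
    rcases (hall _).1 h2 with h3 | h3
    · left; rw [← h1, h3]
    · right; rw [← h1, h3]

theorem card_kleinFour_le (h : Nat.card G = 168) (T : Sylow 2 G) :
    Nat.card {U : Subgroup G // U ≤ (T : Subgroup G) ∧ IsKleinFour ↥U} = 2 := by
  obtain ⟨A, B, hAB, hA, hB, hAK, hBK, hall⟩ := exists_two_kleinFour_le h T
  have h1 : Nat.card {U : Subgroup G // U ≤ (T : Subgroup G) ∧ IsKleinFour ↥U} = ({A, B} : Set (Subgroup G)).ncard := by
    have h2 : {U : Subgroup G | U ≤ (T : Subgroup G) ∧ IsKleinFour ↥U} = {A, B} := by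
      ext U
      constructor
      · rintro ⟨h3, h4⟩
        rcases hall U h3 h4 with h5 | h5
        · exact Or.inl h5
        · exact Or.inr h5
      · rintro (rfl | rfl)
        · exact ⟨hA, hAK⟩
        · exact ⟨hB, hBK⟩
    rw [← h2]; rfl
  rw [h1, Set.ncard_pair hAB]

/-! ### Maximal subgroups -/

theorem index_ge_seven (h : Nat.card G = 168) (M : Subgroup G) (hM : M ≠ ⊤) : 7 ≤ M.index := by
  have h1 := two_mul_card_dvd_factorial_index (hG h) M hM
  by_contra hcon
  push Not at hcon
  have h2 := h1.trans (Nat.factorial_dvd_factorial (show M.index ≤ 6 by omega))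
  rw [h] at h2
  exact absurd h2 (by decide)

theorem isCoatom_of_card (h : Nat.card G = 168) (M : Subgroup G) (hM : Nat.card M = 24) : IsCoatom M := by
  constructor
  · intro ht
    rw [ht, card_top, h] at hM
    omega
  · intro K hK
    by_contra hKt
    have h1 := card_dvd_of_le hK.le
    have h2 := index_ge_seven h K hKt
    have h3 := K.index_mul_card
    rw [h] at h3
    rw [hM] at h1
    have h4 : Nat.card K ≤ 24 := by
      by_contra hcon
      push Not at hcon
      have : 7 * 25 ≤ K.index * Nat.card K := Nat.mul_le_mul h2 hcon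
      omega
    have h5 : Nat.card K = 24 := le_antisymm h4 (Nat.le_of_dvd Nat.card_pos h1)
    exact hK.ne (eq_of_le_of_card_ge hK.le (by rw [h5, hM]))

/-- A subgroup of order 24 is not contained with a Sylow... : `T` is not maximal. -/
theorem exists_kleinFour (h : Nat.card G = 168) : ∃ U : Subgroup G, IsKleinFour ↥U := by
  obtain ⟨T⟩ : Nonempty (Sylow 2 G) := inferInstance
  obtain ⟨A, B, hAB, hA, hB, hAK, hBK, hall⟩ := exists_two_kleinFour_le h T
  exact ⟨A, hAK⟩

/-- The subgroups of order 6 normalizing a Sylow 3-subgroup lie in subgroups of order 24. -/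
theorem N3_le (h : Nat.card G = 168) (R : Sylow 3 G) : ∃ K : Subgroup G, Nat.card K = 24 ∧
    normalizer ((R : Subgroup G) : Set G) ≤ K := by
  obtain ⟨U, hU⟩ := exists_kleinFour h
  have hHcard := card_normalizer_kleinFour h U hU
  set H := normalizer (U : Set G) with hH
  obtain ⟨y, hyH, hy⟩ := exists_mem_orderOf_eq H 3 (by rw [hHcard]; norm_num)
  have hRp : IsPGroup 3 (zpowers y) := by
    apply IsPGroup.of_card (n := 1)
    rw [Nat.card_zpowers, hy, pow_one]
  obtain ⟨R1, hR1⟩ := hRp.exists_le_sylow
  have hRR1 : zpowers y = R1 := by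
    apply eq_of_le_of_card_ge hR1
    rw [card3 h R1, Nat.card_zpowers, hy]
  have hRH : (R1 : Subgroup G) ≤ H := by rw [← hRR1, zpowers_le]; exact hyH
  -- N(R) ≤ H
  have hNle : normalizer ((R1 : Subgroup G) : Set G) ≤ H := by
    let R' : Sylow 3 H := R1.subtype hRH
    have e1 := card_normalizer_mul_nsyl R'
    have e2 : Nat.card H = 3 ^ 1 * 8 := by rw [hHcard]; norm_num
    have e3 := nsyl_mem e2 (by norm_num)
    have e4 : (Nat.divisors 8).filter (fun d => d % 3 = 1) = {1, 4} := by decide +kernel
    rw [e4] at e3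
    simp only [Finset.mem_insert, Finset.mem_singleton] at e3
    have e5 : (R' : Subgroup H) = (R1 : Subgroup G).subgroupOf H := rfl
    rw [e5, ← subgroupOf_normalizer_eq hRH, card_subgroupOf, hHcard] at e1
    have e6 : Nat.card ↥(normalizer ((R1 : Subgroup G) : Set G) ⊓ H) ≤ Nat.card (normalizer ((R1 : Subgroup G) : Set G)) :=
      card_le_of_le inf_le_left
    rw [cardN3 h R1] at e6
    have e7 : Nat.card ↥(normalizer ((R1 : Subgroup G) : Set G) ⊓ H) = 6 := by
      rcases e3 with e3 | e3
      · rw [e3] at e1; omega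
      · rw [e3] at e1; omega
    have e8 : normalizer ((R1 : Subgroup G) : Set G) ⊓ H = normalizer ((R1 : Subgroup G) : Set G) := by
      apply eq_of_le_of_card_ge inf_le_left
      rw [e7, cardN3 h R1]
    exact inf_eq_left.1 e8
  obtain ⟨g, hg⟩ := MulAction.exists_smul_eq G R1 R
  refine ⟨H.map (MulAut.conj g).toMonoidHom, by rw [card_map_conj, hHcard], ?_⟩
  rw [← hg, coe_smul_sylow, normalizer_map_conj]
  exact map_mono hNle

theorem le_normalizer_of_nsyl_one {M : Subgroup G} {p : ℕ} [Fact p.Prime] (P : Sylow p G) (hP : (P : Subgroup G) ≤ M)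
    (h1 : Nat.card (Sylow p M) = 1) : M ≤ normalizer ((P : Subgroup G) : Set G) := by
  let P' : Sylow p M := P.subtype hP
  have hn : (P' : Subgroup M).Normal := normal_of_nsyl_eq_one h1 P'
  have hn' : ((P : Subgroup G).subgroupOf M).Normal := hn
  exact le_normalizer_of_normal_subgroupOf hP

/-- `p` divides the order of `M`, and Sylow subgroups have order `p`: some Sylow subgroup of `G` lies in `M`. -/
theorem exists_sylow_le {M : Subgroup G} {p : ℕ} [Fact p.Prime] (hcard : ∀ P : Sylow p G, Nat.card (P : Subgroup G) = p)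
    (hd : p ∣ Nat.card M) : ∃ P : Sylow p G, (P : Subgroup G) ≤ M := by
  obtain ⟨y, hyH, hy⟩ := exists_mem_orderOf_eq M p hd
  have hRp : IsPGroup p (zpowers y) := by
    apply IsPGroup.of_card (n := 1)
    rw [Nat.card_zpowers, hy, pow_one]
  obtain ⟨R1, hR1⟩ := hRp.exists_le_sylow
  have hRR1 : zpowers y = R1 := by
    apply eq_of_le_of_card_ge hR1
    rw [hcard R1, Nat.card_zpowers, hy]
  exact ⟨R1, by rw [← hRR1, zpowers_le]; exact hyH⟩

theorem maximal_cases (h : Nat.card G = 168) (M : Subgroup G) (hM : IsCoatom M) :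
    Nonempty (↥M ≃* Equiv.Perm (Fin 4)) ∨ (Nat.card ↥M = 21 ∧ ¬ IsMulCommutative ↥M ∧
      ∃ Q : Sylow 7 G, M = normalizer ((Q : Subgroup G) : Set G)) := by
  have hidx := index_ge_seven h M hM.1
  have hmul := M.index_mul_card
  rw [h] at hmul
  have hle : Nat.card M ≤ 24 := by
    by_contra hcon
    push Not at hcon
    have : 7 * 25 ≤ M.index * Nat.card M := Nat.mul_le_mul hidx hcon
    omega
  have hdvd : Nat.card M ∣ 168 := Dvd.intro_left _ hmul
  have hMpos : 0 < Nat.card M := Nat.card_pos
  by_cases h7 : 7 ∣ Nat.card M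
  · right
    obtain ⟨Q, hQ⟩ := exists_sylow_le (card7 h) h7
    obtain ⟨k, hk⟩ := h7
    have hk3 : k ≤ 3 := by omega
    have hn1 : Nat.card (Sylow 7 M) = 1 := by
      have e1 : Nat.card M = 7 ^ 1 * k := by rw [hk]; norm_num
      have hk0 : k ≠ 0 := by rintro rfl; omega
      have e2 := nsyl_dvd e1 (fun hd => by have := Nat.le_of_dvd (by omega) hd; omega)
      have e3 := nsyl_mod 7 M
      have e4 := Nat.le_of_dvd (by omega) e2
      omega
    have hMN := le_normalizer_of_nsyl_one Q hQ hn1
    have hNt : normalizer ((Q : Subgroup G) : Set G) ≠ ⊤ := by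
      intro ht
      have := cardN7 h Q
      rw [ht, card_top, h] at this
      omega
    have hMe : M = normalizer ((Q : Subgroup G) : Set G) := by
      by_contra hne
      exact hNt (hM.2 _ (lt_of_le_of_ne hMN hne))
    refine ⟨by rw [hMe]; exact cardN7 h Q, ?_, Q, hMe⟩
    intro hc
    have h1 : M ≤ centralizer ((Q : Subgroup G) : Set G) :=
      (le_centralizer_of_comm hc).trans (centralizer_le hQ)
    have h2 := card_le_of_le h1
    rw [cardC7 h Q, hMe, cardN7 h Q] at h2
    omega
  · -- order divides 24
    left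
    have hd24 : Nat.card M ∣ 24 := by
      have e1 : Nat.Coprime (Nat.card M) 7 := ((Nat.Prime.coprime_iff_not_dvd (by norm_num : Nat.Prime 7)).2 h7).symm
      have e2 : Nat.card M ∣ 24 * 7 := by simpa using hdvd
      exact e1.dvd_of_dvd_mul_right e2
    by_cases h24 : Nat.card M = 24
    · apply Cfsg.Agent.S1012.result h24
      intro g hg
      exact no_order_six h (g : G) ((orderOf_coe g).trans hg)
    exfalso
    by_cases h3 : 3 ∣ Nat.card M
    · obtain ⟨R, hR⟩ := exists_sylow_le (card3 h) h3
      obtain ⟨k, hk⟩ := h3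
      have hk8 : k ∣ 8 := by
        rw [hk] at hd24
        exact Nat.dvd_of_mul_dvd_mul_left (by norm_num : 0 < 3) (by simpa using hd24)
      have hkle := Nat.le_of_dvd (by norm_num) hk8
      have e1 : Nat.card M = 3 ^ 1 * k := by rw [hk]; norm_num
      have e0 : ¬ 3 ∣ k := by
        intro hd
        have : 3 ∣ 8 := hd.trans hk8
        omega
      have e2 := nsyl_dvd e1 e0
      have e3 := nsyl_mod 3 M
      have e4 : Nat.card (Sylow 3 M) ∣ 8 := e2.trans hk8
      by_cases hn1 : Nat.card (Sylow 3 M) = 1
      · have hMN := le_normalizer_of_nsyl_one R hR hn1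
        obtain ⟨K, hK24, hKN⟩ := N3_le h R
        have hKt : K ≠ ⊤ := by
          rintro rfl
          rw [card_top, h] at hK24
          omega
        have hMe : M = K := by
          by_contra hne
          exact hKt (hM.2 _ (lt_of_le_of_ne (hMN.trans hKN) hne))
        rw [hMe] at h24
        exact h24 hK24
      · -- n_3 = 4, order 12
        have hn4 : Nat.card (Sylow 3 M) = 4 := by
          have := Nat.le_of_dvd (by norm_num) e4
          generalize Nat.card (Sylow 3 M) = n at *
          interval_cases n <;> omega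
        have hk4 : k = 4 := by
          rw [hn4] at e2
          obtain ⟨m, rfl⟩ := e2
          have : m ∣ 2 := Nat.dvd_of_mul_dvd_mul_left (by norm_num : 0 < 4) (by simpa using hk8)
          rcases (Nat.dvd_prime Nat.prime_two).1 this with h1 | h1
          · omega
          · rw [h1] at hk; omega
        have hM12 : Nat.card M = 12 := by rw [hk, hk4]
        -- elements of order 3
        have hS3 : ∀ P : Sylow 3 M, Nat.card (P : Subgroup M) = 3 := by
          intro P
          have := sylow_card_of e1 e0 P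
          rw [show Nat.card (P : Subgroup M) = 3 ^ 1 from this]; norm_num
        have h8 := card_orderOf_eq hS3
        rw [hn4] at h8
        have hM22 : Nat.card M = 2 ^ 2 * 3 := by rw [hM12]; norm_num
        -- Sylow 2-subgroup is unique
        have huniq : ∀ V : Sylow 2 M, ((V : Subgroup M) : Set M) = {g : M | orderOf g = 3}ᶜ := by
          intro V
          have hV4 : Nat.card (V : Subgroup M) = 4 := by
            have := sylow_card_of hM22 (by norm_num) V
            rw [show Nat.card (V : Subgroup M) = 2 ^ 2 from this]; norm_num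
          refine Set.eq_of_subset_of_ncard_le ?_ ?_ (Set.toFinite _)
          · intro x hx hx3
            have hx3' : orderOf x = 3 := hx3
            have := orderOf_dvd_card_of_mem (show x ∈ (V : Subgroup M) from hx)
            rw [hx3', hV4] at this
            omega
          · have e5 := Set.ncard_add_ncard_compl ({g : M | orderOf g = 3})
            have e6 : ({g : M | orderOf g = 3}).ncard = 8 := h8
            have e7 : ((V : Subgroup M) : Set M).ncard = 4 := hV4
            rw [hM12] at e5
            omega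
        obtain ⟨V⟩ : Nonempty (Sylow 2 M) := inferInstance
        have hVn : Nat.card (Sylow 2 M) = 1 := by
          rw [Nat.card_eq_one_iff_unique]
          refine ⟨⟨fun A B => ?_⟩, ⟨V⟩⟩
          apply Sylow.ext
          apply SetLike.coe_injective
          rw [huniq A, huniq B]
        have hVnormal := normal_of_nsyl_eq_one hVn V
        set W := (V : Subgroup M).map M.subtype with hW
        have hV4 : Nat.card (V : Subgroup M) = 4 := by
          have := sylow_card_of hM22 (by norm_num) V
          rw [show Nat.card (V : Subgroup M) = 2 ^ 2 from this]; norm_num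
        have hW4 : Nat.card W = 4 := by
          rw [← hV4]
          exact (Nat.card_congr ((V : Subgroup M).equivMapOfInjective _ M.subtype_injective).toEquiv).symm
        have hWM : W ≤ M := map_subtype_le _
        have hWsub : W.subgroupOf M = V := comap_map_eq_self_of_injective M.subtype_injective _
        have hWn : (W.subgroupOf M).Normal := by rw [hWsub]; exact hVnormal
        have hMW : M ≤ normalizer (W : Set G) := le_normalizer_of_normal_subgroupOf hWM
        have hWp : IsPGroup 2 W := IsPGroup.of_card (n := 2) (by rw [hW4]; norm_num)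
        obtain ⟨T, hT⟩ := hWp.exists_le_sylow
        have hTN := le_normalizer_of_card_four h T W hT hW4
        have hNt : normalizer (W : Set G) ≠ ⊤ := by
          apply normalizer_ne_top
          · intro hb; rw [hb] at hW4; simp at hW4
          · intro hb; rw [hb, card_top, h] at hW4; omega
        have hMe : M = normalizer (W : Set G) := by
          by_contra hne
          exact hNt (hM.2 _ (lt_of_le_of_ne hMW hne))
        have h9 := card_dvd_of_le hTN
        rw [card2 h T, ← hMe, hM12] at h9
        omega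
    · -- 2-group
      have hd8 : Nat.card M ∣ 2 ^ 3 := by
        have e1 : Nat.Coprime (Nat.card M) 3 := ((Nat.Prime.coprime_iff_not_dvd Nat.prime_three).2 h3).symm
        have e2 : Nat.card M ∣ 2 ^ 3 * 3 := by simpa using hd24
        exact e1.dvd_of_dvd_mul_right e2
      obtain ⟨k, hk, hk'⟩ := (Nat.dvd_prime_pow Nat.prime_two).1 hd8
      have hMp : IsPGroup 2 M := IsPGroup.of_card hk'
      obtain ⟨T, hT⟩ := hMp.exists_le_sylow
      obtain ⟨A, B, hAB, hA, hB, hAK, hBK, hall⟩ := exists_two_kleinFour_le h T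
      have hTN := le_normalizer_of_card_four h T A hA hAK.card_four
      have hN24 := card_normalizer_kleinFour h A hAK
      have hNt : normalizer (A : Set G) ≠ ⊤ := by
        intro ht
        rw [ht, card_top, h] at hN24
        omega
      have hMe : M = normalizer (A : Set G) := by
        by_contra hne
        exact hNt (hM.2 _ (lt_of_le_of_ne (hT.trans hTN) hne))
      rw [hMe, hN24] at h24
      exact h24 rfl

theorem normal_four_unique (h : Nat.card G = 168) (M U W : Subgroup G) (hM : Nat.card M = 24)
    (hU : U ≤ M) (hW : W ≤ M) (hUM : M ≤ normalizer (U : Set G)) (hWM : M ≤ normalizer (W : Set G))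
    (hU4 : Nat.card U = 4) (hW4 : Nat.card W = 4) : U = W := by
  by_contra hne
  -- the product is a normal 2-subgroup
  have hUn : (U.subgroupOf M).Normal := (normal_subgroupOf_iff_le_normalizer hU).2 hUM
  have hWn : (W.subgroupOf M).Normal := (normal_subgroupOf_iff_le_normalizer hW).2 hWM
  have hUp : IsPGroup 2 (U.subgroupOf M) := by
    apply IsPGroup.of_card (n := 2)
    rw [card_subgroupOf, inf_eq_left.2 hU, hU4]; norm_num
  have hWp : IsPGroup 2 (W.subgroupOf M) := by
    apply IsPGroup.of_card (n := 2)
    rw [card_subgroupOf, inf_eq_left.2 hW, hW4]; norm_num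
  have hUWp : IsPGroup 2 ↥((U.subgroupOf M) ⊔ (W.subgroupOf M)) := hUp.to_sup_of_normal_left hWp
  set K := ((U.subgroupOf M) ⊔ (W.subgroupOf M)).map M.subtype with hK
  have hKp : IsPGroup 2 K := hUWp.map _
  obtain ⟨T, hT⟩ := hKp.exists_le_sylow
  have hUK : U ≤ K := by
    intro x hx
    exact ⟨⟨x, hU hx⟩, mem_sup_left hx, rfl⟩
  have hWK : W ≤ K := by
    intro x hx
    exact ⟨⟨x, hW hx⟩, mem_sup_right hx, rfl⟩
  have h1 := card_dvd_of_le hUK
  have h2 := card_dvd_of_le hT
  rw [hU4] at h1
  rw [card2 h T] at h2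
  have h3 := Nat.le_of_dvd (by norm_num) h2
  have hKpos : 0 < Nat.card K := Nat.card_pos
  have hK4 : Nat.card K ≠ 4 := by
    intro h4
    apply hne
    have e1 : U = K := eq_of_le_of_card_ge hUK (by rw [h4, hU4])
    have e2 : W = K := eq_of_le_of_card_ge hWK (by rw [h4, hW4])
    rw [e1, ← e2]
  have hK8 : Nat.card K = 8 := by omega
  have hKT : K = T := eq_of_le_of_card_ge hT (by rw [hK8, card2 h T])
  have hKM : K ≤ M := map_subtype_le _
  have hKsub : K.subgroupOf M = (U.subgroupOf M) ⊔ (W.subgroupOf M) :=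
    comap_map_eq_self_of_injective M.subtype_injective _
  have hKn : (K.subgroupOf M).Normal := by rw [hKsub]; infer_instance
  have hMK : M ≤ normalizer (K : Set G) := le_normalizer_of_normal_subgroupOf hKM
  rw [hKT, N2_eq h T] at hMK
  have := card_le_of_le hMK
  rw [hM, card2 h T] at this
  omega

end Cfsg.Agent.Lib.Simple168
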