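import Mathlib.GroupTheory.Sylow
import Mathlib.GroupTheory.Subgroup.Simple
import Mathlib.GroupTheory.SpecificGroups.Cyclic
import Mathlib.GroupTheory.SpecificGroups.ZGroup
import Mathlib.GroupTheory.Index
import Mathlib.GroupTheory.Solvable
import Mathlib.Tactic

/-!
A finite group in which several primes divide the order exactly once and no two of them are joined in the
prime graph has a nonabelian simple section (two terms of a normal series) divisible by all of them.
-/

set_option autoImplicit false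

namespace Cfsg.Agent.Lib.SimpleSection

theorem relIndex_mul_card {G : Type*} [Group G] {H K : Subgroup G} (h : H ≤ K) :
    H.relIndex K * Nat.card H = Nat.card K := by
  have h1 := Subgroup.card_mul_index (H.subgroupOf K)
  rw [Nat.card_congr (Subgroup.subgroupOfEquivOfLe h).toEquiv] at h1
  rw [mul_comm]; exact h1

theorem card_sup_mul_card_inf {G : Type*} [Group G] [Finite G] (H K : Subgroup G) [K.Normal] :
    Nat.card (H ⊔ K : Subgroup G) * Nat.card (H ⊓ K : Subgroup G) = Nat.card H * Nat.card K := by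
  have h1 : K.relIndex (H ⊔ K) * Nat.card K = Nat.card (H ⊔ K : Subgroup G) := relIndex_mul_card le_sup_right
  have h2 : K.relIndex (H ⊔ K) = K.relIndex H := Subgroup.relIndex_sup_right H K
  have h3 : (H ⊓ K).relIndex H * Nat.card (H ⊓ K : Subgroup G) = Nat.card H := relIndex_mul_card inf_le_left
  have h4 : (H ⊓ K).relIndex H = K.relIndex H := Subgroup.inf_relIndex_left H K
  rw [← h1, h2, ← h3, h4]
  ring

/-- Frattini argument: adjacency in the prime graph. -/
theorem frattini_pq {G : Type*} [Group G] [Finite G] (N : Subgroup G) [N.Normal] (p q : ℕ) (hp : p.Prime)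
    (hq : q.Prime) (hpq : p ≠ q) (hpN : p ∣ Nat.card N) (hp2 : ¬ p ^ 2 ∣ Nat.card N) (hqN : ¬ q ∣ Nat.card N)
    (hqG : q ∣ Nat.card G) (hqp : ¬ q ∣ p - 1) : ∃ g : G, orderOf g = p * q := by
  have := Fact.mk hp
  have := Fact.mk hq
  obtain ⟨P⟩ : Nonempty (Sylow p N) := inferInstance
  let P' : Subgroup G := P.toSubgroup.map N.subtype
  have hfac : (Nat.card N).factorization p = 1 := by
    apply le_antisymm
    · by_contra h
      push Not at h
      exact hp2 ((Nat.Prime.pow_dvd_iff_le_factorization hp Nat.card_pos.ne').2 h)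
    · exact (Nat.Prime.dvd_iff_one_le_factorization hp Nat.card_pos.ne').1 hpN
  have hP' : Nat.card P' = p := by
    have h1 : Nat.card P' = Nat.card P.toSubgroup :=
      Nat.card_congr (P.toSubgroup.equivMapOfInjective N.subtype N.subtype_injective).toEquiv.symm
    rw [h1, P.card_eq_multiplicity, hfac, pow_one]
  let M : Subgroup G := Subgroup.normalizer (P' : Set G)
  have hfrat : M ⊔ N = ⊤ := Sylow.normalizer_sup_eq_top P
  have hqM : q ∣ Nat.card M := by
    have h1 := card_sup_mul_card_inf M N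
    rw [hfrat, Subgroup.card_top] at h1
    have h2 : q ∣ Nat.card M * Nat.card N := by
      rw [← h1]; exact hqG.mul_right _
    exact ((Nat.Prime.dvd_mul hq).1 h2).resolve_right hqN
  obtain ⟨x, hx⟩ := exists_prime_orderOf_dvd_card' q hqM
  -- the conjugation action on P'
  have hPM : P' ≤ M := Subgroup.le_normalizer
  have hcyc : IsCyclic P' := isCyclic_of_prime_card hP'
  obtain ⟨y, hy⟩ := exists_prime_orderOf_dvd_card' (G := P') p (by rw [hP'])
  have hn : (P'.subgroupOf M).Normal := inferInstanceAs ((P'.subgroupOf (Subgroup.normalizer (P' : Set G))).Normal)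
  let φ : M →* MulAut (P'.subgroupOf M) := MulAut.conjNormal
  have hcard : Nat.card (MulAut (P'.subgroupOf M)) = p - 1 := by
    have e : (P'.subgroupOf M) ≃* P' := Subgroup.subgroupOfEquivOfLe hPM
    have : IsCyclic (P'.subgroupOf M) := isCyclic_of_surjective e.symm.toMonoidHom e.symm.surjective
    rw [IsCyclic.card_mulAut, Nat.card_congr e.toEquiv, hP', Nat.totient_prime hp]
  have hfix : φ x = 1 := by
    have h1 : orderOf (φ x) ∣ q := hx ▸ orderOf_map_dvd φ x
    have h2 : orderOf (φ x) ∣ p - 1 := hcard ▸ orderOf_dvd_natCard (φ x)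
    rcases (Nat.dvd_prime hq).1 h1 with h | h
    · exact orderOf_eq_one_iff.1 h
    · rw [h] at h2; exact absurd h2 hqp
  have hcomm : (x : G) * y = y * x := by
    have h1 := congrArg (fun ψ : MulAut (P'.subgroupOf M) => ((ψ ⟨⟨y, hPM y.2⟩, y.2⟩ : P'.subgroupOf M) : M)) hfix
    simp only [φ, MulAut.conjNormal_apply, MulAut.one_apply] at h1
    have h2 : (x : G) * y * (x : G)⁻¹ = y := congrArg Subtype.val h1
    rw [mul_inv_eq_iff_eq_mul] at h2
    exact h2
  refine ⟨(y : G) * x, ?_⟩
  have hc : Commute (y : G) (x : G) := hcomm.symm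
  rw [hc.orderOf_mul_eq_mul_orderOf_of_coprime, Subgroup.orderOf_coe, Subgroup.orderOf_coe, hx, hy]
  rw [Subgroup.orderOf_coe, Subgroup.orderOf_coe, hx, hy]
  exact (Nat.coprime_primes hp hq).2 hpq

/-- The main lemma. -/
theorem exists_simple_section {G : Type*} [Group G] [Finite G] (π : Set ℕ)
    (hπ : ∀ p ∈ π, p.Prime ∧ p ∣ Nat.card G ∧ ¬ p ^ 2 ∣ Nat.card G)
    (hno : ∀ p ∈ π, ∀ q ∈ π, p ≠ q → ¬ q ∣ p - 1 ∧ ∀ g : G, orderOf g ≠ p * q)
    (p1 p2 : ℕ) (h1 : p1 ∈ π) (h2 : p2 ∈ π) (h12 : p1 ≠ p2) :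
    ∃ (N H : Subgroup G) (_ : N.Normal), H.Normal ∧ N < H ∧
      IsSimpleGroup (↥H ⧸ N.subgroupOf H) ∧ ¬ IsMulCommutative (↥H ⧸ N.subgroupOf H) ∧
      ∀ p ∈ π, p ∣ Nat.card (↥H ⧸ N.subgroupOf H) := by
  classical
  obtain ⟨hp1, hp1G, hp1sq⟩ := hπ p1 h1
  -- N maximal normal of order prime to p1
  let S : Set (Subgroup G) := {N | N.Normal ∧ ¬ p1 ∣ Nat.card N}
  have hbot : (⊥ : Subgroup G) ∈ S := ⟨inferInstance, by
    rw [Subgroup.card_bot]; exact hp1.not_dvd_one⟩
  obtain ⟨N, ⟨hNn, hNp⟩, hNmax⟩ := (Set.toFinite S).exists_maximal ⟨⊥, hbot⟩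
  -- H minimal normal above N
  let T : Set (Subgroup G) := {H | H.Normal ∧ N < H}
  have htop : (⊤ : Subgroup G) ∈ T := ⟨inferInstance, by
    refine lt_top_iff_ne_top.2 ?_
    rintro rfl
    exact hNp (by rwa [Subgroup.card_top])⟩
  obtain ⟨H, ⟨hHn, hNH⟩, hHmin⟩ := (Set.toFinite T).exists_minimal ⟨⊤, htop⟩
  have hp1H : p1 ∣ Nat.card H := by
    by_contra h
    exact hNH.not_ge (hNmax ⟨hHn, h⟩ hNH.le)
  have hnotsq : ∀ (q : ℕ) (K : Subgroup G), ¬ q ^ 2 ∣ Nat.card G → ¬ q ^ 2 ∣ Nat.card K := by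
    intro q K h h'
    exact h (h'.trans (Subgroup.card_subgroup_dvd_card K))
  have hqH : ∀ q ∈ π, q ∣ Nat.card H := by
    intro q hq
    by_contra h
    obtain ⟨hqp, hqG, hqsq⟩ := hπ q hq
    have hne : p1 ≠ q := by rintro rfl; exact h hp1H
    obtain ⟨g, hg⟩ := frattini_pq H p1 q hp1 hqp hne hp1H (hnotsq p1 H hp1sq) h hqG (hno p1 h1 q hq hne).1
    exact (hno p1 h1 q hq hne).2 g hg
  have hqN : ∀ q ∈ π, ¬ q ∣ Nat.card N := by
    intro q hq h
    obtain ⟨hqp, hqG, hqsq⟩ := hπ q hq
    have hne : q ≠ p1 := by rintro rfl; exact hNp h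
    obtain ⟨g, hg⟩ := frattini_pq N q p1 hqp hp1 hne h (hnotsq q N hqsq) hNp hp1G (hno q hq p1 h1 hne).1
    exact (hno q hq p1 h1 hne).2 g hg
  have hcardq : Nat.card H = Nat.card (↥H ⧸ N.subgroupOf H) * Nat.card N := by
    rw [Subgroup.card_eq_card_quotient_mul_card_subgroup (N.subgroupOf H)]
    congr 1
    exact Nat.card_congr (Subgroup.subgroupOfEquivOfLe hNH.le).toEquiv
  have hqq : ∀ q ∈ π, q ∣ Nat.card (↥H ⧸ N.subgroupOf H) := by
    intro q hq
    have h3 := hqH q hq
    rw [hcardq] at h3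
    exact ((Nat.Prime.dvd_mul (hπ q hq).1).1 h3).resolve_right (hqN q hq)
  have hNHn : (N.subgroupOf H).Normal := inferInstance
  -- normal subgroups of H of order prime to p1 are inside N
  have hKN : ∀ K : Subgroup H, K.Normal → ¬ p1 ∣ Nat.card K → K ≤ N.subgroupOf H := by
    -- the largest normal subgroup of H of order prime to p1
    let S' : Set (Subgroup H) := {K | K.Normal ∧ ¬ p1 ∣ Nat.card K}
    have hNS' : N.subgroupOf H ∈ S' := by
      refine ⟨inferInstance, ?_⟩
      rw [Nat.card_congr (Subgroup.subgroupOfEquivOfLe hNH.le).toEquiv]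
      exact hNp
    obtain ⟨M, ⟨hMn, hMp⟩, hMmax⟩ := (Set.toFinite S').exists_maximal ⟨_, hNS'⟩
    have hsup : ∀ K : Subgroup H, K.Normal → ¬ p1 ∣ Nat.card K → K ≤ M := by
      intro K hK hKp
      have h3 : K ⊔ M ∈ S' := by
        refine ⟨inferInstance, ?_⟩
        intro h
        have h4 := card_sup_mul_card_inf K M
        have h5 : p1 ∣ Nat.card K * Nat.card M := by
          rw [← h4]; exact h.mul_right _
        rcases (Nat.Prime.dvd_mul hp1).1 h5 with h6 | h6
        · exact hKp h6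
        · exact hMp h6
      exact le_sup_left.trans (hMmax h3 le_sup_right)
    -- M is normal in G
    have hMG : (M.map H.subtype).Normal := by
      refine ⟨?_⟩
      rintro _ ⟨r, hr, rfl⟩ g
      let φ : H ≃* H := MulAut.conjNormal g
      have h3 : (M.map φ.toMonoidHom).Normal := Subgroup.Normal.map hMn φ.toMonoidHom φ.surjective
      have h4 : Nat.card (M.map φ.toMonoidHom) = Nat.card M :=
        Nat.card_congr (M.equivMapOfInjective _ φ.injective).toEquiv.symm
      have h5 : M.map φ.toMonoidHom ≤ M := hsup _ h3 (by rwa [h4])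
      have h6 : φ r ∈ M := h5 ⟨r, hr, rfl⟩
      exact ⟨φ r, h6, rfl⟩
    have hMcard : Nat.card (M.map H.subtype) = Nat.card M :=
      Nat.card_congr (M.equivMapOfInjective _ H.subtype_injective).toEquiv.symm
    have hNM : N ≤ M.map H.subtype := by
      intro x hx
      have h3 : (⟨x, hNH.le hx⟩ : H) ∈ M := hsup _ hNS'.1 hNS'.2 hx
      exact ⟨_, h3, rfl⟩
    have hMeq : M.map H.subtype = N :=
      le_antisymm (hNmax ⟨hMG, by rwa [hMcard]⟩ hNM) hNM
    intro K hK hKp x hx
    have h3 := hsup K hK hKp hx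
    have h4 : (x : G) ∈ M.map H.subtype := ⟨x, h3, rfl⟩
    rw [hMeq] at h4
    exact h4
  -- minimal normal subgroups of H above N are everything
  have hmin : ∀ K : Subgroup H, K.Normal → N.subgroupOf H < K →
      (∀ L : Subgroup H, L.Normal → N.subgroupOf H < L → L ≤ K → L = K) → K = ⊤ := by
    intro K hK hNK hKmin
    have hp1K : p1 ∣ Nat.card K := by
      by_contra h
      exact hNK.not_ge (hKN K hK h)
    have hKG : (K.map H.subtype).Normal := by
      refine ⟨?_⟩
      rintro _ ⟨r, hr, rfl⟩ g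
      let φ : H ≃* H := MulAut.conjNormal g
      have h3 : (K.map φ.toMonoidHom).Normal := Subgroup.Normal.map hK φ.toMonoidHom φ.surjective
      have h4 : Nat.card (K.map φ.toMonoidHom) = Nat.card K :=
        Nat.card_congr (K.equivMapOfInjective _ φ.injective).toEquiv.symm
      have hNφ : N.subgroupOf H ≤ K.map φ.toMonoidHom := by
        intro x hx
        have hx' : (x : G) ∈ N := hx
        have h5 : g⁻¹ * x * g ∈ N := by
          have := hNn.conj_mem x hx' g⁻¹
          rwa [inv_inv] at this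
        have h6 : (⟨g⁻¹ * x * g, hNH.le h5⟩ : H) ∈ K := hNK.le h5
        refine ⟨_, h6, ?_⟩
        apply Subtype.ext
        show g * (g⁻¹ * (x : G) * g) * g⁻¹ = x
        group
      have h5 : K ⊓ K.map φ.toMonoidHom ≠ N.subgroupOf H := by
        intro h
        have h6 := card_sup_mul_card_inf K (K.map φ.toMonoidHom)
        rw [h, h4] at h6
        have h7 : Nat.card (N.subgroupOf H) = Nat.card N :=
          Nat.card_congr (Subgroup.subgroupOfEquivOfLe hNH.le).toEquiv
        have h8 : p1 ^ 2 ∣ Nat.card (K ⊔ K.map φ.toMonoidHom : Subgroup H) * Nat.card (N.subgroupOf H) := by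
          rw [h6, sq]
          exact Nat.mul_dvd_mul hp1K hp1K
        have h9 : p1 ^ 2 ∣ Nat.card (K ⊔ K.map φ.toMonoidHom : Subgroup H) := by
          apply Nat.Coprime.dvd_of_dvd_mul_right _ h8
          rw [h7]
          exact Nat.Coprime.pow_left 2 ((Nat.Prime.coprime_iff_not_dvd hp1).2 hNp)
        have h10 := h9.trans (Subgroup.card_subgroup_dvd_card (K ⊔ K.map φ.toMonoidHom : Subgroup H))
        exact hnotsq p1 H hp1sq h10
      have h6 : N.subgroupOf H < K ⊓ K.map φ.toMonoidHom :=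
        lt_of_le_of_ne (le_inf hNK.le hNφ) (Ne.symm h5)
      have h7 : K ⊓ K.map φ.toMonoidHom = K := hKmin _ inferInstance h6 inf_le_left
      have h8 : K = K.map φ.toMonoidHom := by
        apply Subgroup.eq_of_le_of_card_ge (inf_eq_left.1 h7)
        rw [h4]
      have h9 : φ r ∈ K := by rw [h8]; exact ⟨r, hr, rfl⟩
      exact ⟨φ r, h9, rfl⟩
    have hNKG : N < K.map H.subtype := by
      refine lt_of_le_of_ne ?_ ?_
      · intro x hx
        exact ⟨⟨x, hNH.le hx⟩, hNK.le hx, rfl⟩
      · intro h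
        apply hNK.not_ge
        intro x hx
        have : (x : G) ∈ K.map H.subtype := ⟨x, hx, rfl⟩
        rw [← h] at this
        exact this
    have hle := hHmin ⟨hKG, hNKG⟩ (Subgroup.map_subtype_le K)
    rw [eq_top_iff]
    intro x _
    obtain ⟨y, hy, hyx⟩ := hle x.2
    have : y = x := Subtype.ext hyx
    rwa [← this]
  have hsimple : IsSimpleGroup (↥H ⧸ N.subgroupOf H) := by
    have hnt : Nontrivial (↥H ⧸ N.subgroupOf H) := by
      rw [QuotientGroup.nontrivial_iff]
      intro h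
      apply hNH.not_ge
      intro x hx
      have : (⟨x, hx⟩ : H) ∈ (⊤ : Subgroup H) := trivial
      rw [← h] at this
      exact this
    refine { exists_pair_ne := hnt.exists_pair_ne, eq_bot_or_eq_top_of_normal := ?_ }
    intro R hR
    by_cases hR1 : R = ⊥
    · exact Or.inl hR1
    right
    let K : Subgroup H := R.comap (QuotientGroup.mk' (N.subgroupOf H))
    have hKn : K.Normal := hR.comap _
    have hNK : N.subgroupOf H ≤ K := by
      intro x hx
      show QuotientGroup.mk' (N.subgroupOf H) x ∈ R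
      have : QuotientGroup.mk' (N.subgroupOf H) x = 1 := by
        rw [QuotientGroup.mk'_apply, QuotientGroup.eq_one_iff]; exact hx
      rw [this]; exact R.one_mem
    have hne : N.subgroupOf H ≠ K := by
      intro h
      apply hR1
      rw [eq_bot_iff]
      intro r hr
      obtain ⟨x, rfl⟩ := QuotientGroup.mk'_surjective (N.subgroupOf H) r
      have hx : x ∈ K := hr
      rw [← h] at hx
      rw [Subgroup.mem_bot, QuotientGroup.mk'_apply, QuotientGroup.eq_one_iff]
      exact hx
    -- choose a minimal one below K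
    let U : Set (Subgroup H) := {L | L.Normal ∧ N.subgroupOf H < L ∧ L ≤ K}
    obtain ⟨L, ⟨hLn, hNL, hLK⟩, hLmin⟩ := (Set.toFinite U).exists_minimal ⟨K, hKn, lt_of_le_of_ne hNK hne, le_rfl⟩
    have hLtop := hmin L hLn hNL (fun L' h3 h4 h5 => le_antisymm h5 (hLmin ⟨h3, h4, h5.trans hLK⟩ h5))
    have hKtop : K = ⊤ := by
      rw [hLtop] at hLK
      exact top_le_iff.1 hLK
    rw [eq_top_iff]
    intro r _
    obtain ⟨x, rfl⟩ := QuotientGroup.mk'_surjective (N.subgroupOf H) r
    have : x ∈ K := by rw [hKtop]; trivial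
    exact this
  refine ⟨N, H, hNn, hHn, hNH, hsimple, ?_, hqq⟩
  intro hcomm
  have hp := by
    letI : CommGroup (↥H ⧸ N.subgroupOf H) :=
      { (inferInstance : Group (↥H ⧸ N.subgroupOf H)) with mul_comm := hcomm.is_comm.comm }
    exact IsSimpleGroup.prime_card (α := ↥H ⧸ N.subgroupOf H)
  have e1 := (Nat.prime_dvd_prime_iff_eq hp1 hp).1 (hqq p1 h1)
  have e2 := (Nat.prime_dvd_prime_iff_eq (hπ p2 h2).1 hp).1 (hqq p2 h2)
  exact h12 (e1.trans e2.symm)

end Cfsg.Agent.Lib.SimpleSection
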