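import Cfsg.Agent.Lib.Contrib
import Cfsg.Agent.Lib.BlockOsima
import Cfsg.Agent.Lib.BlockDefect
import Cfsg.Agent.Lib.CharApps
import Cfsg.Agent.Lib.Burnside
import Cfsg.Agent.Lib.H76Char
import Cfsg.Agent.Lib.ZassFeit4

/-!
# Groups whose order has three prime divisors, one of them to a small power (helper75)
-/

set_option autoImplicit false

universe u

namespace Cfsg.Agent.Lib.SmCof

open Cfsg CharBasic BlockRing BlockGA BlockIdem BlockOsima BlockDefect
open scoped ComplexConjugate

variable {G : Type u} [Group G] [Finite G] {M : Ideal AlgInt} {p : ℕ}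

theorem exists_linear_of_commutator (h : commutator G ≠ ⊤) :
    ∃ χ : IrrCharacter G, (χ : G → ℂ) ≠ (fun _ => 1) ∧ charDegree (χ : G → ℂ) = 1 := by
  classical
  have := Fintype.ofFinite G
  have hnt : Nontrivial (G ⧸ commutator G) := QuotientGroup.nontrivial_iff.mpr h
  have hcomm : ∀ p q : G ⧸ commutator G, p * q = q * p := by
    intro p q
    exact (inferInstance : CommGroup (Abelianization G)).mul_comm p q
  obtain ⟨ψ, hψ⟩ : ∃ ψ : IrrCharacter (G ⧸ commutator G),
      (ψ : G ⧸ commutator G → ℂ) ≠ fun _ => 1 := by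
    by_contra hcon
    push Not at hcon
    obtain ⟨x, hx⟩ := exists_ne (1 : G ⧸ commutator G)
    have := (isConj_iff_forall_irr x 1).mpr (fun χ => by rw [hcon χ])
    exact hx (isConj_one_left.mp this)
  refine ⟨⟨fun g => (ψ : G ⧸ commutator G → ℂ) (g : G ⧸ commutator G), ψ.2.inflate _⟩, ?_, ?_⟩
  · intro h
    apply hψ
    funext p
    obtain ⟨g, rfl⟩ := QuotientGroup.mk_surjective p
    exact congrFun h g
  · have h1 : (ψ : G ⧸ commutator G → ℂ) 1 = 1 := ψ.2.one_eq_one_of_comm hcomm
    rw [charDegree]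
    show ⌊((ψ : G ⧸ commutator G → ℂ) ((1 : G) : G ⧸ commutator G)).re⌋₊ = 1
    rw [QuotientGroup.mk_one, h1]
    simp

omit [Finite G] in
/-- the principal character as a member of `IrrCharacter G` -/
theorem one_mem (M : Ideal AlgInt) [M.IsPrime] :
    (⟨fun _ => 1, isIrrCharacter_fun_one⟩ : IrrCharacter G) ∈ principalBlock M G := by
  intro g
  rw [sub_self]
  exact idl_zero

theorem isPBlock_principal (M : Ideal AlgInt) : IsPBlock M (principalBlock M G) :=
  ⟨⟨fun _ => 1, isIrrCharacter_fun_one⟩, rfl⟩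

omit [Finite G] in
theorem charDegree_one : charDegree (fun _ : G => (1 : ℂ)) = 1 := by
  rw [charDegree]; simp

/-- If `p ^ 3` does not divide `|G|`, the members of the principal block have degree prime to
`p`. -/
theorem not_dvd_of_principal (hM : IsPModular p M) (h2 : (Nat.card G).factorization p ≤ 2)
    {χ : IrrCharacter G} (hχ : χ ∈ principalBlock M G) : ¬ p ∣ charDegree (χ : G → ℂ) := by
  have hMp := isPrime hM
  intro hd
  have hB := isPBlock_principal (G := G) M
  have hmin : vmin p (principalBlock M G) = 0 := by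
    have h := vmin_le (p := p) (one_mem (G := G) M)
    rw [vdeg] at h
    have h1 : charDegree (((⟨fun _ => 1, isIrrCharacter_fun_one⟩ : IrrCharacter G)) : G → ℂ) = 1 :=
      charDegree_one
    rw [h1, Nat.factorization_one] at h
    simpa using h
  have hv : 1 ≤ vdeg p χ := by
    rw [vdeg]
    exact (Nat.Prime.dvd_iff_one_le_factorization hM.1 (charDegree_spec χ.2).2).1 hd
  have hh : blockHeight p (principalBlock M G) (χ : G → ℂ) ≠ 0 := by
    rw [blockHeight_eq, hmin]
    omega
  have h3 := Contrib.height_le hM hB hχ hh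
  have h4 : blockDefect p (principalBlock M G) ≤ 2 := by
    rw [blockDefect_eq, hmin]
    omega
  omega

/-- If `p` divides `|G|` then for every prime `r` the principal `p`-block contains a
nonprincipal character of degree prime to `r`. -/
theorem exists_mem_not_dvd (hM : IsPModular p M) (hpG : p ∣ Nat.card G) {r : ℕ} (hr : r.Prime) :
    ∃ χ ∈ principalBlock M G, (χ : G → ℂ) ≠ (fun _ => 1) ∧ ¬ r ∣ charDegree (χ : G → ℂ) := by
  classical
  have hMp := isPrime hM
  have : Fact p.Prime := ⟨hM.1⟩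
  have : Fact r.Prime := ⟨hr⟩
  by_contra hcon
  push Not at hcon
  obtain ⟨y, hy⟩ := exists_prime_orderOf_dvd_card' p hpG
  obtain ⟨M', hM'⟩ := H76Char.exists_isPModular r
  have hMp' := isPrime hM'
  have h1 := weak_orthogonality hM (isPBlock_principal (G := G) M) (x := 1) (y := y)
    (by rw [orderOf_one]; exact hM.1.one_lt.ne' ∘ Nat.dvd_one.1) (by rw [hy])
  set e : IrrCharacter G := ⟨fun _ => 1, isIrrCharacter_fun_one⟩ with he
  rw [finsum_mem_eq_finite_toFinset_sum _ (Set.toFinite _)] at h1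
  have hmem : e ∈ (Set.toFinite (principalBlock M G)).toFinset := by
    rw [Set.Finite.mem_toFinset]
    exact one_mem M
  rw [← Finset.add_sum_erase _ _ hmem] at h1
  have h2 : MemLocalIdeal M' (∑ χ ∈ (Set.toFinite (principalBlock M G)).toFinset.erase e,
      (χ : G → ℂ) 1 * conj ((χ : G → ℂ) y)) := by
    apply idl_sum
    intro χ hχ
    rw [Finset.mem_erase, Set.Finite.mem_toFinset] at hχ
    have hne : (χ : G → ℂ) ≠ fun _ => 1 := by
      intro h
      exact hχ.1 (Subtype.ext h)
    have h3 := hcon χ hχ.2 hne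
    rw [(charDegree_spec χ.2).1]
    exact idl_mul_right ((idl_natCast_iff hM' _).2 h3) (loc_conj_value χ.2.isCharacter y)
  have h4 : (e : G → ℂ) 1 * conj ((e : G → ℂ) y) = ((1 : ℕ) : ℂ) := by
    simp [he]
  rw [h4] at h1
  have h5 : MemLocalIdeal M' ((1 : ℕ) : ℂ) := by
    rw [eq_neg_of_add_eq_zero_left h1]
    exact idl_neg h2
  rw [idl_natCast_iff hM'] at h5
  exact hr.one_lt.ne' (Nat.dvd_one.1 h5)

theorem degree_dvd (χ : IrrCharacter G) : charDegree (χ : G → ℂ) ∣ Nat.card G :=
  CharApps.irr_degree_dvd_card χ.2 (charDegree_spec χ.2).1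

/-- a divisor of `p ^ a * q ^ b * r ^ c` prime to `p` and `r` is a power of `q` -/
theorem eq_pow_of_dvd {p q r a b c n : ℕ} (hp : p.Prime) (hq : q.Prime) (hr : r.Prime)
    (hn : n ∣ p ^ a * q ^ b * r ^ c) (h1 : ¬ p ∣ n) (h2 : ¬ r ∣ n) : ∃ k, n = q ^ k := by
  have h3 : Nat.Coprime n (r ^ c) := Nat.Coprime.pow_right c ((Nat.Prime.coprime_iff_not_dvd hr).2 h2).symm
  have h4 := h3.dvd_of_dvd_mul_right hn
  have h5 : Nat.Coprime n (p ^ a) := Nat.Coprime.pow_right a ((Nat.Prime.coprime_iff_not_dvd hp).2 h1).symm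
  have h6 := h5.dvd_of_dvd_mul_left h4
  obtain ⟨k, -, hk⟩ := (Nat.dvd_prime_pow hq).1 h6
  exact ⟨k, hk⟩

theorem s4500_aux [Nontrivial G] (p q r a b c : ℕ) (hp : p.Prime) (hq : q.Prime) (hr : r.Prime)
    (hpq : p ≠ q) (hpr : p ≠ r) (ha : a ≤ 2) (hG : Nat.card G = p ^ a * q ^ b * r ^ c) :
    ∃ χ : Cfsg.IrrCharacter G, (χ : G → ℂ) ≠ (fun _ => 1) ∧
      ∃ k : ℕ, Cfsg.charDegree (χ : G → ℂ) = q ^ k := by
  by_cases hcom : commutator G = ⊤
  swap
  · obtain ⟨χ, h1, h2⟩ := exists_linear_of_commutator hcom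
    exact ⟨χ, h1, 0, by rw [h2, pow_zero]⟩
  have hpG : p ∣ Nat.card G := by
    by_contra hnd
    have ha0 : a = 0 := by
      by_contra h0
      apply hnd
      rw [hG, mul_assoc]
      exact dvd_mul_of_dvd_left (dvd_pow_self p h0) _
    rw [ha0, pow_zero, one_mul] at hG
    have hs : Group.IsSolvable G := Burnside.isSolvable_of_card_eq _ q r b c hq hr hG rfl
    have hlt : commutator G < ⊤ := Group.IsSolvable.commutator_lt_top_of_nontrivial G
    exact hlt.ne hcom
  have : Fact p.Prime := ⟨hp⟩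
  obtain ⟨M, hM⟩ := H76Char.exists_isPModular p
  obtain ⟨χ, hχ, h1, h2⟩ := exists_mem_not_dvd (G := G) hM hpG hr
  refine ⟨χ, h1, ?_⟩
  have hf : (Nat.card G).factorization p ≤ 2 := by
    have hp0 := hp.ne_zero
    have hq0 := hq.ne_zero
    have hr0 := hr.ne_zero
    rw [hG, Nat.factorization_mul (by positivity) (by positivity),
      Nat.factorization_mul (by positivity) (by positivity)]
    simp only [Finsupp.add_apply, Nat.factorization_pow, Finsupp.smul_apply,
      hp.factorization, hq.factorization, hr.factorization, smul_eq_mul]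
    rw [Finsupp.single_eq_same, Finsupp.single_eq_of_ne hpq, Finsupp.single_eq_of_ne hpr]
    omega
  have h3 := not_dvd_of_principal hM hf hχ
  have h4 := degree_dvd χ
  rw [hG] at h4
  exact eq_pow_of_dvd hp hq hr h4 h3 h2

end Cfsg.Agent.Lib.SmCof
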