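import Cfsg.Agent.Lib.SmCof1

/-!
# Characters of degree three of perfect groups; arithmetic for `|G| = 4 p^a q^b` (helper75)
-/

set_option autoImplicit false

universe u

namespace Cfsg.Agent.Lib.SmCof

open Cfsg CharBasic
open scoped ComplexConjugate

variable {G : Type u} [Group G] [Finite G]

theorem mat_three (A : Matrix (Fin 3) (Fin 3) ℂ) :
    A.trace ^ 2 - (A * A).trace = 2 * A.adjugate.trace := by
  rw [Matrix.adjugate_fin_three]
  simp only [Matrix.trace, Fin.sum_univ_three, Matrix.diag_apply, Matrix.mul_apply, Matrix.of_apply,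
    Matrix.cons_val', Matrix.cons_val_zero, Matrix.cons_val_one, Matrix.cons_val,
    Matrix.cons_val_fin_one]
  ring

/-- For a character of degree three of a perfect group, `χ(g)² - χ(g²) = 2 conj χ(g)`. -/
theorem three_dim (hG : commutator G = ⊤) {χ : G → ℂ} (hχ : IsCharacter G χ) (h3 : χ 1 = 3)
    (g : G) : χ g ^ 2 - χ (g * g) = 2 * conj (χ g) := by
  obtain ⟨n, ρ, rfl⟩ := hχ
  have hn : n = 3 := by
    have h1 : ρ.character 1 = (n : ℂ) := by
      rw [Representation.char_one]; simp
    rw [h1] at h3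
    exact_mod_cast h3
  subst hn
  -- the matrix of `ρ g`
  let Mt : G →* Matrix (Fin 3) (Fin 3) ℂ :=
    { toFun := fun x => LinearMap.toMatrix' (ρ x)
      map_one' := by rw [map_one]; exact LinearMap.toMatrix'_one
      map_mul' := fun x y => by rw [map_mul]; exact LinearMap.toMatrix'_mul _ _ }
  have htr : ∀ x, ρ.character x = (Mt x).trace := by
    intro x
    show LinearMap.trace ℂ _ (ρ x) = _
    rw [LinearMap.trace_eq_matrix_trace ℂ (Pi.basisFun ℂ (Fin 3))]
    rfl
  have hdet : ∀ x, (Mt x).det = 1 := by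
    intro x
    let d : G →* ℂˣ := (Units.map (Matrix.detMonoidHom : Matrix (Fin 3) (Fin 3) ℂ →* ℂ)).comp Mt.toHomUnits
    have hd : d = 1 := by
      ext y
      have hk : commutator G ≤ d.ker := Abelianization.commutator_subset_ker d
      rw [hG] at hk
      have := hk (Subgroup.mem_top y)
      rw [MonoidHom.mem_ker] at this
      rw [this]; rfl
    have h1 : ((d x : ℂˣ) : ℂ) = (Mt x).det := rfl
    rw [← h1, hd]; rfl
  rw [htr, htr, map_mul, mat_three]
  have hadj : (Mt g).adjugate = Mt g⁻¹ := by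
    have h1 : Mt g * Mt g⁻¹ = 1 := by rw [← map_mul, mul_inv_cancel, map_one]
    calc (Mt g).adjugate = (Mt g).adjugate * (Mt g * Mt g⁻¹) := by rw [h1, Matrix.mul_one]
      _ = ((Mt g).adjugate * Mt g) * Mt g⁻¹ := by rw [Matrix.mul_assoc]
      _ = Mt g⁻¹ := by rw [Matrix.adjugate_mul, hdet, one_smul, Matrix.one_mul]
  rw [hadj, matrix_trace_inv]

end Cfsg.Agent.Lib.SmCof
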