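import Mathlib

/-!
# Arithmetic for simple groups of order `4 p^a q^b` (helper75)
-/

set_option autoImplicit false

namespace Cfsg.Agent.Lib.SmCof

theorem arith3 {q i j k l : ℕ} (hq : q.Prime) (hi : i ≠ 0) (hj : j ≠ 0) {e1 e2 : ℤ}
    (he1 : e1 = 1 ∨ e1 = -1) (he2 : e2 = 1 ∨ e2 = -1)
    (h1 : e1 * 3 ^ i + e2 * (q : ℤ) ^ j = 2) (h2 : (q : ℤ) ^ j + e2 = 2 * 3 ^ k)
    (h3 : (3 : ℤ) ^ i + e1 = 2 * (q : ℤ) ^ l) : 3 ^ i = 3 ∧ q ^ j = 5 := by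
  obtain ⟨i', rfl⟩ := Nat.exists_eq_succ_of_ne_zero hi
  have hq5 : ¬ ((q : ℤ) ^ l = 5 ∧ (q : ℤ) ^ j = 7) := by
    rintro ⟨ha, hb⟩
    have ha' : q ^ l = 5 := by exact_mod_cast ha
    have hb' : q ^ j = 7 := by exact_mod_cast hb
    have h7 : q ∣ 7 := by rw [← hb']; exact dvd_pow_self q hj
    have hl : l ≠ 0 := by rintro rfl; simp at ha'
    have h5 : q ∣ 5 := by rw [← ha']; exact dvd_pow_self q hl
    have := Nat.dvd_gcd h7 h5
    norm_num at this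
    exact hq.one_lt.ne' this
  have hmain : (3 : ℤ) ^ (i' + 1) = 3 ∧ (q : ℤ) ^ j = 5 := by
    have hQ0 : (0 : ℤ) < (q : ℤ) ^ j := pow_pos (by exact_mod_cast hq.pos) _
    have hT0 : (0 : ℤ) < (3 : ℤ) ^ i' := pow_pos (by norm_num) _
    generalize (q : ℤ) ^ j = Q at h1 h2 hq5 hQ0 ⊢
    generalize (q : ℤ) ^ l = R at h3 hq5
    rcases k with _ | _ | k
    · rw [pow_zero] at h2
      rw [pow_succ] at h1 ⊢
      generalize (3 : ℤ) ^ i' = t at h1 hT0 ⊢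
      rcases he1 with rfl | rfl <;> rcases he2 with rfl | rfl <;> omega
    · norm_num at h2
      rw [pow_succ] at h1 h3 ⊢
      generalize (3 : ℤ) ^ i' = t at h1 h3 hT0 ⊢
      rcases he1 with rfl | rfl <;> rcases he2 with rfl | rfl <;> omega
    · rcases i' with _ | i'
      · rw [pow_succ, pow_succ] at h2
        have hS0 : (0 : ℤ) < (3 : ℤ) ^ k := pow_pos (by norm_num) _
        generalize (3 : ℤ) ^ k = s at h2 hS0
        norm_num at h1 h3 ⊢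
        rcases he1 with rfl | rfl <;> rcases he2 with rfl | rfl <;> omega
      · rw [pow_succ, pow_succ] at h2 h1 ⊢
        generalize (3 : ℤ) ^ k = s at h2
        generalize (3 : ℤ) ^ i' = t at h1 ⊢
        rcases he1 with rfl | rfl <;> rcases he2 with rfl | rfl <;> omega
  exact ⟨by exact_mod_cast hmain.1, by exact_mod_cast hmain.2⟩

theorem prime_dvd_pq {p q a b l : ℕ} (hp : p.Prime) (hq : q.Prime) (hl : l.Prime)
    (h : l ∣ p ^ a * q ^ b) : l = p ∨ l = q := by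
  rcases (Nat.Prime.dvd_mul hl).1 h with h | h
  · exact Or.inl ((Nat.prime_dvd_prime_iff_eq hl hp).1 (hl.dvd_of_dvd_pow h))
  · exact Or.inr ((Nat.prime_dvd_prime_iff_eq hl hq).1 (hl.dvd_of_dvd_pow h))

theorem arith4 {p q a b i j : ℕ} (hp : p.Prime) (hq : q.Prime) (hpq : p ≠ q) (hp2 : p ≠ 2)
    (hq2 : q ≠ 2) {x3 o w : ℕ} {e1 e2 e3 : ℤ} (he1 : e1 = 1 ∨ e1 = -1) (he2 : e2 = 1 ∨ e2 = -1)
    (he3 : e3 = 1 ∨ e3 = -1) (hi : i ≠ 0) (hj : j ≠ 0) (hx3 : 2 ≤ x3) (hx3d : x3 ∣ p ^ a * q ^ b)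
    (ho : o ∣ p ^ a * q ^ b) (hw : w ∣ o)
    (hsum : 1 + e1 * (p : ℤ) ^ i + e2 * (q : ℤ) ^ j + e3 * x3 = 0)
    (hf : ((p : ℤ) ^ a * (q : ℤ) ^ b) * (((p : ℤ) ^ i + e1) * ((q : ℤ) ^ j + e2) * (x3 + e3)) =
      8 * ((p : ℤ) ^ i * (q : ℤ) ^ j * x3 * w ^ 2 * o)) :
    x3 = 3 ∧ e3 = -1 ∧ ((p ^ i = 3 ∧ q ^ j = 5) ∨ (p ^ i = 5 ∧ q ^ j = 3)) ∧
      p ^ a * q ^ b = 15 * w ^ 2 * o := by
  have hgpos : 0 < p ^ a * q ^ b := Nat.mul_pos (pow_pos hp.pos a) (pow_pos hq.pos b)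
  have hopos : 0 < o := Nat.pos_of_dvd_of_pos ho hgpos
  have hwpos : 0 < w := Nat.pos_of_dvd_of_pos hw hopos
  have hpo : Odd p := hp.odd_of_ne_two hp2
  have hqo : Odd q := hq.odd_of_ne_two hq2
  have hgo : Odd (p ^ a * q ^ b) := (hpo.pow).mul (hqo.pow)
  have hx3o : Odd x3 := Odd.of_dvd_nat hgo hx3d
  have hoo : Odd o := Odd.of_dvd_nat hgo ho
  have hwo : Odd w := Odd.of_dvd_nat hoo hw
  have hx3' : 3 ≤ x3 := by
    rcases hx3o with ⟨m, hm⟩; omega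
  have hpi : Odd (p ^ i) := hpo.pow
  have hqj : Odd (q ^ j) := hqo.pow
  have hp3 : 3 ≤ p := by
    rcases hpo with ⟨m, hm⟩; have := hp.two_le; omega
  have hq3 : 3 ≤ q := by
    rcases hqo with ⟨m, hm⟩; have := hq.two_le; omega
  have hpi3 : 3 ≤ p ^ i := hp3.trans (Nat.le_self_pow hi p)
  have hqj3 : 3 ≤ q ^ j := hq3.trans (Nat.le_self_pow hj q)
  -- halves
  have half : ∀ (x : ℕ) (e : ℤ), Odd x → 3 ≤ x → (e = 1 ∨ e = -1) → ∃ Z : ℕ, 0 < Z ∧ (x : ℤ) + e = 2 * Z := by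
    intro x e hx h3 he
    obtain ⟨m, hm⟩ := hx
    rcases he with rfl | rfl
    · exact ⟨m + 1, by omega, by push_cast; omega⟩
    · exact ⟨m, by omega, by omega⟩
  obtain ⟨Z1, hZ1, hZ1'⟩ := half (p ^ i) e1 hpi hpi3 he1
  obtain ⟨Z2, hZ2, hZ2'⟩ := half (q ^ j) e2 hqj hqj3 he2
  obtain ⟨Z3, hZ3, hZ3'⟩ := half x3 e3 hx3o hx3' he3
  push_cast at hZ1' hZ2'
  rw [hZ1', hZ2', hZ3'] at hf
  have hprod : p ^ a * q ^ b * (Z1 * Z2 * Z3) = p ^ i * q ^ j * x3 * w ^ 2 * o := by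
    have : (8 : ℤ) * ((p : ℤ) ^ a * (q : ℤ) ^ b * (Z1 * Z2 * Z3)) =
        8 * ((p : ℤ) ^ i * (q : ℤ) ^ j * x3 * w ^ 2 * o) := by rw [← hf]; ring
    have h2 := mul_left_cancel₀ (by norm_num : (8 : ℤ) ≠ 0) this
    exact_mod_cast h2
  -- prime divisors
  have hpr : ∀ l : ℕ, l.Prime → l ∣ Z1 * Z2 * Z3 → l = p ∨ l = q := by
    intro l hl hd
    have h1 : l ∣ p ^ i * q ^ j * x3 * w ^ 2 * o := by
      rw [← hprod]; exact dvd_mul_of_dvd_right hd _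
    rcases (Nat.Prime.dvd_mul hl).1 h1 with h1 | h1
    · rcases (Nat.Prime.dvd_mul hl).1 h1 with h1 | h1
      · rcases (Nat.Prime.dvd_mul hl).1 h1 with h1 | h1
        · exact prime_dvd_pq hp hq hl h1
        · exact prime_dvd_pq hp hq hl (h1.trans hx3d)
      · exact prime_dvd_pq hp hq hl ((hl.dvd_of_dvd_pow h1).trans (hw.trans ho))
    · exact prime_dvd_pq hp hq hl (h1.trans ho)
  have hodd : Odd (Z1 * Z2 * Z3) := by
    have h1 : Odd (p ^ i * q ^ j * x3 * w ^ 2 * o) :=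
      ((((hpi.mul hqj).mul hx3o).mul hwo.pow).mul hoo)
    rw [← hprod] at h1
    exact (Nat.odd_mul.1 h1).2
  have hpint : Prime (p : ℤ) := Nat.prime_iff_prime_int.1 hp
  have hqint : Prime (q : ℤ) := Nat.prime_iff_prime_int.1 hq
  have hunit : ∀ {l : ℕ}, l.Prime → ∀ e : ℤ, (e = 1 ∨ e = -1) → ¬ (l : ℤ) ∣ e := by
    intro l hl e he hd
    have h1 : (l : ℤ) ∣ 1 := by
      rcases he with rfl | rfl
      · exact hd
      · exact (dvd_neg.2 hd).trans (by norm_num)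
    have h2 : l ∣ 1 := by exact_mod_cast h1
    exact hl.one_lt.ne' (Nat.dvd_one.1 h2)
  have hpZ1 : ¬ p ∣ Z1 := by
    intro hd
    have h1 : (p : ℤ) ∣ 2 * Z1 := Dvd.dvd.mul_left (by exact_mod_cast hd) _
    rw [← hZ1'] at h1
    exact hunit hp e1 he1 ((dvd_add_right (dvd_pow_self (p : ℤ) hi)).1 h1)
  have hqZ2 : ¬ q ∣ Z2 := by
    intro hd
    have h1 : (q : ℤ) ∣ 2 * Z2 := Dvd.dvd.mul_left (by exact_mod_cast hd) _
    rw [← hZ2'] at h1
    exact hunit hq e2 he2 ((dvd_add_right (dvd_pow_self (q : ℤ) hj)).1 h1)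
  -- `2 Z3 = - e3 (e1 p^i + e2 q^j)`
  have hZ3eq : 2 * (Z3 : ℤ) = - (e3 * (e1 * (p : ℤ) ^ i + e2 * (q : ℤ) ^ j)) := by
    rw [← hZ3']
    have he3' : e3 * e3 = 1 := by rcases he3 with rfl | rfl <;> norm_num
    linear_combination (e3) * hsum - (x3 : ℤ) * he3'
  have hcop : ∀ l : ℕ, l.Prime → ¬ (l : ℤ) ∣ e1 * (p : ℤ) ^ i + e2 * (q : ℤ) ^ j → ¬ l ∣ Z3 := by
    intro l hl hn hd
    have h1 : (l : ℤ) ∣ 2 * Z3 := Dvd.dvd.mul_left (by exact_mod_cast hd) _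
    rw [hZ3eq, dvd_neg] at h1
    rcases (Nat.prime_iff_prime_int.1 hl).dvd_or_dvd h1 with h | h
    · exact hunit hl e3 he3 h
    · exact hn h
  have hpZ3 : ¬ p ∣ Z3 := by
    apply hcop p hp
    intro hd
    have h1 := (dvd_add_right (Dvd.dvd.mul_left (dvd_pow_self (p : ℤ) hi) e1)).1 hd
    rcases hpint.dvd_or_dvd h1 with h | h
    · exact hunit hp e2 he2 h
    · have h2 : (p : ℤ) ∣ q := hpint.dvd_of_dvd_pow h
      have h3 : p ∣ q := by exact_mod_cast h2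
      exact hpq ((Nat.prime_dvd_prime_iff_eq hp hq).1 h3)
  have hqZ3 : ¬ q ∣ Z3 := by
    apply hcop q hq
    intro hd
    have h1 := (dvd_add_left (Dvd.dvd.mul_left (dvd_pow_self (q : ℤ) hj) e2)).1 hd
    rcases hqint.dvd_or_dvd h1 with h | h
    · exact hunit hq e1 he1 h
    · have h2 : (q : ℤ) ∣ p := hqint.dvd_of_dvd_pow h
      have h3 : q ∣ p := by exact_mod_cast h2
      exact hpq ((Nat.prime_dvd_prime_iff_eq hq hp).1 h3).symm
  have hZ31 : Z3 = 1 := by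
    by_contra h1
    obtain ⟨l, hl, hd⟩ := Nat.exists_prime_and_dvd h1
    rcases hpr l hl (dvd_mul_of_dvd_right hd _) with rfl | rfl
    · exact hpZ3 hd
    · exact hqZ3 hd
  subst hZ31
  have he3x : e3 = -1 ∧ x3 = 3 := by
    rcases he3 with rfl | rfl
    · exfalso; push_cast at hZ3'; omega
    · refine ⟨rfl, ?_⟩; push_cast at hZ3'; omega
  obtain ⟨rfl, rfl⟩ := he3x
  obtain ⟨k1, hk1⟩ : ∃ k, Z1 = q ^ k := by
    refine ⟨_, Nat.eq_prime_pow_of_unique_prime_dvd hZ1.ne' ?_⟩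
    intro l hl hd
    rcases hpr l hl (dvd_mul_of_dvd_left (dvd_mul_of_dvd_left hd _) _) with rfl | rfl
    · exact absurd hd hpZ1
    · rfl
  obtain ⟨k2, hk2⟩ : ∃ k, Z2 = p ^ k := by
    refine ⟨_, Nat.eq_prime_pow_of_unique_prime_dvd hZ2.ne' ?_⟩
    intro l hl hd
    rcases hpr l hl (dvd_mul_of_dvd_left (dvd_mul_of_dvd_right hd _) _) with rfl | rfl
    · rfl
    · exact absurd hd hqZ2
  have hs : e1 * (p : ℤ) ^ i + e2 * (q : ℤ) ^ j = 2 := by push_cast at hsum; linarith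
  refine ⟨rfl, rfl, ?_⟩
  have h3 : (3 : ℕ) = p ∨ 3 = q := prime_dvd_pq hp hq Nat.prime_three hx3d
  have hcase : (p ^ i = 3 ∧ q ^ j = 5) ∨ (p ^ i = 5 ∧ q ^ j = 3) := by
    rcases h3 with rfl | rfl
    · left
      refine arith3 (k := k2) (l := k1) hq hi hj he1 he2 ?_ ?_ ?_
      · exact_mod_cast hs
      · rw [hZ2', hk2]; push_cast; rfl
      · have := hZ1'
        rw [hk1] at this
        push_cast at this
        exact this
    · right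
      have := arith3 (q := p) (i := j) (j := i) (k := k1) (l := k2) hp hj hi he2 he1 ?_ ?_ ?_
      · exact ⟨this.2, this.1⟩
      · have h5 := hs
        push_cast at h5
        linarith
      · rw [hZ1', hk1]; push_cast; rfl
      · have := hZ2'
        rw [hk2] at this
        push_cast at this
        exact this
  refine ⟨hcase, ?_⟩
  rcases hcase with ⟨h5, h6⟩ | ⟨h5, h6⟩
  · have h7 : (p : ℤ) ^ i = 3 := by exact_mod_cast h5
    have h8 : (q : ℤ) ^ j = 5 := by exact_mod_cast h6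
    rw [h7] at hZ1' hs
    rw [h8] at hZ2' hs
    have hz : Z1 = 1 ∧ Z2 = 3 := by
      rcases he1 with rfl | rfl <;> rcases he2 with rfl | rfl <;> omega
    rw [hz.1, hz.2, h5, h6] at hprod
    nlinarith
  · have h7 : (p : ℤ) ^ i = 5 := by exact_mod_cast h5
    have h8 : (q : ℤ) ^ j = 3 := by exact_mod_cast h6
    rw [h7] at hZ1' hs
    rw [h8] at hZ2' hs
    have hz : Z1 = 3 ∧ Z2 = 1 := by
      rcases he1 with rfl | rfl <;> rcases he2 with rfl | rfl <;> omega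
    rw [hz.1, hz.2, h5, h6] at hprod
    nlinarith

end Cfsg.Agent.Lib.SmCof
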