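import Mathlib
import Cfsg.Prelude.Def_Characters
import Cfsg.Agent.Lib.CharBasic
import Cfsg.Agent.Lib.CharBasic2
import Cfsg.Agent.Lib.AvgChar
import Cfsg.Agent.Lib.ExtraChar
import Cfsg.Agent.Lib.Burnside

set_option autoImplicit false

/-!
# Degree bounds for abelian subgroups with disjoint centralizers (helper15)
-/

namespace Cfsg.Agent.Lib.TIAbelBound

open scoped ComplexConjugate
open CharBasic AvgChar

universe u

variable {G : Type u} [Group G] [Fintype G]

/-- `g` centralizes a nontrivial element of `H`. -/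
def CP (H : Subgroup G) (g : G) : Prop := ∃ h ∈ H, h ≠ 1 ∧ g * h = h * g

omit [Fintype G] in
theorem cp_iff (H : Subgroup G) (a g : G) :
    CP H (a⁻¹ * g * a) ↔
      Subgroup.centralizer ({g} : Set G) ⊓ H.map (MulAut.conj a).toMonoidHom ≠ ⊥ := by
  rw [ne_eq, Subgroup.eq_bot_iff_forall]
  push Not
  constructor
  · rintro ⟨h, hh, h1, hc⟩
    refine ⟨a * h * a⁻¹, ⟨?_, ⟨h, hh, rfl⟩⟩, ?_⟩
    · change a * h * a⁻¹ ∈ Subgroup.centralizer ({g} : Set G)
      rw [Subgroup.mem_centralizer_singleton_iff]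
      calc a * h * a⁻¹ * g = a * (h * (a⁻¹ * g * a)) * a⁻¹ := by group
        _ = a * (a⁻¹ * g * a * h) * a⁻¹ := by rw [hc]
        _ = g * (a * h * a⁻¹) := by group
    · intro h2
      apply h1
      have : h = a⁻¹ * (a * h * a⁻¹) * a := by group
      rw [this, h2]; group
  · rintro ⟨x, ⟨hx1, ⟨h, hh, rfl⟩⟩, hx2⟩
    refine ⟨h, hh, ?_, ?_⟩
    · rintro rfl
      apply hx2
      simp
    · have h1 : a * h * a⁻¹ * g = g * (a * h * a⁻¹) :=
        Subgroup.mem_centralizer_singleton_iff.mp hx1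
      calc a⁻¹ * g * a * h = a⁻¹ * (g * (a * h * a⁻¹)) * a := by group
        _ = a⁻¹ * (a * h * a⁻¹ * g) * a := by rw [h1]
        _ = h * (a⁻¹ * g * a) := by group

omit [Fintype G] in
theorem mem_normalizer_of_map_eq {H : Subgroup G} {a b : G}
    (h : H.map (MulAut.conj a).toMonoidHom = H.map (MulAut.conj b).toMonoidHom) :
    a⁻¹ * b ∈ Subgroup.normalizer (H : Set G) := by
  rw [Subgroup.mem_normalizer_iff]
  intro x
  constructor
  · intro hx
    have h1 : b * x * b⁻¹ ∈ H.map (MulAut.conj a).toMonoidHom := by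
      rw [h]; exact ⟨x, hx, rfl⟩
    obtain ⟨y, hy, hy2⟩ := h1
    have h2 : a * y * a⁻¹ = b * x * b⁻¹ := hy2
    have h3 : a⁻¹ * b * x * (a⁻¹ * b)⁻¹ = y := by
      calc a⁻¹ * b * x * (a⁻¹ * b)⁻¹ = a⁻¹ * (b * x * b⁻¹) * a := by group
        _ = a⁻¹ * (a * y * a⁻¹) * a := by rw [h2]
        _ = y := by group
    rw [h3]; exact hy
  · intro hx
    have h1 : a * (a⁻¹ * b * x * (a⁻¹ * b)⁻¹) * a⁻¹ ∈ H.map (MulAut.conj b).toMonoidHom := by
      rw [← h]; exact ⟨_, hx, rfl⟩
    obtain ⟨y, hy, hy2⟩ := h1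
    have h2 : b * y * b⁻¹ = a * (a⁻¹ * b * x * (a⁻¹ * b)⁻¹) * a⁻¹ := hy2
    have h3 : x = y := by
      calc x = b⁻¹ * (a * (a⁻¹ * b * x * (a⁻¹ * b)⁻¹) * a⁻¹) * b := by group
        _ = b⁻¹ * (b * y * b⁻¹) * b := by rw [h2]
        _ = y := by group
    rw [h3]; exact hy

variable (H : Subgroup G)
  (hZ : H ⊓ Subgroup.center G = ⊥)
  (hone : ∀ g : G, g ∉ Subgroup.center G → ∀ a b : G,
    Subgroup.centralizer ({g} : Set G) ⊓ H.map (MulAut.conj a).toMonoidHom ≠ ⊥ →
    Subgroup.centralizer ({g} : Set G) ⊓ H.map (MulAut.conj b).toMonoidHom ≠ ⊥ →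
    H.map (MulAut.conj a).toMonoidHom = H.map (MulAut.conj b).toMonoidHom)

include hZ hone

omit [Fintype G] in
/-- Centralizing a nontrivial element of `H` implies normalizing `H`. -/
theorem cp_mem_normalizer {g : G} (hg : CP H g) : g ∈ Subgroup.normalizer (H : Set G) := by
  obtain ⟨h, hh, h1, hc⟩ := hg
  have hnc : h ∉ Subgroup.center G := by
    intro hcen
    have : h ∈ H ⊓ Subgroup.center G := ⟨hh, hcen⟩
    rw [hZ] at this
    exact h1 (Subgroup.mem_bot.mp this)
  have e1 : Subgroup.centralizer ({h} : Set G) ⊓ H.map (MulAut.conj (1 : G)).toMonoidHom ≠ ⊥ := by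
    rw [← cp_iff]
    exact ⟨h, hh, h1, by simp⟩
  have e2 : Subgroup.centralizer ({h} : Set G) ⊓ H.map (MulAut.conj g).toMonoidHom ≠ ⊥ := by
    rw [← cp_iff]
    refine ⟨h, hh, h1, ?_⟩
    have h2 : g⁻¹ * h * g = h := by
      rw [mul_assoc, ← hc]; group
    rw [h2]
  have := mem_normalizer_of_map_eq (hone h hnc 1 g e1 e2)
  simpa using this

omit hZ in
/-- Double counting. -/
theorem double_count (F : G → ℝ) (hF : ∀ g, 0 ≤ F g)
    (hconj : ∀ g a, F (a * g * a⁻¹) = F g) [DecidablePred (CP H)]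
    [DecidablePred (fun g => g ∈ Subgroup.center G)] :
    (Nat.card G : ℝ) * ∑ g ∈ Finset.univ.filter (fun g => CP H g ∧ g ∉ Subgroup.center G), F g ≤
      Nat.card (Subgroup.normalizer (H : Set G)) *
        ∑ g ∈ Finset.univ.filter (fun g => g ∉ Subgroup.center G), F g := by
  classical
  have h1 : ∑ a : G, ∑ g ∈ Finset.univ.filter (fun g => CP H g ∧ g ∉ Subgroup.center G),
      F (a * g * a⁻¹) = (Nat.card G : ℝ) *
      ∑ g ∈ Finset.univ.filter (fun g => CP H g ∧ g ∉ Subgroup.center G), F g := by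
    simp only [hconj]
    rw [Finset.sum_const, Finset.card_univ, nsmul_eq_mul, Nat.card_eq_fintype_card]
  rw [← h1]
  have h2 : ∀ a : G, ∑ g ∈ Finset.univ.filter (fun g => CP H g ∧ g ∉ Subgroup.center G),
      F (a * g * a⁻¹) = ∑ x : G, if (CP H (a⁻¹ * x * a) ∧ a⁻¹ * x * a ∉ Subgroup.center G)
        then F x else 0 := by
    intro a
    rw [Finset.sum_filter]
    refine Fintype.sum_equiv (MulAut.conj a).toEquiv _ _ ?_
    intro g
    have : a⁻¹ * ((MulAut.conj a).toEquiv g) * a = g := by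
      simp [MulAut.conj_apply, mul_assoc]
    rw [this]
    rfl
  simp only [h2]
  rw [Finset.sum_comm, Finset.mul_sum, Finset.sum_filter]
  apply Finset.sum_le_sum
  intro x _
  by_cases hx : x ∉ Subgroup.center G
  · -- x not central
    rw [if_pos hx, ← Finset.sum_filter, Finset.sum_const, nsmul_eq_mul]
    apply mul_le_mul_of_nonneg_right _ (hF x)
    norm_cast
    rcases Finset.eq_empty_or_nonempty (Finset.univ.filter
      (fun a : G => CP H (a⁻¹ * x * a) ∧ a⁻¹ * x * a ∉ Subgroup.center G)) with he | ⟨a0, ha0⟩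
    · rw [he, Finset.card_empty]; exact Nat.zero_le _
    · rw [Finset.mem_filter] at ha0
      rw [Nat.card_eq_fintype_card, ← Finset.card_univ]
      have hmem : ∀ a ∈ Finset.univ.filter (fun a : G => CP H (a⁻¹ * x * a) ∧
          a⁻¹ * x * a ∉ Subgroup.center G), a0⁻¹ * a ∈ Subgroup.normalizer (H : Set G) := by
        intro a ha
        rw [Finset.mem_filter] at ha
        exact mem_normalizer_of_map_eq (hone x hx a0 a ((cp_iff H a0 x).mp ha0.2.1)
          ((cp_iff H a x).mp ha.2.1))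
      refine Finset.card_le_card_of_injOn
        (fun a => if h : a0⁻¹ * a ∈ Subgroup.normalizer (H : Set G) then
          (⟨a0⁻¹ * a, h⟩ : Subgroup.normalizer (H : Set G)) else 1)
        (fun _ _ => Finset.mem_coe.mpr (Finset.mem_univ _)) ?_
      intro a ha b hb hab'
      simp only [dif_pos (hmem a (Finset.mem_coe.mp ha)),
        dif_pos (hmem b (Finset.mem_coe.mp hb)), Subtype.mk.injEq] at hab'
      exact mul_left_cancel hab'
  · -- x central
    rw [if_neg hx]
    push Not at hx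
    apply le_of_eq
    apply Finset.sum_eq_zero
    intro a _
    rw [if_neg]
    rintro ⟨-, h⟩
    apply h
    have : a⁻¹ * x * a = x := by
      rw [mul_assoc, ← Subgroup.mem_center_iff.mp hx a]; group
    rw [this]; exact hx

open scoped Classical in
/-- The bound `χ(1)² > |H| c²`. -/
theorem main {χ : G → ℂ} (hχ : IsIrrCharacter G χ) (hker : ∃ h ∈ H, χ h ≠ χ 1) :
    (Nat.card H : ℝ) * (classInner (fun h : H => χ h) (fun _ => 1)).re ^ 2 < (χ 1).re ^ 2 := by
  obtain ⟨d, hd0, hd⟩ := hχ.exists_degree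
  set N : Subgroup G := Subgroup.normalizer (H : Set G) with hN
  have hHN : H ≤ N := Subgroup.le_normalizer
  let K : Subgroup N := H.subgroupOf N
  have hKn : K.Normal := inferInstance
  have hH' : ∃ h ∈ H, h ≠ 1 := by
    obtain ⟨h, hh, hne⟩ := hker
    exact ⟨h, hh, fun h1 => hne (by rw [h1])⟩
  let χ' : N → ℂ := fun n => χ n
  have hχ' : IsCharacter N χ' := hχ.isCharacter.restrict N
  obtain ⟨hξ, hψ, -⟩ := decomp K hχ'
  set ξ := avg K χ' with hξd
  set ψ := χ' - ξ with hψd
  have hcardK : Nat.card K = Nat.card H := Nat.card_congr (Subgroup.subgroupOfEquivOfLe hHN).toEquiv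
  -- value of ξ on elements z h
  obtain ⟨c, hc⟩ := (hχ.isCharacter.restrict H).classInner_nat isCharacter_one
  have hc' : classInner (fun h : H => χ h) (fun _ => 1) = c := hc
  have hsumH : ∑ h : H, χ h = Nat.card H * c := by
    have h1 : (Nat.card H : ℂ) ≠ 0 := by exact_mod_cast Nat.card_pos.ne'
    rw [← hc']
    unfold classInner
    rw [mul_inv_cancel_left₀ h1]
    simp
  obtain ⟨μ, hμ⟩ := ExtraChar.exists_central_hom hχ
  have hξval : ∀ (n : N) (h : G) (z : Subgroup.center G), h ∈ H → (n : G) = h * z →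
      ξ n = μ z * c := by
    intro n h z hh hn
    have h1 : ∑ k : K, χ' (n * k) = μ z * ∑ k : H, χ k := by
      rw [Finset.mul_sum]
      refine Fintype.sum_equiv
        ((Subgroup.subgroupOfEquivOfLe hHN).toEquiv.trans (Equiv.mulLeft (⟨h, hh⟩ : H))) _ _ ?_
      intro k
      have h2 : χ' (n * k) = χ ((h * ((k : N) : G)) * z) := by
        change χ ((n : G) * ((k : N) : G)) = _
        rw [hn]
        congr 1
        have := Subgroup.mem_center_iff.mp z.2 ((k : N) : G)
        rw [mul_assoc, mul_assoc, ← this]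
      rw [h2, hμ]
      rfl
    rw [hξd, avg, h1, hsumH, hcardK]
    have h1 : (Nat.card H : ℂ) ≠ 0 := by exact_mod_cast Nat.card_pos.ne'
    field_simp
  have hμnorm : ∀ z : Subgroup.center G, ‖(μ z : ℂ)‖ = 1 := fun z =>
    (isCharacter_of_unitsHom μ).norm_of_linear (by simp) z
  -- norms on N
  have hNpos : (0 : ℝ) < Nat.card N := by exact_mod_cast Nat.card_pos
  have hnorm : ∀ f : N → ℂ, ∑ g : N, ‖f g‖ ^ 2 = Nat.card N * (classInner f f).re := by
    intro f
    rw [classInner_self, Complex.ofReal_re, mul_inv_cancel_left₀ hNpos.ne']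
  have hdec : ∑ g : N, ‖χ' g‖ ^ 2 = ∑ g : N, ‖ξ g‖ ^ 2 + ∑ g : N, ‖ψ g‖ ^ 2 := by
    rw [hnorm, hnorm, hnorm, norm_decomp K hχ', Complex.add_re, mul_add]
  have hψ0 : ψ ≠ 0 := by
    intro h0
    obtain ⟨h, hh, hne⟩ := hker
    have h1 := congrFun h0 ⟨h, hHN hh⟩
    have h2 := congrFun h0 1
    simp only [hψd, Pi.sub_apply, Pi.zero_apply, sub_eq_zero] at h1 h2
    rw [hξval _ h 1 hh (by simp)] at h1
    rw [hξval _ 1 1 H.one_mem (by simp)] at h2
    exact hne (h1.trans h2.symm)
  have hψn : (Nat.card N : ℝ) ≤ ∑ g : N, ‖ψ g‖ ^ 2 := by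
    obtain ⟨m, hm⟩ := hψ.classInner_nat hψ
    have hm0 : m ≠ 0 := by
      rintro rfl
      rw [Nat.cast_zero] at hm
      exact hψ0 (classInner_self_eq_zero.mp hm)
    rw [hnorm, hm, Complex.natCast_re]
    have : (1 : ℝ) ≤ m := by exact_mod_cast Nat.one_le_iff_ne_zero.mpr hm0
    nlinarith
  have hfree : ∀ g : N, ¬ CP H g → ξ g = χ' g := by
    intro g hg
    apply avg_eq_of_free K hχ'.isClassFunction g
    intro h hh hcomm
    by_contra hne
    apply hg
    refine ⟨h, hh, fun h1 => hne (Subtype.ext h1), congrArg Subtype.val hcomm⟩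
  have hP : ∑ g ∈ Finset.univ.filter (fun g : N => CP H g), ‖χ' g‖ ^ 2 =
      ∑ g ∈ Finset.univ.filter (fun g : N => CP H g), ‖ξ g‖ ^ 2 + ∑ g : N, ‖ψ g‖ ^ 2 := by
    have h1 := Finset.sum_filter_add_sum_filter_not Finset.univ (fun g : N => CP H g)
      (fun g => ‖χ' g‖ ^ 2)
    have h2 := Finset.sum_filter_add_sum_filter_not Finset.univ (fun g : N => CP H g)
      (fun g => ‖ξ g‖ ^ 2)
    have h3 : ∑ g ∈ Finset.univ.filter (fun g : N => ¬ CP H g), ‖χ' g‖ ^ 2 =
        ∑ g ∈ Finset.univ.filter (fun g : N => ¬ CP H g), ‖ξ g‖ ^ 2 := by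
      apply Finset.sum_congr rfl
      intro g hg
      rw [hfree g (Finset.mem_filter.mp hg).2]
    linarith
  have hξge : (Nat.card H : ℝ) * Nat.card (Subgroup.center G) * (c : ℝ) ^ 2 ≤
      ∑ g ∈ Finset.univ.filter (fun g : N => CP H g), ‖ξ g‖ ^ 2 := by
    obtain ⟨h0, hh0, hne0⟩ := hH'
    have hzN : ∀ z : Subgroup.center G, (z : G) ∈ N := fun z =>
      cp_mem_normalizer H hZ hone ⟨h0, hh0, hne0, (Subgroup.mem_center_iff.mp z.2 h0).symm⟩
    let e : H × Subgroup.center G → N := fun x => ⟨x.1 * x.2, N.mul_mem (hHN x.1.2) (hzN x.2)⟩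
    have he : Function.Injective e := by
      rintro ⟨h, z⟩ ⟨h', z'⟩ heq
      have h1 : (h : G) * z = h' * z' := congrArg Subtype.val heq
      have h2 : (h' : G)⁻¹ * h = z' * (z : G)⁻¹ := by
        rw [inv_mul_eq_iff_eq_mul, ← mul_assoc, ← h1, mul_inv_cancel_right]
      have h3 : (h' : G)⁻¹ * h ∈ H ⊓ Subgroup.center G := by
        refine ⟨H.mul_mem (H.inv_mem h'.2) h.2, ?_⟩
        rw [h2]
        exact (Subgroup.center G).mul_mem z'.2 ((Subgroup.center G).inv_mem z.2)
      rw [hZ, Subgroup.mem_bot] at h3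
      have h4 : (h : G) = h' := (inv_mul_eq_one.mp h3).symm
      rw [h3] at h2
      have h5 : (z' : G) = z := mul_inv_eq_one.mp h2.symm
      exact Prod.ext (Subtype.ext h4) (Subtype.ext h5.symm)
    have h1 : ∑ x : H × Subgroup.center G, ‖ξ (e x)‖ ^ 2 =
        (Nat.card H : ℝ) * Nat.card (Subgroup.center G) * (c : ℝ) ^ 2 := by
      have h2 : ∀ x : H × Subgroup.center G, ‖ξ (e x)‖ ^ 2 = (c : ℝ) ^ 2 := by
        rintro ⟨h, z⟩
        rw [hξval (e (h, z)) h z h.2 rfl, norm_mul, hμnorm, one_mul, Complex.norm_natCast]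
      rw [Finset.sum_congr rfl (fun x _ => h2 x), Finset.sum_const, Finset.card_univ,
        Fintype.card_prod, nsmul_eq_mul, Nat.card_eq_fintype_card, Nat.card_eq_fintype_card]
      push_cast
      ring
    rw [← h1, ← Finset.sum_image (f := fun g => ‖ξ g‖ ^ 2) (fun x _ y _ h => he h)]
    apply Finset.sum_le_sum_of_subset_of_nonneg
    · intro g hg
      rw [Finset.mem_image] at hg
      obtain ⟨⟨h, z⟩, -, rfl⟩ := hg
      rw [Finset.mem_filter]
      refine ⟨Finset.mem_univ _, ?_⟩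
      change CP H ((h : G) * z)
      by_cases h1 : (h : G) = 1
      · refine ⟨h0, hh0, hne0, ?_⟩
        rw [h1, one_mul]
        exact (Subgroup.mem_center_iff.mp z.2 h0).symm
      · refine ⟨h, h.2, h1, ?_⟩
        rw [mul_assoc, Subgroup.mem_center_iff.mp z.2 h]
    · intro _ _ _
      positivity
  -- sums over G
  let F : G → ℝ := fun g => ‖χ g‖ ^ 2
  have hFZ : ∀ z ∈ Subgroup.center G, F z = (d : ℝ) ^ 2 := by
    intro z hz
    have h1 := hμ ⟨z, hz⟩ 1
    rw [one_mul] at h1
    change ‖χ z‖ ^ 2 = _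
    rw [h1, norm_mul, hμnorm, one_mul, hd, Complex.norm_natCast]
  have hGpos : (0 : ℝ) < Nat.card G := by exact_mod_cast Nat.card_pos
  have hFG : ∑ g : G, F g = Nat.card G := by
    have h1 := hχ.classInner_self
    rw [classInner_self] at h1
    have h2 : (Nat.card G : ℝ)⁻¹ * ∑ g : G, ‖χ g‖ ^ 2 = 1 := by exact_mod_cast h1
    field_simp at h2
    exact h2
  have hZsum : ∑ g ∈ Finset.univ.filter (fun g => g ∈ Subgroup.center G), F g =
      Nat.card (Subgroup.center G) * (d : ℝ) ^ 2 := by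
    rw [Finset.sum_congr rfl (fun g hg => hFZ g (Finset.mem_filter.mp hg).2), Finset.sum_const,
      nsmul_eq_mul, Nat.card_eq_fintype_card, Fintype.card_subtype]
  have hZc : ∑ g ∈ Finset.univ.filter (fun g => g ∉ Subgroup.center G), F g =
      Nat.card G - Nat.card (Subgroup.center G) * (d : ℝ) ^ 2 := by
    have h1 := Finset.sum_filter_add_sum_filter_not Finset.univ (fun g => g ∈ Subgroup.center G) F
    linarith
  have hPG : ∑ g ∈ Finset.univ.filter (fun g => CP H g), F g =
      ∑ g ∈ Finset.univ.filter (fun g : N => CP H g), ‖χ' g‖ ^ 2 := by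
    symm
    refine Finset.sum_bij (fun g _ => (g : G)) ?_ ?_ ?_ ?_
    · intro g hg
      rw [Finset.mem_filter] at hg ⊢
      exact ⟨Finset.mem_univ _, hg.2⟩
    · intro a _ b _ h
      exact Subtype.ext h
    · intro g hg
      rw [Finset.mem_filter] at hg
      exact ⟨⟨g, cp_mem_normalizer H hZ hone hg.2⟩, Finset.mem_filter.mpr ⟨Finset.mem_univ _, hg.2⟩,
        rfl⟩
    · intro g _
      rfl
  have hPZ : ∑ g ∈ Finset.univ.filter (fun g => CP H g ∧ g ∉ Subgroup.center G), F g =
      ∑ g ∈ Finset.univ.filter (fun g => CP H g), F g -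
        Nat.card (Subgroup.center G) * (d : ℝ) ^ 2 := by
    obtain ⟨h0, hh0, hne0⟩ := hH'
    rw [← hZsum]
    have h1 := Finset.sum_filter_add_sum_filter_not (Finset.univ.filter (fun g => CP H g))
      (fun g => g ∈ Subgroup.center G) F
    rw [Finset.filter_filter, Finset.filter_filter] at h1
    have h2 : Finset.univ.filter (fun g => CP H g ∧ g ∈ Subgroup.center G) =
        Finset.univ.filter (fun g => g ∈ Subgroup.center G) := by
      ext g
      simp only [Finset.mem_filter, Finset.mem_univ, true_and, and_iff_right_iff_imp]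
      intro hg
      exact ⟨h0, hh0, hne0, (Subgroup.mem_center_iff.mp hg h0).symm⟩
    rw [h2] at h1
    linarith
  have hdc := double_count H hone F (fun g => by positivity)
    (fun g a => by change ‖χ (a * g * a⁻¹)‖ ^ 2 = ‖χ g‖ ^ 2; rw [hχ.isClassFunction])
  rw [hPZ, hPG, hP, hZc] at hdc
  rw [hc', hd, Complex.natCast_re, Complex.natCast_re]
  have hZpos : (0 : ℝ) < Nat.card (Subgroup.center G) := by exact_mod_cast Nat.card_pos
  have hdpos : (0 : ℝ) < (d : ℝ) ^ 2 := by
    have : (0 : ℝ) < d := by exact_mod_cast hd0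
    positivity
  by_contra hcon
  push Not at hcon
  have h1 : (Nat.card G : ℝ) * (Nat.card H * Nat.card (Subgroup.center G) * (c : ℝ) ^ 2 +
      Nat.card N - Nat.card (Subgroup.center G) * (d : ℝ) ^ 2) ≤
      Nat.card N * (Nat.card G - Nat.card (Subgroup.center G) * (d : ℝ) ^ 2) := by
    refine le_trans (mul_le_mul_of_nonneg_left ?_ hGpos.le) hdc
    linarith
  have h2 : 0 ≤ (Nat.card G : ℝ) * (Nat.card (Subgroup.center G) *
      (Nat.card H * (c : ℝ) ^ 2 - (d : ℝ) ^ 2)) :=
    mul_nonneg hGpos.le (mul_nonneg hZpos.le (by linarith))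
  have h3 : 0 < (Nat.card N : ℝ) * (Nat.card (Subgroup.center G) * (d : ℝ) ^ 2) :=
    mul_pos hNpos (mul_pos hZpos hdpos)
  nlinarith

omit hZ hone in
/-- The norm of a character of an abelian group is at least its degree. -/
theorem degree_le_norm [Fintype H] (hab : ∀ a ∈ H, ∀ b ∈ H, a * b = b * a) {χ : G → ℂ}
    (hχ : IsCharacter G χ) : (χ 1).re ≤ (classInner (fun h : H => χ h) (fun h : H => χ h)).re := by
  classical
  obtain ⟨c, hc, hχc⟩ := (hχ.restrict H).exists_coeff
  have h1 : classInner (fun h : H => χ h) (fun h : H => χ h) =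
      ((∑ φ : IrrCharacter H, (c φ : ℤ) * (c φ : ℤ) : ℤ) : ℂ) :=
    classInner_eq_sum_coeff (hχ.restrict H).isClassFunction (fun φ => by rw [hc]; rfl)
      (fun φ => by rw [hc]; rfl)
  have h2 : χ 1 = ((∑ φ : IrrCharacter H, (c φ : ℤ) : ℤ) : ℂ) := by
    have h3 := congrFun hχc 1
    rw [Finset.sum_apply] at h3
    have h4 : ∀ φ : IrrCharacter H, ((c φ : ℂ) • (φ : H → ℂ)) 1 = c φ := by
      intro φ
      rw [Pi.smul_apply, φ.2.one_eq_one_of_comm (fun a b => Subtype.ext (hab a a.2 b b.2)),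
        smul_eq_mul, mul_one]
    rw [Finset.sum_congr rfl (fun φ _ => h4 φ)] at h3
    rw [show χ 1 = χ ((1 : H) : G) from rfl, h3]
    push_cast; rfl
  rw [h1, h2, Complex.intCast_re, Complex.intCast_re]
  have h3 : ∑ φ : IrrCharacter H, (c φ : ℤ) ≤ ∑ φ : IrrCharacter H, (c φ : ℤ) * (c φ : ℤ) := by
    apply Finset.sum_le_sum
    intro φ _
    exact_mod_cast Nat.le_mul_self (c φ)
  exact_mod_cast h3

omit [Group G] [Fintype G] hZ hone in
theorem natCast_mul_re' (n : ℕ) (z : ℂ) : ((n : ℂ) * z).re = (n : ℝ) * z.re := by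
  rw [Complex.mul_re, Complex.natCast_re, Complex.natCast_im, zero_mul, sub_zero]

/-- The second bound. -/
theorem main2 [Fintype H] (hab : ∀ a ∈ H, ∀ b ∈ H, a * b = b * a) {χ : G → ℂ}
    (hχ : IsIrrCharacter G χ) (h1 : χ 1 ≠ 1)
    (hnorm : ∀ M : Subgroup G, M.Normal → H ≤ M → M = ⊤) :
    (Nat.card H : ℝ) < (1 + (χ 1).re) ^ 2 := by
  classical
  obtain ⟨d, hd0, hd⟩ := hχ.exists_degree
  have hd1 : 1 < d := by
    rcases Nat.lt_or_ge 1 d with h | h
    · exact h
    · exfalso
      apply h1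
      rw [hd, show d = 1 by omega, Nat.cast_one]
  -- the character χ * conj χ
  let ω : G → ℂ := χ * fun g => conj (χ g)
  have hω : IsCharacter G ω := hχ.isCharacter.mul hχ.isCharacter.conj
  obtain ⟨a, ha, hωa⟩ := hω.exists_coeff
  let one' : IrrCharacter G := ⟨fun _ => 1, isIrrCharacter_fun_one⟩
  have ha1 : a one' = 1 := by
    have h2 : classInner ω (one' : G → ℂ) = classInner χ χ := by
      unfold classInner
      simp [ω, one']
    rw [ha, hχ.classInner_self] at h2
    exact_mod_cast h2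
  let cc : IrrCharacter G → ℝ := fun θ => (classInner (fun h : H => (θ : G → ℂ) h) (fun _ => 1)).re
  have hker : ∀ θ : IrrCharacter G, θ ≠ one' → ∃ h ∈ H, (θ : G → ℂ) h ≠ (θ : G → ℂ) 1 := by
    intro θ hθ
    by_contra hcon
    push Not at hcon
    obtain ⟨_, n, ρ, hρ, rfl⟩ := θ
    have h3 : MonoidHom.ker ρ = ⊤ := by
      apply hnorm _ inferInstance
      intro h hh
      rw [MonoidHom.mem_ker]
      have h4 := hcon h hh
      change ρ.character h = ρ.character 1 at h4
      rw [Representation.char_one] at h4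
      exact (CharValues.character_eq_finrank_iff ρ h).mp h4
    apply hθ
    apply Subtype.ext
    exact Burnside.character_eq_one_of_trivial ρ (fun x => by
      have : x ∈ MonoidHom.ker ρ := by rw [h3]; trivial
      exact this)
  have hbound : ∀ θ : IrrCharacter G, θ ≠ one' →
      Real.sqrt (Nat.card H) * cc θ < ((θ : G → ℂ) 1).re := by
    intro θ hθ
    have h3 := main H hZ hone θ.2 (hker θ hθ)
    obtain ⟨e, he0, he⟩ := θ.2.exists_degree
    rw [he, Complex.natCast_re] at h3 ⊢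
    have h4 : Real.sqrt (Nat.card H) * cc θ ≤ Real.sqrt ((Nat.card H : ℝ) * (cc θ) ^ 2) := by
      rw [Real.sqrt_mul (by positivity), Real.sqrt_sq_eq_abs]
      exact mul_le_mul_of_nonneg_left (le_abs_self _) (Real.sqrt_nonneg _)
    refine lt_of_le_of_lt h4 ?_
    rw [Real.sqrt_lt' (by exact_mod_cast he0)]
    convert h3 using 3
    exact congrArg Complex.re (by unfold classInner; congr!)
  -- sum of degrees
  have hdeg : ∑ θ ∈ Finset.univ.erase one', (a θ : ℝ) * ((θ : G → ℂ) 1).re = (d : ℝ) ^ 2 - 1 := by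
    have h3 := congrFun hωa 1
    rw [Finset.sum_apply, ← Finset.add_sum_erase _ _ (Finset.mem_univ one')] at h3
    have h4 : ω 1 = (d : ℂ) ^ 2 := by
      change χ 1 * conj (χ 1) = _
      rw [hd, Complex.conj_natCast]; ring
    have h5 : ((a one' : ℂ) • (one' : G → ℂ)) 1 = 1 := by
      rw [Pi.smul_apply, ha1]; simp [one']
    rw [h4, h5] at h3
    have h6 := congrArg Complex.re h3
    rw [Complex.add_re, Complex.one_re, Complex.re_sum] at h6
    have h7 : ((d : ℂ) ^ 2).re = (d : ℝ) ^ 2 := by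
      rw [← Nat.cast_pow, Complex.natCast_re]; push_cast; rfl
    rw [h7] at h6
    have h8 : ∀ θ : IrrCharacter G, (((a θ : ℂ) • (θ : G → ℂ)) 1).re =
        (a θ : ℝ) * ((θ : G → ℂ) 1).re := by
      intro θ
      rw [Pi.smul_apply, smul_eq_mul, natCast_mul_re']
    simp only [h8] at h6
    linarith
  -- sum of multiplicities
  have hmult : ∑ θ ∈ Finset.univ.erase one', (a θ : ℝ) * cc θ =
      (classInner (fun h : H => χ h) (fun h : H => χ h)).re - 1 := by
    have h3 : classInner (fun h : H => ω h) (fun _ => 1) =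
        classInner (fun h : H => χ h) (fun h : H => χ h) := by
      unfold classInner
      simp [ω]
    have h4 : (fun h : H => ω h) = ∑ θ : IrrCharacter G, (a θ : ℂ) • (fun h : H => (θ : G → ℂ) h) := by
      funext h
      conv_lhs => rw [hωa]
      rw [Finset.sum_apply, Finset.sum_apply]
      rfl
    rw [← h3, h4, classInner_sum_left, ← Finset.add_sum_erase _ _ (Finset.mem_univ one'),
      Complex.add_re, Complex.re_sum]
    have h5 : (classInner ((a one' : ℂ) • (fun h : H => (one' : G → ℂ) h)) (fun _ => 1)).re = 1 := by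
      rw [classInner_smul_left, ha1]
      have h6 := isIrrCharacter_fun_one (G := H).classInner_self
      have h7 : classInner (fun h : H => (one' : G → ℂ) h) (fun _ => 1) = 1 := h6
      rw [h7]; simp
    rw [h5, add_sub_cancel_left]
    apply Finset.sum_congr rfl
    intro θ _
    rw [classInner_smul_left, natCast_mul_re']
  -- strictness
  have hd1' : (1 : ℝ) < d := by exact_mod_cast hd1
  have hlt : ∑ θ ∈ Finset.univ.erase one', Real.sqrt (Nat.card H) * ((a θ : ℝ) * cc θ) <
      ∑ θ ∈ Finset.univ.erase one', (a θ : ℝ) * ((θ : G → ℂ) 1).re := by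
    have hex : ∃ θ ∈ Finset.univ.erase one', a θ ≠ 0 := by
      by_contra hcon
      push Not at hcon
      rw [Finset.sum_eq_zero (fun θ hθ => by rw [hcon θ hθ]; simp)] at hdeg
      nlinarith
    obtain ⟨θ, hθ, hθ0⟩ := hex
    apply Finset.sum_lt_sum
    · intro θ hθ
      have h3 := hbound θ (Finset.mem_erase.mp hθ).1
      have h4 : (0 : ℝ) ≤ a θ := by positivity
      nlinarith
    · refine ⟨θ, hθ, ?_⟩
      have h3 := hbound θ (Finset.mem_erase.mp hθ).1
      have h4 : (0 : ℝ) < a θ := by exact_mod_cast Nat.pos_of_ne_zero hθ0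
      nlinarith
  rw [← Finset.mul_sum, hmult, hdeg] at hlt
  have h3 := degree_le_norm H hab hχ.isCharacter
  rw [hd, Complex.natCast_re] at h3 ⊢
  have h4 : Real.sqrt (Nat.card H) * ((d : ℝ) - 1) < ((d : ℝ) + 1) * (d - 1) := by
    have h5 := mul_le_mul_of_nonneg_left (show (d : ℝ) - 1 ≤
      (classInner (fun h : H => χ h) (fun h : H => χ h)).re - 1 by linarith)
      (Real.sqrt_nonneg (Nat.card H))
    nlinarith
  have h5 : Real.sqrt (Nat.card H) < 1 + d := by
    have := lt_of_mul_lt_mul_right h4 (by linarith)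
    linarith
  exact (Real.sqrt_lt' (by linarith)).mp h5

end Cfsg.Agent.Lib.TIAbelBound
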