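import Mathlib
import Cfsg.Prelude.Def_Characters
import Cfsg.Prelude.Def_CharExt
import Cfsg.Agent.Lib.CharBasic
import Cfsg.Agent.Lib.CharBasic2
import Cfsg.Agent.Lib.CharGalois
import Cfsg.Agent.Lib.CharApps
import Cfsg.Agent.Lib.CliffordAb
import Cfsg.Agent.Lib.CliffordCorr
import Cfsg.Agent.Lib.DetChar
import Cfsg.Agent.Lib.TIAbelBound

set_option autoImplicit false

/-!
# Linear groups of small degree: coprime action (helper15)
-/

namespace Cfsg.Agent.Lib.SmallDeg

open scoped ComplexConjugate commutatorElement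
open CharBasic

universe u

/-- A character of an abelian `p`-group, of degree less than `p - 1`, invariant under all
power maps prime to `p`, is trivial. -/
theorem trivial_of_pow_stable {C : Type u} [Group C] [Finite C] {p : ℕ} (hp : p.Prime)
    (hC : IsPGroup p C) (hcomm : ∀ a b : C, a * b = b * a) {φ : C → ℂ} (hφ : IsCharacter C φ)
    {m : ℕ} (hm : φ 1 = m) (hmp : m + 1 < p)
    (hpow : ∀ (t : ℕ), t.Coprime p → ∀ c : C, φ (c ^ t) = φ c) (c : C) : φ c = m := by
  classical
  have : Fintype C := Fintype.ofFinite C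
  have : Fact p.Prime := ⟨hp⟩
  obtain ⟨k, hk⟩ := IsPGroup.iff_card.mp hC
  obtain ⟨a, ha, hφa⟩ := hφ.exists_coeff
  have hlin : ∀ ν : IrrCharacter C, (ν : C → ℂ) 1 = 1 := fun ν => ν.2.one_eq_one_of_comm hcomm
  have hsum : ∑ ν : IrrCharacter C, a ν = m := by
    have h1 := congrFun hφa 1
    rw [hm, Finset.sum_apply] at h1
    have h2 : ∀ ν : IrrCharacter C, ((a ν : ℂ) • (ν : C → ℂ)) 1 = a ν := fun ν => by
      rw [Pi.smul_apply, hlin, smul_eq_mul, mul_one]
    rw [Finset.sum_congr rfl (fun ν _ => h2 ν)] at h1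
    exact_mod_cast h1.symm
  have htriv : ∀ ν : IrrCharacter C, a ν ≠ 0 → (ν : C → ℂ) = 1 := by
    intro ν hν
    by_contra hne
    obtain ⟨f, hf⟩ := ν.2.isCharacter.exists_hom (hlin ν)
    -- powers of f
    let e : ℕ → IrrCharacter C := fun t => ⟨fun c => ((f ^ t) c : ℂ), isIrrCharacter_of_unitsHom _⟩
    have he1 : ∀ t, ∀ c, (e t : C → ℂ) c = (f c : ℂ) ^ t := by
      intro t c
      simp [e]
    have hae : ∀ t : ℕ, t.Coprime p → a (e t) = a ν := by
      intro t ht
      have h1 : classInner φ (e t : C → ℂ) = classInner φ (ν : C → ℂ) := by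
        unfold classInner
        congr 1
        have hcop : (Nat.card C).Coprime t := by
          rw [hk]; exact (Nat.Coprime.pow_left k ht.symm)
        refine Fintype.sum_equiv (powCoprime hcop) _ _ ?_
        intro c
        rw [powCoprime_apply, hpow t ht, he1, hf, map_pow]
        simp
      rw [ha, ha] at h1
      exact_mod_cast h1
    have hfk : f ^ p ^ k = 1 := by
      ext c
      rw [MonoidHom.pow_apply, ← map_pow, ← hk, pow_card_eq_one', map_one]; rfl
    have hf1 : f ≠ 1 := by
      rintro rfl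
      apply hne
      funext c
      rw [hf]; rfl
    have hinj : Set.InjOn e (Finset.Icc 1 (p - 1)) := by
      have key : ∀ i j : ℕ, 1 ≤ i → i < j → j ≤ p - 1 → e i ≠ e j := by
        intro i j hi hij hj heq
        have h1 : f ^ i = f ^ j := by
          ext c
          have h2 := congrFun (congrArg Subtype.val heq) c
          exact h2
        have h2 : f ^ (j - i) = 1 := by
          apply MonoidHom.ext
          intro c
          rw [MonoidHom.pow_apply, MonoidHom.one_apply]
          have h3 : f c ^ i * f c ^ (j - i) = f c ^ i * 1 := by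
            rw [← pow_add, Nat.add_sub_cancel' hij.le, mul_one]
            exact (DFunLike.congr_fun h1 c).symm
          exact mul_left_cancel h3
        have h3 : Nat.Coprime (j - i) (p ^ k) := by
          apply Nat.Coprime.pow_right
          apply Nat.Coprime.symm
          rw [Nat.Prime.coprime_iff_not_dvd hp]
          intro hd
          have := Nat.le_of_dvd (by omega) hd
          omega
        have h4 : orderOf f ∣ 1 := by
          rw [← h3]
          exact Nat.dvd_gcd (orderOf_dvd_of_pow_eq_one h2) (orderOf_dvd_of_pow_eq_one hfk)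
        exact hf1 (orderOf_eq_one_iff.mp (Nat.dvd_one.mp h4))
      intro i hi j hj heq
      rw [Finset.mem_coe, Finset.mem_Icc] at hi hj
      rcases lt_trichotomy i j with h | h | h
      · exact absurd heq (key i j hi.1 h hj.2)
      · exact h
      · exact absurd heq.symm (key j i hj.1 h hi.2)
    have h1 : ∑ t ∈ Finset.Icc 1 (p - 1), a (e t) ≤ m := by
      rw [← hsum, ← Finset.sum_image (f := a) hinj]
      exact Finset.sum_le_sum_of_subset (Finset.subset_univ _)
    have h2 : ∀ t ∈ Finset.Icc 1 (p - 1), a (e t) = a ν := by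
      intro t ht
      rw [Finset.mem_Icc] at ht
      apply hae
      apply Nat.Coprime.symm
      rw [Nat.Prime.coprime_iff_not_dvd hp]
      intro hd
      have := Nat.le_of_dvd (by omega) hd
      omega
    rw [Finset.sum_congr rfl h2, Finset.sum_const, Nat.card_Icc, smul_eq_mul] at h1
    have h3 : 1 ≤ a ν := Nat.one_le_iff_ne_zero.mpr hν
    have h4 : (p - 1 + 1 - 1) * 1 ≤ (p - 1 + 1 - 1) * a ν := Nat.mul_le_mul_left _ h3
    omega
  rw [hφa, Finset.sum_apply, ← hsum]
  push_cast
  apply Finset.sum_congr rfl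
  intro ν _
  by_cases hν : a ν = 0
  · rw [hν]; simp
  · rw [Pi.smul_apply, htriv ν hν]; simp

variable {X : Type u} [Group X] [Finite X]

/-- Rationality of the determinant-normalized extension at the `p`-part. -/
theorem pow_stable {p k m : ℕ} (hp : p.Prime) (M : Subgroup X) [M.Normal]
    (hM : (Nat.card M).Coprime p) {x : X} (hx : x ^ p ^ k = 1)
    (hcard : Nat.card X ∣ Nat.card M * p ^ k)
    {ψ : X → ℂ} (hψ : IsIrrCharacter X ψ) (hm : ψ 1 = m) (hm0 : 0 < m) (hmp : m < p)
    (hθ : IsIrrCharacter M (fun n : M => ψ n)) (hdet : detChar ψ x = 1)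
    (t : ℕ) (ht : t.Coprime p) (j : ℕ) : ψ ((x ^ j) ^ t) = ψ (x ^ j) := by
  classical
  have : Fintype X := Fintype.ofFinite X
  have : Fintype M := Fintype.ofFinite M
  obtain ⟨r, hr1, hr2⟩ := Nat.chineseRemainder (Nat.Coprime.pow_right k hM) 1 t
  have hrp : r.Coprime (p ^ k) := by
    rcases Nat.eq_zero_or_pos k with rfl | hk
    · simp
    · rw [Nat.coprime_pow_right_iff hk]
      have h1 : r ≡ t [MOD p] := hr2.of_dvd (dvd_pow_self p hk.ne')
      rw [Nat.Coprime, h1.gcd_eq]
      exact ht
  have hrM : r.Coprime (Nat.card M) := by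
    rw [Nat.Coprime, hr1.gcd_eq, Nat.gcd_one_left]
  have hrX : r.Coprime (Nat.card X) := Nat.Coprime.coprime_dvd_right hcard (hrM.mul_right hrp)
  have hψr := CharGalois.isIrrCharacter_pow hψ hrX
  have hresM : ∀ n : M, ψ ((n : X) ^ r) = ψ n := by
    intro n
    have h1 : (n : X) ^ r = n := by
      have h2 : (n : X) ^ Nat.card M = 1 := by
        have : n ^ Nat.card M = 1 := pow_card_eq_one'
        exact congrArg Subtype.val this
      have h3 := pow_mod_orderOf (n : X) r
      have h4 : r ≡ 1 [MOD orderOf (n : X)] := hr1.of_dvd (orderOf_dvd_of_pow_eq_one h2)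
      rw [pow_eq_pow_iff_modEq.mpr h4, pow_one]
    rw [h1]
  have hcon : classInner (indFun M (fun n : M => ψ n)) (fun g => ψ (g ^ r)) ≠ 0 := by
    rw [IndFun.frobenius_reciprocity M _ _ hψr.isClassFunction]
    have : (fun n : M => ψ ((n : X) ^ r)) = fun n : M => ψ n := funext hresM
    rw [this, hθ.classInner_self]
    exact one_ne_zero
  have hgal := CliffordCorr.gallagher (N := M) (φ := 1) (ϑ := fun n : M => ψ n)
    isIrrCharacter_one (fun g => rfl) (fun g => Clifford.cj_res hψ.isClassFunction g)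
    (by rw [one_mul]; exact hθ) hψ (fun n => rfl)
  rw [one_mul] at hgal
  obtain ⟨β, ⟨hβ, hβ1⟩, hβψ⟩ := hgal.surjOn ⟨hψr, hcon⟩
  have hβψ' : ∀ g, β g * ψ g = ψ (g ^ r) := fun g => congrFun hβψ g
  have hmC : (m : ℂ) ≠ 0 := by exact_mod_cast hm0.ne'
  have hβlin : β 1 = 1 := by
    have h1 := hβψ' 1
    rw [one_pow, hm] at h1
    exact mul_right_cancel₀ hmC (by rw [h1, one_mul])
  obtain ⟨f, hf⟩ := hβ.isCharacter.exists_hom hβlin
  -- determinants
  let C := Subgroup.zpowers x
  have hCcomm : ∀ a b : C, (a : X) * b = b * a := by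
    rintro ⟨_, i, rfl⟩ ⟨_, l, rfl⟩
    change x ^ i * x ^ l = x ^ l * x ^ i
    rw [← zpow_add, ← zpow_add, add_comm]
  let g : C →* X :=
    { toFun := fun c => (c : X) ^ r
      map_one' := by simp
      map_mul' := by
        intro a b
        rw [Subgroup.coe_mul]
        exact Commute.mul_pow (hCcomm a b) r }
  let x' : C := ⟨x, Subgroup.mem_zpowers x⟩
  have hd1 : detChar (fun y => ψ (y ^ r)) x = 1 := by
    have h1 := DetChar.detChar_restrict hψr.isCharacter C x'
    have h2 := DetChar.detChar_comp hψ.isCharacter g x'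
    have h3 : detChar ψ (g x') = 1 := by
      obtain ⟨δ, hδ⟩ := DetChar.exists_detHom hψ.isCharacter
      rw [hδ] at hdet ⊢
      change ((δ (x ^ r) : ℂˣ) : ℂ) = 1
      rw [map_pow, Units.val_pow_eq_pow_val, hdet, one_pow]
    rw [← h3, ← h2]
    exact h1.symm
  have hd2 : detChar (fun y => ψ (y ^ r)) x = (f x : ℂ) ^ m := by
    have h1 := DetChar.detChar_mul_linear hψ.isCharacter hm f x
    rw [hdet, mul_one] at h1
    rw [← h1]
    congr 1
    funext y
    rw [← hβψ', hf]
  have hfx : f x = 1 := by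
    have h1 : (f x) ^ m = 1 := by
      apply Units.ext
      rw [Units.val_pow_eq_pow_val, ← hd2, hd1]; rfl
    have h2 : (f x) ^ p ^ k = 1 := by rw [← map_pow, hx, map_one]
    have h3 : Nat.Coprime m (p ^ k) := by
      apply Nat.Coprime.pow_right
      apply Nat.Coprime.symm
      rw [Nat.Prime.coprime_iff_not_dvd hp]
      intro hd
      have := Nat.le_of_dvd hm0 hd
      omega
    have h4 : orderOf (f x) ∣ 1 := by
      rw [← h3]
      exact Nat.dvd_gcd (orderOf_dvd_of_pow_eq_one h1) (orderOf_dvd_of_pow_eq_one h2)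
    exact orderOf_eq_one_iff.mp (Nat.dvd_one.mp h4)
  have h5 : (x ^ j) ^ t = (x ^ j) ^ r := by
    rw [pow_eq_pow_iff_modEq]
    have h6 : orderOf (x ^ j) ∣ p ^ k := by
      apply orderOf_dvd_of_pow_eq_one
      rw [← pow_mul, mul_comm, pow_mul, hx, one_pow]
    exact (hr2.of_dvd h6).symm
  rw [h5, ← hβψ', hf, map_pow, hfx, one_pow]
  simp

/-- An element of `p`-power order generating `X` modulo a normal `p'`-subgroup acts as a scalar
in irreducible representations of degree less than `p - 1`. -/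
theorem norm_eq {p k m : ℕ} (hp : p.Prime) (M : Subgroup X) [hMn : M.Normal]
    (hM : (Nat.card M).Coprime p) {x : X} (hx : x ^ p ^ k = 1)
    (hgen : ∀ g : X, ∃ n ∈ M, ∃ i : ℕ, g = n * x ^ i)
    {ψ : X → ℂ} (hψ : IsIrrCharacter X ψ) (hm : ψ 1 = m) (hmp : m + 1 < p) : ‖ψ x‖ = m := by
  classical
  have : Fintype X := Fintype.ofFinite X
  have : Fintype M := Fintype.ofFinite M
  have hm0 : 0 < m := by
    obtain ⟨d, hd0, hd⟩ := hψ.exists_degree
    rw [hm] at hd
    have : m = d := by exact_mod_cast hd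
    omega
  have hq : ∀ q : X ⧸ M, q ∈ Subgroup.zpowers (x : X ⧸ M) := by
    intro q
    obtain ⟨g, rfl⟩ := QuotientGroup.mk_surjective q
    obtain ⟨n, hn, i, rfl⟩ := hgen g
    rw [QuotientGroup.mk_mul, (QuotientGroup.eq_one_iff n).mpr hn, one_mul, QuotientGroup.mk_pow]
    exact Subgroup.npow_mem_zpowers _ _
  have hidx : M.index ∣ p ^ k := by
    rw [Subgroup.index_eq_card, ← orderOf_eq_card_of_forall_mem_zpowers hq]
    apply orderOf_dvd_of_pow_eq_one
    rw [← QuotientGroup.mk_pow, hx, QuotientGroup.mk_one]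
  obtain ⟨l, -, hl⟩ := (Nat.dvd_prime_pow hp).mp hidx
  have hcard : Nat.card X ∣ Nat.card M * p ^ k := by
    rw [← Subgroup.card_mul_index M]
    exact Nat.mul_dvd_mul_left _ hidx
  have hab : ∀ a b : X, a * b * a⁻¹ * b⁻¹ ∈ M := by
    intro a b
    rw [← QuotientGroup.eq_one_iff]
    obtain ⟨i, hi⟩ := hq a
    obtain ⟨j, hj⟩ := hq b
    simp only [QuotientGroup.mk_mul, QuotientGroup.mk_inv]
    rw [← hi, ← hj]
    simp only
    rw [← zpow_add, add_comm i j, zpow_add]
    group
  -- ψ_M is irreducible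
  have hres : IsCharacter M (fun n : M => ψ n) := hψ.isCharacter.restrict M
  have h0 : (fun n : M => ψ n) ≠ 0 := fun h => hψ.one_ne_zero (congrFun h 1)
  obtain ⟨θ, hθ⟩ := Clifford.exists_constituent hres h0
  obtain ⟨e, he⟩ := hres.classInner_nat θ.2.isCharacter
  have he0 : 0 < e := by
    rcases Nat.eq_zero_or_pos e with h | h
    · rw [he, h, Nat.cast_zero] at hθ
      exact absurd rfl hθ
    · exact h
  obtain ⟨d, hd0, hd⟩ := θ.2.exists_degree
  have hdeg := CliffordCorr.degree_clifford hψ θ.2 hθ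
  rw [he, hm, hd] at hdeg
  have hdeg' : m = e * ((Clifford.inertia M (θ : M → ℂ)).index * d) := by exact_mod_cast hdeg
  have hT1 : (Clifford.inertia M (θ : M → ℂ)).index = 1 := by
    have h1 : (Clifford.inertia M (θ : M → ℂ)).index ∣ p ^ l := by
      rw [← hl]
      exact Subgroup.index_dvd_of_le (Clifford.le_inertia θ.2.isClassFunction)
    obtain ⟨i, -, hi⟩ := (Nat.dvd_prime_pow hp).mp h1
    rcases Nat.eq_zero_or_pos i with h | h
    · rw [hi, h, pow_zero]
    · exfalso
      have h2 : p ≤ (Clifford.inertia M (θ : M → ℂ)).index := by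
        rw [hi]; exact Nat.le_self_pow h.ne' p
      have h3 : (Clifford.inertia M (θ : M → ℂ)).index ≤ m := by
        rw [hdeg']
        calc (Clifford.inertia M (θ : M → ℂ)).index ≤ (Clifford.inertia M (θ : M → ℂ)).index * d :=
              Nat.le_mul_of_pos_right _ hd0
          _ ≤ _ := Nat.le_mul_of_pos_left _ he0
      omega
  have hT : Clifford.inertia M (θ : M → ℂ) = ⊤ := Subgroup.index_eq_one.mp hT1
  have hsm : (fun n : M => ψ n) = (e : ℂ) • (θ : M → ℂ) := by
    have h1 := Clifford.clifford hψ θ.2 hθ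
    have h2 : {φ : M → ℂ | ∃ g : X, φ = Clifford.cj M g (θ : M → ℂ)} = {(θ : M → ℂ)} := by
      ext φ
      simp only [Set.mem_ofPred_eq, Set.mem_singleton_iff]
      constructor
      · rintro ⟨g, rfl⟩
        have : g ∈ Clifford.inertia M (θ : M → ℂ) := by rw [hT]; trivial
        exact Clifford.mem_inertia.mp this
      · rintro rfl
        exact ⟨1, (Clifford.cj_one _).symm⟩
    rw [h2, finsum_mem_singleton, he] at h1
    exact h1
  obtain ⟨Cf, -, hCf, -⟩ := CliffordAb.ramification hab θ.2 hψ hsm he0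
  have he1 : e = 1 := by
    have h1 : e ∣ p ^ l := by
      rw [← hl, ← hCf, sq]
      exact ⟨e * Cf.card, by ring⟩
    obtain ⟨i, -, hi⟩ := (Nat.dvd_prime_pow hp).mp h1
    rcases Nat.eq_zero_or_pos i with h | h
    · rw [hi, h, pow_zero]
    · exfalso
      have h2 : p ≤ e := by
        rw [hi]; exact Nat.le_self_pow h.ne' p
      have h3 : e ≤ m := by
        rw [hdeg', hT1, one_mul]
        exact Nat.le_mul_of_pos_right _ hd0
      omega
  have hθψ : (fun n : M => ψ n) = (θ : M → ℂ) := by rw [hsm, he1]; simp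
  -- twist so that the determinant at x is one
  obtain ⟨δ, hδ⟩ := DetChar.exists_detHom hψ.isCharacter
  have hmp' : Nat.Coprime m p := by
    apply Nat.Coprime.symm
    rw [Nat.Prime.coprime_iff_not_dvd hp]
    intro hd
    have := Nat.le_of_dvd hm0 hd
    omega
  have hcop : Nat.Coprime (Nat.card M * m) (p ^ k) := Nat.Coprime.pow_right k (hM.mul_left hmp')
  obtain ⟨u, hu⟩ : ∃ u : ℕ, Nat.card M * m * u ≡ 1 [MOD p ^ k] := by
    rcases Nat.eq_zero_or_pos k with rfl | hk
    · exact ⟨0, by simp [Nat.ModEq, Nat.mod_one]⟩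
    · obtain ⟨u, -, hu⟩ := Nat.exists_mul_mod_eq_one_of_coprime hcop
        (Nat.one_lt_pow hk.ne' hp.one_lt)
      exact ⟨u, by rw [Nat.ModEq, hu, Nat.mod_eq_of_lt (Nat.one_lt_pow hk.ne' hp.one_lt)]⟩
  let β : X →* ℂˣ := (δ ^ (Nat.card M * u))⁻¹
  have hβM : ∀ n ∈ M, β n = 1 := by
    intro n hn
    have h1 : n ^ Nat.card M = 1 := by
      have : (⟨n, hn⟩ : M) ^ Nat.card M = 1 := pow_card_eq_one'
      exact congrArg Subtype.val this
    change ((δ ^ (Nat.card M * u)) n)⁻¹ = 1
    rw [MonoidHom.pow_apply, pow_mul, ← map_pow, h1, map_one, one_pow, inv_one]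
  have hβx : (β x : ℂ) ^ m * (δ x : ℂ) = 1 := by
    have h1 : (β x) ^ m * δ x = 1 := by
      change (((δ ^ (Nat.card M * u)) x)⁻¹) ^ m * δ x = 1
      rw [MonoidHom.pow_apply, inv_pow, inv_mul_eq_one, ← pow_mul]
      have h2 : Nat.card M * u * m ≡ 1 [MOD orderOf (δ x)] := by
        have h3 : orderOf (δ x) ∣ p ^ k := by
          apply orderOf_dvd_of_pow_eq_one
          rw [← map_pow, hx, map_one]
        have h4 : Nat.card M * u * m = Nat.card M * m * u := by ring
        rw [h4]
        exact hu.of_dvd h3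
      rw [pow_eq_pow_iff_modEq.mpr h2, pow_one]
    have h2 := congrArg (Units.val) h1
    simpa using h2
  have hψ' : IsIrrCharacter X (fun g => (β g : ℂ) * ψ g) := by
    have h1 := hψ.mul_linear (isCharacter_of_unitsHom β) (by simp)
    convert h1 using 1
    funext g
    rw [Pi.mul_apply, mul_comm]
  have hres' : (fun n : M => (β (n : X) : ℂ) * ψ n) = (θ : M → ℂ) := by
    rw [← hθψ]
    funext n
    rw [hβM n n.2]; simp
  have hstab := pow_stable hp M hM hx hcard hψ' (m := m) (by simp [hm]) hm0 (by omega)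
    (by rw [hres']; exact θ.2) (by rw [DetChar.detChar_mul_linear hψ.isCharacter hm, hδ, hβx])
  -- the cyclic group generated by x
  let C := Subgroup.zpowers x
  have hCp : IsPGroup p C := by
    intro c
    obtain ⟨i, hi⟩ := c.2
    refine ⟨k, Subtype.ext ?_⟩
    rw [Subgroup.coe_pow, ← hi]
    change (x ^ i) ^ p ^ k = 1
    rw [← zpow_natCast, ← zpow_mul, mul_comm, zpow_mul, zpow_natCast, hx, one_zpow]
  have hCcomm : ∀ a b : C, a * b = b * a := by
    rintro ⟨_, i, rfl⟩ ⟨_, l, rfl⟩
    apply Subtype.ext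
    change x ^ i * x ^ l = x ^ l * x ^ i
    rw [← zpow_add, ← zpow_add, add_comm]
  have hfin := trivial_of_pow_stable hp hCp hCcomm (hψ'.isCharacter.restrict C) (m := m)
    (by change (β ((1 : C) : X) : ℂ) * ψ ((1 : C) : X) = m; simp [hm]) hmp (by
      intro t ht c
      obtain ⟨j, hj⟩ := (Subgroup.mem_zpowers_iff.mp c.2)
      obtain ⟨j', hj'⟩ : ∃ j' : ℕ, x ^ j' = (c : X) := by
        have := mem_powers_iff_mem_zpowers.mpr c.2
        exact this
      have h1 := hstab t ht j'
      rw [hj'] at h1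
      exact h1) ⟨x, Subgroup.mem_zpowers x⟩
  have h2 : (β x : ℂ) * ψ x = m := hfin
  have h3 := congrArg norm h2
  rw [norm_mul, (isCharacter_of_unitsHom β).norm_of_linear (by simp) x, one_mul,
    Complex.norm_natCast] at h3
  exact h3

/-- Commutation in a faithful representation of small degree. -/
theorem commute_of_faithful {n p k : ℕ} (hp : p.Prime) (ρ : Representation ℂ X (Fin n → ℂ))
    (hρ : Function.Injective ρ) (hn : n + 1 < p) (M : Subgroup X) [hMn : M.Normal]
    (hM : (Nat.card M).Coprime p) {x : X} (hx : x ^ p ^ k = 1)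
    (hgen : ∀ g : X, ∃ n ∈ M, ∃ i : ℕ, g = n * x ^ i) (a : X) : x * a = a * x := by
  classical
  have : Fintype X := Fintype.ofFinite X
  obtain ⟨c, hc, hcs⟩ := (isCharacter_of_rep ρ).exists_coeff
  have hχ1 : ρ.character 1 = n := by
    rw [Representation.char_one, Module.finrank_fin_fun]
  have hirr : ∀ χ : IrrCharacter X, c χ ≠ 0 → (χ : X → ℂ) ⁅x, a⁆ = (χ : X → ℂ) 1 := by
    intro χ hχ
    obtain ⟨m, hm0, hm⟩ := CharApps.exists_irr_degree χ
    have h1 : m ≤ n := by
      refine degree_le_of_constituent (isCharacter_of_rep ρ) χ.2 ?_ hχ1 hm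
      rw [hc]; exact_mod_cast hχ
    have h2 := norm_eq hp M hM hx hgen χ.2 hm (by omega)
    obtain ⟨d, σ, hσ, h3⟩ := χ.2
    rw [← h3] at h2 hm ⊢
    have h4 : Module.finrank ℂ (Fin d → ℂ) = m := by
      rw [Representation.char_one] at hm
      exact_mod_cast hm
    rw [← h4] at h2
    obtain ⟨ω, hω⟩ := (CharValues.norm_character_eq_iff σ x).mp h2
    rw [Representation.char_one, CharValues.character_eq_finrank_iff]
    have h5 : σ x * σ a = σ a * σ x := by
      rw [hω]; ext v; simp
    have h6 : σ ⁅x, a⁆ * (σ a * σ x) = σ a * σ x := by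
      rw [← map_mul, ← map_mul, commutatorElement_def]
      have : x * a * x⁻¹ * a⁻¹ * (a * x) = x * a := by group
      rw [this, map_mul, map_mul, h5]
    have h7 : IsUnit (σ a * σ x) := by
      rw [← map_mul]
      exact (Group.isUnit (a * x)).map σ
    exact h7.mul_right_cancel (by rw [h6]; exact (one_mul _).symm)
  have hcomm : ρ.character ⁅x, a⁆ = (Module.finrank ℂ (Fin n → ℂ) : ℂ) := by
    rw [← Representation.char_one ρ, hcs]
    simp only [Finset.sum_apply, Pi.smul_apply]
    apply Finset.sum_congr rfl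
    intro χ _
    by_cases hχ : c χ = 0
    · rw [hχ]; simp
    · rw [hirr χ hχ]
  have h1 := (CharValues.character_eq_finrank_iff ρ ⁅x, a⁆).mp hcomm
  have h2 : ⁅x, a⁆ = 1 := by
    apply hρ
    rw [h1, map_one]
    rfl
  exact commutatorElement_eq_one_iff_mul_comm.mp h2

/-- The case of a normal `p`-complement. -/
theorem normal_of_complement {G : Type u} [Group G] [Finite G] {n p : ℕ} [Fact p.Prime]
    (ρ : Representation ℂ G (Fin n → ℂ))
    (hρ : Function.Injective ρ) (hn : n + 1 < p) (M : Subgroup G) [hMn : M.Normal]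
    (hM : (Nat.card M).Coprime p) (P : Sylow p G) (hsup : M ⊔ P = ⊤) :
    (P : Subgroup G).Normal := by
  have hp : p.Prime := Fact.out
  have key : ∀ x ∈ P, ∀ a ∈ M, x * a = a * x := by
    intro x hxP a ha
    let Y : Subgroup G := M ⊔ Subgroup.zpowers x
    have hMY : M ≤ Y := le_sup_left
    have hxY : x ∈ Y := Subgroup.mem_sup_right (Subgroup.mem_zpowers x)
    obtain ⟨k, hk⟩ := P.2 ⟨x, hxP⟩
    have hxk : x ^ p ^ k = 1 := congrArg Subtype.val hk
    have hcard : Nat.card (M.subgroupOf Y) = Nat.card M :=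
      Nat.card_congr (Subgroup.subgroupOfEquivOfLe hMY).toEquiv
    have h := commute_of_faithful hp (ρ.comp Y.subtype) (hρ.comp Subtype.coe_injective) hn
      (M.subgroupOf Y) (by rw [hcard]; exact hM) (x := ⟨x, hxY⟩) (k := k) (Subtype.ext hxk) (by
        rintro ⟨g, hg⟩
        have h1 : g ∈ ((M ⊔ Subgroup.zpowers x : Subgroup G) : Set G) := hg
        rw [Subgroup.normal_mul] at h1
        obtain ⟨m, hm, z, hz, rfl⟩ := h1
        obtain ⟨i, hi⟩ := mem_powers_iff_mem_zpowers.mpr hz
        refine ⟨⟨m, hMY hm⟩, hm, i, Subtype.ext ?_⟩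
        change m * z = m * x ^ i
        rw [← hi]) ⟨a, hMY ha⟩
    exact congrArg Subtype.val h
  have h1 : M ≤ Subgroup.normalizer ((P : Subgroup G) : Set G) := by
    intro a ha
    rw [Subgroup.mem_normalizer_iff]
    intro x
    constructor
    · intro hx
      have : a * x * a⁻¹ = x := by rw [← key x hx a ha]; group
      rw [this]; exact hx
    · intro hx
      have h2 := key _ hx a ha
      have h3 : x = a * x * a⁻¹ := by
        have h4 : a * x * a⁻¹ * a = a * (a * x * a⁻¹) := h2
        have h5 : a * x = a * (a * x * a⁻¹) := by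
          rw [← h4]; group
        exact mul_left_cancel h5
      rw [h3]; exact hx
  have h2 : Subgroup.normalizer ((P : Subgroup G) : Set G) = ⊤ := by
    rw [eq_top_iff, ← hsup]
    exact sup_le h1 Subgroup.le_normalizer
  exact Subgroup.normalizer_eq_top_iff.mp h2

end Cfsg.Agent.Lib.SmallDeg
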