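import Mathlib
import Cfsg.Prelude.Def_Characters
import Cfsg.Agent.Lib.CharBasic
import Cfsg.Agent.Lib.CharBasic2
import Cfsg.Agent.Lib.SmallDeg
import Cfsg.Agent.Lib.PNilp

set_option autoImplicit false

/-!
# Normal Sylow subgroups of linear groups of small degree (helper15)
-/

namespace Cfsg.Agent.Lib.SmallDeg2

open scoped ComplexConjugate commutatorElement Pointwise
open CharBasic

universe u v

/-- All Sylow subgroups normal, transported along an isomorphism. -/
theorem ns_of_equiv {A : Type u} {B : Type v} [Group A] [Group B] [Finite A] [Finite B] {p : ℕ}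
    [Fact p.Prime] (e : A ≃* B) (h : ∀ Q : Sylow p B, (Q : Subgroup B).Normal) (Q : Sylow p A) :
    (Q : Subgroup A).Normal := by
  have h1 : ((Q : Subgroup A).map e.toMonoidHom).Normal :=
    h (Q.mapSurjective (f := e.toMonoidHom) e.surjective)
  have h2 : ((Q : Subgroup A).map e.toMonoidHom).comap e.toMonoidHom = Q :=
    Subgroup.comap_map_eq_self_of_injective e.injective _
  rw [← h2]
  exact h1.comap _

/-- The alternative hypotheses. -/
def Hyp (n p : ℕ) (G : Type u) [Group G] : Prop :=
  (n + 1) ^ 2 ≤ p ∨ (n + 1 < p ∧ ∀ K : Subgroup G, ¬ p ^ 2 ∣ Nat.card K →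
    ∀ Q : Sylow p K, (Q : Subgroup K).Normal)

theorem Hyp.sub {G : Type u} [Group G] [Finite G] {n p : ℕ} [Fact p.Prime] (h : Hyp n p G)
    (K : Subgroup G) : Hyp n p K := by
  rcases h with h | ⟨h1, h2⟩
  · exact Or.inl h
  · refine Or.inr ⟨h1, fun L hL => ?_⟩
    let e : L ≃* L.map K.subtype := L.equivMapOfInjective K.subtype Subtype.coe_injective
    exact ns_of_equiv e (h2 _ (by rw [← Nat.card_congr e.toEquiv]; exact hL))

theorem Hyp.lt {G : Type u} [Group G] {n p : ℕ} [hp : Fact p.Prime] (h : Hyp n p G) :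
    n + 1 < p := by
  rcases h with h | ⟨h1, -⟩
  · have := hp.out.one_lt
    rcases Nat.eq_zero_or_pos n with rfl | hn
    · simpa using this
    · nlinarith
  · exact h1

/-- If all irreducible constituents of a faithful character are linear the group is abelian. -/
theorem comm_of_linear {G : Type u} [Group G] [Fintype G] {n : ℕ}
    (ρ : Representation ℂ G (Fin n → ℂ)) (hρ : Function.Injective ρ)
    (h : ∀ χ : IrrCharacter G, classInner ρ.character (χ : G → ℂ) ≠ 0 → (χ : G → ℂ) 1 = 1)
    (a b : G) : a * b = b * a := by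
  classical
  obtain ⟨c, hc, hcs⟩ := (isCharacter_of_rep ρ).exists_coeff
  have hcomm : ρ.character ⁅a, b⁆ = (Module.finrank ℂ (Fin n → ℂ) : ℂ) := by
    rw [← Representation.char_one ρ, hcs]
    simp only [Finset.sum_apply, Pi.smul_apply]
    apply Finset.sum_congr rfl
    intro χ _
    by_cases hχ : c χ = 0
    · rw [hχ]; simp
    · have hlin := h χ (by rw [hc]; exact_mod_cast hχ)
      rw [hlin, χ.2.isCharacter.eq_one_on_commutator hlin
        (Subgroup.commutator_mem_commutator (Subgroup.mem_top a) (Subgroup.mem_top b))]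
  have h1 := (CharValues.character_eq_finrank_iff ρ ⁅a, b⁆).mp hcomm
  have h2 : ⁅a, b⁆ = 1 := by
    apply hρ
    rw [h1, map_one]
    rfl
  exact commutatorElement_eq_one_iff_mul_comm.mp h2

/-- A central element acts nontrivially through the determinant of some constituent. -/
theorem exists_det {G : Type u} [Group G] [Fintype G] {n p k : ℕ} (hp : p.Prime)
    (ρ : Representation ℂ G (Fin n → ℂ)) (hρ : Function.Injective ρ) (hn : n < p) {z : G}
    (hz : z ∈ Subgroup.center G) (hz1 : z ≠ 1) (hzk : z ^ p ^ k = 1) :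
    ∃ δ : G →* ℂˣ, δ z ≠ 1 := by
  classical
  obtain ⟨c, hc, hcs⟩ := (isCharacter_of_rep ρ).exists_coeff
  have hex : ∃ χ : IrrCharacter G, c χ ≠ 0 ∧ (χ : G → ℂ) z ≠ (χ : G → ℂ) 1 := by
    by_contra hcon
    push Not at hcon
    apply hz1
    apply hρ
    rw [map_one]
    apply (CharValues.character_eq_finrank_iff ρ z).mp
    rw [← Representation.char_one ρ, hcs]
    simp only [Finset.sum_apply, Pi.smul_apply]
    apply Finset.sum_congr rfl
    intro χ _
    by_cases hχ : c χ = 0
    · rw [hχ]; simp
    · rw [hcon χ hχ]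
  obtain ⟨χ, hχ, hχz⟩ := hex
  obtain ⟨m, hm0, hm⟩ := χ.2.exists_degree
  have hmn : m ≤ n := by
    refine degree_le_of_constituent (isCharacter_of_rep ρ) χ.2 ?_
      (by rw [Representation.char_one, Module.finrank_fin_fun]) hm
    rw [hc]; exact_mod_cast hχ
  obtain ⟨d, σ, hσ, h3⟩ := χ.2
  obtain ⟨ω, hω⟩ := CharCentral.exists_scalar_of_commute σ (σ z) (by
      intro g v
      change (σ z * σ g) v = (σ g * σ z) v
      rw [← map_mul, ← map_mul, Subgroup.mem_center_iff.mp hz g])
  have hmd : d = m := by
    rw [← h3, Representation.char_one, Module.finrank_fin_fun] at hm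
    exact_mod_cast hm
  obtain ⟨δ, hδ⟩ := DetChar.exists_detHom χ.2.isCharacter
  refine ⟨δ, fun h1 => hχz ?_⟩
  have h4 : detChar (χ : G → ℂ) z = ω ^ d := by
    rw [← h3, DetChar.detChar_character, hω, LinearMap.det_smul]
    simp
  have h5 : ω ^ d = 1 := by
    rw [← h4, hδ, h1]; rfl
  have hnt := nontrivial_of_isIrreducible hσ
  have h6 : ω ^ p ^ k = 1 := by
    obtain ⟨v, hv⟩ := exists_ne (0 : Fin d → ℂ)
    have h7 : (σ z) ^ p ^ k = 1 := by rw [← map_pow, hzk, map_one]
    have h8 : ω ^ p ^ k • v = v := by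
      have h9 := LinearMap.congr_fun h7 v
      rw [hω, smul_pow, ← Module.End.one_eq_id, one_pow] at h9
      simpa using h9
    have h9 : (ω ^ p ^ k - 1) • v = 0 := by rw [sub_smul, one_smul, h8, sub_self]
    rcases smul_eq_zero.mp h9 with h10 | h10
    · exact sub_eq_zero.mp h10
    · exact absurd h10 hv
  have h7 : Nat.Coprime d (p ^ k) := by
    apply Nat.Coprime.pow_right
    apply Nat.Coprime.symm
    rw [Nat.Prime.coprime_iff_not_dvd hp]
    intro hd
    have := Nat.le_of_dvd (by omega) hd
    omega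
  have h8 : orderOf ω ∣ 1 := by
    rw [← h7]
    exact Nat.dvd_gcd (orderOf_dvd_of_pow_eq_one h5) (orderOf_dvd_of_pow_eq_one h6)
  have h9 : ω = 1 := orderOf_eq_one_iff.mp (Nat.dvd_one.mp h8)
  rw [← h3, Representation.char_one, CharValues.character_eq_finrank_iff, hω, h9, one_smul]

/-- The main theorem, by induction on the group order. -/
theorem main (N : ℕ) : ∀ {G : Type u} [Group G] [Finite G] {n p : ℕ} [Fact p.Prime]
    (ρ : Representation ℂ G (Fin n → ℂ)) (_ : Function.Injective ρ) (_ : Hyp n p G)
    (_ : Nat.card G = N) (P : Sylow p G), (P : Subgroup G).Normal := by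
  induction N using Nat.strong_induction_on with
  | _ N ih =>
  intro G _ _ n p _ ρ hρ hyp hcardG P
  classical
  have : Fintype G := Fintype.ofFinite G
  have hp : p.Prime := Fact.out
  by_contra hPn
  have hn := hyp.lt
  -- proper subgroups
  have hprop : ∀ K : Subgroup G, K ≠ ⊤ → ∀ Q : Sylow p K, (Q : Subgroup K).Normal := by
    intro K hK Q
    refine ih (Nat.card K) ?_ (ρ.comp K.subtype) (hρ.comp Subtype.coe_injective) (hyp.sub K) rfl Q
    rw [← hcardG]
    exact lt_of_le_of_ne (Subgroup.card_le_card_group K)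
      (fun h => hK (Subgroup.eq_top_of_card_eq K h))
  have huniq : ∀ K : Subgroup G, K ≠ ⊤ → ∀ S T : Sylow p G, (S : Subgroup G) ≤ K →
      (T : Subgroup G) ≤ K → S = T := by
    intro K hK S T hS hT
    have h1 := hprop K hK (S.subtype hS)
    have h2 := Sylow.unique_of_normal (S.subtype hS) h1
    exact Sylow.subtype_injective (Subsingleton.elim (S.subtype hS) (T.subtype hT))
  have hab : ∀ S : Sylow p G, ∀ a ∈ (S : Subgroup G), ∀ b ∈ (S : Subgroup G), a * b = b * a := by
    intro S a ha b hb
    have h1 := CharApps.comm_of_faithful_small (ρ.comp (S : Subgroup G).subtype)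
      (hρ.comp Subtype.coe_injective) (by
        intro q hq hqd
        obtain ⟨k, hk⟩ := IsPGroup.iff_card.mp S.2
        have h2 : Nat.card (S : Subgroup G) = p ^ k := hk
        rw [h2] at hqd
        rw [(Nat.prime_dvd_prime_iff_eq hq hp).mp (hq.dvd_of_dvd_pow hqd), Module.finrank_fin_fun]
        omega) ⟨a, ha⟩ ⟨b, hb⟩
    exact congrArg Subtype.val h1
  have hgen : ∀ M : Subgroup G, M.Normal → (P : Subgroup G) ≤ M → M = ⊤ := by
    intro M hM hPM
    by_contra hne
    apply hPn
    have h1 : Subgroup.normalizer ((P : Subgroup G) : Set G) = ⊤ := by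
      rw [eq_top_iff]
      intro g _
      change g ∈ Subgroup.normalizer (P : Set G)
      rw [← Sylow.smul_eq_iff_mem_normalizer]
      apply huniq M hne _ _ _ hPM
      rintro _ ⟨y, hy, rfl⟩
      exact hM.conj_mem _ (hPM hy) g
    exact Subgroup.normalizer_eq_top_iff.mp h1
  have hOp : ∀ R : Subgroup G, R.Normal → IsPGroup p R → R ≤ Subgroup.center G := by
    intro R hR hRp
    have h1 : Subgroup.centralizer (R : Set G) = ⊤ := by
      apply hgen _ inferInstance
      intro x hx
      rw [Subgroup.mem_centralizer_iff]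
      intro y hy
      exact hab P y (hRp.le_sylow_of_normal P hy) x hx
    intro x hx
    rw [Subgroup.mem_center_iff]
    intro g
    have h2 : g ∈ Subgroup.centralizer (R : Set G) := by rw [h1]; trivial
    exact (Subgroup.mem_centralizer_iff.mp h2 x hx).symm
  by_cases hPZ : (P : Subgroup G) ⊓ Subgroup.center G = ⊥
  · -- the TI case
    have hcen : ∀ (S : Sylow p G), ∀ u ∈ (S : Subgroup G), u ≠ 1 →
        Subgroup.centralizer ({u} : Set G) ≠ ⊤ := by
      intro S u hu hu1 htop
      have h1 : u ∈ Subgroup.center G := by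
        rw [Subgroup.mem_center_iff]
        intro g
        have h2 : g ∈ Subgroup.centralizer ({u} : Set G) := by rw [htop]; trivial
        exact Subgroup.mem_centralizer_singleton_iff.mp h2
      obtain ⟨g, hg⟩ := MulAction.exists_smul_eq G S P
      have h2 : g * u * g⁻¹ ∈ (P : Subgroup G) := by
        rw [← hg]
        exact ⟨u, hu, rfl⟩
      have h3 : g * u * g⁻¹ = u := by
        rw [Subgroup.mem_center_iff.mp h1 g]; group
      rw [h3] at h2
      have h4 : u ∈ (P : Subgroup G) ⊓ Subgroup.center G := ⟨h2, h1⟩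
      rw [hPZ] at h4
      exact hu1 (Subgroup.mem_bot.mp h4)
    have hle : ∀ (S : Sylow p G), ∀ u ∈ (S : Subgroup G),
        (S : Subgroup G) ≤ Subgroup.centralizer ({u} : Set G) := by
      intro S u hu x hx
      rw [Subgroup.mem_centralizer_singleton_iff]
      exact hab S x hx u hu
    have hone : ∀ g : G, g ∉ Subgroup.center G → ∀ a b : G,
        Subgroup.centralizer ({g} : Set G) ⊓
          (P : Subgroup G).map (MulAut.conj a).toMonoidHom ≠ ⊥ →
        Subgroup.centralizer ({g} : Set G) ⊓
          (P : Subgroup G).map (MulAut.conj b).toMonoidHom ≠ ⊥ →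
        (P : Subgroup G).map (MulAut.conj a).toMonoidHom =
          (P : Subgroup G).map (MulAut.conj b).toMonoidHom := by
      intro g hg a b ha hb
      have hPa : ((a • P : Sylow p G) : Subgroup G) =
        (P : Subgroup G).map (MulAut.conj a).toMonoidHom := rfl
      have hPb : ((b • P : Sylow p G) : Subgroup G) =
        (P : Subgroup G).map (MulAut.conj b).toMonoidHom := rfl
      rw [← hPa] at ha ⊢
      rw [← hPb] at hb ⊢
      have hCg : Subgroup.centralizer ({g} : Set G) ≠ ⊤ := by
        intro htop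
        apply hg
        rw [Subgroup.mem_center_iff]
        intro x
        have h2 : x ∈ Subgroup.centralizer ({g} : Set G) := by rw [htop]; trivial
        exact Subgroup.mem_centralizer_singleton_iff.mp h2
      rw [ne_eq, Subgroup.eq_bot_iff_forall] at ha hb
      push Not at ha hb
      obtain ⟨u, ⟨hu1, hu2⟩, hu3⟩ := ha
      obtain ⟨v, ⟨hv1, hv2⟩, hv3⟩ := hb
      -- the unique Sylow subgroup Q of C(g)
      obtain ⟨Q⟩ : Nonempty (Sylow p (Subgroup.centralizer ({g} : Set G))) := inferInstance
      have hQn := hprop _ hCg Q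
      have hpel : ∀ (S : Sylow p G) (w : G) (hw : w ∈ Subgroup.centralizer ({g} : Set G)),
          w ∈ (S : Subgroup G) → (⟨w, hw⟩ : Subgroup.centralizer ({g} : Set G)) ∈
            (Q : Subgroup (Subgroup.centralizer ({g} : Set G))) := by
        intro S w hw hwS
        have h1 : IsPGroup p (Subgroup.zpowers (⟨w, hw⟩ : Subgroup.centralizer ({g} : Set G))) := by
          obtain ⟨k, hk⟩ := S.2 ⟨w, hwS⟩
          have hk' : w ^ p ^ k = 1 := congrArg Subtype.val hk
          intro y
          obtain ⟨i, hi⟩ := y.2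
          refine ⟨k, Subtype.ext ?_⟩
          rw [Subgroup.coe_pow, ← hi]
          change ((⟨w, hw⟩ : Subgroup.centralizer ({g} : Set G)) ^ i) ^ p ^ k = 1
          rw [← zpow_natCast, ← zpow_mul, mul_comm, zpow_mul, zpow_natCast]
          have h2 : (⟨w, hw⟩ : Subgroup.centralizer ({g} : Set G)) ^ p ^ k = 1 := Subtype.ext hk'
          rw [h2, one_zpow]
        obtain ⟨R, hR⟩ := h1.exists_le_sylow
        have h2 := Sylow.unique_of_normal Q hQn
        have h3 : R = Q := Subsingleton.elim R Q
        rw [← h3]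
        exact hR (Subgroup.mem_zpowers _)
      have huQ := hpel (a • P) u hu1 hu2
      have hvQ := hpel (b • P) v hv1 hv2
      have hQ' : IsPGroup p ((Q : Subgroup (Subgroup.centralizer ({g} : Set G))).map
        (Subgroup.centralizer ({g} : Set G)).subtype) := Q.2.map _
      obtain ⟨R, hR⟩ := hQ'.exists_le_sylow
      have huR : u ∈ (R : Subgroup G) := hR ⟨_, huQ, rfl⟩
      have hvR : v ∈ (R : Subgroup G) := hR ⟨_, hvQ, rfl⟩
      have h1 := huniq _ (hcen R u huR hu3) (a • P) R (hle _ u hu2) (hle _ u huR)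
      have h2 := huniq _ (hcen R v hvR hv3) (b • P) R (hle _ v hv2) (hle _ v hvR)
      rw [h1, h2]
    -- a nonlinear constituent
    have hex : ∃ χ : IrrCharacter G, classInner ρ.character (χ : G → ℂ) ≠ 0 ∧
        (χ : G → ℂ) 1 ≠ 1 := by
      by_contra hcon
      push Not at hcon
      have h1 := comm_of_linear ρ hρ hcon
      apply hPn
      refine ⟨fun x hx g => ?_⟩
      have h2 : g * x * g⁻¹ = x := by rw [h1 g x]; group
      rw [h2]; exact hx
    obtain ⟨χ, hχ, hχ1⟩ := hex
    obtain ⟨m, hm0, hm⟩ := χ.2.exists_degree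
    have hmn : m ≤ n := degree_le_of_constituent (isCharacter_of_rep ρ) χ.2 hχ
        (by rw [Representation.char_one, Module.finrank_fin_fun]) hm
    have hbound := TIAbelBound.main2 (P : Subgroup G) hPZ hone (hab P) χ.2 hχ1 hgen
    rw [hm, Complex.natCast_re] at hbound
    have hb' : Nat.card (P : Subgroup G) < (1 + m) ^ 2 := by exact_mod_cast hbound
    have hb : Nat.card (P : Subgroup G) < (n + 1) ^ 2 := by
      refine lt_of_lt_of_le hb' ?_
      have : 1 + m ≤ n + 1 := by omega
      exact Nat.pow_le_pow_left this 2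
    obtain ⟨k, hk⟩ := IsPGroup.iff_card.mp P.2
    have hk' : Nat.card (P : Subgroup G) = p ^ k := hk
    have hfac : k = (Nat.card G).factorization p := by
      have h1 := P.card_eq_multiplicity
      rw [hk] at h1
      exact Nat.pow_right_injective hp.two_le h1
    rcases hyp with h | ⟨h1, h2⟩
    · -- |P| < p
      have hk0 : k = 0 := by
        rcases Nat.eq_zero_or_pos k with h0 | h0
        · exact h0
        · exfalso
          have : p ≤ p ^ k := Nat.le_self_pow h0.ne' p
          omega
      have hPb : (P : Subgroup G) = ⊥ := by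
        rw [← Subgroup.card_eq_one, hk', hk0, pow_zero]
      apply hPn
      rw [hPb]; infer_instance
    · -- |P| < p²
      have hk1 : k < 2 := by
        by_contra hge
        push Not at hge
        have h3 : p ^ 2 ≤ p ^ k := Nat.pow_le_pow_right hp.pos hge
        have h4 : (n + 1) ^ 2 ≤ p ^ 2 := Nat.pow_le_pow_left h1.le 2
        omega
      have hnd : ¬ p ^ 2 ∣ Nat.card (⊤ : Subgroup G) := by
        rw [Subgroup.card_top, hp.pow_dvd_iff_le_factorization Nat.card_pos.ne', ← hfac]
        omega
      exact hPn (ns_of_equiv Subgroup.topEquiv.symm (h2 ⊤ hnd) P)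
  · -- a central element of order divisible by p
    rw [Subgroup.eq_bot_iff_forall] at hPZ
    push Not at hPZ
    obtain ⟨z, ⟨hzP, hzZ⟩, hz1⟩ := hPZ
    obtain ⟨k, hk⟩ := P.2 ⟨z, hzP⟩
    have hzk : z ^ p ^ k = 1 := congrArg Subtype.val hk
    obtain ⟨δ, hδ⟩ := exists_det hp ρ hρ (by omega) hzZ hz1 hzk
    let s := (Nat.card G) / p ^ (Nat.card G).factorization p
    have hs : p ^ (Nat.card G).factorization p * s = Nat.card G := Nat.ordProj_mul_ordCompl_eq_self _ _
    have hsp : Nat.Coprime p s := Nat.coprime_ordCompl hp Nat.card_pos.ne'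
    let K : Subgroup G := (δ ^ s).ker
    have hKn : K.Normal := inferInstance
    have hKne : K ≠ ⊤ := by
      intro htop
      have h1 : z ∈ K := by rw [htop]; trivial
      have h2 : (δ z) ^ s = 1 := h1
      have h3 : (δ z) ^ p ^ k = 1 := by rw [← map_pow, hzk, map_one]
      have h4 : orderOf (δ z) ∣ 1 := by
        have h5 : Nat.Coprime s (p ^ k) := (Nat.Coprime.pow_left k hsp).symm
        rw [← h5]
        exact Nat.dvd_gcd (orderOf_dvd_of_pow_eq_one h2) (orderOf_dvd_of_pow_eq_one h3)
      exact hδ (orderOf_eq_one_iff.mp (Nat.dvd_one.mp h4))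
    have hKidx : ∃ i, K.index = p ^ i := by
      have h1 : IsPGroup p (G ⧸ K) := by
        intro q
        obtain ⟨g, rfl⟩ := QuotientGroup.mk_surjective q
        refine ⟨(Nat.card G).factorization p, ?_⟩
        rw [← QuotientGroup.mk_pow, QuotientGroup.eq_one_iff]
        change (δ (g ^ p ^ (Nat.card G).factorization p)) ^ s = 1
        rw [← map_pow, ← pow_mul, hs, pow_card_eq_one', map_one]
      obtain ⟨i, hi⟩ := IsPGroup.iff_card.mp h1
      exact ⟨i, by rw [Subgroup.index_eq_card, hi]⟩
    obtain ⟨Q⟩ : Nonempty (Sylow p K) := inferInstance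
    have hQn := hprop K hKne Q
    have hQcen : (Q : Subgroup K) ≤ Subgroup.center K := by
      have hQchar : (Q : Subgroup K).Characteristic := Sylow.characteristic_of_normal Q hQn
      have h1 : ((Q : Subgroup K).map K.subtype).Normal := inferInstance
      have h2 := hOp _ h1 (Q.2.map _)
      intro x hx
      rw [Subgroup.mem_center_iff]
      intro y
      apply Subtype.ext
      exact Subgroup.mem_center_iff.mp (h2 ⟨x, hx, rfl⟩) y
    have hQC : Subgroup.normalizer ((Q : Subgroup K) : Set K) ≤
        Subgroup.centralizer ((Q : Subgroup K) : Set K) := by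
      intro x _
      rw [Subgroup.mem_centralizer_iff]
      intro y hy
      exact (Subgroup.mem_center_iff.mp (hQcen hy) x).symm
    have hcomp := MonoidHom.ker_transferSylow_isComplement' Q hQC
    have hnd := MonoidHom.not_dvd_card_ker_transferSylow Q hQC
    set M0 := (MonoidHom.transferSylow Q hQC).ker with hM0
    have hM0mem : ∀ x : K, x ∈ M0 ↔ (orderOf x).Coprime p := by
      intro x
      constructor
      · intro hx
        have h1 : orderOf x ∣ Nat.card M0 := Subgroup.orderOf_dvd_natCard M0 hx
        exact Nat.Coprime.coprime_dvd_left h1 ((Nat.Prime.coprime_iff_not_dvd hp).mpr hnd).symm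
      · intro hx
        exact PNilp.eq_one_of_isPGroup_of_coprime Q.2 (MonoidHom.transferSylow Q hQC) hx
    let M : Subgroup G := M0.map K.subtype
    have hMn : M.Normal := by
      constructor
      rintro _ ⟨x, hx, rfl⟩ g
      have h1 : g * (x : G) * g⁻¹ ∈ K := hKn.conj_mem _ x.2 g
      refine ⟨⟨_, h1⟩, ?_, rfl⟩
      have h2 : (orderOf x).Coprime p := (hM0mem x).mp hx
      apply (hM0mem _).mpr
      rw [← Subgroup.orderOf_coe] at h2 ⊢
      have h3 : orderOf (g * (x : G) * g⁻¹) = orderOf (x : G) :=
        orderOf_injective (MulAut.conj g).toMonoidHom (MulAut.conj g).injective (x : G)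
      rw [h3]; exact h2
    have hMcard : Nat.card M = Nat.card M0 :=
      (Nat.card_congr (M0.equivMapOfInjective K.subtype Subtype.coe_injective).toEquiv).symm
    have hMidx : ∃ i, M.index = p ^ i := by
      obtain ⟨i, hi⟩ := hKidx
      obtain ⟨j, hj⟩ := IsPGroup.iff_card.mp Q.2
      refine ⟨j + i, ?_⟩
      have h1 : M.index = M0.index * K.index := Subgroup.index_map_subtype M0
      rw [h1, hcomp.symm.index_eq_card, hi, pow_add]
      congr 1
    have hsup : M ⊔ P = ⊤ := by
      rw [← Subgroup.index_eq_one]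
      obtain ⟨i, hi⟩ := hMidx
      have h1 : (M ⊔ P).index ∣ p ^ i := by
        rw [← hi]; exact Subgroup.index_dvd_of_le le_sup_left
      have h2 : (M ⊔ P).index ∣ (P : Subgroup G).index := Subgroup.index_dvd_of_le le_sup_right
      have h3 : Nat.Coprime (p ^ i) (P : Subgroup G).index :=
        Nat.Coprime.pow_left i ((Nat.Prime.coprime_iff_not_dvd hp).mpr P.not_dvd_index)
      exact Nat.dvd_one.mp (h3 ▸ Nat.dvd_gcd h1 h2)
    exact hPn (SmallDeg.normal_of_complement ρ hρ hn M
      (by rw [hMcard]; exact ((Nat.Prime.coprime_iff_not_dvd hp).mpr hnd).symm) P hsup)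

end Cfsg.Agent.Lib.SmallDeg2
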