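import Cfsg.Agent.Lib.TenFix

/-! # Eigenspaces of Kronecker products -/

set_option autoImplicit false

namespace Cfsg.Agent.Lib.TenFix

open Cfsg.Agent.Lib.InvSub Cfsg.Agent.Lib.PrimeOrd Module Polynomial

variable {F : Type*} [Field F] {V X Y : Type*} [AddCommGroup V] [Module F V] [FiniteDimensional F V]
  [AddCommGroup X] [Module F X] [FiniteDimensional F X] [AddCommGroup Y] [Module F Y] [FiniteDimensional F Y]

/-- `T` is the tensor product of `A` (transposed) and `B` -/
def TD (T : Module.End F V) (A : Module.End F X) (B : Module.End F Y) : Prop :=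
  ∃ φ : V ≃ₗ[F] (X →ₗ[F] Y), ∀ v, φ (T v) = B ∘ₗ φ v ∘ₗ A

omit [FiniteDimensional F V] [FiniteDimensional F X] [FiniteDimensional F Y] in
theorem TD.smul {T : Module.End F V} {A : Module.End F X} {B : Module.End F Y} (h : TD T A B) {c : F} (hc : c ≠ 0) :
    TD T (c • A) (c⁻¹ • B) := by
  obtain ⟨φ, hφ⟩ := h
  refine ⟨φ, fun v => ?_⟩
  rw [hφ, LinearMap.comp_smul, LinearMap.comp_smul, LinearMap.smul_comp, smul_smul, mul_inv_cancel₀ hc, one_smul]

omit [FiniteDimensional F V] [FiniteDimensional F X] [FiniteDimensional F Y] in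
theorem TD.pow {T : Module.End F V} {A : Module.End F X} {B : Module.End F Y} (h : TD T A B) (k : ℕ) :
    TD (T ^ k) (A ^ k) (B ^ k) := by
  obtain ⟨φ, hφ⟩ := h
  refine ⟨φ, ?_⟩
  induction k with
  | zero => intro v; rfl
  | succ k ih =>
    intro v
    rw [pow_succ, Module.End.mul_apply, ih, hφ, pow_succ B, pow_succ' A]
    rfl

/-- `A` not scalar: bound on eigenspaces -/
theorem TD.finrank_E_le {T : Module.End F V} {A : Module.End F X} {B : Module.End F Y} (h : TD T A B)
    (hB : Function.Bijective B) (hA : ∀ c : F, A ≠ c • (1 : Module.End F X)) (y : F) :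
    finrank F (E T y) + finrank F Y ≤ finrank F X * finrank F Y := by
  obtain ⟨φ, hφ⟩ := h
  obtain ⟨U, hU, hU'⟩ := exists_hyperplane hA
  let B' : Y ≃ₗ[F] Y := LinearEquiv.ofBijective B hB
  have h1 : finrank F ((E T y).map (φ : V →ₗ[F] (X →ₗ[F] Y))) ≤ finrank F U * finrank F Y := by
    apply finrank_le (g₁ := A) (g₂ := y • (B'.symm : Y →ₗ[F] Y)) hU'
    rintro _ ⟨v, hv, rfl⟩
    have hv' : T v = y • v := Module.End.mem_eigenspace_iff.1 hv
    have h2 := hφ v
    rw [hv', map_smul] at h2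
    have h3 := congrArg (fun f : X →ₗ[F] Y => (B'.symm : Y →ₗ[F] Y) ∘ₗ f) h2
    have h4 : (B'.symm : Y →ₗ[F] Y) ∘ₗ B ∘ₗ φ v ∘ₗ A = φ v ∘ₗ A := by
      ext w
      simp only [LinearMap.comp_apply]
      exact B'.symm_apply_apply _
    replace h3 : (B'.symm : Y →ₗ[F] Y) ∘ₗ (y • φ v) = φ v ∘ₗ A := h3.trans h4
    rw [LinearMap.smul_comp]
    show φ v ∘ₗ A = _
    rw [← h3, LinearMap.comp_smul]
    rfl
  have h2 : finrank F ((E T y).map (φ : V →ₗ[F] (X →ₗ[F] Y))) = finrank F (E T y) :=
    LinearEquiv.finrank_map_eq φ _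
  rw [h2] at h1
  calc finrank F (E T y) + finrank F Y ≤ finrank F U * finrank F Y + finrank F Y := by omega
    _ = (finrank F U + 1) * finrank F Y := by ring
    _ = _ := by rw [hU]

omit [FiniteDimensional F V] in
/-- `A = 1`: eigenspaces -/
theorem TD.finrank_E_one {T : Module.End F V} {B : Module.End F Y} (h : TD T (1 : Module.End F X) B) (y : F) :
    finrank F (E T y) = finrank F X * finrank F (E B y) := by
  obtain ⟨φ, hφ⟩ := h
  let ρ : (X →ₗ[F] E B y) →ₗ[F] (X →ₗ[F] Y) := LinearMap.llcomp F X (E B y) Y (E B y).subtype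
  have hρ : Function.Injective ρ := by
    intro f g hfg
    ext v
    have := congrArg (fun f : X →ₗ[F] Y => f v) hfg
    exact this
  have h1 : (E T y).map (φ : V →ₗ[F] (X →ₗ[F] Y)) = LinearMap.range ρ := by
    ext M
    constructor
    · rintro ⟨v, hv, rfl⟩
      have hv' : T v = y • v := Module.End.mem_eigenspace_iff.1 hv
      have h2 := hφ v
      rw [hv', map_smul] at h2
      refine ⟨(φ v).codRestrict (E B y) ?_, ?_⟩
      · intro w
        rw [Module.End.mem_eigenspace_iff]
        have := congrArg (fun f : X →ₗ[F] Y => f w) h2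
        exact this.symm
      · ext w; rfl
    · rintro ⟨M, rfl⟩
      refine ⟨φ.symm (ρ M), ?_, ?_⟩
      · rw [SetLike.mem_coe, Module.End.mem_eigenspace_iff]
        apply φ.injective
        rw [hφ, map_smul, LinearEquiv.apply_symm_apply]
        ext w
        have : B (M w : Y) = y • (M w : Y) := Module.End.mem_eigenspace_iff.1 (M w).2
        exact this
      · exact LinearEquiv.apply_symm_apply _ _
  have h2 : finrank F ((E T y).map (φ : V →ₗ[F] (X →ₗ[F] Y))) = finrank F (E T y) :=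
    LinearEquiv.finrank_map_eq φ _
  rw [← h2, h1, LinearMap.finrank_range_of_inj hρ, finrank_linearMap]

omit [FiniteDimensional F V] [FiniteDimensional F X] [FiniteDimensional F Y] in
theorem TD.of_scalar {T : Module.End F V} {A : Module.End F X} {B : Module.End F Y} (h : TD T A B) {c : F} (hc : c ≠ 0)
    (hA : A = c • (1 : Module.End F X)) : TD T (1 : Module.End F X) (c • B) := by
  have := h.smul (inv_ne_zero hc)
  rwa [hA, smul_smul, inv_mul_cancel₀ hc, one_smul, inv_inv] at this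

omit [FiniteDimensional F V] [FiniteDimensional F X] [FiniteDimensional F Y] in
/-- if the tensor product is the identity then the factors are scalars -/
theorem TD.one [Nontrivial X] [Nontrivial Y] {A : Module.End F X} {B : Module.End F Y} (h : TD (1 : Module.End F V) A B) :
    ∃ c : F, c ≠ 0 ∧ A = c • (1 : Module.End F X) ∧ B = c⁻¹ • (1 : Module.End F Y) := by
  obtain ⟨φ, hφ⟩ := h
  have h1 : ∀ M : X →ₗ[F] Y, B ∘ₗ M ∘ₗ A = M := by
    intro M
    have := hφ (φ.symm M)
    rw [Module.End.one_apply, LinearEquiv.apply_symm_apply] at this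
    exact this.symm
  obtain ⟨x₀, hx₀⟩ := exists_ne (0 : X)
  obtain ⟨y₀, hy₀⟩ := exists_ne (0 : Y)
  have h2 : ∀ (f : Module.Dual F X) (w : Y) (v : X), f (A v) • B w = f v • w := by
    intro f w v
    have := congrArg (fun g : X →ₗ[F] Y => g v) (h1 (f.smulRight w))
    simpa using this
  obtain ⟨f₀, hf₀⟩ : ∃ f : Module.Dual F X, f x₀ = 1 := by
    obtain ⟨f, hf⟩ : ∃ f : Module.Dual F X, f x₀ ≠ 0 := by
      by_contra hcon
      push Not at hcon
      exact hx₀ ((Module.forall_dual_apply_eq_zero_iff F x₀).1 hcon)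
    exact ⟨(f x₀)⁻¹ • f, by rw [LinearMap.smul_apply, smul_eq_mul, inv_mul_cancel₀ hf]⟩
  -- `B w` is a multiple of `w`
  have hc : f₀ (A x₀) ≠ 0 := by
    intro h0
    have := h2 f₀ y₀ x₀
    rw [h0, zero_smul, hf₀, one_smul] at this
    exact hy₀ this.symm
  set c := f₀ (A x₀) with hcdef
  have hB : B = c⁻¹ • (1 : Module.End F Y) := by
    ext w
    have := h2 f₀ w x₀
    rw [hf₀, one_smul] at this
    rw [LinearMap.smul_apply, Module.End.one_apply, eq_inv_smul_iff₀ hc]
    exact this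
  refine ⟨c, hc, ?_, hB⟩
  ext v
  have h3 : ∀ f : Module.Dual F X, f (A v - c • v) = 0 := by
    intro f
    have := h2 f y₀ v
    rw [hB, LinearMap.smul_apply, Module.End.one_apply, smul_smul] at this
    have h4 : f (A v) * c⁻¹ = f v := by
      by_contra hne
      have h5 : (f (A v) * c⁻¹ - f v) • y₀ = 0 := by rw [sub_smul, this, sub_self]
      rcases smul_eq_zero.1 h5 with h6 | h6
      · exact hne (sub_eq_zero.1 h6)
      · exact hy₀ h6
    rw [map_sub, map_smul, smul_eq_mul, ← h4]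
    field_simp
    ring
  rw [LinearMap.smul_apply, Module.End.one_apply]
  exact sub_eq_zero.1 ((Module.forall_dual_apply_eq_zero_iff F _).1 (h3))

omit [FiniteDimensional F V] [FiniteDimensional F X] [FiniteDimensional F Y] in
theorem TD.conj {T : Module.End F V} {A : Module.End F X} {B : Module.End F Y} (h : TD T A B) (g : V ≃ₗ[F] V)
    {S : Module.End F V} (hS : ∀ v, g (S v) = T (g v)) : TD S A B := by
  obtain ⟨φ, hφ⟩ := h
  refine ⟨g ≪≫ₗ φ, fun v => ?_⟩
  rw [LinearEquiv.trans_apply, LinearEquiv.trans_apply, hS, hφ]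

open Matrix

/-- elements conjugate into the stabiliser of a tensor decomposition -/
theorem exists_TD {ι : Type} [Fintype ι] [DecidableEq ι] {a b : ℕ} {e : ι ≃ Fin a × Fin b} {P g x : GL ι F}
    (h : g⁻¹ * x * g ∈ Cfsg.Geo.tensorProductSubgroup a b e P) :
    ∃ (A : GL (Fin a) F) (B : GL (Fin b) F), TD (Matrix.toLin' x.1) (Matrix.toLin' (A.1)ᵀ) (Matrix.toLin' B.1) := by
  rw [mem_iff] at h
  obtain ⟨A, B, hAB⟩ := h
  refine ⟨A, B, ?_⟩
  let g' : (ι → F) ≃ₗ[F] (ι → F) := Matrix.toLin'OfInv (M := g.1) (M' := (g⁻¹ : GL ι F).1) (by rw [← Units.val_mul, mul_inv_cancel]; rfl)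
    (by rw [← Units.val_mul, inv_mul_cancel]; rfl)
  have hg' : ∀ v, g' v = (g⁻¹ : GL ι F).1 *ᵥ v := fun v => rfl
  have hTD : TD (Matrix.toLin' (g⁻¹ * x * g).1) (Matrix.toLin' (A.1)ᵀ) (Matrix.toLin' B.1) := ⟨phi e P, hAB⟩
  refine hTD.conj g' (fun v => ?_)
  rw [hg', hg', Matrix.toLin'_apply, Matrix.toLin'_apply, Matrix.mulVec_mulVec, Matrix.mulVec_mulVec, ← Units.val_mul,
    ← Units.val_mul]
  congr 2
  group

theorem bijective_toLin' {b : ℕ} (B : GL (Fin b) F) : Function.Bijective (Matrix.toLin' B.1) := by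
  constructor
  · rw [← LinearMap.ker_eq_bot, LinearMap.ker_eq_bot']
    intro v hv
    have h1 : (B⁻¹).1 *ᵥ (B.1 *ᵥ v) = 0 := by
      rw [Matrix.toLin'_apply] at hv
      rw [hv, Matrix.mulVec_zero]
    rwa [Matrix.mulVec_mulVec, ← Units.val_mul, inv_mul_cancel, Units.val_one, Matrix.one_mulVec] at h1
  · intro v
    refine ⟨(B⁻¹).1 *ᵥ v, ?_⟩
    rw [Matrix.toLin'_apply, Matrix.mulVec_mulVec, ← Units.val_mul, mul_inv_cancel, Units.val_one, Matrix.one_mulVec]

/-- the two possibilities: large fixed spaces do not occur -/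
theorem dims {a b : ℕ} {T : Module.End F V} {A : GL (Fin a) F} {B : GL (Fin b) F} (ha : 0 < a)
    (h : TD T (Matrix.toLin' (A.1)ᵀ) (Matrix.toLin' B.1)) :
    (∀ y : F, finrank F (E T y) + b ≤ a * b) ∨ (∀ y : F, a ∣ finrank F (E T y)) := by
  by_cases hA : ∀ c : F, Matrix.toLin' (A.1)ᵀ ≠ c • (1 : Module.End F (Fin a → F))
  · left
    intro y
    have := h.finrank_E_le (bijective_toLin' B) hA y
    simpa using this
  · right
    push Not at hA
    obtain ⟨c, hc⟩ := hA
    have hne : Nonempty (Fin a) := ⟨⟨0, ha⟩⟩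
    have hc0 : c ≠ 0 := by
      rintro rfl
      rw [zero_smul] at hc
      have h1 : (A.1)ᵀ = 0 := by
        apply Matrix.toLin'.injective
        rw [hc, map_zero]
      have h2 : A.1 = 0 := by
        rw [← Matrix.transpose_transpose A.1, h1, Matrix.transpose_zero]
      exact A.ne_zero h2
    intro y
    have := (h.of_scalar hc0 hc).finrank_E_one y
    rw [this]
    simp
end Cfsg.Agent.Lib.TenFix
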