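import Cfsg.Agent.Lib.SpConj
import Cfsg.Agent.Lib.TenFix2

/-! # Order of `spGL`; isometries of odd prime order of symmetric forms; tensor products of forms -/

set_option autoImplicit false

namespace Cfsg.Agent.Lib.SpConj

open Cfsg.Agent.Lib.InvSub Cfsg.Agent.Lib.PrimeOrd Cfsg.Agent.Lib.Sesq Module Matrix
open Cfsg.Agent.Lib.AltSim (JB)

theorem card_spGL {F : Type*} [Field F] [Fintype F] (d : ℕ) : Nat.card (Cfsg.spGL d F) = spc (Fintype.card F) d := by
  rw [spc, ← Cfsg.Agent.Lib.ClSympOrd.card_symplectic (F := F) d]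
  have hmem : ∀ x : Cfsg.spGL d F, x.1.1 ∈ Matrix.symplecticGroup (Fin d) F := by
    intro x
    rw [ClIso.mem_symplecticGroup_iff]
    intro u v
    have h2 : ∀ u v, ClIso.sympForm (Fin d) F u v = JB (F := F) d u v := fun u v => by
      rw [ClIso.sympForm, Matrix.toBilin'_apply', AltSim.JB_apply]
    rw [h2, h2]
    exact x.2 u v
  apply Nat.card_congr
  refine Equiv.ofBijective (fun x : Cfsg.spGL d F => (⟨x.1.1, hmem x⟩ : Matrix.symplecticGroup (Fin d) F)) ⟨?_, ?_⟩
  · intro x y h
    exact Subtype.ext (Units.ext (congrArg Subtype.val h))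
  · intro y
    obtain ⟨x, hx, hx'⟩ := exists_spGL (jb_iso y.2)
    refine ⟨⟨x, hx⟩, Subtype.ext ?_⟩
    exact Matrix.toLin'.injective hx'

/-- an isometry of odd prime order of a nondegenerate symmetric form -/
theorem csz_dvd_symm {F V : Type*} [Field F] [Fintype F] [AddCommGroup V] [Module F V] [FiniteDimensional F V]
    {p r : ℕ} (hp : p.Prime) (hc : CharP F p) (hr : r.Prime) (hrp : r ≠ p) (odd : Odd r)
    {B : V →ₗ[F] V →ₗ[F] F} (hsymm : ∀ u v, B u v = B v u) (hnd : ∀ u, (∀ v, B u v = 0) → u = 0)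
    {T : Module.End F V} (hT : ∀ u v, B (T u) (T v) = B u v) (hTr : T ^ r = 1) :
    ∃ s, finrank F V = finrank F (E T 1) + s * csz F r := by
  haveI : Fact p.Prime := ⟨hp⟩
  haveI : Fact r.Prime := ⟨hr⟩
  let g : V →ₗ[F] V →ₗ[F] F := B.compl₁₂ T LinearMap.id - B.compl₁₂ LinearMap.id T
  have hg : ∀ u v, g u v = B (T u) v - B u (T v) := fun u v => rfl
  have hgalt : Alt g := by
    intro u
    rw [hg, hsymm u (T u), sub_self]
  have hgiso : ∀ u v, g (T u) (T v) = g u v := by
    intro u v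
    rw [hg, hg, hT, hT]
  have hss : SS T 1 (orderOf ((Fintype.card F : ℕ) : ZMod r)) := ssB (p := p) hrp one_ne_zero (by rw [hTr, one_pow, one_smul])
  obtain ⟨W, hW, hcompl⟩ := hss.compl (E T 1) (inv_of_le_E le_rfl)
  -- the form is nondegenerate on `W`
  have hrad : ∀ w ∈ W, (∀ w' ∈ W, g w w' = 0) → w = 0 := by
    intro w hw h
    have h1 : ∀ v, g w v = 0 := by
      intro v
      have hv : v ∈ E T 1 ⊔ W := by rw [hcompl.sup_eq_top]; trivial
      obtain ⟨a, ha, b, hb, rfl⟩ := Submodule.mem_sup.1 hv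
      rw [map_add, h b hb, add_zero, hg]
      have ha' : T a = a := by simpa using Module.End.mem_eigenspace_iff.1 ha
      have : B (T w) a = B w a := by
        conv_lhs => rw [← ha']
        rw [hT]
      rw [ha', this, sub_self]
    -- `T² w = w`
    have h2 : T (T w) = w := by
      rw [← sub_eq_zero]
      apply hnd
      intro v
      have h3 := h1 (T v)
      rw [hg, hT] at h3
      have hsurj : Function.Surjective (T ^ r) := by rw [hTr]; exact fun v => ⟨v, rfl⟩
      have hr1 : r = (r - 1) + 1 := by have := hr.pos; omega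
      have h4 : ∀ u, T ((T ^ (r - 1)) u) = u := by
        intro u
        have : (T ^ r) u = u := by rw [hTr]; rfl
        rw [hr1, pow_succ', Module.End.mul_apply] at this
        exact this
      have h5 : ∀ u, (T ^ (r - 1)) (T u) = u := by
        intro u
        have : (T ^ r) u = u := by rw [hTr]; rfl
        rw [hr1, pow_succ, Module.End.mul_apply] at this
        exact this
      -- B (T w) v = B w (T v)
      have h6 : ∀ v, B (T w) v = B w (T v) := fun v => by
        have := h1 v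
        rw [hg, sub_eq_zero] at this
        exact this
      rw [map_sub, LinearMap.sub_apply, sub_eq_zero]
      have h8 : B (T (T w)) v = B (T w) ((T ^ (r - 1)) v) := by
        conv_lhs => rw [← h4 v]
        rw [hT]
      rw [h8, h6, h4]
    have h3 : T w = w := by
      obtain ⟨k, hk⟩ := odd
      have h4 : (T ^ 2) w = w := by rw [pow_two]; exact h2
      have h5 : ∀ k : ℕ, (T ^ (2 * k)) w = w := by
        intro k
        induction k with
        | zero => rfl
        | succ k ih => rw [show 2 * (k + 1) = 2 * k + 2 by ring, pow_add, Module.End.mul_apply, h4, ih]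
      have h6 : (T ^ r) w = w := by rw [hTr]; rfl
      rw [hk, pow_succ', Module.End.mul_apply, h5] at h6
      exact h6
    have h4 : w ∈ E T 1 ⊓ W := ⟨Module.End.mem_eigenspace_iff.2 (by rw [one_smul]; exact h3), hw⟩
    rw [hcompl.inf_eq_bot, Submodule.mem_bot] at h4
    exact h4
  -- restrict to `W`
  let T' : Module.End F W := T.restrict hW
  have hPO : PO F p r (rB g W) T' := by
    refine ⟨hp, hc, hr, hrp, odd, rB_alt hgalt W, rB_nd hrad, ?_, ?_⟩
    · intro u v
      exact hgiso u v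
    · apply LinearMap.ext
      intro w
      apply Subtype.ext
      have h1 : ∀ (k : ℕ) (w : W), (((T' ^ k) w : W) : V) = (T ^ k) w := by
        intro k
        induction k with
        | zero => intro w; rfl
        | succ k ih =>
          intro w
          rw [pow_succ, Module.End.mul_apply, ih, pow_succ, Module.End.mul_apply]
          rfl
      rw [h1, hTr]; rfl
  have hE : (⊤ : Submodule F W) ⊓ E T' 1 = ⊥ := by
    rw [top_inf_eq, eq_bot_iff]
    intro w hw
    rw [Module.End.mem_eigenspace_iff, one_smul] at hw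
    have h1 : T w = w := congrArg Subtype.val hw
    have h4 : (w : V) ∈ E T 1 ⊓ W := ⟨Module.End.mem_eigenspace_iff.2 (by rw [one_smul]; exact h1), w.2⟩
    rw [hcompl.inf_eq_bot, Submodule.mem_bot] at h4
    exact (Submodule.mem_bot F).2 (Subtype.ext h4)
  obtain ⟨s, hs⟩ := hPO.csz_dvd _ rfl (inv_top) hPO.nd hE
  rw [finrank_top] at hs
  have h1 := Submodule.finrank_add_eq_of_isCompl hcompl
  exact ⟨s, by rw [← h1, hs, Nat.mul_comm]⟩

end Cfsg.Agent.Lib.SpConj

namespace Cfsg.Agent.Lib.TenFix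

open Cfsg.Agent.Lib.InvSub Cfsg.Agent.Lib.PrimeOrd Module Matrix
open scoped Kronecker

variable {F : Type*} [Field F]

theorem finrank_E_transpose {n : ℕ} (M : Matrix (Fin n) (Fin n) F) (y : F) :
    finrank F (E (Matrix.toLin' Mᵀ) y) = finrank F (E (Matrix.toLin' M) y) := by
  have key : ∀ N : Matrix (Fin n) (Fin n) F, E (Matrix.toLin' N) y = LinearMap.ker (Matrix.toLin' (N - y • (1 : Matrix (Fin n) (Fin n) F))) := by
    intro N
    ext v
    rw [Module.End.mem_eigenspace_iff, LinearMap.mem_ker, map_sub, map_smul, Matrix.toLin'_one, LinearMap.sub_apply, sub_eq_zero]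
    rfl
  have h1 := LinearMap.finrank_range_add_finrank_ker (Matrix.toLin' (Mᵀ - y • (1 : Matrix (Fin n) (Fin n) F)))
  have h2 := LinearMap.finrank_range_add_finrank_ker (Matrix.toLin' (M - y • (1 : Matrix (Fin n) (Fin n) F)))
  have h3 := Matrix.rank_transpose (M - y • (1 : Matrix (Fin n) (Fin n) F))
  rw [Matrix.transpose_sub, Matrix.transpose_smul, Matrix.transpose_one] at h3
  have h4 : finrank F (LinearMap.range (Matrix.toLin' (Mᵀ - y • (1 : Matrix (Fin n) (Fin n) F)))) =
      finrank F (LinearMap.range (Matrix.toLin' (M - y • (1 : Matrix (Fin n) (Fin n) F)))) := h3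
  rw [key, key]
  omega

/-- interchanging the factors -/
theorem TD.swap {V : Type*} [AddCommGroup V] [Module F V] {a b : ℕ} {T : Module.End F V} {A : Matrix (Fin a) (Fin a) F}
    {B : Matrix (Fin b) (Fin b) F} (h : TD T (Matrix.toLin' Aᵀ) (Matrix.toLin' B)) :
    TD T (Matrix.toLin' Bᵀ) (Matrix.toLin' A) := by
  obtain ⟨φ, hφ⟩ := h
  refine ⟨φ ≪≫ₗ LinearMap.toMatrix' ≪≫ₗ Matrix.transposeLinearEquiv (Fin b) (Fin a) F F ≪≫ₗ Matrix.toLin', fun v => ?_⟩
  simp only [LinearEquiv.trans_apply]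
  rw [hφ, LinearMap.toMatrix'_comp, LinearMap.toMatrix'_comp, LinearMap.toMatrix'_toLin', LinearMap.toMatrix'_toLin']
  show Matrix.toLin' ((B * (LinearMap.toMatrix' (φ v) * Aᵀ))ᵀ) = Matrix.toLin' A ∘ₗ Matrix.toLin' ((LinearMap.toMatrix' (φ v))ᵀ) ∘ₗ Matrix.toLin' Bᵀ
  rw [Matrix.transpose_mul, Matrix.transpose_mul, Matrix.transpose_transpose, Matrix.toLin'_mul, Matrix.toLin'_mul, LinearMap.comp_assoc]

/-- two irreducible summands generate -/
theorem TD.finrank_E_le_two {V X Y : Type*} [AddCommGroup V] [Module F V] [FiniteDimensional F V]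
    [AddCommGroup X] [Module F X] [FiniteDimensional F X] [AddCommGroup Y] [Module F Y] [FiniteDimensional F Y]
    {T : Module.End F V} {A : Module.End F X} {B : Module.End F Y} (h : TD T A B)
    (hB : Function.Bijective B) {o : ℕ} (hss : SS A 1 o) (hE : E A 1 = ⊥) (hX : finrank F X = o ∨ finrank F X = 2 * o)
    (y : F) : finrank F (E T y) ≤ 2 * finrank F Y := by
  classical
  obtain ⟨φ, hφ⟩ := h
  have hopos := hss.pos
  have hX0 : 0 < finrank F X := by rcases hX with h | h <;> omega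
  have hnt : Nontrivial X := Module.nontrivial_of_finrank_pos (R := F) hX0
  obtain ⟨U₁, -, hU₁, hU₁f⟩ := hss.ex ⊤ inv_top (top_ne_bot) (by rw [hE]; exact disjoint_bot_left)
  have hU₁ne : U₁ ≠ ⊥ := by
    rintro rfl
    rw [finrank_bot] at hU₁f; omega
  obtain ⟨w₁, hw₁, hw₁0⟩ := Submodule.exists_mem_ne_zero_of_ne_bot hU₁ne
  obtain ⟨w₂, hw₂⟩ : ∃ w₂ : X, U₁ = ⊤ ∨ w₂ ∉ U₁ := by
    by_cases h : U₁ = ⊤
    · exact ⟨0, Or.inl h⟩
    · by_contra hcon
      push Not at hcon
      apply h
      rw [eq_top_iff]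
      intro x _
      exact (hcon x).2
  let U : Submodule F X := Submodule.span F {w₁, w₂}
  have hUf : finrank F U ≤ 2 := by
    have := finrank_span_le_card (R := F) ({w₁, w₂} : Set X)
    refine this.trans ?_
    rw [Set.toFinset_insert, Set.toFinset_singleton]
    exact Finset.card_le_two
  have hU' : ∀ K : Submodule F X, U ≤ K → Inv A K → K = ⊤ := by
    intro K hK hKi
    have hdvd : o ∣ finrank F ↥(K ⊓ U₁) := hss.dvd (hKi.inf hU₁) (by rw [hE]; exact disjoint_bot_left)
    have hne : K ⊓ U₁ ≠ ⊥ := by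
      intro hb
      have h1 : w₁ ∈ K ⊓ U₁ := ⟨hK (Submodule.subset_span (by simp)), hw₁⟩
      rw [hb, Submodule.mem_bot] at h1
      exact hw₁0 h1
    have hpos : 0 < finrank F ↥(K ⊓ U₁) := by
      rw [Module.finrank_pos_iff]
      exact Submodule.nontrivial_iff_ne_bot.2 hne
    have hle := Nat.le_of_dvd hpos hdvd
    have hUK : U₁ ≤ K := by
      have : K ⊓ U₁ = U₁ := Submodule.eq_of_le_of_finrank_le inf_le_right (by rw [hU₁f]; exact hle)
      rw [← this]; exact inf_le_left
    rcases hw₂ with h | h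
    · rw [h, top_le_iff] at hUK; exact hUK
    · have hlt : U₁ < K := by
        refine lt_of_le_of_ne hUK ?_
        intro heq
        apply h
        rw [heq]
        exact hK (Submodule.subset_span (by simp))
      have h1 := Submodule.finrank_lt_finrank_of_lt hlt
      obtain ⟨k, hk⟩ : o ∣ finrank F K := hss.dvd hKi (by rw [hE]; exact disjoint_bot_left)
      rw [hU₁f, hk] at h1
      have hk2 : 2 ≤ k := by
        by_contra hlt
        have : k = 0 ∨ k = 1 := by omega
        rcases this with rfl | rfl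
        · rw [mul_zero] at h1; omega
        · rw [mul_one] at h1; omega
      apply Submodule.eq_top_of_finrank_eq
      have h2 := Submodule.finrank_le K
      have h3 : 2 * o ≤ finrank F K := by rw [hk]; rw [mul_comm]; exact Nat.mul_le_mul_left o hk2
      rcases hX with h | h <;> omega
  let B' : Y ≃ₗ[F] Y := LinearEquiv.ofBijective B hB
  have h1 : finrank F ((E T y).map (φ : V →ₗ[F] (X →ₗ[F] Y))) ≤ finrank F U * finrank F Y := by
    apply finrank_le (g₁ := A) (g₂ := y • (B'.symm : Y →ₗ[F] Y)) hU'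
    rintro _ ⟨v, hv, rfl⟩
    have hv' : T v = y • v := Module.End.mem_eigenspace_iff.1 hv
    have h2 := hφ v
    rw [hv', map_smul] at h2
    have h3 := congrArg (fun f : X →ₗ[F] Y => (B'.symm : Y →ₗ[F] Y) ∘ₗ f) h2
    have h4 : (B'.symm : Y →ₗ[F] Y) ∘ₗ B ∘ₗ φ v ∘ₗ A = φ v ∘ₗ A := by
      ext w
      simp only [LinearMap.comp_apply]
      exact B'.symm_apply_apply _
    replace h3 : (B'.symm : Y →ₗ[F] Y) ∘ₗ (y • φ v) = φ v ∘ₗ A := h3.trans h4
    rw [LinearMap.smul_comp]
    show φ v ∘ₗ A = _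
    rw [← h3, LinearMap.comp_smul]
    rfl
  have h2 : finrank F ((E T y).map (φ : V →ₗ[F] (X →ₗ[F] Y))) = finrank F (E T y) :=
    LinearEquiv.finrank_map_eq φ _
  rw [h2] at h1
  exact h1.trans (Nat.mul_le_mul_right _ hUf)

section ten

variable {ι : Type} [Fintype ι] [DecidableEq ι] {a b : ℕ} (e : ι ≃ Fin a × Fin b) (P : GL ι F)

/-- pure tensors -/
def ten (u : Fin a → F) (w : Fin b → F) : ι → F := P.1 *ᵥ (fun k => u (e k).1 * w (e k).2)

theorem phi_ten (u : Fin a → F) (w : Fin b → F) : phi e P (ten e P u w) = Matrix.toLin' (Matrix.vecMulVec w u) := by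
  rw [phi_apply, ten, Matrix.mulVec_mulVec, ← Units.val_mul, inv_mul_cancel, Units.val_one, Matrix.one_mulVec]
  congr 1
  ext j i
  show u (e (e.symm (i, j))).1 * w (e (e.symm (i, j))).2 = _
  rw [Equiv.apply_symm_apply, Matrix.vecMulVec_apply, mul_comm]

theorem act_ten {S : Module.End F (ι → F)} {A : Matrix (Fin a) (Fin a) F} {B : Matrix (Fin b) (Fin b) F}
    (h : ∀ v, phi e P (S v) = Matrix.toLin' B ∘ₗ phi e P v ∘ₗ Matrix.toLin' Aᵀ) (u : Fin a → F) (w : Fin b → F) :
    S (ten e P u w) = ten e P (A *ᵥ u) (B *ᵥ w) := by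
  apply (phi e P).injective
  rw [h, phi_ten, phi_ten, ← Matrix.toLin'_mul, ← Matrix.toLin'_mul]
  congr 1
  ext j i
  rw [Matrix.vecMulVec_apply, Matrix.mul_apply]
  simp only [Matrix.mul_apply, Matrix.vecMulVec_apply, Matrix.transpose_apply, Matrix.mulVec, dotProduct]
  rw [Finset.sum_mul]
  apply Finset.sum_congr rfl
  intro j' _
  rw [Finset.mul_sum, Finset.mul_sum]
  apply Finset.sum_congr rfl
  intro i' _
  ring

theorem ten_ext {B₁ B₂ : (ι → F) →ₗ[F] (ι → F) →ₗ[F] F}
    (h : ∀ u w u' w', B₁ (ten e P u w) (ten e P u' w') = B₂ (ten e P u w) (ten e P u' w')) : B₁ = B₂ := by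
  have hs : Submodule.span F (Set.range fun uw : (Fin a → F) × (Fin b → F) => ten e P uw.1 uw.2) = ⊤ := by
    rw [eq_top_iff]
    intro v _
    have h1 : v = P.1 *ᵥ ((P⁻¹).1 *ᵥ v) := by
      rw [Matrix.mulVec_mulVec, ← Units.val_mul, mul_inv_cancel, Units.val_one, Matrix.one_mulVec]
    set x := (P⁻¹).1 *ᵥ v with hx
    have h2 : x = ∑ k, x k • (fun l => (Pi.single (e k).1 1 : Fin a → F) (e l).1 * (Pi.single (e k).2 1 : Fin b → F) (e l).2) := by
      ext l
      rw [Finset.sum_apply, Finset.sum_eq_single l]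
      · simp
      · intro k _ hkl
        rw [Pi.smul_apply, smul_eq_mul]
        have h3 : e l ≠ e k := fun h => hkl (e.injective h).symm
        by_cases h4 : (e l).1 = (e k).1
        · have h5 : (e l).2 ≠ (e k).2 := fun h5 => h3 (Prod.ext h4 h5)
          rw [Pi.single_eq_of_ne h5]; ring
        · rw [Pi.single_eq_of_ne h4]; ring
      · intro h; exact absurd (Finset.mem_univ _) h
    rw [h1, h2, Matrix.mulVec_sum]
    apply Submodule.sum_mem
    intro k _
    rw [Matrix.mulVec_smul]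
    apply Submodule.smul_mem
    exact Submodule.subset_span ⟨(Pi.single (e k).1 1, Pi.single (e k).2 1), rfl⟩
  apply LinearMap.ext_on hs
  rintro _ ⟨⟨u, w⟩, rfl⟩
  apply LinearMap.ext_on hs
  rintro _ ⟨⟨u', w'⟩, rfl⟩
  exact h u w u' w'

theorem form_eq_gram {κ : Type} [Fintype κ] [DecidableEq κ] {f : (κ → F) → (κ → F) → F} (hf : Cfsg.Geo.IsBilinearForm f) (u v : κ → F) :
    f u v = ∑ i, ∑ j, u i * Cfsg.Geo.gramMatrix f i j * v j := by
  let B : (κ → F) →ₗ[F] (κ → F) →ₗ[F] F := LinearMap.mk₂ F f hf.add_left hf.smul_left hf.add_right hf.smul_right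
  have h1 : ∀ w, B u w = ∑ i, u i * B (Pi.single i 1) w := by
    intro w
    have h2 := LinearMap.pi_apply_eq_sum_univ (B.flip w) u
    rw [LinearMap.flip_apply] at h2
    rw [h2]
    apply Finset.sum_congr rfl
    intro i _
    rw [LinearMap.flip_apply, smul_eq_mul]
    congr 3
    ext j
    rw [Pi.single_apply]
    simp only [eq_comm]
  have h3 : ∀ w, B w v = ∑ j, v j * B w (Pi.single j 1) := by
    intro w
    have h2 := LinearMap.pi_apply_eq_sum_univ (B w) v
    rw [h2]
    apply Finset.sum_congr rfl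
    intro i _
    rw [smul_eq_mul]
    congr 2
    ext j
    rw [Pi.single_apply]
    simp only [eq_comm]
  show B u v = _
  rw [h1]
  apply Finset.sum_congr rfl
  intro i _
  rw [h3, Finset.mul_sum]
  apply Finset.sum_congr rfl
  intro j _
  show u i * (v j * Cfsg.Geo.gramMatrix f i j) = _
  ring

theorem form_ten {f : (ι → F) → (ι → F) → F} {f₁ : (Fin a → F) → (Fin a → F) → F} {f₂ : (Fin b → F) → (Fin b → F) → F}
    (hf₁ : Cfsg.Geo.IsBilinearForm f₁) (hf₂ : Cfsg.Geo.IsBilinearForm f₂)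
    (hS : Cfsg.Geo.IsTensorFormStructure id f f₁ f₂ e P) :
    ∃ c : F, c ≠ 0 ∧ ∀ u w u' w', f (ten e P u w) (ten e P u' w') = c * (f₁ u u' * f₂ w w') := by
  obtain ⟨c, hc, h⟩ := hS
  refine ⟨c, hc, fun u w u' w' => ?_⟩
  have h1 := h (fun k => u k.1 * w k.2) (fun k => u' k.1 * w' k.2)
  have h2 : ((fun k : Fin a × Fin b => u k.1 * w k.2) ∘ e) = fun k => u (e k).1 * w (e k).2 := rfl
  have h3 : ((fun k : Fin a × Fin b => u' k.1 * w' k.2) ∘ e) = fun k => u' (e k).1 * w' (e k).2 := rfl
  rw [h2, h3] at h1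
  rw [ten, ten, h1]
  congr 1
  rw [Cfsg.Geo.formOfGram, form_eq_gram hf₁, form_eq_gram hf₂, Finset.sum_mul_sum, ← Finset.univ_product_univ, Finset.sum_product]
  apply Finset.sum_congr rfl
  intro i _
  apply Finset.sum_congr rfl
  intro j _
  rw [Finset.sum_mul_sum, Finset.sum_product]
  apply Finset.sum_congr rfl
  intro i' _
  apply Finset.sum_congr rfl
  intro j' _
  rw [Matrix.kroneckerMap_apply]
  simp only [id]
  ring

end ten

end Cfsg.Agent.Lib.TenFix
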