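import Cfsg.Agent.Lib.SpConj2

/-! # Similitudes of tensor products of forms -/

set_option autoImplicit false

namespace Cfsg.Agent.Lib.SpConj

open Cfsg.Agent.Lib.InvSub Cfsg.Agent.Lib.PrimeOrd Cfsg.Agent.Lib.Sesq Module Matrix
open Cfsg.Agent.Lib.AltSim (JB)

section sim

variable {F X Y : Type*} [Field F] [AddCommGroup X] [Module F X] [AddCommGroup Y] [Module F Y]
  {B₁ : X →ₗ[F] X →ₗ[F] F} {B₂ : Y →ₗ[F] Y →ₗ[F] F} {A : Module.End F X} {B : Module.End F Y}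

theorem sim_of (h1 : ∃ u u', B₁ u u' ≠ 0) (h2 : ∃ w w', B₂ w w' ≠ 0)
    (h : ∀ u u' w w', B₁ (A u) (A u') * B₂ (B w) (B w') = B₁ u u' * B₂ w w') :
    ∃ μ : F, μ ≠ 0 ∧ (∀ u u', B₁ (A u) (A u') = μ * B₁ u u') ∧ (∀ w w', B₂ (B w) (B w') = μ⁻¹ * B₂ w w') := by
  obtain ⟨u0, u0', hu0⟩ := h1
  obtain ⟨w0, w0', hw0⟩ := h2
  have h3 := h u0 u0' w0 w0'
  have hα : B₂ (B w0) (B w0') ≠ 0 := by
    intro h0
    rw [h0, mul_zero] at h3
    exact mul_ne_zero hu0 hw0 h3.symm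
  have hβ : B₁ (A u0) (A u0') ≠ 0 := by
    intro h0
    rw [h0, zero_mul] at h3
    exact mul_ne_zero hu0 hw0 h3.symm
  have h4 : ∀ u u', B₁ (A u) (A u') = (B₂ w0 w0' / B₂ (B w0) (B w0')) * B₁ u u' := by
    intro u u'
    have := h u u' w0 w0'
    field_simp
    linear_combination this
  refine ⟨B₂ w0 w0' / B₂ (B w0) (B w0'), div_ne_zero hw0 hα, h4, ?_⟩
  intro w w'
  have h5 := h u0 u0' w w'
  rw [h4] at h5
  have h6 : B₂ w0 w0' * B₂ (B w) (B w') = B₂ (B w0) (B w0') * B₂ w w' := by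
    have h7 : B₁ u0 u0' * (B₂ w0 w0' * B₂ (B w) (B w') - B₂ (B w0) (B w0') * B₂ w w') = 0 := by
      have h8 : B₂ w0 w0' * B₁ u0 u0' * B₂ (B w) (B w') = B₂ (B w0) (B w0') * (B₁ u0 u0' * B₂ w w') := by
        rw [← h5]
        field_simp
      linear_combination h8
    exact sub_eq_zero.1 ((mul_eq_zero.1 h7).resolve_left hu0)
  rw [inv_div]
  field_simp
  linear_combination h6

theorem normalise {μ c : F} (hμ : μ ≠ 0) (hc : c ≠ 0) (h1 : ∃ u u', B₁ u u' ≠ 0)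
    (hA : ∀ u u', B₁ (A u) (A u') = μ * B₁ u u') (hB : ∀ w w', B₂ (B w) (B w') = μ⁻¹ * B₂ w w') {r : ℕ} (hr : Odd r)
    (hAr : A ^ r = c • (1 : Module.End F X)) (hBr : B ^ r = c⁻¹ • (1 : Module.End F Y)) :
    ∃ δ : F, δ ≠ 0 ∧ (∀ u u', B₁ ((δ⁻¹ • A) u) ((δ⁻¹ • A) u') = B₁ u u') ∧
      (∀ w w', B₂ ((δ • B) w) ((δ • B) w') = B₂ w w') ∧ (δ⁻¹ • A) ^ r = 1 ∧ (δ • B) ^ r = 1 := by
  obtain ⟨k, hk⟩ := hr
  have hpow : ∀ n : ℕ, ∀ u u', B₁ ((A ^ n) u) ((A ^ n) u') = μ ^ n * B₁ u u' := by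
    intro n
    induction n with
    | zero => intro u u'; simp
    | succ n ih =>
      intro u u'
      rw [pow_succ, Module.End.mul_apply, Module.End.mul_apply, ih, hA, pow_succ]; ring
  have hμc : μ ^ r = c ^ 2 := by
    obtain ⟨u, u', hu⟩ := h1
    have h2 := hpow r u u'
    rw [hAr] at h2
    simp only [LinearMap.smul_apply, Module.End.one_apply, map_smul, smul_eq_mul] at h2
    have h3 : (μ ^ r - c ^ 2) * B₁ u u' = 0 := by linear_combination -h2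
    exact sub_eq_zero.1 ((mul_eq_zero.1 h3).resolve_right hu)
  -- square root of `μ`
  set δ₀ : F := μ ^ (k + 1) / c with hδ₀
  have hδ₀0 : δ₀ ≠ 0 := div_ne_zero (pow_ne_zero _ hμ) hc
  have hδ₀2 : δ₀ ^ 2 = μ := by
    rw [hδ₀, div_pow, ← hμc, hk, ← pow_mul, div_eq_iff (pow_ne_zero _ hμ)]
    ring
  have hε : (c * (δ₀ ^ r)⁻¹) ^ 2 = 1 := by
    have h3 : (δ₀ ^ r) ^ 2 = c ^ 2 := by rw [← pow_mul, mul_comm r 2, pow_mul, hδ₀2, hμc]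
    rw [mul_pow, _root_.inv_pow, h3, mul_inv_cancel₀ (pow_ne_zero _ hc)]
  have hfin : ∀ δ : F, δ ≠ 0 → δ ^ 2 = μ → δ ^ r = c →
      ∃ δ : F, δ ≠ 0 ∧ (∀ u u', B₁ ((δ⁻¹ • A) u) ((δ⁻¹ • A) u') = B₁ u u') ∧
      (∀ w w', B₂ ((δ • B) w) ((δ • B) w') = B₂ w w') ∧ (δ⁻¹ • A) ^ r = 1 ∧ (δ • B) ^ r = 1 := by
    intro δ h0 h2 hr
    refine ⟨δ, h0, ?_, ?_, ?_, ?_⟩
    · intro u u'
      simp only [LinearMap.smul_apply, map_smul, smul_eq_mul]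
      rw [hA, ← h2]
      field_simp
    · intro w w'
      simp only [LinearMap.smul_apply, map_smul, smul_eq_mul]
      rw [hB, ← h2]
      field_simp
    · rw [smul_pow, hAr, smul_smul, _root_.inv_pow, hr, inv_mul_cancel₀ hc, one_smul]
    · rw [smul_pow, hBr, smul_smul, hr, mul_inv_cancel₀ hc, one_smul]
  rw [pow_two] at hε
  rcases mul_self_eq_one_iff.1 hε with h | h
  · apply hfin δ₀ hδ₀0 hδ₀2
    field_simp at h
    exact h.symm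
  · apply hfin (-δ₀) (neg_ne_zero.2 hδ₀0) (by rw [neg_pow, hδ₀2]; ring)
    have h3 : c = - δ₀ ^ r := by
      field_simp at h
      linear_combination h
    rw [h3, hk, neg_pow, pow_succ, pow_mul]
    norm_num

end sim

end Cfsg.Agent.Lib.SpConj

namespace Cfsg.Agent.Lib.SpConj

open Cfsg.Agent.Lib.InvSub Cfsg.Agent.Lib.PrimeOrd Cfsg.Agent.Lib.Sesq Cfsg.Agent.Lib.TenFix Module Matrix
open Cfsg.Agent.Lib.AltSim (JB)

variable {F : Type*} [Field F] {d a b : ℕ}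

lemma exists_ne_of_nondeg {n : ℕ} (hn : 0 < n) {f : (Fin n → F) → (Fin n → F) → F}
    (h : ∀ v, (∀ w, f v w = 0) → v = 0) : ∃ u u', f u u' ≠ 0 := by
  have hne : Nonempty (Fin n) := ⟨⟨0, hn⟩⟩
  obtain ⟨v, hv⟩ := exists_ne (0 : Fin n → F)
  by_contra hcon
  push Not at hcon
  exact hv (h v (fun w => hcon v w))

/-- structure of the elements conjugate into the stabiliser of a tensor decomposition of the form -/
theorem struct {e : (Fin d ⊕ Fin d) ≃ Fin a × Fin b} {P : GL (Fin d ⊕ Fin d) F}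
    {f₁ : (Fin a → F) → (Fin a → F) → F} {f₂ : (Fin b → F) → (Fin b → F) → F}
    (ha : 0 < a) (hb : 0 < b) (hf₁ : Cfsg.Geo.IsBilinearForm f₁) (hn₁ : ∀ v, (∀ w, f₁ v w = 0) → v = 0)
    (hf₂ : Cfsg.Geo.IsBilinearForm f₂) (hn₂ : ∀ v, (∀ w, f₂ v w = 0) → v = 0)
    (hS : Cfsg.Geo.IsTensorFormStructure id (Cfsg.sympForm d F) f₁ f₂ e P)
    {x g : GL (Fin d ⊕ Fin d) F} (hx : x ∈ Cfsg.spGL d F) (hg : g ∈ Cfsg.spGL d F)
    (hmem : g⁻¹ * x * g ∈ Cfsg.Geo.tensorProductSubgroup a b e P) :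
    ∃ (A : GL (Fin a) F) (B : GL (Fin b) F) (μ : F), μ ≠ 0 ∧
      TD (Matrix.toLin' x.1) (Matrix.toLin' (A.1)ᵀ) (Matrix.toLin' B.1) ∧
      (∀ u u', f₁ (A.1 *ᵥ u) (A.1 *ᵥ u') = μ * f₁ u u') ∧ (∀ w w', f₂ (B.1 *ᵥ w) (B.1 *ᵥ w') = μ⁻¹ * f₂ w w') := by
  have hmem' := hmem
  rw [mem_iff] at hmem'
  obtain ⟨A, B, hAB⟩ := hmem'
  let g' : (Fin d ⊕ Fin d → F) ≃ₗ[F] (Fin d ⊕ Fin d → F) := Matrix.toLin'OfInv (M := g.1) (M' := (g⁻¹ : GL (Fin d ⊕ Fin d) F).1) (by rw [← Units.val_mul, mul_inv_cancel]; rfl)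
    (by rw [← Units.val_mul, inv_mul_cancel]; rfl)
  have hg' : ∀ v, g' v = (g⁻¹ : GL (Fin d ⊕ Fin d) F).1 *ᵥ v := fun v => rfl
  have hTD : TD (Matrix.toLin' (g⁻¹ * x * g).1) (Matrix.toLin' (A.1)ᵀ) (Matrix.toLin' B.1) := ⟨phi e P, hAB⟩
  have hTD' : TD (Matrix.toLin' x.1) (Matrix.toLin' (A.1)ᵀ) (Matrix.toLin' B.1) := by
    refine hTD.conj g' (fun v => ?_)
    rw [hg', hg', Matrix.toLin'_apply, Matrix.toLin'_apply, Matrix.mulVec_mulVec, Matrix.mulVec_mulVec, ← Units.val_mul,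
      ← Units.val_mul]
    congr 2
    group
  have hy : g⁻¹ * x * g ∈ Cfsg.spGL d F := mul_mem (mul_mem (inv_mem hg) hx) hg
  obtain ⟨c, hc, hform⟩ := form_ten e P hf₁ hf₂ hS
  let B₁ : (Fin a → F) →ₗ[F] (Fin a → F) →ₗ[F] F := LinearMap.mk₂ F f₁ hf₁.add_left hf₁.smul_left hf₁.add_right hf₁.smul_right
  let B₂ : (Fin b → F) →ₗ[F] (Fin b → F) →ₗ[F] F := LinearMap.mk₂ F f₂ hf₂.add_left hf₂.smul_left hf₂.add_right hf₂.smul_right
  obtain ⟨μ, hμ, h1, h2⟩ := sim_of (B₁ := B₁) (B₂ := B₂) (A := Matrix.toLin' A.1) (B := Matrix.toLin' B.1)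
    (exists_ne_of_nondeg ha hn₁) (exists_ne_of_nondeg hb hn₂) (by
      intro u u' w w'
      have h3 := (mem_spGL _).1 hy (ten e P u w) (ten e P u' w')
      have h4 := act_ten e P (S := Matrix.toLin' (g⁻¹ * x * g).1) (A := A.1) (B := B.1) hAB
      rw [h4, h4] at h3
      have h5 : Cfsg.sympForm d F (ten e P (A.1 *ᵥ u) (B.1 *ᵥ w)) (ten e P (A.1 *ᵥ u') (B.1 *ᵥ w')) =
        Cfsg.sympForm d F (ten e P u w) (ten e P u' w') := h3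
      rw [hform, hform] at h5
      exact mul_left_cancel₀ hc h5)
  exact ⟨A, B, μ, hμ, hTD', h1, h2⟩

end Cfsg.Agent.Lib.SpConj
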