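import Cfsg.Agent.Lib.FlagSylow
import Cfsg.Agent.Lib.PSpThm

/-! The upper unitriangular Sylow subgroup of `Sp_{2m}(F)`; strongly closed subgroups. -/

set_option autoImplicit false

namespace Cfsg.Agent.Lib.SpCrit

open Matrix
open Cfsg.Agent.Lib.PSpAut Cfsg.Agent.Lib.FlagSylow Cfsg.Agent.Lib.ClSymp Cfsg.Agent.Lib.ClSymp2 Cfsg.Agent.Lib.ClIso

variable {m : ℕ} {F : Type*} [Field F]

/-- the ordering `e₁, …, e_m, f_m, …, f₁` -/
def sg (m : ℕ) : Fin m ⊕ Fin m ≃ Fin (m + m) := (Equiv.sumCongr (Equiv.refl _) Fin.revPerm).trans finSumFinEquiv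

theorem sg_inl (i : Fin m) : (sg m (Sum.inl i)).val = i.val := rfl

theorem sg_inr (i : Fin m) : (sg m (Sum.inr i)).val = m + (m - (i.val + 1)) := rfl

/-- the matrix in the ordered basis -/
def rho (m : ℕ) (F : Type*) [Field F] : SG m F →* Matrix (Fin (m + m)) (Fin (m + m)) F where
  toFun g := Matrix.reindexAlgEquiv F F (sg m) g.1
  map_one' := map_one (Matrix.reindexAlgEquiv F F (sg m))
  map_mul' g h := map_mul (Matrix.reindexAlgEquiv F F (sg m)) g.1 h.1

theorem rho_apply (g : SG m F) (a b : Fin m ⊕ Fin m) : rho m F g (sg m a) (sg m b) = g.1 a b := by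
  show Matrix.reindexAlgEquiv F F (sg m) g.1 (sg m a) (sg m b) = _
  simp [Matrix.reindexAlgEquiv_apply, Matrix.submatrix_apply]

theorem rho_injective : Function.Injective (rho m F) := by
  intro g h hgh
  apply Subtype.ext
  exact (Matrix.reindexAlgEquiv F F (sg m)).injective hgh

theorem rho_mulVec (g : SG m F) (w : Fin (m + m) → F) (a : Fin m ⊕ Fin m) :
    (rho m F g *ᵥ w) (sg m a) = (g.1 *ᵥ (fun b => w (sg m b))) a := by
  show ∑ j, rho m F g (sg m a) j * w j = ∑ b, g.1 a b * w (sg m b)
  rw [← Equiv.sum_comp (sg m)]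
  exact Finset.sum_congr rfl fun b _ => by rw [rho_apply]

theorem col_e (g : SG m F) (j : Fin m) (a : Fin m ⊕ Fin m) : (g.1 *ᵥ e j) a = g.1 a (Sum.inl j) := by
  unfold e ee
  rw [Matrix.mulVec_single_one]; rfl

theorem col_f (g : SG m F) (j : Fin m) (a : Fin m ⊕ Fin m) : (g.1 *ᵥ f j) a = g.1 a (Sum.inr j) := by
  unfold f ff
  rw [Matrix.mulVec_single_one]; rfl

theorem uniTri_iff' (g : SG m F) : UniTri (rho m F g) ↔
    ∀ a b : Fin m ⊕ Fin m, sg m b ≤ sg m a → g.1 a b = if a = b then 1 else 0 := by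
  constructor
  · intro h a b hab
    rw [← rho_apply, h _ _ hab]
    simp
  · intro h i j hij
    obtain ⟨a, rfl⟩ := (sg m).surjective i
    obtain ⟨b, rfl⟩ := (sg m).surjective j
    rw [rho_apply, h a b hij]
    simp

/-- the upper unitriangular subgroup -/
def U (m : ℕ) (F : Type*) [Field F] [Finite F] : Subgroup (SG m F) where
  carrier := {g | UniTri (rho m F g)}
  mul_mem' := fun {a b} ha hb => by
    show UniTri (rho m F (a * b))
    rw [map_mul]; exact UniTri.mul ha hb
  one_mem' := by
    show UniTri (rho m F 1)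
    rw [map_one]; exact uniTri_one
  inv_mem' := fun {a} ha => by
    have h1 : a⁻¹ = a ^ (orderOf a - 1) := by
      rw [inv_eq_iff_mul_eq_one, ← pow_succ', Nat.sub_add_cancel (orderOf_pos a), pow_orderOf_eq_one]
    show UniTri (rho m F a⁻¹)
    rw [h1, map_pow]; exact UniTri.pow ha _

variable [Finite F]

theorem mem_U {g : SG m F} : g ∈ U m F ↔ UniTri (rho m F g) := Iff.rfl

/-- membership in terms of the images of the basis vectors -/
theorem mem_U_iff {g : SG m F} : g ∈ U m F ↔
    (∀ j : Fin m, ∀ a, j.val ≤ (sg m a).val → (g.1 *ᵥ e j) a = if a = Sum.inl j then 1 else 0) ∧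
    (∀ j : Fin m, ∀ a, m + (m - (j.val + 1)) ≤ (sg m a).val → (g.1 *ᵥ f j) a = if a = Sum.inr j then 1 else 0) := by
  rw [mem_U, uniTri_iff']
  constructor
  · intro h
    exact ⟨fun j a ha => by rw [col_e]; exact h a _ ha, fun j a ha => by rw [col_f]; exact h a _ ha⟩
  · rintro ⟨h1, h2⟩ a (j | j) hab
    · rw [← col_e]; exact h1 j a hab
    · rw [← col_f]; exact h2 j a hab

omit [Finite F] in
theorem e_apply (j : Fin m) (a : Fin m ⊕ Fin m) : (e j : Fin m ⊕ Fin m → F) a = if a = Sum.inl j then 1 else 0 := by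
  unfold e ee; rw [Pi.single_apply]

omit [Finite F] in
theorem f_apply (j : Fin m) (a : Fin m ⊕ Fin m) : (f j : Fin m ⊕ Fin m → F) a = if a = Sum.inr j then 1 else 0 := by
  unfold f ff; rw [Pi.single_apply]

omit [Finite F] in
theorem B_e' (x : Fin m ⊕ Fin m → F) (i : Fin m) : B x (e i) = x (Sum.inr i) := by
  rw [B_skew, B_e, neg_neg]

omit [Finite F] in
theorem B_f' (x : Fin m ⊕ Fin m → F) (i : Fin m) : B x (f i) = - x (Sum.inl i) := by
  rw [B_skew, B_f]

/-- membership in the span of the `e_i` -/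
def InW (w : Fin m ⊕ Fin m → F) : Prop := ∀ j, w (Sum.inr j) = 0

omit [Finite F] in
theorem InW.add {u v : Fin m ⊕ Fin m → F} (hu : InW u) (hv : InW v) : InW (u + v) := fun j => by
  rw [Pi.add_apply, hu, hv, add_zero]

omit [Finite F] in
theorem InW.smul {u : Fin m ⊕ Fin m → F} (c : F) (hu : InW u) : InW (c • u) := fun j => by
  rw [Pi.smul_apply, hu, smul_zero]

omit [Finite F] in
theorem inW_e (i : Fin m) : InW (e i : Fin m ⊕ Fin m → F) := fun j => e_inr i j

omit [Finite F] in
theorem InW.B {u v : Fin m ⊕ Fin m → F} (hu : InW u) (hv : InW v) : B u v = 0 := by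
  rw [B_apply]
  exact Finset.sum_eq_zero fun i _ => by rw [hu, hv, zero_mul, mul_zero, sub_zero]

theorem tM_mem_U (c : F) {w : Fin m ⊕ Fin m → F} (hw : InW w) : tM c w ∈ U m F := by
  rw [mem_U_iff]
  constructor
  · intro j a _
    rw [tM_mulVec, B_e', hw, mul_zero, zero_smul, add_zero, e_apply]
  · intro j a ha
    rw [tM_mulVec, Pi.add_apply, Pi.smul_apply, f_apply]
    have : w a = 0 := by
      rcases a with i | i
      · exfalso
        have h1 := sg_inl i
        have h2 := i.2
        rw [h1] at ha; omega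
      · exact hw i
    rw [this, smul_zero, add_zero]

theorem sM_mem_U {u v : Fin m ⊕ Fin m → F} (hu : InW u) (hv : InW v) : sM u v ∈ U m F := by
  unfold sM
  exact (U m F).mul_mem ((U m F).mul_mem (tM_mem_U _ (hu.add hv)) (tM_mem_U _ hu)) (tM_mem_U _ hv)

theorem sM_ef_mem_U {w : Fin m ⊕ Fin m → F} {k : Fin m} (hw : InW w) (hwk : ∀ i, k ≤ i → w (Sum.inl i) = 0) :
    sM w (f k) ∈ U m F := by
  have h0 : B w (f k) = 0 := by rw [B_f', hwk k le_rfl, neg_zero]
  rw [mem_U_iff]
  constructor
  · intro j a ha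
    rw [sM_mulVec h0, B_e', hw, zero_smul, add_zero, Pi.add_apply, Pi.smul_apply, B_f, e_inl, e_apply]
    by_cases hjk : k = j
    · subst hjk
      have : w a = 0 := by
        rcases a with i | i
        · exact hwk i ha
        · exact hw i
      rw [this, smul_zero, add_zero]
    · rw [if_neg hjk, zero_smul, add_zero]
  · intro j a ha
    rw [sM_mulVec h0, B_f', B_f, f_inl, zero_smul, add_zero, Pi.add_apply, Pi.smul_apply, f_apply]
    by_cases h1 : a = Sum.inr k
    · subst h1
      rw [sg_inr] at ha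
      have h2 : k ≤ j := by
        have := k.2; have := j.2
        show k.val ≤ j.val
        omega
      rw [hwk j h2, neg_zero, zero_smul, add_zero]
    · rw [f_apply k a, if_neg h1, smul_zero, add_zero]

theorem QU_le_U (hm : 0 < m) : QU (e ⟨0, hm⟩ : Fin m ⊕ Fin m → F) ≤ U m F := by
  intro s hs
  set z : Fin m := ⟨0, hm⟩ with hz
  rw [mem_U_iff]
  constructor
  · intro j a ha
    obtain ⟨c, hc⟩ := hs.2 (e j) (by rw [B_e', e_inr])
    rw [hc, Pi.add_apply, Pi.smul_apply, e_apply, e_apply]
    by_cases h1 : a = Sum.inl z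
    · subst h1
      have h2 : j = z := by
        rw [sg_inl] at ha
        apply Fin.ext
        have : z.val = 0 := rfl
        omega
      subst h2
      rw [if_pos rfl]
      have h3 := hs.1
      rw [hc] at h3
      have h4 : c • (e z : Fin m ⊕ Fin m → F) = 0 := by
        have := h3
        simpa using this
      rw [smul_eq_zero] at h4
      rcases h4 with h4 | h4
      · rw [h4, zero_smul, add_zero]
      · exact absurd h4 (e_ne z)
    · rw [if_neg h1, smul_zero, add_zero]
  · intro j a ha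
    by_cases hj : j = z
    · subst hj
      have h1 : a = Sum.inr z := by
        apply (sg m).injective
        apply Fin.ext
        rw [sg_inr]
        have := (sg m a).2
        have : z.val = 0 := rfl
        omega
      subst h1
      rw [if_pos rfl]
      have h2 : B (e z) (s.1 *ᵥ f z) = B (e z) (f z) := by
        conv_lhs => rw [← hs.1]
        rw [S_form]
      rw [B_e, B_e, f_inr, if_pos rfl] at h2
      exact neg_injective h2
    · obtain ⟨c, hc⟩ := hs.2 (f j) (by rw [B_f', e_inl, if_neg hj, neg_zero])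
      rw [hc, Pi.add_apply, Pi.smul_apply, f_apply, e_apply]
      have h1 : a ≠ Sum.inl z := by
        rintro rfl
        rw [sg_inl] at ha
        have : z.val = 0 := rfl
        omega
      rw [if_neg h1, smul_zero, add_zero]

theorem flagFix : FlagFix (rho m F) (U m F) := by
  intro i w _ hfix j hij
  obtain ⟨b, rfl⟩ := (sg m).surjective j
  have hij' : i.val < (sg m b).val := hij
  rcases b with b | b
  · -- `e_b → e_b + e_{b-1}`
    rw [sg_inl] at hij'
    have hb := b.2
    let c : Fin m := ⟨b.val - 1, by omega⟩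
    have hc : c.val = b.val - 1 := rfl
    have h0 : B (e c) (f b : Fin m ⊕ Fin m → F) = 0 := by
      rw [B_e, f_inr, if_neg, neg_zero]
      intro h; rw [h] at hc; omega
    have h1 := hfix (sM (e c) (f b)) (sM_ef_mem_U (inW_e c) fun i hi => by
      rw [e_inl, if_neg]; rintro rfl
      have : b.val ≤ c.val := hi
      omega) (sg m (Sum.inl c)) (by show i.val ≤ c.val; omega)
    rw [rho_mulVec, sM_mulVec h0, Pi.add_apply, Pi.add_apply, Pi.smul_apply, Pi.smul_apply, f_inl, smul_zero, add_zero,
      B_f, e_inl, if_pos rfl, smul_eq_mul, mul_one] at h1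
    simpa using h1
  · have hb := b.2
    rw [sg_inr] at hij'
    by_cases hbm : b.val + 1 = m
    · have h1 := hfix (tM 1 (e b)) (tM_mem_U 1 (inW_e b)) (sg m (Sum.inl b)) (by show i.val ≤ b.val; omega)
      rw [rho_mulVec, tM_mulVec, Pi.add_apply, Pi.smul_apply, B_e, e_inl, if_pos rfl, smul_eq_mul, mul_one, one_mul] at h1
      simpa using h1
    · let c : Fin m := ⟨b.val + 1, by omega⟩
      have hc : c.val = b.val + 1 := rfl
      have h0 : B (e b) (f c : Fin m ⊕ Fin m → F) = 0 := by
        rw [B_e, f_inr, if_neg, neg_zero]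
        intro h; rw [← h] at hc; omega
      have h1 := hfix (sM (e b) (f c)) (sM_ef_mem_U (inW_e b) fun i hi => by
        rw [e_inl, if_neg]; rintro rfl
        have : c.val ≤ i.val := hi
        omega) (sg m (Sum.inr c)) (by show i.val ≤ (sg m (Sum.inr c)).val; rw [sg_inr]; omega)
      rw [rho_mulVec, sM_mulVec h0, Pi.add_apply, Pi.add_apply, Pi.smul_apply, Pi.smul_apply, e_inr, smul_zero, add_zero,
        B_e, f_inr, if_pos rfl, smul_eq_mul, mul_one] at h1
      simpa using h1

variable {p : ℕ} [Fact p.Prime] [CharP F p]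

theorem exists_sylow_U : ∃ P : Sylow p (SG m F), (P : Subgroup (SG m F)) = U m F :=
  exists_sylow (p := p) (rho m F) rho_injective (U m F) (fun _ => Iff.rfl) flagFix

end Cfsg.Agent.Lib.SpCrit
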