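import Cfsg.Agent.Lib.SpCrit

/-! Strongly closed subgroups of the Sylow subgroup of `Sp_{2m}(F)` in the natural characteristic. -/

set_option autoImplicit false

namespace Cfsg.Agent.Lib.SpCrit

open Matrix
open Cfsg.Agent.Lib.PSpAut Cfsg.Agent.Lib.FlagSylow Cfsg.Agent.Lib.ClSymp Cfsg.Agent.Lib.ClSymp2 Cfsg.Agent.Lib.ClIso

variable {m : ℕ} {F : Type*} [Field F]

theorem S_ext_ef {s t : SG m F} (he : ∀ i, s.1 *ᵥ e i = t.1 *ᵥ e i) (hf : ∀ i, s.1 *ᵥ f i = t.1 *ᵥ f i) : s = t := by
  apply Subtype.ext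
  apply Matrix.ext
  rintro a (j | j)
  · rw [← col_e, ← col_e, he]
  · rw [← col_f, ← col_f, hf]

/-- `Sp` is transitive on ordered pairs of independent perpendicular vectors -/
theorem exists_pair {u v u' v' : Fin m ⊕ Fin m → F} (hu : u ≠ 0) (hv : ∀ c : F, v ≠ c • u) (huv : B u v = 0)
    (hu' : u' ≠ 0) (hv' : ∀ c : F, v' ≠ c • u') (huv' : B u' v' = 0) :
    ∃ s : SG m F, s.1 *ᵥ u = u' ∧ s.1 *ᵥ v = v' := by
  obtain ⟨s, h1, h2⟩ := trans_perp isSymp_sympForm hu hv huv hu' hv' huv'
  refine ⟨(sympEquiv (Fin m) F).symm s, ?_, ?_⟩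
  · rw [← sympEquiv_apply, MulEquiv.apply_symm_apply]; exact h1
  · rw [← sympEquiv_apply, MulEquiv.apply_symm_apply]; exact h2

theorem exists_one {u v : Fin m ⊕ Fin m → F} (hu : u ≠ 0) (hv : v ≠ 0) : ∃ s : SG m F, s.1 *ᵥ u = v := by
  obtain ⟨s, h1⟩ := exists_map isSymp_sympForm hu hv
  refine ⟨(sympEquiv (Fin m) F).symm s, ?_⟩
  rw [← sympEquiv_apply, MulEquiv.apply_symm_apply]; exact h1

theorem sM_mul {v w w' : Fin m ⊕ Fin m → F} (h1 : B v w = 0) (h2 : B v w' = 0) :
    sM v w * sM v w' = sM v (w + w') * tM (B w w') v := by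
  have h3 : B w v = 0 := by rw [B_skew, h1, neg_zero]
  have h4 : B w' v = 0 := by rw [B_skew, h2, neg_zero]
  apply S_ext
  intro x
  rw [S_mul_mulVec, S_mul_mulVec, sM_mulVec h1, sM_mulVec h2, sM_mulVec (by rw [B_add_right, h1, h2, add_zero]), tM_mulVec]
  simp only [B_add_right, B_add_left, B_smul_right, h1, h2, h3, h4, B_alt]
  module

theorem sM_zero_left (v : Fin m ⊕ Fin m → F) : sM 0 v = 1 := by
  apply S_ext
  intro x
  rw [sM_mulVec (B_zero_left v), B_zero_left, zero_smul, smul_zero, add_zero, add_zero]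
  exact (Matrix.one_mulVec x).symm

theorem sM_zero_right (v : Fin m ⊕ Fin m → F) : sM v 0 = 1 := by
  apply S_ext
  intro x
  rw [sM_mulVec (B_zero_right v), B_zero_left, zero_smul, smul_zero, add_zero, add_zero]
  exact (Matrix.one_mulVec x).symm

/-- linear independence of `e_i`-type vectors -/
theorem not_smul {u v : Fin m ⊕ Fin m → F} (a : Fin m ⊕ Fin m) (ha : u a = 0) (ha' : v a ≠ 0) (c : F) : v ≠ c • u := by
  intro h
  apply ha'
  rw [h, Pi.smul_apply, ha, smul_zero]

variable [Finite F]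

section

variable {T : Subgroup (SG m F)} (hT : T ≤ U m F) (hc : ∀ x ∈ T, ∀ g : SG m F, g * x * g⁻¹ ∈ U m F → g * x * g⁻¹ ∈ T)

include hc in
theorem all_tM {a : F} {v : Fin m ⊕ Fin m → F} (hv : v ≠ 0) (h : tM a v ∈ T) {w : Fin m ⊕ Fin m → F} (hw : InW w) :
    tM a w ∈ T := by
  by_cases hw0 : w = 0
  · rw [hw0, tM_zero_right]; exact T.one_mem
  obtain ⟨s, hs⟩ := exists_one hv hw0
  have h1 := hc _ h s
  rw [tM_conj, hs] at h1
  exact h1 (tM_mem_U a hw)

include hc in
theorem all_sM {u v : Fin m ⊕ Fin m → F} (hu : u ≠ 0) (hv : ∀ c : F, v ≠ c • u) (huv : B u v = 0) (h : sM u v ∈ T)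
    {u' v' : Fin m ⊕ Fin m → F} (hu' : u' ≠ 0) (hv' : ∀ c : F, v' ≠ c • u') (huv' : B u' v' = 0)
    (hU : sM u' v' ∈ U m F) : sM u' v' ∈ T := by
  obtain ⟨s, hs1, hs2⟩ := exists_pair hu hv huv hu' hv' huv'
  have h1 := hc _ h s
  rw [sM_conj, hs1, hs2] at h1
  exact h1 hU

include hT hc in
theorem step_f (hall : ∀ (c : F) (w : Fin m ⊕ Fin m → F), InW w → tM c w ∈ T)
    (hsM : ∀ u v : Fin m ⊕ Fin m → F, u ≠ 0 → (∀ c : F, v ≠ c • u) → B u v = 0 → sM u v ∈ U m F → sM u v ∈ T) :
    ∀ n : ℕ, n ≤ m → ∀ g ∈ U m F, (∀ i, g.1 *ᵥ e i = e i) → (∀ j : Fin m, j.val + n < m → g.1 *ᵥ f j = f j) → g ∈ T := by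
  intro n
  induction n with
  | zero =>
    intro _ g _ he hf
    have : g = 1 := S_ext_ef (fun i => by rw [he]; exact (Matrix.one_mulVec _).symm)
      (fun i => by rw [hf i (by have := i.2; omega)]; exact (Matrix.one_mulVec _).symm)
    rw [this]; exact T.one_mem
  | succ n ih =>
    intro hn g hg he hf
    let k : Fin m := ⟨m - (n + 1), by omega⟩
    have hk : k.val = m - (n + 1) := rfl
    set y := g.1 *ᵥ f k - f k with hy
    have hgk : g.1 *ᵥ f k = f k + y := by rw [hy]; abel
    have hyW : InW y := by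
      intro i
      rw [← B_e' y i, hy, B_sub_left]
      have h1 : B (g.1 *ᵥ f k) (e i) = B (f k) (e i) := by
        conv_lhs => rw [← he i]
        rw [S_form]
      rw [h1, sub_self]
    have hyk : ∀ i : Fin m, i < k → y (Sum.inl i) = 0 := by
      intro i hi
      rw [← B_f i y, hy, B_sub_right]
      have h1 : B (f i) (g.1 *ᵥ f k) = B (f i) (f k) := by
        conv_lhs => rw [← hf i (by have : i.val < k.val := hi; omega)]
        rw [S_form]
      rw [h1, sub_self]
    set s := y (Sum.inl k) with hs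
    set w := y - s • e k with hw
    have hyw : y = s • e k + w := by rw [hw]; abel
    have hwW : InW w := by
      intro i
      rw [hw, Pi.sub_apply, Pi.smul_apply, hyW, e_inr, smul_zero, sub_zero]
    have hwk : w (Sum.inl k) = 0 := by
      rw [hw, Pi.sub_apply, Pi.smul_apply, e_inl, if_pos rfl, smul_eq_mul, mul_one, ← hs, sub_self]
    have hwi : ∀ i : Fin m, i < k → w (Sum.inl i) = 0 := by
      intro i hi
      rw [hw, Pi.sub_apply, Pi.smul_apply, e_inl, if_neg hi.ne, hyk i hi, smul_zero, sub_zero]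
    have hB : B w (e k) = 0 := hwW.B (inW_e k)
    have hxT : sM w (e k) ∈ T := by
      by_cases hw0 : w = 0
      · rw [hw0, sM_zero_left]; exact T.one_mem
      · exact hsM w (e k) hw0 (not_smul (Sum.inl k) hwk (by rw [e_inl, if_pos rfl]; exact one_ne_zero)) hB
          (sM_mem_U hwW (inW_e k))
    have htT : tM s (e k) ∈ T := hall s _ (inW_e k)
    have hxe : ∀ i, (tM s (e k) * sM w (e k)).1 *ᵥ e i = e i := by
      intro i
      rw [S_mul_mulVec, sM_mulVec hB, B_e', hwW i, B_e', e_inr, zero_smul, zero_smul, add_zero, add_zero, tM_mulVec, B_e',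
        e_inr, mul_zero, zero_smul, add_zero]
    have hxy : (tM s (e k) * sM w (e k)).1 *ᵥ y = y := by
      rw [S_mul_mulVec, sM_mulVec hB, hwW.B hyW, (inW_e k).B hyW, zero_smul, zero_smul, add_zero, add_zero, tM_mulVec,
        (inW_e k).B hyW, mul_zero, zero_smul, add_zero]
    have hxf : (tM s (e k) * sM w (e k)).1 *ᵥ f k = f k - y := by
      rw [S_mul_mulVec, sM_mulVec hB, B_f', hwk, B_f', e_inl, if_pos rfl, tM_mulVec, hyw]
      simp only [B_add_right, B_smul_right, B_f', hwk, e_inl, if_pos, (inW_e k).B hwW, (inW_e k).B (inW_e k)]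
      module
    have hxf' : ∀ i : Fin m, i < k → (tM s (e k) * sM w (e k)).1 *ᵥ f i = f i := by
      intro i hi
      rw [S_mul_mulVec, sM_mulVec hB, B_f', hwi i hi, B_f', e_inl, if_neg hi.ne, neg_zero, zero_smul, zero_smul, add_zero,
        add_zero, tM_mulVec, B_f', e_inl, if_neg hi.ne, neg_zero, mul_zero, zero_smul, add_zero]
    have hx : tM s (e k) * sM w (e k) ∈ T := T.mul_mem htT hxT
    have h1 : tM s (e k) * sM w (e k) * g ∈ T := by
      refine ih (by omega) _ ((U m F).mul_mem (hT hx) hg) (fun i => ?_) (fun j hj => ?_)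
      · rw [S_mul_mulVec, he, hxe]
      · by_cases hjk : j < k
        · rw [S_mul_mulVec, hf j (by have : j.val < k.val := hjk; omega), hxf' j hjk]
        · have : j = k := by
            apply Fin.ext
            have : ¬ j.val < k.val := hjk
            omega
          rw [this, S_mul_mulVec, hgk, Matrix.mulVec_add, hxf, hxy, sub_add_cancel]
    have h2 : g = (tM s (e k) * sM w (e k))⁻¹ * (tM s (e k) * sM w (e k) * g) := by group
    rw [h2]; exact T.mul_mem (T.inv_mem hx) h1

include hT hc in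
theorem step_e (hall : ∀ (c : F) (w : Fin m ⊕ Fin m → F), InW w → tM c w ∈ T)
    (hsM : ∀ u v : Fin m ⊕ Fin m → F, u ≠ 0 → (∀ c : F, v ≠ c • u) → B u v = 0 → sM u v ∈ U m F → sM u v ∈ T) :
    ∀ n : ℕ, n ≤ m → ∀ g ∈ U m F, (∀ i : Fin m, i.val + n < m → g.1 *ᵥ e i = e i) → g ∈ T := by
  intro n
  induction n with
  | zero =>
    intro _ g hg he
    refine step_f hT hc hall hsM m le_rfl g hg (fun i => he i (by have := i.2; omega)) (fun j hj => ?_)
    exact absurd hj (by omega)
  | succ n ih =>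
    intro hn g hg he
    let k : Fin m := ⟨m - (n + 1), by omega⟩
    have hk : k.val = m - (n + 1) := rfl
    set y := g.1 *ᵥ e k - e k with hy
    have hgk : g.1 *ᵥ e k = e k + y := by rw [hy]; abel
    have hcol := (mem_U_iff.1 hg).1 k
    have hy0 : ∀ a, k.val ≤ (sg m a).val → y a = 0 := by
      intro a ha
      rw [hy, Pi.sub_apply, hcol a ha, e_apply, sub_self]
    have hyW : InW y := fun i => hy0 _ (by rw [sg_inr]; have := k.2; omega)
    have hyk : ∀ i : Fin m, k ≤ i → y (Sum.inl i) = 0 := fun i hi => hy0 _ hi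
    have hnW : InW (-y) := fun i => by rw [Pi.neg_apply, hyW, neg_zero]
    have hnk : ∀ i : Fin m, k ≤ i → (-y) (Sum.inl i) = 0 := fun i hi => by rw [Pi.neg_apply, hyk i hi, neg_zero]
    have hB : B (-y) (f k) = 0 := by rw [B_f', hnk k le_rfl, neg_zero]
    have hxU : sM (-y) (f k) ∈ U m F := sM_ef_mem_U hnW hnk
    have hx : sM (-y) (f k) ∈ T := by
      by_cases hy0 : y = 0
      · rw [hy0, neg_zero, sM_zero_left]; exact T.one_mem
      · exact hsM _ _ (neg_ne_zero.2 hy0) (not_smul (Sum.inr k) (hnW k) (by rw [f_inr, if_pos rfl]; exact one_ne_zero)) hB hxU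
    have hxe : ∀ i, i ≠ k → (sM (-y) (f k)).1 *ᵥ e i = e i := by
      intro i hi
      rw [sM_mulVec hB, B_e', hnW, B_f, e_inl, if_neg hi.symm, zero_smul, zero_smul, add_zero, add_zero]
    have hxk : (sM (-y) (f k)).1 *ᵥ e k = e k - y := by
      rw [sM_mulVec hB, B_e', hnW, B_f, e_inl, if_pos rfl, zero_smul, add_zero, one_smul, sub_eq_add_neg]
    have hxy : (sM (-y) (f k)).1 *ᵥ y = y := by
      rw [sM_mulVec hB, hnW.B hyW, B_f, hyk k le_rfl, zero_smul, zero_smul, add_zero, add_zero]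
    have h1 : sM (-y) (f k) * g ∈ T := by
      refine ih (by omega) _ ((U m F).mul_mem hxU hg) (fun i hi => ?_)
      by_cases hik : i = k
      · rw [hik, S_mul_mulVec, hgk, Matrix.mulVec_add, hxk, hxy, sub_add_cancel]
      · have h2 : i.val ≠ k.val := fun h => hik (Fin.ext h)
        rw [S_mul_mulVec, he i (by omega), hxe i hik]
    have h2 : g = (sM (-y) (f k))⁻¹ * (sM (-y) (f k) * g) := by group
    rw [h2]; exact T.mul_mem (T.inv_mem hx) h1

include hT hc in
theorem eq_U_of_tM (hm : 2 ≤ m) {a : F} (ha : a ≠ 0) {v : Fin m ⊕ Fin m → F} (hv : v ≠ 0) (h : tM a v ∈ T) : T = U m F := by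
  let z : Fin m := ⟨0, by omega⟩
  let o : Fin m := ⟨1, by omega⟩
  have hzo : z ≠ o := fun h => by have := congrArg Fin.val h; exact absurd this (by norm_num [z, o])
  have h1 := fun {w} (hw : InW w) => all_tM hc hv h (w := w) hw
  -- a short root element
  have h2 : sM (a • e z) (e o) ∈ T := by
    have h3 : sM (a • e z) (e o) = tM a (e z + e o) * (tM a (e z))⁻¹ * (tM a (e o))⁻¹ := by
      have hB : B (e z) (e o : Fin m ⊕ Fin m → F) = 0 := (inW_e z).B (inW_e o)
      have hB' : B (e o) (e z : Fin m ⊕ Fin m → F) = 0 := (inW_e o).B (inW_e z)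
      apply S_ext
      intro x
      rw [tM_inv, tM_inv, sM_mulVec (by rw [B_smul_left, hB, mul_zero])]
      simp only [S_mul_mulVec, tM_mulVec, B_add_left, B_smul_left, B_add_right, B_smul_right, B_alt, hB, hB']
      module
    rw [h3]
    exact T.mul_mem (T.mul_mem (h1 ((inW_e z).add (inW_e o))) (T.inv_mem (h1 (inW_e z)))) (T.inv_mem (h1 (inW_e o)))
  have hsM : ∀ u v : Fin m ⊕ Fin m → F, u ≠ 0 → (∀ c : F, v ≠ c • u) → B u v = 0 → sM u v ∈ U m F → sM u v ∈ T := by
    intro u v hu hv huv hU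
    refine all_sM hc (u := a • e z) (v := e o) (smul_ne_zero ha (e_ne z)) (not_smul (Sum.inl o) ?_ ?_) ?_ h2 hu hv huv hU
    · rw [Pi.smul_apply, e_inl, if_neg hzo.symm, smul_zero]
    · rw [e_inl, if_pos rfl]; exact one_ne_zero
    · exact ((inW_e z).smul a).B (inW_e o)
  have hall : ∀ (c : F) (w : Fin m ⊕ Fin m → F), InW w → tM c w ∈ T := by
    intro c w hw
    refine all_tM hc (e_ne z) ?_ hw
    by_cases hc0 : c = 0
    · rw [hc0, tM_zero]; exact T.one_mem
    have b1 : B (e z) (e o : Fin m ⊕ Fin m → F) = 0 := (inW_e z).B (inW_e o)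
    have b2 : B (e z) ((-c) • f o : Fin m ⊕ Fin m → F) = 0 := by
      rw [B_smul_right, B_e, f_inr, if_neg hzo, neg_zero, mul_zero]
    have h3 := sM_mul b1 b2
    have h4 : B (e o) ((-c) • f o : Fin m ⊕ Fin m → F) = c := by
      rw [B_smul_right, B_e, f_inr, if_pos rfl]; ring
    rw [h4] at h3
    have hQ := QU_le_U (F := F) (show 0 < m by omega)
    have k1 : sM (e z) (e o : Fin m ⊕ Fin m → F) ∈ T := by
      refine hsM _ _ (e_ne z) (not_smul (Sum.inl o) ?_ ?_) b1 (hQ (sM_mem_QU b1))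
      · rw [e_inl, if_neg hzo.symm]
      · rw [e_inl, if_pos rfl]; exact one_ne_zero
    have k2 : sM (e z) ((-c) • f o : Fin m ⊕ Fin m → F) ∈ T := by
      refine hsM _ _ (e_ne z) (not_smul (Sum.inr o) ?_ ?_) b2 (hQ (sM_mem_QU b2))
      · rw [e_inr]
      · rw [Pi.smul_apply, f_inr, if_pos rfl, smul_eq_mul, mul_one]; exact neg_ne_zero.2 hc0
    have b3 : B (e z) (e o + (-c) • f o : Fin m ⊕ Fin m → F) = 0 := by rw [B_add_right, b1, b2, add_zero]
    have k3 : sM (e z) (e o + (-c) • f o : Fin m ⊕ Fin m → F) ∈ T := by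
      refine hsM _ _ (e_ne z) (not_smul (Sum.inl o) ?_ ?_) b3 (hQ (sM_mem_QU b3))
      · rw [e_inl, if_neg hzo.symm]
      · rw [Pi.add_apply, Pi.smul_apply, e_inl, f_inl, if_pos rfl, smul_zero, add_zero]; exact one_ne_zero
    have h5 : tM c (e z) = (sM (e z) (e o + (-c) • f o))⁻¹ * (sM (e z) (e o) * sM (e z) ((-c) • f o)) := by
      rw [h3]; group
    rw [h5]
    exact T.mul_mem (T.inv_mem k3) (T.mul_mem k1 k2)
  apply le_antisymm hT
  intro g hg
  refine step_e hT hc hall hsM m le_rfl g hg (fun i hi => ?_)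
  exact absurd hi (by omega)

end

/-- strongly closed subgroups -/
theorem strongly_closed (p : ℕ) [Fact p.Prime] [CharP F p] (hm : 2 ≤ m) (hex : m = 2 → 3 ≤ Nat.card F)
    (T : Subgroup (SG m F)) (hT : T ≤ U m F)
    (hc : ∀ x ∈ T, ∀ g : SG m F, g * x * g⁻¹ ∈ U m F → g * x * g⁻¹ ∈ T) : T = ⊥ ∨ T = U m F := by
  by_cases hT1 : T = ⊥
  · exact Or.inl hT1
  right
  obtain ⟨P, hP⟩ := exists_sylow_U (F := F) (m := m) (p := p)
  have hUp : IsPGroup p (U m F) := hP ▸ P.isPGroup'
  obtain ⟨t, htT, ht1, htU⟩ := exists_central hUp hT hT1 fun u hu t ht =>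
    hc t ht u ((U m F).mul_mem ((U m F).mul_mem hu (hT ht)) ((U m F).inv_mem hu))
  let z : Fin m := ⟨0, by omega⟩
  let o : Fin m := ⟨1, by omega⟩
  have hzo : z ≠ o := fun h => by have := congrArg Fin.val h; exact absurd this (by norm_num [z, o])
  have hQ := QU_le_U (F := F) (show 0 < m by omega)
  have htz : t.1 *ᵥ e z = e z := by
    ext a
    rw [(mem_U_iff.1 (hT htT)).1 z a (Nat.zero_le _), e_apply]
  have hz : ∀ s ∈ QU (e z : Fin m ⊕ Fin m → F), (QuotientGroup.mk t * QuotientGroup.mk s : PSp m F) =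
      QuotientGroup.mk s * QuotientGroup.mk t := by
    intro s hs
    rw [← QuotientGroup.mk_mul, ← QuotientGroup.mk_mul, htU s (hQ hs)]
  by_cases h2 : (2 : F) = 0
  swap
  · obtain ⟨a, rfl⟩ := tM_of_ne_two hm h2 (e_ne z) hz htz
    refine eq_U_of_tM hT hc hm (a := a) ?_ (e_ne z) htT
    rintro rfl
    exact ht1 (tM_zero _)
  · obtain ⟨a, u, huv, rfl⟩ := eq_tM_mul_sM hm (e_ne z) hz htz
    by_cases hu : ∃ c : F, u = c • e z
    · obtain ⟨c, rfl⟩ := hu
      rw [sM_eq_tM, h2, zero_mul, tM_zero, mul_one] at htT ht1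
      refine eq_U_of_tM hT hc hm (a := a) ?_ (e_ne z) htT
      rintro rfl
      exact ht1 (tM_zero _)
    · push Not at hu
      -- all `tM a v * sM v w` are in `T`
      have hX : ∀ w : Fin m ⊕ Fin m → F, (∀ c : F, w ≠ c • e z) → B (e z) w = 0 → tM a (e z) * sM (e z) w ∈ T := by
        intro w hw hw0
        obtain ⟨s, hs1, hs2⟩ := exists_pair (e_ne z) hu huv (e_ne z) hw hw0
        have h3 := hc _ htT s
        have h4 : s * (tM a (e z) * sM (e z) u) * s⁻¹ = tM a (e z) * sM (e z) w := by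
          have : s * (tM a (e z) * sM (e z) u) * s⁻¹ = (s * tM a (e z) * s⁻¹) * (s * sM (e z) u * s⁻¹) := by group
          rw [this, tM_conj, sM_conj, hs1, hs2]
        rw [h4] at h3
        exact h3 (hQ ((QU (e z)).mul_mem (tM_mem_QU a (e z)) (sM_mem_QU hw0)))
      have hkey : ∀ w w' : Fin m ⊕ Fin m → F, (∀ c : F, w ≠ c • e z) → (∀ c : F, w' ≠ c • e z) →
          (∀ c : F, w + w' ≠ c • e z) → B (e z) w = 0 → B (e z) w' = 0 → B w w' ≠ a → T = U m F := by
        intro w w' a1 a2 a3 b1 b2 b3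
        have b4 : B w (e z) = 0 := by rw [B_skew, b1, neg_zero]
        have b5 : B w' (e z) = 0 := by rw [B_skew, b2, neg_zero]
        have b6 : B (e z) (w + w') = 0 := by rw [B_add_right, b1, b2, add_zero]
        refine eq_U_of_tM hT hc hm (a := B w w' - a) (sub_ne_zero.2 b3) (e_ne z) ?_
        have h5 : tM (B w w' - a) (e z) = (tM a (e z) * sM (e z) w) * (tM a (e z) * sM (e z) w') * (tM a (e z) * sM (e z) (w + w'))⁻¹ := by
          rw [eq_mul_inv_iff_mul_eq]
          apply S_ext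
          intro x
          have h22 : a + a = 0 := by rw [← two_mul, h2, zero_mul]
          have e1 : (tM a (e z) * sM (e z) w * (tM a (e z) * sM (e z) w')).1 *ᵥ x =
              x + B (e z) x • (w + w') + (B w x + B w' x + B (e z) x * B w w' + (a + a) * B (e z) x) • e z := by
            simp only [S_mul_mulVec, sM_mulVec b1, sM_mulVec b2, tM_mulVec, B_add_right, B_smul_right, B_alt, b1, b2, b4, b5]
            module
          have e2 : (tM (B w w' - a) (e z) * (tM a (e z) * sM (e z) (w + w'))).1 *ᵥ x =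
              x + B (e z) x • (w + w') + (B w x + B w' x + B (e z) x * B w w') • e z := by
            simp only [S_mul_mulVec, sM_mulVec b6, tM_mulVec, B_add_right, B_add_left, B_smul_right, B_alt, b1, b2, b4, b5]
            module
          rw [e1, e2, h22, zero_mul, add_zero]
        rw [h5]
        exact T.mul_mem (T.mul_mem (hX w a1 b1) (hX w' a2 b2)) (T.inv_mem (hX _ a3 b6))
      by_cases hk : ∃ k : F, k ≠ 0 ∧ -k ≠ a
      · obtain ⟨k, hk0, hka⟩ := hk
        refine hkey (e o) (k • f o) (not_smul (Sum.inl o) ?_ ?_) (not_smul (Sum.inr o) ?_ ?_) (not_smul (Sum.inl o) ?_ ?_)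
          ((inW_e z).B (inW_e o)) ?_ ?_
        · rw [e_inl, if_neg hzo.symm]
        · rw [e_inl, if_pos rfl]; exact one_ne_zero
        · rw [e_inr]
        · rw [Pi.smul_apply, f_inr, if_pos rfl, smul_eq_mul, mul_one]; exact hk0
        · rw [e_inl, if_neg hzo.symm]
        · rw [Pi.add_apply, Pi.smul_apply, e_inl, f_inl, if_pos rfl, smul_zero, add_zero]; exact one_ne_zero
        · rw [B_smul_right, B_e, f_inr, if_neg hzo, neg_zero, mul_zero]
        · rw [B_smul_right, B_e, f_inr, if_pos rfl, mul_neg, mul_one]; exact hka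
      · push Not at hk
        have ha : a ≠ 0 := by
          intro h0
          have := hk 1 one_ne_zero
          rw [h0, neg_eq_zero] at this
          exact one_ne_zero this
        have hm3 : 3 ≤ m := by
          by_contra hlt
          have hm2 : m = 2 := by omega
          have h3 := hex hm2
          have : Nat.card F ≤ 2 := by
            classical
            have := Fintype.ofFinite F
            rw [Nat.card_eq_fintype_card]
            have h4 : (Finset.univ : Finset F) ⊆ {0, -a} := by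
              intro k _
              by_cases hk0 : k = 0
              · simp [hk0]
              · have := hk k hk0
                rw [Finset.mem_insert, Finset.mem_singleton]
                right; rw [← this, neg_neg]
            exact (Finset.card_le_card h4).trans Finset.card_le_two
          omega
        let o' : Fin m := ⟨2, by omega⟩
        have hzo' : z ≠ o' := fun h => by have := congrArg Fin.val h; exact absurd this (by norm_num [z, o'])
        have hoo' : o ≠ o' := fun h => by have := congrArg Fin.val h; exact absurd this (by norm_num [o, o'])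
        refine hkey (e o) (e o') (not_smul (Sum.inl o) ?_ ?_) (not_smul (Sum.inl o') ?_ ?_) (not_smul (Sum.inl o) ?_ ?_)
          ((inW_e z).B (inW_e o)) ((inW_e z).B (inW_e o')) ?_
        · rw [e_inl, if_neg hzo.symm]
        · rw [e_inl, if_pos rfl]; exact one_ne_zero
        · rw [e_inl, if_neg hzo'.symm]
        · rw [e_inl, if_pos rfl]; exact one_ne_zero
        · rw [e_inl, if_neg hzo.symm]
        · rw [Pi.add_apply, e_inl, e_inl, if_pos rfl, if_neg hoo', add_zero]; exact one_ne_zero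
        · rw [(inW_e o).B (inW_e o')]; exact ha.symm

end Cfsg.Agent.Lib.SpCrit
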