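import Cfsg.Agent.Lib.SpCrit2
import Cfsg.Agent.Lib.FusionSimpleGroup

/-! Generation of the normalizer of the Sylow subgroup of `Sp_{2m}(F)` in the natural characteristic. -/

set_option autoImplicit false

namespace Cfsg.Agent.Lib.SpCrit

open Matrix
open Cfsg.Agent.Lib.PSpAut Cfsg.Agent.Lib.FlagSylow Cfsg.Agent.Lib.ClSymp Cfsg.Agent.Lib.ClSymp2 Cfsg.Agent.Lib.ClIso

variable {m : ℕ} {F : Type*} [Field F]

theorem tM_neg (a : F) (w : Fin m ⊕ Fin m → F) : tM a (-w) = tM a w := by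
  have h := tM_smul a (-1) w
  rw [neg_one_smul] at h
  rw [h]; congr 1; ring

theorem hM_conj (g : SG m F) (a : F) (u v : Fin m ⊕ Fin m → F) : g * hM a u v * g⁻¹ = hM a (g.1 *ᵥ u) (g.1 *ᵥ v) := by
  unfold hM wM
  simp only [← tM_conj]
  group

theorem hM_neg (a : F) (u v : Fin m ⊕ Fin m → F) : hM a (-u) (-v) = hM a u v := by
  unfold hM wM
  simp only [tM_neg]

theorem hM_mem {a : F} {u v : Fin m ⊕ Fin m → F} {H : Subgroup (SG m F)} (hu : ∀ c, tM c u ∈ H) (hv : ∀ c, tM c v ∈ H) :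
    hM a u v ∈ H := by
  unfold hM wM
  exact H.mul_mem (H.mul_mem (H.mul_mem (hu _) (hv _)) (hu _))
    (H.inv_mem (H.mul_mem (H.mul_mem (hu _) (hv _)) (hu _)))

theorem B_fe_self (i : Fin m) : B (f i) (e i : Fin m ⊕ Fin m → F) = 1 := by rw [B_f, e_inl, if_pos rfl]

theorem B_ef_self (i : Fin m) : B (e i) (f i : Fin m ⊕ Fin m → F) = -1 := by rw [B_e, f_inr, if_pos rfl]

theorem hM_v' {a : F} (ha : a ≠ 0) {u v : Fin m ⊕ Fin m → F} (h : B v u = 1) : (hM a u v).1 *ᵥ v = a⁻¹ • v := by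
  have h1 : ((wM 1 u v)⁻¹).1 *ᵥ v = u := by
    have h2 := wM_u h (one_ne_zero (α := F))
    rw [inv_one, one_smul] at h2
    nth_rewrite 2 [← h2]
    rw [S_inv_mulVec]
  unfold hM
  rw [S_mul_mulVec, h1, wM_u h ha]

/-- the torus -/
def D (m : ℕ) (F : Type*) [Field F] : (Fin m → Fˣ) →* SG m F where
  toFun d := ⟨Matrix.diagonal (Sum.elim (fun i => ((d i : Fˣ) : F)) (fun i => ((d i)⁻¹ : Fˣ))), by
    rw [mem_symplecticGroup_iff]
    intro u v
    show B _ _ = B _ _
    rw [B_apply, B_apply]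
    refine Finset.sum_congr rfl fun i _ => ?_
    simp only [Matrix.mulVec_diagonal, Sum.elim_inl, Sum.elim_inr]
    have h1 : ((d i : Fˣ) : F) * (((d i)⁻¹ : Fˣ) : F) = 1 := by rw [← Units.val_mul, mul_inv_cancel, Units.val_one]
    linear_combination (u (Sum.inr i) * v (Sum.inl i) - u (Sum.inl i) * v (Sum.inr i)) * h1⟩
  map_one' := by
    apply Subtype.ext
    show Matrix.diagonal _ = 1
    rw [← Matrix.diagonal_one]
    congr 1
    ext (i | i) <;> simp
  map_mul' d d' := by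
    apply Subtype.ext
    show Matrix.diagonal _ = Matrix.diagonal _ * Matrix.diagonal _
    rw [Matrix.diagonal_mul_diagonal]
    congr 1
    ext (i | i)
    · simp
    · simp [mul_comm]

theorem D_e (d : Fin m → Fˣ) (i : Fin m) : (D m F d).1 *ᵥ e i = ((d i : Fˣ) : F) • e i := by
  ext a
  show (Matrix.diagonal _ *ᵥ e i) a = _
  rw [Matrix.mulVec_diagonal, Pi.smul_apply, e_apply]
  by_cases h : a = Sum.inl i
  · subst h; simp
  · simp [h]

theorem D_f (d : Fin m → Fˣ) (i : Fin m) : (D m F d).1 *ᵥ f i = (((d i)⁻¹ : Fˣ) : F) • f i := by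
  ext a
  show (Matrix.diagonal _ *ᵥ f i) a = _
  rw [Matrix.mulVec_diagonal, Pi.smul_apply, f_apply]
  by_cases h : a = Sum.inr i
  · subst h; simp
  · simp [h]

theorem D_single (i : Fin m) (a : Fˣ) : D m F (Pi.mulSingle i a) = hM (a : F) (e i) (f i) := by
  have ha : (a : F) ≠ 0 := a.ne_zero
  apply S_ext_ef
  · intro j
    rw [D_e]
    by_cases h : j = i
    · subst h
      rw [Pi.mulSingle_eq_same, hM_u ha (B_fe_self j)]
    · rw [Pi.mulSingle_eq_of_ne h, Units.val_one, one_smul, hM_perp]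
      · rw [B_e, e_inr, neg_zero]
      · rw [B_f, e_inl, if_neg (Ne.symm h)]
  · intro j
    rw [D_f]
    by_cases h : j = i
    · subst h
      rw [Pi.mulSingle_eq_same, hM_v' ha (B_fe_self j), Units.val_inv_eq_inv_val]
    · rw [Pi.mulSingle_eq_of_ne h, inv_one, Units.val_one, one_smul, hM_perp]
      · rw [B_e, f_inr, if_neg (Ne.symm h), neg_zero]
      · rw [B_f, f_inl]

/-- the pointwise stabilizer of the span of the `e_i` -/
def RW (m : ℕ) (F : Type*) [Field F] : Subgroup (SG m F) where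
  carrier := {g | ∀ i, g.1 *ᵥ e i = e i}
  mul_mem' := fun {a b} ha hb i => by rw [S_mul_mulVec, hb, ha]
  one_mem' := fun i => Matrix.one_mulVec _
  inv_mem' := fun {a} ha i => by
    show (a⁻¹).1 *ᵥ e i = e i
    conv_lhs => rw [← ha i]
    exact S_inv_mulVec a _

theorem mem_RW {g : SG m F} : g ∈ RW m F ↔ ∀ i, g.1 *ᵥ e i = e i := Iff.rfl

theorem mulVec_InW {g h : SG m F} (hg : ∀ i, g.1 *ᵥ e i = h.1 *ᵥ e i) {w : Fin m ⊕ Fin m → F} (hw : InW w) :
    g.1 *ᵥ w = h.1 *ᵥ w := by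
  ext a
  simp only [Matrix.mulVec, dotProduct, Fintype.sum_sum_type]
  congr 1
  · refine Finset.sum_congr rfl fun i _ => ?_
    rw [← col_e, ← col_e, hg]
  · refine Finset.sum_congr rfl fun i _ => ?_
    rw [hw, mul_zero, mul_zero]

theorem RW_fix {g : SG m F} (hg : g ∈ RW m F) {w : Fin m ⊕ Fin m → F} (hw : InW w) : g.1 *ᵥ w = w := by
  rw [mulVec_InW (h := 1) (fun i => by rw [hg i]; exact (Matrix.one_mulVec _).symm) hw]
  exact Matrix.one_mulVec w

theorem RW_sub {g : SG m F} (hg : g ∈ RW m F) (x : Fin m ⊕ Fin m → F) : InW (g.1 *ᵥ x - x) := by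
  intro i
  rw [← B_e' (g.1 *ᵥ x - x) i, B_sub_left]
  have h1 : B (g.1 *ᵥ x) (e i) = B x (e i) := by
    conv_lhs => rw [← hg i]
    rw [S_form]
  rw [h1, sub_self]

/-- elements stabilizing the span of the `e_i` normalize `RW` -/
theorem mem_normalizer_RW {x : SG m F} (hx : ∀ w, InW w → InW (x.1 *ᵥ w)) (hx' : ∀ w, InW w → InW ((x⁻¹).1 *ᵥ w)) :
    x ∈ Subgroup.normalizer ((RW m F : Subgroup (SG m F)) : Set (SG m F)) := by
  have key : ∀ y : SG m F, (∀ w, InW w → InW ((y⁻¹).1 *ᵥ w)) → ∀ g ∈ RW m F, y * g * y⁻¹ ∈ RW m F := by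
    intro y hy g hg i
    rw [S_mul_mulVec, S_mul_mulVec, RW_fix hg (hy _ (inW_e i)), S_mulVec_inv]
  rw [Subgroup.mem_normalizer_iff]
  intro g
  refine ⟨key x hx' g, fun h => ?_⟩
  have h1 := key x⁻¹ (by rw [inv_inv]; exact hx) _ h
  have h2 : x⁻¹ * (x * g * x⁻¹) * x⁻¹⁻¹ = g := by group
  rwa [h2] at h1

theorem stable_inv {x : SG m F} [Finite F] (hx : ∀ w, InW w → InW (x.1 *ᵥ w)) : ∀ w, InW w → InW ((x⁻¹).1 *ᵥ w) := by
  have h1 : x⁻¹ = x ^ (orderOf x - 1) := by
    rw [inv_eq_iff_mul_eq_one, ← pow_succ', Nat.sub_add_cancel (orderOf_pos x), pow_orderOf_eq_one]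
  have h2 : ∀ n : ℕ, ∀ w, InW w → InW ((x ^ n).1 *ᵥ w) := by
    intro n
    induction n with
    | zero => intro w hw; rw [pow_zero]; have : (1 : SG m F).1 *ᵥ w = w := Matrix.one_mulVec w; rw [this]; exact hw
    | succ n ih => intro w hw; rw [pow_succ', S_mul_mulVec]; exact hx _ (ih w hw)
  rw [h1]; exact h2 _

theorem scalar_mul {z : SG m F} {k : F} (hz : ∀ v, z.1 *ᵥ v = k • v) (s : SG m F) (v : Fin m ⊕ Fin m → F) :
    (s * z).1 *ᵥ v = k • (s.1 *ᵥ v) := by
  rw [S_mul_mulVec, hz, Matrix.mulVec_smul]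

/-- the scalar `±1` -/
theorem exists_scalar' {k : F} (hk : k ^ 2 = 1) : ∃ z ∈ Subgroup.center (SG m F), ∀ v, z.1 *ᵥ v = k • v := by
  have h1 : Matrix.scalar (Fin m ⊕ Fin m) k ∈ Matrix.symplecticGroup (Fin m) F := by
    rw [mem_symplecticGroup_iff]
    intro u v
    show B _ _ = B _ _
    have h2 : ∀ w : Fin m ⊕ Fin m → F, Matrix.scalar (Fin m ⊕ Fin m) k *ᵥ w = k • w := by
      intro w
      rw [Matrix.scalar_apply]
      ext a
      rw [Matrix.mulVec_diagonal]; rfl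
    rw [h2, h2, B_smul_left, B_smul_right, ← mul_assoc, ← pow_two, hk, one_mul]
  refine ⟨⟨_, h1⟩, (mem_center_iff' _).2 ⟨k, ?_⟩, ?_⟩ <;>
  · intro w
    show Matrix.scalar (Fin m ⊕ Fin m) k *ᵥ w = k • w
    rw [Matrix.scalar_apply]
    ext a
    rw [Matrix.mulVec_diagonal]; rfl

/-- an element commuting with the transvection `tM 1 w` fixes `w` up to sign -/
theorem eigen_of_commute {c : SG m F} {w : Fin m ⊕ Fin m → F} (hw : w ≠ 0) (h : c * tM 1 w = tM 1 w * c) :
    ∃ k : F, k ^ 2 = 1 ∧ c.1 *ᵥ w = k • w := by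
  have h1 : c * tM 1 w * c⁻¹ = tM 1 w := by rw [h, mul_inv_cancel_right]
  rw [tM_conj] at h1
  obtain ⟨k, hk0, hk⟩ := par_of_tM_eq one_ne_zero (S_mulVec_ne hw) h1
  refine ⟨k, ?_, hk⟩
  rw [hk, tM_smul, one_mul] at h1
  exact scalar_eq_of_tM_eq hw h1

theorem mem_sup_center {c z : SG m F} {R : Subgroup (SG m F)} (hz : z ∈ Subgroup.center (SG m F)) (h : c * z ∈ R) :
    c ∈ R ⊔ Subgroup.center (SG m F) := by
  have h1 : c = (c * z) * z⁻¹ := by group
  rw [h1]
  exact Subgroup.mul_mem _ (Subgroup.mem_sup_left h) (Subgroup.mem_sup_right ((Subgroup.center _).inv_mem hz))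

theorem centralizer_RW (hm : 1 ≤ m) {c : SG m F} (hc : ∀ r ∈ RW m F, c * r = r * c) : c ∈ RW m F ⊔ Subgroup.center (SG m F) := by
  have htM : ∀ w, InW w → tM (1 : F) w ∈ RW m F := by
    intro w hw i
    rw [tM_mulVec, hw.B (inW_e i), mul_zero, zero_smul, add_zero]
  have h1 : ∀ w, InW w → w ≠ 0 → ∃ k : F, k ^ 2 = 1 ∧ c.1 *ᵥ w = k • w := fun w hw hw0 =>
    eigen_of_commute hw0 (hc _ (htM w hw))
  let z : Fin m := ⟨0, by omega⟩
  obtain ⟨k, hk, hkz⟩ := h1 (e z) (inW_e z) (e_ne z)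
  have h2 : ∀ i, c.1 *ᵥ e i = k • e i := by
    intro i
    by_cases hi : i = z
    · rw [hi]; exact hkz
    obtain ⟨k1, hk1, e1⟩ := h1 (e i) (inW_e i) (e_ne i)
    obtain ⟨k2, hk2, e2⟩ := h1 (e i + e z) ((inW_e i).add (inW_e z)) (by
      intro h
      have := congrFun h (Sum.inl i)
      rw [Pi.add_apply, e_inl, e_inl, if_pos rfl, if_neg hi, add_zero] at this
      exact one_ne_zero this)
    rw [Matrix.mulVec_add, e1, hkz] at e2
    have h3 := congrFun e2 (Sum.inl i)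
    have h4 := congrFun e2 (Sum.inl z)
    simp only [Pi.add_apply, Pi.smul_apply, e_inl, if_neg hi, if_neg (Ne.symm hi), if_pos, smul_eq_mul, mul_one,
      mul_zero, add_zero, zero_add] at h3 h4
    rw [e1, h3, ← h4]
  obtain ⟨ζ, hζ, hζv⟩ := exists_scalar' (m := m) hk
  apply mem_sup_center hζ
  intro i
  rw [scalar_mul hζv, h2, smul_smul, ← pow_two, hk, one_smul]

theorem centralizer_QU (hm : 2 ≤ m) {v : Fin m ⊕ Fin m → F} (hv : v ≠ 0) {c : SG m F} (hc : ∀ r ∈ QU v, c * r = r * c) :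
    c ∈ QU v ⊔ Subgroup.center (SG m F) := by
  obtain ⟨k, hk, hkv⟩ := eigen_of_commute hv (hc _ (tM_mem_QU 1 v))
  obtain ⟨ζ, hζ, hζv⟩ := exists_scalar' (m := m) hk
  apply mem_sup_center hζ
  have h1 : (c * ζ).1 *ᵥ v = v := by rw [scalar_mul hζv, hkv, smul_smul, ← pow_two, hk, one_smul]
  have h2 : ∀ s ∈ QU v, (QuotientGroup.mk (c * ζ) * QuotientGroup.mk s : PSp m F) =
      QuotientGroup.mk s * QuotientGroup.mk (c * ζ) := by
    intro s hs
    rw [← QuotientGroup.mk_mul, ← QuotientGroup.mk_mul]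
    congr 1
    have h3 := hc s hs
    have h4 := Subgroup.mem_center_iff.1 hζ s
    calc c * ζ * s = c * (ζ * s) := by group
      _ = c * (s * ζ) := by rw [h4]
      _ = (c * s) * ζ := by group
      _ = s * c * ζ := by rw [h3]
      _ = s * (c * ζ) := by group
  obtain ⟨a, u, huv, h5⟩ := eq_tM_mul_sM hm hv h2 h1
  rw [h5]
  exact (QU v).mul_mem (tM_mem_QU a v) (sM_mem_QU huv)

variable [Finite F]

theorem U_e_zero (hm : 0 < m) {u : SG m F} (hu : u ∈ U m F) : u.1 *ᵥ e ⟨0, hm⟩ = e ⟨0, hm⟩ := by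
  ext a
  rw [(mem_U_iff.1 hu).1 ⟨0, hm⟩ a (Nat.zero_le _), e_apply]

theorem U_InW {u : SG m F} (hu : u ∈ U m F) {w : Fin m ⊕ Fin m → F} (hw : InW w) : InW (u.1 *ᵥ w) := by
  intro j
  rw [mem_U, uniTri_iff'] at hu
  simp only [Matrix.mulVec, dotProduct, Fintype.sum_sum_type]
  rw [Finset.sum_eq_zero, Finset.sum_eq_zero, add_zero]
  · intro i _; rw [hw, mul_zero]
  · intro i _
    rw [hu (Sum.inr j) (Sum.inl i) (by
      show (sg m (Sum.inl i)).val ≤ (sg m (Sum.inr j)).val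
      rw [sg_inl, sg_inr]; have := i.2; omega), if_neg (by simp), zero_mul]

theorem RW_le_U : RW m F ≤ U m F := by
  intro g hg
  rw [mem_U_iff]
  refine ⟨fun j a _ => by rw [hg j, e_apply], fun j a ha => ?_⟩
  have h1 : g.1 *ᵥ f j = f j + (g.1 *ᵥ f j - f j) := by abel
  rw [h1, Pi.add_apply, f_apply]
  have h2 : (g.1 *ᵥ f j - f j : Fin m ⊕ Fin m → F) a = 0 := by
    rcases a with i | i
    · exfalso
      rw [sg_inl] at ha
      have := i.2; omega
    · exact RW_sub hg (f j) i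
  rw [h2, add_zero]

section

variable (p : ℕ) [Fact p.Prime] [CharP F p]

theorem tM_orderOf (a : F) (w : Fin m ⊕ Fin m → F) : ∃ k : ℕ, orderOf (tM a w) = p ^ k := by
  have h : ∀ n : ℕ, (tM a w) ^ n = tM (n * a) w := by
    intro n
    induction n with
    | zero => rw [pow_zero, Nat.cast_zero, zero_mul, tM_zero]
    | succ n ih => rw [pow_succ, ih, tM_mul]; congr 1; push_cast; ring
  have h1 : orderOf (tM a w) ∣ p ^ 1 := by
    rw [pow_one]
    apply orderOf_dvd_of_pow_eq_one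
    rw [h, CharP.cast_eq_zero, zero_mul, tM_zero]
  obtain ⟨k, -, hk⟩ := (Nat.dvd_prime_pow Fact.out).mp h1
  exact ⟨k, hk⟩

theorem U_orderOf {g : SG m F} (hg : ∃ h : SG m F, h * g * h⁻¹ ∈ U m F) : ∃ k : ℕ, orderOf g = p ^ k := by
  obtain ⟨P, hP⟩ := exists_sylow_U (F := F) (m := m) (p := p)
  have hUp : IsPGroup p (U m F) := hP ▸ P.isPGroup'
  obtain ⟨h, hh⟩ := hg
  obtain ⟨k, hk⟩ := (IsPGroup.iff_orderOf.mp hUp) ⟨_, hh⟩
  refine ⟨k, ?_⟩
  rw [← hk, Subgroup.orderOf_mk]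
  exact (MulAut.conj h).orderOf_eq g |>.symm

theorem sM_orderOf {u v : Fin m ⊕ Fin m → F} (hm : 2 ≤ m) (hu : u ≠ 0) (hv : ∀ c : F, v ≠ c • u) (huv : B u v = 0) :
    ∃ k : ℕ, orderOf (sM u v) = p ^ k := by
  let z : Fin m := ⟨0, by omega⟩
  let o : Fin m := ⟨1, by omega⟩
  have hzo : z ≠ o := fun h => by have := congrArg Fin.val h; exact absurd this (by norm_num [z, o])
  obtain ⟨s, hs1, hs2⟩ := exists_pair hu hv huv (e_ne z) (not_smul (v := (e o : Fin m ⊕ Fin m → F)) (Sum.inl o) (by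
    rw [e_inl, if_neg hzo.symm]) (by rw [e_inl, if_pos rfl]; exact one_ne_zero)) ((inW_e z).B (inW_e o))
  refine U_orderOf p ⟨s, ?_⟩
  rw [sM_conj, hs1, hs2]
  exact sM_mem_U (inW_e z) (inW_e o)

/-- the relevant generation statement -/
theorem normalizer_gen (hm : 2 ≤ m) {g : SG m F} (hg : g ∈ Subgroup.normalizer ((U m F : Subgroup (SG m F)) : Set (SG m F))) :
    g ∈ Subgroup.closure {h : SG m F | h ∈ Subgroup.normalizer ((U m F : Subgroup (SG m F)) : Set (SG m F)) ∧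
    ∃ Q : Subgroup (SG m F), Q ≤ U m F ∧ U m F ≤ Subgroup.normalizer (Q : Set (SG m F)) ∧
      (∀ c : SG m F, (∀ r ∈ Q, c * r = r * c) → c ∈ Q ⊔ Subgroup.center (SG m F)) ∧
      h ∈ Subgroup.closure {x : SG m F | x ∈ Subgroup.normalizer (Q : Set (SG m F)) ∧ ∃ k : ℕ, orderOf x = p ^ k}} := by
  set A := {h : SG m F | h ∈ Subgroup.normalizer ((U m F : Subgroup (SG m F)) : Set (SG m F)) ∧
    ∃ Q : Subgroup (SG m F), Q ≤ U m F ∧ U m F ≤ Subgroup.normalizer (Q : Set (SG m F)) ∧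
      (∀ c : SG m F, (∀ r ∈ Q, c * r = r * c) → c ∈ Q ⊔ Subgroup.center (SG m F)) ∧
      h ∈ Subgroup.closure {x : SG m F | x ∈ Subgroup.normalizer (Q : Set (SG m F)) ∧ ∃ k : ℕ, orderOf x = p ^ k}} with hA
  have hm0 : 0 < m := by omega
  let z : Fin m := ⟨0, hm0⟩
  let o : Fin m := ⟨1, by omega⟩
  have hzo : z ≠ o := fun h => by have := congrArg Fin.val h; exact absurd this (by norm_num [z, o])
  -- the two parabolic radicals
  have hnormQ : ∀ x : SG m F, x.1 *ᵥ e z = e z → x ∈ Subgroup.normalizer ((QU (e z) : Subgroup (SG m F)) : Set (SG m F)) := by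
    intro x hx
    rw [Subgroup.mem_normalizer_iff]
    intro y
    refine ⟨fun hy => QU_normalized hx hy, fun hy => ?_⟩
    have hx' : (x⁻¹).1 *ᵥ e z = e z := by
      nth_rewrite 1 [← hx]; exact S_inv_mulVec x _
    have h1 := QU_normalized hx' hy
    have h2 : x⁻¹ * (x * y * x⁻¹) * x⁻¹⁻¹ = y := by group
    rwa [h2] at h1
  have hQ1 : ∀ h : SG m F, h ∈ Subgroup.normalizer ((U m F : Subgroup (SG m F)) : Set (SG m F)) →
      h ∈ Subgroup.closure {x : SG m F | x ∈ Subgroup.normalizer ((QU (e z) : Subgroup (SG m F)) : Set (SG m F)) ∧ ∃ k : ℕ, orderOf x = p ^ k} →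
      h ∈ Subgroup.closure A := by
    intro h h1 h2
    exact Subgroup.subset_closure ⟨h1, QU (e z), QU_le_U hm0, fun u hu => hnormQ u (U_e_zero hm0 hu),
      fun c hc => centralizer_QU hm (e_ne z) hc, h2⟩
  have hQ2 : ∀ h : SG m F, h ∈ Subgroup.normalizer ((U m F : Subgroup (SG m F)) : Set (SG m F)) →
      h ∈ Subgroup.closure {x : SG m F | x ∈ Subgroup.normalizer ((RW m F : Subgroup (SG m F)) : Set (SG m F)) ∧ ∃ k : ℕ, orderOf x = p ^ k} →
      h ∈ Subgroup.closure A := by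
    intro h h1 h2
    exact Subgroup.subset_closure ⟨h1, RW m F, RW_le_U, fun u hu => mem_normalizer_RW (fun w hw => U_InW hu hw)
      (fun w hw => U_InW ((U m F).inv_mem hu) hw), fun c hc => centralizer_RW (by omega) hc, h2⟩
  -- elements of U
  have hUA : ∀ u ∈ U m F, u ∈ Subgroup.closure A := by
    intro u hu
    refine hQ1 u (Subgroup.le_normalizer hu) (Subgroup.subset_closure ⟨hnormQ u (U_e_zero hm0 hu), ?_⟩)
    exact U_orderOf p ⟨1, by simpa using hu⟩
  -- the torus normalizes U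
  have hDent : ∀ (d : Fin m → Fˣ) (a b : Fin m ⊕ Fin m), a ≠ b → (D m F d).1 a b = 0 := by
    intro d a b hab
    show Matrix.diagonal _ a b = 0
    rw [Matrix.diagonal_apply_ne _ hab]
  have hDupp : ∀ d : Fin m → Fˣ, UppTri (rho m F (D m F d)) := by
    intro d i j hij
    obtain ⟨a, rfl⟩ := (sg m).surjective i
    obtain ⟨b, rfl⟩ := (sg m).surjective j
    rw [rho_apply]
    exact hDent d a b (fun h => by rw [h] at hij; exact lt_irrefl _ hij)
  have hDN : ∀ d : Fin m → Fˣ, D m F d ∈ Subgroup.normalizer ((U m F : Subgroup (SG m F)) : Set (SG m F)) := by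
    have key : ∀ (d : Fin m → Fˣ), ∀ u ∈ U m F, D m F d * u * (D m F d)⁻¹ ∈ U m F := by
      intro d u hu
      rw [mem_U] at hu ⊢
      rw [map_mul, map_mul]
      have hy' : UppTri (rho m F (D m F d)⁻¹) := by rw [← map_inv]; exact hDupp _
      rw [uniTri_iff]
      refine ⟨((hDupp d).mul hu.uppTri).mul hy', fun i => ?_⟩
      rw [((hDupp d).mul hu.uppTri).mul_diag hy', (hDupp d).mul_diag hu.uppTri, hu.diag, mul_one, ← (hDupp d).mul_diag hy',
        ← map_mul, mul_inv_cancel, map_one, Matrix.one_apply_eq]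
    intro d
    rw [Subgroup.mem_normalizer_iff]
    intro u
    refine ⟨key d u, fun hu => ?_⟩
    have h1 := key d⁻¹ _ hu
    rw [map_inv] at h1
    have h2 : (D m F d)⁻¹ * (D m F d * u * (D m F d)⁻¹) * (D m F d)⁻¹⁻¹ = u := by group
    rwa [h2] at h1
  -- torus elements
  have hsingle : ∀ (i : Fin m) (a : Fˣ), i ≠ z → D m F (Pi.mulSingle i a) ∈ Subgroup.closure A := by
    intro i a hi
    refine hQ1 _ (hDN _) ?_
    rw [D_single]
    refine hM_mem (fun c => Subgroup.subset_closure ⟨hnormQ _ ?_, tM_orderOf p c _⟩)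
      (fun c => Subgroup.subset_closure ⟨hnormQ _ ?_, tM_orderOf p c _⟩)
    · rw [tM_mulVec, B_e, e_inr, neg_zero, mul_zero, zero_smul, add_zero]
    · rw [tM_mulVec, B_f, e_inl, if_neg hi, mul_zero, zero_smul, add_zero]
  have hz : ∀ a : Fˣ, D m F (Pi.mulSingle z a) ∈ Subgroup.closure A := by
    intro a
    set K := Subgroup.closure {x : SG m F | x ∈ Subgroup.normalizer ((RW m F : Subgroup (SG m F)) : Set (SG m F)) ∧
      ∃ k : ℕ, orderOf x = p ^ k} with hK
    have hDRW : ∀ d : Fin m → Fˣ, D m F d ∈ Subgroup.normalizer ((RW m F : Subgroup (SG m F)) : Set (SG m F)) := by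
      intro d
      have h1 : ∀ w : Fin m ⊕ Fin m → F, InW w → InW ((D m F d).1 *ᵥ w) := by
        intro w hw j
        show (Matrix.diagonal _ *ᵥ w) (Sum.inr j) = 0
        rw [Matrix.mulVec_diagonal, hw, mul_zero]
      exact mem_normalizer_RW h1 (stable_inv h1)
    -- short root elements of the Levi factor
    have hs : ∀ i j : Fin m, i ≠ j → ∀ c : F, c ≠ 0 → sM (c • e i) (f j) ∈ K := by
      intro i j hij c hc
      have hB : B (c • e i) (f j : Fin m ⊕ Fin m → F) = 0 := by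
        rw [B_smul_left, B_e, f_inr, if_neg hij, neg_zero, mul_zero]
      have h1 : ∀ w : Fin m ⊕ Fin m → F, InW w → InW ((sM (c • e i) (f j)).1 *ᵥ w) := by
        intro w hw k
        rw [sM_mulVec hB, B_smul_left, B_e, hw i, neg_zero, mul_zero, zero_smul, add_zero]
        exact (hw.add (((inW_e i).smul c).smul _)) k
      refine Subgroup.subset_closure ⟨mem_normalizer_RW h1 (stable_inv h1), sM_orderOf p hm (smul_ne_zero hc (e_ne i))
        (not_smul (Sum.inr j) ?_ ?_) hB⟩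
      · rw [Pi.smul_apply, e_inr, smul_zero]
      · rw [f_inr, if_pos rfl]; exact one_ne_zero
    -- the element swapping `e_z` and `e_o`
    obtain ⟨n, hn, n1, n2⟩ : ∃ n ∈ K, n.1 *ᵥ e z = - e o ∧ n.1 *ᵥ f z = - f o := by
      have b1 : B ((1 : F) • e z) (f o : Fin m ⊕ Fin m → F) = 0 := by
        rw [B_smul_left, B_e, f_inr, if_neg hzo, neg_zero, mul_zero]
      have b2 : B ((-1 : F) • e o) (f z : Fin m ⊕ Fin m → F) = 0 := by
        rw [B_smul_left, B_e, f_inr, if_neg hzo.symm, neg_zero, mul_zero]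
      refine ⟨sM ((1 : F) • e z) (f o) * sM ((-1 : F) • e o) (f z) * sM ((1 : F) • e z) (f o),
        K.mul_mem (K.mul_mem (hs z o hzo 1 one_ne_zero) (hs o z hzo.symm (-1) (neg_ne_zero.2 one_ne_zero)))
          (hs z o hzo 1 one_ne_zero), ?_, ?_⟩
      · simp only [S_mul_mulVec, sM_mulVec b1, sM_mulVec b2, B_add_right, B_smul_right, B_smul_left, B_e, B_f, e_inl, e_inr,
          f_inl, f_inr, if_pos, if_neg hzo, if_neg hzo.symm]
        module
      · simp only [S_mul_mulVec, sM_mulVec b1, sM_mulVec b2, B_add_right, B_smul_right, B_smul_left, B_e, B_f, e_inl, e_inr,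
          f_inl, f_inr, if_pos, if_neg hzo, if_neg hzo.symm]
        module
    -- K is normalized by the torus
    have hKn : ∀ d : Fin m → Fˣ, ∀ x ∈ K, D m F d * x * (D m F d)⁻¹ ∈ K := by
      intro d x hx
      have h1 : K ≤ K.comap (MulAut.conj (D m F d)).toMonoidHom := by
        rw [hK, Subgroup.closure_le]
        rintro y ⟨hy1, k, hy2⟩
        refine Subgroup.subset_closure ⟨?_, k, ?_⟩
        · exact Subgroup.mul_mem _ (Subgroup.mul_mem _ (hDRW d) hy1) (Subgroup.inv_mem _ (hDRW d))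
        · rw [← hy2]; exact (MulAut.conj (D m F d)).orderOf_eq y
      exact h1 hx
    have h1 : D m F (Pi.mulSingle z a) * n * (D m F (Pi.mulSingle z a))⁻¹ * n⁻¹ ∈ K := K.mul_mem (hKn _ n hn) (K.inv_mem hn)
    have h2 : D m F (Pi.mulSingle z a) * n * (D m F (Pi.mulSingle z a))⁻¹ * n⁻¹ =
        D m F (Pi.mulSingle z a) * (D m F (Pi.mulSingle o a))⁻¹ := by
      have h3 : n * (D m F (Pi.mulSingle z a)) * n⁻¹ = D m F (Pi.mulSingle o a) := by
        rw [D_single, D_single, hM_conj, n1, n2, hM_neg]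
      rw [← h3]; group
    rw [h2, ← map_inv, ← map_mul] at h1
    have h3 := hQ2 _ (hDN _) h1
    have h4 : D m F (Pi.mulSingle z a) = D m F (Pi.mulSingle z a * (Pi.mulSingle o a)⁻¹) * D m F (Pi.mulSingle o a) := by
      rw [← map_mul]; congr 1; group
    rw [h4]
    exact Subgroup.mul_mem _ h3 (hsingle o a hzo.symm)
  have hD : ∀ d : Fin m → Fˣ, D m F d ∈ Subgroup.closure A := by
    intro d
    have h1 : d ∈ (Subgroup.closure A).comap (D m F) := by
      rw [← Finset.univ_prod_mulSingle d]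
      refine Subgroup.prod_mem _ fun i _ => ?_
      by_cases hi : i = z
      · rw [hi]; exact hz _
      · exact hsingle i _ hi
    exact h1
  -- the diagonal part of g
  have hupp : UppTri (rho m F g) := uppTri_of_normalizes (rho m F) (U := U m F) (fun u hu => hu) flagFix (g := g) (by
    intro u hu
    apply (Subgroup.mem_normalizer_iff.mp hg _).mpr
    have : g * (g⁻¹ * u * g) * g⁻¹ = u := by group
    rw [this]; exact hu)
  have hent : ∀ a b : Fin m ⊕ Fin m, sg m b < sg m a → g.1 a b = 0 := by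
    intro a b hab
    rw [← rho_apply]; exact hupp _ _ hab
  have hprod : ∀ i : Fin m, g.1 (Sum.inl i) (Sum.inl i) * g.1 (Sum.inr i) (Sum.inr i) = 1 := by
    intro i
    have h1 : B (g.1 *ᵥ e i) (g.1 *ᵥ f i) = -1 := by rw [S_form, B_ef_self]
    rw [B_apply, Finset.sum_eq_single i] at h1
    · rw [col_e, col_e, col_f, col_f, hent (Sum.inr i) (Sum.inl i) (by
        show (sg m (Sum.inl i)).val < (sg m (Sum.inr i)).val
        rw [sg_inl, sg_inr]; have := i.2; omega), zero_mul, zero_sub] at h1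
      exact neg_injective h1
    · intro j _ hj
      rw [col_e, col_e, col_f, col_f, hent (Sum.inr j) (Sum.inl i) (by
        show (sg m (Sum.inl i)).val < (sg m (Sum.inr j)).val
        rw [sg_inl, sg_inr]; have := i.2; omega), zero_mul, zero_sub, neg_eq_zero, mul_eq_zero]
      rcases lt_or_gt_of_ne hj with h | h
      · right
        apply hent
        show (sg m (Sum.inr i)).val < (sg m (Sum.inr j)).val
        rw [sg_inr, sg_inr]
        have := i.2; have := j.2; have : j.val < i.val := h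
        omega
      · left
        exact hent _ _ h
    · intro h; exact absurd (Finset.mem_univ i) h
  let d : Fin m → Fˣ := fun i => ⟨g.1 (Sum.inl i) (Sum.inl i), g.1 (Sum.inr i) (Sum.inr i), hprod i, by
    rw [mul_comm]; exact hprod i⟩
  have hu : g * (D m F d)⁻¹ ∈ U m F := by
    rw [mem_U, map_mul, ← map_inv, uniTri_iff]
    refine ⟨hupp.mul (hDupp _), fun i => ?_⟩
    rw [hupp.mul_diag (hDupp _)]
    obtain ⟨a, rfl⟩ := (sg m).surjective i
    rw [rho_apply, rho_apply]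
    rcases a with i | i
    · have h1 : (D m F d⁻¹).1 (Sum.inl i) (Sum.inl i) = g.1 (Sum.inr i) (Sum.inr i) := by
        show Matrix.diagonal _ _ _ = _
        rw [Matrix.diagonal_apply_eq]; rfl
      rw [h1, hprod]
    · have h1 : (D m F d⁻¹).1 (Sum.inr i) (Sum.inr i) = g.1 (Sum.inl i) (Sum.inl i) := by
        show Matrix.diagonal _ _ _ = _
        rw [Matrix.diagonal_apply_eq]
        show ((((d⁻¹) i)⁻¹ : Fˣ) : F) = _
        rw [Pi.inv_apply, inv_inv]
      rw [h1, mul_comm, hprod]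
  have h5 : g = (g * (D m F d)⁻¹) * D m F d := by group
  rw [h5]
  exact Subgroup.mul_mem _ (hUA _ hu) (hD d)

/-- the center has order prime to `p` -/
theorem center_coprime (hm : 1 ≤ m) : (Nat.card (Subgroup.center (SG m F))).Coprime p := by
  rw [Nat.coprime_comm, Nat.Prime.coprime_iff_not_dvd Fact.out]
  intro hdvd
  obtain ⟨z, hz⟩ := exists_prime_orderOf_dvd_card' p hdvd
  obtain ⟨c, hc⟩ := (mem_center_iff' _).1 z.2
  have h1 : (z : SG m F) ^ p = 1 := by
    have := pow_orderOf_eq_one z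
    rw [hz] at this
    exact congrArg Subtype.val this
  have h2 : ∀ n : ℕ, ∀ v, ((z : SG m F) ^ n).1 *ᵥ v = c ^ n • v := by
    intro n
    induction n with
    | zero => intro v; rw [pow_zero, pow_zero, one_smul]; exact Matrix.one_mulVec v
    | succ n ih => intro v; rw [pow_succ', S_mul_mulVec, ih, Matrix.mulVec_smul, hc, smul_smul, pow_succ]
  have h3 := h2 p (e ⟨0, by omega⟩)
  rw [h1] at h3
  have h4 : (1 : SG m F).1 *ᵥ (e ⟨0, by omega⟩ : Fin m ⊕ Fin m → F) = e ⟨0, by omega⟩ := Matrix.one_mulVec _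
  rw [h4] at h3
  have h5 := congrFun h3 (Sum.inl ⟨0, by omega⟩)
  rw [Pi.smul_apply, e_inl, if_pos rfl, smul_eq_mul, mul_one] at h5
  have h6 : (c - 1) ^ p = 0 := by rw [sub_pow_char, ← h5, one_pow, sub_self]
  have h7 : c = 1 := sub_eq_zero.mp (pow_eq_zero_iff (Fact.out : p.Prime).ne_zero |>.mp h6)
  have hz1 : z = 1 := by
    apply Subtype.ext
    apply S_ext
    intro x
    rw [hc, h7, one_smul]; exact (Matrix.one_mulVec x).symm
  rw [hz1, orderOf_one] at hz
  exact (Fact.out : p.Prime).one_lt.ne hz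

end

end Cfsg.Agent.Lib.SpCrit
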