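import Mathlib
import Cfsg.Agent.Lib.OrthExtH94
import Cfsg.Agent.Lib.SpTrans

set_option autoImplicit false
set_option linter.unusedSectionVars false
set_option linter.unusedSimpArgs false

/-!
Overgroups in the symplectic group of the normaliser of a quadratic extension field (unitary structure),
odd characteristic.
-/

namespace Cfsg.Agent.Lib.SpExtH94

open QuadraticMap Module Cfsg.Agent.Lib.Quad Cfsg.Agent.Lib.OrthMax Cfsg.Agent.Lib.OrthPoint
  Cfsg.Agent.Lib.OrthExtH94 Cfsg.Agent.Lib.SpTrans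

variable {F V : Type*} [Field F] [AddCommGroup V] [Module F V] [FiniteDimensional F V]
  {B : V →ₗ[F] V →ₗ[F] F} {M : Subgroup (V ≃ₗ[F] V)}

/-- unitary structure on a symplectic space -/
structure SKS (B : V →ₗ[F] V →ₗ[F] F) (κ : V →ₗ[F] V) (ν : F) : Prop where
  alt : B.IsAlt
  nd : ∀ x, (∀ y, B x y = 0) → x = 0
  two : (2 : F) ≠ 0
  sq : ∀ x, κ (κ x) = ν • x
  adj : ∀ x y, B (κ x) y = - B x (κ y)
  ns : ∀ c : F, c * c ≠ ν

namespace SKS
variable {κ : V →ₗ[F] V} {ν : F} (k : SKS B κ ν)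

/-- the associated quadratic form -/
noncomputable def phi (B : V →ₗ[F] V →ₗ[F] F) (κ : V →ₗ[F] V) : QuadraticForm F V :=
  LinearMap.BilinMap.toQuadraticMap (B.compl₂ κ)

theorem phi_apply (x : V) : phi B κ x = B x (κ x) := rfl

include k

theorem nu_ne : ν ≠ 0 := by
  intro h
  exact k.ns 0 (by rw [h, mul_zero])

theorem neg' (x y : V) : B x y = - B y x := alt_neg k.alt x y

theorem self (x : V) : B x x = 0 := k.alt x

theorem comm' (x y : V) : B y (κ x) = B x (κ y) := by
  rw [k.neg', k.adj, neg_neg]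

theorem kk (x y : V) : B (κ x) (κ y) = -(ν * B x y) := by
  rw [k.adj, k.sq, map_smul, smul_eq_mul]

theorem polar_phi (x y : V) : polar (phi B κ) x y = 2 * B x (κ y) := by
  have h : polar (phi B κ) x y = B x (κ y) + B y (κ x) := by
    simp only [polar, phi_apply, map_add, LinearMap.add_apply]; ring
  rw [h, k.comm' x y]; ring

theorem nd_phi : Nd (phi B κ) := by
  apply nd_of
  intro x hx
  apply k.nd
  intro y
  have h1 := hx (κ y)
  rw [k.polar_phi, k.sq, map_smul, smul_eq_mul] at h1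
  exact ((mul_eq_zero.1 ((mul_eq_zero.1 h1).resolve_left k.two)).resolve_left k.nu_ne)

theorem ks : KS (phi B κ) κ 0 (-ν) := by
  refine ⟨fun x => ?_, fun x y => ?_, fun x => ?_, fun x => ?_, fun a b h => ?_⟩
  · rw [k.sq]; module
  · simp only [k.polar_phi, k.kk, k.sq, map_smul, smul_eq_mul]; ring
  · rw [phi_apply, phi_apply, k.sq, map_smul, k.adj, smul_eq_mul]; ring
  · rw [k.polar_phi, k.sq, map_smul, k.self, zero_mul, smul_zero, mul_zero]
  · by_contra ha
    apply k.ns (b / a)
    field_simp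
    linear_combination h

/-- `B`-perpendicularity via `phi` -/
theorem perp_iff (x y : V) : polar (phi B κ) x y = 0 ↔ B x (κ y) = 0 := by
  rw [k.polar_phi, mul_eq_zero, or_iff_right k.two]

theorem perp_iff' (x y : V) : polar (phi B κ) x (κ y) = 0 ↔ B x y = 0 := by
  rw [k.perp_iff, k.sq, map_smul, smul_eq_mul, mul_eq_zero, or_iff_right k.nu_ne]

variable (hM : M ≤ isom (fun x y => B x y))
  (hS : ∀ v, B v (κ v) = 0 → ∀ c : F, tv B k.alt v (c * ν) * tv B k.alt (κ v) (-c) ∈ M)
include hM hS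

theorem W_mem {u v : V} (hu : B u (κ u) = 0) (hv : B v (κ v) = 0) (huv : B u v = 0)
    (huv' : B u (κ v) = 0) (c : F) : ∃ g ∈ M, ∀ w, g w = w + c • (ν • (B w v • u + B w u • v) -
      (B w (κ v) • κ u + B w (κ u) • κ v)) := by
  have hvu : B v u = 0 := by rw [k.neg', huv, neg_zero]
  have hvu' : B v (κ u) = 0 := by rw [k.comm']; exact huv'
  have hκuv : B (κ u) v = 0 := by rw [k.adj, huv', neg_zero]
  have hκvu : B (κ v) u = 0 := by rw [k.adj, hvu', neg_zero]
  have hκκ : B (κ u) (κ v) = 0 := by rw [k.kk, huv, mul_zero, neg_zero]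
  have hκκ' : B (κ v) (κ u) = 0 := by rw [k.kk, hvu, mul_zero, neg_zero]
  have hκu : B (κ u) u = 0 := by rw [k.adj, hu, neg_zero]
  have hκv : B (κ v) v = 0 := by rw [k.adj, hv, neg_zero]
  have h1 := hS (u + v) (by
    simp only [map_add, LinearMap.add_apply, hu, hv, huv', hvu']; simp) c
  have h2 := hS u hu (-c)
  have h3 := hS v hv (-c)
  refine ⟨_, mul_mem (mul_mem h1 h2) h3, fun w => ?_⟩
  simp only [LinearEquiv.mul_apply, tv_apply, map_add, map_smul, LinearMap.add_apply,
    LinearMap.smul_apply, hu, hv, huv, huv', hvu, hvu', hκuv, hκvu, hκκ, hκκ', hκu, hκv, k.self]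
  module

theorem centre_of {u v y : V} (hu : B u (κ u) = 0) (hv : B v (κ v) = 0) (huv : B u v = 0)
    (huv' : B u (κ v) = 0) {x : V ≃ₗ[F] V} (hx : x ∈ M) (hxv : x v = v) (hxκv : x (κ v) = κ v)
    (hxu : x u = u) (hxκu : x (κ u) = κ u + y) (hμ : B (κ u) y ≠ 0) : κ v ∈ centres k.alt M := by
  have hvu : B v u = 0 := by rw [k.neg', huv, neg_zero]
  have hvu' : B v (κ u) = 0 := by rw [k.comm']; exact huv'
  have hκuv : B (κ u) v = 0 := by rw [k.adj, huv', neg_zero]
  have hκvu : B (κ v) u = 0 := by rw [k.adj, hvu', neg_zero]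
  have hκκ : B (κ u) (κ v) = 0 := by rw [k.kk, huv, mul_zero, neg_zero]
  have hκκ' : B (κ v) (κ u) = 0 := by rw [k.kk, hvu, mul_zero, neg_zero]
  have hκu : B (κ u) u = 0 := by rw [k.adj, hu, neg_zero]
  have hκv : B (κ v) v = 0 := by rw [k.adj, hv, neg_zero]
  have hvy : B v y = 0 := by
    have h1 := hM hx v (κ u)
    simp only at h1
    rw [hxv, hxκu, map_add, hvu', zero_add] at h1
    exact h1
  have hκvy : B (κ v) y = 0 := by
    have h1 := hM hx (κ v) (κ u)
    simp only at h1
    rw [hxκv, hxκu, map_add, hκκ', zero_add] at h1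
    exact h1
  have huy : B u y = 0 := by
    have h1 := hM hx u (κ u)
    simp only at h1
    rw [hxu, hxκu, map_add, hu, zero_add] at h1
    exact h1
  have hyv : B y v = 0 := by rw [k.neg', hvy, neg_zero]
  have hyκv : B y (κ v) = 0 := by rw [k.neg', hκvy, neg_zero]
  have hyu : B y u = 0 := by rw [k.neg', huy, neg_zero]
  obtain ⟨μ, hμd⟩ : ∃ μ, μ = B (κ u) y := ⟨_, rfl⟩
  rw [← hμd] at hμ
  have hyκu : B y (κ u) = -μ := by rw [k.neg', hμd]
  have hD : ∀ c : F, ∃ d ∈ M, ∀ w, d w = w - c • (B w (κ v) • y + B w y • κ v) -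
      (c * c * μ * B w (κ v)) • κ v := by
    intro c
    obtain ⟨g₁, hg₁, hx₁⟩ := k.W_mem hM hS hu hv huv huv' c
    obtain ⟨g₂, hg₂, hx₂⟩ := k.W_mem hM hS hu hv huv huv' (-c)
    have hc : ∀ w, (x * g₁ * x⁻¹) w = w + c • (ν • (B w v • u + B w u • v) -
        (B w (κ v) • (κ u + y) + B w (κ u + y) • κ v)) := by
      intro w
      obtain ⟨w, rfl⟩ := x.surjective w
      have e1 : (x * g₁ * x⁻¹) (x w) = x (g₁ w) := by
        show (x * g₁ * x⁻¹ * x) w = _
        rw [inv_mul_cancel_right]; rfl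
      have e2 : B (x w) v = B w v := by
        have := hM hx w v; simp only at this; rwa [hxv] at this
      have e3 : B (x w) u = B w u := by
        have := hM hx w u; simp only at this; rwa [hxu] at this
      have e4 : B (x w) (κ v) = B w (κ v) := by
        have := hM hx w (κ v); simp only at this; rwa [hxκv] at this
      have e5 : B (x w) (κ u + y) = B w (κ u) := by
        have := hM hx w (κ u); simp only at this; rwa [hxκu] at this
      rw [e1, hx₁, e2, e3, e4, e5]
      simp only [map_add, map_sub, LinearEquiv.map_smul, hxv, hxκv, hxu, hxκu]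
    refine ⟨x * g₁ * x⁻¹ * g₂, mul_mem (mul_mem (mul_mem hx hg₁) (inv_mem hx)) hg₂, fun w => ?_⟩
    rw [LinearEquiv.mul_apply, hc, hx₂]
    simp only [map_add, map_sub, map_smul, LinearMap.add_apply, LinearMap.sub_apply,
      LinearMap.smul_apply, hu, hv, huv, huv', hvu, hvu', hκuv, hκvu, hκκ, hκκ', hκu, hκv, hvy, hκvy,
      huy, ← hμd, k.self, smul_eq_mul]
    module
  intro a
  obtain ⟨d₁, hd₁, h₁⟩ := hD (a / (2 * μ))
  obtain ⟨d₂, hd₂, h₂⟩ := hD 1
  obtain ⟨d₃, hd₃, h₃⟩ := hD (a / (2 * μ) + 1)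
  have h2μ : 2 * μ ≠ 0 := mul_ne_zero k.two hμ
  have h4 : d₁ * d₂ = tv B k.alt (κ v) a * d₃ := by
    apply LinearEquiv.ext
    intro w
    have e : a = a / (2 * μ) * 2 * μ := by rw [mul_assoc, div_mul_cancel₀ _ h2μ]
    rw [LinearEquiv.mul_apply, LinearEquiv.mul_apply, h₁, h₂, h₃, tv_apply]
    generalize a / (2 * μ) = b at e
    subst e
    simp only [map_add, map_sub, map_smul, LinearMap.add_apply, LinearMap.sub_apply,
      LinearMap.smul_apply, hκvy, hyκv, k.self, smul_eq_mul]
    module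
  have h5 : tv B k.alt (κ v) a = d₁ * d₂ * d₃⁻¹ := by rw [h4, mul_inv_cancel_right]
  rw [h5]
  exact mul_mem (mul_mem hd₁ hd₂) (inv_mem hd₃)

/-- moving isotropic vectors -/
theorem exists_move1 {p q : V} (hp : B p (κ p) = 0) (hq : B q (κ q) = 0) (h1 : B p (κ q) = 0)
    (h2 : B p q ≠ 0) : ∃ g ∈ M, g p = q := by
  have hqp : B q (κ p) = 0 := by rw [k.comm']; exact h1
  have h3 := hS (q - p) (by
    simp only [map_sub, LinearMap.sub_apply, hp, hq, h1, hqp]; simp) (1 / (ν * B p q))
  refine ⟨_, h3, ?_⟩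
  have e1 : B p (κ (q - p)) = 0 := by rw [map_sub, map_sub, h1, hp, sub_zero]
  have e2 : B p (q - p) = B p q := by rw [map_sub, k.self, sub_zero]
  have e4 : tv B k.alt (κ (q - p)) (-(1 / (ν * B p q))) p = p := by
    rw [tv_apply, e1, mul_zero, zero_smul, add_zero]
  rw [LinearEquiv.mul_apply, e4, tv_apply, e2]
  have e3 : 1 / (ν * B p q) * ν * B p q = 1 := by
    rw [mul_assoc, one_div, inv_mul_cancel₀ (mul_ne_zero k.nu_ne h2)]
  rw [e3, one_smul, add_sub_cancel]

theorem all_iso [Finite F] (hn : 14 ≤ finrank F V) {e : V} (he0 : e ≠ 0) (he : B e (κ e) = 0)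
    (hec : e ∈ centres k.alt M) : ∀ w, B w (κ w) = 0 → w ∈ centres k.alt M := by
  have hQ := k.nd_phi
  have key : ∀ e w, e ≠ 0 → B e (κ e) = 0 → e ∈ centres k.alt M → B w (κ w) = 0 →
      w ∉ Submodule.span F {e, κ e} → w ∈ centres k.alt M := by
    intro e w he0 he hec hw hwe
    have hw0 : w ≠ 0 := by rintro rfl; exact hwe (Submodule.zero_mem _)
    obtain ⟨W, hW⟩ : ∃ W, W = Submodule.span F {e, w} := ⟨_, rfl⟩
    have hew : e ∉ Submodule.span F {w, κ w} := by
      intro hmem
      obtain ⟨a, b, hab⟩ := Submodule.mem_span_pair.1 hmem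
      apply hwe
      apply k.ks.mem_of_comb (k.ks.inv_span e) (a := b) (b := a)
      · rw [add_comm, hab]; exact Submodule.subset_span (by simp)
      · rintro ⟨rfl, rfl⟩
        rw [zero_smul, zero_smul, add_zero] at hab
        exact he0 hab.symm
    have h1 : κ e ∉ W := by
      intro hmem
      rw [hW] at hmem
      obtain ⟨a, b, hab⟩ := Submodule.mem_span_pair.1 hmem
      by_cases hb : b = 0
      · rw [hb, zero_smul, add_zero] at hab
        exact one_ne_zero (k.ks.inj (a := 1) (b := -a) (x := e) (by rw [← hab]; module) he0).1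
      · apply hwe
        have h2 : b • w ∈ Submodule.span F {e, κ e} := by
          rw [Submodule.mem_span_pair]
          exact ⟨-a, 1, by rw [← hab]; module⟩
        exact (Submodule.smul_mem_iff _ hb).1 h2
    have h2 : κ w ∉ W := by
      intro hmem
      rw [hW] at hmem
      obtain ⟨a, b, hab⟩ := Submodule.mem_span_pair.1 hmem
      by_cases ha : a = 0
      · rw [ha, zero_smul, zero_add] at hab
        exact one_ne_zero (k.ks.inj (a := 1) (b := -b) (x := w) (by rw [← hab]; module) hw0).1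
      · apply hew
        have h2 : a • e ∈ Submodule.span F {w, κ w} := by
          rw [Submodule.mem_span_pair]
          exact ⟨-b, 1, by rw [← hab]; module⟩
        exact (Submodule.smul_mem_iff _ ha).1 h2
    obtain ⟨s, hs, hsW, hse, hsw, -⟩ := exists_sing_gen hQ W ⊥ h1 h2 4 (by
      have h3 := finrank_sup_le W (Submodule.span F {κ e, κ w})
      have h4 : finrank F W ≤ 2 := by rw [hW]; exact finrank_pair_le _ _
      have h5 := finrank_pair_le (F := F) (κ e) (κ w)
      omega) (by omega) (by rw [finrank_bot]; omega)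
    have hes : B e (κ s) = 0 := (k.perp_iff e s).1 (hsW e (by rw [hW]; exact Submodule.subset_span (by simp)))
    have hws : B w (κ s) = 0 := (k.perp_iff w s).1 (hsW w (by rw [hW]; exact Submodule.subset_span (by simp)))
    have hse' : B e s ≠ 0 := by
      intro h0
      apply hse
      rw [k.perp_iff', k.neg', h0, neg_zero]
    have hsw' : B s w ≠ 0 := fun h0 => hsw ((k.perp_iff' s w).2 h0)
    obtain ⟨g₁, hg₁, h3⟩ := k.exists_move1 hM hS he hs hes hse'
    obtain ⟨g₂, hg₂, h4⟩ := k.exists_move1 hM hS hs hw (by rw [k.comm']; exact hws) hsw'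
    have h5 := centres_map k.alt hM (centres_map k.alt hM hec hg₁) hg₂
    rwa [h3, h4] at h5
  intro w hw
  by_cases hwe : w ∈ Submodule.span F {e, κ e}
  · by_cases hw0 : w = 0
    · rw [hw0]; exact centres_zero k.alt M
    obtain ⟨z, -, hz, hQz⟩ := exists_sing_avoid (Q := phi B κ) ⊤ (Submodule.span F {e, κ e}) (by
      have := finrank_pair_le (F := F) e (κ e)
      rw [finrank_top]; omega)
    have hz0 : z ≠ 0 := by rintro rfl; exact hz (Submodule.zero_mem _)
    refine key z w hz0 hQz (key e z he0 he hec hQz hz) hw ?_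
    intro hmem
    obtain ⟨a, b, hab⟩ := Submodule.mem_span_pair.1 hmem
    apply hz
    apply k.ks.mem_of_comb (k.ks.inv_span e) (a := b) (b := a)
    · rw [add_comm, hab]; exact hwe
    · rintro ⟨rfl, rfl⟩
      rw [zero_smul, zero_smul, add_zero] at hab
      exact hw0 hab.symm
  · exact key e w he0 he hec hw hwe

/-- **Main theorem.** -/
theorem main [Finite F] (hn : 14 ≤ finrank F V) (hex : ∃ g ∈ M, ¬ Nrm κ g) :
    isom (fun x y => B x y) ≤ M := by
  have hQ := k.nd_phi
  obtain ⟨g, hg, hgN⟩ := hex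
  obtain ⟨v₀, hv₀, hv₀0, hgv₀⟩ := k.ks.exists_moved hQ (by omega) hgN
  obtain ⟨a', ha'⟩ : ∃ a', a' = g v₀ := ⟨_, rfl⟩
  obtain ⟨b', hb'⟩ : ∃ b', b' = g (κ v₀) := ⟨_, rfl⟩
  have ha'0 : a' ≠ 0 := by rw [ha']; simpa using hv₀0
  obtain ⟨x, hx, hxw⟩ : ∃ x ∈ M, ∀ w, x w = w + (ν * B w a') • a' - B w b' • b' := by
    have h1 := hS v₀ hv₀ 1
    have h2 := mul_mem (mul_mem hg h1) (inv_mem hg)
    have h3 : g * (tv B k.alt v₀ (1 * ν) * tv B k.alt (κ v₀) (-1)) * g⁻¹ =
        (g * tv B k.alt v₀ (1 * ν) * g⁻¹) * (g * tv B k.alt (κ v₀) (-1) * g⁻¹) := by group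
    rw [h3, conj_tv k.alt (hM hg), conj_tv k.alt (hM hg), ← ha', ← hb'] at h2
    refine ⟨_, h2, fun w => ?_⟩
    have h4 : B b' a' = 0 := by
      have := hM hg (κ v₀) v₀
      simp only at this
      rw [ha', hb', this, k.adj]
      exact neg_eq_zero.2 hv₀
    simp only [LinearEquiv.mul_apply, tv_apply, map_add, map_smul, LinearMap.add_apply,
      LinearMap.smul_apply, h4, smul_eq_mul]
    module
  rw [← ha', ← hb'] at hgv₀
  obtain ⟨W, hW⟩ : ∃ W, W = Submodule.span F {κ a', κ b'} := ⟨_, rfl⟩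
  have haW : a' ∉ W := by
    intro hmem
    rw [hW] at hmem
    obtain ⟨c, d, hcd⟩ := Submodule.mem_span_pair.1 hmem
    have h1 := congrArg κ hcd
    rw [map_add, map_smul, map_smul, k.sq, k.sq] at h1
    by_cases hd : d = 0
    · rw [hd, zero_smul, add_zero] at h1
      exact one_ne_zero (k.ks.inj (a := 1) (b := -(c * ν)) (x := a') (by rw [← h1]; module) ha'0).1
    · apply hgv₀
      have h2 : (d * ν) • b' ∈ Submodule.span F {a', κ a'} := by
        rw [Submodule.mem_span_pair]
        exact ⟨-(c * ν), 1, by rw [← h1]; module⟩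
      exact (Submodule.smul_mem_iff _ (mul_ne_zero hd k.nu_ne)).1 h2
  obtain ⟨u, hu, huW, hua, -, -⟩ := exists_sing_gen hQ W ⊥ haW haW 4 (by
    have h3 := finrank_sup_le W (Submodule.span F {a', a'})
    have h4 : finrank F W ≤ 2 := by rw [hW]; exact finrank_pair_le _ _
    have h5 := finrank_pair_le (F := F) a' a'
    omega) (by omega) (by rw [finrank_bot]; omega)
  have hua1 : B u a' = 0 := by
    have := huW (κ a') (by rw [hW]; exact Submodule.subset_span (by simp))
    rw [polar_comm, k.perp_iff'] at this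
    exact this
  have hub1 : B u b' = 0 := by
    have := huW (κ b') (by rw [hW]; exact Submodule.subset_span (by simp))
    rw [polar_comm, k.perp_iff'] at this
    exact this
  have hua2 : B (κ u) a' ≠ 0 := by
    intro h0
    apply hua
    rw [k.perp_iff]
    rw [k.adj, neg_eq_zero] at h0
    exact h0
  -- v
  obtain ⟨W₂, hW₂⟩ : ∃ W₂, W₂ = (Submodule.span F {a', κ a'} ⊔ Submodule.span F {b', κ b'}) ⊔
    Submodule.span F {u, κ u} := ⟨_, rfl⟩
  have hW₂d : finrank F W₂ ≤ 6 := by
    rw [hW₂]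
    have h1 := finrank_sup_le (Submodule.span F {a', κ a'} ⊔ Submodule.span F {b', κ b'})
      (Submodule.span F {u, κ u})
    have h2 := finrank_sup_le (Submodule.span F {a', κ a'}) (Submodule.span F {b', κ b'})
    have h3 := finrank_pair_le (F := F) a' (κ a')
    have h4 := finrank_pair_le (F := F) b' (κ b')
    have h5 := finrank_pair_le (F := F) u (κ u)
    omega
  have hp := hQ.finrank_add_finrank_perp W₂
  obtain ⟨v, hv, hv0, hQv⟩ := exists_sing_avoid (Q := phi B κ) (perp (phi B κ) W₂) ⊥ (by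
    rw [finrank_bot]; omega)
  have hv0' : v ≠ 0 := by simpa using hv0
  have hv' := mem_perp'.1 hv
  have hmem : a' ∈ W₂ ∧ κ a' ∈ W₂ ∧ b' ∈ W₂ ∧ κ b' ∈ W₂ ∧ u ∈ W₂ ∧ κ u ∈ W₂ := by
    rw [hW₂]
    refine ⟨?_, ?_, ?_, ?_, ?_, ?_⟩
    · exact Submodule.mem_sup_left (Submodule.mem_sup_left (Submodule.subset_span (by simp)))
    · exact Submodule.mem_sup_left (Submodule.mem_sup_left (Submodule.subset_span (by simp)))
    · exact Submodule.mem_sup_left (Submodule.mem_sup_right (Submodule.subset_span (by simp)))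
    · exact Submodule.mem_sup_left (Submodule.mem_sup_right (Submodule.subset_span (by simp)))
    · exact Submodule.mem_sup_right (Submodule.subset_span (by simp))
    · exact Submodule.mem_sup_right (Submodule.subset_span (by simp))
  obtain ⟨m1, m2, m3, m4, m5, m6⟩ := hmem
  have hva : B v a' = 0 := (k.perp_iff' v a').1 (hv' _ m2)
  have hvb : B v b' = 0 := (k.perp_iff' v b').1 (hv' _ m4)
  have hvu : B v u = 0 := (k.perp_iff' v u).1 (hv' _ m6)
  have hvκa : B v (κ a') = 0 := (k.perp_iff v a').1 (hv' _ m1)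
  have hvκb : B v (κ b') = 0 := (k.perp_iff v b').1 (hv' _ m3)
  have hvκu : B v (κ u) = 0 := (k.perp_iff v u).1 (hv' _ m5)
  have hc := k.centre_of hM hS hu hQv (by rw [k.neg', hvu, neg_zero]) (by rw [k.comm']; exact hvκu) hx
    (v := v) (u := u) (y := (ν * B (κ u) a') • a' - B (κ u) b' • b')
    (by rw [hxw, hva, hvb]; simp)
    (by rw [hxw, k.adj, k.adj, hvκa, hvκb]; simp)
    (by rw [hxw, hua1, hub1]; simp)
    (by rw [hxw]; abel) (by
      rw [map_sub, map_smul, map_smul, smul_eq_mul, smul_eq_mul]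
      intro h0
      apply k.ns (B (κ u) b' / B (κ u) a')
      field_simp
      linear_combination -h0)
  have hκv0 : κ v ≠ 0 := by
    intro h0
    have h1 := congrArg κ h0
    rw [k.sq, map_zero, smul_eq_zero, or_iff_right k.nu_ne] at h1
    exact hv0' h1
  have hall := k.all_iso hM hS hn hκv0 (by
    rw [k.sq, map_smul, k.adj, show B v (κ v) = 0 from hQv]; simp) hc
  apply isom_le_of_tv_mem k.alt (fun x _ hx0 => by
    by_contra hcon
    push Not at hcon
    exact hx0 (k.nd x fun y => hcon y trivial))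
  have hcen : ∀ z, z ∈ centres k.alt M := by
    intro z
    by_cases hz0 : z = 0
    · rw [hz0]; exact centres_zero k.alt M
    have hκz0 : κ z ≠ 0 := by
      intro h0
      have h1 := congrArg κ h0
      rw [k.sq, map_zero, smul_eq_zero, or_iff_right k.nu_ne] at h1
      exact hz0 h1
    obtain ⟨w, hw, -, hwz, hwκz, -⟩ := exists_sing_gen hQ ⊥ ⊥ (y₁ := z) (y₂ := κ z) (by simpa using hz0)
      (by simpa using hκz0) 2 (by
        have h3 := finrank_sup_le ⊥ (Submodule.span F {z, κ z})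
        have h5 := finrank_pair_le (F := F) z (κ z)
        rw [finrank_bot] at h3
        omega) (by omega) (by rw [finrank_bot]; omega)
    have h1 : B z (κ w) ≠ 0 := by
      intro h0
      apply hwz
      rw [k.perp_iff, k.comm']; exact h0
    have h2 : B z w ≠ 0 := by
      intro h0
      apply hwκz
      rw [k.perp_iff', k.neg', h0, neg_zero]
    have hwc := hall w hw
    obtain ⟨c, hc⟩ : ∃ c, c = -B z (κ z) / (2 * B z w * B z (κ w)) := ⟨_, rfl⟩
    have h3 : tv B k.alt w c z = z + (c * B z w) • w := tv_apply k.alt w c z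
    have h4 : B (z + (c * B z w) • w) (κ (z + (c * B z w) • w)) = 0 := by
      have h5 : B w (κ z) = B z (κ w) := k.comm' z w
      have h6 : B w (κ w) = 0 := hw
      simp only [map_add, map_smul, LinearMap.add_apply, LinearMap.smul_apply, smul_eq_mul, h5, h6]
      have h7 : 2 * B z w * B z (κ w) ≠ 0 := mul_ne_zero (mul_ne_zero k.two h2) h1
      have h8 : c * (2 * B z w * B z (κ w)) = -B z (κ z) := by rw [hc, div_mul_cancel₀ _ h7]
      linear_combination h8
    have h5 := hall _ h4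
    rw [← h3] at h5
    have h6 := centres_map k.alt hM h5 (inv_mem (hwc c))
    have h7 : (tv B k.alt w c)⁻¹ (tv B k.alt w c z) = z := by
      show ((tv B k.alt w c)⁻¹ * tv B k.alt w c) z = z
      rw [inv_mul_cancel]; rfl
    rwa [h7] at h6
  exact fun v a => hcen v a

end SKS

theorem SKS.exists_not {κ : V →ₗ[F] V} {ν : F} (k : SKS B κ ν) (hn : 3 ≤ finrank F V) :
    ∃ g ∈ isom (fun x y => B x y), ¬ Nrm κ g := by
  have hnt : Nontrivial V := Module.finrank_pos_iff.1 (by omega : 0 < finrank F V)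
  obtain ⟨v, hv0⟩ := exists_ne (0 : V)
  refine ⟨tv B k.alt v 1, tv_mem_isom k.alt v 1, ?_⟩
  rintro ⟨α, β, h⟩
  have hp := k.nd_phi.finrank_add_finrank_perp (Submodule.span F {v, κ v})
  have hd := finrank_pair_le (F := F) v (κ v)
  obtain ⟨x, hx, hx0⟩ := Submodule.exists_mem_ne_zero_of_ne_bot
    (show perp (phi B κ) (Submodule.span F {v, κ v}) ≠ ⊥ by
      intro h0; rw [h0, finrank_bot] at hp; omega)
  have hx' := mem_perp'.1 hx
  have h1 : B x (κ v) = 0 := (k.perp_iff x v).1 (hx' v (Submodule.subset_span (by simp)))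
  have h2 : B x v = 0 := (k.perp_iff' x v).1 (hx' _ (Submodule.subset_span (by simp)))
  have h3 := h x
  rw [tv_apply, tv_apply, k.adj, h1, h2] at h3
  simp only [neg_zero, mul_zero, zero_smul, add_zero] at h3
  obtain ⟨h8, h9⟩ := k.ks.inj (a := β - 1) (b := α) (x := x) (by
    rw [sub_smul, one_smul, sub_add_eq_add_sub, add_comm (β • κ x), ← h3, sub_self]) hx0
  have hβ : β = 1 := by linear_combination h8
  rw [h9, hβ] at h
  obtain ⟨z, hz⟩ : ∃ z, B v z ≠ 0 := by
    by_contra hcon
    push Not at hcon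
    exact hv0 (k.nd v hcon)
  have h4 := h z
  rw [tv_apply, tv_apply, zero_smul, zero_add, one_smul, map_add, map_smul, one_mul, one_mul] at h4
  have h5 := add_left_cancel h4
  have h6 : B z v ≠ 0 := by rw [k.neg']; exact neg_ne_zero.2 hz
  exact h6 (k.ks.inj (a := B z v) (b := -B (κ z) v) (x := v) (by rw [← h5]; module) hv0).1

end Cfsg.Agent.Lib.SpExtH94
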