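import Mathlib
import Cfsg.Agent.Lib.SpExtH94

set_option autoImplicit false
set_option linter.unusedSectionVars false
set_option linter.unusedSimpArgs false
set_option linter.unusedVariables false

/-!
Overgroups in the symplectic group of the normaliser of a quadratic extension field (unitary structure),
odd characteristic, dimension at least ten (after `SpExtH94`) (helper21).
-/

namespace Cfsg.Agent.Lib.SpExtA

open QuadraticMap Module Cfsg.Agent.Lib.Quad Cfsg.Agent.Lib.OrthMax Cfsg.Agent.Lib.OrthPoint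
  Cfsg.Agent.Lib.OrthExtH94 Cfsg.Agent.Lib.SpTrans Cfsg.Agent.Lib.SpExtH94

variable {F V : Type*} [Field F] [AddCommGroup V] [Module F V] [FiniteDimensional F V]
  {B : V →ₗ[F] V →ₗ[F] F} {M : Subgroup (V ≃ₗ[F] V)}

variable {κ : V →ₗ[F] V} {ν : F} (k : SKS B κ ν)

open SKS

include k

/-- two isotropic vectors that are not orthogonal span a nondegenerate space -/
theorem nd_pair {e w u : V} (he : B e (κ e) = 0) (hw : B w (κ w) = 0) (hne : ¬ (B w e = 0 ∧ B w (κ e) = 0))
    (hu : u ∈ Submodule.span F {e, κ e} ⊔ Submodule.span F {w, κ w}) (h1 : B u e = 0) (h2 : B u (κ e) = 0)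
    (h3 : B u w = 0) (h4 : B u (κ w) = 0) : u = 0 := by
  obtain ⟨x, hx, y, hy, rfl⟩ := Submodule.mem_sup.1 hu
  obtain ⟨a, b, rfl⟩ := Submodule.mem_span_pair.1 hx
  obtain ⟨c, d, rfl⟩ := Submodule.mem_span_pair.1 hy
  obtain ⟨r, hr⟩ : ∃ r, r = B w e := ⟨_, rfl⟩
  obtain ⟨p, hp⟩ : ∃ p, p = B w (κ e) := ⟨_, rfl⟩
  rw [← hr, ← hp] at hne
  have e1 : B e w = -r := by rw [hr, k.neg']
  have e2 : B e (κ w) = p := by rw [hp, k.comm']
  have e3 : B (κ e) e = 0 := by rw [k.adj, he, neg_zero]
  have e4 : B (κ w) w = 0 := by rw [k.adj, hw, neg_zero]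
  have e5 : B (κ w) e = -p := by rw [k.adj, hp]
  have e6 : B (κ w) (κ e) = -(ν * r) := by rw [k.kk, hr]
  have e7 : B (κ e) w = -p := by rw [k.adj, e2]
  have e8 : B (κ e) (κ w) = ν * r := by rw [k.kk, e1]; ring
  simp only [map_add, map_smul, LinearMap.add_apply, LinearMap.smul_apply, smul_eq_mul, e1, e2, e3, e4, e5, e6, e7, e8,
    he, hw, k.self, ← hr, ← hp] at h1 h2 h3 h4
  have hdet : p * p - ν * (r * r) ≠ 0 := by
    intro h0
    by_cases hr0 : r = 0
    · rw [hr0] at h0
      have : p * p = 0 := by linear_combination h0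
      exact hne ⟨hr0, mul_self_eq_zero.mp this⟩
    · apply k.ns (p / r)
      field_simp
      linear_combination h0
  have hc : c = 0 := by
    have : (p * p - ν * (r * r)) * c = 0 := by linear_combination p * h2 - ν * r * h1
    exact (mul_eq_zero.mp this).resolve_left hdet
  have hd : d = 0 := by
    have : (p * p - ν * (r * r)) * d = 0 := by linear_combination r * h2 - p * h1
    exact (mul_eq_zero.mp this).resolve_left hdet
  have ha : a = 0 := by
    have : (p * p - ν * (r * r)) * a = 0 := by linear_combination p * h4 + ν * r * h3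
    exact (mul_eq_zero.mp this).resolve_left hdet
  have hb : b = 0 := by
    have : (p * p - ν * (r * r)) * b = 0 := by linear_combination -r * h4 - p * h3
    exact (mul_eq_zero.mp this).resolve_left hdet
  rw [ha, hb, hc, hd]; simp

theorem exists_moved10 [Finite F] (hn : 10 ≤ finrank F V) {g : V ≃ₗ[F] V}
    (hgN : ¬ Nrm κ g) : ∃ v, phi B κ v = 0 ∧ v ≠ 0 ∧ g (κ v) ∉ Submodule.span F {g v, κ (g v)} := by
  have hQ := k.nd_phi
  have k' := k.ks
  by_contra hcon
  push Not at hcon
  apply hgN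
  have key1 : ∀ v w, phi B κ v = 0 → v ≠ 0 → phi B κ w = 0 → w ∉ Submodule.span F {v, κ v} → polar (phi B κ) v w = 0 →
      polar (phi B κ) (κ v) w = 0 → ∀ α β : F, g (κ v) = α • g v + β • κ (g v) →
      g (κ w) = α • g w + β • κ (g w) := by
    intro v w hv hv0 hw hwv h1 h2 α β hαβ
    have hw0 : w ≠ 0 := by rintro rfl; exact hwv (Submodule.zero_mem _)
    have hvw : v + w ≠ 0 := by
      intro h0
      apply hwv
      rw [show w = -v by rw [← sub_eq_zero]; rw [← h0]; abel]
      exact Submodule.neg_mem _ (Submodule.subset_span (by simp))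
    obtain ⟨α₁, β₁, h3⟩ := Submodule.mem_span_pair.1 (hcon w hw hw0)
    obtain ⟨α₂, β₂, h4⟩ := Submodule.mem_span_pair.1 (hcon (v + w) (by rw [Q_add, hv, hw, h1]; ring) hvw)
    have hgv0 : g v ≠ 0 := by simpa using hv0
    have hβ : β ≠ 0 := by
      rintro rfl
      rw [zero_smul, add_zero, ← LinearEquiv.map_smul] at hαβ
      have h5 := g.injective hαβ
      have h6 := (k'.inj (a := 1) (b := -α) (x := v) (by rw [h5]; module) hv0).1
      exact one_ne_zero h6
    have h5 : (β₂ - β₁) • κ (g w) + (α₂ - α₁) • g w =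
        -((β₂ - β) • κ (g v) + (α₂ - α) • g v) := by
      simp only [map_add] at h4
      rw [hαβ, ← h3] at h4
      have : α₂ • (g v + g w) + β₂ • (κ (g v) + κ (g w)) -
        (α • g v + β • κ (g v) + (α₁ • g w + β₁ • κ (g w))) = 0 := by rw [h4, sub_self]
      rw [← sub_eq_zero, ← this]; module
    have h6 : β₂ - β₁ = 0 ∧ α₂ - α₁ = 0 := by
      by_contra hne
      have h7 : g w ∈ Submodule.span F {g v, κ (g v)} := by
        apply k'.mem_of_comb (k'.inv_span (g v)) (a := β₂ - β₁) (b := α₂ - α₁) _ hne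
        rw [h5]
        exact Submodule.neg_mem _ (Submodule.add_mem _
          (Submodule.smul_mem _ _ (Submodule.subset_span (by simp)))
          (Submodule.smul_mem _ _ (Submodule.subset_span (by simp))))
      obtain ⟨c, d, h8⟩ := Submodule.mem_span_pair.1 h7
      apply hwv
      rw [Submodule.mem_span_pair]
      refine ⟨c - d * β⁻¹ * α, d * β⁻¹, ?_⟩
      apply g.injective
      rw [map_add, LinearEquiv.map_smul, LinearEquiv.map_smul, hαβ, ← h8, smul_add, smul_smul,
        smul_smul, mul_assoc d, mul_assoc (d) , inv_mul_cancel₀ hβ, mul_one]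
      module
    rw [h6.1, h6.2, zero_smul, zero_smul, add_zero, zero_eq_neg] at h5
    obtain ⟨h7, h8⟩ := k'.inj h5 hgv0
    have e1 : α₁ = α := by linear_combination h8 - h6.2
    have e2 : β₁ = β := by linear_combination h7 - h6.1
    rw [← h3, e1, e2]
  obtain ⟨v₀, hv₀, hQv₀⟩ := hQ.exists_singular (by omega)
  obtain ⟨α, β, h0⟩ := Submodule.mem_span_pair.1 (hcon v₀ hQv₀ hv₀)
  have key2 : ∀ w, phi B κ w = 0 → g (κ w) = α • g w + β • κ (g w) := by
    intro w hw
    by_cases hw0 : w = 0
    · rw [hw0]; simp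
    -- a common neighbour
    obtain ⟨u, huW, hQu, h1, h2, h3, h4⟩ | ⟨hwv, h1, h2⟩ : (∃ u, u ∉ Submodule.span F {v₀, κ v₀} ⊔ Submodule.span F {w, κ w} ∧
        phi B κ u = 0 ∧ polar (phi B κ) v₀ u = 0 ∧ polar (phi B κ) (κ v₀) u = 0 ∧ polar (phi B κ) w u = 0 ∧
        polar (phi B κ) (κ w) u = 0) ∨ (w ∉ Submodule.span F {v₀, κ v₀} ∧ polar (phi B κ) v₀ w = 0 ∧
        polar (phi B κ) (κ v₀) w = 0) := by
      by_cases hwv : w ∈ Submodule.span F {v₀, κ v₀}
      · left
        have hWW : Submodule.span F {v₀, κ v₀} ⊔ Submodule.span F {w, κ w} = Submodule.span F {v₀, κ v₀} := by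
          apply sup_eq_left.2
          rw [Submodule.span_le]
          rintro x (rfl | rfl)
          · exact hwv
          · exact k'.inv_span v₀ w hwv
        have h5 := finrank_pair_le (F := F) v₀ (κ v₀)
        have hp := hQ.finrank_add_finrank_perp (Submodule.span F {v₀, κ v₀})
        obtain ⟨u, hu, huW, hQu⟩ := exists_sing_avoid (Q := phi B κ) (perp (phi B κ) (Submodule.span F {v₀, κ v₀}))
          (Submodule.span F {v₀, κ v₀}) (by omega)
        have hu' := mem_perp.1 hu
        refine ⟨u, by rwa [hWW], hQu, hu' _ (Submodule.subset_span (by simp)), hu' _ (Submodule.subset_span (by simp)),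
          hu' _ hwv, hu' _ (k'.inv_span v₀ w hwv)⟩
      · by_cases ho : B w v₀ = 0 ∧ B w (κ v₀) = 0
        · right
          refine ⟨hwv, ?_, ?_⟩
          · rw [k.perp_iff, k.comm']; exact ho.2
          · rw [polar_comm, k.perp_iff']; exact ho.1
        · left
          obtain ⟨W, hW⟩ : ∃ W, W = Submodule.span F {v₀, κ v₀} ⊔ Submodule.span F {w, κ w} := ⟨_, rfl⟩
          have hWd : finrank F W ≤ 4 := by
            rw [hW]
            have h1 := finrank_sup_le (Submodule.span F {v₀, κ v₀}) (Submodule.span F {w, κ w})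
            have h2 := finrank_pair_le (F := F) v₀ (κ v₀)
            have h3 := finrank_pair_le (F := F) w (κ w)
            omega
          have hp := hQ.finrank_add_finrank_perp W
          obtain ⟨u, hu, hu0, hQu⟩ := exists_sing_avoid (Q := phi B κ) (perp (phi B κ) W) ⊥ (by rw [finrank_bot]; omega)
          have hu' := mem_perp.1 hu
          rw [hW] at hu'
          have h1 := hu' v₀ (Submodule.mem_sup_left (Submodule.subset_span (by simp)))
          have h2 := hu' (κ v₀) (Submodule.mem_sup_left (Submodule.subset_span (by simp)))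
          have h3 := hu' w (Submodule.mem_sup_right (Submodule.subset_span (by simp)))
          have h4 := hu' (κ w) (Submodule.mem_sup_right (Submodule.subset_span (by simp)))
          refine ⟨u, ?_, hQu, h1, h2, h3, h4⟩
          intro hmem
          apply hu0
          rw [Submodule.mem_bot]
          refine nd_pair k hQv₀ hw ho hmem ?_ ?_ ?_ ?_
          · rw [polar_comm, k.perp_iff'] at h2; exact h2
          · rw [polar_comm, k.perp_iff] at h1; exact h1
          · rw [polar_comm, k.perp_iff'] at h4; exact h4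
          · rw [polar_comm, k.perp_iff] at h3; exact h3
    · have hu0 : u ≠ 0 := by rintro rfl; exact huW (Submodule.zero_mem _)
      have h5 := key1 v₀ u hQv₀ hv₀ hQu (fun h => huW (Submodule.mem_sup_left h)) h1 h2 α β h0.symm
      obtain ⟨h6, h7⟩ := k'.perp_symm h3 h4
      refine key1 u w hQu hu0 hw ?_ h6 h7 α β h5
      intro hmem
      obtain ⟨a, b, hab⟩ := Submodule.mem_span_pair.1 hmem
      apply huW
      apply Submodule.mem_sup_right
      apply k'.mem_of_comb (k'.inv_span w) (a := b) (b := a)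
      · rw [add_comm, hab]; exact Submodule.subset_span (by simp)
      · rintro ⟨rfl, rfl⟩
        rw [zero_smul, zero_smul, add_zero] at hab
        exact hw0 hab.symm
    · exact key1 v₀ w hQv₀ hv₀ hw hwv h1 h2 α β h0.symm
  obtain ⟨z, hz⟩ := hQ.exists_polar_one' hv₀
  refine ⟨α, β, fun x => ?_⟩
  refine all_of_sing (Q := phi B κ) (R := ⊤) (P := fun x => g (κ x) = α • g x + β • κ (g x)) ?_ (u := v₀)
    (z := z) trivial hQv₀ trivial (by rw [hz]; exact one_ne_zero) ?_ (fun x _ hx _ => key2 x hx) ?_ x trivial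
  · intro x _ y _ hx hy
    simp only [map_add] at hx hy ⊢
    rw [hx, hy]; module
  · intro c
    exact key2 _ (by rw [Q_smul, hQv₀, mul_zero])
  · intro x _ hx
    simp only [map_neg] at hx ⊢
    rw [hx]; module


/-- a singular vector in general position with respect to two isotropic vectors -/
theorem exists_s [Finite F] {e w : V} {W : Submodule F V} (he0 : e ≠ 0) (he : B e (κ e) = 0) (hw : B w (κ w) = 0)
    (h1 : κ e ∉ W) (h2 : κ w ∉ W) (hW : W = Submodule.span F {e, w}) (hn : 10 ≤ finrank F V) :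
    ∃ s, B s (κ s) = 0 ∧ (∀ x ∈ W, polar (phi B κ) x s = 0) ∧ polar (phi B κ) s (κ e) ≠ 0 ∧
      polar (phi B κ) s (κ w) ≠ 0 := by
  have hQ := k.nd_phi
  obtain ⟨W', hW'⟩ : ∃ W', W' = Submodule.span F {e, κ e} ⊔ Submodule.span F {w, κ w} := ⟨_, rfl⟩
  have hWd : finrank F W' ≤ 4 := by
    rw [hW']
    have h1 := finrank_sup_le (Submodule.span F {e, κ e}) (Submodule.span F {w, κ w})
    have h2 := finrank_pair_le (F := F) e (κ e)
    have h3 := finrank_pair_le (F := F) w (κ w)
    omega
  have m1 : e ∈ W' := by rw [hW']; exact Submodule.mem_sup_left (Submodule.subset_span (by simp))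
  have m2 : κ e ∈ W' := by rw [hW']; exact Submodule.mem_sup_left (Submodule.subset_span (by simp))
  have m3 : w ∈ W' := by rw [hW']; exact Submodule.mem_sup_right (Submodule.subset_span (by simp))
  have m4 : κ w ∈ W' := by rw [hW']; exact Submodule.mem_sup_right (Submodule.subset_span (by simp))
  have mW : ∀ x ∈ W, x ∈ W' := by
    rw [hW]
    intro x hx
    obtain ⟨a, b, rfl⟩ := Submodule.mem_span_pair.1 hx
    exact W'.add_mem (W'.smul_mem _ m1) (W'.smul_mem _ m3)
  obtain ⟨z₁, hz₁, hz₁1, hz₁2⟩ := exists_common_perp hQ W h1 h2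
  -- the correcting vector
  obtain ⟨u₀, hQu₀, hu₀, z, hz, hz1, hz2, hzu⟩ : ∃ u₀, phi B κ u₀ = 0 ∧ (∀ x ∈ W', polar (phi B κ) u₀ x = 0) ∧
      ∃ z, z ∈ perp (phi B κ) W ∧ polar (phi B κ) z (κ e) ≠ 0 ∧ polar (phi B κ) z (κ w) ≠ 0 ∧
      polar (phi B κ) z u₀ ≠ 0 := by
    by_cases ho : B w e = 0 ∧ B w (κ e) = 0
    · refine ⟨κ e, ?_, ?_, z₁, hz₁, hz₁1, hz₁2, hz₁1⟩
      · rw [phi_apply, k.sq, map_smul, k.adj, he]; simp
      · intro x hx
        rw [hW'] at hx
        obtain ⟨x₁, hx₁, x₂, hx₂, rfl⟩ := Submodule.mem_sup.1 hx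
        obtain ⟨a, b, rfl⟩ := Submodule.mem_span_pair.1 hx₁
        obtain ⟨c, d, rfl⟩ := Submodule.mem_span_pair.1 hx₂
        rw [k.polar_phi]
        have e2 : B e (κ w) = 0 := by rw [k.comm']; exact ho.2
        have e3 : B e w = 0 := by rw [k.neg', ho.1, neg_zero]
        simp only [map_add, map_smul, k.kk, k.adj, k.sq, k.self, he, e2, e3, smul_eq_mul]
        ring
    · have hp := hQ.finrank_add_finrank_perp W'
      obtain ⟨u₀, hu, hu0, hQu⟩ := exists_sing_avoid (Q := phi B κ) (perp (phi B κ) W') ⊥ (by rw [finrank_bot]; omega)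
      have hu' := mem_perp'.1 hu
      have hu₀W : u₀ ∉ W' := by
        intro hmem
        apply hu0
        rw [Submodule.mem_bot]
        rw [hW'] at hmem
        refine nd_pair k he hw ho hmem ?_ ?_ ?_ ?_
        · have := hu' _ m2; rw [k.perp_iff'] at this; exact this
        · have := hu' _ m1; rw [k.perp_iff] at this; exact this
        · have := hu' _ m4; rw [k.perp_iff'] at this; exact this
        · have := hu' _ m3; rw [k.perp_iff] at this; exact this
      refine ⟨u₀, hQu, hu', ?_⟩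
      obtain ⟨z₂, hz₂, hz₂0⟩ := hQ.exists_polar_one W' hu₀W
      have hz₂' := mem_perp'.1 hz₂
      by_cases h0 : polar (phi B κ) z₁ u₀ = 0
      · refine ⟨z₁ + z₂, Submodule.add_mem _ hz₁ ?_, ?_, ?_, ?_⟩
        · exact mem_perp.2 fun w hw => mem_perp.1 hz₂ w (mW w hw)
        · rw [polar_add_left, hz₂' _ m2, add_zero]; exact hz₁1
        · rw [polar_add_left, hz₂' _ m4, add_zero]; exact hz₁2
        · rw [polar_add_left, h0, zero_add, polar_comm, hz₂0]; exact one_ne_zero
      · exact ⟨z₁, hz₁, hz₁1, hz₁2, h0⟩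
  obtain ⟨a, ha⟩ := exists_sing_add hQu₀ hzu
  refine ⟨z + a • u₀, ha, ?_, ?_, ?_⟩
  · intro x hx
    rw [polar_add_right, polar_smul_right, mem_perp.1 hz x hx, polar_comm, hu₀ x (mW x hx), smul_zero, add_zero]
  · rw [polar_add_left, polar_smul_left, hu₀ _ m2, smul_zero, add_zero]; exact hz1
  · rw [polar_add_left, polar_smul_left, hu₀ _ m4, smul_zero, add_zero]; exact hz2


variable (hM : M ≤ isom (fun x y => B x y))
  (hS : ∀ v, B v (κ v) = 0 → ∀ c : F, tv B k.alt v (c * ν) * tv B k.alt (κ v) (-c) ∈ M)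
include hM hS

theorem all_iso10 [Finite F] (hn : 10 ≤ finrank F V) {e : V} (he0 : e ≠ 0) (he : B e (κ e) = 0)
    (hec : e ∈ centres k.alt M) : ∀ w, B w (κ w) = 0 → w ∈ centres k.alt M := by
  have hQ := k.nd_phi
  have key : ∀ e w, e ≠ 0 → B e (κ e) = 0 → e ∈ centres k.alt M → B w (κ w) = 0 →
      w ∉ Submodule.span F {e, κ e} → w ∈ centres k.alt M := by
    intro e w he0 he hec hw hwe
    have hw0 : w ≠ 0 := by rintro rfl; exact hwe (Submodule.zero_mem _)
    obtain ⟨W, hW⟩ : ∃ W, W = Submodule.span F {e, w} := ⟨_, rfl⟩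
    have hew : e ∉ Submodule.span F {w, κ w} := by
      intro hmem
      obtain ⟨a, b, hab⟩ := Submodule.mem_span_pair.1 hmem
      apply hwe
      apply k.ks.mem_of_comb (k.ks.inv_span e) (a := b) (b := a)
      · rw [add_comm, hab]; exact Submodule.subset_span (by simp)
      · rintro ⟨rfl, rfl⟩
        rw [zero_smul, zero_smul, add_zero] at hab
        exact he0 hab.symm
    have h1 : κ e ∉ W := by
      intro hmem
      rw [hW] at hmem
      obtain ⟨a, b, hab⟩ := Submodule.mem_span_pair.1 hmem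
      by_cases hb : b = 0
      · rw [hb, zero_smul, add_zero] at hab
        exact one_ne_zero (k.ks.inj (a := 1) (b := -a) (x := e) (by rw [← hab]; module) he0).1
      · apply hwe
        have h2 : b • w ∈ Submodule.span F {e, κ e} := by
          rw [Submodule.mem_span_pair]
          exact ⟨-a, 1, by rw [← hab]; module⟩
        exact (Submodule.smul_mem_iff _ hb).1 h2
    have h2 : κ w ∉ W := by
      intro hmem
      rw [hW] at hmem
      obtain ⟨a, b, hab⟩ := Submodule.mem_span_pair.1 hmem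
      by_cases ha : a = 0
      · rw [ha, zero_smul, zero_add] at hab
        exact one_ne_zero (k.ks.inj (a := 1) (b := -b) (x := w) (by rw [← hab]; module) hw0).1
      · apply hew
        have h2 : a • e ∈ Submodule.span F {w, κ w} := by
          rw [Submodule.mem_span_pair]
          exact ⟨-b, 1, by rw [← hab]; module⟩
        exact (Submodule.smul_mem_iff _ ha).1 h2
    obtain ⟨s, hs, hsW, hse, hsw⟩ := exists_s k he0 he hw h1 h2 hW hn
    have hes : B e (κ s) = 0 := (k.perp_iff e s).1 (hsW e (by rw [hW]; exact Submodule.subset_span (by simp)))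
    have hws : B w (κ s) = 0 := (k.perp_iff w s).1 (hsW w (by rw [hW]; exact Submodule.subset_span (by simp)))
    have hse' : B e s ≠ 0 := by
      intro h0
      apply hse
      rw [k.perp_iff', k.neg', h0, neg_zero]
    have hsw' : B s w ≠ 0 := fun h0 => hsw ((k.perp_iff' s w).2 h0)
    obtain ⟨g₁, hg₁, h3⟩ := k.exists_move1 hM hS he hs hes hse'
    obtain ⟨g₂, hg₂, h4⟩ := k.exists_move1 hM hS hs hw (by rw [k.comm']; exact hws) hsw'
    have h5 := centres_map k.alt hM (centres_map k.alt hM hec hg₁) hg₂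
    rwa [h3, h4] at h5
  intro w hw
  by_cases hwe : w ∈ Submodule.span F {e, κ e}
  · by_cases hw0 : w = 0
    · rw [hw0]; exact centres_zero k.alt M
    obtain ⟨z, -, hz, hQz⟩ := exists_sing_avoid (Q := phi B κ) ⊤ (Submodule.span F {e, κ e}) (by
      have := finrank_pair_le (F := F) e (κ e)
      rw [finrank_top]; omega)
    have hz0 : z ≠ 0 := by rintro rfl; exact hz (Submodule.zero_mem _)
    refine key z w hz0 hQz (key e z he0 he hec hQz hz) hw ?_
    intro hmem
    obtain ⟨a, b, hab⟩ := Submodule.mem_span_pair.1 hmem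
    apply hz
    apply k.ks.mem_of_comb (k.ks.inv_span e) (a := b) (b := a)
    · rw [add_comm, hab]; exact hwe
    · rintro ⟨rfl, rfl⟩
      rw [zero_smul, zero_smul, add_zero] at hab
      exact hw0 hab.symm
  · exact key e w he0 he hec hw hwe

/-- **Main theorem.** -/
theorem main10 [Finite F] (hn : 10 ≤ finrank F V) (hex : ∃ g ∈ M, ¬ Nrm κ g) :
    isom (fun x y => B x y) ≤ M := by
  have hQ := k.nd_phi
  obtain ⟨g, hg, hgN⟩ := hex
  obtain ⟨v₀, hv₀, hv₀0, hgv₀⟩ := exists_moved10 k hn hgN
  obtain ⟨a', ha'⟩ : ∃ a', a' = g v₀ := ⟨_, rfl⟩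
  obtain ⟨b', hb'⟩ : ∃ b', b' = g (κ v₀) := ⟨_, rfl⟩
  have ha'0 : a' ≠ 0 := by rw [ha']; simpa using hv₀0
  obtain ⟨x, hx, hxw⟩ : ∃ x ∈ M, ∀ w, x w = w + (ν * B w a') • a' - B w b' • b' := by
    have h1 := hS v₀ hv₀ 1
    have h2 := mul_mem (mul_mem hg h1) (inv_mem hg)
    have h3 : g * (tv B k.alt v₀ (1 * ν) * tv B k.alt (κ v₀) (-1)) * g⁻¹ =
        (g * tv B k.alt v₀ (1 * ν) * g⁻¹) * (g * tv B k.alt (κ v₀) (-1) * g⁻¹) := by group
    rw [h3, conj_tv k.alt (hM hg), conj_tv k.alt (hM hg), ← ha', ← hb'] at h2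
    refine ⟨_, h2, fun w => ?_⟩
    have h4 : B b' a' = 0 := by
      have := hM hg (κ v₀) v₀
      simp only at this
      rw [ha', hb', this, k.adj]
      exact neg_eq_zero.2 hv₀
    simp only [LinearEquiv.mul_apply, tv_apply, map_add, map_smul, LinearMap.add_apply,
      LinearMap.smul_apply, h4, smul_eq_mul]
    module
  rw [← ha', ← hb'] at hgv₀
  obtain ⟨W, hW⟩ : ∃ W, W = Submodule.span F {κ a', κ b'} := ⟨_, rfl⟩
  have haW : a' ∉ W := by
    intro hmem
    rw [hW] at hmem
    obtain ⟨c, d, hcd⟩ := Submodule.mem_span_pair.1 hmem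
    have h1 := congrArg κ hcd
    rw [map_add, map_smul, map_smul, k.sq, k.sq] at h1
    by_cases hd : d = 0
    · rw [hd, zero_smul, add_zero] at h1
      exact one_ne_zero (k.ks.inj (a := 1) (b := -(c * ν)) (x := a') (by rw [← h1]; module) ha'0).1
    · apply hgv₀
      have h2 : (d * ν) • b' ∈ Submodule.span F {a', κ a'} := by
        rw [Submodule.mem_span_pair]
        exact ⟨-(c * ν), 1, by rw [← h1]; module⟩
      exact (Submodule.smul_mem_iff _ (mul_ne_zero hd k.nu_ne)).1 h2
  obtain ⟨u, hu, huW, hua, -, -⟩ := exists_sing_gen hQ W ⊥ haW haW 3 (by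
    have h3 := finrank_sup_le W (Submodule.span F {a', a'})
    have h4 : finrank F W ≤ 2 := by rw [hW]; exact finrank_pair_le _ _
    have h5 : finrank F (Submodule.span F {a', a'}) ≤ 1 := by
      rw [Set.pair_eq_singleton]
      have := finrank_span_le_card (R := F) ({a'} : Set V)
      simpa using this
    omega) (by omega) (by rw [finrank_bot]; omega)
  have hua1 : B u a' = 0 := by
    have := huW (κ a') (by rw [hW]; exact Submodule.subset_span (by simp))
    rw [polar_comm, k.perp_iff'] at this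
    exact this
  have hub1 : B u b' = 0 := by
    have := huW (κ b') (by rw [hW]; exact Submodule.subset_span (by simp))
    rw [polar_comm, k.perp_iff'] at this
    exact this
  have hua2 : B (κ u) a' ≠ 0 := by
    intro h0
    apply hua
    rw [k.perp_iff]
    rw [k.adj, neg_eq_zero] at h0
    exact h0
  -- v
  obtain ⟨W₂, hW₂⟩ : ∃ W₂, W₂ = (Submodule.span F {a', κ a'} ⊔ Submodule.span F {b', κ b'}) ⊔
    Submodule.span F {u, κ u} := ⟨_, rfl⟩
  have hW₂d : finrank F W₂ ≤ 6 := by
    rw [hW₂]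
    have h1 := finrank_sup_le (Submodule.span F {a', κ a'} ⊔ Submodule.span F {b', κ b'})
      (Submodule.span F {u, κ u})
    have h2 := finrank_sup_le (Submodule.span F {a', κ a'}) (Submodule.span F {b', κ b'})
    have h3 := finrank_pair_le (F := F) a' (κ a')
    have h4 := finrank_pair_le (F := F) b' (κ b')
    have h5 := finrank_pair_le (F := F) u (κ u)
    omega
  have hp := hQ.finrank_add_finrank_perp W₂
  obtain ⟨v, hv, hv0, hQv⟩ := exists_sing_avoid (Q := phi B κ) (perp (phi B κ) W₂) ⊥ (by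
    rw [finrank_bot]; omega)
  have hv0' : v ≠ 0 := by simpa using hv0
  have hv' := mem_perp'.1 hv
  have hmem : a' ∈ W₂ ∧ κ a' ∈ W₂ ∧ b' ∈ W₂ ∧ κ b' ∈ W₂ ∧ u ∈ W₂ ∧ κ u ∈ W₂ := by
    rw [hW₂]
    refine ⟨?_, ?_, ?_, ?_, ?_, ?_⟩
    · exact Submodule.mem_sup_left (Submodule.mem_sup_left (Submodule.subset_span (by simp)))
    · exact Submodule.mem_sup_left (Submodule.mem_sup_left (Submodule.subset_span (by simp)))
    · exact Submodule.mem_sup_left (Submodule.mem_sup_right (Submodule.subset_span (by simp)))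
    · exact Submodule.mem_sup_left (Submodule.mem_sup_right (Submodule.subset_span (by simp)))
    · exact Submodule.mem_sup_right (Submodule.subset_span (by simp))
    · exact Submodule.mem_sup_right (Submodule.subset_span (by simp))
  obtain ⟨m1, m2, m3, m4, m5, m6⟩ := hmem
  have hva : B v a' = 0 := (k.perp_iff' v a').1 (hv' _ m2)
  have hvb : B v b' = 0 := (k.perp_iff' v b').1 (hv' _ m4)
  have hvu : B v u = 0 := (k.perp_iff' v u).1 (hv' _ m6)
  have hvκa : B v (κ a') = 0 := (k.perp_iff v a').1 (hv' _ m1)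
  have hvκb : B v (κ b') = 0 := (k.perp_iff v b').1 (hv' _ m3)
  have hvκu : B v (κ u) = 0 := (k.perp_iff v u).1 (hv' _ m5)
  have hc := k.centre_of hM hS hu hQv (by rw [k.neg', hvu, neg_zero]) (by rw [k.comm']; exact hvκu) hx
    (v := v) (u := u) (y := (ν * B (κ u) a') • a' - B (κ u) b' • b')
    (by rw [hxw, hva, hvb]; simp)
    (by rw [hxw, k.adj, k.adj, hvκa, hvκb]; simp)
    (by rw [hxw, hua1, hub1]; simp)
    (by rw [hxw]; abel) (by
      rw [map_sub, map_smul, map_smul, smul_eq_mul, smul_eq_mul]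
      intro h0
      apply k.ns (B (κ u) b' / B (κ u) a')
      field_simp
      linear_combination -h0)
  have hκv0 : κ v ≠ 0 := by
    intro h0
    have h1 := congrArg κ h0
    rw [k.sq, map_zero, smul_eq_zero, or_iff_right k.nu_ne] at h1
    exact hv0' h1
  have hall := all_iso10 k hM hS hn hκv0 (by
    rw [k.sq, map_smul, k.adj, show B v (κ v) = 0 from hQv]; simp) hc
  apply isom_le_of_tv_mem k.alt (fun x _ hx0 => by
    by_contra hcon
    push Not at hcon
    exact hx0 (k.nd x fun y => hcon y trivial))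
  have hcen : ∀ z, z ∈ centres k.alt M := by
    intro z
    by_cases hz0 : z = 0
    · rw [hz0]; exact centres_zero k.alt M
    have hκz0 : κ z ≠ 0 := by
      intro h0
      have h1 := congrArg κ h0
      rw [k.sq, map_zero, smul_eq_zero, or_iff_right k.nu_ne] at h1
      exact hz0 h1
    obtain ⟨w, hw, -, hwz, hwκz, -⟩ := exists_sing_gen hQ ⊥ ⊥ (y₁ := z) (y₂ := κ z) (by simpa using hz0)
      (by simpa using hκz0) 2 (by
        have h3 := finrank_sup_le ⊥ (Submodule.span F {z, κ z})
        have h5 := finrank_pair_le (F := F) z (κ z)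
        rw [finrank_bot] at h3
        omega) (by omega) (by rw [finrank_bot]; omega)
    have h1 : B z (κ w) ≠ 0 := by
      intro h0
      apply hwz
      rw [k.perp_iff, k.comm']; exact h0
    have h2 : B z w ≠ 0 := by
      intro h0
      apply hwκz
      rw [k.perp_iff', k.neg', h0, neg_zero]
    have hwc := hall w hw
    obtain ⟨c, hc⟩ : ∃ c, c = -B z (κ z) / (2 * B z w * B z (κ w)) := ⟨_, rfl⟩
    have h3 : tv B k.alt w c z = z + (c * B z w) • w := tv_apply k.alt w c z
    have h4 : B (z + (c * B z w) • w) (κ (z + (c * B z w) • w)) = 0 := by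
      have h5 : B w (κ z) = B z (κ w) := k.comm' z w
      have h6 : B w (κ w) = 0 := hw
      simp only [map_add, map_smul, LinearMap.add_apply, LinearMap.smul_apply, smul_eq_mul, h5, h6]
      have h7 : 2 * B z w * B z (κ w) ≠ 0 := mul_ne_zero (mul_ne_zero k.two h2) h1
      have h8 : c * (2 * B z w * B z (κ w)) = -B z (κ z) := by rw [hc, div_mul_cancel₀ _ h7]
      linear_combination h8
    have h5 := hall _ h4
    rw [← h3] at h5
    have h6 := centres_map k.alt hM h5 (inv_mem (hwc c))
    have h7 : (tv B k.alt w c)⁻¹ (tv B k.alt w c z) = z := by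
      show ((tv B k.alt w c)⁻¹ * tv B k.alt w c) z = z
      rw [inv_mul_cancel]; rfl
    rwa [h7] at h6
  exact fun v a => hcen v a


end Cfsg.Agent.Lib.SpExtA
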