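import Mathlib
import Cfsg.Agent.Lib.SpMax

set_option autoImplicit false

/-!
Characteristic two: overgroups of the isometry group of a quadratic form in the symplectic group of its
polar form (Dye).
-/

namespace Cfsg.Agent.Lib.SpQuad

open Cfsg.Agent.Lib.SpTrans Cfsg.Agent.Lib.SpMax

variable {F V : Type*} [Field F] [AddCommGroup V] [Module F V]

/-- `Q` is a quadratic form with polar form `B`, over a perfect field with `2 = 0`. -/
structure QF (B : V →ₗ[F] V →ₗ[F] F) (Q : V → F) : Prop where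
  two : (2 : F) = 0
  sq : ∀ a : F, ∃ b : F, b ^ 2 = a
  smul : ∀ (c : F) (x : V), Q (c • x) = c ^ 2 * Q x
  add : ∀ x y : V, Q (x + y) = Q x + Q y + B x y

section
variable {B : V →ₗ[F] V →ₗ[F] F} (hB : B.IsAlt) {Q : V → F} (hQ : QF B Q)

include hQ in
theorem self_add (a : F) : a + a = 0 := by
  have : a + a = 2 * a := by ring
  rw [this, hQ.two, zero_mul]

include hQ in
theorem self_addV (x : V) : x + x = 0 := by
  rw [← two_smul F, hQ.two, zero_smul]

include hQ in
theorem neg_self (a : F) : -a = a := by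
  rw [neg_eq_iff_add_eq_zero]; exact self_add hQ a

include hB hQ in
theorem symm_B (x y : V) : B x y = B y x := by
  rw [alt_neg hB, neg_self hQ]

include hB hQ in
/-- the reflection (orthogonal transvection) preserves `Q` -/
theorem Q_refl {w : V} (hw : Q w ≠ 0) (x : V) : Q (tv B hB w (Q w)⁻¹ x) = Q x := by
  rw [tv_apply, hQ.add, hQ.smul, map_smul, smul_eq_mul]
  have h1 : ((Q w)⁻¹ * B x w) ^ 2 * Q w = (Q w)⁻¹ * B x w * B x w := by
    field_simp
  rw [h1, add_assoc, self_add hQ, add_zero]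

/-- the orthogonal group -/
def og (B : V →ₗ[F] V →ₗ[F] F) (Q : V → F) : Subgroup (V ≃ₗ[F] V) where
  carrier := {g | g ∈ isom (fun x y => B x y) ∧ ∀ x, Q (g x) = Q x}
  mul_mem' {a b} ha hb := ⟨mul_mem ha.1 hb.1, fun x => by rw [LinearEquiv.mul_apply, ha.2, hb.2]⟩
  one_mem' := ⟨one_mem _, fun x => rfl⟩
  inv_mem' {a} ha := ⟨inv_mem ha.1, fun x => by
    rw [← ha.2 (a⁻¹ x), ← LinearEquiv.mul_apply, mul_inv_cancel]; rfl⟩

theorem mem_og {g : V ≃ₗ[F] V} : g ∈ og B Q ↔ g ∈ isom (fun x y => B x y) ∧ ∀ x, Q (g x) = Q x := Iff.rfl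

include hQ in
theorem refl_mem_og {w : V} (hw : Q w ≠ 0) : tv B hB w (Q w)⁻¹ ∈ og B Q :=
  ⟨tv_mem_isom hB _ _, Q_refl hB hQ hw⟩

include hB hQ in
/-- a reflection maps one singular vector to another non-orthogonal one -/
theorem move_sing_of_ne {u v : V} (hu : Q u = 0) (hv : Q v = 0) (h : B u v ≠ 0) :
    ∃ g ∈ og B Q, g u = v := by
  have h1 : Q (u + v) = B u v := by rw [hQ.add, hu, hv]; ring
  have h2 : Q (u + v) ≠ 0 := by rw [h1]; exact h
  refine ⟨_, refl_mem_og hB hQ h2, ?_⟩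
  rw [tv_apply, map_add, hB u, zero_add, h1, inv_mul_cancel₀ h, one_smul, ← add_assoc,
    self_addV hQ, zero_add]

include hB hQ in
theorem exists_sing_common (hnd : NdOn B ⊤) {u v : V} (hu0 : u ≠ 0) (hv0 : v ≠ 0) (hu : Q u = 0)
    (huv : B u v = 0) : ∃ w, Q w = 0 ∧ B u w ≠ 0 ∧ B v w ≠ 0 := by
  obtain ⟨z, -, hz1, hz2⟩ := exists_common (W := ⊤) hnd trivial trivial hu0 hv0
  by_cases hz : Q z = 0
  · exact ⟨z, hz, hz1, hz2⟩
  · refine ⟨u + (B u z / Q z) • z, ?_, ?_, ?_⟩
    · rw [hQ.add, hQ.smul, hu, map_smul, smul_eq_mul, zero_add]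
      have : (B u z / Q z) ^ 2 * Q z = B u z / Q z * B u z := by field_simp
      rw [this, self_add hQ]
    · rw [map_add, hB u, zero_add, map_smul, smul_eq_mul]
      exact mul_ne_zero (div_ne_zero hz1 hz) hz1
    · rw [map_add, map_smul, smul_eq_mul, symm_B hB hQ v u, huv, zero_add]
      exact mul_ne_zero (div_ne_zero hz1 hz) hz2

include hB hQ in
/-- transitivity of the orthogonal group on nonzero singular vectors -/
theorem move_sing (hnd : NdOn B ⊤) {u v : V} (hu0 : u ≠ 0) (hv0 : v ≠ 0) (hu : Q u = 0) (hv : Q v = 0) :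
    ∃ g ∈ og B Q, g u = v := by
  by_cases h : B u v = 0
  · obtain ⟨w, hw, h1, h2⟩ := exists_sing_common hB hQ hnd hu0 hv0 hu h
    obtain ⟨g, hg, hgu⟩ := move_sing_of_ne hB hQ hu hw h1
    obtain ⟨g', hg', hgw⟩ := move_sing_of_ne hB hQ hw hv (by rw [symm_B hB hQ]; exact h2)
    exact ⟨g' * g, mul_mem hg' hg, by rw [LinearEquiv.mul_apply, hgu, hgw]⟩
  · exact move_sing_of_ne hB hQ hu hv h

include hQ in
theorem exists_sing [FiniteDimensional F V] (hdim : 3 ≤ Module.finrank F V) : ∃ e : V, e ≠ 0 ∧ Q e = 0 := by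
  obtain ⟨x, hx⟩ : ∃ x : V, x ≠ 0 := by
    have : Nontrivial V := Module.nontrivial_of_finrank_pos (R := F) (by omega)
    exact exists_ne 0
  -- the kernel of B x has dimension ≥ 2
  have h6 := LinearMap.finrank_range_add_finrank_ker (B x)
  have h7 : Module.finrank F (LinearMap.range (B x)) ≤ 1 := by
    have := Submodule.finrank_le (LinearMap.range (B x))
    simpa using this
  have hnot : ¬ LinearMap.ker (B x) ≤ Submodule.span F {x} := by
    intro hle
    have := Submodule.finrank_mono hle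
    have h8 := finrank_span_singleton (K := F) hx
    omega
  obtain ⟨y, hy, hyx⟩ := Set.not_subset.1 hnot
  by_cases hQx : Q x = 0
  · exact ⟨x, hx, hQx⟩
  obtain ⟨a, ha⟩ := hQ.sq (Q y / Q x)
  refine ⟨a • x + y, ?_, ?_⟩
  · intro h
    apply hyx
    rw [SetLike.mem_coe, Submodule.mem_span_singleton]
    exact ⟨-a, by rw [neg_smul, neg_eq_iff_add_eq_zero]; exact h⟩
  · have hy' : B x y = 0 := hy
    rw [hQ.add, hQ.smul, map_smul, LinearMap.smul_apply, hy', smul_zero, add_zero, ha,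
      div_mul_cancel₀ _ hQx, self_add hQ]

include hB hQ in
/-- every nonzero vector has a nonorthogonal singular vector -/
theorem exists_sing_nonorth [FiniteDimensional F V] (hdim : 3 ≤ Module.finrank F V) (hnd : NdOn B ⊤)
    {x : V} (hx : x ≠ 0) : ∃ e : V, Q e = 0 ∧ B e x ≠ 0 := by
  obtain ⟨e, he0, he⟩ := exists_sing hQ hdim
  by_cases h : B e x = 0
  · obtain ⟨w, hw, -, h2⟩ := exists_sing_common hB hQ hnd he0 hx he h
    exact ⟨w, hw, by rw [symm_B hB hQ]; exact h2⟩
  · exact ⟨e, he, h⟩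

include hB hQ in
/-- a nonzero vector is the sum of two singular vectors, nonorthogonal when it is nonsingular -/
theorem exists_split [FiniteDimensional F V] (hdim : 3 ≤ Module.finrank F V) (hnd : NdOn B ⊤)
    {x : V} (hx : Q x ≠ 0) : ∃ u v : V, Q u = 0 ∧ Q v = 0 ∧ B u v = Q x ∧ u + v = x := by
  have hx0 : x ≠ 0 := by
    rintro rfl
    apply hx
    have := hQ.smul 0 (0 : V)
    simpa using this
  obtain ⟨e, he, hex⟩ := exists_sing_nonorth hB hQ hdim hnd hx0
  have h1 : B ((Q x / B e x) • e) x = Q x := by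
    rw [map_smul, LinearMap.smul_apply, smul_eq_mul, div_mul_cancel₀ _ hex]
  refine ⟨(Q x / B e x) • e, x + (Q x / B e x) • e, ?_, ?_, ?_, ?_⟩
  · rw [hQ.smul, he, mul_zero]
  · rw [hQ.add, hQ.smul, he, mul_zero, add_zero, symm_B hB hQ, h1, self_add hQ]
  · rw [map_add, h1, map_smul, map_smul, LinearMap.smul_apply, hB e]; simp
  · rw [add_comm, add_assoc, self_addV hQ, add_zero]

include hB hQ in
/-- Dye: the orthogonal group is maximal in the symplectic group in characteristic two. -/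
theorem quad_max [FiniteDimensional F V] (hdim : 3 ≤ Module.finrank F V) (hnd : NdOn B ⊤)
    {M : Subgroup (V ≃ₗ[F] V)} (hM : M ≤ isom (fun x y => B x y)) (hH : og B Q ≤ M)
    (hex : ∃ g ∈ M, g ∉ og B Q) : isom (fun x y => B x y) ≤ M := by
  obtain ⟨g, hgM, hg⟩ := hex
  -- a singular vector whose image under g is nonsingular
  obtain ⟨x, hx, hgx⟩ : ∃ x, Q x = 0 ∧ Q (g x) ≠ 0 := by
    by_contra hcon
    push Not at hcon
    apply hg
    refine ⟨hM hgM, fun x => ?_⟩
    by_cases hx : Q x = 0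
    · rw [hx, hcon x hx]
    · obtain ⟨u, v, hu, hv, huv, rfl⟩ := exists_split hB hQ hdim hnd hx
      rw [map_add, hQ.add, hcon u hu, hcon v hv, hQ.add, hu, hv]
      have := hM hgM u v
      simp only at this
      rw [this]
  -- transvection with centre x
  have hx0 : x ≠ 0 := by
    rintro rfl
    apply hgx
    rw [map_zero]
    have := hQ.smul 0 (0 : V)
    simpa using this
  set a := (Q (g x))⁻¹ with ha
  have ha0 : a ≠ 0 := inv_ne_zero hgx
  have htx : tv B hB x a ∈ M := by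
    have h1 : tv B hB (g x) a ∈ M := hH (refl_mem_og hB hQ hgx)
    have h2 := conj_tv hB (inv_mem (hM hgM)) (g x) a
    rw [inv_inv, ← LinearEquiv.mul_apply, inv_mul_cancel] at h2
    simp only [LinearEquiv.coe_one, id_eq] at h2
    rw [← h2]
    exact mul_mem (mul_mem (inv_mem hgM) h1) hgM
  have hxC : ∀ v, v ≠ 0 → Q v = 0 → v ∈ centres hB M := by
    have hx' : x ∈ centres hB M := by
      intro b
      by_cases hb : b = 0
      · rw [hb, tv_zero]; exact one_mem _
      obtain ⟨l, hl⟩ := hQ.sq (b / a)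
      have hl0 : l ≠ 0 := by
        rintro rfl
        have : b / a = 0 := by rw [← hl]; ring
        exact (div_ne_zero hb ha0) this
      have h3 : tv B hB x b = tv B hB (l • x) a := by
        rw [tv_smul, hl, div_mul_cancel₀ _ ha0]
      obtain ⟨h, hh, hhx⟩ := move_sing hB hQ hnd hx0 (smul_ne_zero hl0 hx0) hx
        (by rw [hQ.smul, hx, mul_zero])
      rw [h3, ← hhx, ← conj_tv hB hh.1]
      exact mul_mem (mul_mem (hH hh) htx) (inv_mem (hH hh))
    intro v hv0 hv
    obtain ⟨h, hh, hhx⟩ := move_sing hB hQ hnd hx0 hv0 hx hv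
    rw [← hhx]
    exact centres_map hB hM hx' (hH hh)
  refine isom_le_of_tv_mem hB hnd fun v => ?_
  by_cases hv : Q v = 0
  · by_cases hv0 : v = 0
    · rw [hv0]; exact centres_zero hB M
    · exact hxC v hv0 hv
  · obtain ⟨u, w, hu, hw, huw, rfl⟩ := exists_split hB hQ hdim hnd hv
    have h1 : B u w ≠ 0 := by rw [huw]; exact hv
    have hu0 : u ≠ 0 := by rintro rfl; exact h1 (by simp)
    have hw0 : w ≠ 0 := by rintro rfl; exact h1 (by simp)
    have := centres_add hB hM (hxC u hu0 hu) (hxC w hw0 hw) h1 1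
    rwa [one_smul] at this

end

end Cfsg.Agent.Lib.SpQuad
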