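import Mathlib
import Cfsg.Agent.Lib.SpMax
import Cfsg.Agent.Lib.SpDecomp
import Cfsg.Agent.Lib.SpQuad
import Cfsg.Agent.Lib.GeoBridge
import Cfsg.Agent.Lib.TSPairH94
import Cfsg.Agent.Lib.SLMax
import Cfsg.Agent.Lib.FldSpBrH94

/-!
# Geometric maximal subgroups of `Sp_{2m}(F)` in small dimension

The statements S5645, S5646, S5647, S5649, S5652, S5664 with the bound on `m` that their proofs need.
-/

set_option autoImplicit false
open Cfsg

namespace Cfsg.Agent.Lib.SpGeoAll

section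

open Cfsg.Agent.Lib.SpTrans Cfsg.Agent.Lib.SpMax Cfsg.Agent.Lib.GeoBridge

/-- S5645 for all `m` -/
theorem ts_max {F : Type*} [Field F] [Fintype F] (m : ℕ) (W : Submodule F (Fin m ⊕ Fin m → F)) (hW0 : W ≠ ⊥) (hW : Cfsg.Geo.IsTotallySingularFor (Cfsg.sympForm m F) W) : Cfsg.Geo.IsMaximalIn (Cfsg.spGL m F) (Cfsg.Geo.subspaceStabilizer W ⊓ Cfsg.spGL m F) := by
  have hB := sympB_isAlt (F := F) m
  have hnd := sympB_nd (F := F) m
  have hWs : ∀ u ∈ W, ∀ v ∈ W, sympB m F u v = 0 := hW
  apply isMaximalIn_of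
  · refine lt_of_le_of_ne inf_le_right fun heq => ?_
    obtain ⟨w, hw, hw0⟩ := W.ne_bot_iff.1 hW0
    have hWtop : ¬ ∀ x, x ∈ W := fun h => by
      obtain ⟨y, -, hy⟩ := hnd w trivial hw0
      exact hy (hWs w hw y (h y))
    push Not at hWtop
    obtain ⟨v, hv⟩ := hWtop
    have hv0 : v ≠ 0 := by rintro rfl; exact hv W.zero_mem
    obtain ⟨t, ht, htw⟩ := exists_move hB hnd (trivial : w ∈ (⊤ : Submodule F _)) (trivial : v ∈ (⊤ : Submodule F _)) hw0 hv0
    have ht2 : le.symm t ∈ spGL m F := by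
      rw [mem_spGL_iff, MulEquiv.apply_symm_apply]; exact tgrp_le_isom hB _ ht
    rw [← heq] at ht2
    have := ((mem_subspaceStabilizer_iff' W _).1 ht2.1) w hw
    rw [MulEquiv.apply_symm_apply, htw] at this
    exact hv this
  · intro M hHM hMK hex g hg
    have hM : M ≤ isom (fun x y => sympB m F x y) := by
      intro x hx
      have := hMK (le.symm x) (by rwa [MulEquiv.apply_symm_apply])
      rwa [mem_spGL_iff, MulEquiv.apply_symm_apply] at this
    refine ts_stab_max hB hnd (W := W) hWs hM ?_ ?_ ?_ hg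
    · intro x hx hxW
      have := hHM (le.symm x) (Subgroup.mem_inf.2 ⟨?_, ?_⟩)
      · rwa [MulEquiv.apply_symm_apply] at this
      · rw [mem_subspaceStabilizer_iff', MulEquiv.apply_symm_apply]; exact hxW
      · rw [mem_spGL_iff, MulEquiv.apply_symm_apply]; exact hx
    · obtain ⟨x, hx, hxH⟩ := hex
      refine ⟨le x, hx, ?_⟩
      by_contra hcon
      push Not at hcon
      exact hxH ⟨(mem_subspaceStabilizer_iff' W x).2 hcon, hMK x hx⟩
    · intro x hx
      refine mem_of_perp_perp hnd fun y hy => ?_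
      rw [alt_neg hB, hx y hy, neg_zero]

end

section

open Cfsg.Agent.Lib.SpTrans Cfsg.Agent.Lib.SpMax Cfsg.Agent.Lib.GeoBridge

/-- S5646 for all `m` -/
theorem nd_max {F : Type*} [Field F] [Fintype F] (m : ℕ) (W : Submodule F (Fin m ⊕ Fin m → F)) (hW0 : W ≠ ⊥) (hW : Cfsg.Geo.IsNondegenerateOn (Cfsg.sympForm m F) W) (hdim : Module.finrank F W < m) : Cfsg.Geo.IsMaximalIn (Cfsg.spGL m F) (Cfsg.Geo.subspaceStabilizer W ⊓ Cfsg.spGL m F) := by
  have hB := sympB_isAlt (F := F) m
  have hnd := sympB_nd (F := F) m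
  have hWn : NdOn (sympB m F) W := fun x hx hx0 => (hW x hx hx0).2
  have hfin : Module.finrank F (Fin m ⊕ Fin m → F) = m + m := by simp
  apply isMaximalIn_of
  · refine lt_of_le_of_ne inf_le_right fun heq => ?_
    obtain ⟨w, hw, hw0⟩ := W.ne_bot_iff.1 hW0
    have hWtop : ¬ ∀ x, x ∈ W := fun h => by
      have : W = ⊤ := by rw [eq_top_iff]; exact fun x _ => h x
      rw [this, finrank_top, hfin] at hdim
      omega
    push Not at hWtop
    obtain ⟨v, hv⟩ := hWtop
    have hv0 : v ≠ 0 := by rintro rfl; exact hv W.zero_mem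
    obtain ⟨t, ht, htw⟩ := exists_move hB hnd (trivial : w ∈ (⊤ : Submodule F _)) (trivial : v ∈ (⊤ : Submodule F _)) hw0 hv0
    have ht2 : le.symm t ∈ spGL m F := by
      rw [mem_spGL_iff, MulEquiv.apply_symm_apply]; exact tgrp_le_isom hB _ ht
    rw [← heq] at ht2
    have := ((mem_subspaceStabilizer_iff' W _).1 ht2.1) w hw
    rw [MulEquiv.apply_symm_apply, htw] at this
    exact hv this
  · intro M hHM hMK hex g hg
    have hM : M ≤ isom (fun x y => sympB m F x y) := by
      intro x hx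
      have := hMK (le.symm x) (by rwa [MulEquiv.apply_symm_apply])
      rwa [mem_spGL_iff, MulEquiv.apply_symm_apply] at this
    refine nd_stab_max hB hnd (W := W) hWn (by rw [hfin]; omega) hM ?_ ?_ hg
    · intro x hx hxW
      have := hHM (le.symm x) (Subgroup.mem_inf.2 ⟨?_, ?_⟩)
      · rwa [MulEquiv.apply_symm_apply] at this
      · rw [mem_subspaceStabilizer_iff', MulEquiv.apply_symm_apply]; exact hxW
      · rw [mem_spGL_iff, MulEquiv.apply_symm_apply]; exact hx
    · obtain ⟨x, hx, hxH⟩ := hex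
      refine ⟨le x, hx, ?_⟩
      by_contra hcon
      push Not at hcon
      exact hxH ⟨(mem_subspaceStabilizer_iff' W x).2 hcon, hMK x hx⟩

end

section

open Cfsg.Agent.Lib.SpTrans Cfsg.Agent.Lib.SpMax Cfsg.Agent.Lib.GeoBridge Cfsg.Agent.Lib.SpDecomp

theorem od_of {F : Type*} [Field F] {m k t : ℕ} {D : Fin t → Submodule F (Fin m ⊕ Fin m → F)}
    (hD : Cfsg.Geo.IsNondegenerateMDecomposition (Cfsg.sympForm m F) k D) : OD (sympB m F) k D where
  indep := hD.decomp.indep
  sup := hD.decomp.iSup_eq_top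
  nd := fun i x hx hx0 => (hD.nondegenerate i x hx hx0).2
  orth := fun i j hij u hu v hv => hD.orthogonal i j hij u hu v hv
  rank := hD.decomp.finrank_eq
  pos := hD.decomp.pos

/-- S5647 for all `m` -/
theorem decomp_max {F : Type*} [Field F] [Fintype F] (m : ℕ) {t : ℕ} (k : ℕ) (D : Fin t → Submodule F (Fin m ⊕ Fin m → F)) (hD : Cfsg.Geo.IsNondegenerateMDecomposition (Cfsg.sympForm m F) k D) (hex : ¬ (k = 2 ∧ Fintype.card F = 2)) : Cfsg.Geo.IsMaximalIn (Cfsg.spGL m F) (Cfsg.Geo.decompositionStabilizer D ⊓ Cfsg.spGL m F) := by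
  have hB := sympB_isAlt (F := F) m
  have hnd := sympB_nd (F := F) m
  have hOD := od_of hD
  obtain ⟨π, hπ1, hπ2, hπ3, hπ4⟩ := exists_comps hOD.indep hOD.sup
  apply isMaximalIn_of
  · refine lt_of_le_of_ne inf_le_right fun heq => ?_
    have ht := hD.decomp.two_le
    have hne : ∀ i, D i ≠ ⊥ := by
      intro i h
      have := hOD.rank i
      rw [h, finrank_bot] at this
      exact absurd this.symm hOD.pos.ne'
    obtain ⟨x, hx, hx0⟩ := (D ⟨0, by omega⟩).ne_bot_iff.1 (hne _)
    obtain ⟨y, hy, hy0⟩ := (D ⟨1, by omega⟩).ne_bot_iff.1 (hne _)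
    have hij : (⟨0, by omega⟩ : Fin t) ≠ ⟨1, by omega⟩ := by simp
    have e1 : π ⟨0, by omega⟩ (x + y) = x := by
      rw [map_add, hπ2 _ x hx, hπ3 _ _ hij.symm y hy, add_zero]
    have e2 : π ⟨1, by omega⟩ (x + y) = y := by
      rw [map_add, hπ2 _ y hy, hπ3 _ _ hij x hx, zero_add]
    have hxy0 : x + y ≠ 0 := by
      intro h; rw [h, map_zero] at e1; exact hx0 e1.symm
    obtain ⟨s, hs, hsx⟩ := exists_move hB hnd (trivial : x ∈ (⊤ : Submodule F _)) (trivial : x + y ∈ (⊤ : Submodule F _)) hx0 hxy0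
    have ht2 : le.symm s ∈ spGL m F := by
      rw [mem_spGL_iff, MulEquiv.apply_symm_apply]; exact tgrp_le_isom hB _ hs
    rw [← heq] at ht2
    obtain ⟨σ, hσ⟩ := (mem_decompositionStabilizer_iff D _).1 ht2.1
    rw [MulEquiv.apply_symm_apply] at hσ
    have h1 : s x ∈ D (σ ⟨0, by omega⟩) := by
      rw [← hσ]; exact ⟨x, hx, rfl⟩
    rw [hsx] at h1
    by_cases h2 : σ ⟨0, by omega⟩ = ⟨0, by omega⟩
    · have := hπ3 _ _ (by rw [h2]; exact hij) _ h1
      rw [e2] at this; exact hy0 this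
    · have := hπ3 _ _ h2 _ h1
      rw [e1] at this; exact hx0 this
  · intro M hHM hMK hex g hg
    have hM : M ≤ isom (fun x y => sympB m F x y) := by
      intro x hx
      have := hMK (le.symm x) (by rwa [MulEquiv.apply_symm_apply])
      rwa [mem_spGL_iff, MulEquiv.apply_symm_apply] at this
    refine decomp_stab_max hB hnd hOD (by assumption) hM ?_ ?_ hg
    · intro x hx hxW
      have := hHM (le.symm x) (Subgroup.mem_inf.2 ⟨?_, ?_⟩)
      · rwa [MulEquiv.apply_symm_apply] at this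
      · rw [mem_decompositionStabilizer_iff, MulEquiv.apply_symm_apply]; exact hxW
      · rw [mem_spGL_iff, MulEquiv.apply_symm_apply]; exact hx
    · obtain ⟨x, hx, hxH⟩ := hex
      refine ⟨le x, hx, ?_⟩
      intro hcon
      exact hxH ⟨(mem_decompositionStabilizer_iff D x).2 hcon, hMK x hx⟩

end

section

open Cfsg.Agent.Lib.SpTrans Cfsg.Agent.Lib.GeoBridge Cfsg.Agent.Lib.TSPairH94

/-- S5649 for all `m` -/
theorem tspair_max {F : Type*} [Field F] [Fintype F] (m : ℕ) (hm : 5 ≤ m) (hodd : Odd (Fintype.card F)) (D : Fin 2 → Submodule F (Fin m ⊕ Fin m → F)) (hD : Cfsg.Geo.IsMDecomposition m D) (hts : ∀ i, Cfsg.Geo.IsTotallySingularFor (Cfsg.sympForm m F) (D i)) : Cfsg.Geo.IsMaximalIn (Cfsg.spGL m F) (Cfsg.Geo.decompositionStabilizer D ⊓ Cfsg.spGL m F) := by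
  have hB := sympB_isAlt (F := F) m
  have hnd := sympB_nd (F := F) m
  have h2 : (2 : F) ≠ 0 := by
    intro h
    have hchar : ringChar F = 2 := by
      have h1 : ringChar F ∣ 2 := (ringChar.spec F 2).1 (by exact_mod_cast h)
      rcases (Nat.dvd_prime Nat.prime_two).1 h1 with h3 | h3
      · exfalso
        haveI : CharP F 1 := h3 ▸ (inferInstance : CharP F (ringChar F))
        exact one_ne_zero (CharP.cast_eq_zero F 1 ▸ (Nat.cast_one (R := F)).symm ▸ rfl : (1 : F) = 0)
      · exact h3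
    have h4 := FiniteField.even_card_of_char_two hchar
    have h5 := Nat.odd_iff.1 hodd
    omega
  obtain ⟨hdec, hint⟩ := dec_of hD.indep hD.iSup_eq_top
  have P0 : ∀ M : Subgroup ((Fin m ⊕ Fin m → F) ≃ₗ[F] (Fin m ⊕ Fin m → F)),
      M ≤ isom (fun x y => sympB m F x y) →
      (∀ g ∈ isom (fun x y => sympB m F x y), (∀ a ∈ D 0, g a ∈ D 0) → (∀ b ∈ D 1, g b ∈ D 1) → g ∈ M) →
      (∀ g ∈ isom (fun x y => sympB m F x y), (∀ a ∈ D 0, g a ∈ D 1) → (∀ b ∈ D 1, g b ∈ D 0) → g ∈ M) →
      Pair (RingHom.id F) (fun x y => sympB m F x y) (isom (fun x y => sympB m F x y)) M (D 0) (D 1) := by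
    intro M hM h1 h3
    refine ⟨⟨fun a => rfl, fun x y z => by rw [map_add]; rfl, fun c x y => by rw [map_smul]; rfl,
      fun x y => alt_neg hB _ _, ?_, 1, ?_⟩, fun g hg => hg, hM, ?_, hts 0, hts 1, hdec, hint, ?_, ?_, h1, h3⟩
    · intro x hx
      by_contra hx0
      obtain ⟨y, -, hy⟩ := hnd x trivial hx0
      exact hy (hx y)
    · show (1 : F) + 1 ≠ 0
      rw [one_add_one_eq_two]; exact h2
    · intro v _ c _
      exact ⟨tv _ hB v c, tv_mem_isom hB v c, fun x => tv_apply hB v c x⟩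
    · rw [hD.finrank_eq]; omega
    · rw [hD.finrank_eq, hD.finrank_eq]
  have hdd : Module.finrank F (D 0) = Module.finrank F (D 1) := by rw [hD.finrank_eq, hD.finrank_eq]
  apply isMaximalIn_of
  · refine lt_of_le_of_ne inf_le_right fun heq => ?_
    obtain ⟨g, hg, hg1, hg2⟩ := (P0 _ le_rfl (fun g hg _ _ => hg) (fun g hg _ _ => hg)).exists_not
    have ht2 : le.symm g ∈ spGL m F := by
      rw [mem_spGL_iff, MulEquiv.apply_symm_apply]; exact hg
    rw [← heq] at ht2
    have h3 := (mem_decompositionStabilizer_iff D _).1 ht2.1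
    rw [MulEquiv.apply_symm_apply] at h3
    rcases (perm_iff hdd g).1 h3 with h4 | h4
    · exact hg1 h4
    · exact hg2 h4
  · intro M hHM hMK hex g hg
    have hM : M ≤ isom (fun x y => sympB m F x y) := by
      intro x hx
      have := hMK (le.symm x) (by rwa [MulEquiv.apply_symm_apply])
      rwa [mem_spGL_iff, MulEquiv.apply_symm_apply] at this
    have hHM' : ∀ x ∈ isom (fun x y => sympB m F x y),
        (∃ σ : Equiv.Perm (Fin 2), ∀ i, (D i).map x.toLinearMap = D (σ i)) → x ∈ M := by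
      intro x hx hxW
      have := hHM (le.symm x) (Subgroup.mem_inf.2 ⟨?_, ?_⟩)
      · rwa [MulEquiv.apply_symm_apply] at this
      · rw [mem_decompositionStabilizer_iff, MulEquiv.apply_symm_apply]; exact hxW
      · rw [mem_spGL_iff, MulEquiv.apply_symm_apply]; exact hx
    have P := P0 M hM (fun x hx h1 h3 => hHM' x hx ((perm_iff hdd x).2 (Or.inl ⟨h1, h3⟩)))
      (fun x hx h1 h3 => hHM' x hx ((perm_iff hdd x).2 (Or.inr ⟨h1, h3⟩)))
    have hall := P.main (by
      obtain ⟨x, hx, hxH⟩ := hex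
      refine ⟨le x, hx, ?_⟩
      rw [← not_or, ← perm_iff hdd]
      intro hcon
      exact hxH ⟨(mem_decompositionStabilizer_iff D x).2 hcon, hMK x hx⟩)
    refine isom_le_of_tv_mem hB hnd ?_ hg
    intro v a
    obtain ⟨t, ht, htx⟩ := hall v (hB v) a rfl
    have : tv _ hB v a = t := by
      apply LinearEquiv.ext
      intro x
      rw [tv_apply, htx]
    rw [this]; exact ht

end

section

open Cfsg.Agent.Lib.SpTrans Cfsg.Agent.Lib.SpMax Cfsg.Agent.Lib.GeoBridge Cfsg.Agent.Lib.SpQuad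

/-- S5652 for all `m` -/
theorem quadform_max {F : Type*} [Field F] [Fintype F] (m : ℕ) (hm : 2 ≤ m) (heven : ¬ Odd (Fintype.card F)) (Q : (Fin m ⊕ Fin m → F) → F) (hQ : Cfsg.Geo.IsNondegenerateQuadraticForm Q) (hpol : ∀ u v, QuadraticMap.polar Q u v = Cfsg.sympForm m F u v) : Cfsg.Geo.IsMaximalIn (Cfsg.spGL m F) (Cfsg.Geo.quadSimilarityGroup Q ⊓ Cfsg.spGL m F) := by
  have hB := sympB_isAlt (F := F) m
  have hnd := sympB_nd (F := F) m
  have hchar : ringChar F = 2 := by
    rw [← FiniteField.even_card_iff_char_two.symm]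
    rw [Nat.not_odd_iff_even, Nat.even_iff] at heven
    exact heven
  have hQF : QF (sympB m F) Q := by
    refine ⟨?_, ?_, hQ.smul, ?_⟩
    · have := ringChar.Nat.cast_ringChar (R := F)
      rw [hchar] at this
      exact_mod_cast this
    · intro a
      obtain ⟨b, hb⟩ := FiniteField.isSquare_of_char_two hchar a
      exact ⟨b, by rw [hb]; ring⟩
    · intro x y
      rw [sympB_apply, ← hpol x y, QuadraticMap.polar]
      ring
  have hfin : 3 ≤ Module.finrank F (Fin m ⊕ Fin m → F) := by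
    rw [Module.finrank_fintype_fun_eq_card]; simp; omega
  have hmem : ∀ g : Matrix.GeneralLinearGroup (Fin m ⊕ Fin m) F, g ∈ Cfsg.Geo.quadSimilarityGroup Q ⊓ Cfsg.spGL m F ↔
      le g ∈ og (sympB m F) Q := by
    intro g
    constructor
    · rintro ⟨⟨c, hc⟩, hg⟩
      refine ⟨hg, fun x => ?_⟩
      have hc1 : (c : F) = 1 := by
        obtain ⟨u, hu⟩ : ∃ u : Fin m ⊕ Fin m → F, u ≠ 0 := by
          have : Nontrivial (Fin m ⊕ Fin m → F) := Module.nontrivial_of_finrank_pos (R := F) (by omega)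
          exact exists_ne 0
        obtain ⟨v, -, huv⟩ := hnd u trivial hu
        have h1 : sympB m F (le g u) (le g v) = sympB m F u v := hg u v
        have h2 : Q (le g (u + v)) = c * Q (u + v) := hc (u + v)
        have h3 : Q (le g u) = c * Q u := hc u
        have h4 : Q (le g v) = c * Q v := hc v
        rw [map_add, hQF.add, hQF.add, h3, h4, h1] at h2
        have h5 : (1 - (c : F)) * sympB m F u v = 0 := by linear_combination h2
        rcases mul_eq_zero.1 h5 with h | h
        · exact (sub_eq_zero.1 h).symm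
        · exact absurd h huv
      have := hc x
      rw [hc1, one_mul] at this
      exact this
    · rintro ⟨h1, h2⟩
      exact ⟨⟨1, fun v => by rw [Units.val_one, one_mul]; exact h2 v⟩, h1⟩
  apply isMaximalIn_of
  · refine lt_of_le_of_ne inf_le_right fun heq => ?_
    obtain ⟨e, he0, he⟩ := exists_sing hQF hfin
    obtain ⟨y, -, hy⟩ := hnd e trivial he0
    have ht2 : le.symm (tv (sympB m F) hB e 1) ∈ Cfsg.spGL m F := by
      rw [mem_spGL_iff, MulEquiv.apply_symm_apply]; exact tv_mem_isom hB _ _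
    rw [← heq, hmem, MulEquiv.apply_symm_apply] at ht2
    have := ht2.2 y
    rw [tv_apply, hQF.add, hQF.smul, he, one_mul, mul_zero, add_zero, map_smul, smul_eq_mul,
      add_eq_left] at this
    rcases mul_eq_zero.1 this with h | h
    · exact hy (by rw [symm_B hB hQF]; exact h)
    · exact hy (by rw [symm_B hB hQF]; exact h)
  · intro M hHM hMK hex g hg
    have hM : M ≤ isom (fun x y => sympB m F x y) := by
      intro x hx
      have := hMK (le.symm x) (by rwa [MulEquiv.apply_symm_apply])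
      rwa [mem_spGL_iff, MulEquiv.apply_symm_apply] at this
    refine quad_max hB hQF hfin hnd hM ?_ ?_ hg
    · intro x hx
      have := hHM (le.symm x) ((hmem _).2 (by rwa [MulEquiv.apply_symm_apply]))
      rwa [MulEquiv.apply_symm_apply] at this
    · obtain ⟨x, hx, hxH⟩ := hex
      exact ⟨le x, hx, fun hcon => hxH ((hmem x).2 hcon)⟩

end

section

open Module Cfsg.Agent.Lib.SpTrans Cfsg.Agent.Lib.GeoBridge Cfsg.Agent.Lib.SLMax Cfsg.Agent.Lib.ExtBrH94
open scoped MatrixGroups

/-- S5664 for all `m` -/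
theorem extfield_max {F : Type*} [Field F] [Fintype F] (m : ℕ) (hm : 3 ≤ m) (r : ℕ) (hr : r.Prime) (K : Subalgebra F (Matrix (Fin m ⊕ Fin m) (Fin m ⊕ Fin m) F)) (hK : Cfsg.Geo.IsFieldSubalgebra r K) (hsa : Cfsg.Geo.IsSelfAdjointFor (Cfsg.sympForm m F) K) (halt : ∀ k ∈ K, ∀ v : (Fin m ⊕ Fin m → F), Cfsg.sympForm m F (Matrix.mulVec k v) v = 0) : Cfsg.Geo.IsMaximalIn (Cfsg.spGL m F) (Cfsg.Geo.subalgebraNormalizer K ⊓ Cfsg.spGL m F) := by
  classical
  have hB := sympB_isAlt (F := F) m
  have hnd := sympB_nd (F := F) m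
  have : Nonempty (Fin m ⊕ Fin m) := ⟨Sum.inl ⟨0, by omega⟩⟩
  let _ : Field K := (isField_of hK).toField
  have hfV : finrank F (Fin m ⊕ Fin m → F) = m + m := by
    rw [finrank_fintype_fun_eq_card, Fintype.card_sum, Fintype.card_fin]
  have hfK : finrank F K = r := hK.finrank_eq
  have hr2 := hr.two_le
  have : FiniteDimensional F K := FiniteDimensional.of_finrank_pos (by rw [hfK]; omega)
  have hnd' : ∀ x, (∀ y, sympB m F x y = 0) → x = 0 := by
    intro x hx
    by_contra hx0
    obtain ⟨y, -, hy⟩ := hnd x trivial hx0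
    exact hy (hx y)
  have hsa' : ∀ (a : K) x y, sympB m F (rho K a x) y = sympB m F x (rho K a y) := fun a x y => hsa a a.2 x y
  have halt' : ∀ (a : K) x, sympB m F (rho K a x) x = 0 := fun a x => halt a a.2 x
  -- strictness
  obtain ⟨t, htS, htN⟩ : ∃ t : GL (Fin m ⊕ Fin m) F, t ∈ Cfsg.spGL m F ∧
      t ∉ Cfsg.Geo.subalgebraNormalizer K := by
    obtain ⟨v, hv⟩ : ∃ v : Fin m ⊕ Fin m → F, v ≠ 0 := by
      have : Nontrivial (Fin m ⊕ Fin m → F) := by
        rw [← Module.finrank_pos_iff (R := F), hfV]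
        omega
      exact exists_ne 0
    have hβ : (sympB m F).flip v ≠ 0 := by
      intro h
      apply hv
      apply hnd'
      intro y
      rw [alt_neg hB, ← LinearMap.flip_apply (sympB m F) y v, h]
      simp
    have hβv : (sympB m F).flip v v = 0 := hB v
    have heq : tr v ((sympB m F).flip v) hβv = tv _ hB v 1 := by
      apply LinearEquiv.ext
      intro x
      rw [tv_apply, tr_apply, one_mul, LinearMap.flip_apply]
    refine ⟨le.symm (tv _ hB v 1), ?_, ?_⟩
    · rw [mem_spGL_iff, MulEquiv.apply_symm_apply]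
      exact tv_mem_isom hB v 1
    · rw [mem_normalizer_iff, MulEquiv.apply_symm_apply, ← heq]
      exact tr_not F K (Fin m ⊕ Fin m → F) (rho K) (by rw [hfK]; exact hr2) (by rw [hfV]; omega) hv hβ hβv
  apply isMaximalIn_of
  · refine lt_of_le_of_ne inf_le_right fun heq => htN ?_
    rw [← heq] at htS
    exact htS.1
  · intro M hHM hMK hex g hg
    have hM : ∀ x ∈ M, ∀ y z, sympB m F (x y) (x z) = sympB m F y z := by
      intro x hx
      have := hMK (le.symm x) (by rwa [MulEquiv.apply_symm_apply])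
      rwa [mem_spGL_iff, MulEquiv.apply_symm_apply] at this
    refine isom_le_of_tv_mem hB hnd ?_ hg
    intro v a
    obtain ⟨t, ht, htx⟩ := Cfsg.Agent.Lib.FldSpH94.main_alg F K (Fin m ⊕ Fin m → F) (rho K) (sympB m F) hsa' halt' hnd'
      (by rw [hfK]; exact hr) (by rw [hfV]; omega) (M := M) hM (fun g hg hc => by
        have := hHM (le.symm g) (Subgroup.mem_inf.2 ⟨?_, ?_⟩)
        · rwa [MulEquiv.apply_symm_apply] at this
        · rw [mem_normalizer_iff, MulEquiv.apply_symm_apply]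
          intro a
          exact ⟨a, hc a⟩
        · rw [mem_spGL_iff, MulEquiv.apply_symm_apply]; exact hg) (by
        obtain ⟨x, hx, hxH⟩ := hex
        refine ⟨le x, hx, fun hcon => hxH ⟨?_, hMK x hx⟩⟩
        exact (mem_normalizer_iff K x).2 hcon) v a
    have : tv _ hB v a = t := by
      apply LinearEquiv.ext
      intro x
      rw [tv_apply, htx]
    rw [this]; exact ht

end

end Cfsg.Agent.Lib.SpGeoAll
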