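import Mathlib
import Cfsg.Agent.Lib.FldSpBrH94
import Cfsg.Agent.Lib.SLMax
import Cfsg.Agent.Lib.GeoBridge

set_option autoImplicit false
set_option linter.unusedSectionVars false
set_option linter.unusedSimpArgs false
set_option linter.unusedVariables false

/-!
Normalisers of self-adjoint fields in `Sp_{2m}(F)`, `|F| > 2`, all dimensions (after S5664).
-/

namespace Cfsg.Agent.Lib.FldSpH94

open Module Cfsg.Agent.Lib.ExtFldH94

/-- overgroups, algebra homomorphism version -/
theorem main_alg_q (F K V : Type*) [Field F] [Field K] [Algebra F K] [FiniteDimensional F K]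
    [AddCommGroup V] [Module F V] [FiniteDimensional F V] (φ : K →ₐ[F] Module.End F V)
    (B : V →ₗ[F] V →ₗ[F] F) (hsa : ∀ a x y, B (φ a x) y = B x (φ a y)) (halt : ∀ a x, B (φ a x) x = 0)
    (hnd : ∀ x, (∀ y, B x y = 0) → x = 0) (hr : (finrank F K).Prime) (hV : 1 ≤ finrank F V)
    (hq : ∃ y : F, y ≠ 0 ∧ y ≠ 1)
    {M : Subgroup (V ≃ₗ[F] V)} (hMB : ∀ m ∈ M, ∀ x y, B (m x) (m y) = B x y)
    (hN : ∀ g : V ≃ₗ[F] V, (∀ x y, B (g x) (g y) = B x y) → (∀ a x, g (φ a x) = φ a (g x)) → g ∈ M)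
    (hex : ∃ g ∈ M, ¬ ∀ a, ∃ b, ∀ x, g (φ a x) = φ b (g x)) (u : V) (c : F) :
    ∃ m ∈ M, ∀ z, m z = z + (c * B z u) • u := by
  let _ : Module K V := Module.compHom V φ.toRingHom
  have : IsScalarTower F K V := ⟨fun a x v => by
    show φ (a • x) v = a • φ x v
    rw [map_smul]; rfl⟩
  have : FiniteDimensional K V := Module.Finite.of_restrictScalars_finite F K V
  have hmul : finrank F K * finrank K V = finrank F V := Module.finrank_mul_finrank F K V
  obtain ⟨b, hb⟩ : ∃ b : Dual F K, b ≠ 0 := by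
    have : Nontrivial (Dual F K) := by
      rw [← Module.finrank_pos_iff (R := F), Subspace.dual_finrank_eq]
      exact hr.pos
    exact exists_ne 0
  have hsa' : ∀ (a : K) x y, B (a • x) y = B x (a • y) := hsa
  have halt' : ∀ (a : K) x, B (a • x) x = 0 := halt
  obtain ⟨C, hC⟩ := exists_C hb B hsa'
  have hbz : ∀ {c : K}, (∀ a, b (a * c) = 0) → c = 0 := by
    intro c hc
    by_contra hc0
    apply hb
    apply LinearMap.ext
    intro a
    have := hc (a * c⁻¹)
    rw [mul_assoc, inv_mul_cancel₀ hc0, mul_one] at this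
    exact this
  have hCa : ∀ (a : K) x y, b (a * C x y) = B (a • x) y := by
    intro a x y
    rw [← hC, map_smul, LinearMap.smul_apply, smul_eq_mul]
  have hCalt : ∀ x, C x x = 0 := by
    intro x
    apply hbz
    intro a
    rw [hCa, halt']
  have hCnd : ∀ x, (∀ y, C x y = 0) → x = 0 := by
    intro x hx
    apply hnd
    intro y
    rw [← hC, hx, map_zero]
  have S : SD B b C M := by
    refine ⟨hb, hC, hCalt, hCnd, hMB, ?_⟩
    intro g hg
    apply hN
    · intro x y
      rw [← hC, ← hC]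
      exact congrArg b (hg x y)
    · intro a x
      exact g.map_smul a x
  have hk : 2 ≤ finrank K V := by
    by_contra hcon
    have h1 : finrank K V ≤ 1 := by omega
    obtain ⟨x, hx0⟩ : ∃ x : V, x ≠ 0 := by
      have : Nontrivial V := by
        rw [← Module.finrank_pos_iff (R := F)]
        omega
      exact exists_ne 0
    have h2 : finrank K V = 1 := by
      have : 0 < finrank K V := by
        have : Nontrivial V := ⟨x, 0, hx0⟩
        exact Module.finrank_pos
      omega
    apply hx0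
    apply hCnd
    intro y
    obtain ⟨c, hc⟩ := (finrank_eq_one_iff_of_nonzero' x hx0).1 h2 y
    rw [← hc, map_smul, hCalt, smul_zero]
  have hex' : ∃ g ∈ M, ¬ ∀ a : K, ∃ b : K, ∀ x, g (a • x) = b • g x := hex
  obtain ⟨y, h0, h1⟩ := hq
  obtain ⟨w₀, u₁, ω, T⟩ := S.exists_TD hr hk hex'
  exact S.all_tv T.w0 (S.tv_a T h0 h1) u c

end Cfsg.Agent.Lib.FldSpH94

namespace Cfsg.Agent.Lib.SpGeoAll

open Cfsg
open Module Cfsg.Agent.Lib.SpTrans Cfsg.Agent.Lib.GeoBridge Cfsg.Agent.Lib.SLMax Cfsg.Agent.Lib.ExtBrH94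
open scoped MatrixGroups

/-- S5664 for fields with more than two elements -/
theorem extfield_max_q {F : Type*} [Field F] [Fintype F] (m : ℕ) (hm : 2 ≤ m) (hq : ∃ y : F, y ≠ 0 ∧ y ≠ 1) (r : ℕ) (hr : r.Prime) (K : Subalgebra F (Matrix (Fin m ⊕ Fin m) (Fin m ⊕ Fin m) F)) (hK : Cfsg.Geo.IsFieldSubalgebra r K) (hsa : Cfsg.Geo.IsSelfAdjointFor (Cfsg.sympForm m F) K) (halt : ∀ k ∈ K, ∀ v : (Fin m ⊕ Fin m → F), Cfsg.sympForm m F (Matrix.mulVec k v) v = 0) : Cfsg.Geo.IsMaximalIn (Cfsg.spGL m F) (Cfsg.Geo.subalgebraNormalizer K ⊓ Cfsg.spGL m F) := by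
  classical
  have hB := sympB_isAlt (F := F) m
  have hnd := sympB_nd (F := F) m
  have : Nonempty (Fin m ⊕ Fin m) := ⟨Sum.inl ⟨0, by omega⟩⟩
  let _ : Field K := (isField_of hK).toField
  have hfV : finrank F (Fin m ⊕ Fin m → F) = m + m := by
    rw [finrank_fintype_fun_eq_card, Fintype.card_sum, Fintype.card_fin]
  have hfK : finrank F K = r := hK.finrank_eq
  have hr2 := hr.two_le
  have : FiniteDimensional F K := FiniteDimensional.of_finrank_pos (by rw [hfK]; omega)
  have hnd' : ∀ x, (∀ y, sympB m F x y = 0) → x = 0 := by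
    intro x hx
    by_contra hx0
    obtain ⟨y, -, hy⟩ := hnd x trivial hx0
    exact hy (hx y)
  have hsa' : ∀ (a : K) x y, sympB m F (rho K a x) y = sympB m F x (rho K a y) := fun a x y => hsa a a.2 x y
  have halt' : ∀ (a : K) x, sympB m F (rho K a x) x = 0 := fun a x => halt a a.2 x
  -- strictness
  obtain ⟨t, htS, htN⟩ : ∃ t : GL (Fin m ⊕ Fin m) F, t ∈ Cfsg.spGL m F ∧
      t ∉ Cfsg.Geo.subalgebraNormalizer K := by
    obtain ⟨v, hv⟩ : ∃ v : Fin m ⊕ Fin m → F, v ≠ 0 := by
      have : Nontrivial (Fin m ⊕ Fin m → F) := by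
        rw [← Module.finrank_pos_iff (R := F), hfV]
        omega
      exact exists_ne 0
    have hβ : (sympB m F).flip v ≠ 0 := by
      intro h
      apply hv
      apply hnd'
      intro y
      rw [alt_neg hB, ← LinearMap.flip_apply (sympB m F) y v, h]
      simp
    have hβv : (sympB m F).flip v v = 0 := hB v
    have heq : tr v ((sympB m F).flip v) hβv = tv _ hB v 1 := by
      apply LinearEquiv.ext
      intro x
      rw [tv_apply, tr_apply, one_mul, LinearMap.flip_apply]
    refine ⟨le.symm (tv _ hB v 1), ?_, ?_⟩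
    · rw [mem_spGL_iff, MulEquiv.apply_symm_apply]
      exact tv_mem_isom hB v 1
    · rw [mem_normalizer_iff, MulEquiv.apply_symm_apply, ← heq]
      exact tr_not F K (Fin m ⊕ Fin m → F) (rho K) (by rw [hfK]; exact hr2) (by rw [hfV]; omega) hv hβ hβv
  apply isMaximalIn_of
  · refine lt_of_le_of_ne inf_le_right fun heq => htN ?_
    rw [← heq] at htS
    exact htS.1
  · intro M hHM hMK hex g hg
    have hM : ∀ x ∈ M, ∀ y z, sympB m F (x y) (x z) = sympB m F y z := by
      intro x hx
      have := hMK (le.symm x) (by rwa [MulEquiv.apply_symm_apply])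
      rwa [mem_spGL_iff, MulEquiv.apply_symm_apply] at this
    refine isom_le_of_tv_mem hB hnd ?_ hg
    intro v a
    obtain ⟨t, ht, htx⟩ := Cfsg.Agent.Lib.FldSpH94.main_alg_q F K (Fin m ⊕ Fin m → F) (rho K) (sympB m F) hsa' halt' hnd'
      (by rw [hfK]; exact hr) (by rw [hfV]; omega) hq (M := M) hM (fun g hg hc => by
        have := hHM (le.symm g) (Subgroup.mem_inf.2 ⟨?_, ?_⟩)
        · rwa [MulEquiv.apply_symm_apply] at this
        · rw [mem_normalizer_iff, MulEquiv.apply_symm_apply]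
          intro a
          exact ⟨a, hc a⟩
        · rw [mem_spGL_iff, MulEquiv.apply_symm_apply]; exact hg) (by
        obtain ⟨x, hx, hxH⟩ := hex
        refine ⟨le x, hx, fun hcon => hxH ⟨?_, hMK x hx⟩⟩
        exact (mem_normalizer_iff K x).2 hcon) v a
    have : tv _ hB v a = t := by
      apply LinearEquiv.ext
      intro x
      rw [tv_apply, htx]
    rw [this]; exact ht


end Cfsg.Agent.Lib.SpGeoAll
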