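import Mathlib
import Cfsg.Agent.Lib.Sesq14

/-! Invariant nondegenerate `m`-spaces in symplectic spaces: elements of prime order `r ≠ p`. (helper99) -/

set_option autoImplicit false

namespace Cfsg.Agent.Lib.SpND

open Polynomial Module Cfsg.Agent.Lib.InvSub Cfsg.Agent.Lib.PrimeOrd Cfsg.Agent.Lib.Sesq

/-- invariant nondegenerate subspaces -/
def Fixes {F V : Type*} [Field F] [AddCommGroup V] [Module F V] (B : V →ₗ[F] V →ₗ[F] F) (T : Module.End F V) (m : ℕ) : Prop :=
  ∃ W : Submodule F V, Inv T W ∧ ND (σ := RingHom.id F) B W ∧ finrank F W = m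

section gen

variable {F V : Type*} [Field F] [AddCommGroup V] [Module F V] {B : V →ₗ[F] V →ₗ[F] F}

/-- nondegenerate `2k`-spaces -/
def NDS (B : V →ₗ[F] V →ₗ[F] F) (m : ℕ) : Type _ := {W : Submodule F V // finrank F W = m ∧ ND (σ := RingHom.id F) B W}

theorem nds_card [Fintype F] [FiniteDimensional F V] (hB : Alt B) (hnd : ND (σ := RingHom.id F) B ⊤) (k l : ℕ)
    (hV : finrank F V = 2 * (k + l)) :
    Nat.card (NDS B (2 * k)) * (spc (Fintype.card F) k * spc (Fintype.card F) l) = spc (Fintype.card F) (k + l) := by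
  have h1 := ODS.card hB hnd (t := 2) ![k, l] (by simp [hV, Fin.sum_univ_two])
  have e : NDS B (2 * k) ≃ ODS B ![k, l] :=
    { toFun := fun W => ⟨![W.1, perp (σ := RingHom.id F) B W.1], by
        have h2 := finrank_add_perp (σ := RingHom.id F) hnd W.1
        have h3 := W.2.1
        intro j
        fin_cases j
        · exact W.2.1
        · change finrank F (perp (σ := RingHom.id F) B W.1) = 2 * l
          omega, by
        intro j
        fin_cases j
        · exact W.2.2
        · exact nd_perp hB.refl hnd W.2.2, by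
        intro j j' hj
        fin_cases j <;> fin_cases j'
        · exact absurd rfl hj
        · exact fun u hu v hv => hv u hu
        · exact fun u hu v hv => hB.refl _ _ (hu v hv)
        · exact absurd rfl hj⟩
      invFun := fun D => ⟨D.D 0, D.rank 0, D.nd 0⟩
      left_inv := fun W => rfl
      right_inv := fun D => by
        apply ODS.ext
        funext j
        fin_cases j
        · rfl
        · change perp (σ := RingHom.id F) B (D.D 0) = D.D 1
          symm
          apply Submodule.eq_of_le_of_finrank_eq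
          · intro v hv u hu
            exact D.orth 0 1 (by decide) u hu v hv
          · have h2 := finrank_add_perp (σ := RingHom.id F) hnd (D.D 0)
            have h3 := D.rank 0
            have h4 := D.rank 1
            simp only [Matrix.cons_val_zero, Matrix.cons_val_one, Matrix.cons_val_fin_one] at h3 h4
            omega }
  rw [Nat.card_congr e]
  simpa [Fin.prod_univ_two, Fin.sum_univ_two] using h1

end gen

section odd

variable {F : Type*} [Field F] [Fintype F] {p r : ℕ} [Fact p.Prime] [CharP F p] [Fact r.Prime]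

/-- the arithmetic of the numbers of nondegenerate subspaces -/
theorem csz_le_of_dvd_nds (hrp : r ≠ p) {d k l N : ℕ} (hd : d = k + l) (hk : 0 < k)
    (hN : N * (spc (Fintype.card F) k * spc (Fintype.card F) l) = spc (Fintype.card F) d) (hr : r ∣ N) :
    csz F r ≤ 2 * d ∧ ¬ (2 * k ≤ (2 * d) % csz F r) := by
  have hrP : r.Prime := Fact.out
  have hle : csz F r ≤ 2 * d := csz_le_of_dvd hrP hrp (by rw [← hN]; exact Dvd.dvd.mul_right hr _)
  refine ⟨hle, fun hmod => ?_⟩
  have hq2 : 2 ≤ Fintype.card F := Fintype.one_lt_card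
  -- the quotient
  have h1 : spc (Fintype.card F) d * Fintype.card F ^ (l ^ 2) = spc (Fintype.card F) l * Fintype.card F ^ (d ^ 2) *
      ∏ i ∈ Finset.Ico l d, (Fintype.card F ^ (2 * (i + 1)) - 1) := by
    unfold spc
    rw [← Finset.prod_range_mul_prod_Ico _ (show l ≤ d by omega)]
    ring
  have hpos : ∀ i, 0 < Fintype.card F ^ (2 * (i + 1)) - 1 := by
    intro i
    have : 2 ^ 1 ≤ Fintype.card F ^ (2 * (i + 1)) := (Nat.pow_le_pow_left hq2 1).trans (Nat.pow_le_pow_right (by omega) (by omega))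
    omega
  have hlpos : 0 < spc (Fintype.card F) l := Nat.mul_pos (Nat.pow_pos (by omega)) (Finset.prod_pos fun i _ => hpos i)
  have h2 : N * spc (Fintype.card F) k * Fintype.card F ^ (l ^ 2) = Fintype.card F ^ (d ^ 2) *
      ∏ i ∈ Finset.Ico l d, (Fintype.card F ^ (2 * (i + 1)) - 1) := by
    apply Nat.eq_of_mul_eq_mul_left hlpos
    calc _ = (N * (spc (Fintype.card F) k * spc (Fintype.card F) l)) * Fintype.card F ^ (l ^ 2) := by ring
      _ = _ := by rw [hN, h1]; ring
  have h3 : r ∣ Fintype.card F ^ (d ^ 2) * ∏ i ∈ Finset.Ico l d, (Fintype.card F ^ (2 * (i + 1)) - 1) := by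
    rw [← h2, mul_assoc]; exact Dvd.dvd.mul_right hr _
  rcases (Nat.Prime.dvd_mul hrP).mp h3 with h4 | h4
  · have h5 := hrP.dvd_of_dvd_pow h4
    obtain ⟨n, hn, hc⟩ := FiniteField.card F p
    rw [hc] at h5
    exact hrp ((Nat.prime_dvd_prime_iff_eq hrP Fact.out).mp (hrP.dvd_of_dvd_pow h5))
  · obtain ⟨j, hj, h5⟩ := (Prime.dvd_finsetProd_iff hrP.prime _).mp h4
    rw [Finset.mem_Ico] at hj
    have h6 := SubspaceCount.orderOf_dvd_of_dvd Fintype.card_pos h5
    rw [← csz_dvd_iff] at h6
    obtain ⟨u, hu⟩ := h6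
    have hc0 : 0 < csz F r := by
      rcases Nat.eq_zero_or_pos (csz F r) with h0 | h0
      · rw [h0] at hu; omega
      · exact h0
    have h7 := Nat.div_add_mod (2 * d) (csz F r)
    have h8 := Nat.mod_lt (2 * d) hc0
    -- (2d/c) c ≤ 2l < c u ≤ 2d < (2d/c + 1) c
    have h9 : csz F r * (2 * d / csz F r) < csz F r * u := by omega
    have h10 : 2 * d / csz F r < u := Nat.lt_of_mul_lt_mul_left h9
    have h11 : csz F r * (2 * d / csz F r + 1) ≤ csz F r * u := Nat.mul_le_mul_left _ h10
    rw [Nat.mul_add, mul_one] at h11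
    omega

/-- odd prime order different from `p` -/
theorem odd_iff (hrp : r ≠ p) (hro : Odd r) {d m : ℕ} (hm : 2 ≤ m) (hme : Even m) (hmd : m < d)
    (hN : r ∣ Nat.card (NDS (AltSim.JB (F := F) d) m)) :
    (∀ T : Module.End F (Fin d ⊕ Fin d → F), PO F p r (AltSim.JB (F := F) d) T → T ≠ 1 → Fixes (AltSim.JB (F := F) d) T m) ↔
      (csz F r ≤ m ∧ m % csz F r ≤ (2 * d) % csz F r) := by
  have hrP : r.Prime := Fact.out
  obtain ⟨k, hk⟩ := hme
  have hk' : m = 2 * k := by omega
  have hcard := nds_card (jb_alt (F := F) d) (jb_nd d) k (d - k) (by rw [finrank_jb]; omega)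
  have hdk : k + (d - k) = d := by omega
  rw [hdk, ← hk'] at hcard
  obtain ⟨hcle, hnot⟩ := csz_le_of_dvd_nds (F := F) (p := p) hrp (d := d) (k := k) (l := d - k) (by omega) (by omega) hcard hN
  have hc0 : 0 < csz F r := by
    have := order_pos (F := F) (p := p) hrp
    unfold csz csize; split_ifs <;> omega
  constructor
  · intro H
    obtain ⟨T, hT, hTf⟩ := exists_po (F := F) (p := p) Fact.out inferInstance hrP hrp hro (2 * d / csz F r) (jb_alt (F := F) d) (jb_nd d) (by
      rw [finrank_jb]; exact Nat.div_mul_le_self _ _)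
    rw [finrank_jb] at hTf
    have hT1 : T ≠ 1 := by
      rintro rfl
      have hE1 : E (1 : Module.End F (Fin d ⊕ Fin d → F)) 1 = ⊤ := by
        rw [eq_top_iff]
        intro x _
        rw [Module.End.mem_eigenspace_iff, one_smul]; rfl
      rw [hE1, finrank_top, finrank_jb] at hTf
      have : 0 < 2 * d / csz F r * csz F r := Nat.mul_pos (Nat.div_pos hcle hc0) hc0
      omega
    obtain ⟨W, hW, hWnd, hWf⟩ := H T hT hT1
    obtain ⟨s, hty⟩ := hT.exists_ty hW hWnd
    have hEf : finrank F (E T 1) = 2 * d % csz F r := by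
      have := Nat.div_add_mod' (2 * d) (csz F r)
      omega
    have h1 : finrank F ↥(W ⊓ E T 1) ≤ 2 * d % csz F r := by
      rw [← hEf]; exact Submodule.finrank_mono inf_le_right
    have h2 := Nat.mod_lt (2 * d) hc0
    have h3 : m % csz F r = finrank F ↥(W ⊓ E T 1) := by
      rw [← hWf, hty.f, Nat.add_mul_mod_self_right, Nat.mod_eq_of_lt (by omega)]
    have h4 : m % csz F r ≤ 2 * d % csz F r := by rw [h3]; exact h1
    refine ⟨?_, h4⟩
    by_contra hlt
    push Not at hlt
    rw [Nat.mod_eq_of_lt hlt, hk'] at h4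
    exact hnot h4
  · rintro ⟨hcm, hmod⟩ T hT hT1
    obtain ⟨s, hty⟩ := hT.exists_ty (W := ⊤) (fun _ _ => trivial) (jb_nd d)
    have hes := hty.f
    rw [finrank_top, finrank_jb] at hes
    set e := finrank F ↥((⊤ : Submodule F (Fin d ⊕ Fin d → F)) ⊓ E T 1) with he
    -- choose the type
    have hmdm := Nat.div_add_mod' m (csz F r)
    obtain ⟨e', s', he', hs', hes'⟩ : ∃ e' s', e' ≤ e ∧ s' ≤ s ∧ m = e' + s' * csz F r := by
      by_cases hcase : m / csz F r ≤ s
      · refine ⟨m % csz F r, m / csz F r, ?_, hcase, by omega⟩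
        refine hmod.trans ?_
        rw [hes, Nat.add_mul_mod_self_right]
        exact Nat.mod_le _ _
      · push Not at hcase
        have h1 : s * csz F r ≤ m / csz F r * csz F r := Nat.mul_le_mul_right _ hcase.le
        exact ⟨m - s * csz F r, s, by omega, le_rfl, by omega⟩
    have hev : Even e' := by
      have h1 : e' = m - s' * csz F r := by omega
      rw [h1]
      exact (Nat.even_sub (by omega)).mpr (iff_of_true ⟨k, hk⟩ (csz_even.mul_left _))
    obtain ⟨W', -, hty', -⟩ := hty.split hT he' hs' hev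
    exact ⟨W', hty'.inv, hty'.nd, by rw [hty'.f, ← hes']⟩

end odd

section two

variable {F V : Type*} [Field F] [AddCommGroup V] [Module F V] [FiniteDimensional F V] {B : V →ₗ[F] V →ₗ[F] F}

/-- elements with `T² = ±1` in odd characteristic -/
theorem fixes_two [Finite F] (h2 : (2 : F) ≠ 0) (hB : Alt B) (hnd : ND (σ := RingHom.id F) B ⊤) {T : Module.End F V}
    (hT : Iso (σ := RingHom.id F) B T) (hTT : T * T = 1 ∨ T * T = -1) {m : ℕ} (hm : Even m) (hmV : m ≤ finrank F V) : Fixes B T m := by
  obtain ⟨k, hk⟩ := hm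
  have hplane : ∀ W : Submodule F V, Inv T W → ND (σ := RingHom.id F) B W → W ≠ ⊥ →
      ∃ U ≤ W, Inv T U ∧ ND (σ := RingHom.id F) B U ∧ finrank F U = 2 := by
    intro W hW hWnd hne
    have : ∃ u v, u ∈ W ∧ v ∈ W ∧ B u v ≠ 0 ∧ T u ∈ Submodule.span F {u, v} ∧ T v ∈ Submodule.span F {u, v} := by
      rcases hTT with h | h
      · obtain ⟨v, hv, w, hw, hvw, ε, -, h3, h4⟩ := plane_one h2 hT h hW hWnd hne
        refine ⟨v, w, hv, hw, hvw, ?_, ?_⟩
        · rw [h3]; exact Submodule.smul_mem _ _ (Submodule.subset_span (by simp))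
        · rw [h4]; exact Submodule.smul_mem _ _ (Submodule.subset_span (by simp))
      · obtain ⟨v, hv, w, hw, hvw, h3, h4⟩ := plane_neg hB h2 hT h hW hWnd hne
        refine ⟨v, w, hv, hw, hvw, ?_, ?_⟩
        · rw [h3]; exact Submodule.subset_span (by simp)
        · rw [h4]; exact Submodule.neg_mem _ (Submodule.subset_span (by simp))
    obtain ⟨u, v, hu, hv, huv, h3, h4⟩ := this
    refine ⟨Submodule.span F {u, v}, ?_, inv_span (by rintro x (rfl | rfl); exacts [h3, h4]), nd_pair hB huv, finrank_pair hB huv⟩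
    rw [Submodule.span_le]
    rintro x (rfl | rfl)
    · exact hu
    · exact hv
  obtain ⟨U, -, h1, h3, h4⟩ := exists_mult hB hnd hT (c := 2) (by norm_num) (C := ⊤) (fun W _ hW hWnd hne => hplane W hW hWnd hne) k ⊤ le_rfl
    (fun _ _ => trivial) hnd (by rw [finrank_top]; omega)
  exact ⟨U, h1, h3, by omega⟩

end two

end Cfsg.Agent.Lib.SpND
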