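import Mathlib
import Cfsg.Agent.Lib.Sesq15
import Cfsg.Agent.Lib.SpND
import Cfsg.Agent.Lib.FormJordan3

/-! Unipotent isometries in odd characteristic and invariant nondegenerate subspaces. (helper99) -/

set_option autoImplicit false

namespace Cfsg.Agent.Lib.SpND

open Polynomial Module Cfsg.Agent.Lib.InvSub Cfsg.Agent.Lib.JordanNil Cfsg.Agent.Lib.Sesq

universe u

section blocks

variable {F V : Type*} [Field F] [AddCommGroup V] [Module F V] [FiniteDimensional F V] {B : V →ₗ[F] V →ₗ[F] F}
  {T : Module.End F V}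

lemma exists_index (hnil : IsNilpotent (T - 1)) {W : Submodule F V} (hne : W ≠ ⊥) :
    ∃ k, 0 < k ∧ (∀ x ∈ W, ((T - 1) ^ k) x = 0) ∧ ∃ x ∈ W, ((T - 1) ^ (k - 1)) x ≠ 0 := by
  classical
  have hex : ∃ k : ℕ, ∀ x ∈ W, ((T - 1) ^ k : Module.End F V) x = 0 := by
    obtain ⟨k, hk⟩ := hnil
    exact ⟨k, fun x _ => by rw [hk]; rfl⟩
  obtain ⟨w, hw, hw0⟩ := Submodule.exists_mem_ne_zero_of_ne_bot hne
  have hpos : 0 < Nat.find hex := by
    rw [Nat.pos_iff_ne_zero]
    intro h0
    have := Nat.find_spec hex w hw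
    rw [h0] at this
    exact hw0 this
  refine ⟨Nat.find hex, hpos, Nat.find_spec hex, ?_⟩
  have := Nat.find_min hex (m := Nat.find hex - 1) (by omega)
  push Not at this
  exact this

/-- homogeneous blocks, odd characteristic -/
theorem exists_block (h2 : (2 : F) ≠ 0) (hB : Alt B) (hnd : ND (σ := RingHom.id F) B ⊤) (hT : Iso (σ := RingHom.id F) B T)
    (hnil : IsNilpotent (T - 1)) {W : Submodule F V} (hW : Inv T W) (hWnd : ND (σ := RingHom.id F) B W) (hne : W ≠ ⊥) :
    ∃ k, 0 < k ∧ ∃ U ≤ W, Inv T U ∧ ND (σ := RingHom.id F) B U ∧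
      ((Even k ∧ Typ (T - 1) U {k}) ∨ (Odd k ∧ Typ (T - 1) U {k, k})) := by
  obtain ⟨k, hk, hN, x₀, hx₀, hx₀'⟩ := exists_index hnil hne
  have hNW : Inv (T - 1) W := by
    have := ElusiveUni.inv_sub_smul_iff (T := T) (y := (1 : F)) (W := W)
    rw [one_smul] at this
    exact this.mpr hW
  have hpos : ∀ x ∈ W, ((T - 1) ^ (k - 1)) x ∈ W := fun x hx => map_pow_le hNW _ ⟨x, hx, rfl⟩
  obtain ⟨y₀, hy₀, hxy⟩ : ∃ y ∈ W, B (((T - 1) ^ (k - 1)) x₀) y ≠ 0 := by
    by_contra hcon
    push Not at hcon
    exact hx₀' (hWnd _ (hpos _ hx₀) hcon)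
  have hsym : ∀ x ∈ W, ∀ y, B (((T - 1) ^ (k - 1)) y) x = (-1) ^ k * B (((T - 1) ^ (k - 1)) x) y := by
    intro x hx y
    have h1 := top_eq hnd hT hW hN (a := 0) (b := k - 1) (by omega) (x := x) (y := y) hx
    rw [pow_zero, Module.End.one_apply] at h1
    rw [hB.skew, h1]
    have : (-1 : F) ^ k = (-1) ^ (k - 1) * (-1) := by
      rw [← pow_succ, show k - 1 + 1 = k by omega]
    rw [this]; ring
  rcases Nat.even_or_odd k with he | ho
  · -- a vector with nonzero value
    obtain ⟨x, hx, hxx⟩ : ∃ x ∈ W, B (((T - 1) ^ (k - 1)) x) x ≠ 0 := by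
      by_contra hcon
      push Not at hcon
      have h1 := hcon (x₀ + y₀) (W.add_mem hx₀ hy₀)
      simp only [map_add, LinearMap.add_apply] at h1
      rw [hcon x₀ hx₀, hcon y₀ hy₀, hsym x₀ hx₀ y₀, he.neg_one_pow, one_mul] at h1
      have h3 : 2 * B (((T - 1) ^ (k - 1)) x₀) y₀ = 0 := by linear_combination h1
      exact hxy ((mul_eq_zero.mp h3).resolve_left h2)
    have hx0 : x ≠ 0 := by
      rintro rfl
      exact hxx (map_zero _)
    have hX : Submodule.span F {x} ≤ W := by rw [Submodule.span_singleton_le_iff_mem]; exact hx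
    have hβ : ∀ z ∈ Submodule.span F {x}, (∀ y ∈ Submodule.span F {x}, B (((T - 1) ^ (k - 1)) z) y = 0) → z = 0 := by
      intro z hz h
      obtain ⟨c, rfl⟩ := Submodule.mem_span_singleton.mp hz
      have h3 := h x (Submodule.mem_span_singleton_self x)
      rw [map_smul, map_smul, LinearMap.smul_apply, smul_eq_mul] at h3
      rw [(mul_eq_zero.mp h3).resolve_right hxx, zero_smul]
    obtain ⟨h3, h4⟩ := gen_nd hB hnd hT hX hN hk hβ
    have h5 := gen_typ hX hN hk hβ
    rw [finrank_span_singleton hx0] at h5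
    exact ⟨k, hk, _, gen_le hX hNW, h3, h4, Or.inl ⟨he, by simpa using h5⟩⟩
  · have halt : ∀ x ∈ W, B (((T - 1) ^ (k - 1)) x) x = 0 := by
      intro x hx
      have h1 := hsym x hx x
      rw [ho.neg_one_pow] at h1
      have h3 : 2 * B (((T - 1) ^ (k - 1)) x) x = 0 := by linear_combination h1
      exact (mul_eq_zero.mp h3).resolve_left h2
    have hyx : B (((T - 1) ^ (k - 1)) y₀) x₀ ≠ 0 := by
      rw [hsym x₀ hx₀ y₀]
      exact mul_ne_zero (pow_ne_zero _ (neg_ne_zero.mpr one_ne_zero)) hxy
    have hX : Submodule.span F {x₀, y₀} ≤ W := by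
      rw [Submodule.span_le]
      rintro z (rfl | rfl)
      · exact hx₀
      · exact hy₀
    have hxm : x₀ ∈ Submodule.span F {x₀, y₀} := Submodule.subset_span (by simp)
    have hym : y₀ ∈ Submodule.span F {x₀, y₀} := Submodule.subset_span (by simp)
    have hβ : ∀ z ∈ Submodule.span F {x₀, y₀}, (∀ y ∈ Submodule.span F {x₀, y₀}, B (((T - 1) ^ (k - 1)) z) y = 0) → z = 0 := by
      intro z hz h
      obtain ⟨a, b, rfl⟩ := Submodule.mem_span_pair.mp hz
      have h3 := h x₀ hxm
      have h4 := h y₀ hym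
      simp only [map_add, map_smul, LinearMap.add_apply, LinearMap.smul_apply, smul_eq_mul, halt x₀ hx₀, halt y₀ hy₀, mul_zero,
        zero_add, add_zero] at h3 h4
      rw [(mul_eq_zero.mp h3).resolve_right hyx, (mul_eq_zero.mp h4).resolve_right hxy, zero_smul, zero_smul, add_zero]
    have hli : finrank F (Submodule.span F {x₀, y₀}) = 2 := by
      have hl : LinearIndependent F ![x₀, y₀] := by
        rw [LinearIndependent.pair_iff]
        intro a b hab
        have h3 : B (((T - 1) ^ (k - 1)) (a • x₀ + b • y₀)) x₀ = 0 := by rw [hab, map_zero, map_zero, LinearMap.zero_apply]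
        have h4 : B (((T - 1) ^ (k - 1)) (a • x₀ + b • y₀)) y₀ = 0 := by rw [hab, map_zero, map_zero, LinearMap.zero_apply]
        simp only [map_add, map_smul, LinearMap.add_apply, LinearMap.smul_apply, smul_eq_mul, halt x₀ hx₀, halt y₀ hy₀, mul_zero,
          zero_add, add_zero] at h3 h4
        exact ⟨(mul_eq_zero.mp h4).resolve_right hxy, (mul_eq_zero.mp h3).resolve_right hyx⟩
      have hr : Set.range ![x₀, y₀] = {x₀, y₀} := by
        rw [Matrix.range_cons, Matrix.range_cons, Matrix.range_empty, Set.union_empty, Set.singleton_union]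
      rw [← hr, finrank_span_eq_card hl, Fintype.card_fin]
    obtain ⟨h3, h4⟩ := gen_nd hB hnd hT hX hN hk hβ
    have h5 := gen_typ hX hN hk hβ
    rw [hli] at h5
    exact ⟨k, hk, _, gen_le hX hNW, h3, h4, Or.inr ⟨ho, by simpa [Multiset.replicate_succ] using h5⟩⟩

lemma invN_iff {W : Submodule F V} : Inv (T - 1) W ↔ Inv T W := by
  have := ElusiveUni.inv_sub_smul_iff (T := T) (y := (1 : F)) (W := W)
  rwa [one_smul] at this

/-- parity of the type, and subspaces of given subtype -/
theorem type_split [Finite F] (h2 : (2 : F) ≠ 0) (hB : Alt B) (hnd : ND (σ := RingHom.id F) B ⊤) (hT : Iso (σ := RingHom.id F) B T)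
    (hnil : IsNilpotent (T - 1)) : ∀ (n : ℕ) (W : Submodule F V), finrank F W = n → Inv T W → ND (σ := RingHom.id F) B W →
    ∀ μ, Typ (T - 1) W μ → (∀ a : ℕ, Odd a → Even (μ.count a)) ∧
      ∀ ν ≤ μ, (∀ a : ℕ, Odd a → Even (ν.count a)) → ∃ U ≤ W, Inv T U ∧ ND (σ := RingHom.id F) B U ∧ finrank F U = ν.sum := by
  classical
  intro n
  induction n using Nat.strong_induction_on with
  | _ n ih =>
    intro W hWn hW hWnd μ hμ
    by_cases hne : W = ⊥
    · subst hne
      have h1 := hμ.finrank_eq
      rw [finrank_bot] at h1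
      have h3 : μ = 0 := by
        rw [Multiset.eq_zero_iff_forall_notMem]
        intro a ha
        have h4 := Multiset.sum_eq_zero_iff.mp h1.symm a ha
        rw [h4] at ha
        exact hμ.1 ha
      subst h3
      refine ⟨fun a _ => by simp, fun ν hν _ => ⟨⊥, le_rfl, hW, hWnd, ?_⟩⟩
      rw [Multiset.le_zero.mp hν]; simp
    obtain ⟨k, hk, U, hUW, hU, hUnd, hty⟩ := exists_block h2 hB hnd hT hnil hW hWnd hne
    obtain ⟨g1, g2, g3, g4⟩ := split_nd hB.refl hWnd hUnd hUW
    have hW₁ := inf_perp_inv hnd hT hW hU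
    obtain ⟨μ₁, hμ₁⟩ := exists_typ hnil (invN_iff.mpr hW₁)
    -- both cases
    have key : ∀ κ : Multiset ℕ, Typ (T - 1) U κ → 0 < κ.sum → (∀ a : ℕ, Odd a → Even (κ.count a)) →
        (∀ ν ≤ μ, (∀ a : ℕ, Odd a → Even (ν.count a)) → κ ≤ ν ∨ ν ≤ μ₁) →
        (∀ a : ℕ, Odd a → Even (μ.count a)) ∧
        ∀ ν ≤ μ, (∀ a : ℕ, Odd a → Even (ν.count a)) → ∃ U ≤ W, Inv T U ∧ ND (σ := RingHom.id F) B U ∧ finrank F U = ν.sum := by
      intro κ hκ hκ0 hκp hsplit
      have hsum := hκ.sup (invN_iff.mpr hU) (invN_iff.mpr hW₁) g2 hμ₁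
      rw [g1] at hsum
      have hμe := hμ.unique hsum
      obtain ⟨ih1, ih2⟩ := ih _ (by rw [← hWn, ← g3, hκ.finrank_eq]; omega) (W ⊓ perp (σ := RingHom.id F) B U) rfl hW₁ g4 μ₁ hμ₁
      refine ⟨fun a ha => ?_, fun ν hν hνp => ?_⟩
      · rw [hμe, Multiset.count_add]; exact (hκp a ha).add (ih1 a ha)
      · rcases hsplit ν hν hνp with h | h
        · obtain ⟨ν₁, rfl⟩ := Multiset.le_iff_exists_add.mp h
          have hν₁ : ν₁ ≤ μ₁ := by rw [hμe] at hν; exact Multiset.add_le_add_iff_left.mp hν
          obtain ⟨U', hU'W, hU', hU'nd, hU'f⟩ := ih2 ν₁ hν₁ (fun a ha => by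
            have h3 := hνp a ha
            rw [Multiset.count_add] at h3
            exact (Nat.even_add.mp h3).mp (hκp a ha))
          refine ⟨U ⊔ U', sup_le hUW (hU'W.trans inf_le_left), inv_sup hU hU', nd_sup hB.refl hUnd hU'nd (fun u hu v hv => (hU'W hv).2 u hu), ?_⟩
          have h5 := Submodule.finrank_sup_add_finrank_inf_eq U U'
          rw [disjoint_iff.mp (g2.mono_right hU'W), finrank_bot] at h5
          rw [Multiset.sum_add, ← hU'f, ← hκ.finrank_eq]; omega
        · obtain ⟨U', hU'W, hU', hU'nd, hU'f⟩ := ih2 ν h hνp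
          exact ⟨U', hU'W.trans inf_le_left, hU', hU'nd, hU'f⟩
    have hμe : ∀ κ : Multiset ℕ, Typ (T - 1) U κ → μ = κ + μ₁ := by
      intro κ hκ
      have hsum := hκ.sup (invN_iff.mpr hU) (invN_iff.mpr hW₁) g2 hμ₁
      rw [g1] at hsum
      exact hμ.unique hsum
    rcases hty with ⟨he, hty⟩ | ⟨ho, hty⟩
    · apply key {k} hty (by simpa using hk)
      · intro a ha
        have : a ≠ k := by
          rintro rfl
          exact (Nat.not_even_iff_odd.mpr ha) he
        rw [Multiset.count_singleton, if_neg this]; simp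
      · intro ν hν _
        by_cases hkν : k ∈ ν
        · left; rw [Multiset.singleton_le]; exact hkν
        · right
          rw [Multiset.le_iff_count]
          intro a
          have h3 := Multiset.count_le_of_le a hν
          rw [hμe _ hty, Multiset.count_add, Multiset.count_singleton] at h3
          by_cases hak : a = k
          · rw [hak, Multiset.count_eq_zero_of_notMem hkν]; exact Nat.zero_le _
          · rw [if_neg hak, zero_add] at h3; exact h3
    · apply key {k, k} hty (by simp; omega)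
      · intro a _
        by_cases hak : a = k
        · rw [hak]
          simp [Multiset.count_cons]
        · simp [Multiset.count_cons, hak]
      · intro ν hν hνp
        by_cases hkν : k ∈ ν
        · left
          have h3 : 0 < ν.count k := Multiset.count_pos.mpr hkν
          obtain ⟨c, hc⟩ := hνp k ho
          rw [Multiset.le_iff_count]
          intro a
          by_cases hak : a = k
          · rw [hak]
            have : Multiset.count k {k, k} = 2 := by simp [Multiset.count_cons]
            rw [this]; omega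
          · have : Multiset.count a {k, k} = 0 := by simp [Multiset.count_cons, hak]
            rw [this]; exact Nat.zero_le _
        · right
          rw [Multiset.le_iff_count]
          intro a
          have h3 := Multiset.count_le_of_le a hν
          rw [hμe _ hty, Multiset.count_add] at h3
          by_cases hak : a = k
          · rw [hak, Multiset.count_eq_zero_of_notMem hkν]; exact Nat.zero_le _
          · have : Multiset.count a {k, k} = 0 := by simp [Multiset.count_cons, hak]
            rw [this, zero_add] at h3; exact h3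

end blocks

end Cfsg.Agent.Lib.SpND
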