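import Mathlib
import Cfsg.Agent.Lib.SpND2

/-! The criterion for unipotent elements in odd characteristic. (helper99) -/

set_option autoImplicit false

namespace Cfsg.Agent.Lib.SpND

open Polynomial Module Cfsg.Agent.Lib.InvSub Cfsg.Agent.Lib.JordanNil Cfsg.Agent.Lib.Sesq

universe u

section typ

variable {F : Type u} [Field F] {V : Type u} [AddCommGroup V] [Module F V]

lemma typ_of_hasType [FiniteDimensional F V] {f : Module.End F V} {μ : Multiset ℕ} (h : FXType.HasType f (FormJordan2.uni F μ)) (h0 : 0 ∉ μ) :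
    Typ (f - 1) ⊤ μ ∧ finrank F V = μ.sum := by
  classical
  have hX1 : (X - 1 : F[X]) = X - C 1 := by rw [C_1]
  have hmon : (X - 1 : F[X]).Monic := by rw [hX1]; exact monic_X_sub_C 1
  have hirr : Irreducible (X - 1 : F[X]) := by rw [hX1]; exact irreducible_X_sub_C 1
  have hdeg : (X - 1 : F[X]).natDegree = 1 := by rw [hX1]; exact natDegree_X_sub_C 1
  have hfin : finrank F V = μ.sum := by
    rw [h.finrank, FormJordan2.uni, Multiset.map_map]
    simp [hdeg]
  refine ⟨⟨h0, fun j => ?_⟩, hfin⟩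
  have h1 := h.finrank_ker ((X - 1) ^ j)
  rw [FormJordan2.uni, Multiset.map_map] at h1
  have h2 : aeval f ((X - 1 : F[X]) ^ j) = (f - 1) ^ j := by
    rw [map_pow, map_sub, aeval_X, map_one]
  rw [h2] at h1
  have h3 : (μ.map ((fun d : F[X] × ℕ => FXType.gdeg ((X - 1 : F[X]) ^ j) (d.1 ^ d.2)) ∘ fun k => ((X - 1 : F[X]), k))).sum =
      (μ.map (fun k => min j k)).sum := by
    congr 1
    apply Multiset.map_congr rfl
    intro k _
    change FXType.gdeg ((X - 1 : F[X]) ^ j) ((X - 1 : F[X]) ^ k) = _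
    rw [FXType.natDegree_gcd_pow _ _ hmon hirr hmon hirr, if_pos rfl, hdeg, one_mul]
  rw [h3] at h1
  have h4 := LinearMap.finrank_range_add_finrank_ker ((f - 1) ^ j)
  rw [← LinearMap.range_eq_map]
  have h5 : (μ.map (fun b => b - j)).sum + (μ.map (fun k => min j k)).sum = μ.sum := by
    rw [← Multiset.sum_map_add]
    have : (fun i => i - j + min j i) = (id : ℕ → ℕ) := by funext i; simp only [id]; omega
    rw [this, Multiset.map_id]
  omega

lemma typ_congr {W : Type*} [AddCommGroup W] [Module F W] {N : Module.End F V} {N' : Module.End F W} (g : V ≃ₗ[F] W)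
    (hg : ∀ x, g (N x) = N' (g x)) {μ : Multiset ℕ} (h : Typ N ⊤ μ) : Typ N' ⊤ μ := by
  refine ⟨h.1, fun j => ?_⟩
  rw [← h.2 j]
  have hj : ∀ (j : ℕ) (x : V), g ((N ^ j) x) = (N' ^ j) (g x) := by
    intro j
    induction j with
    | zero => intro x; rfl
    | succ j ih => intro x; rw [pow_succ, pow_succ, Module.End.mul_apply, Module.End.mul_apply, ih, hg]
  have : (⊤ : Submodule F W).map (N' ^ j) = ((⊤ : Submodule F V).map (N ^ j)).map (g : V →ₗ[F] W) := by
    ext y
    constructor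
    · rintro ⟨w, -, rfl⟩
      exact ⟨(N ^ j) (g.symm w), ⟨g.symm w, trivial, rfl⟩, by
        rw [LinearEquiv.coe_coe, hj, LinearEquiv.apply_symm_apply]⟩
    · rintro ⟨_, ⟨v, -, rfl⟩, rfl⟩
      exact ⟨g v, trivial, by rw [LinearEquiv.coe_coe, hj]⟩
  rw [this]
  exact LinearEquiv.finrank_map_eq g _

end typ

section main

variable {F : Type u} [Field F] [Fintype F] {p : ℕ} [Fact p.Prime] [CharP F p]

/-- unipotent symplectic isometries of given type -/
theorem exists_unip_symp {d : ℕ} {μ : Multiset ℕ} (hpos : ∀ a ∈ μ, 0 < a) (hpar : ∀ a : ℕ, Odd a → Even (μ.count a)) (hsum : μ.sum = 2 * d) :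
    ∃ T : Module.End F (Fin d ⊕ Fin d → F), Iso (σ := RingHom.id F) (AltSim.JB (F := F) d) T ∧ Typ (T - 1) ⊤ μ := by
  obtain ⟨V, i1, i2, B, f, hB, hnd, hf, hty⟩ := FormJordan3.SReal_of_parity (F := F) μ hpos hpar
  have h0 : 0 ∉ μ := fun h => (hpos 0 h).ne rfl
  have hfd : FiniteDimensional F V := hty.finiteDimensional
  obtain ⟨h1, h2⟩ := typ_of_hasType hty h0
  obtain ⟨g, hg⟩ := AltForm.exists_isometry B hB hnd (AltSim.JB (F := F) d) (jb_alt d)
    (fun v h => jb_nd d v trivial (fun w _ => h w)) (by rw [finrank_jb, h2, hsum])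
  refine ⟨(g : V →ₗ[F] _) ∘ₗ f ∘ₗ (g.symm : _ →ₗ[F] V), ?_, ?_⟩
  · intro x y
    simp only [LinearMap.comp_apply, LinearEquiv.coe_coe]
    rw [hg, hf, ← hg, LinearEquiv.apply_symm_apply, LinearEquiv.apply_symm_apply]
  · apply typ_congr g _ h1
    intro x
    simp only [LinearMap.sub_apply, LinearMap.comp_apply, LinearEquiv.coe_coe, LinearEquiv.symm_apply_apply, map_sub,
      Module.End.one_apply]

lemma pow_sub_one {V : Type*} [AddCommGroup V] [Module F V] (T : Module.End F V) : (T - 1) ^ p = T ^ p - 1 := by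
  have := ElusiveUni.sub_smul_pow (p := p) T (1 : F)
  rwa [one_pow, one_smul] at this

theorem unip_iff (hp2 : 2 < p) {d m : ℕ} (hm2 : 2 ≤ m) (hme : Even m) (hmd : m < d) :
    (∀ T : Module.End F (Fin d ⊕ Fin d → F), Iso (σ := RingHom.id F) (AltSim.JB (F := F) d) T → T ^ p = 1 → T ≠ 1 →
      Fixes (AltSim.JB (F := F) d) T m) ↔
    (∀ μ : Multiset ℕ, (∀ a ∈ μ, 0 < a ∧ a ≤ p) → (∀ a : ℕ, Odd a → Even (μ.count a)) → μ.sum = 2 * d →
        ∃ ν : Multiset ℕ, ν ≤ μ ∧ ν.sum = m ∧ ∀ a : ℕ, Odd a → Even (ν.count a)) := by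
  classical
  have h2 : (2 : F) ≠ 0 := by
    intro h
    have h3 : ((2 : ℕ) : F) = 0 := by exact_mod_cast h
    rw [CharP.cast_eq_zero_iff F p] at h3
    have := Nat.le_of_dvd (by norm_num) h3
    omega
  constructor
  · intro H μ hμ hpar hsum
    obtain ⟨T, hT, hty⟩ := exists_unip_symp (F := F) (fun a ha => (hμ a ha).1) hpar hsum
    have hNp : (T - 1) ^ p = 0 := (hty.pow_eq_zero_iff p).mpr fun b hb => (hμ b hb).2
    have hTp : T ^ p = 1 := by
      rw [pow_sub_one, sub_eq_zero] at hNp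
      exact hNp
    have hnil : IsNilpotent (T - 1) := ⟨p, hNp⟩
    by_cases hT1 : T = 1
    · -- all parts are one
      have h3 : ∀ b ∈ μ, b = 1 := by
        intro b hb
        have h4 : (T - 1) ^ 1 = 0 := by rw [pow_one, hT1, sub_self]
        have h5 := (hty.pow_eq_zero_iff 1).mp h4 b hb
        have h6 := (hμ b hb).1
        omega
      have h4 : μ = Multiset.replicate (2 * d) 1 := by
        rw [Multiset.eq_replicate]
        refine ⟨?_, h3⟩
        rw [← hsum]
        have h5 := Multiset.eq_replicate.mpr ⟨rfl, h3⟩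
        rw [h5]; simp
      refine ⟨Multiset.replicate m 1, ?_, by simp, fun a _ => ?_⟩
      · rw [h4]; exact (Multiset.replicate_le_replicate 1).mpr (by omega)
      · rw [Multiset.count_replicate]; split_ifs
        · exact hme
        · exact Even.zero
    · obtain ⟨W, hW, hWnd, hWf⟩ := H T hT hTp hT1
      obtain ⟨g1, g2, g3, g4⟩ := split_nd (jb_alt (F := F) d).refl (jb_nd d) hWnd le_top
      have hW₁ := inf_perp_inv (jb_nd (F := F) d) hT (W := ⊤) (fun _ _ => trivial) hW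
      obtain ⟨ν, hν⟩ := exists_typ hnil (invN_iff.mpr hW)
      obtain ⟨ν₁, hν₁⟩ := exists_typ hnil (invN_iff.mpr hW₁)
      have h3 := hν.sup (invN_iff.mpr hW) (invN_iff.mpr hW₁) g2 hν₁
      rw [g1] at h3
      have h4 := hty.unique h3
      refine ⟨ν, ?_, by rw [← hν.finrank_eq, hWf], (type_split h2 (jb_alt d) (jb_nd d) hT hnil _ W rfl hW hWnd ν hν).1⟩
      rw [h4]; exact Multiset.le_add_right _ _
  · intro H T hT hTp hT1
    have hNp : (T - 1) ^ p = 0 := by rw [pow_sub_one, hTp, sub_self]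
    have hnil : IsNilpotent (T - 1) := ⟨p, hNp⟩
    obtain ⟨μ, hμ⟩ := exists_typ_top hnil
    have h3 := (hμ.pow_eq_zero_iff p).mp hNp
    have hsplit := type_split h2 (jb_alt (F := F) d) (jb_nd d) hT hnil _ ⊤ rfl (fun _ _ => trivial) (jb_nd d) μ hμ
    obtain ⟨ν, hν, hνs, hνp⟩ := H μ (fun a ha => ⟨Nat.pos_of_ne_zero (fun h0 => hμ.1 (h0 ▸ ha)), h3 a ha⟩) hsplit.1 (by
      rw [← hμ.finrank_eq, finrank_top, finrank_jb])
    obtain ⟨U, -, hU, hUnd, hUf⟩ := hsplit.2 ν hν hνp
    exact ⟨U, hU, hUnd, by rw [hUf, hνs]⟩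

end main

end Cfsg.Agent.Lib.SpND
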