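import Mathlib
import Cfsg.Agent.Lib.SpND3

/-! Involutions of symplectic spaces in characteristic two and invariant nondegenerate subspaces. (helper99) -/

set_option autoImplicit false

namespace Cfsg.Agent.Lib.SpND

open Module Cfsg.Agent.Lib.InvSub Cfsg.Agent.Lib.PrimeOrd Cfsg.Agent.Lib.JordanNil Cfsg.Agent.Lib.Sesq

section two

variable {F V : Type*} [Field F] [CharP F 2] [AddCommGroup V] [Module F V] [FiniteDimensional F V] {B : V →ₗ[F] V →ₗ[F] F}
  {T : Module.End F V}

lemma symm_two (hB : Alt B) (x y : V) : B x y = B y x := by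
  rw [hB.skew]; exact CharTwo.neg_eq _

/-- the quadratic value -/
lemma beta_symm (hB : Alt B) (hT : Iso (σ := RingHom.id F) B T) (hTT : T * T = 1) (x y : V) :
    B ((T - 1) x) y = B ((T - 1) y) x := by
  have h1 : B (T x) y = B (T y) x := by
    have h2 := hT (T x) y
    have h3 : T (T x) = x := congrArg (fun f : Module.End F V => f x) hTT
    rw [h3] at h2
    rw [← h2, symm_two hB]
  simp only [LinearMap.sub_apply, Module.End.one_apply, map_sub]
  rw [h1, symm_two hB x y]

lemma N_sq (hTT : T * T = 1) (x : V) : (T - 1) ((T - 1) x) = 0 := by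
  have h3 : T (T x) = x := congrArg (fun f : Module.End F V => f x) hTT
  simp only [LinearMap.sub_apply, Module.End.one_apply, map_sub, h3]
  have : (2 : F) = 0 := CharTwo.two_eq_zero
  have h4 : x - T x - (T x - x) = (2 : F) • (x - T x) := by rw [two_smul]; abel
  rw [h4, this, zero_smul]

lemma N_inv {W : Submodule F V} (hW : Inv T W) {x : V} (hx : x ∈ W) : (T - 1) x ∈ W := invN_iff.mpr hW x hx

/-- the plane of a vector with non-zero value -/
lemma plane_b (hB : Alt B) (hTT : T * T = 1) {W : Submodule F V} (hW : Inv T W) {v : V} (hv : v ∈ W) (hvv : B ((T - 1) v) v ≠ 0) :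
    Submodule.span F {(T - 1) v, v} ≤ W ∧ Inv T (Submodule.span F {(T - 1) v, v}) ∧
      ND (σ := RingHom.id F) B (Submodule.span F {(T - 1) v, v}) ∧ finrank F (Submodule.span F {(T - 1) v, v}) = 2 := by
  refine ⟨?_, ?_, nd_pair hB hvv, finrank_pair hB hvv⟩
  · rw [Submodule.span_le]
    rintro x (rfl | rfl)
    · exact N_inv hW hv
    · exact hv
  · rw [← invN_iff]
    apply inv_span
    rintro x (rfl | rfl)
    · rw [N_sq hTT]; exact Submodule.zero_mem _
    · exact Submodule.subset_span (by simp)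

/-- non-`a`-type spaces -/
theorem sub_of_b [Finite F] (hB : Alt B) (hnd : ND (σ := RingHom.id F) B ⊤) (hT : Iso (σ := RingHom.id F) B T) (hTT : T * T = 1) :
    ∀ (n : ℕ) (W : Submodule F V), finrank F W = n → Inv T W → ND (σ := RingHom.id F) B W → (∃ v ∈ W, B ((T - 1) v) v ≠ 0) →
      ∀ m, Even m → m ≤ n → ∃ U ≤ W, Inv T U ∧ ND (σ := RingHom.id F) B U ∧ finrank F U = m := by
  intro n
  induction n using Nat.strong_induction_on with
  | _ n ih =>
    intro W hWn hW hWnd hb m hm hmn
    rcases Nat.eq_zero_or_pos m with rfl | hm0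
    · exact ⟨⊥, bot_le, fun x hx => by rw [(Submodule.mem_bot F).mp hx, map_zero]; exact Submodule.zero_mem _,
        fun u hu _ => (Submodule.mem_bot F).mp hu, finrank_bot _ _⟩
    -- choose a good plane
    have good : ∃ v ∈ W, B ((T - 1) v) v ≠ 0 ∧
        ((∃ y ∈ W ⊓ perp (σ := RingHom.id F) B (Submodule.span F {(T - 1) v, v}), B ((T - 1) y) y ≠ 0) ∨
        (∀ y ∈ W ⊓ perp (σ := RingHom.id F) B (Submodule.span F {(T - 1) v, v}), (T - 1) y = 0)) := by
      obtain ⟨v, hv, hvv⟩ := hb
      by_cases h1 : (∃ y ∈ W ⊓ perp (σ := RingHom.id F) B (Submodule.span F {(T - 1) v, v}), B ((T - 1) y) y ≠ 0)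
      · exact ⟨v, hv, hvv, Or.inl h1⟩
      by_cases h2 : (∀ y ∈ W ⊓ perp (σ := RingHom.id F) B (Submodule.span F {(T - 1) v, v}), (T - 1) y = 0)
      · exact ⟨v, hv, hvv, Or.inr h2⟩
      push Not at h1 h2
      obtain ⟨u, hu, hu0⟩ := h2
      obtain ⟨p1, p2, p3, p4⟩ := plane_b hB hTT hW hv hvv
      obtain ⟨g1, g2, g3, g4⟩ := split_nd hB.refl hWnd p3 p1
      have hW' := inf_perp_inv hnd hT hW p2
      obtain ⟨u', hu', huu'⟩ : ∃ u' ∈ W ⊓ perp (σ := RingHom.id F) B (Submodule.span F {(T - 1) v, v}), B ((T - 1) u) u' ≠ 0 := by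
        by_contra hcon
        push Not at hcon
        exact hu0 (g4 _ (N_inv hW' hu) hcon)
      have hvm : v ∈ Submodule.span F {(T - 1) v, v} := Submodule.subset_span (by simp)
      have hNvm : (T - 1) v ∈ Submodule.span F {(T - 1) v, v} := Submodule.subset_span (by simp)
      have o1 : ∀ y ∈ W ⊓ perp (σ := RingHom.id F) B (Submodule.span F {(T - 1) v, v}), B v y = 0 := fun y hy => hy.2 v hvm
      have o2 : ∀ y ∈ W ⊓ perp (σ := RingHom.id F) B (Submodule.span F {(T - 1) v, v}), B ((T - 1) v) y = 0 := fun y hy => hy.2 _ hNvm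
      have o1' : ∀ y ∈ W ⊓ perp (σ := RingHom.id F) B (Submodule.span F {(T - 1) v, v}), B y v = 0 := fun y hy => by
        rw [symm_two hB]; exact o1 y hy
      have o2' : ∀ y ∈ W ⊓ perp (σ := RingHom.id F) B (Submodule.span F {(T - 1) v, v}), B y ((T - 1) v) = 0 := fun y hy => by
        rw [symm_two hB]; exact o2 y hy
      set s := B ((T - 1) v) v with hs
      set t := B ((T - 1) u) u' with ht
      have hs' : B v ((T - 1) v) = s := by rw [symm_two hB]
      have ht' : B ((T - 1) u') u = t := by rw [beta_symm hB hT hTT]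
      have ht'' : B u' ((T - 1) u) = t := by rw [symm_two hB]
      have hNu := N_inv hW' hu
      have hNu' := N_inv hW' hu'
      refine ⟨v + u, W.add_mem hv hu.1, ?_, Or.inl ⟨(t / s) • v + (B u' u / s) • (T - 1) v + u', ⟨?_, ?_⟩, ?_⟩⟩
      · simp only [map_add, LinearMap.add_apply]
        rw [← hs, h1 u hu, o2 u hu, o1' _ hNu, add_zero, add_zero, add_zero]
        exact hvv
      · exact W.add_mem (W.add_mem (W.smul_mem _ hv) (W.smul_mem _ (N_inv hW hv))) hu'.1
      · intro z hz
        obtain ⟨a, b, rfl⟩ := Submodule.mem_span_pair.mp hz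
        have e1 : B ((T - 1) (v + u)) ((t / s) • v + (B u' u / s) • (T - 1) v + u') = 0 := by
          simp only [map_add, map_smul, LinearMap.add_apply, smul_eq_mul]
          rw [← hs, hB ((T - 1) v), o2 _ hu', o1' _ hNu, o2' _ hNu, ← ht]
          have : t / s * s = t := div_mul_cancel₀ t hvv
          simp only [mul_zero, add_zero, zero_add, this]
          exact CharTwo.add_self_eq_zero t
        have e2 : B (v + u) ((t / s) • v + (B u' u / s) • (T - 1) v + u') = 0 := by
          simp only [map_add, map_smul, LinearMap.add_apply, smul_eq_mul]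
          rw [hB v, hs', o1 _ hu', o1' _ hu, o2' _ hu, symm_two hB u u']
          have : B u' u / s * s = B u' u := div_mul_cancel₀ _ hvv
          simp only [mul_zero, add_zero, zero_add, this]
          exact CharTwo.add_self_eq_zero _
        have e3 : ∀ y, B ((T - 1) (v + u)) y = 0 → B (v + u) y = 0 → B (a • (T - 1) (v + u) + b • (v + u)) y = 0 := by
          intro y h1 h2
          rw [map_add, map_smul, map_smul, LinearMap.add_apply, LinearMap.smul_apply, LinearMap.smul_apply, h1, h2, smul_zero,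
            smul_zero, add_zero]
        exact e3 _ e1 e2
      · have e0 : (T - 1) ((t / s) • v + (B u' u / s) • (T - 1) v + u') = (t / s) • (T - 1) v + (T - 1) u' := by
          rw [map_add, map_add, map_smul, map_smul, N_sq hTT, smul_zero, add_zero]
        rw [e0]
        simp only [map_add, map_smul, LinearMap.add_apply, LinearMap.smul_apply, smul_eq_mul]
        rw [← hs, hB ((T - 1) v), o2 _ hu', o1' _ hNu', o2' _ hNu', h1 u' hu']
        have h5 : t / s * (t / s * s) ≠ 0 := by
          rw [div_mul_cancel₀ t hvv]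
          exact mul_ne_zero (div_ne_zero huu' hvv) huu'
        intro h6
        apply h5
        rw [← h6]; ring
    obtain ⟨v, hv, hvv, hcase⟩ := good
    obtain ⟨p1, p2, p3, p4⟩ := plane_b hB hTT hW hv hvv
    obtain ⟨g1, g2, g3, g4⟩ := split_nd hB.refl hWnd p3 p1
    have hW' := inf_perp_inv hnd hT hW p2
    set P := Submodule.span F {(T - 1) v, v} with hP
    have hm2 : 2 ≤ m := by obtain ⟨k, hk⟩ := hm; omega
    have hmev : Even (m - 2) := (Nat.even_sub hm2).mpr (iff_of_true hm even_two)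
    have : ∃ U ≤ W ⊓ perp (σ := RingHom.id F) B P, Inv T U ∧ ND (σ := RingHom.id F) B U ∧ finrank F U = m - 2 := by
      rcases hcase with h | h
      · exact ih (finrank F ↥(W ⊓ perp (σ := RingHom.id F) B P)) (by omega) _ rfl hW' g4 h (m - 2) hmev (by omega)
      · apply exists_fixed_sub hB hnd hT (W := W ⊓ perp (σ := RingHom.id F) B P) _ g4 hmev (by omega)
        intro y hy
        rw [Module.End.mem_eigenspace_iff, one_smul]
        have := h y hy
        rw [LinearMap.sub_apply, Module.End.one_apply, sub_eq_zero] at this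
        exact this
    obtain ⟨U, hUW, hU, hUnd, hUf⟩ := this
    refine ⟨P ⊔ U, sup_le p1 (hUW.trans inf_le_left), inv_sup p2 hU, nd_sup hB.refl p3 hUnd (fun a ha b hb => (hUW hb).2 a ha), ?_⟩
    have h5 := Submodule.finrank_sup_add_finrank_inf_eq P U
    rw [disjoint_iff.mp (g2.mono_right hUW), finrank_bot] at h5
    omega

/-- blocks of dimension four in the `a`-type case -/
lemma block_a (hB : Alt B) (hnd : ND (σ := RingHom.id F) B ⊤) (hT : Iso (σ := RingHom.id F) B T) (hTT : T * T = 1)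
    {W : Submodule F V} (hW : Inv T W) (hWnd : ND (σ := RingHom.id F) B W) (ha : ∀ v ∈ W, B ((T - 1) v) v = 0)
    (hne : ∃ v ∈ W, (T - 1) v ≠ 0) : ∃ U ≤ W, Inv T U ∧ ND (σ := RingHom.id F) B U ∧ finrank F U = 4 := by
  obtain ⟨x₀, hx₀, hx0⟩ := hne
  have hN2 : ∀ x ∈ W, ((T - 1) ^ 2 : Module.End F V) x = 0 := fun x _ => by
    rw [pow_two, Module.End.mul_apply]; exact N_sq hTT x
  obtain ⟨y₀, hy₀, hxy⟩ : ∃ y ∈ W, B ((T - 1) x₀) y ≠ 0 := by
    by_contra hcon
    push Not at hcon
    exact hx0 (hWnd _ (N_inv hW hx₀) hcon)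
  have hyx : B ((T - 1) y₀) x₀ ≠ 0 := by rw [beta_symm hB hT hTT]; exact hxy
  have hX : Submodule.span F {x₀, y₀} ≤ W := by
    rw [Submodule.span_le]
    rintro z (rfl | rfl)
    · exact hx₀
    · exact hy₀
  have hxm : x₀ ∈ Submodule.span F {x₀, y₀} := Submodule.subset_span (by simp)
  have hym : y₀ ∈ Submodule.span F {x₀, y₀} := Submodule.subset_span (by simp)
  have hβ : ∀ z ∈ Submodule.span F {x₀, y₀}, (∀ y ∈ Submodule.span F {x₀, y₀}, B (((T - 1) ^ (2 - 1) : Module.End F V) z) y = 0) → z = 0 := by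
    intro z hz h
    rw [show (2 : ℕ) - 1 = 1 from rfl, pow_one] at h
    obtain ⟨a, b, rfl⟩ := Submodule.mem_span_pair.mp hz
    have h3 := h x₀ hxm
    have h4 := h y₀ hym
    simp only [map_add, map_smul, LinearMap.add_apply, LinearMap.smul_apply, smul_eq_mul, ha x₀ hx₀, ha y₀ hy₀, mul_zero,
      zero_add, add_zero] at h3 h4
    rw [(mul_eq_zero.mp h3).resolve_right hyx, (mul_eq_zero.mp h4).resolve_right hxy, zero_smul, zero_smul, add_zero]
  have hli : finrank F (Submodule.span F {x₀, y₀}) = 2 := by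
    have hl : LinearIndependent F ![x₀, y₀] := by
      rw [LinearIndependent.pair_iff]
      intro a b hab
      have h3 : B ((T - 1) (a • x₀ + b • y₀)) x₀ = 0 := by rw [hab, map_zero, map_zero, LinearMap.zero_apply]
      have h4 : B ((T - 1) (a • x₀ + b • y₀)) y₀ = 0 := by rw [hab, map_zero, map_zero, LinearMap.zero_apply]
      simp only [map_add, map_smul, LinearMap.add_apply, LinearMap.smul_apply, smul_eq_mul, ha x₀ hx₀, ha y₀ hy₀, mul_zero,
        zero_add, add_zero] at h3 h4
      exact ⟨(mul_eq_zero.mp h4).resolve_right hxy, (mul_eq_zero.mp h3).resolve_right hyx⟩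
    have hr : Set.range ![x₀, y₀] = {x₀, y₀} := by
      rw [Matrix.range_cons, Matrix.range_cons, Matrix.range_empty, Set.union_empty, Set.singleton_union]
    rw [← hr, finrank_span_eq_card hl, Fintype.card_fin]
  obtain ⟨h3, h4⟩ := gen_nd (k := 2) hB hnd hT hX hN2 (by norm_num) hβ
  have h5 := gen_typ (k := 2) hX hN2 (by norm_num) hβ
  rw [hli] at h5
  exact ⟨_, gen_le hX (invN_iff.mpr hW), h3, h4, by rw [h5.finrank_eq]; rfl⟩

theorem sub_of_a [Finite F] (hB : Alt B) (hnd : ND (σ := RingHom.id F) B ⊤) (hT : Iso (σ := RingHom.id F) B T) (hTT : T * T = 1) :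
    ∀ (n : ℕ) (W : Submodule F V), finrank F W = n → Inv T W → ND (σ := RingHom.id F) B W → (∀ v ∈ W, B ((T - 1) v) v = 0) →
      ∃ e s, Even e ∧ finrank F W = e + 4 * s ∧ ∀ e' ≤ e, Even e' → ∀ s' ≤ s,
        ∃ U ≤ W, Inv T U ∧ ND (σ := RingHom.id F) B U ∧ finrank F U = e' + 4 * s' := by
  intro n
  induction n using Nat.strong_induction_on with
  | _ n ih =>
    intro W hWn hW hWnd ha
    by_cases hne : ∃ v ∈ W, (T - 1) v ≠ 0
    · obtain ⟨P, p1, p2, p3, p4⟩ := block_a hB hnd hT hTT hW hWnd ha hne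
      obtain ⟨g1, g2, g3, g4⟩ := split_nd hB.refl hWnd p3 p1
      have hW' := inf_perp_inv hnd hT hW p2
      obtain ⟨e, s, he, hes, hsub⟩ := ih (finrank F ↥(W ⊓ perp (σ := RingHom.id F) B P)) (by omega) _ rfl hW' g4 (fun v hv => ha v hv.1)
      refine ⟨e, s + 1, he, by omega, fun e' he' hev' s' hs' => ?_⟩
      rcases Nat.eq_zero_or_pos s' with rfl | hpos
      · obtain ⟨U, hU, h1, h2, h3⟩ := hsub e' he' hev' 0 (Nat.zero_le _)
        exact ⟨U, hU.trans inf_le_left, h1, h2, h3⟩
      · obtain ⟨U, hUW, hU, hUnd, hUf⟩ := hsub e' he' hev' (s' - 1) (by omega)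
        refine ⟨P ⊔ U, sup_le p1 (hUW.trans inf_le_left), inv_sup p2 hU, nd_sup hB.refl p3 hUnd (fun a ha b hb => (hUW hb).2 a ha), ?_⟩
        have h5 := Submodule.finrank_sup_add_finrank_inf_eq P U
        rw [disjoint_iff.mp (g2.mono_right hUW), finrank_bot] at h5
        omega
    · push Not at hne
      refine ⟨finrank F W, 0, even_of_nd hB hWnd, by omega, fun e' he' hev' s' hs' => ?_⟩
      obtain rfl : s' = 0 := by omega
      rw [mul_zero, add_zero]
      apply exists_fixed_sub hB hnd hT _ hWnd hev' he'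
      intro y hy
      rw [Module.End.mem_eigenspace_iff, one_smul]
      have := hne y hy
      rw [LinearMap.sub_apply, Module.End.one_apply, sub_eq_zero] at this
      exact this

/-- the sufficient condition -/
theorem fixes_of_two [Finite F] (hB : Alt B) (hnd : ND (σ := RingHom.id F) B ⊤) (hT : Iso (σ := RingHom.id F) B T) (hTT : T * T = 1)
    {m : ℕ} (hm : Even m) (hmV : m ≤ finrank F V) (hcond : finrank F V % 4 = 2 ∨ m % 4 = 0) : Fixes B T m := by
  by_cases ha : ∀ v ∈ (⊤ : Submodule F V), B ((T - 1) v) v = 0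
  · obtain ⟨e, s, he, hes, hsub⟩ := sub_of_a hB hnd hT hTT _ ⊤ rfl (fun _ _ => trivial) hnd ha
    rw [finrank_top] at hes
    obtain ⟨k, hk⟩ := he
    obtain ⟨l, hl⟩ := hm
    obtain ⟨e', s', he', hs', hev', hes'⟩ : ∃ e' s', e' ≤ e ∧ s' ≤ s ∧ Even e' ∧ m = e' + 4 * s' := by
      by_cases h1 : m ≤ 4 * s
      · refine ⟨m % 4, m / 4, by omega, by omega, ?_, by omega⟩
        rw [Nat.even_iff]; omega
      · refine ⟨m - 4 * s, s, by omega, le_rfl, ?_, by omega⟩
        rw [Nat.even_iff]; omega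
    obtain ⟨U, -, hU, hUnd, hUf⟩ := hsub e' he' hev' s' hs'
    exact ⟨U, hU, hUnd, by rw [hUf, hes']⟩
  · push Not at ha
    obtain ⟨U, -, hU, hUnd, hUf⟩ := sub_of_b hB hnd hT hTT _ ⊤ rfl (fun _ _ => trivial) hnd ha m hm (by rw [finrank_top]; exact hmV)
    exact ⟨U, hU, hUnd, hUf⟩

end two

end Cfsg.Agent.Lib.SpND
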