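import Mathlib
import Cfsg.Agent.Lib.SpND4

/-! The criterion for involutions in characteristic two. (helper99) -/

set_option autoImplicit false

namespace Cfsg.Agent.Lib.SpND

open Module Cfsg.Agent.Lib.InvSub Cfsg.Agent.Lib.PrimeOrd Cfsg.Agent.Lib.JordanNil Cfsg.Agent.Lib.Sesq

section two

variable {F V : Type*} [Field F] [CharP F 2] [AddCommGroup V] [Module F V] [FiniteDimensional F V] {B : V →ₗ[F] V →ₗ[F] F}
  {T : Module.End F V}

lemma rank_le_half (hTT : T * T = 1) {W : Submodule F V} (hW : Inv T W) : 2 * finrank F ↥(W.map (T - 1)) ≤ finrank F W ∧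
    finrank F ↥(W.map (T - 1)) + finrank F ↥(W ⊓ LinearMap.ker (T - 1)) = finrank F W := by
  have h1 := LinearMap.finrank_range_add_finrank_ker ((T - 1).domRestrict W)
  rw [LinearMap.range_domRestrict] at h1
  have h2 : finrank F (LinearMap.ker ((T - 1).domRestrict W)) = finrank F ↥(W ⊓ LinearMap.ker (T - 1)) := by
    have : W ⊓ LinearMap.ker (T - 1) = (LinearMap.ker ((T - 1).domRestrict W)).map W.subtype := by
      ext x
      constructor
      · intro hx; exact ⟨⟨x, hx.1⟩, hx.2, rfl⟩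
      · rintro ⟨y, hy, rfl⟩; exact ⟨y.2, hy⟩
    rw [this, Submodule.finrank_map_subtype_eq]
  rw [h2] at h1
  refine ⟨?_, h1⟩
  have h3 : W.map (T - 1) ≤ W ⊓ LinearMap.ker (T - 1) := by
    rintro _ ⟨x, hx, rfl⟩
    exact ⟨N_inv hW hx, N_sq hTT x⟩
  have h4 := Submodule.finrank_mono h3
  omega

theorem four_dvd_of_fixes [Finite F] (hB : Alt B) (hnd : ND (σ := RingHom.id F) B ⊤) (hT : Iso (σ := RingHom.id F) B T) (hTT : T * T = 1)
    (ha : ∀ v, B ((T - 1) v) v = 0) {d m : ℕ} (hd : finrank F V = 2 * d) (hr : d ≤ finrank F ↥((⊤ : Submodule F V).map (T - 1)))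
    (hfix : Fixes B T m) : m % 4 = 0 := by
  obtain ⟨W, hW, hWnd, hWf⟩ := hfix
  obtain ⟨g1, g2, g3, g4⟩ := split_nd hB.refl hnd hWnd le_top
  have hW' := inf_perp_inv hnd hT (W := ⊤) (fun _ _ => trivial) hW
  set W' := (⊤ : Submodule F V) ⊓ perp (σ := RingHom.id F) B W with hW'def
  obtain ⟨h1, h1'⟩ := rank_le_half hTT hW
  obtain ⟨h2, -⟩ := rank_le_half hTT hW'
  have h3 : (⊤ : Submodule F V).map (T - 1) = W.map (T - 1) ⊔ W'.map (T - 1) := by rw [← Submodule.map_sup, g1]
  have h4 := Submodule.finrank_add_le_finrank_add_finrank (W.map (T - 1)) (W'.map (T - 1))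
  rw [← h3] at h4
  rw [finrank_top] at g3
  have h5 : 2 * finrank F ↥(W.map (T - 1)) = m := by omega
  -- the form on a complement of the kernel
  obtain ⟨X', hX'⟩ := Submodule.exists_isCompl (W ⊓ LinearMap.ker (T - 1))
  set X := W ⊓ X' with hX
  have h6 : (W ⊓ LinearMap.ker (T - 1)) ⊔ X = W := by
    rw [hX, inf_comm W X', ← sup_inf_assoc_of_le _ (inf_le_left : W ⊓ LinearMap.ker (T - 1) ≤ W), hX'.sup_eq_top, top_inf_eq]
  have h7 : (W ⊓ LinearMap.ker (T - 1)) ⊓ X = ⊥ := by
    rw [eq_bot_iff, ← hX'.inf_eq_bot]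
    exact inf_le_inf_left _ inf_le_right
  have h8 := Submodule.finrank_sup_add_finrank_inf_eq (W ⊓ LinearMap.ker (T - 1)) X
  rw [h6, h7, finrank_bot] at h8
  let β : V →ₗ[F] V →ₗ[F] F := B ∘ₗ (T - 1)
  have hβ : ∀ x y, β x y = B ((T - 1) x) y := fun _ _ => rfl
  have hβa : Alt β := fun v => ha v
  have hβX : ND (σ := RingHom.id F) β X := by
    intro x hx hx'
    have h9 : (T - 1) x = 0 := by
      apply hWnd _ (N_inv hW hx.1)
      intro w hw
      rw [← h6] at hw
      obtain ⟨k, hk, y, hy, rfl⟩ := Submodule.mem_sup.mp hw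
      have h10 : (T - 1) k = 0 := hk.2
      rw [map_add, beta_symm hB hT hTT x k, h10, map_zero, LinearMap.zero_apply, zero_add]
      exact hx' y hy
    have : x ∈ (W ⊓ LinearMap.ker (T - 1)) ⊓ X := ⟨⟨hx.1, h9⟩, hx⟩
    rw [h7] at this
    exact (Submodule.mem_bot F).mp this
  obtain ⟨c, hc⟩ := even_of_nd hβa hβX
  omega

/-- the `a`-type involution of maximal rank -/
theorem exists_a_type {d : ℕ} (hd : Even d) : ∃ T : Module.End F (Fin d ⊕ Fin d → F), Iso (σ := RingHom.id F) (AltSim.JB (F := F) d) T ∧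
    T * T = 1 ∧ (∀ v, AltSim.JB (F := F) d ((T - 1) v) v = 0) ∧ d ≤ finrank F ↥((⊤ : Submodule F (Fin d ⊕ Fin d → F)).map (T - 1)) := by
  classical
  obtain ⟨e, he⟩ := hd
  have h0 : finrank F (Fin d → F) = finrank F (Fin e ⊕ Fin e → F) := by simp [he]
  let g : (Fin d → F) ≃ₗ[F] (Fin e ⊕ Fin e → F) := LinearEquiv.ofFinrankEq _ _ h0
  let γ : (Fin d → F) →ₗ[F] (Fin d → F) →ₗ[F] F := (AltSim.JB (F := F) e).compl₁₂ (g : (Fin d → F) →ₗ[F] _) (g : (Fin d → F) →ₗ[F] _)
  have hγ : ∀ x y, γ x y = AltSim.JB (F := F) e (g x) (g y) := fun _ _ => rfl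
  have hγa : ∀ x, γ x x = 0 := fun x => AltSim.JB_alt e _
  have hγs : ∀ x y, γ x y = γ y x := fun x y => symm_two (B := γ) hγa x y
  let pr : (Fin d ⊕ Fin d → F) →ₗ[F] (Fin d → F) := LinearMap.funLeft F F Sum.inr
  let N : Module.End F (Fin d ⊕ Fin d → F) :=
    { toFun := fun x => Sum.elim (fun i => γ (pr x) (Pi.single i 1)) 0
      map_add' := fun x y => by
        funext i
        rcases i with i | i <;> simp
      map_smul' := fun c x => by
        funext i
        rcases i with i | i <;> simp }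
  have hNl : ∀ x i, N x (Sum.inl i) = γ (pr x) (Pi.single i 1) := fun _ _ => rfl
  have hNr : ∀ x i, N x (Sum.inr i) = 0 := fun _ _ => rfl
  have hpr : ∀ x i, pr x i = x (Sum.inr i) := fun _ _ => rfl
  have hprN : ∀ x, pr (N x) = 0 := fun x => by funext i; rw [hpr, hNr]; rfl
  have hJ : ∀ u v : Fin d ⊕ Fin d → F, AltSim.JB (F := F) d u v = ∑ i, (u (Sum.inr i) * v (Sum.inl i) - u (Sum.inl i) * v (Sum.inr i)) := by
    intro u v
    rw [← ClIso.sympForm_apply, ClIso.sympForm, Matrix.toBilin'_apply', AltSim.JB_apply]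
  have hexp : ∀ b c : Fin d → F, γ b c = ∑ i, c i * γ b (Pi.single i 1) := by
    intro b c
    conv_lhs => rw [pi_eq_sum_univ' c]
    simp only [map_sum, map_smul, smul_eq_mul]
  have hBN : ∀ x y, AltSim.JB (F := F) d (N x) y = γ (pr x) (pr y) := by
    intro x y
    rw [hJ, hexp]
    apply Finset.sum_congr rfl
    intro i _
    rw [hNr, hNl, zero_mul, zero_sub, CharTwo.neg_eq, mul_comm]
    rfl
  have hNN : ∀ x, N (N x) = 0 := by
    intro x
    funext i
    rcases i with i | i
    · rw [hNl, hprN, map_zero, LinearMap.zero_apply]; rfl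
    · rfl
  have hsub : (1 + N) - 1 = N := by abel
  refine ⟨1 + N, ?_, ?_, ?_, ?_⟩
  · intro x y
    have e1 : AltSim.JB (F := F) d x (N y) = γ (pr x) (pr y) := by
      rw [symm_two (jb_alt d), hBN, hγs]
    have e2 : AltSim.JB (F := F) d (N x) (N y) = 0 := by rw [hBN, hprN, map_zero]
    simp only [LinearMap.add_apply, Module.End.one_apply, map_add]
    rw [e1, e2, hBN, add_zero]
    have := CharTwo.add_self_eq_zero (γ (pr x) (pr y))
    linear_combination this
  · apply LinearMap.ext
    intro x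
    simp only [Module.End.mul_apply, LinearMap.add_apply, Module.End.one_apply, map_add, hNN, add_zero]
    have : N x + N x = 0 := by
      funext i
      exact CharTwo.add_self_eq_zero _
    rw [add_assoc, this, add_zero]
  · intro v
    rw [hsub, hBN, hγa]
  · rw [hsub, ← LinearMap.range_eq_map]
    have h1 := LinearMap.finrank_range_add_finrank_ker N
    have h2 : LinearMap.ker N ≤ LinearMap.ker pr := by
      intro x hx
      rw [LinearMap.mem_ker] at hx ⊢
      have h3 : ∀ c, γ (pr x) c = 0 := by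
        intro c
        rw [hexp]
        apply Finset.sum_eq_zero
        intro i _
        rw [← hNl, hx]; simp
      have h4 : g (pr x) = 0 := by
        apply AltSim.JB_nondeg e
        intro v
        have := h3 (g.symm v)
        rw [hγ, LinearEquiv.apply_symm_apply] at this
        exact this
      exact (LinearEquiv.map_eq_zero_iff g).mp h4
    have h3 := Submodule.finrank_mono h2
    have h4 := LinearMap.finrank_range_add_finrank_ker pr
    have h5 : LinearMap.range pr = ⊤ := by
      rw [LinearMap.range_eq_top]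
      exact LinearMap.funLeft_surjective_of_injective F F Sum.inr Sum.inr_injective
    rw [h5, finrank_top] at h4
    rw [finrank_jb] at h1 h4
    simp only [Module.finrank_fintype_fun_eq_card, Fintype.card_fin] at h4
    omega

theorem two_iff [Finite F] {d m : ℕ} (hme : Even m) (hm2 : 2 ≤ m) (hmd : m < d) :
    (∀ T : Module.End F (Fin d ⊕ Fin d → F), Iso (σ := RingHom.id F) (AltSim.JB (F := F) d) T → T ^ 2 = 1 → T ≠ 1 →
      Fixes (AltSim.JB (F := F) d) T m) ↔ ((2 * d) % 4 = 2 ∨ m % 4 = 0) := by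
  constructor
  · intro H
    by_cases hd : Even d
    · right
      obtain ⟨T, hT, hTT, ha, hr⟩ := exists_a_type (F := F) hd
      have hT1 : T ≠ 1 := by
        rintro rfl
        rw [sub_self] at hr
        have : (⊤ : Submodule F (Fin d ⊕ Fin d → F)).map (0 : Module.End F (Fin d ⊕ Fin d → F)) = ⊥ := Submodule.map_zero _
        rw [this, finrank_bot] at hr
        omega
      exact four_dvd_of_fixes (jb_alt d) (jb_nd d) hT hTT ha (finrank_jb d) hr (H T hT (by rw [pow_two]; exact hTT) hT1)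
    · left
      rw [Nat.even_iff] at hd
      omega
  · intro hcond T hT hTT hT1
    rw [pow_two] at hTT
    exact fixes_of_two (jb_alt d) (jb_nd d) hT hTT hme (by rw [finrank_jb]; omega) (by rw [finrank_jb]; exact hcond)

end two

end Cfsg.Agent.Lib.SpND
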