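import Mathlib
import Cfsg.Agent.Lib.SpTrans

/-!
# Short root elements in symplectic groups (helper21)
-/

set_option autoImplicit false
set_option linter.unusedSectionVars false
set_option linter.unusedVariables false
set_option linter.unusedSimpArgs false

namespace Cfsg.Agent.Lib.SpSm

open Module Cfsg.Agent.Lib.SpTrans

variable {F V : Type*} [Field F] [AddCommGroup V] [Module F V] {B : V →ₗ[F] V →ₗ[F] F} {M : Subgroup (V ≃ₗ[F] V)}

/-- short root elements -/
def RR (B : V →ₗ[F] V →ₗ[F] F) (M : Subgroup (V ≃ₗ[F] V)) (u r : V) : Prop :=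
  B u r = 0 ∧ ∀ c : F, ∃ t ∈ M, ∀ v, t v = v + c • (B v r • u + B v u • r)

variable (hB : B.IsAlt) (hM : M ≤ isom (fun x y => B x y)) (h2 : (2 : F) ≠ 0)

include hB in
theorem rr_symm {u r : V} (h : RR B M u r) : RR B M r u := by
  refine ⟨by rw [alt_neg hB, h.1, neg_zero], fun c => ?_⟩
  obtain ⟨t, ht, h1⟩ := h.2 c
  exact ⟨t, ht, fun v => by rw [h1, add_comm (B v r • u)]⟩

include hM in
theorem rr_map {u r : V} (h : RR B M u r) {n : V ≃ₗ[F] V} (hn : n ∈ M) : RR B M (n u) (n r) := by
  refine ⟨?_, fun c => ?_⟩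
  · have := hM hn u r
    simp only at this
    rw [this]; exact h.1
  · obtain ⟨t, ht, h1⟩ := h.2 c
    refine ⟨n * t * n⁻¹, mul_mem (mul_mem hn ht) (inv_mem hn), fun v => ?_⟩
    have e1 : n (n⁻¹ v) = v := n.apply_symm_apply v
    have e2 : ∀ z, B (n⁻¹ v) z = B v (n z) := fun z => by
      have := hM hn (n⁻¹ v) z
      simp only [e1] at this
      exact this.symm
    rw [LinearEquiv.mul_apply, LinearEquiv.mul_apply, h1, map_add, map_smul, map_add, map_smul, map_smul, e1, e2, e2]

theorem rr_smul {u r : V} (h : RR B M u r) (d : F) : RR B M u (d • r) := by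
  refine ⟨by rw [map_smul, h.1, smul_zero], fun c => ?_⟩
  obtain ⟨t, ht, h1⟩ := h.2 (c * d)
  refine ⟨t, ht, fun v => ?_⟩
  rw [h1, map_smul, smul_eq_mul]
  module

theorem rr_of {u r : V} {c : F} (hc : c ≠ 0) (h : RR B M u (c • r)) : RR B M u r := by
  have := rr_smul h c⁻¹
  rwa [smul_smul, inv_mul_cancel₀ hc, one_smul] at this

include h2 in
/-- two short root elements whose second vectors are not orthogonal -/
theorem rr_orth {u r r' : V} (hne : B r r' ≠ 0) (h : RR B M u r) (h' : RR B M u r') : u ∈ centres hB M := by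
  intro a
  obtain ⟨t, ht, h1⟩ := h.2 (a / (2 * B r r'))
  obtain ⟨s, hs, h2'⟩ := h'.2 1
  have h3 : s * t = tv B hB u a * (t * s) → tv B hB u a ∈ M := by
    intro h4
    have : tv B hB u a = s * t * (t * s)⁻¹ := by rw [h4, mul_inv_cancel_right]
    rw [this]
    exact mul_mem (mul_mem hs ht) (inv_mem (mul_mem ht hs))
  apply h3
  have e1 : B u u = 0 := hB u
  have e2 : B r r = 0 := hB r
  have e3 : B r' r' = 0 := hB r'
  have e4 : B r u = 0 := by rw [alt_neg hB, h.1, neg_zero]
  have e5 : B r' u = 0 := by rw [alt_neg hB, h'.1, neg_zero]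
  have e6 : B r' r = - B r r' := alt_neg hB _ _
  ext1 v
  rw [LinearEquiv.mul_apply, LinearEquiv.mul_apply, LinearEquiv.mul_apply, tv_apply]
  simp only [h1, h2', map_add, map_smul, LinearMap.add_apply, LinearMap.smul_apply, smul_eq_mul, e1, e2, e3, e4, e5, e6, h.1, h'.1]
  obtain ⟨b, hb⟩ : ∃ b, b = B r r' := ⟨_, rfl⟩
  rw [← hb] at hne ⊢
  match_scalars
  · rfl
  · field_simp
    ring
  · field_simp
    ring
  · field_simp
    ring

include hB in
/-- sums of short root elements -/
theorem rr_add {u r r' : V} (ho : B r r' = 0) (h : RR B M u r) (h' : RR B M u r') : RR B M u (r + r') := by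
  refine ⟨by rw [map_add, h.1, h'.1, add_zero], fun c => ?_⟩
  obtain ⟨t, ht, h1⟩ := h.2 c
  obtain ⟨s, hs, h2⟩ := h'.2 c
  refine ⟨t * s, mul_mem ht hs, fun v => ?_⟩
  have e1 : B u u = 0 := hB u
  have e5 : B r' u = 0 := by rw [alt_neg hB, h'.1, neg_zero]
  have e6 : B r' r = 0 := by rw [alt_neg hB, ho, neg_zero]
  rw [LinearEquiv.mul_apply]
  simp only [h1, h2, map_add, map_smul, LinearMap.add_apply, LinearMap.smul_apply, smul_eq_mul, e1, e5, e6, h.1, h'.1]
  module

include h2 in
theorem rr_self {u : V} (h : RR B M u u) : u ∈ centres hB M := by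
  intro a
  obtain ⟨t, ht, h1⟩ := h.2 (a / 2)
  have : tv B hB u a = t := by
    ext1 v
    rw [tv_apply, h1]
    match_scalars
    · rfl
    · field_simp; ring
  rw [this]; exact ht

include hB in
/-- the commutator of a quadratic element with an involution -/
theorem rr_of_ip {z y p q : V} (hzy : B z y = 1) (hzp : B z p = 0) (hzq : B z q = 0) (hpq : B p q = 0) {lam mu rho : F}
    (hi : ∃ i ∈ M, ∀ x, i x = x - (2 * B x y) • z + (2 * B x z) • y)
    (hν : ∀ c : F, ∃ t ∈ M, ∀ x, t x = x + c • ((lam * B x p + rho * B x q) • p + (mu * B x q + rho * B x p) • q)) :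
    RR B M z ((2 * lam * B y p + 2 * rho * B y q) • p + (2 * mu * B y q + 2 * rho * B y p) • q +
      (2 * lam * B y p * B y p + 2 * mu * B y q * B y q + 4 * rho * B y p * B y q) • z) := by
  have ezz : B z z = 0 := hB z
  have eyy : B y y = 0 := hB y
  have epp : B p p = 0 := hB p
  have eqq : B q q = 0 := hB q
  have eyz : B y z = -1 := by rw [alt_neg hB, hzy]
  have epz : B p z = 0 := by rw [alt_neg hB, hzp, neg_zero]
  have eqz : B q z = 0 := by rw [alt_neg hB, hzq, neg_zero]
  have eqp : B q p = 0 := by rw [alt_neg hB, hpq, neg_zero]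
  have epy : B p y = - B y p := alt_neg hB _ _
  have eqy : B q y = - B y q := alt_neg hB _ _
  refine ⟨?_, fun c => ?_⟩
  · simp only [map_add, map_smul, hzp, hzq, ezz, smul_zero, add_zero]
  · obtain ⟨i, hiM, hi⟩ := hi
    obtain ⟨t, htM, ht⟩ := hν c
    obtain ⟨t', htM', ht'⟩ := hν (-c)
    refine ⟨i * t * i * t', mul_mem (mul_mem (mul_mem hiM htM) hiM) htM', fun v => ?_⟩
    rw [LinearEquiv.mul_apply, LinearEquiv.mul_apply, LinearEquiv.mul_apply]
    simp only [hi, ht, ht', map_add, map_sub, map_smul, LinearMap.add_apply, LinearMap.sub_apply, LinearMap.smul_apply,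
      smul_eq_mul, ezz, eyy, epp, eqq, eyz, epz, eqz, eqp, epy, eqy, hzy, hzp, hzq, hpq]
    match_scalars <;> ring

end Cfsg.Agent.Lib.SpSm
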