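import Mathlib
import Cfsg.Agent.Lib.SpSm1
import Cfsg.Agent.Lib.SpExtH94
import Cfsg.Agent.Lib.SpExtA
import Cfsg.Agent.Lib.OrthDec2H94

/-!
# The normaliser of a quadratic unitary structure in the symplectic group of dimension six (helper21)
-/

set_option autoImplicit false
set_option linter.unusedSectionVars false
set_option linter.unusedVariables false
set_option linter.unusedSimpArgs false

namespace Cfsg.Agent.Lib.SpSm

open QuadraticMap Module Cfsg.Agent.Lib.Quad Cfsg.Agent.Lib.OrthNd Cfsg.Agent.Lib.OrthDecH94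
open Cfsg.Agent.Lib.OrthExtH94 Cfsg.Agent.Lib.SpTrans Cfsg.Agent.Lib.SpExtH94 Cfsg.Agent.Lib.SpExtH94.SKS

variable {F V : Type*} [Field F] [AddCommGroup V] [Module F V]

section iota

variable {α : V →ₗ[F] V →ₗ[F] F}

/-- the involutions attached to hyperbolic pairs -/
theorem exists_iota (hα : α.IsAlt) {p q : V} (hpq : α p q = 1) :
    ∃ σ ∈ isom (fun x y => α x y), ∀ e, σ e = e - (2 * α e q) • p + (2 * α e p) • q := by
  have hqp : α q p = -1 := by rw [alt_neg hα, hpq]
  let π : V →ₗ[F] V := (α.flip q).smulRight p - (α.flip p).smulRight q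
  have hπ : ∀ e, π e = α e q • p - α e p • q := fun e => rfl
  have hππ : ∀ e, π (π e) = π e := by
    intro e
    rw [hπ (π e), hπ e]
    simp only [map_sub, map_smul, LinearMap.sub_apply, LinearMap.smul_apply, hpq, hqp, hα p, hα q, smul_eq_mul,
      show α p p = 0 from hα p, show α q q = 0 from hα q]
    module
  have hadj : ∀ x y, α (π x) y = α x (π y) := by
    intro x y
    rw [hπ, hπ]
    simp only [map_sub, map_smul, LinearMap.sub_apply, LinearMap.smul_apply, smul_eq_mul]
    rw [alt_neg hα p y, alt_neg hα q y]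
    ring
  let g : V →ₗ[F] V := LinearMap.id - (2 : F) • π
  have hg : ∀ e, g e = e - (2 : F) • π e := fun e => rfl
  have hgg : Function.Involutive g := by
    intro e
    rw [hg (g e), hg e, map_sub, map_smul, hππ]
    module
  refine ⟨LinearEquiv.ofInvolutive g hgg, ?_, fun e => ?_⟩
  · intro x y
    change α (g x) (g y) = α x y
    rw [hg, hg]
    simp only [map_sub, map_smul, LinearMap.sub_apply, LinearMap.smul_apply, smul_eq_mul]
    rw [hadj x (π y), hππ, hadj]
    ring
  · change g e = _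
    rw [hg, hπ]
    module

end iota

variable [FiniteDimensional F V] {B : V →ₗ[F] V →ₗ[F] F} {M : Subgroup (V ≃ₗ[F] V)} {κ : V →ₗ[F] V} {ν : F} (k : SKS B κ ν)

include k

theorem u_kz {z : V} (h : κ z = 0) : z = 0 := by
  have h1 := k.sq z
  rw [h, map_zero] at h1
  exact (smul_eq_zero.mp h1.symm).resolve_left k.nu_ne

theorem u_kks (x : V) : B (κ x) x = - B x (κ x) := by rw [k.adj]

/-- the perpendicular space of a nonsingular line -/
theorem u_line {z : V} (hz : B z (κ z) ≠ 0) (n : ℕ) (hn : n + 2 ≤ finrank F V) :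
    ∃ A : Submodule F V, NDs (phi B κ) A ∧ n ≤ finrank F A ∧ ∀ x, x ∈ A ↔ B x z = 0 ∧ B x (κ z) = 0 := by
  have hQ := k.nd_phi
  have htop : NDs (phi B κ) (⊤ : Submodule F V) := by
    rw [NDs, eq_bot_iff]
    rintro x ⟨-, hx⟩
    rw [Submodule.mem_bot]
    apply hQ.eq_zero
    intro y
    exact mem_perp'.1 hx y trivial
  have h1 := nds_cut1 hQ k.two htop (a := z) trivial (by rw [phi_apply]; exact hz)
  have hκz : phi B κ (κ z) ≠ 0 := by
    rw [phi_apply, k.kk]
    exact neg_ne_zero.mpr (mul_ne_zero k.nu_ne hz)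
  have hmem : κ z ∈ (⊤ : Submodule F V) ⊓ perp (phi B κ) (F ∙ z) := by
    rw [mem_cut1]
    refine ⟨trivial, ?_⟩
    rw [k.perp_iff', k.self]
  have h2 := nds_cut1 hQ k.two h1 hmem hκz
  have d1 := finrank_cut1 hQ (A := (⊤ : Submodule F V)) (a := z)
  have d2 := finrank_cut1 hQ (A := (⊤ : Submodule F V) ⊓ perp (phi B κ) (F ∙ z)) (a := κ z)
  rw [finrank_top] at d1
  refine ⟨_, h2, by omega, fun x => ?_⟩
  rw [mem_cut1, mem_cut1]
  constructor
  · rintro ⟨⟨-, h3⟩, h4⟩
    rw [k.perp_iff, k.comm'] at h3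
    rw [polar_comm, k.perp_iff'] at h4
    exact ⟨h4, h3⟩
  · rintro ⟨h3, h4⟩
    refine ⟨⟨trivial, ?_⟩, ?_⟩
    · rw [k.perp_iff, k.comm']; exact h4
    · rw [polar_comm, k.perp_iff']; exact h3

/-- a criterion for normalising elements -/
theorem nrm_of (hfin : 6 ≤ finrank F V) {g : V ≃ₗ[F] V}
    (h : ∀ v, B v (κ v) ≠ 0 → g (κ v) ∈ Submodule.span F {g v, κ (g v)}) : Nrm κ g := by
  have h' : ∀ v, B v (κ v) ≠ 0 → ∃ a b : F, κ (g v) = a • g v + b • g (κ v) := by
    intro v hv
    have hv0 : v ≠ 0 := by rintro rfl; simp at hv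
    obtain ⟨a, b, hab⟩ := Submodule.mem_span_pair.1 (h v hv)
    have hb : b ≠ 0 := by
      rintro rfl
      rw [zero_smul, add_zero, ← map_smul] at hab
      have h1 := g.injective hab
      exact one_ne_zero (k.ks.inj (a := 1) (b := -a) (x := v) (by rw [← h1]; module) hv0).1
    refine ⟨-(b⁻¹ * a), b⁻¹, ?_⟩
    rw [← hab, smul_add, smul_smul, smul_smul, inv_mul_cancel₀ hb]
    module
  obtain ⟨N, hN⟩ : ∃ N : F → F → Submodule F V, ∀ a b x, x ∈ N a b ↔ κ (g x) = a • g x + b • g (κ x) := by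
    refine ⟨fun a b => LinearMap.eqLocus (κ ∘ₗ (g : V →ₗ[F] V)) (a • (g : V →ₗ[F] V) + b • ((g : V →ₗ[F] V) ∘ₗ κ)),
      fun a b x => Iff.rfl⟩
  -- one step
  have step : ∀ v x : V, ∀ a b : F, v ∈ N a b → B v (κ v) ≠ 0 → B x (κ x) ≠ 0 → B v x = 0 → B v (κ x) = 0 →
      B v (κ v) + B x (κ x) ≠ 0 → x ∈ N a b := by
    intro v x a b hv hv0 hx0 h1 h2 h3
    rw [hN] at hv ⊢
    obtain ⟨a', b', h4⟩ := h' x hx0
    have e1 : B x v = 0 := by rw [k.neg', h1, neg_zero]
    have e2 : B x (κ v) = 0 := by rw [k.comm', h2]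
    obtain ⟨a'', b'', h5⟩ := h' (v + x) (by
      rw [map_add, map_add, map_add, LinearMap.add_apply, LinearMap.add_apply, h2, e2]
      intro h0; apply h3; linear_combination h0)
    have h6 : g ((a - a'') • v + (b - b'') • κ v + ((a' - a'') • x + (b' - b'') • κ x)) = 0 := by
      simp only [map_add, map_smul] at h5 ⊢
      rw [hv, h4] at h5
      rw [← sub_eq_zero] at h5
      rw [← h5]; module
    have h7 : (a - a'') • v + (b - b'') • κ v + ((a' - a'') • x + (b' - b'') • κ x) = 0 :=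
      (LinearEquiv.map_eq_zero_iff g).1 h6
    have f1 : B (κ v) x = 0 := by rw [k.adj, h2, neg_zero]
    have f2 : B (κ v) (κ x) = 0 := by rw [k.kk, h1]; simp
    have f3 : B (κ x) v = 0 := by rw [k.adj, e2, neg_zero]
    have f4 : B (κ x) (κ v) = 0 := by rw [k.kk, e1]; simp
    have g1 := congrArg (fun y => B y (κ v)) h7
    have g2 := congrArg (fun y => B y v) h7
    have g3 := congrArg (fun y => B y (κ x)) h7
    have g4 := congrArg (fun y => B y x) h7
    simp only [map_add, map_smul, LinearMap.add_apply, LinearMap.smul_apply, smul_eq_mul, f1, f2, f3, f4, e1, e2, h1, h2,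
      k.self, map_zero, LinearMap.zero_apply, mul_zero, add_zero, zero_add, u_kks k] at g1 g2 g3 g4
    have r1 : a = a'' := sub_eq_zero.mp ((mul_eq_zero.mp g1).resolve_right hv0)
    have r2 : b = b'' := sub_eq_zero.mp ((mul_eq_zero.mp g2).resolve_right (neg_ne_zero.mpr hv0))
    have r3 : a' = a'' := sub_eq_zero.mp ((mul_eq_zero.mp g3).resolve_right hx0)
    have r4 : b' = b'' := sub_eq_zero.mp ((mul_eq_zero.mp g4).resolve_right (neg_ne_zero.mpr hx0))
    rw [h4, r1, r2, r3, r4]
  have hν1 : 1 - ν ≠ 0 := fun h0 => k.ns 1 (by linear_combination h0)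
  -- the second step
  have step2 : ∀ v w : V, ∀ a b : F, v ∈ N a b → B v (κ v) ≠ 0 → B w (κ w) ≠ 0 → B v w = 0 → B v (κ w) = 0 →
      w ∈ N a b ∧ κ w ∈ N a b := by
    intro v w a b hv hv0 hw0 h1 h2
    have s1 : B (κ w) (κ (κ w)) = -(ν * B w (κ w)) := by rw [k.kk]
    have s2 : B v (κ (κ w)) = 0 := by rw [k.sq, map_smul, h1, smul_zero]
    by_cases hc : B v (κ v) + B w (κ w) ≠ 0 ∧ B v (κ v) - ν * B w (κ w) ≠ 0
    · refine ⟨step v w a b hv hv0 hw0 h1 h2 hc.1, step v (κ w) a b hv hv0 ?_ h2 s2 ?_⟩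
      · rw [s1]; exact neg_ne_zero.mpr (mul_ne_zero k.nu_ne hw0)
      · rw [s1, ← sub_eq_add_neg]; exact hc.2
    · have hc' : B v (κ v) + (1 - ν) * B w (κ w) ≠ 0 := by
        intro h0
        apply hc
        refine ⟨fun h3 => ?_, fun h3 => ?_⟩
        · have : ν * B w (κ w) = 0 := by linear_combination h3 - h0
          exact (mul_ne_zero k.nu_ne hw0) this
        · have : B w (κ w) = 0 := by linear_combination h0 - h3
          exact hw0 this
      have s3 : ∀ ε : F, ε * ε = 1 → B (w + ε • κ w) (κ (w + ε • κ w)) = (1 - ν) * B w (κ w) := by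
        intro ε hε
        simp only [map_add, map_smul, LinearMap.add_apply, LinearMap.smul_apply, smul_eq_mul, k.kk, k.sq, k.self,
          k.adj (w)]
        linear_combination -(ν * B w (κ w)) * hε
      have s4 : ∀ ε : F, ε * ε = 1 → w + ε • κ w ∈ N a b := by
        intro ε hε
        refine step v _ a b hv hv0 ?_ ?_ ?_ ?_
        · rw [s3 ε hε]; exact mul_ne_zero hν1 hw0
        · rw [map_add, map_smul, h1, h2]; simp
        · rw [map_add, map_smul, map_add, map_smul, h2, s2]; simp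
        · rw [s3 ε hε]; exact hc'
      have t1 := s4 1 (by ring)
      have t2 := s4 (-1) (by ring)
      rw [one_smul] at t1
      rw [neg_smul, one_smul, ← sub_eq_add_neg] at t2
      have t3 : (2 : F) • w ∈ N a b := by
        have := (N a b).add_mem t1 t2
        have e : w + κ w + (w - κ w) = (2 : F) • w := by module
        rwa [e] at this
      have t4 : (2 : F) • κ w ∈ N a b := by
        have := (N a b).sub_mem t1 t2
        have e : w + κ w - (w - κ w) = (2 : F) • κ w := by module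
        rwa [e] at this
      exact ⟨(Submodule.smul_mem_iff _ k.two).1 t3, (Submodule.smul_mem_iff _ k.two).1 t4⟩
  -- a nonsingular vector
  have htop : NDs (phi B κ) (⊤ : Submodule F V) := by
    rw [NDs, eq_bot_iff]
    rintro x ⟨-, hx⟩
    rw [Submodule.mem_bot]
    apply k.nd_phi.eq_zero
    intro y
    exact mem_perp'.1 hx y trivial
  obtain ⟨v, -, hv⟩ := exists_nonsing htop (by rw [finrank_top]; omega)
  rw [phi_apply] at hv
  obtain ⟨a, b, hab⟩ := h' v hv
  have hvN : v ∈ N a b := (hN _ _ _).2 hab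
  obtain ⟨A, hA, hAd, hAm⟩ := u_line k hv 1 (by omega)
  obtain ⟨w₁, hw₁A, hw₁⟩ := exists_nonsing hA hAd
  rw [phi_apply] at hw₁
  have hA' : ∀ x ∈ A, B v x = 0 ∧ B v (κ x) = 0 := by
    intro x hx
    obtain ⟨h1, h2⟩ := (hAm x).1 hx
    exact ⟨by rw [k.neg', h1, neg_zero], by rw [k.comm', h2]⟩
  have hw₁N := step2 v w₁ a b hvN hv hw₁ (hA' _ hw₁A).1 (hA' _ hw₁A).2
  have hκv : κ v ∈ N a b := by
    refine (step2 w₁ v a b hw₁N.1 hw₁ hv ?_ ?_).2
    · exact ((hAm w₁).1 hw₁A).1
    · exact ((hAm w₁).1 hw₁A).2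
  have hAN : ∀ x ∈ A, x ∈ N a b := by
    intro x hx
    by_cases h0 : B x (κ x) = 0
    · have e1 : B w₁ (κ x) = B x (κ w₁) := k.comm' _ _
      by_cases h1 : B (x + w₁) (κ (x + w₁)) = 0
      · have h2 : B (x - w₁) (κ (x - w₁)) ≠ 0 := by
          intro h2
          simp only [map_add, map_sub, LinearMap.add_apply, LinearMap.sub_apply, h0, e1] at h1 h2
          have : 2 * B w₁ (κ w₁) = 0 := by linear_combination h1 + h2
          exact (mul_ne_zero k.two hw₁) this
        have hm := A.sub_mem hx hw₁A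
        have h3 := (step2 v _ a b hvN hv h2 (hA' _ hm).1 (hA' _ hm).2).1
        have := (N a b).add_mem h3 hw₁N.1
        rwa [sub_add_cancel] at this
      · have hm := A.add_mem hx hw₁A
        have h3 := (step2 v _ a b hvN hv h1 (hA' _ hm).1 (hA' _ hm).2).1
        have := (N a b).sub_mem h3 hw₁N.1
        rwa [add_sub_cancel_right] at this
    · exact (step2 v x a b hvN hv h0 (hA' _ hx).1 (hA' _ hx).2).1
  have hall : ∀ x, x ∈ N a b := by
    intro x
    have hxA : x - (B x (κ v) / B v (κ v)) • v + (B x v / B v (κ v)) • κ v ∈ A := by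
      rw [hAm]
      constructor
      · simp only [map_add, map_sub, map_smul, LinearMap.add_apply, LinearMap.sub_apply, LinearMap.smul_apply, k.self,
          u_kks k, smul_eq_mul]
        field_simp
        ring
      · simp only [map_add, map_sub, map_smul, LinearMap.add_apply, LinearMap.sub_apply, LinearMap.smul_apply, k.self,
          u_kks k, smul_eq_mul]
        field_simp
        ring
    have h1 := (N a b).sub_mem ((N a b).add_mem (hAN _ hxA) ((N a b).smul_mem (B x (κ v) / B v (κ v)) hvN))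
      ((N a b).smul_mem (B x v / B v (κ v)) hκv)
    convert h1 using 1
    module
  have hb : b ≠ 0 := by
    rintro rfl
    have hv0 : v ≠ 0 := by rintro rfl; simp at hv
    have hgv : g v ≠ 0 := by simpa using hv0
    rw [zero_smul, add_zero] at hab
    exact one_ne_zero (k.ks.inj (a := 1) (b := -a) (x := g v) (by rw [hab]; module) hgv).1
  refine ⟨-(b⁻¹ * a), b⁻¹, fun x => ?_⟩
  rw [(hN _ _ _).1 (hall x), smul_add, smul_smul, smul_smul, inv_mul_cancel₀ hb]
  module

end Cfsg.Agent.Lib.SpSm
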