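import Mathlib
import Cfsg.Agent.Lib.SpSm2

/-!
# The normaliser of a quadratic unitary structure in the symplectic group of dimension six: main theorem (helper21)
-/

set_option autoImplicit false
set_option linter.unusedSectionVars false
set_option linter.unusedVariables false
set_option linter.unusedSimpArgs false

namespace Cfsg.Agent.Lib.SpSm

open QuadraticMap Module Cfsg.Agent.Lib.Quad Cfsg.Agent.Lib.OrthNd Cfsg.Agent.Lib.OrthDecH94
open Cfsg.Agent.Lib.OrthExtH94 Cfsg.Agent.Lib.SpTrans Cfsg.Agent.Lib.SpExtH94 Cfsg.Agent.Lib.SpExtH94.SKS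

variable {F V : Type*} [Field F] [AddCommGroup V] [Module F V]

variable [FiniteDimensional F V] {B : V →ₗ[F] V →ₗ[F] F} {M : Subgroup (V ≃ₗ[F] V)} {κ : V →ₗ[F] V} {ν : F} (k : SKS B κ ν)

include k

theorem u_ns {a b : F} (h : ¬ (a = 0 ∧ b = 0)) : ν * (a * a) - b * b ≠ 0 := by
  intro h0
  apply h
  by_cases ha : a = 0
  · rw [ha] at h0
    exact ⟨ha, mul_self_eq_zero.mp (by linear_combination -h0)⟩
  · exfalso
    apply k.ns (b / a)
    field_simp
    linear_combination -h0

variable (hM : M ≤ isom (fun x y => B x y)) (hN : ∀ x ∈ isom (fun x y => B x y), Nrm κ x → x ∈ M)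

include hN

theorem u_hS : ∀ v, B v (κ v) = 0 → ∀ c : F, tv B k.alt v (c * ν) * tv B k.alt (κ v) (-c) ∈ M := by
  intro v hv c
  refine hN _ (mul_mem (tv_mem_isom k.alt _ _) (tv_mem_isom k.alt _ _)) ⟨0, 1, fun x => ?_⟩
  simp only [LinearEquiv.mul_apply, tv_apply, map_add, map_smul, k.sq, k.adj, hv, smul_eq_mul,
    zero_smul, one_smul, zero_add, neg_zero, mul_zero, add_zero]
  module

/-- the quadratic elements -/
theorem u_el {u : V} (hu : B u (κ u) = 0) (c : F) : ∃ t ∈ M, ∀ x, t x = x + c • ((ν * B x u) • u - B x (κ u) • κ u) := by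
  refine ⟨_, u_hS k hN u hu c, fun x => ?_⟩
  have h1 : B (κ u) u = 0 := by rw [k.adj, hu, neg_zero]
  simp only [LinearEquiv.mul_apply, tv_apply, map_add, map_smul, LinearMap.add_apply, LinearMap.smul_apply, h1, smul_eq_mul]
  module

/-- the involutions -/
theorem u_ip {v : V} (hv : B v (κ v) ≠ 0) : ∃ i ∈ M, ∀ x, i x = x - (2 * B x ((B v (κ v))⁻¹ • κ v)) • v +
    (2 * B x v) • ((B v (κ v))⁻¹ • κ v) := by
  obtain ⟨σ, hσ, h1⟩ := exists_iota k.alt (p := v) (q := (B v (κ v))⁻¹ • κ v) (by
    rw [map_smul, smul_eq_mul, inv_mul_cancel₀ hv])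
  refine ⟨σ, hN σ hσ ⟨0, 1, fun x => ?_⟩, h1⟩
  rw [h1, h1, zero_smul, zero_add, one_smul]
  simp only [map_add, map_sub, map_smul, k.sq, k.adj x, smul_eq_mul]
  module

include hM

/-- conjugates of the involutions -/
theorem u_ip' {v : V} (hv : B v (κ v) ≠ 0) {g : V ≃ₗ[F] V} (hg : g ∈ M) : ∃ i ∈ M, ∀ x, i x =
    x - (2 * B x ((B v (κ v))⁻¹ • g (κ v))) • g v + (2 * B x (g v)) • ((B v (κ v))⁻¹ • g (κ v)) := by
  obtain ⟨i, hi, h1⟩ := u_ip k hN hv
  refine ⟨g * i * g⁻¹, mul_mem (mul_mem hg hi) (inv_mem hg), fun x => ?_⟩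
  have e1 : g (g⁻¹ x) = x := g.apply_symm_apply x
  have e2 : ∀ z, B (g⁻¹ x) z = B x (g z) := fun z => by
    have := hM hg (g⁻¹ x) z
    simp only [e1] at this
    exact this.symm
  rw [LinearEquiv.mul_apply, LinearEquiv.mul_apply, h1, map_add, map_sub, map_smul, map_smul, map_smul, e1, e2, e2]
  simp only [map_smul]

/-- good position -/
theorem u_good (hfin : 6 ≤ finrank F V) (hex : ∃ g ∈ M, ¬ Nrm κ g) : ∃ g ∈ M, ∃ v, B v (κ v) ≠ 0 ∧
    B (g v) (κ (g v)) ≠ 0 ∧ g (κ v) ∉ Submodule.span F {g v, κ (g v)} := by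
  obtain ⟨g, hg, hgN⟩ := hex
  obtain ⟨v₁, hv₁, hgv₁⟩ : ∃ v₁, B v₁ (κ v₁) ≠ 0 ∧ g (κ v₁) ∉ Submodule.span F {g v₁, κ (g v₁)} := by
    by_contra hcon
    push Not at hcon
    exact hgN (nrm_of k hfin hcon)
  have hv₁0 : v₁ ≠ 0 := by rintro rfl; simp at hv₁
  by_cases hA : ∃ s t : F, B (g (s • v₁ + t • κ v₁)) (κ (g (s • v₁ + t • κ v₁))) ≠ 0
  · obtain ⟨s, t, hy⟩ := hA
    have hst : ¬ (s = 0 ∧ t = 0) := by
      rintro ⟨rfl, rfl⟩
      simp at hy
    refine ⟨g, hg, s • v₁ + t • κ v₁, ?_, hy, ?_⟩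
    · have : B (s • v₁ + t • κ v₁) (κ (s • v₁ + t • κ v₁)) = -(ν * (t * t) - s * s) * B v₁ (κ v₁) := by
        simp only [map_add, map_smul, LinearMap.add_apply, LinearMap.smul_apply, smul_eq_mul, k.kk, k.sq, k.self, u_kks k]
        ring
      rw [this]
      exact mul_ne_zero (neg_ne_zero.mpr (u_ns k (fun h => hst ⟨h.2, h.1⟩))) hv₁
    · intro hmem
      obtain ⟨a, b, hab⟩ := Submodule.mem_span_pair.1 hmem
      have hb : b ≠ 0 := by
        rintro rfl
        rw [zero_smul, add_zero, ← map_smul] at hab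
        have h1 := g.injective hab
        have hy0 : s • v₁ + t • κ v₁ ≠ 0 := by
          intro h0
          rw [h0] at hy
          simp at hy
        exact one_ne_zero (k.ks.inj (a := 1) (b := -a) (x := s • v₁ + t • κ v₁) (by rw [← h1]; module) hy0).1
      apply hgv₁
      apply k.ks.mem_of_comb (k.ks.inv_span (g v₁)) (a := -(b * t)) (b := s - a * t)
      · have h1 : -(b * t) • κ (g (κ v₁)) + (s - a * t) • g (κ v₁) = (a * s - t * ν) • g v₁ + (b * s) • κ (g v₁) := by
          have h2 : a • g (s • v₁ + t • κ v₁) + b • κ (g (s • v₁ + t • κ v₁)) - g (κ (s • v₁ + t • κ v₁)) = 0 := by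
            rw [hab, sub_self]
          simp only [map_add, map_smul, k.sq] at h2
          rw [← sub_eq_zero, ← neg_eq_zero, ← h2]
          module
        rw [h1, Submodule.mem_span_pair]
        exact ⟨_, _, rfl⟩
      · rintro ⟨h1, h2⟩
        have ht : t = 0 := by
          have := neg_eq_zero.mp h1
          exact (mul_eq_zero.mp this).resolve_left hb
        rw [ht, mul_zero, sub_zero] at h2
        exact hst ⟨h2, ht⟩
  · push Not at hA
    obtain ⟨i, hi, h1⟩ := u_ip' k hM hN hv₁ hg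
    obtain ⟨z₁, hz₁⟩ : ∃ z₁, z₁ = g v₁ := ⟨_, rfl⟩
    obtain ⟨z₂, hz₂⟩ : ∃ z₂, z₂ = (B v₁ (κ v₁))⁻¹ • g (κ v₁) := ⟨_, rfl⟩
    rw [← hz₁, ← hz₂] at h1
    have h12 : B z₁ z₂ = 1 := by
      have := hM hg v₁ (κ v₁)
      simp only at this
      rw [hz₁, hz₂, map_smul, this, smul_eq_mul, inv_mul_cancel₀ hv₁]
    have h21 : B z₂ z₁ = -1 := by rw [k.neg', h12]
    have f1 : B z₁ (κ z₁) = 0 := by
      have := hA 1 0
      rwa [one_smul, zero_smul, add_zero, ← hz₁] at this
    have f2' : B (g (κ v₁)) (κ (g (κ v₁))) = 0 := by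
      have := hA 0 1
      rwa [one_smul, zero_smul, zero_add] at this
    have f2 : B z₂ (κ z₂) = 0 := by
      rw [hz₂, map_smul, map_smul, map_smul, LinearMap.smul_apply, f2', smul_zero, smul_zero]
    have f3' : B (g v₁) (κ (g (κ v₁))) = 0 := by
      have := hA 1 1
      rw [hz₁] at f1
      simp only [one_smul, map_add, LinearMap.add_apply, f1, f2', add_zero, zero_add, k.comm' (g v₁) (g (κ v₁))] at this
      have h2 : 2 * B (g v₁) (κ (g (κ v₁))) = 0 := by linear_combination this
      exact (mul_eq_zero.mp h2).resolve_left k.two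
    have f3 : B z₁ (κ z₂) = 0 := by
      rw [hz₁, hz₂, map_smul, map_smul, f3', smul_zero]
    have f4 : B z₂ (κ z₁) = 0 := by rw [k.comm', f3]
    -- a nonsingular vector orthogonal to everything
    obtain ⟨l, hl1, hl2, hl3, hl4, hl⟩ : ∃ l, B l z₁ = 0 ∧ B l z₂ = 0 ∧ B l (κ z₁) = 0 ∧ B l (κ z₂) = 0 ∧ B l (κ l) ≠ 0 := by
      have hQ := k.nd_phi
      obtain ⟨W, hW⟩ : ∃ W, W = Submodule.span F {z₁, κ z₁} ⊔ Submodule.span F {z₂, κ z₂} := ⟨_, rfl⟩
      have m1 : z₁ ∈ W := by rw [hW]; exact Submodule.mem_sup_left (Submodule.subset_span (by simp))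
      have m2 : κ z₁ ∈ W := by rw [hW]; exact Submodule.mem_sup_left (Submodule.subset_span (by simp))
      have m3 : z₂ ∈ W := by rw [hW]; exact Submodule.mem_sup_right (Submodule.subset_span (by simp))
      have m4 : κ z₂ ∈ W := by rw [hW]; exact Submodule.mem_sup_right (Submodule.subset_span (by simp))
      have hperp : ∀ l ∈ perp (phi B κ) W, B l z₁ = 0 ∧ B l z₂ = 0 ∧ B l (κ z₁) = 0 ∧ B l (κ z₂) = 0 := by
        intro l hl
        have hl' := mem_perp'.1 hl
        exact ⟨(k.perp_iff' _ _).1 (hl' _ m2), (k.perp_iff' _ _).1 (hl' _ m4), (k.perp_iff _ _).1 (hl' _ m1),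
          (k.perp_iff _ _).1 (hl' _ m3)⟩
      by_contra hcon
      push Not at hcon
      have hts : ∀ l ∈ perp (phi B κ) W, phi B κ l = 0 := by
        intro l hl
        obtain ⟨a, b, c, d⟩ := hperp l hl
        exact hcon l a b c d
      have hle : perp (phi B κ) W ≤ W := by
        conv_rhs => rw [← hQ.perp_perp W]
        intro l hl
        rw [mem_perp]
        intro y hy
        rw [polar, hts _ (Submodule.add_mem _ hy hl), hts _ hl, hts _ hy]; ring
      have hd := hQ.finrank_add_finrank_perp W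
      have hWd : finrank F W ≤ 4 := by
        rw [hW]
        have h1 := finrank_sup_le (Submodule.span F {z₁, κ z₁}) (Submodule.span F {z₂, κ z₂})
        have h2 := finrank_pair_le (F := F) z₁ (κ z₁)
        have h3 := finrank_pair_le (F := F) z₂ (κ z₂)
        omega
      obtain ⟨l, hl, hl0⟩ := Submodule.exists_mem_ne_zero_of_ne_bot (show perp (phi B κ) W ≠ ⊥ by
        intro h0; rw [h0, finrank_bot] at hd; omega)
      obtain ⟨a, b, c, d⟩ := hperp l hl
      apply hl0
      have hlW := hle hl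
      rw [hW] at hlW
      exact SpExtA.nd_pair k f1 f2 (fun h => by
        rw [h21] at h; exact neg_ne_zero.mpr one_ne_zero h.1) hlW a c b d
    have e1 : B z₁ l = 0 := by rw [k.neg', hl1, neg_zero]
    have e2 : B z₁ (κ l) = 0 := by rw [k.comm', hl3]
    have e3 : B z₂ l = 0 := by rw [k.neg', hl2, neg_zero]
    have e4 : B z₂ (κ l) = 0 := by rw [k.comm', hl4]
    have q1 : i (-z₁ + l) = z₁ + l := by
      rw [h1]
      simp only [map_add, map_neg, LinearMap.add_apply, LinearMap.neg_apply, h12, k.self, hl1, hl2]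
      module
    have q2 : i (κ (-z₁ + l)) = -κ z₁ + κ l := by
      rw [h1]
      simp only [map_add, map_neg, LinearMap.add_apply, LinearMap.neg_apply, k.adj, f1, f3, hl3, hl4, e1, e2, e3, e4]
      module
    refine ⟨i, hi, -z₁ + l, ?_, ?_, ?_⟩
    · simp only [map_add, map_neg, LinearMap.add_apply, LinearMap.neg_apply, f1, hl3, e2]
      simpa using hl
    · rw [q1]
      simp only [map_add, map_neg, LinearMap.add_apply, LinearMap.neg_apply, f1, hl3, e2]
      simpa using hl
    · rw [q1, q2]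
      intro hmem
      obtain ⟨a, b, hab⟩ := Submodule.mem_span_pair.1 hmem
      have g1 := congrArg (fun y => B y (κ l)) hab
      have g2 := congrArg (fun y => B y l) hab
      have r1 : B (κ l) l ≠ 0 := by rw [k.adj]; exact neg_ne_zero.mpr hl
      simp only [map_add, map_neg, map_smul, LinearMap.add_apply, LinearMap.neg_apply, LinearMap.smul_apply, smul_eq_mul,
        e2, e1, k.kk, k.self, k.adj z₁, mul_zero, neg_zero, add_zero, zero_add] at g1 g2
      have ha : a = 0 := (mul_eq_zero.mp g1).resolve_right hl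
      have hb : b = 1 := by
        have : (b - 1) * B (κ l) l = 0 := by linear_combination g2
        exact sub_eq_zero.mp ((mul_eq_zero.mp this).resolve_right r1)
      rw [ha, hb, zero_smul, zero_add, one_smul, map_add] at hab
      have h5 : (2 : F) • κ z₁ = 0 := by
        have : κ z₁ + κ l - (-κ z₁ + κ l) = 0 := by rw [hab, sub_self]
        rw [← this]; module
      have h6 : κ z₁ = 0 := (smul_eq_zero.mp h5).resolve_left k.two
      have h7 := u_kz k h6
      rw [h7, map_zero] at h12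
      exact zero_ne_one h12

/-- a nonzero centre -/
theorem u_centre [Finite F] (hfin : 6 ≤ finrank F V) (hex : ∃ g ∈ M, ¬ Nrm κ g) : ∃ z, z ≠ 0 ∧ z ∈ centres k.alt M := by
  obtain ⟨g, hg, v, hv, hgv, hmem⟩ := u_good k hM hN hfin hex
  obtain ⟨i, hi, h1⟩ := u_ip' k hM hN hv hg
  obtain ⟨z, hz⟩ : ∃ z, z = g v := ⟨_, rfl⟩
  obtain ⟨y, hy⟩ : ∃ y, y = (B v (κ v))⁻¹ • g (κ v) := ⟨_, rfl⟩
  rw [← hz, ← hy] at h1
  rw [← hz] at hmem hgv
  have hyz : y ∉ Submodule.span F {z, κ z} := by
    rw [hy]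
    intro h
    exact hmem ((Submodule.smul_mem_iff _ (inv_ne_zero hv)).1 h)
  have hzy : B z y = 1 := by
    have := hM hg v (κ v)
    simp only at this
    rw [hz, hy, map_smul, this, smul_eq_mul, inv_mul_cancel₀ hv]
  have hz0 : z ≠ 0 := by rintro rfl; simp at hgv
  obtain ⟨A, hA, hAd, hAm⟩ := u_line k hgv 4 (by omega)
  -- the component of `y`
  obtain ⟨y', hy'⟩ : ∃ y', y' = y - (B y (κ z) / B z (κ z)) • z + (B y z / B z (κ z)) • κ z := ⟨_, rfl⟩
  have hy'A : y' ∈ A := by
    rw [hAm, hy']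
    constructor
    · simp only [map_add, map_sub, map_smul, LinearMap.add_apply, LinearMap.sub_apply, LinearMap.smul_apply, k.self,
        u_kks k, smul_eq_mul]
      field_simp
      ring
    · simp only [map_add, map_sub, map_smul, LinearMap.add_apply, LinearMap.sub_apply, LinearMap.smul_apply, k.self,
        u_kks k, smul_eq_mul]
      field_simp
      ring
  have hy'0 : y' ≠ 0 := by
    intro h0
    apply hyz
    rw [Submodule.mem_span_pair]
    refine ⟨B y (κ z) / B z (κ z), -(B y z / B z (κ z)), ?_⟩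
    rw [← sub_eq_zero, ← neg_eq_zero, ← h0, hy']
    module
  obtain ⟨u, huA, hu, hyu⟩ := exists_sing_polar k.nd_phi hA (by omega) hy'A hy'0
  rw [phi_apply] at hu
  rw [k.polar_phi] at hyu
  obtain ⟨hzu', hzκu'⟩ := (hAm u).1 huA
  have hzu : B z u = 0 := by rw [k.neg', hzu', neg_zero]
  have hzκu : B z (κ u) = 0 := by rw [k.comm', hzκu']
  have ht : B y (κ u) ≠ 0 := by
    intro h0
    have e1 : B y' (κ u) = B y (κ u) := by
      rw [hy']
      simp only [map_add, map_sub, map_smul, LinearMap.add_apply, LinearMap.sub_apply, LinearMap.smul_apply, hzκu, k.kk, hzu,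
        smul_eq_mul]
      ring
    rw [e1, h0, mul_zero] at hyu
    exact zero_ne_one hyu
  have hrr := rr_of_ip k.alt hzy hzu hzκu hu (lam := ν) (mu := -1) (rho := 0) ⟨i, hi, h1⟩ (by
    intro c
    obtain ⟨t, ht, h2⟩ := u_el k hN hu c
    refine ⟨t, ht, fun x => ?_⟩
    rw [h2]; module)
  obtain ⟨r', hr'⟩ : ∃ r', r' = (2 * ν * B y u) • u - (2 * B y (κ u)) • κ u := ⟨_, rfl⟩
  obtain ⟨c, hc⟩ : ∃ c, c = 2 * ν * B y u * B y u - 2 * B y (κ u) * B y (κ u) := ⟨_, rfl⟩
  have hrr' : RR B M z (r' + c • z) := by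
    convert hrr using 1
    rw [hr', hc]; module
  have hu0 : u ≠ 0 := by rintro rfl; simp at ht
  have hr'0 : r' ≠ 0 := by
    intro h0
    rw [hr'] at h0
    have := (k.ks.inj (a := -(2 * B y (κ u))) (b := 2 * ν * B y u) (x := u) (by rw [← h0]; module) hu0).1
    exact (mul_ne_zero k.two ht) (neg_eq_zero.mp this)
  have hκuA : κ u ∈ A := by
    rw [hAm]
    refine ⟨by rw [k.adj, hzκu', neg_zero], by rw [k.kk, hzu']; simp⟩
  have hr'A : r' ∈ A := by
    rw [hr']
    exact A.sub_mem (A.smul_mem _ huA) (A.smul_mem _ hκuA)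
  obtain ⟨w, hwA, hw, hrw⟩ := exists_sing_polar k.nd_phi hA (by omega) hr'A hr'0
  rw [phi_apply] at hw
  rw [k.polar_phi] at hrw
  obtain ⟨hwz, hwκz⟩ := (hAm w).1 hwA
  have hzw : B z w = 0 := by rw [k.neg', hwz, neg_zero]
  have hzκw : B z (κ w) = 0 := by rw [k.comm', hwκz]
  obtain ⟨h, hh, h2⟩ := u_el k hN hw 1
  have hhz : h z = z := by rw [h2, hzw, hzκw]; simp
  obtain ⟨hr'z, -⟩ := (hAm r').1 hr'A
  have hzr' : B z r' = 0 := by rw [k.neg', hr'z, neg_zero]
  have hrr2 := rr_map hM hrr' hh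
  rw [hhz] at hrr2
  refine ⟨z, hz0, rr_orth k.alt k.two ?_ hrr' hrr2⟩
  rw [h2]
  have e1 : B (r' + c • z) (r' + c • z) = 0 := k.alt _
  simp only [map_add, map_sub, map_smul, LinearMap.add_apply, LinearMap.smul_apply, hzw, hzκw, hzr', hr'z, k.self,
    smul_eq_mul, one_mul, mul_zero, add_zero, zero_add]
  have h5 := u_ns k (a := B r' w) (b := B r' (κ w)) (fun h => by
    rw [h.2, mul_zero] at hrw; exact zero_ne_one hrw)
  intro h0
  apply h5
  linear_combination h0

/-- moving isotropic vectors in general position -/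
theorem u_move (hfin : 6 ≤ finrank F V) {e w : V} (he : B e (κ e) = 0) (hw : B w (κ w) = 0)
    (hne : ¬ (B w e = 0 ∧ B w (κ e) = 0)) (hec : e ∈ centres k.alt M) : w ∈ centres k.alt M := by
  obtain ⟨r, hr⟩ : ∃ r, r = B w e := ⟨_, rfl⟩
  obtain ⟨p, hp⟩ : ∃ p, p = B w (κ e) := ⟨_, rfl⟩
  rw [← hr, ← hp] at hne
  have e1 : B e w = -r := by rw [hr, k.neg']
  have e2 : B e (κ w) = p := by rw [hp, k.comm']
  have e3 : B (κ e) e = 0 := by rw [k.adj, he, neg_zero]
  have e4 : B (κ w) w = 0 := by rw [k.adj, hw, neg_zero]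
  have e5 : B (κ w) e = -p := by rw [k.adj, hp]
  have e6 : B (κ w) (κ e) = -(ν * r) := by rw [k.kk, hr]
  have e7 : B (κ e) w = -p := by rw [k.adj, e2]
  have e8 : B (κ e) (κ w) = ν * r := by rw [k.kk, e1]; ring
  have hdet := u_ns k hne
  -- it suffices to find `s`
  have key : ∀ s, B s (κ s) = 0 → B e (κ s) = 0 → B e s ≠ 0 → B s (κ w) = 0 → B s w ≠ 0 → w ∈ centres k.alt M := by
    intro s h1 h2 h3 h4 h5
    obtain ⟨g₁, hg₁, h6⟩ := k.exists_move1 hM (u_hS k hN) he h1 h2 h3
    obtain ⟨g₂, hg₂, h7⟩ := k.exists_move1 hM (u_hS k hN) h1 hw h4 h5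
    have h8 := centres_map k.alt hM (centres_map k.alt hM hec hg₁) hg₂
    rwa [h6, h7] at h8
  -- the vector
  have key2 : ∀ (α : F) (x : V), α ≠ 0 → B x e = 0 → B x w = 0 → B x (κ e) = 0 → B x (κ w) = 0 →
      B x (κ x) - 2 * α * p * ν * (ν * (r * r) - p * p) = 0 → w ∈ centres k.alt M := by
    intro α x hα x1 x2 x3 x4 hx
    have y1 : B e x = 0 := by rw [k.neg', x1, neg_zero]
    have y2 : B w x = 0 := by rw [k.neg', x2, neg_zero]
    have y3 : B e (κ x) = 0 := by rw [k.comm', x3]
    have y4 : B w (κ x) = 0 := by rw [k.comm', x4]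
    have y5 : B (κ e) x = 0 := by rw [k.adj, y3, neg_zero]
    have y6 : B (κ w) x = 0 := by rw [k.adj, y4, neg_zero]
    have y7 : B (κ e) (κ x) = 0 := by rw [k.kk, y1]; simp
    have y8 : B (κ w) (κ x) = 0 := by rw [k.kk, y2]; simp
    have hrr : B w e = r := hr.symm
    have hpp : B w (κ e) = p := hp.symm
    obtain ⟨s, hs⟩ : ∃ s, s = (α * ν * r) • e - (α * p) • κ e + ((ν * r) • w + p • κ w) + x := ⟨_, rfl⟩
    refine key s ?_ ?_ ?_ ?_ ?_
    · rw [hs]
      simp only [map_add, map_sub, map_smul, LinearMap.add_apply, LinearMap.sub_apply, LinearMap.smul_apply, k.sq, smul_eq_mul,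
        he, hw, e1, e2, e3, e4, e5, e6, e7, e8, x1, x2, x3, x4, y1, y2, y3, y4, y5, y6, y7, y8, k.self, hrr, hpp]
      linear_combination hx
    · rw [hs]
      simp only [map_add, map_sub, map_smul, LinearMap.add_apply, LinearMap.sub_apply, LinearMap.smul_apply, k.sq, smul_eq_mul,
        he, hw, e1, e2, e3, e4, e5, e6, e7, e8, x1, x2, x3, x4, y1, y2, y3, y4, y5, y6, y7, y8, k.self, hrr, hpp]
      ring
    · have : B e s = -(ν * (r * r) - p * p) := by
        rw [hs]
        simp only [map_add, map_sub, map_smul, LinearMap.add_apply, LinearMap.sub_apply, LinearMap.smul_apply, k.sq, smul_eq_mul,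
          he, hw, e1, e2, e3, e4, e5, e6, e7, e8, x1, x2, x3, x4, y1, y2, y3, y4, y5, y6, y7, y8, k.self, hrr, hpp]
        ring
      rw [this]; exact neg_ne_zero.mpr hdet
    · rw [hs]
      simp only [map_add, map_sub, map_smul, LinearMap.add_apply, LinearMap.sub_apply, LinearMap.smul_apply, k.sq, smul_eq_mul,
        he, hw, e1, e2, e3, e4, e5, e6, e7, e8, x1, x2, x3, x4, y1, y2, y3, y4, y5, y6, y7, y8, k.self, hrr, hpp]
      ring
    · have : B s w = -α * (ν * (r * r) - p * p) := by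
        rw [hs]
        simp only [map_add, map_sub, map_smul, LinearMap.add_apply, LinearMap.sub_apply, LinearMap.smul_apply, k.sq, smul_eq_mul,
          he, hw, e1, e2, e3, e4, e5, e6, e7, e8, x1, x2, x3, x4, y1, y2, y3, y4, y5, y6, y7, y8, k.self, hrr, hpp]
        ring
      rw [this]; exact mul_ne_zero (neg_ne_zero.mpr hα) hdet
  by_cases hp0 : p = 0
  · refine key2 1 0 one_ne_zero (by simp) (by simp) (by simp) (by simp) ?_
    rw [hp0]; simp
  · -- a nonsingular vector orthogonal to everything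
    obtain ⟨l, hl1, hl2, hl3, hl4, hl⟩ : ∃ l, B l e = 0 ∧ B l w = 0 ∧ B l (κ e) = 0 ∧ B l (κ w) = 0 ∧ B l (κ l) ≠ 0 := by
      have hQ := k.nd_phi
      obtain ⟨W, hW⟩ : ∃ W, W = Submodule.span F {e, κ e} ⊔ Submodule.span F {w, κ w} := ⟨_, rfl⟩
      have m1 : e ∈ W := by rw [hW]; exact Submodule.mem_sup_left (Submodule.subset_span (by simp))
      have m2 : κ e ∈ W := by rw [hW]; exact Submodule.mem_sup_left (Submodule.subset_span (by simp))
      have m3 : w ∈ W := by rw [hW]; exact Submodule.mem_sup_right (Submodule.subset_span (by simp))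
      have m4 : κ w ∈ W := by rw [hW]; exact Submodule.mem_sup_right (Submodule.subset_span (by simp))
      have hperp : ∀ l ∈ perp (phi B κ) W, B l e = 0 ∧ B l w = 0 ∧ B l (κ e) = 0 ∧ B l (κ w) = 0 := by
        intro l hl
        have hl' := mem_perp'.1 hl
        exact ⟨(k.perp_iff' _ _).1 (hl' _ m2), (k.perp_iff' _ _).1 (hl' _ m4), (k.perp_iff _ _).1 (hl' _ m1),
          (k.perp_iff _ _).1 (hl' _ m3)⟩
      by_contra hcon
      push Not at hcon
      have hts : ∀ l ∈ perp (phi B κ) W, phi B κ l = 0 := by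
        intro l hl
        obtain ⟨a, b, c, d⟩ := hperp l hl
        exact hcon l a b c d
      have hle : perp (phi B κ) W ≤ W := by
        conv_rhs => rw [← hQ.perp_perp W]
        intro l hl
        rw [mem_perp]
        intro y hy
        rw [polar, hts _ (Submodule.add_mem _ hy hl), hts _ hl, hts _ hy]; ring
      have hd := hQ.finrank_add_finrank_perp W
      have hWd : finrank F W ≤ 4 := by
        rw [hW]
        have h1 := finrank_sup_le (Submodule.span F {e, κ e}) (Submodule.span F {w, κ w})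
        have h2 := finrank_pair_le (F := F) e (κ e)
        have h3 := finrank_pair_le (F := F) w (κ w)
        omega
      obtain ⟨l, hl, hl0⟩ := Submodule.exists_mem_ne_zero_of_ne_bot (show perp (phi B κ) W ≠ ⊥ by
        intro h0; rw [h0, finrank_bot] at hd; omega)
      obtain ⟨a, b, c, d⟩ := hperp l hl
      apply hl0
      have hlW := hle hl
      rw [hW] at hlW
      exact SpExtA.nd_pair k he hw (fun h => hne ⟨by rw [hr]; exact h.1, by rw [hp]; exact h.2⟩) hlW a c b d
    have hD : 2 * p * ν * (ν * (r * r) - p * p) ≠ 0 :=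
      mul_ne_zero (mul_ne_zero (mul_ne_zero k.two hp0) k.nu_ne) hdet
    refine key2 (B l (κ l) / (2 * p * ν * (ν * (r * r) - p * p))) l ?_ hl1 hl2 hl3 hl4 ?_
    · exact div_ne_zero hl hD
    · have := div_mul_cancel₀ (B l (κ l)) hD
      linear_combination -this

/-- **The unitary case.** -/
theorem u_main [Finite F] (hfin : finrank F V = 6) (hex : ∃ g ∈ M, ¬ Nrm κ g) : isom (fun x y => B x y) ≤ M := by
  have hQ := k.nd_phi
  have htop : NDs (phi B κ) (⊤ : Submodule F V) := by
    rw [NDs, eq_bot_iff]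
    rintro x ⟨-, hx⟩
    rw [Submodule.mem_bot]
    apply hQ.eq_zero
    intro y
    exact mem_perp'.1 hx y trivial
  obtain ⟨z, hz0, hz⟩ := u_centre k hM hN (by omega) hex
  have hpart : ∀ x : V, x ≠ 0 → ∃ u, B u (κ u) = 0 ∧ B x (κ u) ≠ 0 := by
    intro x hx
    obtain ⟨u, -, hu, hxu⟩ := exists_sing_polar hQ htop (by rw [finrank_top]; omega) (x := x) trivial hx
    rw [k.polar_phi] at hxu
    exact ⟨u, hu, fun h0 => by rw [h0, mul_zero] at hxu; exact zero_ne_one hxu⟩
  -- a singular centre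
  obtain ⟨e, he0, he, hec⟩ : ∃ e, e ≠ 0 ∧ B e (κ e) = 0 ∧ e ∈ centres k.alt M := by
    obtain ⟨u, hu, hzu⟩ := hpart z hz0
    have hu' : B (κ u) u = 0 := by rw [k.adj, hu, neg_zero]
    obtain ⟨t, ht, h1⟩ := u_el k hN hu 1
    have h2 := centres_map k.alt hM hz ht
    have hns := u_ns k (a := B z u) (b := B z (κ u)) (fun h => hzu h.2)
    have h3 : B (t z) z ≠ 0 := by
      rw [h1]
      simp only [map_add, map_sub, map_smul, LinearMap.add_apply, LinearMap.sub_apply, LinearMap.smul_apply, smul_eq_mul,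
        k.self, one_mul, zero_add, k.neg' u z, k.neg' (κ u) z]
      intro h0
      apply hns
      linear_combination -h0
    have h4 := centres_add k.alt hM h2 hz h3 (-1)
    refine ⟨t z + (-1 : F) • z, ?_, ?_, h4⟩
    · intro h0
      apply h3
      have : t z = z := by
        rw [← sub_eq_zero, ← h0]; module
      rw [this, k.self]
    · have e1 : t z + (-1 : F) • z = (ν * B z u) • u - B z (κ u) • κ u := by
        rw [h1]; module
      rw [e1]
      simp only [map_add, map_sub, map_smul, LinearMap.add_apply, LinearMap.sub_apply, LinearMap.smul_apply, smul_eq_mul,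
        k.self, k.kk, k.sq, hu, hu']
      ring
  have hnu : ∀ x u : V, B x (κ u) ≠ 0 → ¬ (B u x = 0 ∧ B u (κ x) = 0) := by
    rintro x u h ⟨-, h2⟩
    apply h
    rw [k.comm', h2]
  -- all singular vectors
  have hsing : ∀ w, B w (κ w) = 0 → w ∈ centres k.alt M := by
    intro w hw
    by_cases hw0 : w = 0
    · rw [hw0]; exact centres_zero _ _
    by_cases h1 : B w e = 0 ∧ B w (κ e) = 0
    · obtain ⟨f, hf, hef⟩ := hpart e he0
      have hfc := u_move k hM hN (by omega) he hf (hnu e f hef) hec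
      by_cases hwe : w ∈ Submodule.span F {e, κ e}
      · refine u_move k hM hN (by omega) hf hw ?_ hfc
        rintro ⟨h2, h3⟩
        obtain ⟨a, b, rfl⟩ := Submodule.mem_span_pair.1 hwe
        have hab : ¬ (a = 0 ∧ b = 0) := by rintro ⟨rfl, rfl⟩; simp at hw0
        simp only [map_add, map_smul, LinearMap.add_apply, LinearMap.smul_apply, smul_eq_mul, k.adj e, k.sq] at h2 h3
        have hdet := u_ns k hab
        -- `a B(e,f) - b B(e,κf) = 0`, `a B(e,κf) - b ν B(e,f) = 0`
        have h4 : (ν * (b * b) - a * a) * B e (κ f) = 0 := by linear_combination (-(ν * b)) * h2 - a * h3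
        have h5 : ν * (b * b) - a * a ≠ 0 := u_ns k (fun h => hab ⟨h.2, h.1⟩)
        exact hef ((mul_eq_zero.mp h4).resolve_left h5)
      · -- impossible by dimension
        exfalso
        have hts : ∀ x ∈ Submodule.span F {e, κ e} ⊔ Submodule.span F {w, κ w},
            ∀ y ∈ Submodule.span F {e, κ e} ⊔ Submodule.span F {w, κ w}, polar (phi B κ) x y = 0 := by
          intro x hx y hy
          obtain ⟨x₁, hx₁, x₂, hx₂, rfl⟩ := Submodule.mem_sup.1 hx
          obtain ⟨y₁, hy₁, y₂, hy₂, rfl⟩ := Submodule.mem_sup.1 hy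
          obtain ⟨a, b, rfl⟩ := Submodule.mem_span_pair.1 hx₁
          obtain ⟨c, d, rfl⟩ := Submodule.mem_span_pair.1 hx₂
          obtain ⟨a', b', rfl⟩ := Submodule.mem_span_pair.1 hy₁
          obtain ⟨c', d', rfl⟩ := Submodule.mem_span_pair.1 hy₂
          rw [k.polar_phi]
          have g1 : B e w = 0 := by rw [k.neg', h1.1, neg_zero]
          have g2 : B e (κ w) = 0 := by rw [k.comm', h1.2]
          simp only [map_add, map_smul, LinearMap.add_apply, LinearMap.smul_apply, smul_eq_mul, k.adj e, k.kk, k.sq,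
            k.adj w, h1.1, h1.2, g1, g2, he, hw, k.self]
          ring
        have hle : Submodule.span F {e, κ e} ⊔ Submodule.span F {w, κ w} ≤
            perp (phi B κ) (Submodule.span F {e, κ e} ⊔ Submodule.span F {w, κ w}) := by
          intro x hx
          rw [mem_perp]
          intro y hy
          exact hts y hy x hx
        have d1 := Submodule.finrank_mono hle
        have d2 := hQ.finrank_add_finrank_perp (Submodule.span F {e, κ e} ⊔ Submodule.span F {w, κ w})
        have hdis : Submodule.span F {e, κ e} ⊓ Submodule.span F {w, κ w} = ⊥ := by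
          rw [eq_bot_iff]
          rintro x ⟨hx, hx'⟩
          rw [Submodule.mem_bot]
          obtain ⟨a, b, hab⟩ := Submodule.mem_span_pair.1 hx'
          by_contra hx0
          apply hwe
          apply k.ks.mem_of_comb (k.ks.inv_span e) (a := b) (b := a)
          · rw [add_comm, hab]; exact hx
          · rintro ⟨rfl, rfl⟩
            rw [zero_smul, zero_smul, add_zero] at hab
            exact hx0 hab.symm
        have d3 := Submodule.finrank_sup_add_finrank_inf_eq (Submodule.span F {e, κ e}) (Submodule.span F {w, κ w})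
        rw [hdis, finrank_bot] at d3
        have hpair : ∀ x : V, x ≠ 0 → finrank F (Submodule.span F {x, κ x}) = 2 := by
          intro x hx
          have hli : LinearIndependent F ![x, κ x] := by
            rw [LinearIndependent.pair_iff]
            intro s t hst
            have := k.ks.inj (a := t) (b := s) (x := x) (by rw [add_comm]; exact hst) hx
            exact ⟨this.2, this.1⟩
          have h7 := finrank_span_eq_card hli
          have h8 : Set.range ![x, κ x] = {x, κ x} := by simp [Set.pair_comm]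
          rw [h8] at h7
          simpa using h7
        rw [hpair e he0, hpair w hw0] at d3
        omega
    · exact u_move k hM hN (by omega) he hw h1 hec
  -- everything
  apply isom_le_of_tv_mem k.alt (fun x _ hx0 => by
    by_contra hcon
    push Not at hcon
    exact hx0 (k.nd x fun y => hcon y trivial))
  have hcen : ∀ x, x ∈ centres k.alt M := by
    intro x
    by_cases hx0 : x = 0
    · rw [hx0]; exact centres_zero k.alt M
    obtain ⟨w, hw, hxw, hxw'⟩ : ∃ w, B w (κ w) = 0 ∧ B x w ≠ 0 ∧ B x (κ w) ≠ 0 := by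
      obtain ⟨u, hu, hxu⟩ := hpart x hx0
      by_cases h0 : B x u = 0
      · have hu' : B (κ u) u = 0 := by rw [k.adj, hu, neg_zero]
        refine ⟨u + κ u, ?_, ?_, ?_⟩
        · simp only [map_add, LinearMap.add_apply, k.sq, map_smul, hu, hu', k.kk, k.self, smul_eq_mul]; ring
        · rw [map_add, h0, zero_add]; exact hxu
        · rw [map_add, k.sq, map_add, map_smul, h0, smul_zero, add_zero]; exact hxu
      · exact ⟨u, hu, h0, hxu⟩
    obtain ⟨c, hc⟩ : ∃ c, c = -B x (κ x) / (2 * B x (κ w)) := ⟨_, rfl⟩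
    have h2w : 2 * B x (κ w) ≠ 0 := mul_ne_zero k.two hxw'
    have h4 : B (x + c • w) (κ (x + c • w)) = 0 := by
      have h5 : B w (κ x) = B x (κ w) := k.comm' x w
      simp only [map_add, map_smul, LinearMap.add_apply, LinearMap.smul_apply, smul_eq_mul, h5, hw]
      have h8 : c * (2 * B x (κ w)) = -B x (κ x) := by rw [hc, div_mul_cancel₀ _ h2w]
      linear_combination h8
    have h5 := hsing _ h4
    have h6 : B (x + c • w) w ≠ 0 := by
      rw [map_add, LinearMap.add_apply, map_smul, LinearMap.smul_apply, k.self, smul_zero, add_zero]; exact hxw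
    have h7 := centres_add k.alt hM h5 (hsing w hw) h6 (-c)
    have e1 : x + c • w + (-c) • w = x := by module
    rwa [e1] at h7
  exact fun v a => hcen v a

end Cfsg.Agent.Lib.SpSm
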