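import Mathlib
import Cfsg.Agent.Lib.TSPairH94

set_option autoImplicit false
set_option linter.unusedSectionVars false

/-!
Overgroups of the stabiliser of a pair of complementary totally singular subspaces, after `TSPairH94`, for subspaces
of dimension at least three (helper21).
-/

namespace Cfsg.Agent.Lib.TSPair3

open Module Cfsg.Agent.Lib.TSPairH94

variable {F V : Type*} [Field F] [AddCommGroup V] [Module F V]

/-- the configuration -/
structure Pair (σ : F →+* F) (h : V → V → F) (G M : Subgroup (V ≃ₗ[F] V)) (A B : Submodule F V) :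
    Prop where
  sh : SH σ h
  iso : ∀ g ∈ G, ∀ x y, h (g x) (g y) = h x y
  le : M ≤ G
  tv : ∀ v, h v v = 0 → ∀ c, σ c = c → T h G v c
  tsA : ∀ x ∈ A, ∀ y ∈ A, h x y = 0
  tsB : ∀ x ∈ B, ∀ y ∈ B, h x y = 0
  dec : ∀ v, ∃ a ∈ A, ∃ b ∈ B, a + b = v
  int : ∀ v, v ∈ A → v ∈ B → v = 0
  five : 3 ≤ finrank F A
  eqd : finrank F A = finrank F B
  stab : ∀ g ∈ G, (∀ a ∈ A, g a ∈ A) → (∀ b ∈ B, g b ∈ B) → g ∈ M
  swap : ∀ g ∈ G, (∀ a ∈ A, g a ∈ B) → (∀ b ∈ B, g b ∈ A) → g ∈ M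

namespace Pair
variable {σ : F →+* F} {h : V → V → F} {G M : Subgroup (V ≃ₗ[F] V)} {A B : Submodule F V}

theorem symm (P : Pair σ h G M A B) : Pair σ h G M B A where
  sh := P.sh
  iso := P.iso
  le := P.le
  tv := P.tv
  tsA := P.tsB
  tsB := P.tsA
  dec v := by
    obtain ⟨a, ha, b, hb, h1⟩ := P.dec v
    exact ⟨b, hb, a, ha, by rw [add_comm]; exact h1⟩
  int v hv hv' := P.int v hv' hv
  five := by rw [← P.eqd]; exact P.five
  eqd := P.eqd.symm
  stab g hg h1 h2 := P.stab g hg h2 h1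
  swap g hg h1 h2 := P.swap g hg h2 h1

variable [Finite F] [FiniteDimensional F V] (P : Pair σ h G M A B)
include P

theorem isoM : ∀ g ∈ M, ∀ x y, h (g x) (g y) = h x y := fun g hg => P.iso g (P.le hg)

/-- duality between `A` and `B` -/
theorem dual {C : Submodule F V} (hC : C ≤ A) {a : V} (ha : a ∈ A) (haC : a ∉ C) :
    ∃ b ∈ B, h a b = 1 ∧ ∀ c ∈ C, h c b = 0 := by
  have h1 : a ∉ C ⊔ B := by
    intro hmem
    obtain ⟨c, hc, b, hb, hcb⟩ := Submodule.mem_sup.1 hmem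
    have h2 : b ∈ A := by
      have : b = a - c := by rw [← hcb]; abel
      rw [this]; exact A.sub_mem ha (hC hc)
    have h3 := P.int b h2 hb
    rw [h3, add_zero] at hcb
    exact haC (hcb ▸ hc)
  obtain ⟨φ, hφa, hφ⟩ := Submodule.exists_le_ker_of_notMem h1
  obtain ⟨y, hy⟩ := P.sh.rep ((φ a)⁻¹ • φ)
  have hy0 : ∀ x ∈ C ⊔ B, h x y = 0 := by
    intro x hx
    rw [hy]
    have : φ x = 0 := hφ hx
    show (φ a)⁻¹ * φ x = 0
    rw [this, mul_zero]
  refine ⟨y, ?_, ?_, fun c hc => hy0 c (Submodule.mem_sup_left hc)⟩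
  · obtain ⟨a', ha', b', hb', hab⟩ := P.dec y
    have h2 : a' = 0 := by
      apply P.sh.nd
      intro z
      obtain ⟨a'', ha'', b'', hb'', rfl⟩ := P.dec z
      rw [P.sh.add_right, P.tsA _ ha' _ ha'', zero_add]
      have h3 := hy0 b'' (Submodule.mem_sup_right hb'')
      rw [← hab, P.sh.add_right, P.tsB _ hb'' _ hb', add_zero] at h3
      exact P.sh.symm_zero h3
    rw [h2, zero_add] at hab
    rw [← hab]; exact hb'
  · rw [hy]
    exact inv_mul_cancel₀ hφa

theorem Rab {a b : V} (ha : a ∈ A) (hb : b ∈ B) (hab : h a b = 0) :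
    ∃ g ∈ M, (∀ x, g x = x + h x a • b + h x b • a) := by
  have hba := P.sh.symm_zero hab
  have haa := P.tsA a ha a ha
  have hbb := P.tsB b hb b hb
  obtain ⟨g₁, hg₁, hx₁⟩ := P.tv (a + b) (by
    rw [P.sh.add_left, P.sh.add_right, P.sh.add_right, haa, hab, hba, hbb]; ring) 1 (map_one σ)
  obtain ⟨g₂, hg₂, hx₂⟩ := P.tv a haa (-1) (by rw [map_neg, map_one])
  obtain ⟨g₃, hg₃, hx₃⟩ := P.tv b hbb (-1) (by rw [map_neg, map_one])
  have hx : ∀ x, (g₁ * (g₂ * g₃)) x = x + h x a • b + h x b • a := by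
    intro x
    rw [LinearEquiv.mul_apply, LinearEquiv.mul_apply, hx₃, hx₂, hx₁]
    simp only [P.sh.add_left, P.sh.add_right, P.sh.smul_left, haa, hbb, hab, hba]
    module
  refine ⟨_, P.stab _ (mul_mem hg₁ (mul_mem hg₂ hg₃)) ?_ ?_, hx⟩
  · intro a' ha'
    rw [hx, P.tsA a' ha' a ha, zero_smul, add_zero]
    exact A.add_mem ha' (A.smul_mem _ ha)
  · intro b' hb'
    rw [hx, P.tsB b' hb' b hb, zero_smul, add_zero]
    exact B.add_mem hb' (B.smul_mem _ hb)

theorem RabR {a b : V} (ha : a ∈ A) (hb : b ∈ B) (hab : h a b = 0) : R h M a b := P.Rab ha hb hab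

theorem finrank_inf_ker (U : Submodule F V) (w : V) :
    ∃ U' ≤ U, (∀ x ∈ U', h x w = 0) ∧ finrank F U ≤ finrank F U' + 1 := by
  let φ : V →ₗ[F] F :=
    { toFun := fun x => h x w
      map_add' := fun x x' => P.sh.add_left x x' w
      map_smul' := fun c x => P.sh.smul_left c x w }
  refine ⟨U ⊓ LinearMap.ker φ, inf_le_left, fun x hx => hx.2, ?_⟩
  have h2 := Submodule.finrank_sup_add_finrank_inf_eq U (LinearMap.ker φ)
  have h3 := LinearMap.finrank_range_add_finrank_ker φ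
  have h4 : finrank F (LinearMap.range φ) ≤ 1 := by
    have := Submodule.finrank_le (LinearMap.range φ)
    rwa [finrank_self] at this
  have h5 := Submodule.finrank_le (U ⊔ LinearMap.ker φ)
  omega

theorem T_A {a : V} (ha : a ∈ A) (ha0 : a ≠ 0) (hT : ∀ c, σ c = c → T h M a c) :
    ∀ a'' ∈ A, ∀ c, σ c = c → T h M a'' c := by
  have key : ∀ a ∈ A, (∀ c, σ c = c → T h M a c) → ∀ a'' ∈ A, a ∉ F ∙ (a'' - a) →
      ∀ c, σ c = c → T h M a'' c := by
    intro a ha hT a'' ha'' hind c hc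
    obtain ⟨b₁, hb₁, h1, h2⟩ := P.dual
      ((Submodule.span_singleton_le_iff_mem _ _).2 (A.sub_mem ha'' ha)) ha hind
    replace h2 := h2 _ (Submodule.mem_span_singleton_self _)
    obtain ⟨g, hg, hgx⟩ := P.Rab (A.sub_mem ha'' ha) hb₁ h2
    have h3 : g a = a'' := by
      rw [hgx, P.tsA a ha _ (A.sub_mem ha'' ha), h1]; simp
    rw [← h3]
    exact (hT c hc).conj P.isoM hg
  have key' : ∀ a ∈ A, a ≠ 0 → (∀ c, σ c = c → T h M a c) → ∀ a'' ∈ A, a'' ∉ F ∙ a →
      ∀ c, σ c = c → T h M a'' c := by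
    intro a ha ha0 hT a'' ha'' hind
    refine key a ha hT a'' ha'' fun hmem => hind ?_
    obtain ⟨c, hc⟩ := Submodule.mem_span_singleton.1 hmem
    have hc0 : c ≠ 0 := by rintro rfl; rw [zero_smul] at hc; exact ha0 hc.symm
    rw [Submodule.mem_span_singleton]
    refine ⟨1 + c⁻¹, ?_⟩
    rw [add_smul, one_smul]
    conv_lhs => arg 2; rw [← hc]
    rw [smul_smul, inv_mul_cancel₀ hc0, one_smul]; abel
  intro a'' ha'' c hc
  by_cases ha''0 : a'' = 0
  · rw [ha''0]
    exact ⟨1, one_mem _, fun x => by rw [smul_zero, add_zero]; rfl⟩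
  by_cases hmem : a'' ∈ F ∙ a
  · obtain ⟨a₃, ha₃, ha₃a⟩ : ∃ a₃ ∈ A, a₃ ∉ F ∙ a := by
      by_contra hcon
      push Not at hcon
      have := Submodule.finrank_mono (show A ≤ F ∙ a from hcon)
      rw [finrank_span_singleton ha0] at this
      have h5 := P.five
      omega
    have h4 := key' a ha ha0 hT a₃ ha₃ ha₃a
    refine key' a₃ ha₃ ?_ h4 a'' ha'' ?_ c hc
    · rintro rfl; exact ha₃a (Submodule.zero_mem _)
    · intro h5
      obtain ⟨d, rfl⟩ := Submodule.mem_span_singleton.1 h5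
      have hd : d ≠ 0 := by rintro rfl; rw [zero_smul] at ha''0; exact ha''0 rfl
      exact ha₃a ((Submodule.smul_mem_iff _ hd).1 hmem)
  · exact key' a ha ha0 hT a'' ha'' hmem c hc

/-- the element interchanging `A` and `B` -/
theorem exists_swap : ∃ s ∈ M, (∀ a ∈ A, s a ∈ B) ∧ (∀ b ∈ B, s b ∈ A) := by
  let e₀ := finBasis F A
  let e : Fin (finrank F A) → V := fun i => (e₀ i : V)
  have heA : ∀ i, e i ∈ A := fun i => (e₀ i).2
  have hli : LinearIndependent F e := e₀.linearIndependent.map' A.subtype (Submodule.ker_subtype A)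
  have hspan : Submodule.span F (Set.range e) = A := by
    have h1 := e₀.span_eq
    have h2 : Set.range e = A.subtype '' Set.range e₀ := by
      rw [← Set.range_comp]; rfl
    rw [h2, ← Submodule.map_span, h1, Submodule.map_top, Submodule.range_subtype]
  have hf : ∀ i, ∃ f ∈ B, h (e i) f = 1 ∧ ∀ j, j ≠ i → h (e j) f = 0 := by
    intro i
    obtain ⟨f, hf, h1, h2⟩ := P.dual (C := Submodule.span F (e '' {j | j ≠ i})) (by
      rw [Submodule.span_le]
      rintro _ ⟨j, _, rfl⟩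
      exact heA j) (heA i) (hli.notMem_span_image (by simp))
    exact ⟨f, hf, h1, fun j hj => h2 _ (Submodule.subset_span ⟨j, hj, rfl⟩)⟩
  choose f hfB hef hef' using hf
  have hw : ∀ i, ∃ w ∈ G, ∀ x, w x = x + (h x (e i) - h x (f i)) • e i + (h x (e i) + h x (f i)) • f i := by
    intro i
    have hee := P.tsA _ (heA i) _ (heA i)
    have hff := P.tsB _ (hfB i) _ (hfB i)
    have hfe : h (f i) (e i) = -1 := by rw [P.sh.skew (e i), hef, map_one]
    obtain ⟨g₁, hg₁, hx₁⟩ := P.tv (e i) hee 1 (map_one σ)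
    obtain ⟨g₂, hg₂, hx₂⟩ := P.tv (f i) hff 1 (map_one σ)
    refine ⟨g₁ * (g₂ * g₁), mul_mem hg₁ (mul_mem hg₂ hg₁), fun x => ?_⟩
    rw [LinearEquiv.mul_apply, LinearEquiv.mul_apply, hx₁, hx₂, hx₁]
    simp only [P.sh.add_left, P.sh.smul_left, hee, hff, hef, hfe]
    module
  choose w hwG hwx using hw
  have hfe : ∀ i, h (f i) (e i) = -1 := fun i => by rw [P.sh.skew (e i), hef, map_one]
  have hfe' : ∀ i j, j ≠ i → h (f i) (e j) = 0 := fun i j hij => P.sh.symm_zero (hef' i j hij)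
  have hww : ∀ i, w i (e i) = f i ∧ w i (f i) = -e i := by
    intro i
    rw [hwx, hwx, P.tsA _ (heA i) _ (heA i), P.tsB _ (hfB i) _ (hfB i), hef, hfe]
    constructor <;> module
  have hww' : ∀ i j, j ≠ i → w i (e j) = e j ∧ w i (f j) = f j := by
    intro i j hij
    rw [hwx, hwx, P.tsA _ (heA j) _ (heA i), P.tsB _ (hfB j) _ (hfB i), hef' i j hij,
      hfe' j i (Ne.symm hij)]
    constructor <;> module
  have hlist : ∀ l : List (Fin (finrank F A)), l.Nodup → ∀ j,
      (l.map w).prod (e j) = (if j ∈ l then f j else e j) ∧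
      (l.map w).prod (f j) = (if j ∈ l then -e j else f j) := by
    intro l
    induction l with
    | nil => intro _ j; simp
    | cons i l ih =>
      intro hnd j
      obtain ⟨h1, h2⟩ := List.nodup_cons.1 hnd
      obtain ⟨h3, h4⟩ := ih h2 j
      rw [List.map_cons, List.prod_cons, LinearEquiv.mul_apply, LinearEquiv.mul_apply, h3, h4]
      by_cases hji : j = i
      · subst hji
        rw [if_neg h1, if_neg h1, if_pos List.mem_cons_self, if_pos List.mem_cons_self]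
        exact hww j
      · obtain ⟨h5, h6⟩ := hww' i j hji
        by_cases hjl : j ∈ l
        · rw [if_pos hjl, if_pos hjl, if_pos (List.mem_cons_of_mem _ hjl),
            if_pos (List.mem_cons_of_mem _ hjl), map_neg, h5, h6]
          exact ⟨rfl, rfl⟩
        · rw [if_neg hjl, if_neg hjl, if_neg (by simp [hji, hjl]), if_neg (by simp [hji, hjl]), h5, h6]
          exact ⟨rfl, rfl⟩
  set s := ((List.finRange (finrank F A)).map w).prod with hs
  have hsG : s ∈ G := by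
    apply Subgroup.list_prod_mem
    intro g hg
    obtain ⟨i, _, rfl⟩ := List.mem_map.1 hg
    exact hwG i
  have hse : ∀ j, s (e j) = f j := fun j => by
    have := (hlist _ (List.nodup_finRange _) j).1
    rwa [if_pos (List.mem_finRange j)] at this
  have hsf : ∀ j, s (f j) = -e j := fun j => by
    have := (hlist _ (List.nodup_finRange _) j).2
    rwa [if_pos (List.mem_finRange j)] at this
  have hsA : A.map s.toLinearMap ≤ B := by
    rw [← hspan, Submodule.map_span, Submodule.span_le]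
    rintro _ ⟨_, ⟨j, rfl⟩, rfl⟩
    show s (e j) ∈ B
    rw [hse]; exact hfB j
  have hsA' : A.map s.toLinearMap = B := by
    apply Submodule.eq_of_le_of_finrank_eq hsA
    rw [← P.eqd]
    exact LinearEquiv.finrank_map_eq s A
  have hss : (A.map s.toLinearMap).map s.toLinearMap ≤ A := by
    conv_lhs => rw [← hspan]
    rw [Submodule.map_span, Submodule.map_span, Submodule.span_le]
    rintro _ ⟨_, ⟨_, ⟨j, rfl⟩, rfl⟩, rfl⟩
    show s (s (e j)) ∈ A
    rw [hse, hsf]; exact A.neg_mem (heA j)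
  have h1 : ∀ a ∈ A, s a ∈ B := fun a ha => hsA ⟨a, ha, rfl⟩
  have h2 : ∀ b ∈ B, s b ∈ A := by
    intro b hb
    rw [← hsA'] at hb
    exact hss ⟨b, hb, rfl⟩
  exact ⟨s, P.swap s hsG h1 h2, h1, h2⟩

theorem T_all (hA : ∀ a ∈ A, ∀ c, σ c = c → T h M a c) (hB : ∀ b ∈ B, ∀ c, σ c = c → T h M b c) :
    ∀ v, h v v = 0 → ∀ c, σ c = c → T h M v c := by
  have key : ∀ a ∈ A, ∀ b ∈ B, h a b ≠ 0 → h (a + b) (a + b) = 0 → ∀ c, σ c = c → T h M (a + b) c := by
    intro a ha b hb hab hv c hc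
    have h1 : σ (h a b) = h a b := by
      rw [P.sh.add_left, P.sh.add_right, P.sh.add_right, P.tsA a ha a ha, P.tsB b hb b hb,
        P.sh.skew a b] at hv
      linear_combination -hv
    obtain ⟨g, hg, hgx⟩ := hB b hb (h a b)⁻¹ (by rw [map_inv₀, h1])
    have h2 : g a = a + b := by rw [hgx, inv_mul_cancel₀ hab, one_smul]
    rw [← h2]
    exact (hA a ha c hc).conj P.isoM hg
  intro v hv c hc
  obtain ⟨a, ha, b, hb, rfl⟩ := P.dec v
  by_cases hb0 : b = 0
  · rw [hb0, add_zero]; exact hA a ha c hc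
  by_cases hab : h a b = 0
  · obtain ⟨a₂, ha₂, h1, -⟩ := P.symm.dual (C := ⊥) bot_le hb (by simpa using hb0)
    obtain ⟨g, hg, hgx⟩ := hA a₂ ha₂ 1 (map_one σ)
    have h2 : g (a + b) = (a + a₂) + b := by
      rw [hgx, P.sh.add_left, P.tsA a ha a₂ ha₂, h1, zero_add, mul_one, one_smul]; abel
    have h3 : h (a + a₂) b ≠ 0 := by
      rw [P.sh.add_left, hab, zero_add, P.sh.skew b, h1, map_one]
      exact neg_ne_zero.2 one_ne_zero
    have h4 := key _ (A.add_mem ha ha₂) b hb h3 (by rw [← h2, P.isoM g hg, hv]) c hc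
    rw [← h2] at h4
    have h5 := h4.conj P.isoM (inv_mem hg)
    have h6 : g⁻¹ (g (a + b)) = a + b := by
      show (g⁻¹ * g) (a + b) = _
      rw [inv_mul_cancel]; rfl
    rwa [h6] at h5
  · exact key a ha b hb hab hv c hc

/-- **Main theorem, second half.** -/
theorem main_of (hor : (∃ a ∈ A, a ≠ 0 ∧ ∀ c, σ c = c → T h M a c) ∨
      (∃ b ∈ B, b ≠ 0 ∧ ∀ c, σ c = c → T h M b c)) :
    ∀ v, h v v = 0 → ∀ c, σ c = c → T h M v c := by
  obtain ⟨s, hs, hsA, hsB⟩ := P.exists_swap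
  have hAall : ∀ a ∈ A, ∀ c, σ c = c → T h M a c := by
    rcases hor with ⟨a, ha, ha0, hT⟩ | ⟨b, hb, hb0, hT⟩
    · exact P.T_A ha ha0 hT
    · exact P.T_A (hsB b hb) (by simpa using hb0) fun c hc => (hT c hc).conj P.isoM hs
  have hBall : ∀ b ∈ B, ∀ c, σ c = c → T h M b c := by
    rcases hor with ⟨a, ha, ha0, hT⟩ | ⟨b, hb, hb0, hT⟩
    · exact P.symm.T_A (hsA a ha) (by simpa using ha0) fun c hc => (hT c hc).conj P.isoM hs
    · exact P.symm.T_A hb hb0 hT
  exact P.T_all hAall hBall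

/-- some element of `G` does not permute `A` and `B` -/
theorem exists_not : ∃ g ∈ G, ¬ ((∀ a ∈ A, g a ∈ A) ∧ (∀ b ∈ B, g b ∈ B)) ∧
      ¬ ((∀ a ∈ A, g a ∈ B) ∧ (∀ b ∈ B, g b ∈ A)) := by
  have hA0 : A ≠ ⊥ := by
    intro h0
    have h5 := P.five
    rw [h0, finrank_bot] at h5; omega
  obtain ⟨a, ha, ha0⟩ := Submodule.exists_mem_ne_zero_of_ne_bot hA0
  obtain ⟨b, hb, hab, -⟩ := P.dual (C := ⊥) bot_le ha (by simpa using ha0)
  have hb0 : b ≠ 0 := by rintro rfl; rw [P.sh.zero_right] at hab; exact zero_ne_one hab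
  obtain ⟨U, hU, hUb, hUd⟩ := P.finrank_inf_ker A b
  have hU0 : U ≠ ⊥ := by
    intro h0
    have h5 := P.five
    rw [h0, finrank_bot] at hUd; omega
  obtain ⟨x, hx, hx0⟩ := Submodule.exists_mem_ne_zero_of_ne_bot hU0
  have haa := P.tsA a ha a ha
  have hbb := P.tsB b hb b hb
  have hba : h b a = -1 := by rw [P.sh.skew a, hab, map_one]
  obtain ⟨g, hg, hgx⟩ := P.tv (a + b) (by
    rw [P.sh.add_left, P.sh.add_right, P.sh.add_right, haa, hab, hba, hbb]; ring) 1 (map_one σ)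
  refine ⟨g, hg, ?_, ?_⟩
  · rintro ⟨h1, -⟩
    have h2 := h1 a ha
    rw [hgx, P.sh.add_right, haa, hab, zero_add, mul_one, one_smul] at h2
    have h3 : b ∈ A := by
      have := A.sub_mem (A.sub_mem h2 ha) ha
      have e : a + (a + b) - a - a = b := by abel
      rwa [e] at this
    exact hb0 (P.int b h3 hb)
  · rintro ⟨h1, -⟩
    have h2 := h1 x (hU hx)
    rw [hgx, P.sh.add_right, P.tsA x (hU hx) a ha, hUb x hx, add_zero, mul_zero, zero_smul, add_zero] at h2
    exact hx0 (P.int x (hU hx) h2)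

end Pair

end Cfsg.Agent.Lib.TSPair3
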