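import Mathlib
import Cfsg.Agent.Lib.SpSm2
import Cfsg.Agent.Lib.TSPair3

/-!
# Stabilisers of pairs of complementary totally isotropic subspaces in symplectic groups (helper21)
-/

set_option autoImplicit false
set_option linter.unusedSectionVars false
set_option linter.unusedVariables false
set_option linter.unusedSimpArgs false

namespace Cfsg.Agent.Lib.SpSm

open Module Cfsg.Agent.Lib.SpTrans Cfsg.Agent.Lib.TSPair3
open Cfsg.Agent.Lib.TSPairH94 hiding Pair

variable {F V : Type*} [Field F] [AddCommGroup V] [Module F V] [FiniteDimensional F V] [Finite F]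
  {B : V →ₗ[F] V →ₗ[F] F} {M : Subgroup (V ≃ₗ[F] V)} {A A' : Submodule F V}

/-- there is a centre in one of the two subspaces -/
def Hor (B : V →ₗ[F] V →ₗ[F] F) (hB : B.IsAlt) (M : Subgroup (V ≃ₗ[F] V)) (A A' : Submodule F V) : Prop :=
  (∃ a ∈ A, a ≠ 0 ∧ a ∈ centres hB M) ∨ ∃ b ∈ A', b ≠ 0 ∧ b ∈ centres hB M

/-- the involution of a hyperbolic pair -/
def IP (B : V →ₗ[F] V →ₗ[F] F) (M : Subgroup (V ≃ₗ[F] V)) (z y : V) : Prop :=
  ∃ i ∈ M, ∀ x, i x = x - (2 * B x y) • z + (2 * B x z) • y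

theorem IP.change {z y : V} (h : IP B M z y) {s t s' t' : F} (hst : s * t' - t * s' = 1) :
    IP B M (s • z + t • y) (s' • z + t' • y) := by
  obtain ⟨i, hi, h1⟩ := h
  refine ⟨i, hi, fun x => ?_⟩
  rw [h1]
  simp only [map_add, map_smul, smul_eq_mul]
  match_scalars
  · rfl
  · linear_combination (-2 * B x y) * (-hst)
  · linear_combination (-2 * B x z) * hst

variable (hB : B.IsAlt) (h2 : (2 : F) ≠ 0)
  (P : Pair (RingHom.id F) (fun x y => B x y) (isom (fun x y => B x y)) M A A')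

include P in
theorem p_rr {a b : V} (ha : a ∈ A) (hb : b ∈ A') (hab : B a b = 0) : RR B M a b := by
  refine ⟨hab, fun c => ?_⟩
  obtain ⟨g, hg, h1⟩ := P.Rab ha (A'.smul_mem c hb) (by rw [map_smul, hab, smul_zero])
  refine ⟨g, hg, fun v => ?_⟩
  rw [h1]
  simp only [map_smul, smul_eq_mul]
  module

include hB h2 P

theorem p_g1 {z a : V} (hz : z ∈ A) (ha : a ∈ A) (hz0 : z ≠ 0) (ha0 : a ≠ 0) (h : RR B M z a) :
    Hor B hB M A A' := by
  left
  refine ⟨z, hz, hz0, ?_⟩
  by_cases hd : a ∈ F ∙ z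
  · obtain ⟨c, rfl⟩ := Submodule.mem_span_singleton.1 hd
    have hc : c ≠ 0 := by rintro rfl; simp at ha0
    exact rr_self hB h2 (rr_of hc h)
  · obtain ⟨b, hb, hab, hzb'⟩ := P.dual (C := F ∙ z) (by rw [Submodule.span_singleton_le_iff_mem]; exact hz) ha hd
    have hzb : B z b = 0 := hzb' z (Submodule.mem_span_singleton_self z)
    obtain ⟨t, ht, h1⟩ := (p_rr P hz hb hzb).2 1
    have hzz : B z z = 0 := hB z
    have haz : B a z = 0 := P.tsA a ha z hz
    have hza : B z a = 0 := P.tsA z hz a ha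
    have e1 : t z = z := by rw [h1, hzb, hzz]; simp
    have e2 : t a = a + z := by rw [h1, hab, haz]; simp
    have h3 := rr_map P.le h ht
    rw [e1, e2] at h3
    have h4 := rr_add hB (r := a + z) (r' := (-1 : F) • a) (by
      rw [map_smul, map_add, LinearMap.add_apply, hza, show B a a = 0 from hB a]; simp) h3 (rr_smul h (-1))
    have e3 : a + z + (-1 : F) • a = z := by module
    rw [e3] at h4
    exact rr_self hB h2 h4

theorem p_g2 {z α β b : V} (hz : z = α + β) (hα : α ∈ A) (hβ : β ∈ A') (hβ0 : β ≠ 0) (hb : b ∈ A') (hb0 : b ≠ 0)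
    (h : RR B M z b) : Hor B hB M A A' := by
  have hββ : B β b = 0 := P.tsB β hβ b hb
  have hbβ : B b β = 0 := P.tsB b hb β hβ
  have hbb : B b b = 0 := hB b
  have hβb0 : B β β = 0 := hB β
  have hαα : B α α = 0 := hB α
  have hαb : B α b = 0 := by
    have := h.1
    rw [hz, map_add, LinearMap.add_apply, hββ, add_zero] at this
    exact this
  have hbα : B b α = 0 := by rw [alt_neg hB, hαb, neg_zero]
  have hβα : B β α = - B α β := alt_neg hB _ _
  obtain ⟨γ, hγ⟩ : ∃ γ, γ = B α β := ⟨_, rfl⟩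
  -- the elements `E(c)`
  have hE : ∀ c : F, ∃ t ∈ M, ∀ x, t x = x + c • (B x b • β + B x β • b) - (c * c * γ * B x b) • b := by
    intro c
    obtain ⟨t, ht, h1⟩ := h.2 c
    obtain ⟨s, hs, h3⟩ := (p_rr P hα hb hαb).2 (-c)
    refine ⟨t * s, mul_mem ht hs, fun x => ?_⟩
    rw [LinearEquiv.mul_apply, h1, h3, hz, hγ]
    simp only [map_add, map_smul, LinearMap.add_apply, LinearMap.smul_apply, smul_eq_mul, hββ, hbβ, hbb, hαα, hαb, hbα]
    match_scalars <;> ring
  by_cases hγ0 : γ = 0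
  · have hrr : RR B M β b := by
      refine ⟨hββ, fun c => ?_⟩
      obtain ⟨t, ht, h1⟩ := hE c
      refine ⟨t, ht, fun x => ?_⟩
      rw [h1, hγ0]; module
    have := p_g1 hB h2 P.symm hβ hb hβ0 hb0 hrr
    rcases this with h | h
    · exact Or.inr h
    · exact Or.inl h
  · right
    refine ⟨b, hb, hb0, fun a => ?_⟩
    -- the elements `b²`
    have hF : ∀ c : F, ∃ t ∈ M, ∀ x, t x = x - (2 * (c * c) * γ * B x b) • b := by
      intro c
      obtain ⟨t, ht, h1⟩ := hE c
      obtain ⟨s, hs, h3⟩ := hE (-c)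
      refine ⟨t * s, mul_mem ht hs, fun x => ?_⟩
      rw [LinearEquiv.mul_apply, h1, h3]
      simp only [map_add, map_sub, map_smul, LinearMap.add_apply, LinearMap.sub_apply, LinearMap.smul_apply, smul_eq_mul,
        hββ, hbβ, hbb, hβb0]
      match_scalars <;> ring
    have h2γ : 2 * γ ≠ 0 := mul_ne_zero h2 hγ0
    obtain ⟨x₀, y₀, hxy⟩ := Cfsg.Agent.Lib.OrthDecH94.exists_sum_sq h2 (one_ne_zero (α := F)) (one_ne_zero (α := F))
      (-a / (2 * γ))
    obtain ⟨t, ht, h1⟩ := hF x₀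
    obtain ⟨s, hs, h3⟩ := hF y₀
    have : tv B hB b a = t * s := by
      ext1 x
      rw [LinearEquiv.mul_apply, h1, h3, tv_apply]
      simp only [map_add, map_sub, map_smul, LinearMap.add_apply, LinearMap.sub_apply, LinearMap.smul_apply, smul_eq_mul, hbb]
      have e : a = -(2 * γ) * (x₀ * x₀ + y₀ * y₀) := by
        rw [one_mul, one_mul] at hxy
        rw [hxy]; field_simp
      rw [e]
      match_scalars <;> ring
    rw [this]
    exact mul_mem ht hs

/-- one vector in `A` -/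
theorem p_case1 {z y α β : V} (hip : IP B M z y) (hzy : B z y = 1) (hz : z ∈ A) (hy : y = α + β) (hα : α ∈ A) (hβ : β ∈ A')
    (hαz : α ∉ F ∙ z) : Hor B hB M A A' := by
  have hz0 : z ≠ 0 := by rintro rfl; simp at hzy
  obtain ⟨b, hb, hαb, hzb'⟩ := P.dual (C := F ∙ z) (by rw [Submodule.span_singleton_le_iff_mem]; exact hz) hα hαz
  have hzb : B z b = 0 := hzb' z (Submodule.mem_span_singleton_self z)
  -- a vector `a`
  obtain ⟨U₁, hU₁, h₁, hd₁⟩ := P.finrank_inf_ker A b
  obtain ⟨U₂, hU₂, h₂, hd₂⟩ := P.finrank_inf_ker U₁ β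
  have hd := P.five
  obtain ⟨a, ha, ha0⟩ := Submodule.exists_mem_ne_zero_of_ne_bot (show U₂ ≠ ⊥ by
    rintro rfl; rw [finrank_bot] at hd₂; omega)
  have haA : a ∈ A := hU₁ (hU₂ ha)
  have hab : B a b = 0 := h₁ a (hU₂ ha)
  have haβ : B a β = 0 := h₂ a ha
  have hβa : B β a = 0 := by rw [alt_neg hB, haβ, neg_zero]
  have hya : B y a = 0 := by
    rw [hy, map_add, LinearMap.add_apply, hβa, P.tsA α hα a haA, add_zero]
  have hyb : B y b = 1 := by
    rw [hy, map_add, LinearMap.add_apply, hαb, P.tsB β hβ b hb, add_zero]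
  have hza : B z a = 0 := P.tsA z hz a haA
  have hrr := rr_of_ip hB hzy hza hzb hab (lam := 0) (mu := 0) (rho := 1) hip (by
    intro c
    obtain ⟨t, ht, h1⟩ := (p_rr P haA hb hab).2 c
    refine ⟨t, ht, fun x => ?_⟩
    rw [h1]; module)
  rw [hya, hyb] at hrr
  have hrr' : RR B M z ((2 : F) • a) := by
    convert hrr using 1
    module
  exact p_g1 hB h2 P hz haA hz0 ha0 (rr_of h2 hrr')

/-- no vector in `A` or `A'` -/
theorem p_case2 {z y : V} (hip : IP B M z y) (hzy : B z y = 1)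
    (hA : ∀ s t : F, s • z + t • y ∈ A → s = 0 ∧ t = 0) (hA' : ∀ s t : F, s • z + t • y ∈ A' → s = 0 ∧ t = 0) :
    Hor B hB M A A' := by
  -- the components
  obtain ⟨α, hα, β, hβ, hz⟩ := P.dec z
  obtain ⟨α₁, hα₁, β₁, hβ₁, hy⟩ := P.dec y
  -- the vector `b₀`
  obtain ⟨U₁, hU₁, h₁, hd₁⟩ := P.symm.finrank_inf_ker A' α
  obtain ⟨U₂, hU₂, h₂, hd₂⟩ := P.symm.finrank_inf_ker U₁ α₁
  have hd := P.symm.five
  obtain ⟨b, hb, hb0⟩ := Submodule.exists_mem_ne_zero_of_ne_bot (show U₂ ≠ ⊥ by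
    rintro rfl; rw [finrank_bot] at hd₂; omega)
  have hbA : b ∈ A' := hU₁ (hU₂ hb)
  have hbα : B b α = 0 := h₁ b (hU₂ hb)
  have hbα₁ : B b α₁ = 0 := h₂ b hb
  have hbz : B b z = 0 := by rw [← hz, map_add, hbα, P.tsB b hbA β hβ, add_zero]
  have hby : B b y = 0 := by rw [← hy, map_add, hbα₁, P.tsB b hbA β₁ hβ₁, add_zero]
  -- the main step
  have key : ∀ z y α β α₁ β₁ : V, IP B M z y → B z y = 1 → α ∈ A → β ∈ A' → α + β = z → α₁ ∈ A → β₁ ∈ A' → α₁ + β₁ = y →
      B b z = 0 → B b y = 0 → β ≠ 0 → β₁ ∉ Submodule.span F {β, b} → Hor B hB M A A' := by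
    intro z y α β α₁ β₁ hip hzy hα hβ hz hα₁ hβ₁ hy hbz hby hβ0 hβ₁n
    obtain ⟨a, ha, h3, h4⟩ := P.symm.dual (C := Submodule.span F {β, b}) (by
      rw [Submodule.span_le]
      rintro x (rfl | rfl)
      · exact hβ
      · exact hbA) hβ₁ hβ₁n
    have h5 : B β a = 0 := h4 β (Submodule.subset_span (by simp))
    have h6 : B b a = 0 := h4 b (Submodule.subset_span (by simp))
    have h7 : B a b = 0 := by rw [alt_neg hB, h6, neg_zero]
    have hza : B z a = 0 := by rw [← hz, map_add, LinearMap.add_apply, h5, P.tsA α hα a ha, add_zero]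
    have hya : B y a = 1 := by rw [← hy, map_add, LinearMap.add_apply, h3, P.tsA α₁ hα₁ a ha, zero_add]
    have hzb : B z b = 0 := by rw [alt_neg hB, hbz, neg_zero]
    have hyb : B y b = 0 := by rw [alt_neg hB, hby, neg_zero]
    have hrr := rr_of_ip hB hzy hza hzb h7 (lam := 0) (mu := 0) (rho := 1) hip (by
      intro c
      obtain ⟨t, ht, h1⟩ := (p_rr P ha hbA h7).2 c
      refine ⟨t, ht, fun x => ?_⟩
      rw [h1]; module)
    rw [hya, hyb] at hrr
    have hrr' : RR B M z ((2 : F) • b) := by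
      convert hrr using 1
      module
    exact p_g2 hB h2 P hz.symm hα hβ hβ0 hbA hb0 (rr_of h2 hrr')
  -- independence of the components in `A'`
  have hind : ∀ s t : F, s • β + t • β₁ = 0 → s = 0 ∧ t = 0 := by
    intro s t hst
    apply hA
    have : s • z + t • y = s • α + t • α₁ + (s • β + t • β₁) := by rw [← hz, ← hy]; module
    rw [this, hst, add_zero]
    exact A.add_mem (A.smul_mem _ hα) (A.smul_mem _ hα₁)
  have hβ0 : β ≠ 0 := by
    rintro rfl
    exact one_ne_zero (hind 1 0 (by simp)).1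
  by_cases hbs : b ∈ Submodule.span F {β, β₁}
  · obtain ⟨s, t, hst⟩ := Submodule.mem_span_pair.1 hbs
    have hst0 : ¬ (s = 0 ∧ t = 0) := by
      rintro ⟨rfl, rfl⟩
      apply hb0
      rw [← hst]; simp
    obtain ⟨s', t', hdet⟩ : ∃ s' t' : F, s * t' - t * s' = 1 := by
      by_cases hs : s = 0
      · have ht : t ≠ 0 := fun h => hst0 ⟨hs, h⟩
        exact ⟨-t⁻¹, 0, by rw [mul_zero, mul_neg, mul_inv_cancel₀ ht]; ring⟩
      · exact ⟨0, s⁻¹, by rw [mul_zero, mul_inv_cancel₀ hs, sub_zero]⟩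
    refine key (s • z + t • y) (s' • z + t' • y) (s • α + t • α₁) (s • β + t • β₁) (s' • α + t' • α₁) (s' • β + t' • β₁)
      (hip.change hdet) ?_ (A.add_mem (A.smul_mem _ hα) (A.smul_mem _ hα₁)) (A'.add_mem (A'.smul_mem _ hβ) (A'.smul_mem _ hβ₁))
      (by rw [← hz, ← hy]; module) (A.add_mem (A.smul_mem _ hα) (A.smul_mem _ hα₁))
      (A'.add_mem (A'.smul_mem _ hβ) (A'.smul_mem _ hβ₁)) (by rw [← hz, ← hy]; module) ?_ ?_ ?_ ?_
    · have e1 : B y z = -1 := by rw [alt_neg hB, hzy]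
      simp only [map_add, map_smul, LinearMap.add_apply, LinearMap.smul_apply, smul_eq_mul, hzy, e1,
        show B z z = 0 from hB z, show B y y = 0 from hB y]
      linear_combination hdet
    · rw [map_add, map_smul, map_smul, hbz, hby]; simp
    · rw [map_add, map_smul, map_smul, hbz, hby]; simp
    · rw [hst]; exact hb0
    · rw [hst]
      intro hmem
      obtain ⟨c, d, hcd⟩ := Submodule.mem_span_pair.1 hmem
      have h3 : (s' - (c + d) * s) • β + (t' - (c + d) * t) • β₁ = 0 := by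
        have : s' • β + t' • β₁ - (c • b + d • b) = 0 := by rw [hcd, sub_self]
        rw [← this, ← hst]; module
      obtain ⟨h4, h5⟩ := hind _ _ h3
      have h6 : s * t' - t * s' = 0 := by linear_combination s * h5 - t * h4
      rw [hdet] at h6
      exact one_ne_zero h6
  · refine key z y α β α₁ β₁ hip hzy hα hβ hz hα₁ hβ₁ hy hbz hby hβ0 ?_
    intro hmem
    obtain ⟨c, d, hcd⟩ := Submodule.mem_span_pair.1 hmem
    by_cases hd0 : d = 0
    · rw [hd0, zero_smul, add_zero] at hcd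
      have := (hind c (-1) (by rw [hcd]; module)).2
      exact neg_ne_zero.mpr one_ne_zero this
    · apply hbs
      rw [Submodule.mem_span_pair]
      refine ⟨-(d⁻¹ * c), d⁻¹, ?_⟩
      rw [← hcd, smul_add, smul_smul, smul_smul, inv_mul_cancel₀ hd0]
      module

/-- the planes split -/
theorem p_split {z y : V} (hip : IP B M z y) (hzy : B z y = 1) : Hor B hB M A A' ∨
    ∃ z' ∈ A, ∃ y' ∈ A', z' ∈ Submodule.span F {z, y} ∧ y' ∈ Submodule.span F {z, y} ∧
      ∀ x ∈ Submodule.span F {z, y}, ∃ c d : F, x = c • z' + d • y' := by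
  -- a vector of the plane in one of the spaces
  have key : ∀ A A' : Submodule F V, Pair (RingHom.id F) (fun x y => B x y) (isom (fun x y => B x y)) M A A' →
      ∀ s t : F, ¬ (s = 0 ∧ t = 0) → s • z + t • y ∈ A → Hor B hB M A A' ∨
    ∃ z' ∈ A, ∃ y' ∈ A', z' ∈ Submodule.span F {z, y} ∧ y' ∈ Submodule.span F {z, y} ∧
      ∀ x ∈ Submodule.span F {z, y}, ∃ c d : F, x = c • z' + d • y' := by
    intro A A' P s t hst hA
    obtain ⟨s', t', hdet⟩ : ∃ s' t' : F, s * t' - t * s' = 1 := by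
      by_cases hs : s = 0
      · have ht : t ≠ 0 := fun h => hst ⟨hs, h⟩
        exact ⟨-t⁻¹, 0, by rw [mul_zero, mul_neg, mul_inv_cancel₀ ht]; ring⟩
      · exact ⟨0, s⁻¹, by rw [mul_zero, mul_inv_cancel₀ hs, sub_zero]⟩
    obtain ⟨z', hz'⟩ : ∃ z', z' = s • z + t • y := ⟨_, rfl⟩
    obtain ⟨y', hy'⟩ : ∃ y', y' = s' • z + t' • y := ⟨_, rfl⟩
    have e1 : B y z = -1 := by rw [alt_neg hB, hzy]
    have hzy' : B z' y' = 1 := by
      rw [hz', hy']
      simp only [map_add, map_smul, LinearMap.add_apply, LinearMap.smul_apply, smul_eq_mul, hzy, e1,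
        show B z z = 0 from hB z, show B y y = 0 from hB y]
      linear_combination hdet
    have hip' : IP B M z' y' := by rw [hz', hy']; exact hip.change hdet
    obtain ⟨α, hα, β, hβ, hyd⟩ := P.dec y'
    by_cases hαz : α ∈ F ∙ z'
    · right
      obtain ⟨c, hc⟩ := Submodule.mem_span_singleton.1 hαz
      have hz'm : z' ∈ Submodule.span F {z, y} := by
        rw [hz', Submodule.mem_span_pair]; exact ⟨_, _, rfl⟩
      have hy'm : y' ∈ Submodule.span F {z, y} := by
        rw [hy', Submodule.mem_span_pair]; exact ⟨_, _, rfl⟩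
      have hβe : β = y' - c • z' := by rw [hc, ← hyd]; abel
      refine ⟨z', by rw [hz']; exact hA, β, hβ, hz'm, ?_, ?_⟩
      · rw [hβe]; exact Submodule.sub_mem _ hy'm (Submodule.smul_mem _ _ hz'm)
      · intro x hx
        obtain ⟨p, q, rfl⟩ := Submodule.mem_span_pair.1 hx
        -- `z = t' z' - t y'`, `y = -s' z' + s y'`
        refine ⟨p * t' - q * s' + (q * s - p * t) * c, q * s - p * t, ?_⟩
        rw [hβe, hz', hy']
        match_scalars
        · linear_combination (-p) * hdet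
        · linear_combination (-q) * hdet
    · left
      exact p_case1 hB h2 P hip' hzy' (by rw [hz']; exact hA) hyd.symm hα hβ hαz
  by_cases h1 : ∀ s t : F, s • z + t • y ∈ A → s = 0 ∧ t = 0
  · by_cases h3 : ∀ s t : F, s • z + t • y ∈ A' → s = 0 ∧ t = 0
    · left
      exact p_case2 hB h2 P hip hzy h1 h3
    · push Not at h3
      obtain ⟨s, t, hm, hst⟩ := h3
      rcases key A' A P.symm s t (fun h => hst h.1 h.2) hm with h | ⟨z', hz', y', hy', a, b, c⟩
      · left
        rcases h with h | h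
        · exact Or.inr h
        · exact Or.inl h
      · right
        refine ⟨y', hy', z', hz', b, a, fun x hx => ?_⟩
        obtain ⟨c', d', h⟩ := c x hx
        exact ⟨d', c', by rw [h]; abel⟩
  · push Not at h1
    obtain ⟨s, t, hm, hst⟩ := h1
    exact key A A' P s t (fun h => hst h.1 h.2) hm

/-- images of vectors of `A` -/
theorem p_img (hnc : ¬ Hor B hB M A A') {g : V ≃ₗ[F] V} (hg : g ∈ M) {a : V} (ha : a ∈ A) : g a ∈ A ∨ g a ∈ A' := by
  by_cases ha0 : a = 0
  · left; rw [ha0, map_zero]; exact A.zero_mem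
  obtain ⟨b, hb, hab, -⟩ := P.dual (C := ⊥) bot_le ha (by simpa using ha0)
  -- the second vector
  obtain ⟨U, hU, hUa, hUd⟩ := P.symm.finrank_inf_ker A' a
  have hd := P.symm.five
  obtain ⟨c, hc, hc0⟩ := Submodule.exists_mem_ne_zero_of_ne_bot (show U ≠ ⊥ by
    rintro rfl; rw [finrank_bot] at hUd; omega)
  have hcA : c ∈ A' := hU hc
  have hac : B a c = 0 := by
    have : B c a = 0 := hUa c hc
    rw [alt_neg hB, this, neg_zero]
  have hsp : ∀ b ∈ A', B a b = 1 → ∃ z' ∈ A, ∃ y' ∈ A', z' ∈ Submodule.span F {g a, g b} ∧ y' ∈ Submodule.span F {g a, g b} ∧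
      ∀ x ∈ Submodule.span F {g a, g b}, ∃ c d : F, x = c • z' + d • y' := by
    intro b hb hab
    obtain ⟨σ, hσ, h1⟩ := exists_iota hB hab
    have hσM : σ ∈ M := by
      refine P.stab σ hσ ?_ ?_
      · intro x hx
        have e1 : B x a = 0 := P.tsA x hx a ha
        rw [h1, e1, mul_zero, zero_smul, add_zero]
        exact A.sub_mem hx (A.smul_mem _ ha)
      · intro x hx
        have e1 : B x b = 0 := P.tsB x hx b hb
        rw [h1, e1, mul_zero, zero_smul, sub_zero]
        exact A'.add_mem hx (A'.smul_mem _ hb)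
    refine (p_split hB h2 P (z := g a) (y := g b) ⟨g * σ * g⁻¹, mul_mem (mul_mem hg hσM) (inv_mem hg), fun x => ?_⟩ ?_).resolve_left
      hnc
    · have e1 : g (g⁻¹ x) = x := g.apply_symm_apply x
      have e2 : ∀ z, B (g⁻¹ x) z = B x (g z) := fun z => by
        have := P.le hg (g⁻¹ x) z
        simp only [e1] at this
        exact this.symm
      rw [LinearEquiv.mul_apply, LinearEquiv.mul_apply, h1, map_add, map_sub, map_smul, map_smul, e1, e2, e2]
    · have := P.le hg a b
      simp only at this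
      rw [this, hab]
  obtain ⟨z₀, hz₀, y₀, hy₀, hz₀m, hy₀m, h₀⟩ := hsp b hb hab
  obtain ⟨z₁, hz₁, y₁, hy₁, hz₁m, hy₁m, h₁⟩ := hsp (b + c) (A'.add_mem hb hcA) (by rw [map_add, hab, hac, add_zero])
  -- the components
  obtain ⟨p, q, h3⟩ := h₀ (g a) (Submodule.subset_span (by simp))
  obtain ⟨p', q', h4⟩ := h₁ (g a) (Submodule.subset_span (by simp))
  have h5 : p • z₀ = p' • z₁ := by
    have h6 : p • z₀ - p' • z₁ = 0 := by
      apply P.int
      · exact A.sub_mem (A.smul_mem _ hz₀) (A.smul_mem _ hz₁)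
      · have : p • z₀ - p' • z₁ = q' • y₁ - q • y₀ := by
          have h7 : p • z₀ + q • y₀ = p' • z₁ + q' • y₁ := by rw [← h3, ← h4]
          have h8 : p • z₀ - p' • z₁ = (p • z₀ + q • y₀) - (p' • z₁ + q' • y₁) + (q' • y₁ - q • y₀) := by abel
          rw [h8, h7]; abel
        rw [this]
        exact A'.sub_mem (A'.smul_mem _ hy₁) (A'.smul_mem _ hy₀)
    exact sub_eq_zero.mp h6
  obtain ⟨s, t, hst⟩ := Submodule.mem_span_pair.1 (Submodule.smul_mem _ p hz₀m)
  obtain ⟨s', t', hst'⟩ := Submodule.mem_span_pair.1 (Submodule.smul_mem _ p' hz₁m)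
  have h6 : s • a + t • b = s' • a + t' • (b + c) := by
    apply g.injective
    rw [map_add, map_smul, map_smul, map_add, map_smul, map_smul, hst, hst', h5]
  have hbb : ∀ x ∈ A', ∀ y ∈ A', B x y = 0 := fun x hx y hy => P.tsB x hx y hy
  have h7 : t = t' := by
    have := congrArg (fun y => B a y) h6
    simp only [map_add, map_smul, smul_eq_mul, hab, hac, show B a a = 0 from hB a] at this
    linear_combination this
  have h8 : t' • c = 0 := by
    apply P.int
    · have : t' • c = (s - s') • a := by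
        rw [h7] at h6
        have h9 : t' • c = (s' • a + t' • (b + c)) - s' • a - t' • b := by module
        rw [h9, ← h6]; module
      rw [this]; exact A.smul_mem _ ha
    · exact A'.smul_mem _ hcA
  have ht' : t' = 0 := (smul_eq_zero.mp h8).resolve_right hc0
  rw [h7, ht', zero_smul, add_zero] at hst
  -- `p z₀ = s g a`
  by_cases hs : s = 0
  · right
    rw [hs, zero_smul] at hst
    rw [h3, ← hst, zero_add]
    exact A'.smul_mem _ hy₀
  · left
    have : g a = s⁻¹ • (p • z₀) := by rw [← hst, smul_smul, inv_mul_cancel₀ hs, one_smul]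
    rw [this]
    exact A.smul_mem _ (A.smul_mem _ hz₀)

/-- **Main theorem.** -/
theorem p_main (hex : ∃ g ∈ M, ¬ ((∀ a ∈ A, g a ∈ A) ∧ (∀ b ∈ A', g b ∈ A')) ∧
      ¬ ((∀ a ∈ A, g a ∈ A') ∧ (∀ b ∈ A', g b ∈ A))) : ∀ v a, tv B hB v a ∈ M := by
  have hhor : Hor B hB M A A' := by
    by_contra hnc
    obtain ⟨g, hg, hg1, hg2⟩ := hex
    have hun : ∀ A A' : Submodule F V, (∀ a ∈ A, g a ∈ A ∨ g a ∈ A') → (∀ a ∈ A, g a ∈ A) ∨ (∀ a ∈ A, g a ∈ A') := by
      intro A A' h
      by_contra hcon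
      push Not at hcon
      obtain ⟨⟨a₁, ha₁, h1⟩, ⟨a₂, ha₂, h3⟩⟩ := hcon
      have h4 := (h a₁ ha₁).resolve_left h1
      have h5 := (h a₂ ha₂).resolve_right h3
      rcases h (a₁ + a₂) (A.add_mem ha₁ ha₂) with h6 | h6
      · apply h1
        have := A.sub_mem h6 h5
        rwa [map_add, add_sub_cancel_right] at this
      · apply h3
        have := A'.sub_mem h6 h4
        rwa [map_add, add_sub_cancel_left] at this
    have hnc' : ¬ Hor B hB M A' A := fun h => hnc (by
      rcases h with h | h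
      · exact Or.inr h
      · exact Or.inl h)
    have k1 := hun A A' (fun a ha => p_img hB h2 P hnc hg ha)
    have k2 := hun A' A (fun a ha => p_img hB h2 P.symm hnc' hg ha)
    -- not both in the same space
    have hcol : ∀ C : Submodule F V, (∀ a ∈ A, g a ∈ C) → (∀ b ∈ A', g b ∈ C) → C = ⊤ := by
      intro C h1 h3
      rw [eq_top_iff]
      intro v _
      obtain ⟨w, rfl⟩ := g.surjective v
      obtain ⟨a, ha, b, hb, rfl⟩ := P.dec w
      rw [map_add]
      exact C.add_mem (h1 a ha) (h3 b hb)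
    have hnt : ∀ A A' : Submodule F V, Pair (RingHom.id F) (fun x y => B x y) (isom (fun x y => B x y)) M A A' → A ≠ ⊤ := by
      intro A A' P h0
      have h5 := P.symm.five
      obtain ⟨b, hb, hb0⟩ := Submodule.exists_mem_ne_zero_of_ne_bot (show A' ≠ ⊥ by
        rintro rfl; rw [finrank_bot] at h5; omega)
      exact hb0 (P.int b (by rw [h0]; trivial) hb)
    rcases k1 with k1 | k1
    · rcases k2 with k2 | k2
      · exact hg1 ⟨k1, k2⟩
      · exact hnt A A' P (hcol A k1 k2)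
    · rcases k2 with k2 | k2
      · exact hnt A' A P.symm (hcol A' k1 k2)
      · exact hg2 ⟨k1, k2⟩
  have hT : ∀ a : V, a ∈ centres hB M → ∀ c, RingHom.id F c = c → T (fun x y => B x y) M a c := by
    intro a ha c _
    exact ⟨tv B hB a c, ha c, fun x => tv_apply hB a c x⟩
  have hall := P.main_of (by
    rcases hhor with ⟨a, ha, ha0, h⟩ | ⟨b, hb, hb0, h⟩
    · exact Or.inl ⟨a, ha, ha0, hT a h⟩
    · exact Or.inr ⟨b, hb, hb0, hT b h⟩)
  intro v a
  obtain ⟨t, ht, htx⟩ := hall v (hB v) a rfl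
  have : tv _ hB v a = t := by
    apply LinearEquiv.ext
    intro x
    rw [tv_apply, htx]
  rw [this]; exact ht

end Cfsg.Agent.Lib.SpSm
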