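import Mathlib
import Cfsg.Prelude.Def_GeometricClasses
import Cfsg.Agent.Lib.SpSm3
import Cfsg.Agent.Lib.SpSm4
import Cfsg.Agent.Lib.SpExtA2
import Cfsg.Agent.Lib.SpGeoAll

/-!
# `GL_m(q).2` and `GU_3(q).2` in symplectic groups: the bridge (helper21)
-/

set_option autoImplicit false
set_option linter.unusedSectionVars false
set_option linter.unusedVariables false
set_option linter.unusedSimpArgs false

namespace Cfsg.Agent.Lib.SpSm

open scoped Matrix

section

open Cfsg.Agent.Lib.SpTrans Cfsg.Agent.Lib.GeoBridge Cfsg.Agent.Lib.TSPair3 Cfsg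
open Cfsg.Agent.Lib.TSPairH94 hiding Pair

theorem tspair_max3 {F : Type*} [Field F] [Fintype F] (m : ℕ) (hm : 3 ≤ m) (hodd : Odd (Fintype.card F)) (D : Fin 2 → Submodule F (Fin m ⊕ Fin m → F)) (hD : Cfsg.Geo.IsMDecomposition m D) (hts : ∀ i, Cfsg.Geo.IsTotallySingularFor (Cfsg.sympForm m F) (D i)) : Cfsg.Geo.IsMaximalIn (Cfsg.spGL m F) (Cfsg.Geo.decompositionStabilizer D ⊓ Cfsg.spGL m F) := by
  have hB := sympB_isAlt (F := F) m
  have hnd := sympB_nd (F := F) m
  have h2 : (2 : F) ≠ 0 := by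
    intro h
    have hchar : ringChar F = 2 := by
      have h1 : ringChar F ∣ 2 := (ringChar.spec F 2).1 (by exact_mod_cast h)
      rcases (Nat.dvd_prime Nat.prime_two).1 h1 with h3 | h3
      · exfalso
        haveI : CharP F 1 := h3 ▸ (inferInstance : CharP F (ringChar F))
        exact one_ne_zero (CharP.cast_eq_zero F 1 ▸ (Nat.cast_one (R := F)).symm ▸ rfl : (1 : F) = 0)
      · exact h3
    have h4 := FiniteField.even_card_of_char_two hchar
    have h5 := Nat.odd_iff.1 hodd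
    omega
  obtain ⟨hdec, hint⟩ := dec_of hD.indep hD.iSup_eq_top
  have P0 : ∀ M : Subgroup ((Fin m ⊕ Fin m → F) ≃ₗ[F] (Fin m ⊕ Fin m → F)),
      M ≤ isom (fun x y => sympB m F x y) →
      (∀ g ∈ isom (fun x y => sympB m F x y), (∀ a ∈ D 0, g a ∈ D 0) → (∀ b ∈ D 1, g b ∈ D 1) → g ∈ M) →
      (∀ g ∈ isom (fun x y => sympB m F x y), (∀ a ∈ D 0, g a ∈ D 1) → (∀ b ∈ D 1, g b ∈ D 0) → g ∈ M) →
      Pair (RingHom.id F) (fun x y => sympB m F x y) (isom (fun x y => sympB m F x y)) M (D 0) (D 1) := by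
    intro M hM h1 h3
    refine ⟨⟨fun a => rfl, fun x y z => by rw [map_add]; rfl, fun c x y => by rw [map_smul]; rfl,
      fun x y => alt_neg hB _ _, ?_, 1, ?_⟩, fun g hg => hg, hM, ?_, hts 0, hts 1, hdec, hint, ?_, ?_, h1, h3⟩
    · intro x hx
      by_contra hx0
      obtain ⟨y, -, hy⟩ := hnd x trivial hx0
      exact hy (hx y)
    · show (1 : F) + 1 ≠ 0
      rw [one_add_one_eq_two]; exact h2
    · intro v _ c _
      exact ⟨tv _ hB v c, tv_mem_isom hB v c, fun x => tv_apply hB v c x⟩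
    · rw [hD.finrank_eq]; omega
    · rw [hD.finrank_eq, hD.finrank_eq]
  have hdd : Module.finrank F (D 0) = Module.finrank F (D 1) := by rw [hD.finrank_eq, hD.finrank_eq]
  apply isMaximalIn_of
  · refine lt_of_le_of_ne inf_le_right fun heq => ?_
    obtain ⟨g, hg, hg1, hg2⟩ := (P0 _ le_rfl (fun g hg _ _ => hg) (fun g hg _ _ => hg)).exists_not
    have ht2 : le.symm g ∈ spGL m F := by
      rw [mem_spGL_iff, MulEquiv.apply_symm_apply]; exact hg
    rw [← heq] at ht2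
    have h3 := (mem_decompositionStabilizer_iff D _).1 ht2.1
    rw [MulEquiv.apply_symm_apply] at h3
    rcases (perm_iff hdd g).1 h3 with h4 | h4
    · exact hg1 h4
    · exact hg2 h4
  · intro M hHM hMK hex g hg
    have hM : M ≤ isom (fun x y => sympB m F x y) := by
      intro x hx
      have := hMK (le.symm x) (by rwa [MulEquiv.apply_symm_apply])
      rwa [mem_spGL_iff, MulEquiv.apply_symm_apply] at this
    have hHM' : ∀ x ∈ isom (fun x y => sympB m F x y),
        (∃ σ : Equiv.Perm (Fin 2), ∀ i, (D i).map x.toLinearMap = D (σ i)) → x ∈ M := by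
      intro x hx hxW
      have := hHM (le.symm x) (Subgroup.mem_inf.2 ⟨?_, ?_⟩)
      · rwa [MulEquiv.apply_symm_apply] at this
      · rw [mem_decompositionStabilizer_iff, MulEquiv.apply_symm_apply]; exact hxW
      · rw [mem_spGL_iff, MulEquiv.apply_symm_apply]; exact hx
    have P := P0 M hM (fun x hx h1 h3 => hHM' x hx ((perm_iff hdd x).2 (Or.inl ⟨h1, h3⟩)))
      (fun x hx h1 h3 => hHM' x hx ((perm_iff hdd x).2 (Or.inr ⟨h1, h3⟩)))
    refine isom_le_of_tv_mem hB hnd (p_main hB h2 P ?_) hg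
    obtain ⟨x, hx, hxH⟩ := hex
    refine ⟨le x, hx, ?_⟩
    rw [← not_or, ← perm_iff hdd]
    intro hcon
    exact hxH ⟨(mem_decompositionStabilizer_iff D x).2 hcon, hMK x hx⟩

end

section

open Cfsg.Agent.Lib.SpTrans Cfsg.Agent.Lib.GeoBridge Cfsg.Agent.Lib.SpExtH94 Cfsg.Agent.Lib.QuadFieldH94
  Cfsg.Agent.Lib.OrthExtH94
open Cfsg Cfsg.Geo

theorem unitary_max3 {F : Type*} [Field F] [Fintype F] (m : ℕ) (hm : m = 3) (hodd : Odd (Fintype.card F)) (K : Subalgebra F (Matrix (Fin m ⊕ Fin m) (Fin m ⊕ Fin m) F)) (hK : Cfsg.Geo.IsFieldSubalgebra 2 K) (hac : Cfsg.Geo.IsAdjointClosedFor (Cfsg.sympForm m F) K) (hnsa : ¬ Cfsg.Geo.IsSelfAdjointFor (Cfsg.sympForm m F) K) : Cfsg.Geo.IsMaximalIn (Cfsg.spGL m F) (Cfsg.Geo.subalgebraNormalizer K ⊓ Cfsg.spGL m F) := by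
  have hB := sympB_isAlt (F := F) m
  have hnd := sympB_nd (F := F) m
  have h2 : (2 : F) ≠ 0 := by
    intro h
    have hchar : ringChar F = 2 := by
      have h1 : ringChar F ∣ 2 := (ringChar.spec F 2).1 (by exact_mod_cast h)
      rcases (Nat.dvd_prime Nat.prime_two).1 h1 with h3 | h3
      · exfalso
        have : CharP F 1 := h3 ▸ (inferInstance : CharP F (ringChar F))
        exact one_ne_zero (CharP.cast_eq_zero F 1 ▸ (Nat.cast_one (R := F)).symm ▸ rfl : (1 : F) = 0)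
      · exact h3
    have h4 := FiniteField.even_card_of_char_two hchar
    have h5 := Nat.odd_iff.1 hodd
    omega
  have : Nonempty (Fin m ⊕ Fin m) := ⟨Sum.inl ⟨0, by omega⟩⟩
  have hfr : Module.finrank F (Fin m ⊕ Fin m → F) = 2 * m := by
    rw [Module.finrank_fintype_fun_eq_card, Fintype.card_sum, Fintype.card_fin]; ring
  have hnd' : ∀ x, (∀ y, sympB m F x y = 0) → x = 0 := by
    intro x hx
    by_contra hx0
    obtain ⟨y, -, hy⟩ := hnd x trivial hx0
    exact hy (hx y)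
  obtain ⟨κ₀, hκ₀, T, N, hsq₀, hall₀, hirr, hκc₀⟩ := exists_gen hK
  have hadj₀ : ∀ u v, sympB m F (κ₀ *ᵥ u) v = T * sympB m F u v - sympB m F u (κ₀ *ᵥ v) :=
    adjoint_eq hK (sympB m F) (by
      intro x hx
      apply hnd'
      intro y
      rw [alt_neg hB, hx, neg_zero]) hac hnsa hκ₀ hsq₀ hall₀
  obtain ⟨s, rfl⟩ : ∃ s, T = s + s := ⟨T / 2, by field_simp; ring⟩
  obtain ⟨κ, hκd⟩ : ∃ κ, κ = κ₀ - s • (1 : Matrix (Fin m ⊕ Fin m) (Fin m ⊕ Fin m) F) := ⟨_, rfl⟩
  have hκ₀d : κ₀ = κ + s • (1 : Matrix (Fin m ⊕ Fin m) (Fin m ⊕ Fin m) F) := by rw [hκd]; abel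
  have hκ : κ ∈ K := by rw [hκd]; exact K.sub_mem hκ₀ (K.smul_mem K.one_mem _)
  have hall : ∀ k ∈ K, ∃ a b : F, k = a • (1 : Matrix (Fin m ⊕ Fin m) (Fin m ⊕ Fin m) F) + b • κ := by
    intro k hk
    obtain ⟨a, b, rfl⟩ := hall₀ k hk
    refine ⟨a + b * s, b, ?_⟩
    rw [hκ₀d]; module
  have hκc : ∀ c : F, κ ≠ c • (1 : Matrix (Fin m ⊕ Fin m) (Fin m ⊕ Fin m) F) := by
    intro c hc
    apply hκc₀ (c + s)
    rw [hκ₀d, hc]; module
  have hκκ : κ * κ = (s * s - N) • (1 : Matrix (Fin m ⊕ Fin m) (Fin m ⊕ Fin m) F) := by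
    rw [hκd]
    simp only [sub_mul, mul_sub, mul_smul_comm, smul_mul_assoc, mul_one, one_mul, hsq₀]
    module
  have hk : SKS (sympB m F) (Matrix.toLin' κ) (s * s - N) := by
    refine ⟨hB, hnd', h2, fun x => ?_, fun x y => ?_, fun c hc => ?_⟩
    · simp only [Matrix.toLin'_apply]
      rw [Matrix.mulVec_mulVec, hκκ, Matrix.smul_mulVec, Matrix.one_mulVec]
    · simp only [Matrix.toLin'_apply]
      rw [hκd]
      simp only [Matrix.sub_mulVec, Matrix.smul_mulVec, Matrix.one_mulVec, map_sub, map_smul,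
        LinearMap.sub_apply, LinearMap.smul_apply, smul_eq_mul, hadj₀]
      ring
    · have := hirr 1 (c - s) (by linear_combination hc)
      exact one_ne_zero this
  have hmem := mem_normalizer_iff hκ hall hκc
  apply isMaximalIn_of
  · refine lt_of_le_of_ne inf_le_right fun heq => ?_
    obtain ⟨g, hg, hgN⟩ := hk.exists_not (by omega)
    have ht2 : le.symm g ∈ spGL m F := by
      rw [mem_spGL_iff, MulEquiv.apply_symm_apply]; exact hg
    rw [← heq] at ht2
    have h3 := (hmem _).1 ht2.1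
    rw [MulEquiv.apply_symm_apply] at h3
    exact hgN h3
  · intro M hHM hMK hex g hg
    have hM : M ≤ isom (fun x y => sympB m F x y) := by
      intro x hx
      have := hMK (le.symm x) (by rwa [MulEquiv.apply_symm_apply])
      rwa [mem_spGL_iff, MulEquiv.apply_symm_apply] at this
    have hHM' : ∀ x ∈ isom (fun x y => sympB m F x y), Nrm (Matrix.toLin' κ) x → x ∈ M := by
      intro x hx hxW
      have := hHM (le.symm x) (Subgroup.mem_inf.2 ⟨?_, ?_⟩)
      · rwa [MulEquiv.apply_symm_apply] at this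
      · rw [hmem, MulEquiv.apply_symm_apply]; exact hxW
      · rw [mem_spGL_iff, MulEquiv.apply_symm_apply]; exact hx
    obtain ⟨x, hx, hxH⟩ := hex
    exact u_main hk hM hHM' (by omega) ⟨le x, hx, fun hcon => hxH ⟨(hmem x).2 hcon, hMK x hx⟩⟩ hg

end

end Cfsg.Agent.Lib.SpSm
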