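import Mathlib
import Cfsg.Agent.Lib.SpSubA1

/-!
# Overgroups of `Sp_{2m}(F₀)` in `Sp_{2m}(F)`: one nonrational multiple gives everything (helper98)
-/

set_option autoImplicit false
set_option linter.unusedSectionVars false

namespace Cfsg.Agent.Lib.SpSubA

open Cfsg.Agent.Lib Cfsg.Agent.Lib.SpTrans

variable {F V : Type*} [Field F] [AddCommGroup V] [Module F V]
variable {B : V →ₗ[F] V →ₗ[F] F} {F₀ : Subfield F} {V0 : Submodule F₀ V}
variable (hB : B.IsAlt) {M : Subgroup (V ≃ₗ[F] V)}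

/-- `x ↦ x + B(x,u) w + B(x,w) u + k B(x,w) w` for `u ⊥ w` -/
def qq (w u : V) (k : F) : V ≃ₗ[F] V := tv B hB (u + w) 1 * tv B hB u (-1) * tv B hB w (k - 1)

theorem qq_apply {w u : V} (h : B w u = 0) (k : F) (x : V) :
    qq hB w u k x = x + B x u • w + B x w • u + (k * B x w) • w := by
  have h1 : B w w = 0 := hB w
  have h2 : B u u = 0 := hB u
  have h3 : B u w = 0 := by rw [alt_neg hB, h, neg_zero]
  rw [qq, LinearEquiv.mul_apply, LinearEquiv.mul_apply]
  simp only [tv_apply, map_add, map_smul, LinearMap.add_apply, LinearMap.smul_apply, smul_eq_mul, h, h1, h2, h3]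
  module

theorem tv_qq (w : V) (k : F) : tv B hB w k = qq hB w 0 k := by
  ext x
  rw [qq_apply hB (by simp), tv_apply]
  simp

theorem qq_mul {w u u' : V} (h : B w u = 0) (h' : B w u' = 0) (k k' : F) :
    qq hB w u k * qq hB w u' k' = qq hB w (u + u') (k + k' + B u' u) := by
  have h'' : B w (u + u') = 0 := by rw [map_add, h, h', add_zero]
  have h1 : B w w = 0 := hB w
  have h3 : B u' w = 0 := by rw [alt_neg hB, h', neg_zero]
  ext x
  rw [LinearEquiv.mul_apply, qq_apply hB h', qq_apply hB h, qq_apply hB h'']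
  simp only [map_add, map_smul, LinearMap.add_apply, LinearMap.smul_apply, smul_eq_mul, h, h1, h3]
  module

theorem qq_inv {w u : V} (h : B w u = 0) (k : F) : (qq hB w u k)⁻¹ = qq hB w (-u) (-k) := by
  rw [inv_eq_iff_mul_eq_one, qq_mul hB h (by rw [map_neg, h, neg_zero])]
  have h2 : B u u = 0 := hB u
  ext x
  rw [qq_apply hB (by simp)]
  simp [h2]

theorem qq_conj (hM : M ≤ isom (fun x y => B x y)) {g : V ≃ₗ[F] V} (hg : g ∈ M) (w u : V) (k : F) :
    g * qq hB w u k * g⁻¹ = qq hB (g w) (g u) k := by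
  rw [qq, qq, ← conj_tv hB (hM hg), ← map_add, ← conj_tv hB (hM hg), ← conj_tv hB (hM hg)]
  group

theorem qq_map (hM : M ≤ isom (fun x y => B x y)) {g : V ≃ₗ[F] V} (hg : g ∈ M) {w u : V} {k : F}
    (h : qq hB w u k ∈ M) : qq hB (g w) (g u) k ∈ M := by
  rw [← qq_conj hB hM hg]
  exact M.mul_mem (M.mul_mem hg h) (M.inv_mem hg)

/-- difference of two elements with the same `u` -/
theorem tv_of_qq {w u : V} (h : B w u = 0) {k k' : F} (h1 : qq hB w u k ∈ M) (h2 : qq hB w u k' ∈ M) :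
    tv B hB w (k - k') ∈ M := by
  have e : tv B hB w (k - k') = qq hB w u k * (qq hB w u k')⁻¹ := by
    have h3 : B u u = 0 := hB u
    rw [qq_inv hB h, qq_mul hB h (by rw [map_neg, h, neg_zero]), tv_qq]
    congr 1
    · abel
    · rw [map_neg, LinearMap.neg_apply, h3]; ring
  rw [e]; exact M.mul_mem h1 (M.inv_mem h2)

/-- `t_{v + c w}` and `t_v` give `q` -/
theorem qq_of_tv {w v : V} (h : B w v = 0) {c a : F} (h1 : tv B hB (v + c • w) a ∈ M) (h2 : tv B hB v a ∈ M) :
    qq hB w ((a * c) • v) (a * c ^ 2) ∈ M := by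
  have h' : B w ((a * c) • v) = 0 := by rw [map_smul, h, smul_zero]
  have e : qq hB w ((a * c) • v) (a * c ^ 2) = tv B hB (v + c • w) a * (tv B hB v a)⁻¹ := by
    have h3 : B v v = 0 := hB v
    have h4 : B v w = 0 := by rw [alt_neg hB, h, neg_zero]
    ext x
    rw [tv_inv, LinearEquiv.mul_apply, qq_apply hB h']
    simp only [tv_apply, map_add, map_smul, LinearMap.add_apply, LinearMap.smul_apply, smul_eq_mul, h3, h4]
    module
  rw [e]; exact M.mul_mem h1 (M.inv_mem h2)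

/-- `q` from three transvections -/
theorem qq_of_three {w u : V} (h : B w u = 0) {l : F} (h1 : tv B hB (u + w) l ∈ M) (h2 : tv B hB u l ∈ M)
    (h3 : tv B hB w l ∈ M) : qq hB w (l • u) 0 ∈ M := by
  have h' : B w (l • u) = 0 := by rw [map_smul, h, smul_zero]
  have e : qq hB w (l • u) 0 = tv B hB (u + w) l * (tv B hB u l)⁻¹ * (tv B hB w l)⁻¹ := by
    have h3 : B u u = 0 := hB u
    have h4 : B u w = 0 := by rw [alt_neg hB, h, neg_zero]
    have h5 : B w w = 0 := hB w
    ext x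
    rw [tv_inv, tv_inv, LinearEquiv.mul_apply, LinearEquiv.mul_apply, qq_apply hB h']
    simp only [tv_apply, map_add, map_smul, LinearMap.add_apply, LinearMap.smul_apply, smul_eq_mul, h3, h4, h5, h]
    module
  rw [e]; exact M.mul_mem (M.mul_mem h1 (M.inv_mem h2)) (M.inv_mem h3)

variable (S : SpF B F₀ V0) (H : Hyp B F₀ V0 hB M)

section

include S H

theorem finrank_pair (v w : V) : Module.finrank F₀ (Submodule.span F₀ {v, w}) ≤ 2 := by
  classical
  have h : (({v, w} : Finset V) : Set V) = {v, w} := by simp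
  have := finrank_span_finset_le_card (R := F₀) ({v, w} : Finset V)
  rw [Set.finrank, h] at this
  exact this.trans Finset.card_le_two

/-- two orthogonal rational vectors in `v^⊥`, independent modulo `v` -/
theorem exists_two (h6 : 6 ≤ Module.finrank F₀ V0) {v : V} (hv : v ∈ V0) (hv0 : v ≠ 0) : ∃ w₁ ∈ V0, ∃ w₂ ∈ V0, B w₁ v = 0 ∧ B w₂ v = 0 ∧ B w₁ w₂ = 0 ∧
    w₁ ∉ Submodule.span F₀ {v} ∧ w₂ ∉ Submodule.span F₀ {v} ∧ w₁ + w₂ ∉ Submodule.span F₀ {v} := by
  haveI := S.fin
  have hd := S.dim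
  obtain ⟨K, hK, hK2, hK3⟩ := S.finrank_perp (K := V0) le_rfl ![v] (by intro i; fin_cases i; exact hv)
  have hnot : ¬ K ≤ Submodule.span F₀ {v} := by
    intro hle
    have := Submodule.finrank_mono hle
    have h2 := finrank_span_singleton (K := F₀) hv0
    omega
  obtain ⟨w₁, hw₁, h1⟩ := Set.not_subset.1 hnot
  have hw₁0 : w₁ ∈ V0 := hK hw₁
  have hw₁v : B w₁ v = 0 := ((hK2 w₁).mp hw₁).2 0
  obtain ⟨K', hK', hK2', hK3'⟩ := S.finrank_perp (K := V0) le_rfl ![v, w₁] (by
    intro i; fin_cases i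
    · exact hv
    · exact hw₁0)
  have hnot' : ¬ K' ≤ Submodule.span F₀ {v, w₁} := by
    intro hle
    haveI : Module.Finite F₀ (Submodule.span F₀ {v, w₁}) := Module.Finite.span_of_finite F₀ (Set.toFinite _)
    have := Submodule.finrank_mono hle
    have h2 := finrank_pair hB S H v w₁
    omega
  obtain ⟨w₂, hw₂, h2⟩ := Set.not_subset.1 hnot'
  have hw₂0 : w₂ ∈ V0 := hK' hw₂
  have hw₂v : B w₂ v = 0 := ((hK2' w₂).mp hw₂).2 0
  have hw₂w₁ : B w₂ w₁ = 0 := ((hK2' w₂).mp hw₂).2 1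
  have hsub : Submodule.span F₀ {v} ≤ Submodule.span F₀ {v, w₁} := Submodule.span_mono (by simp)
  have hw₁s : w₁ ∈ Submodule.span F₀ {v, w₁} := Submodule.subset_span (by simp)
  refine ⟨w₁, hw₁0, w₂, hw₂0, hw₁v, hw₂v, S.comm0 hw₂w₁, h1, fun h => h2 (hsub h), fun h => h2 ?_⟩
  have := Submodule.sub_mem _ (hsub h) hw₁s
  rwa [add_sub_cancel_left] at this

theorem sq_closed (h6 : 6 ≤ Module.finrank F₀ V0) {l m : F} (hl : ∀ v ∈ V0, tv B hB v l ∈ M) (hm : ∀ v ∈ V0, tv B hB v m ∈ M) {v : V} (hv : v ∈ V0) :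
    tv B hB v (m * l ^ 2) ∈ M := by
  by_cases hv0 : v = 0
  · rw [hv0, tv_zero_left]; exact M.one_mem
  obtain ⟨w₁, hw₁, w₂, hw₂, h1, h2, h12, n1, n2, n12⟩ := exists_two hB S H h6 hv hv0
  have key : ∀ w ∈ V0, B w v = 0 → w ∉ Submodule.span F₀ {v} → qq hB v ((m * l) • w) (m * l ^ 2) ∈ M := by
    intro w hw hwv hn
    obtain ⟨u, hu, hu1, hu2⟩ := S.exists_sep2 hv hw hn
    -- `B u v = 0`, `B u w = 1`
    have hvu : B v u = 0 := S.comm0 hu1
    have hq : qq hB v (l • u) 0 ∈ M := qq_of_three hB hvu (hl _ (V0.add_mem hu hv)) (hl _ hu) (hl _ hv)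
    have e : qq hB v ((-l) • u) 0 ∈ M := by
      have := M.inv_mem hq
      rwa [qq_inv hB (by rw [map_smul, hvu, smul_zero]), neg_zero, ← neg_smul] at this
    have e2 : qq hB v ((-l) • u) 0 w = w + l • v := by
      rw [qq_apply hB (by rw [map_smul, hvu, smul_zero]), map_smul, alt_neg hB w u, hu2, hwv]
      simp
    have h3 := tv_map hB H.le e (hm w hw)
    rw [e2] at h3
    exact qq_of_tv hB (S.comm0 hwv) h3 (hm w hw)
  have a1 := key w₁ hw₁ h1 n1
  have a2 := key w₂ hw₂ h2 n2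
  have a3 := key (w₁ + w₂) (V0.add_mem hw₁ hw₂) (by rw [map_add, LinearMap.add_apply, h1, h2, add_zero]) n12
  have b1 : B v ((m * l) • w₁) = 0 := by rw [map_smul, S.comm0 h1, smul_zero]
  have b2 : B v ((m * l) • w₂) = 0 := by rw [map_smul, S.comm0 h2, smul_zero]
  have a4 := M.mul_mem a1 a2
  rw [qq_mul hB b1 b2, ← smul_add, map_smul, map_smul, LinearMap.smul_apply, S.comm0 h12, smul_zero, smul_zero, add_zero] at a4
  have a5 := tv_of_qq hB (by rw [map_smul, map_add, S.comm0 h1, S.comm0 h2, add_zero, smul_zero]) a4 a3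
  have e : m * l ^ 2 + m * l ^ 2 - m * l ^ 2 = m * l ^ 2 := by ring
  rwa [e] at a5

/-- all multiples of the rational transvections -/
theorem all_mult [Fintype F] (h6 : 6 ≤ Module.finrank F₀ V0) (r : ℕ) (hr : r.Prime) (hcard : Fintype.card F = Nat.card F₀ ^ r) {v : V} {l : F}
    (hv : v ∈ V0) (hv0 : v ≠ 0) (hT : tv B hB v l ∈ M) (hl : l ∉ F₀) : ∀ w ∈ V0, ∀ a : F, tv B hB w a ∈ M := by
  -- the set of multiples
  have hall : ∀ w ∈ V0, tv B hB w l ∈ M := by
    intro w hw
    by_cases hw0 : w = 0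
    · rw [hw0, tv_zero_left]; exact M.one_mem
    · exact tv_transfer S hB H hv hw hv0 hw0 hT
  let L : Set F := {a | ∀ w ∈ V0, tv B hB w a ∈ M}
  have hL1 : (1 : F) ∈ L := fun w hw => H.mem w hw 1 F₀.one_mem
  have hL0 : ∀ s ∈ F₀, s ∈ L := fun s hs w hw => H.mem w hw s hs
  have hLa : ∀ a ∈ L, ∀ b ∈ L, a + b ∈ L := fun a ha b hb w hw => tv_add_mem hB (ha w hw) (hb w hw)
  have hLn : ∀ a ∈ L, -a ∈ L := fun a ha w hw => tv_neg_mem hB (ha w hw)
  have hLz : (0 : F) ∈ L := hL0 0 F₀.zero_mem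
  have hLs : ∀ a ∈ L, ∀ b ∈ L, b * a ^ 2 ∈ L := fun a ha b hb w hw => sq_closed hB S H h6 ha hb hw
  obtain ⟨k, hk⟩ := SubfRankTwo.exists_subfield {s : F | ∀ a ∈ L, s * a ∈ L}
    (fun a ha => by rw [one_mul]; exact ha)
    (fun s hs t ht a ha => by rw [add_mul]; exact hLa _ (hs a ha) _ (ht a ha))
    (fun s hs a ha => by rw [neg_mul]; exact hLn _ (hs a ha))
    (fun s hs t ht a ha => by rw [mul_assoc]; exact hs _ (ht a ha))
  have hmem : ∀ s : F, s ∈ k ↔ ∀ a ∈ L, s * a ∈ L := by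
    intro s
    have : s ∈ (k : Set F) ↔ s ∈ {s : F | ∀ a ∈ L, s * a ∈ L} := by rw [hk]
    exact this
  have hsq : ∀ a ∈ L, a ^ 2 ∈ k := by
    intro a ha
    rw [hmem]
    intro b hb
    rw [mul_comm]; exact hLs a ha b hb
  have hF₀k : F₀ ≤ k := by
    by_cases h2 : (2 : F) = 0
    · haveI : CharP F 2 := CharTwo.of_one_ne_zero_of_two_eq_zero one_ne_zero h2
      intro s hs
      have h3 : s ^ 2 ∈ k := hsq s (hL0 s hs)
      exact SubfRankTwo.mem_of_sq_mem k h3
    · intro s hs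
      have h4 : (2 : F) ∈ F₀ := by
        have : (2 : F) = ((2 : ℕ) : F) := by norm_num
        rw [this]; exact natCast_mem F₀ 2
      have e : s = ((s + 1) / 2) ^ 2 - ((s - 1) / 2) ^ 2 := by
        field_simp; ring
      rw [e]
      exact k.sub_mem (hsq _ (hL0 _ (F₀.div_mem (F₀.add_mem hs F₀.one_mem) h4)))
        (hsq _ (hL0 _ (F₀.div_mem (F₀.sub_mem hs F₀.one_mem) h4)))
  obtain ⟨x, hxk, hx0⟩ : ∃ x ∈ k, x ∉ F₀ := by
    by_cases h2 : (2 : F) = 0
    · haveI : CharP F 2 := CharTwo.of_one_ne_zero_of_two_eq_zero one_ne_zero h2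
      exact ⟨l ^ 2, hsq l hall, fun h => hl (SubfRankTwo.mem_of_sq_mem F₀ h)⟩
    · by_cases h3 : l ^ 2 ∈ F₀
      · refine ⟨(l + 1) ^ 2, hsq _ (hLa l hall 1 hL1), fun h => hl ?_⟩
        have h4 : (2 : F) ∈ F₀ := by
          have : (2 : F) = ((2 : ℕ) : F) := by norm_num
          rw [this]; exact natCast_mem F₀ 2
        have e : l = ((l + 1) ^ 2 - l ^ 2 - 1) / 2 := by
          field_simp; ring
        rw [e]
        exact F₀.div_mem (F₀.sub_mem (F₀.sub_mem h h3) F₀.one_mem) h4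
      · exact ⟨l ^ 2, hsq l hall, h3⟩
  have htop := SubfRankTwo.eq_top_of_mem F₀ k r hr hcard hF₀k hxk hx0
  intro w hw a
  have h1 : a ∈ k := by rw [htop]; trivial
  have h2 := (hmem a).mp h1 1 hL1
  rw [mul_one] at h2
  exact h2 w hw

/-- the centres form a subspace as soon as they contain `V0` -/
theorem isom_le [FiniteDimensional F V] [Fintype F] (h4 : 4 ≤ Fintype.card F) (hall : ∀ w ∈ V0, ∀ a : F, tv B hB w a ∈ M) :
    isom (fun x y => B x y) ≤ M := by
  have hV0 : ∀ w ∈ V0, w ∈ centres hB M := hall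
  have hadd : ∀ x ∈ centres hB M, ∀ y ∈ centres hB M, x + y ∈ centres hB M := by
    intro x hx y hy
    by_cases hx0 : x = 0
    · rw [hx0, zero_add]; exact hy
    by_cases hy0 : y = 0
    · rw [hy0, add_zero]; exact hx
    by_cases hxy0 : x + y = 0
    · rw [hxy0]; exact centres_zero hB M
    by_cases hxy : B x y = 0
    swap
    · have := centres_add hB H.le hx hy hxy 1
      rwa [one_smul] at this
    obtain ⟨z₁, hz₁, a1, a2⟩ := exists_common S hB H hx0 hy0
    have hz₁0 : z₁ ≠ 0 := by rintro rfl; simp at a1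
    obtain ⟨z₂, hz₂, b1, b2⟩ := exists_common S hB H hz₁0 hxy0
    -- choose τ
    obtain ⟨τ, h1, h2, h3⟩ : ∃ τ : F, B x (z₁ + τ • z₂) ≠ 0 ∧ B y (z₁ + τ • z₂) ≠ 0 ∧ B (x + y) (z₁ + τ • z₂) ≠ 0 := by
      classical
      by_contra hcon
      push Not at hcon
      let s : Finset F := {-(B x z₁) / B x z₂, -(B y z₁) / B y z₂, -(B (x + y) z₁) / B (x + y) z₂}
      have hs : s.card ≤ 3 := Finset.card_le_three
      obtain ⟨τ, hτ⟩ : ∃ τ, τ ∉ s := by
        by_contra hc
        push Not at hc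
        have : Finset.univ ⊆ s := fun a _ => hc a
        have := Finset.card_le_card this
        rw [Finset.card_univ] at this
        omega
      simp only [s, Finset.mem_insert, Finset.mem_singleton, not_or] at hτ
      have gen : ∀ v : V, B v z₁ ≠ 0 ∨ B v z₂ ≠ 0 → τ ≠ -(B v z₁) / B v z₂ → B v (z₁ + τ • z₂) ≠ 0 := by
        intro v hv hne h0
        rw [map_add, map_smul, smul_eq_mul] at h0
        by_cases hz : B v z₂ = 0
        · rw [hz, mul_zero, add_zero] at h0
          rcases hv with h | h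
          · exact h h0
          · exact h hz
        · apply hne
          rw [eq_div_iff hz]
          linear_combination h0
      exact gen (x + y) (Or.inr b2) hτ.2.2 (hcon τ (gen x (Or.inl a1) hτ.1) (gen y (Or.inl a2) hτ.2.1))
    set z := z₁ + τ • z₂ with hz
    have hzc : z ∈ centres hB M := centres_add hB H.le (hV0 _ hz₁) (hV0 _ hz₂) b1 τ
    have c1 : x + z ∈ centres hB M := by
      have := centres_add hB H.le hx hzc h1 1
      rwa [one_smul] at this
    have c2 : y - z ∈ centres hB M := by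
      have := centres_add hB H.le hy hzc h2 (-1)
      rwa [neg_smul, one_smul, ← sub_eq_add_neg] at this
    have c3 : B (x + z) (y - z) ≠ 0 := by
      have h5 : B z z = 0 := hB z
      intro h0
      apply h3
      rw [map_sub, map_add, LinearMap.add_apply, LinearMap.add_apply, hxy, h5, alt_neg hB z y] at h0
      rw [map_add B x y, LinearMap.add_apply]
      linear_combination -h0
    have := centres_add hB H.le c1 c2 c3 1
    rw [one_smul] at this
    have e : x + z + (y - z) = x + y := by abel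
    rwa [e] at this
  have htop : ∀ x : V, x ∈ centres hB M := by
    intro x
    have hx : x ∈ Submodule.span F (V0 : Set V) := by rw [S.span]; trivial
    induction hx using Submodule.span_induction with
    | mem y hy => exact hV0 y hy
    | zero => exact centres_zero hB M
    | add y z _ _ hy hz => exact hadd y hy z hz
    | smul c y _ hy => exact centres_smul hB hy c
  exact isom_le_of_tv_mem hB S.nd (fun v a => htop v a)


/-- independent orthogonal rational pairs are conjugate -/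
theorem move_pair {w u w' u' : V} (hw : w ∈ V0) (hu : u ∈ V0) (hw' : w' ∈ V0) (hu' : u' ∈ V0)
    (h : B w u = 0) (h' : B w' u' = 0) (hw0 : w ≠ 0) (hw0' : w' ≠ 0) (hi : u ∉ Submodule.span F₀ {w})
    (hi' : u' ∉ Submodule.span F₀ {w'}) : ∃ t ∈ M, t w = w' ∧ t u = u' ∧ ∀ x ∈ V0, t x ∈ V0 := by
  -- rational elements
  let M₀ : Subgroup (V ≃ₗ[F] V) := Subgroup.closure {t | ∃ v ∈ V0, ∃ a ∈ F₀, t = tv B hB v a}
  have hM₀M : M₀ ≤ M := by
    rw [Subgroup.closure_le]
    rintro t ⟨v, hv, a, ha, rfl⟩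
    exact H.mem v hv a ha
  have hM₀V : ∀ t ∈ M₀, ∀ x ∈ V0, t x ∈ V0 := by
    intro t ht
    refine Subgroup.closure_induction (p := fun t _ => ∀ x ∈ V0, t x ∈ V0) ?_ ?_ ?_ ?_ ht
    · rintro t ⟨v, hv, a, ha, rfl⟩ x hx
      rw [tv_apply]
      exact V0.add_mem hx (S.smul_mem (F₀.mul_mem ha (S.form x hx v hv)) hv)
    · intro x hx; exact hx
    · intro a b _ _ ha hb x hx
      exact ha _ (hb x hx)
    · intro a _ ha x hx
      -- injective map of a finite-dimensional space
      haveI := S.fin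
      let L : V0 →ₗ[F₀] V0 :=
        { toFun := fun y => ⟨a y, ha y y.2⟩
          map_add' := by intro y z; apply Subtype.ext; simp
          map_smul' := by
            intro c y; apply Subtype.ext
            change a ((c : F) • (y : V)) = (c : F) • a (y : V)
            rw [map_smul] }
      have hL : Function.Injective L := by
        intro y z hyz
        exact Subtype.ext (a.injective (congrArg Subtype.val hyz))
      obtain ⟨y, hy⟩ := (LinearMap.injective_iff_surjective.mp hL) ⟨x, hx⟩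
      have hy2 : a (y : V) = x := congrArg Subtype.val hy
      have : a⁻¹ x = (y : V) := by
        rw [← hy2]
        change (a⁻¹ * a) (y : V) = y
        rw [inv_mul_cancel]; rfl
      rw [this]; exact y.2
  have H₀ : Hyp B F₀ V0 hB M₀ :=
    { le := hM₀M.trans H.le
      mem := fun v hv a ha => Subgroup.subset_closure ⟨v, hv, a, ha, rfl⟩ }
  obtain ⟨t, ht, htw⟩ := move S hB H₀ hw hw' hw0 hw0'
  have htu : t u ∈ V0 := hM₀V t ht u hu
  have htwu : B w' (t u) = 0 := by
    have h1 := (H₀.le ht) w u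
    simp only at h1
    rw [← htw, h1, h]
  have htui : t u ∉ Submodule.span F₀ {w'} := by
    intro hs
    obtain ⟨c, hc⟩ := Submodule.mem_span_singleton.mp hs
    apply hi
    have h1 : t u = t ((c : F) • w) := by
      rw [map_smul, htw]; exact hc.symm
    rw [t.injective h1]
    exact (Submodule.span F₀ {w}).smul_mem c (Submodule.mem_span_singleton_self w)
  -- stabilizer of w'
  have step : ∀ a ∈ V0, ∀ b ∈ V0, B w' a = 0 → B w' b = 0 → B a b ≠ 0 → ∃ s ∈ M₀, s w' = w' ∧ s a = b := by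
    intro a ha b hb h1 h2 h3
    obtain ⟨s, hs, hsa, hsx⟩ := move_ne S hB H₀ ha hb h3
    exact ⟨s, hs, hsx w' (by rw [h1, h2]), hsa⟩
  have key : ∃ s ∈ M₀, s w' = w' ∧ s (t u) = u' := by
    by_cases h3 : B (t u) u' = 0
    swap
    · exact step _ htu _ hu' htwu h' h3
    obtain ⟨z, hz, hz1, hz2, hz3⟩ : ∃ z ∈ V0, B w' z = 0 ∧ B (t u) z ≠ 0 ∧ B u' z ≠ 0 := by
      obtain ⟨y, hy, hy1, hy2⟩ := S.exists_sep2 hw' htu htui
      obtain ⟨z, hz, hz1, hz2⟩ := S.exists_sep2 hw' hu' hi'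
      have a1 : B w' y = 0 := S.comm0 hy1
      have a2 : B w' z = 0 := S.comm0 hz1
      have a3 : B (t u) y ≠ 0 := by rw [alt_neg hB, hy2]; simp
      have a4 : B u' z ≠ 0 := by rw [alt_neg hB, hz2]; simp
      by_cases h1 : B u' y = 0
      · by_cases h2 : B (t u) z = 0
        · refine ⟨y + z, V0.add_mem hy hz, by rw [map_add, a1, a2, add_zero], ?_, ?_⟩
          · rw [map_add, h2, add_zero]; exact a3
          · rw [map_add, h1, zero_add]; exact a4
        · exact ⟨z, hz, a2, h2, a4⟩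
      · exact ⟨y, hy, a1, a3, h1⟩
    obtain ⟨s, hs, s1, s2⟩ := step _ htu _ hz htwu hz1 hz2
    obtain ⟨s', hs', s1', s2'⟩ := step _ hz _ hu' hz1 h' (fun e => hz3 (S.comm0 e))
    exact ⟨s' * s, M₀.mul_mem hs' hs, by rw [LinearEquiv.mul_apply, s1, s1'], by rw [LinearEquiv.mul_apply, s2, s2']⟩
  obtain ⟨s, hs, s1, s2⟩ := key
  exact ⟨s * t, hM₀M (M₀.mul_mem hs ht), by rw [LinearEquiv.mul_apply, htw, s1], by rw [LinearEquiv.mul_apply, s2],
    fun x hx => hM₀V _ (M₀.mul_mem hs ht) x hx⟩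

omit S H in
/-- the set of pairs -/
def PP (B : V →ₗ[F] V →ₗ[F] F) (hB : B.IsAlt) (F₀ : Subfield F) (V0 : Submodule F₀ V) (M : Subgroup (V ≃ₗ[F] V))
    (α β : F) : Prop :=
  ∀ w ∈ V0, ∀ u ∈ V0, B w u = 0 → w ≠ 0 → u ∉ Submodule.span F₀ {w} → qq hB w (β • u) α ∈ M

theorem PP_of {w u : V} (hw : w ∈ V0) (hu : u ∈ V0) (h : B w u = 0) (hw0 : w ≠ 0) (hi : u ∉ Submodule.span F₀ {w})
    {α β : F} (hm : qq hB w (β • u) α ∈ M) : PP B hB F₀ V0 M α β := by
  intro w' hw' u' hu' h' hw0' hi'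
  obtain ⟨t, ht, htw, htu, -⟩ := move_pair hB S H hw hu hw' hu' h h' hw0 hw0' hi hi'
  have := qq_map hB H.le ht hm
  rwa [htw, map_smul, htu] at this

theorem PP_add {α β α' β' : F} (h : PP B hB F₀ V0 M α β) (h' : PP B hB F₀ V0 M α' β') :
    PP B hB F₀ V0 M (α + α') (β + β') := by
  intro w hw u hu h1 h2 h3
  have a1 := M.mul_mem (h w hw u hu h1 h2 h3) (h' w hw u hu h1 h2 h3)
  have h4 : B u u = 0 := hB u
  rw [qq_mul hB (by rw [map_smul, h1, smul_zero]) (by rw [map_smul, h1, smul_zero]), map_smul, map_smul,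
    LinearMap.smul_apply, h4, smul_zero, smul_zero, add_zero, ← add_smul] at a1
  exact a1

theorem PP_neg {α β : F} (h : PP B hB F₀ V0 M α β) : PP B hB F₀ V0 M (-α) (-β) := by
  intro w hw u hu h1 h2 h3
  have a1 := M.inv_mem (h w hw u hu h1 h2 h3)
  rwa [qq_inv hB (by rw [map_smul, h1, smul_zero]), ← neg_smul] at a1

theorem PP_smul {α β s : F} (hs : s ∈ F₀) (hs0 : s ≠ 0) (h : PP B hB F₀ V0 M α β) : PP B hB F₀ V0 M α (s * β) := by
  intro w hw u hu h1 h2 h3
  have a1 := h w hw (s • u) (S.smul_mem hs hu) (by rw [map_smul, h1, smul_zero]) h2 (by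
    intro h4
    apply h3
    have h5 := (Submodule.span F₀ {w}).smul_mem (⟨s⁻¹, F₀.inv_mem hs⟩ : F₀) h4
    have h6 : (⟨s⁻¹, F₀.inv_mem hs⟩ : F₀) • (s • u) = u := by
      change s⁻¹ • (s • u) = u
      rw [smul_smul, inv_mul_cancel₀ hs0, one_smul]
    rwa [h6] at h5)
  rwa [smul_smul, mul_comm β s] at a1

/-- there are rational pairs -/
theorem exists_pair : ∃ w ∈ V0, ∃ u ∈ V0, B w u = 0 ∧ w ≠ 0 ∧ u ∉ Submodule.span F₀ {w} := by
  haveI := S.fin
  have hd := S.dim
  obtain ⟨w, hw, hw0⟩ : ∃ w ∈ V0, w ≠ 0 := by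
    apply Submodule.exists_mem_ne_zero_of_ne_bot
    rintro h
    rw [h, finrank_bot] at hd
    omega
  obtain ⟨K, hK, hK2, hK3⟩ := S.finrank_perp (K := V0) le_rfl ![w] (by intro i; fin_cases i; exact hw)
  have hnot : ¬ K ≤ Submodule.span F₀ {w} := by
    intro hle
    have := Submodule.finrank_mono hle
    have h2 := finrank_span_singleton (K := F₀) hw0
    omega
  obtain ⟨u, hu, h1⟩ := Set.not_subset.1 hnot
  exact ⟨w, hw, u, hK hu, S.comm0 (((hK2 u).mp hu).2 0), hw0, h1⟩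

/-- a transvection with centre `w` in terms of `PP` -/
theorem PP_zero {c : F} (hc : ∀ w ∈ V0, tv B hB w c ∈ M) : PP B hB F₀ V0 M c 0 := by
  intro w hw u hu _ _ _
  rw [zero_smul, ← tv_qq]
  exact hc w hw

theorem tv_of_PP {c : F} (hc : PP B hB F₀ V0 M c 0) : ∀ w ∈ V0, tv B hB w c ∈ M := by
  obtain ⟨w, hw, u, hu, h1, h2, h3⟩ := exists_pair hB S H
  intro w' hw'
  have a1 := hc w hw u hu h1 h2 h3
  rw [zero_smul, ← tv_qq] at a1
  by_cases hw0' : w' = 0
  · rw [hw0', tv_zero_left]; exact M.one_mem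
  · exact tv_transfer S hB H hw hw' h2 hw0' a1

/-- rule 3 -/
theorem PP_rule3 {α β c : F} (h : PP B hB F₀ V0 M α β) (hc : ∀ w ∈ V0, tv B hB w c ∈ M) :
    PP B hB F₀ V0 M (-(c * β ^ 2)) (c * β) := by
  obtain ⟨w, hw, u, hu, h1, h2, h3⟩ := exists_pair hB S H
  obtain ⟨f, hf, hf1, hf2⟩ := S.exists_sep2 hw hu h3
  have a1 := h w hw u hu h1 h2 h3
  have hwf : B w f = 0 := S.comm0 hf1
  have huf : B u f = -1 := by rw [alt_neg hB, hf2]
  have a2 := qq_map hB H.le (hc f hf) a1
  have e1 : tv B hB f c w = w := by rw [tv_apply, hwf]; simp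
  have e2 : tv B hB f c (β • u) = β • u + (-(c * β)) • f := by
    rw [tv_apply, map_smul, LinearMap.smul_apply, huf, smul_eq_mul]
    module
  rw [e1, e2] at a2
  have b1 : B w (β • u) = 0 := by rw [map_smul, h1, smul_zero]
  have b2 : B w (β • u + (-(c * β)) • f) = 0 := by rw [map_add, b1, map_smul, hwf, smul_zero, add_zero]
  have a3 := M.mul_mem a2 (M.inv_mem a1)
  have h5 : B u u = 0 := hB u
  rw [qq_inv hB b1, qq_mul hB b2 (by rw [map_neg, b1, neg_zero])] at a3
  have e3 : β • u + (-(c * β)) • f + -(β • u) = (-(c * β)) • f := by abel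
  have e4 : α + -α + B (-(β • u)) (β • u + (-(c * β)) • f) = -(c * β ^ 2) := by
    simp only [map_neg, map_smul, map_add, LinearMap.neg_apply, LinearMap.smul_apply, smul_eq_mul, h5, huf]
    ring
  rw [e3, e4] at a3
  have hfi : -f ∉ Submodule.span F₀ {w} := by
    intro hs
    obtain ⟨d, hd⟩ := Submodule.mem_span_singleton.mp hs
    have h6 : B u (-f) = 0 := by
      have : -f = (d : F) • w := hd.symm
      rw [this, map_smul, S.comm0 h1, smul_zero]
    rw [map_neg, huf, neg_neg] at h6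
    exact one_ne_zero h6
  refine PP_of hB S H hw (V0.neg_mem hf) (by rw [map_neg, hwf, neg_zero]) h2 hfi ?_
  rwa [smul_neg, ← neg_smul]

/-- rule 5 -/
theorem PP_rule5 {α β s : F} (hs : s ∈ F₀) (h : PP B hB F₀ V0 M α β) : PP B hB F₀ V0 M (α * s ^ 2 + 2 * β * s) (α * s) := by
  obtain ⟨w, hw, u, hu, h1, h2, h3⟩ := exists_pair hB S H
  have a1 := h w hw u hu h1 h2 h3
  have hu0 : u ≠ 0 := by rintro rfl; exact h3 (Submodule.zero_mem _)
  have huw : B u w = 0 := S.comm0 h1
  have huu : B u u = 0 := hB u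
  have hww : B w w = 0 := hB w
  have hi : w ∉ Submodule.span F₀ {u} := by
    intro hs'
    obtain ⟨d, hd⟩ := Submodule.mem_span_singleton.mp hs'
    have hd0 : d ≠ 0 := by rintro rfl; rw [zero_smul] at hd; exact h2 hd.symm
    apply h3
    rw [← hd]
    refine Submodule.mem_span_singleton.mpr ⟨d⁻¹, ?_⟩
    rw [smul_smul, inv_mul_cancel₀ hd0, one_smul]
  have hsu : w + s • u ≠ 0 := by
    intro h0
    apply hi
    refine Submodule.mem_span_singleton.mpr ⟨⟨-s, F₀.neg_mem hs⟩, ?_⟩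
    change (-s) • u = w
    rw [neg_smul]
    exact (eq_neg_of_add_eq_zero_left h0).symm
  have hui : u ∉ Submodule.span F₀ {w + s • u} := by
    intro hs'
    obtain ⟨d, hd⟩ := Submodule.mem_span_singleton.mp hs'
    have hd0 : d ≠ 0 := by rintro rfl; rw [zero_smul] at hd; exact hu0 hd.symm
    apply hi
    have h7 : w = (d⁻¹ : F₀) • u - (⟨s, hs⟩ : F₀) • u := by
      change w = (d⁻¹ : F₀) • u - s • u
      rw [eq_sub_iff_add_eq]
      have : (d⁻¹ : F₀) • (d • (w + s • u)) = (d⁻¹ : F₀) • u := by rw [hd]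
      rwa [smul_smul, inv_mul_cancel₀ hd0, one_smul] at this
    rw [h7]
    exact Submodule.sub_mem _ (Submodule.smul_mem _ _ (Submodule.mem_span_singleton_self u))
      (Submodule.smul_mem _ _ (Submodule.mem_span_singleton_self u))
  have a2 := h (w + s • u) (V0.add_mem hw (S.smul_mem hs hu)) u hu (by
    rw [map_add, map_smul, LinearMap.add_apply, LinearMap.smul_apply, h1, huu, smul_zero, add_zero]) hsu hui
  refine PP_of hB S H hu hw huw hu0 hi ?_
  have e : qq hB u ((α * s) • w) (α * s ^ 2 + 2 * β * s) = qq hB (w + s • u) (β • u) α * (qq hB w (β • u) α)⁻¹ := by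
    have b0 : B (w + s • u) (β • u) = 0 := by simp [h1, huu]
    have b1 : B w (β • u) = 0 := by rw [map_smul, h1, smul_zero]
    have b2 : B w (-(β • u)) = 0 := by rw [map_neg, b1, neg_zero]
    have b3 : B u ((α * s) • w) = 0 := by rw [map_smul, huw, smul_zero]
    rw [qq_inv hB b1]
    ext x
    rw [LinearEquiv.mul_apply, qq_apply hB b3, qq_apply hB b2, qq_apply hB b0]
    simp only [map_add, map_smul, map_neg, LinearMap.add_apply, LinearMap.smul_apply, LinearMap.neg_apply, smul_eq_mul, h1, huu,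
      hww, huw]
    module
  rw [e]
  exact M.mul_mem a2 (M.inv_mem a1)

/-- characteristic two: consequences -/
theorem PP_even (h2 : (2 : F) = 0) {α β : F} (h : PP B hB F₀ V0 M α β) : PP B hB F₀ V0 M 0 (α + β) := by
  have h5 := PP_rule5 hB S H F₀.one_mem h
  have h6 := PP_add hB S H h h5
  have e1 : α + (α * 1 ^ 2 + 2 * β * 1) = 0 := by linear_combination (α + β) * h2
  have e2 : β + α * 1 = α + β := by ring
  rwa [e1, e2] at h6

theorem PP_sq {d : F} (h : PP B hB F₀ V0 M 0 d) : ∀ w ∈ V0, tv B hB w (d ^ 2) ∈ M := by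
  have h3 := PP_rule3 hB S H h (fun w hw => H.mem w hw 1 F₀.one_mem)
  have h4 := PP_add hB S H h (PP_neg hB S H h3)
  have e1 : (0 : F) + -(-(1 * d ^ 2)) = d ^ 2 := by ring
  have e2 : d + -(1 * d) = 0 := by ring
  rw [e1, e2] at h4
  exact tv_of_PP hB S H h4

/-- all multiples of the rational transvections, characteristic two -/
theorem all_mult_even [Fintype F] (h2 : (2 : F) = 0) (r : ℕ) (hr : r.Prime) (hcard : Fintype.card F = Nat.card F₀ ^ r) {v : V} {l : F}
    (hv : v ∈ V0) (hv0 : v ≠ 0) (hT : tv B hB v l ∈ M) (hl : l ∉ F₀) : ∀ w ∈ V0, ∀ a : F, tv B hB w a ∈ M := by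
  haveI : CharP F 2 := CharTwo.of_one_ne_zero_of_two_eq_zero one_ne_zero h2
  have hall : ∀ w ∈ V0, tv B hB w l ∈ M := by
    intro w hw
    by_cases hw0 : w = 0
    · rw [hw0, tv_zero_left]; exact M.one_mem
    · exact tv_transfer S hB H hv hw hv0 hw0 hT
  -- powers of `l`
  have hpow : ∀ n : ℕ, PP B hB F₀ V0 M 0 (l ^ n) := by
    intro n
    induction n using Nat.strong_induction_on with
    | _ n ih =>
    rcases Nat.eq_zero_or_pos n with rfl | hn
    · have h1 := PP_even hB S H h2 (PP_zero hB S H (fun w hw => H.mem w hw 1 F₀.one_mem))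
      rw [add_zero] at h1
      rw [pow_zero]; exact h1
    rcases Nat.even_or_odd' n with ⟨k, hk | hk⟩
    · have h1 := ih k (by omega)
      have h3 := PP_even hB S H h2 (PP_zero hB S H (PP_sq hB S H h1))
      rwa [add_zero, ← pow_mul, mul_comm k 2, ← hk] at h3
    · by_cases hk0 : k = 0
      · subst hk0
        have h3 := PP_even hB S H h2 (PP_zero hB S H hall)
        rw [add_zero] at h3
        rw [hk]; simpa using h3
      · have h1 := ih k (by omega)
        have h3 := PP_even hB S H h2 (PP_rule3 hB S H h1 hall)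
        have h4 := ih (k + 1) (by omega)
        have h5 := PP_add hB S H h3 (PP_neg hB S H h4)
        have h6 := PP_neg hB S H h5
        have e1 : -(0 + -0 : F) = 0 := by ring
        have e2 : -(-(l * (l ^ k) ^ 2) + l * l ^ k + -l ^ (k + 1)) = l ^ n := by
          rw [hk]; ring
        rwa [e1, e2] at h6
  -- polynomials in `l`
  have hpoly : ∀ p : Polynomial F₀, PP B hB F₀ V0 M 0 (Polynomial.aeval l p) := by
    intro p
    induction p using Polynomial.induction_on' with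
    | add p q hp hq =>
      have := PP_add hB S H hp hq
      rwa [add_zero, ← map_add] at this
    | monomial n a =>
      rw [Polynomial.aeval_monomial]
      by_cases ha : a = 0
      · rw [ha, map_zero, zero_mul]
        have h1 := PP_add hB S H (hpow 0) (PP_neg hB S H (hpow 0))
        rwa [neg_zero, add_zero, add_neg_cancel] at h1
      · exact PP_smul hB S H a.2 (by simpa using ha) (hpow n)
  obtain ⟨k, hk⟩ := SubfRankTwo.exists_subfield {s : F | ∃ p : Polynomial F₀, s = Polynomial.aeval l p}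
    ⟨1, by simp⟩
    (by rintro a ⟨p, rfl⟩ b ⟨q, rfl⟩; exact ⟨p + q, by rw [map_add]⟩)
    (by rintro a ⟨p, rfl⟩; exact ⟨-p, by rw [map_neg]⟩)
    (by rintro a ⟨p, rfl⟩ b ⟨q, rfl⟩; exact ⟨p * q, by rw [map_mul]⟩)
  have hmem : ∀ s : F, s ∈ k ↔ ∃ p : Polynomial F₀, s = Polynomial.aeval l p := by
    intro s
    have : s ∈ (k : Set F) ↔ s ∈ {s : F | ∃ p : Polynomial F₀, s = Polynomial.aeval l p} := by rw [hk]
    exact this
  have htop := SubfRankTwo.eq_top_of_mem F₀ k r hr hcard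
    (by
      intro s hs
      rw [hmem]
      exact ⟨Polynomial.C ⟨s, hs⟩, by rw [Polynomial.aeval_C]; rfl⟩)
    (by rw [hmem]; exact ⟨Polynomial.X, by rw [Polynomial.aeval_X]⟩) hl
  intro w hw a
  -- `a` is a square
  obtain ⟨b, hb⟩ := FiniteField.isSquare_of_char_two (F := F) (by exact ringChar.eq_iff.mpr inferInstance) a
  have h1 : b ∈ k := by rw [htop]; trivial
  obtain ⟨p, hp⟩ := (hmem b).mp h1
  have h3 := PP_sq hB S H (hpoly p) w hw
  rwa [← hp, pow_two, ← hb] at h3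

/-- the conclusion: one nonrational multiple gives everything -/
theorem full [FiniteDimensional F V] [Fintype F] (h6 : (2 : F) = 0 ∨ 6 ≤ Module.finrank F₀ V0) (r : ℕ) (hr : r.Prime) (hcard : Fintype.card F = Nat.card F₀ ^ r) {v : V} {l : F}
    (hv : v ∈ V0) (hv0 : v ≠ 0) (hT : tv B hB v l ∈ M) (hl : l ∉ F₀) : isom (fun x y => B x y) ≤ M := by
  apply isom_le hB S H _ (h6.elim (fun h => all_mult_even hB S H h r hr hcard hv hv0 hT hl)
    (fun h => all_mult hB S H h r hr hcard hv hv0 hT hl))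
  have h1 : 1 < Nat.card F₀ := Finite.one_lt_card
  rw [hcard]
  calc 4 = 2 ^ 2 := by norm_num
    _ ≤ Nat.card F₀ ^ 2 := Nat.pow_le_pow_left h1 2
    _ ≤ Nat.card F₀ ^ r := Nat.pow_le_pow_right (by omega) hr.two_le

end

end Cfsg.Agent.Lib.SpSubA
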