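import Mathlib
import Cfsg.Agent.Lib.SpSubA2

/-!
# Overgroups of `Sp_{2m}(F₀)` in `Sp_{2m}(F)`: rationality of centres (helper98)
-/

set_option autoImplicit false
set_option linter.unusedSectionVars false

namespace Cfsg.Agent.Lib.SpSubA

open Cfsg.Agent.Lib Cfsg.Agent.Lib.SpTrans
open scoped MatrixGroups

variable {F V : Type*} [Field F] [AddCommGroup V] [Module F V]
variable {B : V →ₗ[F] V →ₗ[F] F} {F₀ : Subfield F} {V0 : Submodule F₀ V}
variable (hB : B.IsAlt) {M : Subgroup (V ≃ₗ[F] V)}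
variable (S : SpF B F₀ V0) (H : Hyp B F₀ V0 hB M)
variable (hF : ∀ w ∈ V0, w ≠ 0 → ∀ a : F, tv B hB w a ∈ M → a ∈ F₀)

section

include S H

/-- rational `q` are in `M` -/
theorem qq_rat {w u : V} (hw : w ∈ V0) (hu : u ∈ V0) (h : B w u = 0) : qq hB w u 0 ∈ M := by
  have := qq_of_three hB h (H.mem _ (V0.add_mem hu hw) 1 F₀.one_mem) (H.mem _ hu 1 F₀.one_mem) (H.mem _ hw 1 F₀.one_mem)
  rwa [one_smul] at this

/-- three vectors independent modulo `w₀` -/
theorem exists_three (h6 : 6 ≤ Module.finrank F₀ V0) {w₀ u : V} (hw₀ : w₀ ∈ V0) (hw₀0 : w₀ ≠ 0) (hu : u ∈ V0) :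
    ∃ w₁ ∈ V0, ∃ w₂ ∈ V0, B w₁ w₀ = 0 ∧ B w₂ w₀ = 0 ∧ B w₁ w₂ = 0 ∧
    (w₁ ∉ Submodule.span F₀ {w₀, u}) ∧ (w₂ ∉ Submodule.span F₀ {w₀, u}) ∧ (w₁ + w₂ ∉ Submodule.span F₀ {w₀, u}) := by
  classical
  haveI := S.fin
  have hd := S.dim
  haveI : Module.Finite F₀ (Submodule.span F₀ {w₀, u}) := Module.Finite.span_of_finite F₀ (Set.toFinite _)
  obtain ⟨K, hK, hK2, hK3⟩ := S.finrank_perp (K := V0) le_rfl ![w₀] (by intro i; fin_cases i; exact hw₀)
  have hnot : ¬ K ≤ Submodule.span F₀ {w₀, u} := by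
    intro hle
    have := Submodule.finrank_mono hle
    have h2 := finrank_pair hB S H w₀ u
    omega
  obtain ⟨w₁, hw₁, h1⟩ := Set.not_subset.1 hnot
  have hw₁0 : w₁ ∈ V0 := hK hw₁
  have hw₁v : B w₁ w₀ = 0 := ((hK2 w₁).mp hw₁).2 0
  obtain ⟨K', hK', hK2', hK3'⟩ := S.finrank_perp (K := V0) le_rfl ![w₀, w₁] (by
    intro i; fin_cases i
    · exact hw₀
    · exact hw₁0)
  haveI : Module.Finite F₀ (Submodule.span F₀ {w₀, u, w₁}) := Module.Finite.span_of_finite F₀ (Set.toFinite _)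
  have hnot' : ¬ K' ≤ Submodule.span F₀ {w₀, u, w₁} := by
    intro hle
    have := Submodule.finrank_mono hle
    have h2 : Module.finrank F₀ (Submodule.span F₀ {w₀, u, w₁}) ≤ 3 := by
      have h : (({w₀, u, w₁} : Finset V) : Set V) = {w₀, u, w₁} := by simp
      have := finrank_span_finset_le_card (R := F₀) ({w₀, u, w₁} : Finset V)
      rw [Set.finrank, h] at this
      exact this.trans Finset.card_le_three
    omega
  obtain ⟨w₂, hw₂, h2⟩ := Set.not_subset.1 hnot'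
  have hw₂0 : w₂ ∈ V0 := hK' hw₂
  have hw₂v : B w₂ w₀ = 0 := ((hK2' w₂).mp hw₂).2 0
  have hw₂w₁ : B w₂ w₁ = 0 := ((hK2' w₂).mp hw₂).2 1
  have hsub : Submodule.span F₀ {w₀, u} ≤ Submodule.span F₀ {w₀, u, w₁} := Submodule.span_mono (by
    intro x hx
    rcases hx with rfl | rfl
    · simp
    · simp)
  have hw₁s : w₁ ∈ Submodule.span F₀ {w₀, u, w₁} := Submodule.subset_span (by simp)
  refine ⟨w₁, hw₁0, w₂, hw₂0, hw₁v, hw₂v, S.comm0 hw₂w₁, h1, fun h => h2 (hsub h), fun h => h2 ?_⟩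
  have := Submodule.sub_mem _ (hsub h) hw₁s
  rwa [add_sub_cancel_left] at this

/-- from one `q(l u)` to all `q(l w)`, `w` independent of `u` modulo `w₀` -/
theorem spread {w₀ u w : V} {l k : F} (hw₀ : w₀ ∈ V0) (hw₀0 : w₀ ≠ 0) (hu : u ∈ V0) (hu1 : B w₀ u = 0)
    (hu2 : u ∉ Submodule.span F₀ {w₀}) (hw : w ∈ V0)
    (hw1 : B w₀ w = 0) (hw2 : w ∉ Submodule.span F₀ {w₀, u}) (h : qq hB w₀ (l • u) k ∈ M) :
    qq hB w₀ (l • w) (-l ^ 2) ∈ M := by
  classical
  -- one step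
  have step : ∀ a ∈ V0, ∀ b ∈ V0, ∀ k : F, B w₀ a = 0 → B w₀ b = 0 → B a b = 1 → qq hB w₀ (l • a) k ∈ M →
      qq hB w₀ (l • b) (-l ^ 2) ∈ M := by
    intro a ha b hb k h1 h2 h3 h4
    have h5 := qq_map hB H.le (H.mem b hb 1 F₀.one_mem) h4
    have e1 : tv B hB b 1 w₀ = w₀ := by rw [tv_apply, h2]; simp
    have e2 : tv B hB b 1 (l • a) = l • (a + b) := by
      rw [tv_apply, map_smul, LinearMap.smul_apply, h3, smul_eq_mul]
      module
    rw [e1, e2] at h5
    have h6 := M.mul_mem h5 (M.inv_mem h4)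
    have g1 : B w₀ (l • a) = 0 := by rw [map_smul, h1, smul_zero]
    have g2 : B w₀ (l • (a + b)) = 0 := by rw [map_smul, map_add, h1, h2, add_zero, smul_zero]
    rw [qq_inv hB g1, qq_mul hB g2 (by rw [map_neg, g1, neg_zero])] at h6
    have e3 : l • (a + b) + -(l • a) = l • b := by module
    have h7 : B a a = 0 := hB a
    have e4 : k + -k + B (-(l • a)) (l • (a + b)) = -l ^ 2 := by
      simp only [map_neg, map_smul, map_add, LinearMap.neg_apply, LinearMap.smul_apply, smul_eq_mul, h3, h7]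
      ring
    rwa [e3, e4] at h6
  -- a vector `b` with `B u b = 1`, `B b w = 1`, `B w₀ b = 0`
  obtain ⟨b, hb, b1, b2, b3⟩ : ∃ b ∈ V0, B w₀ b = 0 ∧ B u b = 1 ∧ B b w = 1 := by
    -- x₁: orthogonal to w₀, u, product 1 with w
    obtain ⟨x₁, hx₁, y1, y2⟩ := S.exists_sep (W := Submodule.span F₀ {w₀, u}) hw hw2
    have a1 : B x₁ w₀ = 0 := y1 w₀ (Submodule.subset_span (by simp)) hw₀
    have a2 : B x₁ u = 0 := y1 u (Submodule.subset_span (by simp)) hu
    -- x₂: orthogonal to w₀, product 1 with u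
    obtain ⟨x₂, hx₂, c1, c2⟩ := S.exists_sep (W := Submodule.span F₀ {w₀}) hu hu2
    have c3 : B x₂ w₀ = 0 := c1 w₀ (Submodule.subset_span (by simp)) hw₀
    -- b = -x₂ + t x₁
    have ht : 1 + B x₂ w ∈ F₀ := F₀.add_mem F₀.one_mem (S.form _ hx₂ _ hw)
    refine ⟨-x₂ + (1 + B x₂ w) • x₁, V0.add_mem (V0.neg_mem hx₂) (S.smul_mem ht hx₁), ?_, ?_, ?_⟩
    · rw [map_add, map_neg, map_smul, S.comm0 c3, S.comm0 a1]; simp
    · rw [map_add, map_neg, map_smul, S.comm0 a2, alt_neg hB u x₂, c2]; simp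
    · simp only [map_add, map_neg, map_smul, LinearMap.add_apply, LinearMap.neg_apply, LinearMap.smul_apply, y2, smul_eq_mul]
      ring
  exact step b hb w hw _ b1 hw1 b3 (step u hu b hb k hu1 b1 b2 h)

include hF

/-- the key product lemma -/
theorem prod_mem [Fintype F] (h6 : 6 ≤ Module.finrank F₀ V0) {v w₀ : V} (hv : tv B hB v 1 ∈ M) (hw₀ : w₀ ∈ V0) (hw₀0 : w₀ ≠ 0) (hvw : B v w₀ = 0)
    {u u' : V} (hu : u ∈ V0) (hu0 : B w₀ u = 0) (hu' : u' ∈ V0) (hu'0 : B w₀ u' = 0) : B v u * B v u' ∈ F₀ := by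
  have hwv : B w₀ v = 0 := by rw [alt_neg hB, hvw, neg_zero]
  -- E(γ)
  have hE : ∀ u ∈ V0, B w₀ u = 0 → qq hB w₀ ((B v u) • v) ((B v u) ^ 2) ∈ M := by
    intro u hu hu0
    have h1 := tv_map hB H.le (qq_rat hB S H hw₀ hu hu0) hv
    have e : qq hB w₀ u 0 v = v + (B v u) • w₀ := by
      rw [qq_apply hB hu0, hvw]; simp
    rw [e] at h1
    have h2 := qq_of_tv hB hwv h1 hv
    rwa [one_mul, one_mul] at h2
  have b1 : ∀ c : F, B w₀ (c • v) = 0 := fun c => by rw [map_smul, hwv, smul_zero]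
  -- `-2γγ' ∈ F₀`
  have h2gg : -(2 * (B v u * B v u')) ∈ F₀ := by
    have h1 := M.mul_mem (hE u hu hu0) (hE u' hu' hu'0)
    rw [qq_mul hB (b1 _) (b1 _), ← add_smul] at h1
    have h3 := hE (u + u') (V0.add_mem hu hu') (by rw [map_add, hu0, hu'0, add_zero])
    rw [map_add] at h3
    have h4 := tv_of_qq hB (b1 _) h1 h3
    have h5 : B v v = 0 := hB v
    apply hF w₀ hw₀ hw₀0
    have e : B v u ^ 2 + B v u' ^ 2 + B ((B v) u' • v) ((B v) u • v) - (B v u + B v u') ^ 2 = -(2 * (B v u * B v u')) := by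
      simp only [map_smul, LinearMap.smul_apply, h5, smul_zero]; ring
    rwa [e] at h4
  by_cases h2 : (2 : F) = 0
  swap
  · have h4 : (2 : F) ∈ F₀ := by
      have : (2 : F) = ((2 : ℕ) : F) := by norm_num
      rw [this]; exact natCast_mem F₀ 2
    have := F₀.div_mem (F₀.neg_mem h2gg) h4
    have e : - -(2 * (B v u * B v u')) / 2 = B v u * B v u' := by field_simp
    rwa [e] at this
  haveI : CharP F 2 := CharTwo.of_one_ne_zero_of_two_eq_zero one_ne_zero h2
  by_cases hz : B v u' = 0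
  · rw [hz, mul_zero]; exact F₀.zero_mem
  set l := B v u * B v u' with hl
  -- D(l, u')
  have hD : qq hB w₀ (l • u') (-l ^ 2) ∈ M := by
    have h1 := hE u hu hu0
    have h3 := qq_map hB H.le (H.mem u' hu' 1 F₀.one_mem) h1
    have e1 : tv B hB u' 1 w₀ = w₀ := by rw [tv_apply, hu'0]; simp
    have e2 : tv B hB u' 1 ((B v u) • v) = (B v u) • v + l • u' := by
      rw [tv_apply, map_smul, LinearMap.smul_apply, hl, smul_eq_mul]
      module
    rw [e1, e2] at h3
    have b2 : B w₀ ((B v u) • v + l • u') = 0 := by rw [map_add, b1, map_smul, hu'0, smul_zero, add_zero]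
    have h4 := M.mul_mem h3 (M.inv_mem h1)
    rw [qq_inv hB (b1 _), qq_mul hB b2 (by rw [map_neg, b1, neg_zero])] at h4
    have e3 : (B v u) • v + l • u' + -((B v u) • v) = l • u' := by abel
    have h5 : B v v = 0 := hB v
    have e4 : (B v) u ^ 2 + -(B v) u ^ 2 + (B (-((B v) u • v))) ((B v) u • v + l • u') = -l ^ 2 := by
      simp only [map_neg, map_smul, map_add, LinearMap.neg_apply, LinearMap.smul_apply, smul_eq_mul, h5, hl]
      ring
    rwa [e3, e4] at h4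
  have hu's : u' ∉ Submodule.span F₀ {w₀} := by
    intro hs
    obtain ⟨c, hc⟩ := Submodule.mem_span_singleton.mp hs
    apply hz
    have : u' = (c : F) • w₀ := hc.symm
    rw [this, map_smul, hvw, smul_zero]
  obtain ⟨w₁, hw₁, w₂, hw₂, a1, a2, a12, n1, n2, n12⟩ := exists_three hB S H h6 hw₀ hw₀0 hu'
  have c1 := S.comm0 a1
  have c2 := S.comm0 a2
  have d1 := spread hB S H hw₀ hw₀0 hu' hu'0 hu's hw₁ c1 n1 hD
  have d2 := spread hB S H hw₀ hw₀0 hu' hu'0 hu's hw₂ c2 n2 hD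
  have d3 := spread hB S H hw₀ hw₀0 hu' hu'0 hu's (V0.add_mem hw₁ hw₂) (by rw [map_add, c1, c2, add_zero]) n12 hD
  have f1 : B w₀ (l • w₁) = 0 := by rw [map_smul, c1, smul_zero]
  have f2 : B w₀ (l • w₂) = 0 := by rw [map_smul, c2, smul_zero]
  have d4 := M.mul_mem d1 d2
  rw [qq_mul hB f1 f2, ← smul_add, map_smul, map_smul, LinearMap.smul_apply, S.comm0 a12, smul_zero, smul_zero, add_zero] at d4
  have d5 := tv_of_qq hB (by rw [map_smul, map_add, c1, c2, add_zero, smul_zero]) d4 d3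
  have d6 := hF w₀ hw₀ hw₀0 _ d5
  have e : -l ^ 2 + -l ^ 2 - -l ^ 2 = -l ^ 2 := by ring
  rw [e] at d6
  have d7 := F₀.neg_mem d6
  rw [neg_neg] at d7
  exact SubfRankTwo.mem_of_sq_mem F₀ d7

/-- **case A** -/
theorem caseA [Fintype F] (h6 : 6 ≤ Module.finrank F₀ V0) {v w₀ : V} (hv : tv B hB v 1 ∈ M) (hw₀ : w₀ ∈ V0) (hw₀0 : w₀ ≠ 0) (hvw : B v w₀ = 0)
    {u u' : V} (hu : u ∈ V0) (hu' : u' ∈ V0) : B v u * B v u' ∈ F₀ := by
  classical
  haveI := S.fin
  have hd := S.dim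
  -- W₁ = V0 ∩ w₀^⊥
  obtain ⟨W₁, hW₁, hW₁2, hW₁3⟩ := S.finrank_perp (K := V0) le_rfl ![w₀] (by intro i; fin_cases i; exact hw₀)
  have hprod : ∀ x ∈ W₁, ∀ y ∈ W₁, B v x * B v y ∈ F₀ := by
    intro x hx y hy
    have h1 : B x w₀ = 0 := ((hW₁2 x).mp hx).2 0
    have h2 : B y w₀ = 0 := ((hW₁2 y).mp hy).2 0
    exact prod_mem hB S H hF h6 hv hw₀ hw₀0 hvw (hW₁ hx) (S.comm0 h1) (hW₁ hy) (S.comm0 h2)
  haveI : Module.Finite F₀ W₁ := Module.Finite.of_injective (Submodule.inclusion hW₁) (Submodule.inclusion_injective hW₁)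
  -- the kernel of B v on W₁ has codimension at most one
  obtain ⟨K, hK, hK2, hK3⟩ : ∃ K : Submodule F₀ V, K ≤ W₁ ∧ (∀ x ∈ K, B v x = 0) ∧
      Module.finrank F₀ W₁ ≤ Module.finrank F₀ K + 1 := by
    by_cases hall : ∀ x ∈ W₁, B v x = 0
    · exact ⟨W₁, le_rfl, hall, by omega⟩
    · push Not at hall
      obtain ⟨x₀, hx₀, h0⟩ := hall
      let L : W₁ →ₗ[F₀] F₀ :=
        { toFun := fun x => ⟨B v x₀ * B v x, hprod x₀ hx₀ x x.2⟩
          map_add' := by intro x y; apply Subtype.ext; simp [mul_add]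
          map_smul' := by
            intro c x; apply Subtype.ext
            change B v x₀ * B v ((c : F) • (x : V)) = (c : F) * (B v x₀ * B v x)
            rw [map_smul, smul_eq_mul]; ring }
      refine ⟨(LinearMap.ker L).map W₁.subtype, ?_, ?_, ?_⟩
      · rintro _ ⟨x, _, rfl⟩; exact x.2
      · rintro _ ⟨x, hx, rfl⟩
        have h1 := congrArg Subtype.val (LinearMap.mem_ker.mp hx)
        have h2 : B v x₀ * B v x = 0 := h1
        rcases mul_eq_zero.mp h2 with h | h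
        · exact absurd h h0
        · exact h
      · have h1 := LinearMap.finrank_range_add_finrank_ker L
        have h2 : Module.finrank F₀ (LinearMap.range L) ≤ 1 := by
          have := Submodule.finrank_le (LinearMap.range L)
          rwa [Module.finrank_self] at this
        have h3 : Module.finrank F₀ ((LinearMap.ker L).map W₁.subtype) = Module.finrank F₀ (LinearMap.ker L) :=
          (Submodule.equivMapOfInjective _ W₁.injective_subtype _).finrank_eq.symm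
        omega
  obtain ⟨w, hw, hw0, h1⟩ := S.exists_perp (K := K) (hK.trans hW₁) ![u, u'] (by
    intro i; fin_cases i
    · exact hu
    · exact hu') (by omega)
  exact prod_mem hB S H hF h6 hv (hW₁ (hK hw)) hw0 (hK2 w hw) hu (h1 0) hu' (h1 1)

/-- in case A the vector is a multiple of a rational one -/
theorem caseA6 [Fintype F] (h6 : 6 ≤ Module.finrank F₀ V0) {v w₀ : V} (hv0 : v ≠ 0) (hv : tv B hB v 1 ∈ M) (hw₀ : w₀ ∈ V0) (hw₀0 : w₀ ≠ 0) (hvw : B v w₀ = 0) :
    ∃ c : F, c ≠ 0 ∧ ∃ v' ∈ V0, v = c • v' := by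
  obtain ⟨u, hu, hu2⟩ := S.nd0 hv0
  refine ⟨(B v u)⁻¹, inv_ne_zero hu2, (B v u) • v, ?_, by rw [smul_smul, inv_mul_cancel₀ hu2, one_smul]⟩
  apply S.mem_of_dual
  intro y hy
  rw [map_smul, LinearMap.smul_apply, smul_eq_mul]
  exact caseA hB S H hF h6 hv hw₀ hw₀0 hvw hu hy

/-- characteristic two: the product lemma -/
theorem prod_even [Fintype F] (h2 : (2 : F) = 0) {v w₀ : V} (hv : tv B hB v 1 ∈ M) (hw₀ : w₀ ∈ V0) (hw₀0 : w₀ ≠ 0) (hvw : B v w₀ = 0)
    {u u' : V} (hu : u ∈ V0) (hu0 : B w₀ u = 0) (hu' : u' ∈ V0) (hu'0 : B w₀ u' = 0) : B v u * B v u' ∈ F₀ := by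
  haveI : CharP F 2 := CharTwo.of_one_ne_zero_of_two_eq_zero one_ne_zero h2
  have hwv : B w₀ v = 0 := by rw [alt_neg hB, hvw, neg_zero]
  by_cases hz : B v u' = 0
  · rw [hz, mul_zero]; exact F₀.zero_mem
  have hu's : u' ∉ Submodule.span F₀ {w₀} := by
    intro hs
    obtain ⟨c, hc⟩ := Submodule.mem_span_singleton.mp hs
    apply hz
    have : u' = (c : F) • w₀ := hc.symm
    rw [this, map_smul, hvw, smul_zero]
  -- E(γ)
  have hE : ∀ u ∈ V0, B w₀ u = 0 → qq hB w₀ ((B v u) • v) ((B v u) ^ 2) ∈ M := by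
    intro u hu hu0
    have h1 := tv_map hB H.le (qq_rat hB S H hw₀ hu hu0) hv
    have e : qq hB w₀ u 0 v = v + (B v u) • w₀ := by
      rw [qq_apply hB hu0, hvw]; simp
    rw [e] at h1
    have h2 := qq_of_tv hB hwv h1 hv
    rwa [one_mul, one_mul] at h2
  have b1 : ∀ c : F, B w₀ (c • v) = 0 := fun c => by rw [map_smul, hwv, smul_zero]
  -- D(l)
  have hD : ∀ u ∈ V0, B w₀ u = 0 → PP B hB F₀ V0 M (-(B v u * B v u') ^ 2) (B v u * B v u') := by
    intro u hu hu0
    have h1 := hE u hu hu0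
    have h3 := qq_map hB H.le (H.mem u' hu' 1 F₀.one_mem) h1
    have e1 : tv B hB u' 1 w₀ = w₀ := by rw [tv_apply, hu'0]; simp
    have e2 : tv B hB u' 1 ((B v u) • v) = (B v u) • v + (B v u * B v u') • u' := by
      rw [tv_apply, map_smul, LinearMap.smul_apply, smul_eq_mul]
      module
    rw [e1, e2] at h3
    have b2 : B w₀ ((B v u) • v + (B v u * B v u') • u') = 0 := by rw [map_add, b1, map_smul, hu'0, smul_zero, add_zero]
    have h4 := M.mul_mem h3 (M.inv_mem h1)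
    rw [qq_inv hB (b1 _), qq_mul hB b2 (by rw [map_neg, b1, neg_zero])] at h4
    have e3 : (B v u) • v + (B v u * B v u') • u' + -((B v u) • v) = (B v u * B v u') • u' := by abel
    have h5 : B v v = 0 := hB v
    have e4 : (B v) u ^ 2 + -(B v) u ^ 2 + (B (-((B v) u • v))) ((B v) u • v + (B v u * B v u') • u') = -(B v u * B v u') ^ 2 := by
      simp only [map_neg, map_smul, map_add, LinearMap.neg_apply, LinearMap.smul_apply, smul_eq_mul, h5]
      ring
    rw [e3, e4] at h4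
    exact PP_of hB S H hw₀ hu' hu'0 hw₀0 hu's h4
  -- `d ∈ F₀` when `PP 0 d`
  have hΛ : ∀ d : F, PP B hB F₀ V0 M 0 d → d ∈ F₀ := by
    intro d hd
    exact SubfRankTwo.mem_of_sq_mem F₀ (hF w₀ hw₀ hw₀0 _ (PP_sq hB S H hd w₀ hw₀))
  set l := B v u * B v u' with hl
  have hl1 : PP B hB F₀ V0 M (-l ^ 2) l := hD u hu hu0
  have h3 : -l ^ 2 + l ∈ F₀ := hΛ _ (PP_even hB S H h2 hl1)
  have h4 : ∀ s ∈ F₀, -(s * l) ^ 2 + s * l ∈ F₀ := by
    intro s hs
    have h5 := hD (s • u) (S.smul_mem hs hu) (by rw [map_smul, hu0, smul_zero])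
    rw [map_smul, smul_eq_mul, mul_assoc, ← hl] at h5
    exact hΛ _ (PP_even hB S H h2 h5)
  by_cases hs : ∃ s ∈ F₀, s ≠ 0 ∧ s ≠ 1
  · obtain ⟨s, hs, hs0, hs1⟩ := hs
    have h5 := F₀.sub_mem (h4 s hs) (F₀.mul_mem (F₀.pow_mem hs 2) h3)
    have e : -(s * l) ^ 2 + s * l - s ^ 2 * (-l ^ 2 + l) = (s - s ^ 2) * l := by ring
    rw [e] at h5
    have h6 : s - s ^ 2 ≠ 0 := by
      intro h0
      have : s * (1 - s) = 0 := by rw [← h0]; ring
      rcases mul_eq_zero.mp this with h | h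
      · exact hs0 h
      · exact hs1 (sub_eq_zero.mp h).symm
    have h7 := F₀.mul_mem (F₀.inv_mem (F₀.sub_mem hs (F₀.pow_mem hs 2))) h5
    rwa [← mul_assoc, inv_mul_cancel₀ h6, one_mul] at h7
  · push Not at hs
    have h01 : ∀ s ∈ F₀, s = 0 ∨ s = 1 := fun s hs' => by
      by_cases h0 : s = 0
      · exact Or.inl h0
      · exact Or.inr (hs s hs' h0)
    rcases h01 _ h3 with h5 | h5
    · have h6 : l * (1 - l) = 0 := by rw [← h5]; ring
      rcases mul_eq_zero.mp h6 with h | h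
      · rw [h]; exact F₀.zero_mem
      · rw [← sub_eq_zero.mp h]; exact F₀.one_mem
    · -- `l ^ 2 + l + 1 = 0`
      have hll : l ^ 2 = l + 1 := by linear_combination -h5 - h2
      -- a pair `e₁, e₂` with duals
      obtain ⟨e₁, he₁, e₂, he₂, h12, he₁0, hi⟩ := exists_pair hB S H
      obtain ⟨f₂, hf₂, hf1, hf2⟩ := S.exists_sep2 he₁ he₂ hi
      have h1f : B e₁ f₂ = 0 := S.comm0 hf1
      have h2f : B e₂ f₂ = -1 := by rw [alt_neg hB, hf2]
      have h21 : B e₂ e₁ = 0 := S.comm0 h12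
      have h11 : B e₁ e₁ = 0 := hB e₁
      have he₂0 : e₂ ≠ 0 := by rintro rfl; exact hi (Submodule.zero_mem _)
      have hfi : f₂ ∉ Submodule.span F₀ {e₁} := by
        intro hs
        obtain ⟨d, hd⟩ := Submodule.mem_span_singleton.mp hs
        have h6 : B e₂ f₂ = 0 := by
          have : f₂ = (d : F) • e₁ := hd.symm
          rw [this, map_smul, h21, smul_zero]
        rw [h2f] at h6
        exact one_ne_zero (neg_eq_zero.mp h6)
      have hi2 : e₁ ∉ Submodule.span F₀ {e₂} := by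
        intro hs'
        obtain ⟨d, hd⟩ := Submodule.mem_span_singleton.mp hs'
        have hd0 : d ≠ 0 := by rintro rfl; rw [zero_smul] at hd; exact he₁0 hd.symm
        apply hi
        rw [← hd]
        refine Submodule.mem_span_singleton.mpr ⟨d⁻¹, ?_⟩
        rw [smul_smul, inv_mul_cancel₀ hd0, one_smul]
      have ha := hl1 e₁ he₁ f₂ hf₂ h1f he₁0 hfi
      have hb := hl1 e₂ he₂ e₁ he₁ h21 he₂0 hi2
      have hc := qq_map hB H.le ha hb
      have g1 : qq hB e₁ (l • f₂) (-l ^ 2) e₂ = e₂ + (-l) • e₁ := by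
        rw [qq_apply hB (by rw [map_smul, h1f, smul_zero]), map_smul, h2f, h21]
        simp
      have g2 : qq hB e₁ (l • f₂) (-l ^ 2) (l • e₁) = l • e₁ := by
        rw [qq_apply hB (by rw [map_smul, h1f, smul_zero])]
        simp [h1f, h11]
      rw [g1, g2] at hc
      have hd := M.mul_mem hc (H.mem e₁ he₁ 1 F₀.one_mem)
      have e : qq hB (e₂ + (-l) • e₁) (l • e₁) (-l ^ 2) * tv B hB e₁ 1 = tv B hB (e₁ + e₂) (l + 1) := by
        ext x
        rw [LinearEquiv.mul_apply, qq_apply hB (by simp [h21, h11])]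
        simp only [tv_apply, map_add, map_smul, map_neg, LinearMap.add_apply, LinearMap.smul_apply, LinearMap.neg_apply, smul_eq_mul, h11, h12,
          h21]
        have h22 : B e₂ e₂ = 0 := hB e₂
        have h2' : l ^ 4 = l := by
          have : l ^ 4 = (l ^ 2) ^ 2 := by ring
          rw [this, hll]; linear_combination hll + l * h2 + h2
        have h3' : l ^ 3 = 1 := by
          have : l ^ 3 = l * l ^ 2 := by ring
          rw [this, hll]; linear_combination hll + l * h2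
        match_scalars
        · ring
        · linear_combination -(B x e₁) * h2' + (B x e₂) * h3' - (B x e₁) * (l ^ 2 + l) * h2
        · linear_combination (B x e₁) * h3' - (B x e₂) * hll - (B x e₂) * (l + 1) * h2
      rw [e] at hd
      have he : e₁ + e₂ ≠ 0 := by
        intro h0
        apply hi
        refine Submodule.mem_span_singleton.mpr ⟨-1, ?_⟩
        rw [neg_smul, one_smul]
        exact (eq_neg_of_add_eq_zero_right h0).symm
      have hf := hF (e₁ + e₂) (V0.add_mem he₁ he₂) he _ hd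
      have := F₀.sub_mem hf F₀.one_mem
      rwa [add_sub_cancel_right] at this

/-- characteristic two: a centre orthogonal to a rational vector is rational -/
theorem caseA_even [Fintype F] (h2 : (2 : F) = 0) {v w₀ : V} (hv : tv B hB v 1 ∈ M) (hw₀ : w₀ ∈ V0) (hw₀0 : w₀ ≠ 0) (hvw : B v w₀ = 0) :
    v ∈ V0 := by
  haveI : CharP F 2 := CharTwo.of_one_ne_zero_of_two_eq_zero one_ne_zero h2
  have hone : ∀ w₀ ∈ V0, w₀ ≠ 0 → B v w₀ = 0 → ∀ u ∈ V0, B w₀ u = 0 → B v u ∈ F₀ := by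
    intro w₀ hw₀ hw₀0 hvw u hu hu0
    apply SubfRankTwo.mem_of_sq_mem F₀
    rw [pow_two]
    exact prod_even hB S H hF h2 hv hw₀ hw₀0 hvw hu hu0 hu hu0
  obtain ⟨u₁, hu₁, hu₁1⟩ : ∃ u₁ ∈ V0, B w₀ u₁ = 1 := by
    obtain ⟨y, hy, hy1⟩ := S.nd0 hw₀0
    exact ⟨(B w₀ y)⁻¹ • y, S.smul_mem (F₀.inv_mem (S.form _ hw₀ _ hy)) hy, by rw [map_smul, smul_eq_mul, inv_mul_cancel₀ hy1]⟩
  set α := B v u₁ with hα
  have hv₀ : v - α • w₀ ∈ V0 := by
    apply S.mem_of_dual
    intro y hy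
    have h1 := hone w₀ hw₀ hw₀0 hvw (y - (B w₀ y) • u₁) (V0.sub_mem hy (S.smul_mem (S.form _ hw₀ _ hy) hu₁))
      (by rw [map_sub, map_smul, hu₁1, smul_eq_mul, mul_one, sub_self])
    rw [map_sub, map_smul, ← hα, smul_eq_mul] at h1
    rw [map_sub, LinearMap.sub_apply, map_smul, LinearMap.smul_apply, smul_eq_mul, mul_comm α]
    exact h1
  have hαF : α ∈ F₀ := by
    by_cases hs : v - α • w₀ ∈ Submodule.span F₀ {w₀}
    · obtain ⟨c, hc⟩ := Submodule.mem_span_singleton.mp hs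
      have h3 : v = (α + c) • w₀ := by
        rw [add_smul]
        have : (c : F) • w₀ = v - α • w₀ := hc
        rw [this]; abel
      rw [h3, tv_smul, mul_one] at hv
      have h4 := SubfRankTwo.mem_of_sq_mem F₀ (hF w₀ hw₀ hw₀0 _ hv)
      have := F₀.sub_mem h4 c.2
      rwa [add_sub_cancel_right] at this
    · obtain ⟨u, hu, hu1, hu2⟩ := S.exists_sep2 hv₀ hw₀ (by
        intro hs'
        obtain ⟨d, hd⟩ := Submodule.mem_span_singleton.mp hs'
        have hd0 : d ≠ 0 := by rintro rfl; rw [zero_smul] at hd; exact hw₀0 hd.symm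
        apply hs
        refine Submodule.mem_span_singleton.mpr ⟨d⁻¹, ?_⟩
        nth_rewrite 1 [← hd]
        rw [smul_smul, inv_mul_cancel₀ hd0, one_smul])
      have hv₀0 : v - α • w₀ ≠ 0 := by
        intro h0
        apply hs
        rw [h0]; exact Submodule.zero_mem _
      have hvv : B v (v - α • w₀) = 0 := by
        have : B v v = 0 := hB v
        rw [map_sub, map_smul, hvw, this, smul_zero, sub_zero]
      have h5 := hone _ hv₀ hv₀0 hvv u hu (S.comm0 hu1)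
      have h6 : B v u = -α := by
        have h7 : B (v - α • w₀) u = 0 := S.comm0 hu1
        have h8 : B w₀ u = -1 := by rw [alt_neg hB, hu2]
        rw [map_sub, LinearMap.sub_apply, map_smul, LinearMap.smul_apply, h8, smul_eq_mul] at h7
        linear_combination h7
      rw [h6] at h5
      have := F₀.neg_mem h5
      rwa [neg_neg] at this
  have := V0.add_mem hv₀ (S.smul_mem hαF hw₀)
  rwa [sub_add_cancel] at this

/-- in case A the vector is a multiple of a rational one -/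
theorem caseA' [Fintype F] (h6 : (2 : F) = 0 ∨ 6 ≤ Module.finrank F₀ V0) {v w₀ : V} (hv0 : v ≠ 0) (hv : tv B hB v 1 ∈ M)
    (hw₀ : w₀ ∈ V0) (hw₀0 : w₀ ≠ 0) (hvw : B v w₀ = 0) :
    ∃ c : F, c ≠ 0 ∧ ∃ v' ∈ V0, v = c • v' := by
  rcases h6 with h | h
  · exact ⟨1, one_ne_zero, v, caseA_even hB S H hF h hv hw₀ hw₀0 hvw, by rw [one_smul]⟩
  · exact caseA6 hB S H hF h hv0 hv hw₀ hw₀0 hvw

end

end Cfsg.Agent.Lib.SpSubA
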