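import Mathlib
import Cfsg.Agent.Lib.SpSubA3
import Cfsg.Agent.Lib.SubfRankTwo2

/-!
# Overgroups of `Sp_{2m}(F₀)` in `Sp_{2m}(F)`: centres which are orthogonal to no rational vector (helper98)
-/

set_option autoImplicit false
set_option linter.unusedSectionVars false

namespace Cfsg.Agent.Lib.SpSubA

open Cfsg.Agent.Lib Cfsg.Agent.Lib.SpTrans Cfsg.Agent.Lib.ClSL2
open scoped MatrixGroups

variable {F V : Type*} [Field F] [AddCommGroup V] [Module F V]
variable {B : V →ₗ[F] V →ₗ[F] F} {F₀ : Subfield F} {V0 : Submodule F₀ V}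

/-- the action on the plane modulo `R` -/
def Rel (R : Submodule F V) (w₀ v : V) (g : V ≃ₗ[F] V) (κ : SL(2, F)) : Prop :=
  (∀ r ∈ R, g r = r) ∧ g w₀ - (κ 0 0 • w₀ + κ 1 0 • v) ∈ R ∧ g v - (κ 0 1 • w₀ + κ 1 1 • v) ∈ R

theorem Rel.one (R : Submodule F V) (w₀ v : V) : Rel R w₀ v 1 1 := by
  refine ⟨fun r _ => rfl, ?_, ?_⟩ <;> simp

theorem Rel.mul {R : Submodule F V} {w₀ v : V} {g g' : V ≃ₗ[F] V} {κ κ' : SL(2, F)} (h : Rel R w₀ v g κ)
    (h' : Rel R w₀ v g' κ') : Rel R w₀ v (g * g') (κ * κ') := by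
  obtain ⟨a1, a2, a3⟩ := h
  obtain ⟨b1, b2, b3⟩ := h'
  refine ⟨fun r hr => by rw [LinearEquiv.mul_apply, b1 r hr, a1 r hr], ?_, ?_⟩
  · obtain ⟨r, hr, e⟩ : ∃ r ∈ R, g' w₀ = κ' 0 0 • w₀ + κ' 1 0 • v + r := ⟨_, b2, by abel⟩
    rw [LinearEquiv.mul_apply, e, map_add, map_add, map_smul, map_smul, a1 r hr, Matrix.SpecialLinearGroup.coe_mul,
      Matrix.mul_apply, Matrix.mul_apply, Fin.sum_univ_two, Fin.sum_univ_two]
    have h1 : κ' 0 0 • (g w₀ - (κ 0 0 • w₀ + κ 1 0 • v)) + κ' 1 0 • (g v - (κ 0 1 • w₀ + κ 1 1 • v)) + r ∈ R :=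
      R.add_mem (R.add_mem (R.smul_mem _ a2) (R.smul_mem _ a3)) hr
    convert h1 using 1
    module
  · obtain ⟨r, hr, e⟩ : ∃ r ∈ R, g' v = κ' 0 1 • w₀ + κ' 1 1 • v + r := ⟨_, b3, by abel⟩
    rw [LinearEquiv.mul_apply, e, map_add, map_add, map_smul, map_smul, a1 r hr, Matrix.SpecialLinearGroup.coe_mul,
      Matrix.mul_apply, Matrix.mul_apply, Fin.sum_univ_two, Fin.sum_univ_two]
    have h1 : κ' 0 1 • (g w₀ - (κ 0 0 • w₀ + κ 1 0 • v)) + κ' 1 1 • (g v - (κ 0 1 • w₀ + κ 1 1 • v)) + r ∈ R :=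
      R.add_mem (R.add_mem (R.smul_mem _ a2) (R.smul_mem _ a3)) hr
    convert h1 using 1
    module

theorem Rel.inv {R : Submodule F V} {w₀ v : V} {g : V ≃ₗ[F] V} {κ : SL(2, F)} (h : Rel R w₀ v g κ) :
    Rel R w₀ v g⁻¹ κ⁻¹ := by
  obtain ⟨a1, a2, a3⟩ := h
  have hr' : ∀ r ∈ R, g⁻¹ r = r := by
    intro r hr
    have : g⁻¹ (g r) = r := by rw [← LinearEquiv.mul_apply, inv_mul_cancel]; rfl
    rwa [a1 r hr] at this
  have hgg : ∀ x, g⁻¹ (g x) = x := by
    intro x
    rw [← LinearEquiv.mul_apply, inv_mul_cancel]; rfl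
  have hd : κ 0 0 * κ 1 1 - κ 0 1 * κ 1 0 = 1 := by
    have := κ.2
    rwa [Matrix.det_fin_two] at this
  have e00 : (κ⁻¹ : SL(2, F)) 0 0 = κ 1 1 := by rw [Matrix.SpecialLinearGroup.SL2_inv_expl]; rfl
  have e01 : (κ⁻¹ : SL(2, F)) 0 1 = - κ 0 1 := by rw [Matrix.SpecialLinearGroup.SL2_inv_expl]; rfl
  have e10 : (κ⁻¹ : SL(2, F)) 1 0 = - κ 1 0 := by rw [Matrix.SpecialLinearGroup.SL2_inv_expl]; rfl
  have e11 : (κ⁻¹ : SL(2, F)) 1 1 = κ 0 0 := by rw [Matrix.SpecialLinearGroup.SL2_inv_expl]; rfl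
  obtain ⟨r, hr, er⟩ : ∃ r ∈ R, g w₀ = κ 0 0 • w₀ + κ 1 0 • v + r := ⟨_, a2, by abel⟩
  obtain ⟨s, hs, es⟩ : ∃ s ∈ R, g v = κ 0 1 • w₀ + κ 1 1 • v + s := ⟨_, a3, by abel⟩
  refine ⟨hr', ?_, ?_⟩
  · rw [e00, e10]
    have h1 : w₀ = g (κ 1 1 • w₀ - κ 1 0 • v) - (κ 1 1 • r - κ 1 0 • s) := by
      rw [map_sub, map_smul, map_smul, er, es]
      have : w₀ = (κ 0 0 * κ 1 1 - κ 0 1 * κ 1 0) • w₀ := by rw [hd, one_smul]
      nth_rewrite 1 [this]
      module
    have h2 : g⁻¹ w₀ = κ 1 1 • w₀ - κ 1 0 • v - (κ 1 1 • r - κ 1 0 • s) := by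
      nth_rewrite 1 [h1]
      rw [map_sub, hgg, hr' _ (R.sub_mem (R.smul_mem _ hr) (R.smul_mem _ hs))]
    rw [h2]
    have h3 : -(κ 1 1 • r - κ 1 0 • s) ∈ R := R.neg_mem (R.sub_mem (R.smul_mem _ hr) (R.smul_mem _ hs))
    convert h3 using 1
    module
  · rw [e01, e11]
    have h1 : v = g (κ 0 0 • v - κ 0 1 • w₀) - (κ 0 0 • s - κ 0 1 • r) := by
      rw [map_sub, map_smul, map_smul, er, es]
      have : v = (κ 0 0 * κ 1 1 - κ 0 1 * κ 1 0) • v := by rw [hd, one_smul]
      nth_rewrite 1 [this]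
      module
    have h2 : g⁻¹ v = κ 0 0 • v - κ 0 1 • w₀ - (κ 0 0 • s - κ 0 1 • r) := by
      nth_rewrite 1 [h1]
      rw [map_sub, hgg, hr' _ (R.sub_mem (R.smul_mem _ hs) (R.smul_mem _ hr))]
    rw [h2]
    have h3 : -(κ 0 0 • s - κ 0 1 • r) ∈ R := R.neg_mem (R.sub_mem (R.smul_mem _ hs) (R.smul_mem _ hr))
    convert h3 using 1
    module

/-- the subgroup of `SL_2` -/
def relK (M : Subgroup (V ≃ₗ[F] V)) (R : Submodule F V) (w₀ v : V) : Subgroup SL(2, F) where
  carrier := {κ | ∃ g ∈ M, Rel R w₀ v g κ}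
  mul_mem' := by
    rintro κ κ' ⟨g, hg, h⟩ ⟨g', hg', h'⟩
    exact ⟨g * g', M.mul_mem hg hg', h.mul h'⟩
  one_mem' := ⟨1, M.one_mem, Rel.one R w₀ v⟩
  inv_mem' := by
    rintro κ ⟨g, hg, h⟩
    exact ⟨g⁻¹, M.inv_mem hg, h.inv⟩

variable (hB : B.IsAlt) {M : Subgroup (V ≃ₗ[F] V)}
variable (S : SpF B F₀ V0) (H : Hyp B F₀ V0 hB M)
variable (hF : ∀ w ∈ V0, w ≠ 0 → ∀ a : F, tv B hB w a ∈ M → a ∈ F₀)

section

include S

/-- isotropic subspaces of every dimension at most half -/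
theorem exists_isotropic (k : ℕ) (hk : 2 * k ≤ Module.finrank F₀ V0) : ∃ W : Submodule F₀ V, W ≤ V0 ∧ Module.finrank F₀ W = k ∧
    ∀ x ∈ W, ∀ y ∈ W, B x y = 0 := by
  classical
  have := S.fin
  have hd := S.dim
  have hB := S.alt
  induction k with
  | zero => exact ⟨⊥, bot_le, finrank_bot F₀ V, fun x hx y _ => by rw [(Submodule.mem_bot F₀).mp hx]; simp⟩
  | succ k ih =>
    obtain ⟨W, hW, hW1, hW2⟩ := ih (by omega)
    have : Module.Finite F₀ W := Module.Finite.of_injective (Submodule.inclusion hW) (Submodule.inclusion_injective hW)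
    let b := Module.finBasisOfFinrankEq F₀ W hW1
    obtain ⟨K, hK, hK2, hK3⟩ := S.finrank_perp (K := V0) le_rfl (fun i : Fin k => (b i : V)) (fun i => hW (b i).2)
    have hnot : ¬ K ≤ W := by
      intro hle
      have := Submodule.finrank_mono hle
      omega
    obtain ⟨x, hx, hxW⟩ := Set.not_subset.1 hnot
    have hx0 : x ≠ 0 := by rintro rfl; exact hxW W.zero_mem
    have hxp : ∀ y ∈ W, B x y = 0 := by
      intro y hy
      have h1 : (⟨y, hy⟩ : W) ∈ Submodule.span F₀ (Set.range b) := by rw [b.span_eq]; trivial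
      have h2 : ∀ y : W, y ∈ Submodule.span F₀ (Set.range b) → B x (y : V) = 0 := by
        intro y hy
        induction hy using Submodule.span_induction with
        | mem y hy => obtain ⟨i, rfl⟩ := hy; exact ((hK2 x).mp hx).2 i
        | zero => simp
        | add y z _ _ h1 h2 => rw [Submodule.coe_add, map_add, h1, h2, add_zero]
        | smul c y _ h1 =>
          change B x ((c : F) • (y : V)) = 0
          rw [map_smul, h1, smul_zero]
      exact h2 _ h1
    refine ⟨W ⊔ Submodule.span F₀ {x}, sup_le hW (by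
      rw [Submodule.span_singleton_le_iff_mem]; exact hK hx), ?_, ?_⟩
    · have hinf : W ⊓ Submodule.span F₀ {x} = ⊥ := by
        rw [Submodule.eq_bot_iff]
        rintro y ⟨hy1, hy2⟩
        obtain ⟨c, rfl⟩ := Submodule.mem_span_singleton.mp hy2
        by_cases hc : c = 0
        · rw [hc, zero_smul]
        · exfalso
          apply hxW
          have := W.smul_mem c⁻¹ hy1
          rwa [smul_smul, inv_mul_cancel₀ hc, one_smul] at this
      have h1 := Submodule.finrank_sup_add_finrank_inf_eq W (Submodule.span F₀ {x})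
      rw [hinf, finrank_bot, add_zero, hW1, finrank_span_singleton hx0] at h1
      exact h1
    · intro y hy z hz
      obtain ⟨y1, hy1, y2, hy2, rfl⟩ := Submodule.mem_sup.mp hy
      obtain ⟨z1, hz1, z2, hz2, rfl⟩ := Submodule.mem_sup.mp hz
      obtain ⟨c, rfl⟩ := Submodule.mem_span_singleton.mp hy2
      obtain ⟨d, rfl⟩ := Submodule.mem_span_singleton.mp hz2
      have e1 : ∀ (c : F₀) (x : V), c • x = (c : F) • x := fun _ _ => rfl
      rw [e1, e1, map_add, map_add, map_smul, map_smul, LinearMap.add_apply, LinearMap.add_apply, LinearMap.smul_apply,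
        LinearMap.smul_apply, hW2 y1 hy1 z1 hz1, hxp z1 hz1, S.comm0 (hxp y1 hy1), hB x]
      simp

/-- the dimension of the perp of a rational subspace -/
theorem finrank_perp_le {W : Submodule F₀ V} (hW : W ≤ V0) :
    ∃ K : Submodule F₀ V, K ≤ V0 ∧ (∀ x ∈ V0, (∀ y ∈ W, B x y = 0) → x ∈ K) ∧
      Module.finrank F₀ K + Module.finrank F₀ W = Module.finrank F₀ V0 := by
  have := S.fin
  obtain ⟨b, hb⟩ := S.exists_form
  -- the map `V0 → Dual W`
  let L : V0 →ₗ[F₀] (W →ₗ[F₀] F₀) :=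
    { toFun := fun x => (b x).comp (Submodule.inclusion hW)
      map_add' := by intro x y; ext z; simp
      map_smul' := by intro c x; ext z; simp }
  have hLs : Function.Surjective L := by
    intro f
    obtain ⟨g, hg⟩ := LinearMap.exists_leftInverse_of_injective (Submodule.inclusion hW)
      (LinearMap.ker_eq_bot.mpr (Submodule.inclusion_injective hW))
    obtain ⟨u, hu, h1⟩ := S.exists_rep (f.comp g)
    refine ⟨⟨u, hu⟩, ?_⟩
    ext z
    change ((b ⟨u, hu⟩ (Submodule.inclusion hW z) : F₀) : F) = _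
    rw [hb]
    have h2 := h1 (Submodule.inclusion hW z)
    have h3 : g (Submodule.inclusion hW z) = z := by
      have := LinearMap.congr_fun hg z
      exact this
    rw [LinearMap.comp_apply, h3] at h2
    exact h2
  refine ⟨(LinearMap.ker L).map V0.subtype, ?_, ?_, ?_⟩
  · rintro _ ⟨x, _, rfl⟩; exact x.2
  · intro x hx h
    refine ⟨⟨x, hx⟩, ?_, rfl⟩
    rw [SetLike.mem_coe, LinearMap.mem_ker]
    ext z
    change ((b ⟨x, hx⟩ (Submodule.inclusion hW z) : F₀) : F) = 0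
    rw [hb]
    exact h z z.2
  · have h1 := LinearMap.finrank_range_add_finrank_ker L
    rw [LinearMap.range_eq_top.mpr hLs, finrank_top, Subspace.dual_finrank_eq] at h1
    have h3 : Module.finrank F₀ ((LinearMap.ker L).map V0.subtype) = Module.finrank F₀ (LinearMap.ker L) :=
      (Submodule.equivMapOfInjective _ V0.injective_subtype _).finrank_eq.symm
    omega

end

section

include S H

/-- **case B** -/
theorem caseB [Fintype F] (h6 : (2 : F) = 0 ∨ 6 ≤ Module.finrank F₀ V0) (hn5 : Module.finrank F₀ V0 ≠ 5) (r : ℕ) (hr : r.Prime) (hcard : Fintype.card F = Nat.card F₀ ^ r)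
    (hF : ∀ w ∈ V0, w ≠ 0 → ∀ a : F, tv B hB w a ∈ M → a ∈ F₀)
    {v : V} (hv : tv B hB v 1 ∈ M) (hinj : ∀ u ∈ V0, u ≠ 0 → B v u ≠ 0) : False := by
  classical
  have := S.fin
  have hd := S.dim
  obtain ⟨m, hm⟩ : ∃ m, m = Module.finrank F₀ V0 / 2 := ⟨_, rfl⟩
  obtain ⟨W, hW, hW1, hW2⟩ := exists_isotropic S m (by omega)
  have : Module.Finite F₀ W := Module.Finite.of_injective (Submodule.inclusion hW) (Submodule.inclusion_injective hW)
  obtain ⟨w₀, hw₀, hw₀0⟩ : ∃ w₀ ∈ W, w₀ ≠ 0 := by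
    apply Submodule.exists_mem_ne_zero_of_ne_bot
    rintro rfl
    rw [finrank_bot] at hW1
    omega
  have hβ0 : B v w₀ ≠ 0 := hinj w₀ (hW hw₀) hw₀0
  set β₀ := B v w₀ with hβ₀
  set SW : Submodule F V := Submodule.span F (W : Set V) with hSW
  -- isotropy of `SW`
  have hiso : ∀ x ∈ SW, ∀ w ∈ W, B x w = 0 := by
    intro x hx w hw
    have h1 : SW ≤ LinearMap.ker (B w) := by
      rw [hSW, Submodule.span_le]
      intro z hz
      exact hW2 w hw z hz
    exact S.comm0 (h1 hx)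
  set R : Submodule F V := SW ⊓ LinearMap.ker (B v) with hR
  have hRv : ∀ x ∈ R, B v x = 0 := fun x hx => hx.2
  have hWS : ∀ w ∈ W, w ∈ SW := fun w hw => Submodule.subset_span hw
  -- the upper elements
  have hup : ∀ a ∈ F₀, ∀ w ∈ W, uS (a * (B v w) ^ 2 / β₀) ∈ relK M R w₀ v := by
    intro a ha w hw
    refine ⟨tv B hB w a, H.mem w (hW hw) a ha, ?_, ?_, ?_⟩
    · intro x hx
      rw [tv_apply, hiso x hx.1 w hw]; simp
    · rw [tv_apply, hW2 w₀ hw₀ w hw, coe_uS]
      simp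
    · rw [tv_apply, coe_uS]
      have h1 : v + (a * B v w) • w - ((a * (B v w) ^ 2 / β₀) • w₀ + (1 : F) • v) = (a * B v w) • (w - (B v w / β₀) • w₀) := by
        module
      have h2 : (a * B v w) • (w - (B v w / β₀) • w₀) ∈ R := by
        apply R.smul_mem
        refine ⟨SW.sub_mem (hWS w hw) (SW.smul_mem _ (hWS w₀ hw₀)), ?_⟩
        rw [SetLike.mem_coe, LinearMap.mem_ker, map_sub, map_smul, smul_eq_mul, ← hβ₀, div_mul_cancel₀ _ hβ0, sub_self]
      have h3 : v + (a * B v w) • w - ((a * (B v w) ^ 2 / β₀) • w₀ + v) ∈ R := by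
        rw [← h1, one_smul] at h2; exact h2
      simpa using h3
  -- the lower element
  have hlow : lS (-β₀) ∈ relK M R w₀ v := by
    refine ⟨tv B hB v 1, hv, ?_, ?_, ?_⟩
    · intro x hx
      rw [tv_apply, S.comm0 (hRv x hx)]; simp
    · rw [tv_apply, coe_lS, alt_neg hB w₀ v, ← hβ₀]
      simp
    · rw [tv_apply, coe_lS, hB v]
      simp
  -- `Λ`
  set T : Set F := {x | ∃ a ∈ F₀, ∃ w ∈ W, x = a * (B v w) ^ 2 / β₀} with hT
  set Λ : AddSubgroup F := AddSubgroup.closure T with hΛdef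
  have hΛU : ∀ l ∈ Λ, uS l ∈ relK M R w₀ v := by
    intro l hl
    have hadd : ∀ x y : F, uS (x + y) = uS x * uS y := by
      intro x y
      apply Subtype.ext
      change ((uS (x + y) : SL(2, F)) : Matrix (Fin 2) (Fin 2) F) = ((uS x * uS y : SL(2, F)) : Matrix (Fin 2) (Fin 2) F)
      rw [Matrix.SpecialLinearGroup.coe_mul, coe_uS, coe_uS, coe_uS, Matrix.mul_fin_two]
      simp [add_comm]
    induction hl using AddSubgroup.closure_induction with
    | mem x hx => obtain ⟨a, ha, w, hw, rfl⟩ := hx; exact hup a ha w hw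
    | zero => rw [uS_zero]; exact Subgroup.one_mem _
    | add x y _ _ h1 h2 => rw [hadd]; exact Subgroup.mul_mem _ h1 h2
    | neg x _ h1 =>
      have e : uS (-x) = (uS x)⁻¹ := by
        rw [eq_inv_iff_mul_eq_one, ← hadd, neg_add_cancel, uS_zero]
      rw [e]; exact Subgroup.inv_mem _ h1
  have hΛs : ∀ s ∈ F₀, ∀ l ∈ Λ, s * l ∈ Λ := by
    intro s hs l hl
    induction hl using AddSubgroup.closure_induction with
    | mem x hx =>
      obtain ⟨a, ha, w, hw, rfl⟩ := hx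
      exact AddSubgroup.subset_closure ⟨s * a, F₀.mul_mem hs ha, w, hw, by ring⟩
    | zero => rw [mul_zero]; exact Λ.zero_mem
    | add x y _ _ h1 h2 => rw [mul_add]; exact Λ.add_mem h1 h2
    | neg x _ h1 => rw [mul_neg]; exact Λ.neg_mem h1
  have hcW : Nat.card W = Nat.card F₀ ^ m := by
    haveI : Finite W := Module.finite_of_finite F₀
    haveI : Fintype W := Fintype.ofFinite W
    haveI : Fintype F₀ := Fintype.ofFinite F₀
    rw [Nat.card_eq_fintype_card, Nat.card_eq_fintype_card, Module.card_eq_pow_finrank (K := F₀), hW1]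
  have hsub : ∀ w ∈ W, ∀ w' ∈ W, B v w = B v w' → w = w' := by
    intro w hw w' hw' h
    by_contra hne
    apply hinj (w - w') (V0.sub_mem (hW hw) (hW hw')) (sub_ne_zero.mpr hne)
    rw [map_sub, h, sub_self]
  have hcΛ : Nat.card W ≤ Nat.card Λ := by
    have hsq : ∀ w ∈ W, (B v w) ^ 2 / β₀ ∈ Λ := fun w hw =>
      AddSubgroup.subset_closure ⟨1, F₀.one_mem, w, hw, by ring⟩
    by_cases h2 : (2 : F) = 0
    · haveI : CharP F 2 := CharTwo.of_one_ne_zero_of_two_eq_zero one_ne_zero h2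
      apply Nat.card_le_card_of_injective (fun w : W => (⟨(B v w) ^ 2 / β₀, hsq w w.2⟩ : Λ))
      intro x y hxy
      have h1 : (B v x) ^ 2 / β₀ = (B v y) ^ 2 / β₀ := congrArg Subtype.val hxy
      have h3 : (B v x) ^ 2 = (B v y) ^ 2 := by
        field_simp at h1; exact h1
      have h4 : (B v x - B v y) ^ 2 = 0 := by
        rw [sub_sq, h3]
        linear_combination (-(B v x) * (B v y) + (B v y) ^ 2) * h2
      exact Subtype.ext (hsub x x.2 y y.2 (sub_eq_zero.mp ((pow_eq_zero_iff (by norm_num)).mp h4)))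
    · have h2m : ∀ w ∈ W, 2 * B v w ∈ Λ := by
        intro w hw
        have h1 := Λ.sub_mem (Λ.sub_mem (hsq (w + w₀) (W.add_mem hw hw₀)) (hsq w hw)) (hsq w₀ hw₀)
        have e : (B v (w + w₀)) ^ 2 / β₀ - (B v w) ^ 2 / β₀ - (B v w₀) ^ 2 / β₀ = 2 * B v w := by
          rw [map_add, ← hβ₀]; field_simp; ring
        rwa [e] at h1
      apply Nat.card_le_card_of_injective (fun w : W => (⟨2 * (B v w), h2m w w.2⟩ : Λ))
      intro x y hxy
      have h1 : 2 * (B v x) = 2 * (B v y) := congrArg Subtype.val hxy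
      exact Subtype.ext (hsub x x.2 y y.2 (mul_left_cancel₀ h2 h1))
  have hq₀ : 2 ≤ Nat.card F₀ := Finite.one_lt_card
  have h128 : 2 ^ 2 ≤ Nat.card F₀ ^ m := 
    (Nat.pow_le_pow_left hq₀ 2).trans (Nat.pow_le_pow_right (by omega) (by omega))
  have hbig : 3 < Nat.card Λ := by
    omega
  have hbig2 : Nat.card F₀ < Nat.card Λ := by
    have h1 : Nat.card F₀ ^ 1 < Nat.card F₀ ^ m := Nat.pow_lt_pow_right hq₀ (by omega)
    rw [pow_one] at h1
    omega
  -- apply the rank two lemma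
  obtain ⟨K, hK, hK2, hK3⟩ := finrank_perp_le S hW
  have key : ∀ μ : F, μ ≠ 0 → ∃ s : F₀, ∃ z ∈ K, μ ^ 2 * β₀ ^ 2 = s * (B v z) ^ 2 := by
    intro μ hμ
    let κ : SL(2, F) := ⟨!![μ, 0; 0, μ⁻¹], by rw [Matrix.det_fin_two_of]; field_simp; simp⟩
    obtain ⟨κ', ⟨g, hg, hrel⟩, ε, hε, e⟩ := SubfRankTwo.rank_two' F₀ r hr hcard Λ hΛs hbig hbig2 (-β₀)
      (neg_ne_zero.mpr hβ0) (relK M R w₀ v) hΛU hlow κ
    have e0 : κ' 0 0 = ε * μ := by
      have := congrFun (congrFun e 0) 0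
      simpa [κ] using this
    have e1 : κ' 1 0 = 0 := by
      have := congrFun (congrFun e 1) 0
      simpa [κ] using this
    have h1 := hrel.2.1
    rw [e0, e1, zero_smul, add_zero] at h1
    obtain ⟨ρ, hρ, eρ⟩ : ∃ ρ ∈ R, g w₀ = (ε * μ) • w₀ + ρ := ⟨_, h1, by abel⟩
    have hgS : g w₀ ∈ SW := by
      rw [eρ]; exact SW.add_mem (SW.smul_mem _ (hWS w₀ hw₀)) hρ.1
    have hg0 : g w₀ ≠ 0 := by
      intro h
      exact hw₀0 ((map_eq_zero_iff g g.injective).mp h)
    have hgtv : tv B hB (g w₀) 1 ∈ M := tv_map hB H.le hg (H.mem w₀ (hW hw₀) 1 F₀.one_mem)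
    obtain ⟨c, hc, z, hz, ez⟩ := caseA' hB S H hF h6 hg0 hgtv (hW hw₀) hw₀0 (hiso _ hgS w₀ hw₀)
    have hz0 : z ≠ 0 := by
      rintro rfl
      rw [smul_zero] at ez
      exact hg0 ez
    have hc2 : c ^ 2 ∈ F₀ := by
      rw [ez, tv_smul, mul_one] at hgtv
      exact hF z hz hz0 _ hgtv
    refine ⟨⟨c ^ 2, hc2⟩, z, hK2 z hz ?_, ?_⟩
    · intro w hw
      have h2 := hiso _ hgS w hw
      rw [ez, map_smul, LinearMap.smul_apply, smul_eq_mul] at h2
      exact (mul_eq_zero.mp h2).resolve_left hc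
    · have h2 : B v (g w₀) = ε * μ * β₀ := by
        rw [eρ, map_add, map_smul, hRv ρ hρ, add_zero, smul_eq_mul, ← hβ₀]
      rw [ez, map_smul, smul_eq_mul] at h2
      change μ ^ 2 * β₀ ^ 2 = c ^ 2 * (B v z) ^ 2
      rw [← mul_pow, ← mul_pow, h2, mul_pow (ε * μ), mul_pow ε, hε, one_mul, mul_pow]
  -- counting
  have : Module.Finite F₀ K := Module.Finite.of_injective (Submodule.inclusion hK) (Submodule.inclusion_injective hK)
  haveI : Finite K := Module.finite_of_finite F₀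
  haveI : Finite V0 := Module.finite_of_finite F₀
  haveI : Fintype K := Fintype.ofFinite K
  haveI : Fintype F₀ := Fintype.ofFinite F₀
  haveI : Fintype V0 := Fintype.ofFinite V0
  have hcV : Nat.card F₀ ^ Module.finrank F₀ V0 ≤ Fintype.card F := by
    have h1 : Fintype.card V0 ≤ Fintype.card F := by
      apply Fintype.card_le_of_injective (fun x : V0 => B v x)
      intro x y hxy
      apply Subtype.ext
      by_contra hne
      apply hinj ((x : V) - y) (V0.sub_mem x.2 y.2) (sub_ne_zero.mpr hne)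
      rw [map_sub]; exact sub_eq_zero.mpr hxy
    rwa [Module.card_eq_pow_finrank (K := F₀), ← Nat.card_eq_fintype_card (α := F₀)] at h1
  have hcK : Fintype.card K = Nat.card F₀ ^ (Module.finrank F₀ V0 - m) := by
    rw [Module.card_eq_pow_finrank (K := F₀), ← Nat.card_eq_fintype_card (α := F₀)]
    congr 1
    omega
  have hcount : Fintype.card F ≤ 2 * (Nat.card F₀ * Fintype.card K) + 1 := by
    let f : F → F := fun μ => μ ^ 2 * β₀ ^ 2
    let A : Finset F := Finset.univ.erase 0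
    let C : Finset F := Finset.univ.image (fun p : F₀ × K => (p.1 : F) * (B v p.2) ^ 2)
    have h1 : A.card ≤ 2 * C.card := by
      apply Finset.card_le_mul_card_image_of_maps_to (f := f)
      · intro μ hμ
        obtain ⟨s, z, hz, e⟩ := key μ (Finset.ne_of_mem_erase hμ)
        exact Finset.mem_image.mpr ⟨(s, ⟨z, hz⟩), Finset.mem_univ _, e.symm⟩
      · intro b hb
        by_cases hne : ∃ μ ∈ A, f μ = b
        · obtain ⟨μ, hμ, rfl⟩ := hne
          have h2 : A.filter (fun x => f x = f μ) ⊆ {μ, -μ} := by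
            intro x hx
            have h3 : x ^ 2 * β₀ ^ 2 = μ ^ 2 * β₀ ^ 2 := (Finset.mem_filter.mp hx).2
            have h4 : x ^ 2 = μ ^ 2 := mul_right_cancel₀ (pow_ne_zero 2 hβ0) h3
            rcases sq_eq_sq_iff_eq_or_eq_neg.mp h4 with h | h
            · simp [h]
            · simp [h]
          exact (Finset.card_le_card h2).trans Finset.card_le_two
        · have h2 : A.filter (fun x => f x = b) = ∅ := by
            rw [Finset.filter_eq_empty_iff]
            intro x hx h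
            exact hne ⟨x, hx, h⟩
          rw [h2]; simp
    have h2 : C.card ≤ Nat.card F₀ * Fintype.card K := by
      refine Finset.card_image_le.trans ?_
      rw [Finset.card_univ, Fintype.card_prod, Nat.card_eq_fintype_card]
    have h3 : A.card = Fintype.card F - 1 := by
      rw [Finset.card_erase_of_mem (Finset.mem_univ _), Finset.card_univ]
    omega
  -- final contradiction
  set n := Module.finrank F₀ V0 with hn
  rw [hcK] at hcount
  have h5 : Nat.card F₀ * Nat.card F₀ ^ (n - m) = Nat.card F₀ ^ (n - m + 1) := by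
    rw [← pow_succ']
  rw [h5] at hcount
  have h8 : 1 ≤ Nat.card F₀ ^ (n - m + 1) := Nat.one_le_pow _ _ (by omega)
  have h4 : 2 ^ 2 ≤ Nat.card F₀ ^ 2 := Nat.pow_le_pow_left hq₀ 2
  have h9 : Nat.card F₀ ^ (n - m + 1) * 4 ≤ Fintype.card F := by
    rcases Nat.lt_or_ge n 6 with hn6 | hn6
    · -- dimension four
      have hn4 : n = 4 := by omega
      have hr5 : 5 ≤ r := by
        by_contra hr5
        have h10 : r < 4 ∨ r = 4 := by omega
        rcases h10 with h10 | h10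
        · rw [hcard, hn4] at hcV
          have := Nat.pow_lt_pow_right (a := Nat.card F₀) (by omega) h10
          omega
        · rw [h10] at hr
          exact absurd hr (by norm_num)
      have hm2 : n - m + 1 = 3 := by omega
      rw [hm2, hcard]
      calc Nat.card F₀ ^ 3 * 4 ≤ Nat.card F₀ ^ 3 * Nat.card F₀ ^ 2 := Nat.mul_le_mul_left _ (by simpa using h4)
        _ = Nat.card F₀ ^ 5 := by rw [← pow_add]
        _ ≤ Nat.card F₀ ^ r := Nat.pow_le_pow_right (by omega) hr5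
    · calc Nat.card F₀ ^ (n - m + 1) * 4 ≤ Nat.card F₀ ^ (n - m + 1) * Nat.card F₀ ^ 2 :=
            Nat.mul_le_mul_left _ (by simpa using h4)
        _ = Nat.card F₀ ^ (n - m + 1 + 2) := by rw [← pow_add]
        _ ≤ Nat.card F₀ ^ n := Nat.pow_le_pow_right (by omega) (by omega)
        _ ≤ Fintype.card F := hcV
  omega

end

end Cfsg.Agent.Lib.SpSubA
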