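import Cfsg.Agent.S2581

set_option autoImplicit false
set_option linter.unusedSectionVars false

/-! Forms fixed by a unipotent matrix in Jordan form: reduction to the residual blocks (helper41). -/

namespace Cfsg.Agent.Lib.SpUni

open Cfsg.Agent.S2581 Matrix

variable {F : Type*} [Field F] {t : ℕ} (d : Fin t → ℕ) (hd : ∀ k, 1 ≤ d k)

/-- residual block of a matrix -/
def q (c : ℕ) (A : Matrix (Ix d) (Ix d) F) : Matrix {k // d k = c} {k // d k = c} F :=
  Matrix.of fun k l => A ⟨k.1, ⟨0, hd k.1⟩⟩ ⟨l.1, ⟨0, hd l.1⟩⟩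

/-- residual block of a form -/
def rho (c : ℕ) (H : Matrix (Ix d) (Ix d) F) : Matrix {k // d k = c} {k // d k = c} F :=
  Matrix.of fun k l => H ⟨k.1, ⟨0, hd k.1⟩⟩ ⟨l.1, ⟨d l.1 - 1, Nat.sub_lt (hd l.1) Nat.one_pos⟩⟩

theorem sum_block (f : Fin t → F) (c : ℕ) (hf : ∀ k, d k ≠ c → f k = 0) : ∑ k, f k = ∑ k : {k // d k = c}, f k.1 := by
  classical
  rw [← Finset.sum_subtype (Finset.univ.filter fun k => d k = c) (fun k => by simp) f, Finset.sum_filter]
  apply Finset.sum_congr rfl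
  intro k _
  split_ifs with h
  · rfl
  · exact hf k h

theorem q_mul (c : ℕ) {A B : Matrix (Ix d) (Ix d) F} (hA : A * Cfsg.jordanTypeMatrix d F = Cfsg.jordanTypeMatrix d F * A)
    (hB : B * Cfsg.jordanTypeMatrix d F = Cfsg.jordanTypeMatrix d F * B) : q d hd c (A * B) = q d hd c A * q d hd c B := by
  ext ⟨k, hk⟩ ⟨l, hl⟩
  show (A * B) ⟨k, ⟨0, hd k⟩⟩ ⟨l, ⟨0, hd l⟩⟩ = ∑ k' : {k // d k = c}, A ⟨k, ⟨0, hd k⟩⟩ ⟨k'.1, ⟨0, hd k'.1⟩⟩ * B ⟨k'.1, ⟨0, hd k'.1⟩⟩ ⟨l, ⟨0, hd l⟩⟩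
  rw [Matrix.mul_apply, Fintype.sum_sigma, ← sum_block d (fun k' => A ⟨k, ⟨0, hd k⟩⟩ ⟨k', ⟨0, hd k'⟩⟩ * B ⟨k', ⟨0, hd k'⟩⟩ ⟨l, ⟨0, hd l⟩⟩) c]
  · apply Finset.sum_congr rfl
    intro k' _
    rw [Finset.sum_eq_single ⟨0, hd k'⟩]
    · rintro ⟨j, hj⟩ _ hj0
      have h1 := toeplitz d hd hA k k' 0 j (hd k) hj
      rw [if_neg (by
        intro h
        apply hj0
        apply Fin.ext
        show j = 0
        omega)] at h1
      rw [h1, zero_mul]
    · intro h; exact absurd (Finset.mem_univ _) h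
  · intro k' hk'
    rcases lt_or_gt_of_ne hk' with h | h
    · rw [constraint d hd hA k' ⟨k, ⟨0, hd k⟩⟩ (by show 0 + d k' < d k; omega), zero_mul]
    · rw [constraint d hd hB l ⟨k', ⟨0, hd k'⟩⟩ (by show 0 + d l < d k'; omega), mul_zero]

theorem q_one (c : ℕ) : q d hd c (1 : Matrix (Ix d) (Ix d) F) = 1 := by
  ext ⟨k, hk⟩ ⟨l, hl⟩
  show (1 : Matrix (Ix d) (Ix d) F) ⟨k, ⟨0, hd k⟩⟩ ⟨l, ⟨0, hd l⟩⟩ = (1 : Matrix {k // d k = c} {k // d k = c} F) ⟨k, hk⟩ ⟨l, hl⟩
  by_cases h : k = l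
  · subst h
    rw [Matrix.one_apply_eq, Matrix.one_apply_eq]
  · rw [Matrix.one_apply_ne, Matrix.one_apply_ne]
    · intro h'; exact h (congrArg Subtype.val h')
    · intro h'; exact h (congrArg Sigma.fst h')

theorem isUnit_iff_q {A : Matrix (Ix d) (Ix d) F} (hA : A * Cfsg.jordanTypeMatrix d F = Cfsg.jordanTypeMatrix d F * A) :
    IsUnit A ↔ ∀ c, IsUnit (q d hd c A).det := by
  classical
  set s := Finset.univ.sup d + 1 with hs
  have hds : ∀ k, d k < s := fun k => Nat.lt_succ_of_le (Finset.le_sup (f := d) (Finset.mem_univ k))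
  rw [isUnit_iff d hd s hds ⟨A, hA⟩]
  constructor
  · intro h c
    by_cases hc : c < s
    · exact h ⟨c, hc⟩
    · have : IsEmpty {k // d k = c} := ⟨fun k => hc (by rw [← k.2]; exact hds _)⟩
      rw [Matrix.det_isEmpty]
      exact isUnit_one
  · intro h c
    exact h c

theorem exists_q (T : (c : ℕ) → Matrix {k // d k = c} {k // d k = c} F) :
    ∃ A : Matrix (Ix d) (Ix d) F, A * Cfsg.jordanTypeMatrix d F = Cfsg.jordanTypeMatrix d F * A ∧ ∀ c, q d hd c A = T c := by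
  classical
  set s := Finset.univ.sup d + 1 with hs
  have hds : ∀ k, d k < s := fun k => Nat.lt_succ_of_le (Finset.le_sup (f := d) (Finset.mem_univ k))
  obtain ⟨Y, hY⟩ := Q_surjective (F := F) d hd s (fun c => T c)
  refine ⟨((commEquiv d hd).symm Y).1, ((commEquiv d hd).symm Y).2, fun c => ?_⟩
  by_cases hc : c < s
  · have h1 : q d hd c ((commEquiv d hd).symm Y).1 = Q (F := F) d hd s (commEquiv d hd ((commEquiv d hd).symm Y)) ⟨c, hc⟩ := rfl
    rw [h1, Equiv.apply_symm_apply, hY]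
  · have : IsEmpty {k // d k = c} := ⟨fun k => hc (by rw [← k.2]; exact hds _)⟩
    ext k
    exact isEmptyElim k

/-! ### the base form -/

/-- coefficients of the base form -/
def beta (F : Type*) [Field F] : ℕ → ℕ → F
  | 0, 0 => 1
  | 0, _ + 1 => 0
  | _ + 1, 0 => 0
  | m + 1, i + 1 => - beta F m i - beta F m (i + 1)

theorem beta_eq_zero (m : ℕ) : ∀ i, m < i → beta F m i = 0 := by
  induction m with
  | zero =>
    intro i hi
    cases i with
    | zero => omega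
    | succ i => rfl
  | succ m ih =>
    intro i hi
    cases i with
    | zero => omega
    | succ i =>
      rw [beta, ih i (by omega), ih (i + 1) (by omega)]
      ring

theorem beta_self (m : ℕ) : beta F m m = (-1) ^ m := by
  induction m with
  | zero => rw [pow_zero]; rfl
  | succ m ih =>
    rw [beta, ih, beta_eq_zero m (m + 1) (by omega)]
    ring

theorem beta_zero (m : ℕ) : beta F m 0 = if m = 0 then 1 else 0 := by
  cases m with
  | zero => rw [if_pos rfl]; rfl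
  | succ m => rw [if_neg (by omega)]; rfl

theorem zero_beta (i : ℕ) : beta F 0 i = if i = 0 then 1 else 0 := by
  cases i with
  | zero => rw [if_pos rfl]; rfl
  | succ m => rw [if_neg (by omega)]; rfl

/-- the base form -/
def S (F : Type*) [Field F] (d : Fin t → ℕ) : Matrix (Ix d) (Ix d) F :=
  Matrix.of fun x y => if x.1 = y.1 then beta F (d y.1 - 1 - y.2) x.2 else 0

theorem mul_left_apply (A : Matrix (Ix d) (Ix d) F) (k : Fin t) (i : Fin (d k)) (y : Ix d) :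
    ((Cfsg.jordanTypeMatrix d F)ᵀ * A) ⟨k, i⟩ y = A ⟨k, i⟩ y + (if h : (i : ℕ) + 1 < d k then A ⟨k, ⟨i + 1, h⟩⟩ y else 0) := by
  have h1 := vecMul_apply' d Aᵀ k i y
  rw [← Matrix.transpose_apply (Aᵀ * _), Matrix.transpose_mul, Matrix.transpose_transpose] at h1
  rw [h1]
  rfl

theorem S_inv : (Cfsg.jordanTypeMatrix d F)ᵀ * S F d * Cfsg.jordanTypeMatrix d F = S F d := by
  rw [Matrix.mul_assoc]
  ext ⟨k, i⟩ ⟨l, j⟩
  rw [mul_left_apply]
  have h1 : ∀ i : Fin (d k), (S F d * Cfsg.jordanTypeMatrix d F) ⟨k, i⟩ ⟨l, j⟩ = S F d ⟨k, i⟩ ⟨l, j⟩ + (if h : (j : ℕ) + 1 < d l then S F d ⟨k, i⟩ ⟨l, ⟨j + 1, h⟩⟩ else 0) :=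
    fun i => vecMul_apply' d (S F d) l j ⟨k, i⟩
  simp only [h1]
  by_cases hkl : k = l
  · subst hkl
    have h2 : ∀ i j : Fin (d k), S F d ⟨k, i⟩ ⟨k, j⟩ = beta F (d k - 1 - j) i := by
      intro i j
      rw [S, Matrix.of_apply]
      exact if_pos rfl
    simp only [h2]
    obtain ⟨i, hi⟩ := i
    obtain ⟨j, hj⟩ := j
    show beta F (d k - 1 - j) i + (if h : j + 1 < d k then beta F (d k - 1 - (j + 1)) i else 0) +
      (if h : i + 1 < d k then beta F (d k - 1 - j) (i + 1) + (if h : j + 1 < d k then beta F (d k - 1 - (j + 1)) (i + 1) else 0) else 0) = beta F (d k - 1 - j) i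
    by_cases hj' : j + 1 < d k
    · rw [dif_pos hj']
      obtain ⟨m, hm⟩ : ∃ m, d k - 1 - (j + 1) = m := ⟨_, rfl⟩
      have hm' : d k - 1 - j = m + 1 := by omega
      rw [hm, hm']
      by_cases hi' : i + 1 < d k
      · rw [dif_pos hi', dif_pos hj', beta]
        ring
      · rw [dif_neg hi', beta_eq_zero m i (by omega)]
        ring
    · rw [dif_neg hj']
      by_cases hi' : i + 1 < d k
      · rw [dif_pos hi', dif_neg hj', show d k - 1 - j = 0 by omega, zero_beta (i + 1), if_neg (by omega)]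
        ring
      · rw [dif_neg hi']
        ring
  · have h2 : ∀ i j, S F d ⟨k, i⟩ ⟨l, j⟩ = 0 := by
      intro i j
      rw [S, Matrix.of_apply]
      exact if_neg hkl
    simp only [h2]
    simp

theorem S_isUnit : IsUnit (S F d) := by
  classical
  rw [Matrix.isUnit_iff_isUnit_det, isUnit_iff_ne_zero]
  intro h
  rw [← Matrix.exists_vecMul_eq_zero_iff] at h
  obtain ⟨v, hv, h0⟩ := h
  apply hv
  have key : ∀ l (m : ℕ) (hm : m < d l), v ⟨l, ⟨m, hm⟩⟩ = 0 := by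
    intro l m
    induction m using Nat.strong_induction_on with
    | _ m ih =>
      intro hm
      have h1 := congrFun h0 ⟨l, ⟨d l - 1 - m, by omega⟩⟩
      rw [Matrix.vecMul, dotProduct, Fintype.sum_sigma, Finset.sum_eq_single l] at h1
      · rw [Finset.sum_eq_single ⟨m, hm⟩] at h1
        · have h2 : S F d ⟨l, ⟨m, hm⟩⟩ ⟨l, ⟨d l - 1 - m, by omega⟩⟩ = (-1) ^ m := by
            rw [S, Matrix.of_apply, if_pos rfl, ← beta_self (F := F) m]
            congr 1
            show d l - 1 - (d l - 1 - m) = m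
            omega
          rw [h2] at h1
          rcases mul_eq_zero.mp h1 with h3 | h3
          · exact h3
          · exact absurd h3 (pow_ne_zero _ (neg_ne_zero.mpr one_ne_zero))
        · rintro ⟨i, hi⟩ _ him
          have him' : i ≠ m := fun h => him (Fin.ext h)
          rcases lt_or_gt_of_ne him' with h2 | h2
          · rw [ih i h2 hi, zero_mul]
          · have h3 : S F d ⟨l, ⟨i, hi⟩⟩ ⟨l, ⟨d l - 1 - m, by omega⟩⟩ = 0 := by
              rw [S, Matrix.of_apply, if_pos rfl]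
              apply beta_eq_zero
              show d l - 1 - (d l - 1 - m) < i
              omega
            rw [h3, mul_zero]
        · intro h; exact absurd (Finset.mem_univ _) h
      · intro k _ hk
        apply Finset.sum_eq_zero
        intro i _
        have h3 : S F d ⟨k, i⟩ ⟨l, ⟨d l - 1 - m, by omega⟩⟩ = 0 := by
          rw [S, Matrix.of_apply]
          exact if_neg hk
        rw [h3, mul_zero]
      · intro h; exact absurd (Finset.mem_univ _) h
  funext ⟨l, j⟩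
  exact key l j j.2

theorem rho_S_mul (c : ℕ) {a : Matrix (Ix d) (Ix d) F} (ha : a * Cfsg.jordanTypeMatrix d F = Cfsg.jordanTypeMatrix d F * a) :
    rho d hd c (S F d * a) = q d hd c a := by
  ext ⟨k, hk⟩ ⟨l, hl⟩
  show (S F d * a) ⟨k, ⟨0, hd k⟩⟩ ⟨l, ⟨d l - 1, Nat.sub_lt (hd l) Nat.one_pos⟩⟩ = a ⟨k, ⟨0, hd k⟩⟩ ⟨l, ⟨0, hd l⟩⟩
  have hk1 := hd k
  rw [Matrix.mul_apply, Fintype.sum_sigma, Finset.sum_eq_single k]
  · rw [Finset.sum_eq_single ⟨d k - 1, Nat.sub_lt (hd k) Nat.one_pos⟩]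
    · rw [toeplitz d hd ha k l (d k - 1) (d l - 1) (Nat.sub_lt (hd k) Nat.one_pos) (Nat.sub_lt (hd l) Nat.one_pos), if_pos (by omega)]
      have h1 : S F d ⟨k, ⟨0, hd k⟩⟩ ⟨k, ⟨d k - 1, Nat.sub_lt (hd k) Nat.one_pos⟩⟩ = 1 := by
        rw [S, Matrix.of_apply, if_pos rfl]
        show beta F (d k - 1 - (d k - 1)) 0 = 1
        rw [Nat.sub_self]
        rfl
      rw [h1, one_mul]
      congr 2
      apply Fin.ext
      show d k - 1 - (d l - 1) = 0
      omega
    · rintro ⟨j, hj⟩ _ hj'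
      have h1 : S F d ⟨k, ⟨0, hd k⟩⟩ ⟨k, ⟨j, hj⟩⟩ = 0 := by
        rw [S, Matrix.of_apply, if_pos rfl]
        show beta F (d k - 1 - j) 0 = 0
        rw [beta_zero, if_neg]
        intro h
        apply hj'
        apply Fin.ext
        show j = d k - 1
        omega
      rw [h1, zero_mul]
    · intro h; exact absurd (Finset.mem_univ _) h
  · intro k' _ hk'
    apply Finset.sum_eq_zero
    intro i _
    have h1 : S F d ⟨k, ⟨0, hd k⟩⟩ ⟨k', i⟩ = 0 := by
      rw [S, Matrix.of_apply]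
      exact if_neg (fun h => hk' h.symm)
    rw [h1, zero_mul]
  · intro h; exact absurd (Finset.mem_univ _) h

theorem rho_transpose_mul_S (c : ℕ) (a : Matrix (Ix d) (Ix d) F) : rho d hd c (aᵀ * S F d) = (q d hd c a)ᵀ := by
  ext ⟨k, hk⟩ ⟨l, hl⟩
  show (aᵀ * S F d) ⟨k, ⟨0, hd k⟩⟩ ⟨l, ⟨d l - 1, Nat.sub_lt (hd l) Nat.one_pos⟩⟩ = a ⟨l, ⟨0, hd l⟩⟩ ⟨k, ⟨0, hd k⟩⟩
  rw [Matrix.mul_apply, Fintype.sum_sigma, Finset.sum_eq_single l]
  · rw [Finset.sum_eq_single ⟨0, hd l⟩]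
    · have h1 : S F d ⟨l, ⟨0, hd l⟩⟩ ⟨l, ⟨d l - 1, Nat.sub_lt (hd l) Nat.one_pos⟩⟩ = 1 := by
        rw [S, Matrix.of_apply, if_pos rfl]
        show beta F (d l - 1 - (d l - 1)) 0 = 1
        rw [Nat.sub_self]
        rfl
      rw [h1, mul_one]
      rfl
    · rintro ⟨j, hj⟩ _ hj'
      have h1 : S F d ⟨l, ⟨j, hj⟩⟩ ⟨l, ⟨d l - 1, Nat.sub_lt (hd l) Nat.one_pos⟩⟩ = 0 := by
        rw [S, Matrix.of_apply, if_pos rfl]
        show beta F (d l - 1 - (d l - 1)) j = 0
        rw [Nat.sub_self, zero_beta, if_neg]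
        intro h
        apply hj'
        exact Fin.ext h
      rw [h1, mul_zero]
    · intro h; exact absurd (Finset.mem_univ _) h
  · intro k' _ hk'
    apply Finset.sum_eq_zero
    intro i _
    have h1 : S F d ⟨k', i⟩ ⟨l, ⟨d l - 1, Nat.sub_lt (hd l) Nat.one_pos⟩⟩ = 0 := by
      rw [S, Matrix.of_apply]
      exact if_neg hk'
    rw [h1, mul_zero]
  · intro h; exact absurd (Finset.mem_univ _) h

theorem rho_transpose_S_mul (c : ℕ) (a : Matrix (Ix d) (Ix d) F) : rho d hd c (S F d * a)ᵀ = (-1 : F) ^ (c - 1) • (q d hd c a)ᵀ := by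
  ext ⟨k, hk⟩ ⟨l, hl⟩
  show (S F d * a) ⟨l, ⟨d l - 1, Nat.sub_lt (hd l) Nat.one_pos⟩⟩ ⟨k, ⟨0, hd k⟩⟩ = (-1 : F) ^ (c - 1) * a ⟨l, ⟨0, hd l⟩⟩ ⟨k, ⟨0, hd k⟩⟩
  have hl1 := hd l
  rw [Matrix.mul_apply, Fintype.sum_sigma, Finset.sum_eq_single l]
  · rw [Finset.sum_eq_single ⟨0, hd l⟩]
    · have h1 : S F d ⟨l, ⟨d l - 1, Nat.sub_lt (hd l) Nat.one_pos⟩⟩ ⟨l, ⟨0, hd l⟩⟩ = (-1) ^ (c - 1) := by
        rw [S, Matrix.of_apply, if_pos rfl]
        show beta F (d l - 1 - 0) (d l - 1) = _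
        rw [Nat.sub_zero, beta_self, hl]
      rw [h1]
    · rintro ⟨j, hj⟩ _ hj'
      have h1 : S F d ⟨l, ⟨d l - 1, Nat.sub_lt (hd l) Nat.one_pos⟩⟩ ⟨l, ⟨j, hj⟩⟩ = 0 := by
        rw [S, Matrix.of_apply, if_pos rfl]
        apply beta_eq_zero
        show d l - 1 - j < d l - 1
        have : j ≠ 0 := fun h => hj' (Fin.ext h)
        omega
      rw [h1, zero_mul]
    · intro h; exact absurd (Finset.mem_univ _) h
  · intro k' _ hk'
    apply Finset.sum_eq_zero
    intro i _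
    have h1 : S F d ⟨l, ⟨d l - 1, Nat.sub_lt (hd l) Nat.one_pos⟩⟩ ⟨k', i⟩ = 0 := by
      rw [S, Matrix.of_apply]
      exact if_neg (fun h => hk' h.symm)
    rw [h1, zero_mul]
  · intro h; exact absurd (Finset.mem_univ _) h

/-! ### forms -/

/-- the forms fixed by the Jordan matrix -/
def Fixed (H : Matrix (Ix d) (Ix d) F) : Prop := (Cfsg.jordanTypeMatrix d F)ᵀ * H * Cfsg.jordanTypeMatrix d F = H

theorem Fixed.transpose {H : Matrix (Ix d) (Ix d) F} (h : Fixed d H) : Fixed d Hᵀ := by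
  have h1 := congrArg Matrix.transpose h
  rw [Matrix.transpose_mul, Matrix.transpose_mul, Matrix.transpose_transpose, ← Matrix.mul_assoc] at h1
  exact h1

theorem Fixed.mul {H a : Matrix (Ix d) (Ix d) F} (h : Fixed d H) (ha : a * Cfsg.jordanTypeMatrix d F = Cfsg.jordanTypeMatrix d F * a) :
    Fixed d (H * a) := by
  show (Cfsg.jordanTypeMatrix d F)ᵀ * (H * a) * Cfsg.jordanTypeMatrix d F = H * a
  rw [← Matrix.mul_assoc, Matrix.mul_assoc _ a, ha, ← Matrix.mul_assoc, h]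

theorem Fixed.mul_left {H a : Matrix (Ix d) (Ix d) F} (h : Fixed d H) (ha : a * Cfsg.jordanTypeMatrix d F = Cfsg.jordanTypeMatrix d F * a) :
    Fixed d (aᵀ * H) := by
  have := (h.transpose.mul d ha).transpose
  rwa [Matrix.transpose_mul, Matrix.transpose_transpose] at this

/-- two fixed forms, the first a unit, differ by an element of the commutant -/
theorem Fixed.inv_mul {H H' : Matrix (Ix d) (Ix d) F} (h : Fixed d H) (h' : Fixed d H') (hu : IsUnit H) :
    (H⁻¹ * H') * Cfsg.jordanTypeMatrix d F = Cfsg.jordanTypeMatrix d F * (H⁻¹ * H') := by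
  classical
  have hdet : IsUnit H.det := (Matrix.isUnit_iff_isUnit_det _).mp hu
  have h1 : (Cfsg.jordanTypeMatrix d F)ᵀ * (H * (H⁻¹ * H' * Cfsg.jordanTypeMatrix d F)) = (Cfsg.jordanTypeMatrix d F)ᵀ * (H * (Cfsg.jordanTypeMatrix d F * (H⁻¹ * H'))) := by
    have e1 : H * (H⁻¹ * H' * Cfsg.jordanTypeMatrix d F) = H' * Cfsg.jordanTypeMatrix d F := by
      rw [← Matrix.mul_assoc, ← Matrix.mul_assoc, Matrix.mul_nonsing_inv _ hdet, Matrix.one_mul]
    have e2 : (Cfsg.jordanTypeMatrix d F)ᵀ * (H * (Cfsg.jordanTypeMatrix d F * (H⁻¹ * H'))) = ((Cfsg.jordanTypeMatrix d F)ᵀ * H * Cfsg.jordanTypeMatrix d F) * (H⁻¹ * H') := by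
      simp only [Matrix.mul_assoc]
    have h'' : (Cfsg.jordanTypeMatrix d F)ᵀ * H' * Cfsg.jordanTypeMatrix d F = H' := h'
    have hh : (Cfsg.jordanTypeMatrix d F)ᵀ * H * Cfsg.jordanTypeMatrix d F = H := h
    rw [e1, e2, hh, ← Matrix.mul_assoc, h'', ← Matrix.mul_assoc, Matrix.mul_nonsing_inv _ hdet, Matrix.one_mul]
  have hJ : IsUnit ((Cfsg.jordanTypeMatrix d F)ᵀ * H) := by
    have h2 : IsUnit ((Cfsg.jordanTypeMatrix d F)ᵀ * H * Cfsg.jordanTypeMatrix d F).det := by rw [h]; exact hdet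
    rw [Matrix.det_mul] at h2
    exact (Matrix.isUnit_iff_isUnit_det _).mpr (isUnit_of_mul_isUnit_left h2)
  rw [← Matrix.mul_assoc (Cfsg.jordanTypeMatrix d F)ᵀ H, ← Matrix.mul_assoc (Cfsg.jordanTypeMatrix d F)ᵀ H] at h1
  exact hJ.mul_left_cancel h1

theorem exists_a {H : Matrix (Ix d) (Ix d) F} (h : Fixed d H) :
    ∃ a, a * Cfsg.jordanTypeMatrix d F = Cfsg.jordanTypeMatrix d F * a ∧ H = S F d * a := by
  classical
  refine ⟨(S F d)⁻¹ * H, Fixed.inv_mul d (S_inv d) h (S_isUnit d), ?_⟩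
  rw [← Matrix.mul_assoc, Matrix.mul_nonsing_inv _ ((Matrix.isUnit_iff_isUnit_det _).mp (S_isUnit d)), Matrix.one_mul]

theorem comm_mul {a b : Matrix (Ix d) (Ix d) F} (ha : a * Cfsg.jordanTypeMatrix d F = Cfsg.jordanTypeMatrix d F * a)
    (hb : b * Cfsg.jordanTypeMatrix d F = Cfsg.jordanTypeMatrix d F * b) : (a * b) * Cfsg.jordanTypeMatrix d F = Cfsg.jordanTypeMatrix d F * (a * b) := by
  rw [Matrix.mul_assoc, hb, ← Matrix.mul_assoc, ha, Matrix.mul_assoc]

theorem rho_mul (c : ℕ) {H a : Matrix (Ix d) (Ix d) F} (h : Fixed d H) (ha : a * Cfsg.jordanTypeMatrix d F = Cfsg.jordanTypeMatrix d F * a) :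
    rho d hd c (H * a) = rho d hd c H * q d hd c a := by
  obtain ⟨b, hb, rfl⟩ := exists_a d h
  rw [Matrix.mul_assoc, rho_S_mul d hd c (comm_mul d hb ha), rho_S_mul d hd c hb, q_mul d hd c hb ha]

theorem rho_transpose (c : ℕ) {H : Matrix (Ix d) (Ix d) F} (h : Fixed d H) : rho d hd c Hᵀ = (-1 : F) ^ (c - 1) • (rho d hd c H)ᵀ := by
  obtain ⟨b, hb, rfl⟩ := exists_a d h
  rw [rho_transpose_S_mul, rho_S_mul d hd c hb]

theorem rho_transpose_mul (c : ℕ) {H a : Matrix (Ix d) (Ix d) F} (h : Fixed d H) (ha : a * Cfsg.jordanTypeMatrix d F = Cfsg.jordanTypeMatrix d F * a) :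
    rho d hd c (aᵀ * H) = (q d hd c a)ᵀ * rho d hd c H := by
  obtain ⟨b, hb, rfl⟩ := exists_a d h
  rw [← Matrix.mul_assoc, rho_mul d hd c (Fixed.mul_left d (S_inv d) ha) hb, rho_transpose_mul_S, rho_S_mul d hd c hb]

theorem rho_congr (c : ℕ) {H a : Matrix (Ix d) (Ix d) F} (h : Fixed d H) (ha : a * Cfsg.jordanTypeMatrix d F = Cfsg.jordanTypeMatrix d F * a) :
    rho d hd c (aᵀ * H * a) = (q d hd c a)ᵀ * rho d hd c H * q d hd c a := by
  rw [rho_mul d hd c (Fixed.mul_left d h ha) ha, rho_transpose_mul d hd c h ha]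

theorem isUnit_iff_rho {H : Matrix (Ix d) (Ix d) F} (h : Fixed d H) : IsUnit H ↔ ∀ c, IsUnit (rho d hd c H).det := by
  obtain ⟨b, hb, rfl⟩ := exists_a d h
  have h1 : IsUnit (S F d * b) ↔ IsUnit b := by
    obtain ⟨u, hu⟩ := S_isUnit (F := F) d
    rw [← hu, Units.isUnit_units_mul]
  rw [h1, isUnit_iff_q d hd hb]
  simp only [rho_S_mul d hd _ hb]

theorem rho_add (c : ℕ) (H H' : Matrix (Ix d) (Ix d) F) : rho d hd c (H + H') = rho d hd c H + rho d hd c H' := rfl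
theorem rho_smul (c : ℕ) (x : F) (H : Matrix (Ix d) (Ix d) F) : rho d hd c (x • H) = x • rho d hd c H := rfl
theorem rho_sub (c : ℕ) (H H' : Matrix (Ix d) (Ix d) F) : rho d hd c (H - H') = rho d hd c H - rho d hd c H' := rfl

theorem fixed_add {H H' : Matrix (Ix d) (Ix d) F} (h : Fixed d H) (h' : Fixed d H') : Fixed d (H + H') := by
  show _ * (H + H') * _ = H + H'
  rw [Matrix.mul_add, Matrix.add_mul, h, h']

theorem fixed_smul {H : Matrix (Ix d) (Ix d) F} (x : F) (h : Fixed d H) : Fixed d (x • H) := by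
  show _ * (x • H) * _ = x • H
  rw [Matrix.mul_smul, Matrix.smul_mul, h]

/-- prescribed residual blocks, with a symmetry condition of sign `e` -/
theorem exists_form (h2 : (2 : F) ≠ 0) (e : F) (he : e * e = 1) (T : (c : ℕ) → Matrix {k // d k = c} {k // d k = c} F)
    (hT : ∀ c, (T c)ᵀ = (e * (-1) ^ (c - 1)) • T c) :
    ∃ H : Matrix (Ix d) (Ix d) F, Hᵀ = e • H ∧ Fixed d H ∧ ∀ c, rho d hd c H = T c := by
  obtain ⟨a, ha, haT⟩ := exists_q d hd T
  have hf : Fixed d (S F d * a) := Fixed.mul d (S_inv d) ha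
  refine ⟨(2 : F)⁻¹ • (S F d * a + e • (S F d * a)ᵀ), ?_, ?_, ?_⟩
  · rw [Matrix.transpose_smul, Matrix.transpose_add, Matrix.transpose_smul, Matrix.transpose_transpose, smul_comm e, smul_add e, smul_smul e e, he, one_smul, add_comm]
  · exact fixed_smul d _ (fixed_add d hf (fixed_smul d _ (hf.transpose d)))
  · intro c
    rw [rho_smul, rho_add, rho_smul, rho_transpose d hd c hf, rho_S_mul d hd c ha, haT, hT, smul_smul, smul_smul]
    have h1 : e * (-1) ^ (c - 1) * (e * (-1) ^ (c - 1)) = (1 : F) := by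
      have h3 : ((-1 : F) ^ (c - 1)) * (-1) ^ (c - 1) = 1 := by
        rw [← mul_pow, neg_one_mul, neg_neg, one_pow]
      calc e * (-1) ^ (c - 1) * (e * (-1) ^ (c - 1)) = (e * e) * ((-1 : F) ^ (c - 1) * (-1) ^ (c - 1)) := by ring
        _ = 1 := by rw [he, h3, one_mul]
    rw [h1, one_smul, ← two_smul F (T c), smul_smul, inv_mul_cancel₀ h2, one_smul]

theorem comm_pow {s : Matrix (Ix d) (Ix d) F} (hs : s * Cfsg.jordanTypeMatrix d F = Cfsg.jordanTypeMatrix d F * s) (n : ℕ) :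
    s ^ n * Cfsg.jordanTypeMatrix d F = Cfsg.jordanTypeMatrix d F * s ^ n := by
  induction n with
  | zero => rw [pow_zero, Matrix.one_mul, Matrix.mul_one]
  | succ n ih => rw [pow_succ]; exact comm_mul d ih hs

theorem q_pow (c : ℕ) {s : Matrix (Ix d) (Ix d) F} (hs : s * Cfsg.jordanTypeMatrix d F = Cfsg.jordanTypeMatrix d F * s) (hq : q d hd c s = 1) (n : ℕ) :
    q d hd c (s ^ n) = 1 := by
  induction n with
  | zero => rw [pow_zero]; exact q_one d hd c
  | succ n ih => rw [pow_succ, q_mul d hd c (comm_pow d hs n) hs, ih, hq, Matrix.mul_one]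

/-- an element of the commutant with trivial residue has odd order -/
theorem odd_order [Finite F] (h2 : (2 : F) ≠ 0) {s : Matrix (Ix d) (Ix d) F} (hs : s * Cfsg.jordanTypeMatrix d F = Cfsg.jordanTypeMatrix d F * s)
    (hq : ∀ c, q d hd c s = 1) : ∃ j, s ^ (2 * j + 1) = 1 := by
  classical
  have hu : IsUnit s := (isUnit_iff_q d hd hs).mpr fun c => by rw [hq, Matrix.det_one]; exact isUnit_one
  obtain ⟨u, hu⟩ := hu
  have hpos := orderOf_pos u
  rcases Nat.even_or_odd' (orderOf u) with ⟨j, hj | hj⟩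
  · exfalso
    have hz : s ^ j * s ^ j = 1 := by
      rw [← pow_add, ← two_mul, ← hj, ← hu, ← Units.val_pow_eq_pow_val, pow_orderOf_eq_one, Units.val_one]
    have hc : (1 + s ^ j) * Cfsg.jordanTypeMatrix d F = Cfsg.jordanTypeMatrix d F * (1 + s ^ j) := by
      rw [Matrix.add_mul, Matrix.mul_add, Matrix.one_mul, Matrix.mul_one, comm_pow d hs]
    have h1 : IsUnit (1 + s ^ j) := by
      rw [isUnit_iff_q d hd hc]
      intro c
      have h3 : q d hd c (1 + s ^ j) = (2 : F) • 1 := by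
        have h4 : q d hd c (1 + s ^ j) = q d hd c 1 + q d hd c (s ^ j) := rfl
        rw [h4, q_one, q_pow d hd c hs (hq c), two_smul]
      rw [h3, Matrix.det_smul, Matrix.det_one, mul_one, isUnit_iff_ne_zero]
      exact pow_ne_zero _ h2
    have h3 : (1 + s ^ j) * (s ^ j) = (1 + s ^ j) * 1 := by
      rw [Matrix.add_mul, Matrix.one_mul, hz, Matrix.mul_one, add_comm]
    have h4 := h1.mul_left_cancel h3
    have h5 : u ^ j = 1 := Units.ext (by rw [Units.val_pow_eq_pow_val, hu, Units.val_one]; exact h4)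
    have h6 := orderOf_dvd_of_pow_eq_one h5
    have h7 := Nat.le_of_dvd (by omega) h6
    omega
  · refine ⟨j, ?_⟩
    rw [← hj, ← hu, ← Units.val_pow_eq_pow_val, pow_orderOf_eq_one, Units.val_one]

/-- forms with the same residue are equivalent -/
theorem equiv_of_rho_eq [Finite F] (h2 : (2 : F) ≠ 0) (e : F) (he : e * e = 1) {H H' : Matrix (Ix d) (Ix d) F} (hH : Hᵀ = e • H) (hH' : H'ᵀ = e • H')
    (h : Fixed d H) (h' : Fixed d H') (hu : IsUnit H) (hr : ∀ c, rho d hd c H = rho d hd c H') :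
    ∃ b, b * Cfsg.jordanTypeMatrix d F = Cfsg.jordanTypeMatrix d F * b ∧ IsUnit b ∧ bᵀ * H * b = H' := by
  classical
  have hdet : IsUnit H.det := (Matrix.isUnit_iff_isUnit_det _).mp hu
  set s := H⁻¹ * H' with hs
  have hsc : s * Cfsg.jordanTypeMatrix d F = Cfsg.jordanTypeMatrix d F * s := Fixed.inv_mul d h h' hu
  have hHs : H * s = H' := by rw [hs, ← Matrix.mul_assoc, Matrix.mul_nonsing_inv _ hdet, Matrix.one_mul]
  have hq : ∀ c, q d hd c s = 1 := by
    intro c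
    have h1 := rho_mul d hd c h hsc
    rw [hHs, ← hr] at h1
    have h3 : IsUnit (rho d hd c H) := (Matrix.isUnit_iff_isUnit_det _).mpr ((isUnit_iff_rho d hd h).mp hu c)
    apply h3.mul_left_cancel
    rw [← h1, Matrix.mul_one]
  obtain ⟨j, hj⟩ := odd_order d hd h2 hsc hq
  have hsT : sᵀ * H = H * s := by
    have h1 := hH'
    rw [← hHs, Matrix.transpose_mul, hH, Matrix.mul_smul] at h1
    have h3 := congrArg (fun X => e • X) h1
    simp only [smul_smul, he, one_smul] at h3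
    exact h3
  have hsTn : ∀ n, (s ^ n)ᵀ * H = H * s ^ n := by
    intro n
    induction n with
    | zero => rw [pow_zero, Matrix.transpose_one, Matrix.one_mul, Matrix.mul_one]
    | succ n ih =>
      have e1 : s ^ (n + 1) = s ^ n * s := pow_succ s n
      have e2 : s ^ (n + 1) = s * s ^ n := pow_succ' s n
      rw [e1, Matrix.transpose_mul, Matrix.mul_assoc, ih, ← Matrix.mul_assoc, hsT, Matrix.mul_assoc, ← e2, e1]
  refine ⟨s ^ (j + 1), comm_pow d hsc _, ?_, ?_⟩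
  · rw [isUnit_iff_q d hd (comm_pow d hsc _)]
    intro c
    rw [q_pow d hd c hsc (hq c), Matrix.det_one]
    exact isUnit_one
  · rw [hsTn, Matrix.mul_assoc, ← pow_add, show j + 1 + (j + 1) = (2 * j + 1) + 1 by omega, pow_succ, hj, Matrix.one_mul, hHs]

/-- forms with congruent residues are equivalent -/
theorem equiv_of_rho [Finite F] (h2 : (2 : F) ≠ 0) (e : F) (he : e * e = 1) {H H' : Matrix (Ix d) (Ix d) F} (hH : Hᵀ = e • H) (hH' : H'ᵀ = e • H')
    (h : Fixed d H) (h' : Fixed d H') (hu : IsUnit H) (hr : ∀ c, ∃ g : Matrix {k // d k = c} {k // d k = c} F, IsUnit g.det ∧ gᵀ * rho d hd c H * g = rho d hd c H') :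
    ∃ b, b * Cfsg.jordanTypeMatrix d F = Cfsg.jordanTypeMatrix d F * b ∧ IsUnit b ∧ bᵀ * H * b = H' := by
  classical
  choose g hg1 hg2 using hr
  obtain ⟨a, ha, haq⟩ := exists_q d hd g
  have hau : IsUnit a := (isUnit_iff_q d hd ha).mpr fun c => by rw [haq]; exact hg1 c
  have hf : Fixed d (aᵀ * H * a) := Fixed.mul d (Fixed.mul_left d h ha) ha
  obtain ⟨b, hb, hbu, hbH⟩ := equiv_of_rho_eq d hd h2 e he (H := aᵀ * H * a) (H' := H')
    (by rw [Matrix.transpose_mul, Matrix.transpose_mul, Matrix.transpose_transpose, hH, Matrix.smul_mul, Matrix.mul_smul, Matrix.mul_assoc])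
    hH' hf h' (((Matrix.isUnit_transpose a).mpr hau |>.mul hu).mul hau) (fun c => by rw [rho_congr d hd c h ha, haq, hg2])
  refine ⟨a * b, comm_mul d ha hb, hau.mul hbu, ?_⟩
  rw [← hbH, Matrix.transpose_mul]
  simp only [Matrix.mul_assoc]

end Cfsg.Agent.Lib.SpUni
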