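import Cfsg.Agent.Lib.SymBasis
import Cfsg.Agent.Lib.SympBasis
import Cfsg.Agent.Lib.LinAux

set_option autoImplicit false
set_option linter.unusedSectionVars false

/-! Congruence of alternating and symmetric matrices over a finite field of odd characteristic (helper41). -/

namespace Cfsg.Agent.Lib.SpUni2

open Matrix Module Cfsg.Agent.Lib.LinAux

variable {F : Type*} [Field F] {κ : Type*} [Fintype κ] [DecidableEq κ]

theorem congr_of_forall {g R R' : Matrix κ κ F} (h : ∀ x y, (g *ᵥ x) ⬝ᵥ (R *ᵥ (g *ᵥ y)) = x ⬝ᵥ (R' *ᵥ y)) : gᵀ * R * g = R' := by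
  apply matrix_ext
  intro y
  apply dotProduct_eq
  intro x
  rw [dotProduct_comm, dotProduct_comm (R' *ᵥ y), ← h, ← Matrix.mulVec_mulVec, ← Matrix.mulVec_mulVec, Matrix.dotProduct_mulVec, Matrix.vecMul_transpose]

theorem exists_matrix_of_equiv (e : (κ → F) ≃ₗ[F] (κ → F)) : ∃ P : Matrix κ κ F, IsUnit P.det ∧ ∀ x, P *ᵥ x = e x := by
  refine ⟨LinearMap.toMatrix' e.toLinearMap, ?_, ?_⟩
  · rw [← Matrix.isUnit_iff_isUnit_det]
    have h1 : LinearMap.toMatrix' e.toLinearMap * LinearMap.toMatrix' e.symm.toLinearMap = 1 := by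
      rw [← LinearMap.toMatrix'_comp, LinearEquiv.comp_coe, LinearEquiv.symm_trans_self, LinearEquiv.refl_toLinearMap, LinearMap.toMatrix'_id]
    exact IsUnit.of_mul_eq_one _ h1
  · intro x
    rw [← Matrix.toLin'_apply, Matrix.toLin'_toMatrix']
    rfl

theorem nondeg {R : Matrix κ κ F} (hu : IsUnit R.det) (v : κ → F) (h : ∀ w, v ⬝ᵥ (R *ᵥ w) = 0) : v = 0 := by
  have h1 : v ᵥ* R = 0 := by
    apply dotProduct_eq
    intro w
    rw [← Matrix.dotProduct_mulVec, h, zero_dotProduct]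
  by_contra hv
  have := (Matrix.exists_vecMul_eq_zero_iff (M := R)).mp ⟨v, hv, h1⟩
  exact (isUnit_iff_ne_zero.mp hu) this

theorem alt_self (h2 : (2 : F) ≠ 0) {R : Matrix κ κ F} (hR : Rᵀ = -R) (v : κ → F) : v ⬝ᵥ (R *ᵥ v) = 0 := by
  have h1 : v ⬝ᵥ (R *ᵥ v) = - (v ⬝ᵥ (R *ᵥ v)) := by
    conv_lhs => rw [Matrix.dotProduct_mulVec, ← Matrix.mulVec_transpose, hR, Matrix.neg_mulVec, neg_dotProduct, dotProduct_comm]
  have h3 : 2 * (v ⬝ᵥ (R *ᵥ v)) = 0 := by
    rw [two_mul]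
    nth_rewrite 1 [h1]
    ring
  exact (mul_eq_zero.mp h3).resolve_left h2

theorem alt_congr (h2 : (2 : F) ≠ 0) {R R' : Matrix κ κ F} (hR : Rᵀ = -R) (hR' : R'ᵀ = -R') (hu : IsUnit R.det) (hu' : IsUnit R'.det) :
    ∃ g : Matrix κ κ F, IsUnit g.det ∧ gᵀ * R * g = R' := by
  have happ : ∀ (M : Matrix κ κ F) v w, Matrix.toBilin' M v w = v ⬝ᵥ (M *ᵥ w) := fun M v w => Matrix.toBilin'_apply' M v w
  obtain ⟨m, e, he⟩ := SympBasis.exists_equiv (Matrix.toBilin' R) (fun v => by rw [happ]; exact alt_self h2 hR v)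
    (fun v h => nondeg hu v fun w => by rw [← happ]; exact h w)
  obtain ⟨m', e', he'⟩ := SympBasis.exists_equiv (Matrix.toBilin' R') (fun v => by rw [happ]; exact alt_self h2 hR' v)
    (fun v h => nondeg hu' v fun w => by rw [← happ]; exact h w)
  have h := (e.trans e'.symm).finrank_eq
  simp at h
  obtain rfl : m' = m := by omega
  obtain ⟨g, hg, hge⟩ := exists_matrix_of_equiv (e'.symm.trans e)
  refine ⟨g, hg, congr_of_forall fun x y => ?_⟩
  rw [← happ, ← happ, hge, hge, LinearEquiv.trans_apply, LinearEquiv.trans_apply, he]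
  conv_rhs => rw [← e'.apply_symm_apply x, ← e'.apply_symm_apply y]
  rw [he']

theorem alt_even (h2 : (2 : F) ≠ 0) {R : Matrix κ κ F} (hR : Rᵀ = -R) (hu : IsUnit R.det) : Even (Fintype.card κ) := by
  have h1 := congrArg Matrix.det hR
  rw [Matrix.det_transpose, Matrix.det_neg] at h1
  by_contra h
  rw [Nat.not_even_iff_odd] at h
  rw [h.neg_one_pow, neg_one_mul] at h1
  have h3 : 2 * R.det = 0 := by
    rw [two_mul]
    nth_rewrite 1 [h1]
    ring
  exact (isUnit_iff_ne_zero.mp hu) ((mul_eq_zero.mp h3).resolve_left h2)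

theorem alt_exists (h : Even (Fintype.card κ)) : ∃ R : Matrix κ κ F, Rᵀ = -R ∧ IsUnit R.det := by
  obtain ⟨m, hm⟩ := h
  let e : κ ≃ Fin m ⊕ Fin m := Fintype.equivOfCardEq (by rw [Fintype.card_sum, Fintype.card_fin, hm])
  refine ⟨(Matrix.J (Fin m) F).submatrix e e, ?_, ?_⟩
  · rw [Matrix.transpose_submatrix, Matrix.J_transpose]
    rfl
  · rw [Matrix.det_submatrix_equiv_self]
    exact Matrix.isUnit_det_J (Fin m) F

/-- diagonal form of a symmetric matrix -/
theorem sym_diag [Finite F] (h2 : (2 : F) ≠ 0) {n : ℕ} (ε : κ ≃ Fin (n + 1)) {α : F} (hα : ¬ IsSquare α) {R : Matrix κ κ F} (hR : Rᵀ = R) (hu : IsUnit R.det) :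
    ∃ P : Matrix κ κ F, IsUnit P.det ∧ ∃ x, (x = 1 ∨ x = α) ∧ Pᵀ * R * P = Matrix.diagonal (fun i => if ε i = Fin.last n then x else 1) := by
  have happ : ∀ (M : Matrix κ κ F) v w, Matrix.toBilin' M v w = v ⬝ᵥ (M *ᵥ w) := fun M v w => Matrix.toBilin'_apply' M v w
  have hS : (Matrix.toBilin' R).IsSymm := ⟨fun v w => by
    rw [happ, happ, Matrix.dotProduct_mulVec, ← Matrix.mulVec_transpose, hR, dotProduct_comm]⟩
  have hN : (Matrix.toBilin' R).Nondegenerate := by
    refine ⟨fun v h => nondeg hu v fun w => by rw [← happ]; exact h w, fun v h => nondeg hu v fun w => ?_⟩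
    rw [Matrix.dotProduct_mulVec, ← Matrix.mulVec_transpose, hR, dotProduct_comm, ← happ]
    exact h w
  obtain ⟨b, hb1, hb2, hb3⟩ := SymBasis.exists_basis h2 hS hN (n := n)
    (by rw [Module.finrank_fintype_fun_eq_card, Fintype.card_congr ε, Fintype.card_fin]) hα
  obtain ⟨P, hP, hPe⟩ := exists_matrix_of_equiv (b.reindex ε.symm).equivFun.symm
  refine ⟨P, hP, _, hb3, congr_of_forall fun x y => ?_⟩
  have hx : ∀ x : κ → F, P *ᵥ x = ∑ i, x i • b (ε i) := by
    intro x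
    rw [hPe, Module.Basis.equivFun_symm_apply]
    apply Finset.sum_congr rfl
    intro i _
    rw [Module.Basis.reindex_apply, Equiv.symm_symm]
  rw [← happ, hx, hx, map_sum, dotProduct]
  apply Finset.sum_congr rfl
  intro i _
  rw [map_sum, LinearMap.sum_apply, Finset.sum_eq_single i]
  · rw [map_smul, map_smul, LinearMap.smul_apply, smul_eq_mul, smul_eq_mul, Matrix.mulVec_diagonal]
    split_ifs with h
    · rw [h]; ring
    · rw [hb2 _ h]; ring
  · intro j _ hj
    rw [map_smul, map_smul, LinearMap.smul_apply, hb1 _ _ (fun h => hj (ε.injective h)), smul_zero, smul_zero]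
  · intro h; exact absurd (Finset.mem_univ _) h

theorem det_diag {n : ℕ} (ε : κ ≃ Fin (n + 1)) (x : F) : (Matrix.diagonal (fun i => if ε i = Fin.last n then x else (1 : F))).det = x := by
  rw [Matrix.det_diagonal, Finset.prod_eq_single (ε.symm (Fin.last n))]
  · rw [Equiv.apply_symm_apply, if_pos rfl]
  · intro i _ hi
    rw [if_neg]
    intro h
    apply hi
    rw [← h, Equiv.symm_apply_apply]
  · intro h; exact absurd (Finset.mem_univ _) h

theorem isSquare_iff_of_congr {g R R' : Matrix κ κ F} (hg : IsUnit g.det) (h : gᵀ * R * g = R') : IsSquare R.det ↔ IsSquare R'.det := by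
  rw [← h, Matrix.det_mul, Matrix.det_mul, Matrix.det_transpose]
  have hg0 := isUnit_iff_ne_zero.mp hg
  constructor
  · rintro ⟨y, hy⟩
    exact ⟨g.det * y, by rw [hy]; ring⟩
  · rintro ⟨y, hy⟩
    refine ⟨y / g.det, ?_⟩
    field_simp
    rw [pow_two y, ← hy]
    ring

theorem sym_congr [Finite F] (h2 : (2 : F) ≠ 0) {R R' : Matrix κ κ F} (hR : Rᵀ = R) (hR' : R'ᵀ = R') (hu : IsUnit R.det) (hu' : IsUnit R'.det)
    (hs : Nonempty κ → (IsSquare R.det ↔ IsSquare R'.det)) : ∃ g : Matrix κ κ F, IsUnit g.det ∧ gᵀ * R * g = R' := by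
  rcases isEmpty_or_nonempty κ with hκ | hκ
  · exact ⟨1, by rw [Matrix.det_one]; exact isUnit_one, Subsingleton.elim _ _⟩
  · obtain ⟨n, hn⟩ : ∃ n, Fintype.card κ = n + 1 := ⟨Fintype.card κ - 1, by have := Fintype.card_pos (α := κ); omega⟩
    let ε : κ ≃ Fin (n + 1) := Fintype.equivFinOfCardEq hn
    obtain ⟨α, hα⟩ : ∃ α : F, ¬ IsSquare α := FiniteField.exists_nonsquare (by
      intro h
      apply h2
      have : ((ringChar F : ℕ) : F) = 0 := ringChar.Nat.cast_ringChar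
      rw [h] at this
      exact_mod_cast this)
    obtain ⟨P, hP, x, hx, hPR⟩ := sym_diag h2 ε hα hR hu
    obtain ⟨P', hP', x', hx', hPR'⟩ := sym_diag h2 ε hα hR' hu'
    have e1 := isSquare_iff_of_congr hP hPR
    have e2 := isSquare_iff_of_congr hP' hPR'
    rw [det_diag] at e1 e2
    have hxx : x = x' := by
      have h3 : IsSquare x ↔ IsSquare x' := by rw [← e1, ← e2]; exact hs hκ
      rcases hx with rfl | rfl <;> rcases hx' with rfl | rfl
      · rfl
      · exact absurd (h3.mp ⟨1, by ring⟩) hα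
      · exact absurd (h3.mpr ⟨1, by ring⟩) hα
      · rfl
    subst hxx
    refine ⟨P * P'⁻¹, ?_, ?_⟩
    · rw [Matrix.det_mul]
      exact hP.mul ((Matrix.isUnit_nonsing_inv_det_iff).mpr hP')
    · have h3 : P'⁻¹ᵀ * (P'ᵀ * R' * P') * P'⁻¹ = R' := by
        have h4 : P'⁻¹ᵀ * P'ᵀ = 1 := by
          rw [← Matrix.transpose_mul, Matrix.mul_nonsing_inv _ hP', Matrix.transpose_one]
        calc P'⁻¹ᵀ * (P'ᵀ * R' * P') * P'⁻¹ = (P'⁻¹ᵀ * P'ᵀ) * R' * (P' * P'⁻¹) := by simp only [Matrix.mul_assoc]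
          _ = R' := by rw [h4, Matrix.mul_nonsing_inv _ hP', Matrix.one_mul, Matrix.mul_one]
      rw [← h3, hPR', ← hPR, Matrix.transpose_mul]
      simp only [Matrix.mul_assoc]

theorem sym_exists [Finite F] [Nonempty κ] (h2 : (2 : F) ≠ 0) (s : Prop) : ∃ R : Matrix κ κ F, Rᵀ = R ∧ IsUnit R.det ∧ (IsSquare R.det ↔ s) := by
  classical
  obtain ⟨n, hn⟩ : ∃ n, Fintype.card κ = n + 1 := ⟨Fintype.card κ - 1, by have := Fintype.card_pos (α := κ); omega⟩
  let ε : κ ≃ Fin (n + 1) := Fintype.equivFinOfCardEq hn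
  obtain ⟨α, hα⟩ : ∃ α : F, ¬ IsSquare α := FiniteField.exists_nonsquare (by
    intro h
    apply h2
    have : ((ringChar F : ℕ) : F) = 0 := ringChar.Nat.cast_ringChar
    rw [h] at this
    exact_mod_cast this)
  have hα0 : α ≠ 0 := by rintro rfl; exact hα ⟨0, by simp⟩
  refine ⟨Matrix.diagonal (fun i => if ε i = Fin.last n then (if s then 1 else α) else (1 : F)), Matrix.diagonal_transpose _, ?_, ?_⟩
  · rw [det_diag]
    split_ifs
    · exact isUnit_one
    · exact isUnit_iff_ne_zero.mpr hα0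
  · rw [det_diag]
    split_ifs with hs
    · exact ⟨fun _ => hs, fun _ => ⟨1, by ring⟩⟩
    · exact ⟨fun h => absurd h hα, fun h => absurd h hs⟩

end Cfsg.Agent.Lib.SpUni2
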