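import Cfsg.Agent.Lib.SpUni
import Cfsg.Agent.Lib.SpUni2

set_option autoImplicit false
set_option linter.unusedSectionVars false

/-! Alternating forms fixed by a Jordan matrix, up to the commutant (helper41). -/

namespace Cfsg.Agent.Lib.SpUni3

open Cfsg.Agent.S2581 Matrix Cfsg.Agent.Lib.SpUni Cfsg.Agent.Lib.SpUni2

variable {F : Type*} [Field F] {t : ℕ} (d : Fin t → ℕ) (hd : ∀ k, 1 ≤ d k)

theorem neg_pow_mul_self (c : ℕ) : ((-1 : F) ^ (c - 1)) * (-1) ^ (c - 1) = 1 := by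
  rw [← mul_pow, neg_one_mul, neg_neg, one_pow]

theorem rho_sym (c : ℕ) {H : Matrix (Ix d) (Ix d) F} (h : Fixed d H) (hH : Hᵀ = -H) : (rho d hd c H)ᵀ = (-1 * (-1 : F) ^ (c - 1)) • rho d hd c H := by
  have h1 := rho_transpose d hd c h
  rw [hH] at h1
  have h2 : rho d hd c (-H) = - rho d hd c H := rfl
  rw [h2] at h1
  have h3 := congrArg (fun X => ((-1 : F) ^ (c - 1)) • X) h1
  simp only [smul_smul, neg_pow_mul_self, one_smul] at h3
  rw [← h3, neg_one_mul, neg_smul, smul_neg]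

theorem rho_alt (c : ℕ) (hc : Even (c - 1)) {H : Matrix (Ix d) (Ix d) F} (h : Fixed d H) (hH : Hᵀ = -H) : (rho d hd c H)ᵀ = - rho d hd c H := by
  rw [rho_sym d hd c h hH, hc.neg_one_pow, mul_one, neg_one_smul]

theorem rho_symm (c : ℕ) (hc : Odd (c - 1)) {H : Matrix (Ix d) (Ix d) F} (h : Fixed d H) (hH : Hᵀ = -H) : (rho d hd c H)ᵀ = rho d hd c H := by
  rw [rho_sym d hd c h hH, hc.neg_one_pow, neg_one_mul, neg_neg, one_smul]

include hd in
theorem even_card_block (h2 : (2 : F) ≠ 0) {H : Matrix (Ix d) (Ix d) F} (h : Fixed d H) (hH : Hᵀ = -H) (hu : IsUnit H) (j : ℕ) (hj : Odd j) :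
    Even (Fintype.card {k // d k = j}) := by
  obtain ⟨a, rfl⟩ := hj
  exact alt_even h2 (rho_alt d hd (2 * a + 1) (by rw [Nat.add_sub_cancel]; exact even_two_mul a) h hH) ((isUnit_iff_rho d hd h).mp hu _)

theorem forms_equiv [Finite F] (h2 : (2 : F) ≠ 0) {H H' : Matrix (Ix d) (Ix d) F} (h : Fixed d H) (h' : Fixed d H') (hH : Hᵀ = -H) (hH' : H'ᵀ = -H')
    (hu : IsUnit H) (hu' : IsUnit H') (hs : ∀ c, Even c → Nonempty {k // d k = c} → (IsSquare (rho d hd c H).det ↔ IsSquare (rho d hd c H').det)) :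
    ∃ b, b * Cfsg.jordanTypeMatrix d F = Cfsg.jordanTypeMatrix d F * b ∧ IsUnit b ∧ bᵀ * H * b = H' := by
  apply equiv_of_rho d hd h2 (-1) (by ring) (by rw [hH, neg_one_smul]) (by rw [hH', neg_one_smul]) h h' hu
  intro c
  rcases Nat.even_or_odd (c - 1) with hc | hc
  · exact alt_congr h2 (rho_alt d hd c hc h hH) (rho_alt d hd c hc h' hH') ((isUnit_iff_rho d hd h).mp hu _) ((isUnit_iff_rho d hd h').mp hu' _)
  · apply sym_congr h2 (rho_symm d hd c hc h hH) (rho_symm d hd c hc h' hH') ((isUnit_iff_rho d hd h).mp hu _) ((isUnit_iff_rho d hd h').mp hu' _)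
    intro hne
    apply hs c _ hne
    obtain ⟨a, ha⟩ := hc
    exact ⟨a + 1, by omega⟩

theorem isSquare_rho_congr (c : ℕ) {H b : Matrix (Ix d) (Ix d) F} (h : Fixed d H) (hb : b * Cfsg.jordanTypeMatrix d F = Cfsg.jordanTypeMatrix d F * b)
    (hbu : IsUnit b) : IsSquare (rho d hd c H).det ↔ IsSquare (rho d hd c (bᵀ * H * b)).det :=
  isSquare_iff_of_congr ((isUnit_iff_q d hd hb).mp hbu c) (rho_congr d hd c h hb).symm

theorem exists_alt_form [Finite F] (h2 : (2 : F) ≠ 0) (hodd : ∀ j, Odd j → Even (Fintype.card {k // d k = j})) (f : ℕ → Prop) :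
    ∃ H : Matrix (Ix d) (Ix d) F, Fixed d H ∧ Hᵀ = -H ∧ IsUnit H ∧ ∀ c, Even c → Nonempty {k // d k = c} → (IsSquare (rho d hd c H).det ↔ f c) := by
  have hT : ∀ c, ∃ T : Matrix {k // d k = c} {k // d k = c} F, Tᵀ = (-1 * (-1) ^ (c - 1) : F) • T ∧ IsUnit T.det ∧ (Even c → Nonempty {k // d k = c} → (IsSquare T.det ↔ f c)) := by
    intro c
    rcases isEmpty_or_nonempty {k // d k = c} with hE | hE
    · exact ⟨1, Subsingleton.elim _ _, by rw [Matrix.det_one]; exact isUnit_one, fun _ h => absurd h (not_nonempty_iff.mpr hE)⟩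
    · have hc1 : 1 ≤ c := by
        obtain ⟨k, hk⟩ := hE
        rw [← hk]
        exact hd k
      rcases Nat.even_or_odd (c - 1) with hc | hc
      · have hco : Odd c := by
          obtain ⟨a, ha⟩ := hc
          exact ⟨a, by omega⟩
        obtain ⟨R, hR, hRu⟩ := alt_exists (F := F) (hodd c hco)
        exact ⟨R, by rw [hR, hc.neg_one_pow, mul_one, neg_one_smul], hRu, fun h => absurd h (Nat.not_even_iff_odd.mpr hco)⟩
      · obtain ⟨R, hR, hRu, hs⟩ := sym_exists (κ := {k // d k = c}) h2 (f c)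
        exact ⟨R, by rw [hR, hc.neg_one_pow, neg_one_mul, neg_neg, one_smul], hRu, fun _ _ => hs⟩
  choose T hT1 hT2 hT3 using hT
  obtain ⟨H, hH1, hH2, hH3⟩ := exists_form d hd h2 (-1) (by ring) T hT1
  refine ⟨H, hH2, by rw [hH1, neg_one_smul], (isUnit_iff_rho d hd hH2).mpr fun c => by rw [hH3]; exact hT2 c, fun c hc hne => ?_⟩
  rw [hH3]
  exact hT3 c hc hne

end Cfsg.Agent.Lib.SpUni3
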