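import Cfsg.Agent.Lib.SpUni3
import Cfsg.Agent.Lib.FormJordan4

set_option autoImplicit false
set_option linter.unusedSectionVars false

/-! Unipotent classes of the symplectic group in odd characteristic: signed partitions (helper41). -/

namespace Cfsg.Agent.Lib.SpUni4

open Cfsg.Agent.S2581 Matrix Cfsg.Agent.Lib.SpUni Cfsg.Agent.Lib.SpUni2 Cfsg.Agent.Lib.SpUni3 Cfsg.Agent.Lib.GLClass Cfsg.Agent.Lib.FormJordan2 Cfsg.Agent.Lib.FormJordan4

/-- an ordering of the parts -/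
noncomputable def dd {n : ℕ} (μ : Nat.Partition n) : Fin μ.parts.toList.length → ℕ := fun i => μ.parts.toList.get i

theorem dd_pos {n : ℕ} (μ : Nat.Partition n) (k) : 1 ≤ dd μ k := by
  apply μ.parts_pos
  rw [← Multiset.mem_toList]
  exact List.get_mem _ _

theorem dd_map {n : ℕ} (μ : Nat.Partition n) : Finset.univ.val.map (dd μ) = μ.parts := by
  conv_rhs => rw [← μ.parts.coe_toList]
  rw [Fin.univ_val_map]
  congr 1
  exact List.ofFn_get _

theorem dd_sum {n : ℕ} (μ : Nat.Partition n) : ∑ k, dd μ k = n := by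
  have h1 : ∑ k, dd μ k = (Finset.univ.val.map (dd μ)).sum := rfl
  rw [h1, dd_map]
  exact μ.parts_sum

theorem card_dd {n : ℕ} (μ : Nat.Partition n) (j : ℕ) : Fintype.card {k // dd μ k = j} = μ.parts.count j := by
  conv_rhs => rw [← dd_map, count_univ]
  rw [Fintype.card_subtype]

theorem mem_dd {n : ℕ} (μ : Nat.Partition n) (j : ℕ) : Nonempty {k // dd μ k = j} ↔ j ∈ μ.parts := by
  rw [← Multiset.count_pos, ← card_dd, Fintype.card_pos_iff]

variable {F : Type*} [Field F] {m : ℕ}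

/-- the form attached to a frame -/
abbrev frm {κ : Type*} (P : Matrix (Fin m ⊕ Fin m) κ F) : Matrix κ κ F := Pᵀ * Matrix.J (Fin m) F * P

/-- the signed partition of an element -/
def Rel (g : Matrix (Fin m ⊕ Fin m) (Fin m ⊕ Fin m) F) (μ : Nat.Partition (2 * m)) (f : Finset ℕ) : Prop :=
  ∃ (P : Matrix (Fin m ⊕ Fin m) (Ix (dd μ)) F) (P' : Matrix (Ix (dd μ)) (Fin m ⊕ Fin m) F), P * P' = 1 ∧ P' * P = 1 ∧
    g * P = P * Cfsg.jordanTypeMatrix (dd μ) F ∧
    ∀ c, c ∈ f ↔ (Even c ∧ c ∈ μ.parts) ∧ IsSquare (rho (dd μ) (dd_pos μ) c (frm P)).det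

theorem frm_transpose {κ : Type*} [Fintype κ] (P : Matrix (Fin m ⊕ Fin m) κ F) : (frm P)ᵀ = - frm P := by
  rw [frm, Matrix.transpose_mul, Matrix.transpose_mul, Matrix.transpose_transpose, Matrix.J_transpose, Matrix.neg_mul, Matrix.mul_neg, Matrix.mul_assoc]

theorem frm_isUnit {κ : Type*} [Fintype κ] [DecidableEq κ] {P : Matrix (Fin m ⊕ Fin m) κ F} {P' : Matrix κ (Fin m ⊕ Fin m) F} (h1 : P * P' = 1) (h2 : P' * P = 1) :
    IsUnit (frm P) := by
  have : frm P * (P' * (- Matrix.J (Fin m) F) * P'ᵀ) = 1 := by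
    calc frm P * (P' * (- Matrix.J (Fin m) F) * P'ᵀ) = Pᵀ * (Matrix.J (Fin m) F * (P * P') * (- Matrix.J (Fin m) F)) * P'ᵀ := by
          simp only [frm, Matrix.mul_assoc]
      _ = (P' * P)ᵀ := by
          rw [h1, Matrix.mul_one, Matrix.mul_neg, Matrix.J_squared, neg_neg, Matrix.mul_one, Matrix.transpose_mul]
      _ = 1 := by rw [h2, Matrix.transpose_one]
  exact IsUnit.of_mul_eq_one _ this

theorem frm_fixed {t : ℕ} {d : Fin t → ℕ} {g : Matrix (Fin m ⊕ Fin m) (Fin m ⊕ Fin m) F} (hg : gᵀ * Matrix.J (Fin m) F * g = Matrix.J (Fin m) F)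
    {P : Matrix (Fin m ⊕ Fin m) (Ix d) F} (hP : g * P = P * Cfsg.jordanTypeMatrix d F) : Fixed d (frm P) := by
  show (Cfsg.jordanTypeMatrix d F)ᵀ * (Pᵀ * Matrix.J (Fin m) F * P) * Cfsg.jordanTypeMatrix d F = Pᵀ * Matrix.J (Fin m) F * P
  calc (Cfsg.jordanTypeMatrix d F)ᵀ * (Pᵀ * Matrix.J (Fin m) F * P) * Cfsg.jordanTypeMatrix d F
      = (P * Cfsg.jordanTypeMatrix d F)ᵀ * Matrix.J (Fin m) F * (P * Cfsg.jordanTypeMatrix d F) := by
        rw [Matrix.transpose_mul]; simp only [Matrix.mul_assoc]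
    _ = Pᵀ * (gᵀ * Matrix.J (Fin m) F * g) * P := by rw [← hP, Matrix.transpose_mul]; simp only [Matrix.mul_assoc]
    _ = _ := by rw [hg]

theorem card_eq (μ : Nat.Partition (2 * m)) : Fintype.card (Ix (dd μ)) = Fintype.card (Fin m ⊕ Fin m) := by
  rw [Fintype.card_sigma, Fintype.card_sum]
  simp only [Fintype.card_fin]
  rw [dd_sum, two_mul]

theorem exists_rel {g : Matrix (Fin m ⊕ Fin m) (Fin m ⊕ Fin m) F} {μ : Nat.Partition (2 * m)} (hg : MType g (uni F μ.parts)) : ∃ f, Rel g μ f := by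
  classical
  let e : Ix (dd μ) ≃ Fin m ⊕ Fin m := Fintype.equivOfCardEq (card_eq μ)
  have hJ := jordanType_uni (F := F) (dd μ) (dd_pos μ)
  rw [dd_map] at hJ
  obtain ⟨c, hc⟩ := (FormJordan4.MType.reindex e hJ).isConj hg
  have hc' : (c : Matrix (Fin m ⊕ Fin m) (Fin m ⊕ Fin m) F) * Matrix.reindex e e (Cfsg.jordanTypeMatrix (dd μ) F) = g * c := hc
  refine ⟨(μ.parts.toFinset.filter fun c' => Even c').filter fun c' => IsSquare (rho (dd μ) (dd_pos μ) c' (frm ((c : Matrix (Fin m ⊕ Fin m) (Fin m ⊕ Fin m) F).submatrix id e))).det,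
    (c : Matrix (Fin m ⊕ Fin m) (Fin m ⊕ Fin m) F).submatrix id e, ((c⁻¹ : (Matrix (Fin m ⊕ Fin m) (Fin m ⊕ Fin m) F)ˣ) : Matrix (Fin m ⊕ Fin m) (Fin m ⊕ Fin m) F).submatrix e id, ?_, ?_, ?_, ?_⟩
  · rw [Matrix.submatrix_mul_equiv, Units.mul_inv, Matrix.submatrix_id_id]
  · have h1 := Matrix.submatrix_mul_equiv ((c⁻¹ : (Matrix (Fin m ⊕ Fin m) (Fin m ⊕ Fin m) F)ˣ) : Matrix (Fin m ⊕ Fin m) (Fin m ⊕ Fin m) F) (c : Matrix (Fin m ⊕ Fin m) (Fin m ⊕ Fin m) F) e (Equiv.refl _) e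
    rw [Units.inv_mul, Matrix.submatrix_one_equiv] at h1
    exact h1
  · have h1 := Matrix.submatrix_mul_equiv g (c : Matrix (Fin m ⊕ Fin m) (Fin m ⊕ Fin m) F) id (Equiv.refl _) e
    have h3 := Matrix.submatrix_mul_equiv (c : Matrix (Fin m ⊕ Fin m) (Fin m ⊕ Fin m) F) (Matrix.reindex e e (Cfsg.jordanTypeMatrix (dd μ) F)) id e e
    rw [← hc', ← h3] at h1
    have h4 : (Matrix.reindex e e (Cfsg.jordanTypeMatrix (dd μ) F)).submatrix e e = Cfsg.jordanTypeMatrix (dd μ) F := by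
      ext x y
      simp [Matrix.reindex_apply, Matrix.submatrix_apply]
    rw [h4] at h1
    exact h1
  · intro c'
    rw [Finset.mem_filter, Finset.mem_filter, Multiset.mem_toFinset, and_comm (a := c' ∈ μ.parts)]

theorem Rel.mtype {g : Matrix (Fin m ⊕ Fin m) (Fin m ⊕ Fin m) F} {μ : Nat.Partition (2 * m)} {f : Finset ℕ} (h : Rel g μ f) : MType g (uni F μ.parts) := by
  classical
  obtain ⟨P, P', h1, h2, h3, -⟩ := h
  let e : Ix (dd μ) ≃ Fin m ⊕ Fin m := Fintype.equivOfCardEq (card_eq μ)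
  have hJ := jordanType_uni (F := F) (dd μ) (dd_pos μ)
  rw [dd_map] at hJ
  refine (FormJordan4.MType.reindex e hJ).of_isConj ?_
  have e1 : P.submatrix id e.symm * P'.submatrix e.symm id = 1 := by
    rw [Matrix.submatrix_mul_equiv, h1, Matrix.submatrix_id_id]
  have e2 : P'.submatrix e.symm id * P.submatrix id e.symm = 1 := by
    have h4 := Matrix.submatrix_mul_equiv P' P e.symm (Equiv.refl _) e.symm
    rw [h2, Matrix.submatrix_one_equiv] at h4
    exact h4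
  refine ⟨⟨P.submatrix id e.symm, P'.submatrix e.symm id, e1, e2⟩, ?_⟩
  show P.submatrix id e.symm * Matrix.reindex e e (Cfsg.jordanTypeMatrix (dd μ) F) = g * P.submatrix id e.symm
  rw [Matrix.reindex_apply, Matrix.submatrix_mul_equiv, ← h3]
  have h4 := Matrix.submatrix_mul_equiv g P id (Equiv.refl _) e.symm
  exact h4.symm

theorem uni_inj {s s' : Multiset ℕ} (h : uni F s = uni F s') : s = s' := by
  have h1 := congrArg (Multiset.map Prod.snd) h
  rw [uni, uni, Multiset.map_map, Multiset.map_map] at h1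
  simpa using h1

theorem Rel.unique {g g' x : Matrix (Fin m ⊕ Fin m) (Fin m ⊕ Fin m) F}
    (hg' : g'ᵀ * Matrix.J (Fin m) F * g' = Matrix.J (Fin m) F) (hx : xᵀ * Matrix.J (Fin m) F * x = Matrix.J (Fin m) F) (hxu : IsUnit x)
    (hxg : x * g = g' * x) {μ μ' : Nat.Partition (2 * m)} {f f' : Finset ℕ} (h : Rel g μ f) (h' : Rel g' μ' f') : μ = μ' ∧ f = f' := by
  have hμ : μ = μ' := by
    apply Nat.Partition.ext
    apply uni_inj (F := F)
    obtain ⟨u, rfl⟩ := hxu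
    have hc : IsConj g g' := ⟨u, hxg⟩
    exact (h.mtype.of_isConj hc).unique h'.mtype
  subst hμ
  refine ⟨rfl, ?_⟩
  obtain ⟨P, P', p1, p2, p3, p4⟩ := h
  obtain ⟨Q, Q', q1, q2, q3, q4⟩ := h'
  have q5 : Q' * g' = Cfsg.jordanTypeMatrix (dd μ) F * Q' := by
    calc Q' * g' = Q' * (g' * Q) * Q' := by rw [Matrix.mul_assoc, Matrix.mul_assoc, q1, Matrix.mul_one]
      _ = _ := by rw [q3, ← Matrix.mul_assoc, q2, Matrix.one_mul]
  have hb : (Q' * x * P) * Cfsg.jordanTypeMatrix (dd μ) F = Cfsg.jordanTypeMatrix (dd μ) F * (Q' * x * P) := by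
    calc (Q' * x * P) * Cfsg.jordanTypeMatrix (dd μ) F = Q' * x * (g * P) := by rw [p3, Matrix.mul_assoc]
      _ = Q' * (x * g) * P := by simp only [Matrix.mul_assoc]
      _ = (Q' * g') * x * P := by rw [hxg]; simp only [Matrix.mul_assoc]
      _ = _ := by rw [q5]; simp only [Matrix.mul_assoc]
  have hQb : Q * (Q' * x * P) = x * P := by
    rw [← Matrix.mul_assoc, ← Matrix.mul_assoc, q1, Matrix.one_mul]
  have hform : (Q' * x * P)ᵀ * frm Q * (Q' * x * P) = frm P := by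
    calc (Q' * x * P)ᵀ * (Qᵀ * Matrix.J (Fin m) F * Q) * (Q' * x * P) = (Q * (Q' * x * P))ᵀ * Matrix.J (Fin m) F * (Q * (Q' * x * P)) := by
          rw [Matrix.transpose_mul Q]; simp only [Matrix.mul_assoc]
      _ = Pᵀ * (xᵀ * Matrix.J (Fin m) F * x) * P := by rw [hQb, Matrix.transpose_mul]; simp only [Matrix.mul_assoc]
      _ = _ := by rw [hx]
  have hbu : IsUnit (Q' * x * P) := by
    have h1 := (Matrix.isUnit_iff_isUnit_det _).mp (frm_isUnit p1 p2)
    rw [← hform, Matrix.det_mul] at h1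
    exact (Matrix.isUnit_iff_isUnit_det _).mpr (isUnit_of_mul_isUnit_right h1)
  ext c
  rw [p4, q4]
  apply and_congr_right
  intro _
  rw [← hform, ← isSquare_rho_congr (dd μ) (dd_pos μ) c (frm_fixed hg' q3) hb hbu]

theorem Rel.conj [Finite F] (h2 : (2 : F) ≠ 0) {g g' : Matrix (Fin m ⊕ Fin m) (Fin m ⊕ Fin m) F} (hg : gᵀ * Matrix.J (Fin m) F * g = Matrix.J (Fin m) F)
    (hg' : g'ᵀ * Matrix.J (Fin m) F * g' = Matrix.J (Fin m) F) {μ : Nat.Partition (2 * m)} {f : Finset ℕ} (h : Rel g μ f) (h' : Rel g' μ f) :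
    ∃ x : Matrix (Fin m ⊕ Fin m) (Fin m ⊕ Fin m) F, xᵀ * Matrix.J (Fin m) F * x = Matrix.J (Fin m) F ∧ x * g' = g * x := by
  obtain ⟨P, P', p1, p2, p3, p4⟩ := h
  obtain ⟨Q, Q', q1, q2, q3, q4⟩ := h'
  have q5 : Q' * g' = Cfsg.jordanTypeMatrix (dd μ) F * Q' := by
    calc Q' * g' = Q' * (g' * Q) * Q' := by rw [Matrix.mul_assoc, Matrix.mul_assoc, q1, Matrix.mul_one]
      _ = _ := by rw [q3, ← Matrix.mul_assoc, q2, Matrix.one_mul]
  obtain ⟨b, hb, -, hbH⟩ := forms_equiv (dd μ) (dd_pos μ) h2 (frm_fixed hg p3) (frm_fixed hg' q3) (frm_transpose P) (frm_transpose Q)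
    (frm_isUnit p1 p2) (frm_isUnit q1 q2) (by
      intro c hc hne
      rw [mem_dd] at hne
      have e1 := p4 c
      have e2 := q4 c
      rw [e2] at e1
      constructor
      · intro hs
        exact (e1.mpr ⟨⟨hc, hne⟩, hs⟩).2
      · intro hs
        exact (e1.mp ⟨⟨hc, hne⟩, hs⟩).2)
  refine ⟨P * b * Q', ?_, ?_⟩
  · calc (P * b * Q')ᵀ * Matrix.J (Fin m) F * (P * b * Q') = Q'ᵀ * (bᵀ * frm P * b) * Q' := by
          rw [Matrix.transpose_mul, Matrix.transpose_mul]; simp only [frm, Matrix.mul_assoc]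
      _ = (Q * Q')ᵀ * Matrix.J (Fin m) F * (Q * Q') := by
          rw [hbH, Matrix.transpose_mul]; simp only [frm, Matrix.mul_assoc]
      _ = _ := by rw [q1, Matrix.transpose_one, Matrix.one_mul, Matrix.mul_one]
  · calc P * b * Q' * g' = P * (b * Cfsg.jordanTypeMatrix (dd μ) F) * Q' := by
          rw [Matrix.mul_assoc _ Q', q5]; simp only [Matrix.mul_assoc]
      _ = (g * P) * b * Q' := by rw [hb, p3]; simp only [Matrix.mul_assoc]
      _ = _ := by simp only [Matrix.mul_assoc]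

theorem Rel.even_count (h2 : (2 : F) ≠ 0) {g : Matrix (Fin m ⊕ Fin m) (Fin m ⊕ Fin m) F} (hg : gᵀ * Matrix.J (Fin m) F * g = Matrix.J (Fin m) F)
    {μ : Nat.Partition (2 * m)} {f : Finset ℕ} (h : Rel g μ f) (j : ℕ) (hj : Odd j) : Even (μ.parts.count j) := by
  obtain ⟨P, P', p1, p2, p3, p4⟩ := h
  rw [← card_dd]
  exact even_card_block (dd μ) (dd_pos μ) h2 (frm_fixed hg p3) (frm_transpose P) (frm_isUnit p1 p2) j hj

theorem Rel.sub {g : Matrix (Fin m ⊕ Fin m) (Fin m ⊕ Fin m) F}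
    {μ : Nat.Partition (2 * m)} {f : Finset ℕ} (h : Rel g μ f) {c : ℕ} (hc : c ∈ f) : Even c ∧ c ∈ μ.parts := by
  obtain ⟨P, P', p1, p2, p3, p4⟩ := h
  exact ((p4 c).mp hc).1

theorem rel_exists [Finite F] (h2 : (2 : F) ≠ 0) (μ : Nat.Partition (2 * m)) (hμ : ∀ j, Odd j → Even (μ.parts.count j)) (f : Finset ℕ)
    (hf : ∀ c ∈ f, Even c ∧ c ∈ μ.parts) :
    ∃ g : Matrix (Fin m ⊕ Fin m) (Fin m ⊕ Fin m) F, gᵀ * Matrix.J (Fin m) F * g = Matrix.J (Fin m) F ∧ Rel g μ f := by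
  classical
  obtain ⟨H, h1, h3, h4, h5⟩ := exists_alt_form (F := F) (dd μ) (dd_pos μ) h2 (fun j hj => by rw [card_dd]; exact hμ j hj) (fun c => c ∈ f)
  let e : Ix (dd μ) ≃ Fin m ⊕ Fin m := Fintype.equivOfCardEq (card_eq μ)
  obtain ⟨a, ha, haH⟩ := alt_congr h2 (R := Matrix.J (Fin m) F) (R' := H.submatrix e.symm e.symm) (Matrix.J_transpose _ _)
    (by rw [Matrix.transpose_submatrix, h3]; rfl) (Matrix.isUnit_det_J _ _) (by
      rw [Matrix.det_submatrix_equiv_self]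
      exact (Matrix.isUnit_iff_isUnit_det _).mp h4)
  have e1 : a.submatrix id e * a⁻¹.submatrix e id = 1 := by
    rw [Matrix.submatrix_mul_equiv, Matrix.mul_nonsing_inv _ ha, Matrix.submatrix_id_id]
  have e2 : a⁻¹.submatrix e id * a.submatrix id e = 1 := by
    have h6 := Matrix.submatrix_mul_equiv a⁻¹ a e (Equiv.refl _) e
    rw [Matrix.nonsing_inv_mul _ ha, Matrix.submatrix_one_equiv] at h6
    exact h6
  have e3 : frm (a.submatrix id e) = H := by
    have h6 : (aᵀ * Matrix.J (Fin m) F * a).submatrix e e = H := by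
      rw [haH]
      ext x y
      simp [Matrix.submatrix_apply]
    rw [← h6, frm, Matrix.transpose_submatrix]
    have h7 := Matrix.submatrix_mul_equiv aᵀ (Matrix.J (Fin m) F) e (Equiv.refl _) id
    have h8 := Matrix.submatrix_mul_equiv (aᵀ * Matrix.J (Fin m) F) a e (Equiv.refl _) e
    rw [← h8]
    congr 1
  set P := a.submatrix id e with hP
  set P' := a⁻¹.submatrix e id with hP'
  refine ⟨P * Cfsg.jordanTypeMatrix (dd μ) F * P', ?_, P, P', e1, e2, ?_, ?_⟩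
  · calc (P * Cfsg.jordanTypeMatrix (dd μ) F * P')ᵀ * Matrix.J (Fin m) F * (P * Cfsg.jordanTypeMatrix (dd μ) F * P')
        = P'ᵀ * ((Cfsg.jordanTypeMatrix (dd μ) F)ᵀ * frm P * Cfsg.jordanTypeMatrix (dd μ) F) * P' := by
          rw [Matrix.transpose_mul, Matrix.transpose_mul]; simp only [frm, Matrix.mul_assoc]
      _ = P'ᵀ * frm P * P' := by rw [e3, h1]
      _ = (P * P')ᵀ * Matrix.J (Fin m) F * (P * P') := by
          rw [Matrix.transpose_mul]; simp only [frm, Matrix.mul_assoc]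
      _ = _ := by rw [e1, Matrix.transpose_one, Matrix.one_mul, Matrix.mul_one]
  · rw [Matrix.mul_assoc, e2, Matrix.mul_one]
  · intro c
    rw [e3]
    constructor
    · intro hc
      have h6 := hf c hc
      exact ⟨h6, (h5 c h6.1 ((mem_dd μ c).mpr h6.2)).mpr hc⟩
    · rintro ⟨h6, h7⟩
      exact (h5 c h6.1 ((mem_dd μ c).mpr h6.2)).mp h7

end Cfsg.Agent.Lib.SpUni4
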