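import Cfsg.Agent.Lib.SpcA1
import Cfsg.Agent.Lib.ElemCent3

/-!
# SpcA, part 2 (helper4, for S3421): characteristic two
-/

set_option autoImplicit false
set_option linter.all false

namespace Cfsg.Agent.Lib.SpcA

open Subgroup NCyc

universe u
variable {G : Type u} [Group G] [Finite G]

theorem even_case {q n : ℕ} (hq : q = 2 ^ n) (hn : 2 ≤ n) (card : Nat.card G = q * (q ^ 2 - 1))
    (ord : ∀ x : G, orderOf x ∣ 2 ∨ orderOf x ∣ q - 1 ∨ orderOf x ∣ q + 1) :
    ∃ (F : Type) (_ : Field F) (_ : Fintype F), Fintype.card F = q ∧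
      Nonempty (G ≃* Matrix.ProjectiveSpecialLinearGroup (Fin 2) F) := by
  have : Fact (Nat.Prime 2) := ⟨Nat.prime_two⟩
  obtain ⟨T⟩ : Nonempty (Sylow 2 G) := inferInstance
  have hq4 : 4 ≤ q := by
    rw [hq]; calc 4 = 2 ^ 2 := by norm_num
      _ ≤ 2 ^ n := Nat.pow_le_pow_right (by norm_num) hn
  have hqe : Even q := by rw [hq]; exact (even_two).pow_of_ne_zero (by omega)
  have hm1 : ∀ d, d ∣ q - 1 → ¬ 2 ∣ d := by
    intro d hd h2
    have h3 : 2 ∣ q - 1 := h2.trans hd
    obtain ⟨c, hc⟩ := hqe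
    omega
  have hm2 : ∀ d, d ∣ q + 1 → ¬ 2 ∣ d := by
    intro d hd h2
    have h3 : 2 ∣ q + 1 := h2.trans hd
    obtain ⟨c, hc⟩ := hqe
    omega
  have hcls : Cls G 2 := by
    intro x hx
    have hx2 : 2 ∣ orderOf x := by
      by_contra h
      exact hx (Nat.Coprime.symm ((Nat.Prime.coprime_iff_not_dvd Nat.prime_two).2 h))
    rcases ord x with h | h | h
    · exact h
    · exact absurd hx2 (hm1 _ h)
    · exact absurd hx2 (hm2 _ h)
  have hq2 : ¬ 2 ∣ q ^ 2 - 1 := by
    obtain ⟨c, hc⟩ := hqe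
    intro h
    have h1 : 2 ∣ q ^ 2 := by rw [hc, ← two_mul, mul_pow]; exact Dvd.intro _ (by ring : 2 * (2 * c ^ 2) = 2 ^ 2 * c ^ 2)
    have h2 : 1 ≤ q ^ 2 := Nat.one_le_pow _ _ (by omega)
    omega
  have hT : Nat.card T = q := by
    rw [hq]
    exact FiFix.sylow_card (by rw [card, hq]) (by rw [← hq]; exact hq2) T
  have hC : ∀ t : G, orderOf t = 2 → ∀ c, c * t = t * c → orderOf c ∣ 2 := by
    intro t ht c hc
    exact hcls.cent (x := t) (not_coprime_of_dvd (by rw [ht]) (by rw [ht]; norm_num)) hc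
  have hsq : ∀ c : G, orderOf c ∣ 2 → c * c = 1 := by
    intro c hc
    rw [← pow_two]; exact orderOf_dvd_iff_pow_eq_one.1 hc
  have hC2 : ∀ t : G, orderOf t = 2 → IsMulCommutative (Subgroup.centralizer ({t} : Set G)) ∧
      ∀ c ∈ Subgroup.centralizer ({t} : Set G), c ^ 2 = 1 := by
    intro t ht
    have h1 : ∀ c ∈ Subgroup.centralizer ({t} : Set G), c * c = 1 := by
      intro c hc
      exact hsq c (hC t ht c (mem_cent.1 hc))
    refine ⟨⟨⟨fun a b => ?_⟩⟩, fun c hc => by rw [pow_two]; exact h1 c hc⟩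
    apply Subtype.ext
    have ha := inv_eq_of_mul_eq_one_left (h1 a a.2)
    have hb := inv_eq_of_mul_eq_one_left (h1 b b.2)
    have hab := inv_eq_of_mul_eq_one_left (h1 _ (mul_mem a.2 b.2))
    change (a : G) * b = b * a
    rw [← hab, mul_inv_rev, ha, hb]
  have hT2 : ∀ x ∈ (T : Subgroup G), orderOf x ∣ 2 := by
    intro x hx
    by_cases h1 : orderOf x = 1
    · rw [h1]; exact one_dvd _
    apply hcls x
    obtain ⟨k, hk⟩ := two_pow_of_mem hx
    intro h
    rcases k with _ | k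
    · rw [pow_zero] at hk; exact h1 hk
    · rw [hk, pow_succ] at h
      have := Nat.Coprime.coprime_dvd_left (Dvd.intro_left _ rfl : 2 ∣ 2 ^ k * 2) h
      norm_num at this
  have hnc : ¬ IsCyclic (T : Subgroup G) := by
    intro h
    obtain ⟨g, hg⟩ := h.exists_ofOrder_eq_natCard
    have h1 := hT2 g g.2
    rw [orderOf_coe, hg, hT] at h1
    have := Nat.le_of_dvd (by norm_num) h1
    omega
  have hnn : ¬ (T : Subgroup G).Normal := by
    intro hn'
    have hidx : (T : Subgroup G).index = q ^ 2 - 1 := by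
      have h1 := Subgroup.card_mul_index (T : Subgroup G)
      rw [hT, card] at h1
      exact Nat.eq_of_mul_eq_mul_left (by omega) h1
    have hcop : Nat.Coprime (Nat.card (T : Subgroup G)) (T : Subgroup G).index := by
      rw [hidx, hT]
      nth_rewrite 1 [hq]
      exact Nat.Coprime.pow_left _ ((Nat.Prime.coprime_iff_not_dvd Nat.prime_two).2 hq2)
    obtain ⟨H, hH⟩ := Subgroup.exists_right_complement'_of_coprime hcop
    have hHc : Nat.card H = q ^ 2 - 1 := by
      have h1 := hH.card_mul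
      rw [hT, card] at h1
      exact Nat.eq_of_mul_eq_mul_left (by omega) h1
    have h2 := free_normal H (T : Subgroup G) hn' (by
      intro t ht ht1 x hx hc
      have h3 : orderOf t = 2 := ord_two (hsq t (hT2 t ht)) ht1
      have h4 := hC t h3 x hc
      have h5 : orderOf x ∣ q ^ 2 - 1 := by rw [← hHc]; exact ord_dvd_card hx
      rcases (Nat.dvd_prime Nat.prime_two).1 h4 with h6 | h6
      · exact orderOf_eq_one_iff.1 h6
      · exfalso; rw [h6] at h5; exact hq2 h5)
    rw [hHc, hT] at h2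
    have h3 := Nat.le_of_dvd (by omega) h2
    have h4 : q * 1 < q * q := Nat.mul_lt_mul_of_pos_left (by omega) (by omega)
    have h5 : q ^ 2 = q * q := pow_two q
    omega
  obtain ⟨F, hF, hFf, hc, hi⟩ := ElemCent.psl_two T hnc hnn hC2
  exact ⟨F, hF, hFf, by rw [hc, hT], hi⟩

end Cfsg.Agent.Lib.SpcA
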