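import Cfsg.Agent.Lib.SpcA9
import Cfsg.Agent.Lib.SpcA2
import Cfsg.Agent.Lib.MobCard
import Cfsg.Agent.Lib.ClSeven

/-!
# SpcA, part 10 (helper4, for S3421): conclusion
-/

set_option autoImplicit false
set_option linter.all false

namespace Cfsg.Agent.Lib.SpcA

open Subgroup NCyc

universe u v

theorem main {G : Type u} [Group G] [Finite G] (hFT : FT.{u}) {F : Type v} [Field F] [Fintype F]
    (h3 : 3 < Fintype.card F)
    (hr : Set.range (orderOf : G → ℕ) = Set.range (orderOf : Matrix.ProjectiveSpecialLinearGroup (Fin 2) F → ℕ))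
    (hc : Nat.card G = Nat.card (Matrix.ProjectiveSpecialLinearGroup (Fin 2) F)) :
    Nonempty (G ≃* Matrix.ProjectiveSpecialLinearGroup (Fin 2) F) := by
  classical
  obtain ⟨p, hp⟩ := CharP.exists F
  have hpp : Fact p.Prime := ⟨CharP.char_is_prime F p⟩
  have hspec := PSL2Orders.spectrum (F := F) p
  rw [← hr] at hspec
  obtain ⟨n, hpr, hq⟩ := FiniteField.card F p
  have fin : ∀ (F' : Type) (_ : Field F') (_ : Fintype F'), Fintype.card F' = Fintype.card F →
      Nonempty (G ≃* Matrix.ProjectiveSpecialLinearGroup (Fin 2) F') →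
      Nonempty (G ≃* Matrix.ProjectiveSpecialLinearGroup (Fin 2) F) := by
    rintro F' _ _ h ⟨i⟩
    exact ⟨i.trans (ClSeven.pslCongr 2 (FiniteField.ringEquivOfCardEq h))⟩
  rcases Nat.even_or_odd (Fintype.card F) with he | ho
  · have hp2 : p = 2 := by
      have h1 : 2 ∣ p ^ (n : ℕ) := by rw [← hq]; exact even_iff_two_dvd.1 he
      exact ((Nat.prime_dvd_prime_iff_eq Nat.prime_two hpr).1 (Nat.prime_two.dvd_of_dvd_pow h1)).symm
    have hgcd : Nat.gcd 2 (Fintype.card F - 1) = 1 := by
      obtain ⟨c, hc⟩ := he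
      exact Nat.coprime_two_left.2 ⟨c - 1, by omega⟩
    have hcard : Nat.card G = Fintype.card F * (Fintype.card F ^ 2 - 1) := by
      have h1 := MobCount.card_P2 (F := F) rfl
      rw [hgcd, one_mul] at h1
      rw [hc, h1]
    obtain ⟨F', hF, hFf, h1, h2⟩ := even_case (G := G) (q := Fintype.card F) (n := n) (by rw [hq, hp2]) (by
      rcases Nat.lt_or_ge (n : ℕ) 2 with h | h
      · exfalso
        have h4 : (n : ℕ) = 0 ∨ (n : ℕ) = 1 := by omega
        rcases h4 with h4 | h4 <;> rw [h4, hp2] at hq <;> norm_num at hq <;> omega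
      · exact h) hcard (by
      intro x
      have h1 : orderOf x ∈ Set.range (orderOf : G → ℕ) := ⟨x, rfl⟩
      rw [hspec, hgcd, Nat.div_one, Nat.div_one, hp2] at h1
      exact h1)
    exact fin F' hF hFf h1 h2
  · obtain ⟨e, o, h1, h2, h4, h5, h6, h7, h8⟩ := split _ (by omega) ho
    have hcard : Nat.card G = 2 * Fintype.card F * e * o := by
      rw [hc, card_psl F ho h7]; ring
    have D : Sp G p (Fintype.card F) e o := by
      refine ⟨hpr, ⟨n, hq⟩, ?_, h1, h2, h5, h6, hcard, ?_, ?_, ?_⟩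
      · obtain ⟨c, hc⟩ := ho; omega
      · intro x
        have h9 : orderOf x ∈ Set.range (orderOf : G → ℕ) := ⟨x, rfl⟩
        rw [hspec] at h9
        rcases h9 with h9 | h9
        · exact Or.inl h9
        · exact Or.inr ((h8 _).1 h9)
      · have h9 : e ∈ Set.range (orderOf : G → ℕ) := by
          rw [hspec]; exact Or.inr ((h8 e).2 (Or.inl dvd_rfl))
        exact h9
      · have h9 : o ∈ Set.range (orderOf : G → ℕ) := by
          rw [hspec]; exact Or.inr ((h8 o).2 (Or.inr dvd_rfl))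
        exact h9
    obtain ⟨F', hF, hFf, h9, h10⟩ := odd_case D hFT
    exact fin F' hF hFf h9 h10

end Cfsg.Agent.Lib.SpcA
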