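import Cfsg.Agent.Lib.SpcA1

/-!
# SpcA, part 3 (helper4, for S3421): odd characteristic, basic facts
-/

set_option autoImplicit false
set_option linter.all false

namespace Cfsg.Agent.Lib.SpcA

open Subgroup NCyc

universe u

structure Sp (G : Type u) [Group G] (p q e o : ℕ) : Prop where
  pp : p.Prime
  hq : ∃ n, q = p ^ n
  h5 : 5 ≤ q
  he : Even e
  ho : Odd o
  heo : e + o = q
  hd : e = o + 1 ∨ o = e + 1
  card : Nat.card G = 2 * q * e * o
  ord : ∀ x : G, orderOf x ∣ p ∨ orderOf x ∣ e ∨ orderOf x ∣ o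
  exe : ∃ b : G, orderOf b = e
  exo : ∃ a : G, orderOf a = o

namespace Sp

variable {G : Type u} [Group G] [Finite G] {p q e o : ℕ} (D : Sp G p q e o)

include D

omit [Finite G]

theorem cop_eo : Nat.Coprime e o := by
  rcases D.hd with h | h
  · rw [h]; simp
  · rw [h]; simp

theorem cop_qe : Nat.Coprime q e := by
  rw [← D.heo]; simpa using D.cop_eo.symm

theorem cop_qo : Nat.Coprime q o := by
  rw [← D.heo]; simpa using D.cop_eo

theorem p_dvd_q : p ∣ q := by
  obtain ⟨n, hn⟩ := D.hq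
  rcases n with _ | n
  · have := D.h5; rw [pow_zero] at hn; omega
  · rw [hn, pow_succ]; exact Dvd.intro_left _ rfl

theorem odd_q : Odd q := by
  rw [← D.heo]; exact D.he.add_odd D.ho

theorem cop_pe : Nat.Coprime p e := Nat.Coprime.coprime_dvd_left D.p_dvd_q D.cop_qe
theorem cop_po : Nat.Coprime p o := Nat.Coprime.coprime_dvd_left D.p_dvd_q D.cop_qo

theorem odd_p : Odd p := by
  have := D.odd_q
  obtain ⟨c, hc⟩ := D.p_dvd_q
  rw [hc] at this
  exact (Nat.odd_mul.1 this).1

theorem two_le_e : 2 ≤ e := by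
  have h1 := D.heo; have h2 := D.h5
  rcases D.hd with h | h <;> omega

theorem three_le_o : 3 ≤ o := by
  have h1 := D.heo; have h2 := D.h5
  obtain ⟨c, hc⟩ := D.ho
  rcases D.hd with h | h <;> omega

theorem cls_gen {a b c : ℕ} (h : ∀ x : G, orderOf x ∣ a ∨ orderOf x ∣ b ∨ orderOf x ∣ c)
    (h1 : Nat.Coprime b a) (h2 : Nat.Coprime c a) : Cls G a := by
  intro x hx
  rcases h x with h3 | h3 | h3
  · exact h3
  · exact absurd (Nat.Coprime.coprime_dvd_left h3 h1) hx
  · exact absurd (Nat.Coprime.coprime_dvd_left h3 h2) hx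

theorem clsp : Cls G p := by
  intro x hx
  rcases D.ord x with h3 | h3 | h3
  · exact h3
  · exact absurd (Nat.Coprime.coprime_dvd_left h3 D.cop_pe.symm) hx
  · exact absurd (Nat.Coprime.coprime_dvd_left h3 D.cop_po.symm) hx

theorem clse : Cls G e := by
  intro x hx
  rcases D.ord x with h3 | h3 | h3
  · exact absurd (Nat.Coprime.coprime_dvd_left h3 D.cop_pe) hx
  · exact h3
  · exact absurd (Nat.Coprime.coprime_dvd_left h3 D.cop_eo.symm) hx

theorem clso : Cls G o := by
  intro x hx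
  rcases D.ord x with h3 | h3 | h3
  · exact absurd (Nat.Coprime.coprime_dvd_left h3 D.cop_po) hx
  · exact absurd (Nat.Coprime.coprime_dvd_left h3 D.cop_eo) hx
  · exact h3

theorem cop_2q : Nat.Coprime 2 q := Nat.coprime_two_left.2 D.odd_q
theorem cop_2o : Nat.Coprime 2 o := Nat.coprime_two_left.2 D.ho

variable [Finite G]

/-- centralizers of elements of order dividing `e` -/
theorem cente {x : G} (hx : orderOf x ∣ e) (hx1 : x ≠ 1) : Nat.card (centralizer ({x} : Set G)) ∣ 2 * e := by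
  apply D.clse.cent_card (k := q * o) (not_coprime_of_dvd hx (fun h => hx1 (orderOf_eq_one_iff.1 h)))
  · exact Nat.Coprime.mul_right D.cop_qe.symm D.cop_eo
  · rw [D.card]; ring

theorem cento {x : G} (hx : orderOf x ∣ o) (hx1 : x ≠ 1) : Nat.card (centralizer ({x} : Set G)) ∣ o := by
  apply D.clso.cent_card (k := 2 * q * e) (not_coprime_of_dvd hx (fun h => hx1 (orderOf_eq_one_iff.1 h)))
  · exact Nat.Coprime.mul_right (Nat.Coprime.mul_right D.cop_2o.symm D.cop_qo.symm) D.cop_eo.symm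
  · rw [D.card]; ring

theorem not_cop {x : G} {m : ℕ} (hx : orderOf x ∣ m) (hx1 : x ≠ 1) : ¬ Nat.Coprime (orderOf x) m :=
  not_coprime_of_dvd hx (fun h => hx1 (orderOf_eq_one_iff.1 h))

/-- commuting elements from different classes -/
theorem fpf_eo {x y : G} (hx : orderOf x ∣ e) (hy : orderOf y ∣ o) (hc : y * x = x * y) (hx1 : x ≠ 1) : y = 1 :=
  D.clse.fpf (D.not_cop hx hx1) hc (Nat.Coprime.coprime_dvd_left hy D.cop_eo.symm)

theorem fpf_ep {x y : G} (hx : orderOf x ∣ e) (hy : Nat.Coprime (orderOf y) e) (hc : y * x = x * y) (hx1 : x ≠ 1) : y = 1 :=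
  D.clse.fpf (D.not_cop hx hx1) hc hy

/-- **no nontrivial solvable normal subgroup** -/
theorem hs : HS G := by
  intro N hN hs
  by_contra hne
  obtain ⟨r, hr, R, hRn, hRne, hRp⟩ := exists_normal_p hN hs hne
  have : Fact r.Prime := ⟨hr⟩
  have : Fact p.Prime := ⟨D.pp⟩
  obtain ⟨k, hk⟩ := IsPGroup.iff_card.1 hRp
  obtain ⟨a, ha⟩ := D.exo
  obtain ⟨b, hb⟩ := D.exe
  have h2e := D.two_le_e
  have h3o := D.three_le_o
  have h5 := D.h5
  have heo := D.heo
  have hpos : 1 < Nat.card R := by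
    rw [Finite.one_lt_card_iff_nontrivial]; exact (Subgroup.nontrivial_iff_ne_bot R).2 hRne
  have hk0 : k ≠ 0 := by
    rintro rfl
    rw [pow_zero] at hk; omega
  have hrR : r ∣ Nat.card R := by rw [hk]; exact dvd_pow_self r hk0
  have hRord : ∀ x ∈ R, x ≠ 1 → r ∣ orderOf x := by
    intro x hx hx1
    have h1 : orderOf x ∣ r ^ k := by rw [← hk]; exact ord_dvd_card hx
    obtain ⟨j, _, hj⟩ := (Nat.dvd_prime_pow hr).1 h1
    rcases j with _ | j
    · exfalso; rw [pow_zero] at hj; exact hx1 (orderOf_eq_one_iff.1 hj)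
    · rw [hj, pow_succ]; exact Dvd.intro_left _ rfl
  have hRG : Nat.card R ∣ 2 * q * e * o := by rw [← D.card]; exact Subgroup.card_subgroup_dvd_card _
  -- Sylow p-subgroup
  obtain ⟨P⟩ : Nonempty (Sylow p G) := inferInstance
  obtain ⟨n, hn⟩ := D.hq
  have hPc : Nat.card (P : Subgroup G) = q := by
    rw [hn]
    apply FiFix.sylow_card (m := 2 * e * o)
    · rw [D.card, ← hn]; ring
    · intro h
      have h1 : Nat.Coprime p (2 * e * o) :=
        Nat.Coprime.mul_right (Nat.Coprime.mul_right (Nat.coprime_two_right.2 D.odd_p) D.cop_pe) D.cop_po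
      exact ((Nat.Prime.coprime_iff_not_dvd D.pp).1 h1) h
  have hPord : ∀ x ∈ (P : Subgroup G), x ≠ 1 → ¬ Nat.Coprime (orderOf x) p := by
    intro x hx hx1 hc
    have h1 : orderOf x ∣ p ^ n := by rw [← hn, ← hPc]; exact ord_dvd_card hx
    exact hx1 (orderOf_eq_one_iff.1 (Nat.eq_one_of_dvd_coprimes (Nat.Coprime.pow_right n hc) dvd_rfl h1))
  have hbord : ∀ x ∈ zpowers b, orderOf x ∣ e := by
    intro x hx
    rw [← hb, ← Nat.card_zpowers b]; exact ord_dvd_card hx
  have haord : ∀ x ∈ zpowers a, orderOf x ∣ o := by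
    intro x hx
    rw [← ha, ← Nat.card_zpowers a]; exact ord_dvd_card hx
  have hcb : Nat.card (zpowers b) = e := by rw [Nat.card_zpowers, hb]
  have hca : Nat.card (zpowers a) = o := by rw [Nat.card_zpowers, ha]
  -- free action lemma
  have free : ∀ (m : ℕ) (E : Subgroup G), Cls G m → r ∣ m → (∀ x ∈ E, Nat.Coprime (orderOf x) m) →
      Nat.card E ∣ Nat.card R - 1 := by
    intro m E hcls hrm hE
    apply free_normal E R hRn
    intro t ht ht1 x hx hc
    apply hcls.fpf (x := t) _ hc (hE x hx)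
    intro h
    have h1 : Nat.Coprime r m := Nat.Coprime.coprime_dvd_left (hRord t ht ht1) h
    exact ((Nat.Prime.coprime_iff_not_dvd hr).1 h1) hrm
  have hrd : r ∣ p ∨ r ∣ e ∨ r ∣ o := by
    have h1 : r ∣ 2 * q * e * o := hrR.trans hRG
    rcases (Nat.Prime.dvd_mul hr).1 h1 with h2 | h2
    · rcases (Nat.Prime.dvd_mul hr).1 h2 with h3 | h3
      · rcases (Nat.Prime.dvd_mul hr).1 h3 with h4 | h4
        · right; left; exact h4.trans (even_iff_two_dvd.1 D.he)
        · left; rw [hn] at h4; exact hr.dvd_of_dvd_pow h4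
      · exact Or.inr (Or.inl h3)
    · exact Or.inr (Or.inr h2)
  have hle : ∀ l m : ℕ, 0 < l → 2 * q * e * o = l * m → Nat.Coprime r m → Nat.card R ≤ l := by
    intro l m hl hm hc
    rw [hm] at hRG
    exact Nat.le_of_dvd hl ((Nat.Coprime.dvd_of_dvd_mul_right (by rw [hk]; exact Nat.Coprime.pow_left k hc)) hRG)
  rcases hrd with h | h | h
  · -- r = p
    have h1 := free p (zpowers b) D.clsp h (fun x hx => Nat.Coprime.coprime_dvd_left (hbord x hx) D.cop_pe.symm)
    have h2 := free p (zpowers a) D.clsp h (fun x hx => Nat.Coprime.coprime_dvd_left (haord x hx) D.cop_po.symm)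
    rw [hcb] at h1; rw [hca] at h2
    have h3 := Nat.Coprime.mul_dvd_of_dvd_of_dvd D.cop_eo h1 h2
    have h4 := Nat.le_of_dvd (by omega) h3
    have hrp : r = p := (Nat.prime_dvd_prime_iff_eq hr D.pp).1 h
    have h6 := hle q (2 * e * o) (by omega) (by ring) (by
      rw [hrp]
      exact Nat.Coprime.mul_right (Nat.Coprime.mul_right (Nat.coprime_two_right.2 D.odd_p) D.cop_pe) D.cop_po)
    have h7 : 2 * o ≤ e * o := Nat.mul_le_mul_right o h2e
    have h8 : e * 3 ≤ e * o := Nat.mul_le_mul_left e h3o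
    omega
  · -- r ∣ e
    have h1 := free e (P : Subgroup G) D.clse h (fun x hx => by
      have h1 : orderOf x ∣ q := by rw [← hPc]; exact ord_dvd_card hx
      exact Nat.Coprime.coprime_dvd_left h1 D.cop_qe)
    have h2 := free e (zpowers a) D.clse h (fun x hx => Nat.Coprime.coprime_dvd_left (haord x hx) D.cop_eo.symm)
    rw [hPc] at h1; rw [hca] at h2
    have h3 := Nat.Coprime.mul_dvd_of_dvd_of_dvd D.cop_qo h1 h2
    have h4 := Nat.le_of_dvd (by omega) h3
    have h6 := hle (2 * e) (q * o) (by omega) (by ring)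
      (Nat.Coprime.coprime_dvd_left h (Nat.Coprime.mul_right D.cop_qe.symm D.cop_eo))
    have h7 : q * 3 ≤ q * o := Nat.mul_le_mul_left q h3o
    omega
  · -- r ∣ o
    have h1 := free o (P : Subgroup G) D.clso h (fun x hx => by
      have h1 : orderOf x ∣ q := by rw [← hPc]; exact ord_dvd_card hx
      exact Nat.Coprime.coprime_dvd_left h1 D.cop_qo)
    rw [hPc] at h1
    have h4 := Nat.le_of_dvd (by omega) h1
    have h6 := hle o (2 * q * e) (by omega) (by ring)
      (Nat.Coprime.coprime_dvd_left h (Nat.Coprime.mul_right (Nat.Coprime.mul_right D.cop_2o.symm D.cop_qo.symm) D.cop_eo.symm))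
    omega

end Sp

end Cfsg.Agent.Lib.SpcA
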