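import Cfsg.Agent.Lib.SpcA3

/-!
# SpcA, part 4 (helper4, for S3421): the centralizer of an involution
-/

set_option autoImplicit false
set_option linter.all false

namespace Cfsg.Agent.Lib.SpcA

open Subgroup NCyc

universe u

/-- `b` of order `e`, `t` its involution, `P` a Sylow 2-subgroup centralizing `t` -/
structure Cf (G : Type u) [Group G] (p q e o : ℕ) (b t : G) : Prop where
  D : Sp G p q e o
  ob : orderOf b = e
  tb : t = b ^ (e / 2)

namespace Cf

variable {G : Type u} [Group G] [Finite G] {p q e o : ℕ} {b t : G} (C : Cf G p q e o b t)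

include C

theorem ot : orderOf t = 2 := by
  have h := pow_half (k := b) (by rw [C.ob]; exact C.D.he)
  rw [C.ob, ← C.tb] at h; exact h

omit [Finite G] in
theorem tB : t ∈ zpowers b := by rw [C.tb]; exact npow_mem_zpowers _ _

theorem uniq {x : G} (hx : x ∈ zpowers b) (h2 : orderOf x = 2) : x = t :=
  invol_unique hx C.tB h2 C.ot

omit [Finite G] in
theorem cardB : Nat.card (zpowers b) = e := by rw [Nat.card_zpowers, C.ob]

omit [Finite G] in
theorem commB {x y : G} (hx : x ∈ zpowers b) (hy : y ∈ zpowers b) : x * y = y * x := by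
  obtain ⟨i, rfl⟩ := mem_zpowers_iff.1 hx
  obtain ⟨j, rfl⟩ := mem_zpowers_iff.1 hy
  rw [← zpow_add, ← zpow_add, add_comm]

omit [Finite G] in
theorem BleC : zpowers b ≤ centralizer ({t} : Set G) := fun x hx => mem_cent.2 (C.commB hx C.tB)

theorem ordB {x : G} (hx : x ∈ zpowers b) : orderOf x ∣ e := by
  rw [← C.cardB]; exact ord_dvd_card hx

theorem exists_sylow_card : (∃ P : Sylow 2 G, (P : Subgroup G) ≤ centralizer ({t} : Set G)) ∧
    Nat.card (centralizer ({t} : Set G)) = 2 * e := by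
  have : Fact (Nat.Prime 2) := ⟨Nat.prime_two⟩
  have D := C.D
  have h2e := D.two_le_e
  obtain ⟨k, m, hm, hk⟩ := Nat.exists_eq_two_pow_mul_odd (show e ≠ 0 by omega)
  have hk0 : k ≠ 0 := by
    rintro rfl
    rw [pow_zero, one_mul] at hk
    rw [← hk] at hm
    exact (Nat.not_even_iff_odd.2 hm) D.he
  have hm0 : m ≠ 0 := by rintro rfl; exact absurd hm (by decide)
  have ob2 : orderOf (b ^ m) = 2 ^ k := by
    rw [orderOf_pow' b hm0, C.ob, hk, Nat.gcd_mul_left_left]
    exact Nat.mul_div_cancel _ (Nat.pos_of_ne_zero hm0)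
  have htB2 : t ∈ zpowers (b ^ m) := by
    have h1 : t = (b ^ m) ^ (2 ^ (k - 1)) := by
      rw [C.tb, ← pow_mul]
      congr 1
      obtain ⟨j, rfl⟩ := Nat.exists_eq_succ_of_ne_zero hk0
      rw [hk]
      simp only [Nat.succ_eq_add_one, Nat.add_sub_cancel, pow_succ]
      rw [show 2 ^ j * 2 * m = (m * 2 ^ j) * 2 by ring, Nat.mul_div_cancel _ (by norm_num)]
    rw [h1]; exact npow_mem_zpowers _ _
  have hB2p : IsPGroup 2 (zpowers (b ^ m)) := IsPGroup.of_card (n := k) (by rw [Nat.card_zpowers, ob2])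
  obtain ⟨P, hP⟩ := hB2p.exists_le_sylow
  have hPc : Nat.card (P : Subgroup G) = 2 ^ (k + 1) := by
    apply FiFix.sylow_card (m := q * m * o)
    · rw [D.card]; nth_rewrite 1 [hk]; rw [pow_succ]; ring
    · intro h
      have h1 : Odd (q * m * o) := (D.odd_q.mul hm).mul D.ho
      exact (Nat.not_even_iff_odd.2 h1) (even_iff_two_dvd.2 h)
  have hrel : (zpowers (b ^ m)).relIndex (P : Subgroup G) = 2 := by
    have h1 := Subgroup.card_mul_index ((zpowers (b ^ m)).subgroupOf (P : Subgroup G))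
    have h2 : Nat.card ((zpowers (b ^ m)).subgroupOf (P : Subgroup G)) = 2 ^ k := by
      rw [Nat.card_congr (Subgroup.subgroupOfEquivOfLe hP).toEquiv, Nat.card_zpowers, ob2]
    rw [h2, hPc, pow_succ] at h1
    exact Nat.eq_of_mul_eq_mul_left (by positivity) h1
  have hnorm : ((zpowers (b ^ m)).subgroupOf (P : Subgroup G)).Normal := Subgroup.normal_of_index_eq_two hrel
  have hPC : (P : Subgroup G) ≤ centralizer ({t} : Set G) := by
    intro x hx
    have h1 := hnorm.conj_mem (⟨t, hP htB2⟩ : (P : Subgroup G)) (Subgroup.mem_subgroupOf.2 htB2) ⟨x, hx⟩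
    have h2 : x * t * x⁻¹ ∈ zpowers (b ^ m) := h1
    have h3 : x * t * x⁻¹ ∈ zpowers b := by
      obtain ⟨i, hi⟩ := mem_zpowers_iff.1 h2
      rw [← hi, ← zpow_natCast, ← zpow_mul]; exact zpow_mem (mem_zpowers b) _
    have h4 := C.uniq h3 (by rw [ord_conj]; exact C.ot)
    exact mem_cent.2 (comm_iff.1 h4)
  refine ⟨⟨P, hPC⟩, ?_⟩
  have h1 := D.cente (x := t) (C.ordB C.tB) (ne_one_of C.ot)
  have h2 : e ∣ Nat.card (centralizer ({t} : Set G)) := by
    rw [← C.cardB]; exact Subgroup.card_dvd_of_le C.BleC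
  have h3 : 2 ^ (k + 1) ∣ Nat.card (centralizer ({t} : Set G)) := by
    rw [← hPc]; exact Subgroup.card_dvd_of_le hPC
  obtain ⟨c, hc⟩ := h2
  rw [hc, mul_comm 2 e] at h1
  have h4 : c ∣ 2 := Nat.dvd_of_mul_dvd_mul_left (by omega) h1
  rcases (Nat.dvd_prime Nat.prime_two).1 h4 with h5 | h5
  · exfalso
    rw [hc, h5, mul_one, hk, pow_succ, mul_comm (2 ^ k) 2, mul_comm (2 ^ k) m] at h3
    have h6 : 2 ∣ m := Nat.dvd_of_mul_dvd_mul_right (by positivity) h3
    exact (Nat.not_even_iff_odd.2 hm) (even_iff_two_dvd.2 h6)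
  · rw [hc, h5, mul_comm]

theorem cardC : Nat.card (centralizer ({t} : Set G)) = 2 * e := C.exists_sylow_card.2

theorem relB : ((zpowers b).subgroupOf (centralizer ({t} : Set G))).index = 2 := by
  have h1 := Subgroup.card_mul_index ((zpowers b).subgroupOf (centralizer ({t} : Set G)))
  have h2 : Nat.card ((zpowers b).subgroupOf (centralizer ({t} : Set G))) = e := by
    rw [Nat.card_congr (Subgroup.subgroupOfEquivOfLe C.BleC).toEquiv, C.cardB]
  rw [h2, C.cardC, mul_comm 2 e] at h1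
  exact Nat.eq_of_mul_eq_mul_left (by have := C.D.two_le_e; omega) h1

theorem sqB {x : G} (hx : x * t = t * x) : x * x ∈ zpowers b := by
  have h := Subgroup.sq_mem_of_index_two C.relB ⟨x, mem_cent.2 hx⟩
  rw [pow_two] at h
  exact h

theorem mulB {x y : G} (hx : x * t = t * x) (hy : y * t = t * y) (hxB : x ∉ zpowers b) (hyB : y ∉ zpowers b) :
    x * y ∈ zpowers b := by
  have h := Subgroup.mul_mem_iff_of_index_two C.relB (a := ⟨x, mem_cent.2 hx⟩) (b := ⟨y, mem_cent.2 hy⟩)
  have h1 : (⟨x, mem_cent.2 hx⟩ * ⟨y, mem_cent.2 hy⟩ : centralizer ({t} : Set G)) ∈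
      (zpowers b).subgroupOf (centralizer ({t} : Set G)) := by
    rw [h]
    constructor
    · intro h2; exact absurd h2 hxB
    · intro h2; exact absurd h2 hyB
  exact h1

theorem normB {x c : G} (hx : x * t = t * x) (hc : c ∈ zpowers b) : x * c * x⁻¹ ∈ zpowers b := by
  have hn : ((zpowers b).subgroupOf (centralizer ({t} : Set G))).Normal := Subgroup.normal_of_index_eq_two C.relB
  exact hn.conj_mem (⟨c, C.BleC hc⟩ : centralizer ({t} : Set G)) hc ⟨x, mem_cent.2 hx⟩

/-- every square root of an involution of `C(t)` is a root of `t` -/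
theorem root {f : G} (hf : f * t = t * f) (h2 : orderOf (f * f) = 2) : f * f = t := C.uniq (C.sqB hf) h2

/-- an element of odd order of `C(t)` lies in `B` -/
theorem oddB {x : G} (hx : x * t = t * x) (ho : Odd (orderOf x)) : x ∈ zpowers b := by
  obtain ⟨m, hm⟩ := ho
  have h1 : (x * x) ^ (m + 1) = x := by
    have h2 : (x * x) ^ (m + 1) = x ^ (2 * m + 1) * x := by
      rw [← pow_two, ← pow_mul, ← pow_succ]; congr 1
    rw [h2, ← hm, pow_orderOf_eq_one, one_mul]
  rw [← h1]; exact pow_mem (C.sqB hx) _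

end Cf

end Cfsg.Agent.Lib.SpcA
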