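import Cfsg.Agent.Lib.SpcA4
import Cfsg.Agent.Lib.CAElem

/-!
# SpcA, part 5 (helper4, for S3421): no abelian centralizers
-/

set_option autoImplicit false
set_option linter.all false

namespace Cfsg.Agent.Lib.SpcA

open Subgroup NCyc

universe u
variable {G : Type u} [Group G] [Finite G]

theorem conj_of_cent (hS : HS G) {t : G} (ht : orderOf t = 2)
    (hcomm : ∀ a ∈ centralizer ({t} : Set G), ∀ b ∈ centralizer ({t} : Set G), a * b = b * a)
    (hE : ∀ e : G, orderOf e = 2 → e * t = t * e → centralizer ({e} : Set G) = centralizer ({t} : Set G)) :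
    ∀ s : G, orderOf s = 2 → IsConj t s := by
  intro s hs
  by_contra hcon
  have h1 : ∀ g : G, g * s * g⁻¹ ∈ centralizer ({t} : Set G) := by
    intro g
    have hs' : orderOf (g * s * g⁻¹) = 2 := by rw [ord_conj]; exact hs
    have hnc : ¬ IsConj t (g * s * g⁻¹) := by
      intro h
      apply hcon
      have h2 : IsConj (g * s * g⁻¹) s := (isConj_iff.2 ⟨g, rfl⟩ : IsConj s (g * s * g⁻¹)).symm
      exact h.trans h2
    rcases Nat.even_or_odd (orderOf (t * (g * s * g⁻¹))) with he | ho
    · obtain ⟨z, _, hz2, hzt, hzs⟩ := InvAct.exists_central_of_even ht hs' he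
      rw [← hE z hz2 hzt]
      exact mem_cent.2 hzs.symm
    · exfalso
      obtain ⟨k, hk, _⟩ := InvAct.exists_conj_of_odd ht hs' ho
      exact hnc (isConj_iff.2 ⟨_, hk⟩)
  have h2 : normalClosure ({s} : Set G) ≤ centralizer ({t} : Set G) := by
    rw [normalClosure, closure_le]
    intro x hx
    obtain ⟨y, hy, hyx⟩ := Group.mem_conjugatesOfSet_iff.1 hx
    rw [Set.mem_singleton_iff] at hy
    subst hy
    obtain ⟨c, hc⟩ := isConj_iff.1 hyx
    rw [← hc]
    exact h1 c
  have h3 := hS (normalClosure ({s} : Set G)) inferInstance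
    (solvable_of_comm (fun a ha b hb => hcomm a (h2 ha) b (h2 hb)))
  have h4 : s ∈ normalClosure ({s} : Set G) := subset_normalClosure (Set.mem_singleton s)
  rw [h3, Subgroup.mem_bot] at h4
  exact ne_one_of hs h4

/-- an abelian involution centralizer which is the centralizer of each of its nonidentity elements -/
theorem abelian_sel (hS : HS G) {t : G} (ht : orderOf t = 2)
    (hcomm : ∀ a ∈ centralizer ({t} : Set G), ∀ b ∈ centralizer ({t} : Set G), a * b = b * a)
    (hcen : ∀ z : G, z * t = t * z → z ≠ 1 → centralizer ({z} : Set G) = centralizer ({t} : Set G))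
    {g : G} (hg1 : g * t * g⁻¹ ≠ t) (hg2 : (g * t * g⁻¹) * t = t * (g * t * g⁻¹)) :
    ∀ x : G, x * t = t * x → x * x = 1 := by
  cases nonempty_fintype G
  have hE : ∀ e : G, orderOf e = 2 → e * t = t * e → centralizer ({e} : Set G) = centralizer ({t} : Set G) :=
    fun e he hc => hcen e hc (ne_one_of he)
  have hconj := conj_of_cent hS ht hcomm hE
  set H := centralizer ({t} : Set G) with hH
  have htH : t ∈ H := mem_cent.2 rfl
  have hcle : ∀ k ∈ H, k ≠ 1 → centralizer ({k} : Set G) ≤ H := fun k hk hk1 =>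
    (hcen k (mem_cent.1 hk) hk1).le
  have hTI : ∀ g : G, g ∉ normalizer (H : Set G) → ∀ k ∈ H, g * k * g⁻¹ ∈ H → k = 1 := by
    intro g hg k hk hgk
    by_contra hk1
    apply hg
    have hgk1 : g * k * g⁻¹ ≠ 1 := by
      intro h; apply hk1
      have : k = g⁻¹ * (g * k * g⁻¹) * g := by group
      rw [this, h]; group
    have h3 := hcen k (mem_cent.1 hk) hk1
    have h4 := hcen _ (mem_cent.1 hgk) hgk1
    have h5 : g ∈ normalizer ((centralizer ({k} : Set G) : Subgroup G) : Set G) :=
      mem_norm_cent (by rw [h4, h3])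
    rwa [h3] at h5
  have hnn : ¬ H.Normal := by
    intro hn
    have := hS H hn (solvable_of_comm hcomm)
    rw [this, Subgroup.mem_bot] at htH
    exact ne_one_of ht htH
  have hd : 2 ≤ (H.subgroupOf (normalizer (H : Set G))).index := by
    have h1 : g ∈ normalizer (H : Set G) := mem_norm_cent (hE _ (by rw [ord_conj]; exact ht) hg2)
    have h2 : g ∉ H := by
      intro h
      exact hg1 (comm_iff.2 (mem_cent.1 h))
    have h3 : (H.subgroupOf (normalizer (H : Set G))).index ≠ 1 := by
      rw [ne_eq, Subgroup.index_eq_one, Subgroup.subgroupOf_eq_top]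
      intro h; exact h2 (h h1)
    have h4 : (H.subgroupOf (normalizer (H : Set G))).index ≠ 0 := Subgroup.index_ne_zero_of_finite
    omega
  intro x hx
  have := CAElem.elementary H hTI hcle hcomm hnn t htH ht hconj hd x (mem_cent.2 hx)
  rwa [pow_two] at this

namespace Cf

variable {p q e o : ℕ} {b t : G} (C : Cf G p q e o b t)

include C

/-- square roots of `t` do not commute with a conjugate of `t` different from `t` -/
theorem noroot {g f : G} (hg : g * t * g⁻¹ ≠ t) (hf : f * f = t) : f * (g * t * g⁻¹) ≠ (g * t * g⁻¹) * f := by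
  intro hc
  have h1 : (g⁻¹ * f * g) * t = t * (g⁻¹ * f * g) := by
    calc (g⁻¹ * f * g) * t = g⁻¹ * (f * (g * t * g⁻¹)) * g := by group
      _ = g⁻¹ * ((g * t * g⁻¹) * f) * g := by rw [hc]
      _ = t * (g⁻¹ * f * g) := by group
  have h2 : (g⁻¹ * f * g) * (g⁻¹ * f * g) = g⁻¹ * t * g := by rw [← hf]; group
  have h3 := C.root h1 (by
    rw [h2]
    have := ord_conj g⁻¹ t
    rw [inv_inv] at this
    rw [this]; exact C.ot)
  rw [h2] at h3
  apply hg
  calc g * t * g⁻¹ = g * (g⁻¹ * t * g) * g⁻¹ := by rw [h3]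
    _ = t := by group

theorem cent_eq {y s : G} (hy : y ∈ zpowers b) (hy1 : y ≠ 1) (hst : s * t = t * s) (hsB : s ∉ zpowers b)
    (hs : y * s = s * y) : centralizer ({y} : Set G) = centralizer ({t} : Set G) := by
  symm
  apply Subgroup.eq_of_le_of_card_ge
  · intro h hh
    rw [mem_cent] at hh ⊢
    by_cases h1 : h ∈ zpowers b
    · exact C.commB h1 hy
    · have h2 := C.mulB hst hh hsB h1
      have h3 : (s * h) * y = y * (s * h) := C.commB h2 hy
      have h4 : s * (h * y) = s * (y * h) := by
        calc s * (h * y) = (s * h) * y := by group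
          _ = y * (s * h) := h3
          _ = (y * s) * h := by group
          _ = s * (y * h) := by rw [hs]; group
      exact mul_left_cancel h4
  · rw [C.cardC]
    exact Nat.le_of_dvd (by have := C.D.two_le_e; omega) (C.D.cente (C.ordB hy) hy1)

theorem no_odd {g y : G} (hg : g * t * g⁻¹ ≠ t) (hgt : (g * t * g⁻¹) * t = t * (g * t * g⁻¹))
    (hy : y ∈ zpowers b) (hy1 : y ≠ 1) (ho : Odd (orderOf y)) : y * (g * t * g⁻¹) ≠ (g * t * g⁻¹) * y := by
  intro hc
  set s := g * t * g⁻¹ with hs
  have os : orderOf s = 2 := by rw [hs, ord_conj]; exact C.ot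
  have hsB : s ∉ zpowers b := fun h => hg (C.uniq h os)
  have h1 := C.cent_eq hy hy1 hgt hsB hc
  -- the conjugate of y
  have h2 : centralizer ({g * y * g⁻¹} : Set G) = centralizer ({s} : Set G) := cent_conj_eq g h1
  have h3 : y ∈ centralizer ({g * y * g⁻¹} : Set G) := by rw [h2]; exact mem_cent.2 hc
  have h4 : g * y * g⁻¹ ∈ centralizer ({t} : Set G) := by
    rw [← h1]; exact mem_cent.2 (mem_cent.1 h3).symm
  have h5 : g * y * g⁻¹ ∈ zpowers b := C.oddB (mem_cent.1 h4) (by rw [ord_conj]; exact ho)
  have hy'1 : g * y * g⁻¹ ≠ 1 := by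
    intro h; apply hy1
    have : y = g⁻¹ * (g * y * g⁻¹) * g := by group
    rw [this, h]; group
  have h6 : s ∈ centralizer ({g * y * g⁻¹} : Set G) := by rw [h2]; exact mem_cent.2 rfl
  have h7 := C.cent_eq h5 hy'1 hgt hsB (mem_cent.1 h6).symm
  have h8 : centralizer ({s} : Set G) = centralizer ({t} : Set G) := by rw [← h2, h7]
  -- C(t) is abelian
  have hbs : ∀ x ∈ zpowers b, x * s = s * x := by
    intro x hx
    have : x ∈ centralizer ({s} : Set G) := by rw [h8]; exact C.BleC hx
    exact mem_cent.1 this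
  have hcomm1 : ∀ x ∈ centralizer ({t} : Set G), ∀ c ∈ zpowers b, x * c = c * x := by
    intro x hx c hc'
    by_cases h9 : x ∈ zpowers b
    · exact C.commB h9 hc'
    · have h10 := C.mulB hgt (mem_cent.1 hx) hsB h9
      have h11 : (s * x) * c = c * (s * x) := C.commB h10 hc'
      have h12 : s * (x * c) = s * (c * x) := by
        calc s * (x * c) = (s * x) * c := by group
          _ = c * (s * x) := h11
          _ = (c * s) * x := by group
          _ = s * (c * x) := by rw [hbs c hc']; group
      exact mul_left_cancel h12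
  have hcomm : ∀ x ∈ centralizer ({t} : Set G), ∀ c ∈ centralizer ({t} : Set G), x * c = c * x := by
    intro x hx c hc'
    by_cases h9 : c ∈ zpowers b
    · exact hcomm1 x hx c h9
    · have h10 := C.mulB hgt (mem_cent.1 hc') hsB h9
      have h11 : x * (s * c) = (s * c) * x := hcomm1 x hx _ h10
      have hxs : x * s = s * x := by
        have : x ∈ centralizer ({s} : Set G) := by rw [h8]; exact hx
        exact mem_cent.1 this
      have h12 : s * (x * c) = s * (c * x) := by
        calc s * (x * c) = (s * x) * c := by group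
          _ = (x * s) * c := by rw [hxs]
          _ = x * (s * c) := by group
          _ = (s * c) * x := h11
          _ = s * (c * x) := by group
      exact mul_left_cancel h12
  have hcen : ∀ z : G, z * t = t * z → z ≠ 1 → centralizer ({z} : Set G) = centralizer ({t} : Set G) := by
    intro z hz hz1
    symm
    apply Subgroup.eq_of_le_of_card_ge
    · intro h hh
      exact mem_cent.2 (hcomm h hh z (mem_cent.2 hz))
    · rw [C.cardC]
      have h9 : orderOf z ∣ e := C.D.clse.cent (x := t) (C.D.not_cop (C.ordB C.tB) (ne_one_of C.ot)) hz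
      exact Nat.le_of_dvd (by have := C.D.two_le_e; omega) (C.D.cente h9 hz1)
  have h9 := abelian_sel C.D.hs C.ot hcomm hcen hg hgt y (C.commB hy C.tB)
  have h10 : orderOf y ∣ 2 := orderOf_dvd_of_pow_eq_one (by rw [pow_two]; exact h9)
  rcases (Nat.dvd_prime Nat.prime_two).1 h10 with h11 | h11
  · exact hy1 (orderOf_eq_one_iff.1 h11)
  · rw [h11] at ho; exact absurd ho (by decide)

end Cf

end Cfsg.Agent.Lib.SpcA
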