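import Cfsg.Agent.Lib.SpcA5

/-!
# SpcA, part 6 (helper4, for S3421): the structure of the centralizer
-/

set_option autoImplicit false
set_option linter.all false

namespace Cfsg.Agent.Lib.SpcA

open Subgroup NCyc

universe u

/-- `s` a conjugate of `t` in `C(t)` different from `t` -/
structure Ef (G : Type u) [Group G] (p q e o : ℕ) (b t s : G) : Prop where
  C : Cf G p q e o b t
  ex : ∃ g : G, g * t * g⁻¹ = s
  ne : s ≠ t
  st : s * t = t * s

namespace Ef

variable {G : Type u} [Group G] [Finite G] {p q e o : ℕ} {b t s : G} (E : Ef G p q e o b t s)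

include E

theorem os : orderOf s = 2 := by
  obtain ⟨g, hg⟩ := E.ex
  rw [← hg, ord_conj]; exact E.C.ot

theorem ss : s * s = 1 := sq_of E.os
theorem si : s⁻¹ = s := inv_of E.os
theorem tt : t * t = 1 := sq_of E.C.ot

theorem sB : s ∉ zpowers b := fun h => E.ne (E.C.uniq h E.os)

theorem sc {c : G} (hc : c ∈ zpowers b) : s * c * s⁻¹ ∈ zpowers b := E.C.normB E.st hc

theorem fixB {w : G} (hw : w ∈ zpowers b) (hc : w * s = s * w) : w = 1 ∨ w = t := by
  obtain ⟨g, hg⟩ := E.ex
  by_cases hw1 : w = 1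
  · exact Or.inl hw1
  right
  obtain ⟨n, m, hm, ho⟩ := Nat.exists_eq_two_pow_mul_odd (orderOf_pos w).ne'
  have h1 : w ^ (2 ^ n) = 1 := by
    by_contra h
    have h2 : Odd (orderOf (w ^ (2 ^ n))) := by
      rw [orderOf_pow' w (by positivity), ho, Nat.gcd_mul_right_left, Nat.mul_div_cancel_left _ (by positivity)]
      exact hm
    apply E.C.no_odd (g := g) (by rw [hg]; exact E.ne) (by rw [hg]; exact E.st) (pow_mem hw _) h h2
    rw [hg]
    exact ((show Commute w s from hc).pow_left _).eq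
  have h2 : orderOf w ∣ 2 ^ n := orderOf_dvd_of_pow_eq_one h1
  obtain ⟨j, _, hj⟩ := (Nat.dvd_prime_pow Nat.prime_two).1 h2
  rcases j with _ | _ | j
  · exfalso; apply hw1; rw [pow_zero] at hj; exact orderOf_eq_one_iff.1 hj
  · apply E.C.uniq hw; rw [hj]; norm_num
  · exfalso
    have h3 : orderOf (w ^ (2 ^ (j + 1))) = 2 := by
      rw [orderOf_pow' w (by positivity), hj, Nat.gcd_eq_right (pow_dvd_pow 2 (by omega)),
        Nat.pow_div (by omega) (by norm_num)]
      rw [show j + 1 + 1 - (j + 1) = 1 by omega, pow_one]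
    have h4 : w ^ (2 ^ (j + 1)) = t := E.C.uniq (pow_mem hw _) h3
    have h5 : w ^ (2 ^ j) * w ^ (2 ^ j) = t := by
      rw [← h4, ← pow_add]; congr 1; rw [pow_succ]; ring
    apply E.C.noroot (g := g) (by rw [hg]; exact E.ne) h5
    rw [hg]
    exact ((show Commute w s from hc).pow_left _).eq

/-- `s` inverts `B` modulo `⟨t⟩` -/
theorem inv_or {c : G} (hc : c ∈ zpowers b) : s * c * s⁻¹ = c⁻¹ ∨ s * c * s⁻¹ = c⁻¹ * t := by
  have h1 := E.sc hc
  have h2 : (c * (s * c * s⁻¹)) * s = s * (c * (s * c * s⁻¹)) := by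
    have h3 : s * (s * c * s⁻¹) * s⁻¹ = c := by
      calc s * (s * c * s⁻¹) * s⁻¹ = (s * s) * c * (s * s)⁻¹ := by group
        _ = c := by rw [E.ss]; group
    calc (c * (s * c * s⁻¹)) * s = ((s * c * s⁻¹) * c) * s := by rw [E.C.commB hc h1]
      _ = ((s * c * s⁻¹) * (s * (s * c * s⁻¹) * s⁻¹)) * s := by rw [h3]
      _ = s * (c * (s * c * s⁻¹)) := by group
  rcases E.fixB (mul_mem hc h1) h2 with h | h
  · left; exact eq_inv_of_mul_eq_one_right h
  · right
    rw [← h]; group

theorem memK {z : G} (hz : z ∈ zpowers (b * b)) : ∃ k ∈ zpowers b, k * k = z := by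
  obtain ⟨i, rfl⟩ := mem_zpowers_iff.1 hz
  refine ⟨b ^ i, zpow_mem (mem_zpowers b) i, ?_⟩
  exact ((Commute.refl b).mul_zpow i).symm

theorem Kmem {k : G} (hk : k ∈ zpowers b) : k * k ∈ zpowers (b * b) := by
  obtain ⟨i, rfl⟩ := mem_zpowers_iff.1 hk
  rw [← (Commute.refl b).mul_zpow i]
  exact zpow_mem (mem_zpowers _) i

theorem KB : zpowers (b * b) ≤ zpowers b := by
  rw [zpowers_le]; exact mul_mem (mem_zpowers b) (mem_zpowers b)

theorem invK {z : G} (hz : z ∈ zpowers (b * b)) : s * z * s⁻¹ = z⁻¹ := by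
  obtain ⟨k, hk, rfl⟩ := E.memK hz
  have e1 : s * (k * k) * s⁻¹ = (s * k * s⁻¹) * (s * k * s⁻¹) := by group
  rcases E.inv_or hk with h | h
  · rw [e1, h]; group
  · rw [e1, h]
    calc k⁻¹ * t * (k⁻¹ * t) = k⁻¹ * (t * k⁻¹) * t := by group
      _ = k⁻¹ * (k⁻¹ * t) * t := by rw [E.C.commB E.C.tB (inv_mem hk)]
      _ = k⁻¹ * k⁻¹ * (t * t) := by group
      _ = (k * k)⁻¹ := by rw [E.tt]; group

theorem cardK : Nat.card (zpowers (b * b)) * 2 = e := by
  have h1 : orderOf (b * b) = e / 2 := by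
    rw [← pow_two, orderOf_pow' b (by norm_num), E.C.ob, Nat.gcd_eq_right (even_iff_two_dvd.1 E.C.D.he)]
  rw [Nat.card_zpowers, h1]
  exact Nat.div_mul_cancel (even_iff_two_dvd.1 E.C.D.he)

theorem relK : ((zpowers (b * b)).subgroupOf (zpowers b)).index = 2 := by
  have h1 := Subgroup.card_mul_index ((zpowers (b * b)).subgroupOf (zpowers b))
  have h2 : Nat.card ((zpowers (b * b)).subgroupOf (zpowers b)) = Nat.card (zpowers (b * b)) :=
    Nat.card_congr (Subgroup.subgroupOfEquivOfLe E.KB).toEquiv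
  rw [h2, E.C.cardB] at h1
  have h3 := E.cardK
  rw [← h3] at h1
  exact Nat.eq_of_mul_eq_mul_left Nat.card_pos h1

theorem mulK {x y : G} (hx : x ∈ zpowers b) (hy : y ∈ zpowers b) (hxK : x ∉ zpowers (b * b))
    (hyK : y ∉ zpowers (b * b)) : x * y ∈ zpowers (b * b) := by
  have h := Subgroup.mul_mem_iff_of_index_two E.relK (a := ⟨x, hx⟩) (b := ⟨y, hy⟩)
  have h1 : (⟨x, hx⟩ * ⟨y, hy⟩ : zpowers b) ∈ (zpowers (b * b)).subgroupOf (zpowers b) := by
    rw [h]
    constructor
    · intro h2; exact absurd h2 hxK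
    · intro h2; exact absurd h2 hyK
  exact h1

theorem b_notK : b ∉ zpowers (b * b) := by
  intro h
  have h1 : zpowers b ≤ zpowers (b * b) := zpowers_le.2 h
  have h2 := Subgroup.card_le_of_le h1
  have h3 := E.cardK
  have h4 := E.C.D.two_le_e
  rw [E.C.cardB] at h2
  omega

/-- **the TI property of `B`** -/
theorem ti {g y : G} (hy : y ∈ zpowers b) (hy1 : y ≠ 1) (hg : g * y * g⁻¹ ∈ zpowers b) : g * t = t * g := by
  have key : g * t * g⁻¹ ∈ zpowers b → g * t = t * g := by
    intro h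
    exact comm_iff.1 (E.C.uniq h (by rw [ord_conj]; exact E.C.ot))
  have hne : orderOf y ≠ 1 := fun h => hy1 (orderOf_eq_one_iff.1 h)
  obtain ⟨r, hr, m, hm⟩ := Nat.exists_prime_and_dvd hne
  have hm0 : m ≠ 0 := by rintro rfl; rw [mul_zero] at hm; exact (orderOf_pos y).ne' hm
  have ho : orderOf (y ^ m) = r := by
    rw [orderOf_pow' y hm0, hm, Nat.gcd_mul_left_left, Nat.mul_div_cancel _ (Nat.pos_of_ne_zero hm0)]
  have hyB : y ^ m ∈ zpowers b := pow_mem hy m
  have hgB : g * y ^ m * g⁻¹ ∈ zpowers b := by rw [← conj_pow]; exact pow_mem hg m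
  rcases hr.eq_two_or_odd' with h2 | hodd
  · have h3 : y ^ m = t := E.C.uniq hyB (by rw [ho, h2])
    rw [h3] at hgB
    exact key hgB
  · have centB : ∀ z ∈ zpowers b, orderOf z = r → centralizer ({z} : Set G) = zpowers b := by
      intro z hz hzr
      have hz1 : z ≠ 1 := by rintro rfl; rw [orderOf_one] at hzr; exact hr.one_lt.ne hzr
      have h1 := E.C.D.cente (E.C.ordB hz) hz1
      have hle : zpowers b ≤ centralizer ({z} : Set G) := fun x hx => mem_cent.2 (E.C.commB hx hz)
      have h2 : e ∣ Nat.card (centralizer ({z} : Set G)) := by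
        rw [← E.C.cardB]; exact Subgroup.card_dvd_of_le hle
      obtain ⟨c, hc⟩ := h2
      rw [hc, mul_comm 2 e] at h1
      have h4 : c ∣ 2 := Nat.dvd_of_mul_dvd_mul_left (by have := E.C.D.two_le_e; omega) h1
      rcases (Nat.dvd_prime Nat.prime_two).1 h4 with h5 | h5
      · symm
        apply Subgroup.eq_of_le_of_card_ge hle
        rw [hc, h5, mul_one, E.C.cardB]
      · exfalso
        have h6 : ((zpowers b).subgroupOf (centralizer ({z} : Set G))).index = 2 := by
          have h7 := Subgroup.card_mul_index ((zpowers b).subgroupOf (centralizer ({z} : Set G)))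
          have h8 : Nat.card ((zpowers b).subgroupOf (centralizer ({z} : Set G))) = e := by
            rw [Nat.card_congr (Subgroup.subgroupOfEquivOfLe hle).toEquiv, E.C.cardB]
          rw [h8, hc, h5] at h7
          exact Nat.eq_of_mul_eq_mul_left (by have := E.C.D.two_le_e; omega) h7
        have hn : ((zpowers b).subgroupOf (centralizer ({z} : Set G))).Normal := Subgroup.normal_of_index_eq_two h6
        have h9 : centralizer ({z} : Set G) ≤ centralizer ({t} : Set G) := by
          intro x hx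
          have h10 := hn.conj_mem (⟨t, hle E.C.tB⟩ : centralizer ({z} : Set G)) E.C.tB ⟨x, hx⟩
          have h11 : x * t * x⁻¹ ∈ zpowers b := h10
          exact mem_cent.2 (comm_iff.1 (E.C.uniq h11 (by rw [ord_conj]; exact E.C.ot)))
        have h12 : centralizer ({z} : Set G) = centralizer ({t} : Set G) := by
          apply Subgroup.eq_of_le_of_card_ge h9
          rw [hc, h5, E.C.cardC]; omega
        have h13 : s ∈ centralizer ({z} : Set G) := by rw [h12]; exact mem_cent.2 E.st
        rcases E.fixB hz (mem_cent.1 h13).symm with h14 | h14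
        · exact hz1 h14
        · rw [h14, E.C.ot] at hzr
          rw [← hzr] at hodd; exact absurd hodd (by decide)
    have h1 := centB _ hyB ho
    have h2 := centB _ hgB (by rw [ord_conj]; exact ho)
    rw [BSW.centralizer_conj, h1] at h2
    apply key
    rw [← h2]
    exact ⟨t, E.C.tB, rfl⟩

end Ef

end Cfsg.Agent.Lib.SpcA
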