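import Cfsg.Agent.Lib.SpcA6

/-!
# SpcA, part 7 (helper4, for S3421): the subgroup of index two of the centralizer
-/

set_option autoImplicit false
set_option linter.all false

namespace Cfsg.Agent.Lib.SpcA

open Subgroup NCyc

universe u

namespace Ef

variable {G : Type u} [Group G] [Finite G] {p q e o : ℕ} {b t s : G} (E : Ef G p q e o b t s)

/-- the subgroup `⟨b²⟩⟨s⟩` -/
def mid (E : Ef G p q e o b t s) : Subgroup G where
  carrier := {h | h ∈ zpowers (b * b) ∨ s * h ∈ zpowers (b * b)}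
  one_mem' := Or.inl (one_mem _)
  mul_mem' := by
    have hss := E.ss
    have hinv : ∀ z ∈ zpowers (b * b), s * z * s⁻¹ ∈ zpowers (b * b) := by
      intro z hz
      rw [E.invK hz]; exact inv_mem hz
    rintro x y (hx | hx) (hy | hy)
    · exact Or.inl (mul_mem hx hy)
    · right
      have e : s * (x * y) = (s * x * s⁻¹) * (s * y) := by group
      rw [e]; exact mul_mem (hinv x hx) hy
    · right
      have e : s * (x * y) = (s * x) * y := by group
      rw [e]; exact mul_mem hx hy
    · left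
      have e : x * y = (s⁻¹ * s⁻¹) * (s * (s * x) * s⁻¹) * (s * y) := by group
      have e2 : s⁻¹ * s⁻¹ = 1 := by rw [← mul_inv_rev, hss, inv_one]
      rw [e, e2, one_mul]; exact mul_mem (hinv _ hx) hy
  inv_mem' := by
    have hss := E.ss
    have hsi := E.si
    have hinv : ∀ z ∈ zpowers (b * b), s * z * s⁻¹ ∈ zpowers (b * b) := by
      intro z hz
      rw [E.invK hz]; exact inv_mem hz
    rintro x (hx | hx)
    · exact Or.inl (inv_mem hx)
    · right
      have e : s * x⁻¹ = (s * (s * x) * s⁻¹)⁻¹ * (s * s) := by group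
      rw [e, hss, mul_one]; exact inv_mem (hinv _ hx)

include E

theorem mem_mid {x : G} : x ∈ E.mid ↔ x ∈ zpowers (b * b) ∨ s * x ∈ zpowers (b * b) := Iff.rfl

theorem K_le_mid : zpowers (b * b) ≤ E.mid := fun x hx => Or.inl hx

theorem s_mid : s ∈ E.mid := by
  right; rw [E.ss]; exact one_mem _

theorem mid_le : E.mid ≤ centralizer ({t} : Set G) := by
  intro h hh
  rcases hh with h1 | h1
  · exact E.C.BleC (E.KB h1)
  · have h2 := E.C.BleC (E.KB h1)
    have h3 : s ∈ centralizer ({t} : Set G) := mem_cent.2 E.st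
    have e : h = s⁻¹ * (s * h) := by group
    rw [e]; exact mul_mem (inv_mem h3) h2

theorem mid_B {x : G} (hx : x ∈ zpowers b) (h : x ∈ E.mid) : x ∈ zpowers (b * b) := by
  rcases h with h | h
  · exact h
  · exfalso
    apply E.sB
    have e : s = (s * x) * x⁻¹ := by group
    rw [e]; exact mul_mem (E.KB h) (inv_mem hx)

theorem sxB {x : G} (hx : x * t = t * x) (hB : x ∉ zpowers b) : s * x ∈ zpowers b := E.C.mulB E.st hx E.sB hB

variable (tK : t ∈ zpowers (b * b))

include tK

theorem sKc {x : G} (hx : x ∈ zpowers b) (hK : x ∉ zpowers (b * b)) : s * x * s⁻¹ ∉ zpowers (b * b) := by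
  intro h
  apply hK
  rcases E.inv_or hx with h1 | h1
  · rw [h1] at h; rw [← inv_inv x]; exact inv_mem h
  · rw [h1] at h
    have e : x = (x⁻¹ * t * t⁻¹)⁻¹ := by group
    rw [e]; exact inv_mem (mul_mem h (inv_mem tK))

theorem mid_mul {x y : G} (hx : x * t = t * x) (hy : y * t = t * y) (hxm : x ∉ E.mid) (hym : y ∉ E.mid) :
    x * y ∈ E.mid := by
  have hx1 : x ∉ zpowers (b * b) := fun h => hxm (Or.inl h)
  have hx2 : s * x ∉ zpowers (b * b) := fun h => hxm (Or.inr h)
  have hy1 : y ∉ zpowers (b * b) := fun h => hym (Or.inl h)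
  have hy2 : s * y ∉ zpowers (b * b) := fun h => hym (Or.inr h)
  by_cases hxB : x ∈ zpowers b <;> by_cases hyB : y ∈ zpowers b
  · exact Or.inl (E.mulK hxB hyB hx1 hy1)
  · right
    have e1 : s * (x * y) = (s * x * s⁻¹) * (s * y) := by group
    rw [e1]
    exact E.mulK (E.sc hxB) (E.sxB hy hyB) (E.sKc tK hxB hx1) hy2
  · right
    have e1 : s * (x * y) = (s * x) * y := by group
    rw [e1]
    exact E.mulK (E.sxB hx hxB) hyB hx2 hy1
  · left
    have e1 : x * y = (s⁻¹ * s⁻¹) * (s * (s * x) * s⁻¹) * (s * y) := by group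
    have e2 : s⁻¹ * s⁻¹ = 1 := by rw [← mul_inv_rev, E.ss, inv_one]
    rw [e1, e2, one_mul]
    exact E.mulK (E.sc (E.sxB hx hxB)) (E.sxB hy hyB) (E.sKc tK (E.sxB hx hxB) hx2) hy2

theorem mid_conj {x h : G} (hx : x * t = t * x) (hh : h ∈ E.mid) : x * h * x⁻¹ ∈ E.mid := by
  by_cases hxm : x ∈ E.mid
  · exact mul_mem (mul_mem hxm hh) (inv_mem hxm)
  · have hht := mem_cent.1 (E.mid_le hh)
    have h1 : x * h ∉ E.mid := by
      intro h2
      apply hxm
      have e1 : x = (x * h) * h⁻¹ := by group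
      rw [e1]; exact mul_mem h2 (inv_mem hh)
    have h2 : x⁻¹ ∉ E.mid := fun h => hxm (by rw [← inv_inv x]; exact inv_mem h)
    have hx' : x⁻¹ * t = t * x⁻¹ := ((show Commute x t from hx).inv_left).eq
    have hxh : (x * h) * t = t * (x * h) := ((show Commute x t from hx).mul_left hht).eq
    exact E.mid_mul tK hxh hx' h1 h2

theorem mid_conj_iff {x h : G} (hx : x * t = t * x) : h ∈ E.mid ↔ x * h * x⁻¹ ∈ E.mid := by
  refine ⟨E.mid_conj tK hx, fun h1 => ?_⟩
  have hx' : x⁻¹ * t = t * x⁻¹ := ((show Commute x t from hx).inv_left).eq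
  have h2 := E.mid_conj tK hx' h1
  have e1 : x⁻¹ * (x * h * x⁻¹) * x⁻¹⁻¹ = h := by group
  rwa [e1] at h2

/-- the involutions of `mid` outside `K` are conjugate to `s` -/
theorem conj_K {z : G} (hz : z ∈ zpowers (b * b)) : ∃ c ∈ zpowers b, c * s * c⁻¹ = z * s := by
  let f : ↥(zpowers b) →* G :=
    { toFun := fun c => (c : G) * (s * c * s⁻¹)⁻¹
      map_one' := by simp
      map_mul' := by
        intro c d
        have h1 : (s * (c : G) * s⁻¹)⁻¹ ∈ zpowers b := inv_mem (E.sc c.2)
        have h2 : (d : G) * (s * d * s⁻¹)⁻¹ ∈ zpowers b := mul_mem d.2 (inv_mem (E.sc d.2))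
        have h3 := E.C.commB h2 h1
        calc ((c * d : ↥(zpowers b)) : G) * (s * ((c * d : ↥(zpowers b)) : G) * s⁻¹)⁻¹
            = c * ((d * (s * d * s⁻¹)⁻¹) * (s * (c : G) * s⁻¹)⁻¹) := by
              rw [Subgroup.coe_mul]; group
          _ = c * ((s * (c : G) * s⁻¹)⁻¹ * (d * (s * d * s⁻¹)⁻¹)) := by rw [h3]
          _ = _ := by group }
  have hf : ∀ c : ↥(zpowers b), f c = (c : G) * (s * c * s⁻¹)⁻¹ := fun c => rfl
  have hle : f.range ≤ zpowers (b * b) := by
    rintro _ ⟨c, rfl⟩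
    rw [hf]
    rcases E.inv_or c.2 with h | h
    · rw [h, inv_inv]; exact E.Kmem c.2
    · rw [h]
      have e1 : (c : G) * ((c : G)⁻¹ * t)⁻¹ = ((c : G) * t⁻¹) * c := by group
      rw [e1, inv_of E.C.ot, E.C.commB c.2 E.C.tB, mul_assoc]
      exact mul_mem tK (E.Kmem c.2)
  have hker : Nat.card f.ker ≤ 2 := by
    have h1 : Nat.card f.ker = Nat.card (f.ker.map (zpowers b).subtype) :=
      (Subgroup.card_map_of_injective (zpowers b).subtype_injective).symm
    have h2 : f.ker.map (zpowers b).subtype ≤ zpowers t := by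
      rintro _ ⟨c, hc, rfl⟩
      have h3 : f c = 1 := hc
      rw [hf] at h3
      have h4 : (c : G) = s * c * s⁻¹ := by
        have := eq_inv_of_mul_eq_one_left h3
        rwa [inv_inv] at this
      have h5 : (c : G) * s = s * c := by
        nth_rewrite 1 [h4]; group
      rcases E.fixB c.2 h5 with h6 | h6
      · change (c : G) ∈ _; rw [h6]; exact one_mem _
      · change (c : G) ∈ _; rw [h6]; exact mem_zpowers t
    rw [h1]
    calc Nat.card (f.ker.map (zpowers b).subtype) ≤ Nat.card (zpowers t) := Subgroup.card_le_of_le h2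
      _ = 2 := by rw [Nat.card_zpowers, E.C.ot]
  have hcard : Nat.card f.ker * Nat.card f.range = e := by
    rw [← Subgroup.index_ker, Subgroup.card_mul_index, E.C.cardB]
  have heq : f.range = zpowers (b * b) := by
    apply Subgroup.eq_of_le_of_card_ge hle
    have h1 := E.cardK
    have h2 : Nat.card f.ker * Nat.card f.range ≤ 2 * Nat.card f.range := Nat.mul_le_mul_right _ hker
    omega
  rw [← heq] at hz
  obtain ⟨c, hc⟩ := hz
  refine ⟨c, c.2, ?_⟩
  rw [← hc, hf]; group

/-- the involutions of `mid` are conjugate to `t` -/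
theorem mid_isConj {a : G} (ha : a ∈ E.mid) (oa : orderOf a = 2) : IsConj t a := by
  obtain ⟨g, hg⟩ := E.ex
  rcases ha with h | h
  · rw [E.C.uniq (E.KB h) oa]
  · have h1 : s * (s * a) * s⁻¹ ∈ zpowers (b * b) := by rw [E.invK h]; exact inv_mem h
    obtain ⟨c, _, hc⟩ := E.conj_K tK h1
    have h2 : s * (s * a) * s⁻¹ * s = a := by
      calc s * (s * a) * s⁻¹ * s = (s * s) * a := by group
        _ = a := by rw [E.ss, one_mul]
    rw [h2] at hc
    refine isConj_iff.2 ⟨c * g, ?_⟩
    rw [← hc, ← hg]; group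

end Ef

end Cfsg.Agent.Lib.SpcA
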