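import Cfsg.Agent.Lib.SpcA7
import Cfsg.Agent.Lib.PSL2Orders
import Cfsg.Agent.Lib.ClSL2Syl
import Cfsg.Agent.Lib.DihBSW

/-!
# SpcA, part 8 (helper4, for S3421): numerology
-/

set_option autoImplicit false
set_option linter.all false

namespace Cfsg.Agent.Lib.SpcA

open Subgroup NCyc

universe u v

theorem split (q : ℕ) (h3 : 3 ≤ q) (hodd : Odd q) : ∃ e o : ℕ, Even e ∧ Odd o ∧ 2 ≤ e ∧ e + o = q ∧
    (e = o + 1 ∨ o = e + 1) ∧ q * (q ^ 2 - 1) = 4 * (q * e * o) ∧
    (∀ m : ℕ, (m ∣ (q - 1) / Nat.gcd 2 (q - 1) ∨ m ∣ (q + 1) / Nat.gcd 2 (q - 1)) ↔ (m ∣ e ∨ m ∣ o)) := by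
  obtain ⟨k, hk⟩ := hodd
  have h1 : q - 1 = 2 * k := by omega
  have h2 : Nat.gcd 2 (q - 1) = 2 := by rw [h1]; simp
  have h4 : (q - 1) / 2 = k := by omega
  have h5 : (q + 1) / 2 = k + 1 := by omega
  have h6 : q ^ 2 - 1 = 4 * (k * (k + 1)) := by
    rw [hk]
    have : (2 * k + 1) ^ 2 = 4 * (k * (k + 1)) + 1 := by ring
    omega
  rw [h2, h4, h5, h6]
  rcases Nat.even_or_odd k with he | ho
  · refine ⟨k, k + 1, he, he.add_one, ?_, by omega, Or.inr rfl, by ring, fun m => Iff.rfl⟩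
    obtain ⟨c, hc⟩ := he; omega
  · refine ⟨k + 1, k, ho.add_one, ho, by omega, by omega, Or.inl rfl, by ring, fun m => Or.comm⟩

theorem card_psl (F : Type v) [Field F] [Fintype F] {e o : ℕ} (hodd : Odd (Fintype.card F))
    (h : Fintype.card F * (Fintype.card F ^ 2 - 1) = 4 * (Fintype.card F * e * o)) :
    Nat.card (Matrix.ProjectiveSpecialLinearGroup (Fin 2) F) = 2 * (Fintype.card F * e * o) := by
  have h1 := ClSL2Syl.card_PSL2 (F := F) hodd
  rw [h] at h1
  omega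

/-- no subgroup of index two isomorphic to `PSL(2,q₁)` -/
theorem Sp.no_index_two {G : Type u} [Group G] [Finite G] {p q e o : ℕ} (D : Sp G p q e o) {M : Subgroup G}
    (hM : M.index = 2) {F : Type v} [Field F] [Fintype F] (hodd : Odd (Fintype.card F))
    (i : M ≃* Matrix.ProjectiveSpecialLinearGroup (Fin 2) F) : False := by
  classical
  have h3 : 3 ≤ Fintype.card F := by
    have h1 : 1 < Fintype.card F := Fintype.one_lt_card
    obtain ⟨c, hc⟩ := hodd
    omega
  obtain ⟨e1, o1, he1, ho1, he2, hsum, hdiff, hc, hord⟩ := split _ h3 hodd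
  have hcard := card_psl F hodd hc
  set q1 := Fintype.card F with hq1
  obtain ⟨p1, hp1⟩ := CharP.exists F
  have hpp : Fact p1.Prime := ⟨CharP.char_is_prime F p1⟩
  have hMc : Nat.card M = 2 * (q1 * e1 * o1) := by rw [← hcard]; exact Nat.card_congr i.toEquiv
  have hMG : Nat.card M * 2 = 2 * q * e * o := by rw [← D.card, ← hM]; exact Subgroup.card_mul_index M
  -- an element of order e1
  have hx : ∃ x : G, orderOf x = e1 := by
    have h4 : e1 ∈ Set.range (orderOf : Matrix.ProjectiveSpecialLinearGroup (Fin 2) F → ℕ) := by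
      rw [PSL2Orders.spectrum p1]
      exact Or.inr ((hord e1).2 (Or.inl dvd_rfl))
    obtain ⟨y, hy⟩ := h4
    refine ⟨(i.symm y : M), ?_⟩
    rw [orderOf_coe, MulEquiv.orderOf_eq, hy]
  obtain ⟨x, hx⟩ := hx
  have hdvd : e1 ∣ e := by
    rw [← hx]
    apply D.clse x
    rw [hx]
    intro h
    have h5 : 2 ∣ Nat.gcd e1 e := Nat.dvd_gcd (even_iff_two_dvd.1 he1) (even_iff_two_dvd.1 D.he)
    rw [h] at h5
    norm_num at h5
  obtain ⟨c, hce⟩ := hdvd
  have heq : 2 * (q1 * o1) = q * o * c := by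
    have h5 : e1 * (2 * (q1 * o1)) = e1 * (q * o * c) := by
      have h6 : 2 * (e1 * (2 * (q1 * o1))) = 2 * (e1 * (q * o * c)) := by
        calc 2 * (e1 * (2 * (q1 * o1))) = 2 * (q1 * e1 * o1) * 2 := by ring
          _ = 2 * q * e * o := by rw [← hMc, hMG]
          _ = 2 * (e1 * (q * o * c)) := by rw [hce]; ring
      omega
    exact Nat.eq_of_mul_eq_mul_left (by omega) h5
  have hcev : Even c := by
    have h5 : Even (q * o * c) := by rw [← heq]; exact even_two_mul _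
    rcases Nat.even_mul.1 h5 with h6 | h6
    · exact absurd h6 (Nat.not_even_iff_odd.2 (D.odd_q.mul D.ho))
    · exact h6
  obtain ⟨d, hd⟩ := hcev
  have hd1 : 1 ≤ d := by
    rcases Nat.eq_zero_or_pos d with h | h
    · exfalso
      have := D.two_le_e
      rw [hd, h] at hce
      simp at hce
      omega
    · exact h
  have heq2 : q1 * o1 = q * o * d := by
    have : 2 * (q1 * o1) = 2 * (q * o * d) := by rw [heq, hd]; ring
    omega
  -- bounds
  have he3 : 2 * e1 ≤ e := by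
    rw [hce, hd]
    calc 2 * e1 = e1 * 2 := by ring
      _ ≤ e1 * (d + d) := Nat.mul_le_mul_left _ (by omega)
  have hq : 4 * e1 ≤ q + 1 := by
    have h1 := D.heo
    rcases D.hd with h | h <;> omega
  have ho : 2 * e1 ≤ o + 1 := by
    rcases D.hd with h | h <;> omega
  have hq1' : q1 ≤ 2 * e1 + 1 := by rcases hdiff with h | h <;> omega
  have ho1' : o1 ≤ e1 + 1 := by rcases hdiff with h | h <;> omega
  have h6 : q * o ≤ (2 * e1 + 1) * (e1 + 1) := by
    calc q * o ≤ q * o * d := Nat.le_mul_of_pos_right _ (by omega)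
      _ = q1 * o1 := heq2.symm
      _ ≤ (2 * e1 + 1) * (e1 + 1) := Nat.mul_le_mul hq1' ho1'
  obtain ⟨f, hf⟩ : ∃ f, e1 = f + 2 := ⟨e1 - 2, by omega⟩
  have h7 : (4 * f + 7) * (2 * f + 3) ≤ q * o := Nat.mul_le_mul (by omega) (by omega)
  have h8 : (4 * f + 7) * (2 * f + 3) ≤ (2 * e1 + 1) * (e1 + 1) := h7.trans h6
  rw [hf] at h8
  ring_nf at h8
  nlinarith [h8, Nat.zero_le f, Nat.zero_le (f ^ 2)]

end Cfsg.Agent.Lib.SpcA
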