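import Cfsg.Agent.Lib.SpcA8

/-!
# SpcA, part 9 (helper4, for S3421): fusion and conclusion
-/

set_option autoImplicit false
set_option linter.all false

namespace Cfsg.Agent.Lib.SpcA

open Subgroup NCyc

universe u

namespace Ef

variable {G : Type u} [Group G] [Finite G] {p q e o : ℕ} {b t s : G} (E : Ef G p q e o b t s)

include E

theorem invol_conj_in {P : Sylow 2 G} (hP : (P : Subgroup G) ≤ centralizer ({t} : Set G)) {x : G}
    (hx : orderOf x = 2) : ∃ c : G, c * x * c⁻¹ ∈ (P : Subgroup G) ∧ (c * x * c⁻¹) * t = t * (c * x * c⁻¹) := by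
  obtain ⟨c, _, hc⟩ := conj_into_sylow (P := P) (H := ⊤) le_top (Subgroup.mem_top x) ⟨1, by rw [pow_one]; exact hx⟩
  exact ⟨c, hc, mem_cent.1 (hP hc)⟩

/-- **the Brauer-Suzuki-Wall case** -/
theorem psl_case {P : Sylow 2 G} (hP : (P : Subgroup G) ≤ centralizer ({t} : Set G))
    (hinv : s * b * s⁻¹ = b⁻¹) (hall : ∀ x : G, orderOf x = 2 → x * t = t * x → IsConj t x) :
    ∃ (F : Type) (_ : Field F) (_ : Fintype F), Odd (Fintype.card F) ∧
      Nonempty (G ≃* Matrix.ProjectiveSpecialLinearGroup (Fin 2) F) := by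
  have hall' : ∀ x : G, orderOf x = 2 → IsConj t x := by
    intro x hx
    obtain ⟨c, _, hc⟩ := E.invol_conj_in hP hx
    have h1 := hall _ (by rw [ord_conj]; exact hx) hc
    exact h1.trans (isConj_iff.2 ⟨c⁻¹, by group⟩)
  have hset : BSW.Setup t s (zpowers b) := by
    apply mk_setup E.C.ot E.os
    · intro k hk; exact E.C.commB hk E.C.tB
    · exact E.C.tB
    · exact E.st
    · exact E.sB
    · intro h hh
      by_cases h1 : h ∈ zpowers b
      · exact Or.inl h1
      · exact Or.inr (E.sxB hh h1)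
    · intro k hk
      obtain ⟨i, rfl⟩ := mem_zpowers_iff.1 hk
      rw [← conj_zpow, hinv, inv_zpow]
    · intro k hk hkk
      by_cases h1 : k = 1
      · exact Or.inl h1
      · exact Or.inr (E.C.uniq hk (ord_two hkk h1))
    · intro g hg k hk hgk
      by_contra h1
      exact hg (E.ti hk h1 hgk)
    · intro x y hx hy
      exact (hall' x hx).symm.trans (hall' y hy)
  exact DihBSW.psl2_of_setup hset

/-- conjugation in the case where `s` inverts `B` -/
theorem conj_sy (hinv : s * b * s⁻¹ = b⁻¹) {y k : G} (hy : y ∈ zpowers b) (hk : k ∈ zpowers b) :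
    k⁻¹ * (s * y) * k = s * (y * (k * k)) := by
  have h1 : s * k * s⁻¹ = k⁻¹ := by
    obtain ⟨i, rfl⟩ := mem_zpowers_iff.1 hk
    rw [← conj_zpow, hinv, inv_zpow]
  have h2 : k⁻¹ * s = s * k := by rw [← h1]; group
  calc k⁻¹ * (s * y) * k = (k⁻¹ * s) * y * k := by group
    _ = s * (k * y) * k := by rw [h2]; group
    _ = s * (y * (k * k)) := by rw [E.C.commB hk hy]; group

/-- the case `4 ∤ e` -/
theorem case_odd {P : Sylow 2 G} (hP : (P : Subgroup G) ≤ centralizer ({t} : Set G))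
    (hsP : s ∈ (P : Subgroup G)) (tK : t ∉ zpowers (b * b)) :
    s * b * s⁻¹ = b⁻¹ ∧ ∀ x : G, orderOf x = 2 → x * t = t * x → IsConj t x := by
  obtain ⟨g, hg⟩ := E.ex
  have hbt : b * t ∈ zpowers (b * b) := E.mulK (mem_zpowers b) E.C.tB E.b_notK tK
  have hinv : s * b * s⁻¹ = b⁻¹ := by
    have h1 := E.invK hbt
    have e1 : s * b * s⁻¹ = (s * (b * t) * s⁻¹) * (s * t * s⁻¹)⁻¹ := by group
    have e2 : s * t * s⁻¹ = t := comm_iff.2 E.st
    rw [e1, h1, e2, mul_inv_rev, E.C.commB (inv_mem E.C.tB) (inv_mem (mem_zpowers b)), mul_assoc, ← mul_inv_rev,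
      E.tt, inv_one, mul_one]
  refine ⟨hinv, ?_⟩
  intro x hx hxt
  by_contra hcon
  -- x = s y with y ∉ K
  have hxB : x ∉ zpowers b := by
    intro h; apply hcon; rw [E.C.uniq h hx]
  have hyB := E.sxB hxt hxB
  have hx2 : s * (s * x) = x := by rw [← mul_assoc, E.ss, one_mul]
  have hts : IsConj t s := isConj_iff.2 ⟨g, hg⟩
  have hyK : s * x ∉ zpowers (b * b) := by
    intro h
    obtain ⟨k, hk, hkk⟩ := E.memK h
    apply hcon
    have h1 := E.conj_sy hinv (one_mem _) hk
    rw [mul_one, one_mul, hkk, hx2] at h1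
    exact hts.trans (isConj_iff.2 ⟨k⁻¹, by rw [inv_inv]; exact h1⟩)
  have h2 : t * (s * x) ∈ zpowers (b * b) := E.mulK E.C.tB hyB tK hyK
  have hst2 : orderOf (s * t) = 2 := by
    apply ord_two
    · calc s * t * (s * t) = s * (t * s) * t := by group
        _ = (s * s) * (t * t) := by rw [← E.st]; group
        _ = 1 := by rw [E.ss, E.tt, one_mul]
    · intro h
      apply E.ne
      have := eq_inv_of_mul_eq_one_left h
      rw [this, inv_of E.C.ot]
  have hnst : ¬ IsConj t (s * t) := by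
    intro h
    apply hcon
    obtain ⟨k, hk, hkk⟩ := E.memK h2
    have h1 := E.conj_sy hinv E.C.tB hk
    have h3 : t * (k * k) = s * x := by rw [hkk, ← mul_assoc, E.tt, one_mul]
    rw [h3, hx2] at h1
    exact h.trans (isConj_iff.2 ⟨k⁻¹, by rw [inv_inv]; exact h1⟩)
  -- t ∈ P
  have htP : t ∈ (P : Subgroup G) := by
    obtain ⟨c, hc, hcP⟩ := conj_into_sylow hP (mem_cent.2 (rfl : t * t = t * t)) ⟨1, by rw [pow_one]; exact E.C.ot⟩
    have : c * t * c⁻¹ = t := comm_iff.2 (mem_cent.1 hc)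
    rwa [this] at hcP
  -- transfer
  have hQ : ((P : Subgroup G) ⊓ zpowers b).relIndex (P : Subgroup G) = 2 := by
    apply relIndex_two ⟨s, hsP, E.sB⟩
    intro a ha c hc haB hcB
    exact E.C.mulB (mem_cent.1 (hP ha)) (mem_cent.1 (hP hc)) haB hcB
  obtain ⟨M, hMn, hMi, huM⟩ := ThompsonTransfer.thompson_transfer P _ hQ (s * t) hst2 (mul_mem hsP htP) (by
    intro g hg
    have h3 := E.C.uniq hg.2 (by rw [ord_conj]; exact hst2)
    apply hnst
    exact (isConj_iff.2 ⟨g, h3⟩ : IsConj (s * t) t).symm)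
  have hiff : t ∈ M ↔ s ∈ M := by
    constructor
    · intro h; rw [← hg]; exact hMn.conj_mem t h g
    · intro h
      have := hMn.conj_mem s h g⁻¹
      rw [← hg] at this
      have e1 : g⁻¹ * (g * t * g⁻¹) * g⁻¹⁻¹ = t := by group
      rwa [e1] at this
  apply huM
  rw [Subgroup.mul_mem_iff_of_index_two hMi]
  exact hiff.symm

/-- the case `4 ∣ e`: transfer -/
theorem no_transfer {P : Sylow 2 G} (hP : (P : Subgroup G) ≤ centralizer ({t} : Set G))
    (hsP : s ∈ (P : Subgroup G)) (tK : t ∈ zpowers (b * b))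
    (hstar : ∀ a : G, orderOf a = 2 → a * t = t * a → IsConj t a → a ∈ E.mid) : False := by
  have hfus : ∀ a ∈ (P : Subgroup G), ∀ g : G, g * a * g⁻¹ ∈ (P : Subgroup G) →
      (a ∈ (P : Subgroup G) ⊓ E.mid ↔ g * a * g⁻¹ ∈ (P : Subgroup G) ⊓ E.mid) := by
    intro a ha g hga
    have hat := mem_cent.1 (hP ha)
    have hgat := mem_cent.1 (hP hga)
    have key : a ∈ E.mid ↔ g * a * g⁻¹ ∈ E.mid := by
      by_cases ha1 : a = 1
      · rw [ha1]; simp
      by_cases haa : a * a = 1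
      · have oa := ord_two haa ha1
        have oga : orderOf (g * a * g⁻¹) = 2 := by rw [ord_conj]; exact oa
        constructor
        · intro h
          exact hstar _ oga hgat ((E.mid_isConj tK h oa).trans (isConj_iff.2 ⟨g, rfl⟩))
        · intro h
          exact hstar _ oa hat ((E.mid_isConj tK h oga).trans (isConj_iff.2 ⟨g⁻¹, by group⟩))
      · have h1 : a * a ∈ zpowers b := E.C.sqB hat
        have h2 : g * (a * a) * g⁻¹ ∈ zpowers b := by
          have := E.C.sqB hgat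
          have e1 : g * a * g⁻¹ * (g * a * g⁻¹) = g * (a * a) * g⁻¹ := by group
          rwa [e1] at this
        have h3 := E.ti h1 haa h2
        exact E.mid_conj_iff tK h3
    constructor
    · intro h; exact ⟨hga, key.1 h.2⟩
    · intro h; exact ⟨ha, key.2 h.2⟩
  have hex : ∃ a ∈ (P : Subgroup G), a ∉ E.mid := by
    by_contra hcon
    push Not at hcon
    -- |P| divides |mid|, but mid has index two in C(t)
    have hb : b ∉ E.mid := fun h => E.b_notK (E.mid_B (mem_zpowers b) h)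
    have h1 : (E.mid.subgroupOf (centralizer ({t} : Set G))).index = 2 := by
      have h2 := relIndex_two (P := centralizer ({t} : Set G)) (C := E.mid)
        ⟨b, E.C.BleC (mem_zpowers b), hb⟩ (fun x hx y hy hxm hym =>
          E.mid_mul tK (mem_cent.1 hx) (mem_cent.1 hy) hxm hym)
      rwa [inf_comm, Subgroup.inf_relIndex_right] at h2
    have h3 : E.mid.relIndex (centralizer ({t} : Set G)) = 2 := h1
    have h4 : (P : Subgroup G) ≤ E.mid := hcon
    have h5 : 2 ∣ (P : Subgroup G).index := by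
      have h6 := Subgroup.relIndex_mul_relIndex (P : Subgroup G) E.mid (centralizer ({t} : Set G)) h4 E.mid_le
      have h7 := Subgroup.relIndex_mul_index (hP)
      rw [← h7, ← h6, h3, mul_assoc]
      exact Dvd.dvd.mul_left (Dvd.intro _ rfl) _
    have : Fact (Nat.Prime 2) := ⟨Nat.prime_two⟩
    exact P.not_dvd_index h5
  have hQ : ((P : Subgroup G) ⊓ E.mid).relIndex (P : Subgroup G) = 2 := by
    apply relIndex_two hex
    intro a ha c hc haB hcB
    exact E.mid_mul tK (mem_cent.1 (hP ha)) (mem_cent.1 (hP hc)) haB hcB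
  have : Fact (Nat.Prime 2) := ⟨Nat.prime_two⟩
  obtain ⟨M, hMn, hMi, hM⟩ := transfer_strong (P : Subgroup G) P.not_dvd_index _ hQ hfus
  have htP : t ∈ (P : Subgroup G) := by
    obtain ⟨c, hc, hcP⟩ := conj_into_sylow hP (mem_cent.2 (rfl : t * t = t * t)) ⟨1, by rw [pow_one]; exact E.C.ot⟩
    have : c * t * c⁻¹ = t := comm_iff.2 (mem_cent.1 hc)
    rwa [this] at hcP
  have htM : t ∈ M := (hM t htP).2 ⟨htP, E.K_le_mid tK⟩
  have hsM : s ∈ M := (hM s hsP).2 ⟨hsP, E.s_mid⟩
  have hKM : zpowers (b * b) ≤ M := by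
    rw [zpowers_le]
    have := Subgroup.sq_mem_of_index_two hMi b
    rwa [pow_two] at this
  have hmidM : E.mid ≤ M := by
    intro h hh
    rcases hh with h1 | h1
    · exact hKM h1
    · have e1 : h = s⁻¹ * (s * h) := by group
      rw [e1]; exact mul_mem (inv_mem hsM) (hKM h1)
  obtain ⟨u, huP, hum⟩ := hex
  have huM : u ∉ M := fun h => hum ((hM u huP).1 h).2
  have hut := mem_cent.1 (hP huP)
  have hCM : ∀ h ∈ M, h * t = t * h → h ∈ E.mid := by
    intro h hhM hht
    by_contra hhm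
    have h1 := E.mid_mul tK hut hht hum hhm
    apply huM
    have e1 : u = (u * h) * h⁻¹ := by group
    rw [e1]; exact mul_mem (hmidM h1) (inv_mem hhM)
  -- all involutions of M are conjugate in M
  have hallM : ∀ x ∈ M, orderOf x = 2 → ∃ g ∈ M, g * x * g⁻¹ = t := by
    intro x hxM hx
    obtain ⟨c, hcP, hct⟩ := E.invol_conj_in hP hx
    have h1 : c * x * c⁻¹ ∈ M := hMn.conj_mem x hxM c
    have h2 : c * x * c⁻¹ ∈ E.mid := hCM _ h1 hct
    have h3 := E.mid_isConj tK h2 (by rw [ord_conj]; exact hx)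
    obtain ⟨d, hd⟩ := isConj_iff.1 h3.symm
    have h4 : (d * c) * x * (d * c)⁻¹ = t := by rw [← hd]; group
    by_cases h5 : d * c ∈ M
    · exact ⟨d * c, h5, h4⟩
    · refine ⟨u * (d * c), ?_, ?_⟩
      · rw [Subgroup.mul_mem_iff_of_index_two hMi]
        exact ⟨fun h => absurd h huM, fun h => absurd h h5⟩
      · calc u * (d * c) * x * (u * (d * c))⁻¹ = u * ((d * c) * x * (d * c)⁻¹) * u⁻¹ := by group
          _ = u * t * u⁻¹ := by rw [h4]
          _ = t := comm_iff.2 hut
  have hset : BSW.Setup (⟨t, htM⟩ : M) (⟨s, hsM⟩ : M) ((zpowers (b * b)).subgroupOf M) := by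
    apply mk_setup
    · rw [Subgroup.orderOf_mk]; exact E.C.ot
    · rw [Subgroup.orderOf_mk]; exact E.os
    · intro k hk; exact Subtype.ext (E.C.commB (E.KB hk) E.C.tB)
    · exact tK
    · exact Subtype.ext E.st
    · intro h; exact E.sB (E.KB h)
    · intro h hh
      exact hCM h h.2 (congrArg Subtype.val hh)
    · intro k hk; exact Subtype.ext (E.invK hk)
    · intro k hk hkk
      by_cases h1 : (k : G) = 1
      · exact Or.inl (Subtype.ext h1)
      · exact Or.inr (Subtype.ext (E.C.uniq (E.KB hk) (ord_two (congrArg Subtype.val hkk) h1)))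
    · intro g hg k hk hgk
      by_contra h1
      apply hg
      apply Subtype.ext
      exact E.ti (g := (g : G)) (y := (k : G)) (E.KB hk) (fun h => h1 (Subtype.ext h)) (E.KB hgk)
    · intro x y hx hy
      obtain ⟨g1, hg1, h1⟩ := hallM x x.2 (by rw [orderOf_coe]; exact hx)
      obtain ⟨g2, hg2, h2⟩ := hallM y y.2 (by rw [orderOf_coe]; exact hy)
      have h3 : IsConj x (⟨t, htM⟩ : M) := isConj_iff.2 ⟨⟨g1, hg1⟩, Subtype.ext h1⟩
      have h4 : IsConj y (⟨t, htM⟩ : M) := isConj_iff.2 ⟨⟨g2, hg2⟩, Subtype.ext h2⟩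
      exact h3.trans h4.symm
  obtain ⟨F, hF, hFf, hodd, ⟨i⟩⟩ := DihBSW.psl2_of_setup hset
  exact E.C.D.no_index_two hMi hodd i

/-- the case `4 ∣ e` -/
theorem case_even {P : Sylow 2 G} (hP : (P : Subgroup G) ≤ centralizer ({t} : Set G))
    (hsP : s ∈ (P : Subgroup G)) (tK : t ∈ zpowers (b * b)) :
    s * b * s⁻¹ = b⁻¹ ∧ ∀ x : G, orderOf x = 2 → x * t = t * x → IsConj t x := by
  rcases E.inv_or (mem_zpowers b) with hinv | hinv
  · refine ⟨hinv, ?_⟩
    by_contra hcon
    push Not at hcon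
    obtain ⟨x0, hx0, hx0t, hx0c⟩ := hcon
    apply E.no_transfer hP hsP tK
    intro a oa hat hta
    by_contra ham
    apply hx0c
    -- x0 and a are both outside mid
    have hx0m : x0 ∉ E.mid := fun h => hx0c (E.mid_isConj tK h hx0)
    have hx0B : x0 ∉ zpowers b := by
      intro h; exact hx0c (by rw [E.C.uniq h hx0])
    have haB : a ∉ zpowers b := by
      intro h
      apply ham
      rw [E.C.uniq h oa]; exact E.K_le_mid tK
    have h1 := E.sxB hx0t hx0B
    have h2 := E.sxB hat haB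
    have h3 : (s * a)⁻¹ ∉ zpowers (b * b) := fun h => ham (Or.inr (by rw [← inv_inv (s * a)]; exact inv_mem h))
    have h4 : s * x0 ∉ zpowers (b * b) := fun h => hx0m (Or.inr h)
    have h5 := E.mulK (inv_mem h2) h1 h3 h4
    obtain ⟨k, hk, hkk⟩ := E.memK h5
    have h6 := E.conj_sy hinv h2 hk
    rw [hkk] at h6
    have e1 : s * (s * a * ((s * a)⁻¹ * (s * x0))) = (s * s) * x0 := by group
    have e2 : s * (s * a) = a := by rw [← mul_assoc, E.ss, one_mul]
    rw [e1, E.ss, one_mul, e2] at h6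
    exact hta.trans (isConj_iff.2 ⟨k⁻¹, by rw [inv_inv]; exact h6⟩)
  · exfalso
    apply E.no_transfer hP hsP tK
    intro a oa hat _
    by_contra ham
    have haB : a ∉ zpowers b := by
      intro h
      apply ham
      rw [E.C.uniq h oa]; exact E.K_le_mid tK
    have h2 := E.sxB hat haB
    have h3 : s * a ∉ zpowers (b * b) := fun h => ham (Or.inr h)
    -- s a = b z with z ∈ K
    have hbi : b⁻¹ ∉ zpowers (b * b) := by
      intro h
      have := inv_mem h
      rw [inv_inv] at this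
      exact E.b_notK this
    have h4 : b⁻¹ * (s * a) ∈ zpowers (b * b) :=
      E.mulK (inv_mem (mem_zpowers b)) h2 hbi h3
    have h5 := E.invK h4
    have h6 : s * (s * a) * s⁻¹ = (s * a)⁻¹ * t := by
      have e1 : s * (s * a) * s⁻¹ = (s * b * s⁻¹) * (s * (b⁻¹ * (s * a)) * s⁻¹) := by group
      rw [e1, hinv, h5]
      have h7 : t * (b⁻¹ * (s * a))⁻¹ = (b⁻¹ * (s * a))⁻¹ * t := E.C.commB E.C.tB (inv_mem (E.KB h4))
      calc b⁻¹ * t * (b⁻¹ * (s * a))⁻¹ = b⁻¹ * (t * (b⁻¹ * (s * a))⁻¹) := by group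
        _ = b⁻¹ * (s * a)⁻¹ * b * t := by rw [h7]; group
        _ = (s * a)⁻¹ * b⁻¹ * b * t := by rw [E.C.commB (inv_mem (mem_zpowers b)) (inv_mem h2)]
        _ = (s * a)⁻¹ * t := by group
    have e2 : s * (s * a) * s⁻¹ = a * s := by
      rw [← mul_assoc s s a, E.ss, one_mul, E.si]
    have e3 : (s * a)⁻¹ = a * s := by rw [mul_inv_rev, E.si, inv_of oa]
    rw [e2, e3] at h6
    have h8 : t = 1 := by
      have : a * s * 1 = a * s * t := by rw [mul_one]; exact h6
      exact (mul_left_cancel this).symm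
    exact ne_one_of E.C.ot h8

end Ef

/-- **the main theorem in odd characteristic** -/
theorem odd_case {G : Type u} [Group G] [Finite G] {p q e o : ℕ} (D : Sp G p q e o) (hFT : FT.{u}) :
    ∃ (F : Type) (_ : Field F) (_ : Fintype F), Fintype.card F = q ∧
      Nonempty (G ≃* Matrix.ProjectiveSpecialLinearGroup (Fin 2) F) := by
  obtain ⟨b, hb⟩ := D.exe
  have C : Cf G p q e o b (b ^ (e / 2)) := ⟨D, hb, rfl⟩
  set t := b ^ (e / 2) with ht
  obtain ⟨⟨P, hP⟩, _⟩ := C.exists_sylow_card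
  obtain ⟨g, hg1, hg2⟩ := exists_fused hFT D.hs C.ot
  obtain ⟨c, hc, hcP⟩ := conj_into_sylow hP (mem_cent.2 hg2) ⟨1, by rw [pow_one, ord_conj]; exact C.ot⟩
  have hct : c * t * c⁻¹ = t := comm_iff.2 (mem_cent.1 hc)
  have E : Ef G p q e o b t (c * (g * t * g⁻¹) * c⁻¹) := by
    refine ⟨C, ⟨c * g, by group⟩, ?_, mem_cent.1 (hP hcP)⟩
    intro h
    apply hg1
    have h1 : g * t * g⁻¹ = c⁻¹ * (c * (g * t * g⁻¹) * c⁻¹) * c := by group
    rw [h1, h]
    calc c⁻¹ * t * c = c⁻¹ * (c * t * c⁻¹) * c := by rw [hct]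
      _ = t := by group
  have key : (c * (g * t * g⁻¹) * c⁻¹) * b * (c * (g * t * g⁻¹) * c⁻¹)⁻¹ = b⁻¹ ∧
      ∀ x : G, orderOf x = 2 → x * t = t * x → IsConj t x := by
    by_cases tK : t ∈ zpowers (b * b)
    · exact E.case_even hP hcP tK
    · exact E.case_odd hP hcP tK
  obtain ⟨F, hF, hFf, hodd, ⟨i⟩⟩ := E.psl_case hP key.1 key.2
  refine ⟨F, hF, hFf, ?_, ⟨i⟩⟩
  have h1 := ClSL2Syl.card_PSL2 (F := F) hodd
  rw [← Nat.card_congr i.toEquiv, D.card] at h1
  have h2 : 2 * (2 * q * e * o) = q * (q ^ 2 - 1) := by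
    have h3 : q ^ 2 - 1 = 4 * (e * o) := by
      rcases D.hd with h | h
      · have : q = 2 * o + 1 := by have := D.heo; omega
        rw [this, h]
        have : (2 * o + 1) ^ 2 = 4 * ((o + 1) * o) + 1 := by ring
        omega
      · have : q = 2 * e + 1 := by have := D.heo; omega
        rw [this, h]
        have : (2 * e + 1) ^ 2 = 4 * (e * (e + 1)) + 1 := by ring
        omega
    rw [h3]; ring
  rw [h2] at h1
  by_contra hne
  have hF1 : 1 < Fintype.card F := Fintype.one_lt_card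
  have h5 := D.h5
  have mono : ∀ x y : ℕ, 1 < x → x < y → x * (x ^ 2 - 1) < y * (y ^ 2 - 1) := by
    intro x y hx hxy
    have h6 : x ^ 2 ≤ y ^ 2 := Nat.pow_le_pow_left hxy.le 2
    have h7 : 0 < x ^ 2 - 1 := by
      have : 2 ^ 2 ≤ x ^ 2 := Nat.pow_le_pow_left hx 2
      omega
    calc x * (x ^ 2 - 1) < y * (x ^ 2 - 1) := Nat.mul_lt_mul_of_pos_right hxy h7
      _ ≤ y * (y ^ 2 - 1) := Nat.mul_le_mul_left _ (by omega)
  rcases Nat.lt_or_gt_of_ne hne with h6 | h6
  · have := mono _ _ hF1 h6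
    omega
  · have := mono _ _ (by omega) h6
    omega

end Cfsg.Agent.Lib.SpcA
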