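import Cfsg.Agent.Lib.SL2PresH83
import Cfsg.Agent.Lib.SpecialRankOne
set_option autoImplicit false

/-!
# `⟨a, b(a)⟩` in a special rank one group of characteristic `p` (helper83)
-/

namespace Cfsg.Agent.Lib.SpecialSL2
open Matrix Cfsg Subgroup
open Cfsg.Agent.Lib.RankOneGrp Cfsg.Agent.Lib.SpecialRankOne
open Cfsg.Agent.Lib.SL2RankOne Cfsg.Agent.Lib.SL2PresH83

variable {G : Type*} [Group G] {A B : Subgroup G}

section zp
variable {p : ℕ} [hp : Fact p.Prime]

/-- powers with exponent modulo `p` -/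
def zp (x : G) (t : ZMod p) : G := x ^ t.val

lemma zp_natCast {x : G} (hx : x ^ p = 1) (m : ℕ) : zp x (m : ZMod p) = x ^ m := by
  unfold zp
  rw [ZMod.val_natCast, ← pow_eq_pow_mod m hx]

lemma zp_one {x : G} (hx : x ^ p = 1) : zp x (1 : ZMod p) = x := by
  have := zp_natCast hx 1
  rwa [Nat.cast_one, pow_one] at this

lemma zp_add {x : G} (hx : x ^ p = 1) (s t : ZMod p) : zp x (s + t) = zp x s * zp x t := by
  have h1 : s + t = ((s.val + t.val : ℕ) : ZMod p) := by
    rw [Nat.cast_add, ZMod.natCast_zmod_val, ZMod.natCast_zmod_val]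
  conv_lhs => rw [h1]
  rw [zp_natCast hx, pow_add]; rfl

lemma zp_mul {x : G} (hx : x ^ p = 1) (s t : ZMod p) : zp (zp x s) t = zp x (s * t) := by
  have h1 : s * t = ((s.val * t.val : ℕ) : ZMod p) := by
    rw [Nat.cast_mul, ZMod.natCast_zmod_val, ZMod.natCast_zmod_val]
  conv_rhs => rw [h1]
  rw [zp_natCast hx, pow_mul]; rfl

omit hp in
lemma zp_mem {K : Subgroup G} {x : G} (hx : x ∈ K) (t : ZMod p) : zp x t ∈ K := K.pow_mem hx _

omit hp in
lemma zp_pow {x : G} (hx : x ^ p = 1) (t : ZMod p) : (zp x t) ^ p = 1 := by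
  unfold zp; rw [← pow_mul, mul_comm, pow_mul, hx, one_pow]

lemma zp_ne_one {x : G} (hx : x ^ p = 1) (hx1 : x ≠ 1) {t : ZMod p} (ht : t ≠ 0) : zp x t ≠ 1 := by
  intro h
  apply hx1
  have h1 := zp_mul hx t t⁻¹
  rw [mul_inv_cancel₀ ht, zp_one hx, h] at h1
  rw [← h1]; unfold zp; rw [one_pow]

omit hp in
lemma zp_conj (n x : G) (t : ZMod p) : n * zp x t * n⁻¹ = zp (n * x * n⁻¹) t := by
  unfold zp; rw [conj_pow]

end zp

/-- the relations of `SL₂(p)` -/
theorem rel (h : IsSpecialRankOnePair A B) (hab : HasAbelianUnipotents A B) {p : ℕ}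
    [Fact p.Prime] {a s : G} (hs : Star A B a s) (hap : a ^ p = 1) :
    Rel (F := ZMod p) (fun t => zp a t) (fun t => zp s (-t)) := by
  have hsp : s ^ p = 1 := by
    have := n_conj_a h hs
    rw [← this, conj_pow, hap]; group
  have hstar : ∀ t : ZMod p, t ≠ 0 → Star A B (zp a t) (zp s t⁻¹) := by
    intro t ht
    obtain ⟨u, hu⟩ := exists_star h.1 (zp_mem hs.1 t) (zp_ne_one hap hs.2.1 ht)
    have h1 : u ^ t.val = s := by
      refine star_pow t.val h hab ?_ hs hu
      rw [Nat.one_le_iff_ne_zero]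
      intro h0
      apply ht
      rw [← ZMod.natCast_zmod_val t, h0, Nat.cast_zero]
    have hup : u ^ p = 1 := by
      have := n_conj_a h hu
      rw [← this, conj_pow, zp_pow hap]; group
    have h2 : zp u t = s := h1
    have h3 : u = zp s t⁻¹ := by
      rw [← h2, zp_mul hup, mul_inv_cancel₀ ht, zp_one hup]
    rw [← h3]; exact hu
  have hW : ∀ t : ZMod p, SL2PresH83.W (fun t => zp a t) (fun t => zp s (-t)) t =
      zp a t * zp s t⁻¹ * zp a t := by
    intro t
    show zp a t * zp s (- -t⁻¹) * zp a t = _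
    rw [neg_neg]
  refine ⟨fun s t => zp_add hap s t, fun q t => ?_, ?_⟩
  · show zp s (-(q + t)) = zp s (-q) * zp s (-t)
    rw [neg_add, zp_add hsp]
  · intro t r ht
    rw [hW]
    show _ * zp a r = zp s (- -(r / t ^ 2)) * _
    rw [neg_neg, ← mul_inv_eq_iff_eq_mul]
    have h1 := n_conj_a h (hstar t ht)
    have h2 : zp a r = zp (zp a t) (r / t) := by
      rw [zp_mul hap]; congr 1; field_simp
    rw [h2, zp_conj, h1, zp_mul hsp]
    congr 1
    field_simp

/-- S5022 -/
theorem closure_iso (h : IsSpecialRankOnePair A B) (hab : HasAbelianUnipotents A B) {p : ℕ}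
    [hp : Fact p.Prime] {a s : G} (hs : Star A B a s) (hap : a ^ p = 1) :
    Nonempty (↥(Subgroup.closure ({a, s} : Set G)) ≃* SpecialLinearGroup (Fin 2) (ZMod p)) ∨
    Nonempty (↥(Subgroup.closure ({a, s} : Set G)) ≃*
      ProjectiveSpecialLinearGroup (Fin 2) (ZMod p)) := by
  have hsp : s ^ p = 1 := by
    have := n_conj_a h hs
    rw [← this, conj_pow, hap]; group
  obtain ⟨φ, hφ1, hφ2⟩ := exists_hom_of_finite (rel h hab hs hap)
  have hup : ∀ t, φ (up t) = zp a t := hφ1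
  have hlo : ∀ t, φ (lo t) = zp s (-t) := hφ2
  have hlow : (lowerUnipotentSL2 (ZMod p)).map φ ≤ B := by
    rintro _ ⟨g, hg, rfl⟩
    obtain ⟨t, rfl⟩ := mem_lower.1 hg
    rw [hlo]
    exact zp_mem hs.2.2.1 _
  have haφ : a ∈ φ.range := ⟨up 1, by rw [hup, zp_one hap]⟩
  have hsφ : s ∈ φ.range := ⟨lo (-1), by rw [hlo, neg_neg, zp_one hsp]⟩
  have hrange : φ.range = Subgroup.closure ({a, s} : Set G) := by
    apply le_antisymm
    · rw [MonoidHom.range_eq_map, ← SL2RankOne.sup_eq_top, Subgroup.map_sup]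
      refine sup_le ?_ ?_
      · rintro _ ⟨g, hg, rfl⟩
        obtain ⟨t, rfl⟩ := mem_lower.1 hg
        rw [hlo]
        exact zp_mem (Subgroup.subset_closure (by simp)) _
      · rintro _ ⟨g, hg, rfl⟩
        obtain ⟨t, rfl⟩ := mem_upper.1 hg
        rw [hup]
        exact zp_mem (Subgroup.subset_closure (by simp)) _
    · rw [Subgroup.closure_le]
      rintro x (rfl | rfl)
      · exact haφ
      · exact hsφ
  rw [← hrange]
  apply range_iso
  intro e
  apply hs.2.1
  have h1 : a ∈ A ⊓ B := ⟨hs.1, hlow (by rw [← e]; exact haφ)⟩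
  rw [inf_eq_bot h.1] at h1
  exact Subgroup.mem_bot.1 h1

end Cfsg.Agent.Lib.SpecialSL2
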