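import Cfsg.Agent.Lib.BNPair
import Cfsg.Prelude.Def_KGroupFacts
set_option autoImplicit false
set_option linter.unusedSectionVars false

/-!
Automorphisms of a finite group with a split BN-pair: reduction to the automorphisms preserving `U` and the opposite `V`.
-/

namespace Cfsg.Agent.Lib.SplitOut
open Cfsg.Agent.Lib.BNPair

/-- a split BN-pair with an opposite -/
structure Sp (Γ : Type*) [Group Γ] (ι : Type*) where
  P : Cfsg.BNPair Γ
  U : Subgroup Γ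
  V : Subgroup Γ
  H : Subgroup Γ
  n0 : Γ
  n : ι → Γ
  S_eq : P.S = Set.range n
  U_le : U ≤ P.B
  B_eq : ∀ b ∈ P.B, ∃ u ∈ U, ∃ h ∈ H, b = u * h
  H_le : H ≤ P.B ⊓ P.N
  BN_le : P.B ⊓ P.N ≤ H
  norm_U : ∀ b ∈ P.B, ∀ u ∈ U, b * u * b⁻¹ ∈ U
  n0_N : n0 ∈ P.N
  n0_U : ∀ g, n0 * g * n0⁻¹ ∈ V ↔ g ∈ U
  n0_V : ∀ g, n0 * g * n0⁻¹ ∈ U ↔ g ∈ V
  BV : ∀ g ∈ P.B, g ∈ V → g = 1
  sep : ∀ m ∈ P.N, m ∉ P.B → ∃ u ∈ U, u ≠ 1 ∧ m * u * m⁻¹ ∈ V
  opp : ∀ m ∈ P.N, (∀ u ∈ U, m * u * m⁻¹ ∈ U → u = 1) → ∀ g, m * g * m⁻¹ ∈ V ↔ g ∈ U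
  cen : ∀ h ∈ H, (∀ u ∈ U, h * u * h⁻¹ = u) → h = 1

variable {Γ ι : Type*} [Group Γ]

namespace Sp
variable (A : Sp Γ ι)
include A

theorem norm_U' {b u : Γ} (hb : b ∈ A.P.B) : b * u * b⁻¹ ∈ A.U ↔ u ∈ A.U := by
  refine ⟨fun h => ?_, A.norm_U b hb u⟩
  have h1 := A.norm_U b⁻¹ (inv_mem hb) _ h
  have e : b⁻¹ * (b * u * b⁻¹) * b⁻¹⁻¹ = u := by group
  rwa [e] at h1

theorem norm_U'' {b u : Γ} (hb : b ∈ A.P.B) : b⁻¹ * u * b ∈ A.U ↔ u ∈ A.U := by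
  have h1 := A.norm_U' (u := u) (inv_mem hb)
  rwa [inv_inv] at h1

/-- conjugation of `V` to `U` by `n0⁻¹` -/
theorem n0_V' (g : Γ) : A.n0⁻¹ * g * A.n0 ∈ A.U ↔ g ∈ A.V := by
  rw [← A.n0_U]
  have e : A.n0 * (A.n0⁻¹ * g * A.n0) * A.n0⁻¹ = g := by group
  rw [e]

theorem n0_U' (g : Γ) : A.n0⁻¹ * g * A.n0 ∈ A.V ↔ g ∈ A.U := by
  rw [← A.n0_V]
  have e : A.n0 * (A.n0⁻¹ * g * A.n0) * A.n0⁻¹ = g := by group
  rw [e]

theorem H_mem_B {h : Γ} (hh : h ∈ A.H) : h ∈ A.P.B := (A.H_le hh).1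

theorem n0_H {h : Γ} (hh : h ∈ A.H) : A.n0 * h * A.n0⁻¹ ∈ A.P.B := A.P.conj_mem _ A.n0_N _ (A.H_le hh)

theorem n0_H' {h : Γ} (hh : h ∈ A.H) : A.n0⁻¹ * h * A.n0 ∈ A.P.B := by
  have := A.P.conj_mem _ (inv_mem A.n0_N) _ (A.H_le hh)
  rwa [inv_inv] at this

theorem norm_V {h v : Γ} (hh : h ∈ A.H) (hv : v ∈ A.V) : h * v * h⁻¹ ∈ A.V := by
  rw [← A.n0_V] at hv ⊢
  have h1 := A.norm_U _ (A.n0_H hh) _ hv
  have e : A.n0 * h * A.n0⁻¹ * (A.n0 * v * A.n0⁻¹) * (A.n0 * h * A.n0⁻¹)⁻¹ = A.n0 * (h * v * h⁻¹) * A.n0⁻¹ := by group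
  rwa [e] at h1

/-- an element conjugating `U` into `B` lies in `B` -/
theorem mem_B_of_conj {g : Γ} (h : ∀ u ∈ A.U, g * u * g⁻¹ ∈ A.P.B) : g ∈ A.P.B := by
  obtain ⟨m, hm, b, hb, b', hb', hg⟩ := exists_N (P := A.P) g
  by_contra hcon
  have hmB : m ∉ A.P.B := by
    intro h1
    exact hcon (by rw [hg]; exact mul_mem (mul_mem hb h1) hb')
  obtain ⟨u, hu, hu1, hv⟩ := A.sep m hm hmB
  apply hu1
  have h1 := h _ ((A.norm_U'' (u := u) hb').mpr hu)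
  have e : g * (b'⁻¹ * u * b') * g⁻¹ = b * (m * u * m⁻¹) * b⁻¹ := by rw [hg]; group
  rw [e] at h1
  have h2 : m * u * m⁻¹ ∈ A.P.B := by
    have := mul_mem (mul_mem (inv_mem hb) h1) hb
    have e : b⁻¹ * (b * (m * u * m⁻¹) * b⁻¹) * b = m * u * m⁻¹ := by group
    rwa [e] at this
  have h3 := A.BV _ h2 hv
  calc u = m⁻¹ * (m * u * m⁻¹) * m := by group
    _ = 1 := by rw [h3]; group

theorem mem_H_iff {h : Γ} : h ∈ A.H ↔ h ∈ A.P.B ∧ A.n0⁻¹ * h * A.n0 ∈ A.P.B := by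
  refine ⟨fun hh => ⟨A.H_mem_B hh, A.n0_H' hh⟩, ?_⟩
  rintro ⟨h1, h2⟩
  obtain ⟨u, hu, k, hk, rfl⟩ := A.B_eq h h1
  have h3 := mul_mem h2 (inv_mem (A.n0_H' hk))
  have e : A.n0⁻¹ * (u * k) * A.n0 * (A.n0⁻¹ * k * A.n0)⁻¹ = A.n0⁻¹ * u * A.n0 := by group
  rw [e] at h3
  have h4 := A.BV _ h3 ((A.n0_U' u).mpr hu)
  have h5 : u = 1 := by
    calc u = A.n0 * (A.n0⁻¹ * u * A.n0) * A.n0⁻¹ := by group
      _ = 1 := by rw [h4]; group
  rw [h5, one_mul]; exact hk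

/-- if `g U g⁻¹` meets `U` trivially then it is `u V u⁻¹` -/
theorem opposite {g : Γ} (h : ∀ u ∈ A.U, g * u * g⁻¹ ∈ A.U → u = 1) :
    ∃ u ∈ A.U, ∀ x : Γ, g⁻¹ * x * g ∈ A.U ↔ u⁻¹ * x * u ∈ A.V := by
  obtain ⟨m, hm, b, hb, b', hb', hg⟩ := exists_N (P := A.P) g
  obtain ⟨u, hu, k, hk, hb2⟩ := A.B_eq b hb
  have hkm : k * m ∈ A.P.N := mul_mem (A.H_le hk).2 hm
  have h1 := A.opp (k * m) hkm (fun v hv h2 => by
    have h3 := h _ ((A.norm_U'' (u := v) hb').mpr hv) (by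
      have e : g * (b'⁻¹ * v * b') * g⁻¹ = u * (k * m * v * (k * m)⁻¹) * u⁻¹ := by rw [hg, hb2]; group
      rw [e]
      exact mul_mem (mul_mem hu h2) (inv_mem hu))
    calc v = b' * (b'⁻¹ * v * b') * b'⁻¹ := by group
      _ = 1 := by rw [h3]; group)
  refine ⟨u, hu, fun x => ?_⟩
  have e : g⁻¹ * x * g = b'⁻¹ * ((k * m)⁻¹ * (u⁻¹ * x * u) * (k * m)) * b' := by rw [hg, hb2]; group
  rw [e, A.norm_U'' hb', ← h1]
  have e2 : k * m * ((k * m)⁻¹ * (u⁻¹ * x * u) * (k * m)) * (k * m)⁻¹ = u⁻¹ * x * u := by group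
  rw [e2]

omit A in
/-- automorphisms preserving `U` and `V` -/
structure Std (A : Sp Γ ι) (θ : MulAut Γ) : Prop where
  U : ∀ g, θ g ∈ A.U ↔ g ∈ A.U
  V : ∀ g, θ g ∈ A.V ↔ g ∈ A.V

omit A in
theorem Std.mul {A : Sp Γ ι} {θ θ' : MulAut Γ} (h : A.Std θ) (h' : A.Std θ') : A.Std (θ * θ') where
  U g := by rw [MulAut.mul_apply, h.U, h'.U]
  V g := by rw [MulAut.mul_apply, h.V, h'.V]

omit A in
theorem Std.inv {A : Sp Γ ι} {θ : MulAut Γ} (h : A.Std θ) : A.Std θ⁻¹ where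
  U g := by rw [← h.U, MulAut.apply_inv_self]
  V g := by rw [← h.V, MulAut.apply_inv_self]

theorem std_one : A.Std 1 := ⟨fun _ => Iff.rfl, fun _ => Iff.rfl⟩

/-- the subgroup of standard automorphisms -/
def S0 : Subgroup (MulAut Γ) where
  carrier := {θ | A.Std θ}
  one_mem' := A.std_one
  mul_mem' := fun h h' => Std.mul h h'
  inv_mem' := fun h => Std.inv h

theorem mem_S0 {θ : MulAut Γ} : θ ∈ A.S0 ↔ A.Std θ := Iff.rfl

omit A in
/-- the conjugate by `n0` -/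
theorem Std.conj {A : Sp Γ ι} {θ : MulAut Γ} (h : A.Std θ) : A.Std ((MulAut.conj A.n0)⁻¹ * θ * MulAut.conj A.n0) := by
  have e : ∀ g, ((MulAut.conj A.n0)⁻¹ * θ * MulAut.conj A.n0) g = A.n0⁻¹ * θ (A.n0 * g * A.n0⁻¹) * A.n0 := by
    intro g
    rw [MulAut.mul_apply, MulAut.mul_apply, MulAut.conj_apply, MulAut.conj_inv_apply]
  constructor
  · intro g
    rw [e, A.n0_V', h.V, A.n0_U]
  · intro g
    rw [e, A.n0_U', h.U, A.n0_V]

omit A in
theorem Std.B_of {A : Sp Γ ι} {θ : MulAut Γ} (h : A.Std θ) {g : Γ} (hg : g ∈ A.P.B) : θ g ∈ A.P.B := by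
  refine A.mem_B_of_conj fun u hu => A.U_le ?_
  have h1 := (h.U (θ⁻¹ u)).mp (by rw [MulAut.apply_inv_self]; exact hu)
  have h2 := (h.U _).mpr (A.norm_U g hg _ h1)
  rwa [map_mul, map_mul, map_inv, MulAut.apply_inv_self] at h2

omit A in
theorem Std.B {A : Sp Γ ι} {θ : MulAut Γ} (h : A.Std θ) (g : Γ) : θ g ∈ A.P.B ↔ g ∈ A.P.B := by
  refine ⟨fun h1 => ?_, h.B_of⟩
  have := h.inv.B_of h1
  rwa [MulAut.inv_apply_self] at this

omit A in
theorem Std.H {A : Sp Γ ι} {θ : MulAut Γ} (h : A.Std θ) (g : Γ) : θ g ∈ A.H ↔ g ∈ A.H := by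
  rw [A.mem_H_iff, A.mem_H_iff, h.B]
  refine and_congr_right fun _ => ?_
  have h1 := h.conj.B (A.n0⁻¹ * g * A.n0)
  rw [MulAut.mul_apply, MulAut.mul_apply, MulAut.conj_apply, MulAut.conj_inv_apply] at h1
  have e : A.n0 * (A.n0⁻¹ * g * A.n0) * A.n0⁻¹ = g := by group
  rwa [e] at h1

/-- an inner automorphism preserving `U` and `V` is conjugation by an element of `H` -/
theorem mem_H_of_std {x : Γ} (h : A.Std (MulAut.conj x)) : x ∈ A.H := by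
  rw [A.mem_H_iff]
  constructor
  · refine A.mem_B_of_conj fun u hu => A.U_le ?_
    have := (h.U u).mpr hu
    rwa [MulAut.conj_apply] at this
  · refine A.mem_B_of_conj fun u hu => A.U_le ?_
    have := (h.conj.U u).mpr hu
    rw [MulAut.mul_apply, MulAut.mul_apply, MulAut.conj_apply, MulAut.conj_inv_apply, MulAut.conj_apply] at this
    have e : A.n0⁻¹ * x * A.n0 * u * (A.n0⁻¹ * x * A.n0)⁻¹ = A.n0⁻¹ * (x * (A.n0 * u * A.n0⁻¹) * x⁻¹) * A.n0 := by group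
    rwa [e]

theorem std_of_mem_H {x : Γ} (hx : x ∈ A.H) : A.Std (MulAut.conj x) where
  U g := by rw [MulAut.conj_apply]; exact A.norm_U' (A.H_mem_B hx)
  V g := by
    rw [MulAut.conj_apply]
    refine ⟨fun h => ?_, A.norm_V hx⟩
    have h1 := A.norm_V (inv_mem hx) h
    have e : x⁻¹ * (x * g * x⁻¹) * x⁻¹⁻¹ = g := by group
    rwa [e] at h1

/-- `U` is a Sylow subgroup -/
theorem not_dvd_index [Finite Γ] {p : ℕ} [Fact p.Prime] (hU : IsPGroup p A.U) (hH : ¬ p ∣ Nat.card A.H) :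
    ¬ p ∣ A.U.index := by
  intro h
  obtain ⟨n, hn⟩ := hU.exists_card_eq
  have h1 : p ^ (n + 1) ∣ Nat.card Γ := by
    rw [← Subgroup.card_mul_index A.U, hn, pow_succ]
    exact mul_dvd_mul_left _ h
  have h2 := Sylow.prime_dvd_card_quotient_normalizer h1 hn
  let f : ↥A.H →* Subgroup.normalizer (A.U : Set Γ) :=
    { toFun := fun x => ⟨x.1, by
        rw [Subgroup.mem_normalizer_iff]
        intro u
        exact (A.norm_U' (A.H_mem_B x.2)).symm⟩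
      map_one' := rfl
      map_mul' := fun x y => rfl }
  have hnorm : (Subgroup.comap (Subgroup.normalizer (A.U : Set Γ)).subtype A.U).Normal :=
    ⟨fun x hx g => (Subgroup.mem_normalizer_iff.mp g.2 x.1).mp hx⟩
  have hsurj : Function.Surjective ((QuotientGroup.mk' (A.U.comap
      (Subgroup.normalizer (A.U : Set Γ)).subtype)).comp f) := by
    intro x
    obtain ⟨g, rfl⟩ := QuotientGroup.mk_surjective x
    have hgB : (g : Γ) ∈ A.P.B :=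
      A.mem_B_of_conj fun u hu => A.U_le ((Subgroup.mem_normalizer_iff.mp g.2 u).mp hu)
    obtain ⟨u, hu, k, hk, h3⟩ := A.B_eq _ hgB
    refine ⟨⟨k, hk⟩, ?_⟩
    rw [MonoidHom.comp_apply, QuotientGroup.mk'_apply, QuotientGroup.eq]
    show k⁻¹ * (g : Γ) ∈ A.U
    rw [h3]
    have h4 := A.norm_U _ (inv_mem (A.H_mem_B hk)) _ hu
    have e : k⁻¹ * (u * k) = k⁻¹ * u * k⁻¹⁻¹ := by group
    rw [e]; exact h4
  exact hH (h2.trans (Subgroup.card_dvd_of_surjective _ hsurj))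

/-- every automorphism becomes standard after an inner automorphism -/
theorem exists_std [Finite Γ] {p : ℕ} [Fact p.Prime] (hU : IsPGroup p A.U) (hH : ¬ p ∣ Nat.card A.H)
    (θ : MulAut Γ) : ∃ x : Γ, A.Std (MulAut.conj x * θ) := by
  have hi := A.not_dvd_index hU hH
  let S : Sylow p Γ := hU.toSylow hi
  have hS : (S : Subgroup Γ) = A.U := rfl
  have h1 : IsPGroup p (A.U.map θ.toMonoidHom) := hU.map _
  have h1i : ¬ p ∣ (A.U.map θ.toMonoidHom).index := by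
    rw [Subgroup.index_map_of_bijective θ.bijective]
    exact hi
  let S' : Sylow p Γ := h1.toSylow h1i
  obtain ⟨y, hy⟩ := MulAction.exists_smul_eq Γ S' S
  have hy1 : ∀ g : Γ, y * θ g * y⁻¹ ∈ A.U ↔ g ∈ A.U := by
    intro g
    have h2 : ((y • S' : Sylow p Γ) : Subgroup Γ) = A.U := by rw [hy, hS]
    have h5 : y * θ g * y⁻¹ ∈ A.U ↔ y * θ g * y⁻¹ ∈ ((y • S' : Sylow p Γ) : Subgroup Γ) := by
      rw [h2]
    rw [h5, Sylow.coe_subgroup_smul, Subgroup.mem_pointwise_smul_iff_inv_smul_mem]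
    have h3 : (MulAut.conj y)⁻¹ • (y * θ g * y⁻¹) = θ g := by
      rw [MulAut.smul_def, MulAut.conj_inv_apply]; group
    rw [h3]
    show θ g ∈ A.U.map θ.toMonoidHom ↔ _
    constructor
    · rintro ⟨g', hg', h4⟩
      rw [← θ.injective h4]; exact hg'
    · intro hg
      exact ⟨g, hg, rfl⟩
  set θ1 : MulAut Γ := MulAut.conj y * θ with hθ1
  have hθ1a : ∀ g, θ1 g = y * θ g * y⁻¹ := fun g => by rw [hθ1, MulAut.mul_apply, MulAut.conj_apply]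
  have hU1 : ∀ g : Γ, θ1 g ∈ A.U ↔ g ∈ A.U := by
    intro g
    rw [hθ1a]
    exact hy1 g
  obtain ⟨u, hu, h2⟩ := A.opposite (g := θ1 A.n0) (by
    intro u hu h3
    have e1 : u = θ1 (θ1⁻¹ u) := by rw [MulAut.apply_inv_self]
    have hv : θ1⁻¹ u ∈ A.U := by rw [← hU1, MulAut.apply_inv_self]; exact hu
    set v := θ1⁻¹ u
    have h4 : θ1 (A.n0 * v * A.n0⁻¹) ∈ A.U := by
      rw [map_mul, map_mul, map_inv, ← e1]; exact h3
    rw [hU1, A.n0_V] at h4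
    have h8 := A.BV _ (A.U_le hv) h4
    rw [e1, h8, map_one])
  refine ⟨u⁻¹ * y, ?_⟩
  have e2 : ∀ g, (MulAut.conj (u⁻¹ * y) * θ) g = u⁻¹ * θ1 g * u := by
    intro g
    rw [MulAut.mul_apply, MulAut.conj_apply, hθ1a]; group
  constructor
  · intro g
    rw [e2, A.norm_U'' (A.U_le hu), hU1]
  · intro g
    rw [e2, ← h2, ← A.n0_V' g, ← hU1 (A.n0⁻¹ * g * A.n0), map_mul, map_mul, map_inv]

/-! ### the order of `Out` -/

theorem inn_sup_S0 [Finite Γ] {p : ℕ} [Fact p.Prime] (hU : IsPGroup p A.U) (hH : ¬ p ∣ Nat.card A.H) :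
    Cfsg.Inn Γ ⊔ A.S0 = ⊤ := by
  rw [eq_top_iff]
  intro φ _
  obtain ⟨x, hx⟩ := A.exists_std hU hH φ
  have e : φ = MulAut.conj x⁻¹ * (MulAut.conj x * φ) := by rw [map_inv]; group
  rw [e]
  exact Subgroup.mul_mem_sup ⟨x⁻¹, rfl⟩ hx

theorem inn_inf_S0 : Cfsg.Inn Γ ⊓ A.S0 = A.H.map MulAut.conj := by
  apply le_antisymm
  · rintro _ ⟨⟨x, rfl⟩, h⟩
    exact ⟨x, A.mem_H_of_std h, rfl⟩
  · rintro _ ⟨x, hx, rfl⟩
    exact ⟨⟨x, rfl⟩, A.std_of_mem_H hx⟩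

theorem card_inn_inf_S0 : Nat.card ↥(Cfsg.Inn Γ ⊓ A.S0) = Nat.card A.H := by
  rw [A.inn_inf_S0]
  have hinj : Set.InjOn (MulAut.conj : Γ → MulAut Γ) A.H := by
    intro x hx y hy h
    have h1 : x⁻¹ * y ∈ A.H := mul_mem (inv_mem hx) hy
    have h2 : x⁻¹ * y = 1 := by
      refine A.cen _ h1 fun u _ => ?_
      have h3 : MulAut.conj x u = MulAut.conj y u := by rw [h]
      rw [MulAut.conj_apply, MulAut.conj_apply] at h3
      calc x⁻¹ * y * u * (x⁻¹ * y)⁻¹ = x⁻¹ * (y * u * y⁻¹) * x := by group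
        _ = u := by rw [← h3]; group
    exact inv_mul_eq_one.mp h2
  have h2 := Nat.card_image_of_injOn hinj
  rw [← SetLike.coe_sort_coe (A.H.map MulAut.conj), Subgroup.coe_map]
  exact h2

/-- the order of `Out` -/
theorem card_out [Finite Γ] {p : ℕ} [Fact p.Prime] (hU : IsPGroup p A.U) (hH : ¬ p ∣ Nat.card A.H) :
    Nat.card (Cfsg.Out Γ) * Nat.card A.H = Nat.card A.S0 := by
  rw [← A.card_inn_inf_S0]
  have h1 : Nat.card (Cfsg.Out Γ) = (Cfsg.Inn Γ).index := rfl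
  have h3 := Subgroup.relIndex_mul_relIndex (⊥ : Subgroup (MulAut Γ)) (Cfsg.Inn Γ ⊓ A.S0) A.S0
    bot_le inf_le_right
  rw [Subgroup.relIndex_bot_left, Subgroup.relIndex_bot_left, Subgroup.inf_relIndex_right] at h3
  have h4 : (Cfsg.Inn Γ).relIndex A.S0 = (Cfsg.Inn Γ).index := by
    rw [← Subgroup.relIndex_sup_left, A.inn_sup_S0 hU hH, Subgroup.relIndex_top_right]
  rw [h1, ← h4, ← h3]; ring

end Sp

/-! ### the rank one subgroups -/

/-- rank one subgroups -/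
structure Rk (A : Sp Γ ι) where
  X : ι → Subgroup Γ
  Y : ι → Subgroup Γ
  X_le : ∀ j, X j ≤ A.U
  Y_le : ∀ j, Y j ≤ A.V
  nX : ∀ j g, A.n j * g * (A.n j)⁻¹ ∈ Y j ↔ g ∈ X j
  cell : ∀ j, ∀ b ∈ A.P.B, ∃ x ∈ X j, ∃ b' ∈ A.P.B, b * A.n j = x * A.n j * b'
  star : ∀ j g, A.n0⁻¹ * g * A.n0 ∈ X j ↔ g ∈ Y j
  comm : ∀ i j, i ≠ j → ∀ x ∈ X i, ∀ y ∈ Y j, x * y = y * x
  ncomm : ∀ i, ∃ x ∈ X i, ∃ y ∈ Y i, x * y ≠ y * x

namespace Rk
variable {A : Sp Γ ι} (R : Rk A)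
include R

omit R in
theorem n_mem_S (A : Sp Γ ι) (j : ι) : A.n j ∈ A.P.S := by rw [A.S_eq]; exact ⟨j, rfl⟩

omit R in
theorem n_not_B (A : Sp Γ ι) (j : ι) : A.n j ∉ A.P.B := S_not_mem_B (n_mem_S A j)

/-- the minimal parabolic -/
theorem mem_par {j : ι} {g : Γ} : g ∈ A.P.parabolic {A.n j} ↔ g ∈ A.P.B ∨ dc A.P (A.n j) g := by
  have hJ : ({A.n j} : Set Γ) ⊆ A.P.S := by
    rintro _ rfl; exact n_mem_S A j
  constructor
  · intro h
    obtain ⟨m, hm, b, hb, b', hb', hg⟩ := exists_dc_of_mem_parabolic (P := A.P) hJ h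
    have key : m ∈ A.P.B ∨ ∃ t ∈ A.P.B, m = A.n j * t := by
      rw [← Subgroup.zpowers_eq_closure] at hm
      obtain ⟨k, rfl⟩ := hm
      have hsq : ∀ l : ℤ, (A.n j * A.n j) ^ l ∈ A.P.B := fun l => zpow_mem (A.P.sq_mem _ (n_mem_S A j)) l
      rcases Int.even_or_odd' k with ⟨l, rfl | rfl⟩
      · left
        show A.n j ^ (2 * l) ∈ A.P.B
        rw [zpow_mul, show A.n j ^ (2 : ℤ) = A.n j * A.n j from by rw [zpow_ofNat, sq]]
        exact hsq l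
      · right
        refine ⟨(A.n j * A.n j) ^ l, hsq l, ?_⟩
        show A.n j ^ (2 * l + 1) = _
        rw [zpow_add_one, zpow_mul, show A.n j ^ (2 : ℤ) = A.n j * A.n j from by rw [zpow_ofNat, sq]]
        have hc : Commute (A.n j) (A.n j * A.n j) := (Commute.refl _).mul_right (Commute.refl _)
        exact (hc.zpow_right l).symm.eq
    rcases key with h1 | ⟨t, ht, h1⟩
    · left; rw [hg]; exact mul_mem (mul_mem hb h1) hb'
    · right
      exact ⟨b, hb, t * b', mul_mem ht hb', by rw [hg, h1]; group⟩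
  · rintro (h | h)
    · exact (le_sup_left : A.P.B ≤ A.P.parabolic {A.n j}) h
    · exact dc_mem (M := A.P.parabolic {A.n j}) le_sup_left h
        ((le_sup_right : Subgroup.closure {A.n j} ≤ A.P.parabolic {A.n j}) (Subgroup.subset_closure rfl))

theorem dc_n {j : ι} {g : Γ} (h : dc A.P (A.n j) g) : ∃ x ∈ R.X j, ∃ b ∈ A.P.B, g = x * A.n j * b := by
  obtain ⟨b, hb, b', hb', rfl⟩ := h
  obtain ⟨x, hx, b1, hb1, e⟩ := R.cell j b hb
  exact ⟨x, hx, b1 * b', mul_mem hb1 hb', by rw [e]; group⟩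

omit R in
/-- `n_j` does not lie in `V B` -/
theorem n_not_VB {j : ι} {v b : Γ} (hv : v ∈ A.V) (hb : b ∈ A.P.B) : A.n j ≠ v * b := by
  intro h
  have h1 : dc A.P A.n0⁻¹ (A.n0⁻¹ * A.n j) :=
    ⟨A.n0⁻¹ * v * A.n0, A.U_le ((A.n0_V' v).mpr hv), b, hb, by rw [h]; group⟩
  have h2 := dc_unique (P := A.P) (inv_mem A.n0_N) (mul_mem (inv_mem A.n0_N) (A.P.subset (n_mem_S A j))) h1
  rw [inv_inv, mul_inv_cancel_left] at h2
  exact n_not_B A j h2

/-- `V ∩ (B ∪ B n_j B) = Y_j` -/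
theorem V_inf_par [Finite Γ] {j : ι} {g : Γ} (hg : g ∈ A.V) (h : g ∈ A.P.parabolic {A.n j}) : g ∈ R.Y j := by
  set M : Subgroup Γ := A.V ⊓ A.P.parabolic {A.n j} with hM
  have hYM : R.Y j ≤ M := by
    intro y hy
    refine ⟨R.Y_le j hy, ?_⟩
    have h1 : (A.n j)⁻¹ * y * A.n j ∈ R.X j := by
      rw [← R.nX]
      have e : A.n j * ((A.n j)⁻¹ * y * A.n j) * (A.n j)⁻¹ = y := by group
      rw [e]; exact hy
    have hn : A.n j ∈ A.P.parabolic {A.n j} :=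
      (le_sup_right : Subgroup.closure {A.n j} ≤ A.P.parabolic {A.n j}) (Subgroup.subset_closure rfl)
    have h2 : (A.n j)⁻¹ * y * A.n j ∈ A.P.parabolic {A.n j} :=
      (le_sup_left : A.P.B ≤ A.P.parabolic {A.n j}) (A.U_le (R.X_le j h1))
    have e : y = A.n j * ((A.n j)⁻¹ * y * A.n j) * (A.n j)⁻¹ := by group
    rw [e]
    exact Subgroup.mul_mem _ (Subgroup.mul_mem _ hn h2) (Subgroup.inv_mem _ hn)
  have hcell : ∀ v : Γ, v ∈ M → v ≠ 1 → ∃ x, x ∈ R.X j ∧ x ≠ 1 ∧ ∃ b ∈ A.P.B, v = x * A.n j * b := by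
    intro v hv hv1
    rcases (mem_par R).mp hv.2 with h1 | h1
    · exact absurd (A.BV _ h1 hv.1) hv1
    · obtain ⟨x, hx, b, hb, e⟩ := R.dc_n h1
      refine ⟨x, hx, ?_, b, hb, e⟩
      rintro rfl
      rw [one_mul] at e
      exact n_not_VB (j := j) hv.1 (inv_mem hb) (by rw [e]; group)
  classical
  let f : ↥M → ↥(R.X j) := fun v => if hv : (v : Γ) = 1 then 1 else ⟨(hcell v v.2 hv).choose, (hcell v v.2 hv).choose_spec.1⟩
  have hf : Function.Injective f := by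
    intro v w hvw
    by_cases hv : (v : Γ) = 1
    · by_cases hw : (w : Γ) = 1
      · exact Subtype.ext (hv.trans hw.symm)
      · exfalso
        have e1 : f v = 1 := dif_pos hv
        have e2 : f w = ⟨(hcell w w.2 hw).choose, (hcell w w.2 hw).choose_spec.1⟩ := dif_neg hw
        rw [e1, e2] at hvw
        exact (hcell w w.2 hw).choose_spec.2.1 (congrArg Subtype.val hvw).symm
    · by_cases hw : (w : Γ) = 1
      · exfalso
        have e1 : f w = 1 := dif_pos hw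
        have e2 : f v = ⟨(hcell v v.2 hv).choose, (hcell v v.2 hv).choose_spec.1⟩ := dif_neg hv
        rw [e1, e2] at hvw
        exact (hcell v v.2 hv).choose_spec.2.1 (congrArg Subtype.val hvw)
      · have e1 : f v = ⟨(hcell v v.2 hv).choose, (hcell v v.2 hv).choose_spec.1⟩ := dif_neg hv
        have e2 : f w = ⟨(hcell w w.2 hw).choose, (hcell w w.2 hw).choose_spec.1⟩ := dif_neg hw
        rw [e1, e2] at hvw
        have hx := congrArg Subtype.val hvw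
        simp only at hx
        obtain ⟨b, hb, eb⟩ := (hcell v v.2 hv).choose_spec.2.2
        obtain ⟨c, hc, ec⟩ := (hcell w w.2 hw).choose_spec.2.2
        have h1 : (v : Γ)⁻¹ * w ∈ A.P.B := by
          rw [eb, ec, hx]
          have e : ((hcell w w.2 hw).choose * A.n j * b)⁻¹ * ((hcell w w.2 hw).choose * A.n j * c) = b⁻¹ * c := by group
          rw [e]; exact mul_mem (inv_mem hb) hc
        have h2 := A.BV _ h1 (mul_mem (inv_mem v.2.1) w.2.1)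
        exact Subtype.ext (inv_mul_eq_one.mp h2)
  have hcard : Nat.card ↥(R.X j) = Nat.card ↥(R.Y j) := by
    refine Nat.card_congr (Equiv.subtypeEquiv (MulAut.conj (A.n j)).toEquiv fun g => ?_)
    show g ∈ R.X j ↔ MulAut.conj (A.n j) g ∈ R.Y j
    rw [MulAut.conj_apply, R.nX]
  have h1 : Nat.card ↥M ≤ Nat.card ↥(R.Y j) := by
    rw [← hcard]; exact Nat.card_le_card_of_injective f hf
  have h2 : R.Y j = M := Subgroup.eq_of_le_of_card_ge hYM h1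
  rw [h2]; exact ⟨hg, h⟩

variable {θ : MulAut Γ} (h : A.Std θ)
include h

/-- a standard automorphism permutes the minimal parabolics -/
theorem exists_dc (i : ι) : ∃ j, dc A.P (A.n j) (θ (A.n i)) := by
  let M : Subgroup Γ := (A.P.parabolic {A.n i}).comap (θ⁻¹ : MulAut Γ).toMonoidHom
  have hM : ∀ g : Γ, g ∈ M ↔ θ⁻¹ g ∈ A.P.parabolic {A.n i} := fun g => Iff.rfl
  have hBM : A.P.B ≤ M := by
    intro g hg
    rw [hM, mem_par R]
    exact Or.inl (h.inv.B_of hg)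
  have hnM : θ (A.n i) ∈ M := by
    rw [hM, mem_par R, MulAut.inv_apply_self]
    exact Or.inr (dc_refl _)
  have hex : ∃ j, A.n j ∈ M := by
    by_contra hcon
    push Not at hcon
    have h3 := eq_parabolic hBM
    have h4 : {s | s ∈ A.P.S ∧ s ∈ M} = (∅ : Set Γ) := by
      ext s
      simp only [Set.mem_ofPred_eq, Set.mem_empty_iff_false, iff_false, not_and]
      intro hs
      rw [A.S_eq] at hs
      obtain ⟨j, rfl⟩ := hs
      exact hcon j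
    rw [h4] at h3
    have h5 : A.P.parabolic ∅ = A.P.B := by
      unfold Cfsg.BNPair.parabolic
      rw [Subgroup.closure_empty, sup_bot_eq]
    rw [h5] at h3
    rw [h3, h.B] at hnM
    exact n_not_B A i hnM
  obtain ⟨j, hj⟩ := hex
  refine ⟨j, ?_⟩
  rw [hM, mem_par R] at hj
  rcases hj with h7 | h7
  · exfalso
    have h8 := h.B_of h7
    rw [MulAut.apply_inv_self] at h8
    exact n_not_B A j h8
  · obtain ⟨b, hb, b', hb', h8⟩ := h7
    have h10 : A.n j = θ b * θ (A.n i) * θ b' := by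
      rw [← map_mul, ← map_mul, ← h8, MulAut.apply_inv_self]
    exact ⟨(θ b)⁻¹, inv_mem (h.B_of hb), (θ b')⁻¹, inv_mem (h.B_of hb'), by rw [h10]; group⟩

theorem exists_Y [Finite Γ] (i : ι) : ∃ j, ∀ g ∈ R.Y i, θ g ∈ R.Y j := by
  obtain ⟨j, hj⟩ := R.exists_dc h i
  refine ⟨j, fun g hg => ?_⟩
  refine R.V_inf_par ((h.V g).mpr (R.Y_le i hg)) ?_
  have h1 : g ∈ A.P.parabolic {A.n i} := by
    have h1 : (A.n i)⁻¹ * g * A.n i ∈ R.X i := by
      rw [← R.nX]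
      have e : A.n i * ((A.n i)⁻¹ * g * A.n i) * (A.n i)⁻¹ = g := by group
      rw [e]; exact hg
    have hn : A.n i ∈ A.P.parabolic {A.n i} :=
      (le_sup_right : Subgroup.closure {A.n i} ≤ A.P.parabolic {A.n i}) (Subgroup.subset_closure rfl)
    have h2 : (A.n i)⁻¹ * g * A.n i ∈ A.P.parabolic {A.n i} :=
      (le_sup_left : A.P.B ≤ A.P.parabolic {A.n i}) (A.U_le (R.X_le i h1))
    have e : g = A.n i * ((A.n i)⁻¹ * g * A.n i) * (A.n i)⁻¹ := by group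
    rw [e]
    exact Subgroup.mul_mem _ (Subgroup.mul_mem _ hn h2) (Subgroup.inv_mem _ hn)
  rw [mem_par R] at h1 ⊢
  rcases h1 with h1 | ⟨b, hb, b', hb', h1⟩
  · exact Or.inl (h.B_of h1)
  · right
    refine dc_trans hj ⟨θ b, h.B_of hb, θ b', h.B_of hb', ?_⟩
    rw [h1, map_mul, map_mul]

theorem exists_X [Finite Γ] (i : ι) : ∃ j, ∀ g ∈ R.X i, θ g ∈ R.X j := by
  have h' : A.Std (MulAut.conj A.n0 * θ * (MulAut.conj A.n0)⁻¹) := by
    have e : ∀ g, (MulAut.conj A.n0 * θ * (MulAut.conj A.n0)⁻¹) g = A.n0 * θ (A.n0⁻¹ * g * A.n0) * A.n0⁻¹ := by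
      intro g
      rw [MulAut.mul_apply, MulAut.mul_apply, MulAut.conj_apply, MulAut.conj_inv_apply]
    constructor
    · intro g
      rw [e, A.n0_V, h.V, A.n0_U']
    · intro g
      rw [e, A.n0_U, h.U, A.n0_V']
  obtain ⟨j, hj⟩ := R.exists_Y h' i
  refine ⟨j, fun g hg => ?_⟩
  have h1 : A.n0 * g * A.n0⁻¹ ∈ R.Y i := by
    rw [← R.star]
    have e : A.n0⁻¹ * (A.n0 * g * A.n0⁻¹) * A.n0 = g := by group
    rw [e]; exact hg
  have h2 := hj _ h1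
  rw [MulAut.mul_apply, MulAut.mul_apply, MulAut.conj_apply, MulAut.conj_inv_apply, ← R.star] at h2
  have e1 : A.n0⁻¹ * (A.n0 * g * A.n0⁻¹) * A.n0 = g := by group
  rw [e1] at h2
  have e2 : A.n0⁻¹ * (A.n0 * θ g * A.n0⁻¹) * A.n0 = θ g := by group
  rwa [e2] at h2

/-- a standard automorphism permutes the rank one subgroups -/
theorem exists_perm [Finite Γ] [Finite ι] : ∃ ρ : Equiv.Perm ι, ∀ i,
    (∀ g, θ g ∈ R.X (ρ i) ↔ g ∈ R.X i) ∧ (∀ g, θ g ∈ R.Y (ρ i) ↔ g ∈ R.Y i) := by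
  have key : ∀ {θ : MulAut Γ}, A.Std θ → ∀ i : ι, ∃ j : ι, (∀ g ∈ R.X i, θ g ∈ R.X j) ∧ (∀ g ∈ R.Y i, θ g ∈ R.Y j) := by
    intro θ h i
    obtain ⟨j, hj⟩ := R.exists_X h i
    obtain ⟨k, hk⟩ := R.exists_Y h i
    have hjk : j = k := by
      by_contra hne
      obtain ⟨x, hx, y, hy, hxy⟩ := R.ncomm i
      apply hxy
      have := R.comm j k hne _ (hj x hx) _ (hk y hy)
      rw [← map_mul, ← map_mul] at this
      exact θ.injective this
    subst hjk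
    exact ⟨j, hj, hk⟩
  choose ρ hρX hρY using key h
  choose ρ' hρX' hρY' using key h.inv
  have hl : ∀ i, ρ' (ρ i) = i := by
    intro i
    by_contra hne
    obtain ⟨x, hx, y, hy, hxy⟩ := R.ncomm i
    apply hxy
    have h1 := hρX' _ _ (hρX i x hx)
    rw [MulAut.inv_apply_self] at h1
    exact R.comm _ _ hne _ h1 _ hy
  have hr : ∀ i, ρ (ρ' i) = i := by
    intro i
    by_contra hne
    obtain ⟨x, hx, y, hy, hxy⟩ := R.ncomm i
    apply hxy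
    have h1 := hρX _ _ (hρX' i x hx)
    rw [MulAut.apply_inv_self] at h1
    exact R.comm _ _ hne _ h1 _ hy
  refine ⟨⟨ρ, ρ', hl, hr⟩, fun i => ⟨fun g => ⟨fun hg => ?_, hρX i g⟩, fun g => ⟨fun hg => ?_, hρY i g⟩⟩⟩
  · have h1 := hρX' _ _ hg
    rw [MulAut.inv_apply_self] at h1
    have e : ρ' (ρ i) = i := hl i
    have h2 : g ∈ R.X (ρ' (ρ i)) := h1
    rwa [e] at h2
  · have h1 := hρY' _ _ hg
    rw [MulAut.inv_apply_self] at h1
    have e : ρ' (ρ i) = i := hl i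
    have h2 : g ∈ R.Y (ρ' (ρ i)) := h1
    rwa [e] at h2

end Rk

end Cfsg.Agent.Lib.SplitOut
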