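import Cfsg.Agent.Lib.SplitOut
set_option autoImplicit false
set_option linter.unusedSectionVars false

/-!
Automorphisms of split BN-pairs: an automorphism trivial on `X_j` and preserving `Y_j` is trivial on `Y_j`.
-/

namespace Cfsg.Agent.Lib.SplitOut
open Cfsg.Agent.Lib.BNPair

variable {Γ ι : Type*} [Group Γ]

namespace Rk
variable {A : Sp Γ ι} (R : Rk A)
include R

theorem n_par (j : ι) : A.n j ∈ A.P.parabolic {A.n j} :=
  (le_sup_right : Subgroup.closure {A.n j} ≤ A.P.parabolic {A.n j}) (Subgroup.subset_closure rfl)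

theorem Y_par {j : ι} {g : Γ} (hg : g ∈ R.Y j) : g ∈ A.P.parabolic {A.n j} := by
  have h1 : (A.n j)⁻¹ * g * A.n j ∈ R.X j := by
    rw [← R.nX]
    have e : A.n j * ((A.n j)⁻¹ * g * A.n j) * (A.n j)⁻¹ = g := by group
    rw [e]; exact hg
  have h2 : (A.n j)⁻¹ * g * A.n j ∈ A.P.parabolic {A.n j} :=
    (le_sup_left : A.P.B ≤ A.P.parabolic {A.n j}) (A.U_le (R.X_le j h1))
  have e : g = A.n j * ((A.n j)⁻¹ * g * A.n j) * (A.n j)⁻¹ := by group
  rw [e]
  exact Subgroup.mul_mem _ (Subgroup.mul_mem _ (R.n_par j) h2) (Subgroup.inv_mem _ (R.n_par j))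

/-- an automorphism trivial on `X_j` and preserving `Y_j` is trivial on `Y_j` -/
theorem fix_Y [Finite Γ] {θ : MulAut Γ} (h : A.Std θ) {j : ι} (hX : ∀ g ∈ R.X j, θ g = g)
    (hY : ∀ g, θ g ∈ R.Y j ↔ g ∈ R.Y j) {g : Γ} (hg : g ∈ R.Y j) : θ g = g := by
  obtain ⟨x0, hx0, y0, hy0, hne⟩ := R.ncomm j
  -- `θ n_j` lies in the minimal parabolic
  have h1 : dc A.P (A.n j) (θ (A.n j)) := by
    obtain ⟨k, hk⟩ := R.exists_dc h j
    have hkj : k = j := by
      by_contra hkj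
      have h3 : θ y0 ∈ R.Y k := by
        refine R.V_inf_par ((h.V y0).mpr (R.Y_le j hy0)) ?_
        have h4 := R.Y_par hy0
        rw [mem_par R] at h4 ⊢
        rcases h4 with h4 | ⟨b, hb, b', hb', h4⟩
        · exact Or.inl (h.B_of h4)
        · right
          refine dc_trans hk ⟨θ b, h.B_of hb, θ b', h.B_of hb', ?_⟩
          rw [h4, map_mul, map_mul]
      have h5 := R.comm j k (fun h => hkj h.symm) x0 hx0 _ h3
      rw [← hX x0 hx0, ← map_mul, ← map_mul] at h5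
      exact hne (θ.injective h5)
    rw [hkj] at hk
    exact hk
  -- `θ n_j = n_j b`
  have h2 : (A.n j)⁻¹ * θ (A.n j) ∈ A.P.B := by
    by_contra hcon
    have h3 : (A.n j)⁻¹ * θ (A.n j) ∈ A.P.parabolic {A.n j} :=
      Subgroup.mul_mem _ (Subgroup.inv_mem _ (R.n_par j)) ((mem_par R).mpr (Or.inr h1))
    rcases (mem_par R).mp h3 with h4 | h4
    · exact hcon h4
    obtain ⟨x, hx, b, hb, e⟩ := R.dc_n h4
    set y1 := A.n j * x * (A.n j)⁻¹ with hy1
    have hy1' : y1 ∈ R.Y j := (R.nX j x).mpr hx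
    have hsq : A.n j * A.n j * b ∈ A.P.B := mul_mem (A.P.sq_mem _ (n_mem_S A j)) hb
    have e2 : θ (A.n j) = y1 * (A.n j * A.n j * b) := by
      calc θ (A.n j) = A.n j * ((A.n j)⁻¹ * θ (A.n j)) := by group
        _ = _ := by rw [e, hy1]; group
    -- `y0` fixes the coset
    have h5 : ∀ y ∈ R.Y j, y = 1 := by
      intro y hy
      have hy' : θ⁻¹ y ∈ R.Y j := by
        rw [← hY, MulAut.apply_inv_self]; exact hy
      have hx' : (A.n j)⁻¹ * θ⁻¹ y * A.n j ∈ R.X j := by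
        rw [← R.nX]
        have e : A.n j * ((A.n j)⁻¹ * θ⁻¹ y * A.n j) * (A.n j)⁻¹ = θ⁻¹ y := by group
        rw [e]; exact hy'
      have h6 : y * θ (A.n j) = θ (A.n j) * θ ((A.n j)⁻¹ * θ⁻¹ y * A.n j) := by
        rw [← map_mul]
        have e : A.n j * ((A.n j)⁻¹ * θ⁻¹ y * A.n j) = θ⁻¹ y * A.n j := by group
        rw [e, map_mul, MulAut.apply_inv_self]
      rw [hX _ hx', e2] at h6
      have h7 : y1⁻¹ * y * y1 ∈ A.P.B := by
        have e3 : y1⁻¹ * y * y1 = (A.n j * A.n j * b) * ((A.n j)⁻¹ * θ⁻¹ y * A.n j) * (A.n j * A.n j * b)⁻¹ := by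
          calc y1⁻¹ * y * y1 = y1⁻¹ * (y * (y1 * (A.n j * A.n j * b))) * (A.n j * A.n j * b)⁻¹ := by group
            _ = _ := by rw [h6]; group
        rw [e3]
        exact mul_mem (mul_mem hsq (A.U_le (R.X_le j hx'))) (inv_mem hsq)
      have h8 := A.BV _ h7 (mul_mem (mul_mem (inv_mem (R.Y_le j hy1')) (R.Y_le j hy)) (R.Y_le j hy1'))
      calc y = y1 * (y1⁻¹ * y * y1) * y1⁻¹ := by group
        _ = 1 := by rw [h8]; group
    apply hne
    rw [h5 y0 hy0, one_mul, mul_one]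
  -- conclusion
  rcases (mem_par R).mp (R.Y_par hg) with h3 | h3
  · have := A.BV _ h3 (R.Y_le j hg)
    rw [this, map_one]
  · obtain ⟨x, hx, b, hb, e⟩ := R.dc_n h3
    have h4 : g⁻¹ * θ g ∈ A.P.B := by
      have e1 : g⁻¹ * θ g = b⁻¹ * ((A.n j)⁻¹ * θ (A.n j)) * θ b := by
        rw [e, map_mul, map_mul, hX x hx]; group
      rw [e1]
      exact mul_mem (mul_mem (inv_mem hb) h2) (h.B_of hb)
    have h5 := A.BV _ h4 (mul_mem (inv_mem (R.Y_le j hg)) ((h.V g).mpr (R.Y_le j hg)))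
    exact (inv_mul_eq_one.mp h5).symm

end Rk

end Cfsg.Agent.Lib.SplitOut
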