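import Cfsg.Prelude.Def_Steinberg
import Mathlib
set_option autoImplicit false

/-!
Homomorphisms from the Steinberg group over the field with two elements (helper44).
-/

namespace Cfsg.Agent.Lib.StF2
open Cfsg.Lie

variable {D : ChevalleyDatum} {F : Type*} [Field F] {G : Type*} [Group G]

section
variable (D)
open Classical in
/-- the images of the root elements -/
noncomputable def X (F : Type*) [Field F] (π : ℕ → G) (r : ℕ) (t : F) : G :=
  if r < D.nroots ∧ t ≠ 0 then π r else 1
end

theorem X_zero (π : ℕ → G) (r : ℕ) : X D F π r 0 = 1 := by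
  unfold X; rw [if_neg (by simp)]

theorem X_of {π : ℕ → G} {r : ℕ} (hr : r < D.nroots) {t : F} (ht : t ≠ 0) : X D F π r t = π r := by
  unfold X; rw [if_pos ⟨hr, ht⟩]

theorem X_sq {π : ℕ → G} (hsq : ∀ r < D.nroots, π r * π r = 1) (r : ℕ) (t : F) : X D F π r t * X D F π r t = 1 := by
  unfold X
  split_ifs with h
  · exact hsq r h.1
  · simp

theorem char2 (h2 : ∀ t : F, t = 0 ∨ t = 1) : (2 : F) = 0 := by
  rcases h2 2 with h | h
  · exact h
  · exfalso
    have : (1 : F) = 0 := by linear_combination h
    exact one_ne_zero this

/-- product over a word -/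
noncomputable def W (F : Type*) [Field F] (π : ℕ → G) (w : List (ℕ × F)) : G := (w.map fun p => X D F π p.1 p.2).prod

/-- the homomorphism -/
noncomputable def hom (h2 : ∀ t : F, t = 0 ∨ t = 1) (π : ℕ → G) (hsq : ∀ r < D.nroots, π r * π r = 1)
    (hpos : ∀ r < D.nroots, ∀ s < D.nroots, ∀ c ∈ D.commTerms r s, 1 ≤ c.2.2.1 ∧ 1 ≤ c.2.2.2 ∧ c.1 < D.nroots)
    (hcomm : ∀ r < D.nroots, ∀ s < D.nroots, s ≠ r → s ≠ D.neg r →
      π s * π r * π s * π r = (((D.commTerms r s).filter fun c => c.2.1 % 2 ≠ 0).map fun c => π c.1).prod) :
    D.SteinbergGroup F →* G :=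
  PresentedGroup.toGroup (f := fun p : Fin D.nroots × F => X D F π p.1 p.2) (by
    have h20 : (2 : F) = 0 := char2 h2
    have hneg : ∀ t : F, -t = t := fun t => by linear_combination -t * h20
    have hX : ∀ (r : ℕ) (t : F),
        FreeGroup.lift (fun p : Fin D.nroots × F => X D F π p.1 p.2) (D.stX r t) = X D F π r t := by
      intro r t
      unfold ChevalleyDatum.stX
      by_cases hr : r < D.nroots
      · rw [dif_pos hr, FreeGroup.lift_apply_of]
      · rw [dif_neg hr, map_one]
        unfold X
        rw [if_neg (fun h => hr h.1)]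
    have hW : ∀ w : List (ℕ × F),
        FreeGroup.lift (fun p : Fin D.nroots × F => X D F π p.1 p.2) (D.stWord w) = W (D := D) F π w := by
      intro w
      unfold ChevalleyDatum.stWord W
      rw [map_list_prod, List.map_map]
      congr 1
      apply List.map_congr_left
      intro p _
      exact hX _ _
    have hinv : ∀ r (t : F), (X D F π r t)⁻¹ = X D F π r t := fun r t => inv_eq_of_mul_eq_one_right (X_sq hsq r t)
    rintro g ((⟨r, t₁, t₂, hr, rfl⟩ | ⟨r, s, t, u, hr, hs, h1, h3, rfl⟩) | ⟨r, t₁, t₂, hr, h1, h3, rfl⟩)
    · rw [map_mul, map_mul, map_inv, hX, hX, hX]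
      rcases h2 t₁ with rfl | rfl
      · rw [X_zero, one_mul, zero_add, mul_inv_cancel]
      · rcases h2 t₂ with rfl | rfl
        · rw [X_zero, mul_one, add_zero, mul_inv_cancel]
        · rw [show (1 : F) + 1 = 0 by linear_combination h20, X_zero, inv_one, mul_one, X_sq hsq]
    · rw [map_mul, map_mul, map_mul, map_mul, map_inv, map_inv, map_inv, hX, hX, hW, hinv, hinv, mul_inv_eq_one]
      have hWd : W (D := D) F π (D.commWord F r s t u) =
          ((D.commTerms r s).map fun c => X D F π c.1 ((c.2.1 : F) * (-t) ^ c.2.2.1 * u ^ c.2.2.2)).prod := by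
        unfold W ChevalleyDatum.commWord
        rw [List.map_map]; rfl
      have htriv : (t = 0 ∨ u = 0) → W (D := D) F π (D.commWord F r s t u) = 1 := by
        intro h
        rw [hWd]
        apply List.prod_eq_one
        intro x hx
        rw [List.mem_map] at hx
        obtain ⟨c, hc, rfl⟩ := hx
        have hp := hpos r hr s hs c hc
        have : (c.2.1 : F) * (-t) ^ c.2.2.1 * u ^ c.2.2.2 = 0 := by
          rcases h with rfl | rfl
          · rw [neg_zero, zero_pow (by omega)]; ring
          · rw [zero_pow (by omega)]; ring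
        rw [this, X_zero]
      by_cases ht : t = 0
      · rw [htriv (Or.inl ht), ht, X_zero, mul_one, mul_one, X_sq hsq]
      · by_cases hu : u = 0
        · rw [htriv (Or.inr hu), hu, X_zero, one_mul, mul_one, X_sq hsq]
        · rw [X_of hs hu, X_of hr ht, hcomm r hr s hs h1 h3, hWd]
          have ht1 : t = 1 := (h2 t).resolve_left ht
          have hu1 : u = 1 := (h2 u).resolve_left hu
          have hL : ∀ c ∈ D.commTerms r s, c.1 < D.nroots := fun c hc => (hpos r hr s hs c hc).2.2
          generalize D.commTerms r s = L at hL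
          induction L with
          | nil => rfl
          | cons c L ih =>
            have hc0 : (c.2.1 : F) * (-t) ^ c.2.2.1 * u ^ c.2.2.2 = (c.2.1 : F) := by
              rw [hneg, ht1, hu1]; simp
            have ih' := ih fun c hc => hL c (List.mem_cons_of_mem _ hc)
            by_cases hpar : c.2.1 % 2 ≠ 0
            · rw [List.filter_cons_of_pos (by simpa using hpar), List.map_cons, List.prod_cons, List.map_cons,
                List.prod_cons, ih', hc0, X_of (hL c List.mem_cons_self)]
              intro h0
              apply hpar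
              haveI : CharP F 2 := CharTwo.of_one_ne_zero_of_two_eq_zero one_ne_zero h20
              rw [CharP.intCast_eq_zero_iff F 2] at h0
              omega
            · push Not at hpar
              rw [List.filter_cons_of_neg (by simpa using hpar), List.map_cons, List.prod_cons, ih', hc0]
              have : (c.2.1 : F) = 0 := by
                obtain ⟨k, hk⟩ : (2 : ℤ) ∣ c.2.1 := Int.dvd_of_emod_eq_zero hpar
                rw [hk]
                push_cast
                rw [h20, zero_mul]
              rw [this, X_zero, one_mul]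
    · have e1 : t₁ = 1 := (h2 t₁).resolve_left h1
      have e2 : t₂ = 1 := (h2 t₂).resolve_left h3
      unfold ChevalleyDatum.stH
      rw [map_mul, map_mul, map_inv, hW, hW, hW, e1, e2, mul_one]
      have : W (D := D) F π (D.hWord r (1 : F)) = 1 := by
        unfold W ChevalleyDatum.hWord ChevalleyDatum.nWord
        simp only [List.map_append, List.map_cons, List.map_nil, List.prod_append, List.prod_cons, List.prod_nil,
          mul_one, hneg, inv_one]
        have a1 := X_sq hsq r (1 : F)
        have a2 := X_sq hsq (D.neg r) (1 : F)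
        set a := X D F π r (1 : F)
        set b := X D F π (D.neg r) (1 : F)
        calc a * (b * a) * (a * (b * a)) = a * b * (a * a) * b * a := by group
          _ = a * (b * b) * a := by rw [a1]; group
          _ = 1 := by rw [a2, mul_one, a1]
      rw [this]; simp)

theorem hom_stGen (h2 : ∀ t : F, t = 0 ∨ t = 1) (π : ℕ → G) (hsq hpos hcomm) {r : ℕ} (hr : r < D.nroots) :
    hom (D := D) (F := F) h2 π hsq hpos hcomm (D.stGen F r 1) = π r := by
  have : hom (D := D) (F := F) h2 π hsq hpos hcomm (D.stGen F r 1) = X D F π r 1 := by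
    unfold ChevalleyDatum.stGen ChevalleyDatum.stX
    rw [dif_pos hr]
    exact PresentedGroup.toGroup.of _
  rw [this, X_of hr one_ne_zero]

end Cfsg.Agent.Lib.StF2
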