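import Mathlib
import Cfsg.Agent.Lib.StWeyl

/-!
Iwahori-Hecke algebras with real parameters: commuting left and right operators, the Casimir operator,
the dimension of the centre as a trace.
-/

set_option autoImplicit false

namespace Cfsg.Agent.Lib.StHecke

open Cfsg.Agent.Lib.Exchange Cfsg.Agent.Lib.StWeyl

variable {ι W : Type*} [Group W] {s : ι → W}

theorem exch_two (H : IsExch s) {i j : ι} {w : W} (h1 : len s w < len s (s i * w))
    (h2 : len s (s i * (w * s j)) < len s (w * s j)) : s i * w = w * s j := by
  obtain ⟨ω, hw, hl⟩ := exists_reduced H.gen w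
  obtain ⟨k, hk, h3⟩ := H.exch i (ω ++ [j]) (by rw [wp_append, hw, wp_cons, wp_nil, mul_one]; omega)
  rw [wp_append, hw, wp_cons, wp_nil, mul_one] at h3
  rcases Nat.lt_or_ge k ω.length with hlt | hge
  · exfalso
    rw [List.eraseIdx_append_of_lt_length hlt, wp_append, wp_cons, wp_nil, mul_one, ← mul_assoc] at h3
    have h4 : s i * w = wp s (ω.eraseIdx k) := mul_right_cancel h3
    have h5 := len_wp_le (s := s) (ω.eraseIdx k)
    have h6 := List.length_eraseIdx_add_one hlt
    rw [← h4] at h5
    omega
  · have hk' : k = ω.length := by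
      rw [List.length_append, List.length_singleton] at hk
      omega
    rw [hk', List.eraseIdx_append_of_length_le le_rfl, Nat.sub_self, List.eraseIdx_zero, List.tail_cons,
      List.append_nil, hw] at h3
    have h4 : s i * w * s j * s j = w * s j := by rw [mul_assoc (s i), h3]
    rwa [mul_assoc, H.sq, mul_one] at h4

/-- a positive length-multiplicative weight -/
structure IsWeight (s : ι → W) (c : W → ℝ) : Prop where
  pos : ∀ w, 0 < c w
  mul : ∀ v w, len s (v * w) = len s v + len s w → c (v * w) = c v * c w

section weight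
variable (H : IsExch s) {c : W → ℝ} (hc : IsWeight s c)
include hc

theorem IsWeight.one : c 1 = 1 := by
  have h := hc.mul 1 1 (by rw [mul_one, len_one])
  rw [mul_one] at h
  exact (mul_eq_left₀ (hc.pos 1).ne').mp h.symm

include H

theorem IsWeight.simple {i : ι} {w : W} (h : len s w < len s (s i * w)) : c (s i * w) = c (s i) * c w := by
  apply hc.mul
  rw [len_simple H]
  rcases len_simple_mul_cases H i w with h1 | h1 <;> omega

theorem IsWeight.simple' {i : ι} {w : W} (h : len s w < len s (w * s i)) : c (w * s i) = c w * c (s i) := by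
  apply hc.mul
  rw [len_simple H]
  rcases len_mul_simple_cases H i w with h1 | h1 <;> omega

theorem IsWeight.eq {i j : ι} {w : W} (h1 : len s w < len s (s i * w)) (h2 : s i * w = w * s j) :
    c (s i) = c (s j) := by
  have h3 := hc.simple H h1
  have h4 := hc.simple' H (i := j) (w := w) (by rw [← h2]; exact h1)
  rw [h2, h4, mul_comm] at h3
  exact mul_right_cancel₀ (hc.pos w).ne' h3.symm

end weight

/-- left multiplication by `T_s` -/
noncomputable def lam (s : ι → W) (c : W → ℝ) (i : ι) : (W → ℂ) →ₗ[ℂ] (W → ℂ) where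
  toFun z w := if len s w < len s (s i * w) then (c (s i) : ℂ) * z (s i * w)
    else z (s i * w) + ((c (s i) : ℂ) - 1) * z w
  map_add' x y := by
    funext w
    simp only [Pi.add_apply]
    split_ifs <;> ring
  map_smul' a x := by
    funext w
    simp only [Pi.smul_apply, smul_eq_mul, RingHom.id_apply]
    split_ifs <;> ring

/-- right multiplication by `T_s` -/
noncomputable def rho (s : ι → W) (c : W → ℝ) (i : ι) : (W → ℂ) →ₗ[ℂ] (W → ℂ) where
  toFun z w := if len s w < len s (w * s i) then (c (s i) : ℂ) * z (w * s i)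
    else z (w * s i) + ((c (s i) : ℂ) - 1) * z w
  map_add' x y := by
    funext w
    simp only [Pi.add_apply]
    split_ifs <;> ring
  map_smul' a x := by
    funext w
    simp only [Pi.smul_apply, smul_eq_mul, RingHom.id_apply]
    split_ifs <;> ring

theorem lam_apply (c : W → ℝ) (i : ι) (z : W → ℂ) (w : W) :
    lam s c i z w = if len s w < len s (s i * w) then (c (s i) : ℂ) * z (s i * w)
    else z (s i * w) + ((c (s i) : ℂ) - 1) * z w := rfl

theorem rho_apply (c : W → ℝ) (i : ι) (z : W → ℂ) (w : W) :
    rho s c i z w = if len s w < len s (w * s i) then (c (s i) : ℂ) * z (w * s i)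
    else z (w * s i) + ((c (s i) : ℂ) - 1) * z w := rfl

section main
variable (H : IsExch s) {c : W → ℝ} (hc : IsWeight s c)
include H

include hc in
theorem lam_rho (i j : ι) (z : W → ℂ) : lam s c i (rho s c j z) = rho s c j (lam s c i z) := by
  funext w
  simp only [lam_apply, rho_apply]
  have hu : s i * (w * s j) = s i * w * s j := (mul_assoc _ _ _).symm
  rw [hu]
  have e1 := len_simple_mul_cases H i w
  have e2 := len_mul_simple_cases H j w
  have e3 := len_simple_mul_cases H i (w * s j)
  rw [hu] at e3
  have e4 := len_mul_simple_cases H j (s i * w)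
  rcases e1 with e1 | e1 <;> rcases e2 with e2 | e2
  · rcases e4 with e4 | e4
    · split_ifs <;> first | (exfalso; omega) | ring
    · have hxy := exch_two H (i := i) (j := j) (w := w) (by omega) (by rw [hu]; omega)
      have hcc : c (s i) = c (s j) := hc.eq H (w := w) (by omega) hxy
      rw [hcc, hxy]
  · split_ifs <;> first | (exfalso; omega) | ring
  · split_ifs <;> first | (exfalso; omega) | ring
  · rcases e4 with e4 | e4
    · have hxy : s i * (s i * w) = (s i * w) * s j := exch_two H (i := i) (j := j) (w := s i * w)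
        (by rw [simple_mul_cancel H]; omega) (by rw [mul_assoc (s i), simple_mul_cancel H, ← mul_assoc]; omega)
      have hcc : c (s i) = c (s j) := hc.eq H (w := s i * w) (by rw [simple_mul_cancel H]; omega) hxy
      rw [simple_mul_cancel H] at hxy
      have hxy2 : s i * w = w * s j := by
        rw [hxy.symm] at hu
        have : w * s j = s i * w * s j * s j := by rw [← hxy]
        rw [this, mul_assoc (s i * w), H.sq, mul_one]
      rw [hcc, hxy2]
    · split_ifs <;> first | (exfalso; omega) | ring

section single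
variable [DecidableEq W]

theorem lam_single_up {i : ι} {w : W} (h : len s w < len s (s i * w)) :
    lam s c i (Pi.single w 1) = Pi.single (s i * w) 1 := by
  funext v
  rw [lam_apply]
  by_cases h1 : v = s i * w
  · subst h1
    rw [simple_mul_cancel H, if_neg (by omega), Pi.single_eq_same, Pi.single_eq_same, Pi.single_eq_of_ne, mul_zero,
      add_zero]
    intro h2
    rw [h2] at h
    omega
  · have h2 : s i * v ≠ w := by
      rintro rfl
      exact h1 (simple_mul_cancel H i v).symm
    rw [Pi.single_eq_of_ne h1, Pi.single_eq_of_ne h2]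
    by_cases h3 : v = w
    · subst h3
      rw [if_pos h, mul_zero]
    · rw [Pi.single_eq_of_ne h3]
      split_ifs <;> simp

theorem lam_single_down {i : ι} {w : W} (h : len s (s i * w) < len s w) :
    lam s c i (Pi.single w 1) = ((c (s i) : ℂ) - 1) • Pi.single w 1 + (c (s i) : ℂ) • Pi.single (s i * w) 1 := by
  funext v
  rw [lam_apply, Pi.add_apply, Pi.smul_apply, Pi.smul_apply, smul_eq_mul, smul_eq_mul]
  by_cases h1 : v = s i * w
  · subst h1
    have h2 : s i * w ≠ w := fun h2 => by rw [h2] at h; omega
    rw [simple_mul_cancel H, if_pos h, Pi.single_eq_same, Pi.single_eq_same, Pi.single_eq_of_ne h2]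
    ring
  · have h2 : s i * v ≠ w := by
      rintro rfl
      exact h1 (simple_mul_cancel H i v).symm
    rw [Pi.single_eq_of_ne h1, Pi.single_eq_of_ne h2]
    by_cases h3 : v = w
    · subst h3
      rw [if_neg (by omega)]
      ring
    · rw [Pi.single_eq_of_ne h3]
      split_ifs <;> simp

theorem rho_single_up {i : ι} {w : W} (h : len s w < len s (w * s i)) :
    rho s c i (Pi.single w 1) = Pi.single (w * s i) 1 := by
  have hcan : ∀ v, v * s i * s i = v := fun v => by rw [mul_assoc, H.sq, mul_one]
  funext v
  rw [rho_apply]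
  by_cases h1 : v = w * s i
  · subst h1
    rw [hcan, if_neg (by omega), Pi.single_eq_same, Pi.single_eq_same, Pi.single_eq_of_ne, mul_zero,
      add_zero]
    intro h2
    rw [h2] at h
    omega
  · have h2 : v * s i ≠ w := by
      rintro rfl
      exact h1 (hcan v).symm
    rw [Pi.single_eq_of_ne h1, Pi.single_eq_of_ne h2]
    by_cases h3 : v = w
    · subst h3
      rw [if_pos h, mul_zero]
    · rw [Pi.single_eq_of_ne h3]
      split_ifs <;> simp

theorem rho_single_down {i : ι} {w : W} (h : len s (w * s i) < len s w) :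
    rho s c i (Pi.single w 1) = ((c (s i) : ℂ) - 1) • Pi.single w 1 + (c (s i) : ℂ) • Pi.single (w * s i) 1 := by
  have hcan : ∀ v, v * s i * s i = v := fun v => by rw [mul_assoc, H.sq, mul_one]
  funext v
  rw [rho_apply, Pi.add_apply, Pi.smul_apply, Pi.smul_apply, smul_eq_mul, smul_eq_mul]
  by_cases h1 : v = w * s i
  · subst h1
    have h2 : w * s i ≠ w := fun h2 => by rw [h2] at h; omega
    rw [hcan, if_pos h, Pi.single_eq_same, Pi.single_eq_same, Pi.single_eq_of_ne h2]
    ring
  · have h2 : v * s i ≠ w := by
      rintro rfl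
      exact h1 (hcan v).symm
    rw [Pi.single_eq_of_ne h1, Pi.single_eq_of_ne h2]
    by_cases h3 : v = w
    · subst h3
      rw [if_neg (by omega)]
      ring
    · rw [Pi.single_eq_of_ne h3]
      split_ifs <;> simp

end single

omit H in
/-- words of left operators -/
noncomputable def LW (s : ι → W) (c : W → ℝ) (ω : List ι) : Module.End ℂ (W → ℂ) := (ω.map (lam s c)).prod

omit H in
/-- words of right operators -/
noncomputable def RW (s : ι → W) (c : W → ℝ) (ω : List ι) : Module.End ℂ (W → ℂ) := (ω.map (rho s c)).prod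

omit H in
theorem LW_nil : LW s c [] = 1 := rfl
omit H in
theorem RW_nil : RW s c [] = 1 := rfl
omit H in
theorem LW_cons (i : ι) (ω : List ι) : LW s c (i :: ω) = lam s c i * LW s c ω := by simp [LW]
omit H in
theorem RW_cons (i : ι) (ω : List ι) : RW s c (i :: ω) = rho s c i * RW s c ω := by simp [RW]
omit H in
theorem LW_append (ω ω' : List ι) : LW s c (ω ++ ω') = LW s c ω * LW s c ω' := by simp [LW]

include hc in
theorem commute_lam_RW (i : ι) (ω : List ι) : Commute (lam s c i) (RW s c ω) := by
  induction ω with
  | nil => exact Commute.one_right _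
  | cons j ω ih =>
    rw [RW_cons]
    refine Commute.mul_right ?_ ih
    exact LinearMap.ext fun z => lam_rho H hc i j z

include hc in
theorem commute_rho_LW (i : ι) (ω : List ι) : Commute (rho s c i) (LW s c ω) := by
  induction ω with
  | nil => exact Commute.one_right _
  | cons j ω ih =>
    rw [LW_cons]
    refine Commute.mul_right ?_ ih
    exact LinearMap.ext fun z => (lam_rho H hc j i z).symm

include hc in
theorem commute_LW_RW (ω ω' : List ι) : Commute (LW s c ω) (RW s c ω') := by
  induction ω with
  | nil => exact Commute.one_left _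
  | cons j ω ih =>
    rw [LW_cons]
    exact Commute.mul_left (commute_lam_RW H hc j ω') ih

variable [DecidableEq W]

theorem LW_one {ω : List ι} (hω : ω.length = len s (wp s ω)) :
    LW s c ω (Pi.single 1 1) = Pi.single (wp s ω) 1 := by
  induction ω with
  | nil => rw [LW_nil, wp_nil]; rfl
  | cons i ω ih =>
    have h1 := reduced_tail H hω
    rw [LW_cons, Module.End.mul_apply, ih h1, lam_single_up H, wp_cons]
    rw [wp_cons, List.length_cons] at hω
    omega

theorem RW_one {ω : List ι} (hω : ω.length = len s (wp s ω)) :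
    RW s c ω (Pi.single 1 1) = Pi.single (wp s ω)⁻¹ 1 := by
  induction ω with
  | nil => rw [RW_nil, wp_nil, inv_one]; rfl
  | cons i ω ih =>
    have h1 := reduced_tail H hω
    rw [RW_cons, Module.End.mul_apply, ih h1, rho_single_up H, wp_cons, mul_inv_rev, inv_simple H]
    have h2 : (wp s ω)⁻¹ * s i = (s i * wp s ω)⁻¹ := by rw [mul_inv_rev, inv_simple H]
    rw [h2, len_inv H, len_inv H]
    rw [wp_cons, List.length_cons] at hω
    omega

omit [DecidableEq W] H in
/-- a chosen reduced word -/
noncomputable def rw_ (H : IsExch s) (w : W) : List ι := (exists_reduced H.gen w).choose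

omit [DecidableEq W] in
theorem wp_rw (w : W) : wp s (rw_ H w) = w := (exists_reduced H.gen w).choose_spec.1
omit [DecidableEq W] in
theorem len_rw (w : W) : (rw_ H w).length = len s (wp s (rw_ H w)) := by
  rw [wp_rw H]; exact (exists_reduced H.gen w).choose_spec.2

/-- the operator of left multiplication by `T_w` -/
noncomputable def Lop (c : W → ℝ) (w : W) : Module.End ℂ (W → ℂ) := LW s c (rw_ H w)
/-- the operator of right multiplication by `T_{w⁻¹}` -/
noncomputable def Rop (c : W → ℝ) (w : W) : Module.End ℂ (W → ℂ) := RW s c (rw_ H w)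

theorem Lop_one (w : W) : Lop H c w (Pi.single 1 1) = Pi.single w 1 := by
  unfold Lop
  rw [LW_one H (len_rw H w), wp_rw]

theorem Rop_one (w : W) : Rop H c w (Pi.single 1 1) = Pi.single w⁻¹ 1 := by
  unfold Rop
  rw [RW_one H (len_rw H w), wp_rw]

/-- an operator commuting with all right operators is determined by its value at `T_1` -/
theorem ext_left [Finite W] {a b : Module.End ℂ (W → ℂ)} (ha : ∀ w, Commute a (Rop H c w))
    (hb : ∀ w, Commute b (Rop H c w)) (h : a (Pi.single 1 1) = b (Pi.single 1 1)) : a = b := by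
  refine (Pi.basisFun ℂ W).ext fun v => ?_
  rw [Pi.basisFun_apply]
  have h1 := Rop_one H (c := c) v⁻¹
  rw [inv_inv] at h1
  have h2 := LinearMap.congr_fun (ha v⁻¹).eq (Pi.single 1 1)
  have h3 := LinearMap.congr_fun (hb v⁻¹).eq (Pi.single 1 1)
  rw [Module.End.mul_apply, Module.End.mul_apply] at h2 h3
  rw [← h1, h2, h3, h]

theorem ext_right [Finite W] {a b : Module.End ℂ (W → ℂ)} (ha : ∀ w, Commute a (Lop H c w))
    (hb : ∀ w, Commute b (Lop H c w)) (h : a (Pi.single 1 1) = b (Pi.single 1 1)) : a = b := by
  refine (Pi.basisFun ℂ W).ext fun v => ?_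
  rw [Pi.basisFun_apply]
  have h1 := Lop_one H (c := c) v
  have h2 := LinearMap.congr_fun (ha v).eq (Pi.single 1 1)
  have h3 := LinearMap.congr_fun (hb v).eq (Pi.single 1 1)
  rw [Module.End.mul_apply, Module.End.mul_apply] at h2 h3
  rw [← h1, h2, h3, h]

variable [Finite W]

include hc in
theorem lam_Lop_up {i : ι} {w : W} (h : len s w < len s (s i * w)) : lam s c i * Lop H c w = Lop H c (s i * w) := by
  refine ext_left H (c := c) (fun v => ?_) (fun v => ?_) ?_
  · exact (commute_lam_RW H hc i _).mul_left (commute_LW_RW H hc _ _)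
  · exact commute_LW_RW H hc _ _
  · rw [Module.End.mul_apply, Lop_one, Lop_one, lam_single_up H h]

include hc in
theorem lam_Lop_down {i : ι} {w : W} (h : len s (s i * w) < len s w) :
    lam s c i * Lop H c w = ((c (s i) : ℂ) - 1) • Lop H c w + (c (s i) : ℂ) • Lop H c (s i * w) := by
  refine ext_left H (c := c) (fun v => ?_) (fun v => ?_) ?_
  · exact (commute_lam_RW H hc i _).mul_left (commute_LW_RW H hc _ _)
  · exact ((commute_LW_RW H hc _ _).smul_left _).add_left ((commute_LW_RW H hc _ _).smul_left _)
  · rw [Module.End.mul_apply, LinearMap.add_apply, LinearMap.smul_apply, LinearMap.smul_apply, Lop_one, Lop_one,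
      lam_single_down H h]

include hc in
theorem rho_Rop_up {i : ι} {w : W} (h : len s w < len s (s i * w)) : rho s c i * Rop H c w = Rop H c (s i * w) := by
  refine ext_right H (c := c) (fun v => ?_) (fun v => ?_) ?_
  · exact (commute_rho_LW H hc i _).mul_left (commute_LW_RW H hc _ _).symm
  · exact (commute_LW_RW H hc _ _).symm
  · rw [Module.End.mul_apply, Rop_one, Rop_one, rho_single_up H, mul_inv_rev, inv_simple H]
    have h2 : w⁻¹ * s i = (s i * w)⁻¹ := by rw [mul_inv_rev, inv_simple H]
    rw [h2, len_inv H, len_inv H]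
    exact h

include hc in
theorem rho_Rop_down {i : ι} {w : W} (h : len s (s i * w) < len s w) :
    rho s c i * Rop H c w = ((c (s i) : ℂ) - 1) • Rop H c w + (c (s i) : ℂ) • Rop H c (s i * w) := by
  refine ext_right H (c := c) (fun v => ?_) (fun v => ?_) ?_
  · exact (commute_rho_LW H hc i _).mul_left (commute_LW_RW H hc _ _).symm
  · exact ((commute_LW_RW H hc _ _).symm.smul_left _).add_left ((commute_LW_RW H hc _ _).symm.smul_left _)
  · have h2 : w⁻¹ * s i = (s i * w)⁻¹ := by rw [mul_inv_rev, inv_simple H]
    rw [Module.End.mul_apply, LinearMap.add_apply, LinearMap.smul_apply, LinearMap.smul_apply, Rop_one, Rop_one,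
      rho_single_down H, h2]
    rw [h2, len_inv H, len_inv H]
    exact h

variable [Fintype W]

/-- the Casimir operator -/
noncomputable def gam (c : W → ℝ) : Module.End ℂ (W → ℂ) := ∑ w : W, ((c w : ℂ))⁻¹ • (Lop H c w * Rop H c w)

omit H in
omit [DecidableEq W] [Finite W] in
theorem sum_pair_eq_zero {M : Type*} [AddCommGroup M] [Module ℂ M] (H : IsExch s) (i : ι) (f : W → M)
    (hf : ∀ w, len s w < len s (s i * w) → f w + f (s i * w) = 0) : ∑ w : W, f w = 0 := by
  have h1 : ∀ w, f w + f (s i * w) = 0 := by
    intro w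
    rcases len_simple_mul_cases H i w with h | h
    · exact hf w (by omega)
    · have := hf (s i * w) (by rw [simple_mul_cancel H]; omega)
      rwa [simple_mul_cancel H, add_comm] at this
  have h2 : ∑ w : W, f w = ∑ w : W, f (s i * w) := (Fintype.sum_equiv (Equiv.mulLeft (s i)) _ _ fun w => rfl).symm
  have h3 : (2 : ℂ) • ∑ w : W, f w = 0 := by
    rw [two_smul]
    nth_rewrite 2 [h2]
    rw [← Finset.sum_add_distrib]
    exact Finset.sum_eq_zero fun w _ => h1 w
  exact (smul_eq_zero.mp h3).resolve_left two_ne_zero

include hc in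
theorem lam_gam (i : ι) : lam s c i * gam H c = rho s c i * gam H c := by
  rw [← sub_eq_zero]
  unfold gam
  rw [Finset.mul_sum, Finset.mul_sum, ← Finset.sum_sub_distrib]
  apply sum_pair_eq_zero H i
  intro w h
  have h' : len s (s i * (s i * w)) < len s (s i * w) := by rwa [simple_mul_cancel H]
  have e1 := lam_Lop_up H hc h
  have e2 := rho_Rop_up H hc h
  have e3 := lam_Lop_down H hc h'
  have e4 := rho_Rop_down H hc h'
  rw [simple_mul_cancel H] at e3 e4
  have hcw := hc.simple H h
  have hcomm : ∀ v, rho s c i * Lop H c v = Lop H c v * rho s c i := fun v => (commute_rho_LW H hc i _).eq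
  have hr : ∀ v, rho s c i * (Lop H c v * Rop H c v) = Lop H c v * (rho s c i * Rop H c v) := by
    intro v
    rw [← mul_assoc, hcomm, mul_assoc]
  have hl : ∀ v, lam s c i * (Lop H c v * Rop H c v) = (lam s c i * Lop H c v) * Rop H c v := by
    intro v
    rw [mul_assoc]
  rw [mul_smul_comm, mul_smul_comm, mul_smul_comm, mul_smul_comm, hr, hr, hl, hl, e1, e2, e3, e4, hcw]
  have hw0 : (c w : ℂ) ≠ 0 := by exact_mod_cast (hc.pos w).ne'
  have hi0 : (c (s i) : ℂ) ≠ 0 := by exact_mod_cast (hc.pos (s i)).ne'
  push_cast
  simp only [add_mul, mul_add, smul_mul_assoc, mul_smul_comm, smul_add, smul_smul, sub_eq_add_neg, neg_add]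
  have hk : ((c (s i) : ℂ) * c w)⁻¹ * c (s i) = (c w : ℂ)⁻¹ := by field_simp
  rw [hk]
  abel

end main

end Cfsg.Agent.Lib.StHecke
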