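import Mathlib
import Cfsg.Agent.Lib.StHecke1

/-!
The dimension of the centre of the Iwahori-Hecke algebra with positive real parameters is the number of conjugacy
classes.
-/

set_option autoImplicit false

namespace Cfsg.Agent.Lib.StHecke

open Cfsg.Agent.Lib.Exchange Cfsg.Agent.Lib.StWeyl
open scoped ComplexConjugate

variable {ι W : Type*} [Group W] {s : ι → W}

/-- the centre, as a space of functions -/
def Zc (s : ι → W) (c : W → ℝ) : Submodule ℂ (W → ℂ) where
  carrier := {z | ∀ i, lam s c i z = rho s c i z}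
  add_mem' := fun {a b} ha hb i => by rw [map_add, map_add, ha i, hb i]
  zero_mem' := fun i => by rw [map_zero, map_zero]
  smul_mem' := fun a z hz i => by rw [map_smul, map_smul, hz i]

theorem mem_Zc {c : W → ℝ} {z : W → ℂ} : z ∈ Zc s c ↔ ∀ i, lam s c i z = rho s c i z := Iff.rfl

section main
variable (H : IsExch s) {c : W → ℝ} (hc : IsWeight s c)
include H

include hc in
theorem RW_Z {z : W → ℂ} (hz : z ∈ Zc s c) (ω : List ι) : RW s c ω z = LW s c ω.reverse z := by
  induction ω with
  | nil => rfl
  | cons i ω ih =>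
    rw [RW_cons, Module.End.mul_apply, ih, List.reverse_cons, LW_append]
    have h1 := LinearMap.congr_fun (commute_rho_LW H hc i ω.reverse).eq z
    rw [Module.End.mul_apply, Module.End.mul_apply] at h1
    rw [h1, ← hz i, Module.End.mul_apply, LW_cons, LW_nil, mul_one]

variable [Fintype W]

/-- left multiplication by the Casimir element -/
noncomputable def Cop (c : W → ℝ) : Module.End ℂ (W → ℂ) :=
  ∑ w : W, ((c w : ℂ))⁻¹ • (LW s c (rw_ H w) * LW s c (rw_ H w).reverse)

include hc in
theorem gam_Z {z : W → ℂ} (hz : z ∈ Zc s c) : gam H c z = Cop H c z := by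
  unfold gam Cop
  rw [LinearMap.sum_apply, LinearMap.sum_apply]
  refine Finset.sum_congr rfl fun w _ => ?_
  rw [LinearMap.smul_apply, LinearMap.smul_apply, Module.End.mul_apply, Module.End.mul_apply]
  unfold Rop
  rw [RW_Z H hc hz]
  rfl

include hc in
theorem gam_mem (h : W → ℂ) : gam H c h ∈ Zc s c := by
  classical
  intro i
  have := LinearMap.congr_fun (lam_gam H hc i) h
  rwa [Module.End.mul_apply, Module.End.mul_apply] at this

omit H in
/-- the form -/
noncomputable def Nf (c : W → ℝ) (x y : W → ℂ) : ℂ := ∑ w : W, (c w : ℂ) * (conj (x w) * y w)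

omit H in
/-- the norm -/
noncomputable def Nr (c : W → ℝ) (x : W → ℂ) : ℝ := ∑ w : W, c w * Complex.normSq (x w)

omit H in
omit [Group W] in
theorem Nf_self (x : W → ℂ) : Nf c x x = (Nr c x : ℂ) := by
  unfold Nf Nr
  push_cast
  refine Finset.sum_congr rfl fun w _ => ?_
  rw [Complex.normSq_eq_conj_mul_self]

include hc in
theorem lam_adj (i : ι) (x y : W → ℂ) : Nf c x (lam s c i y) = Nf c (lam s c i x) y := by
  rw [← sub_eq_zero]
  unfold Nf
  rw [← Finset.sum_sub_distrib]
  apply sum_pair_eq_zero H i
  intro w h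
  rw [lam_apply, lam_apply, lam_apply, lam_apply, if_pos h, if_pos h, simple_mul_cancel H, if_neg (by omega),
    if_neg (by omega), hc.simple H h]
  simp only [map_add, map_mul, map_sub, Complex.conj_ofReal, map_one]
  push_cast
  ring

include hc in
theorem LW_adj (ω : List ι) : ∀ x y : W → ℂ, Nf c x (LW s c ω y) = Nf c (LW s c ω.reverse x) y := by
  induction ω with
  | nil => intro x y; rfl
  | cons i ω ih =>
    intro x y
    rw [LW_cons, Module.End.mul_apply, lam_adj H hc, ih, List.reverse_cons, LW_append, Module.End.mul_apply]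
    rw [LW_cons, LW_nil, mul_one]

omit H in
omit [Group W] in
theorem Nr_nonneg (hpos : ∀ w, 0 < c w) (x : W → ℂ) : 0 ≤ Nr c x :=
  Finset.sum_nonneg fun w _ => mul_nonneg (hpos w).le (Complex.normSq_nonneg _)

omit H in
omit [Group W] in
theorem Nr_eq_zero (hpos : ∀ w, 0 < c w) {x : W → ℂ} (h : Nr c x = 0) : x = 0 := by
  unfold Nr at h
  rw [Finset.sum_eq_zero_iff_of_nonneg (fun w _ => mul_nonneg (hpos w).le (Complex.normSq_nonneg _))] at h
  funext w
  have h1 := h w (Finset.mem_univ w)
  exact Complex.normSq_eq_zero.mp ((mul_eq_zero.mp h1).resolve_left (hpos w).ne')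

include hc in
theorem Cop_injective : Function.Injective (Cop H c) := by
  rw [injective_iff_map_eq_zero]
  intro z hz
  have h1 : Nf c z (Cop H c z) = ∑ w : W, ((((c w)⁻¹ * Nr c (LW s c (rw_ H w).reverse z) : ℝ)) : ℂ) := by
    have e1 : Cop H c z = ∑ w : W, ((c w : ℂ))⁻¹ • LW s c (rw_ H w) (LW s c (rw_ H w).reverse z) := by
      unfold Cop
      rw [LinearMap.sum_apply]
      rfl
    have e2 : ∀ (f : W → W → ℂ), Nf c z (∑ w : W, f w) = ∑ w : W, Nf c z (f w) := by
      intro f
      unfold Nf
      rw [Finset.sum_comm]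
      refine Finset.sum_congr rfl fun v _ => ?_
      rw [Finset.sum_apply, Finset.mul_sum, Finset.mul_sum]
    have e3 : ∀ (a : ℂ) (y : W → ℂ), Nf c z (a • y) = a * Nf c z y := by
      intro a y
      unfold Nf
      rw [Finset.mul_sum]
      refine Finset.sum_congr rfl fun v _ => ?_
      rw [Pi.smul_apply, smul_eq_mul]
      ring
    rw [e1, e2]
    refine Finset.sum_congr rfl fun w _ => ?_
    rw [e3, LW_adj H hc, Nf_self]
    push_cast
    rfl
  rw [hz] at h1
  have h2 : Nf c z 0 = 0 := by
    unfold Nf
    simp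
  rw [h2, ← Complex.ofReal_sum] at h1
  have h3 : ∑ w : W, (c w)⁻¹ * Nr c (LW s c (rw_ H w).reverse z) = 0 := by exact_mod_cast h1.symm
  rw [Finset.sum_eq_zero_iff_of_nonneg (fun w _ => mul_nonneg (inv_nonneg.mpr (hc.pos w).le) (Nr_nonneg hc.pos _))] at h3
  have h4 := h3 1 (Finset.mem_univ 1)
  have h5 := (mul_eq_zero.mp h4).resolve_left (inv_ne_zero (hc.pos 1).ne')
  have h6 : rw_ H (1 : W) = [] := by
    have := len_rw H (1 : W)
    rw [wp_rw, len_one] at this
    exact List.length_eq_zero_iff.mp this
  rw [h6, List.reverse_nil, LW_nil] at h5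
  exact Nr_eq_zero hc.pos h5

include hc in
/-- the dimension of the centre is a trace -/
theorem finrank_Zc [DecidableEq W] : (Module.finrank ℂ (Zc s c) : ℂ) =
    Matrix.trace ((LinearMap.toMatrix' (Cop H c))⁻¹ * LinearMap.toMatrix' (gam H c)) := by
  let e : (W → ℂ) ≃ₗ[ℂ] (W → ℂ) := LinearEquiv.ofInjectiveEndo (Cop H c) (Cop_injective H hc)
  have he : ∀ z, e z = Cop H c z := fun z => rfl
  let E : Module.End ℂ (W → ℂ) := e.symm.toLinearMap * gam H c
  have hCE : Cop H c * E = gam H c := by
    refine LinearMap.ext fun z => ?_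
    show Cop H c (e.symm (gam H c z)) = gam H c z
    rw [← he, LinearEquiv.apply_symm_apply]
  -- `C` maps `Z` onto `Z`
  have hCZ : ∀ z ∈ Zc s c, Cop H c z ∈ Zc s c := fun z hz => by
    rw [← gam_Z H hc hz]; exact gam_mem H hc z
  have hsurj : ∀ z ∈ Zc s c, e.symm z ∈ Zc s c := by
    intro z hz
    let f : Zc s c →ₗ[ℂ] Zc s c := (Cop H c).restrict hCZ
    have hf : Function.Injective f := by
      intro a b hab
      exact Subtype.ext (Cop_injective H hc (congrArg Subtype.val hab))
    obtain ⟨y, hy⟩ := (LinearMap.injective_iff_surjective.mp hf) ⟨z, hz⟩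
    have h1 : e y = z := congrArg Subtype.val hy
    rw [← h1, LinearEquiv.symm_apply_apply]
    exact y.2
  have hproj : LinearMap.IsProj (Zc s c) E := by
    constructor
    · intro z
      exact hsurj _ (gam_mem H hc z)
    · intro z hz
      show e.symm (gam H c z) = z
      rw [gam_Z H hc hz, ← he, LinearEquiv.symm_apply_apply]
  rw [← hproj.trace]
  have hdet : IsUnit (LinearMap.toMatrix' (Cop H c)).det := by
    rw [LinearMap.det_toMatrix']
    exact LinearEquiv.isUnit_det' e
  have h1 : LinearMap.toMatrix' E = (LinearMap.toMatrix' (Cop H c))⁻¹ * LinearMap.toMatrix' (gam H c) := by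
    rw [← hCE]
    have : LinearMap.toMatrix' (Cop H c * E) = LinearMap.toMatrix' (Cop H c) * LinearMap.toMatrix' E :=
      LinearMap.toMatrix'_mul _ _
    rw [this, ← Matrix.mul_assoc, Matrix.nonsing_inv_mul _ hdet, Matrix.one_mul]
  rw [← h1, LinearMap.trace_eq_matrix_trace ℂ (Pi.basisFun ℂ W), LinearMap.toMatrix_eq_toMatrix']

end main

section cont
variable (H : IsExch s) [Fintype W] [DecidableEq W] {c : ℝ → W → ℝ} (hcont : ∀ w, Continuous fun t => c t w)
  (hpos : ∀ t w, 0 < c t w)
include hcont

theorem cont_lam (i : ι) : Continuous fun t => LinearMap.toMatrix' (lam s (c t) i) := by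
  refine continuous_matrix fun v w => ?_
  simp only [LinearMap.toMatrix'_apply, lam_apply]
  split_ifs
  all_goals first
    | exact continuous_const
    | exact (Complex.continuous_ofReal.comp (hcont _)).mul continuous_const
    | exact continuous_const.add (((Complex.continuous_ofReal.comp (hcont _)).sub continuous_const).mul continuous_const)

theorem cont_rho (i : ι) : Continuous fun t => LinearMap.toMatrix' (rho s (c t) i) := by
  refine continuous_matrix fun v w => ?_
  simp only [LinearMap.toMatrix'_apply, rho_apply]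
  split_ifs
  all_goals first
    | exact continuous_const
    | exact (Complex.continuous_ofReal.comp (hcont _)).mul continuous_const
    | exact continuous_const.add (((Complex.continuous_ofReal.comp (hcont _)).sub continuous_const).mul continuous_const)

theorem cont_LW (ω : List ι) : Continuous fun t => LinearMap.toMatrix' (LW s (c t) ω) := by
  induction ω with
  | nil =>
    show Continuous fun _ : ℝ => LinearMap.toMatrix' (1 : Module.End ℂ (W → ℂ))
    exact continuous_const
  | cons i ω ih =>
    have : (fun t => LinearMap.toMatrix' (LW s (c t) (i :: ω))) =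
        fun t => LinearMap.toMatrix' (lam s (c t) i) * LinearMap.toMatrix' (LW s (c t) ω) := by
      funext t
      rw [LW_cons]
      exact LinearMap.toMatrix'_mul _ _
    rw [this]
    exact (cont_lam hcont i).matrix_mul ih

theorem cont_RW (ω : List ι) : Continuous fun t => LinearMap.toMatrix' (RW s (c t) ω) := by
  induction ω with
  | nil =>
    show Continuous fun _ : ℝ => LinearMap.toMatrix' (1 : Module.End ℂ (W → ℂ))
    exact continuous_const
  | cons i ω ih =>
    have : (fun t => LinearMap.toMatrix' (RW s (c t) (i :: ω))) =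
        fun t => LinearMap.toMatrix' (rho s (c t) i) * LinearMap.toMatrix' (RW s (c t) ω) := by
      funext t
      rw [RW_cons]
      exact LinearMap.toMatrix'_mul _ _
    rw [this]
    exact (cont_rho hcont i).matrix_mul ih

include hpos

theorem cont_gam : Continuous fun t => LinearMap.toMatrix' (gam H (c t)) := by
  have : (fun t => LinearMap.toMatrix' (gam H (c t))) = fun t => ∑ w : W, ((c t w : ℂ))⁻¹ •
      (LinearMap.toMatrix' (LW s (c t) (rw_ H w)) * LinearMap.toMatrix' (RW s (c t) (rw_ H w))) := by
    funext t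
    unfold gam
    rw [map_sum]
    refine Finset.sum_congr rfl fun w _ => ?_
    rw [map_smul]
    congr 1
    exact LinearMap.toMatrix'_mul _ _
  rw [this]
  refine continuous_finset_sum _ fun w _ => ?_
  have h1 : Continuous fun t => ((c t w : ℂ))⁻¹ :=
    (Complex.continuous_ofReal.comp (hcont w)).inv₀ fun t => by
      show (c t w : ℂ) ≠ 0
      exact_mod_cast (hpos t w).ne'
  exact h1.smul ((cont_LW hcont _).matrix_mul (cont_RW hcont _))

theorem cont_Cop : Continuous fun t => LinearMap.toMatrix' (Cop H (c t)) := by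
  have : (fun t => LinearMap.toMatrix' (Cop H (c t))) = fun t => ∑ w : W, ((c t w : ℂ))⁻¹ •
      (LinearMap.toMatrix' (LW s (c t) (rw_ H w)) * LinearMap.toMatrix' (LW s (c t) (rw_ H w).reverse)) := by
    funext t
    unfold Cop
    rw [map_sum]
    refine Finset.sum_congr rfl fun w _ => ?_
    rw [map_smul]
    congr 1
    exact LinearMap.toMatrix'_mul _ _
  rw [this]
  refine continuous_finset_sum _ fun w _ => ?_
  have h1 : Continuous fun t => ((c t w : ℂ))⁻¹ :=
    (Complex.continuous_ofReal.comp (hcont w)).inv₀ fun t => by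
      show (c t w : ℂ) ≠ 0
      exact_mod_cast (hpos t w).ne'
  exact h1.smul ((cont_LW hcont _).matrix_mul (cont_LW hcont _))

end cont

theorem finrank_const [Fintype W] (H : IsExch s) {c : ℝ → W → ℝ} (hcont : ∀ w, Continuous fun t => c t w)
    (hc : ∀ t, IsWeight s (c t)) (t t' : ℝ) : Module.finrank ℂ (Zc s (c t)) = Module.finrank ℂ (Zc s (c t')) := by
  classical
  have h1 : Continuous fun t => ((Module.finrank ℂ (Zc s (c t)) : ℕ) : ℂ) := by
    have : (fun t => ((Module.finrank ℂ (Zc s (c t)) : ℕ) : ℂ)) = fun t =>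
        Matrix.trace ((LinearMap.toMatrix' (Cop H (c t)))⁻¹ * LinearMap.toMatrix' (gam H (c t))) := by
      funext t
      exact finrank_Zc H (hc t)
    rw [this]
    refine Continuous.matrix_trace (Continuous.matrix_mul ?_ (cont_gam H hcont (fun t => (hc t).pos)))
    have h2 : (fun t => (LinearMap.toMatrix' (Cop H (c t)))⁻¹) = fun t =>
        ((LinearMap.toMatrix' (Cop H (c t))).det)⁻¹ • (LinearMap.toMatrix' (Cop H (c t))).adjugate := by
      funext t
      rw [Matrix.inv_def, Ring.inverse_eq_inv']
    rw [h2]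
    have h3 := cont_Cop H hcont (fun t => (hc t).pos)
    refine Continuous.smul (Continuous.inv₀ h3.matrix_det fun t => ?_) h3.matrix_adjugate
    rw [LinearMap.det_toMatrix']
    exact (LinearEquiv.isUnit_det' (LinearEquiv.ofInjectiveEndo (Cop H (c t)) (Cop_injective H (hc t)))).ne_zero
  have h2 : Continuous fun t => ((Module.finrank ℂ (Zc s (c t)) : ℕ) : ℝ) := by
    have := Complex.continuous_re.comp h1
    exact this
  have h3 : Continuous fun t => Module.finrank ℂ (Zc s (c t)) :=
    Nat.isClosedEmbedding_coe_real.isEmbedding.continuous_iff.mpr h2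
  exact PreconnectedSpace.constant inferInstance h3

theorem finrank_eq_one [Fintype W] (H : IsExch s) {c : W → ℝ} (hc : IsWeight s c) :
    Module.finrank ℂ (Zc s c) = Module.finrank ℂ (Zc s (fun _ => (1 : ℝ))) := by
  have h1 := finrank_const H (c := fun t w => (c w) ^ t) (fun w => Real.continuous_const_rpow (hc.pos w).ne')
    (fun t => ⟨fun w => Real.rpow_pos_of_pos (hc.pos w) t, fun v w h => by
      show (c (v * w)) ^ t = _
      rw [hc.mul v w h, Real.mul_rpow (hc.pos v).le (hc.pos w).le]⟩) 1 0
  have e1 : (fun w => (c w) ^ (1 : ℝ)) = c := funext fun w => Real.rpow_one _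
  have e2 : (fun w => (c w) ^ (0 : ℝ)) = fun _ => (1 : ℝ) := funext fun w => Real.rpow_zero _
  rw [e1, e2] at h1
  exact h1

/-- for the parameter `1` the centre consists of the class functions -/
theorem finrank_one [Finite W] (H : IsExch s) :
    Module.finrank ℂ (Zc s (fun _ : W => (1 : ℝ))) = Nat.card (ConjClasses W) := by
  classical
  have : Fintype (ConjClasses W) := Fintype.ofFinite _
  have hmem : ∀ z : W → ℂ, z ∈ Zc s (fun _ : W => (1 : ℝ)) ↔ ∀ i w, z (s i * w) = z (w * s i) := by
    intro z
    rw [mem_Zc]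
    refine forall_congr' fun i => ?_
    rw [funext_iff]
    refine forall_congr' fun w => ?_
    rw [lam_apply, rho_apply]
    simp
  have hcls : ∀ z : W → ℂ, z ∈ Zc s (fun _ : W => (1 : ℝ)) ↔ ∀ g w, z (g * w * g⁻¹) = z w := by
    intro z
    rw [hmem]
    constructor
    · intro h
      have key : ∀ (ω : List ι) (w : W), z (wp s ω * w * (wp s ω)⁻¹) = z w := by
        intro ω
        induction ω with
        | nil => intro w; simp
        | cons i ω ih =>
          intro w
          rw [wp_cons, mul_inv_rev, inv_simple H]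
          have e : s i * wp s ω * w * ((wp s ω)⁻¹ * s i) = s i * ((wp s ω * w * (wp s ω)⁻¹) * s i) := by group
          rw [e, h, mul_assoc _ (s i), H.sq, mul_one, ih]
      intro g w
      obtain ⟨ω, rfl⟩ := H.gen g
      exact key ω w
    · intro h i w
      have := h (s i) (w * s i)
      rw [inv_simple H] at this
      rw [← this]
      congr 1
      rw [mul_assoc, mul_assoc w, H.sq, mul_one]
  let f : (ConjClasses W → ℂ) ≃ₗ[ℂ] Zc s (fun _ : W => (1 : ℝ)) :=
    { toFun := fun φ => ⟨fun w => φ (ConjClasses.mk w), (hcls _).mpr fun g w => by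
        show φ _ = φ _
        congr 1
        exact (ConjClasses.mk_eq_mk_iff_isConj.mpr (isConj_iff.mpr ⟨g, rfl⟩)).symm⟩
      map_add' := fun φ ψ => rfl
      map_smul' := fun a φ => rfl
      invFun := fun z => Quotient.lift z.1 (fun a b h => by
        obtain ⟨g, hg⟩ := isConj_iff.mp h
        rw [← hg]
        exact ((hcls _).mp z.2 g a).symm)
      left_inv := fun φ => by
        funext x
        obtain ⟨a, rfl⟩ := ConjClasses.exists_rep x
        rfl
      right_inv := fun z => rfl }
  rw [← f.finrank_eq, Module.finrank_fintype_fun_eq_card, Nat.card_eq_fintype_card]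

end Cfsg.Agent.Lib.StHecke
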