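import Mathlib
import Cfsg.Agent.Lib.StHecke2
import Cfsg.Agent.Lib.StCR4

/-!
The number of irreducible constituents of the permutation character on `G/B` of a finite group with a BN-pair is the
number of conjugacy classes of the Weyl group.
-/

set_option autoImplicit false

namespace Cfsg.Agent.Lib.StHecke

open Cfsg Cfsg.Agent.Lib.Exchange Cfsg.Agent.Lib.BNPair Cfsg.Agent.Lib.StWeyl Cfsg.Agent.Lib.StTits
open Cfsg.Agent.Lib.CharBasic Cfsg.Agent.Lib.StCR
open scoped ComplexConjugate

variable {G : Type*} [Group G] {P : Cfsg.BNPair G} [Finite G]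

theorem isWeight_cn : IsWeight (sW P) (fun w => (cn P w : ℝ)) where
  pos w := by exact_mod_cast cn_pos w
  mul v w h := by exact_mod_cast cn_mul h

/-! ### counting -/

theorem card_beta (w : W P) : Nat.card {g : G // beta P g = w} = cn P w * Nat.card P.B := by
  classical
  have := Fintype.ofFinite G
  have : Fintype (G ⧸ P.B) := Fintype.ofFinite _
  have : Fintype P.B := Fintype.ofFinite _
  unfold cn
  rw [← Nat.card_prod]
  symm
  refine Nat.card_congr (Equiv.ofBijective
    (fun y : {x : G ⧸ P.B // betaQ P x = w} × P.B => (⟨Quotient.out y.1.1 * y.2, ?_⟩ : {g : G // beta P g = w})) ⟨?_, ?_⟩)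
  · rw [beta_mul_B y.2.2]
    have := y.1.2
    rw [← QuotientGroup.out_eq' y.1.1, betaQ_mk] at this
    exact this
  · rintro ⟨⟨x, hx⟩, b⟩ ⟨⟨x', hx'⟩, b'⟩ h
    have h1 : Quotient.out x * (b : G) = Quotient.out x' * b' := congrArg Subtype.val h
    have h2 : x = x' := by
      rw [← QuotientGroup.out_eq' x, ← QuotientGroup.out_eq' x', QuotientGroup.eq]
      have : (Quotient.out x)⁻¹ * Quotient.out x' = b * (b' : G)⁻¹ := by
        rw [inv_mul_eq_iff_eq_mul, ← mul_assoc, h1, mul_inv_cancel_right]
      rw [this]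
      exact mul_mem b.2 (inv_mem b'.2)
    subst h2
    have h3 := mul_left_cancel h1
    rw [Subtype.ext h3]
  · rintro ⟨g, hg⟩
    have h1 : (Quotient.out ((g : G) : G ⧸ P.B))⁻¹ * g ∈ P.B := by
      rw [← QuotientGroup.eq, QuotientGroup.out_eq']
    refine ⟨(⟨(g : G ⧸ P.B), by rw [betaQ_mk]; exact hg⟩, ⟨_, h1⟩), Subtype.ext ?_⟩
    show Quotient.out ((g : G) : G ⧸ P.B) * ((Quotient.out ((g : G) : G ⧸ P.B))⁻¹ * g) = g
    group

theorem card_down {i : P.S} {x : G} (h : len (sW P) (sW P i * beta P x) < len (sW P) (beta P x)) :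
    Nat.card {g : G // beta P g = sW P i ∧ beta P (g * x) = sW P i * beta P x} = Nat.card P.B := by
  have H := isExch P
  obtain ⟨n', hn', hb'⟩ := beta_surj (sW P i * beta P x)
  have e1 : beta P ((i : G) * n') = beta P x := by
    rw [up_of_len (w := sW P i * beta P x) (by rw [simple_mul_cancel H]; exact h) (beta_S i) hb', simple_mul_cancel H]
  obtain ⟨b, hb, b', hb'2, hx⟩ := beta_eq_iff.mp e1
  have hy0 : beta P (b * (i : G)) = sW P i := by rw [beta_B_mul hb, beta_S]
  have hm : beta P (n' * b') = sW P i * beta P x := by rw [beta_mul_B hb'2, hb']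
  have hl : len (sW P) (beta P (b * (i : G)) * beta P (n' * b')) =
      len (sW P) (beta P (b * (i : G))) + len (sW P) (beta P (n' * b')) := by
    rw [hy0, hm, simple_mul_cancel H, len_simple H]
    rcases len_simple_mul_cases H i (beta P x) with h1 | h1 <;> omega
  symm
  refine Nat.card_congr (Equiv.ofBijective (fun c : P.B => (⟨(c : G) * (b * (i : G))⁻¹, ?_, ?_⟩ :
    {g : G // beta P g = sW P i ∧ beta P (g * x) = sW P i * beta P x})) ⟨?_, ?_⟩)
  · rw [beta_B_mul c.2, beta_inv, hy0, sW_inv]
  · have e : (c : G) * (b * (i : G))⁻¹ * x = c * (n' * b') := by rw [hx]; group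
    rw [e, beta_B_mul c.2, hm]
  · intro c c' hcc
    exact Subtype.ext (mul_right_cancel (congrArg Subtype.val hcc : (c : G) * (b * (i : G))⁻¹ = c' * (b * (i : G))⁻¹))
  · rintro ⟨g, hg1, hg2⟩
    have h1 := gate (P := P) (g := b * (i : G)) (g' := g⁻¹) (m := n' * b') (m' := g * x)
      (by rw [beta_inv, hg1, hy0, sW_inv]) (by rw [hg2, hm]) hl (by rw [hx]; group)
    have h2 := inv_mem h1
    refine ⟨⟨_, h2⟩, Subtype.ext ?_⟩
    show ((b * (i : G))⁻¹ * g⁻¹)⁻¹ * (b * (i : G))⁻¹ = g
    group

variable [Fintype G]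

open Classical in
theorem sum_lam (z : W P → ℂ) (i : P.S) (x : G) :
    ∑ g ∈ Finset.univ.filter (fun g : G => beta P g = sW P i), z (beta P (g * x)) =
      (Nat.card P.B : ℂ) * lam (sW P) (fun w => (cn P w : ℝ)) i z (beta P x) := by
  have H := isExch P
  have hcard : ((Finset.univ.filter (fun g : G => beta P g = sW P i)).card : ℂ) = cn P (sW P i) * Nat.card P.B := by
    have h1 : (Finset.univ.filter (fun g : G => beta P g = sW P i)).card = Nat.card {g : G // beta P g = sW P i} := by
      rw [Nat.card_eq_fintype_card, Fintype.card_subtype]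
    rw [h1, card_beta]
    push_cast
    rfl
  rw [lam_apply]
  rcases len_simple_mul_cases H i (beta P x) with h | h
  · rw [if_pos (by omega)]
    rw [Finset.sum_congr rfl (fun g hg => by
      rw [up_of_len (by omega) (Finset.mem_filter.mp hg).2 rfl]), Finset.sum_const, nsmul_eq_mul, hcard]
    push_cast
    ring
  · rw [if_neg (by omega)]
    rw [← Finset.sum_filter_add_sum_filter_not _ (fun g : G => beta P (g * x) = sW P i * beta P x)]
    have h1 : ∀ g ∈ (Finset.univ.filter (fun g : G => beta P g = sW P i)).filter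
        (fun g : G => beta P (g * x) = sW P i * beta P x), z (beta P (g * x)) = z (sW P i * beta P x) :=
      fun g hg => by rw [(Finset.mem_filter.mp hg).2]
    have h2 : ∀ g ∈ (Finset.univ.filter (fun g : G => beta P g = sW P i)).filter
        (fun g : G => ¬ beta P (g * x) = sW P i * beta P x), z (beta P (g * x)) = z (beta P x) := by
      intro g hg
      rw [Finset.mem_filter, Finset.mem_filter] at hg
      rw [(beta_mul (g := x) hg.1.2).resolve_left hg.2]
    have h3 : (((Finset.univ.filter (fun g : G => beta P g = sW P i)).filter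
        (fun g : G => beta P (g * x) = sW P i * beta P x)).card : ℂ) = Nat.card P.B := by
      rw [← card_down (P := P) (i := i) (x := x) (by omega), Nat.card_eq_fintype_card, Fintype.card_subtype,
        Finset.filter_filter]
    have h4 : (((Finset.univ.filter (fun g : G => beta P g = sW P i)).filter
        (fun g : G => ¬ beta P (g * x) = sW P i * beta P x)).card : ℂ) =
        cn P (sW P i) * Nat.card P.B - Nat.card P.B := by
      rw [← hcard, ← h3, eq_sub_iff_add_eq, add_comm]
      exact_mod_cast Finset.card_filter_add_card_filter_not (s := Finset.univ.filter (fun g : G => beta P g = sW P i))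
        (fun g : G => beta P (g * x) = sW P i * beta P x)
    rw [Finset.sum_congr rfl h1, Finset.sum_congr rfl h2, Finset.sum_const, Finset.sum_const, nsmul_eq_mul,
      nsmul_eq_mul, h3, h4]
    push_cast
    ring

open Classical in
theorem sum_rho (z : W P → ℂ) (i : P.S) (x : G) :
    ∑ g ∈ Finset.univ.filter (fun g : G => beta P g = sW P i), z (beta P (x * g)) =
      (Nat.card P.B : ℂ) * rho (sW P) (fun w => (cn P w : ℝ)) i z (beta P x) := by
  have H := isExch P
  have h1 := sum_lam (P := P) (fun w => z w⁻¹) i x⁻¹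
  have h2 : lam (sW P) (fun w => (cn P w : ℝ)) i (fun w => z w⁻¹) (beta P x⁻¹) =
      rho (sW P) (fun w => (cn P w : ℝ)) i z (beta P x) := by
    rw [lam_apply, rho_apply, beta_inv]
    have e : sW P i * (beta P x)⁻¹ = (beta P x * sW P i)⁻¹ := by rw [mul_inv_rev, sW_inv]
    simp only [e, inv_inv, len_inv H]
  rw [h2] at h1
  rw [← h1]
  refine Finset.sum_bij' (fun g _ => g⁻¹) (fun g _ => g⁻¹) ?_ ?_ ?_ ?_ ?_
  · intro g hg
    rw [Finset.mem_filter] at hg ⊢
    exact ⟨Finset.mem_univ _, by rw [beta_inv, hg.2, sW_inv]⟩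
  · intro g hg
    rw [Finset.mem_filter] at hg ⊢
    exact ⟨Finset.mem_univ _, by rw [beta_inv, hg.2, sW_inv]⟩
  · intro g _; exact inv_inv g
  · intro g _; exact inv_inv g
  · intro g _
    rw [← mul_inv_rev, beta_inv, inv_inv]

variable [Fintype P.B]

omit [Finite G] [Fintype G] in
theorem beta_of_mem_doubleCoset {g g' : G} (h : beta P g = beta P g') : ∃ b : P.B, ∃ b' : P.B, g' = b * g * b' := by
  obtain ⟨b, hb, b', hb', e⟩ := beta_eq_iff.mp h
  exact ⟨⟨b, hb⟩, ⟨b', hb'⟩, e⟩

omit [Finite G] [Fintype G] in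
/-- the averaged sum depends only on the double coset -/
theorem avg_left (z : W P → ℂ) {g g' : G} (h : beta P g = beta P g') (x : G) :
    ∑ b : P.B, z (beta P (g * b * x)) = ∑ b : P.B, z (beta P (g' * b * x)) := by
  obtain ⟨c, c', rfl⟩ := beta_of_mem_doubleCoset h
  symm
  refine Fintype.sum_equiv (Equiv.mulLeft c') _ _ fun b => ?_
  rw [Equiv.coe_mulLeft, Subgroup.coe_mul]
  congr 1
  have e : (c : G) * g * c' * b * x = c * (g * (c' * b) * x) := by group
  rw [e, beta_B_mul c.2]

omit [Finite G] [Fintype G] in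
theorem avg_right (z : W P → ℂ) {g g' : G} (h : beta P g = beta P g') (x : G) :
    ∑ b : P.B, z (beta P (x * b * g)) = ∑ b : P.B, z (beta P (x * b * g')) := by
  obtain ⟨c, c', rfl⟩ := beta_of_mem_doubleCoset h
  symm
  refine Fintype.sum_equiv (Equiv.mulRight c) _ _ fun b => ?_
  rw [Equiv.coe_mulRight, Subgroup.coe_mul]
  congr 1
  have e : x * b * ((c : G) * g * c') = x * (b * c) * g * c' := by group
  rw [e, beta_mul_B c'.2]

open Classical in
theorem avg_simple {z : W P → ℂ} (hz : z ∈ Zc (sW P) (fun w => (cn P w : ℝ))) (i : P.S) (x : G) :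
    ∑ b : P.B, z (beta P ((i : G) * b * x)) = ∑ b : P.B, z (beta P (x * b * i)) := by
  set S := Finset.univ.filter (fun g : G => beta P g = sW P i) with hS
  have hmem : ∀ g ∈ S, beta P (i : G) = beta P g := fun g hg => by rw [(Finset.mem_filter.mp hg).2, beta_S]
  have h1 : (S.card : ℂ) * ∑ b : P.B, z (beta P ((i : G) * b * x)) =
      (Nat.card P.B : ℂ) * ∑ g ∈ S, z (beta P (g * x)) := by
    have e1 : (S.card : ℂ) * ∑ b : P.B, z (beta P ((i : G) * b * x)) = ∑ g ∈ S, ∑ b : P.B, z (beta P (g * b * x)) := by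
      rw [← nsmul_eq_mul, ← Finset.sum_const]
      exact Finset.sum_congr rfl fun g hg => avg_left z (hmem g hg) x
    rw [e1, Finset.sum_comm]
    have e2 : ∀ b : P.B, ∑ g ∈ S, z (beta P (g * b * x)) = ∑ g ∈ S, z (beta P (g * x)) := by
      intro b
      refine Finset.sum_bij' (fun g _ => g * b) (fun g _ => g * (b : G)⁻¹) ?_ ?_ ?_ ?_ ?_
      · intro g hg
        rw [hS, Finset.mem_filter] at hg ⊢
        exact ⟨Finset.mem_univ _, by rw [beta_mul_B b.2, hg.2]⟩
      · intro g hg
        rw [hS, Finset.mem_filter] at hg ⊢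
        exact ⟨Finset.mem_univ _, by rw [beta_mul_B (inv_mem b.2), hg.2]⟩
      · intro g _; exact mul_inv_cancel_right g _
      · intro g _; exact inv_mul_cancel_right g _
      · intro g _; rfl
    rw [Finset.sum_congr rfl (fun b _ => e2 b), Finset.sum_const, Finset.card_univ, nsmul_eq_mul,
      Nat.card_eq_fintype_card]
  have h2 : (S.card : ℂ) * ∑ b : P.B, z (beta P (x * b * i)) =
      (Nat.card P.B : ℂ) * ∑ g ∈ S, z (beta P (x * g)) := by
    have e1 : (S.card : ℂ) * ∑ b : P.B, z (beta P (x * b * i)) = ∑ g ∈ S, ∑ b : P.B, z (beta P (x * b * g)) := by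
      rw [← nsmul_eq_mul, ← Finset.sum_const]
      exact Finset.sum_congr rfl fun g hg => avg_right z (hmem g hg) x
    rw [e1, Finset.sum_comm]
    have e2 : ∀ b : P.B, ∑ g ∈ S, z (beta P (x * b * g)) = ∑ g ∈ S, z (beta P (x * g)) := by
      intro b
      refine Finset.sum_bij' (fun g _ => (b : G) * g) (fun g _ => (b : G)⁻¹ * g) ?_ ?_ ?_ ?_ ?_
      · intro g hg
        rw [hS, Finset.mem_filter] at hg ⊢
        exact ⟨Finset.mem_univ _, by rw [beta_B_mul b.2, hg.2]⟩
      · intro g hg
        rw [hS, Finset.mem_filter] at hg ⊢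
        exact ⟨Finset.mem_univ _, by rw [beta_B_mul (inv_mem b.2), hg.2]⟩
      · intro g _; exact inv_mul_cancel_left _ g
      · intro g _; exact mul_inv_cancel_left _ g
      · intro g _; rw [mul_assoc]
    rw [Finset.sum_congr rfl (fun b _ => e2 b), Finset.sum_const, Finset.card_univ, nsmul_eq_mul,
      Nat.card_eq_fintype_card]
  have hSne : (S.card : ℂ) ≠ 0 := by
    have : 0 < S.card := Finset.card_pos.mpr ⟨(i : G), by rw [hS, Finset.mem_filter]; exact ⟨Finset.mem_univ _, beta_S i⟩⟩
    exact_mod_cast this.ne'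
  apply mul_left_cancel₀ hSne
  rw [h1, h2, hS, sum_lam, sum_rho, hz i]

theorem avg_all {z : W P → ℂ} (hz : z ∈ Zc (sW P) (fun w => (cn P w : ℝ))) :
    ∀ (k : ℕ) (g : G), len (sW P) (beta P g) ≤ k → ∀ x : G,
      ∑ b : P.B, z (beta P (g * b * x)) = ∑ b : P.B, z (beta P (x * b * g)) := by
  have H := isExch P
  have h0 : ∀ g : G, beta P g = 1 → ∀ x : G, ∑ b : P.B, z (beta P (g * b * x)) = ∑ b : P.B, z (beta P (x * b * g)) := by
    intro g hg x
    have hg' : beta P g = beta P 1 := by rw [hg, eq_comm, beta_eq_one_iff]; exact one_mem _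
    rw [avg_left z hg' x, avg_right z hg' x]
    refine Finset.sum_congr rfl fun b _ => ?_
    rw [one_mul, mul_one, beta_B_mul b.2, beta_mul_B b.2]
  intro k
  induction k with
  | zero => intro g hl; exact h0 g ((len_eq_zero_iff H _).mp (by omega))
  | succ k ih =>
    intro g hl x
    by_cases h1 : beta P g = 1
    · exact h0 g h1 x
    · obtain ⟨ω, h2, h3⟩ := exists_reduced H.gen (beta P g)
      rcases ω with _ | ⟨i, ω⟩
      · exact absurd h2.symm (by simpa using h1)
      have hred : (i :: ω).length = len (sW P) (wp (sW P) (i :: ω)) := by rw [h2]; exact h3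
      have hred' := reduced_tail H hred
      rw [wp_cons] at h2
      simp only [List.length_cons] at h3
      obtain ⟨m, hm, hb'⟩ := beta_surj (wp (sW P) ω)
      have hlt : len (sW P) (wp (sW P) ω) < len (sW P) (sW P i * wp (sW P) ω) := by rw [h2]; omega
      have hg2 : ∀ b : P.B, beta P g = beta P ((i : G) * b * m) := by
        intro b
        rw [mul_assoc, up_of_len hlt (beta_S i) (by rw [beta_B_mul b.2, hb']), h2]
      have e1 : ∀ y : G, ∑ b : P.B, z (beta P (m * b * y)) = ∑ b : P.B, z (beta P (y * b * m)) :=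
        fun y => ih m (by rw [hb']; omega) y
      have key : (Nat.card P.B : ℂ) * ∑ b : P.B, z (beta P (g * b * x)) =
          (Nat.card P.B : ℂ) * ∑ b : P.B, z (beta P (x * b * g)) := by
        calc (Nat.card P.B : ℂ) * ∑ b : P.B, z (beta P (g * b * x))
            = ∑ c : P.B, ∑ b : P.B, z (beta P ((i : G) * c * m * b * x)) := by
              rw [Nat.card_eq_fintype_card, ← Finset.card_univ, ← nsmul_eq_mul, ← Finset.sum_const]
              exact Finset.sum_congr rfl fun c _ => avg_left z (hg2 c) x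
          _ = ∑ b : P.B, ∑ c : P.B, z (beta P ((i : G) * c * (m * b * x))) := by
              rw [Finset.sum_comm]
              refine Finset.sum_congr rfl fun b _ => Finset.sum_congr rfl fun c _ => ?_
              congr 2; group
          _ = ∑ b : P.B, ∑ c : P.B, z (beta P (m * b * x * c * i)) := by
              refine Finset.sum_congr rfl fun b _ => ?_
              exact avg_simple hz i _
          _ = ∑ c : P.B, ∑ b : P.B, z (beta P (m * b * (x * c * i))) := by
              rw [Finset.sum_comm]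
              refine Finset.sum_congr rfl fun b _ => Finset.sum_congr rfl fun c _ => ?_
              congr 2; group
          _ = ∑ c : P.B, ∑ b : P.B, z (beta P (x * c * i * b * m)) := by
              refine Finset.sum_congr rfl fun c _ => ?_
              exact e1 _
          _ = ∑ b : P.B, ∑ c : P.B, z (beta P (x * c * ((i : G) * b * m))) := by
              rw [Finset.sum_comm]
              refine Finset.sum_congr rfl fun b _ => Finset.sum_congr rfl fun c _ => ?_
              congr 2; group
          _ = ∑ b : P.B, ∑ c : P.B, z (beta P (x * c * g)) := by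
              refine Finset.sum_congr rfl fun b _ => ?_
              exact (avg_right z (hg2 b) x).symm
          _ = _ := by
              rw [Finset.sum_const, Finset.card_univ, nsmul_eq_mul, Nat.card_eq_fintype_card]
      exact mul_left_cancel₀ (by exact_mod_cast Nat.card_pos.ne') key

/-- positivity: a central function orthogonal to all class functions vanishes -/
theorem eq_zero_of_sum_conj {z : W P → ℂ} (hz : z ∈ Zc (sW P) (fun w => (cn P w : ℝ)))
    (h : ∀ x : G, ∑ g : G, z (beta P (g⁻¹ * x * g)) = 0) : z = 0 := by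
  have h1 : ∀ x : G, ∑ g : G, ∑ b : P.B, z (beta P (g * b * (g⁻¹ * x))) = 0 := by
    intro x
    have e1 : ∀ g : G, ∑ b : P.B, z (beta P (g * b * (g⁻¹ * x))) = ∑ b : P.B, z (beta P (g⁻¹ * (x * b) * g)) := by
      intro g
      rw [avg_all hz _ g le_rfl]
      refine Finset.sum_congr rfl fun b _ => ?_
      congr 2; group
    rw [Finset.sum_congr rfl (fun g _ => e1 g), Finset.sum_comm]
    exact Finset.sum_eq_zero fun b _ => h _
  have h2 : ∑ x : G, ∑ g : G, ∑ b : P.B, conj (z (beta P x)) * z (beta P (g * b * (g⁻¹ * x))) = 0 := by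
    refine Finset.sum_eq_zero fun x _ => ?_
    have := h1 x
    have e : ∑ g : G, ∑ b : P.B, conj (z (beta P x)) * z (beta P (g * b * (g⁻¹ * x))) =
        conj (z (beta P x)) * ∑ g : G, ∑ b : P.B, z (beta P (g * b * (g⁻¹ * x))) := by
      rw [Finset.mul_sum]
      exact Finset.sum_congr rfl fun g _ => by rw [Finset.mul_sum]
    rw [e, this, mul_zero]
  have h3 : ∑ g : G, ∑ y : G, ∑ b : P.B, conj (z (beta P (g * y))) * z (beta P (g * b * y)) = 0 := by
    rw [← h2]
    rw [Finset.sum_comm (s := (Finset.univ : Finset G)) (t := (Finset.univ : Finset G))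
      (f := fun x g => ∑ b : P.B, conj (z (beta P x)) * z (beta P (g * b * (g⁻¹ * x))))]
    refine Finset.sum_congr rfl fun g _ => ?_
    refine Fintype.sum_equiv (Equiv.mulLeft g) _ _ fun y => ?_
    rw [Equiv.coe_mulLeft]
    refine Finset.sum_congr rfl fun b _ => ?_
    rw [inv_mul_cancel_left]
  have h4 : ∑ g : G, ∑ y : G, ((Complex.normSq (∑ b : P.B, z (beta P (g * b * y))) : ℝ) : ℂ) = 0 := by
    have e1 : ∀ g y : G, ((Complex.normSq (∑ b : P.B, z (beta P (g * b * y))) : ℝ) : ℂ) =
        ∑ c : P.B, ∑ b : P.B, conj (z (beta P (g * c * y))) * z (beta P (g * b * y)) := by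
      intro g y
      rw [Complex.normSq_eq_conj_mul_self, map_sum, Finset.sum_mul]
      exact Finset.sum_congr rfl fun c _ => by rw [Finset.mul_sum]
    have e2 : ∀ g : G, ∑ y : G, ((Complex.normSq (∑ b : P.B, z (beta P (g * b * y))) : ℝ) : ℂ) =
        (Nat.card P.B : ℂ) * ∑ y : G, ∑ b : P.B, conj (z (beta P (g * y))) * z (beta P (g * b * y)) := by
      intro g
      rw [Finset.sum_congr rfl (fun y _ => e1 g y), Finset.sum_comm, Nat.card_eq_fintype_card, ← Finset.card_univ,
        ← nsmul_eq_mul, ← Finset.sum_const]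
      refine Finset.sum_congr rfl fun c _ => ?_
      refine Fintype.sum_equiv (Equiv.mulLeft (c : G)) _ _ fun y => ?_
      rw [Equiv.coe_mulLeft]
      refine Fintype.sum_equiv (Equiv.mulRight c⁻¹) _ _ fun b => ?_
      show conj (z (beta P (g * c * y))) * z (beta P (g * b * y)) =
        conj (z (beta P (g * ((c : G) * y)))) * z (beta P (g * ((b : G) * (c : G)⁻¹) * ((c : G) * y)))
      have a1 : g * c * y = g * ((c : G) * y) := by rw [mul_assoc]
      have a2 : g * b * y = g * ((b : G) * (c : G)⁻¹) * ((c : G) * y) := by group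
      rw [a1, a2]
    rw [Finset.sum_congr rfl (fun g _ => e2 g), ← Finset.mul_sum, h3, mul_zero]
  have h5 : ∑ g : G, ∑ y : G, Complex.normSq (∑ b : P.B, z (beta P (g * b * y))) = 0 := by exact_mod_cast h4
  rw [Finset.sum_eq_zero_iff_of_nonneg (fun g _ => Finset.sum_nonneg fun y _ => Complex.normSq_nonneg _)] at h5
  have h6 := h5 1 (Finset.mem_univ _)
  rw [Finset.sum_eq_zero_iff_of_nonneg (fun y _ => Complex.normSq_nonneg _)] at h6
  funext w
  obtain ⟨y, -, rfl⟩ := beta_surj w
  have h7 := Complex.normSq_eq_zero.mp (h6 y (Finset.mem_univ _))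
  have h8 : ∑ b : P.B, z (beta P (1 * b * y)) = (Nat.card P.B : ℂ) * z (beta P y) := by
    rw [Finset.sum_congr rfl (fun (b : P.B) _ => by rw [one_mul, beta_B_mul b.2]), Finset.sum_const, Finset.card_univ,
      nsmul_eq_mul, Nat.card_eq_fintype_card]
  rw [h8] at h7
  exact (mul_eq_zero.mp h7).resolve_left (by exact_mod_cast Nat.card_pos.ne')

/-! ### class functions give central functions -/

/-- averaging a class function over `B` -/
noncomputable def zF (P : Cfsg.BNPair G) [Fintype P.B] (F : G → ℂ) (w : W P) : ℂ := ∑ b : P.B, F (nrep w * b)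

theorem zF_beta {F : G → ℂ} (hF : IsClassFunction G F) (g : G) : zF P F (beta P g) = ∑ b : P.B, F (g * b) := by
  unfold zF
  have h1 : beta P (nrep (beta P g)) = beta P g := beta_nrep _
  obtain ⟨c, c', e⟩ := beta_of_mem_doubleCoset h1
  generalize nrep (beta P g) = n at e ⊢
  subst e
  have h2 : ∀ b : P.B, F (c * n * c' * b) = F (n * ((c' * b * c : P.B) : G)) := by
    intro b
    have h3 := hF (n * ((c' * b * c : P.B) : G)) c
    rw [← h3]
    congr 1
    push_cast
    group
  rw [Finset.sum_congr rfl (fun b _ => h2 b)]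
  symm
  refine Fintype.sum_equiv ((Equiv.mulLeft c').trans (Equiv.mulRight c)) _ _ fun b => ?_
  rfl

theorem zF_mem {F : G → ℂ} (hF : IsClassFunction G F) : zF P F ∈ Zc (sW P) (fun w => (cn P w : ℝ)) := by
  classical
  intro i
  funext w
  obtain ⟨x, -, rfl⟩ := beta_surj w
  have hB : (Nat.card P.B : ℂ) ≠ 0 := by exact_mod_cast Nat.card_pos.ne'
  apply mul_left_cancel₀ hB
  rw [← sum_lam, ← sum_rho]
  set S := Finset.univ.filter (fun g : G => beta P g = sW P i) with hS
  have h1 : ∑ g ∈ S, zF P F (beta P (g * x)) = (Nat.card P.B : ℂ) * ∑ g ∈ S, F (g * x) := by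
    rw [Finset.sum_congr rfl (fun g _ => zF_beta hF (g * x)), Finset.sum_comm, Nat.card_eq_fintype_card,
      ← Finset.card_univ, ← nsmul_eq_mul, ← Finset.sum_const]
    refine Finset.sum_congr rfl fun b _ => ?_
    refine Finset.sum_bij' (fun g _ => (b : G) * g) (fun g _ => (b : G)⁻¹ * g) ?_ ?_ ?_ ?_ ?_
    · intro g hg
      rw [hS, Finset.mem_filter] at hg ⊢
      exact ⟨Finset.mem_univ _, by rw [beta_B_mul b.2, hg.2]⟩
    · intro g hg
      rw [hS, Finset.mem_filter] at hg ⊢
      exact ⟨Finset.mem_univ _, by rw [beta_B_mul (inv_mem b.2), hg.2]⟩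
    · intro g _; exact inv_mul_cancel_left _ g
    · intro g _; exact mul_inv_cancel_left _ g
    · intro g _
      rw [← hF (g * x * b) b]
      congr 1; group
  have h2 : ∑ g ∈ S, zF P F (beta P (x * g)) = (Nat.card P.B : ℂ) * ∑ g ∈ S, F (x * g) := by
    rw [Finset.sum_congr rfl (fun g _ => zF_beta hF (x * g)), Finset.sum_comm, Nat.card_eq_fintype_card,
      ← Finset.card_univ, ← nsmul_eq_mul, ← Finset.sum_const]
    refine Finset.sum_congr rfl fun b _ => ?_
    refine Finset.sum_bij' (fun g _ => g * (b : G)) (fun g _ => g * (b : G)⁻¹) ?_ ?_ ?_ ?_ ?_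
    · intro g hg
      rw [hS, Finset.mem_filter] at hg ⊢
      exact ⟨Finset.mem_univ _, by rw [beta_mul_B b.2, hg.2]⟩
    · intro g hg
      rw [hS, Finset.mem_filter] at hg ⊢
      exact ⟨Finset.mem_univ _, by rw [beta_mul_B (inv_mem b.2), hg.2]⟩
    · intro g _; exact mul_inv_cancel_right g _
    · intro g _; exact inv_mul_cancel_right g _
    · intro g _; rw [mul_assoc]
  rw [h1, h2]
  congr 1
  refine Finset.sum_congr rfl fun g _ => ?_
  rw [← hF (g * x) g⁻¹]
  congr 1; group

end Cfsg.Agent.Lib.StHecke
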