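import Mathlib
import Cfsg.Prelude.Def_ParabolicCharacters
import Cfsg.Agent.Lib.StHecke3
import Cfsg.Agent.Lib.RepSchur

/-!
The number of irreducible constituents of the permutation character on `G/B`.
-/

set_option autoImplicit false

namespace Cfsg.Agent.Lib.StHecke

open Cfsg Cfsg.Agent.Lib.Exchange Cfsg.Agent.Lib.BNPair Cfsg.Agent.Lib.StWeyl Cfsg.Agent.Lib.StTits
open Cfsg.Agent.Lib.CharBasic Cfsg.Agent.Lib.StCR
open scoped ComplexConjugate

variable {G : Type*} [Group G] {P : Cfsg.BNPair G} [Finite G] [Fintype G] [Fintype P.B]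

omit [Finite G] in
theorem classInner_perm {χ : G → ℂ} (hχ : IsIrrCharacter G χ) :
    classInner χ (fixedPointCharacter P.B) = (Nat.card G : ℂ)⁻¹ * (P.B.index * ∑ b : P.B, χ b) := by
  rw [classInner_def]
  congr 1
  rw [← sum_class_mul_fixed' P.B χ (fun g x => hχ.isClassFunction g x)]
  refine Finset.sum_congr rfl fun g _ => ?_
  unfold fixedPointCharacter
  rw [Complex.conj_natCast]

theorem constituent_iff {χ : G → ℂ} (hχ : IsIrrCharacter G χ) :
    (∃ φ : G → ℂ, IsCharacter G φ ∧ fixedPointCharacter P.B = χ + φ) ↔ ∑ b : P.B, χ b ≠ 0 := by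
  have hπ : IsCharacter G (fixedPointCharacter P.B) := isCharacter_perm (G := G) (X := G ⧸ P.B)
  have h1 := classInner_perm (P := P) hχ
  have hG : (Nat.card G : ℂ)⁻¹ ≠ 0 := inv_ne_zero (by exact_mod_cast Nat.card_pos.ne')
  have hI : (P.B.index : ℂ) ≠ 0 := by exact_mod_cast Subgroup.index_ne_zero_of_finite
  have h2 : classInner χ (fixedPointCharacter P.B) ≠ 0 ↔ ∑ b : P.B, χ b ≠ 0 := by
    rw [h1]
    constructor
    · intro h h0
      rw [h0, mul_zero, mul_zero] at h
      exact h rfl
    · intro h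
      exact mul_ne_zero hG (mul_ne_zero hI h)
  rw [← h2]
  constructor
  · rintro ⟨φ, hφ, he⟩
    obtain ⟨n, hn⟩ := hχ.isCharacter.classInner_nat hφ
    rw [he, classInner_add_right, hχ.classInner_self, hn]
    have : ((1 + n : ℕ) : ℂ) ≠ 0 := by
      have : 1 + n ≠ 0 := by omega
      exact_mod_cast this
    push_cast at this
    exact this
  · intro h
    have h3 : classInner (fixedPointCharacter P.B) χ ≠ 0 := by
      intro h4
      apply h
      have h5 := congrArg conj h4
      rw [map_zero, classInner_def, map_mul, map_inv₀, Complex.conj_natCast, map_sum] at h5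
      rw [classInner_def, ← h5]
      congr 1
      refine Finset.sum_congr rfl fun g _ => ?_
      rw [map_mul, Complex.conj_conj, mul_comm]
    exact ⟨fixedPointCharacter P.B - χ, hπ.sub_constituent hχ h3, by rw [add_sub_cancel]⟩

/-- the averaged character of a non-constituent vanishes -/
theorem sum_eq_zero_of_not {χ : G → ℂ} (hχ : IsIrrCharacter G χ) (h : ∑ b : P.B, χ b = 0) (g : G) :
    ∑ b : P.B, χ (g * b) = 0 := by
  obtain ⟨n, ρ, hρ, rfl⟩ := hχ
  have h1 := sum_char_eq (ρ := ρ) P.B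
  rw [h] at h1
  have h2 : Module.finrank ℂ (fixS ρ P.B) = 0 := by
    have h3 := (mul_eq_zero.mp h1.symm).resolve_left (by exact_mod_cast Nat.card_pos.ne')
    exact_mod_cast h3
  have h3 : fixS ρ P.B = ⊥ := Submodule.finrank_eq_zero.mp h2
  have h4 : ∑ b : P.B, ρ b = 0 := by
    refine LinearMap.ext fun v => ?_
    have h5 : (∑ b : P.B, ρ b) v ∈ fixS ρ P.B := by
      intro a ha
      rw [LinearMap.sum_apply, map_sum]
      refine Fintype.sum_equiv (Equiv.mulLeft (⟨a, ha⟩ : P.B)) _ _ fun b => ?_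
      rw [Equiv.coe_mulLeft, Subgroup.coe_mul, map_mul]
      rfl
    rw [h3, Submodule.mem_bot] at h5
    rw [h5]; rfl
  have h5 : ∑ b : P.B, ρ.character (g * b) = LinearMap.trace ℂ _ (ρ g * ∑ b : P.B, ρ b) := by
    rw [Finset.mul_sum, map_sum]
    refine Finset.sum_congr rfl fun b _ => ?_
    rw [← map_mul]
    rfl
  rw [h5, h4, mul_zero, map_zero]

/-- the coefficient extraction -/
theorem coeff_eq_zero {F : G → ℂ} (hF : IsClassFunction G F) (h : ∀ g : G, ∑ b : P.B, F (g * b) = 0) {ψ : G → ℂ}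
    (hψ : IsIrrCharacter G ψ) (hb : ∑ b : P.B, ψ b ≠ 0) : ∑ g : G, F g⁻¹ * ψ g = 0 := by
  obtain ⟨n, ρ, hρ, rfl⟩ := hψ
  set T : Module.End ℂ (Fin n → ℂ) := ∑ g : G, F g⁻¹ • ρ g with hT
  have hcomm : ∀ x, T * ρ x = ρ x * T := by
    intro x
    rw [hT, Finset.sum_mul, Finset.mul_sum]
    refine Fintype.sum_equiv (MulAut.conj x⁻¹).toEquiv _ _ fun g => ?_
    have e1 : (MulAut.conj x⁻¹).toEquiv g = x⁻¹ * g * x := by
      show x⁻¹ * g * x⁻¹⁻¹ = _
      rw [inv_inv]
    have e2 : F (x⁻¹ * g * x)⁻¹ = F g⁻¹ := by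
      rw [← hF g⁻¹ x⁻¹]
      congr 1; group
    rw [e1, e2, smul_mul_assoc, mul_smul_comm, ← map_mul, ← map_mul]
    congr 2
    group
  obtain ⟨c, hc⟩ := RepSchur.scalar_of_commute hρ T hcomm
  have hE : T * ∑ b : P.B, ρ b = 0 := by
    rw [hT, Finset.sum_mul]
    have e1 : ∀ g : G, F g⁻¹ • ρ g * ∑ b : P.B, ρ b = ∑ b : P.B, F g⁻¹ • ρ (g * b) := by
      intro g
      rw [Finset.mul_sum]
      refine Finset.sum_congr rfl fun b _ => ?_
      rw [smul_mul_assoc, ← map_mul]
    rw [Finset.sum_congr rfl (fun g _ => e1 g), Finset.sum_comm]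
    have e2 : ∀ b : P.B, ∑ g : G, F g⁻¹ • ρ (g * b) = ∑ g : G, F (g⁻¹ * b) • ρ g := by
      intro b
      refine Fintype.sum_equiv (Equiv.mulRight (b : G)) _ _ fun g => ?_
      rw [Equiv.coe_mulRight]
      congr 1
      rw [← hF g⁻¹ (b : G)⁻¹]
      congr 1; group
    rw [Finset.sum_congr rfl (fun b _ => e2 b), Finset.sum_comm]
    refine Finset.sum_eq_zero fun g _ => ?_
    rw [← Finset.sum_smul, h, zero_smul]
  have hc0 : c = 0 := by
    rw [hc, smul_mul_assoc, one_mul] at hE
    rcases smul_eq_zero.mp hE with h1 | h1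
    · exact h1
    · exfalso
      apply hb
      have h2 := congrArg (LinearMap.trace ℂ (Fin n → ℂ)) h1
      rw [map_sum, map_zero] at h2
      exact h2
  have h3 := congrArg (LinearMap.trace ℂ (Fin n → ℂ)) hc
  rw [hc0, zero_smul, map_zero, hT, map_sum] at h3
  rw [← h3]
  refine Finset.sum_congr rfl fun g _ => ?_
  rw [map_smul, smul_eq_mul]
  rfl

variable (P) in
/-- the constituents -/
def Con : Type _ := {χ : IrrCharacter G // ∑ b : P.B, (χ : G → ℂ) b ≠ 0}

omit [Fintype G] in
theorem finite_con : Finite (Con P) := by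
  have : Finite (IrrCharacter G) := inferInstance
  exact Subtype.finite

theorem zF_sum {ι : Type*} (s : Finset ι) (a : ι → ℂ) (f : ι → G → ℂ) (w : W P) :
    zF P (fun g => ∑ i ∈ s, a i * f i g) w = ∑ i ∈ s, a i * zF P (f i) w := by
  unfold zF
  rw [Finset.sum_comm]
  refine Finset.sum_congr rfl fun i _ => ?_
  rw [Finset.mul_sum]

theorem le_finrank : Nat.card (Con P) ≤ Module.finrank ℂ (Zc (sW P) (fun w => (cn P w : ℝ))) := by
  classical
  have := finite_con (P := P)
  have : Fintype (Con P) := Fintype.ofFinite _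
  have hcls : ∀ a : Con P → ℂ, IsClassFunction G (fun g => ∑ χ : Con P, a χ * (χ.1 : G → ℂ) g) := by
    intro a g x
    refine Finset.sum_congr rfl fun χ _ => ?_
    have := χ.1.2.isClassFunction g x
    rw [this]
  let Θ : (Con P → ℂ) →ₗ[ℂ] Zc (sW P) (fun w => (cn P w : ℝ)) :=
    { toFun := fun a => ⟨zF P (fun g => ∑ χ : Con P, a χ * (χ.1 : G → ℂ) g), zF_mem (hcls a)⟩
      map_add' := fun a b => by
        apply Subtype.ext
        funext w
        show zF P (fun g => ∑ χ : Con P, (a + b) χ * (χ.1 : G → ℂ) g) w =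
          zF P (fun g => ∑ χ : Con P, a χ * (χ.1 : G → ℂ) g) w + zF P (fun g => ∑ χ : Con P, b χ * (χ.1 : G → ℂ) g) w
        rw [zF_sum, zF_sum, zF_sum, ← Finset.sum_add_distrib]
        refine Finset.sum_congr rfl fun χ _ => ?_
        rw [Pi.add_apply, add_mul]
      map_smul' := fun c a => by
        apply Subtype.ext
        funext w
        show zF P (fun g => ∑ χ : Con P, (c • a) χ * (χ.1 : G → ℂ) g) w =
          c * zF P (fun g => ∑ χ : Con P, a χ * (χ.1 : G → ℂ) g) w
        rw [zF_sum, zF_sum, Finset.mul_sum]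
        refine Finset.sum_congr rfl fun χ _ => ?_
        rw [Pi.smul_apply, smul_eq_mul, mul_assoc] }
  have hinj : Function.Injective Θ := by
    rw [injective_iff_map_eq_zero]
    intro a ha
    have h1 : zF P (fun g => ∑ χ : Con P, a χ * (χ.1 : G → ℂ) g) = 0 := congrArg Subtype.val ha
    have h2 : ∀ g : G, ∑ b : P.B, (fun g => ∑ χ : Con P, a χ * (χ.1 : G → ℂ) g) (g * b) = 0 := by
      intro g
      rw [← zF_beta (hcls a) g, h1]; rfl
    funext ψ
    have h3 := coeff_eq_zero (P := P) (hcls a) h2 ψ.1.2 ψ.2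
    have h4 : ∀ χ : Con P, ∑ g : G, (χ.1 : G → ℂ) g⁻¹ * (ψ.1 : G → ℂ) g = if χ = ψ then (Nat.card G : ℂ) else 0 := by
      intro χ
      have h5 := irr_orthonormal ψ.1 χ.1
      rw [classInner_def] at h5
      have hG : (Nat.card G : ℂ) ≠ 0 := by exact_mod_cast Nat.card_pos.ne'
      have h6 : ∑ g : G, (χ.1 : G → ℂ) g⁻¹ * (ψ.1 : G → ℂ) g = ∑ g : G, (ψ.1 : G → ℂ) g * conj ((χ.1 : G → ℂ) g) := by
        refine Finset.sum_congr rfl fun g _ => ?_
        rw [mul_comm]
        congr 1
        exact χ.1.2.inv g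
      rw [h6]
      have h7 : ∑ g : G, (ψ.1 : G → ℂ) g * conj ((χ.1 : G → ℂ) g) = (Nat.card G : ℂ) * (if ψ.1 = χ.1 then 1 else 0) := by
        rw [← h5, mul_inv_cancel_left₀ hG]
      rw [h7]
      by_cases h8 : χ = ψ
      · subst h8; simp
      · rw [if_neg h8, if_neg (fun h => h8 (Subtype.ext h.symm)), mul_zero]
    have h5 : ∑ g : G, (∑ χ : Con P, a χ * (χ.1 : G → ℂ) g⁻¹) * (ψ.1 : G → ℂ) g =
        ∑ χ : Con P, a χ * ∑ g : G, (χ.1 : G → ℂ) g⁻¹ * (ψ.1 : G → ℂ) g := by
      simp only [Finset.sum_mul, Finset.mul_sum]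
      rw [Finset.sum_comm]
      refine Finset.sum_congr rfl fun χ _ => Finset.sum_congr rfl fun g _ => ?_
      rw [mul_assoc]
    have h6 : ∑ g : G, (∑ χ : Con P, a χ * (χ.1 : G → ℂ) g⁻¹) * (ψ.1 : G → ℂ) g = 0 := h3
    rw [h5] at h6
    simp only [h4, mul_ite, mul_zero, Finset.sum_ite_eq', Finset.mem_univ, if_true] at h6
    exact (mul_eq_zero.mp h6).resolve_right (by exact_mod_cast Nat.card_pos.ne')
  have h := LinearMap.finrank_le_finrank_of_injective hinj
  rwa [Module.finrank_fintype_fun_eq_card, ← Nat.card_eq_fintype_card] at h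

theorem finrank_le : Module.finrank ℂ (Zc (sW P) (fun w => (cn P w : ℝ))) ≤ Nat.card (Con P) := by
  classical
  have := finite_con (P := P)
  have : Fintype (Con P) := Fintype.ofFinite _
  let Ψ : Zc (sW P) (fun w => (cn P w : ℝ)) →ₗ[ℂ] (Con P → ℂ) :=
    { toFun := fun z χ => ∑ g : G, z.1 (beta P g) * conj ((χ.1 : G → ℂ) g)
      map_add' := fun a b => by
        funext χ
        rw [Pi.add_apply, ← Finset.sum_add_distrib]
        refine Finset.sum_congr rfl fun g _ => ?_
        rw [← add_mul]; rfl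
      map_smul' := fun c a => by
        funext χ
        rw [Pi.smul_apply, smul_eq_mul, Finset.mul_sum]
        refine Finset.sum_congr rfl fun g _ => ?_
        rw [← mul_assoc]; rfl }
  have hinj : Function.Injective Ψ := by
    rw [injective_iff_map_eq_zero]
    rintro ⟨z, hz⟩ hΨ
    have h1 : ∀ χ : G → ℂ, IsIrrCharacter G χ → ∑ g : G, z (beta P g) * conj (χ g) = 0 := by
      intro χ hχ
      by_cases hb : ∑ b : P.B, χ b = 0
      · have hB : (Nat.card P.B : ℂ) ≠ 0 := by exact_mod_cast Nat.card_pos.ne'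
        apply mul_left_cancel₀ hB
        rw [mul_zero]
        have e1 : (Nat.card P.B : ℂ) * ∑ g : G, z (beta P g) * conj (χ g) =
            ∑ b : P.B, ∑ g : G, z (beta P g) * conj (χ (g * b)) := by
          rw [Nat.card_eq_fintype_card, ← Finset.card_univ, ← nsmul_eq_mul, ← Finset.sum_const]
          refine Finset.sum_congr rfl fun b _ => ?_
          symm
          refine Fintype.sum_equiv (Equiv.mulRight (b : G)) _ _ fun g => ?_
          rw [Equiv.coe_mulRight]
          show _ = z (beta P (g * b)) * conj (χ (g * b))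
          rw [beta_mul_B b.2]
        rw [e1, Finset.sum_comm]
        refine Finset.sum_eq_zero fun g _ => ?_
        rw [← Finset.mul_sum, ← map_sum, sum_eq_zero_of_not hχ hb, map_zero, mul_zero]
      · exact congrFun hΨ ⟨⟨χ, hχ⟩, hb⟩
    have h2 : ∀ x : G, ∑ g : G, z (beta P (g⁻¹ * x * g)) = 0 := by
      have hcls : IsClassFunction G (fun x => ∑ g : G, z (beta P (g⁻¹ * x * g))) := by
        intro x y
        show ∑ g : G, z (beta P (g⁻¹ * (y * x * y⁻¹) * g)) = ∑ g : G, z (beta P (g⁻¹ * x * g))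
        refine Fintype.sum_equiv (Equiv.mulLeft y⁻¹) _ _ fun g => ?_
        rw [Equiv.coe_mulLeft]
        congr 2
        group
      have h3 := hcls.eq_zero_of_orthogonal (by
        intro χ hχ
        rw [classInner_def]
        have e1 : ∑ x : G, (∑ g : G, z (beta P (g⁻¹ * x * g))) * conj (χ x) =
            ∑ g : G, ∑ y : G, z (beta P y) * conj (χ y) := by
          simp only [Finset.sum_mul]
          rw [Finset.sum_comm]
          refine Finset.sum_congr rfl fun g _ => ?_
          refine Fintype.sum_equiv (MulAut.conj g⁻¹).toEquiv _ _ fun x => ?_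
          have e2 : (MulAut.conj g⁻¹).toEquiv x = g⁻¹ * x * g := by
            show g⁻¹ * x * g⁻¹⁻¹ = _
            rw [inv_inv]
          rw [e2]
          congr 2
          have := hχ.isClassFunction x g⁻¹
          rw [inv_inv] at this
          exact this.symm
        rw [e1, Finset.sum_eq_zero (fun g _ => h1 χ hχ), mul_zero])
      exact fun x => congrFun h3 x
    exact Subtype.ext (eq_zero_of_sum_conj hz h2)
  have h := LinearMap.finrank_le_finrank_of_injective hinj
  rwa [Module.finrank_fintype_fun_eq_card, ← Nat.card_eq_fintype_card] at h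

omit [Finite G] [Fintype G] [Fintype P.B] in
variable (P) in
/-- the number of irreducible constituents of `1_B^G` is the class number of the Weyl group -/
theorem card_constituents [Finite G] : Nat.card {χ : IrrCharacter G // ∃ φ : G → ℂ, IsCharacter G φ ∧
    fixedPointCharacter P.B = (χ : G → ℂ) + φ} = Nat.card (ConjClasses (W P)) := by
  have := Fintype.ofFinite G
  have : Fintype P.B := Fintype.ofFinite _
  have : Fintype (W P) := Fintype.ofFinite _
  have h1 : Nat.card {χ : IrrCharacter G // ∃ φ : G → ℂ, IsCharacter G φ ∧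
      fixedPointCharacter P.B = (χ : G → ℂ) + φ} = Nat.card (Con P) :=
    Nat.card_congr (Equiv.subtypeEquivRight fun χ => constituent_iff χ.2)
  rw [h1, le_antisymm le_finrank finrank_le, finrank_eq_one (isExch P) isWeight_cn, finrank_one (isExch P)]

/-- class numbers of isomorphic groups -/
theorem card_conjClasses_congr {A B : Type*} [Group A] [Group B] (e : A ≃* B) :
    Nat.card (ConjClasses A) = Nat.card (ConjClasses B) := by
  refine Nat.card_congr ⟨ConjClasses.map e.toMonoidHom, ConjClasses.map e.symm.toMonoidHom, ?_, ?_⟩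
  · intro x
    obtain ⟨a, rfl⟩ := ConjClasses.exists_rep x
    show ConjClasses.mk (e.symm (e a)) = ConjClasses.mk a
    rw [e.symm_apply_apply]
  · intro x
    obtain ⟨a, rfl⟩ := ConjClasses.exists_rep x
    show ConjClasses.mk (e (e.symm a)) = ConjClasses.mk a
    rw [e.apply_symm_apply]

end Cfsg.Agent.Lib.StHecke
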