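import Mathlib
import Cfsg.Prelude.Def_LinearParabolics
import Cfsg.Agent.Lib.GLLabel

set_option autoImplicit false

/-!
Fixed points of `GL_n(F)` on the cosets of a standard parabolic subgroup = invariant flags (helper43).
-/

namespace Cfsg.Agent.Lib.StMob

open Cfsg Module Submodule
open Cfsg.Agent.Lib.GLLabel (T T_zero T_mono T_succ T_top)

section lin
variable {F V : Type*} [Field F] [AddCommGroup V] [Module F V] [FiniteDimensional F V]

/-- two subspaces of equal dimension are conjugate under the general linear group -/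
lemma exists_equiv (P Q : Submodule F V) (h : finrank F P = finrank F Q) :
    ∃ e : V ≃ₗ[F] V, P.map (e : V →ₗ[F] V) = Q := by
  obtain ⟨K, hK⟩ := P.exists_isCompl
  obtain ⟨K', hK'⟩ := Q.exists_isCompl
  have h1 := Submodule.finrank_add_eq_of_isCompl hK
  have h2 := Submodule.finrank_add_eq_of_isCompl hK'
  have h3 : finrank F K = finrank F K' := by omega
  let φ : P ≃ₗ[F] Q := LinearEquiv.ofFinrankEq _ _ h
  let ψ : K ≃ₗ[F] K' := LinearEquiv.ofFinrankEq _ _ h3
  refine ⟨(prodEquivOfIsCompl P K hK).symm ≪≫ₗ (φ.prodCongr ψ) ≪≫ₗ prodEquivOfIsCompl Q K' hK', ?_⟩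
  apply Submodule.eq_of_le_of_finrank_eq
  · rintro _ ⟨p, hp, rfl⟩
    have : (prodEquivOfIsCompl P K hK).symm p = ((⟨p, hp⟩ : P), (0 : K)) :=
      prodEquivOfIsCompl_symm_apply_left P K hK ⟨p, hp⟩
    simp only [LinearEquiv.coe_coe, LinearEquiv.trans_apply, this, LinearEquiv.prodCongr_apply, map_zero,
      coe_prodEquivOfIsCompl', ZeroMemClass.coe_zero, add_zero]
    exact (φ ⟨p, hp⟩).2
  · rw [LinearEquiv.finrank_map_eq, h]

/-- extension of the identity of `C` -/
lemma exists_equiv_fix (C A B : Submodule F V) (hA : C ≤ A) (hB : C ≤ B) (h : finrank F A = finrank F B) :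
    ∃ e : V ≃ₗ[F] V, (∀ v ∈ C, e v = v) ∧ A.map (e : V →ₗ[F] V) = B := by
  obtain ⟨M, hM⟩ := C.exists_isCompl
  have hAM : A = C ⊔ (A ⊓ M) := by
    have := sup_inf_assoc_of_le M hA
    rw [inf_comm A M, ← this, hM.codisjoint.eq_top, top_inf_eq]
  have hBM : B = C ⊔ (B ⊓ M) := by
    have := sup_inf_assoc_of_le M hB
    rw [inf_comm B M, ← this, hM.codisjoint.eq_top, top_inf_eq]
  have dA : finrank F A = finrank F C + finrank F ↥(A ⊓ M) := by
    have h1 := Submodule.finrank_sup_add_finrank_inf_eq C (A ⊓ M)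
    have h2 : C ⊓ (A ⊓ M) = ⊥ := by
      apply le_bot_iff.1
      exact le_trans (inf_le_inf_left C inf_le_right) hM.disjoint.le_bot
    rw [h2, finrank_bot, ← hAM] at h1
    omega
  have dB : finrank F B = finrank F C + finrank F ↥(B ⊓ M) := by
    have h1 := Submodule.finrank_sup_add_finrank_inf_eq C (B ⊓ M)
    have h2 : C ⊓ (B ⊓ M) = ⊥ := by
      apply le_bot_iff.1
      exact le_trans (inf_le_inf_left C inf_le_right) hM.disjoint.le_bot
    rw [h2, finrank_bot, ← hBM] at h1
    omega
  have hd : finrank F ↥(A ⊓ M) = finrank F ↥(B ⊓ M) := by omega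
  have e1 : finrank F ↥((A ⊓ M).comap M.subtype) = finrank F ↥(A ⊓ M) :=
    (Submodule.comapSubtypeEquivOfLe (inf_le_right : A ⊓ M ≤ M)).finrank_eq
  have e2 : finrank F ↥((B ⊓ M).comap M.subtype) = finrank F ↥(B ⊓ M) :=
    (Submodule.comapSubtypeEquivOfLe (inf_le_right : B ⊓ M ≤ M)).finrank_eq
  obtain ⟨θ, hθ⟩ := exists_equiv ((A ⊓ M).comap M.subtype) ((B ⊓ M).comap M.subtype) (by rw [e1, e2, hd])
  let e : V ≃ₗ[F] V := (prodEquivOfIsCompl C M hM).symm ≪≫ₗ ((LinearEquiv.refl F C).prodCongr θ) ≪≫ₗ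
    prodEquivOfIsCompl C M hM
  have eC : ∀ v ∈ C, e v = v := by
    intro v hv
    have : (prodEquivOfIsCompl C M hM).symm v = ((⟨v, hv⟩ : C), (0 : M)) :=
      prodEquivOfIsCompl_symm_apply_left C M hM ⟨v, hv⟩
    simp only [e, LinearEquiv.trans_apply, this, LinearEquiv.prodCongr_apply, map_zero,
      coe_prodEquivOfIsCompl', ZeroMemClass.coe_zero, add_zero, LinearEquiv.refl_apply]
  have eM : ∀ v : M, e v = (θ v : V) := by
    intro v
    have : (prodEquivOfIsCompl C M hM).symm v = ((0 : C), (v : M)) :=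
      prodEquivOfIsCompl_symm_apply_right C M hM v
    simp only [e, LinearEquiv.trans_apply, this, LinearEquiv.prodCongr_apply, map_zero,
      coe_prodEquivOfIsCompl', ZeroMemClass.coe_zero, zero_add]
  refine ⟨e, eC, ?_⟩
  apply Submodule.eq_of_le_of_finrank_eq
  · rw [hAM, Submodule.map_sup]
    apply sup_le
    · rintro _ ⟨v, hv, rfl⟩
      rw [LinearEquiv.coe_coe, eC v hv]
      exact hB hv
    · rintro _ ⟨v, hv, rfl⟩
      have hv' : (⟨v, hv.2⟩ : M) ∈ (A ⊓ M).comap M.subtype := hv
      have h1 : θ ⟨v, hv.2⟩ ∈ ((A ⊓ M).comap M.subtype).map (θ : M →ₗ[F] M) := ⟨_, hv', rfl⟩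
      rw [hθ] at h1
      have h2 := eM ⟨v, hv.2⟩
      rw [LinearEquiv.coe_coe]
      rw [show e v = ((θ ⟨v, hv.2⟩ : M) : V) from h2]
      exact h1.1
  · rw [LinearEquiv.finrank_map_eq, h]

/-- chains of subspaces of equal dimensions are conjugate -/
lemma exists_equiv_chain (A B : ℕ → Submodule F V) (hA : Monotone A) (hB : Monotone B) (N : ℕ)
    (h : ∀ k ≤ N, finrank F (A k) = finrank F (B k)) :
    ∃ e : V ≃ₗ[F] V, ∀ k ≤ N, (A k).map (e : V →ₗ[F] V) = B k := by
  induction N with
  | zero =>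
    obtain ⟨e, he⟩ := exists_equiv (A 0) (B 0) (h 0 le_rfl)
    exact ⟨e, fun k hk => by rw [Nat.le_zero.1 hk]; exact he⟩
  | succ N ih =>
    obtain ⟨e, he⟩ := ih (fun k hk => h k (by omega))
    obtain ⟨e', h1, h2⟩ := exists_equiv_fix (B N) ((A (N+1)).map (e : V →ₗ[F] V)) (B (N+1))
      (by rw [← he N le_rfl]; exact Submodule.map_mono (hA (Nat.le_succ N))) (hB (Nat.le_succ N))
      (by rw [LinearEquiv.finrank_map_eq]; exact h (N+1) le_rfl)
    refine ⟨e ≪≫ₗ e', fun k hk => ?_⟩
    have hmm : (A k).map ((e ≪≫ₗ e' : V ≃ₗ[F] V) : V →ₗ[F] V) =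
        ((A k).map (e : V →ₗ[F] V)).map (e' : V →ₗ[F] V) := by
      rw [LinearEquiv.coe_trans, Submodule.map_comp]
    rw [hmm]
    rcases Nat.lt_or_ge N k with hk' | hk'
    · have : k = N + 1 := by omega
      rw [this]; exact h2
    · rw [he k hk']
      have hle : B k ≤ B N := hB hk'
      ext v
      constructor
      · rintro ⟨w, hw, rfl⟩
        rw [LinearEquiv.coe_coe, h1 w (hle hw)]; exact hw
      · intro hv
        exact ⟨v, hv, by rw [LinearEquiv.coe_coe, h1 v (hle hv)]⟩

end lin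

section flags
variable {F : Type*} [Field F] {n : ℕ}

/-- standard coordinate subspaces -/
def Est (F : Type*) [Field F] (n s : ℕ) : Submodule F (Fin n → F) where
  carrier := {v | ∀ i : Fin n, s ≤ i.val → v i = 0}
  zero_mem' := fun _ _ => rfl
  add_mem' := fun {a b} ha hb i hi => by simp [ha i hi, hb i hi]
  smul_mem' := fun c a ha i hi => by simp [ha i hi]

lemma mem_Est (s : ℕ) (v : Fin n → F) : v ∈ Est F n s ↔ ∀ i : Fin n, s ≤ i.val → v i = 0 := Iff.rfl

lemma Est_mono : Monotone (Est F n) := fun _ _ h _ hv i hi => hv i (le_trans h hi)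

lemma Est_zero : Est F n 0 = ⊥ := by
  rw [eq_bot_iff]; intro v hv; rw [Submodule.mem_bot]; funext i; exact hv i (Nat.zero_le _)

lemma Est_top (s : ℕ) (hs : n ≤ s) : Est F n s = ⊤ := by
  rw [eq_top_iff]; intro v _ i hi; exact absurd i.2 (by omega)

lemma finrank_Est (s : ℕ) (hs : s ≤ n) : finrank F (Est F n s) = s := by
  let e : Est F n s ≃ₗ[F] (Fin s → F) :=
    { toFun := fun v j => v.1 ⟨j.val, by omega⟩
      map_add' := fun a b => by funext j; rfl
      map_smul' := fun c a => by funext j; rfl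
      invFun := fun w => ⟨fun i => if h : i.val < s then w ⟨i.val, h⟩ else 0, fun i hi => by
        simp [Nat.not_lt.2 hi]⟩
      left_inv := fun v => by
        apply Subtype.ext
        funext i
        by_cases h : i.val < s
        · simp [h]
        · simp only [h, dif_neg, not_false_eq_true]
          exact (v.2 i (not_lt.1 h)).symm
      right_inv := fun w => by
        funext j
        simp }
  rw [e.finrank_eq]
  simp

/-- the action of `GL_n` on subspaces -/
noncomputable def act (g : GL (Fin n) F) (W : Submodule F (Fin n → F)) : Submodule F (Fin n → F) :=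
  W.map (Matrix.toLin' (g : Matrix (Fin n) (Fin n) F))

lemma act_one (W : Submodule F (Fin n → F)) : act 1 W = W := by simp [act]

lemma act_mul (g h : GL (Fin n) F) (W : Submodule F (Fin n → F)) : act (g * h) W = act g (act h W) := by
  simp [act, Matrix.toLin'_mul, Submodule.map_comp]

lemma act_inv (g : GL (Fin n) F) (W : Submodule F (Fin n → F)) : act g⁻¹ (act g W) = W := by
  rw [← act_mul, inv_mul_cancel, act_one]

lemma act_inv' (g : GL (Fin n) F) (W : Submodule F (Fin n → F)) : act g (act g⁻¹ W) = W := by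
  rw [← act_mul, mul_inv_cancel, act_one]

lemma act_mono (g : GL (Fin n) F) : Monotone (act g) := fun _ _ h => Submodule.map_mono h

lemma finrank_act (g : GL (Fin n) F) (W : Submodule F (Fin n → F)) :
    finrank F (act g W) = finrank F W := by
  apply le_antisymm
  · exact Submodule.finrank_map_le _ _
  · conv_lhs => rw [← act_inv g W]
    exact Submodule.finrank_map_le _ _

/-- the parabolic subgroup stabilizes exactly the standard flag -/
lemma mem_parabolic {μ : Fin n → ℕ} (hμ : ∑ i, μ i = n) (g : GL (Fin n) F) :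
    g ∈ parabolicGL n F μ ↔ ∀ k ≤ n, act g (Est F n (T μ k)) = Est F n (T μ k) := by
  have hle : ∀ k ≤ n, T μ k ≤ n := fun k hk => by
    have := T_mono μ hk
    rwa [T_top, hμ] at this
  have key : g ∈ parabolicGL n F μ ↔ ∀ k ≤ n, act g (Est F n (T μ k)) ≤ Est F n (T μ k) := by
    constructor
    · intro hg k hk
      rintro _ ⟨v, hv, rfl⟩ i hi
      rw [Matrix.toLin'_apply, Matrix.mulVec, dotProduct]
      apply Finset.sum_eq_zero
      intro j _
      by_cases hj : T μ k ≤ j.val
      · rw [hv j hj, mul_zero]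
      · have h1 : (g : Matrix (Fin n) (Fin n) F) i j = 0 := by
          apply hg
          obtain ⟨a1, a2, a3⟩ := Cfsg.Agent.Lib.GLLabel.compLabel_spec μ hμ i
          obtain ⟨b1, b2, b3⟩ := Cfsg.Agent.Lib.GLLabel.compLabel_spec μ hμ j
          have c1 : k ≤ compLabel μ i := by
            by_contra hc
            have := T_mono μ (show compLabel μ i + 1 ≤ k by omega)
            omega
          have c2 : compLabel μ j < k := by
            by_contra hc
            have := T_mono μ (show k ≤ compLabel μ j by omega)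
            omega
          exact lt_of_lt_of_le c2 c1
        rw [h1, zero_mul]
    · intro h i j hij
      obtain ⟨a1, a2, a3⟩ := Cfsg.Agent.Lib.GLLabel.compLabel_spec μ hμ i
      obtain ⟨b1, b2, b3⟩ := Cfsg.Agent.Lib.GLLabel.compLabel_spec μ hμ j
      have h1 := h (compLabel μ j + 1) (by omega)
      have h2 : (Pi.single j 1 : Fin n → F) ∈ Est F n (T μ (compLabel μ j + 1)) := by
        intro i' hi'
        apply Pi.single_eq_of_ne
        rintro rfl
        omega
      have h3 := h1 ⟨_, h2, rfl⟩ i (by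
        have := T_mono μ (show compLabel μ j + 1 ≤ compLabel μ i from hij)
        omega)
      simpa [Matrix.toLin'_apply] using h3
  rw [key]
  constructor
  · intro h k hk
    exact Submodule.eq_of_le_of_finrank_eq (h k hk) (finrank_act g _)
  · intro h k hk
    exact (h k hk).le

end flags

section abstractFlags

/-- flags of type `μ` from `W` to the top -/
abbrev Fl {L : Type*} [PartialOrder L] [OrderTop L] (d : L → ℕ) {m : ℕ} (μ : Fin m → ℕ) (W : L) :=
  {φ : Fin (m+1) → L // φ 0 = W ∧ φ (Fin.last m) = ⊤ ∧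
    ∀ i : Fin m, φ i.castSucc ≤ φ i.succ ∧ d (φ i.succ) = d (φ i.castSucc) + μ i}

variable {L : Type*} [PartialOrder L] [OrderTop L] (d : L → ℕ)

lemma card_fl_zero (μ : Fin 0 → ℕ) (W : L) [DecidableEq L] : Nat.card (Fl d μ W) = if W = ⊤ then 1 else 0 := by
  split_ifs with h
  · rw [Nat.card_eq_one_iff_unique]
    refine ⟨⟨fun a b => ?_⟩, ⟨⟨fun _ => W, rfl, h, fun i => i.elim0⟩⟩⟩
    apply Subtype.ext
    funext i
    have : i = 0 := Fin.ext (by omega)
    rw [this, a.2.1, b.2.1]
  · rw [Nat.card_eq_zero]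
    left
    refine ⟨fun a => h ?_⟩
    exact a.2.1.symm.trans a.2.2.1

lemma card_fl_succ [Fintype L] {m : ℕ} (μ : Fin (m+1) → ℕ) (W : L) [DecidableEq L] [DecidableLE L] :
    Nat.card (Fl d μ W) = ∑ W' ∈ Finset.univ.filter (fun W' => W ≤ W' ∧ d W' = d W + μ 0),
      Nat.card (Fl d (fun i => μ i.succ) W') := by
  classical
  have hfin : ∀ (k : ℕ) (ν : Fin k → ℕ) (X : L), Finite (Fl d ν X) := fun k ν X => by
    unfold Fl; infer_instance
  let e : Fl d μ W ≃ Σ W' : {W' : L // W ≤ W' ∧ d W' = d W + μ 0}, Fl d (fun i => μ i.succ) W'.1 :=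
    { toFun := fun φ => ⟨⟨φ.1 1, by
          have := φ.2.2.2 0
          rw [Fin.castSucc_zero, φ.2.1] at this
          exact this⟩, ⟨fun i => φ.1 i.succ, rfl, φ.2.2.1, fun i => φ.2.2.2 i.succ⟩⟩
      invFun := fun x => ⟨Fin.cons W x.2.1, rfl, by
          rw [← Fin.succ_last, Fin.cons_succ]; exact x.2.2.2.1, by
          intro i
          refine Fin.cases ?_ ?_ i
          · rw [Fin.castSucc_zero, Fin.cons_zero, Fin.cons_succ, x.2.2.1]
            exact x.1.2
          · intro j
            rw [Fin.cons_succ, ← Fin.succ_castSucc, Fin.cons_succ]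
            exact x.2.2.2.2 j⟩
      left_inv := fun φ => by
        apply Subtype.ext
        funext i
        refine Fin.cases ?_ ?_ i
        · simp only [Fin.cons_zero]; exact φ.2.1.symm
        · intro j; simp only [Fin.cons_succ]
      right_inv := fun x => by
        obtain ⟨⟨W', h1⟩, ⟨φ, h2, h3⟩⟩ := x
        obtain rfl : φ 0 = W' := h2
        rfl }
  rw [Nat.card_congr e, Nat.card_sigma]
  rw [← Finset.sum_subtype (p := fun W' => W ≤ W' ∧ d W' = d W + μ 0)
    (f := fun W' => Nat.card (Fl d (fun i => μ i.succ) W'))]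
  intro x
  simp

variable {d}

lemma card_fl_cons_zero [Fintype L] (hd : StrictMono d) {m : ℕ} (μ : Fin (m+1) → ℕ) (h0 : μ 0 = 0) (W : L) :
    Nat.card (Fl d μ W) = Nat.card (Fl d (fun i => μ i.succ) W) := by
  classical
  rw [card_fl_succ]
  have : Finset.univ.filter (fun W' => W ≤ W' ∧ d W' = d W + μ 0) = {W} := by
    ext W'
    simp only [Finset.mem_filter, Finset.mem_univ, true_and, Finset.mem_singleton, h0, add_zero]
    constructor
    · rintro ⟨h1, h2⟩
      rcases h1.lt_or_eq with h | h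
      · exact absurd h2 (hd h).ne'
      · exact h.symm
    · rintro rfl; exact ⟨le_rfl, rfl⟩
  rw [this, Finset.sum_singleton]

/-- transport of flags along an order isomorphism -/
lemma card_fl_congr {L' : Type*} [PartialOrder L'] [OrderTop L'] (d' : L' → ℕ) (e : L ≃o L')
    (he : ∀ W, d' (e W) = d W) {m : ℕ} (μ : Fin m → ℕ) (W : L) :
    Nat.card (Fl d μ W) = Nat.card (Fl d' μ (e W)) := by
  apply Nat.card_congr
  refine
    { toFun := fun φ => ⟨fun i => e (φ.1 i), congrArg e φ.2.1, (congrArg e φ.2.2.1).trans (map_top e), fun i => ⟨e.monotone (φ.2.2.2 i).1, by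
        rw [he, he]; exact (φ.2.2.2 i).2⟩⟩
      invFun := fun φ => ⟨fun i => e.symm (φ.1 i), (congrArg e.symm φ.2.1).trans (e.symm_apply_apply W), (congrArg e.symm φ.2.2.1).trans (map_top e.symm), fun i => ⟨e.symm.monotone (φ.2.2.2 i).1, by
        have h := (φ.2.2.2 i).2
        rw [← he, ← he, OrderIso.apply_symm_apply, OrderIso.apply_symm_apply]; exact h⟩⟩
      left_inv := fun φ => by apply Subtype.ext; funext i; simp
      right_inv := fun φ => by apply Subtype.ext; funext i; simp }

end abstractFlags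

section signedSum

variable {L : Type*} [PartialOrder L] [OrderTop L] {d : L → ℕ}

/-- the composition attached to a permutation, with the part over the value `0` increased by `a` -/
def comp {m : ℕ} (a : ℕ) (κ : Equiv.Perm (Fin m)) (i : Fin m) : ℕ :=
  i.val + 1 + (if (κ i).val = 0 then a else 0) - (κ i).val

def ok {m : ℕ} (κ : Equiv.Perm (Fin m)) : Prop := ∀ i : Fin m, (κ i).val ≤ i.val + 1

instance {m : ℕ} (κ : Equiv.Perm (Fin m)) : Decidable (ok κ) := by unfold ok; infer_instance

/-- the signed sum -/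
noncomputable def Gs (d : L → ℕ) (m a : ℕ) (W : L) : ℤ :=
  ∑ κ : Equiv.Perm (Fin m), if ok κ then (Equiv.Perm.sign κ : ℤ) * (Nat.card (Fl d (comp a κ) W) : ℤ) else 0

lemma Gs_zero [DecidableEq L] (a : ℕ) (W : L) : Gs d 0 a W = if W = ⊤ then 1 else 0 := by
  unfold Gs
  rw [Fintype.sum_unique, if_pos (show ok _ from fun i => i.elim0), card_fl_zero]
  have : (default : Equiv.Perm (Fin 0)) = 1 := Subsingleton.elim _ _
  rw [this, Equiv.Perm.sign_one]
  split_ifs <;> simp

lemma ok_dec_zero {m : ℕ} (e : Equiv.Perm (Fin m)) : ok (Equiv.Perm.decomposeFin.symm ((0 : Fin (m+1)), e)) ↔ ok e := by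
  unfold ok
  rw [Fin.forall_fin_succ]
  simp only [Equiv.Perm.decomposeFin_symm_apply_zero, Equiv.Perm.decomposeFin_symm_apply_succ, Equiv.swap_self,
    Equiv.refl_apply, Fin.val_succ, Fin.val_zero]
  constructor
  · rintro ⟨_, h⟩ i; have := h i; omega
  · intro h; exact ⟨by omega, fun i => by have := h i; omega⟩

lemma swap01_val {m : ℕ} (j : Fin (m+1)) : ((Equiv.swap (0 : Fin (m+2)) 1) j.succ).val = if j.val = 0 then 0 else j.val + 1 := by
  split_ifs with h
  · have : j.succ = 1 := Fin.ext (by simp [h])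
    rw [this, Equiv.swap_apply_right]; rfl
  · rw [Equiv.swap_apply_of_ne_of_ne (Fin.succ_ne_zero j) (by
      intro h'
      have := congrArg Fin.val h'
      simp at this
      exact h (by simp [this])), Fin.val_succ]

lemma ok_dec_one {m : ℕ} (e : Equiv.Perm (Fin (m+1))) : ok (Equiv.Perm.decomposeFin.symm ((1 : Fin (m+2)), e)) ↔ ok e := by
  unfold ok
  rw [Fin.forall_fin_succ]
  simp only [Equiv.Perm.decomposeFin_symm_apply_zero, Equiv.Perm.decomposeFin_symm_apply_succ, Fin.val_succ, Fin.val_zero,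
    swap01_val]
  constructor
  · rintro ⟨_, h⟩ i
    have := h i
    split_ifs at this <;> omega
  · intro h; exact ⟨by simp, fun i => by have := h i; split_ifs <;> omega⟩

lemma not_ok_dec {m : ℕ} (p : Fin (m+1)) (hp : 2 ≤ p.val) (e : Equiv.Perm (Fin m)) :
    ¬ ok (Equiv.Perm.decomposeFin.symm (p, e)) := by
  intro h
  have := h 0
  rw [Equiv.Perm.decomposeFin_symm_apply_zero] at this
  simp at this
  omega

lemma comp_zero_zero {m : ℕ} (a : ℕ) (e : Equiv.Perm (Fin m)) :
    comp a (Equiv.Perm.decomposeFin.symm ((0 : Fin (m+1)), e)) 0 = 1 + a := by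
  simp [comp, Equiv.Perm.decomposeFin_symm_apply_zero]

lemma comp_zero_succ {m : ℕ} (a : ℕ) (e : Equiv.Perm (Fin m)) :
    (fun i : Fin m => comp a (Equiv.Perm.decomposeFin.symm ((0 : Fin (m+1)), e)) i.succ) = comp 0 e := by
  funext i
  simp only [comp, Equiv.Perm.decomposeFin_symm_apply_succ, Equiv.swap_self, Equiv.refl_apply, Fin.val_succ]
  simp

lemma comp_one_zero {m : ℕ} (a : ℕ) (e : Equiv.Perm (Fin (m+1))) :
    comp a (Equiv.Perm.decomposeFin.symm ((1 : Fin (m+2)), e)) 0 = 0 := by
  simp [comp, Equiv.Perm.decomposeFin_symm_apply_zero]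

lemma comp_one_succ {m : ℕ} (a : ℕ) (e : Equiv.Perm (Fin (m+1))) :
    (fun i : Fin (m+1) => comp a (Equiv.Perm.decomposeFin.symm ((1 : Fin (m+2)), e)) i.succ) = comp (a+1) e := by
  funext i
  simp only [comp, Equiv.Perm.decomposeFin_symm_apply_succ, Fin.val_succ, swap01_val]
  split_ifs <;> simp_all <;> omega

lemma Gs_succ_aux [Fintype L] [DecidableEq L] [DecidableLE L] (m a : ℕ) (W : L) :
    (∑ e : Equiv.Perm (Fin m), if ok (Equiv.Perm.decomposeFin.symm ((0 : Fin (m+1)), e)) then
      (Equiv.Perm.sign (Equiv.Perm.decomposeFin.symm ((0 : Fin (m+1)), e)) : ℤ) *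
        (Nat.card (Fl d (comp a (Equiv.Perm.decomposeFin.symm ((0 : Fin (m+1)), e))) W) : ℤ) else 0) =
    ∑ W' ∈ Finset.univ.filter (fun W' => W ≤ W' ∧ d W' = d W + (1 + a)), Gs d m 0 W' := by
  unfold Gs
  rw [Finset.sum_comm]
  apply Finset.sum_congr rfl
  intro e _
  simp only [ok_dec_zero]
  split_ifs with h
  · rw [card_fl_succ, comp_zero_zero, comp_zero_succ]
    rw [Equiv.Perm.decomposeFin.symm_sign]
    simp only [if_true, one_mul]
    push_cast
    rw [Finset.mul_sum]
  · simp

lemma Gs_one [Fintype L] [DecidableEq L] [DecidableLE L] (a : ℕ) (W : L) :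
    Gs d 1 a W = ∑ W' ∈ Finset.univ.filter (fun W' => W ≤ W' ∧ d W' = d W + (1 + a)), Gs d 0 0 W' := by
  rw [← Gs_succ_aux]
  conv_lhs => unfold Gs
  rw [← (Equiv.Perm.decomposeFin (n := 0)).symm.sum_comp, Fintype.sum_prod_type]
  rw [Fintype.sum_unique]
  rfl

lemma Gs_succ [Fintype L] [DecidableEq L] [DecidableLE L] (hd : StrictMono d) (m a : ℕ) (W : L) :
    Gs d (m+2) a W = ∑ W' ∈ Finset.univ.filter (fun W' => W ≤ W' ∧ d W' = d W + (1 + a)), Gs d (m+1) 0 W'
      - Gs d (m+1) (a+1) W := by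
  rw [← Gs_succ_aux]
  conv_lhs => unfold Gs
  rw [← (Equiv.Perm.decomposeFin (n := m+1)).symm.sum_comp, Fintype.sum_prod_type]
  rw [Fin.sum_univ_succ, Fin.sum_univ_succ]
  have h0 : ∀ x : Fin m, (∑ y : Equiv.Perm (Fin (m+1)), if ok (Equiv.Perm.decomposeFin.symm (x.succ.succ, y)) then
      (Equiv.Perm.sign (Equiv.Perm.decomposeFin.symm (x.succ.succ, y)) : ℤ) *
        (Nat.card (Fl d (comp a (Equiv.Perm.decomposeFin.symm (x.succ.succ, y))) W) : ℤ) else 0) = 0 := by
    intro x
    apply Finset.sum_eq_zero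
    intro y _
    rw [if_neg (not_ok_dec _ (by simp) y)]
  rw [Finset.sum_eq_zero (fun x _ => h0 x), add_zero, sub_eq_add_neg]
  congr 1
  unfold Gs
  rw [← Finset.sum_neg_distrib]
  apply Finset.sum_congr rfl
  intro e _
  have h1 : (Fin.succ (0 : Fin (m+1))) = (1 : Fin (m+2)) := rfl
  rw [h1]
  simp only [ok_dec_one]
  split_ifs with h
  · rw [card_fl_cons_zero hd _ (comp_one_zero a e), comp_one_succ, Equiv.Perm.decomposeFin.symm_sign]
    simp
  · simp

/-- unrolled recursion -/
lemma Gs_unroll [Fintype L] [DecidableEq L] [DecidableLE L] (hd : StrictMono d) (m : ℕ) : ∀ (a : ℕ) (W : L),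
    Gs d (m+1) a W = ∑ j ∈ Finset.range (m+1), (-1) ^ j *
      ∑ W' ∈ Finset.univ.filter (fun W' => W ≤ W' ∧ d W' = d W + (1 + (a + j))), Gs d (m - j) 0 W' := by
  induction m with
  | zero =>
    intro a W
    rw [Gs_one]
    simp
  | succ m ih =>
    intro a W
    rw [Gs_succ hd, ih (a+1) W, Finset.sum_range_succ' _ (m+1)]
    simp only [pow_zero, one_mul, add_zero, Nat.sub_zero]
    rw [sub_eq_neg_add, ← Finset.sum_neg_distrib]
    congr 1
    apply Finset.sum_congr rfl
    intro j _
    rw [pow_succ, Nat.succ_sub_succ]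
    rw [show a + (j + 1) = a + 1 + j by ring]
    ring

theorem Gs_eq_mu [Fintype L] [DecidableEq L] [DecidableLE L] [LocallyFiniteOrder L] (hd : StrictMono d) (m : ℕ) :
    ∀ W : L, d W + m = d ⊤ → Gs d m 0 W = (-1) ^ m * (IncidenceAlgebra.mu ℤ) W ⊤ := by
  induction m using Nat.strong_induction_on with
  | _ m ih =>
  intro W hW
  rcases m with _ | m
  · have : W = ⊤ := by
      by_contra h
      have := hd (lt_top_iff_ne_top.2 h)
      omega
    rw [Gs_zero, if_pos this, this, IncidenceAlgebra.mu_self]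
    simp
  · have hne : W ≠ ⊤ := by
      rintro rfl
      omega
    rw [Gs_unroll hd, IncidenceAlgebra.mu_eq_neg_sum_Ioc_of_ne hne]
    have h1 : ∀ j ∈ Finset.range (m+1), ((-1 : ℤ)) ^ j *
        ∑ W' ∈ Finset.univ.filter (fun W' => W ≤ W' ∧ d W' = d W + (1 + (0 + j))), Gs d (m - j) 0 W' =
        (-1) ^ m * ∑ W' ∈ Finset.univ.filter (fun W' => W ≤ W' ∧ d W' = d W + (1 + (0 + j))),
          (IncidenceAlgebra.mu ℤ) W' ⊤ := by
      intro j hj
      rw [Finset.mem_range] at hj
      rw [Finset.mul_sum, Finset.mul_sum]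
      apply Finset.sum_congr rfl
      intro W' hW'
      rw [Finset.mem_filter] at hW'
      rw [ih (m - j) (by omega) W' (by omega), ← mul_assoc, ← pow_add]
      congr 2
      omega
    rw [Finset.sum_congr rfl h1, ← Finset.mul_sum, pow_succ, mul_assoc]
    congr 1
    rw [neg_one_mul, neg_neg]
    rw [← Finset.sum_fiberwise_of_maps_to (s := Finset.Ioc W ⊤) (t := Finset.range (m+1)) (g := fun W' => d W' - d W - 1)]
    · apply Finset.sum_congr rfl
      intro j hj
      rw [Finset.mem_range] at hj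
      apply Finset.sum_congr _ (fun _ _ => rfl)
      ext W'
      simp only [Finset.mem_filter, Finset.mem_univ, true_and, Finset.mem_Ioc, le_top, and_true]
      constructor
      · rintro ⟨h2, h3⟩
        have : W < W' := by
          rcases h2.lt_or_eq with h | h
          · exact h
          · rw [← h] at h3; omega
        exact ⟨this, by omega⟩
      · rintro ⟨h2, h3⟩
        have := hd h2
        exact ⟨h2.le, by omega⟩
    · intro W' hW'
      rw [Finset.mem_Ioc] at hW'
      rw [Finset.mem_range]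
      have h2 := hd hW'.1
      have h3 := hd.monotone hW'.2
      omega

end signedSum

section cosets
variable {F : Type*} [Field F] {n : ℕ}

/-- `x`-invariant subspaces -/
abbrev LL (x : GL (Fin n) F) := {W : Submodule F (Fin n → F) // act x W = W}

lemma act_top (x : GL (Fin n) F) : act x ⊤ = ⊤ := by
  rw [eq_top_iff]
  conv_lhs => rw [← act_inv' x (⊤ : Submodule F (Fin n → F))]
  exact act_mono x le_top

instance (x : GL (Fin n) F) : OrderTop (LL x) where
  top := ⟨⊤, act_top x⟩
  le_top := fun W => (le_top : W.1 ≤ ⊤)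

instance (x : GL (Fin n) F) : OrderBot (LL x) where
  bot := ⟨⊥, by simp [act]⟩
  bot_le := fun W => (bot_le : ⊥ ≤ W.1)

lemma LL_top (x : GL (Fin n) F) : ((⊤ : LL x) : Submodule F (Fin n → F)) = ⊤ := rfl
lemma LL_bot (x : GL (Fin n) F) : ((⊥ : LL x) : Submodule F (Fin n → F)) = ⊥ := rfl

lemma act_eq_iff {μ : Fin n → ℕ} (hμ : ∑ i, μ i = n) (g h : GL (Fin n) F) :
    ((QuotientGroup.mk g : GL (Fin n) F ⧸ parabolicGL n F μ) = QuotientGroup.mk h) ↔
      ∀ k ≤ n, act g (Est F n (T μ k)) = act h (Est F n (T μ k)) := by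
  rw [QuotientGroup.eq, mem_parabolic hμ]
  constructor
  · intro H k hk
    have := congrArg (act g) (H k hk)
    rw [act_mul, act_inv'] at this
    exact this.symm
  · intro H k hk
    rw [act_mul, ← H k hk, act_inv]

theorem card_fixed (x : GL (Fin n) F) {μ : Fin n → ℕ} (hμ : ∑ i, μ i = n) :
    Nat.card (MulAction.fixedBy (GL (Fin n) F ⧸ parabolicGL n F μ) x) =
      Nat.card (Fl (fun W : LL x => finrank F W.1) μ ⊥) := by
  classical
  have hle : ∀ k ≤ n, T μ k ≤ n := fun k hk => by
    have := T_mono μ hk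
    rwa [T_top, hμ] at this
  have hout : ∀ (g : GL (Fin n) F), ∀ k ≤ n,
      act (Quotient.out (QuotientGroup.mk g : GL (Fin n) F ⧸ parabolicGL n F μ)) (Est F n (T μ k)) =
        act g (Est F n (T μ k)) := by
    intro g
    rw [← act_eq_iff hμ]
    exact Quotient.out_eq _
  have hfix : ∀ g : GL (Fin n) F, (QuotientGroup.mk g ∈ MulAction.fixedBy (GL (Fin n) F ⧸ parabolicGL n F μ) x) ↔
      ∀ k ≤ n, act x (act g (Est F n (T μ k))) = act g (Est F n (T μ k)) := by
    intro g
    rw [MulAction.mem_fixedBy]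
    have h1 : x • (QuotientGroup.mk g : GL (Fin n) F ⧸ parabolicGL n F μ) = QuotientGroup.mk (x * g) := rfl
    rw [h1, act_eq_iff hμ]
    simp only [act_mul]
  let f : MulAction.fixedBy (GL (Fin n) F ⧸ parabolicGL n F μ) x → Fl (fun W : LL x => finrank F W.1) μ ⊥ :=
    fun c => ⟨fun k => ⟨act (Quotient.out c.1) (Est F n (T μ k.val)), by
        have h1 : (QuotientGroup.mk (Quotient.out c.1) : GL (Fin n) F ⧸ parabolicGL n F μ) ∈
            MulAction.fixedBy (GL (Fin n) F ⧸ parabolicGL n F μ) x := by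
          have : (QuotientGroup.mk (Quotient.out c.1) : GL (Fin n) F ⧸ parabolicGL n F μ) = c.1 := Quotient.out_eq _
          rw [this]; exact c.2
        exact (hfix _).1 h1 k.val (by omega)⟩, by
        apply Subtype.ext
        show act (Quotient.out c.1) (Est F n (T μ 0)) = ⊥
        rw [T_zero, Est_zero]; simp [act], by
        apply Subtype.ext
        show act (Quotient.out c.1) (Est F n (T μ n)) = ⊤
        rw [T_top, hμ, Est_top n le_rfl, act_top], by
        intro i
        refine ⟨act_mono _ (Est_mono (T_mono μ (by simp))), ?_⟩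
        show finrank F (act _ (Est F n (T μ (i.val + 1)))) = finrank F (act _ (Est F n (T μ i.val))) + μ i
        rw [finrank_act, finrank_act, finrank_Est _ (hle _ (by omega)), finrank_Est _ (hle _ (by omega)), T_succ]⟩
  apply Nat.card_congr
  apply Equiv.ofBijective f
  constructor
  · intro c c' hcc
    apply Subtype.ext
    have h1 : (QuotientGroup.mk (Quotient.out c.1) : GL (Fin n) F ⧸ parabolicGL n F μ) = c.1 := Quotient.out_eq _
    have h2 : (QuotientGroup.mk (Quotient.out c'.1) : GL (Fin n) F ⧸ parabolicGL n F μ) = c'.1 := Quotient.out_eq _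
    rw [← h1, ← h2, act_eq_iff hμ]
    intro k hk
    have := congrArg (fun φ : Fl (fun W : LL x => finrank F W.1) μ ⊥ => (φ.1 ⟨k, by omega⟩).1) hcc
    exact this
  · intro φ
    -- extend to ℕ
    let B : ℕ → Submodule F (Fin n → F) := fun k => if h : k < n + 1 then (φ.1 ⟨k, h⟩).1 else ⊤
    have hstep : ∀ k : ℕ, ∀ h : k < n, (φ.1 ⟨k, by omega⟩).1 ≤ (φ.1 ⟨k+1, by omega⟩).1 ∧
        finrank F (φ.1 ⟨k+1, by omega⟩).1 = finrank F (φ.1 ⟨k, by omega⟩).1 + μ ⟨k, h⟩ := fun k h =>
      φ.2.2.2 ⟨k, h⟩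
    have hB : Monotone B := by
      apply monotone_nat_of_le_succ
      intro k
      by_cases h : k + 1 < n + 1
      · simp only [B, h, dif_pos, show k < n + 1 by omega]
        exact (hstep k (by omega)).1
      · simp only [B, h, dif_neg, not_false_eq_true, le_top]
    have hdim : ∀ k (h : k < n + 1), finrank F (φ.1 ⟨k, h⟩).1 = T μ k := by
      intro k
      induction k with
      | zero =>
        intro h
        have h0 : (φ.1 0) = ⊥ := φ.2.1
        have : (φ.1 ⟨0, h⟩).1 = ⊥ := by
          show (φ.1 0).1 = ⊥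
          rw [h0]; rfl
        rw [this, finrank_bot, T_zero]
      | succ k ih =>
        intro h
        rw [(hstep k (by omega)).2, ih (by omega), T_succ μ ⟨k, by omega⟩]
    obtain ⟨e, he⟩ := exists_equiv_chain (fun k => Est F n (T μ k)) B (fun a b h => Est_mono (T_mono μ h)) hB n
      (fun k hk => by
        have h1 : B k = (φ.1 ⟨k, by omega⟩).1 := by
          simp only [B, show k < n + 1 by omega, dif_pos]
        rw [h1, hdim k (by omega), finrank_Est _ (hle k hk)])
    let g : GL (Fin n) F := ⟨LinearMap.toMatrix' (e : (Fin n → F) →ₗ[F] (Fin n → F)),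
      LinearMap.toMatrix' (e.symm : (Fin n → F) →ₗ[F] (Fin n → F)), by
        rw [← LinearMap.toMatrix'_comp]; simp, by
        rw [← LinearMap.toMatrix'_comp]; simp⟩
    have hg : ∀ W, act g W = W.map (e : (Fin n → F) →ₗ[F] (Fin n → F)) := by
      intro W
      unfold act
      simp [g]
    have hgB : ∀ k (h : k < n + 1), act g (Est F n (T μ k)) = (φ.1 ⟨k, h⟩).1 := by
      intro k h
      rw [hg, he k (by omega)]
      simp only [B, h, dif_pos]
    refine ⟨⟨QuotientGroup.mk g, (hfix g).2 (fun k hk => by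
      rw [hgB k (by omega)]; exact (φ.1 ⟨k, by omega⟩).2)⟩, ?_⟩
    apply Subtype.ext
    funext k
    apply Subtype.ext
    show act (Quotient.out (QuotientGroup.mk g : GL (Fin n) F ⧸ parabolicGL n F μ)) (Est F n (T μ k.val)) = (φ.1 k).1
    rw [hout g k.val (by omega)]
    exact hgB k.val k.2

end cosets

end Cfsg.Agent.Lib.StMob
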