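import Mathlib
import Cfsg.Agent.Lib.StMob1

set_option autoImplicit false
set_option linter.unusedSectionVars false

/-!
Moebius function of the lattice of submodules of a finite semisimple `F[X]`-module (helper43).
-/

namespace Cfsg.Agent.Lib.StMob

open Polynomial Module

section weisner

variable {L : Type*} [Lattice L] [OrderBot L] [Fintype L] [DecidableEq L] [LocallyFiniteOrder L]

lemma weisner (A : L) (hA : A ≠ ⊥) (N : L) (hN : A ≤ N) :
    ∑ X ∈ Finset.univ.filter (fun X => X ⊔ A = N), (IncidenceAlgebra.mu ℤ) ⊥ X = 0 := by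
  classical
  revert hN
  induction N using WellFoundedLT.induction with
  | _ N ih =>
  intro hN
  have hNb : (⊥ : L) ≠ N := by
    rintro rfl
    exact hA (le_bot_iff.1 hN)
  have h1 := IncidenceAlgebra.sum_Icc_mu_right (𝕜 := ℤ) (⊥ : L) N
  rw [if_neg hNb, ← Finset.sum_fiberwise_of_maps_to (t := Finset.Icc A N) (g := fun X => X ⊔ A)] at h1
  · have h2 : ∀ Y ∈ Finset.Icc A N, (∑ X ∈ Finset.filter (fun X => X ⊔ A = Y) (Finset.Icc ⊥ N), (IncidenceAlgebra.mu ℤ) ⊥ X) =
        ∑ X ∈ Finset.univ.filter (fun X => X ⊔ A = Y), (IncidenceAlgebra.mu ℤ) ⊥ X := by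
      intro Y hY
      rw [Finset.mem_Icc] at hY
      apply Finset.sum_congr _ (fun _ _ => rfl)
      ext X
      simp only [Finset.mem_filter, Finset.mem_Icc, bot_le, true_and, Finset.mem_univ]
      constructor
      · exact fun h => h.2
      · intro h
        exact ⟨le_trans (le_sup_left.trans h.le) hY.2, h⟩
    rw [Finset.sum_congr rfl h2, Finset.sum_eq_single N] at h1
    · exact h1
    · intro Y hY hne
      rw [Finset.mem_Icc] at hY
      exact ih Y (lt_of_le_of_ne hY.2 hne) hY.1
    · intro h
      exact absurd (Finset.mem_Icc.2 ⟨hN, le_rfl⟩) h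
  · intro X hX
    rw [Finset.mem_Icc] at hX ⊢
    exact ⟨le_sup_right, sup_le hX.2 hN⟩

end weisner

section cpo

variable (F : Type*) [Field F]

/-- characteristic polynomial of multiplication by `X` -/
noncomputable def cpo (N : Type*) [AddCommGroup N] [Module F N] [Module F[X] N] [IsScalarTower F F[X] N]
    [Module.Finite F N] : F[X] := LinearMap.charpoly (Algebra.lsmul F F N (X : F[X]))

variable {F}
variable {A B : Type*} [AddCommGroup A] [Module F A] [Module F[X] A] [IsScalarTower F F[X] A] [Module.Finite F A]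
  [AddCommGroup B] [Module F B] [Module F[X] B] [IsScalarTower F F[X] B] [Module.Finite F B]

lemma cpo_monic : (cpo F A).Monic := LinearMap.charpoly_monic _

lemma cpo_natDegree : (cpo F A).natDegree = finrank F A := LinearMap.charpoly_natDegree _

lemma cpo_ne_zero : cpo F A ≠ 0 := cpo_monic.ne_zero

lemma cpo_smul (v : A) : cpo F A • v = 0 := by
  have h := LinearMap.aeval_self_charpoly (Algebra.lsmul F F A (X : F[X]))
  have h2 : ∀ p : F[X], aeval (Algebra.lsmul F F A (X : F[X])) p = Algebra.lsmul F F A p := by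
    intro p
    rw [Polynomial.aeval_algHom_apply, Polynomial.aeval_X_left_apply]
  rw [h2] at h
  have := congrArg (fun f => f v) h
  simpa [cpo] using this

lemma cpo_prod : cpo F (A × B) = cpo F A * cpo F B := by
  unfold cpo
  rw [← LinearMap.charpoly_prodMap]
  congr 1

lemma cpo_congr (e : A ≃ₗ[F[X]] B) : cpo F A = cpo F B := by
  unfold cpo
  rw [← LinearEquiv.charpoly_conj (e.restrictScalars F)]
  congr 1
  ext v
  simp [LinearEquiv.conj_apply]

lemma cpo_zero [Subsingleton A] : cpo F A = 1 := by
  have h1 := cpo_natDegree (F := F) (A := A)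
  rw [finrank_zero_of_subsingleton] at h1
  exact (cpo_monic (F := F) (A := A)).natDegree_eq_zero.1 h1

variable {S S' : Type*} [AddCommGroup S] [Module F S] [Module F[X] S] [IsScalarTower F F[X] S] [Module.Finite F S]
  [AddCommGroup S'] [Module F S'] [Module F[X] S'] [IsScalarTower F F[X] S'] [Module.Finite F S']

lemma finrank_le_of_smul [IsSimpleModule F[X] S] {v : S} (hv : v ≠ 0) {p : F[X]} (hp : p ≠ 0) (h : p • v = 0) :
    finrank F S ≤ p.natDegree := by
  let f : degreeLT F p.natDegree →ₗ[F] S :=
    { toFun := fun r => (r : F[X]) • v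
      map_add' := fun a b => by simp [add_smul]
      map_smul' := fun c a => by simp }
  have hs : Function.Surjective f := by
    intro s
    obtain ⟨r, hr⟩ := IsSimpleModule.toSpanSingleton_surjective F[X] hv s
    refine ⟨⟨r % p, ?_⟩, ?_⟩
    · rw [mem_degreeLT]
      exact lt_of_lt_of_le (degree_mod_lt r hp) degree_le_natDegree
    · show (r % p) • v = s
      rw [← hr, LinearMap.toSpanSingleton_apply]
      conv_rhs => rw [← EuclideanDomain.mod_add_div r p]
      rw [add_smul, mul_comm p, mul_smul, h, smul_zero, add_zero]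
  have h1 := LinearMap.finrank_le_finrank_of_surjective hs
  rwa [(degreeLTEquiv F p.natDegree).finrank_eq, finrank_fin_fun] at h1

lemma cpo_irreducible [hS : IsSimpleModule F[X] S] : Irreducible (cpo F S) := by
  have : Nontrivial S := IsSimpleModule.nontrivial F[X] S
  obtain ⟨v, hv⟩ := exists_ne (0 : S)
  have hpos : 0 < finrank F S := Module.finrank_pos
  constructor
  · intro hu
    have := natDegree_eq_zero_of_isUnit hu
    rw [cpo_natDegree] at this
    omega
  · intro a b hab
    have hne := cpo_ne_zero (F := F) (A := S)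
    have ha : a ≠ 0 := by rintro rfl; rw [zero_mul] at hab; exact hne hab
    have hb : b ≠ 0 := by rintro rfl; rw [mul_zero] at hab; exact hne hab
    have hdeg : finrank F S = a.natDegree + b.natDegree := by
      rw [← cpo_natDegree (F := F) (A := S), hab, natDegree_mul ha hb]
    have h0 : a • (b • v) = 0 := by
      rw [← mul_smul, ← hab, cpo_smul]
    by_cases hbv : b • v = 0
    · left
      have := finrank_le_of_smul hv hb hbv
      exact isUnit_iff_degree_eq_zero.2 (by rw [degree_eq_natDegree ha]; norm_cast; omega)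
    · right
      have := finrank_le_of_smul hbv ha h0
      exact isUnit_iff_degree_eq_zero.2 (by rw [degree_eq_natDegree hb]; norm_cast; omega)

lemma ker_eq [IsSimpleModule F[X] S] {v : S} (hv : v ≠ 0) :
    LinearMap.ker (LinearMap.toSpanSingleton F[X] S v) = Ideal.span {cpo F S} := by
  have hm : (Ideal.span {cpo F S}).IsMaximal := PrincipalIdealRing.isMaximal_of_irreducible cpo_irreducible
  symm
  apply hm.eq_of_le
  · intro h
    have : (1 : F[X]) ∈ LinearMap.ker (LinearMap.toSpanSingleton F[X] S v) := by rw [h]; trivial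
    rw [LinearMap.mem_ker, LinearMap.toSpanSingleton_apply, one_smul] at this
    exact hv this
  · rw [Ideal.span_singleton_le_iff_mem, LinearMap.mem_ker, LinearMap.toSpanSingleton_apply]
    exact cpo_smul v

lemma nonempty_equiv [IsSimpleModule F[X] S] [IsSimpleModule F[X] S'] (h : cpo F S = cpo F S') :
    Nonempty (S ≃ₗ[F[X]] S') := by
  have : Nontrivial S := IsSimpleModule.nontrivial F[X] S
  have : Nontrivial S' := IsSimpleModule.nontrivial F[X] S'
  obtain ⟨v, hv⟩ := exists_ne (0 : S)
  obtain ⟨v', hv'⟩ := exists_ne (0 : S')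
  have e1 := LinearMap.quotKerEquivOfSurjective _ (IsSimpleModule.toSpanSingleton_surjective F[X] hv)
  have e2 := LinearMap.quotKerEquivOfSurjective _ (IsSimpleModule.toSpanSingleton_surjective F[X] hv')
  exact ⟨e1.symm ≪≫ₗ (Submodule.quotEquivOfEq _ _ (by rw [ker_eq hv, ker_eq hv', h])) ≪≫ₗ e2⟩

lemma card_end [IsSimpleModule F[X] S] : Nat.card (S →ₗ[F[X]] S) = Nat.card S := by
  have : Nontrivial S := IsSimpleModule.nontrivial F[X] S
  obtain ⟨v, hv⟩ := exists_ne (0 : S)
  apply Nat.card_congr
  apply Equiv.ofBijective (fun f : S →ₗ[F[X]] S => f v)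
  constructor
  · intro f g hfg
    ext w
    obtain ⟨r, hr⟩ := IsSimpleModule.toSpanSingleton_surjective F[X] hv w
    rw [LinearMap.toSpanSingleton_apply] at hr
    rw [← hr, map_smul, map_smul]
    exact congrArg (r • ·) hfg
  · intro w
    obtain ⟨r, hr⟩ := IsSimpleModule.toSpanSingleton_surjective F[X] hv w
    rw [LinearMap.toSpanSingleton_apply] at hr
    exact ⟨LinearMap.lsmul F[X] S r, hr⟩

lemma card_hom_simple [IsSimpleModule F[X] S] [IsSimpleModule F[X] S'] [DecidableEq F] :
    Nat.card (S →ₗ[F[X]] S') = if cpo F S = cpo F S' then Nat.card F ^ (cpo F S').natDegree else 1 := by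
  split_ifs with h
  · obtain ⟨e⟩ := nonempty_equiv h
    have h1 : Nat.card (S →ₗ[F[X]] S') = Nat.card (S' →ₗ[F[X]] S') := by
      apply Nat.card_congr
      exact (LinearEquiv.congrLeft S' F[X] e).toEquiv
    rw [h1, card_end, Module.natCard_eq_pow_finrank (K := F), cpo_natDegree]
  · rw [Nat.card_eq_one_iff_unique]
    refine ⟨⟨fun f g => ?_⟩, ⟨0⟩⟩
    have key : ∀ f : S →ₗ[F[X]] S', f = 0 := by
      intro f
      rcases LinearMap.bijective_or_eq_zero f with hf | hf
      · exact absurd (cpo_congr (LinearEquiv.ofBijective f hf)) h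
      · exact hf
    rw [key f, key g]

end cpo

section lattice

variable {F : Type*} [Field F]
variable {M : Type*} [AddCommGroup M] [Module F M] [Module F[X] M] [IsScalarTower F F[X] M] [Module.Finite F M]

/-- internal direct sum -/
noncomputable def dsum {A X N : Submodule F[X] M} (h1 : A ⊔ X = N) (h2 : Disjoint A X) : (A × X) ≃ₗ[F[X]] N :=
  LinearEquiv.ofBijective
    ((Submodule.inclusion (le_sup_left.trans h1.le)).coprod (Submodule.inclusion (le_sup_right.trans h1.le))) (by
    constructor
    · rw [← LinearMap.ker_eq_bot, LinearMap.ker_eq_bot']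
      rintro ⟨a, x⟩ h
      have h3 : (a : M) + x = 0 := congrArg Subtype.val h
      have h4 : (a : M) = -x := eq_neg_of_add_eq_zero_left h3
      have h5 : (a : M) = 0 := by
        have h6 : (a : M) ∈ X := by rw [h4]; exact X.neg_mem x.2
        exact (Submodule.disjoint_def.1 h2) a a.2 h6
      have h6 : (x : M) = 0 := by rw [h5, zero_add] at h3; exact h3
      ext <;> simp [h5, h6]
    · rintro ⟨v, hv⟩
      rw [← h1] at hv
      obtain ⟨a, ha, x, hx, rfl⟩ := Submodule.mem_sup.1 hv
      exact ⟨(⟨a, ha⟩, ⟨x, hx⟩), rfl⟩)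

lemma dsum_apply {A X N : Submodule F[X] M} (h1 : A ⊔ X = N) (h2 : Disjoint A X) (p : A × X) :
    ((dsum h1 h2 p : N) : M) = p.1 + p.2 := rfl

instance finite_sub (N : Submodule F[X] M) : Module.Finite F N :=
  Module.Finite.of_injective (N.subtype.restrictScalars F) N.injective_subtype

lemma cpo_dsum {A X N : Submodule F[X] M} (h1 : A ⊔ X = N) (h2 : Disjoint A X) :
    cpo F N = cpo F A * cpo F X := by
  rw [← cpo_prod, cpo_congr (dsum h1 h2)]

/-- relative complements -/
lemma exists_rel_compl [IsSemisimpleModule F[X] M] {A N : Submodule F[X] M} (h : A ≤ N) :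
    ∃ X : Submodule F[X] M, A ⊔ X = N ∧ Disjoint A X := by
  obtain ⟨C, hC⟩ := exists_isCompl A
  refine ⟨C ⊓ N, ?_, ?_⟩
  · have := sup_inf_assoc_of_le C h
    rw [← this, hC.codisjoint.eq_top, top_inf_eq]
  · exact hC.disjoint.mono_right inf_le_left

/-- number of homomorphisms to a simple module -/
lemma card_hom [Finite F] [IsSemisimpleModule F[X] M] [DecidableEq F] {S : Type*} [AddCommGroup S] [Module F S]
    [Module F[X] S] [IsScalarTower F F[X] S] [Module.Finite F S] [IsSimpleModule F[X] S] (N : Submodule F[X] M) :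
    Nat.card (N →ₗ[F[X]] S) = Nat.card F ^ ((cpo F S).natDegree *
      (UniqueFactorizationMonoid.normalizedFactors (cpo F N)).count (cpo F S)) := by
  have hM : Finite M := Module.finite_of_finite F
  have hfin : Finite (Submodule F[X] M) := by infer_instance
  induction N using WellFoundedLT.induction with
  | _ N ih =>
  by_cases hN : N = ⊥
  · subst hN
    have h1 : cpo F (⊥ : Submodule F[X] M) = 1 := cpo_zero
    rw [h1, UniqueFactorizationMonoid.normalizedFactors_one]
    simp only [Multiset.count_zero, mul_zero, pow_zero]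
    rw [Nat.card_eq_one_iff_unique]
    exact ⟨inferInstance, ⟨0⟩⟩
  · obtain ⟨A, hA, hAN⟩ := (IsAtomic.eq_bot_or_exists_atom_le N).resolve_left hN
    have hAs : IsSimpleModule F[X] A := isSimpleModule_iff_isAtom.2 hA
    obtain ⟨X, h1, h2⟩ := exists_rel_compl hAN
    have hXN : X < N := by
      refine lt_of_le_of_ne (le_sup_right.trans h1.le) ?_
      rintro rfl
      exact hA.1 (le_bot_iff.1 (h2 le_rfl hAN))
    have e1 : Nat.card (N →ₗ[F[X]] S) = Nat.card (A →ₗ[F[X]] S) * Nat.card (X →ₗ[F[X]] S) := by
      rw [← Nat.card_prod]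
      apply Nat.card_congr
      exact ((LinearEquiv.congrLeft S F[X] (dsum h1 h2).symm).toEquiv).trans
        (LinearMap.coprodEquiv F[X]).symm.toEquiv
    rw [e1, card_hom_simple, ih X hXN, cpo_dsum h1 h2,
      UniqueFactorizationMonoid.normalizedFactors_mul cpo_ne_zero cpo_ne_zero,
      UniqueFactorizationMonoid.normalizedFactors_irreducible (cpo_irreducible (F := F) (S := A)),
      (cpo_monic (F := F) (A := A)).normalize_eq_self, Multiset.singleton_add, Multiset.count_cons]
    split_ifs with h3 h4 h4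
    · rw [← pow_add]; ring_nf
    · exact absurd h3.symm h4
    · exact absurd h4.symm h3
    · rw [one_mul]; simp

/-- the number of complements -/
lemma card_compl {A X0 N : Submodule F[X] M} (h1 : A ⊔ X0 = N) (h2 : Disjoint A X0) :
    Nat.card {X : Submodule F[X] M // A ⊔ X = N ∧ Disjoint A X} = Nat.card (X0 →ₗ[F[X]] A) := by
  symm
  have hmem : ∀ (h : X0 →ₗ[F[X]] A) (v : M), v ∈ LinearMap.range (X0.subtype + A.subtype ∘ₗ h) ↔
      ∃ x : X0, (x : M) + h x = v := fun h v => Iff.rfl
  have hdis : ∀ (h : X0 →ₗ[F[X]] A) (x : X0), (x : M) + h x ∈ A → x = 0 := by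
    intro h x hx
    have h3 : (x : M) ∈ A := by
      have := A.sub_mem hx (h x).2
      simpa using this
    exact Subtype.ext ((Submodule.disjoint_def.1 h2) x h3 x.2)
  let f : (X0 →ₗ[F[X]] A) → {X : Submodule F[X] M // A ⊔ X = N ∧ Disjoint A X} := fun h =>
    ⟨LinearMap.range (X0.subtype + A.subtype ∘ₗ h), by
      rw [← h1]
      apply le_antisymm
      · apply sup_le le_sup_left
        rintro _ ⟨x, rfl⟩
        exact Submodule.add_mem _ (Submodule.mem_sup_right x.2) (Submodule.mem_sup_left (h x).2)
      · apply sup_le le_sup_left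
        intro x hx
        have h3 : x = (-(h ⟨x, hx⟩ : M)) + (x + h ⟨x, hx⟩) := by abel
        rw [h3]
        exact Submodule.add_mem _ (Submodule.mem_sup_left (A.neg_mem (h ⟨x, hx⟩).2))
          (Submodule.mem_sup_right ⟨⟨x, hx⟩, rfl⟩), by
      rw [Submodule.disjoint_def]
      rintro v hv ⟨x, rfl⟩
      have := hdis h x hv
      rw [this, map_zero]⟩
  apply Nat.card_congr
  apply Equiv.ofBijective f
  constructor
  · intro h h' hh
    have hh' : LinearMap.range (X0.subtype + A.subtype ∘ₗ h) = LinearMap.range (X0.subtype + A.subtype ∘ₗ h') :=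
      congrArg Subtype.val hh
    ext x
    have h3 : (x : M) + h x ∈ LinearMap.range (X0.subtype + A.subtype ∘ₗ h') := by
      rw [← hh']; exact ⟨x, rfl⟩
    obtain ⟨x', hx'⟩ := (hmem h' _).1 h3
    have h4 : (x' : M) - x = h x - h' x' := by
      rw [sub_eq_sub_iff_add_eq_add, hx', add_comm]
    have h5 : ((x' - x : X0) : M) ∈ A := by
      rw [Submodule.coe_sub, h4]
      exact A.sub_mem (h x).2 (h' x').2
    have h6 := (Submodule.disjoint_def.1 h2) _ h5 (x' - x).2
    have h7 : x' = x := by
      apply Subtype.ext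
      rw [Submodule.coe_sub] at h6
      exact sub_eq_zero.1 h6
    rw [h7] at hx'
    exact (add_left_cancel hx').symm
  · rintro ⟨X, hX1, hX2⟩
    let π := dsum hX1 hX2
    let ι : X0 →ₗ[F[X]] N := Submodule.inclusion (le_sup_right.trans h1.le)
    let h : X0 →ₗ[F[X]] A := -(LinearMap.fst F[X] A X ∘ₗ (π.symm : N →ₗ[F[X]] (A × X)) ∘ₗ ι)
    have hx : ∀ x : X0, (x : M) + h x ∈ X := by
      intro x
      have h3 : π (π.symm (ι x)) = ι x := π.apply_symm_apply _
      have h4 := congrArg (Subtype.val) h3
      rw [dsum_apply] at h4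
      have h5 : (h x : M) = -(((π.symm (ι x)).1 : A) : M) := rfl
      have h6 : (x : M) = (ι x : M) := rfl
      rw [h5, h6, ← h4]
      simp
    refine ⟨h, ?_⟩
    apply Subtype.ext
    show LinearMap.range (X0.subtype + A.subtype ∘ₗ h) = X
    have hle : LinearMap.range (X0.subtype + A.subtype ∘ₗ h) ≤ X := by
      rintro _ ⟨x, rfl⟩
      exact hx x
    apply eq_of_le_of_inf_le_of_sup_le hle (z := A)
    · rw [inf_comm, hX2.eq_bot]; exact bot_le
    · rw [sup_comm, hX1, sup_comm, (f h).2.1]

/-- the local factor -/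
def wf (q : ℤ) (d c : ℕ) : ℤ := (-1) ^ c * q ^ (d * c * (c - 1) / 2)

lemma wf_zero (q : ℤ) (d : ℕ) : wf q d 0 = 1 := by simp [wf]

lemma wf_succ (q : ℤ) (d c : ℕ) : wf q d (c+1) = -(q ^ (d * c)) * wf q d c := by
  unfold wf
  have h1 : d * (c+1) * (c + 1 - 1) / 2 = d * c + d * c * (c-1) / 2 := by
    have h2 : d * (c+1) * (c + 1 - 1) = 2 * (d * c) + d * c * (c-1) := by
      rcases c with _ | c
      · simp
      · simp; ring
    rw [h2, Nat.mul_add_div (by norm_num)]
  rw [h1, pow_succ, pow_add]
  ring

/-- the product over the irreducible factors -/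
noncomputable def Pf [DecidableEq F] (q : ℤ) (p : F[X]) : ℤ :=
  ∏ f ∈ (UniqueFactorizationMonoid.normalizedFactors p).toFinset,
    wf q f.natDegree ((UniqueFactorizationMonoid.normalizedFactors p).count f)

lemma Pf_one [DecidableEq F] (q : ℤ) : Pf q (1 : F[X]) = 1 := by
  simp [Pf, UniqueFactorizationMonoid.normalizedFactors_one]

lemma Pf_mul [DecidableEq F] (q : ℤ) (f p : F[X]) (hf : Irreducible f) (hm : f.Monic) (hp : p ≠ 0) :
    Pf q (f * p) = -(q ^ (f.natDegree * (UniqueFactorizationMonoid.normalizedFactors p).count f)) * Pf q p := by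
  unfold Pf
  rw [UniqueFactorizationMonoid.normalizedFactors_mul hf.ne_zero hp,
    UniqueFactorizationMonoid.normalizedFactors_irreducible hf, hm.normalize_eq_self, Multiset.singleton_add]
  set s := UniqueFactorizationMonoid.normalizedFactors p
  have h1 : ∏ g ∈ s.toFinset, wf q g.natDegree (s.count g) = ∏ g ∈ (f ::ₘ s).toFinset, wf q g.natDegree (s.count g) := by
    apply Finset.prod_subset
    · intro g hg
      rw [Multiset.mem_toFinset] at hg ⊢
      exact Multiset.mem_cons_of_mem hg
    · intro g _ hg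
      rw [Multiset.mem_toFinset] at hg
      rw [Multiset.count_eq_zero_of_notMem hg, wf_zero]
  have hmem : f ∈ (f ::ₘ s).toFinset := by simp
  rw [h1, ← Finset.mul_prod_erase _ _ hmem, ← Finset.mul_prod_erase _ (fun g => wf q g.natDegree (s.count g)) hmem,
    Multiset.count_cons_self, wf_succ, mul_assoc]
  congr 2
  apply Finset.prod_congr rfl
  intro g hg
  rw [Finset.mem_erase] at hg
  rw [Multiset.count_cons_of_ne hg.1]

theorem mu_eq [Finite F] [IsSemisimpleModule F[X] M] [DecidableEq F] [Fintype (Submodule F[X] M)]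
    [DecidableEq (Submodule F[X] M)] [LocallyFiniteOrder (Submodule F[X] M)] (N : Submodule F[X] M) :
    (IncidenceAlgebra.mu ℤ) ⊥ N = Pf (Nat.card F : ℤ) (cpo F N) := by
  classical
  induction N using WellFoundedLT.induction with
  | _ N ih =>
  by_cases hN : N = ⊥
  · subst hN
    have h1 : cpo F (⊥ : Submodule F[X] M) = 1 := cpo_zero
    rw [IncidenceAlgebra.mu_self, h1, Pf_one]
  · obtain ⟨A, hA, hAN⟩ := (IsAtomic.eq_bot_or_exists_atom_le N).resolve_left hN
    have hAs : IsSimpleModule F[X] A := isSimpleModule_iff_isAtom.2 hA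
    obtain ⟨X0, h1, h2⟩ := exists_rel_compl hAN
    have hw := weisner A hA.1 N hAN
    have hlt : ∀ X : Submodule F[X] M, A ⊔ X = N → Disjoint A X → X < N := by
      intro X h3 h4
      refine lt_of_le_of_ne (le_sup_right.trans h3.le) ?_
      rintro rfl
      exact hA.1 (le_bot_iff.1 (h4 le_rfl hAN))
    have hval : ∀ X : Submodule F[X] M, A ⊔ X = N → Disjoint A X →
        (IncidenceAlgebra.mu ℤ) ⊥ X = Pf (Nat.card F : ℤ) (cpo F X0) := by
      intro X h3 h4
      rw [ih X (hlt X h3 h4)]
      congr 1
      have h5 := cpo_dsum h3 h4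
      rw [cpo_dsum h1 h2] at h5
      exact (mul_left_cancel₀ cpo_ne_zero h5).symm
    have hset : (Finset.univ.filter (fun X => X ⊔ A = N) : Finset (Submodule F[X] M)) =
        insert N (Finset.univ.filter (fun X => A ⊔ X = N ∧ Disjoint A X)) := by
      ext X
      simp only [Finset.mem_filter, Finset.mem_univ, true_and, Finset.mem_insert]
      constructor
      · intro h
        rw [sup_comm] at h
        rcases hA.le_iff.1 (inf_le_left : A ⊓ X ≤ A) with h3 | h3
        · right
          exact ⟨h, disjoint_iff.2 h3⟩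
        · left
          rw [← h]
          exact (sup_eq_right.2 (inf_eq_left.1 h3)).symm
      · rintro (rfl | h)
        · exact sup_eq_left.2 hAN
        · rw [sup_comm]; exact h.1
    rw [hset, Finset.sum_insert] at hw
    · rw [Finset.sum_congr rfl (fun X hX => hval X (Finset.mem_filter.1 hX).2.1 (Finset.mem_filter.1 hX).2.2),
        Finset.sum_const] at hw
      have hc : (Finset.univ.filter (fun X : Submodule F[X] M => A ⊔ X = N ∧ Disjoint A X)).card =
          Nat.card {X : Submodule F[X] M // A ⊔ X = N ∧ Disjoint A X} := by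
        rw [Nat.card_eq_fintype_card, Fintype.card_subtype]
      rw [hc, card_compl h1 h2, card_hom] at hw
      rw [cpo_dsum h1 h2, Pf_mul _ _ _ cpo_irreducible cpo_monic cpo_ne_zero]
      rw [nsmul_eq_mul] at hw
      push_cast at hw
      linarith
    · intro h
      rw [Finset.mem_filter] at h
      exact absurd rfl (hlt N h.2.1 h.2.2).ne

end lattice

end Cfsg.Agent.Lib.StMob
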