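import Mathlib
import Cfsg.Prelude.Def_ClassicalGeometry

/-! Stabilisers of subspaces in matrix groups; counting by cosets (helper13). -/

set_option autoImplicit false
open Cfsg

namespace Cfsg.Agent.Lib.StabMat

open Matrix

variable {F : Type*} [Field F]

lemma mulVec_inv_mulVec {H : Type*} [Group H] {ι : Type} [Fintype ι] [DecidableEq ι]
    (toMat : H →* Matrix ι ι F) (h : H) (v : ι → F) : toMat h *ᵥ (toMat h⁻¹ *ᵥ v) = v := by
  rw [Matrix.mulVec_mulVec, ← map_mul, mul_inv_cancel, map_one, Matrix.one_mulVec]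

lemma inv_mulVec_mulVec {H : Type*} [Group H] {ι : Type} [Fintype ι] [DecidableEq ι]
    (toMat : H →* Matrix ι ι F) (h : H) (v : ι → F) : toMat h⁻¹ *ᵥ (toMat h *ᵥ v) = v := by
  rw [Matrix.mulVec_mulVec, ← map_mul, inv_mul_cancel, map_one, Matrix.one_mulVec]

/-- the linear equivalence of an element -/
def toLin {H : Type*} [Group H] {ι : Type} [Fintype ι] [DecidableEq ι]
    (toMat : H →* Matrix ι ι F) (h : H) : (ι → F) ≃ₗ[F] (ι → F) :=
  { Matrix.mulVecLin (toMat h) with
    invFun := fun v => toMat h⁻¹ *ᵥ v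
    left_inv := fun v => inv_mulVec_mulVec toMat h v
    right_inv := fun v => mulVec_inv_mulVec toMat h v }

@[simp] lemma toLin_apply {H : Type*} [Group H] {ι : Type} [Fintype ι] [DecidableEq ι]
    (toMat : H →* Matrix ι ι F) (h : H) (v : ι → F) : toLin toMat h v = toMat h *ᵥ v := rfl

/-- for subspaces, invariance in one direction is enough -/
lemma mem_stabilizing_iff {H : Type*} [Group H] {ι : Type} [Fintype ι] [DecidableEq ι]
    (toMat : H →* Matrix ι ι F) (W : Submodule F (ι → F)) (h : H) :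
    h ∈ stabilizing toMat (W : Set (ι → F)) ↔ ∀ v ∈ W, toMat h *ᵥ v ∈ W := by
  constructor
  · intro hh v hv
    exact (hh v).1 hv
  · intro hh v
    refine ⟨hh v, fun hv => ?_⟩
    have h1 : W.map (toLin toMat h).toLinearMap ≤ W := by
      rintro _ ⟨w, hw, rfl⟩
      exact hh w hw
    have h2 : W.map (toLin toMat h).toLinearMap = W :=
      Submodule.eq_of_le_of_finrank_eq h1 (LinearEquiv.finrank_map_eq (toLin toMat h) W)
    have h3 : toLin toMat h v ∈ W.map (toLin toMat h).toLinearMap := by rw [h2]; exact hv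
    obtain ⟨w, hw, hwv⟩ := h3
    have : w = v := (toLin toMat h).injective hwv
    exact this ▸ hw

/-- counting by cosets -/
lemma card_eq_mul {G X : Type*} [Group G] (K : Subgroup G) (f : G → X) (hf : Function.Surjective f)
    (h : ∀ a b, f a = f b ↔ a⁻¹ * b ∈ K) : Nat.card G = Nat.card X * Nat.card K := by
  have e : G ⧸ K ≃ X := Equiv.ofBijective
    (Quotient.lift f (fun a b hab => (h a b).2 (QuotientGroup.leftRel_apply.1 hab))) ⟨by
      rintro ⟨a⟩ ⟨b⟩ hab
      exact Quotient.sound (QuotientGroup.leftRel_apply.2 ((h a b).1 hab)), by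
      intro x
      obtain ⟨a, rfl⟩ := hf x
      exact ⟨⟦a⟧, rfl⟩⟩
  rw [← Nat.card_congr e]
  exact Subgroup.card_eq_card_quotient_mul_card_subgroup K

end Cfsg.Agent.Lib.StabMat
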