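import Cfsg.Agent.Lib.GolaySextet
import Cfsg.Agent.Lib.GolayOctadA8
import Cfsg.Agent.Lib.GolayFix
import Cfsg.Agent.Lib.GolayOrbOct

/-!
Subgroups of `M24` of small index (helper83), part A: orbits, fixed points, Sylow arguments
-/

set_option autoImplicit false

namespace Cfsg.Agent.Lib.SubIdxA

open Cfsg Cfsg.Agent.Lib.Golay
open Cfsg.Agent.Lib.GolayFix (Fix)
open scoped Pointwise

abbrev Pm := Equiv.Perm GolayPt

/-- orbit of a point -/
noncomputable def orb (H : Subgroup Pm) (x : GolayPt) : Finset GolayPt :=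
  @Finset.filter _ (fun y => ∃ h ∈ H, h x = y) (Classical.decPred _) Finset.univ

theorem mem_orb {H : Subgroup Pm} {x y : GolayPt} : y ∈ orb H x ↔ ∃ h ∈ H, h x = y := by
  exact (@Finset.mem_filter _ _ (Classical.decPred _) _ _).trans
    ⟨fun h => h.2, fun h => ⟨Finset.mem_univ _, h⟩⟩

theorem self_mem_orb (H : Subgroup Pm) (x : GolayPt) : x ∈ orb H x := mem_orb.2 ⟨1, H.one_mem, rfl⟩

theorem orb_inv {H : Subgroup Pm} {x : GolayPt} {h : Pm} (hh : h ∈ H) : h • orb H x = orb H x := by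
  apply smul_eq_of_mem_iff
  intro y
  rw [mem_orb, mem_orb]
  constructor
  · rintro ⟨k, hk, hy⟩
    refine ⟨h⁻¹ * k, H.mul_mem (H.inv_mem hh) hk, ?_⟩
    rw [Equiv.Perm.mul_apply, hy, perm_inv_apply]
  · rintro ⟨k, hk, hy⟩
    refine ⟨h * k, H.mul_mem hh hk, ?_⟩
    rw [Equiv.Perm.mul_apply, hy]

/-- point stabiliser in `H` -/
abbrev st (H : Subgroup Pm) (x : GolayPt) : Subgroup Pm := H ⊓ MulAction.stabilizer Pm x

theorem mem_st {H : Subgroup Pm} {x : GolayPt} {g : Pm} : g ∈ st H x ↔ g ∈ H ∧ g x = x := Iff.rfl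

theorem card_orb (H : Subgroup Pm) (x : GolayPt) : Nat.card H = (orb H x).card * Nat.card (st H x) := by
  have h := card_eq_mul_inf_stabilizer H x (orb H x : Set GolayPt)
    (fun g hg => Finset.mem_coe.2 (mem_orb.2 ⟨g, hg, rfl⟩))
    (fun y hy => mem_orb.1 (Finset.mem_coe.1 hy))
  rwa [Set.ncard_coe_finset] at h

theorem card_st_M24 (x : GolayPt) : Nat.card (st M24 x) = 10200960 := by
  have h := card_orb M24 x
  have h1 : orb M24 x = Finset.univ := by
    apply Finset.eq_univ_of_forall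
    intro y
    obtain ⟨g, hg, h2⟩ := exists_emb_of_le (n := 1) (by norm_num) ⟨fun _ => x, fun _ _ _ => Subsingleton.elim _ _⟩
        ⟨fun _ => y, fun _ _ _ => Subsingleton.elim _ _⟩
    exact mem_orb.2 ⟨g, hg, h2 0⟩
  rw [h1, Finset.card_univ, card_pt, natCard_M24] at h
  omega

theorem card_st_dvd {H : Subgroup Pm} (hH : H ≤ M24) (x : GolayPt) : Nat.card (st H x) ∣ 10200960 := by
  rw [← card_st_M24 x]
  exact Subgroup.card_dvd_of_le (inf_le_inf_right _ hH)

/-- elements of prime order at least five fix at most four points -/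
theorem fix_card {g : Pm} (hg : g ∈ M24) {p : ℕ} [hp : Fact p.Prime] (h5 : 5 ≤ p) (hgp : g ^ p = 1) (h1 : g ≠ 1) :
    (Fix g).card ≤ 4 := by
  by_contra h
  push Not at h
  obtain ⟨s, hs, hs5⟩ := Finset.exists_subset_card_eq (show 5 ≤ (Fix g).card from h)
  obtain ⟨o, ho, hso⟩ := exists_octad_of_five hs5
  have hgo : g • o = o := by
    apply GolayFix.smul_eq_of_five hg ho (T := s) (le_of_eq hs5.symm) hso
    intro x hx
    rw [← GolayFix.mem_Fix.1 (hs hx)]
    exact (GolayFix.mem_smul_iff g o x).2 (hso hx)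
  have hm := GolayFix.card_modEq hgp o (fun x hx => (mem_iff_of_smul_eq hgo x).2 hx)
  have h3 : 5 ≤ (o ∩ Fix g).card := by
    rw [← hs5]; exact Finset.card_le_card (Finset.subset_inter hso hs)
  have h4 : (o ∩ Fix g).card ≤ o.card := Finset.card_le_card Finset.inter_subset_left
  have ho8 : o.card = 8 := ho.2
  have h5' : (o ∩ Fix g).card = o.card := by
    have h6 : p ∣ o.card - (o ∩ Fix g).card := (Nat.modEq_iff_dvd' h4).1 hm.symm
    rcases Nat.eq_zero_or_pos (o.card - (o ∩ Fix g).card) with h7 | h7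
    · omega
    · have := Nat.le_of_dvd h7 h6
      omega
  have h6 : o ∩ Fix g = o := Finset.eq_of_subset_of_card_le Finset.inter_subset_left (le_of_eq h5'.symm)
  have h7 : g ∈ OctPt o := mem_OctPt.2 ⟨hg, fun q hq => GolayFix.mem_Fix.1 (Finset.mem_inter.1 (h6 ▸ hq)).2⟩
  have h8 := OctPt_sq ho h7
  apply h1
  have h9 : orderOf g ∣ 2 := orderOf_dvd_of_pow_eq_one (by rw [pow_two]; exact h8)
  have h10 : orderOf g ∣ p := orderOf_dvd_of_pow_eq_one hgp
  have h11 : Nat.Coprime 2 p := by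
    rw [Nat.coprime_primes Nat.prime_two hp.out]; omega
  have h12 : orderOf g = 1 := Nat.dvd_one.1 (h11 ▸ Nat.dvd_gcd h9 h10)
  exact orderOf_eq_one_iff.1 h12

theorem fix_card_eq {g : Pm} (hg : g ∈ M24) {p : ℕ} [hp : Fact p.Prime] (h5 : 5 ≤ p) (hgp : g ^ p = 1) (h1 : g ≠ 1) :
    (Fix g).card = 24 % p := by
  have h2 := fix_card hg h5 hgp h1
  have h3 : 24 % p = (Fix g).card % p := GolayFix.univ_card_modEq hgp
  rw [h3, Nat.mod_eq_of_lt (by omega)]

theorem exists_elt {H : Subgroup Pm} (hH : H ≤ M24) {p : ℕ} [hp : Fact p.Prime] (h5 : 5 ≤ p) (hd : p ∣ Nat.card H) :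
    ∃ g ∈ H, g ^ p = 1 ∧ g ≠ 1 ∧ (Fix g).card = 24 % p := by
  obtain ⟨g, hg⟩ := exists_prime_orderOf_dvd_card' (G := H) p hd
  have h1 : (g : Pm) ^ p = 1 := by
    have : g ^ p = 1 := by rw [← hg]; exact pow_orderOf_eq_one g
    exact congrArg Subtype.val this
  have h2 : (g : Pm) ≠ 1 := by
    intro h
    have : g = 1 := Subtype.ext h
    rw [this, orderOf_one] at hg
    exact hp.out.one_lt.ne hg
  exact ⟨g, g.2, h1, h2, fix_card_eq (hH g.2) h5 h1 h2⟩

theorem residue {H : Subgroup Pm} (hH : H ≤ M24) {p : ℕ} [hp : Fact p.Prime] (h5 : 5 ≤ p) (hd : p ∣ Nat.card H)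
    (O F : Finset GolayPt) (hO : ∀ h ∈ H, h • O = O) (hF : ∀ h ∈ H, ∀ x ∈ F, h x = x) (hd' : Disjoint O F) :
    O.card % p + F.card ≤ 24 % p := by
  obtain ⟨g, hg, hgp, hg1, hfix⟩ := exists_elt hH h5 hd
  rw [← hfix]
  have h1 : O.card % p = (O ∩ Fix g).card % p :=
    GolayFix.card_modEq hgp O (fun x hx => (mem_iff_of_smul_eq (hO g hg) x).2 hx)
  have h2 : (O ∩ Fix g).card + F.card ≤ (Fix g).card := by
    rw [← Finset.card_union_of_disjoint (hd'.mono_left Finset.inter_subset_left)]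
    apply Finset.card_le_card
    intro x hx
    rcases Finset.mem_union.1 hx with h | h
    · exact (Finset.mem_inter.1 h).2
    · exact GolayFix.mem_Fix.2 (hF g hg x h)
  have h3 := Nat.mod_le (O ∩ Fix g).card p
  omega

/-- a 2-subgroup is conjugate into a subgroup of odd index -/
theorem exists_conj_le {G : Type*} [Group G] [Finite G] (K H P : Subgroup G) (_hH : H ≤ K) (hP : P ≤ K)
    (hPp : IsPGroup 2 P) (hodd : ¬ 2 ∣ H.relIndex K) : ∃ g ∈ K, ∀ p ∈ P, g⁻¹ * p * g ∈ H := by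
  have : Fact (Nat.Prime 2) := ⟨Nat.prime_two⟩
  have hP' : IsPGroup 2 (P.subgroupOf K) := hPp.of_equiv (Subgroup.subgroupOfEquivOfLe hP).symm
  have hc : Nat.card (K ⧸ H.subgroupOf K) = H.relIndex K := rfl
  obtain ⟨q, hq⟩ := hP'.nonempty_fixed_point_of_prime_not_dvd_card (K ⧸ H.subgroupOf K) (by rw [hc]; exact hodd)
  obtain ⟨g, rfl⟩ := QuotientGroup.mk_surjective q
  refine ⟨g, g.2, ?_⟩
  intro p hp
  have h1 := hq ⟨⟨p, hP hp⟩, hp⟩
  have h2 : (((⟨p, hP hp⟩ : K) * g : K) : K ⧸ H.subgroupOf K) = (g : K ⧸ H.subgroupOf K) := h1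
  have h3 := QuotientGroup.eq.1 h2.symm
  rw [Subgroup.mem_subgroupOf] at h3
  have h4 : (((g⁻¹ * (⟨p, hP hp⟩ * g) : K)) : G) = (g : G)⁻¹ * p * g := by
    push_cast
    rw [mul_assoc]
  rw [← h4]; exact h3

theorem isPGroup_OctPt {o : Finset GolayPt} (ho : o ∈ octads) : IsPGroup 2 (OctPt o) :=
  IsPGroup.of_card (n := 4) (by rw [card_OctPt ho]; norm_num)

theorem OctPt_smul_le {K H : Subgroup Pm} (hK : K ≤ M24) {o : Finset GolayPt} (ho : o ∈ octads) (hP : OctPt o ≤ K)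
    (hH : H ≤ K) (hodd : ¬ 2 ∣ H.relIndex K) : ∃ g ∈ K, g • o ∈ octads ∧ OctPt (g • o) ≤ H := by
  obtain ⟨g, hg, hgp⟩ := exists_conj_le K H (OctPt o) hH hP (isPGroup_OctPt ho) hodd
  refine ⟨g⁻¹, K.inv_mem hg, (smul_mem_octads (M24.inv_mem (hK hg))).2 ho, ?_⟩
  intro h hh
  rw [OctPt_conj (M24.inv_mem (hK hg)), inv_inv] at hh
  have := hgp _ hh
  have e : g⁻¹ * (g * h * g⁻¹) * g = h := by group
  rwa [e] at this

theorem compl_subset_orb {H : Subgroup Pm} {o : Finset GolayPt} (ho : o ∈ octads) (hE : OctPt o ≤ H) {z : GolayPt}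
    (hz : z ∉ o) : oᶜ ⊆ orb H z := by
  intro y hy
  obtain ⟨g, hg, h⟩ := OctPt_transitive ho hz (Finset.mem_compl.1 hy)
  exact mem_orb.2 ⟨g, hE hg, h⟩

theorem exists_notMem {o : Finset GolayPt} (ho : o ∈ octads) : ∃ z, z ∉ o := by
  by_contra h
  push Not at h
  have : o = Finset.univ := Finset.eq_univ_of_forall h
  have h8 : o.card = 8 := ho.2
  rw [this, Finset.card_univ, card_pt] at h8
  omega

theorem card_compl_oct {o : Finset GolayPt} (ho : o ∈ octads) : oᶜ.card = 16 := by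
  rw [Finset.card_compl, card_pt]
  have h8 : o.card = 8 := ho.2
  omega

/-- an invariant set of an octad group is large -/
theorem inv_large {o : Finset GolayPt} (ho : o ∈ octads) (S : Finset GolayPt) (hS : ∀ k ∈ OctPt o, k • S = S)
    {z : GolayPt} (hz : z ∉ o) (hzS : z ∈ S) : oᶜ ⊆ S := by
  intro y hy
  obtain ⟨g, hg, h⟩ := OctPt_transitive ho hz (Finset.mem_compl.1 hy)
  rw [← h]
  exact (mem_iff_of_smul_eq (hS g hg) z).2 hzS

end Cfsg.Agent.Lib.SubIdxA
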