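import Cfsg.Agent.Lib.SubIdxA

/-!
Subgroups of `M24` of small index (helper83), part B: blocks
-/

set_option autoImplicit false

namespace Cfsg.Agent.Lib.SubIdxB

open Cfsg Cfsg.Agent.Lib.Golay Cfsg.Agent.Lib.SubIdxA
open Cfsg.Agent.Lib.GolayFix (Fix)
open scoped Pointwise

/-- block criterion -/
theorem block {H K : Subgroup Pm} {x0 : GolayPt} {B : Finset GolayPt} (hx0 : x0 ∈ B)
    (hB : ∀ h ∈ H, h x0 = x0 → h • B = B) (hK : K ≤ H) (hKB : ∀ k ∈ K, ∀ y ∈ B, k y = y)
    (hbig : ∀ S : Finset GolayPt, ∀ z, z ∉ B → z ∈ S → (∀ k ∈ K, k • S = S) → B.card ≤ S.card) :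
    ∀ h ∈ H, h x0 ∈ B → h • B = B := by
  intro h hh hx
  apply Finset.eq_of_subset_of_card_le
  · intro z hz
    by_contra hzB
    have h1 : z ≠ h x0 := fun e => hzB (e ▸ hx)
    have h2 := hbig ((h • B).erase (h x0)) z hzB (Finset.mem_erase.2 ⟨h1, hz⟩) ?_
    · rw [Finset.card_erase_of_mem ((smul_mem_smul h B x0).2 hx0), card_smul'] at h2
      have : 0 < B.card := Finset.card_pos.2 ⟨x0, hx0⟩
      omega
    · intro k hk
      have hkx : k (h x0) = h x0 := hKB k hk _ hx
      have h3 : (h⁻¹ * k * h) • B = B := by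
        apply hB _ (H.mul_mem (H.mul_mem (H.inv_mem hh) (hK hk)) hh)
        rw [Equiv.Perm.mul_apply, Equiv.Perm.mul_apply, hkx, perm_inv_apply]
      have h4 : k • h • B = h • B := by
        have e : k * h = h * (h⁻¹ * k * h) := by group
        rw [smul_smul, e, mul_smul, h3]
      apply smul_eq_of_mem_iff
      intro y
      rw [Finset.mem_erase, Finset.mem_erase, mem_iff_of_smul_eq h4]
      constructor
      · rintro ⟨h5, h6⟩
        exact ⟨fun e => h5 (by rw [e, hkx]), h6⟩
      · rintro ⟨h5, h6⟩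
        exact ⟨fun e => h5 (k.injective (e.trans hkx.symm)), h6⟩
  · rw [card_smul']

/-- block property -/
theorem block' {H : Subgroup Pm} {x0 : GolayPt} {B : Finset GolayPt}
    (htr : ∀ y, ∃ h ∈ H, h x0 = y) (hbl : ∀ h ∈ H, h x0 ∈ B → h • B = B) :
    ∀ h ∈ H, ∀ y, y ∈ B → y ∈ h • B → h • B = B := by
  intro h hh y hy hy'
  rw [mem_smul_iff] at hy'
  obtain ⟨u, hu, rfl⟩ := hy'
  obtain ⟨k, hk, hku⟩ := htr u
  have h1 : k • B = B := hbl k hk (by rw [hku]; exact hu)
  have h2 : (h * k) • B = B := hbl (h * k) (H.mul_mem hh hk) (by rw [Equiv.Perm.mul_apply, hku]; exact hy)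
  rw [mul_smul, h1] at h2
  exact h2

theorem block'' {H : Subgroup Pm} {B : Finset GolayPt}
    (hbl : ∀ h ∈ H, ∀ y, y ∈ B → y ∈ h • B → h • B = B) :
    ∀ h ∈ H, ∀ k ∈ H, ∀ y, y ∈ k • B → y ∈ h • B → h • B = k • B := by
  intro h hh k hk y hy hy'
  have h1 := hbl (k⁻¹ * h) (H.mul_mem (H.inv_mem hk) hh) (k⁻¹ y)
    (by rw [← smul_mem_smul k, perm_apply_inv]; exact hy)
    (by rw [mul_smul]; exact (smul_mem_smul k⁻¹ (h • B) y).2 hy')
  rw [mul_smul] at h1
  have h2 : k • k⁻¹ • h • B = k • B := by rw [h1]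
  rwa [smul_inv_smul] at h2

/-- elements of order five exclude blocks of three or eight points -/
theorem no_blocks {H : Subgroup Pm} (hH : H ≤ M24) {x0 : GolayPt} {B : Finset GolayPt} (hx0 : x0 ∈ B)
    (hB : ∀ h ∈ H, h x0 = x0 → h • B = B) (htr : ∀ y, ∃ h ∈ H, h x0 = y)
    (hbl : ∀ h ∈ H, h x0 ∈ B → h • B = B) (h5 : 5 ∣ Nat.card H) (hc : B.card % 5 = 3) : False := by
  have : Fact (Nat.Prime 5) := ⟨by norm_num⟩
  obtain ⟨g, hg, hg5, hg1, hfix⟩ := exists_elt hH (p := 5) (by norm_num) h5
  have key : ∀ h ∈ H, g (h x0) = h x0 → (h • B ∩ Fix g).card = 3 := by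
    intro h hh hgx
    have h3 : (h⁻¹ * g * h) • B = B := by
      apply hB _ (H.mul_mem (H.mul_mem (H.inv_mem hh) hg) hh)
      rw [Equiv.Perm.mul_apply, Equiv.Perm.mul_apply, hgx, perm_inv_apply]
    have h4 : g • h • B = h • B := by
      have e : g * h = h * (h⁻¹ * g * h) := by group
      rw [smul_smul, e, mul_smul, h3]
    have h6 : (h • B).card % 5 = (h • B ∩ Fix g).card % 5 :=
      GolayFix.card_modEq hg5 (h • B) (fun x hx => (mem_iff_of_smul_eq h4 x).2 hx)
    have h7 : (h • B ∩ Fix g).card ≤ (Fix g).card := Finset.card_le_card Finset.inter_subset_right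
    rw [card_smul'] at h6
    omega
  have hpos : 0 < (Fix g).card := by rw [hfix]; norm_num
  obtain ⟨y1, hy1⟩ := Finset.card_pos.1 hpos
  obtain ⟨h1, hh1, rfl⟩ := htr y1
  have k1 := key h1 hh1 (GolayFix.mem_Fix.1 hy1)
  have h8 : ∃ y ∈ Fix g, y ∉ h1 • B := by
    by_contra hcon
    push Not at hcon
    have : h1 • B ∩ Fix g = Fix g := Finset.inter_eq_right.2 hcon
    rw [this, hfix] at k1
    norm_num at k1
  obtain ⟨y2, hy2, hy2B⟩ := h8
  obtain ⟨h2, hh2, rfl⟩ := htr y2
  have k2 := key h2 hh2 (GolayFix.mem_Fix.1 hy2)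
  have hdisj : Disjoint (h1 • B ∩ Fix g) (h2 • B ∩ Fix g) := by
    rw [Finset.disjoint_left]
    intro z hz1 hz2
    have h9 := block'' (block' htr hbl) h1 hh1 h2 hh2 z (Finset.mem_inter.1 hz2).1 (Finset.mem_inter.1 hz1).1
    exact hy2B (h9 ▸ (smul_mem_smul h2 B x0).2 hx0)
  have h10 : (h1 • B ∩ Fix g ∪ h2 • B ∩ Fix g).card ≤ (Fix g).card :=
    Finset.card_le_card (Finset.union_subset Finset.inter_subset_right Finset.inter_subset_right)
  rw [Finset.card_union_of_disjoint hdisj, k1, k2, hfix] at h10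
  norm_num at h10

/-- no transitive subgroups with the given divisibility conditions -/
theorem no_trans {H : Subgroup Pm} (hH : H ≤ M24) {o : Finset GolayPt} (ho : o ∈ octads) (hE : OctPt o ≤ H)
    (htr : ∀ x y, ∃ h ∈ H, h x = y) (m : ℕ) (hcard : Nat.card H = 24 * m) (h5 : 5 ∣ m) (h7 : 7 ∣ m)
    (h11 : ¬ 11 ∣ m) (h23 : ¬ 23 ∣ m) : False := by
  have : Fact (Nat.Prime 5) := ⟨by norm_num⟩
  have : Fact (Nat.Prime 7) := ⟨by norm_num⟩
  obtain ⟨z0, hz0⟩ := exists_notMem ho
  have ho8 : o.card = 8 := ho.2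
  obtain ⟨x, hx⟩ : o.Nonempty := Finset.card_pos.1 (by omega)
  have hst : Nat.card (st H x) = m := by
    have h := card_orb H x
    have h1 : orb H x = Finset.univ := by
      apply Finset.eq_univ_of_forall
      intro y
      exact mem_orb.2 (htr x y)
    rw [h1, Finset.card_univ, card_pt, hcard] at h
    omega
  have hEx : OctPt o ≤ st H x := fun g hg => ⟨hE hg, (mem_OctPt.1 hg).2 x hx⟩
  have hsub := compl_subset_orb ho hEx hz0
  have hxO : x ∉ orb (st H x) z0 := by
    intro h
    obtain ⟨k, hk, hkz⟩ := mem_orb.1 h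
    have : k z0 = k x := hkz.trans hk.2.symm
    exact hz0 ((k.injective this) ▸ hx)
  have hcO := card_orb (st H x) z0
  rw [hst] at hcO
  have hge : 16 ≤ (orb (st H x) z0).card := by
    rw [← card_compl_oct ho]; exact Finset.card_le_card hsub
  have hle : (orb (st H x) z0).card ≤ 23 := by
    have h1 : (orb (st H x) z0).card < (Finset.univ : Finset GolayPt).card :=
      Finset.card_lt_card (Finset.ssubset_univ_iff.2 (fun e => hxO (e ▸ Finset.mem_univ _)))
    rw [Finset.card_univ, card_pt] at h1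
    omega
  have hr7 := residue (H := st H x) (inf_le_left.trans hH) (p := 7) (by norm_num) (by rw [hst]; exact h7)
    (orb (st H x) z0) {x} (fun h hh => orb_inv hh) (fun h hh y hy => by
      rw [Finset.mem_singleton] at hy; subst hy; exact hh.2) (Finset.disjoint_singleton_right.2 hxO)
  rw [Finset.card_singleton] at hr7
  have hcases : (orb (st H x) z0).card = 16 ∨ (orb (st H x) z0).card = 21 := by
    have h22 : (orb (st H x) z0).card ≠ 22 := by
      intro e; apply h11; rw [hcO, e]; exact Dvd.dvd.mul_right (by norm_num) _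
    have h23' : (orb (st H x) z0).card ≠ 23 := by
      intro e; apply h23; rw [hcO, e]; exact Dvd.dvd.mul_right (by norm_num) _
    omega
  have h5H : 5 ∣ Nat.card H := by rw [hcard]; exact Dvd.dvd.mul_left h5 _
  rcases hcases with hn | hn
  · -- blocks of eight points
    have hO : oᶜ = orb (st H x) z0 := Finset.eq_of_subset_of_card_le hsub (by rw [hn, card_compl_oct ho])
    have hBo : ∀ h ∈ H, h x = x → h • o = o := by
      intro h hh hhx
      have h1 : h • oᶜ = oᶜ := by rw [hO]; exact orb_inv ⟨hh, hhx⟩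
      apply smul_eq_of_mem_iff
      intro y
      have := mem_iff_of_smul_eq h1 y
      rw [Finset.mem_compl, Finset.mem_compl] at this
      exact not_iff_not.1 this
    apply no_blocks hH hx hBo (htr x) (block (K := OctPt o) hx hBo hE (fun k hk y hy => (mem_OctPt.1 hk).2 y hy) ?_) h5H
      (by rw [ho8])
    intro S z hz hzS hS
    have := Finset.card_le_card (inv_large ho S hS hz hzS)
    rw [card_compl_oct ho] at this
    omega
  · -- blocks of three points
    have hBc : ((orb (st H x) z0)ᶜ).card = 3 := by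
      rw [Finset.card_compl, card_pt, hn]
    have hxB : x ∈ (orb (st H x) z0)ᶜ := Finset.mem_compl.2 hxO
    have hBinv : ∀ h ∈ H, h x = x → h • (orb (st H x) z0)ᶜ = (orb (st H x) z0)ᶜ := by
      intro h hh hhx
      have h1 : h • (orb (st H x) z0) = orb (st H x) z0 := orb_inv ⟨hh, hhx⟩
      apply smul_eq_of_mem_iff
      intro y
      have := mem_iff_of_smul_eq h1 y
      rw [Finset.mem_compl, Finset.mem_compl]
      exact not_iff_not.2 this
    obtain ⟨b, c, hbc, hbc'⟩ := Finset.card_eq_two.1 (show ((orb (st H x) z0)ᶜ.erase x).card = 2 by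
      rw [Finset.card_erase_of_mem hxB, hBc])
    have hbm : b ∈ (orb (st H x) z0)ᶜ.erase x := by rw [hbc']; simp
    have hcm : c ∈ (orb (st H x) z0)ᶜ.erase x := by rw [hbc']; simp
    have hmemB : ∀ y, y ∈ (orb (st H x) z0)ᶜ → y = x ∨ y = b ∨ y = c := by
      intro y hy
      by_cases hyx : y = x
      · exact Or.inl hyx
      · have : y ∈ (orb (st H x) z0)ᶜ.erase x := Finset.mem_erase.2 ⟨hyx, hy⟩
        rw [hbc'] at this
        simp only [Finset.mem_insert, Finset.mem_singleton] at this
        exact Or.inr this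
    -- the group fixing `x` and `b`
    have hK : ∀ k ∈ st (st H x) b, ∀ y ∈ (orb (st H x) z0)ᶜ, k y = y := by
      intro k hk y hy
      rcases hmemB y hy with rfl | rfl | rfl
      · exact hk.1.2
      · exact hk.2
      · have h1 : k y ∈ (orb (st H x) z0)ᶜ := (mem_iff_of_smul_eq (hBinv k hk.1.1 hk.1.2) y).2 hy
        rcases hmemB _ h1 with h2 | h2 | h2
        · exfalso
          have h3 : k y = k x := h2.trans (show k x = x from hk.1.2).symm
          exact (Finset.mem_erase.1 hcm).1 (k.injective h3)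
        · exfalso
          have h3 : k y = k b := h2.trans (show k b = b from hk.2).symm
          exact hbc (k.injective h3).symm
        · exact h2
    have hKcard : m ≤ 2 * Nat.card (st (st H x) b) := by
      have h1 := card_orb (st H x) b
      rw [hst] at h1
      have h2 : (orb (st H x) b).card ≤ 2 := by
        have h3 : ((orb (st H x) z0)ᶜ.erase x).card = 2 := by rw [Finset.card_erase_of_mem hxB, hBc]
        rw [← h3]
        apply Finset.card_le_card
        intro y hy
        obtain ⟨k, hk, rfl⟩ := mem_orb.1 hy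
        rw [Finset.mem_erase]
        constructor
        · intro e
          have h4 : k b = k x := e.trans (show k x = x from hk.2).symm
          exact (Finset.mem_erase.1 hbm).1 (k.injective h4)
        · exact (mem_iff_of_smul_eq (hBinv k hk.1 hk.2) b).2 (Finset.mem_erase.1 hbm).2
      rw [h1]
      exact Nat.mul_le_mul_right _ h2
    apply no_blocks hH hxB hBinv (htr x) (block (K := st (st H x) b) hxB hBinv (inf_le_left.trans inf_le_left) hK ?_) h5H
      (by rw [hBc])
    intro S z hz hzS hS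
    rw [hBc]
    have hzO : z ∈ orb (st H x) z0 := by
      by_contra h; exact hz (Finset.mem_compl.2 h)
    -- the orbit of `z` under the small group
    have h1 := card_orb (st (st H x) b) z
    have h2 := card_orb (st H x) z
    have h3 : orb (st H x) z = orb (st H x) z0 := by
      obtain ⟨k, hk, rfl⟩ := mem_orb.1 hzO
      ext y
      rw [mem_orb, mem_orb]
      constructor
      · rintro ⟨l, hl, hl'⟩
        exact ⟨l * k, Subgroup.mul_mem _ hl hk, hl'⟩
      · rintro ⟨l, hl, hl'⟩
        refine ⟨l * k⁻¹, Subgroup.mul_mem _ hl (Subgroup.inv_mem _ hk), ?_⟩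
        rw [Equiv.Perm.mul_apply, perm_inv_apply, hl']
    rw [h3, hn, hst] at h2
    have h4 : Nat.card (st (st (st H x) b) z) ≤ Nat.card (st (st H x) z) :=
      Nat.card_mono (Set.toFinite _) (fun g hg => ⟨hg.1.1, hg.2⟩)
    have h5' : orb (st (st H x) b) z ⊆ S := by
      intro y hy
      obtain ⟨k, hk, rfl⟩ := mem_orb.1 hy
      exact (mem_iff_of_smul_eq (hS k hk) z).2 hzS
    have h6 := Finset.card_le_card h5'
    by_contra hlt
    push Not at hlt
    have h7' : (orb (st (st H x) b) z).card ≤ 2 := by omega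
    have h8 : Nat.card (st (st H x) b) ≤ 2 * Nat.card (st (st H x) z) := by
      rw [h1]; exact Nat.mul_le_mul h7' h4
    have h9 : 0 < Nat.card (st (st H x) z) := Nat.card_pos
    omega

end Cfsg.Agent.Lib.SubIdxB
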