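import Cfsg.Agent.Lib.SubIdxB

/-!
Subgroups of `M24` of small index (helper83), part C: the cases
-/

set_option autoImplicit false

namespace Cfsg.Agent.Lib.SubIdxC

open Cfsg Cfsg.Agent.Lib.Golay Cfsg.Agent.Lib.SubIdxA Cfsg.Agent.Lib.SubIdxB
open Cfsg.Agent.Lib.GolayFix (Fix)
open scoped Pointwise

theorem compl_inv {O : Finset GolayPt} {h : Pm} (hO : h • O = O) : h • Oᶜ = Oᶜ := by
  apply smul_eq_of_mem_iff
  intro y
  have := mem_iff_of_smul_eq hO y
  rw [Finset.mem_compl, Finset.mem_compl]
  exact not_iff_not.2 this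

theorem trans_of_univ {H : Subgroup Pm} {z : GolayPt} (h : orb H z = Finset.univ) : ∀ x y, ∃ h ∈ H, h x = y := by
  intro x y
  obtain ⟨a, ha, hax⟩ := mem_orb.1 (h ▸ Finset.mem_univ x : x ∈ orb H z)
  obtain ⟨b, hb, hby⟩ := mem_orb.1 (h ▸ Finset.mem_univ y : y ∈ orb H z)
  refine ⟨b * a⁻¹, H.mul_mem hb (H.inv_mem ha), ?_⟩
  rw [Equiv.Perm.mul_apply, ← hax, perm_inv_apply, hby]

theorem univ_of_card {S : Finset GolayPt} (h : S.card = 24) : S = Finset.univ := by
  apply Finset.eq_univ_of_card; rw [h, card_pt]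

theorem card_le {S : Finset GolayPt} : S.card ≤ 24 := by
  rw [← card_pt]; exact Finset.card_le_univ S

theorem relIndex_mul {H K : Subgroup Pm} (hHK : H ≤ K) : H.relIndex K * Nat.card H = Nat.card K := by
  have h1 := Subgroup.index_mul_card (H.subgroupOf K)
  rw [Nat.card_congr (Subgroup.subgroupOfEquivOfLe hHK).toEquiv] at h1
  exact h1

/-- an octad subgroup inside a subgroup of odd index of `M24` -/
theorem exists_oct {H : Subgroup Pm} (hH : H ≤ M24) (h10 : 1024 ∣ Nat.card H) : ∃ o ∈ octads, OctPt o ≤ H := by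
  have hodd : ¬ 2 ∣ H.relIndex M24 := by
    intro h
    have h1 := relIndex_mul hH
    rw [natCard_M24] at h1
    obtain ⟨a, ha⟩ := h
    obtain ⟨b, hb⟩ := h10
    rw [ha, hb] at h1
    have h2 : 2048 * (a * b) = 244823040 := by rw [← h1]; ring
    omega
  obtain ⟨g, hg, h1, h2⟩ := OctPt_smul_le le_rfl oct0_mem (inf_le_left : OctPt (mset 8536111) ≤ M24) hH hodd
  exact ⟨_, h1, h2⟩

/-- order 322560 -/
theorem case_759 {H : Subgroup Pm} (hH : H ≤ M24) (hc : Nat.card H = 322560) :
    ∃ o ∈ octads, ∀ h ∈ H, h • o = o := by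
  obtain ⟨o, ho, hE⟩ := exists_oct hH (by rw [hc]; norm_num)
  obtain ⟨z0, hz0⟩ := exists_notMem ho
  have hsub := compl_subset_orb ho hE hz0
  have h1 := card_orb H z0
  have hge : 16 ≤ (orb H z0).card := by rw [← card_compl_oct ho]; exact Finset.card_le_card hsub
  have hle : (orb H z0).card ≤ 24 := card_le
  have hs := card_st_dvd hH z0
  rw [hc] at h1
  have hcases : (orb H z0).card = 16 ∨ (orb H z0).card = 24 := by
    generalize (orb H z0).card = n at *
    generalize Nat.card (st H z0) = t at *
    have ht : t = 322560 / n := (Nat.div_eq_of_eq_mul_right (by omega) h1).symm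
    subst ht
    interval_cases n
    all_goals first | (left; rfl) | (right; rfl) | (exfalso; omega) | (exact absurd hs (by decide))
  rcases hcases with h | h
  · refine ⟨o, ho, ?_⟩
    have hO : oᶜ = orb H z0 := Finset.eq_of_subset_of_card_le hsub (by rw [h, card_compl_oct ho])
    intro k hk
    have h2 : k • oᶜ = oᶜ := by rw [hO]; exact orb_inv hk
    have := compl_inv h2
    rwa [compl_compl] at this
  · exfalso
    refine no_trans hH ho hE (trans_of_univ (univ_of_card h)) 13440 (by rw [hc]) ?_ ?_ ?_ ?_ <;> norm_num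

/-- order 967680 -/
theorem case_253 {H : Subgroup Pm} (hH : H ≤ M24) (hc : Nat.card H = 967680) : False := by
  obtain ⟨o, ho, hE⟩ := exists_oct hH (by rw [hc]; norm_num)
  obtain ⟨z0, hz0⟩ := exists_notMem ho
  have hsub := compl_subset_orb ho hE hz0
  have h1 := card_orb H z0
  have hge : 16 ≤ (orb H z0).card := by rw [← card_compl_oct ho]; exact Finset.card_le_card hsub
  have hle : (orb H z0).card ≤ 24 := card_le
  have hs := card_st_dvd hH z0
  rw [hc] at h1
  have h : (orb H z0).card = 24 := by
    generalize (orb H z0).card = n at *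
    generalize Nat.card (st H z0) = t at *
    have ht : t = 967680 / n := (Nat.div_eq_of_eq_mul_right (by omega) h1).symm
    subst ht
    interval_cases n
    all_goals first | rfl | (exfalso; omega) | (exact absurd hs (by decide))
  refine no_trans hH ho hE (trans_of_univ (univ_of_card h)) 40320 (by rw [hc]) ?_ ?_ ?_ ?_ <;> norm_num

/-- point stabilisers of `M24` -/
theorem card_fix2 {a b : GolayPt} (hab : a ≠ b) : Nat.card (st (st M24 a) b) = 443520 := by
  have h := card_eq_mul_inf_stabilizer (st M24 a) b {a}ᶜ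
    (fun g hg => by
      rw [Set.mem_compl_singleton_iff]
      intro h
      have h2 : g a = a := hg.2
      exact hab (g.injective (h2.trans (Eq.symm h))))
    (fun x hx => by
      obtain ⟨g, hg, h1, h2⟩ := exists_two hab (Ne.symm (Set.mem_compl_singleton_iff.mp hx))
      exact ⟨g, ⟨hg, h1⟩, h2⟩)
  rw [card_st_M24, Set.ncard_compl, Set.ncard_singleton, natCard_pt] at h
  have h' : Nat.card (st (st M24 a) b) = Nat.card ↥(st M24 a ⊓ MulAction.stabilizer Pm b) := rfl
  omega

theorem card_fix3 {a b c : GolayPt} (hab : a ≠ b) (hac : a ≠ c) (hbc : b ≠ c) :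
    Nat.card (st (st (st M24 a) b) c) = 20160 := by
  have h := card_eq_mul_inf_stabilizer (st (st M24 a) b) c {a, b}ᶜ
    (fun g hg => by
      intro h
      have h2 : g a = a := hg.1.2
      have h3 : g b = b := hg.2
      rcases h with h | h
      · exact hac (g.injective (h2.trans (Eq.symm h)))
      · exact hbc (g.injective (h3.trans (Eq.symm h))))
    (fun x hx => by
      have h1 : a ≠ x := fun e => hx (Or.inl e.symm)
      have h2 : b ≠ x := fun e => hx (Or.inr e.symm)
      obtain ⟨g, hg, e1, e2, e3⟩ := exists_three hab hac hbc hab h1 h2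
      exact ⟨g, ⟨⟨hg, e1⟩, e2⟩, e3⟩)
  rw [card_fix2 hab, Set.ncard_compl, Set.ncard_pair hab, natCard_pt] at h
  have h' : Nat.card (st (st (st M24 a) b) c) = Nat.card ↥(st (st M24 a) b ⊓ MulAction.stabilizer Pm c) := rfl
  omega

theorem card_fix4 {a b c d : GolayPt} (hab : a ≠ b) (hac : a ≠ c) (hbc : b ≠ c) (had : a ≠ d) (hbd : b ≠ d)
    (hcd : c ≠ d) : Nat.card (st (st (st (st M24 a) b) c) d) = 960 := by
  have h := card_eq_mul_inf_stabilizer (st (st (st M24 a) b) c) d {a, b, c}ᶜ
    (fun g hg => by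
      intro h
      have h2 : g a = a := hg.1.1.2
      have h3 : g b = b := hg.1.2
      have h4 : g c = c := hg.2
      rcases h with h | h | h
      · exact had (g.injective (h2.trans (Eq.symm h)))
      · exact hbd (g.injective (h3.trans (Eq.symm h)))
      · exact hcd (g.injective (h4.trans (Eq.symm h))))
    (fun x hx => by
      have h1 : a ≠ x := fun e => hx (Or.inl e.symm)
      have h2 : b ≠ x := fun e => hx (Or.inr (Or.inl e.symm))
      have h3 : c ≠ x := fun e => hx (Or.inr (Or.inr e.symm))
      obtain ⟨g, hg, e1, e2, e3, e4⟩ := exists_four hab hac hbc had hbd hcd hab hac hbc h1 h2 h3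
      exact ⟨g, ⟨⟨⟨hg, e1⟩, e2⟩, e3⟩, e4⟩)
  have h3 : ({a, b, c} : Set GolayPt).ncard = 3 := by
    have : ({a, b, c} : Set GolayPt) = (({a, b, c} : Finset GolayPt) : Set GolayPt) := by simp
    rw [this, Set.ncard_coe_finset]
    exact Finset.card_eq_three.2 ⟨a, b, c, hab, hac, hbc, rfl⟩
  rw [card_fix3 hab hac hbc, Set.ncard_compl, h3, natCard_pt] at h
  have h' : Nat.card (st (st (st (st M24 a) b) c) d) = Nat.card ↥(st (st (st M24 a) b) c ⊓ MulAction.stabilizer Pm d) := rfl
  omega

theorem card_le_fix4 {L : Subgroup Pm} (hL : L ≤ M24) {a b c d : GolayPt} (hab : a ≠ b) (hac : a ≠ c) (hbc : b ≠ c)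
    (had : a ≠ d) (hbd : b ≠ d) (hcd : c ≠ d) (h : ∀ g ∈ L, g a = a ∧ g b = b ∧ g c = c ∧ g d = d) : Nat.card L ≤ 960 := by
  rw [← card_fix4 hab hac hbc had hbd hcd]
  apply Nat.card_mono (Set.toFinite _)
  intro g hg
  obtain ⟨h1, h2, h3, h4⟩ := h g hg
  exact ⟨⟨⟨⟨hL hg, h1⟩, h2⟩, h3⟩, h4⟩

/-- transitive groups: the stabilisers have equal orders -/
theorem card_st_eq {H : Subgroup Pm} (htr : ∀ x y, ∃ h ∈ H, h x = y) {m : ℕ} (hc : Nat.card H = 24 * m) (x : GolayPt) :
    Nat.card (st H x) = m := by
  have h := card_orb H x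
  have h1 : orb H x = Finset.univ := by
    apply Finset.eq_univ_of_forall
    intro y
    exact mem_orb.2 (htr x y)
  rw [h1, Finset.card_univ, card_pt, hc] at h
  omega

theorem st_eq_of_fix {H : Subgroup Pm} (htr : ∀ x y, ∃ h ∈ H, h x = y) {m : ℕ} (hc : Nat.card H = 24 * m) {x y : GolayPt}
    (h : ∀ g ∈ st H x, g y = y) : st H x = st H y := by
  apply Subgroup.eq_of_le_of_card_ge
  · intro g hg; exact ⟨hg.1, h g hg⟩
  · rw [card_st_eq htr hc, card_st_eq htr hc]

/-- order 887040 -/
theorem case_276 {H : Subgroup Pm} (hH : H ≤ M24) (hc : Nat.card H = 887040) :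
    ∃ s : Finset GolayPt, s.card = 2 ∧ ∀ h ∈ H, h • s = s := by
  have : Fact (Nat.Prime 5) := ⟨by norm_num⟩
  have : Fact (Nat.Prime 7) := ⟨by norm_num⟩
  have : Fact (Nat.Prime 11) := ⟨by norm_num⟩
  obtain ⟨g, hg, hg11, hg1, hfix⟩ := exists_elt hH (p := 11) (by norm_num) (by rw [hc]; norm_num)
  have hF2 : (Fix g).card = 2 := by rw [hfix]
  obtain ⟨a, ha⟩ : (Fix g).Nonempty := Finset.card_pos.1 (by omega)
  obtain ⟨z, hz⟩ : ∃ z, z ∉ Fix g := by
    by_contra h
    push Not at h
    have := Finset.eq_univ_of_forall h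
    rw [this, Finset.card_univ, card_pt] at hF2
    omega
  -- any orbit of `z` under a group containing `g` is large
  have hbig : ∀ L : Subgroup Pm, g ∈ L → 11 ≤ (orb L z).card ∧ (orb L z).card % 11 = (orb L z ∩ Fix g).card % 11 := by
    intro L hL
    have h1 : (orb L z).card % 11 = (orb L z ∩ Fix g).card % 11 :=
      GolayFix.card_modEq hg11 (orb L z) (fun x hx => (mem_iff_of_smul_eq (orb_inv hL) x).2 hx)
    refine ⟨?_, h1⟩
    by_contra hlt
    push Not at hlt
    have h2 : (orb L z ∩ Fix g).card ≤ 2 := by rw [← hF2]; exact Finset.card_le_card Finset.inter_subset_right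
    rw [Nat.mod_eq_of_lt hlt, Nat.mod_eq_of_lt (by omega)] at h1
    have h3 : orb L z ∩ Fix g = orb L z := Finset.eq_of_subset_of_card_le Finset.inter_subset_left (le_of_eq h1)
    exact hz (Finset.mem_inter.1 (h3.symm ▸ self_mem_orb L z : z ∈ orb L z ∩ Fix g)).2
  obtain ⟨hge, hr11⟩ := hbig H hg
  have h1 := card_orb H z
  rw [hc] at h1
  have hle : (orb H z).card ≤ 24 := card_le
  have hr7 := residue hH (p := 7) (by norm_num) (by rw [hc]; norm_num) (orb H z) ∅ (fun h hh => orb_inv hh)
    (fun h hh y hy => absurd hy (Finset.notMem_empty _)) (Finset.disjoint_empty_right _)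
  rw [Finset.card_empty] at hr7
  have hI : (orb H z ∩ Fix g).card ≤ 2 := by rw [← hF2]; exact Finset.card_le_card Finset.inter_subset_right
  have hcases : (orb H z).card = 22 ∨ (orb H z).card = 24 := by
    generalize (orb H z ∩ Fix g).card = i at *
    generalize (orb H z).card = n at *
    generalize Nat.card (st H z) = t at *
    interval_cases n
    all_goals first | (left; rfl) | (right; rfl) | (exfalso; omega)
  rcases hcases with h | h
  · refine ⟨(orb H z)ᶜ, ?_, fun k hk => compl_inv (orb_inv hk)⟩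
    rw [Finset.card_compl, card_pt, h]
  · exfalso
    have htr := trans_of_univ (univ_of_card h)
    have hc' : Nat.card H = 24 * 36960 := by rw [hc]
    have hst := card_st_eq htr hc'
    have hga : g ∈ st H a := ⟨hg, GolayFix.mem_Fix.1 ha⟩
    obtain ⟨hge', hr11'⟩ := hbig (st H a) hga
    have haO : a ∉ orb (st H a) z := by
      intro h'
      obtain ⟨k, hk, hkz⟩ := mem_orb.1 h'
      have : k z = k a := hkz.trans hk.2.symm
      exact hz ((k.injective this) ▸ ha)
    have hI' : (orb (st H a) z ∩ Fix g).card ≤ 1 := by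
      have h2 : orb (st H a) z ∩ Fix g ⊆ (Fix g).erase a := by
        intro y hy
        rw [Finset.mem_erase]
        exact ⟨fun e => haO (e ▸ (Finset.mem_inter.1 hy).1), (Finset.mem_inter.1 hy).2⟩
      have h3 := Finset.card_le_card h2
      rw [Finset.card_erase_of_mem ha, hF2] at h3
      exact h3
    have hr7' := residue (H := st H a) (inf_le_left.trans hH) (p := 7) (by norm_num) (by rw [hst]; norm_num)
      (orb (st H a) z) {a} (fun h hh => orb_inv hh) (fun h hh y hy => by
        rw [Finset.mem_singleton] at hy; subst hy; exact hh.2) (Finset.disjoint_singleton_right.2 haO)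
    rw [Finset.card_singleton] at hr7'
    have h2 := card_orb (st H a) z
    rw [hst] at h2
    have hle' : (orb (st H a) z).card ≤ 24 := card_le
    have h22 : (orb (st H a) z).card = 22 := by
      generalize (orb (st H a) z ∩ Fix g).card = i at *
      generalize (orb (st H a) z).card = n at *
      generalize Nat.card (st (st H a) z) = t at *
      interval_cases n
      all_goals first | rfl | (exfalso; omega)
    have hcomp : ((orb (st H a) z)ᶜ.erase a).card = 1 := by
      rw [Finset.card_erase_of_mem (Finset.mem_compl.2 haO), Finset.card_compl, card_pt, h22]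
    obtain ⟨b, hb⟩ := Finset.card_eq_one.1 hcomp
    have hbm : b ∈ (orb (st H a) z)ᶜ.erase a := by rw [hb]; exact Finset.mem_singleton_self b
    have hba : b ≠ a := (Finset.mem_erase.1 hbm).1
    have hfixb : ∀ k ∈ st H a, k b = b := by
      intro k hk
      have h3 : k b ∈ (orb (st H a) z)ᶜ.erase a := by
        rw [Finset.mem_erase]
        refine ⟨?_, (mem_iff_of_smul_eq (compl_inv (orb_inv hk)) b).2 (Finset.mem_erase.1 hbm).2⟩
        intro e
        exact hba (k.injective (e.trans (show k a = a from hk.2).symm))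
      rw [hb] at h3
      exact Finset.mem_singleton.1 h3
    have hab : st H a = st H b := st_eq_of_fix htr hc' hfixb
    -- the partner of `z`
    obtain ⟨k, hk, hkz⟩ := htr a z
    have hz' : ∀ l ∈ st H z, l (k b) = k b := by
      intro l hl
      have h3 : k⁻¹ * l * k ∈ st H a := by
        refine ⟨H.mul_mem (H.mul_mem (H.inv_mem hk) hl.1) hk, ?_⟩
        show (k⁻¹ * l * k) a = a
        rw [Equiv.Perm.mul_apply, Equiv.Perm.mul_apply, hkz, show l z = z from hl.2, ← hkz, perm_inv_apply]
      have h4 := hfixb _ h3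
      rw [Equiv.Perm.mul_apply, Equiv.Perm.mul_apply] at h4
      rw [← perm_apply_inv k (l (k b)), h4]
    have hne1 : k b ≠ z := by
      intro e; exact hba (k.injective (e.trans hkz.symm))
    have hmove : ¬ ∀ l ∈ st H a, l z = z := by
      intro hcon
      have h5 : orb (st H a) z ⊆ {z} := by
        intro y hy
        obtain ⟨l, hl, rfl⟩ := mem_orb.1 hy
        rw [hcon l hl]; exact Finset.mem_singleton_self z
      have := Finset.card_le_card h5
      rw [h22, Finset.card_singleton] at this
      omega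
    have hne2 : k b ≠ a := by
      intro e
      have h5 : st H z = st H a := st_eq_of_fix htr hc' (fun l hl => by rw [← e]; exact hz' l hl)
      apply hmove
      intro l hl
      rw [← h5] at hl
      exact hl.2
    have hne3 : k b ≠ b := by
      intro e
      have h5 : st H z = st H b := st_eq_of_fix htr hc' (fun l hl => by
        have := hz' l hl; rwa [e] at this)
      apply hmove
      intro l hl
      rw [hab, ← h5] at hl
      exact hl.2
    have haz : a ≠ z := fun e => haO (e ▸ self_mem_orb (st H a) z)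
    have hbz : b ≠ z := fun e => (Finset.mem_compl.1 (Finset.mem_erase.1 hbm).2) (e ▸ self_mem_orb (st H a) z)
    have h6 := card_le_fix4 (L := st (st H a) z) (inf_le_left.trans (inf_le_left.trans hH)) (a := a) (b := b) (c := z) (d := k b)
      hba.symm haz hbz hne2.symm hne3.symm hne1.symm (fun l hl => ⟨hl.1.2, hfixb l hl.1, hl.2, hz' l ⟨hl.1.1, hl.2⟩⟩)
    rw [h22] at h2
    omega

end Cfsg.Agent.Lib.SubIdxC
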