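import Cfsg.Agent.Lib.SubIdxC
import Cfsg.Agent.Lib.GolayPairs

/-!
Subgroups of `M24` of small index (helper83), part D: sextets and `M23`
-/

set_option autoImplicit false

namespace Cfsg.Agent.Lib.SubIdxD

open Cfsg Cfsg.Agent.Lib.Golay Cfsg.Agent.Lib.SubIdxA Cfsg.Agent.Lib.SubIdxB Cfsg.Agent.Lib.SubIdxC
open Cfsg.Agent.Lib.GolayFix (Fix)
open scoped Pointwise

/-- pointwise stabiliser -/
def pw (L : Subgroup Pm) (D : Finset GolayPt) : Subgroup Pm where
  carrier := {g | g ∈ L ∧ ∀ y ∈ D, g y = y}
  mul_mem' := by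
    rintro a b ⟨ha, ha'⟩ ⟨hb, hb'⟩
    exact ⟨L.mul_mem ha hb, fun y hy => by rw [Equiv.Perm.mul_apply, hb' y hy, ha' y hy]⟩
  one_mem' := ⟨L.one_mem, fun _ _ => rfl⟩
  inv_mem' := by
    rintro a ⟨ha, ha'⟩
    refine ⟨L.inv_mem ha, fun y hy => ?_⟩
    rw [Equiv.Perm.inv_eq_iff_eq]
    exact (ha' y hy).symm

theorem mem_pw {L : Subgroup Pm} {D : Finset GolayPt} {g : Pm} : g ∈ pw L D ↔ g ∈ L ∧ ∀ y ∈ D, g y = y := Iff.rfl

theorem ker_bound (L : Subgroup Pm) (D : Finset GolayPt) (hD : ∀ g ∈ L, g • D = D) :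
    Nat.card L ≤ D.card.factorial * Nat.card (pw L D) := by
  let f : L →* Equiv.Perm ↥D :=
    { toFun := fun g => g.1.subtypePerm (fun x => mem_iff_of_smul_eq (hD g.1 g.2) x)
      map_one' := by ext x; rfl
      map_mul' := fun g h => by ext x; rfl }
  have h1 := Subgroup.card_mul_index f.ker
  have h2 : f.ker.index ≤ D.card.factorial := by
    rw [Subgroup.index_ker]
    have h3 : Nat.card (Equiv.Perm ↥D) = D.card.factorial := by
      rw [Nat.card_eq_fintype_card, Fintype.card_perm, Fintype.card_coe]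
    rw [← h3]
    exact Nat.card_le_card_of_injective _ Subtype.val_injective
  have h4 : Nat.card f.ker ≤ Nat.card (pw L D) := by
    apply Nat.card_le_card_of_injective (fun g : f.ker => (⟨g.1.1, g.1.2, fun y hy => by
      have := congrArg (fun e : Equiv.Perm ↥D => ((e ⟨y, hy⟩ : ↥D) : GolayPt)) g.2
      exact this⟩ : pw L D))
    intro a b hab
    have := congrArg Subtype.val hab
    exact Subtype.ext (Subtype.ext this)
  rw [← h1, mul_comm]
  exact Nat.mul_le_mul h2 h4

theorem six_bound {K : Subgroup Pm} (hK : K ≤ M24) {o : Finset GolayPt} (ho : o ∈ octads) {D : Finset GolayPt}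
    (hDo : D ⊆ o) (hD : D.card = 6) (hfix : ∀ k ∈ K, ∀ y ∈ D, k y = y) : Nat.card K ≤ 32 := by
  have ho8 : o.card = 8 := ho.2
  have hKo : ∀ k ∈ K, k • o = o := by
    intro k hk
    apply GolayFix.smul_eq_of_five (hK hk) ho (T := D) (by omega) hDo
    intro y hy
    rw [← hfix k hk y hy]
    exact (GolayFix.mem_smul_iff k o y).2 (hDo hy)
  have h2 : (o \ D).card = 2 := by rw [Finset.card_sdiff_of_subset hDo, ho8, hD]
  have h3 : ∀ k ∈ K, k • (o \ D) = o \ D := by
    intro k hk
    apply smul_eq_of_mem_iff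
    intro y
    rw [Finset.mem_sdiff, Finset.mem_sdiff, mem_iff_of_smul_eq (hKo k hk)]
    constructor
    · rintro ⟨h4, h5⟩
      exact ⟨h4, fun h => h5 (by rw [hfix k hk y h]; exact h)⟩
    · rintro ⟨h4, h5⟩
      refine ⟨h4, fun h => h5 ?_⟩
      have h6 := hfix k hk _ h
      have h7 : k y = y := k.injective h6
      rw [← h7]; exact h
  have h4 := ker_bound K (o \ D) h3
  rw [h2] at h4
  have h5 : Nat.card (pw K (o \ D)) ≤ 16 := by
    rw [← card_OctPt ho]
    apply Nat.card_mono (Set.toFinite _)
    rintro g ⟨hg, hg'⟩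
    refine mem_OctPt.2 ⟨hK hg, fun p hp => ?_⟩
    by_cases h : p ∈ D
    · exact hfix g hg p h
    · exact hg' p (Finset.mem_sdiff.2 ⟨hp, h⟩)
  have h6 : Nat.factorial 2 = 2 := rfl
  rw [h6] at h4
  omega

/-- the pointwise stabiliser of a 4-set -/
theorem card_pw4 {B : Finset GolayPt} (hB : B.card = 4) : Nat.card (pw M24 B) = 960 := by
  obtain ⟨a, b, c, d, hab, hac, had, hbc, hbd, hcd, rfl⟩ := Finset.card_eq_four.1 hB
  rw [← card_fix4 hab hac hbc had hbd hcd]
  apply Nat.card_congr
  apply Equiv.subtypeEquivRight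
  intro g
  constructor
  · rintro ⟨h1, h2⟩
    exact ⟨⟨⟨⟨h1, h2 a (by simp)⟩, h2 b (by simp)⟩, h2 c (by simp)⟩, h2 d (by simp)⟩
  · rintro ⟨⟨⟨⟨h1, h2⟩, h3⟩, h4⟩, h5⟩
    refine ⟨h1, fun y hy => ?_⟩
    simp only [Finset.mem_insert, Finset.mem_singleton] at hy
    rcases hy with rfl | rfl | rfl | rfl
    · exact h2
    · exact h3
    · exact h4
    · exact h5

theorem pw4_trans {B : Finset GolayPt} (hB : B.card = 4) {z w : GolayPt} (hz : z ∉ B) (hw : w ∉ B) :
    ∃ g ∈ pw M24 B, g z = w := by
  obtain ⟨a, b, c, d, hab, hac, had, hbc, hbd, hcd, rfl⟩ := Finset.card_eq_four.1 hB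
  simp only [Finset.mem_insert, Finset.mem_singleton, not_or] at hz hw
  obtain ⟨hz1, hz2, hz3, hz4⟩ := hz
  obtain ⟨hw1, hw2, hw3, hw4⟩ := hw
  obtain ⟨g, hg, h⟩ := exists_map_list (l := [a, b, c, d, z]) (l' := [a, b, c, d, w])
    (by simp [hab, hac, had, hbc, hbd, hcd, Ne.symm hz1, Ne.symm hz2, Ne.symm hz3, Ne.symm hz4])
    (by simp [hab, hac, had, hbc, hbd, hcd, Ne.symm hw1, Ne.symm hw2, Ne.symm hw3, Ne.symm hw4]) rfl (by simp)
  simp only [List.map_cons, List.map_nil, List.cons.injEq, and_true] at h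
  obtain ⟨h1, h2, h3, h4, h5⟩ := h
  refine ⟨g, ⟨hg, fun y hy => ?_⟩, h5⟩
  simp only [Finset.mem_insert, Finset.mem_singleton] at hy
  rcases hy with rfl | rfl | rfl | rfl
  · exact h1
  · exact h2
  · exact h3
  · exact h4

/-- order 138240 -/
theorem case_1771 {H : Subgroup Pm} (hH : H ≤ M24) (hc : Nat.card H = 138240) :
    ∃ S ∈ sextets, ∀ h ∈ H, h • S = S := by
  have : Fact (Nat.Prime 5) := ⟨by norm_num⟩
  obtain ⟨o, ho, hE⟩ := exists_oct hH (by rw [hc]; norm_num)
  have ho8 : o.card = 8 := ho.2
  obtain ⟨z0, hz0⟩ := exists_notMem ho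
  have hsub0 := compl_subset_orb ho hE hz0
  have h1 := card_orb H z0
  have hge0 : 16 ≤ (orb H z0).card := by rw [← card_compl_oct ho]; exact Finset.card_le_card hsub0
  have hle0 : (orb H z0).card ≤ 24 := card_le
  have hs := card_st_dvd hH z0
  rw [hc] at h1
  have h24 : (orb H z0).card = 24 := by
    generalize (orb H z0).card = n at *
    generalize Nat.card (st H z0) = t at *
    have ht : t = 138240 / n := (Nat.div_eq_of_eq_mul_right (by omega) h1).symm
    subst ht
    interval_cases n
    all_goals first | rfl | (exfalso; omega) | (exact absurd hs (by decide))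
  have htr := trans_of_univ (univ_of_card h24)
  have hc' : Nat.card H = 24 * 5760 := by rw [hc]
  have hst := card_st_eq htr hc'
  obtain ⟨x, hx⟩ : o.Nonempty := Finset.card_pos.1 (by omega)
  have hEx : OctPt o ≤ st H x := fun g hg => ⟨hE hg, (mem_OctPt.1 hg).2 x hx⟩
  have hsub := compl_subset_orb ho hEx hz0
  have hxO : x ∉ orb (st H x) z0 := by
    intro h
    obtain ⟨k, hk, hkz⟩ := mem_orb.1 h
    have : k z0 = k x := hkz.trans hk.2.symm
    exact hz0 ((k.injective this) ▸ hx)
  have hcO := card_orb (st H x) z0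
  rw [hst] at hcO
  have hge : 16 ≤ (orb (st H x) z0).card := by
    rw [← card_compl_oct ho]; exact Finset.card_le_card hsub
  have hle : (orb (st H x) z0).card ≤ 23 := by
    have h1 : (orb (st H x) z0).card < (Finset.univ : Finset GolayPt).card :=
      Finset.card_lt_card (Finset.ssubset_univ_iff.2 (fun e => hxO (e ▸ Finset.mem_univ _)))
    rw [Finset.card_univ, card_pt] at h1
    omega
  have hcases : (orb (st H x) z0).card = 16 ∨ (orb (st H x) z0).card = 18 ∨ (orb (st H x) z0).card = 20 := by
    generalize (orb (st H x) z0).card = n at *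
    generalize Nat.card (st (st H x) z0) = t at *
    interval_cases n
    all_goals first | (left; rfl) | (right; left; rfl) | (right; right; rfl) | (exfalso; omega)
  -- the complement of the orbit
  obtain ⟨B, hBdef⟩ : ∃ B, B = (orb (st H x) z0)ᶜ := ⟨_, rfl⟩
  have hBo : B ⊆ o := by
    intro y hy
    by_contra h
    rw [hBdef] at hy
    exact (Finset.mem_compl.1 hy) (hsub (Finset.mem_compl.2 h))
  have hxB : x ∈ B := by rw [hBdef]; exact Finset.mem_compl.2 hxO
  have hBinv : ∀ h ∈ H, h x = x → h • B = B := by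
    intro h hh hhx
    rw [hBdef]
    exact compl_inv (orb_inv ⟨hh, hhx⟩)
  have hBc : B.card + (orb (st H x) z0).card = 24 := by
    rw [hBdef, Finset.card_compl, card_pt]; omega
  have herase : ∀ h ∈ st H x, h • B.erase x = B.erase x := by
    intro h hh
    apply smul_eq_of_mem_iff
    intro y
    rw [Finset.mem_erase, Finset.mem_erase, mem_iff_of_smul_eq (hBinv h hh.1 hh.2)]
    constructor
    · rintro ⟨h3, h4⟩
      exact ⟨fun e => h3 (by rw [e]; exact hh.2), h4⟩
    · rintro ⟨h3, h4⟩
      exact ⟨fun e => h3 (h.injective (e.trans (show h x = x from hh.2).symm)), h4⟩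
  have hkb := ker_bound (st H x) (B.erase x) herase
  rw [Finset.card_erase_of_mem hxB, hst] at hkb
  have hKfix : ∀ k ∈ pw (st H x) (B.erase x), ∀ y ∈ B, k y = y := by
    rintro k ⟨hk, hk'⟩ y hy
    by_cases h : y = x
    · rw [h]; exact hk.2
    · exact hk' y (Finset.mem_erase.2 ⟨h, hy⟩)
  have hKM : pw (st H x) (B.erase x) ≤ M24 := fun k hk => hH hk.1.1
  rcases hcases with hn | hn | hn
  · -- 16
    exfalso
    have hB8 : B.card = 8 := by omega
    have hBeq : B = o := Finset.eq_of_subset_of_card_le hBo (by omega)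
    rw [hBeq] at hBinv
    have hoct5 : ∀ g ∈ st H x, g ^ 5 = 1 → (Fix g).card = 4 → (o ∩ Fix g).card = 3 := by
      intro g hg hg5 hfix
      have h2 : o.card % 5 = (o ∩ Fix g).card % 5 :=
        GolayFix.card_modEq hg5 o (fun y hy => (mem_iff_of_smul_eq (hBinv g hg.1 hg.2) y).2 hy)
      have h3 : (o ∩ Fix g).card ≤ (Fix g).card := Finset.card_le_card Finset.inter_subset_right
      omega
    obtain ⟨g, hg, hg5, hg1, hfix⟩ := exists_elt (H := st H x) (inf_le_left.trans hH) (p := 5) (by norm_num)
      (by rw [hst]; norm_num)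
    have hg3 := hoct5 g hg hg5 hfix
    obtain ⟨w, hwo, hwF⟩ : ∃ w ∈ o, w ∉ Fix g := by
      by_contra hcon
      push Not at hcon
      have : o ∩ Fix g = o := Finset.inter_eq_left.2 hcon
      rw [this] at hg3; omega
    have hwx : w ≠ x := fun e => hwF (GolayFix.mem_Fix.2 (by rw [e]; exact hg.2))
    have hDo : orb (st H x) w ⊆ o.erase x := by
      intro y hy
      obtain ⟨k, hk, rfl⟩ := mem_orb.1 hy
      rw [Finset.mem_erase]
      exact ⟨fun e => hwx (k.injective (e.trans (show k x = x from hk.2).symm)),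
        (mem_iff_of_smul_eq (hBinv k hk.1 hk.2) w).2 hwo⟩
    have hD7 : (orb (st H x) w).card ≤ 7 := by
      have := Finset.card_le_card hDo
      rw [Finset.card_erase_of_mem hx, ho8] at this; exact this
    have hDF : (orb (st H x) w ∩ Fix g).card ≤ 2 := by
      have h2 : orb (st H x) w ∩ Fix g ⊆ (o ∩ Fix g).erase x := by
        intro y hy
        have h3 := hDo (Finset.mem_inter.1 hy).1
        rw [Finset.mem_erase] at h3
        exact Finset.mem_erase.2 ⟨h3.1, Finset.mem_inter.2 ⟨h3.2, (Finset.mem_inter.1 hy).2⟩⟩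
      have h3 := Finset.card_le_card h2
      rw [Finset.card_erase_of_mem (Finset.mem_inter.2 ⟨hx, GolayFix.mem_Fix.2 hg.2⟩), hg3] at h3
      exact h3
    have hDm : (orb (st H x) w).card % 5 = (orb (st H x) w ∩ Fix g).card % 5 :=
      GolayFix.card_modEq hg5 _ (fun y hy => (mem_iff_of_smul_eq (orb_inv hg) y).2 hy)
    have hD5 : 5 ≤ (orb (st H x) w).card := by
      by_contra hlt
      push Not at hlt
      rw [Nat.mod_eq_of_lt hlt, Nat.mod_eq_of_lt (by omega)] at hDm
      have h3 : orb (st H x) w ∩ Fix g = orb (st H x) w :=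
        Finset.eq_of_subset_of_card_le Finset.inter_subset_left (le_of_eq hDm)
      exact hwF (Finset.mem_inter.1 (h3.symm ▸ self_mem_orb _ w : w ∈ orb (st H x) w ∩ Fix g)).2
    have hcw := card_orb (st H x) w
    rw [hst] at hcw
    have hxD : x ∉ orb (st H x) w := fun h => (Finset.mem_erase.1 (hDo h)).1 rfl
    have h56 : (orb (st H x) w).card = 5 ∨ (orb (st H x) w).card = 6 := by
      generalize (orb (st H x) w).card = n at *
      interval_cases n
      · left; rfl
      · right; rfl
      · exfalso; omega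
    rcases h56 with h5 | h6
    · have h7 := ker_bound (st H x) (orb (st H x) w) (fun k hk => orb_inv hk)
      rw [hst, h5] at h7
      have h8 := six_bound (K := pw (st H x) (orb (st H x) w)) (fun k hk => hH hk.1.1) ho
        (D := insert x (orb (st H x) w)) (by
          intro y hy
          rcases Finset.mem_insert.1 hy with rfl | hy
          · exact hx
          · exact (Finset.mem_erase.1 (hDo hy)).2) (by rw [Finset.card_insert_of_notMem hxD, h5]) (by
          intro k hk y hy
          rcases Finset.mem_insert.1 hy with rfl | hy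
          · exact hk.1.2
          · exact hk.2 y hy)
      have h9 : Nat.factorial 5 = 120 := rfl
      rw [h9] at h7
      omega
    · have h7 : (o.erase x \ orb (st H x) w).card = 1 := by
        rw [Finset.card_sdiff_of_subset hDo, Finset.card_erase_of_mem hx, ho8, h6]
      obtain ⟨y, hy⟩ := Finset.card_eq_one.1 h7
      have hym : y ∈ o.erase x \ orb (st H x) w := by rw [hy]; exact Finset.mem_singleton_self y
      have hyo : y ∈ o := (Finset.mem_erase.1 (Finset.mem_sdiff.1 hym).1).2
      have hyx : y ≠ x := (Finset.mem_erase.1 (Finset.mem_sdiff.1 hym).1).1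
      have hyD : y ∉ orb (st H x) w := (Finset.mem_sdiff.1 hym).2
      have hfixy : ∀ k ∈ st H x, k y = y := by
        intro k hk
        have h8 : k y ∈ o.erase x \ orb (st H x) w := by
          rw [Finset.mem_sdiff, Finset.mem_erase]
          refine ⟨⟨fun e => hyx (k.injective (e.trans (show k x = x from hk.2).symm)),
            (mem_iff_of_smul_eq (hBinv k hk.1 hk.2) y).2 hyo⟩, fun h => hyD ?_⟩
          exact (mem_iff_of_smul_eq (orb_inv hk) y).1 h
        rw [hy] at h8
        exact Finset.mem_singleton.1 h8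
      have hxy : st H x = st H y := st_eq_of_fix htr hc' hfixy
      obtain ⟨k, hk, hkw⟩ := htr x w
      have hw' : ∀ l ∈ st H w, l (k y) = k y := by
        intro l hl
        have h3 : k⁻¹ * l * k ∈ st H x := by
          refine ⟨H.mul_mem (H.mul_mem (H.inv_mem hk) hl.1) hk, ?_⟩
          show (k⁻¹ * l * k) x = x
          rw [Equiv.Perm.mul_apply, Equiv.Perm.mul_apply, hkw, show l w = w from hl.2, ← hkw, perm_inv_apply]
        have h4 := hfixy _ h3
        rw [Equiv.Perm.mul_apply, Equiv.Perm.mul_apply] at h4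
        rw [← perm_apply_inv k (l (k y)), h4]
      have hne1 : k y ≠ w := by
        intro e; exact hyx (k.injective (e.trans hkw.symm))
      have hmove : ¬ ∀ l ∈ st H x, l w = w := by
        intro hcon
        have h5 : orb (st H x) w ⊆ {w} := by
          intro y hy
          obtain ⟨l, hl, rfl⟩ := mem_orb.1 hy
          rw [hcon l hl]; exact Finset.mem_singleton_self w
        have := Finset.card_le_card h5
        rw [h6, Finset.card_singleton] at this
        omega
      have hne2 : k y ≠ x := by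
        intro e
        have h5 : st H w = st H x := st_eq_of_fix htr hc' (fun l hl => by rw [← e]; exact hw' l hl)
        apply hmove
        intro l hl
        rw [← h5] at hl
        exact hl.2
      have hne3 : k y ≠ y := by
        intro e
        have h5 : st H w = st H y := st_eq_of_fix htr hc' (fun l hl => by
          have := hw' l hl; rwa [e] at this)
        apply hmove
        intro l hl
        rw [hxy, ← h5] at hl
        exact hl.2
      have hkyo : k y ∈ o := by
        by_contra h
        have h8 : ∀ e ∈ OctPt o, e = 1 := fun e he =>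
          OctPt_fix_eq_one ho h he (hw' e ⟨hE he, (mem_OctPt.1 he).2 w hwo⟩)
        have h9 : OctPt o = ⊥ := (Subgroup.eq_bot_iff_forall _).2 h8
        have h10 := card_OctPt ho
        rw [h9, Subgroup.card_bot] at h10
        omega
      have hcL : Nat.card (st (st H x) w) = 960 := by rw [h6] at hcw; omega
      obtain ⟨g', hg', hg5', hg1', hfix'⟩ := exists_elt (H := st (st H x) w) (inf_le_left.trans (inf_le_left.trans hH))
        (p := 5) (by norm_num) (by rw [hcL]; norm_num)
      have h11 := hoct5 g' hg'.1 hg5' hfix'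
      have h12 : ({x, y, w, k y} : Finset GolayPt) ⊆ o ∩ Fix g' := by
        intro v hv
        simp only [Finset.mem_insert, Finset.mem_singleton] at hv
        rcases hv with rfl | rfl | rfl | rfl
        · exact Finset.mem_inter.2 ⟨hx, GolayFix.mem_Fix.2 hg'.1.2⟩
        · exact Finset.mem_inter.2 ⟨hyo, GolayFix.mem_Fix.2 (hfixy _ hg'.1)⟩
        · exact Finset.mem_inter.2 ⟨hwo, GolayFix.mem_Fix.2 hg'.2⟩
        · exact Finset.mem_inter.2 ⟨hkyo, GolayFix.mem_Fix.2 (hw' _ ⟨hg'.1.1, hg'.2⟩)⟩
      have hyw : y ≠ w := by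
        intro e; apply hyD; rw [e]; exact self_mem_orb _ w
      have h13 : ({x, y, w, k y} : Finset GolayPt).card = 4 :=
        Finset.card_eq_four.2 ⟨x, y, w, k y, hyx.symm, hwx.symm, hne2.symm, hyw, hne3.symm, hne1.symm, rfl⟩
      have h14 := Finset.card_le_card h12
      omega
  · -- 18
    exfalso
    have hB6 : B.card = 6 := by omega
    have h8 := six_bound hKM ho hBo hB6 hKfix
    rw [hB6] at hkb
    have h9 : Nat.factorial (6 - 1) = 120 := rfl
    rw [h9] at hkb
    omega
  · -- 20
    have hB4 : B.card = 4 := by omega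
    rw [hB4] at hkb
    have h9 : Nat.factorial (4 - 1) = 6 := rfl
    rw [h9] at hkb
    have hKF : pw (st H x) (B.erase x) = pw M24 B := by
      apply Subgroup.eq_of_le_of_card_ge
      · intro k hk
        exact ⟨hKM hk, hKfix k hk⟩
      · rw [card_pw4 hB4]; omega
    have hFH : pw M24 B ≤ H := by rw [← hKF]; exact fun k hk => hk.1.1
    have hblk := block (K := pw M24 B) hxB hBinv hFH (fun k hk => hk.2) (by
      intro S z hz hzS hS
      have h2 : Bᶜ ⊆ S := by
        intro w hw
        obtain ⟨k, hk, hkz⟩ := pw4_trans hB4 hz (Finset.mem_compl.1 hw)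
        rw [← hkz]
        exact (mem_iff_of_smul_eq (hS k hk) z).2 hzS
      have h3 := Finset.card_le_card h2
      rw [Finset.card_compl, card_pt] at h3
      omega)
    have hblk' := block' (htr x) hblk
    have hblk'' := block'' hblk'
    refine ⟨sx B, sx_mem_sextets hB4, ?_⟩
    intro h hh
    rw [smul_sx (hH hh)]
    apply sx_eq_of_mem
    rw [mem_sx]
    refine ⟨by rw [card_smul', hB4], ?_⟩
    by_cases hBh : h • B = B
    · rw [hBh, symmDiff_self]; exact empty_mem_supports
    · have hdisj : Disjoint B (h • B) := by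
        rw [Finset.disjoint_left]
        intro v hv hv'
        exact hBh (hblk' h hh v hv hv')
      obtain ⟨z, hz⟩ : (h • B).Nonempty := Finset.card_pos.1 (by rw [card_smul', hB4]; norm_num)
      have hzB : z ∉ B := fun h' => (Finset.disjoint_left.1 hdisj) h' hz
      obtain ⟨o5, ho5, hsub5⟩ := exists_octad_of_five (s := insert z B) (by
        rw [Finset.card_insert_of_notMem hzB, hB4])
      have hE5 : OctPt o5 ≤ pw M24 B := fun e he => ⟨(mem_OctPt.1 he).1, fun y hy =>
        (mem_OctPt.1 he).2 y (hsub5 (Finset.mem_insert_of_mem hy))⟩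
      have hinv5 : ∀ e ∈ OctPt o5, e • (h • B) = h • B := by
        intro e he
        have heH : e ∈ H := hFH (hE5 he)
        rw [smul_smul]
        apply hblk'' (e * h) (H.mul_mem heH hh) h hh z hz
        rw [mul_smul]
        have hez : e z = z := (mem_OctPt.1 he).2 z (hsub5 (Finset.mem_insert_self z B))
        rw [← hez]
        exact (smul_mem_smul e (h • B) z).2 hz
      have hBo5 : h • B ⊆ o5 := by
        intro w hw
        by_contra hwo
        have h3 := Finset.card_le_card (inv_large ho5 (h • B) hinv5 hwo hw)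
        rw [card_compl_oct ho5, card_smul', hB4] at h3
        omega
      have hunion : B ∪ h • B = o5 := by
        apply Finset.eq_of_subset_of_card_le
        · exact Finset.union_subset (fun y hy => hsub5 (Finset.mem_insert_of_mem hy)) hBo5
        · rw [Finset.card_union_of_disjoint hdisj, card_smul', hB4, ho5.2]
      have hsd : symmDiff B (h • B) = B ∪ h • B := by
        rw [← Finset.sup_eq_union]
        exact hdisj.symmDiff_eq_sup
      rw [hsd, hunion]
      exact ho5.1

/-- order 40320 in `M23` -/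
theorem case_m23 {H : Subgroup Pm} {x : GolayPt} (hH : H ≤ st M24 x) (hc : Nat.card H = 40320) :
    (∃ s : Finset GolayPt, s.card = 2 ∧ x ∉ s ∧ ∀ h ∈ H, h • s = s) ∨
      ∃ o ∈ octads, x ∈ o ∧ ∀ h ∈ H, h • o = o := by
  have : Fact (Nat.Prime 7) := ⟨by norm_num⟩
  have hHM : H ≤ M24 := hH.trans inf_le_left
  have hx0 : ∃ o0 ∈ octads, x ∈ o0 := by
    obtain ⟨s, hs, hs5⟩ := Finset.exists_superset_card_eq (s := {x}) (n := 5) (by simp) (by rw [card_pt]; norm_num)
    obtain ⟨o, ho, hso⟩ := exists_octad_of_five hs5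
    exact ⟨o, ho, hso (hs (Finset.mem_singleton_self x))⟩
  obtain ⟨o0, ho0, hxo0⟩ := hx0
  have hodd : ¬ 2 ∣ H.relIndex (st M24 x) := by
    intro h
    have h1 := relIndex_mul hH
    rw [card_st_M24, hc] at h1
    omega
  obtain ⟨g, hg, ho, hE⟩ := OctPt_smul_le (K := st M24 x) inf_le_left ho0
    (fun e he => ⟨(mem_OctPt.1 he).1, (mem_OctPt.1 he).2 x hxo0⟩) hH hodd
  have hxo : x ∈ g • o0 := by
    have h1 : g x = x := hg.2
    rw [← h1]
    exact (smul_mem_smul g o0 x).2 hxo0
  generalize g • o0 = o at *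
  obtain ⟨z0, hz0⟩ := exists_notMem ho
  have hsub := compl_subset_orb ho hE hz0
  have hfx : ∀ h ∈ H, h x = x := fun h hh => (hH hh).2
  have hxO : x ∉ orb H z0 := by
    intro h
    obtain ⟨k, hk, hkz⟩ := mem_orb.1 h
    have : k z0 = k x := hkz.trans (hfx k hk).symm
    exact hz0 ((k.injective this) ▸ hxo)
  have hcO := card_orb H z0
  rw [hc] at hcO
  have hge : 16 ≤ (orb H z0).card := by
    rw [← card_compl_oct ho]; exact Finset.card_le_card hsub
  have hle : (orb H z0).card ≤ 23 := by
    have h1 : (orb H z0).card < (Finset.univ : Finset GolayPt).card :=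
      Finset.card_lt_card (Finset.ssubset_univ_iff.2 (fun e => hxO (e ▸ Finset.mem_univ _)))
    rw [Finset.card_univ, card_pt] at h1
    omega
  have hr7 := residue hHM (p := 7) (by norm_num) (by rw [hc]; norm_num)
    (orb H z0) {x} (fun h hh => orb_inv hh) (fun h hh y hy => by
      rw [Finset.mem_singleton] at hy; subst hy; exact hfx h hh) (Finset.disjoint_singleton_right.2 hxO)
  rw [Finset.card_singleton] at hr7
  have hcases : (orb H z0).card = 16 ∨ (orb H z0).card = 21 := by
    generalize (orb H z0).card = n at *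
    generalize Nat.card (st H z0) = t at *
    interval_cases n
    all_goals first | (left; rfl) | (right; rfl) | (exfalso; omega)
  rcases hcases with hn | hn
  · right
    refine ⟨o, ho, hxo, ?_⟩
    have hO : oᶜ = orb H z0 := Finset.eq_of_subset_of_card_le hsub (by rw [hn, card_compl_oct ho])
    intro k hk
    have h2 : k • oᶜ = oᶜ := by rw [hO]; exact orb_inv hk
    have := compl_inv h2
    rwa [compl_compl] at this
  · left
    refine ⟨(orb H z0)ᶜ.erase x, ?_, Finset.notMem_erase _ _, ?_⟩
    · rw [Finset.card_erase_of_mem (Finset.mem_compl.2 hxO), Finset.card_compl, card_pt, hn]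
    · intro h hh
      apply smul_eq_of_mem_iff
      intro y
      rw [Finset.mem_erase, Finset.mem_erase, mem_iff_of_smul_eq (compl_inv (orb_inv hh))]
      constructor
      · rintro ⟨h3, h4⟩
        exact ⟨fun e => h3 (by rw [e]; exact hfx h hh), h4⟩
      · rintro ⟨h3, h4⟩
        exact ⟨fun e => h3 (h.injective (e.trans (hfx h hh).symm)), h4⟩

end Cfsg.Agent.Lib.SubIdxD
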