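import Cfsg.Agent.Lib.SubIdxD

/-!
Subgroups of `M24` of small index (helper83), part E: orders in `M23`
-/

set_option autoImplicit false

namespace Cfsg.Agent.Lib.SubIdxE

open Cfsg Cfsg.Agent.Lib.Golay Cfsg.Agent.Lib.SubIdxA Cfsg.Agent.Lib.SubIdxB Cfsg.Agent.Lib.SubIdxC
open scoped Pointwise

theorem card_duad {x : GolayPt} {s : Finset GolayPt} (hs : s.card = 2) (hx : x ∉ s) :
    Nat.card ↥(st M24 x ⊓ MulAction.stabilizer Pm s) = 40320 := by
  have h1 := card_eq_mul_inf_stabilizer (st M24 x) s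
    ((((Finset.univ : Finset GolayPt).erase x).powersetCard 2 : Finset (Finset GolayPt)) : Set (Finset GolayPt))
    (fun g hg => by
      rw [Finset.mem_coe, Finset.mem_powersetCard]
      constructor
      · intro y hy
        rw [Finset.mem_erase]
        refine ⟨?_, Finset.mem_univ _⟩
        rintro rfl
        apply hx
        have h2 : g y = y := hg.2
        rw [← smul_mem_smul g, h2]
        exact hy
      · rw [Finset.card_smul_finset, hs])
    (fun t ht => by
      rw [Finset.mem_coe, Finset.mem_powersetCard] at ht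
      obtain ⟨ht1, ht2⟩ := ht
      obtain ⟨a, b, hab, rfl⟩ := Finset.card_eq_two.1 hs
      obtain ⟨c, d, hcd, rfl⟩ := Finset.card_eq_two.1 ht2
      have hc := ht1 (by simp : c ∈ ({c, d} : Finset GolayPt))
      have hd := ht1 (by simp : d ∈ ({c, d} : Finset GolayPt))
      rw [Finset.mem_erase] at hc hd
      simp only [Finset.mem_insert, Finset.mem_singleton, not_or] at hx
      obtain ⟨g, hg, e1, e2, e3⟩ := exists_three hx.1 hx.2 hab hc.1.symm hd.1.symm hcd
      refine ⟨g, ⟨hg, e1⟩, ?_⟩
      rw [Finset.smul_finset_insert, Finset.smul_finset_singleton]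
      show ({g a, g b} : Finset GolayPt) = {c, d}
      rw [e2, e3])
  rw [card_st_M24, Set.ncard_coe_finset, Finset.card_powersetCard, Finset.card_erase_of_mem (Finset.mem_univ x),
    Finset.card_univ, card_pt] at h1
  have h2 : Nat.choose (24 - 1) 2 = 253 := by decide
  rw [h2] at h1
  omega

theorem card_oct_in {x : GolayPt} {o : Finset GolayPt} (ho : o ∈ octads) (hx : x ∈ o) :
    Nat.card ↥(st M24 x ⊓ MulAction.stabilizer Pm o) = 40320 := by
  have h1 := card_eq_mul_inf_stabilizer (OctSt o) x (o : Set GolayPt)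
    (fun g hg => by
      rw [Finset.mem_coe]
      exact (mem_iff_of_smul_eq hg.2 x).2 hx)
    (fun y hy => by
      obtain ⟨g1, hg1, h1, h2⟩ := exists_flag_in ho hx
      obtain ⟨g2, hg2, h3, h4⟩ := exists_flag_in ho (Finset.mem_coe.1 hy)
      refine ⟨g2 * g1⁻¹, ⟨M24.mul_mem hg2 (M24.inv_mem hg1), ?_⟩, ?_⟩
      · show (g2 * g1⁻¹) • o = o
        rw [mul_smul]
        nth_rewrite 1 [← h2]
        rw [inv_smul_smul, h4]
      · show (g2 * g1⁻¹) x = y
        rw [Equiv.Perm.mul_apply, ← h1, perm_inv_apply, h3])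
  rw [card_OctSt ho, Set.ncard_coe_finset, show o.card = 8 from ho.2] at h1
  have h2 : st M24 x ⊓ MulAction.stabilizer Pm o = OctSt o ⊓ MulAction.stabilizer Pm x := by
    show M24 ⊓ MulAction.stabilizer Pm x ⊓ MulAction.stabilizer Pm o = M24 ⊓ MulAction.stabilizer Pm o ⊓ MulAction.stabilizer Pm x
    rw [inf_assoc, inf_assoc, inf_comm (MulAction.stabilizer Pm x)]
  rw [h2]
  have h4 : Nat.card ↥(OctSt o ⊓ MulAction.stabilizer (Equiv.Perm GolayPt) x) = 40320 := by omega
  exact h4

/-- the inclusion of a point stabiliser of `M24` in the symmetric group -/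
def inc (x : GolayPt) : ↥(MulAction.stabilizer M24 x) →* Pm := M24.subtype.comp (MulAction.stabilizer M24 x).subtype

theorem inc_inj (x : GolayPt) : Function.Injective (inc x) := fun _ _ h => Subtype.ext (Subtype.ext h)

theorem main (x : GolayPt) (H : Subgroup ↥(MulAction.stabilizer M24 x)) (hH : H.index = 253) :
    (∃ s : Finset GolayPt, s.card = 2 ∧ x ∉ s ∧ H = (MulAction.stabilizer M24 s).subgroupOf (MulAction.stabilizer M24 x)) ∨
      ∃ o ∈ octads, x ∈ o ∧ H = (MulAction.stabilizer M24 o).subgroupOf (MulAction.stabilizer M24 x) := by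
  have hcH : Nat.card H = 40320 := by
    have h1 := Subgroup.index_mul_card H
    rw [hH, card_stab_one] at h1
    omega
  have hc : Nat.card (H.map (inc x)) = 40320 := by
    rw [Subgroup.card_map_of_injective (inc_inj x), hcH]
  have hle : H.map (inc x) ≤ st M24 x := by
    rintro _ ⟨g, -, rfl⟩
    exact ⟨g.1.2, g.2⟩
  have key : ∀ (s : Finset GolayPt), (∀ h ∈ H.map (inc x), h • s = s) →
      Nat.card ↥(st M24 x ⊓ MulAction.stabilizer Pm s) = 40320 →
      H = (MulAction.stabilizer M24 s).subgroupOf (MulAction.stabilizer M24 x) := by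
    intro s hs hcs
    apply Subgroup.eq_of_le_of_card_ge
    · intro g hg
      exact hs _ ⟨g, hg, rfl⟩
    · rw [hcH, ← hcs]
      apply Nat.card_le_card_of_injective (fun g : ↥((MulAction.stabilizer M24 s).subgroupOf (MulAction.stabilizer M24 x)) =>
        (⟨inc x g.1, ⟨g.1.1.2, g.1.2⟩, g.2⟩ : ↥(st M24 x ⊓ MulAction.stabilizer Pm s)))
      intro a b hab
      have h5 : inc x a.1 = inc x b.1 := congrArg (fun z : ↥(st M24 x ⊓ MulAction.stabilizer Pm s) => z.1) hab
      exact Subtype.ext (inc_inj x h5)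
  rcases SubIdxD.case_m23 hle hc with ⟨s, hs, hxs, h⟩ | ⟨o, ho, hxo, h⟩
  · left
    exact ⟨s, hs, hxs, key s h (card_duad hs hxs)⟩
  · right
    exact ⟨o, ho, hxo, key o h (card_oct_in ho hxo)⟩

end Cfsg.Agent.Lib.SubIdxE
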