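import Mathlib
import Cfsg.Agent.Lib.ConjSub2

/-! Index of the subfield subgroup of SL_n(F). (helper99) -/

set_option autoImplicit false

namespace Cfsg.Agent.Lib.ConjSub

open Cfsg.Agent.Lib.ClSLn

variable {F : Type*} [Field F] [Fintype F] {n : ℕ}

omit [Fintype F] in
lemma sl_map_le (hn : 0 < n) (F₀ : Subfield F) :
    (Matrix.SpecialLinearGroup.map (n := Fin n) (F₀.subtype : F₀ →+* F)).range ≤ HSub n F₀ := by
  rintro _ ⟨A, rfl⟩
  rw [mem_HSub_iff hn]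
  exact ⟨1, (A : Matrix (Fin n) (Fin n) F₀), by rw [one_smul]; rfl⟩

omit [Fintype F] in
lemma sl_map_injective (F₀ : Subfield F) :
    Function.Injective (Matrix.SpecialLinearGroup.map (n := Fin n) (F₀.subtype : F₀ →+* F)) := by
  intro A B h
  apply Subtype.ext
  have h1 := congrArg (fun A : Matrix.SpecialLinearGroup (Fin n) F => (A : Matrix (Fin n) (Fin n) F)) h
  have h2 : (A : Matrix (Fin n) (Fin n) F₀).map F₀.subtype = (B : Matrix (Fin n) (Fin n) F₀).map F₀.subtype := h1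
  exact Matrix.map_injective (Subtype.val_injective) h2

/-- `|SL_n(F₀)|` divides the order of the subfield subgroup -/
lemma card_SL_dvd (hn : 0 < n) (F₀ : Subfield F) :
    Nat.card (Matrix.SpecialLinearGroup (Fin n) F₀) ∣ Nat.card (HSub n F₀) := by
  have h1 : Nat.card (Matrix.SpecialLinearGroup (Fin n) F₀) =
      Nat.card (Matrix.SpecialLinearGroup.map (n := Fin n) (F₀.subtype : F₀ →+* F)).range :=
    Nat.card_congr (MonoidHom.ofInjective (sl_map_injective F₀)).toEquiv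
  rw [h1]
  exact Subgroup.card_dvd_of_le (sl_map_le hn F₀)

/-- the basic relation -/
theorem index_relation (hn : 0 < n) (F₀ : Subfield F) {q₀ : ℕ} (hF₀ : Nat.card F₀ = q₀) :
    ∃ m : ℕ, (Fintype.card F - 1) * ((HSub n F₀).index * m) * (q₀ ^ (n * (n - 1) / 2) * ∏ i ∈ Finset.range n, (q₀ ^ (i + 1) - 1)) =
      (q₀ - 1) * ((Fintype.card F) ^ (n * (n - 1) / 2) * ∏ i ∈ Finset.range n, ((Fintype.card F) ^ (i + 1) - 1)) := by
  have hfin : Fintype F₀ := Fintype.ofFinite _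
  obtain ⟨m, hm⟩ := card_SL_dvd hn F₀
  refine ⟨m, ?_⟩
  have h1 := card_SL_formula (F := F) rfl n hn
  have h2 := card_SL_formula (F := F₀) (q := q₀) (by rw [← hF₀, Nat.card_eq_fintype_card]) n hn
  have h3 := (HSub n F₀).index_mul_card
  rw [← h1, ← h2, ← h3, hm]
  ring

lemma geom_odd {q₀ k : ℕ} (hq₀ : Odd q₀) (hk : Odd k) (i : ℕ) :
    ∃ S, Odd S ∧ (q₀ ^ k) ^ i - 1 = (q₀ ^ i - 1) * S := by
  refine ⟨∑ j ∈ Finset.range k, (q₀ ^ i) ^ j, ?_, ?_⟩
  · rw [Finset.odd_sum_iff_odd_card_odd]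
    have : (Finset.range k).filter (fun j => Odd ((q₀ ^ i) ^ j)) = Finset.range k := by
      apply Finset.filter_true_of_mem
      intro j _
      exact hq₀.pow.pow
    rw [this, Finset.card_range]; exact hk
  · rw [← pow_mul, mul_comm k i, pow_mul]
    have h1 : 1 ≤ q₀ ^ i := Nat.one_le_pow _ _ hq₀.pos
    have h2 := geom_sum_mul_add (q₀ ^ i - 1) k
    rw [Nat.sub_add_cancel h1] at h2
    have h3 : (q₀ ^ i) ^ k = (∑ j ∈ Finset.range k, (q₀ ^ i) ^ j) * (q₀ ^ i - 1) + 1 := h2.symm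
    rw [h3, Nat.add_sub_cancel, mul_comm]

/-- for `q`, `k` odd the index is odd -/
theorem index_odd (hn : 0 < n) (F₀ : Subfield F) {k q₀ : ℕ} (hF₀ : Nat.card F₀ = q₀)
    (hqk : Fintype.card F = q₀ ^ k) (hq : Odd (Fintype.card F)) (hk : Odd k) : Odd (HSub n F₀).index := by
  obtain ⟨m, hm⟩ := index_relation hn F₀ hF₀
  have hk0 : k ≠ 0 := by rintro rfl; exact absurd hk (by decide)
  have hq₀ : Odd q₀ := by
    rw [hqk] at hq
    exact (Nat.odd_pow_iff hk0).mp hq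
  have hq₀1 : 1 < q₀ := by
    rw [← hF₀]; exact Finite.one_lt_card
  choose S hS hS' using geom_odd hq₀ hk
  rw [hqk] at hm
  have h1 : ∏ i ∈ Finset.range n, ((q₀ ^ k) ^ (i + 1) - 1) =
      (∏ i ∈ Finset.range n, (q₀ ^ (i + 1) - 1)) * ∏ i ∈ Finset.range n, S (i + 1) := by
    rw [← Finset.prod_mul_distrib]
    exact Finset.prod_congr rfl fun i _ => hS' (i + 1)
  have h2 : q₀ ^ k - 1 = (q₀ - 1) * S 1 := by
    have := hS' 1
    rwa [pow_one, pow_one] at this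
  rw [h1, h2] at hm
  set A := ∏ i ∈ Finset.range n, (q₀ ^ (i + 1) - 1) with hA
  have hApos : 0 < A := by
    apply Finset.prod_pos
    intro i _
    have : q₀ ^ 1 ≤ q₀ ^ (i + 1) := Nat.pow_le_pow_right (by omega) (by omega)
    rw [pow_one] at this
    omega
  have h3 : (A * (q₀ - 1)) * (S 1 * ((HSub n F₀).index * m) * q₀ ^ (n * (n - 1) / 2)) =
      (A * (q₀ - 1)) * ((q₀ ^ k) ^ (n * (n - 1) / 2) * ∏ i ∈ Finset.range n, S (i + 1)) := by
    calc (A * (q₀ - 1)) * (S 1 * ((HSub n F₀).index * m) * q₀ ^ (n * (n - 1) / 2))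
        = (q₀ - 1) * S 1 * ((HSub n F₀).index * m) * (q₀ ^ (n * (n - 1) / 2) * A) := by ring
      _ = (q₀ - 1) * ((q₀ ^ k) ^ (n * (n - 1) / 2) * (A * ∏ i ∈ Finset.range n, S (i + 1))) := hm
      _ = _ := by ring
  have h4 := Nat.eq_of_mul_eq_mul_left (Nat.mul_pos hApos (by omega)) h3
  have h5 : Odd ((q₀ ^ k) ^ (n * (n - 1) / 2) * ∏ i ∈ Finset.range n, S (i + 1)) := by
    rw [Nat.odd_mul]
    refine ⟨hq₀.pow.pow, ?_⟩
    exact Finset.prod_induction _ Odd (fun a b ha hb => ha.mul hb) odd_one (fun i _ => hS _)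
  rw [← h4, Nat.odd_mul, Nat.odd_mul, Nat.odd_mul] at h5
  exact h5.1.2.1

end Cfsg.Agent.Lib.ConjSub
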