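import Mathlib
import Cfsg.Agent.Lib.SubfOm2

/-!
# Overgroups of `Ω(V₀)` in `Ω(V)`: rationality of totally singular lines (helper98)
-/

set_option autoImplicit false
set_option linter.unusedSectionVars false

namespace Cfsg.Agent.Lib.SubfOm

open Cfsg.Agent.Lib QuadraticMap Module Cfsg.Agent.Lib.Quad Cfsg.Agent.Lib.OrthMax

variable {F V : Type*} [Field F] [Finite F] [AddCommGroup V] [Module F V] [FiniteDimensional F V]
variable {Q : QuadraticForm F V} {F₀ : Subfield F} {V0 : Submodule F₀ V} {M : Subgroup (V ≃ₗ[F] V)}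

/-- the alternating form of a line -/
def DD (Q : QuadraticForm F V) (v x y y' : V) : F := polar Q x y * polar Q v y' - polar Q v y * polar Q x y'

/-- rational centres have rational elements -/
def Rat (Q : QuadraticForm F V) (F₀ : Subfield F) (V0 : Submodule F₀ V) (M : Subgroup (V ≃ₗ[F] V)) : Prop :=
  ∀ z ∈ V0, z ≠ 0 → Q z = 0 → ∀ y : V, polar Q z y = 0 → SI Q M z y → ∃ c : F, y - c • z ∈ V0

section

variable (S : OrF Q F₀ V0) (H : Hyp Q F₀ V0 M) (hF : Rat Q F₀ V0 M)
include S H hF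

/-- **Lemma A** -/
theorem lemA {v x w₀ : V} (hv : Q v = 0) (hx : Q x = 0) (hvx : polar Q v x = 0) (h : SI Q M v x) (hw₀ : w₀ ∈ V0) (hw₀0 : w₀ ≠ 0)
    (hQw : Q w₀ = 0) (hwv : polar Q w₀ v = 0) (hwx : polar Q w₀ x = 0) {y y' : V} (hy : y ∈ V0) (hy' : y' ∈ V0)
    (hwy : polar Q w₀ y = 0) (hwy' : polar Q w₀ y' = 0) : DD Q v x y y' ∈ F₀ := by
  obtain ⟨g, hg, hgx⟩ := H.mem w₀ hw₀ y hy hQw hwy
  have hvv : polar Q v v = 0 := by rw [polar_self', hv, mul_zero]
  have hxx : polar Q x x = 0 := by rw [polar_self', hx, mul_zero]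
  have hww : polar Q w₀ w₀ = 0 := by rw [polar_self', hQw, mul_zero]
  have hxv : polar Q x v = 0 := by rw [polar_comm]; exact hvx
  have hvw : polar Q v w₀ = 0 := by rw [polar_comm]; exact hwv
  have hxw : polar Q x w₀ = 0 := by rw [polar_comm]; exact hwx
  set γ := polar Q v y with hγ
  set ξ := polar Q x y with hξ
  have e1 : g v = v - γ • w₀ := by
    rw [hgx, siegMap_apply, hwv, polar_comm Q y v]; simp [hγ]
  have e2 : g x = x - ξ • w₀ := by
    rw [hgx, siegMap_apply, hwx, polar_comm Q y x]; simp [hξ]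
  have h1 := h.map hg (H.le hg)
  rw [e1, e2] at h1
  have hQ1 : Q (x - ξ • w₀) = 0 := by rw [Q_sub, Q_smul, hx, hQw, polar_smul_right, hxw]; simp
  obtain ⟨t, ht, htx⟩ := SI_root hQ1 h1
  obtain ⟨t', ht', htx'⟩ := SI_root hx h
  have hη : SI Q M w₀ (ξ • v - γ • x) := by
    refine ⟨t * t'⁻¹, M.mul_mem ht (M.inv_mem ht'), fun u => ?_⟩
    have hQη : Q (ξ • v - γ • x) = 0 := by
      rw [Q_sub, Q_smul, Q_smul, hv, hx, polar_smul_left, polar_smul_right, hvx]; simp
    obtain ⟨u, rfl⟩ := t'.surjective u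
    have h2 : (t * t'⁻¹) (t' u) = t u := by
      change t ((t'⁻¹ * t') u) = t u
      rw [inv_mul_cancel]; rfl
    rw [h2, siegMap_sing hQη, htx, htx']
    simp only [polar_add_right, polar_sub_right, polar_smul_right, polar_sub_left, polar_smul_left, polar_add_left,
      hvv, hxx, hww, hxv, hvw, hxw, hwv, hwx, hvx, smul_eq_mul]
    module
  have hwη : polar Q w₀ (ξ • v - γ • x) = 0 := by
    rw [polar_sub_right, polar_smul_right, polar_smul_right, hwv, hwx]; simp
  obtain ⟨c, hc⟩ := hF w₀ hw₀ hw₀0 hQw _ hwη hη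
  have h3 := S.polar_mem hc hy'
  rw [polar_sub_left, polar_sub_left, polar_smul_left, polar_smul_left, polar_smul_left, hwy'] at h3
  have e3 : ξ • polar Q v y' - γ • polar Q x y' - c • (0 : F) = DD Q v x y y' := by
    rw [DD, ← hγ, ← hξ]; simp
  rwa [e3] at h3

/-- the line contains the rational vector -/
theorem dep_case {v x w₀ : V} (hv : Q v = 0) (hx : Q x = 0) (hvx : polar Q v x = 0) (h : SI Q M v x) (hw₀ : w₀ ∈ V0) (hw₀0 : w₀ ≠ 0)
    (hQw : Q w₀ = 0) (hwv : polar Q w₀ v = 0) (hwx : polar Q w₀ x = 0) {α β : F} (hab : w₀ = α • v + β • x)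
    {y y' : V} (hy : y ∈ V0) (hy' : y' ∈ V0) : DD Q v x y y' ∈ F₀ := by
  have key : ∀ u : V, polar Q w₀ u = 0 → SI Q M w₀ u → (polar Q u y * polar Q w₀ y' - polar Q w₀ y * polar Q u y') ∈ F₀ := by
    intro u hwu hu
    obtain ⟨c, hc⟩ := hF w₀ hw₀ hw₀0 hQw u hwu hu
    have h1 := F₀.sub_mem (F₀.mul_mem (S.polar_mem hc hy) (S.polar_mem hw₀ hy')) (F₀.mul_mem (S.polar_mem hw₀ hy) (S.polar_mem hc hy'))
    rw [polar_sub_left, polar_sub_left, polar_smul_left, polar_smul_left, smul_eq_mul, smul_eq_mul] at h1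
    convert h1 using 1
    ring
  by_cases hα : α = 0
  · have hβ : β ≠ 0 := by
      rintro rfl
      rw [hα, zero_smul, zero_smul, add_zero] at hab
      exact hw₀0 hab
    have hxe : x = β⁻¹ • w₀ := by
      rw [hab, hα, zero_smul, zero_add, smul_smul, inv_mul_cancel₀ hβ, one_smul]
    have h2 : SI Q M w₀ ((-β⁻¹) • v) := by
      have h3 := SI_swap hv hx h
      nth_rewrite 1 [hxe] at h3
      rw [SI.smul_left] at h3
      have e : β⁻¹ • -v = (-β⁻¹) • v := by module
      rwa [e] at h3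
    have h3 := key _ (by rw [polar_smul_right, hwv, smul_zero]) h2
    have e : DD Q v x y y' = polar Q ((-β⁻¹) • v) y * polar Q w₀ y' - polar Q w₀ y * polar Q ((-β⁻¹) • v) y' := by
      rw [DD, hxe, polar_smul_left, polar_smul_left, polar_smul_left, polar_smul_left]
      simp only [smul_eq_mul]; ring
    rw [e]; exact h3
  · have h2 : SI Q M w₀ (α⁻¹ • x) := by
      have h3 : SI Q M (α⁻¹ • w₀ + (-(α⁻¹ * β)) • x) ((1 : F) • ((0 : F) • w₀ + (1 : F) • x)) := by
        have e1 : α⁻¹ • w₀ + (-(α⁻¹ * β)) • x = v := by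
          rw [hab, smul_add, smul_smul, smul_smul, inv_mul_cancel₀ hα, one_smul]; module
        rw [e1, one_smul, one_smul, zero_smul, zero_add]; exact h
      have h4 := SI_comb hQw hx hwx h3
      have e : (1 : F) * (α⁻¹ * 1 - -(α⁻¹ * β) * 0) = α⁻¹ := by ring
      rwa [e] at h4
    have h3 := key _ (by rw [polar_smul_right, hwx, smul_zero]) h2
    convert h3 using 1
    rw [DD, hab, polar_smul_left, polar_smul_left, polar_add_left, polar_add_left, polar_smul_left, polar_smul_left,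
      polar_smul_left, polar_smul_left]
    simp only [smul_eq_mul]; field_simp; ring

/-- vectors orthogonal to `V0 ∩ w₀^⊥` are multiples of `w₀` -/
theorem mem_line {w₀ η : V} (hw₀ : w₀ ∈ V0) (hw₀0 : w₀ ≠ 0) (hQw : Q w₀ = 0)
    (h : ∀ y ∈ V0, polar Q w₀ y = 0 → polar Q η y = 0) : ∃ c : F, η = c • w₀ := by
  obtain ⟨z', hz', hQz', hzz', -⟩ := S.exists_partner hw₀ hQw ![] (fun i => i.elim0) (fun i => i.elim0) (by simpa using hw₀0)
  refine ⟨polar Q η z', ?_⟩
  by_contra hne
  obtain ⟨y, hy, hy0⟩ := S.nd0 (x := η - polar Q η z' • w₀) (sub_ne_zero.mpr hne)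
  apply hy0
  have h1 := h (y - polar Q w₀ y • z') (V0.sub_mem hy (S.smul_mem (S.polar_mem hw₀ hy) hz'))
    (by rw [polar_sub_right, polar_smul_right, hzz']; simp)
  rw [polar_sub_right, polar_smul_right] at h1
  rw [polar_sub_left, polar_smul_left]
  simp only [smul_eq_mul] at h1 ⊢
  linear_combination h1

/-- **Lemma A2** -/
theorem DD_mem {v x w₀ : V} (hv : Q v = 0) (hx : Q x = 0) (hvx : polar Q v x = 0) (h : SI Q M v x)
    (hind : ∀ α β : F, α • v + β • x = 0 → α = 0 ∧ β = 0) (hw₀ : w₀ ∈ V0) (hw₀0 : w₀ ≠ 0)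
    (hQw : Q w₀ = 0) (hwv : polar Q w₀ v = 0) (hwx : polar Q w₀ x = 0) {y y' : V} (hy : y ∈ V0) (hy' : y' ∈ V0) :
    DD Q v x y y' ∈ F₀ := by
  have hfin := S.fin
  have hd := S.dim
  obtain ⟨P, hP, hP2, hP3⟩ := S.finrank_perp (K := V0) le_rfl ![w₀] (by intro i; fin_cases i; exact hw₀)
  have hPm : ∀ u, u ∈ P ↔ u ∈ V0 ∧ polar Q w₀ u = 0 := by
    intro u
    rw [hP2]
    constructor
    · rintro ⟨h1, h2⟩; exact ⟨h1, by rw [polar_comm]; exact h2 0⟩
    · rintro ⟨h1, h2⟩
      refine ⟨h1, fun i => ?_⟩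
      fin_cases i
      change polar Q u w₀ = 0
      rw [polar_comm]; exact h2
  have hPF : ∀ u ∈ P, ∀ u' ∈ P, DD Q v x u u' ∈ F₀ := by
    intro u hu u' hu'
    obtain ⟨a1, a2⟩ := (hPm u).mp hu
    obtain ⟨b1, b2⟩ := (hPm u').mp hu'
    exact lemA S H hF hv hx hvx h hw₀ hw₀0 hQw hwv hwx a1 b1 a2 b2
  by_cases hD : ∃ y₁ ∈ P, ∃ y₂ ∈ P, DD Q v x y₁ y₂ ≠ 0
  · obtain ⟨y₁, hy₁, y₂, hy₂, hD⟩ := hD
    have : Module.Finite F₀ P := Module.Finite.of_injective (Submodule.inclusion hP) (Submodule.inclusion_injective hP)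
    -- the kernel
    let L : P →ₗ[F₀] (Fin 2 → F₀) :=
      { toFun := fun u => ![⟨DD Q v x y₁ u, hPF y₁ hy₁ u u.2⟩, ⟨DD Q v x y₂ u, hPF y₂ hy₂ u u.2⟩]
        map_add' := by
          intro a b
          ext i
          fin_cases i
          · change DD Q v x y₁ ((a : V) + b) = DD Q v x y₁ a + DD Q v x y₁ b
            simp only [DD, polar_add_right]; ring
          · change DD Q v x y₂ ((a : V) + b) = DD Q v x y₂ a + DD Q v x y₂ b
            simp only [DD, polar_add_right]; ring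
        map_smul' := by
          intro c a
          ext i
          fin_cases i
          · change DD Q v x y₁ ((c : F) • (a : V)) = (c : F) * DD Q v x y₁ a
            simp only [DD, polar_smul_right, smul_eq_mul]; ring
          · change DD Q v x y₂ ((c : F) • (a : V)) = (c : F) * DD Q v x y₂ a
            simp only [DD, polar_smul_right, smul_eq_mul]; ring }
    have hL1 := LinearMap.finrank_range_add_finrank_ker L
    have hL2 : finrank F₀ (LinearMap.range L) ≤ 2 := by
      have := Submodule.finrank_le (LinearMap.range L)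
      rwa [finrank_fin_fun] at this
    have hL3 : finrank F₀ ((LinearMap.ker L).map P.subtype) = finrank F₀ (LinearMap.ker L) :=
      (Submodule.equivMapOfInjective _ P.injective_subtype _).finrank_eq.symm
    set K := (LinearMap.ker L).map P.subtype with hK
    have hKP : K ≤ P := by rintro _ ⟨u, _, rfl⟩; exact u.2
    have hKv : ∀ u ∈ K, polar Q v u = 0 ∧ polar Q x u = 0 := by
      rintro _ ⟨u, hu, rfl⟩
      have h1 := congrArg Subtype.val (congrFun (LinearMap.mem_ker.mp hu) 0)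
      have h2 := congrArg Subtype.val (congrFun (LinearMap.mem_ker.mp hu) 1)
      change DD Q v x y₁ u = 0 at h1
      change DD Q v x y₂ u = 0 at h2
      change polar Q v (u : V) = 0 ∧ polar Q x (u : V) = 0
      simp only [DD] at h1 h2 hD
      constructor
      · have : (polar Q x y₁ * polar Q v y₂ - polar Q v y₁ * polar Q x y₂) * polar Q v (u : V) = 0 := by
          linear_combination polar Q v y₂ * h1 - polar Q v y₁ * h2
        exact (mul_eq_zero.mp this).resolve_left hD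
      · have : (polar Q x y₁ * polar Q v y₂ - polar Q v y₁ * polar Q x y₂) * polar Q x (u : V) = 0 := by
          linear_combination polar Q x y₂ * h1 - polar Q x y₁ * h2
        exact (mul_eq_zero.mp this).resolve_left hD
    obtain ⟨K', hK', hK'2, hK'3⟩ := S.finrank_perp (K := K) (hKP.trans hP) ![y, y'] (by
      intro i; fin_cases i
      · exact hy
      · exact hy')
    obtain ⟨w₁, hw₁, hw₁0, hQw₁⟩ := S.exists_sing (K := K') (hK'.trans (hKP.trans hP)) (by omega)
    obtain ⟨c1, c2⟩ := hKv w₁ (hK' hw₁)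
    have c3 := ((hK'2 w₁).mp hw₁).2 0
    have c4 := ((hK'2 w₁).mp hw₁).2 1
    exact lemA S H hF hv hx hvx h (hP (hKP (hK' hw₁))) hw₁0 hQw₁ (by rw [polar_comm]; exact c1) (by rw [polar_comm]; exact c2)
      hy hy' c3 c4
  · push Not at hD
    -- some `y₁ ∈ P` not orthogonal to the line
    obtain ⟨y₁, hy₁, hne⟩ : ∃ y₁ ∈ P, ¬ (polar Q v y₁ = 0 ∧ polar Q x y₁ = 0) := by
      by_contra hcon
      push Not at hcon
      obtain ⟨c, hc⟩ := mem_line S H hF hw₀ hw₀0 hQw (η := v) (fun u hu hwu => (hcon u ((hPm u).mpr ⟨hu, hwu⟩)).1)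
      obtain ⟨d, hd⟩ := mem_line S H hF hw₀ hw₀0 hQw (η := x) (fun u hu hwu => (hcon u ((hPm u).mpr ⟨hu, hwu⟩)).2)
      have h1 : d • v + (-c) • x = 0 := by rw [hc, hd]; module
      have h2 := (hind _ _ h1).2
      have h3 : c = 0 := by simpa using h2
      rw [h3, zero_smul] at hc
      have h4 := hind 1 0 (by rw [hc]; simp)
      exact one_ne_zero h4.1
    obtain ⟨c, hc⟩ := mem_line S H hF hw₀ hw₀0 hQw (η := polar Q x y₁ • v - polar Q v y₁ • x) (fun u hu hwu => by
      have := hD y₁ hy₁ u ((hPm u).mpr ⟨hu, hwu⟩)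
      rw [polar_sub_left, polar_smul_left, polar_smul_left]
      exact this)
    have hc0 : c ≠ 0 := by
      rintro rfl
      rw [zero_smul] at hc
      have h1 : polar Q x y₁ • v + (-polar Q v y₁) • x = 0 := by rw [← hc]; module
      obtain ⟨h2, h3⟩ := hind _ _ h1
      exact hne ⟨by simpa using h3, h2⟩
    have hab : w₀ = (c⁻¹ * polar Q x y₁) • v + (-(c⁻¹ * polar Q v y₁)) • x := by
      have : w₀ = c⁻¹ • (c • w₀) := by rw [smul_smul, inv_mul_cancel₀ hc0, one_smul]
      rw [this, ← hc]; module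
    exact dep_case S H hF hv hx hvx h hw₀ hw₀0 hQw hwv hwx hab hy hy'

omit H hF in
/-- rational vectors of the line -/
theorem vec_mem {v x : V} (hD : ∀ y ∈ V0, ∀ y' ∈ V0, DD Q v x y y' ∈ F₀) {y : V} (hy : y ∈ V0) :
    polar Q x y • v - polar Q v y • x ∈ V0 := by
  apply S.mem_of_dual
  intro y' hy'
  rw [polar_sub_left, polar_smul_left, polar_smul_left]
  exact hD y hy y' hy'

omit H hF in
/-- the form of a line is not zero -/
theorem DD_ne {v x : V} (hind : ∀ α β : F, α • v + β • x = 0 → α = 0 ∧ β = 0) :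
    ∃ y ∈ V0, ∃ y' ∈ V0, DD Q v x y y' ≠ 0 := by
  by_contra hcon
  push Not at hcon
  have hx0 : x ≠ 0 := by
    rintro rfl
    exact one_ne_zero (hind 0 1 (by simp)).2
  obtain ⟨y, hy, hxy⟩ := S.nd0 hx0
  have h1 : polar Q x y • v + (-polar Q v y) • x = 0 := by
    by_contra hne
    obtain ⟨y', hy', h2⟩ := S.nd0 hne
    apply h2
    rw [polar_add_left, polar_smul_left, polar_smul_left, smul_eq_mul, smul_eq_mul]
    have := hcon y hy y' hy'
    simp only [DD] at this
    linear_combination this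
  exact hxy (hind _ _ h1).1

omit H hF in
/-- two rational lines meet in a rational vector -/
theorem rat_of_two {v x x' : V} (hD : ∀ y ∈ V0, ∀ y' ∈ V0, DD Q v x y y' ∈ F₀) (hD' : ∀ y ∈ V0, ∀ y' ∈ V0, DD Q v x' y y' ∈ F₀)
    (hind : ∀ α β : F, α • v + β • x' = 0 → α = 0 ∧ β = 0) (hx : ∀ α β : F, x ≠ α • v + β • x') :
    ∃ c : F, c ≠ 0 ∧ c • v ∈ V0 := by
  obtain ⟨y₁, hy₁, y₂, hy₂, hne⟩ := DD_ne S hind
  have a1 := vec_mem S hD' hy₁
  have a2 := vec_mem S hD' hy₂
  set e₁ := polar Q x' y₁ • v - polar Q v y₁ • x' with he₁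
  set e₂ := polar Q x' y₂ • v - polar Q v y₂ • x' with he₂
  -- independence of `e₁, e₂`
  have hie : ∀ α β : F, α • e₁ + β • e₂ = 0 → α = 0 ∧ β = 0 := by
    intro α β h
    have h1 : (α * polar Q x' y₁ + β * polar Q x' y₂) • v + (-(α * polar Q v y₁ + β * polar Q v y₂)) • x' = 0 := by
      rw [← h, he₁, he₂]; module
    obtain ⟨h2, h3⟩ := hind _ _ h1
    simp only [DD] at hne
    constructor
    · have : (polar Q x' y₁ * polar Q v y₂ - polar Q v y₁ * polar Q x' y₂) * α = 0 := by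
        linear_combination polar Q v y₂ * h2 + polar Q x' y₂ * h3
      exact (mul_eq_zero.mp this).resolve_left hne
    · have : (polar Q x' y₁ * polar Q v y₂ - polar Q v y₁ * polar Q x' y₂) * β = 0 := by
        linear_combination -polar Q v y₁ * h2 - polar Q x' y₁ * h3
      exact (mul_eq_zero.mp this).resolve_left hne
  -- dual vectors
  have hn1 : e₁ ∉ Submodule.span F₀ {e₂} := by
    intro hs
    obtain ⟨c, hc⟩ := Submodule.mem_span_singleton.mp hs
    have h1 : (1 : F) • e₁ + (-(c : F)) • e₂ = 0 := by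
      rw [← hc]; change (1 : F) • ((c : F) • e₂) + (-(c : F)) • e₂ = 0; module
    exact one_ne_zero (hie _ _ h1).1
  have hn2 : e₂ ∉ Submodule.span F₀ {e₁} := by
    intro hs
    obtain ⟨c, hc⟩ := Submodule.mem_span_singleton.mp hs
    have h1 : (-(c : F)) • e₁ + (1 : F) • e₂ = 0 := by
      rw [← hc]; change (-(c : F)) • e₁ + (1 : F) • ((c : F) • e₁) = 0; module
    exact one_ne_zero (hie _ _ h1).2
  obtain ⟨f₁, hf₁, b1, b2⟩ := S.exists_sep a1 hn1
  obtain ⟨f₂, hf₂, b3, b4⟩ := S.exists_sep a2 hn2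
  have b1' : polar Q e₂ f₁ = 0 := b1 e₂ (Submodule.mem_span_singleton_self _) a2
  have b3' : polar Q e₁ f₂ = 0 := b3 e₁ (Submodule.mem_span_singleton_self _) a1
  -- `y ∈ V0` orthogonal to `v, x'` and not to `x`
  obtain ⟨y, hy, c1, c2, c3⟩ : ∃ y ∈ V0, polar Q e₁ y = 0 ∧ polar Q e₂ y = 0 ∧ polar Q x y ≠ 0 := by
    by_contra hcon
    push Not at hcon
    have h1 : x - polar Q x f₁ • e₁ - polar Q x f₂ • e₂ = 0 := by
      by_contra hne
      obtain ⟨y, hy, h2⟩ := S.nd0 hne
      apply h2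
      have h3 := hcon (y - polar Q e₁ y • f₁ - polar Q e₂ y • f₂)
        (V0.sub_mem (V0.sub_mem hy (S.smul_mem (S.polar_mem a1 hy) hf₁)) (S.smul_mem (S.polar_mem a2 hy) hf₂))
        (by rw [polar_sub_right, polar_sub_right, polar_smul_right, polar_smul_right, b2, b3']; simp)
        (by rw [polar_sub_right, polar_sub_right, polar_smul_right, polar_smul_right, b4, b1']; simp)
      rw [polar_sub_right, polar_sub_right, polar_smul_right, polar_smul_right] at h3
      rw [polar_sub_left, polar_sub_left, polar_smul_left, polar_smul_left]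
      simp only [smul_eq_mul] at h3 ⊢
      linear_combination h3
    apply hx (polar Q x f₁ * polar Q x' y₁ + polar Q x f₂ * polar Q x' y₂) (-(polar Q x f₁ * polar Q v y₁ + polar Q x f₂ * polar Q v y₂))
    have h2 : x = polar Q x f₁ • e₁ + polar Q x f₂ • e₂ := by
      have : x = (x - polar Q x f₁ • e₁ - polar Q x f₂ • e₂) + polar Q x f₁ • e₁ + polar Q x f₂ • e₂ := by abel
      rw [h1, zero_add] at this
      exact this
    nth_rewrite 1 [h2]
    rw [he₁, he₂]; module
  have hvy : polar Q v y = 0 := by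
    rw [he₁, polar_sub_left, polar_smul_left, polar_smul_left] at c1
    rw [he₂, polar_sub_left, polar_smul_left, polar_smul_left] at c2
    simp only [DD] at hne
    simp only [smul_eq_mul] at c1 c2
    have : (polar Q x' y₁ * polar Q v y₂ - polar Q v y₁ * polar Q x' y₂) * polar Q v y = 0 := by
      linear_combination polar Q v y₂ * c1 - polar Q v y₁ * c2
    exact (mul_eq_zero.mp this).resolve_left hne
  refine ⟨polar Q x y, c3, ?_⟩
  have := vec_mem S hD hy
  rwa [hvy, zero_smul, sub_zero] at this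

end

end Cfsg.Agent.Lib.SubfOm
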