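import Mathlib
import Cfsg.Agent.Lib.SubfOm3
import Cfsg.Agent.Lib.SubfRankTwo2
import Cfsg.Agent.Lib.SubfSp4

/-!
# Overgroups of `Ω(V₀)` in `Ω(V)`: lines orthogonal to no rational singular vector (helper98)
-/

set_option autoImplicit false
set_option linter.unusedSectionVars false

namespace Cfsg.Agent.Lib.SubfOm

open Cfsg.Agent.Lib QuadraticMap Module Cfsg.Agent.Lib.Quad Cfsg.Agent.Lib.OrthMax Cfsg.Agent.Lib.ClSL2
open Cfsg.Agent.Lib.SubfSp (Rel)
open scoped MatrixGroups

variable {F V : Type*} [Field F] [Finite F] [AddCommGroup V] [Module F V] [FiniteDimensional F V]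
variable {Q : QuadraticForm F V} {F₀ : Subfield F} {V0 : Submodule F₀ V} {M : Subgroup (V ≃ₗ[F] V)}

/-- the subgroup of `SL_2` -/
def relK2 (M : Subgroup (V ≃ₗ[F] V)) (R : Submodule F V) (a b c d : V) : Subgroup SL(2, F) where
  carrier := {κ | ∃ g ∈ M, Rel R a b g κ ∧ Rel R c d g κ}
  mul_mem' := by
    rintro κ κ' ⟨g, hg, h, h'⟩ ⟨g', hg', k, k'⟩
    exact ⟨g * g', M.mul_mem hg hg', h.mul k, h'.mul k'⟩
  one_mem' := ⟨1, M.one_mem, SubfSp.Rel.one R a b, SubfSp.Rel.one R c d⟩
  inv_mem' := by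
    rintro κ ⟨g, hg, h, h'⟩
    exact ⟨g⁻¹, M.inv_mem hg, h.inv, h'.inv⟩

section

variable (S : OrF Q F₀ V0)
include S

/-- `F₀`-independence of rational vectors implies `F`-independence -/
theorem li2 {w w' : V} (hw : w ∈ V0) (hw' : w' ∈ V0) (hw0 : w ≠ 0) (h : w' ∉ Submodule.span F₀ {w}) :
    ∀ α β : F, α • w + β • w' = 0 → α = 0 ∧ β = 0 := by
  intro α β hab
  obtain ⟨u, hu, h1, h2⟩ := S.exists_sep hw' h
  have h3 : polar Q w u = 0 := h1 w (Submodule.mem_span_singleton_self w) hw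
  have h4 : polar Q (α • w + β • w') u = 0 := by rw [hab, polar_zero_left]
  rw [polar_add_left, polar_smul_left, polar_smul_left, h2, h3, smul_zero, zero_add, smul_eq_mul, mul_one] at h4
  rw [h4, zero_smul, add_zero] at hab
  exact ⟨(smul_eq_zero.mp hab).resolve_right hw0, h4⟩

theorem li3 {w w' w'' : V} (hw : w ∈ V0) (hw' : w' ∈ V0) (hw'' : w'' ∈ V0) (h : w'' ∉ Submodule.span F₀ {w, w'}) :
    ∀ α β : F, w'' ≠ α • w + β • w' := by
  intro α β hab
  obtain ⟨u, hu, h1, h2⟩ := S.exists_sep hw'' h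
  have h3 : polar Q w u = 0 := h1 w (Submodule.subset_span (by simp)) hw
  have h4 : polar Q w' u = 0 := h1 w' (Submodule.subset_span (by simp)) hw'
  rw [hab, polar_add_left, polar_smul_left, polar_smul_left, h3, h4, smul_zero, smul_zero, add_zero] at h2
  exact zero_ne_one h2

/-- coefficients of a rational combination are rational -/
theorem coef_mem {p q : V} (hp : p ∈ V0) (hq : q ∈ V0) (hpq : p ∉ Submodule.span F₀ {q}) {α β : F} (h : α • p + β • q ∈ V0) :
    α ∈ F₀ := by
  obtain ⟨u, hu, h1, h2⟩ := S.exists_sep hp hpq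
  have h3 : polar Q q u = 0 := h1 q (Submodule.mem_span_singleton_self q) hq
  have h4 := S.polar_mem h hu
  rwa [polar_add_left, polar_smul_left, polar_smul_left, h2, h3, smul_zero, add_zero, smul_eq_mul, mul_one] at h4

/-- the degree is large -/
theorem deg_large [Fintype F] (r : ℕ) (hr : r.Prime) (hcard : Fintype.card F = Nat.card F₀ ^ r) {v x : V}
    (hno : ∀ w ∈ V0, Q w = 0 → polar Q v w = 0 → polar Q x w = 0 → w = 0) : 7 ≤ r := by
  have hfin := S.fin
  have hd := S.dim
  haveI : Module.Finite F₀ F := Module.Finite.of_finite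
  haveI : Fintype F₀ := Fintype.ofFinite F₀
  have hrF : finrank F₀ F = r := by
    have h1 := Module.card_eq_pow_finrank (K := F₀) (V := F)
    rw [hcard, Nat.card_eq_fintype_card] at h1
    exact (Nat.pow_right_injective (Fintype.one_lt_card (α := F₀)) h1).symm
  let L : V0 →ₗ[F₀] F × F :=
    { toFun := fun y => (polar Q v (y : V), polar Q x (y : V))
      map_add' := by intro a b; ext <;> simp [polar_add_right]
      map_smul' := by
        intro c a
        ext
        · exact polar_smul_right Q (c : F) v (a : V)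
        · exact polar_smul_right Q (c : F) x (a : V) }
  have h1 := LinearMap.finrank_range_add_finrank_ker L
  have h2 : finrank F₀ (LinearMap.range L) ≤ 2 * r := by
    have := Submodule.finrank_le (LinearMap.range L)
    rw [Module.finrank_prod, hrF] at this
    omega
  have h3 : finrank F₀ (LinearMap.ker L) ≤ 2 := by
    by_contra hcon
    have h4 : finrank F₀ ((LinearMap.ker L).map V0.subtype) = finrank F₀ (LinearMap.ker L) :=
      (Submodule.equivMapOfInjective _ V0.injective_subtype _).finrank_eq.symm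
    obtain ⟨u, hu, hu0, hQu⟩ := S.exists_sing (K := (LinearMap.ker L).map V0.subtype) (by
      rintro _ ⟨y, _, rfl⟩; exact y.2) (by omega)
    obtain ⟨y, hy, rfl⟩ := hu
    have h5 := LinearMap.mem_ker.mp hy
    exact hu0 (hno y y.2 hQu (congrArg Prod.fst h5) (congrArg Prod.snd h5))
  have h6 : 6 ≤ r := by omega
  rcases Nat.lt_or_ge 6 r with h | h
  · exact h
  · exfalso
    have : r = 6 := by omega
    rw [this] at hr
    norm_num at hr

/-- two orthogonal singular rational vectors on which the line is nondegenerate -/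
theorem exists_pair {v x : V} (hv : Q v = 0) (hvx : polar Q v x = 0)
    (hind : ∀ α β : F, α • v + β • x = 0 → α = 0 ∧ β = 0) :
    ∃ y ∈ V0, ∃ y' ∈ V0, Q y = 0 ∧ Q y' = 0 ∧ polar Q y y' = 0 ∧ DD Q v x y y' ≠ 0 := by
  by_contra hcon
  push Not at hcon
  have hv0 : v ≠ 0 := by
    rintro rfl
    exact one_ne_zero (hind 1 0 (by simp)).1
  -- a singular `y` not orthogonal to `v`
  obtain ⟨y, hy, hQy, hvy⟩ : ∃ y ∈ V0, Q y = 0 ∧ polar Q v y ≠ 0 := by
    by_contra hcon2
    push Not at hcon2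
    let T : Submodule F₀ V :=
      { carrier := {u | polar Q v u = 0}
        add_mem' := by
          intro a b ha hb
          change polar Q v (a + b) = 0
          rw [polar_add_right, show polar Q v a = 0 from ha, show polar Q v b = 0 from hb, add_zero]
        zero_mem' := polar_zero_right _ _
        smul_mem' := by
          intro c a ha
          change polar Q v ((c : F) • a) = 0
          rw [polar_smul_right, show polar Q v a = 0 from ha, smul_zero] }
    have h1 : V0 ≤ T := S.sing_span_top hcon2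
    obtain ⟨u, hu, hu2⟩ := S.nd0 hv0
    exact hu2 (h1 hu)
  have hy0 : y ≠ 0 := by
    rintro rfl
    exact hvy (polar_zero_right _ _)
  set η := polar Q x y • v - polar Q v y • x with hη
  -- `η` is orthogonal to `V0 ∩ y^⊥`
  have m1 : ∀ i, (![y] : Fin 1 → V) i ∈ V0 := by intro i; fin_cases i; exact hy
  obtain ⟨P, hP, hP2, -⟩ := S.finrank_perp (K := V0) le_rfl ![y] m1
  have hPm : ∀ u, u ∈ P ↔ u ∈ V0 ∧ polar Q y u = 0 := by
    intro u
    rw [hP2]
    constructor
    · rintro ⟨h1, h2⟩; exact ⟨h1, by rw [polar_comm]; exact h2 0⟩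
    · rintro ⟨h1, h2⟩
      refine ⟨h1, fun i => ?_⟩
      fin_cases i
      change polar Q u y = 0
      rw [polar_comm]; exact h2
  obtain ⟨e, he, he0, hQe, he1, he2⟩ := S.exists_sing_perp (n := 1) (by omega) ![y] m1
  obtain ⟨f, hf, hQf, hef, hf1⟩ := S.exists_partner he hQe ![y] m1 he1 he2
  let T : Submodule F₀ V :=
    { carrier := {u | polar Q η u = 0}
      add_mem' := by
        intro a b ha hb
        change polar Q η (a + b) = 0
        rw [polar_add_right, show polar Q η a = 0 from ha, show polar Q η b = 0 from hb, add_zero]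
      zero_mem' := polar_zero_right _ _
      smul_mem' := by
        intro c a ha
        change polar Q η ((c : F) • a) = 0
        rw [polar_smul_right, show polar Q η a = 0 from ha, smul_zero] }
  have hPT : P ≤ T := S.sing_span hP ((hPm e).mpr ⟨he, he1 0⟩) ((hPm f).mpr ⟨hf, hf1 0⟩) hQe hQf hef (fun u hu hQu => by
    obtain ⟨a1, a2⟩ := (hPm u).mp hu
    have h1 := hcon y hy u a1 hQy hQu a2
    change polar Q η u = 0
    rw [hη, polar_sub_left, polar_smul_left, polar_smul_left]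
    exact h1)
  -- hence `η` is a multiple of `y`
  obtain ⟨y₁, hy₁, hQy₁, hyy₁, -⟩ := S.exists_partner hy hQy ![] (fun i => i.elim0) (fun i => i.elim0) (by simpa using hy0)
  have hηc : η = polar Q η y₁ • y := by
    by_contra hne
    obtain ⟨u, hu, hu0⟩ := S.nd0 (x := η - polar Q η y₁ • y) (sub_ne_zero.mpr hne)
    apply hu0
    have h1 : polar Q η (u - polar Q y u • y₁) = 0 := hPT ((hPm _).mpr
      ⟨V0.sub_mem hu (S.smul_mem (S.polar_mem hy hu) hy₁), by rw [polar_sub_right, polar_smul_right, hyy₁]; simp⟩)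
    rw [polar_sub_right, polar_smul_right] at h1
    rw [polar_sub_left, polar_smul_left]
    simp only [smul_eq_mul] at h1 ⊢
    linear_combination h1
  set c := polar Q η y₁ with hc
  have hvv : polar Q v v = 0 := by rw [polar_self', hv, mul_zero]
  have hηv : polar Q v η = 0 := by
    rw [hη, polar_sub_right, polar_smul_right, polar_smul_right, hvv, hvx]; simp
  have hc0 : c = 0 := by
    rw [hηc, polar_smul_right, smul_eq_mul] at hηv
    exact (mul_eq_zero.mp hηv).resolve_right hvy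
  rw [hc0, zero_smul] at hηc
  have h1 : polar Q x y • v + (-polar Q v y) • x = 0 := by rw [← hηc, hη]; module
  exact hvy (by simpa using (hind _ _ h1).2)

end

section

variable (S : OrF Q F₀ V0) (H : Hyp Q F₀ V0 M) (hF : Rat Q F₀ V0 M)
include S H

/-- the scaling elements -/
theorem exists_scale [Fintype F] (r : ℕ) (hr : r.Prime) (hcard : Fintype.card F = Nat.card F₀ ^ r) {v x : V}
    (hv : Q v = 0) (hx : Q x = 0) (hvx : polar Q v x = 0) (h : SI Q M v x)
    {W : Submodule F₀ V} (hW : W ≤ V0) (hW6 : finrank F₀ W = 6) (hQW : ∀ w ∈ W, Q w = 0)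
    (hinj : ∀ w ∈ W, polar Q v w = 0 → polar Q x w = 0 → w = 0)
    {y₁ y₂ : V} (hy₁ : y₁ ∈ W) (hy₂ : y₂ ∈ W) (hD : DD Q v x y₁ y₂ ≠ 0) {μ : F} (hμ : μ ≠ 0) :
    ∃ g ∈ M, ∃ ε : F, ε ^ 2 = 1 ∧ ∀ s ∈ Submodule.span F (W : Set V), g s ∈ Submodule.span F (W : Set V) ∧
      polar Q v (g s) = ε * μ * polar Q v s ∧ polar Q x (g s) = ε * μ * polar Q x s := by
  classical
  have hfin := S.fin
  haveI : Module.Finite F₀ W := Module.Finite.of_injective (Submodule.inclusion hW) (Submodule.inclusion_injective hW)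
  set SW : Submodule F V := Submodule.span F (W : Set V) with hSW
  have hWS : ∀ w ∈ W, w ∈ SW := fun w hw => Submodule.subset_span hw
  have hiso : ∀ s ∈ SW, ∀ w ∈ W, polar Q w s = 0 := by
    intro s hs w hw
    have h1 : SW ≤ LinearMap.ker (polarBilin Q w) := by
      rw [hSW, Submodule.span_le]
      intro z hz
      exact OrF.polar_of_ts hQW hw hz
    exact h1 hs
  set R : Submodule F V := SW ⊓ (LinearMap.ker (polarBilin Q v) ⊓ LinearMap.ker (polarBilin Q x)) with hR
  have hRm : ∀ u, u ∈ R ↔ u ∈ SW ∧ polar Q v u = 0 ∧ polar Q x u = 0 := fun u => Iff.rfl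
  have hvv : polar Q v v = 0 := by rw [polar_self', hv, mul_zero]
  have hxx : polar Q x x = 0 := by rw [polar_self', hx, mul_zero]
  have hxv : polar Q x v = 0 := by rw [polar_comm]; exact hvx
  set d := DD Q v x y₁ y₂ with hd
  obtain ⟨e₁, he₁S, he₁v, he₁x⟩ : ∃ e₁ ∈ SW, polar Q v e₁ = 1 ∧ polar Q x e₁ = 0 := by
    refine ⟨d⁻¹ • (polar Q x y₁ • y₂ - polar Q x y₂ • y₁), SW.smul_mem _ (SW.sub_mem (SW.smul_mem _ (hWS _ hy₂)) (SW.smul_mem _ (hWS _ hy₁))), ?_, ?_⟩
    · rw [polar_smul_right, polar_sub_right, polar_smul_right, polar_smul_right]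
      simp only [smul_eq_mul]
      have : polar Q x y₁ * polar Q v y₂ - polar Q x y₂ * polar Q v y₁ = d := by rw [hd, DD]; ring
      rw [this, inv_mul_cancel₀ hD]
    · rw [polar_smul_right, polar_sub_right, polar_smul_right, polar_smul_right]
      simp only [smul_eq_mul]; ring
  obtain ⟨e₂, he₂S, he₂v, he₂x⟩ : ∃ e₂ ∈ SW, polar Q v e₂ = 0 ∧ polar Q x e₂ = 1 := by
    refine ⟨d⁻¹ • (polar Q v y₂ • y₁ - polar Q v y₁ • y₂), SW.smul_mem _ (SW.sub_mem (SW.smul_mem _ (hWS _ hy₁)) (SW.smul_mem _ (hWS _ hy₂))), ?_, ?_⟩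
    · rw [polar_smul_right, polar_sub_right, polar_smul_right, polar_smul_right]
      simp only [smul_eq_mul]; ring
    · rw [polar_smul_right, polar_sub_right, polar_smul_right, polar_smul_right]
      simp only [smul_eq_mul]
      have : polar Q v y₂ * polar Q x y₁ - polar Q v y₁ * polar Q x y₂ = d := by rw [hd, DD]; ring
      rw [this, inv_mul_cancel₀ hD]
  -- upper elements
  have hup : ∀ w ∈ W, ∀ w' ∈ W, uS (DD Q v x w' w) ∈ relK2 M R e₂ v e₁ (-x) := by
    intro w hw w' hw'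
    have hww' : polar Q w w' = 0 := OrF.polar_of_ts hQW hw hw'
    obtain ⟨g, hg, hgx⟩ := SI_root (hQW w' hw') (H.mem w (hW hw) w' (hW hw') (hQW w hw) hww')
    have hgS : ∀ s ∈ SW, g s = s := by
      intro s hs
      rw [hgx, hiso s hs w hw, hiso s hs w' hw']; simp
    refine ⟨g, hg, ⟨fun u hu => hgS u ((hRm u).mp hu).1, ?_, ?_⟩, ⟨fun u hu => hgS u ((hRm u).mp hu).1, ?_, ?_⟩⟩
    · rw [hgS e₂ he₂S, coe_uS]; simp
    · rw [coe_uS, hRm]
      have e : g v - ((!![1, DD Q v x w' w; 0, 1] : Matrix (Fin 2) (Fin 2) F) 0 1 • e₂ +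
          (!![1, DD Q v x w' w; 0, 1] : Matrix (Fin 2) (Fin 2) F) 1 1 • v) =
          polar Q w v • w' - polar Q w' v • w - DD Q v x w' w • e₂ := by
        rw [hgx]; simp; abel
      rw [e]
      refine ⟨SW.sub_mem (SW.sub_mem (SW.smul_mem _ (hWS _ hw')) (SW.smul_mem _ (hWS _ hw))) (SW.smul_mem _ he₂S), ?_, ?_⟩
      · rw [polar_sub_right, polar_sub_right, polar_smul_right, polar_smul_right, polar_smul_right, he₂v,
          polar_comm Q w v, polar_comm Q w' v]
        simp only [smul_eq_mul]; ring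
      · rw [polar_sub_right, polar_sub_right, polar_smul_right, polar_smul_right, polar_smul_right, he₂x,
          polar_comm Q w v, polar_comm Q w' v, DD]
        simp only [smul_eq_mul]; ring
    · rw [hgS e₁ he₁S, coe_uS]; simp
    · rw [coe_uS, hRm]
      have e : g (-x) - ((!![1, DD Q v x w' w; 0, 1] : Matrix (Fin 2) (Fin 2) F) 0 1 • e₁ +
          (!![1, DD Q v x w' w; 0, 1] : Matrix (Fin 2) (Fin 2) F) 1 1 • (-x)) =
          -(polar Q w x • w' - polar Q w' x • w) - DD Q v x w' w • e₁ := by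
        rw [map_neg, hgx]; simp; abel
      rw [e]
      refine ⟨SW.sub_mem (SW.neg_mem (SW.sub_mem (SW.smul_mem _ (hWS _ hw')) (SW.smul_mem _ (hWS _ hw)))) (SW.smul_mem _ he₁S), ?_, ?_⟩
      · rw [polar_sub_right, polar_neg_right, polar_sub_right, polar_smul_right, polar_smul_right, polar_smul_right, he₁v,
          polar_comm Q w x, polar_comm Q w' x, DD]
        simp only [smul_eq_mul]; ring
      · rw [polar_sub_right, polar_neg_right, polar_sub_right, polar_smul_right, polar_smul_right, polar_smul_right, he₁x,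
          polar_comm Q w x, polar_comm Q w' x]
        simp only [smul_eq_mul]; ring
  -- the lower element
  have hlow : lS (-1) ∈ relK2 M R e₂ v e₁ (-x) := by
    obtain ⟨g, hg, hgx⟩ := SI_root hx h
    have hgR : ∀ u ∈ R, g u = u := by
      intro u hu
      obtain ⟨-, h1, h2⟩ := (hRm u).mp hu
      rw [hgx, h1, h2]; simp
    refine ⟨g, hg, ⟨hgR, ?_, ?_⟩, ⟨hgR, ?_, ?_⟩⟩
    · rw [coe_lS, hgx, he₂v, he₂x]
      have e : e₂ + (0 : F) • x - (1 : F) • v - ((!![1, 0; -1, 1] : Matrix (Fin 2) (Fin 2) F) 0 0 • e₂ +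
          (!![1, 0; -1, 1] : Matrix (Fin 2) (Fin 2) F) 1 0 • v) = 0 := by simp; abel
      rw [e]; exact R.zero_mem
    · rw [coe_lS, hgx, hvv, hxv]; simp
    · rw [coe_lS, hgx, he₁v, he₁x]; simp
    · rw [coe_lS, map_neg, hgx, hvx, hxx]; simp
  -- `Λ`
  set T : Set F := {l | ∃ w ∈ W, ∃ w' ∈ W, l = DD Q v x w' w} with hT
  set Λ : AddSubgroup F := AddSubgroup.closure T with hΛdef
  have hΛU : ∀ l ∈ Λ, uS l ∈ relK2 M R e₂ v e₁ (-x) := by
    intro l hl
    have hadd : ∀ x y : F, uS (x + y) = uS x * uS y := by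
      intro x y
      apply Subtype.ext
      change ((uS (x + y) : SL(2, F)) : Matrix (Fin 2) (Fin 2) F) = ((uS x * uS y : SL(2, F)) : Matrix (Fin 2) (Fin 2) F)
      rw [Matrix.SpecialLinearGroup.coe_mul, coe_uS, coe_uS, coe_uS, Matrix.mul_fin_two]
      simp [add_comm]
    induction hl using AddSubgroup.closure_induction with
    | mem x hx => obtain ⟨w, hw, w', hw', rfl⟩ := hx; exact hup w hw w' hw'
    | zero => rw [uS_zero]; exact Subgroup.one_mem _
    | add x y _ _ h1 h2 => rw [hadd]; exact Subgroup.mul_mem _ h1 h2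
    | neg x _ h1 =>
      have e : uS (-x) = (uS x)⁻¹ := by
        rw [eq_inv_iff_mul_eq_one, ← hadd, neg_add_cancel, uS_zero]
      rw [e]; exact Subgroup.inv_mem _ h1
  have hΛs : ∀ s ∈ F₀, ∀ l ∈ Λ, s * l ∈ Λ := by
    intro s hs l hl
    induction hl using AddSubgroup.closure_induction with
    | mem x' hx' =>
      obtain ⟨w, hw, w', hw', rfl⟩ := hx'
      refine AddSubgroup.subset_closure ⟨s • w, W.smul_mem (⟨s, hs⟩ : F₀) hw, w', hw', ?_⟩
      simp only [DD, polar_smul_right, smul_eq_mul]; ring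
    | zero => rw [mul_zero]; exact Λ.zero_mem
    | add x y _ _ h1 h2 => rw [mul_add]; exact Λ.add_mem h1 h2
    | neg x _ h1 => rw [mul_neg]; exact Λ.neg_mem h1
  have hcW : Nat.card W = Nat.card F₀ ^ 6 := by
    haveI : Finite W := Module.finite_of_finite F₀
    haveI : Fintype W := Fintype.ofFinite W
    haveI : Fintype F₀ := Fintype.ofFinite F₀
    rw [Nat.card_eq_fintype_card, Nat.card_eq_fintype_card, Module.card_eq_pow_finrank (K := F₀), hW6]
  have hcΛ : Nat.card W ≤ Nat.card Λ * Nat.card Λ := by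
    rw [← Nat.card_prod]
    apply Nat.card_le_card_of_injective (fun w : W => ((⟨DD Q v x y₁ w, AddSubgroup.subset_closure ⟨w, w.2, y₁, hy₁, rfl⟩⟩ : Λ),
      (⟨DD Q v x y₂ w, AddSubgroup.subset_closure ⟨w, w.2, y₂, hy₂, rfl⟩⟩ : Λ)))
    intro a b hab
    have h1 : DD Q v x y₁ a = DD Q v x y₁ b := congrArg Subtype.val (congrArg Prod.fst hab)
    have h2 : DD Q v x y₂ a = DD Q v x y₂ b := congrArg Subtype.val (congrArg Prod.snd hab)
    apply Subtype.ext
    rw [← sub_eq_zero]
    simp only [DD] at h1 h2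
    have hd' : polar Q x y₁ * polar Q v y₂ - polar Q v y₁ * polar Q x y₂ ≠ 0 := hD
    apply hinj _ (W.sub_mem a.2 b.2)
    · rw [polar_sub_right]
      have : (polar Q x y₁ * polar Q v y₂ - polar Q v y₁ * polar Q x y₂) * (polar Q v (a : V) - polar Q v (b : V)) = 0 := by
        linear_combination polar Q v y₂ * h1 - polar Q v y₁ * h2
      exact (mul_eq_zero.mp this).resolve_left hd'
    · rw [polar_sub_right]
      have : (polar Q x y₁ * polar Q v y₂ - polar Q v y₁ * polar Q x y₂) * (polar Q x (a : V) - polar Q x (b : V)) = 0 := by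
        linear_combination polar Q x y₂ * h1 - polar Q x y₁ * h2
      exact (mul_eq_zero.mp this).resolve_left hd'
  have hq₀ : 2 ≤ Nat.card F₀ := Finite.one_lt_card
  have hcube : Nat.card F₀ ^ 3 ≤ Nat.card Λ := by
    by_contra hcon
    push Not at hcon
    have h1 : Nat.card Λ * Nat.card Λ < Nat.card F₀ ^ 3 * Nat.card F₀ ^ 3 := Nat.mul_lt_mul'' hcon hcon
    rw [← pow_add, show 3 + 3 = 6 from rfl] at h1
    rw [hcW] at hcΛ
    omega
  have h8 : 2 ^ 3 ≤ Nat.card F₀ ^ 3 := Nat.pow_le_pow_left hq₀ 3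
  have hbig : 3 < Nat.card Λ := by
    have : (2 : ℕ) ^ 3 = 8 := by norm_num
    omega
  have hbig2 : Nat.card F₀ < Nat.card Λ := by
    have h1 : Nat.card F₀ ^ 1 < Nat.card F₀ ^ 3 := Nat.pow_lt_pow_right hq₀ (by norm_num)
    rw [pow_one] at h1
    omega
  let κ : SL(2, F) := ⟨!![μ, 0; 0, μ⁻¹], by rw [Matrix.det_fin_two_of]; field_simp; simp⟩
  obtain ⟨κ', ⟨g, hg, hrel, hrel'⟩, ε, hε, e⟩ := SubfRankTwo.rank_two' F₀ r hr hcard Λ hΛs hbig hbig2 (-1)
    (neg_ne_zero.mpr one_ne_zero) (relK2 M R e₂ v e₁ (-x)) hΛU hlow κ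
  have e0 : κ' 0 0 = ε * μ := by
    have := congrFun (congrFun e 0) 0
    simpa [κ] using this
  have e1 : κ' 1 0 = 0 := by
    have := congrFun (congrFun e 1) 0
    simpa [κ] using this
  refine ⟨g, hg, ε, hε, fun s hs => ?_⟩
  have h2 := hrel.2.1
  have h1 := hrel'.2.1
  rw [e0, e1, zero_smul, add_zero] at h1 h2
  obtain ⟨ρ₂, hρ₂, eρ₂⟩ : ∃ ρ ∈ R, g e₂ = (ε * μ) • e₂ + ρ := ⟨_, h2, by abel⟩
  obtain ⟨ρ₁, hρ₁, eρ₁⟩ : ∃ ρ ∈ R, g e₁ = (ε * μ) • e₁ + ρ := ⟨_, h1, by abel⟩
  obtain ⟨ρ, hρ, eρ⟩ : ∃ ρ ∈ R, s = polar Q v s • e₁ + polar Q x s • e₂ + ρ := by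
    refine ⟨s - polar Q v s • e₁ - polar Q x s • e₂, ?_, by abel⟩
    rw [hRm]
    refine ⟨SW.sub_mem (SW.sub_mem hs (SW.smul_mem _ he₁S)) (SW.smul_mem _ he₂S), ?_, ?_⟩
    · rw [polar_sub_right, polar_sub_right, polar_smul_right, polar_smul_right, he₁v, he₂v]; simp
    · rw [polar_sub_right, polar_sub_right, polar_smul_right, polar_smul_right, he₁x, he₂x]; simp
  obtain ⟨r1, r1v, r1x⟩ := (hRm ρ₁).mp hρ₁
  obtain ⟨r2, r2v, r2x⟩ := (hRm ρ₂).mp hρ₂
  obtain ⟨r3, r3v, r3x⟩ := (hRm ρ).mp hρ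
  have egs : g s = polar Q v s • ((ε * μ) • e₁ + ρ₁) + polar Q x s • ((ε * μ) • e₂ + ρ₂) + ρ := by
    nth_rewrite 1 [eρ]
    rw [map_add, map_add, map_smul, map_smul, eρ₁, eρ₂, hrel.1 ρ hρ]
  refine ⟨?_, ?_, ?_⟩
  · rw [egs]
    exact SW.add_mem (SW.add_mem (SW.smul_mem _ (SW.add_mem (SW.smul_mem _ he₁S) r1)) (SW.smul_mem _ (SW.add_mem (SW.smul_mem _ he₂S) r2))) r3
  · rw [egs]
    simp only [polar_add_right, polar_smul_right, he₁v, he₂v, r1v, r2v, r3v, smul_eq_mul]; ring
  · rw [egs]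
    simp only [polar_add_right, polar_smul_right, he₁x, he₂x, r1x, r2x, r3x, smul_eq_mul]; ring

include hF

/-- **case B** -/
theorem caseB [Fintype F] (r : ℕ) (hr : r.Prime) (hcard : Fintype.card F = Nat.card F₀ ^ r) {v x : V}
    (hv : Q v = 0) (hx : Q x = 0) (hvx : polar Q v x = 0) (h : SI Q M v x)
    (hind : ∀ α β : F, α • v + β • x = 0 → α = 0 ∧ β = 0)
    (hno : ∀ w ∈ V0, Q w = 0 → polar Q v w = 0 → polar Q x w = 0 → w = 0) : False := by
  classical
  have hfin := S.fin
  have hr7 := deg_large S r hr hcard hno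
  obtain ⟨y₁, hy₁0, y₂, hy₂0, hQy₁, hQy₂, hy₁₂, hD⟩ := exists_pair S hv hvx hind
  -- the totally singular subspace
  have hsp : ∀ u ∈ Submodule.span F₀ (Set.range ![y₁, y₂]), u ∈ V0 ∧ Q u = 0 := by
    intro u hu
    have h1 : Set.range ![y₁, y₂] = {y₁, y₂} := by simp [Matrix.range_cons, Matrix.range_empty, Set.pair_comm]
    rw [h1] at hu
    obtain ⟨a, b, rfl⟩ := Submodule.mem_span_pair.mp hu
    refine ⟨V0.add_mem (V0.smul_mem a hy₁0) (V0.smul_mem b hy₂0), ?_⟩
    change Q ((a : F) • y₁ + (b : F) • y₂) = 0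
    rw [Q_add, Q_smul, Q_smul, hQy₁, hQy₂, polar_smul_left, polar_smul_right, hy₁₂]; simp
  obtain ⟨W, hWs, hW, hW6, hQW⟩ := S.ts_extend (W := Submodule.span F₀ (Set.range ![y₁, y₂])) (fun u hu => (hsp u hu).1)
    (fun u hu => (hsp u hu).2) rfl ((finrank_span_le F₀ ![y₁, y₂]).trans (by omega))
  have hy₁ : y₁ ∈ W := hWs (Submodule.subset_span ⟨0, rfl⟩)
  have hy₂ : y₂ ∈ W := hWs (Submodule.subset_span ⟨1, rfl⟩)
  have : Module.Finite F₀ W := Module.Finite.of_injective (Submodule.inclusion hW) (Submodule.inclusion_injective hW)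
  have hinj : ∀ w ∈ W, polar Q v w = 0 → polar Q x w = 0 → w = 0 := fun w hw h1 h2 => hno w (hW hw) (hQW w hw) h1 h2
  have hy₁n : y₁ ≠ 0 := by
    rintro rfl
    apply hD; simp [DD]
  have hWS : ∀ w ∈ W, w ∈ Submodule.span F (W : Set V) := fun w hw => Submodule.subset_span hw
  have hiso : ∀ s ∈ Submodule.span F (W : Set V), ∀ w ∈ W, polar Q w s = 0 := by
    intro s hs w hw
    have h1 : Submodule.span F (W : Set V) ≤ LinearMap.ker (polarBilin Q w) := by
      rw [Submodule.span_le]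
      intro z hz
      exact OrF.polar_of_ts hQW hw hz
    exact h1 hs
  -- `V0 ∩ SW = W`
  have hcap : ∀ u ∈ V0, u ∈ Submodule.span F (W : Set V) → u ∈ W := by
    intro u hu hus
    by_contra hne
    obtain ⟨t, ht, h1, h2⟩ := S.exists_sep hu hne
    have h3 : Submodule.span F (W : Set V) ≤ LinearMap.ker (polarBilin Q t) := by
      rw [Submodule.span_le]
      intro z hz
      change polar Q t z = 0
      rw [polar_comm]; exact h1 z hz (hW hz)
    have h4 : polar Q t u = 0 := h3 hus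
    rw [polar_comm, h2] at h4
    exact one_ne_zero h4
  -- independence of `y₁, y₂`
  have hy₁₂i : y₂ ∉ Submodule.span F₀ {y₁} := by
    intro hs
    obtain ⟨c, rfl⟩ := Submodule.mem_span_singleton.mp hs
    apply hD
    change DD Q v x y₁ ((c : F) • y₁) = 0
    simp only [DD, polar_smul_right, smul_eq_mul]; ring
  -- main step
  have step : ∀ μ : F, μ ≠ 0 → ∃ τ : F, τ ≠ 0 ∧ (∃ c ∈ F₀, τ ^ 2 = c * μ ^ 2) ∧
      ∀ w ∈ W, ∃ w' ∈ W, polar Q v w' = τ * polar Q v w ∧ polar Q x w' = τ * polar Q x w := by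
    intro μ hμ
    obtain ⟨g, hg, ε, hε, hgs⟩ := exists_scale S H r hr hcard hv hx hvx h hW hW6 hQW hinj hy₁ hy₂ hD hμ
    have hgO := H.le hg
    -- rationality of the lines
    have hlineD : ∀ w ∈ W, ∀ w' ∈ W, w ≠ 0 → w' ∉ Submodule.span F₀ {w} → ∀ y ∈ V0, ∀ y' ∈ V0, DD Q (g w) (g w') y y' ∈ F₀ := by
      intro w hw w' hw' hw0 hww' y hy y' hy'
      have h1 : SI Q M (g w) (g w') := (H.mem w (hW hw) w' (hW hw') (hQW w hw) (OrF.polar_of_ts hQW hw hw')).map hg hgO
      refine DD_mem S H hF (w₀ := y₁) (by rw [hgO]; exact hQW w hw) (by rw [hgO]; exact hQW w' hw')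
        (by rw [O_polar hgO]; exact OrF.polar_of_ts hQW hw hw') h1 ?_ hy₁0 hy₁n hQy₁
        (hiso _ (hgs w (hWS w hw)).1 y₁ hy₁) (hiso _ (hgs w' (hWS w' hw')).1 y₁ hy₁) hy hy'
      intro α β hab
      have h2 : g (α • w + β • w') = 0 := by rw [map_add, map_smul, map_smul, hab]
      exact li2 S (hW hw) (hW hw') hw0 hww' α β (g.map_eq_zero_iff.mp h2)
    have hrat : ∀ w ∈ W, w ≠ 0 → ∃ c : F, c ≠ 0 ∧ c • g w ∈ W := by
      intro w hw hw0
      -- two more vectors
      obtain ⟨w', hw', hw'n⟩ : ∃ w' ∈ W, w' ∉ Submodule.span F₀ {w} := by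
        have : ¬ W ≤ Submodule.span F₀ {w} := by
          intro hle
          have h1 := Submodule.finrank_mono hle
          rw [finrank_span_singleton hw0, hW6] at h1
          omega
        obtain ⟨w', h1, h2⟩ := Set.not_subset.1 this
        exact ⟨w', h1, h2⟩
      obtain ⟨w'', hw'', hw''n⟩ : ∃ w'' ∈ W, w'' ∉ Submodule.span F₀ {w, w'} := by
        have : ¬ W ≤ Submodule.span F₀ {w, w'} := by
          intro hle
          have h2 : finrank F₀ (Submodule.span F₀ {w, w'}) ≤ 2 := by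
            have h3 : Set.range ![w, w'] = {w, w'} := by simp [Matrix.range_cons, Matrix.range_empty, Set.pair_comm]
            rw [← h3]; exact finrank_span_le F₀ ![w, w']
          haveI : Module.Finite F₀ (Submodule.span F₀ {w, w'}) := Module.Finite.span_of_finite F₀ (Set.toFinite _)
          have h1 := Submodule.finrank_mono hle
          rw [hW6] at h1
          omega
        obtain ⟨w'', h1, h2⟩ := Set.not_subset.1 this
        exact ⟨w'', h1, h2⟩
      have hw''n' : w'' ∉ Submodule.span F₀ {w} := fun hs => hw''n (Submodule.span_mono (by simp) hs)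
      obtain ⟨c, hc, hcw⟩ := rat_of_two S (v := g w) (x := g w'') (x' := g w') (hlineD w hw w'' hw'' hw0 hw''n')
        (hlineD w hw w' hw' hw0 hw'n) (by
          intro α β hab
          have h2 : g (α • w + β • w') = 0 := by rw [map_add, map_smul, map_smul, hab]
          exact li2 S (hW hw) (hW hw') hw0 hw'n α β (g.map_eq_zero_iff.mp h2)) (by
          intro α β hab
          have h2 : g w'' = g (α • w + β • w') := by rw [map_add, map_smul, map_smul, hab]
          exact li3 S (hW hw) (hW hw') (hW hw'') hw''n α β (g.injective h2))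
      exact ⟨c, hc, hcap _ hcw (Submodule.smul_mem _ _ (hgs w (hWS w hw)).1)⟩
    obtain ⟨c, hc, hcy⟩ := hrat y₁ hy₁ hy₁n
    -- uniformity
    have huni : ∀ w ∈ W, c • g w ∈ W := by
      intro w hw
      by_cases hws : w ∈ Submodule.span F₀ {y₁}
      · obtain ⟨a, rfl⟩ := Submodule.mem_span_singleton.mp hws
        have e : c • g (a • y₁) = a • (c • g y₁) := by
          change c • g ((a : F) • y₁) = (a : F) • (c • g y₁)
          rw [map_smul, smul_comm]
        rw [e]; exact W.smul_mem a hcy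
      have hw0 : w ≠ 0 := by
        rintro rfl
        exact hws (Submodule.zero_mem _)
      obtain ⟨a, ha, haw⟩ := hrat w hw hw0
      have hsum0 : w + y₁ ≠ 0 := by
        intro h0
        apply hws
        rw [Submodule.mem_span_singleton]
        refine ⟨-1, ?_⟩
        rw [neg_smul, one_smul]
        exact (eq_neg_of_add_eq_zero_left h0).symm
      obtain ⟨b, hb, hbw⟩ := hrat (w + y₁) (W.add_mem hw hy₁) hsum0
      -- independence
      have hi := li2 S hy₁0 (hW hw) hy₁n hws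
      have n1 : c • g y₁ ∉ Submodule.span F₀ {a • g w} := by
        intro hs
        obtain ⟨t, ht⟩ := Submodule.mem_span_singleton.mp hs
        have h1 : g (c • y₁ + (-((t : F) * a)) • w) = 0 := by
          rw [map_add, map_smul, map_smul, ← ht]
          change (t : F) • a • g w + _ = 0
          module
        exact hc (hi _ _ (g.map_eq_zero_iff.mp h1)).1
      have n2 : a • g w ∉ Submodule.span F₀ {c • g y₁} := by
        intro hs
        obtain ⟨t, ht⟩ := Submodule.mem_span_singleton.mp hs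
        have h1 : g ((-((t : F) * c)) • y₁ + a • w) = 0 := by
          rw [map_add, map_smul, map_smul, ← ht]
          change _ + (t : F) • c • g y₁ = 0
          module
        exact ha (hi _ _ (g.map_eq_zero_iff.mp h1)).2
      have e1 : b • g (w + y₁) = (b / a) • (a • g w) + (b / c) • (c • g y₁) := by
        rw [map_add, smul_smul, smul_smul, div_mul_cancel₀ _ ha, div_mul_cancel₀ _ hc, smul_add]
      have h1 : b / a ∈ F₀ := coef_mem S (hW haw) (hW hcy) n2 (by rw [← e1]; exact hW hbw)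
      have h2 : b / c ∈ F₀ := coef_mem S (hW hcy) (hW haw) n1 (α := b / c) (β := b / a) (by rw [add_comm, ← e1]; exact hW hbw)
      have h3 : c / a ∈ F₀ := by
        have := F₀.div_mem h1 h2
        have e : b / a / (b / c) = c / a := by field_simp
        rwa [e] at this
      have e2 : c • g w = (⟨c / a, h3⟩ : F₀) • (a • g w) := by
        change c • g w = (c / a) • (a • g w)
        rw [smul_smul, div_mul_cancel₀ _ ha]
      rw [e2]; exact W.smul_mem _ haw
    -- `c² ∈ F₀`
    have hc2 : c ^ 2 ∈ F₀ := by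
      have n1 : c • g y₂ ∉ Submodule.span F₀ {c • g y₁} := by
        intro hs
        obtain ⟨t, ht⟩ := Submodule.mem_span_singleton.mp hs
        have h1 : g ((-((t : F) * c)) • y₁ + c • y₂) = 0 := by
          rw [map_add, map_smul, map_smul, ← ht]
          change _ + (t : F) • c • g y₁ = 0
          module
        exact hc (li2 S hy₁0 hy₂0 hy₁n hy₁₂i _ _ (g.map_eq_zero_iff.mp h1)).2
      have n0 : c • g y₁ ≠ 0 := by
        intro h0
        rcases smul_eq_zero.mp h0 with h | h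
        · exact hc h
        · exact hy₁n (g.map_eq_zero_iff.mp h)
      obtain ⟨y, hy, y', hy', hne⟩ := DD_ne S (v := c • g y₁) (x := c • g y₂)
        (li2 S (hW (huni y₁ hy₁)) (hW (huni y₂ hy₂)) n0 n1)
      have h1 : DD Q (c • g y₁) (c • g y₂) y y' ∈ F₀ := by
        have a1 := hW (huni y₁ hy₁)
        have a2 := hW (huni y₂ hy₂)
        exact F₀.sub_mem (F₀.mul_mem (S.polar_mem a2 hy) (S.polar_mem a1 hy')) (F₀.mul_mem (S.polar_mem a1 hy) (S.polar_mem a2 hy'))
      have h2 := hlineD y₁ hy₁ y₂ hy₂ hy₁n hy₁₂i y hy y' hy'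
      have e : DD Q (c • g y₁) (c • g y₂) y y' = c ^ 2 * DD Q (g y₁) (g y₂) y y' := by
        simp only [DD, polar_smul_left, smul_eq_mul]; ring
      rw [e] at h1 hne
      have h3 := F₀.div_mem h1 h2
      rwa [mul_div_assoc, div_self (right_ne_zero_of_mul hne), mul_one] at h3
    have hε0 : ε ≠ 0 := by
      rintro rfl
      rw [zero_pow (by norm_num)] at hε
      exact zero_ne_one hε
    refine ⟨c * (ε * μ), mul_ne_zero hc (mul_ne_zero hε0 hμ), ⟨c ^ 2, hc2, by rw [mul_pow, mul_pow ε, hε, one_mul]⟩, fun w hw => ?_⟩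
    obtain ⟨-, h1, h2⟩ := hgs w (hWS w hw)
    refine ⟨c • g w, huni w hw, ?_, ?_⟩
    · rw [polar_smul_right, h1, smul_eq_mul]; ring
    · rw [polar_smul_right, h2, smul_eq_mul]; ring
  -- the field of multipliers
  obtain ⟨k, hk⟩ := SubfRankTwo.exists_subfield
    {τ : F | ∀ w ∈ W, ∃ w' ∈ W, polar Q v w' = τ * polar Q v w ∧ polar Q x w' = τ * polar Q x w}
    (fun w hw => ⟨w, hw, by rw [one_mul], by rw [one_mul]⟩)
    (fun a ha b hb w hw => by
      obtain ⟨w₁, h1, h2, h3⟩ := ha w hw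
      obtain ⟨w₂, h4, h5, h6⟩ := hb w hw
      exact ⟨w₁ + w₂, W.add_mem h1 h4, by rw [polar_add_right, h2, h5]; ring, by rw [polar_add_right, h3, h6]; ring⟩)
    (fun a ha w hw => by
      obtain ⟨w₁, h1, h2, h3⟩ := ha w hw
      exact ⟨-w₁, W.neg_mem h1, by rw [polar_neg_right, h2]; ring, by rw [polar_neg_right, h3]; ring⟩)
    (fun a ha b hb w hw => by
      obtain ⟨w₂, h4, h5, h6⟩ := hb w hw
      obtain ⟨w₁, h1, h2, h3⟩ := ha w₂ h4
      exact ⟨w₁, h1, by rw [h2, h5]; ring, by rw [h3, h6]; ring⟩)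
  have hkm : ∀ τ : F, τ ∈ k ↔ ∀ w ∈ W, ∃ w' ∈ W, polar Q v w' = τ * polar Q v w ∧ polar Q x w' = τ * polar Q x w := by
    intro τ
    have : τ ∈ (k : Set F) ↔ τ ∈ {τ : F | ∀ w ∈ W, ∃ w' ∈ W, polar Q v w' = τ * polar Q v w ∧ polar Q x w' = τ * polar Q x w} := by rw [hk]
    exact this
  have hF₀k : F₀ ≤ k := by
    intro s hs
    rw [hkm]
    intro w hw
    exact ⟨s • w, W.smul_mem (⟨s, hs⟩ : F₀) hw, by rw [polar_smul_right, smul_eq_mul], by rw [polar_smul_right, smul_eq_mul]⟩
  have hcW : Nat.card W = Nat.card F₀ ^ 6 := by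
    haveI : Finite W := Module.finite_of_finite F₀
    haveI : Fintype W := Fintype.ofFinite W
    haveI : Fintype F₀ := Fintype.ofFinite F₀
    rw [Nat.card_eq_fintype_card, Nat.card_eq_fintype_card, Module.card_eq_pow_finrank (K := F₀), hW6]
  have hq₀ : 2 ≤ Nat.card F₀ := Finite.one_lt_card
  rcases SubfRankTwo.eq_or_eq_top F₀ k r hr hcard hF₀k with hk0 | hktop
  · -- all squares are rational
    have hsq : ∀ μ : F, μ ^ 2 ∈ F₀ := by
      intro μ
      by_cases hμ : μ = 0
      · rw [hμ]; exact F₀.pow_mem F₀.zero_mem 2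
      obtain ⟨τ, hτ, ⟨c, hc, hcμ⟩, hτW⟩ := step μ hμ
      have h1 : τ ∈ F₀ := by rw [← hk0]; exact (hkm τ).mpr hτW
      have hc0 : c ≠ 0 := by
        rintro rfl
        rw [zero_mul] at hcμ
        exact hτ (pow_eq_zero_iff (by norm_num) |>.mp hcμ)
      have h2 := F₀.div_mem (F₀.pow_mem h1 2) hc
      rwa [hcμ, mul_comm, mul_div_assoc, div_self hc0, mul_one] at h2
    have hall : ∀ μ : F, μ ∈ F₀ := by
      intro μ
      by_cases h2 : (2 : F) = 0
      · haveI : CharP F 2 := CharTwo.of_one_ne_zero_of_two_eq_zero one_ne_zero h2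
        exact SubfRankTwo.mem_of_sq_mem F₀ (hsq μ)
      · have h4 : (2 : F) ∈ F₀ := by
          have : (2 : F) = ((2 : ℕ) : F) := by norm_num
          rw [this]; exact natCast_mem F₀ 2
        have e : μ = ((μ + 1) ^ 2 - μ ^ 2 - 1) / 2 := by
          field_simp; ring
        rw [e]
        exact F₀.div_mem (F₀.sub_mem (F₀.sub_mem (hsq _) (hsq _)) F₀.one_mem) h4
    have h1 : Fintype.card F ≤ Nat.card F₀ := by
      rw [← Nat.card_eq_fintype_card]
      exact Nat.card_le_card_of_injective (fun μ : F => (⟨μ, hall μ⟩ : F₀)) (fun a b hab => congrArg Subtype.val hab)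
    rw [hcard] at h1
    have h2 : Nat.card F₀ ^ 1 < Nat.card F₀ ^ r := Nat.pow_lt_pow_right hq₀ (by omega)
    rw [pow_one] at h2
    omega
  · have hallk : ∀ τ : F, ∃ w' ∈ W, polar Q v w' = τ * polar Q v y₁ ∧ polar Q x w' = τ * polar Q x y₁ := by
      intro τ
      have : τ ∈ k := by rw [hktop]; trivial
      exact (hkm τ).mp this y₁ hy₁
    choose f hf hf1 hf2 using hallk
    have h1 : Fintype.card F ≤ Nat.card W := by
      haveI : Finite W := Module.finite_of_finite F₀
      rw [← Nat.card_eq_fintype_card]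
      apply Nat.card_le_card_of_injective (fun τ : F => (⟨f τ, hf τ⟩ : W))
      intro a b hab
      have h2 : f a = f b := congrArg Subtype.val hab
      have h3 : (a - b) * polar Q v y₁ = 0 := by
        rw [sub_mul, ← hf1, ← hf1, h2, sub_self]
      have h4 : (a - b) * polar Q x y₁ = 0 := by
        rw [sub_mul, ← hf2, ← hf2, h2, sub_self]
      by_contra hne
      have h5 := (mul_eq_zero.mp h3).resolve_left (sub_ne_zero.mpr hne)
      have h6 := (mul_eq_zero.mp h4).resolve_left (sub_ne_zero.mpr hne)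
      exact hy₁n (hinj y₁ hy₁ h5 h6)
    rw [hcW, hcard] at h1
    have h2 : Nat.card F₀ ^ 6 < Nat.card F₀ ^ r := Nat.pow_lt_pow_right hq₀ (by omega)
    omega

end

end Cfsg.Agent.Lib.SubfOm
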