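import Mathlib
import Cfsg.Agent.Lib.ConjSub2
import Cfsg.Agent.Lib.PrimeOrd2

/-! Rational forms of elements of prime order over a subfield with the same irreducible degrees. (helper99) -/

set_option autoImplicit false

namespace Cfsg.Agent.Lib.SubfR

open Module Polynomial Cfsg.Agent.Lib.InvSub Cfsg.Agent.Lib.ElusiveLin Cfsg.Agent.Lib.PrimeOrd

variable {F V : Type*} [Field F] [AddCommGroup V] [Module F V]

/-- an invariant subspace with a basis rational over `F₀` -/
def Rat (F₀ : Subfield F) (T : Module.End F V) (U : Submodule F V) : Prop :=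
  ∃ (ι : Type) (_ : Fintype ι) (b : ι → V), LinearIndependent F b ∧ Submodule.span F (Set.range b) = U ∧
    ∀ j, T (b j) ∈ Submodule.span F₀ (Set.range b)

theorem Rat.bot (F₀ : Subfield F) (T : Module.End F V) : Rat F₀ T ⊥ :=
  ⟨Empty, inferInstance, fun e => e.elim, linearIndependent_empty_type, by simp, fun e => e.elim⟩

theorem Rat.sup {F₀ : Subfield F} {T : Module.End F V} {U W : Submodule F V} (hU : Rat F₀ T U) (hW : Rat F₀ T W)
    (hd : Disjoint U W) : Rat F₀ T (U ⊔ W) := by
  obtain ⟨ι, _, b, hb1, hb2, hb3⟩ := hU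
  obtain ⟨κ, _, c, hc1, hc2, hc3⟩ := hW
  refine ⟨ι ⊕ κ, inferInstance, Sum.elim b c, ?_, ?_, ?_⟩
  · apply LinearIndependent.sum_type hb1 hc1
    rw [hb2, hc2]; exact hd
  · rw [Set.Sum.elim_range, Submodule.span_union, hb2, hc2]
  · rintro (j | j)
    · rw [Set.Sum.elim_range]
      exact Submodule.span_mono Set.subset_union_left (hb3 j)
    · rw [Set.Sum.elim_range]
      exact Submodule.span_mono Set.subset_union_right (hc3 j)

/-- the cyclic piece -/
theorem rat_cyclic (F₀ : Subfield F) {T : Module.End F V} {g : F₀[X]} (hg : g.Monic) (hirr : Irreducible (g.map F₀.subtype)) {v : V}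
    (hv : v ≠ 0) (hgv : aeval T (g.map F₀.subtype) v = 0) :
    ∃ M : Submodule F V, Rat F₀ T M ∧ Inv T M ∧ v ∈ M ∧ finrank F M = g.natDegree ∧ (∀ W, Inv T W → v ∈ W → M ≤ W) := by
  classical
  obtain ⟨U, hU1, hU2, hU3, hU4⟩ := cyclic_aux hirr hv hgv
  set m := g.natDegree with hm
  have hdeg : (g.map F₀.subtype).natDegree = m := natDegree_map _
  rw [hdeg] at hU2
  have hmpos : 0 < m := by
    have := hirr.natDegree_pos
    rwa [hdeg] at this
  let b : Fin m → V := fun a => (T ^ a.1) v
  have hstep : ∀ j, T (b j) ∈ Submodule.span F₀ (Set.range b) := by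
    intro j
    have h1 : T (b j) = (T ^ (j.1 + 1)) v := by rw [pow_succ']; rfl
    by_cases hj : j.1 + 1 < m
    · apply Submodule.subset_span
      exact ⟨⟨j.1 + 1, hj⟩, h1.symm⟩
    · have hjm : j.1 + 1 = m := by have := j.2; omega
      rw [h1, hjm]
      have h2 := hgv
      rw [aeval_eq_sum_range, hdeg, Finset.sum_range_succ, coeff_map, hm, hg.coeff_natDegree, map_one, one_smul,
        LinearMap.add_apply, LinearMap.sum_apply, ← hm] at h2
      have h3 : (T ^ m) v = - ∑ d ∈ Finset.range m, ((g.map F₀.subtype).coeff d • T ^ d) v := by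
        rw [add_comm] at h2
        exact eq_neg_of_add_eq_zero_left h2
      rw [h3]
      apply Submodule.neg_mem
      apply Submodule.sum_mem
      intro d hd
      rw [Finset.mem_range] at hd
      rw [coeff_map]
      have : (F₀.subtype (g.coeff d) • T ^ d) v = (g.coeff d) • b ⟨d, hd⟩ := rfl
      rw [this]
      exact Submodule.smul_mem _ _ (Submodule.subset_span ⟨_, rfl⟩)
  set M := Submodule.span F (Set.range b) with hM
  have hF₀le : ∀ w, w ∈ Submodule.span F₀ (Set.range b) → w ∈ M := by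
    intro w hw
    exact Submodule.span_subset_span F₀ F (Set.range b) hw
  have hMinv : Inv T M := by
    intro w hw
    induction hw using Submodule.span_induction with
    | mem x hx =>
      obtain ⟨j, rfl⟩ := hx
      exact hF₀le _ (hstep j)
    | zero => rw [map_zero]; exact M.zero_mem
    | add x y _ _ hx hy => rw [map_add]; exact M.add_mem hx hy
    | smul a x _ hx => rw [map_smul]; exact M.smul_mem a hx
  have hvM : v ∈ M := Submodule.subset_span ⟨⟨0, hmpos⟩, by show (T ^ 0) v = v; rw [pow_zero]; rfl⟩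
  have hMU : M ≤ U := by
    rw [hM, Submodule.span_le]
    rintro _ ⟨j, rfl⟩
    have : ∀ k : ℕ, (T ^ k) v ∈ U := by
      intro k
      induction k with
      | zero => rw [pow_zero]; exact hU3
      | succ k ih => rw [pow_succ']; exact hU1 _ ih
    exact this _
  have hUM : U ≤ M := hU4 M hMinv hvM
  have hMe : M = U := le_antisymm hMU hUM
  have hMf : finrank F M = m := by rw [hMe, hU2]
  refine ⟨M, ⟨Fin m, inferInstance, b, ?_, rfl, hstep⟩, hMinv, hvM, hMf, ?_⟩
  · rw [linearIndependent_iff_card_eq_finrank_span, Fintype.card_fin]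
    exact hMf.symm
  · intro W hW hvW
    rw [hMe]
    exact hU4 W hW hvW

section finite

variable [Fintype F] {p r : ℕ} [Fact p.Prime] [CharP F p] [hr : Fact r.Prime]

omit [Fintype F] [Fact p.Prime] [CharP F p] in
theorem exists_factor_sub (F₀ : Subfield F) {f : F[X]} (hf : Irreducible f) {P : F₀[X]} (hP : P ≠ 0) (h : f ∣ P.map F₀.subtype) :
    ∃ g : F₀[X], g.Monic ∧ Irreducible g ∧ g ∣ P ∧ f ∣ g.map F₀.subtype := by
  obtain ⟨s, hs, hsP⟩ := WfDvdMonoid.exists_factors P hP
  have h1 : f ∣ (s.map (Polynomial.map F₀.subtype)).prod := by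
    have h2 : (s.map (Polynomial.map F₀.subtype)).prod = s.prod.map F₀.subtype := (Polynomial.map_multiset_prod _ s).symm
    rw [h2]
    exact h.trans (Polynomial.map_dvd _ hsP.symm.dvd)
  obtain ⟨g, hgs, hfg⟩ := hf.prime.exists_mem_multiset_map_dvd h1
  have hg := hs g hgs
  have hg0 := hg.ne_zero
  have hu : IsUnit (C (g.leadingCoeff⁻¹)) := by
    rw [isUnit_C, isUnit_iff_ne_zero]
    exact inv_ne_zero (leadingCoeff_ne_zero.2 hg0)
  have hass : Associated g (g * C (g.leadingCoeff⁻¹)) := (associated_mul_unit_right g _ hu)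
  refine ⟨g * C (g.leadingCoeff⁻¹), monic_mul_leadingCoeff_inv hg0, hass.irreducible hg, ?_, ?_⟩
  · exact hass.symm.dvd.trans ((Multiset.dvd_prod hgs).trans hsP.dvd)
  · exact hfg.trans (Polynomial.map_dvd _ hass.dvd)

/-- irreducible factors over `F₀` remain irreducible when the orders agree -/
theorem irr_map (hrp : r ≠ p) (F₀ : Subfield F)
    (hord : orderOf ((Fintype.card F : ℕ) : ZMod r) = orderOf ((Nat.card F₀ : ℕ) : ZMod r))
    {g : F₀[X]} (hgm : g.Monic) (hg : Irreducible g) (hd : g ∣ X ^ r - 1) :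
    Irreducible (g.map F₀.subtype) ∧ (g.natDegree = 1 ∨ g.natDegree = orderOf ((Fintype.card F : ℕ) : ZMod r)) := by
  classical
  have hfin : Fintype F₀ := Fintype.ofFinite _
  have hch : CharP F₀ p := (algebraMap F₀ F).charP (algebraMap F₀ F).injective p
  rw [← cyclotomic_prime_mul_X_sub_one] at hd
  rcases hg.prime.dvd_or_dvd hd with h | h
  · have h1 : g.natDegree = orderOf ((Fintype.card F : ℕ) : ZMod r) := by
      rw [natDegree_irred_cyclotomic hrp hg h, hord, Nat.card_eq_fintype_card]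
    refine ⟨?_, Or.inr h1⟩
    obtain ⟨n, hp, hn⟩ := FiniteField.card F p
    have hcop : p.Coprime r := (Nat.coprime_primes (Fact.out) (Fact.out)).mpr (Ne.symm hrp)
    refine irreducible_of_dvd_cyclotomic_of_natDegree hn hcop ?_ ?_
    · rw [← map_cyclotomic r F₀.subtype]
      exact Polynomial.map_dvd _ h
    · rw [natDegree_map, h1, orderOf_coprime, ← hn]
  · have h1 : g = X - 1 := by
      have h2 : (X - 1 : F₀[X]).Monic := by rw [← C_1]; exact monic_X_sub_C 1
      apply eq_of_monic_of_associated hgm h2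
      exact hg.associated_of_dvd (by rw [← C_1]; exact irreducible_X_sub_C 1) h
    have h2 : (X - 1 : F₀[X]).natDegree = 1 := by rw [← C_1]; exact natDegree_X_sub_C 1
    refine ⟨?_, Or.inl (by rw [h1, h2])⟩
    rw [h1, Polynomial.map_sub, map_X, Polynomial.map_one, ← C_1]
    exact irreducible_X_sub_C 1

variable [FiniteDimensional F V]

/-- a cyclic rational piece in every invariant subspace -/
theorem exists_piece (hrp : r ≠ p) (F₀ : Subfield F)
    (hord : orderOf ((Fintype.card F : ℕ) : ZMod r) = orderOf ((Nat.card F₀ : ℕ) : ZMod r))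
    {T : Module.End F V} (hT : T ^ r = 1) {W : Submodule F V} (hW : Inv T W) (hne : W ≠ ⊥) :
    ∃ M ≤ W, M ≠ ⊥ ∧ Rat F₀ T M ∧ Inv T M ∧ (finrank F M = 1 ∨ finrank F M = orderOf ((Fintype.card F : ℕ) : ZMod r)) := by
  have hrF : (r : F) ≠ 0 := cast_ne_zero (p := p) hrp
  have hP0 : (X ^ r - C 1 : F[X]) ≠ 0 := (separable_X_pow_sub_C (1 : F) hrF one_ne_zero).squarefree.ne_zero
  have hP : aeval T (X ^ r - C 1 : F[X]) = 0 := by simp [hT]
  obtain ⟨f, hf, hfP, w, hw, hw0, hfw⟩ := exists_irred_factor hP0 hP hW hne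
  have hP0' : (X ^ r - 1 : F₀[X]) ≠ 0 := by
    intro h
    apply hP0
    have := congrArg (Polynomial.map F₀.subtype) h
    simpa using this
  obtain ⟨g, hgm, hg, hgP, hfg⟩ := exists_factor_sub F₀ hf hP0' (by
    rw [Polynomial.map_sub, Polynomial.map_pow, map_X, Polynomial.map_one, ← C_1]; exact hfP)
  obtain ⟨hirr, hdeg⟩ := irr_map hrp F₀ hord hgm hg hgP
  have hgw : aeval T (g.map F₀.subtype) w = 0 := by
    obtain ⟨h, hh⟩ := hfg
    rw [hh, mul_comm, map_mul, Module.End.mul_apply, hfw, map_zero]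
  obtain ⟨M, hM1, hM2, hM3, hM4, hM5⟩ := rat_cyclic F₀ hgm hirr hw0 hgw
  refine ⟨M, hM5 W hW hw, ?_, hM1, hM2, ?_⟩
  · rintro rfl
    exact hw0 ((Submodule.mem_bot F).1 hM3)
  · rw [hM4]; exact hdeg

/-- elements of order `r` are rational over `F₀` -/
theorem rat_top (hrp : r ≠ p) (F₀ : Subfield F)
    (hord : orderOf ((Fintype.card F : ℕ) : ZMod r) = orderOf ((Nat.card F₀ : ℕ) : ZMod r))
    {T : Module.End F V} (hT : T ^ r = 1) : Rat F₀ T ⊤ := by
  have hrF : (r : F) ≠ 0 := cast_ne_zero (p := p) hrp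
  have hss : SS T 1 (orderOf ((Fintype.card F : ℕ) : ZMod r)) := ssB (p := p) hrp one_ne_zero (by rw [hT, one_pow, one_smul])
  have key : ∀ k : ℕ, ∀ W : Submodule F V, Inv T W → finrank F W = k → Rat F₀ T W := by
    intro k
    induction k using Nat.strong_induction_on with
    | _ k ih =>
      intro W hW hk
      by_cases hb : W = ⊥
      · rw [hb]; exact Rat.bot F₀ T
      · obtain ⟨M, hMW, hM0, hMR, hM, -⟩ := exists_piece hrp F₀ hord hT hW hb
        obtain ⟨B, hBW, hB, hdis, hsup⟩ := hss.compl_in hM hW hMW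
        have h1 := Submodule.finrank_sup_add_finrank_inf_eq M B
        rw [hdis.eq_bot, finrank_bot, hsup] at h1
        have h2 : 0 < finrank F M := by
          rw [Nat.pos_iff_ne_zero, Ne, Submodule.finrank_eq_zero]; exact hM0
        have h3 := ih (finrank F B) (by omega) B hB rfl
        rw [← hsup]
        exact hMR.sup h3 hdis
  exact key _ ⊤ inv_top rfl

omit [Fintype F] [Fact p.Prime] [CharP F p] hr [FiniteDimensional F V] in
/-- a rational basis -/
theorem Rat.exists_basis {F₀ : Subfield F} {T : Module.End F V} (h : Rat F₀ T ⊤) :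
    ∃ (ι : Type) (_ : Fintype ι) (b : Basis ι F V), ∀ i j, ∃ a : F₀, b.repr (T (b j)) i = a := by
  classical
  obtain ⟨ι, _, b, h1, h2, h3⟩ := h
  refine ⟨ι, inferInstance, Basis.mk h1 (by rw [h2]), fun i j => ?_⟩
  rw [Basis.mk_apply]
  obtain ⟨c, hc⟩ := (Submodule.mem_span_range_iff_exists_fun F₀).1 (h3 j)
  refine ⟨c i, ?_⟩
  rw [← hc, map_sum]
  have h4 : ∀ k, c k • b k = ((c k : F)) • (Basis.mk h1 (by rw [h2])) k := by
    intro k; rw [Basis.mk_apply]; rfl
  simp_rw [h4]
  rw [Finsupp.finset_sum_apply, Finset.sum_eq_single i]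
  · rw [map_smul, Basis.repr_self, Finsupp.smul_apply, Finsupp.single_eq_same, smul_eq_mul, mul_one]
  · intro k _ hk
    rw [map_smul, Basis.repr_self, Finsupp.smul_apply, Finsupp.single_eq_of_ne (Ne.symm hk), smul_zero]
  · intro h; exact absurd (Finset.mem_univ i) h

end finite

end Cfsg.Agent.Lib.SubfR
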