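import Mathlib
import Cfsg.Agent.Lib.SubIndex

/-! Square-zero maps of maximal rank: standard bases, centralizers, rationality. (helper99) -/

set_option autoImplicit false

namespace Cfsg.Agent.Lib.UniTwo

open Module Cfsg.Agent.Lib.ConjSub

section basis

variable {K V : Type*} [Field K] [AddCommGroup V] [Module K V] [FiniteDimensional K V]

/-- the standard basis of a square-zero map of rank `m` in dimension `2 m` -/
theorem exists_basis_two {N : Module.End K V} (hN : N ^ 2 = 0) {m : ℕ} (hV : finrank K V = m + m)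
    (hr : finrank K (LinearMap.range N) = m) :
    ∃ b : Basis (Fin m ⊕ Fin m) K V, (∀ i, N (b (Sum.inl i)) = b (Sum.inr i)) ∧ ∀ i, N (b (Sum.inr i)) = 0 := by
  have hNN : ∀ v, N (N v) = 0 := by
    intro v
    have := congrArg (fun f : Module.End K V => f v) hN
    simpa [pow_two] using this
  obtain ⟨K₀, hK₀⟩ := Submodule.exists_isCompl (LinearMap.ker N)
  have hrn := LinearMap.finrank_range_add_finrank_ker N
  have hK₀f : finrank K K₀ = m := by
    have e := Submodule.finrank_add_eq_of_isCompl hK₀
    omega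
  let w := Module.finBasisOfFinrankEq K K₀ hK₀f
  let v : Fin m ⊕ Fin m → V := Sum.elim (fun i => (w i : V)) (fun i => N (w i))
  have hli : LinearIndependent K v := by
    rw [Fintype.linearIndependent_iff]
    intro g hg
    rw [Fintype.sum_sum_type] at hg
    simp only [v, Sum.elim_inl, Sum.elim_inr] at hg
    have h1 : ∑ i, g (Sum.inl i) • N (w i) = 0 := by
      have h2 := congrArg N hg
      rw [map_add, map_sum, map_sum, map_zero] at h2
      simp only [map_smul, hNN, smul_zero, Finset.sum_const_zero, add_zero] at h2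
      exact h2
    have h2 : ∀ c : Fin m → K, ∑ i, c i • N (w i) = 0 → ∀ i, c i = 0 := by
      intro c hc
      have h3 : N (∑ i, c i • (w i : V)) = 0 := by
        rw [map_sum]; simp only [map_smul]; exact hc
      have h4 : (∑ i, c i • (w i : V)) ∈ K₀ := Submodule.sum_mem _ fun i _ => K₀.smul_mem _ (w i).2
      have h5 := Submodule.disjoint_def.mp hK₀.disjoint _ (LinearMap.mem_ker.mpr h3) h4
      have h6 : ∑ i, c i • w i = 0 := by
        apply Subtype.ext
        push_cast
        exact h5
      exact Fintype.linearIndependent_iff.mp w.linearIndependent c h6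
    have h3 := h2 _ h1
    have h4 : ∑ i, g (Sum.inr i) • N (w i) = 0 := by
      simp only [h3, zero_smul, Finset.sum_const_zero, zero_add] at hg
      exact hg
    have h5 := h2 _ h4
    rintro (i | i)
    · exact h3 i
    · exact h5 i
  have hcard : Fintype.card (Fin m ⊕ Fin m) = finrank K V := by
    rw [hV]; simp
  let b := basisOfLinearIndependentOfCardEqFinrank' v hli hcard
  have hb : ⇑b = v := coe_basisOfLinearIndependentOfCardEqFinrank' v hli hcard
  refine ⟨b, fun i => ?_, fun i => ?_⟩
  · rw [hb]; rfl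
  · rw [hb]
    exact hNN _

end basis

/-- the standard square-zero matrix -/
def J (R : Type*) [Zero R] [One R] (m : ℕ) : Matrix (Fin m ⊕ Fin m) (Fin m ⊕ Fin m) R :=
  Matrix.fromBlocks 0 0 1 0

lemma det_comm_J {R : Type*} [CommRing R] {m : ℕ} {C : Matrix (Fin m ⊕ Fin m) (Fin m ⊕ Fin m) R}
    (h : C * J R m = J R m * C) : ∃ a, C.det = a ^ 2 := by
  have hC := (Matrix.fromBlocks_toBlocks C).symm
  rw [hC] at h ⊢
  rw [J, Matrix.fromBlocks_multiply, Matrix.fromBlocks_multiply, Matrix.fromBlocks_inj] at h
  obtain ⟨h1, h2, h3, h4⟩ := h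
  simp only [Matrix.mul_zero, Matrix.zero_mul, Matrix.mul_one, Matrix.one_mul, zero_add, add_zero] at h1 h3
  rw [h1, h3, Matrix.det_fromBlocks_zero₁₂]
  exact ⟨_, (pow_two _).symm⟩

lemma toMatrix_J {K V : Type*} [Field K] [AddCommGroup V] [Module K V] {N : Module.End K V} {m : ℕ}
    (b : Basis (Fin m ⊕ Fin m) K V) (h1 : ∀ i, N (b (Sum.inl i)) = b (Sum.inr i)) (h2 : ∀ i, N (b (Sum.inr i)) = 0) :
    LinearMap.toMatrix b b N = J K m := by
  ext i j
  rw [LinearMap.toMatrix_apply]
  rcases j with j | j
  · rw [h1, Basis.repr_self, Finsupp.single_apply]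
    rcases i with i | i
    · simp [J]
    · simp [J, Matrix.one_apply, eq_comm]
  · rw [h2, map_zero]
    rcases i with i | i <;> simp [J]

section rank

variable {F : Type*} [Field F] {n : ℕ}

lemma rank_map_le (F₀ : Subfield F) (B : Matrix (Fin n) (Fin n) F₀) :
    finrank F (LinearMap.range (Matrix.toLin' (B.map F₀.subtype))) ≤ finrank F₀ (LinearMap.range (Matrix.toLin' B)) := by
  set r := finrank F₀ (LinearMap.range (Matrix.toLin' B)) with hr
  let v := Module.finBasisOfFinrankEq F₀ (LinearMap.range (Matrix.toLin' B)) hr.symm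
  let A : Matrix (Fin n) (Fin r) F₀ := Matrix.of fun i j => (v j : Fin n → F₀) i
  let C : Matrix (Fin r) (Fin n) F₀ := Matrix.of fun i j =>
    v.repr ⟨Matrix.toLin' B (Pi.single j 1), ⟨_, rfl⟩⟩ i
  have hB : B = A * C := by
    ext i j
    rw [Matrix.mul_apply]
    have h1 := congrArg (fun x : LinearMap.range (Matrix.toLin' B) => (x : Fin n → F₀) i)
      (v.sum_repr ⟨Matrix.toLin' B (Pi.single j 1), ⟨_, rfl⟩⟩)
    simp only [Submodule.coe_sum, Submodule.coe_smul, Finset.sum_apply, Pi.smul_apply, smul_eq_mul] at h1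
    have h2 : (Matrix.toLin' B (Pi.single j 1)) i = B i j := by
      rw [Matrix.toLin'_apply, Matrix.mulVec_single_one]; rfl
    rw [h2] at h1
    rw [← h1]
    apply congrArg Subtype.val
    apply Finset.sum_congr rfl
    intro k _
    simp only [A, C, Matrix.of_apply]
    ring
  have hBF : B.map F₀.subtype = A.map F₀.subtype * C.map F₀.subtype := by
    conv_lhs => rw [hB]
    rw [Matrix.map_mul]
  have h3 : finrank F (LinearMap.range (Matrix.toLin' (B.map F₀.subtype))) = (B.map F₀.subtype).rank := rfl
  rw [h3, hBF]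
  refine (Matrix.rank_mul_le_left _ _).trans ?_
  have := Matrix.rank_le_card_width (A.map F₀.subtype)
  rwa [Fintype.card_fin] at this

end rank

end Cfsg.Agent.Lib.UniTwo
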