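import Mathlib
import Cfsg.Agent.Lib.SubfR
import Cfsg.Agent.Lib.SubIndex
import Cfsg.Agent.Lib.UniTwo
import Cfsg.Agent.Lib.UnForm4
import Cfsg.Agent.Lib.XR7

/-! Elements of the subfield subgroup: Frobenius invariance of the eigenvalues. (helper99) -/

set_option autoImplicit false

namespace Cfsg.Agent.Lib.SubfR

open Module Matrix Cfsg.Agent.Lib.InvSub Cfsg.Agent.Lib.ElusiveLin Cfsg.Agent.Lib.PrimeOrd Cfsg.Agent.Lib.ConjSub

section field

variable {F : Type*} [Field F] [Fintype F]

theorem mem_iff (F₁ : Subfield F) (x : F) : x ∈ F₁ ↔ x ^ Nat.card F₁ = x := by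
  classical
  have := Fintype.ofFinite F₁
  set k := Nat.card F₁ with hk
  have hk1 : 1 < k := Finite.one_lt_card
  have h1 : ∀ y : F, y ∈ F₁ → y ^ k = y := by
    intro y hy
    have h2 : (⟨y, hy⟩ : F₁) ^ Fintype.card F₁ = ⟨y, hy⟩ := FiniteField.pow_card _
    rw [← Nat.card_eq_fintype_card, ← hk] at h2
    exact congrArg Subtype.val h2
  constructor
  · exact h1 x
  · intro hx
    by_contra hxn
    let p : Polynomial F := Polynomial.X ^ k - Polynomial.X
    have hdeg : p.natDegree = k := by
      rw [show p = Polynomial.X ^ k - Polynomial.X from rfl]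
      rw [Polynomial.natDegree_sub_eq_left_of_natDegree_lt]
      · exact Polynomial.natDegree_X_pow k
      · rw [Polynomial.natDegree_X, Polynomial.natDegree_X_pow]; exact hk1
    have hp0 : p ≠ 0 := by
      intro h0
      rw [h0, Polynomial.natDegree_zero] at hdeg
      omega
    let S : Finset F := insert x (Finset.univ.image (fun y : F₁ => (y : F)))
    have hS : S.card = k + 1 := by
      rw [Finset.card_insert_of_notMem]
      · rw [Finset.card_image_of_injective _ Subtype.val_injective, Finset.card_univ, hk, Nat.card_eq_fintype_card]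
      · rw [Finset.mem_image]
        rintro ⟨y, _, hy⟩
        exact hxn (hy ▸ y.2)
    have hsub : S.val ≤ p.roots := by
      rw [Multiset.le_iff_subset S.nodup]
      intro y hy
      rw [Polynomial.mem_roots hp0]
      have hy' : y ^ k = y := by
        rcases Finset.mem_insert.1 hy with rfl | hy
        · exact hx
        · obtain ⟨z, _, rfl⟩ := Finset.mem_image.1 hy
          exact h1 _ z.2
      simp [p, hy']
    have h3 := Multiset.card_le_card hsub
    have h4 := Polynomial.card_roots' p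
    have h5 : Multiset.card S.val = k + 1 := hS
    omega

theorem exists_rho (F₀ : Subfield F) : ∃ ρ : F →+* F, ∀ x, ρ x = x ^ Nat.card F₀ := by
  classical
  have := Fintype.ofFinite F₀
  obtain ⟨p, hchar⟩ := CharP.exists F
  have hpf : Fact p.Prime := ⟨(CharP.char_is_prime_or_zero F p).resolve_right (CharP.char_ne_zero_of_finite F p)⟩
  have : CharP F₀ p := (algebraMap F₀ F).charP (algebraMap F₀ F).injective p
  obtain ⟨a, -, ha⟩ := FiniteField.card F₀ p
  rw [← Nat.card_eq_fintype_card] at ha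
  exact ⟨iterateFrobenius F p a, fun x => by rw [ha]; exact iterateFrobenius_def p a x⟩

end field

section eig

variable {F : Type*} [Field F] [Fintype F] {n : ℕ}

theorem eig_le (F₀ : Subfield F) (B : Matrix (Fin n) (Fin n) F₀) (b : F) :
    finrank F (E (Matrix.toLin' (B.map F₀.subtype)) b) ≤ finrank F (E (Matrix.toLin' (B.map F₀.subtype)) (b ^ Nat.card F₀)) := by
  obtain ⟨ρ, hρ⟩ := exists_rho F₀
  have hB : (B.map F₀.subtype).map ρ = B.map F₀.subtype := by
    ext i j
    show ρ (B i j : F) = (B i j : F)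
    rw [hρ]
    exact (mem_iff F₀ _).1 (B i j).2
  have hmul : ∀ v : Fin n → F, (B.map F₀.subtype) *ᵥ (fun i => ρ (v i)) = fun i => ρ (((B.map F₀.subtype) *ᵥ v) i) := by
    intro v
    funext i
    conv_lhs => rw [← hB]
    exact (RingHom.map_mulVec ρ _ v i).symm
  have h1 : Nat.card (E (Matrix.toLin' (B.map F₀.subtype)) b) ≤ Nat.card (E (Matrix.toLin' (B.map F₀.subtype)) (b ^ Nat.card F₀)) := by
    have hmem : ∀ v : E (Matrix.toLin' (B.map F₀.subtype)) b, (fun i => ρ (v.1 i)) ∈ E (Matrix.toLin' (B.map F₀.subtype)) (b ^ Nat.card F₀) := by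
      intro v
      have hv := Module.End.mem_eigenspace_iff.1 v.2
      rw [Matrix.toLin'_apply] at hv
      rw [Module.End.mem_eigenspace_iff, Matrix.toLin'_apply, hmul, hv]
      funext i
      rw [Pi.smul_apply, Pi.smul_apply, smul_eq_mul, smul_eq_mul, map_mul, hρ b]
    let f : E (Matrix.toLin' (B.map F₀.subtype)) b → E (Matrix.toLin' (B.map F₀.subtype)) (b ^ Nat.card F₀) := fun v => ⟨_, hmem v⟩
    apply Nat.card_le_card_of_injective f
    intro v w h
    apply Subtype.ext
    funext i
    have : ρ (v.1 i) = ρ (w.1 i) := congrFun (congrArg Subtype.val h) i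
    exact ρ.injective this
  rw [Module.natCard_eq_pow_finrank (K := F) (V := E (Matrix.toLin' (B.map F₀.subtype)) b),
    Module.natCard_eq_pow_finrank (K := F) (V := E (Matrix.toLin' (B.map F₀.subtype)) (b ^ Nat.card F₀)), Nat.card_eq_fintype_card] at h1
  exact (Nat.pow_le_pow_iff_right (Fintype.one_lt_card (α := F))).1 h1

theorem eig_eq (F₀ : Subfield F) {k : ℕ} (hk : 0 < k) (hq : Fintype.card F = Nat.card F₀ ^ k) (B : Matrix (Fin n) (Fin n) F₀) (b : F) :
    finrank F (E (Matrix.toLin' (B.map F₀.subtype)) b) = finrank F (E (Matrix.toLin' (B.map F₀.subtype)) (b ^ Nat.card F₀)) := by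
  apply le_antisymm (eig_le F₀ B b)
  have h1 : ∀ (j : ℕ) (c : F), finrank F (E (Matrix.toLin' (B.map F₀.subtype)) c) ≤
      finrank F (E (Matrix.toLin' (B.map F₀.subtype)) (c ^ (Nat.card F₀ ^ j))) := by
    intro j
    induction j with
    | zero => intro c; rw [pow_zero, pow_one]
    | succ j ih =>
      intro c
      refine (eig_le F₀ B c).trans ((ih _).trans ?_)
      rw [← pow_mul, ← pow_succ']
  have h2 := h1 (k - 1) (b ^ Nat.card F₀)
  have h3 : (b ^ Nat.card F₀) ^ (Nat.card F₀ ^ (k - 1)) = b := by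
    rw [← pow_mul, ← pow_succ']
    have : k - 1 + 1 = k := by omega
    rw [this, ← hq]
    exact FiniteField.pow_card b
  rw [h3] at h2
  exact h2

omit [Fintype F] in
theorem E_smul' {M : Matrix (Fin n) (Fin n) F} {c a : F} (hc : c ≠ 0) : E (Matrix.toLin' (c • M)) a = E (Matrix.toLin' M) (a / c) := by
  have h1 : Matrix.toLin' (c • M) = c • Matrix.toLin' M := map_smul _ _ _
  have h2 : a = c * (a / c) := by field_simp
  rw [h1]
  conv_lhs => rw [h2]
  exact E_smul hc

omit [Fintype F] in
theorem finrank_conj_SL (x P : Matrix.SpecialLinearGroup (Fin n) F) (a : F) :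
    finrank F (E (tl (P⁻¹ * x * P)) a) = finrank F (E (tl x) a) := by
  have := Cfsg.Agent.Lib.XR.finrank_conj' (Matrix.SpecialLinearGroup.toGL x) (Matrix.SpecialLinearGroup.toGL P) a
  rw [← map_inv, ← map_mul, ← map_mul] at this
  exact this

/-- invariance of the eigenvalues under the twisted Frobenius map -/
theorem tau (hn : 0 < n) (F₀ : Subfield F) {k : ℕ} (hk : 0 < k) (hq : Fintype.card F = Nat.card F₀ ^ k)
    {x P : Matrix.SpecialLinearGroup (Fin n) F} (h : P⁻¹ * x * P ∈ HSub n F₀) :
    ∃ c : F, c ≠ 0 ∧ c ^ (n * (Nat.card F₀ - 1)) = 1 ∧ ∀ a, finrank F (E (tl x) a) = finrank F (E (tl x) (c * (a / c) ^ Nat.card F₀)) := by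
  obtain ⟨c, B, hB⟩ := (mem_HSub_iff hn F₀ _).1 h
  have hdet : c ^ n * ((B.det : F₀) : F) = 1 := by
    have h1 := (P⁻¹ * x * P).2
    rw [hB, Matrix.det_smul, det_map_subtype, Fintype.card_fin] at h1
    exact h1
  have hc : c ≠ 0 := by
    rintro rfl
    rw [zero_pow hn.ne', zero_mul] at hdet
    exact zero_ne_one hdet
  refine ⟨c, hc, ?_, fun a => ?_⟩
  · have h2 : ((B.det : F₀) : F) ≠ 0 := by
      intro h0
      rw [h0, mul_zero] at hdet
      exact zero_ne_one hdet
    have h3 : ((B.det : F₀) : F) ^ (Nat.card F₀ - 1) = 1 := by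
      have h4 := (mem_iff F₀ _).1 (B.det).2
      have h5 : 0 < Nat.card F₀ := Nat.card_pos
      have h6 : Nat.card F₀ = Nat.card F₀ - 1 + 1 := by omega
      rw [h6, pow_succ] at h4
      exact mul_right_cancel₀ h2 (by rw [h4, one_mul])
    have h7 := congrArg (· ^ (Nat.card F₀ - 1)) hdet
    simp only [one_pow, mul_pow, h3, mul_one] at h7
    rw [pow_mul]; exact h7
  · have h1 : ∀ a, finrank F (E (tl x) a) = finrank F (E (Matrix.toLin' (B.map F₀.subtype)) (a / c)) := by
      intro a
      rw [← finrank_conj_SL x P a, ← E_smul' hc, ← hB]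
    rw [h1, h1, mul_div_cancel_left₀ _ hc]
    exact eig_eq F₀ hk hq B _

end eig

end Cfsg.Agent.Lib.SubfR
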