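import Mathlib
import Cfsg.Agent.Lib.SubfR2

/-! Elements of prime order and subfield subgroups: single blocks, the case `r = k`. (helper99) -/

set_option autoImplicit false

namespace Cfsg.Agent.Lib.SubfR

open Module Matrix Cfsg.Agent.Lib.InvSub Cfsg.Agent.Lib.ElusiveLin Cfsg.Agent.Lib.PrimeOrd Cfsg.Agent.Lib.ConjSub Cfsg.Agent.Lib.UnForm

section arith

theorem geom_eq (q₀ k : ℕ) (h : 1 ≤ q₀) : (∑ t ∈ Finset.range k, q₀ ^ t) * (q₀ - 1) + 1 = q₀ ^ k := by
  obtain ⟨m, rfl⟩ : ∃ m, q₀ = m + 1 := ⟨q₀ - 1, by omega⟩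
  have := geom_sum_mul_add m k
  simpa using this

theorem coprime_geom {q₀ r m : ℕ} (hr : r.Prime) (hm : 0 < m) (hmr : m < r) (hq₀ : 1 < q₀) :
    Nat.Coprime (∑ t ∈ Finset.range r, q₀ ^ t) m := by
  by_contra hcon
  obtain ⟨l, hl, h1, h2⟩ := Nat.Prime.not_coprime_iff_dvd.1 hcon
  have hlF : Fact l.Prime := ⟨hl⟩
  have hlm : l ≤ m := Nat.le_of_dvd hm h2
  have hz : ((∑ t ∈ Finset.range r, q₀ ^ t : ℕ) : ZMod l) = 0 := (ZMod.natCast_eq_zero_iff _ _).2 h1
  have hpow : (q₀ : ZMod l) ^ r = 1 := by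
    have h3 := congrArg (Nat.cast : ℕ → ZMod l) (geom_eq q₀ r (by omega))
    rw [Nat.cast_add, Nat.cast_mul, hz, zero_mul, zero_add, Nat.cast_one, Nat.cast_pow] at h3
    exact h3.symm
  have hu0 : (q₀ : ZMod l) ≠ 0 := by
    intro h
    rw [h, zero_pow hr.pos.ne'] at hpow
    exact zero_ne_one hpow
  rcases (Nat.dvd_prime hr).1 (orderOf_dvd_of_pow_eq_one hpow) with h3 | h3
  · rw [_root_.orderOf_eq_one_iff] at h3
    rw [Nat.cast_sum] at hz
    simp only [Nat.cast_pow, h3, one_pow, Finset.sum_const, Finset.card_range, nsmul_eq_mul, mul_one] at hz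
    have h4 := (Nat.prime_dvd_prime_iff_eq hl hr).1 ((ZMod.natCast_eq_zero_iff _ _).1 hz)
    omega
  · have h4 := ZMod.orderOf_dvd_card_sub_one hu0
    rw [h3] at h4
    have := Nat.le_of_dvd (by have := hl.two_le; omega) h4
    omega

end arith

section field

variable {F : Type*} [Field F] [Fintype F]

theorem full_of_lt (F₀ : Subfield F) {r m : ℕ} (hr : r.Prime) (hq : Fintype.card F = Nat.card F₀ ^ r) (hm : 0 < m) (hmr : m < r) :
    ∀ a : F, a ≠ 0 → ∃ (δ : F) (d : F₀), δ ^ m * d = a := by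
  intro a ha
  have hq₀ : 1 < Nat.card F₀ := Finite.one_lt_card
  set S := ∑ t ∈ Finset.range r, (Nat.card F₀) ^ t with hS
  have hcop := coprime_geom hr hm hmr hq₀
  have hg := geom_eq (Nat.card F₀) r (by omega)
  have haS : a ^ S ∈ F₀ := by
    rw [mem_iff, ← pow_mul]
    have e1 : S * Nat.card F₀ = (Fintype.card F - 1) + S := by
      rw [hq, ← hg]
      obtain ⟨m, hm⟩ : ∃ m, Nat.card F₀ = m + 1 := ⟨Nat.card F₀ - 1, by omega⟩
      rw [← hS, hm]
      simp only [Nat.add_sub_cancel]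
      ring
    rw [e1, pow_add, FiniteField.pow_card_sub_one_eq_one a ha, one_mul]
  have hbez := Nat.gcd_eq_gcd_ab S m
  rw [hcop] at hbez
  refine ⟨a ^ (Nat.gcdB S m), ⟨(a ^ S) ^ (Nat.gcdA S m), F₀.zpow_mem haS _⟩, ?_⟩
  show (a ^ (Nat.gcdB S m)) ^ m * (a ^ S) ^ (Nat.gcdA S m) = a
  rw [← zpow_natCast (a ^ _) m, ← _root_.zpow_mul, ← zpow_natCast a S, ← _root_.zpow_mul, ← zpow_add₀ ha]
  have : Nat.gcdB S m * (m : ℤ) + (S : ℤ) * Nat.gcdA S m = 1 := by
    rw [mul_comm (Nat.gcdB S m), add_comm]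
    exact hbez.symm
  rw [this, zpow_one]

theorem orders_eq (F₀ : Subfield F) {r : ℕ} [hr : Fact r.Prime] (hq : Fintype.card F = Nat.card F₀ ^ r) :
    orderOf ((Fintype.card F : ℕ) : ZMod r) = orderOf ((Nat.card F₀ : ℕ) : ZMod r) := by
  rw [hq, Nat.cast_pow, ZMod.pow_card]

end field

section mat

variable {F : Type*} [Field F] [Fintype F] {n : ℕ} {p r : ℕ} [Fact p.Prime] [CharP F p] [hr : Fact r.Prime]

/-- the case `r = k`, type B -/
theorem yes_rk (hrp : r ≠ p) (hn : 0 < n) (F₀ : Subfield F) (hq : Fintype.card F = Nat.card F₀ ^ r)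
    {x : Matrix.SpecialLinearGroup (Fin n) F} {y : F} (hy : y ≠ 0) (hx : (tl x) ^ r = (y ^ r) • (1 : Module.End F (Fin n → F))) :
    ∃ P : Matrix.SpecialLinearGroup (Fin n) F, P⁻¹ * x * P ∈ HSub n F₀ := by
  have hord := orders_eq F₀ hq (r := r)
  set T : Module.End F (Fin n → F) := y⁻¹ • tl x with hT
  have hTr : T ^ r = 1 := by
    rw [hT, _root_.smul_pow, hx, smul_smul, ← mul_pow, inv_mul_cancel₀ hy, one_pow, one_smul]
  obtain ⟨ι, hι, b, hb⟩ := (rat_top (p := p) hrp F₀ hord hTr).exists_basis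
  have htop : (⊤ : Submodule F (Fin n → F)) ≠ ⊥ := by
    intro h
    have h1 := congrArg (fun U : Submodule F (Fin n → F) => finrank F U) h
    simp only [finrank_top, Module.finrank_fin_fun, finrank_bot] at h1
    omega
  obtain ⟨M, -, hM0, -, hM, hMf⟩ := exists_piece (p := p) hrp F₀ hord hTr inv_top htop
  have hss : SS T 1 (orderOf ((Fintype.card F : ℕ) : ZMod r)) := ssB (p := p) hrp one_ne_zero (by rw [hTr, one_pow, one_smul])
  obtain ⟨W, hW, hMW⟩ := hss.compl M hM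
  refine exists_conj' hn F₀ b y ?_ hMW ((Cfsg.Agent.Lib.PrimeOrd.inv_smul (inv_ne_zero hy)).1 hM) ((Cfsg.Agent.Lib.PrimeOrd.inv_smul (inv_ne_zero hy)).1 hW) ?_
  · intro i j
    obtain ⟨a, ha⟩ := hb i j
    refine ⟨a, ?_⟩
    have : tl x (b j) = y • T (b j) := by
      rw [hT, LinearMap.smul_apply, smul_smul, mul_inv_cancel₀ hy, one_smul]
    rw [this, map_smul, Finsupp.smul_apply, smul_eq_mul, ha]
  · have hr1 := hr.out.one_lt
    rcases hMf with h | h
    · rw [h]
      exact full_one F₀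
    · rw [h]
      have h1 : 0 < orderOf ((Fintype.card F : ℕ) : ZMod r) := order_pos (p := p) hrp
      have h2 : orderOf ((Fintype.card F : ℕ) : ZMod r) ∣ r - 1 := by
        apply ZMod.orderOf_dvd_card_sub_one
        intro h0
        rw [h0, orderOf_zero] at h1
        exact lt_irrefl 0 h1
      have h3 := Nat.le_of_dvd (by omega) h2
      exact full_of_lt F₀ hr.out hq h1 (by omega)

omit [Fintype F] [Fact p.Prime] [CharP F p] hr in
/-- the fixed space is the range of the trace operator -/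
theorem range_N {K V : Type*} [Field K] [AddCommGroup V] [Module K V] [FiniteDimensional K V] {r : ℕ} (hrF : (r : K) ≠ 0) {T : Module.End K V} (hT : T ^ r = 1) :
    LinearMap.range (∑ j ∈ Finset.range r, T ^ j) = LinearMap.ker (T - 1) := by
  apply le_antisymm
  · rintro _ ⟨v, rfl⟩
    rw [LinearMap.mem_ker, ← Module.End.mul_apply]
    have : (T - 1) * ∑ j ∈ Finset.range r, T ^ j = 0 := by
      rw [mul_geom_sum, hT, sub_self]
    rw [this]; rfl
  · intro v hv
    rw [LinearMap.mem_ker] at hv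
    have h1 : T v = v := sub_eq_zero.1 hv
    have h2 : ∀ j : ℕ, (T ^ j) v = v := by
      intro j
      induction j with
      | zero => rfl
      | succ j ih => rw [pow_succ, Module.End.mul_apply, h1, ih]
    refine ⟨(r : K)⁻¹ • v, ?_⟩
    rw [map_smul, LinearMap.sum_apply]
    simp only [h2, Finset.sum_const, Finset.card_range]
    rw [← Nat.cast_smul_eq_nsmul K, smul_smul, inv_mul_cancel₀ hrF, one_smul]

/-- the order of the nontrivial part over the subfield -/
theorem no_block (hrp : r ≠ p) (hn : 0 < n) (F₀ : Subfield F) (hrq : ¬ r ∣ Fintype.card F - 1)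
    {x P : Matrix.SpecialLinearGroup (Fin n) F} (h : P⁻¹ * x * P ∈ HSub n F₀) (hx : (tl x) ^ r = 1) {i : ℕ}
    (hi : finrank F (E (tl x) 1) + i = n) : r ∣ Nat.card F₀ ^ i - 1 := by
  classical
  have hF₀ : Fintype F₀ := Fintype.ofFinite _
  have hch : CharP F₀ p := (algebraMap F₀ F).charP (algebraMap F₀ F).injective p
  obtain ⟨c, B, hB⟩ := (mem_HSub_iff hn F₀ _).1 h
  set y := P⁻¹ * x * P with hy
  have hyr : (y ^ r : Matrix.SpecialLinearGroup (Fin n) F) = 1 := by
    have hxr : x ^ r = 1 := by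
      apply Subtype.ext
      have h1 : tl (x ^ r) = (1 : F) • (1 : Module.End F (Fin n → F)) := by rw [← tl_pow, hx, one_smul]
      have := (tl_eq_smul_iff _ _).1 h1
      rw [this, one_smul]; rfl
    have := conj_pow (i := r) (a := P⁻¹) (b := x)
    rw [inv_inv] at this
    rw [hy, this, hxr]; group
  have hyr' : y.1 ^ r = 1 := by
    rw [← Matrix.SpecialLinearGroup.coe_pow, hyr]; rfl
  have hmap : ∀ (A : Matrix (Fin n) (Fin n) F₀) (k : ℕ), (A.map F₀.subtype) ^ k = (A ^ k).map F₀.subtype := by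
    intro A k
    have := map_pow (F₀.subtype.mapMatrix (m := Fin n)) A k
    exact this.symm
  -- c lies in F₀
  have h1 : c ^ r * (((B ^ r) ⟨0, hn⟩ ⟨0, hn⟩ : F₀) : F) = 1 := by
    have h2 := hyr'
    rw [hB, _root_.smul_pow, hmap] at h2
    have h3 := congrFun (congrFun h2 ⟨0, hn⟩) ⟨0, hn⟩
    rw [Matrix.smul_apply, Matrix.one_apply_eq, smul_eq_mul] at h3
    exact h3
  have hc0 : c ≠ 0 := by
    rintro rfl
    rw [zero_pow hr.out.pos.ne', zero_mul] at h1
    exact zero_ne_one h1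
  have hcardF : Nat.card F = Fintype.card F := Nat.card_eq_fintype_card
  have hrq₀ : ¬ r ∣ Fintype.card F₀ - 1 := by
    intro hd
    apply hrq
    refine hd.trans ?_
    have hh : Fintype.card F = Fintype.card F₀ ^ (Module.finrank F₀ F) := Module.card_eq_pow_finrank
    rw [hh]
    have := Nat.sub_dvd_pow_sub_pow (Fintype.card F₀) 1 (Module.finrank F₀ F)
    rwa [one_pow] at this
  obtain ⟨d, hd⟩ := exists_root_of_not_dvd hr.out hrq₀ (((B ^ r) ⟨0, hn⟩ ⟨0, hn⟩)⁻¹)
  have hcd : c ^ r = (d : F) ^ r := by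
    have h2 : (d : F) ^ r = ((((B ^ r) ⟨0, hn⟩ ⟨0, hn⟩)⁻¹ : F₀) : F) := by rw [← hd]; rfl
    rw [h2]
    push_cast
    exact eq_inv_of_mul_eq_one_left h1
  have hceq : c = d := by
    have hd0 : (d : F) ≠ 0 := by
      intro h0
      rw [h0, zero_pow hr.out.pos.ne'] at hcd
      exact hc0 (pow_eq_zero_iff hr.out.pos.ne' |>.1 hcd)
    have h2 : (c / d) ^ r = 1 := by rw [div_pow, hcd, div_self (pow_ne_zero _ hd0)]
    have h3 : (c / d) ^ (Fintype.card F - 1) = 1 := FiniteField.pow_card_sub_one_eq_one _ (div_ne_zero hc0 hd0)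
    have h4 := Nat.dvd_gcd (orderOf_dvd_of_pow_eq_one h2) (orderOf_dvd_of_pow_eq_one h3)
    rw [(Nat.Prime.coprime_iff_not_dvd hr.out).2 hrq] at h4
    have h5 := _root_.orderOf_eq_one_iff.1 (Nat.dvd_one.1 h4)
    exact (div_eq_one_iff_eq hd0).1 h5
  let A : Matrix (Fin n) (Fin n) F₀ := d • B
  have hA : y.1 = A.map F₀.subtype := by
    rw [hB, hceq]
    ext i j
    rfl
  have hAr : A ^ r = 1 := by
    have h2 := hyr'
    rw [hA, hmap] at h2
    ext i j
    have h3 := congrFun (congrFun h2 i) j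
    have h4 : (((A ^ r) i j : F₀) : F) = (1 : Matrix (Fin n) (Fin n) F) i j := h3
    rw [h4, Matrix.one_apply, Matrix.one_apply]
    split_ifs <;> rfl
  have hrF : (r : F) ≠ 0 := cast_ne_zero (p := p) hrp
  have hrF₀ : (r : F₀) ≠ 0 := cast_ne_zero (p := p) hrp
  set T₀ : Module.End F₀ (Fin n → F₀) := Matrix.toLin' A with hT₀
  have hT₀r : T₀ ^ r = 1 := by
    rw [hT₀, ← toLin'_pow', hAr, Matrix.toLin'_one]; rfl
  have hyl : (tl y) ^ r = 1 := by
    rw [tl_pow, hyr]
    show Matrix.toLin' (1 : Matrix (Fin n) (Fin n) F) = 1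
    rw [Matrix.toLin'_one]; rfl
  -- ranks
  have hsum : ∀ (K : Type _) [Field K] (M : Matrix (Fin n) (Fin n) K), Matrix.toLin' (∑ j ∈ Finset.range r, M ^ j) = ∑ j ∈ Finset.range r, (Matrix.toLin' M) ^ j := by
    intro K _ M
    rw [map_sum]
    exact Finset.sum_congr rfl (fun j _ => toLin'_pow' M j)
  have hker : LinearMap.ker (tl y - 1) = E (tl y) 1 := by
    ext v
    rw [LinearMap.mem_ker, Module.End.mem_eigenspace_iff, one_smul]
    show tl y v - v = 0 ↔ _
    rw [sub_eq_zero]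
  have e1 := LinearMap.finrank_range_add_finrank_ker (tl y - 1)
  rw [hker, Module.finrank_fin_fun, hy, finrank_conj_SL, ← hy] at e1
  have e2 := LinearMap.finrank_range_add_finrank_ker (T₀ - 1)
  rw [Module.finrank_fin_fun, ← range_N hrF₀ hT₀r] at e2
  have e3 := UniTwo.rank_map_le F₀ (A - 1)
  have e4 := UniTwo.rank_map_le F₀ (∑ j ∈ Finset.range r, A ^ j)
  have e5 : Matrix.toLin' ((A - 1).map F₀.subtype) = tl y - 1 := by
    have : (A - 1).map F₀.subtype = y.1 - 1 := by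
      rw [hA]
      have h3 := map_sub (F₀.subtype.mapMatrix (m := Fin n)) A 1
      rw [map_one] at h3
      exact h3
    rw [this, map_sub, Matrix.toLin'_one]; rfl
  have e6 : Matrix.toLin' ((∑ j ∈ Finset.range r, A ^ j).map F₀.subtype) = ∑ j ∈ Finset.range r, (tl y) ^ j := by
    rw [← hsum]
    congr 1
    have h3 := map_sum (F₀.subtype.mapMatrix (m := Fin n)) (fun j => A ^ j) (Finset.range r)
    have h4 : (∑ j ∈ Finset.range r, A ^ j).map F₀.subtype = ∑ j ∈ Finset.range r, (F₀.subtype.mapMatrix (m := Fin n)) (A ^ j) := h3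
    rw [h4]
    apply Finset.sum_congr rfl
    intro j _
    rw [hA]
    exact (hmap A j).symm
  have e7 : Matrix.toLin' (A - 1) = T₀ - 1 := by
    rw [map_sub, Matrix.toLin'_one]; rfl
  rw [e5, e7] at e3
  rw [e6, range_N hrF hyl, hker, hsum, ← hT₀] at e4
  rw [hy, finrank_conj_SL] at e4
  have hrank : finrank F₀ (LinearMap.range (T₀ - 1)) = i := by omega
  -- the count
  set W := LinearMap.range (T₀ - 1) with hW
  have hdisj := fix_disj hrF₀ hT₀r
  have hWinv : ∀ w ∈ W, T₀ w ∈ W := by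
    rintro _ ⟨v, rfl⟩
    refine ⟨T₀ v, ?_⟩
    show T₀ (T₀ v) - T₀ v = T₀ (T₀ v - v)
    rw [map_sub]
  have hcard : Nat.card {w : W // w ≠ 0} = Nat.card F₀ ^ i - 1 := by
    have h3 : Nat.card W = Nat.card F₀ ^ i := by
      rw [Module.natCard_eq_pow_finrank (K := F₀) (V := W), hrank]
    have : Fintype W := Fintype.ofFinite _
    rw [Nat.card_eq_fintype_card, Fintype.card_subtype_compl, Fintype.card_subtype_eq, ← Nat.card_eq_fintype_card, h3]
  rw [← hcard]
  have hne : ∀ w : {w : W // w ≠ 0}, (⟨T₀ w.1.1, hWinv _ w.1.2⟩ : W) ≠ 0 := by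
    intro w hw
    apply w.2
    apply Subtype.ext
    have h3 : T₀ w.1.1 = 0 := congrArg Subtype.val hw
    have h4 : (T₀ ^ r) w.1.1 = 0 := by
      obtain ⟨k, hk⟩ : ∃ k, r = k + 1 := ⟨r - 1, by have := hr.out.pos; omega⟩
      rw [hk, pow_succ, Module.End.mul_apply, h3, map_zero]
    rw [hT₀r] at h4
    exact h4
  refine dvd_card_of_free (fun w => ⟨⟨T₀ w.1.1, hWinv _ w.1.2⟩, hne w⟩) ?_ ?_
  · intro w
    apply Subtype.ext
    apply Subtype.ext
    have h3 : ∀ k : ℕ, (((fun w : {w : W // w ≠ 0} => (⟨⟨T₀ w.1.1, hWinv _ w.1.2⟩, hne w⟩ : {w : W // w ≠ 0}))^[k]) w).1.1 = (T₀ ^ k) w.1.1 := by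
      intro k
      induction k with
      | zero => rfl
      | succ k ih => rw [Function.iterate_succ_apply', pow_succ', Module.End.mul_apply, ← ih]
    rw [h3, hT₀r]; rfl
  · intro w hw
    have h3 : T₀ w.1.1 = w.1.1 := congrArg (fun w : {w : W // w ≠ 0} => w.1.1) hw
    have h4 : w.1.1 ∈ LinearMap.range (T₀ - 1) ⊓ E T₀ 1 := ⟨w.1.2, Module.End.mem_eigenspace_iff.2 (by rw [h3, one_smul])⟩
    rw [hdisj, Submodule.mem_bot] at h4
    exact w.2 (Subtype.ext h4)

end mat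

end Cfsg.Agent.Lib.SubfR
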