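import Mathlib
import Cfsg.Agent.Lib.SubfR3
import Cfsg.Agent.Lib.DiagTool
import Cfsg.Agent.Lib.ElusiveTool

/-! Subfield subgroups: index arithmetic, diagonal elements. (helper99) -/

set_option autoImplicit false

namespace Cfsg.Agent.Lib.SubfR

open Module Matrix Cfsg.Agent.Lib.InvSub Cfsg.Agent.Lib.ElusiveLin Cfsg.Agent.Lib.PrimeOrd Cfsg.Agent.Lib.ConjSub Cfsg.Agent.Lib.UnForm

section

variable {F : Type*} [Field F] [Fintype F] {n : ℕ}

theorem index_factor' {p r : ℕ} [hp : Fact p.Prime] [CharP F p] [hr : Fact r.Prime] (hn : 0 < n) (F₀ : Subfield F) {k : ℕ} (hk : k.Prime)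
    (hq : Fintype.card F = Nat.card F₀ ^ k) (hrp : r ≠ p) (hrk : r ≠ k) (hΩ : r ∣ (Cfsg.Agent.Lib.ConjSub.HSub n F₀).index) :
    ∃ j, 2 ≤ j ∧ j ≤ n ∧ r ∣ Fintype.card F ^ j - 1 ∧ ¬ r ∣ Nat.card F₀ ^ j - 1 := by
  obtain ⟨m, hm⟩ := index_relation hn F₀ rfl
  set q₀ := Nat.card F₀ with hq₀
  have hq₀1 : 1 < q₀ := Finite.one_lt_card
  have hq1 : 1 < Fintype.card F := Fintype.one_lt_card
  obtain ⟨n', rfl⟩ : ∃ n', n = n' + 1 := ⟨n - 1, by omega⟩
  rw [Finset.prod_range_succ', Finset.prod_range_succ'] at hm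
  simp only [zero_add, pow_one] at hm
  set e := (n' + 1) * (n' + 1 - 1) / 2
  have hS : ∀ i, Fintype.card F ^ (i + 1 + 1) - 1 = (q₀ ^ (i + 1 + 1) - 1) * ∑ t ∈ Finset.range k, (q₀ ^ (i + 1 + 1)) ^ t := by
    intro i
    have h1 := geom_eq (q₀ ^ (i + 1 + 1)) k (Nat.one_le_pow _ _ (by omega))
    have h2 : Fintype.card F ^ (i + 1 + 1) = (q₀ ^ (i + 1 + 1)) ^ k := by rw [hq, ← pow_mul, ← pow_mul, mul_comm]
    rw [h2, ← h1, Nat.add_sub_cancel, mul_comm]
  have hpos : 0 < ∏ i ∈ Finset.range n', (q₀ ^ (i + 1 + 1) - 1) := by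
    apply Finset.prod_pos
    intro i _
    have : 1 < q₀ ^ (i + 1 + 1) := Nat.one_lt_pow (by omega) hq₀1
    omega
  have key : (Cfsg.Agent.Lib.ConjSub.HSub (n' + 1) F₀).index * m * q₀ ^ e = Fintype.card F ^ e * ∏ i ∈ Finset.range n', ∑ t ∈ Finset.range k, (q₀ ^ (i + 1 + 1)) ^ t := by
    simp_rw [hS, Finset.prod_mul_distrib] at hm
    have hc : 0 < (Fintype.card F - 1) * (q₀ - 1) * ∏ i ∈ Finset.range n', (q₀ ^ (i + 1 + 1) - 1) :=
      Nat.mul_pos (Nat.mul_pos (by omega) (by omega)) hpos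
    apply Nat.eq_of_mul_eq_mul_left hc
    linear_combination hm
  have hrq : ¬ r ∣ Fintype.card F := by
    intro h
    obtain ⟨a, -, ha⟩ := FiniteField.card F p
    rw [ha] at h
    exact hrp ((Nat.prime_dvd_prime_iff_eq hr.out hp.out).1 (hr.out.dvd_of_dvd_pow h))
  have h1 : r ∣ Fintype.card F ^ e * ∏ i ∈ Finset.range n', ∑ t ∈ Finset.range k, (q₀ ^ (i + 1 + 1)) ^ t := by
    rw [← key]
    exact Dvd.dvd.mul_right (Dvd.dvd.mul_right hΩ _) _
  rcases (Nat.Prime.dvd_mul hr.out).1 h1 with h2 | h2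
  · exact absurd (hr.out.dvd_of_dvd_pow h2) hrq
  · obtain ⟨i, hi, h3⟩ := (Prime.dvd_finset_prod_iff hr.out.prime _).1 h2
    rw [Finset.mem_range] at hi
    refine ⟨i + 1 + 1, by omega, by omega, ?_, ?_⟩
    · rw [hS]; exact Dvd.dvd.mul_left h3 _
    · intro h4
      apply hrk
      have h5 : ((q₀ ^ (i + 1 + 1) : ℕ) : ZMod r) = 1 := by
        have h6 : 1 ≤ q₀ ^ (i + 1 + 1) := Nat.one_le_pow _ _ (by omega)
        have h7 := (ZMod.natCast_eq_zero_iff _ _).2 h4
        rw [Nat.cast_sub h6, Nat.cast_one, sub_eq_zero] at h7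
        exact h7
      have h6 := (ZMod.natCast_eq_zero_iff _ _).2 h3
      have h7 : ∀ t, (((q₀ ^ (i + 1 + 1)) ^ t : ℕ) : ZMod r) = 1 := by
        intro t; rw [Nat.cast_pow, h5, one_pow]
      rw [Nat.cast_sum] at h6
      simp only [h7, Finset.sum_const, Finset.card_range, nsmul_eq_mul, mul_one] at h6
      exact (Nat.prime_dvd_prime_iff_eq hr.out hk).1 ((ZMod.natCast_eq_zero_iff _ _).1 h6)

/-- the diagonal element `diag(ζ, ζ⁻¹, 1, …, 1)` -/
theorem exists_zeta (hn : 2 ≤ n) {r : ℕ} {ζ : F} (hζ : ζ ^ r = 1) (h0 : ζ ≠ 0) (h1 : ζ ≠ ζ⁻¹) : ∃ X : Matrix.SpecialLinearGroup (Fin n) F,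
    (tl X) ^ r = 1 ∧ (∀ z : F, X.1 ≠ z • (1 : Matrix (Fin n) (Fin n) F)) ∧
      ∀ y [Decidable (ζ = y)] [Decidable (ζ⁻¹ = y)] [Decidable (1 = y)],
        finrank F (E (tl X) y) = (if ζ = y then 1 else 0) + (if ζ⁻¹ = y then 1 else 0) + (if 1 = y then n - 2 else 0) := by
  classical
  let i0 : Fin n := ⟨0, by omega⟩
  let i1 : Fin n := ⟨1, by omega⟩
  have h01 : i0 ≠ i1 := by simp [i0, i1]
  let d : Fin n → F := Function.update (Function.update (fun _ => 1) i0 ζ) i1 ζ⁻¹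
  have hd0 : d i0 = ζ := by
    show Function.update _ _ _ _ = _
    rw [Function.update_of_ne h01, Function.update_self]
  have hd1 : d i1 = ζ⁻¹ := Function.update_self _ _ _
  have hprod : ∏ i, d i = 1 := by
    have h2 : i1 ∈ (Finset.univ : Finset (Fin n)).erase i0 := by simp [h01.symm]
    rw [← Finset.mul_prod_erase _ _ (Finset.mem_univ i0), ← Finset.mul_prod_erase _ _ h2, hd0, hd1, ← mul_assoc, mul_inv_cancel₀ h0, one_mul]
    apply Finset.prod_eq_one
    intro i hi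
    rw [Finset.mem_erase, Finset.mem_erase] at hi
    show Function.update _ _ _ _ = _
    rw [Function.update_of_ne hi.1, Function.update_of_ne hi.2.1]
  obtain ⟨X, hX, hXt⟩ := ElusiveTool.exists_diag d hprod
  have hdr : ∀ i, d i ^ r = 1 := by
    intro i
    show (Function.update (Function.update (fun _ => (1 : F)) i0 ζ) i1 ζ⁻¹ i) ^ r = 1
    by_cases h : i = i1
    · rw [h, Function.update_self, _root_.inv_pow, hζ, inv_one]
    · rw [Function.update_of_ne h]
      by_cases h' : i = i0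
      · rw [h', Function.update_self, hζ]
      · rw [Function.update_of_ne h', one_pow]
  refine ⟨X, ?_, ?_, ?_⟩
  · rw [hXt, ← toLin'_pow', Matrix.diagonal_pow]
    have : d ^ r = fun _ => 1 := funext hdr
    rw [this]
    have h5 : (Matrix.diagonal fun _ : Fin n => (1 : F)) = 1 := Matrix.diagonal_one
    rw [h5, Matrix.toLin'_one]; rfl
  · intro z hz
    rw [hX] at hz
    have h2 := congrFun (congrFun hz i0) i0
    have h3 := congrFun (congrFun hz i1) i1
    rw [Matrix.diagonal_apply_eq, hd0, Matrix.smul_apply, Matrix.one_apply_eq, smul_eq_mul, mul_one] at h2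
    rw [Matrix.diagonal_apply_eq, hd1, Matrix.smul_apply, Matrix.one_apply_eq, smul_eq_mul, mul_one] at h3
    exact h1 (h2.trans h3.symm)
  · intro y _ _ _
    rw [hXt, ElusiveTool.finrank_E_diag]
    have := ElusiveTool.upd2_card h01 (1 : F) ζ ζ⁻¹ y
    convert! this

end

section good

variable {F : Type*} [Field F] [Fintype F]

/-- diagonal matrices conjugate to matrices over the subfield -/
def Good (F₀ : Subfield F) {ι : Type} [Fintype ι] [DecidableEq ι] (v : ι → F) : Prop :=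
  ∃ (B : Matrix ι ι F₀) (R R' : Matrix ι ι F), R * R' = 1 ∧ B.map F₀.subtype * R = R * Matrix.diagonal v

theorem good_one (F₀ : Subfield F) (a : F₀) : Good F₀ (ι := Fin 1) ![(a : F)] := by
  refine ⟨Matrix.diagonal ![a], 1, 1, one_mul 1, ?_⟩
  rw [Matrix.mul_one, Matrix.one_mul]
  ext i j
  fin_cases i
  fin_cases j
  rfl

theorem good_two (F₀ : Subfield F) {ν : F} (h0 : ν ≠ 0) (h : ν ^ Nat.card F₀ = ν⁻¹) : Good F₀ (ι := Fin 2) ![ν, ν⁻¹] := by
  classical
  have ht : ν + ν⁻¹ ∈ F₀ := by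
    rw [mem_iff]
    obtain ⟨ρ, hρ⟩ := exists_rho F₀
    rw [← hρ, map_add, map_inv₀, hρ, h, inv_inv, add_comm]
  by_cases h1 : ν = ν⁻¹
  · have hν : ν ∈ F₀ := by
      rw [mem_iff, h]; exact h1.symm
    refine ⟨Matrix.diagonal ![⟨ν, hν⟩, ⟨ν, hν⟩], 1, 1, one_mul 1, ?_⟩
    rw [Matrix.mul_one, Matrix.one_mul, ← h1]
    ext i j
    fin_cases i <;> fin_cases j <;> simp
  · have h2 : ν⁻¹ - ν ≠ 0 := fun h3 => h1 (sub_eq_zero.1 h3).symm
    refine ⟨!![0, -1; 1, ⟨ν + ν⁻¹, ht⟩], !![1, 1; -ν, -ν⁻¹], (ν⁻¹ - ν)⁻¹ • !![ν⁻¹, 1; -ν, -1], ?_, ?_⟩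
    · have h3 : (!![1, 1; -ν, -ν⁻¹] : Matrix (Fin 2) (Fin 2) F) * !![ν⁻¹, 1; -ν, -1] = (ν⁻¹ - ν) • (1 : Matrix (Fin 2) (Fin 2) F) := by
        ext i j
        fin_cases i <;> fin_cases j <;> simp [Matrix.mul_apply, Fin.sum_univ_two, h0]
        · ring
        · ring
      rw [Matrix.mul_smul, h3, smul_smul, inv_mul_cancel₀ h2, one_smul]
    · ext i j
      fin_cases i <;> fin_cases j <;> simp [Matrix.mul_apply, Fin.sum_univ_two]
      all_goals field_simp
      all_goals ring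

theorem Good.sum {F₀ : Subfield F} {ι κ : Type} [Fintype ι] [DecidableEq ι] [Fintype κ] [DecidableEq κ] {v : ι → F} {w : κ → F}
    (h : Good F₀ v) (h' : Good F₀ w) : Good F₀ (Sum.elim v w) := by
  obtain ⟨B, R, R', h1, h2⟩ := h
  obtain ⟨C, S, S', h3, h4⟩ := h'
  refine ⟨Matrix.fromBlocks B 0 0 C, Matrix.fromBlocks R 0 0 S, Matrix.fromBlocks R' 0 0 S', ?_, ?_⟩
  · rw [Matrix.fromBlocks_multiply]
    simp [h1, h3]
  · have h5 : (Matrix.fromBlocks B 0 0 C).map F₀.subtype = Matrix.fromBlocks (B.map F₀.subtype) 0 0 (C.map F₀.subtype) := by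
      rw [Matrix.fromBlocks_map, Matrix.map_zero _ (map_zero _), Matrix.map_zero _ (map_zero _)]
    have h6 : Matrix.diagonal (Sum.elim v w) = Matrix.fromBlocks (Matrix.diagonal v) 0 0 (Matrix.diagonal w) := by
      rw [Matrix.fromBlocks_diagonal]
    rw [h5, h6, Matrix.fromBlocks_multiply, Matrix.fromBlocks_multiply]
    simp only [Matrix.mul_zero, Matrix.zero_mul, add_zero, zero_add, h2, h4]

theorem Good.reindex {F₀ : Subfield F} {ι κ : Type} [Fintype ι] [DecidableEq ι] [Fintype κ] [DecidableEq κ] {v : ι → F} (h : Good F₀ v)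
    (e : κ ≃ ι) : Good F₀ (v ∘ e) := by
  obtain ⟨B, R, R', h1, h2⟩ := h
  refine ⟨B.submatrix e e, R.submatrix e e, R'.submatrix e e, ?_, ?_⟩
  · rw [Matrix.submatrix_mul_equiv, h1, Matrix.submatrix_one_equiv]
  · have h3 : (B.submatrix e e).map F₀.subtype = (B.map F₀.subtype).submatrix e e := rfl
    have h4 : Matrix.diagonal (v ∘ e) = (Matrix.diagonal v).submatrix e e := (Matrix.submatrix_diagonal_equiv v e).symm
    rw [h3, h4, Matrix.submatrix_mul_equiv, Matrix.submatrix_mul_equiv, h2]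

theorem yes_good {n : ℕ} (hn : 0 < n) {F₀ : Subfield F} {v : Fin n → F} (h : Good F₀ v) {x : GL (Fin n) F} {X : Matrix.SpecialLinearGroup (Fin n) F}
    (hX : X.1 = x.1) {P : GL (Fin n) F} {u : Fin n → F} (hx : x.1 * P.1 = P.1 * Matrix.diagonal u) (π : Equiv.Perm (Fin n)) {c : F}
    (hc : c ≠ 0) (hu : ∀ i, u (π i) = c * v i) : ∃ P : Matrix.SpecialLinearGroup (Fin n) F, P⁻¹ * X * P ∈ Cfsg.Agent.Lib.ConjSub.HSub n F₀ := by
  obtain ⟨B, R, R', h1, h2⟩ := h
  have h1' : R' * R = 1 := _root_.mul_eq_one_comm.1 h1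
  have hdet : IsUnit (c • B.map F₀.subtype).det := by
    have h3 : (c • B.map F₀.subtype) * R = R * Matrix.diagonal (fun i => u (π i)) := by
      have : Matrix.diagonal (fun i => u (π i)) = c • Matrix.diagonal v := by
        ext i j
        rw [Matrix.smul_apply, Matrix.diagonal_apply, Matrix.diagonal_apply]
        split_ifs with h
        · rw [hu]; rfl
        · rw [smul_zero]
      rw [this, Matrix.smul_mul, h2, Matrix.mul_smul]
    have h4 := congrArg Matrix.det h3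
    have hR : R.det ≠ 0 := by
      intro h0
      have := congrArg Matrix.det h1
      rw [Matrix.det_mul, h0, zero_mul, Matrix.det_one] at this
      exact zero_ne_one this
    rw [Matrix.det_mul, Matrix.det_mul, mul_comm, Matrix.det_diagonal] at h4
    have h5 := mul_left_cancel₀ hR h4
    rw [h5, Equiv.prod_comp π u, ← DiagTool.det_of_diag hx]
    exact (Matrix.isUnit_iff_isUnit_det _).1 x.isUnit
  let y : GL (Fin n) F := Matrix.GeneralLinearGroup.mkOfDetNeZero (c • B.map F₀.subtype) hdet.ne_zero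
  let Q : GL (Fin n) F := ⟨R, R', h1, h1'⟩
  obtain ⟨g, hg, hgy⟩ := DiagTool.conj_SL_of_diag hn (x := x) (y := y) (P := P) (Q := Q) (u := u) (w := fun i => u (π i)) hx (by
    show (c • B.map F₀.subtype) * R = R * _
    have : Matrix.diagonal (fun i => u (π i)) = c • Matrix.diagonal v := by
      ext i j
      rw [Matrix.smul_apply, Matrix.diagonal_apply, Matrix.diagonal_apply]
      split_ifs with h
      · rw [hu]; rfl
      · rw [smul_zero]
    rw [this, Matrix.smul_mul, h2, Matrix.mul_smul]) π (fun i => rfl)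
  let g' : Matrix.SpecialLinearGroup (Fin n) F := ⟨g.1, NormTool.mem_SL_iff.1 hg⟩
  refine ⟨g', ?_⟩
  rw [mem_HSub_iff hn]
  refine ⟨c, B, ?_⟩
  have h3 : (g'⁻¹).1 = (g⁻¹).1 := by
    have h4 : (g'⁻¹).1 * g.1 = 1 := by
      have := congrArg Subtype.val (inv_mul_cancel g')
      exact this
    have h5 : g.1 * (g⁻¹).1 = 1 := by rw [← Units.val_mul, mul_inv_cancel]; rfl
    calc (g'⁻¹).1 = (g'⁻¹).1 * (g.1 * (g⁻¹).1) := by rw [h5, Matrix.mul_one]
      _ = (g⁻¹).1 := by rw [← Matrix.mul_assoc, h4, Matrix.one_mul]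
  have h6 := congrArg Units.val hgy
  rw [Units.val_mul, Units.val_mul] at h6
  show (g'⁻¹).1 * X.1 * g.1 = _
  rw [h3, hX, h6]; rfl

end good

end Cfsg.Agent.Lib.SubfR
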