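import Mathlib
import Cfsg.Agent.Lib.SubfRankTwo

/-!
# The rank two lemma for subfield overgroups, `32 ≤ |Λ|` (text of helper98, smaller bound by helper86)
-/

set_option autoImplicit false
set_option linter.unusedSectionVars false

namespace Cfsg.Agent.Lib.SubfRankTwoV

open Cfsg.Agent.Lib Cfsg.Agent.Lib.MobCount Cfsg.Agent.Lib.MobOct MulAction Matrix Cfsg.Agent.Lib.ClProjLine
  Cfsg.Agent.Lib.DkTorus Cfsg.Agent.Lib.DkSub Cfsg.Agent.Lib.DkMax Cfsg.Agent.Lib.DkSubMax Cfsg.Agent.Lib.ClSL2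
  Cfsg.Agent.Lib.SubfRankTwo
open scoped LinearAlgebra.Projectivization MatrixGroups

variable {F : Type*} [Field F] [Fintype F]

/-- prime powers dividing 60 are small -/
theorem no60 {p a m k : ℕ} (hp : p.Prime) (hm : k = p ^ a) (hk : 32 ≤ k) (hd : k ∣ m) (h : m = 12 ∨ m = 24 ∨ m = 60) :
    False := by
  have h1 : k ≤ m := Nat.le_of_dvd (by omega) hd
  have h2 : m = 60 := by omega
  subst h2
  obtain ⟨c, hc⟩ := hd
  have h3 : c < 2 := by
    by_contra h4
    have : 32 * 2 ≤ k * c := Nat.mul_le_mul hk (by omega)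
    omega
  have h5 : c ≠ 0 := by rintro rfl; omega
  have h6 : c = 1 := by omega
  subst h6
  have h7 : p ^ a = 60 := by omega
  have h8 : 2 ∣ p ^ a := by rw [h7]; norm_num
  have h9 : 3 ∣ p ^ a := by rw [h7]; norm_num
  have h10 := (Nat.prime_dvd_prime_iff_eq Nat.prime_two hp).1 (Nat.prime_two.dvd_of_dvd_pow h8)
  have h11 := (Nat.prime_dvd_prime_iff_eq Nat.prime_three hp).1 (Nat.prime_three.dvd_of_dvd_pow h9)
  omega

/-- the image in `PSL_2` is everything -/
theorem map_eq_top (F₀ : Subfield F) (r : ℕ) (hr : r.Prime) (hcard : Fintype.card F = Nat.card F₀ ^ r)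
    (Λ : AddSubgroup F) (hΛ : ∀ s ∈ F₀, ∀ l ∈ Λ, s * l ∈ Λ) (hbig : 32 ≤ Nat.card Λ) (hbig2 : Nat.card F₀ < Nat.card Λ)
    (c : F) (hc : c ≠ 0) (K : Subgroup SL(2, F)) (hU : ∀ l ∈ Λ, uS l ∈ K) (hL : lS c ∈ K) :
    K.map (QuotientGroup.mk' (Subgroup.center SL(2, F))) = ⊤ := by
  obtain ⟨p, hpF⟩ := CharP.exists F
  haveI : CharP F p := hpF
  haveI hpp : Fact p.Prime := ⟨CharP.char_is_prime F p⟩
  by_contra hH
  set H : Subgroup (P2 F) := K.map (QuotientGroup.mk' (Subgroup.center SL(2, F))) with hHdef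
  have hmem : ∀ κ ∈ K, ((κ : SL(2, F)) : P2 F) ∈ H := fun κ hκ => ⟨κ, hκ, rfl⟩
  -- `Λ` embeds
  have htP : ∀ a : F, tP F ((uS a : SL(2, F)) : P2 F) = tG a := by
    intro a
    rw [tP, ProjectiveSpecialLinearGroup.toPGL_mk, toGL_uS]
    rfl
  let j : Multiplicative Λ →* H :=
    { toFun := fun a => ⟨((uS (a.toAdd : F) : SL(2, F)) : P2 F), hmem _ (hU _ a.toAdd.2)⟩
      map_one' := by
        apply Subtype.ext
        apply tP_inj
        change tP F ((uS ((0 : Λ) : F) : SL(2, F)) : P2 F) = tP F 1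
        rw [htP, map_one]
        exact tG_zero
      map_mul' := by
        intro a b
        apply Subtype.ext
        apply tP_inj
        change tP F ((uS ((a.toAdd + b.toAdd : Λ) : F) : SL(2, F)) : P2 F) = tP F (((uS (a.toAdd : F) : SL(2, F)) : P2 F) * ((uS (b.toAdd : F) : SL(2, F)) : P2 F))
        rw [map_mul, htP, htP, htP]
        exact tG_add _ _ }
  have hj : Function.Injective j := by
    intro a b hab
    have h1 := congrArg (fun z : H => tP F (z : P2 F)) hab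
    have h2 : tG (a.toAdd : F) = tG (b.toAdd : F) := by
      rw [← htP, ← htP]; exact h1
    exact Subtype.ext (tG_inj h2)
  have hdvd : Nat.card Λ ∣ Nat.card H := by
    have := Subgroup.card_dvd_of_injective j hj
    exact this
  obtain ⟨n, hn0, hn⟩ := ClSLn.exists_card_eq_pow (F := F) p
  obtain ⟨a, ha, hΛa⟩ : ∃ a ≤ n, Nat.card Λ = p ^ a := by
    have h1 : Nat.card Λ ∣ p ^ n := by
      rw [← hn, ← Nat.card_eq_fintype_card]
      exact AddSubgroup.card_addSubgroup_dvd_card Λ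
    exact (Nat.dvd_prime_pow hpp.out).mp h1
  have ha0 : a ≠ 0 := by rintro rfl; rw [pow_zero] at hΛa; omega
  have hpH : p ∣ Nat.card H := (dvd_pow_self p ha0).trans (by rw [← hΛa]; exact hdvd)
  have hle := Nat.le_of_dvd Nat.card_pos hdvd
  obtain ⟨l₀, hl₀, hl₀0⟩ : ∃ l₀ ∈ Λ, l₀ ≠ 0 := by
    by_contra hcon
    push Not at hcon
    have : Λ = ⊥ := (AddSubgroup.eq_bot_iff_forall _).mpr hcon
    rw [this, AddSubgroup.card_bot] at hbig
    omega
  rcases psl_cases (F := F) rfl p H hH with ⟨_, h, _⟩ | ⟨C, _, _, hpC, hcC, _, _, _⟩ | ⟨_, h, _⟩ | ⟨_, h, _⟩ | ⟨_, h, _⟩ | ⟨_, x, hx⟩ | ⟨g, k, m, hm, hk, h⟩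
  · exact h hpH
  · rw [hcC, hΛa] at hdvd
    have h1 : Nat.Coprime (p ^ a) (Nat.card C) := Nat.Coprime.pow_left a ((Nat.Prime.coprime_iff_not_dvd hpp.out).mpr hpC)
    have h2 := Nat.le_of_dvd (by norm_num) (h1.dvd_of_dvd_mul_right hdvd)
    rw [← hΛa] at h2
    omega
  · exact no60 hpp.out hΛa hbig hdvd (Or.inl h)
  · exact no60 hpp.out hΛa hbig hdvd (Or.inr (Or.inl h))
  · exact no60 hpp.out hΛa hbig hdvd (Or.inr (Or.inr h))
  · have h1 : tG l₀ • x = x := by
      rw [← htP, toPGL_smul]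
      exact hx (hmem _ (hU _ hl₀))
    have h2 : (Matrix.ProjGenLinGroup.mk (SpecialLinearGroup.toGL (lS c)) : PGL(Fin 2, F)) • x = x := by
      have h3 : tP F ((lS c : SL(2, F)) : P2 F) • x = x := by
        rw [toPGL_smul]
        exact hx (hmem _ hL)
      rw [tP, ProjectiveSpecialLinearGroup.toPGL_mk] at h3
      exact h3
    rcases e0_or_pt x with rfl | ⟨b, rfl⟩
    · unfold e0 at h2
      rw [fixed_iff] at h2
      obtain ⟨l, hl⟩ := h2
      have h3 := congrFun hl 1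
      have h4 : (SpecialLinearGroup.toGL (lS c) : GL (Fin 2) F).1 = !![1, 0; c, 1] := coe_lS c
      rw [h4] at h3
      simp [Matrix.mulVec, dotProduct, Fin.sum_univ_two] at h3
      exact hc h3
    · rw [tG_smul_pt] at h1
      have := pt_inj h1
      rw [add_eq_left] at this
      exact hl₀0 this
  · haveI : Fintype k := Fintype.ofFinite k
    haveI : CharP k p := (RingHom.charP_iff k.subtype k.subtype.injective p).mpr inferInstance
    obtain ⟨b, hb0, hb⟩ := ClSLn.exists_card_eq_pow (F := k) p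
    -- all traces
    have htr : ∀ κ ∈ K, (κ : Matrix (Fin 2) (Fin 2) F).trace ^ 2 ∈ k := by
      intro κ hκ
      have hin : g * tP F ((κ : SL(2, F)) : P2 F) * g⁻¹ ∈ (Matrix.ProjGenLinGroup.map (n := Fin 2) k.subtype).range := by
        rcases h with h | h
        · apply psl_le_pgl k.subtype
          rw [← h]
          exact ⟨_, ⟨_, hmem κ hκ, rfl⟩, rfl⟩
        · rw [← h]
          exact ⟨_, ⟨_, hmem κ hκ, rfl⟩, rfl⟩
      obtain ⟨y, hy⟩ := hin
      obtain ⟨A0, rfl⟩ := Matrix.ProjGenLinGroup.mk_surjective y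
      obtain ⟨G, rfl⟩ := Matrix.ProjGenLinGroup.mk_surjective g
      rw [tP, ProjectiveSpecialLinearGroup.toPGL_mk] at hy
      exact tr_sq_mem k G (SpecialLinearGroup.toGL κ) A0 κ.2 hy.symm
    have hF₀k : F₀ ≤ k := by
      apply le_of_sq F₀ k (l₀ * c) (mul_ne_zero hl₀0 hc)
      intro s hs
      have h1 := htr _ (K.mul_mem (hU _ (hΛ s hs l₀ hl₀)) hL)
      have h2 : ((uS (s * l₀) * lS c : SL(2, F)) : Matrix (Fin 2) (Fin 2) F).trace = 2 + s * (l₀ * c) := by
        rw [Matrix.SpecialLinearGroup.coe_mul, coe_uS, coe_lS, Matrix.trace_fin_two, Matrix.mul_fin_two]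
        simp
        ring
      rwa [h2] at h1
    have hMk : Nat.card H ∣ Fintype.card k * (Fintype.card k ^ 2 - 1) := by
      rcases h with h | h
      · rw [card_of_range_psl H g k h, ← card_P2 (F := k) rfl]
        exact dvd_mul_left _ _
      · rw [card_of_range_pgl H g k h, card_G2 rfl]
    have h1 : Nat.card Λ ≤ Fintype.card k := by
      have h2 := hdvd.trans hMk
      rw [hΛa] at h2 ⊢
      have hk1 : 1 ≤ Fintype.card k ^ 2 := Nat.one_le_pow _ _ Fintype.card_pos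
      have h3 : Nat.Coprime (p ^ a) (Fintype.card k ^ 2 - 1) := by
        apply Nat.Coprime.pow_left
        rw [Nat.Prime.coprime_iff_not_dvd hpp.out]
        intro h4
        have h5 : p ∣ Fintype.card k ^ 2 := by rw [hb]; exact (dvd_pow_self p hb0).trans (dvd_pow_self _ (by norm_num))
        have h6 := Nat.dvd_sub h5 h4
        have h7 : Fintype.card k ^ 2 - (Fintype.card k ^ 2 - 1) = 1 := by omega
        rw [h7] at h6
        exact hpp.out.one_lt.ne' (Nat.dvd_one.mp h6)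
      exact Nat.le_of_dvd Fintype.card_pos (h3.dvd_of_dvd_mul_right h2)
    rcases eq_or_eq_top F₀ k r hr hcard hF₀k with h2 | h2
    · rw [← Nat.card_eq_fintype_card, h2] at h1
      omega
    · have h3 : Nat.card k = Fintype.card F := by
        rw [h2, ← Nat.card_eq_fintype_card]
        exact Nat.card_congr Subfield.topEquiv.toEquiv
      have h4 : 1 < Nat.card k := Finite.one_lt_card
      rw [← h3] at hk
      have h5 : Nat.card k ^ 1 < Nat.card k ^ m := Nat.pow_lt_pow_right h4 (by omega)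
      rw [hk, pow_one] at h5
      exact lt_irrefl _ h5

/-- **the rank two lemma** -/
theorem rank_two (F₀ : Subfield F) (r : ℕ) (hr : r.Prime) (hcard : Fintype.card F = Nat.card F₀ ^ r)
    (Λ : AddSubgroup F) (hΛ : ∀ s ∈ F₀, ∀ l ∈ Λ, s * l ∈ Λ) (hbig : 32 ≤ Nat.card Λ) (hbig2 : Nat.card F₀ < Nat.card Λ)
    (c : F) (hc : c ≠ 0) (K : Subgroup SL(2, F)) (hU : ∀ l ∈ Λ, uS l ∈ K) (hL : lS c ∈ K) (κ : SL(2, F)) :
    ∃ κ' ∈ K, ∃ ε : F, ε ^ 2 = 1 ∧ (κ' : Matrix (Fin 2) (Fin 2) F) = ε • (κ : Matrix (Fin 2) (Fin 2) F) := by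
  have h := map_eq_top F₀ r hr hcard Λ hΛ hbig hbig2 c hc K hU hL
  have h1 : ((κ : SL(2, F)) : P2 F) ∈ K.map (QuotientGroup.mk' (Subgroup.center SL(2, F))) := by rw [h]; trivial
  obtain ⟨κ', hκ', h2⟩ := h1
  have h3 : (κ' : P2 F) = (κ : P2 F) := h2
  rw [QuotientGroup.eq] at h3
  rw [Matrix.SpecialLinearGroup.mem_center_iff] at h3
  obtain ⟨z, hz, hz2⟩ := h3
  rw [Fintype.card_fin] at hz
  -- κ'⁻¹ κ = z, so κ' = z⁻¹ κ
  have hz0 : z ≠ 0 := by rintro rfl; norm_num at hz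
  refine ⟨κ', hκ', z⁻¹, by rw [inv_pow, hz, inv_one], ?_⟩
  have h4 : (κ : Matrix (Fin 2) (Fin 2) F) = (κ' : Matrix (Fin 2) (Fin 2) F) * ((κ'⁻¹ * κ : SL(2, F)) : Matrix (Fin 2) (Fin 2) F) := by
    rw [← Matrix.SpecialLinearGroup.coe_mul, mul_inv_cancel_left]
  rw [← hz2] at h4
  rw [h4]
  ext i j
  simp [Matrix.scalar_apply, Matrix.mul_diagonal]
  field_simp

end Cfsg.Agent.Lib.SubfRankTwoV
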