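import Mathlib
import Cfsg.Agent.Lib.SpTrans
import Cfsg.Agent.Lib.SubfRankTwo

/-!
# Overgroups of `Sp_{2m}(F₀)` in `Sp_{2m}(F)`, `F / F₀` finite of prime degree: basic part (helper98)
-/

set_option autoImplicit false
set_option linter.unusedSectionVars false

namespace Cfsg.Agent.Lib.SubfSp

open Cfsg.Agent.Lib Cfsg.Agent.Lib.SpTrans

variable {F V : Type*} [Field F] [AddCommGroup V] [Module F V]

/-- an `F₀`-structure `V0` on the symplectic space `V` on which the form is `F₀`-valued -/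
structure SpF (B : V →ₗ[F] V →ₗ[F] F) (F₀ : Subfield F) (V0 : Submodule F₀ V) : Prop where
  alt : B.IsAlt
  form : ∀ x ∈ V0, ∀ y ∈ V0, B x y ∈ F₀
  span : Submodule.span F (V0 : Set V) = ⊤
  nd : NdOn B ⊤
  fin : Module.Finite F₀ V0
  dim : 14 ≤ Module.finrank F₀ V0

variable {B : V →ₗ[F] V →ₗ[F] F} {F₀ : Subfield F} {V0 : Submodule F₀ V} (S : SpF B F₀ V0)

namespace SpF

include S

theorem smul_mem {c : F} (hc : c ∈ F₀) {x : V} (hx : x ∈ V0) : c • x ∈ V0 := V0.smul_mem (⟨c, hc⟩ : F₀) hx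

theorem comm0 {x y : V} (h : B x y = 0) : B y x = 0 := by rw [alt_neg S.alt, h, neg_zero]

theorem nd0 {x : V} (hx : x ≠ 0) : ∃ y ∈ V0, B x y ≠ 0 := by
  by_contra hcon
  push Not at hcon
  obtain ⟨y, -, hy⟩ := S.nd x trivial hx
  apply hy
  have h1 : Submodule.span F (V0 : Set V) ≤ LinearMap.ker (B x) := by
    rw [Submodule.span_le]
    intro z hz
    exact hcon z hz
  have h2 : y ∈ LinearMap.ker (B x) := h1 (by rw [S.span]; trivial)
  exact h2

/-- the form as a map `V0 → V0 → F₀` -/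
theorem exists_form : ∃ b : V0 →ₗ[F₀] V0 →ₗ[F₀] F₀, ∀ x y : V0, ((b x y : F₀) : F) = B (x : V) (y : V) := by
  refine ⟨LinearMap.mk₂ F₀ (fun x y : V0 => (⟨B (x : V) (y : V), S.form _ x.2 _ y.2⟩ : F₀)) ?_ ?_ ?_ ?_, fun x y => rfl⟩
  · intro x y z; apply Subtype.ext; simp
  · intro c x y; apply Subtype.ext
    change B ((c : F) • (x : V)) (y : V) = (c : F) * B (x : V) (y : V)
    rw [map_smul]; rfl
  · intro x y z; apply Subtype.ext; simp
  · intro c x y; apply Subtype.ext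
    change B (x : V) ((c : F) • (y : V)) = (c : F) * B (x : V) (y : V)
    rw [map_smul]; rfl

/-- every `F₀`-linear functional of `V0` is given by the form -/
theorem exists_rep (f : V0 →ₗ[F₀] F₀) : ∃ u ∈ V0, ∀ x : V0, B u (x : V) = (f x : F₀) := by
  obtain ⟨b, hb⟩ := S.exists_form
  haveI := S.fin
  have hinj : Function.Injective b := by
    rw [injective_iff_map_eq_zero]
    intro x hx
    by_contra hne
    obtain ⟨y, hy, hxy⟩ := S.nd0 (x := (x : V)) (by simpa using hne)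
    apply hxy
    have : b x ⟨y, hy⟩ = 0 := by rw [hx]; rfl
    rw [← hb x ⟨y, hy⟩, this]; rfl
  have hsurj := (LinearMap.injective_iff_surjective_of_finrank_eq_finrank
      (Subspace.dual_finrank_eq (K := F₀) (V := V0)).symm).1 hinj
  obtain ⟨u, hu⟩ := hsurj f
  exact ⟨u, u.2, fun x => by rw [← hb, hu]⟩

/-- `V0` is its own dual -/
theorem mem_of_dual {x : V} (h : ∀ y ∈ V0, B x y ∈ F₀) : x ∈ V0 := by
  let f : V0 →ₗ[F₀] F₀ :=
    { toFun := fun y => ⟨B x y, h _ y.2⟩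
      map_add' := by intro y z; apply Subtype.ext; simp
      map_smul' := by
        intro c y; apply Subtype.ext
        change B x ((c : F) • (y : V)) = (c : F) * B x y
        rw [map_smul]; rfl }
  obtain ⟨u, hu, h1⟩ := S.exists_rep f
  have h2 : x - u = 0 := by
    by_contra hne
    obtain ⟨y, hy, hy2⟩ := S.nd0 hne
    apply hy2
    rw [map_sub, LinearMap.sub_apply, h1 ⟨y, hy⟩]
    exact sub_self _
  rw [sub_eq_zero.mp h2]; exact hu

/-- a rational vector orthogonal to `W` and with product one with `w ∉ W` -/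
theorem exists_sep {W : Submodule F₀ V} {w : V} (hw : w ∈ V0) (hwW : w ∉ W) :
    ∃ u ∈ V0, (∀ x ∈ W, x ∈ V0 → B u x = 0) ∧ B u w = 1 := by
  have h1 : (⟨w, hw⟩ : V0) ∉ W.comap V0.subtype := hwW
  obtain ⟨f, hf, hf2⟩ := Submodule.exists_le_ker_of_notMem h1
  obtain ⟨u, hu, hu2⟩ := S.exists_rep ((f ⟨w, hw⟩)⁻¹ • f)
  refine ⟨u, hu, ?_, ?_⟩
  · intro x hx hx0
    rw [hu2 ⟨x, hx0⟩]
    have : f ⟨x, hx0⟩ = 0 := hf2 hx
    rw [LinearMap.smul_apply, this, smul_zero]; rfl
  · rw [hu2 ⟨w, hw⟩, LinearMap.smul_apply, smul_eq_mul, inv_mul_cancel₀ hf]; rfl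

theorem exists_sep2 {v w : V} (hv : v ∈ V0) (hw : w ∈ V0) (h : w ∉ Submodule.span F₀ {v}) :
    ∃ u ∈ V0, B u v = 0 ∧ B u w = 1 := by
  obtain ⟨u, hu, h1, h2⟩ := S.exists_sep (W := Submodule.span F₀ {v}) hw h
  exact ⟨u, hu, h1 v (Submodule.mem_span_singleton_self v) hv, h2⟩

/-- vectors of a subspace orthogonal to few rational vectors -/
theorem exists_perp {K : Submodule F₀ V} (hK : K ≤ V0) {j : ℕ} (us : Fin j → V) (hus : ∀ i, us i ∈ V0)
    (hj : j < Module.finrank F₀ K) : ∃ x ∈ K, x ≠ 0 ∧ ∀ i, B x (us i) = 0 := by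
  let L : K →ₗ[F₀] (Fin j → F₀) :=
    { toFun := fun x i => ⟨B (x : V) (us i), S.form _ (hK x.2) _ (hus i)⟩
      map_add' := by intro x y; ext i; simp
      map_smul' := by
        intro c x; ext i
        change B ((c : F) • (x : V)) (us i) = (c : F) * B (x : V) (us i)
        rw [map_smul]; rfl }
  haveI : Module.Finite F₀ K := Module.finite_of_finrank_pos (by omega)
  have hker : LinearMap.ker L ≠ ⊥ := by
    apply LinearMap.ker_ne_bot_of_finrank_lt
    rw [Module.finrank_fin_fun]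
    exact hj
  obtain ⟨x, hx, hx0⟩ := Submodule.exists_mem_ne_zero_of_ne_bot hker
  refine ⟨x, x.2, by simpa using hx0, fun i => ?_⟩
  have := congrFun (LinearMap.mem_ker.mp hx) i
  exact congrArg Subtype.val this

/-- dimension of the perp of a few rational vectors inside a subspace -/
theorem finrank_perp {K : Submodule F₀ V} (hK : K ≤ V0) {j : ℕ} (us : Fin j → V) (hus : ∀ i, us i ∈ V0) :
    ∃ K' : Submodule F₀ V, K' ≤ K ∧ (∀ x, x ∈ K' ↔ x ∈ K ∧ ∀ i, B x (us i) = 0) ∧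
      Module.finrank F₀ K ≤ Module.finrank F₀ K' + j := by
  haveI := S.fin
  let L : K →ₗ[F₀] (Fin j → F₀) :=
    { toFun := fun x i => ⟨B (x : V) (us i), S.form _ (hK x.2) _ (hus i)⟩
      map_add' := by intro x y; ext i; simp
      map_smul' := by
        intro c x; ext i
        change B ((c : F) • (x : V)) (us i) = (c : F) * B (x : V) (us i)
        rw [map_smul]; rfl }
  haveI : Module.Finite F₀ K := Module.Finite.of_injective (Submodule.inclusion hK) (Submodule.inclusion_injective hK)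
  refine ⟨(LinearMap.ker L).map K.subtype, ?_, ?_, ?_⟩
  · rintro _ ⟨x, _, rfl⟩; exact x.2
  · intro x
    constructor
    · rintro ⟨y, hy, rfl⟩
      refine ⟨y.2, fun i => ?_⟩
      have := congrFun (LinearMap.mem_ker.mp hy) i
      exact congrArg Subtype.val this
    · rintro ⟨hx, h⟩
      refine ⟨⟨x, hx⟩, ?_, rfl⟩
      rw [SetLike.mem_coe, LinearMap.mem_ker]
      ext i
      exact h i
  · have h1 := LinearMap.finrank_range_add_finrank_ker L
    have h2 : Module.finrank F₀ (LinearMap.range L) ≤ j := by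
      have := Submodule.finrank_le (LinearMap.range L)
      rwa [Module.finrank_fin_fun] at this
    have h3 : Module.finrank F₀ ((LinearMap.ker L).map K.subtype) = Module.finrank F₀ (LinearMap.ker L) :=
      (Submodule.equivMapOfInjective _ K.injective_subtype _).finrank_eq.symm
    omega

end SpF

/-! ### transvections in a subgroup -/

variable (hB : B.IsAlt) {M : Subgroup (V ≃ₗ[F] V)}

theorem tv_add_mem {v : V} {a b : F} (h1 : tv B hB v a ∈ M) (h2 : tv B hB v b ∈ M) : tv B hB v (a + b) ∈ M := by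
  rw [← tv_mul]; exact M.mul_mem h1 h2

theorem tv_neg_mem {v : V} {a : F} (h1 : tv B hB v a ∈ M) : tv B hB v (-a) ∈ M := by
  rw [← tv_inv]; exact M.inv_mem h1

/-- moving with elements of `M` -/
theorem tv_map (hM : M ≤ isom (fun x y => B x y)) {g : V ≃ₗ[F] V} (hg : g ∈ M) {v : V} {a : F}
    (h : tv B hB v a ∈ M) : tv B hB (g v) a ∈ M := by
  rw [← conj_tv hB (hM hg)]
  exact M.mul_mem (M.mul_mem hg h) (M.inv_mem hg)

/-- hypotheses on the overgroup -/
structure Hyp (B : V →ₗ[F] V →ₗ[F] F) (F₀ : Subfield F) (V0 : Submodule F₀ V) (hB : B.IsAlt) (M : Subgroup (V ≃ₗ[F] V)) : Prop where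
  le : M ≤ isom (fun x y => B x y)
  mem : ∀ v ∈ V0, ∀ a ∈ F₀, tv B hB v a ∈ M

variable (H : Hyp B F₀ V0 hB M)

section

include S H

theorem move_ne {u v : V} (hu : u ∈ V0) (hv : v ∈ V0) (h : B u v ≠ 0) :
    ∃ t ∈ M, t u = v ∧ ∀ x, B x u = B x v → t x = x := by
  refine ⟨tv B hB (v - u) (B u v)⁻¹, H.mem _ (V0.sub_mem hv hu) _ (F₀.inv_mem (S.form u hu v hv)), ?_, ?_⟩
  · rw [tv_apply, map_sub, hB u, sub_zero, inv_mul_cancel₀ h, one_smul]; abel
  · intro x hx
    rw [tv_apply, map_sub, hx, sub_self, mul_zero, zero_smul, add_zero]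

/-- two nonzero vectors of `V` have a common nonorthogonal rational vector -/
theorem exists_common {u v : V} (hu0 : u ≠ 0) (hv0 : v ≠ 0) : ∃ w ∈ V0, B u w ≠ 0 ∧ B v w ≠ 0 := by
  obtain ⟨y, hy, hy'⟩ := S.nd0 hu0
  obtain ⟨z, hz, hz'⟩ := S.nd0 hv0
  by_cases h1 : B v y = 0
  · by_cases h2 : B u z = 0
    · refine ⟨y + z, V0.add_mem hy hz, ?_, ?_⟩
      · rw [map_add, h2, add_zero]; exact hy'
      · rw [map_add, h1, zero_add]; exact hz'
    · exact ⟨z, hz, h2, hz'⟩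
  · exact ⟨y, hy, hy', h1⟩

theorem move {u v : V} (hu : u ∈ V0) (hv : v ∈ V0) (hu0 : u ≠ 0) (hv0 : v ≠ 0) : ∃ t ∈ M, t u = v := by
  by_cases h : B u v = 0
  · obtain ⟨w, hw, h1, h2⟩ := exists_common S hB H hu0 hv0
    obtain ⟨t, ht, htu, -⟩ := move_ne S hB H hu hw h1
    obtain ⟨s, hs, hsu, -⟩ := move_ne S hB H hw hv (fun e => h2 (S.comm0 e))
    exact ⟨s * t, M.mul_mem hs ht, by rw [LinearEquiv.mul_apply, htu, hsu]⟩
  · obtain ⟨t, ht, htu, -⟩ := move_ne S hB H hu hv h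
    exact ⟨t, ht, htu⟩

theorem tv_transfer {u v : V} (hu : u ∈ V0) (hv : v ∈ V0) (hu0 : u ≠ 0) (hv0 : v ≠ 0) {a : F}
    (h : tv B hB u a ∈ M) : tv B hB v a ∈ M := by
  obtain ⟨t, ht, rfl⟩ := move S hB H hu hv hu0 hv0
  exact tv_map hB H.le ht h

end

end Cfsg.Agent.Lib.SubfSp
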