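import Mathlib
import Cfsg.Agent.Lib.UnTrans
import Cfsg.Agent.Lib.SubfRankTwo

/-!
# Overgroups of `SU_n(F₀)` in `SU_n(F)`, `F / F₀` of odd prime degree: rational structure (helper98)
-/

set_option autoImplicit false
set_option linter.unusedSectionVars false

namespace Cfsg.Agent.Lib.SubfUn

open Cfsg.Agent.Lib Cfsg.Agent.Lib.UnTrans
open Cfsg.Agent.Lib.SpTrans (isom mem_isom)

variable {F V : Type*} [Field F] [Finite F] [AddCommGroup V] [Module F V]

/-- an `F₀`-structure `V0` on the hermitian space `V` on which the form is `F₀`-valued -/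
structure UnF (σ : F →+* F) (f : V → V → F) (F₀ : Subfield F) (V0 : Submodule F₀ V) : Prop where
  hs : HS σ f
  sig : ∀ a ∈ F₀, σ a ∈ F₀
  ne0 : ∃ a ∈ F₀, σ a ≠ a
  form : ∀ x ∈ V0, ∀ y ∈ V0, f x y ∈ F₀
  span : Submodule.span F (V0 : Set V) = ⊤
  nd : Nd f (⊤ : Submodule F V)
  fin : Module.Finite F₀ V0
  dim : 13 ≤ Module.finrank F₀ V0

variable {σ : F →+* F} {f : V → V → F} {F₀ : Subfield F} {V0 : Submodule F₀ V}

/-- the restricted automorphism -/
def s0 (S : UnF σ f F₀ V0) : F₀ →+* F₀ where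
  toFun a := ⟨σ a, S.sig _ a.2⟩
  map_one' := Subtype.ext (map_one σ)
  map_mul' a b := Subtype.ext (map_mul σ _ _)
  map_zero' := Subtype.ext (map_zero σ)
  map_add' a b := Subtype.ext (map_add σ _ _)

/-- the restricted form -/
def f0 (S : UnF σ f F₀ V0) : V0 → V0 → F₀ := fun x y => ⟨f x y, S.form _ x.2 _ y.2⟩

theorem s0_coe (S : UnF σ f F₀ V0) (a : F₀) : ((s0 S a : F₀) : F) = σ a := rfl

theorem f0_coe (S : UnF σ f F₀ V0) (x y : V0) : ((f0 S x y : F₀) : F) = f x y := rfl

namespace UnF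

variable (S : UnF σ f F₀ V0)
include S

theorem smul_mem {c : F} (hc : c ∈ F₀) {x : V} (hx : x ∈ V0) : c • x ∈ V0 := V0.smul_mem (⟨c, hc⟩ : F₀) hx

theorem hs0 : HS (s0 S) (f0 S) := by
  apply HS.of_finite
  · intro a; exact Subtype.ext (S.hs.inv a)
  · obtain ⟨a, ha, h⟩ := S.ne0
    exact ⟨⟨a, ha⟩, fun h' => h (congrArg Subtype.val h')⟩
  · intro x y z; exact Subtype.ext (S.hs.add_left _ _ _)
  · intro c x y; exact Subtype.ext (S.hs.smul_left _ _ _)
  · intro x y; exact Subtype.ext (S.hs.herm _ _)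

theorem nd0 {x : V} (hx : x ≠ 0) : ∃ y ∈ V0, f x y ≠ 0 := by
  by_contra hcon
  push Not at hcon
  obtain ⟨y, -, hy⟩ := S.nd x trivial hx
  apply S.hs.symm_ne hy
  have h1 : Submodule.span F (V0 : Set V) ≤ LinearMap.ker (S.hs.fl x) := by
    rw [Submodule.span_le]
    intro z hz
    exact S.hs.symm_zero (hcon z hz)
  have h2 : y ∈ LinearMap.ker (S.hs.fl x) := h1 (by rw [S.span]; trivial)
  exact h2

theorem nd0' : Nd (f0 S) (⊤ : Submodule F₀ V0) := by
  intro x _ hx
  obtain ⟨y, hy, hxy⟩ := S.nd0 (x := (x : V)) (by simpa using hx)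
  exact ⟨⟨y, hy⟩, trivial, fun h => hxy (congrArg Subtype.val h)⟩

theorem finite : Finite V0 := by
  have := S.fin
  exact Module.finite_of_finite F₀

/-- every `F₀`-linear functional of `V0` is given by the form -/
theorem exists_rep (φ : V0 →ₗ[F₀] F₀) : ∃ u ∈ V0, ∀ x : V0, f (x : V) u = (φ x : F₀) := by
  have := S.fin
  have : Finite V0 := S.finite
  have : Finite (Module.Dual F₀ V0) := Module.finite_of_finite F₀
  have : Fintype V0 := Fintype.ofFinite _
  have : Fintype (Module.Dual F₀ V0) := Fintype.ofFinite _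
  have : Fintype F₀ := Fintype.ofFinite _
  let T : V0 → Module.Dual F₀ V0 := fun u => S.hs0.fl u
  have hinj : Function.Injective T := by
    intro u u' h
    apply Subtype.ext
    by_contra hne
    obtain ⟨y, hy, hy'⟩ := S.nd0 (x := (u : V) - u') (sub_ne_zero.mpr hne)
    apply S.hs.symm_ne hy'
    have h1 := LinearMap.congr_fun h ⟨y, hy⟩
    have h2 : f y u = f y u' := congrArg Subtype.val h1
    rw [S.hs.sub_right, h2, sub_self]
  have hbij : Function.Bijective T := by
    rw [Fintype.bijective_iff_injective_and_card]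
    refine ⟨hinj, ?_⟩
    rw [Module.card_eq_pow_finrank (K := F₀) (V := V0), Module.card_eq_pow_finrank (K := F₀) (V := Module.Dual F₀ V0),
      Subspace.dual_finrank_eq]
  obtain ⟨u, hu⟩ := hbij.2 φ
  exact ⟨u, u.2, fun x => by rw [← hu]; rfl⟩

/-- `V0` is its own dual -/
theorem mem_of_dual {x : V} (h : ∀ y ∈ V0, f x y ∈ F₀) : x ∈ V0 := by
  have h' : ∀ y ∈ V0, f y x ∈ F₀ := fun y hy => by rw [S.hs.herm]; exact S.sig _ (h y hy)
  let φ : V0 →ₗ[F₀] F₀ :=
    { toFun := fun y => ⟨f y x, h' _ y.2⟩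
      map_add' := by intro y z; exact Subtype.ext (S.hs.add_left _ _ _)
      map_smul' := by intro c y; exact Subtype.ext (S.hs.smul_left _ _ _) }
  obtain ⟨u, hu, h1⟩ := S.exists_rep φ
  have h2 : x - u = 0 := by
    by_contra hne
    obtain ⟨y, hy, hy2⟩ := S.nd0 hne
    apply S.hs.symm_ne hy2
    rw [S.hs.sub_right, h1 ⟨y, hy⟩]
    exact sub_self _
  rw [sub_eq_zero.mp h2]; exact hu

/-- a rational vector orthogonal to `W` and with product one with `w ∉ W` -/
theorem exists_sep {W : Submodule F₀ V} {w : V} (hw : w ∈ V0) (hwW : w ∉ W) :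
    ∃ u ∈ V0, (∀ x ∈ W, x ∈ V0 → f x u = 0) ∧ f w u = 1 := by
  have h1 : (⟨w, hw⟩ : V0) ∉ W.comap V0.subtype := hwW
  obtain ⟨φ, hφ, hφ2⟩ := Submodule.exists_le_ker_of_notMem h1
  obtain ⟨u, hu, hu2⟩ := S.exists_rep ((φ ⟨w, hw⟩)⁻¹ • φ)
  refine ⟨u, hu, ?_, ?_⟩
  · intro x hx hx0
    rw [hu2 ⟨x, hx0⟩]
    have : φ ⟨x, hx0⟩ = 0 := hφ2 hx
    rw [LinearMap.smul_apply, this, smul_zero]; rfl
  · rw [hu2 ⟨w, hw⟩, LinearMap.smul_apply, smul_eq_mul, inv_mul_cancel₀ hφ]; rfl

/-- dimension of the perp of a few rational vectors inside a subspace -/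
theorem finrank_perp {K : Submodule F₀ V} (hK : K ≤ V0) {j : ℕ} (us : Fin j → V) (hus : ∀ i, us i ∈ V0) :
    ∃ K' : Submodule F₀ V, K' ≤ K ∧ (∀ x, x ∈ K' ↔ x ∈ K ∧ ∀ i, f x (us i) = 0) ∧
      Module.finrank F₀ K ≤ Module.finrank F₀ K' + j := by
  have := S.fin
  let L : K →ₗ[F₀] (Fin j → F₀) :=
    { toFun := fun x i => ⟨f (x : V) (us i), S.form _ (hK x.2) _ (hus i)⟩
      map_add' := by intro x y; ext i; exact S.hs.add_left _ _ _
      map_smul' := by intro c x; ext i; exact S.hs.smul_left _ _ _ }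
  have : Module.Finite F₀ K := Module.Finite.of_injective (Submodule.inclusion hK) (Submodule.inclusion_injective hK)
  refine ⟨(LinearMap.ker L).map K.subtype, ?_, ?_, ?_⟩
  · rintro _ ⟨x, _, rfl⟩; exact x.2
  · intro x
    constructor
    · rintro ⟨y, hy, rfl⟩
      refine ⟨y.2, fun i => ?_⟩
      have := congrFun (LinearMap.mem_ker.mp hy) i
      exact congrArg Subtype.val this
    · rintro ⟨hx, h⟩
      refine ⟨⟨x, hx⟩, ?_, rfl⟩
      rw [SetLike.mem_coe, LinearMap.mem_ker]
      ext i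
      exact h i
  · have h1 := LinearMap.finrank_range_add_finrank_ker L
    have h2 : Module.finrank F₀ (LinearMap.range L) ≤ j := by
      have := Submodule.finrank_le (LinearMap.range L)
      rwa [Module.finrank_fin_fun] at this
    have h3 : Module.finrank F₀ ((LinearMap.ker L).map K.subtype) = Module.finrank F₀ (LinearMap.ker L) :=
      (Submodule.equivMapOfInjective _ K.injective_subtype _).finrank_eq.symm
    omega

omit [Finite F] in
theorem finrank_span_two (v w : V) : Module.finrank F₀ (Submodule.span F₀ {v, w}) ≤ 2 := by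
  classical
  have h : (({v, w} : Finset V) : Set V) = {v, w} := by simp
  have := finrank_span_finset_le_card (R := F₀) ({v, w} : Finset V)
  rw [Set.finrank, h] at this
  exact this.trans Finset.card_le_two

/-- isotropic vectors in planes -/
theorem exists_iso_plane {x y : V} (hx : x ∈ V0) (hy : y ∈ V0) (hind : ∀ c ∈ F₀, y ≠ c • x) (hx0 : x ≠ 0) :
    ∃ c ∈ F₀, ∃ d ∈ F₀, f (c • x + d • y) (c • x + d • y) = 0 ∧ c • x + d • y ≠ 0 := by
  have H := S.hs
  have hy0 : y ≠ 0 := by
    intro h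
    exact hind 0 F₀.zero_mem (by rw [h, zero_smul])
  by_cases hxx : f x x = 0
  · exact ⟨1, F₀.one_mem, 0, F₀.zero_mem, by rw [one_smul, zero_smul, add_zero]; exact hxx, by simpa using hx0⟩
  -- y' = y - (f y x / f x x) x ⊥ x
  set y' := y - (f y x / f x x) • x with hy'
  have hyx : f y' x = 0 := by rw [hy', H.sub_left, H.smul_left, div_mul_cancel₀ _ hxx, sub_self]
  have hxy : f x y' = 0 := H.symm_zero hyx
  have hcoef : f y x / f x x ∈ F₀ := F₀.div_mem (S.form _ hy _ hx) (S.form _ hx _ hx)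
  have hy'0 : y' ≠ 0 := by
    intro h
    exact hind _ hcoef (sub_eq_zero.mp h)
  by_cases hyy : f y' y' = 0
  · refine ⟨-(f y x / f x x), F₀.neg_mem hcoef, 1, F₀.one_mem, ?_, ?_⟩
    · have e : -(f y x / f x x) • x + (1 : F) • y = y' := by rw [hy', one_smul, neg_smul]; abel
      rw [e]; exact hyy
    · have e : -(f y x / f x x) • x + (1 : F) • y = y' := by rw [hy', one_smul, neg_smul]; abel
      rw [e]; exact hy'0
  · have hxF : f x x ∈ F₀ := S.form _ hx _ hx
    have hy'V : y' ∈ V0 := V0.sub_mem hy (S.smul_mem hcoef hx)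
    have hyF : f y' y' ∈ F₀ := S.form _ hy'V _ hy'V
    obtain ⟨l, hl⟩ := S.hs0.norm (⟨-(f x x) / f y' y', F₀.div_mem (F₀.neg_mem hxF) hyF⟩) (by
      apply Subtype.ext
      rw [s0_coe]
      change σ (-(f x x) / f y' y') = _
      rw [map_div₀, map_neg, H.self_fixed, H.self_fixed])
    have hl' : (l : F) * σ l = -(f x x) / f y' y' := congrArg Subtype.val hl
    refine ⟨1 - l * (f y x / f x x), F₀.sub_mem F₀.one_mem (F₀.mul_mem l.2 hcoef), l, l.2, ?_, ?_⟩
    · have e : (1 - l * (f y x / f x x)) • x + (l : F) • y = x + (l : F) • y' := by rw [hy']; module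
      rw [e, H.expand, hyx, mul_zero, map_zero, hl']; field_simp; ring
    · have e : (1 - l * (f y x / f x x)) • x + (l : F) • y = x + (l : F) • y' := by rw [hy']; module
      rw [e]
      intro h
      have h1 : f (x + (l : F) • y') x = 0 := by rw [h, H.zero_left]
      rw [H.add_left, H.smul_left, hyx, mul_zero, add_zero] at h1
      exact hxx h1

/-- isotropic vectors in subspaces of dimension at least two -/
theorem exists_iso {K : Submodule F₀ V} (hK : K ≤ V0) (h2 : 2 ≤ Module.finrank F₀ K) :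
    ∃ x ∈ K, x ≠ 0 ∧ f x x = 0 := by
  obtain ⟨x, hx, hx0⟩ : ∃ x ∈ K, x ≠ 0 := by
    apply Submodule.exists_mem_ne_zero_of_ne_bot
    rintro rfl
    rw [finrank_bot] at h2; omega
  have hnot : ¬ K ≤ Submodule.span F₀ {x} := by
    intro hle
    have := Submodule.finrank_mono hle
    rw [finrank_span_singleton hx0] at this
    omega
  obtain ⟨y, hy, hyn⟩ := Set.not_subset.1 hnot
  obtain ⟨c, hc, d, hd, h1, h3⟩ := S.exists_iso_plane (hK hx) (hK hy) (fun c hc h => hyn (by
    rw [h]; exact (Submodule.span F₀ {x}).smul_mem (⟨c, hc⟩ : F₀) (Submodule.mem_span_singleton_self x))) hx0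
  exact ⟨_, K.add_mem (K.smul_mem (⟨c, hc⟩ : F₀) hx) (K.smul_mem (⟨d, hd⟩ : F₀) hy), h3, h1⟩

/-- totally isotropic subspaces of every dimension at most 6 -/
theorem exists_isotropic (k : ℕ) (hk : k ≤ 6) : ∃ W : Submodule F₀ V, W ≤ V0 ∧ Module.finrank F₀ W = k ∧
    ∀ x ∈ W, ∀ y ∈ W, f x y = 0 := by
  classical
  have := S.fin
  have hd := S.dim
  have H := S.hs
  induction k with
  | zero => exact ⟨⊥, bot_le, finrank_bot F₀ V, fun x hx y _ => by rw [(Submodule.mem_bot F₀).mp hx, H.zero_left]⟩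
  | succ k ih =>
    obtain ⟨W, hW, hW1, hW2⟩ := ih (by omega)
    have : Module.Finite F₀ W := Module.Finite.of_injective (Submodule.inclusion hW) (Submodule.inclusion_injective hW)
    let b := Module.finBasisOfFinrankEq F₀ W hW1
    obtain ⟨K, hK, hK2, hK3⟩ := S.finrank_perp (K := V0) le_rfl (fun i : Fin k => (b i : V)) (fun i => hW (b i).2)
    have : Module.Finite F₀ K := Module.Finite.of_injective (Submodule.inclusion hK) (Submodule.inclusion_injective hK)
    have hperp : ∀ x ∈ K, ∀ y ∈ W, f x y = 0 := by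
      intro x hx y hy
      have h1 : (⟨y, hy⟩ : W) ∈ Submodule.span F₀ (Set.range b) := by rw [b.span_eq]; trivial
      have h2 : ∀ y : W, y ∈ Submodule.span F₀ (Set.range b) → f x (y : V) = 0 := by
        intro y hy
        induction hy using Submodule.span_induction with
        | mem y hy => obtain ⟨i, rfl⟩ := hy; exact ((hK2 x).mp hx).2 i
        | zero => exact H.zero_right _
        | add y z _ _ h1 h2 => rw [Submodule.coe_add, H.add_right, h1, h2, add_zero]
        | smul c y _ h1 =>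
          change f x ((c : F) • (y : V)) = 0
          rw [H.smul_right, h1, mul_zero]
      exact h2 _ h1
    have hWK : W ≤ K := fun x hx => (hK2 x).mpr ⟨hW hx, fun i => hW2 x hx _ (b i).2⟩
    -- a complement of `W` in `K`
    obtain ⟨C, hC⟩ := Submodule.exists_isCompl (W.comap K.subtype)
    have hWc : Module.finrank F₀ (W.comap K.subtype) = k := by
      rw [← hW1]
      exact (Submodule.comapSubtypeEquivOfLe hWK).finrank_eq
    have hCf : Module.finrank F₀ (W.comap K.subtype) + Module.finrank F₀ C = Module.finrank F₀ K :=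
      Submodule.finrank_add_eq_of_isCompl hC
    obtain ⟨x, hx, hx0, hxx⟩ := S.exists_iso (K := C.map K.subtype) (by
      rintro _ ⟨y, _, rfl⟩; exact hK y.2) (by
      have h3 : Module.finrank F₀ (C.map K.subtype) = Module.finrank F₀ C :=
        (Submodule.equivMapOfInjective _ K.injective_subtype _).finrank_eq.symm
      omega)
    obtain ⟨y, hyC, rfl⟩ := hx
    have hxW : (y : V) ∉ W := by
      intro h
      have h1 : y ∈ (W.comap K.subtype) ⊓ C := ⟨h, hyC⟩
      rw [hC.inf_eq_bot] at h1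
      exact hx0 (by rw [(Submodule.mem_bot F₀).mp h1]; rfl)
    set x := (y : V) with hxdef
    have hxK : x ∈ K := y.2
    have hx0' : x ≠ 0 := hx0
    have hxx' : f x x = 0 := hxx
    refine ⟨W ⊔ Submodule.span F₀ {x}, sup_le hW (by
      rw [Submodule.span_singleton_le_iff_mem]; exact hK hxK), ?_, ?_⟩
    · have hinf : W ⊓ Submodule.span F₀ {x} = ⊥ := by
        rw [Submodule.eq_bot_iff]
        rintro y ⟨hy1, hy2⟩
        obtain ⟨c, rfl⟩ := Submodule.mem_span_singleton.mp hy2
        by_cases hc : c = 0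
        · rw [hc, zero_smul]
        · exfalso
          apply hxW
          have := W.smul_mem c⁻¹ hy1
          rwa [smul_smul, inv_mul_cancel₀ hc, one_smul] at this
      have h1 := Submodule.finrank_sup_add_finrank_inf_eq W (Submodule.span F₀ {x})
      rw [hinf, finrank_bot, add_zero, hW1, finrank_span_singleton hx0'] at h1
      exact h1
    · intro y hy z hz
      obtain ⟨y1, hy1, y2, hy2, rfl⟩ := Submodule.mem_sup.mp hy
      obtain ⟨z1, hz1, z2, hz2, rfl⟩ := Submodule.mem_sup.mp hz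
      obtain ⟨c, rfl⟩ := Submodule.mem_span_singleton.mp hy2
      obtain ⟨d, rfl⟩ := Submodule.mem_span_singleton.mp hz2
      have e1 : ∀ (c : F₀) (x : V), c • x = (c : F) • x := fun _ _ => rfl
      rw [e1, e1, H.add_left, H.add_right, H.add_right, H.smul_right, H.smul_left, H.smul_left, H.smul_right,
        hW2 y1 hy1 z1 hz1, hperp x hxK z1 hz1, H.symm_zero (hperp x hxK y1 hy1), hxx']
      simp

end UnF

end Cfsg.Agent.Lib.SubfUn
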