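import Mathlib
import Cfsg.Agent.Lib.SubfUn4

/-!
# Overgroups of `SU_n(F₀)` in `SU_n(F)`: the final argument (helper98)
-/

set_option autoImplicit false
set_option linter.unusedSectionVars false

namespace Cfsg.Agent.Lib.SubfUn

open Cfsg.Agent.Lib Cfsg.Agent.Lib.UnTrans
open Cfsg.Agent.Lib.SpTrans (isom mem_isom)

variable {F V : Type*} [Field F] [Finite F] [AddCommGroup V] [Module F V]
variable {σ : F →+* F} {f : V → V → F} {F₀ : Subfield F} {V0 : Submodule F₀ V}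
variable {M : Subgroup (V ≃ₗ[F] V)}

section

variable (S : UnF σ f F₀ V0)
include S

/-- rational isotropic vectors span `V0` -/
theorem span_iso {K : Submodule F₀ V} (hK : ∀ x ∈ V0, f x x = 0 → x ∈ K) : V0 ≤ K := by
  have HH := S.hs
  have := S.fin
  have hd := S.dim
  intro y hy
  obtain ⟨z, -, -, hzz, w, -, -, hzw⟩ := S.hs0.exists_hyp S.nd0' (by rw [finrank_top]; omega) (Submodule.zero_mem _)
  have h1 := S.hs0.mem_span_iso (U := ⊤) (z := z) (y := w) (u := ⟨y, hy⟩) trivial hzz trivial hzw trivial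
  have h2 : ∀ x : V0, x ∈ Submodule.span F₀ {x | x ∈ (⊤ : Submodule F₀ V0) ∧ f0 S x x = 0} → (x : V) ∈ K := by
    intro x hx
    induction hx using Submodule.span_induction with
    | mem x hx => exact hK x x.2 (congrArg Subtype.val hx.2)
    | zero => exact K.zero_mem
    | add x y _ _ h1 h2 => exact K.add_mem h1 h2
    | smul c x _ h1 => exact K.smul_mem c h1
  exact h2 _ h1

theorem mem_of_smul {x : V} (hx : x ∈ V0) (hx0 : x ≠ 0) {c : F} (h : c • x ∈ V0) : c ∈ F₀ := by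
  obtain ⟨y, hy, hxy⟩ := S.nd0 hx0
  have h1 := S.form _ h _ hy
  rw [S.hs.smul_left] at h1
  have := F₀.div_mem h1 (S.form _ hx _ hy)
  rwa [mul_div_assoc, div_self hxy, mul_one] at this

theorem exists_iso0 : ∃ x ∈ V0, x ≠ 0 ∧ f x x = 0 := by
  have hd := S.dim
  exact S.exists_iso (K := V0) le_rfl (by omega)

/-- a linear map sending rational isotropic vectors to multiples of rational vectors -/
theorem iso_uniform (g : V ≃ₗ[F] V) (h : ∀ v ∈ V0, f v v = 0 → ∃ c : F, ∃ v' ∈ V0, g v = c • v') :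
    ∃ c : F, c ≠ 0 ∧ ∀ v ∈ V0, ∃ v' ∈ V0, g v = c • v' := by
  have HH := S.hs
  obtain ⟨x₀, hx₀, hx₀0, hxx⟩ := exists_iso0 S
  obtain ⟨c, x', hx', e1⟩ := h x₀ hx₀ hxx
  have hgx : g x₀ ≠ 0 := by
    intro h; exact hx₀0 ((map_eq_zero_iff g g.injective).mp h)
  have hc : c ≠ 0 := by rintro rfl; rw [zero_smul] at e1; exact hgx e1
  have hx'0 : x' ≠ 0 := by rintro rfl; rw [smul_zero] at e1; exact hgx e1
  let K : Submodule F₀ V :=
    { carrier := {v | c⁻¹ • g v ∈ V0}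
      add_mem' := by
        intro a b ha hb
        change c⁻¹ • g (a + b) ∈ V0
        rw [map_add, smul_add]; exact V0.add_mem ha hb
      zero_mem' := by
        change c⁻¹ • g 0 ∈ V0
        rw [map_zero, smul_zero]; exact V0.zero_mem
      smul_mem' := by
        intro a b hb
        change c⁻¹ • g ((a : F) • b) ∈ V0
        rw [map_smul, smul_comm]
        exact V0.smul_mem a hb }
  have hKV : V0 ≤ K := by
    apply span_iso S
    intro y hy hyy
    change c⁻¹ • g y ∈ V0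
    by_cases hdep : ∃ s ∈ F₀, y = s • x₀
    · obtain ⟨s, hs, rfl⟩ := hdep
      rw [map_smul, e1, smul_comm, smul_smul c⁻¹, inv_mul_cancel₀ hc, one_smul]
      exact S.smul_mem hs hx'
    push Not at hdep
    have hy0 : y ≠ 0 := fun h0 => hdep 0 F₀.zero_mem (by rw [h0, zero_smul])
    obtain ⟨d, y', hy', e2⟩ := h y hy hyy
    have hgy : g y ≠ 0 := by
      intro h; exact hy0 ((map_eq_zero_iff g g.injective).mp h)
    have hd : d ≠ 0 := by rintro rfl; rw [zero_smul] at e2; exact hgy e2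
    -- an isotropic combination
    obtain ⟨t, ht, ht0, hiso⟩ : ∃ t ∈ F₀, t ≠ 0 ∧ f (x₀ + t • y) (x₀ + t • y) = 0 := by
      by_cases hxy : f y x₀ = 0
      · exact ⟨1, F₀.one_mem, one_ne_zero, by rw [HH.expand, hxx, hyy, hxy]; simp⟩
      · obtain ⟨δ, hδ0, hδ⟩ := S.hs0.exists_tr0
        have hδ' : (δ : F) + σ δ = 0 := congrArg Subtype.val hδ
        refine ⟨(δ : F) / f y x₀, F₀.div_mem δ.2 (S.form _ hy _ hx₀), div_ne_zero (fun h => hδ0 (Subtype.ext h)) hxy, ?_⟩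
        rw [HH.expand, hxx, hyy, div_mul_cancel₀ _ hxy, hδ']; ring
    obtain ⟨e, z', hz', e3⟩ := h (x₀ + t • y) (V0.add_mem hx₀ (S.smul_mem ht hy)) hiso
    rw [map_add, map_smul, e1, e2] at e3
    have hne1 : y' ∉ Submodule.span F₀ {x'} := by
      intro hs
      obtain ⟨s, hs⟩ := Submodule.mem_span_singleton.mp hs
      have e4 : y = (d * s / c) • x₀ := by
        apply g.injective
        rw [map_smul, e1, e2, ← hs, smul_smul]
        change d • ((s : F) • x') = _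
        rw [smul_smul]
        congr 1
        field_simp
      have h5 := hy
      rw [e4] at h5
      exact hdep _ (mem_of_smul S hx₀ hx₀0 h5) e4
    have hne2 : x' ∉ Submodule.span F₀ {y'} := by
      intro hs
      obtain ⟨s, hs⟩ := Submodule.mem_span_singleton.mp hs
      have hs0 : s ≠ 0 := by rintro rfl; rw [zero_smul] at hs; exact hx'0 hs.symm
      apply hne1
      rw [Submodule.mem_span_singleton]
      exact ⟨s⁻¹, by rw [← hs, smul_smul, inv_mul_cancel₀ hs0, one_smul]⟩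
    obtain ⟨u, hu, u1, u2⟩ := S.exists_sep (W := Submodule.span F₀ {x'}) hy' hne1
    obtain ⟨w, hw, w1, w2⟩ := S.exists_sep (W := Submodule.span F₀ {y'}) hx' hne2
    have u3 := u1 x' (Submodule.mem_span_singleton_self x') hx'
    have w3 := w1 y' (Submodule.mem_span_singleton_self y') hy'
    have k1 := congrArg (fun x => f x u) e3
    have k2 := congrArg (fun x => f x w) e3
    simp only [HH.add_left, HH.smul_left, u2, u3, w2, w3, mul_zero, mul_one, zero_add, add_zero] at k1 k2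
    -- k1 : t * d = e * f z' u, k2 : c = e * f z' w
    have he : e ≠ 0 := by rintro rfl; rw [zero_mul] at k2; exact hc k2
    have hzw : f z' w ≠ 0 := by intro h; rw [h, mul_zero] at k2; exact hc k2
    have k3 : c⁻¹ * d = t⁻¹ * (f z' u / f z' w) := by
      rw [k2]
      field_simp
      linear_combination k1
    rw [e2, smul_smul, k3]
    exact S.smul_mem (F₀.mul_mem (F₀.inv_mem ht) (F₀.div_mem (S.form _ hz' _ hu) (S.form _ hz' _ hw))) hy'
  refine ⟨c, hc, fun v hv => ⟨c⁻¹ • g v, hKV hv, ?_⟩⟩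
  rw [smul_smul, mul_inv_cancel₀ hc, one_smul]

theorem tr0_of_TV (hM : M ≤ isom f) {w : V} (hw0 : w ≠ 0) (hww : f w w = 0) {a : F} (h : TV f M w a) : a + σ a = 0 := by
  have HH := S.hs
  obtain ⟨t, ht, h1⟩ := h
  obtain ⟨x, -, hx⟩ := S.nd w trivial hw0
  have h2 := hM ht x x
  have hx2 := HH.symm_ne hx
  rw [h1] at h2
  simp only [HH.add_left, HH.add_right, HH.smul_left, HH.smul_right, hww, map_mul] at h2
  rw [← HH.herm w x] at h2
  have h3 : (a + σ a) * (f x w * f w x) = 0 := by linear_combination h2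
  exact (mul_eq_zero.mp h3).resolve_right (mul_ne_zero hx2 hx)

/-- the rational transvections preserve `V0` -/
theorem tv_rational {v : V} (hv : v ∈ V0) {a : F} (ha : a ∈ F₀) {x : V} (hx : x ∈ V0) : x + (a * f x v) • v ∈ V0 :=
  V0.add_mem hx (S.smul_mem (F₀.mul_mem ha (S.form _ hx _ hv)) hv)

/-- the nonrational transvections do not -/
theorem exists_nonrational (hne : ∃ x : F, x ∉ F₀) : ∃ v ∈ V0, ∃ (hvv : f v v = 0) (a : F) (ha : a + σ a = 0),
    ¬ ∃ c : F, c ≠ 0 ∧ ∀ x ∈ V0, ∃ x' ∈ V0, tv S.hs v hvv a ha x = c • x' := by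
  have HH := S.hs
  obtain ⟨v, hv, hv0, hvv⟩ := exists_iso0 S
  -- a nonrational element of trace zero
  obtain ⟨a, ha, haF⟩ : ∃ a : F, a + σ a = 0 ∧ a ∉ F₀ := by
    obtain ⟨b, hb⟩ := hne
    obtain ⟨θ, hθ, hθ2⟩ := S.ne0
    have hθ3 : θ - σ θ ≠ 0 := sub_ne_zero.mpr (Ne.symm hθ2)
    have hden : σ θ - θ ≠ 0 := by
      intro h; apply hθ3; linear_combination -h
    obtain ⟨δ, hδ0, hδ⟩ := S.hs0.exists_tr0
    have hδ' : (δ : F) + σ δ = 0 := congrArg Subtype.val hδ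
    have hσδ : σ (δ : F) = -δ := by linear_combination hδ'
    have hδ00 : (δ : F) ≠ 0 := fun h => hδ0 (Subtype.ext h)
    have e2 : σ ((b - σ b) / (θ - σ θ)) = (b - σ b) / (θ - σ θ) := by
      rw [map_div₀, map_sub, map_sub, HH.inv, HH.inv, div_eq_div_iff hden hθ3]; ring
    by_cases h1 : (b - σ b) / (θ - σ θ) ∈ F₀
    · refine ⟨δ * (b - (b - σ b) / (θ - σ θ) * θ), ?_, fun h => hb ?_⟩
      · rw [map_mul, hσδ, map_sub, map_mul, e2]
        have h1 : (b - σ b) / (θ - σ θ) * (θ - σ θ) = b - σ b := by rw [div_mul_cancel₀ _ hθ3]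
        linear_combination (-(δ : F)) * h1
      · have h2 := F₀.mul_mem (F₀.inv_mem δ.2) h
        rw [inv_mul_cancel_left₀ hδ00] at h2
        have h3 := F₀.add_mem h2 (F₀.mul_mem h1 hθ)
        rwa [sub_add_cancel] at h3
    · refine ⟨δ * ((b - σ b) / (θ - σ θ)), ?_, fun h => h1 ?_⟩
      · rw [map_mul, hσδ, e2]; ring
      · have h2 := F₀.mul_mem (F₀.inv_mem δ.2) h
        rwa [inv_mul_cancel_left₀ hδ00] at h2
  refine ⟨v, hv, hvv, a, ha, ?_⟩
  rintro ⟨c, hc, h⟩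
  obtain ⟨w, hw, hvw⟩ := S.nd0 hv0
  have hwv := HH.symm_ne hvw
  obtain ⟨x, hx, e1⟩ := h v hv
  obtain ⟨y, hy, e2⟩ := h w hw
  rw [tv_apply, hvv, mul_zero, zero_smul, add_zero] at e1
  rw [tv_apply] at e2
  have hcF : c ∈ F₀ := by
    have h3 : x = c⁻¹ • v := by rw [e1, smul_smul, inv_mul_cancel₀ hc, one_smul]
    rw [h3] at hx
    have := F₀.inv_mem (mem_of_smul S hv hv0 hx)
    rwa [inv_inv] at this
  have h5 : (a * f w v) • v ∈ V0 := by
    have h6 : (a * f w v) • v = c • y - w := by rw [← e2]; abel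
    rw [h6]
    exact V0.sub_mem (S.smul_mem hcF hy) hw
  have h6 := F₀.div_mem (mem_of_smul S hv hv0 h5) (S.form w hw v hv)
  rw [mul_div_assoc, div_self hwv, mul_one] at h6
  exact haF h6

/-- **the main theorem on overgroups** -/
theorem main [FiniteDimensional F V] (h4 : 4 ≤ Module.finrank F V) (r : ℕ) (hr : r.Prime)
    (hcard : Nat.card F = Nat.card F₀ ^ r) (H : Hyp σ f F₀ V0 M)
    (hex : ∃ g ∈ M, ¬ ∃ c : F, c ≠ 0 ∧ ∀ x ∈ V0, ∃ x' ∈ V0, g x = c • x')
    {g : V ≃ₗ[F] V} (hg : g ∈ isom f) (hdet : LinearMap.det ((g : V ≃ₗ[F] V) : V →ₗ[F] V) = 1) : g ∈ M := by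
  have HH := S.hs
  by_contra hgM
  have hF : ∀ w ∈ V0, w ≠ 0 → f w w = 0 → ∀ a : F, TV f M w a → a ∈ F₀ := by
    intro w hw hw0 hww a ha
    by_contra hl
    exact hgM (full S H h4 r hr hcard hw hw0 hww ha (tr0_of_TV S H.le hw0 hww ha) hl hg hdet)
  obtain ⟨x, hx, hxP⟩ := hex
  obtain ⟨v₀, hv₀, hv₀v, h1⟩ : ∃ v₀ ∈ V0, f v₀ v₀ = 0 ∧ ∀ c : F, ∀ v' ∈ V0, x v₀ ≠ c • v' := by
    by_contra hc
    push Not at hc
    exact hxP (iso_uniform S x hc)
  have hv₀0 : v₀ ≠ 0 := by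
    rintro rfl
    exact h1 1 0 V0.zero_mem (by simp)
  have hxv0 : x v₀ ≠ 0 := by
    intro h
    exact hv₀0 ((map_eq_zero_iff x x.injective).mp h)
  have hxx : f (x v₀) (x v₀) = 0 := by rw [H.le hx]; exact hv₀v
  obtain ⟨δ, hδ0, hδ⟩ := S.hs0.exists_tr0
  have hδ' : (δ : F) + σ δ = 0 := congrArg Subtype.val hδ
  have hδ00 : (δ : F) ≠ 0 := fun h => hδ0 (Subtype.ext h)
  have hT : TV f M (x v₀) δ := TV.map HH H.le hx (H.mem v₀ hv₀ hv₀v δ δ.2 hδ')
  by_cases hA : ∃ w₀ ∈ V0, w₀ ≠ 0 ∧ f w₀ w₀ = 0 ∧ f (x v₀) w₀ = 0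
  · obtain ⟨w₀, hw₀, hw₀0, hww, h2⟩ := hA
    obtain ⟨c, hc, v', hv', e⟩ := caseA' S H hF hxv0 hxx hδ00 δ.2 hδ' hT hw₀ hw₀0 hww h2
    exact h1 c v' hv' e
  · push Not at hA
    exact caseB S H r hr hcard hF hxx hδ00 δ.2 hδ' hT hA

end

end Cfsg.Agent.Lib.SubfUn
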