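import Mathlib
import Cfsg.Agent.Lib.SubfUnT2

/-!
# Overgroups of `SU_n(F₀)` in `SU_n(F)`: all rational transvections generate; rationality of centres, case A (helper98)
-/

set_option autoImplicit false
set_option linter.unusedSectionVars false

namespace Cfsg.Agent.Lib.SubfUnT

open Cfsg.Agent.Lib Cfsg.Agent.Lib.UnTrans
open Cfsg.Agent.Lib.SpTrans (isom mem_isom)

variable {F V : Type*} [Field F] [Finite F] [AddCommGroup V] [Module F V]
variable {σ : F →+* F} {f : V → V → F} {F₀ : Subfield F} {V0 : Submodule F₀ V}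
variable {M : Subgroup (V ≃ₗ[F] V)}

section

variable (S : UnF σ f F₀ V0) (H : Hyp σ f F₀ V0 M)
include S H

theorem all_scalar (hall : ∀ w ∈ V0, f w w = 0 → ∀ a, a + σ a = 0 → TV f M w a) {e w : V} (he : e ∈ V0) (hw : w ∈ V0)
    (hee : f e e = 0) (hww : f w w = 0) (hwe : f w e = 0) (b : F) : RhoIn f M e (b • w) 0 := by
  have HH := S.hs
  obtain ⟨δ', hδ0', hδ'⟩ := S.hs0.exists_tr0
  set δ : F := (δ' : F) with hδdef
  have hδF : δ ∈ F₀ := δ'.2
  have hδ0 : δ ≠ 0 := fun h => hδ0' (Subtype.ext h)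
  have hδ : δ + σ δ = 0 := congrArg Subtype.val hδ'
  have hσδ : σ δ = -δ := by linear_combination hδ
  have tr0 : ∀ s : F, σ s = s → δ * s + σ (δ * s) = 0 := by
    intro s hs
    rw [map_mul, hσδ, hs]; ring
  obtain ⟨θ, hθ, hθ2⟩ := S.ne0
  have hθ3 : θ - σ θ ≠ 0 := sub_ne_zero.mpr (Ne.symm hθ2)
  have base : ∀ w ∈ V0, f w w = 0 → f w e = 0 → ∀ s : F, σ s = s → RhoIn f M e ((δ * s) • w) 0 := by
    intro w hw hww hwe s hs
    have hew := HH.symm_zero hwe
    exact rhoIn_of_three HH hee hww hwe (tr0 s hs)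
      (hall _ (V0.add_mem hw he) (by rw [HH.add_left, HH.add_right, HH.add_right, hee, hww, hwe, hew]; ring) _ (tr0 s hs))
      (hall w hw hww _ (tr0 s hs)) (hall e he hee _ (tr0 s hs))
  set b' := δ⁻¹ * b with hb'
  set s₂ := (b' - σ b') / (θ - σ θ) with hs₂
  set s₁ := b' - s₂ * θ with hs₁
  have hden : σ θ - θ ≠ 0 := by
    intro h; apply hθ3; linear_combination -h
  have e2 : σ s₂ = s₂ := by
    rw [hs₂, map_div₀, map_sub, map_sub, HH.inv, HH.inv, div_eq_div_iff hden hθ3]; ring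
  have e1 : σ s₁ = s₁ := by
    have h1 : s₂ * (θ - σ θ) = b' - σ b' := by rw [hs₂, div_mul_cancel₀ _ hθ3]
    rw [hs₁, map_sub, map_mul σ s₂ θ, e2]
    linear_combination h1
  have h1 := base w hw hww hwe s₁ e1
  have h2 := base (θ • w) (S.smul_mem hθ hw) (by rw [HH.smul_left, HH.smul_right, hww]; ring)
    (by rw [HH.smul_left, hwe, mul_zero]) s₂ e2
  have h3 := rhoIn_comp HH hee (by rw [HH.smul_left, hwe, mul_zero])
    (by rw [HH.smul_left, HH.smul_left, hwe, mul_zero, mul_zero]) h1 h2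
  have e3 : (δ * s₁) • w + (δ * s₂) • θ • w = b • w := by
    have : b = δ * b' := by rw [hb', mul_inv_cancel_left₀ hδ0]
    rw [this, smul_smul, ← add_smul, hs₁]
    congr 1; ring
  have e4 : (0 : F) + 0 - f ((δ * s₂) • θ • w) ((δ * s₁) • w) = 0 := by
    rw [HH.smul_left, HH.smul_left, HH.smul_right, hww]; ring
  rwa [e3, e4] at h3

/-- isotropic rational vectors of `e^⊥` span -/
theorem mem_span_perp {e : V} (he : e ∈ V0) (hee : f e e = 0) (he0 : e ≠ 0) {u : V} (hu : f u e = 0) :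
    u ∈ Submodule.span F {z | z ∈ V0 ∧ f z z = 0 ∧ f z e = 0} := by
  have HH := S.hs
  have := S.fin
  have hd := S.dim
  set Z : Submodule F V := Submodule.span F {z | z ∈ V0 ∧ f z z = 0 ∧ f z e = 0} with hZ
  -- rational vectors of `e^⊥`
  have hrat : ∀ v ∈ V0, f v e = 0 → v ∈ Z := by
    intro v hv hve
    obtain ⟨z, -, hze, hzz, y, -, hye, hzy⟩ := S.hs0.exists_hyp S.nd0' (by rw [finrank_top]; omega)
      (w := (⟨e, he⟩ : V0)) trivial
    have h1 := S.hs0.mem_span_iso (U := LinearMap.ker (S.hs0.fl ⟨e, he⟩)) (z := z) (y := y) (u := ⟨v, hv⟩)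
      (by rw [LinearMap.mem_ker]; exact hze) hzz (by rw [LinearMap.mem_ker]; exact hye) hzy
      (by rw [LinearMap.mem_ker]; exact Subtype.ext hve)
    have h2 : ∀ x : V0, x ∈ Submodule.span F₀ {x | x ∈ LinearMap.ker (S.hs0.fl ⟨e, he⟩) ∧ f0 S x x = 0} → (x : V) ∈ Z := by
      intro x hx
      induction hx using Submodule.span_induction with
      | mem x hx =>
        apply Submodule.subset_span
        exact ⟨x.2, congrArg Subtype.val hx.2, congrArg Subtype.val (LinearMap.mem_ker.mp hx.1)⟩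
      | zero => exact Z.zero_mem
      | add x y _ _ h1 h2 => exact Z.add_mem h1 h2
      | smul c x _ h1 => exact Z.smul_mem (c : F) h1
    exact h2 _ h1
  obtain ⟨y₀, hy₀, hy₁⟩ := S.nd0 he0
  have hy₂ : f y₀ e ≠ 0 := HH.symm_ne hy₁
  have hy₃ : (f y₀ e) ∈ F₀ := S.form _ hy₀ _ he
  have key : ∀ x : V, x - (f x e / f y₀ e) • y₀ ∈ Z := by
    intro x
    have hx : x ∈ Submodule.span F (V0 : Set V) := by rw [S.span]; trivial
    induction hx using Submodule.span_induction with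
    | mem x hx =>
      apply hrat
      · exact V0.sub_mem hx (S.smul_mem (F₀.div_mem (S.form _ hx _ he) hy₃) hy₀)
      · rw [HH.sub_left, HH.smul_left, div_mul_cancel₀ _ hy₂, sub_self]
    | zero => rw [HH.zero_left, zero_div, zero_smul, sub_zero]; exact Z.zero_mem
    | add x y _ _ h1 h2 =>
      have := Z.add_mem h1 h2
      have e1 : x + y - (f (x + y) e / f y₀ e) • y₀ = x - (f x e / f y₀ e) • y₀ + (y - (f y e / f y₀ e) • y₀) := by
        rw [HH.add_left, add_div]; module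
      rwa [e1]
    | smul c x _ h1 =>
      have := Z.smul_mem c h1
      have e1 : c • x - (f (c • x) e / f y₀ e) • y₀ = c • (x - (f x e / f y₀ e) • y₀) := by
        rw [HH.smul_left, mul_div_assoc]; module
      rwa [e1]
  have := key u
  rwa [hu, zero_div, zero_smul, sub_zero] at this

theorem rho_all (hall : ∀ w ∈ V0, f w w = 0 → ∀ a, a + σ a = 0 → TV f M w a) {e u : V} (he : e ∈ V0)
    (hee : f e e = 0) (he0 : e ≠ 0) (hue : f u e = 0) {c : F} (hc : c + σ c + f u u = 0) : RhoIn f M e u c := by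
  have HH := S.hs
  have key : ∀ u ∈ Submodule.span F {z | z ∈ V0 ∧ f z z = 0 ∧ f z e = 0},
      f u e = 0 ∧ ∃ c, c + σ c + f u u = 0 ∧ RhoIn f M e u c := by
    intro u hu
    refine Submodule.closure_induction ?_ ?_ ?_ hu
    · refine ⟨HH.zero_left _, 0, by rw [HH.zero_left, map_zero]; ring, ⟨1, one_mem _, fun x => ?_⟩⟩
      simp [rho, HH.zero_right]
    · rintro x y _ _ ⟨hx, c, hc, hcx⟩ ⟨hy, c', hc', hcy⟩
      refine ⟨by rw [HH.add_left, hx, hy, add_zero], c + c' - f y x, ?_, rhoIn_comp HH hee hx hy hcx hcy⟩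
      rw [map_sub, map_add, ← HH.herm x y, HH.add_left, HH.add_right, HH.add_right]
      linear_combination hc + hc'
    · rintro r z ⟨hz, hzz, hze⟩
      refine ⟨by rw [HH.smul_left, hze, mul_zero], 0, by rw [HH.smul_left, HH.smul_right, hzz, map_zero]; ring, ?_⟩
      exact all_scalar S H hall he hz hee hzz hze r
  obtain ⟨-, c', hc', h1⟩ := key u (mem_span_perp S H he hee he0 hue)
  have h2 : RhoIn f M e 0 (c - c') := rhoIn_of_tv HH (hall e he hee _ (by rw [map_sub]; linear_combination hc - hc'))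
  have := rhoIn_comp HH hee hue (HH.zero_left e) h1 h2
  rw [add_zero, HH.zero_left] at this
  convert this using 1
  ring

/-- all transvections -/
theorem tv_all (hall : ∀ w ∈ V0, f w w = 0 → ∀ a, a + σ a = 0 → TV f M w a) {v : V} (hvv : f v v = 0) {a : F}
    (ha : a + σ a = 0) : TV f M v a := by
  have HH := S.hs
  have := S.fin
  have hd := S.dim
  by_cases hv0 : v = 0
  · rw [hv0]; exact ⟨1, M.one_mem, fun x => by simp⟩
  -- a rational isotropic vector not orthogonal to `v`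
  obtain ⟨e, he, hee, hve⟩ : ∃ e ∈ V0, f e e = 0 ∧ f v e ≠ 0 := by
    by_contra hcon
    push Not at hcon
    obtain ⟨y, hy, hvy⟩ := S.nd0 hv0
    apply hvy
    obtain ⟨z, -, -, hzz, w, -, -, hzw⟩ := S.hs0.exists_hyp S.nd0' (by rw [finrank_top]; omega) (Submodule.zero_mem _)
    have h1 := S.hs0.mem_span_iso (U := ⊤) (z := z) (y := w) (u := ⟨y, hy⟩) trivial hzz trivial hzw trivial
    have h2 : ∀ x : V0, x ∈ Submodule.span F₀ {x | x ∈ (⊤ : Submodule F₀ V0) ∧ f0 S x x = 0} → f v x = 0 := by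
      intro x hx
      induction hx using Submodule.span_induction with
      | mem x hx => exact hcon x x.2 (congrArg Subtype.val hx.2)
      | zero => exact HH.zero_right _
      | add x y _ _ h1 h2 => rw [Submodule.coe_add, HH.add_right, h1, h2, add_zero]
      | smul c x _ h1 =>
        change f v ((c : F) • (x : V)) = 0
        rw [HH.smul_right, h1, mul_zero]
    exact h2 _ h1
  have he0 : e ≠ 0 := by rintro rfl; exact hve (HH.zero_right _)
  -- the opposite vector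
  obtain ⟨e', he', hee', h1⟩ : ∃ e' ∈ V0, f e' e' = 0 ∧ f e' e = 1 := by
    obtain ⟨y, hy, hy'⟩ := S.nd0 he0
    obtain ⟨a', ha'⟩ := S.hs0.exists_add_norm (z := ⟨e, he⟩) (u := ⟨y, hy⟩) (Subtype.ext hee)
      (fun h => hy' (congrArg Subtype.val h)) (map_zero _)
    have h2 : f (y + (a' : F) • e) (y + (a' : F) • e) = 0 := congrArg Subtype.val ha'
    set y' := y + (a' : F) • e with hy'def
    have hy'V : y' ∈ V0 := V0.add_mem hy (S.smul_mem a'.2 he)
    have h3 : f y' e = f y e := by rw [hy'def, HH.add_left, HH.smul_left, hee, mul_zero, add_zero]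
    have h4 : f y e ≠ 0 := HH.symm_ne hy'
    refine ⟨(f y e)⁻¹ • y', S.smul_mem (F₀.inv_mem (S.form _ hy _ he)) hy'V, ?_, ?_⟩
    · rw [HH.smul_left, HH.smul_right, h2]; ring
    · rw [HH.smul_left, h3, inv_mul_cancel₀ h4]
  set lam := f v e with hlam
  have hσlam : σ lam ≠ 0 := HH.sigma_ne hve
  set y := lam • e' with hy
  have hye : f y e = lam := by rw [hy, HH.smul_left, h1, mul_one]
  have hyy : f y y = 0 := by rw [hy, HH.smul_left, HH.smul_right, hee']; ring
  set u := lam⁻¹ • (y - v) with hu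
  have hue : f u e = 0 := by rw [hu, HH.smul_left, HH.sub_left, hye, ← hlam, sub_self, mul_zero]
  have hcc : lam⁻¹ * f v u + σ (lam⁻¹ * f v u) + f u u = 0 := by
    rw [hu]
    simp only [HH.smul_left, HH.smul_right, HH.sub_left, HH.sub_right, map_mul, map_sub, map_inv₀, HH.inv, hyy, hvv]
    rw [← HH.herm y v]
    have : σ 0 = (0 : F) := map_zero σ
    rw [this]
    ring
  obtain ⟨g, hg, h2⟩ := rho_all S H hall he hee he0 hue hcc
  have h3 : g v = y := by
    rw [h2, rho, ← hlam, hu, smul_smul, mul_inv_cancel₀ hve, one_smul]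
    have e1 : lam⁻¹ * f v (lam⁻¹ • (y - v)) * lam = f v (lam⁻¹ • (y - v)) := by field_simp
    rw [e1]
    abel
  have h4 : TV f M y a := by
    rw [hy, TV.smul HH]
    apply hall e' he' hee'
    rw [map_mul, map_mul, HH.inv]
    linear_combination (lam * σ lam) * ha
  have h5 := TV.map HH H.le (M.inv_mem hg) h4
  rw [inv_apply_of h3] at h5
  exact h5

/-- the conclusion -/
theorem full [FiniteDimensional F V] (h4 : 4 ≤ Module.finrank F V) (r : ℕ) (hr : r.Prime) (hcard : Nat.card F = Nat.card F₀ ^ r) {v : V} {l : F}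
    (hv : v ∈ V0) (hv0 : v ≠ 0) (hvv : f v v = 0) (hT : TV f M v l) (hl : l + σ l = 0) (hl0 : l ∉ F₀)
    {g : V ≃ₗ[F] V} (hg : g ∈ isom f) (hdet : LinearMap.det ((g : V ≃ₗ[F] V) : V →ₗ[F] V) = 1) : g ∈ M := by
  have hall := all_mult S H r hr hcard hv hv0 hvv hT hl hl0
  have h1 : tgrp S.hs ⊤ ≤ M := by
    rw [tgrp, Subgroup.closure_le]
    rintro t ⟨w, -, hw, a, ha, rfl⟩
    obtain ⟨s, hs, h2⟩ := tv_all S H hall hw ha
    have : tv S.hs w hw a ha = s := by
      ext x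
      rw [tv_apply, h2]
    rw [SetLike.mem_coe, this]; exact hs
  exact h1 (su_le S.hs S.nd h4 hg hdet)

/-- case A -/
theorem caseA (hF : ∀ w ∈ V0, w ≠ 0 → f w w = 0 → ∀ a : F, TV f M w a → a ∈ F₀) {v w₀ : V} (hvv : f v v = 0)
    {δ : F} (hδ0 : δ ≠ 0) (hδF : δ ∈ F₀) (hδ : δ + σ δ = 0) (hT : TV f M v δ)
    (hw₀ : w₀ ∈ V0) (hw₀0 : w₀ ≠ 0) (hww : f w₀ w₀ = 0) (hvw : f v w₀ = 0)
    {u u' : V} (hu : u ∈ V0) (hu' : u' ∈ V0) (huw : f u w₀ = 0) (huw' : f u' w₀ = 0) : f v u * σ (f v u') ∈ F₀ := by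
  have HH := S.hs
  have hE : ∀ u ∈ V0, f u w₀ = 0 → RhoIn f M w₀ ((δ * σ (-f v u)) • v) (δ * ((-f v u) * σ (-f v u))) := by
    intro u hu huw
    obtain ⟨c, hc⟩ := S.hs0.exists_trace (⟨-f u u, F₀.neg_mem (S.form u hu u hu)⟩) (by
      apply Subtype.ext
      rw [s0_coe]
      change σ (-f u u) = _
      rw [map_neg, HH.self_fixed])
    have hc' : (c : F) + σ c = -f u u := congrArg Subtype.val hc
    obtain ⟨g, hg, h1⟩ := rhoRat S H hw₀ hu hww huw c.2 (by rw [hc']; ring)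
    have h2 := TV.map HH H.le hg hT
    have h3 : g v = v + (-f v u) • w₀ := by
      rw [h1, rho, hvw]; module
    rw [h3] at h2
    exact rhoIn_of_tv2 HH hww hvv hvw hδ h2 hT
  have b1 : ∀ c : F, f (c • v) w₀ = 0 := fun c => by rw [HH.smul_left, hvw, mul_zero]
  -- the traces
  have htr : ∀ u' ∈ V0, f u' w₀ = 0 → f v u * σ (f v u') + σ (f v u * σ (f v u')) ∈ F₀ := by
    intro u' hu' huw'
    have h1 := rhoIn_comp HH hww (b1 _) (b1 _) (hE u hu huw) (hE u' hu' huw')
    have h2 := hE (u + u') (V0.add_mem hu hu') (by rw [HH.add_left, huw, huw', add_zero])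
    rw [← add_smul] at h1
    have e1 : δ * σ (-f v u) + δ * σ (-f v u') = δ * σ (-f v (u + u')) := by
      rw [HH.add_right, map_neg, map_neg, map_neg, map_add]; ring
    rw [e1] at h1
    have h3 := tv_of_rhoIn2 HH hww (b1 _) h1 h2
    have h4 := hF w₀ hw₀ hw₀0 hww _ h3
    rw [HH.smul_left, HH.smul_right, hvv, mul_zero, mul_zero, sub_zero] at h4
    have e2 : δ * (-f v u * σ (-f v u)) + δ * (-f v u' * σ (-f v u')) - δ * (-f v (u + u') * σ (-f v (u + u'))) =
        -δ * (f v u * σ (f v u') + σ (f v u * σ (f v u'))) := by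
      rw [HH.add_right]
      simp only [map_neg, map_add, map_mul, HH.inv]
      ring
    rw [e2] at h4
    have h5 := F₀.mul_mem (F₀.inv_mem (F₀.neg_mem hδF)) h4
    rwa [inv_mul_cancel_left₀ (neg_ne_zero.mpr hδ0)] at h5
  obtain ⟨θ, hθ, hθ2⟩ := S.ne0
  have t1 := htr u' hu' huw'
  have t2 := htr (θ • u') (S.smul_mem hθ hu') (by rw [HH.smul_left, huw', mul_zero])
  rw [HH.smul_right, map_mul, HH.inv] at t2
  set x := f v u * σ (f v u') with hx
  have e1 : f v u * (θ * σ (f v u')) + σ (f v u * (θ * σ (f v u'))) = θ * x + σ θ * σ x := by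
    have : f v u * (θ * σ (f v u')) = θ * x := by rw [hx]; ring
    rw [this, map_mul]
  rw [e1] at t2
  have hθ3 : θ - σ θ ≠ 0 := sub_ne_zero.mpr (Ne.symm hθ2)
  have e2 : x = (θ * x + σ θ * σ x - σ θ * (x + σ x)) / (θ - σ θ) := by
    field_simp; ring
  rw [e2]
  exact F₀.div_mem (F₀.sub_mem t2 (F₀.mul_mem (S.sig _ hθ) t1)) (F₀.sub_mem hθ (S.sig _ hθ))

theorem caseA' (hF : ∀ w ∈ V0, w ≠ 0 → f w w = 0 → ∀ a : F, TV f M w a → a ∈ F₀) {v w₀ : V} (hv0 : v ≠ 0) (hvv : f v v = 0)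
    {δ : F} (hδ0 : δ ≠ 0) (hδF : δ ∈ F₀) (hδ : δ + σ δ = 0) (hT : TV f M v δ)
    (hw₀ : w₀ ∈ V0) (hw₀0 : w₀ ≠ 0) (hww : f w₀ w₀ = 0) (hvw : f v w₀ = 0) :
    ∃ c : F, c ≠ 0 ∧ ∃ v' ∈ V0, v = c • v' := by
  classical
  have HH := S.hs
  have := S.fin
  have hd := S.dim
  -- K₁ = V0 ∩ w₀^⊥
  obtain ⟨K₁, hK₁, hK₁2, hK₁3⟩ := S.finrank_perp (K := V0) le_rfl ![w₀] (by intro i; fin_cases i; exact hw₀)
  have hK₁w : ∀ x ∈ K₁, f x w₀ = 0 := fun x hx => ((hK₁2 x).mp hx).2 0
  have : Module.Finite F₀ K₁ := Module.Finite.of_injective (Submodule.inclusion hK₁) (Submodule.inclusion_injective hK₁)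
  have hprod : ∀ x ∈ K₁, ∀ y ∈ K₁, f v x * σ (f v y) ∈ F₀ := fun x hx y hy =>
    caseA S H hF hvv hδ0 hδF hδ hT hw₀ hw₀0 hww hvw (hK₁ hx) (hK₁ hy) (hK₁w x hx) (hK₁w y hy)
  -- the kernel
  obtain ⟨K, hK, hK2, hK3⟩ : ∃ K : Submodule F₀ V, K ≤ K₁ ∧ (∀ x ∈ K, f v x = 0) ∧
      Module.finrank F₀ K₁ ≤ Module.finrank F₀ K + 1 := by
    by_cases hall : ∀ x ∈ K₁, f v x = 0
    · exact ⟨K₁, le_rfl, hall, by omega⟩
    · push Not at hall
      obtain ⟨x₀, hx₀, h0⟩ := hall
      let L : K₁ →ₗ[F₀] F₀ :=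
        { toFun := fun x => ⟨f v x₀ * f x v, by rw [HH.herm (x : V) v]; exact hprod x₀ hx₀ x x.2⟩
          map_add' := by intro x y; apply Subtype.ext; simp [HH.add_left, mul_add]
          map_smul' := by
            intro c x; apply Subtype.ext
            change f v x₀ * f ((c : F) • (x : V)) v = (c : F) * (f v x₀ * f x v)
            rw [HH.smul_left]; ring }
      refine ⟨(LinearMap.ker L).map K₁.subtype, ?_, ?_, ?_⟩
      · rintro _ ⟨x, _, rfl⟩; exact x.2
      · rintro _ ⟨x, hx, rfl⟩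
        have h1 := congrArg Subtype.val (LinearMap.mem_ker.mp hx)
        have h2 : f v x₀ * f x v = 0 := h1
        rcases mul_eq_zero.mp h2 with h | h
        · exact absurd h h0
        · exact HH.symm_zero h
      · have h1 := LinearMap.finrank_range_add_finrank_ker L
        have h2 : Module.finrank F₀ (LinearMap.range L) ≤ 1 := by
          have := Submodule.finrank_le (LinearMap.range L)
          rwa [Module.finrank_self] at this
        have h3 : Module.finrank F₀ ((LinearMap.ker L).map K₁.subtype) = Module.finrank F₀ (LinearMap.ker L) :=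
          (Submodule.equivMapOfInjective _ K₁.injective_subtype _).finrank_eq.symm
        omega
  have hall : ∀ u ∈ V0, ∀ u' ∈ V0, f v u * σ (f v u') ∈ F₀ := by
    intro u hu u' hu'
    obtain ⟨K', hK', hK'2, hK'3⟩ := S.finrank_perp (hK.trans hK₁) ![u, u'] (by
      intro i; fin_cases i
      · exact hu
      · exact hu')
    obtain ⟨w, hw, hw0, hwwz⟩ := S.exists_iso (K := K') (hK'.trans (hK.trans hK₁)) (by omega)
    have hwV : w ∈ V0 := hK₁ (hK (hK' hw))
    have h1 : f w u = 0 := ((hK'2 w).mp hw).2 0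
    have h2 : f w u' = 0 := ((hK'2 w).mp hw).2 1
    exact caseA S H hF hvv hδ0 hδF hδ hT hwV hw0 hwwz (hK2 w (hK' hw)) hu hu' (HH.symm_zero h1) (HH.symm_zero h2)
  obtain ⟨u, hu, hu2⟩ := S.nd0 hv0
  have hσu : σ (f v u) ≠ 0 := HH.sigma_ne hu2
  refine ⟨(σ (f v u))⁻¹, inv_ne_zero hσu, (σ (f v u)) • v, ?_, by rw [smul_smul, inv_mul_cancel₀ hσu, one_smul]⟩
  apply S.mem_of_dual
  intro y hy
  rw [HH.smul_left, mul_comm]
  exact hall y hy u hu

end

end Cfsg.Agent.Lib.SubfUnT
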