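import Mathlib
import Cfsg.Agent.Lib.SubfUnV

/-!
# Overgroups of `SU_n(F₀)` in `SU_n(F)`: one nonrational multiple gives everything (helper98)
-/

set_option autoImplicit false
set_option linter.unusedSectionVars false

namespace Cfsg.Agent.Lib.SubfUnV

open Cfsg.Agent.Lib Cfsg.Agent.Lib.UnTrans
open Cfsg.Agent.Lib.SpTrans (isom mem_isom)

variable {F V : Type*} [Field F] [Finite F] [AddCommGroup V] [Module F V]
variable {σ : F →+* F} {f : V → V → F} {F₀ : Subfield F} {V0 : Submodule F₀ V}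
variable {M : Subgroup (V ≃ₗ[F] V)}

/-- `x ↦ x + a f(x,w) w` is induced by an element of `M` -/
def TV (f : V → V → F) (M : Subgroup (V ≃ₗ[F] V)) (w : V) (a : F) : Prop := ∃ t ∈ M, ∀ x, t x = x + (a * f x w) • w

section basic

variable (H : HS σ f)
include H

theorem TV.add {w : V} (hw : f w w = 0) {a b : F} (h1 : TV f M w a) (h2 : TV f M w b) : TV f M w (a + b) := by
  obtain ⟨t, ht, h1⟩ := h1
  obtain ⟨s, hs, h2⟩ := h2
  refine ⟨t * s, M.mul_mem ht hs, fun x => ?_⟩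
  rw [LinearEquiv.mul_apply, h1, h2, H.add_left, H.smul_left, hw]
  module

omit [Finite F] H in
theorem inv_apply_of {t : V ≃ₗ[F] V} {x y : V} (h : t y = x) : t⁻¹ x = y := by
  rw [← h, ← LinearEquiv.mul_apply, inv_mul_cancel]; rfl

omit [Finite F] H in
theorem apply_inv (t : V ≃ₗ[F] V) (x : V) : t (t⁻¹ x) = x := by
  rw [← LinearEquiv.mul_apply, mul_inv_cancel]; rfl

theorem TV.neg {w : V} (hw : f w w = 0) {a : F} (h1 : TV f M w a) : TV f M w (-a) := by
  obtain ⟨t, ht, h1⟩ := h1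
  refine ⟨t⁻¹, M.inv_mem ht, fun x => ?_⟩
  apply inv_apply_of
  rw [h1, H.add_left, H.smul_left, hw]
  module

omit [Finite F] in
theorem TV.zero (w : V) : TV f M w 0 := ⟨1, M.one_mem, fun x => by simp⟩

theorem TV.smul {w : V} (c : F) {a : F} : TV f M (c • w) a ↔ TV f M w (a * (c * σ c)) := by
  have e : ∀ x : V, (a * f x (c • w)) • c • w = (a * (c * σ c) * f x w) • w := by
    intro x
    rw [H.smul_right, smul_smul]
    congr 1; ring
  constructor
  · rintro ⟨t, ht, h⟩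
    exact ⟨t, ht, fun x => by rw [h, e]⟩
  · rintro ⟨t, ht, h⟩
    exact ⟨t, ht, fun x => by rw [h, e]⟩

theorem TV.map (hM : M ≤ isom f) {g : V ≃ₗ[F] V} (hg : g ∈ M) {w : V} {a : F} (h : TV f M w a) : TV f M (g w) a := by
  obtain ⟨t, ht, h⟩ := h
  refine ⟨g * t * g⁻¹, M.mul_mem (M.mul_mem hg ht) (M.inv_mem hg), fun x => ?_⟩
  have h1 : f (g⁻¹ x) w = f x (g w) := by
    have := hM hg (g⁻¹ x) w
    rw [apply_inv] at this
    exact this.symm
  rw [LinearEquiv.mul_apply, LinearEquiv.mul_apply, h, map_add, map_smul, apply_inv, h1]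

theorem rhoIn_map (hM : M ≤ isom f) {g : V ≃ₗ[F] V} (hg : g ∈ M) {e u : V} {c : F} (h : RhoIn f M e u c) :
    RhoIn f M (g e) (g u) c := by
  obtain ⟨t, ht, h⟩ := h
  refine ⟨g * t * g⁻¹, M.mul_mem (M.mul_mem hg ht) (M.inv_mem hg), fun x => ?_⟩
  have h1 : ∀ w, f (g⁻¹ x) w = f x (g w) := by
    intro w
    have := hM hg (g⁻¹ x) w
    rw [apply_inv] at this
    exact this.symm
  rw [LinearEquiv.mul_apply, LinearEquiv.mul_apply, h, rho, rho]
  rw [map_add, map_sub, map_add, map_smul, map_smul, map_smul, apply_inv, h1, h1]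

theorem rhoIn_inv {e u : V} {c : F} (hee : f e e = 0) (hue : f u e = 0) (h : RhoIn f M e u c) :
    RhoIn f M e (-u) (-c - f u u) := by
  obtain ⟨t, ht, h⟩ := h
  have heu : f e u = 0 := H.symm_zero hue
  refine ⟨t⁻¹, M.inv_mem ht, fun x => ?_⟩
  apply inv_apply_of
  rw [h, rho, rho]
  simp only [H.add_left, H.sub_left, H.smul_left, H.neg_left, H.neg_right, hee, hue, heu]
  module

theorem tv_of_rhoIn {e : V} {c : F} (h : RhoIn f M e 0 c) : TV f M e c := by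
  obtain ⟨t, ht, h⟩ := h
  refine ⟨t, ht, fun x => ?_⟩
  rw [h, rho, H.zero_right]
  simp

theorem rhoIn_of_tv {e : V} {c : F} (h : TV f M e c) : RhoIn f M e 0 c := by
  obtain ⟨t, ht, h⟩ := h
  refine ⟨t, ht, fun x => ?_⟩
  rw [h, rho, H.zero_right]
  simp

/-- difference of two Eichler elements with the same vector -/
theorem tv_of_rhoIn2 {e u : V} {c c' : F} (hee : f e e = 0) (hue : f u e = 0) (h : RhoIn f M e u c)
    (h' : RhoIn f M e u c') : TV f M e (c - c') := by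
  have h1 := rhoIn_inv H hee hue h'
  have h2 := rhoIn_comp H hee hue (by rw [H.neg_left, hue, neg_zero]) h h1
  rw [add_neg_cancel, H.neg_left] at h2
  have e1 : c + (-c' - f u u) - -f u u = c - c' := by ring
  rw [e1] at h2
  exact tv_of_rhoIn H h2

theorem rhoIn_of_three {v w : V} (hvv : f v v = 0) (hww : f w w = 0) (hwv : f w v = 0) {a : F} (ha : a + σ a = 0)
    (h1 : TV f M (w + v) a) (h2 : TV f M w a) (h3 : TV f M v a) : RhoIn f M v (a • w) 0 := by
  have hvw : f v w = 0 := H.symm_zero hwv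
  have hσ : σ a = -a := by linear_combination ha
  obtain ⟨t1, m1, e1⟩ := h1
  obtain ⟨t2, m2, e2⟩ := TV.neg H hww h2
  obtain ⟨t3, m3, e3⟩ := TV.neg H hvv h3
  refine ⟨t1 * t2 * t3, M.mul_mem (M.mul_mem m1 m2) m3, fun x => ?_⟩
  rw [LinearEquiv.mul_apply, LinearEquiv.mul_apply, e3, e2, e1, rho]
  simp only [H.add_left, H.add_right, H.smul_left, H.smul_right, hvv, hww, hwv, hvw, hσ]
  module

theorem rhoIn_of_tv2 {v w : V} (hvv : f v v = 0) (hww : f w w = 0) (hwv : f w v = 0) {a b : F} (ha : a + σ a = 0)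
    (h1 : TV f M (w + b • v) a) (h2 : TV f M w a) : RhoIn f M v ((a * σ b) • w) (a * (b * σ b)) := by
  have hvw : f v w = 0 := H.symm_zero hwv
  have hσ : σ a = -a := by linear_combination ha
  obtain ⟨t1, m1, e1⟩ := h1
  obtain ⟨t2, m2, e2⟩ := TV.neg H hww h2
  refine ⟨t1 * t2, M.mul_mem m1 m2, fun x => ?_⟩
  rw [LinearEquiv.mul_apply, e2, e1, rho]
  simp only [H.add_left, H.add_right, H.smul_left, H.smul_right, hvv, hww, hwv, hvw, hσ, map_mul, H.inv]
  module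

end basic

/-- hypotheses on the overgroup -/
structure Hyp (σ : F →+* F) (f : V → V → F) (F₀ : Subfield F) (V0 : Submodule F₀ V) (M : Subgroup (V ≃ₗ[F] V)) : Prop where
  le : M ≤ isom f
  mem : ∀ v ∈ V0, f v v = 0 → ∀ a ∈ F₀, a + σ a = 0 → TV f M v a

section

variable (S : UnF σ f F₀ V0) (H : Hyp σ f F₀ V0 M)
include S

theorem ext_V0 {g h : V →ₗ[F] V} (hgh : ∀ x ∈ V0, g x = h x) : g = h := by
  exact LinearMap.ext_on S.span (fun x hx => hgh x hx)

include H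

/-- rational elements extend -/
theorem transfer {t : V0 ≃ₗ[F₀] V0} (ht : t ∈ tgrp S.hs0 ⊤) : ∃ g ∈ M, ∀ x : V0, g (x : V) = (t x : V0) := by
  refine Subgroup.closure_induction (p := fun t _ => ∃ g ∈ M, ∀ x : V0, g (x : V) = (t x : V0)) ?_ ?_ ?_ ?_ ht
  · rintro t ⟨w, -, hw, a, ha, rfl⟩
    obtain ⟨g, hg, h1⟩ := H.mem w w.2 (congrArg Subtype.val hw) a a.2 (congrArg Subtype.val ha)
    refine ⟨g, hg, fun x => ?_⟩
    rw [h1, tv_apply]
    rfl
  · exact ⟨1, M.one_mem, fun x => rfl⟩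
  · rintro a b _ _ ⟨g, hg, h1⟩ ⟨h, hh, h2⟩
    exact ⟨g * h, M.mul_mem hg hh, fun x => by rw [LinearEquiv.mul_apply, h2, h1, LinearEquiv.mul_apply]⟩
  · rintro a _ ⟨g, hg, h1⟩
    refine ⟨g⁻¹, M.inv_mem hg, fun x => ?_⟩
    apply inv_apply_of
    rw [h1, ← LinearEquiv.mul_apply, mul_inv_cancel]; rfl

theorem move {x y : V} (hx : x ∈ V0) (hy : y ∈ V0) (hx0 : x ≠ 0) (hy0 : y ≠ 0) (hxy : f x x = f y y) :
    ∃ g ∈ M, g x = y := by
  have := S.fin
  have hd := S.dim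
  obtain ⟨t, ht, h1⟩ := exists_move S.hs0 S.nd0' (by rw [finrank_top]; omega) (x := ⟨x, hx⟩) (y := ⟨y, hy⟩) trivial trivial
    (by intro h; exact hx0 (congrArg Subtype.val h)) (by intro h; exact hy0 (congrArg Subtype.val h))
    (Subtype.ext hxy)
  obtain ⟨g, hg, h2⟩ := transfer S H ht
  exact ⟨g, hg, by rw [h2 ⟨x, hx⟩, h1]⟩

theorem rhoRat {e u : V} (he : e ∈ V0) (hu : u ∈ V0) (hee : f e e = 0) (hue : f u e = 0) {c : F} (hc : c ∈ F₀)
    (hcc : c + σ c + f u u = 0) : RhoIn f M e u c := by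
  have := S.fin
  have hd := S.dim
  obtain ⟨t, ht, h1⟩ := rhoIn_all S.hs0 (le_refl (tgrp S.hs0 ⊤)) S.nd0' (by rw [finrank_top]; omega)
    (e := ⟨e, he⟩) (u := ⟨u, hu⟩) trivial (Subtype.ext hee) trivial (Subtype.ext hue) ⟨c, hc⟩ (Subtype.ext hcc)
  obtain ⟨g, hg, h2⟩ := transfer S H ht
  refine ⟨g, hg, ?_⟩
  let L : V →ₗ[F] V :=
    { toFun := rho f e u c
      map_add' := by intro x y; simp only [rho, S.hs.add_left]; module
      map_smul' := by intro a x; simp only [rho, S.hs.smul_left, RingHom.id_apply]; module }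
  have h3 : (g : V →ₗ[F] V) = L := by
    apply ext_V0 S
    intro x hx
    change g ((⟨x, hx⟩ : V0) : V) = rho f e u c x
    rw [h2, h1]
    rfl
  intro x
  exact LinearMap.congr_fun h3 x

/-- an isotropic rational vector with given products -/
theorem exists_iso_sep {v w : V} (hv : v ∈ V0) (hw : w ∈ V0) (hww : f w w = 0) (hwv : f w v = 0)
    (h : w ∉ Submodule.span F₀ {v}) : ∃ u ∈ V0, f v u = 0 ∧ f w u = 1 ∧ f u u = 0 := by
  obtain ⟨u, hu, h1, h2⟩ := S.exists_sep (W := Submodule.span F₀ {v}) hw h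
  have h3 := h1 v (Submodule.mem_span_singleton_self v) hv
  obtain ⟨c, hc⟩ := S.hs0.exists_trace (⟨-f u u, F₀.neg_mem (S.form u hu u hu)⟩) (by
    apply Subtype.ext
    rw [s0_coe]
    change σ (-f u u) = _
    rw [map_neg, S.hs.self_fixed])
  have hc' : (c : F) + σ c = -f u u := congrArg Subtype.val hc
  refine ⟨u + (c : F) • w, V0.add_mem hu (S.smul_mem c.2 hw), ?_, ?_, ?_⟩
  · rw [S.hs.add_right, S.hs.smul_right, h3, S.hs.symm_zero hwv, mul_zero, add_zero]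
  · rw [S.hs.add_right, S.hs.smul_right, h2, hww, mul_zero, add_zero]
  · rw [S.hs.expand, h2, hww, mul_one, mul_zero, add_zero, hc']; ring

/-- the key closure property -/
theorem norm_closed {l m : F} (hl : l + σ l = 0) (hm : m + σ m = 0)
    (hL : ∀ v ∈ V0, f v v = 0 → TV f M v l) (hM : ∀ v ∈ V0, f v v = 0 → TV f M v m) {v : V} (hv : v ∈ V0)
    (hvv : f v v = 0) : TV f M v (m * (l * σ l)) := by
  have HH := S.hs
  by_cases hv0 : v = 0
  · rw [hv0]
    exact ⟨1, M.one_mem, fun x => by simp⟩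
  obtain ⟨W, hW, hW1, hW2⟩ := S.exists_isotropic 5 le_rfl
  have : Module.Finite F₀ W := Module.finite_of_finrank_pos (by omega)
  obtain ⟨w₀, hw₀, hw₀0⟩ : ∃ w₀ ∈ W, w₀ ≠ 0 := by
    apply Submodule.exists_mem_ne_zero_of_ne_bot
    rintro rfl
    rw [finrank_bot] at hW1
    omega
  obtain ⟨w₁, hw₁, n1⟩ : ∃ w₁ ∈ W, w₁ ∉ Submodule.span F₀ {w₀} := by
    have hnot : ¬ W ≤ Submodule.span F₀ {w₀} := by
      intro hle
      have := Submodule.finrank_mono hle
      rw [finrank_span_singleton hw₀0] at this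
      omega
    exact Set.not_subset.1 hnot
  have : Module.Finite F₀ (Submodule.span F₀ {w₀, w₁}) := Module.Finite.span_of_finite F₀ (Set.toFinite _)
  obtain ⟨w₂, hw₂, n2⟩ : ∃ w₂ ∈ W, w₂ ∉ Submodule.span F₀ {w₀, w₁} := by
    have hnot : ¬ W ≤ Submodule.span F₀ {w₀, w₁} := by
      intro hle
      have := Submodule.finrank_mono hle
      have h2 := S.finrank_span_two w₀ w₁
      omega
    exact Set.not_subset.1 hnot
  have hsub : Submodule.span F₀ {w₀} ≤ Submodule.span F₀ {w₀, w₁} := Submodule.span_mono (by simp)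
  have n3 : w₁ + w₂ ∉ Submodule.span F₀ {w₀} := by
    intro h
    apply n2
    have hw₁s : w₁ ∈ Submodule.span F₀ {w₀, w₁} := Submodule.subset_span (by simp)
    have := Submodule.sub_mem _ (hsub h) hw₁s
    rwa [add_sub_cancel_left] at this
  have n2' : w₂ ∉ Submodule.span F₀ {w₀} := fun h => n2 (hsub h)
  have hw₀w₀ := hW2 w₀ hw₀ w₀ hw₀
  have key : ∀ w ∈ W, w ∉ Submodule.span F₀ {w₀} → RhoIn f M w₀ ((m * -l) • w) (m * (l * σ l)) := by
    intro w hw hn
    have hww := hW2 w hw w hw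
    have hww₀ := hW2 w hw w₀ hw₀
    obtain ⟨u, hu, u1, u2, u3⟩ := exists_iso_sep S H (hW hw₀) (hW hw) hww hww₀ hn
    have huw₀ : f u w₀ = 0 := HH.symm_zero u1
    have huw₀' : f (u + w₀) (u + w₀) = 0 := by
      rw [HH.add_left, HH.add_right, HH.add_right, u3, huw₀, u1, hw₀w₀]; ring
    have h1 : RhoIn f M w₀ (l • u) 0 := rhoIn_of_three HH hw₀w₀ u3 huw₀ hl (hL _ (V0.add_mem hu (hW hw₀)) huw₀')
      (hL _ hu u3) (hL _ (hW hw₀) hw₀w₀)
    obtain ⟨g, hg, h2⟩ := h1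
    have h3 := TV.map HH H.le hg (hM w (hW hw) hww)
    have h4 : g w = w + (-σ l) • w₀ := by
      rw [h2, rho, hww₀, HH.smul_right, u2]
      module
    rw [h4] at h3
    have h5 := rhoIn_of_tv2 HH hw₀w₀ hww hww₀ hm h3 (hM w (hW hw) hww)
    have e1 : m * σ (-σ l) = m * -l := by rw [map_neg, HH.inv]
    have e2 : m * (-σ l * σ (-σ l)) = m * (l * σ l) := by rw [map_neg, HH.inv]; ring
    rwa [e1, e2] at h5
  have k1 := key w₁ hw₁ n1
  have k2 := key w₂ hw₂ n2'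
  have k3 := key (w₁ + w₂) (W.add_mem hw₁ hw₂) n3
  have o1 : f ((m * -l) • w₁) w₀ = 0 := by rw [HH.smul_left, hW2 w₁ hw₁ w₀ hw₀, mul_zero]
  have o2 : f ((m * -l) • w₂) w₀ = 0 := by rw [HH.smul_left, hW2 w₂ hw₂ w₀ hw₀, mul_zero]
  have k4 := rhoIn_comp HH hw₀w₀ o1 o2 k1 k2
  rw [← smul_add, HH.smul_left, HH.smul_right, hW2 w₂ hw₂ w₁ hw₁, mul_zero, mul_zero, sub_zero] at k4
  have k5 := tv_of_rhoIn2 HH hw₀w₀ (by rw [HH.smul_left, hW2 _ (W.add_mem hw₁ hw₂) w₀ hw₀, mul_zero]) k4 k3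
  rw [add_sub_cancel_right] at k5
  obtain ⟨g, hg, hgv⟩ := move S H (hW hw₀) hv hw₀0 hv0 (by rw [hw₀w₀, hvv])
  have := TV.map HH H.le hg k5
  rwa [hgv] at this

/-- **one nonrational multiple gives all multiples** -/
theorem all_mult (r : ℕ) (hr : r.Prime) (hcard : Nat.card F = Nat.card F₀ ^ r) {v : V} {l : F}
    (hv : v ∈ V0) (hv0 : v ≠ 0) (hvv : f v v = 0) (hT : TV f M v l) (hl : l + σ l = 0) (hl0 : l ∉ F₀) :
    ∀ w ∈ V0, f w w = 0 → ∀ a : F, a + σ a = 0 → TV f M w a := by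
  have : Fintype F := Fintype.ofFinite F
  rw [Nat.card_eq_fintype_card] at hcard
  have HH := S.hs
  obtain ⟨δ', hδ0', hδ'⟩ := S.hs0.exists_tr0
  set δ : F := (δ' : F) with hδdef
  have hδF : δ ∈ F₀ := δ'.2
  have hδ0 : δ ≠ 0 := fun h => hδ0' (Subtype.ext h)
  have hδ : δ + σ δ = 0 := congrArg Subtype.val hδ'
  have hσδ : σ δ = -δ := by linear_combination hδ
  have tr0 : ∀ s : F, σ s = s → δ * s + σ (δ * s) = 0 := by
    intro s hs
    rw [map_mul, hσδ, hs]; ring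
  -- the set of multiples
  let L : Set F := {s | σ s = s ∧ ∀ w ∈ V0, f w w = 0 → TV f M w (δ * s)}
  have hLadd : ∀ a ∈ L, ∀ b ∈ L, a + b ∈ L := fun a ha b hb => ⟨by rw [map_add, ha.1, hb.1], fun w hw hww => by
    rw [mul_add]; exact TV.add HH hww (ha.2 w hw hww) (hb.2 w hw hww)⟩
  have hLneg : ∀ a ∈ L, -a ∈ L := fun a ha => ⟨by rw [map_neg, ha.1], fun w hw hww => by
    rw [mul_neg]; exact TV.neg HH hww (ha.2 w hw hww)⟩
  have hLE : ∀ a ∈ L, ∀ e ∈ F₀, σ e = e → e * a ∈ L := by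
    intro a ha e he hee
    refine ⟨by rw [map_mul, ha.1, hee], fun w hw hww => ?_⟩
    obtain ⟨c, hc⟩ := S.hs0.norm ⟨e, he⟩ (Subtype.ext hee)
    have hc' : (c : F) * σ c = e := congrArg Subtype.val hc
    have h1 := ha.2 ((c : F) • w) (S.smul_mem c.2 hw) (by rw [HH.smul_left, HH.smul_right, hww]; ring)
    rw [TV.smul HH, hc'] at h1
    have e1 : δ * (e * a) = δ * a * e := by ring
    rwa [e1]
  have hL1 : (1 : F) ∈ L := ⟨map_one σ, fun w hw hww => H.mem w hw hww _ (by rw [mul_one]; exact hδF) (by rw [mul_one]; exact hδ)⟩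
  have hLE0 : ∀ e ∈ F₀, σ e = e → e ∈ L := fun e he hee => by
    have := hLE 1 hL1 e he hee
    rwa [mul_one] at this
  have hLsq : ∀ a ∈ L, ∀ b ∈ L, b * a ^ 2 ∈ L := by
    intro a ha b hb
    have h1 : (-δ ^ 2) * (b * a ^ 2) ∈ L := by
      refine ⟨by rw [map_mul, map_mul, map_neg, map_pow, map_pow, hσδ, ha.1, hb.1]; ring, fun w hw hww => ?_⟩
      have h2 := norm_closed S H (tr0 a ha.1) (tr0 b hb.1) ha.2 hb.2 hw hww
      have e1 : δ * b * (δ * a * σ (δ * a)) = δ * ((-δ ^ 2) * (b * a ^ 2)) := by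
        rw [map_mul, hσδ, ha.1]; ring
      rwa [e1] at h2
    have h3 := hLE _ h1 ((-δ ^ 2)⁻¹) (F₀.inv_mem (F₀.neg_mem (F₀.pow_mem hδF 2))) (by
      rw [map_inv₀, map_neg, map_pow, hσδ]; ring)
    rwa [inv_mul_cancel_left₀ (neg_ne_zero.mpr (pow_ne_zero 2 hδ0))] at h3
  -- the module `Λ`
  let Λ : Set F := {x | ∀ c ∈ F₀, c * x + σ (c * x) ∈ L}
  have hΛadd : ∀ a ∈ Λ, ∀ b ∈ Λ, a + b ∈ Λ := fun a ha b hb c hc => by
    have := hLadd _ (ha c hc) _ (hb c hc)
    have e1 : c * (a + b) + σ (c * (a + b)) = c * a + σ (c * a) + (c * b + σ (c * b)) := by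
      rw [mul_add, map_add]; ring
    rwa [e1]
  have hΛneg : ∀ a ∈ Λ, -a ∈ Λ := fun a ha c hc => by
    have := hLneg _ (ha c hc)
    have e1 : c * -a + σ (c * -a) = -(c * a + σ (c * a)) := by
      rw [mul_neg, map_neg]; ring
    rwa [e1]
  obtain ⟨k, hk⟩ := SubfRankTwo.exists_subfield {s : F | ∀ a ∈ Λ, s * a ∈ Λ}
    (fun a ha => by rw [one_mul]; exact ha)
    (fun s hs t ht a ha => by rw [add_mul]; exact hΛadd _ (hs a ha) _ (ht a ha))
    (fun s hs a ha => by rw [neg_mul]; exact hΛneg _ (hs a ha))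
    (fun s hs t ht a ha => by rw [mul_assoc]; exact hs _ (ht a ha))
  have hmem : ∀ s : F, s ∈ k ↔ ∀ a ∈ Λ, s * a ∈ Λ := by
    intro s
    have : s ∈ (k : Set F) ↔ s ∈ {s : F | ∀ a ∈ Λ, s * a ∈ Λ} := by rw [hk]
    exact this
  have hF₀k : F₀ ≤ k := by
    intro s hs
    rw [hmem]
    intro a ha c hc
    have := ha (c * s) (F₀.mul_mem hc hs)
    rwa [mul_assoc] at this
  have hsq : ∀ a ∈ L, a ^ 2 ∈ k := by
    intro a ha
    rw [hmem]
    intro b hb c hc
    have h1 := hLsq a ha _ (hb c hc)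
    have e1 : (c * b + σ (c * b)) * a ^ 2 = c * (a ^ 2 * b) + σ (c * (a ^ 2 * b)) := by
      rw [map_mul, map_mul, map_mul, map_pow, ha.1]; ring
    rwa [e1] at h1
  -- the nonrational element
  set l' := δ⁻¹ * l with hl'
  have hσl : σ l = -l := by linear_combination hl
  have hl'L : l' ∈ L := by
    refine ⟨by rw [hl', map_mul, map_inv₀, hσδ, hσl]; ring, fun w hw hww => ?_⟩
    rw [hl', mul_inv_cancel_left₀ hδ0]
    by_cases hw0 : w = 0
    · rw [hw0]; exact ⟨1, M.one_mem, fun x => by simp⟩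
    · obtain ⟨g, hg, rfl⟩ := move S H hv hw hv0 hw0 (by rw [hvv, hww])
      exact TV.map HH H.le hg hT
  have hl'0 : l' ∉ F₀ := by
    intro h
    apply hl0
    have := F₀.mul_mem hδF h
    rwa [hl', mul_inv_cancel_left₀ hδ0] at this
  have hl'k : l' ∈ k := by
    by_cases h2 : (2 : F) = 0
    · have : CharP F 2 := CharTwo.of_one_ne_zero_of_two_eq_zero one_ne_zero h2
      exact SubfRankTwo.mem_of_sq_mem k (hsq _ hl'L)
    · have h4 : (2 : F) ∈ k := by
        have : (2 : F) = ((2 : ℕ) : F) := by norm_num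
        rw [this]; exact natCast_mem k 2
      have e : l' = ((l' + 1) ^ 2 - l' ^ 2 - 1) / 2 := by
        field_simp; ring
      rw [e]
      exact k.div_mem (k.sub_mem (k.sub_mem (hsq _ (hLadd _ hl'L _ hL1)) (hsq _ hl'L)) k.one_mem) h4
  have htop := SubfRankTwo.eq_top_of_mem F₀ k r hr hcard hF₀k hl'k hl'0
  have h1Λ : (1 : F) ∈ Λ := by
    intro c hc
    rw [mul_one]
    exact hLE0 _ (F₀.add_mem hc (S.sig c hc)) (by rw [map_add, HH.inv]; ring)
  have hLall : ∀ s : F, σ s = s → s ∈ L := by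
    intro s hs
    have h1 : s ∈ k := by rw [htop]; trivial
    have h2 := (hmem s).mp h1 1 h1Λ
    rw [mul_one] at h2
    obtain ⟨ω, hω⟩ := S.hs0.exists_trace 1 (map_one _)
    have hω' : (ω : F) + σ ω = 1 := congrArg Subtype.val hω
    have h3 := h2 ω ω.2
    rw [map_mul, hs, ← add_mul, hω', one_mul] at h3
    exact h3
  intro w hw hww a ha
  have hσa : σ a = -a := by linear_combination ha
  have h1 := (hLall (δ⁻¹ * a) (by rw [map_mul, map_inv₀, hσδ, hσa]; ring)).2 w hw hww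
  rwa [mul_inv_cancel_left₀ hδ0] at h1

end

end Cfsg.Agent.Lib.SubfUnV
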