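import Cfsg.Agent.Lib.CauchyBinet
import Cfsg.Agent.Lib.SubsecCount
import Cfsg.Agent.Lib.BlockLattice
import Cfsg.Agent.Lib.BlockSmall
import Cfsg.Agent.Lib.Subsec4

/-!
# `k(B) ≤ |⟨z⟩| det C` for major subsections (helper75)

`(z, b)` is a major subsection of `B`, `C` the Cartan matrix of the block dominated by `b` modulo `⟨z⟩`.
-/

set_option autoImplicit false
set_option linter.all false

namespace Cfsg.Agent.Lib.SubsecDet

open Cfsg Cfsg.Agent.Lib.BlockRing Cfsg.Agent.Lib.BlockGA Cfsg.Agent.Lib.BlockIdem Cfsg.Agent.Lib.BlockPair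
  Cfsg.Agent.Lib.BlockOsima Cfsg.Agent.Lib.BlockCount Cfsg.Agent.Lib.Subsec Cfsg.Agent.Lib.CharBasic
  Cfsg.Agent.Lib.BlockLattice
open Cfsg.Agent.Lib.CycAvg (Z av avn)
open scoped ComplexConjugate
open Matrix (det)

universe u

/-! ### averages of determinants -/

section av

variable {κ : Type*} [Fintype κ] {l : ℕ} {N : ℕ}

theorem det_mem {A : Matrix (Fin l) (Fin l) ℂ} (h : ∀ i j, A i j ∈ Z N) : det A ∈ Z N := by
  rw [Matrix.det_apply']
  exact (Z N).sum_mem fun σ _ => (Z N).mul_mem (intCast_mem _ _) ((Z N).prod_mem fun i _ => h _ _)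

theorem av_bound [NeZero N] (D : Matrix κ (Fin l) ℤ) (hdet : det (D.transpose * D) ≠ 0)
    (hco : ∀ s : κ, ∀ y : Fin l → ℂ, (∀ t, t ≠ s → ∑ i, (D t i : ℂ) * y i = 0) → y = 0)
    {x : Fin l → ℂ} (hx : x ≠ 0) (hxN : ∀ i, x i ∈ Z N) :
    ∃ r : ℝ, av N (det (Matrix.of fun i j => (((D.transpose * D) i j : ℤ) : ℂ) + conj (x i) * x j) -
      ((det (D.transpose * D) : ℤ) : ℂ)) = (r : ℂ) ∧ (l : ℝ) ≤ r := by
  classical
  set E : Option κ → Fin l → ℂ := fun o => o.elim x (fun s i => (D s i : ℂ)) with hE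
  have h1 := CauchyBinet.adj_sum D x (E := E) rfl (fun s i => rfl)
  set w : (Fin l → Option κ) → ℂ := fun f => det (Matrix.of fun i => E (f i)) with hw
  have hwN : ∀ f, w f ∈ Z N := by
    intro f
    apply det_mem
    intro i j
    rw [Matrix.of_apply]
    rcases h : f i with _ | s
    · exact hxN j
    · exact intCast_mem _ _
  -- a nonzero minor of `D`
  obtain ⟨f0, hf0⟩ : ∃ f0 : Fin l → κ, det (Matrix.of fun i => E (some (f0 i))) ≠ 0 := by
    by_contra hcon
    push Not at hcon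
    have h2 := CauchyBinet.cb D.transpose D
    have h3 : ∑ f : Fin l → κ, det (D.transpose.submatrix id f) * det (D.submatrix f id) = 0 := by
      refine Finset.sum_eq_zero fun f _ => ?_
      have h4 := hcon f
      have h5 : det (Matrix.of fun i => E (some (f i))) = ((det (D.submatrix f id) : ℤ) : ℂ) := by
        rw [show ((det (D.submatrix f id) : ℤ) : ℂ) = Int.castRingHom ℂ (det (D.submatrix f id)) from rfl, RingHom.map_det]
        rfl
      rw [h5] at h4
      rw [show det (D.submatrix f id) = 0 by exact_mod_cast h4, mul_zero]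
    rw [h3] at h2
    rcases mul_eq_zero.1 h2 with h4 | h4
    · exact Nat.factorial_ne_zero l (by exact_mod_cast h4)
    · exact hdet h4
  have hcount := CauchyBinet.count (E := E) (K := ℂ) hx hf0 (fun s y hy => hco s y hy)
  have h2 : (l.factorial : ℂ) * av N (det (Matrix.of fun i j => (((D.transpose * D) i j : ℤ) : ℂ) + conj (x i) * x j) -
      ((det (D.transpose * D) : ℤ) : ℂ)) =
      ((∑ f : {f : Fin l → Option κ // ∃ i, f i = none}, avn N (w f.1) : ℝ) : ℂ) := by
    rw [← CycAvg.av_nat_mul, h1, CycAvg.av_sum]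
    push_cast
    refine Finset.sum_congr rfl fun f _ => ?_
    rw [mul_comm]
    exact CycAvg.av_mul_conj (hwN f.1)
  have h3 : ((l.factorial * l : ℕ) : ℝ) ≤ ∑ f : {f : Fin l → Option κ // ∃ i, f i = none}, avn N (w f.1) := by
    have h4 : ∑ f : {f : Fin l → Option κ // ∃ i, f i = none}, (if w f.1 ≠ 0 then (1 : ℝ) else 0) ≤
        ∑ f : {f : Fin l → Option κ // ∃ i, f i = none}, avn N (w f.1) := by
      refine Finset.sum_le_sum fun f _ => ?_
      split_ifs with h
      · exact CycAvg.one_le_avn (hwN _) h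
      · exact CycAvg.avn_nonneg _
    refine le_trans ?_ h4
    rw [Finset.sum_boole]
    have h5 : Nat.card {f : Fin l → Option κ // (∃ i, f i = none) ∧ det (Matrix.of fun i => E (f i)) ≠ 0} =
        (Finset.univ.filter fun f : {f : Fin l → Option κ // ∃ i, f i = none} => w f.1 ≠ 0).card := by
      rw [← Fintype.card_subtype, ← Nat.card_eq_fintype_card]
      refine Nat.card_congr ⟨fun f => ⟨⟨f.1, f.2.1⟩, f.2.2⟩, fun f => ⟨f.1.1, f.1.2, f.2⟩, fun f => rfl, fun f => rfl⟩
    rw [← h5]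
    exact_mod_cast hcount
  set S : ℝ := ∑ f : {f : Fin l → Option κ // ∃ i, f i = none}, avn N (w f.1) with hS
  have hl : (0 : ℝ) < (l.factorial : ℝ) := by exact_mod_cast Nat.factorial_pos l
  refine ⟨S / l.factorial, ?_, ?_⟩
  · rw [Complex.ofReal_div, Complex.ofReal_natCast, eq_div_iff (by exact_mod_cast Nat.factorial_ne_zero l), mul_comm]
    exact h2
  · rw [le_div_iff₀ hl, mul_comm]
    exact_mod_cast h3

end av

/-! ### integral matrices of rank one modulo `p` -/

section intmat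

variable {l : ℕ}

theorem dvd_det_smul {p : ℤ} {A : Matrix (Fin l) (Fin l) ℤ} (S : Finset (Fin l)) (h : ∀ i ∈ S, ∀ k, p ∣ A i k) :
    p ^ S.card ∣ det A := by
  classical
  choose! E hE using h
  have h1 : A = Matrix.of fun i k => (if i ∈ S then p else 1) * (if i ∈ S then E i k else A i k) := by
    ext i k
    rw [Matrix.of_apply]
    split_ifs with hi
    · exact hE i hi k
    · rw [one_mul]
  have h2 : det A = (∏ i, if i ∈ S then p else 1) * det (Matrix.of fun i k => if i ∈ S then E i k else A i k) := by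
    conv_lhs => rw [h1]
    exact Matrix.det_mul_column (fun i => if i ∈ S then p else 1) (Matrix.of fun i k => if i ∈ S then E i k else A i k)
  rw [h2]
  apply Dvd.dvd.mul_right
  rw [Finset.prod_ite, Finset.prod_const, Finset.prod_const_one, mul_one, Finset.filter_mem_eq_inter, Finset.univ_inter]

theorem dvd_det_of_prop {p : ℕ} (hp : p.Prime) {A : Matrix (Fin l) (Fin l) ℤ} (h : Fin l → ℤ)
    (h1 : ∀ i j k, (p : ℤ) ∣ h j * A i k - h i * A j k) (h2 : ∀ i, (p : ℤ) ∣ h i → ∀ k, (p : ℤ) ∣ A i k) :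
    (p : ℤ) ^ (l - 1) ∣ det A := by
  classical
  by_cases hall : ∀ j, (p : ℤ) ∣ h j
  · have h3 := dvd_det_smul (p := (p : ℤ)) (A := A) Finset.univ (fun i _ k => h2 i (hall i) k)
    rw [Finset.card_univ, Fintype.card_fin] at h3
    exact (pow_dvd_pow _ (Nat.sub_le l 1)).trans h3
  · push Not at hall
    obtain ⟨j, hj⟩ := hall
    have hcop : IsCoprime (h j) (p : ℤ) := by
      rw [isCoprime_comm, Prime.coprime_iff_not_dvd (Nat.prime_iff_prime_int.1 hp)]
      exact hj
    obtain ⟨u, v, huv⟩ := hcop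
    set c : Fin l → ℤ := fun i => if i = j then 0 else u * h i with hc
    set Bm : Matrix (Fin l) (Fin l) ℤ := Matrix.of fun i k => A i k - c i * A j k with hBm
    have hBj : ∀ k, Bm j k = A j k := fun k => by simp [hBm, hc]
    have h3 : det A = det Bm := by
      apply Matrix.det_eq_of_forall_row_eq_smul_add_const c j (by simp [hc])
      intro i k
      rw [hBj, hBm, Matrix.of_apply]
      ring
    rw [h3]
    have h4 := dvd_det_smul (p := (p : ℤ)) (A := Bm) (Finset.univ.erase j) (fun i hi k => by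
      have hij := Finset.ne_of_mem_erase hi
      rw [hBm, Matrix.of_apply, hc]
      simp only [if_neg hij]
      have h5 : A i k - u * h i * A j k = u * (h j * A i k - h i * A j k) + p * (v * A i k) := by
        linear_combination (-(A i k)) * huv
      rw [h5]
      exact dvd_add (Dvd.dvd.mul_left (h1 i j k) u) (dvd_mul_right _ _))
    rwa [Finset.card_erase_of_mem (Finset.mem_univ j), Finset.card_univ, Fintype.card_fin] at h4

end intmat

/-! ### the characters of `b` with `z` in the kernel -/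

section kappa

variable {G : Type u} [Group G] [Finite G] {p : ℕ} {M : Ideal AlgInt} {z : G} {a : ℕ}
  {b : Set (IrrCharacter (Cz z))}

theorem zz_pow (z : G) (n : ℕ) : ((zz z ^ n : Cz z) : G) = z ^ n := rfl

theorem dvd_orderOf_mul {H : Type*} [Group H] (hp : p.Prime) {q y : H} (hc : Commute q y) {k : ℕ} (hq : q ^ p ^ k = 1)
    (hq1 : q ≠ 1) (hy : ¬ p ∣ orderOf y) : p ∣ orderOf (q * y) := by
  by_contra hcon
  apply hq1
  set n := orderOf (q * y)
  set m := orderOf y
  have h1 : q ^ n * y ^ n = 1 := by rw [← hc.mul_pow]; exact pow_orderOf_eq_one _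
  have h2 : q ^ (n * m) = 1 := by
    have h3 : (q ^ n * y ^ n) ^ m = 1 := by rw [h1, one_pow]
    rw [(hc.pow_pow n n).mul_pow, ← pow_mul, ← pow_mul, mul_comm n m, pow_mul y m n, pow_orderOf_eq_one, one_pow,
      mul_one, mul_comm m n] at h3
    exact h3
  have h4 : orderOf q ∣ n * m := orderOf_dvd_of_pow_eq_one h2
  have h5 : orderOf q ∣ p ^ k := orderOf_dvd_of_pow_eq_one hq
  have h6 : Nat.Coprime (p ^ k) (n * m) := by
    apply Nat.Coprime.pow_left
    rw [hp.coprime_iff_not_dvd, hp.dvd_mul]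
    push Not
    exact ⟨hcon, hy⟩
  exact orderOf_eq_one_iff.1 (Nat.eq_one_of_dvd_coprimes h6 h5 h4)

theorem zpow_mul_reg (hp : p.Prime) (hz : orderOf z = p ^ a) {j : ℕ} (hj : 0 < j) (hja : j < p ^ a) {y : Cz z}
    (hy : ¬ p ∣ orderOf y) : p ∣ orderOf (zz z ^ j * y) := by
  have hc : Commute (zz z) y := Subtype.ext (mem_Cz.1 y.2).eq
  refine dvd_orderOf_mul hp (hc.pow_left j) (k := a) ?_ ?_ hy
  · apply Subtype.ext
    show ((zz z ^ j) ^ p ^ a : G) = 1
    rw [← pow_mul, mul_comm, pow_mul]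
    show (z ^ p ^ a) ^ j = 1
    rw [← hz, pow_orderOf_eq_one, one_pow]
  · intro h
    have h1 : z ^ j = 1 := congrArg Subtype.val h
    have h2 := orderOf_dvd_of_pow_eq_one h1
    rw [hz] at h2
    exact absurd (Nat.le_of_dvd hj h2) (not_le.2 hja)

theorem eps_pow_mul (z : G) (ξ : IrrCharacter (Cz z)) (c : Cz z) (j : ℕ) :
    (ξ : Cz z → ℂ) (zz z ^ j * c) = eps z (ξ : Cz z → ℂ) ^ j * (ξ : Cz z → ℂ) c := by
  induction j with
  | zero => simp
  | succ j ih => rw [pow_succ', mul_assoc, eps_mul, ih, pow_succ']; ring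

theorem sum_eps {x : ℂ} {n : ℕ} (hx : x ^ n = 1) : ∑ j ∈ Finset.range n, x ^ j = if x = 1 then (n : ℂ) else 0 := by
  split_ifs with h
  · subst h; simp
  · rw [geom_sum_eq h, hx, sub_self, zero_div]

/-- the members of `b` with `z` in the kernel -/
abbrev Kap (z : G) (b : Set (IrrCharacter (Cz z))) : Type u := {ξ : IrrCharacter (Cz z) // ξ ∈ b ∧ eps z (ξ : Cz z → ℂ) = 1}

theorem sum_ker (hM : IsPModular p M) (hz : orderOf z = p ^ a) (hb : IsPBlock M b) [Fintype (Cz z)] [Fintype (Kap z b)]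
    {f : Cz z → ℂ} (hf : f ∈ rsp p b) (y : Cz z) :
    ∑ j ∈ Finset.range (p ^ a), f (zz z ^ j * y) =
      (p ^ a : ℂ) * ∑ ξ : Kap z b, classInner f (ξ.1 : Cz z → ℂ) * (ξ.1 : Cz z → ℂ) y := by
  classical
  have hp := hM.1
  have h2 : ∀ j, f (zz z ^ j * y) = ∑ ξ ∈ fs b, classInner f (ξ : Cz z → ℂ) *
      (eps z (ξ : Cz z → ℂ) ^ j * (ξ : Cz z → ℂ) y) := by
    intro j
    conv_lhs => rw [rsp_expand hM hb hf]
    rw [Finset.sum_apply]
    refine Finset.sum_congr rfl fun ξ _ => ?_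
    rw [Pi.smul_apply, smul_eq_mul, eps_pow_mul]
  rw [Finset.sum_congr rfl fun j _ => h2 j, Finset.sum_comm]
  have hzN : z ^ p ^ a = 1 := by rw [← hz]; exact pow_orderOf_eq_one z
  have h3 : ∀ ξ ∈ fs b, ∑ j ∈ Finset.range (p ^ a), classInner f (ξ : Cz z → ℂ) *
      (eps z (ξ : Cz z → ℂ) ^ j * (ξ : Cz z → ℂ) y) =
      if eps z (ξ : Cz z → ℂ) = 1 then (p ^ a : ℂ) * (classInner f (ξ : Cz z → ℂ) * (ξ : Cz z → ℂ) y) else 0 := by
    intro ξ _
    rw [← Finset.mul_sum, ← Finset.sum_mul, sum_eps (eps_pow z hzN ξ)]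
    split_ifs
    · push_cast; ring
    · ring
  rw [Finset.sum_congr rfl h3, ← Finset.sum_filter, Finset.mul_sum]
  refine Finset.sum_bij' (fun ξ hξ => (⟨ξ, by
    rw [Finset.mem_filter] at hξ; exact ⟨mem_fs.1 hξ.1, hξ.2⟩⟩ : Kap z b)) (fun ξ _ => ξ.1) ?_ ?_ ?_ ?_ ?_
  · intro ξ hξ; exact Finset.mem_univ _
  · intro ξ _; rw [Finset.mem_filter]; exact ⟨mem_fs.2 ξ.2.1, ξ.2.2⟩
  · intro ξ _; rfl
  · intro ξ _; rfl
  · intro ξ _; rfl

theorem expand_ker (hM : IsPModular p M) (hz : orderOf z = p ^ a) (hb : IsPBlock M b) [Fintype (Cz z)] [Fintype (Kap z b)]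
    {f : Cz z → ℂ} (hf : f ∈ rsp p b) :
    f = (p ^ a : ℂ) • ∑ ξ : Kap z b, classInner f (ξ.1 : Cz z → ℂ) • preg p (ξ.1 : Cz z → ℂ) := by
  classical
  have hp := hM.1
  funext y
  rw [Pi.smul_apply, Finset.sum_apply, smul_eq_mul]
  by_cases hy : p ∣ orderOf y
  · rw [rsp_reg hf hy, Finset.sum_eq_zero, mul_zero]
    intro ξ _
    rw [Pi.smul_apply, preg, if_pos hy, smul_zero]
  · have h1 : ∑ j ∈ Finset.range (p ^ a), f (zz z ^ j * y) = f y := by
      rw [Finset.sum_eq_single 0]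
      · simp
      · intro j hj hj0
        exact rsp_reg hf (zpow_mul_reg hp hz (Nat.pos_of_ne_zero hj0) (Finset.mem_range.1 hj) hy)
      · intro h
        exact absurd (Finset.mem_range.2 (pow_pos hp.pos a)) h
    rw [← h1, sum_ker hM hz hb hf]
    congr 1
    refine Finset.sum_congr rfl fun ξ _ => ?_
    rw [Pi.smul_apply, smul_eq_mul, preg, if_neg hy]

end kappa

/-! ### matrices -/

section mat

variable {G : Type u} [Group G] [Finite G] {p : ℕ} {M : Ideal AlgInt} {z : G} {a : ℕ}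
  {b : Set (IrrCharacter (Cz z))} {B : Set (IrrCharacter G)}

/-- a `ℤ`-basis of the lattice -/
structure Bas (p : ℕ) (b : Set (IrrCharacter (Cz z))) (l : ℕ) (φ : Fin l → (Cz z → ℂ)) : Prop where
  mem : ∀ i, φ i ∈ Lat p b
  span : ∀ f ∈ Lat p b, ∃ c : Fin l → ℤ, f = ∑ i, (c i : ℂ) • φ i
  li : LinearIndependent ℂ φ

/-- decomposition matrix of the characters of `b` with `z` in the kernel -/
def IsDec (p : ℕ) {l : ℕ} (φ : Fin l → (Cz z → ℂ)) (D : Matrix (Kap z b) (Fin l) ℤ) : Prop :=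
  ∀ ξ : Kap z b, preg p (ξ.1 : Cz z → ℂ) = ∑ i, (D ξ i : ℂ) • φ i

theorem Bas.exists_dec {l : ℕ} {φ : Fin l → (Cz z → ℂ)} (h : Bas p b l φ) : ∃ D, IsDec (b := b) p φ D := by
  choose c hc using fun ξ : Kap z b => h.span _ (preg_mem ξ.2.1)
  exact ⟨c, hc⟩

/-- Gram matrix -/
noncomputable def gram {l : ℕ} (φ : Fin l → (Cz z → ℂ)) : Matrix (Fin l) (Fin l) ℂ :=
  Matrix.of fun i j => @classInner _ _ (Fintype.ofFinite _) (φ i) (φ j)

theorem gram_apply {l : ℕ} (φ : Fin l → (Cz z → ℂ)) [Fintype (Cz z)] (i j : Fin l) :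
    gram φ i j = classInner (φ i) (φ j) := by
  unfold gram
  rw [Matrix.of_apply]
  congr!

theorem gram_mul (hM : IsPModular p M) (hz : orderOf z = p ^ a) (hb : IsPBlock M b) {l : ℕ} {φ : Fin l → (Cz z → ℂ)}
    (h : Bas p b l φ) {D : Matrix (Kap z b) (Fin l) ℤ} (hD : IsDec p φ D) [Fintype (Kap z b)] :
    ((p ^ a : ℂ) • gram φ) * (D.transpose * D).map (Int.cast : ℤ → ℂ) = 1 := by
  classical
  letI := Fintype.ofFinite (Cz z)
  ext j i
  have h1 := expand_ker hM hz hb (lat_rsp (h.mem j))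
  have hin : ∀ ξ : Kap z b, classInner (φ j) (ξ.1 : Cz z → ℂ) = ∑ k, (D ξ k : ℂ) * gram φ j k := by
    intro ξ
    rw [← inner_preg_right (lat_rsp (h.mem j)), hD ξ]
    rw [IndFun.classInner_sum_right]
    refine Finset.sum_congr rfl fun k _ => ?_
    rw [IndFun.classInner_smul_right, gram_apply]
    simp
  have h2 : φ j = ∑ i, ((p ^ a : ℂ) * ∑ ξ : Kap z b, classInner (φ j) (ξ.1 : Cz z → ℂ) * (D ξ i : ℂ)) • φ i := by
    conv_lhs => rw [h1]
    rw [Finset.smul_sum]
    have h3 : ∀ ξ : Kap z b, (p ^ a : ℂ) • classInner (φ j) (ξ.1 : Cz z → ℂ) • preg p (ξ.1 : Cz z → ℂ) =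
        ∑ i, ((p ^ a : ℂ) * (classInner (φ j) (ξ.1 : Cz z → ℂ) * (D ξ i : ℂ))) • φ i := by
      intro ξ
      rw [hD ξ, Finset.smul_sum, Finset.smul_sum]
      refine Finset.sum_congr rfl fun i _ => ?_
      rw [smul_smul, smul_smul, mul_assoc]
    rw [Finset.sum_congr rfl fun ξ _ => h3 ξ, Finset.sum_comm]
    refine Finset.sum_congr rfl fun i _ => ?_
    rw [← Finset.sum_smul, Finset.mul_sum]
  have h3 : ∑ i, (((p ^ a : ℂ) * ∑ ξ : Kap z b, classInner (φ j) (ξ.1 : Cz z → ℂ) * (D ξ i : ℂ)) -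
      (if i = j then 1 else 0)) • φ i = 0 := by
    simp only [sub_smul, Finset.sum_sub_distrib, ← h2, ite_smul, one_smul, zero_smul, Finset.sum_ite_eq',
      Finset.mem_univ, if_true, sub_self]
  have h4 := (Fintype.linearIndependent_iff.1 h.li) _ h3 i
  rw [sub_eq_zero] at h4
  rw [Matrix.one_apply, show (if j = i then (1 : ℂ) else 0) = if i = j then 1 else 0 by simp only [eq_comm], ← h4,
    Matrix.mul_apply, Finset.mul_sum]
  simp only [hin, Matrix.smul_apply, Matrix.map_apply, Matrix.mul_apply, Matrix.transpose_apply, smul_eq_mul,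
    Finset.sum_mul, Finset.mul_sum, Int.cast_sum, Int.cast_mul]
  rw [Finset.sum_comm]
  refine Finset.sum_congr rfl fun ξ _ => Finset.sum_congr rfl fun k _ => ?_
  ring

theorem det_dec_ne_zero (hM : IsPModular p M) (hz : orderOf z = p ^ a) (hb : IsPBlock M b) {l : ℕ} {φ : Fin l → (Cz z → ℂ)}
    (h : Bas p b l φ) {D : Matrix (Kap z b) (Fin l) ℤ} (hD : IsDec p φ D) [Fintype (Kap z b)] :
    det (D.transpose * D) ≠ 0 := by
  intro h0
  have h1 := congrArg det (gram_mul hM hz hb h hD)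
  rw [Matrix.det_mul, Matrix.det_one] at h1
  have h2 : det ((D.transpose * D).map (Int.cast : ℤ → ℂ)) = ((det (D.transpose * D) : ℤ) : ℂ) := by
    rw [show ((det (D.transpose * D) : ℤ) : ℂ) = Int.castRingHom ℂ (det (D.transpose * D)) from rfl, RingHom.map_det]
    rfl
  rw [h2, h0, Int.cast_zero, mul_zero] at h1
  exact zero_ne_one h1

theorem D_coords {N : ℕ} (hN : z ^ N = 1) {l : ℕ} {φ : Fin l → (Cz z → ℂ)} (h : Bas p b l φ) (χ : IrrCharacter G) :
    ∃ x : Fin l → ℂ, (∀ i, x i ∈ Z N) ∧ BlockCount.D p z b (χ : G → ℂ) = ∑ i, x i • φ i := by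
  choose! c hc using fun (ξ : IrrCharacter (Cz z)) (hξ : ξ ∈ fs b) => h.span _ (preg_mem (p := p) (mem_fs.1 hξ))
  refine ⟨fun i => ∑ ξ ∈ fs b, coef z (χ : G → ℂ) (ξ : Cz z → ℂ) * (c ξ i : ℂ),
    fun i => (Z N).sum_mem fun ξ _ => (Z N).mul_mem (coef_mem hN χ ξ) (intCast_mem _ _), ?_⟩
  rw [D_eq_sum]
  have h1 : ∀ ξ ∈ fs b, coef z (χ : G → ℂ) (ξ : Cz z → ℂ) • preg p (ξ : Cz z → ℂ) =
      ∑ i, (coef z (χ : G → ℂ) (ξ : Cz z → ℂ) * (c ξ i : ℂ)) • φ i := by
    intro ξ hξ
    rw [hc ξ hξ, Finset.smul_sum]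
    exact Finset.sum_congr rfl fun i _ => smul_smul _ _ _
  rw [Finset.sum_congr rfl h1, Finset.sum_comm]
  exact Finset.sum_congr rfl fun i _ => (Finset.sum_smul).symm

theorem det_add_eq (hM : IsPModular p M) (hz : orderOf z = p ^ a) (hb : IsPBlock M b) {l : ℕ} {φ : Fin l → (Cz z → ℂ)}
    (h : Bas p b l φ) {D : Matrix (Kap z b) (Fin l) ℤ} (hD : IsDec p φ D) [Fintype (Kap z b)] [Fintype (Cz z)]
    (x : Fin l → ℂ) :
    det (Matrix.of fun i j => (((D.transpose * D) i j : ℤ) : ℂ) + conj (x i) * x j) - ((det (D.transpose * D) : ℤ) : ℂ) =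
      ((det (D.transpose * D) : ℤ) : ℂ) * (p : ℂ) ^ a * classInner (∑ i, x i • φ i) (∑ i, x i • φ i) := by
  classical
  set C : Matrix (Fin l) (Fin l) ℂ := (D.transpose * D).map (Int.cast : ℤ → ℂ) with hC
  have h1 := gram_mul hM hz hb h hD
  rw [← hC] at h1
  have h2 : C * ((p ^ a : ℂ) • gram φ) = 1 := mul_eq_one_comm.1 h1
  have hdC : det C = ((det (D.transpose * D) : ℤ) : ℂ) := by
    rw [show ((det (D.transpose * D) : ℤ) : ℂ) = Int.castRingHom ℂ (det (D.transpose * D)) from rfl, RingHom.map_det]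
    rfl
  have h3 : (Matrix.of fun i j => (((D.transpose * D) i j : ℤ) : ℂ) + conj (x i) * x j) =
      C * (1 + Matrix.replicateCol (Fin 1) (((p ^ a : ℂ) • gram φ).mulVec fun i => conj (x i)) * Matrix.replicateRow (Fin 1) x) := by
    rw [Matrix.mul_add, Matrix.mul_one, ← Matrix.mul_assoc]
    have h4 : C * Matrix.replicateCol (Fin 1) (((p ^ a : ℂ) • gram φ).mulVec fun i => conj (x i)) =
        Matrix.replicateCol (Fin 1) fun i => conj (x i) := by
      ext i j
      have h5 : (C * Matrix.replicateCol (Fin 1) (((p ^ a : ℂ) • gram φ).mulVec fun i => conj (x i))) i j =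
          (C.mulVec (((p ^ a : ℂ) • gram φ).mulVec fun i => conj (x i))) i := rfl
      rw [h5, Matrix.mulVec_mulVec, h2, Matrix.one_mulVec]
      rfl
    rw [h4]
    ext i j
    rw [Matrix.of_apply, Matrix.add_apply, hC, Matrix.map_apply]
    congr 1
    rw [Matrix.mul_apply, Fin.sum_univ_one]
    rfl
  have h7 := Matrix.det_one_add_replicateCol_mul_replicateRow (ι := Fin 1)
    (((p ^ a : ℂ) • gram φ).mulVec fun i => conj (x i)) x
  rw [h3, Matrix.det_mul]
  erw [h7]
  rw [hdC, mul_add, mul_one, add_sub_cancel_left, mul_assoc]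
  congr 1
  rw [CharBasic.classInner_sum_left]
  have h6 : ∀ i, classInner (x i • φ i) (∑ j, x j • φ j) = x i * ∑ j, conj (x j) * gram φ i j := by
    intro i
    rw [CharBasic.classInner_smul_left, CharBasic.classInner_sum_right]
    congr 1
    refine Finset.sum_congr rfl fun j _ => ?_
    rw [CharBasic.classInner_smul_right, gram_apply]
  rw [Finset.sum_congr rfl fun i _ => h6 i, dotProduct, Finset.mul_sum]
  refine Finset.sum_congr rfl fun i _ => ?_
  rw [Matrix.mulVec, dotProduct, Finset.mul_sum, Finset.mul_sum, Finset.mul_sum]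
  refine Finset.sum_congr rfl fun j _ => ?_
  rw [Matrix.smul_apply, smul_eq_mul]
  ring

/-- no character of `b` with `z` in the kernel has "defect zero" modulo `z`: then the decomposition matrix has no coloop -/
theorem no_coloop (hM : IsPModular p M) (hz : orderOf z = p ^ a) (hb : IsPBlock M b) {l : ℕ} {φ : Fin l → (Cz z → ℂ)}
    (h : Bas p b l φ) {D : Matrix (Kap z b) (Fin l) ℤ} (hD : IsDec p φ D) [Fintype (Kap z b)]
    (hs : ∀ ξ : Kap z b, ∃ g : Cz z, (ξ.1 : Cz z → ℂ) g ≠ 0 ∧ ∀ j : ℕ, p ∣ orderOf (zz z ^ j * g)) :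
    ∀ s : Kap z b, ∀ y : Fin l → ℂ, (∀ t, t ≠ s → ∑ i, (D t i : ℂ) * y i = 0) → y = 0 := by
  classical
  letI := Fintype.ofFinite (Cz z)
  have hp := hM.1
  intro s y hy
  by_contra hy0
  have h1 := gram_mul hM hz hb h hD
  set C : Matrix (Fin l) (Fin l) ℂ := (D.transpose * D).map (Int.cast : ℤ → ℂ) with hC
  have h2 : C * ((p ^ a : ℂ) • gram φ) = 1 := mul_eq_one_comm.1 h1
  set c : Fin l → ℂ := (p ^ a : ℂ) • Matrix.vecMul y C with hc
  have hcy : Matrix.vecMul c (gram φ) = y := by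
    rw [hc, Matrix.smul_vecMul, Matrix.vecMul_vecMul, ← Matrix.vecMul_smul]
    rw [Matrix.mul_smul] at h2
    rw [h2, Matrix.vecMul_one]
  have hc0 : c ≠ 0 := by
    intro h0
    apply hy0
    rw [← hcy, h0, Matrix.zero_vecMul]
  set f : Cz z → ℂ := ∑ k, c k • φ k with hf
  have hfr : f ∈ rsp p b := Submodule.sum_mem _ fun k _ => Submodule.smul_mem _ _ (lat_rsp (h.mem k))
  have hf0 : f ≠ 0 := by
    intro h0
    apply hc0
    funext k
    exact (Fintype.linearIndependent_iff.1 h.li) c h0 k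
  have hin : ∀ ξ : Kap z b, classInner f (ξ.1 : Cz z → ℂ) = ∑ i, (D ξ i : ℂ) * y i := by
    intro ξ
    rw [← inner_preg_right hfr, hD ξ, CharBasic.classInner_sum_right]
    refine Finset.sum_congr rfl fun i _ => ?_
    rw [CharBasic.classInner_smul_right, ← hcy]
    have h3 : classInner f (φ i) = Matrix.vecMul c (gram φ) i := by
      rw [hf, CharBasic.classInner_sum_left, Matrix.vecMul, dotProduct]
      refine Finset.sum_congr rfl fun k _ => ?_
      rw [CharBasic.classInner_smul_left, gram_apply]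
    rw [h3]
    simp
  have hfs : f = (p ^ a : ℂ) • (classInner f (s.1 : Cz z → ℂ) • preg p (s.1 : Cz z → ℂ)) := by
    conv_lhs => rw [expand_ker hM hz hb hfr]
    congr 1
    refine Finset.sum_eq_single s ?_ ?_
    · intro t _ ht
      rw [hin t, hy t ht, zero_smul]
    · intro h; exact absurd (Finset.mem_univ _) h
  set ps : Cz z → ℂ := preg p (s.1 : Cz z → ℂ) with hps
  have hpsr : ps ∈ rsp p b := Submodule.subset_span ⟨s.1, s.2.1, rfl⟩
  set e : ℂ := (p ^ a : ℂ) * classInner f (s.1 : Cz z → ℂ) with he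
  have hfe : f = e • ps := by rw [hfs, smul_smul]
  have he0 : e ≠ 0 := by
    intro h0
    rw [h0, zero_smul] at hfe
    exact hf0 hfe
  have hps_orth : ∀ t : Kap z b, t ≠ s → classInner ps (t.1 : Cz z → ℂ) = 0 := by
    intro t ht
    have h3 : classInner f (t.1 : Cz z → ℂ) = 0 := by rw [hin t, hy t ht]
    rw [hfe, CharBasic.classInner_smul_left] at h3
    exact (mul_eq_zero.1 h3).resolve_left he0
  obtain ⟨g, hg, hgj⟩ := hs s
  have h3 := sum_ker hM hz hb hpsr g
  rw [Finset.sum_eq_zero fun j _ => rsp_reg hpsr (hgj j), Finset.sum_eq_single s] at h3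
  · have h4 : classInner ps (s.1 : Cz z → ℂ) ≠ 0 := by
      rw [← inner_preg_right hpsr, ← hps]
      intro h5
      have h6 := CharBasic.classInner_self_eq_zero.1 h5
      have h7 : ps 1 = (s.1 : Cz z → ℂ) 1 := by
        rw [hps, preg, if_neg]
        rw [orderOf_one]
        exact fun h => hp.one_lt.not_ge (Nat.le_of_dvd one_pos h)
      rw [h6] at h7
      exact s.1.2.one_ne_zero h7.symm
    have hpa : (p ^ a : ℂ) ≠ 0 := pow_ne_zero _ (by exact_mod_cast hp.ne_zero)
    exact (mul_ne_zero hpa (mul_ne_zero h4 hg)) h3.symm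
  · intro t _ ht
    rw [hps_orth t ht, zero_mul]
  · intro h; exact absurd (Finset.mem_univ _) h

variable [NeZero (p ^ (a + 1))]

/-- `k(B) ≤ |⟨z⟩| det C` -/
theorem card_le_det (hM : IsPModular p M) (hz : orderOf z = p ^ a) (hind : IsInducedBlock M (Cz z) b B)
    (hd : blockDefect p b = blockDefect p B) {φ : Fin (blockRank p b) → (Cz z → ℂ)}
    (h : Bas p b (blockRank p b) φ) {D : Matrix (Kap z b) (Fin (blockRank p b)) ℤ} (hD : IsDec p φ D) [Fintype (Kap z b)]
    (hco : ∀ s : Kap z b, ∀ y : Fin (blockRank p b) → ℂ, (∀ t, t ≠ s → ∑ i, (D t i : ℂ) * y i = 0) → y = 0) :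
    (Nat.card B : ℤ) ≤ p ^ a * det (D.transpose * D) := by
  classical
  haveI := isPrime hM
  letI := Fintype.ofFinite G
  letI := Fintype.ofFinite (Cz z)
  have hp := hM.1
  set δ : ℤ := det (D.transpose * D) with hδ
  have hlpos : 0 < blockRank p b := BlockSmall.blockRank_pos hp (isPBlock_nonempty hind.1)
  have hp0 : (p : ℂ) ≠ 0 := by exact_mod_cast hp.ne_zero
  have hzN := pow_of_orderOf hz
  have key : ∀ χ ∈ fs B, (p : ℝ) ^ blockDefect p b * blockRank p b ≤ (δ : ℝ) * (p : ℝ) ^ a * Av p a z b B (χ : G → ℂ) := by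
    intro χ hχ
    obtain ⟨x, hxN, hx⟩ := D_coords hzN h χ
    have hx0 : x ≠ 0 := by
      rintro rfl
      have h1 : BlockCount.D p z b (χ : G → ℂ) = 0 := by rw [hx]; simp
      have h2 := av_al hM hz hind χ
      have h3 : al p z b (χ : G → ℂ) (χ : G → ℂ) = 0 := by
        rw [al_eq, h1, classInner_zero_left, mul_zero]
      rw [h3, CycAvg.av_zero] at h2
      have h4 := one_le_Av hM hz hind hd (mem_fs.1 hχ)
      have h5 : Av p a z b B (χ : G → ℂ) = 0 := by exact_mod_cast h2.symm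
      rw [h5] at h4
      exact absurd h4 (by norm_num)
    obtain ⟨r, hr, hlr⟩ := av_bound D (det_dec_ne_zero hM hz hind.1 h hD) hco hx0 hxN
    rw [det_add_eq hM hz hind.1 h hD x, ← hx, ← hδ] at hr
    have h6 : (p : ℂ) ^ blockDefect p b * (r : ℂ) = ((δ : ℝ) * (p : ℝ) ^ a * Av p a z b B (χ : G → ℂ) : ℝ) := by
      have h7 := av_al hM hz hind χ
      rw [al_eq] at h7
      rw [← hr]
      push_cast
      rw [← h7]
      have e1 : ((δ : ℂ) * (p : ℂ) ^ a * classInner (BlockCount.D p z b (χ : G → ℂ)) (BlockCount.D p z b (χ : G → ℂ))) =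
          (((δ * (p : ℤ) ^ a : ℤ) : ℚ) : ℂ) * classInner (BlockCount.D p z b (χ : G → ℂ)) (BlockCount.D p z b (χ : G → ℂ)) := by
        push_cast; ring
      have e2 : ((p : ℂ) ^ blockDefect p b * classInner (BlockCount.D p z b (χ : G → ℂ)) (BlockCount.D p z b (χ : G → ℂ))) =
          (((p : ℤ) ^ blockDefect p b : ℤ) : ℚ) * classInner (BlockCount.D p z b (χ : G → ℂ)) (BlockCount.D p z b (χ : G → ℂ)) := by
        push_cast; ring
      rw [e1, e2, CycAvg.av_rat_mul, CycAvg.av_rat_mul]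
      push_cast
      ring
    have h8 : (p : ℝ) ^ blockDefect p b * r = (δ : ℝ) * (p : ℝ) ^ a * Av p a z b B (χ : G → ℂ) := by
      exact_mod_cast h6
    rw [← h8]
    exact mul_le_mul_of_nonneg_left hlr (by positivity)
  have h1 := Finset.sum_le_sum key
  rw [Finset.sum_const, nsmul_eq_mul, ← Finset.mul_sum, sum_Av hM hz hind, card_fs] at h1
  have h2 : (0 : ℝ) < (p : ℝ) ^ blockDefect p b * blockRank p b := by
    have : (0 : ℝ) < p := by exact_mod_cast hp.pos
    have hl' : (0 : ℝ) < blockRank p b := by exact_mod_cast hlpos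
    positivity
  have h3 : (Nat.card B : ℝ) ≤ (p : ℝ) ^ a * δ := by
    have h4 : (Nat.card B : ℝ) * ((p : ℝ) ^ blockDefect p b * blockRank p b) ≤ ((p : ℝ) ^ a * δ) * ((p : ℝ) ^ blockDefect p b * blockRank p b) := by
      nlinarith
    exact le_of_mul_le_mul_right h4 h2
  exact_mod_cast h3

omit [NeZero (p ^ (a + 1))] in
theorem det_nonneg {l : ℕ} (D : Matrix (Kap z b) (Fin l) ℤ) [Fintype (Kap z b)] : 0 ≤ det (D.transpose * D) := by
  have h1 := CauchyBinet.cb D.transpose D
  have h2 : 0 ≤ (l.factorial : ℤ) * det (D.transpose * D) := by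
    rw [h1]
    refine Finset.sum_nonneg fun f _ => ?_
    have h3 : det (D.transpose.submatrix id f) = det (D.submatrix f id) := by
      rw [← Matrix.det_transpose]; rfl
    rw [h3]
    exact mul_self_nonneg _
  have h3 : (0 : ℤ) < l.factorial := by exact_mod_cast Nat.factorial_pos l
  nlinarith

/-- Gram matrix of the form `ei` -/
noncomputable def eiM (p : ℕ) (b : Set (IrrCharacter (Cz z))) {l : ℕ} (φ : Fin l → (Cz z → ℂ)) : Matrix (Fin l) (Fin l) ℤ :=
  Matrix.of fun i j => ei p b (φ i) (φ j)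

omit [NeZero (p ^ (a + 1))] in
theorem det_eiM (hM : IsPModular p M) (hz : orderOf z = p ^ a) (hb : IsPBlock M b) {l : ℕ} {φ : Fin l → (Cz z → ℂ)}
    (h : Bas p b l φ) {D : Matrix (Kap z b) (Fin l) ℤ} (hD : IsDec p φ D) [Fintype (Kap z b)]
    (had : a ≤ blockDefect p b) :
    det (eiM p b φ) * det (D.transpose * D) = (p : ℤ) ^ ((blockDefect p b - a) * l) := by
  classical
  letI := Fintype.ofFinite (Cz z)
  have hp0 : (p : ℂ) ≠ 0 := by exact_mod_cast hM.1.ne_zero
  have h1 := gram_mul hM hz hb h hD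
  have h2 : (eiM p b φ).map (Int.cast : ℤ → ℂ) = ((p : ℂ) ^ (blockDefect p b - a)) • ((p ^ a : ℂ) • gram φ) := by
    ext i j
    rw [Matrix.map_apply, eiM, Matrix.of_apply, ei_spec hM hb (h.mem i) (h.mem j), Matrix.smul_apply, Matrix.smul_apply,
      gram_apply, smul_eq_mul, smul_eq_mul, ← mul_assoc, ← pow_add, Nat.sub_add_cancel had]
  have h3 : ((eiM p b φ) * (D.transpose * D)).map (Int.cast : ℤ → ℂ) = ((p : ℂ) ^ (blockDefect p b - a)) • 1 := by
    have h4 : ((eiM p b φ) * (D.transpose * D)).map (Int.cast : ℤ → ℂ) =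
        (eiM p b φ).map (Int.cast : ℤ → ℂ) * (D.transpose * D).map (Int.cast : ℤ → ℂ) :=
      Matrix.map_mul (f := Int.castRingHom ℂ)
    rw [h4, h2, Matrix.smul_mul, h1]
  have h5 := congrArg det h3
  rw [Matrix.det_smul, Matrix.det_one, mul_one, Fintype.card_fin, ← pow_mul] at h5
  have h6 : det (((eiM p b φ) * (D.transpose * D)).map (Int.cast : ℤ → ℂ)) =
      ((det ((eiM p b φ) * (D.transpose * D)) : ℤ) : ℂ) := by
    rw [show ((det ((eiM p b φ) * (D.transpose * D)) : ℤ) : ℂ) =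
      Int.castRingHom ℂ (det ((eiM p b φ) * (D.transpose * D))) from rfl, RingHom.map_det]
    rfl
  rw [h6, Matrix.det_mul] at h5
  exact_mod_cast h5

/-- if the form `ei` has rank one modulo `p ^ (d - a)`, then `k(B) ≤ p ^ d` -/
theorem card_le_of_dvd (hM : IsPModular p M) (hz : orderOf z = p ^ a) (hind : IsInducedBlock M (Cz z) b B)
    (hd : blockDefect p b = blockDefect p B) {φ : Fin (blockRank p b) → (Cz z → ℂ)}
    (h : Bas p b (blockRank p b) φ) (had : a ≤ blockDefect p b)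
    (hs : ∀ ξ : Kap z b, ∃ g : Cz z, (ξ.1 : Cz z → ℂ) g ≠ 0 ∧ ∀ j : ℕ, p ∣ orderOf (zz z ^ j * g))
    (hdvd : (p : ℤ) ^ ((blockDefect p b - a) * (blockRank p b - 1)) ∣ det (eiM p b φ)) :
    Nat.card B ≤ p ^ blockDefect p b := by
  classical
  haveI := isPrime hM
  letI := Fintype.ofFinite G
  letI := Fintype.ofFinite (Kap z b)
  have hp := hM.1
  obtain ⟨D, hD⟩ := h.exists_dec
  have hlpos : 0 < blockRank p b := BlockSmall.blockRank_pos hp (isPBlock_nonempty hind.1)
  have h1 := card_le_det hM hz hind hd h hD (no_coloop hM hz hind.1 h hD hs)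
  have h2 := det_eiM hM hz hind.1 h hD had
  obtain ⟨e, he⟩ := hdvd
  have hp0 : (0 : ℤ) < p := by exact_mod_cast hp.pos
  have h3 : e * det (D.transpose * D) = (p : ℤ) ^ (blockDefect p b - a) := by
    have h4 : (blockDefect p b - a) * blockRank p b =
        (blockDefect p b - a) * (blockRank p b - 1) + (blockDefect p b - a) := by
      obtain ⟨n, hn⟩ := Nat.exists_eq_succ_of_ne_zero hlpos.ne'
      rw [hn]; simp [Nat.mul_succ]
    rw [he, h4, pow_add, mul_assoc] at h2
    exact mul_left_cancel₀ (pow_pos hp0 _).ne' h2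
  have h4 := det_nonneg D
  have h5 : det (D.transpose * D) ≤ (p : ℤ) ^ (blockDefect p b - a) :=
    Int.le_of_dvd (pow_pos hp0 _) ⟨e, by rw [← h3, mul_comm]⟩
  have h6 : (Nat.card B : ℤ) ≤ p ^ blockDefect p b := by
    calc (Nat.card B : ℤ) ≤ p ^ a * det (D.transpose * D) := h1
      _ ≤ p ^ a * (p : ℤ) ^ (blockDefect p b - a) := mul_le_mul_of_nonneg_left h5 (pow_pos hp0 _).le
      _ = p ^ blockDefect p b := by rw [← pow_add, Nat.add_sub_cancel' had]
  exact_mod_cast h6

omit [NeZero (p ^ (a + 1))] in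
/-- the form `ei` has rank one modulo `p` -/
theorem dvd_det_eiM (hM : IsPModular p M) (hb : IsPBlock M b) {l : ℕ} {φ : Fin l → (Cz z → ℂ)}
    (h : ∀ i, φ i ∈ Lat p b) : (p : ℤ) ^ (l - 1) ∣ det (eiM p b φ) := by
  classical
  haveI := isPrime hM
  letI := Fintype.ofFinite (Cz z)
  have hp := hM.1
  choose m hm using fun i => lat_one hp (h i)
  have hcard : (Nat.card (Cz z) : ℂ) ≠ 0 := by exact_mod_cast Nat.card_pos.ne'
  apply dvd_det_of_prop hp m
  · intro i j k
    set f : Cz z → ℂ := (m j : ℂ) • φ i - (m i : ℂ) • φ j with hf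
    have e1 : ∀ (c : ℤ) (g : Cz z → ℂ), (c : ℂ) • g = c • g := fun c g => by
      funext y; simp
    have hfL : f ∈ Lat p b := by
      rw [hf, e1, e1]
      exact Submodule.sub_mem _ (Submodule.smul_mem _ _ (h i)) (Submodule.smul_mem _ _ (h j))
    have hf1 : f 1 = 0 := by
      rw [hf, Pi.sub_apply, Pi.smul_apply, Pi.smul_apply, hm i, hm j, smul_eq_mul, smul_eq_mul]
      ring
    have h3 := lat_idl hM hb hfL (by rw [hf1, mul_zero, zero_div]; exact idl_zero) (h k)
    have h4 : (p : ℂ) ^ blockDefect p b * classInner f (φ k) =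
        ((m j * ei p b (φ i) (φ k) - m i * ei p b (φ j) (φ k) : ℤ) : ℂ) := by
      push_cast
      rw [ei_spec hM hb (h i) (h k), ei_spec hM hb (h j) (h k), hf, CharBasic.classInner_sub_left,
        CharBasic.classInner_smul_left, CharBasic.classInner_smul_left]
      ring
    rw [h4, idl_intCast_iff hM] at h3
    exact h3
  · intro i hi k
    have h3 := lat_idl hM hb (h i) (by
      rw [hm i]
      obtain ⟨n, hn⟩ := hi
      rw [hn]
      have h5 : blockDefect p b ≤ (Nat.card (Cz z)).factorization p := by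
        rw [BlockDefect.blockDefect_eq]
        exact Nat.sub_le _ _
      have h6 : (p : ℂ) ^ blockDefect p b * ((p : ℂ) ^ ((Nat.card (Cz z)).factorization p - blockDefect p b) *
          ((p * n : ℤ) : ℂ)) / (Nat.card (Cz z) : ℂ) =
          (p : ℂ) * ((n : ℂ) * ((Nat.card (Cz z) / p ^ (Nat.card (Cz z)).factorization p : ℕ) : ℂ)⁻¹) := by
        have h7 : (p ^ (Nat.card (Cz z)).factorization p) * (Nat.card (Cz z) / p ^ (Nat.card (Cz z)).factorization p) =
          Nat.card (Cz z) := Nat.ordProj_mul_ordCompl_eq_self _ p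
        have h8 : (Nat.card (Cz z) : ℂ) = (p : ℂ) ^ (Nat.card (Cz z)).factorization p *
            ((Nat.card (Cz z) / p ^ (Nat.card (Cz z)).factorization p : ℕ) : ℂ) := by
          exact_mod_cast h7.symm
        have h9 : (p : ℂ) ^ blockDefect p b * (p : ℂ) ^ ((Nat.card (Cz z)).factorization p - blockDefect p b) =
            (p : ℂ) ^ (Nat.card (Cz z)).factorization p := by
          rw [← pow_add, Nat.add_sub_cancel' h5]
        have h10 : (p : ℂ) ^ (Nat.card (Cz z)).factorization p ≠ 0 := pow_ne_zero _ (by exact_mod_cast hp.ne_zero)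
        rw [← mul_assoc, h9]
        conv_lhs => rw [h8]
        rw [mul_div_mul_left _ _ h10]
        push_cast
        ring
      rw [h6]
      refine idl_mul_right (idl_p hM) (loc_mul (loc_intCast _) (loc_inv_natCast hM ?_))
      exact Nat.not_dvd_ordCompl hp Nat.card_pos.ne') (h k)
    rw [← ei_spec hM hb (h i) (h k), idl_intCast_iff hM] at h3
    exact h3

end mat

end Cfsg.Agent.Lib.SubsecDet
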