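import Mathlib
import Cfsg.Agent.Lib.SubspaceCount

/-! Gaussian binomials: duality, flags, complements. (helper99) -/

set_option autoImplicit false

namespace Cfsg.Agent.Lib.SubspaceCount

open Module

variable {F V : Type*} [Field F] [Fintype F] [AddCommGroup V] [Module F V] [Finite V]

/-- `∏_{i<k} (q^(k-i) - 1)` -/
def qfac (q k : ℕ) : ℕ := ∏ i ∈ Finset.range k, (q ^ (k - i) - 1)

lemma qfac_succ (q k : ℕ) : qfac q (k + 1) = (q ^ (k + 1) - 1) * qfac q k := by
  unfold qfac
  rw [Finset.prod_range_succ']
  rw [mul_comm]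
  congr 1
  apply Finset.prod_congr rfl
  intro i _
  congr 2
  omega

lemma qfac_pos {q : ℕ} (hq : 2 ≤ q) (k : ℕ) : 0 < qfac q k := by
  apply Finset.prod_pos
  intro i hi
  rw [Finset.mem_range] at hi
  have : 2 ^ 1 ≤ q ^ (k - i) := by
    calc 2 ^ 1 ≤ q ^ 1 := Nat.pow_le_pow_left hq 1
      _ ≤ q ^ (k - i) := Nat.pow_le_pow_right (by omega) (by omega)
  omega

lemma qfac_split (q : ℕ) {m n : ℕ} (hm : m ≤ n) :
    (∏ i ∈ Finset.range m, (q ^ (n - i) - 1)) * qfac q (n - m) = qfac q n := by
  induction m with
  | zero => simp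
  | succ m ih =>
    rw [Finset.prod_range_succ, ← ih (by omega)]
    have : n - m = (n - (m + 1)) + 1 := by omega
    rw [this, qfac_succ, mul_assoc]

theorem card_mul_qfac {m : ℕ} (hm : m ≤ Module.finrank F V) :
    Nat.card {W : Submodule F V // Module.finrank F W = m} * (qfac (Fintype.card F) m *
      qfac (Fintype.card F) (Module.finrank F V - m)) = qfac (Fintype.card F) (Module.finrank F V) := by
  rw [← mul_assoc]
  have := card_subspaces (F := F) (V := V) hm
  rw [show qfac (Fintype.card F) m = ∏ i ∈ Finset.range m, (Fintype.card F ^ (m - i) - 1) from rfl, this]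
  exact qfac_split _ hm

theorem card_dual {m : ℕ} (hm : m ≤ Module.finrank F V) :
    Nat.card {W : Submodule F V // Module.finrank F W = Module.finrank F V - m} =
      Nat.card {W : Submodule F V // Module.finrank F W = m} := by
  have h1 := card_mul_qfac (F := F) (V := V) hm
  have h2 := card_mul_qfac (F := F) (V := V) (m := Module.finrank F V - m) (Nat.sub_le _ _)
  rw [Nat.sub_sub_self hm, ← h1] at h2
  have hq : 2 ≤ Fintype.card F := Fintype.one_lt_card
  have hpos : 0 < qfac (Fintype.card F) m * qfac (Fintype.card F) (Module.finrank F V - m) :=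
    Nat.mul_pos (qfac_pos hq _) (qfac_pos hq _)
  apply Nat.eq_of_mul_eq_mul_right hpos
  rw [← h2]; ring

omit [Fintype F] [Finite V] in
/-- the number of subspaces only depends on the dimension -/
theorem card_eq_of_finrank {V' : Type*} [AddCommGroup V'] [Module F V'] [FiniteDimensional F V]
    [FiniteDimensional F V'] (h : Module.finrank F V = Module.finrank F V') {m : ℕ} :
    Nat.card {W : Submodule F V // Module.finrank F W = m} = Nat.card {W : Submodule F V' // Module.finrank F W = m} := by
  have e : V ≃ₗ[F] V' := LinearEquiv.ofFinrankEq _ _ h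
  refine Nat.card_congr ⟨fun W => ⟨W.1.map (e : V →ₗ[F] V'), ?_⟩, fun W => ⟨W.1.map (e.symm : V' →ₗ[F] V), ?_⟩, ?_, ?_⟩
  · rw [LinearEquiv.finrank_map_eq, W.2]
  · rw [LinearEquiv.finrank_map_eq, W.2]
  · intro W; apply Subtype.ext; ext v; simp
  · intro W; apply Subtype.ext; ext v; simp

/-- flags `U ≤ W` with `dim U = m`, `dim W = k`. -/
theorem card_flags {m k : ℕ} :
    Nat.card {P : Submodule F V × Submodule F V // P.1 ≤ P.2 ∧ Module.finrank F P.1 = m ∧ Module.finrank F P.2 = k} =
      Nat.card {W : Submodule F V // Module.finrank F W = k} *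
        Nat.card {U : Submodule F (Fin k → F) // Module.finrank F U = m} := by
  classical
  let A := {P : Submodule F V × Submodule F V // P.1 ≤ P.2 ∧ Module.finrank F P.1 = m ∧ Module.finrank F P.2 = k}
  let B := {W : Submodule F V // Module.finrank F W = k}
  let f : A → B := fun P => ⟨P.1.2, P.2.2.2⟩
  have hfib : ∀ W : B, Nat.card {P : A // f P = W} = Nat.card {U : Submodule F (Fin k → F) // Module.finrank F U = m} := by
    intro W
    rw [← card_eq_of_finrank (F := F) (V := W.1) (V' := Fin k → F) (by rw [W.2]; simp)]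
    refine Nat.card_congr ⟨fun P => ⟨P.1.1.1.comap W.1.subtype, ?_⟩,
      fun U => ⟨⟨(U.1.map W.1.subtype, W.1), ⟨Submodule.map_subtype_le _ _, ?_, W.2⟩⟩, rfl⟩, ?_, ?_⟩
    · have h1 : P.1.1.2 = W.1 := congrArg Subtype.val P.2
      have h2 : P.1.1.1 ≤ W.1 := h1 ▸ P.1.2.1
      exact (Submodule.comapSubtypeEquivOfLe h2).finrank_eq.trans P.1.2.2.1
    · exact (Submodule.finrank_map_subtype_eq W.1 U.1).trans U.2
    · intro P
      have h1 : P.1.1.2 = W.1 := congrArg Subtype.val P.2
      have h2 : P.1.1.1 ≤ W.1 := h1 ▸ P.1.2.1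
      apply Subtype.ext; apply Subtype.ext
      apply Prod.ext
      · change (P.1.1.1.comap W.1.subtype).map W.1.subtype = P.1.1.1
        rw [Submodule.map_comap_subtype, inf_eq_right.mpr h2]
      · exact h1.symm
    · intro U
      apply Subtype.ext
      change (U.1.map W.1.subtype).comap W.1.subtype = U.1
      exact Submodule.comap_map_eq_of_injective W.1.injective_subtype U.1
  change Nat.card A = Nat.card B * _
  rw [Nat.card_congr (Equiv.sigmaFiberEquiv f).symm]
  have : Fintype B := Fintype.ofFinite B
  rw [Nat.card_sigma, Finset.sum_congr rfl (fun W _ => hfib W), Finset.sum_const, Finset.card_univ,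
    Nat.card_eq_fintype_card (α := B), smul_eq_mul]

/-- pairs of complementary subspaces: the number of complements is a power of `q`. -/
theorem exists_card_compl {m : ℕ} :
    ∃ t : ℕ, Nat.card {P : Submodule F V × Submodule F V // IsCompl P.1 P.2 ∧ Module.finrank F P.1 = m} =
      Nat.card {W : Submodule F V // Module.finrank F W = m} * (Fintype.card F) ^ t := by
  classical
  have hfin : FiniteDimensional F V := Module.Finite.of_finite
  refine ⟨(Module.finrank F V - m) * m, ?_⟩
  let A := {P : Submodule F V × Submodule F V // IsCompl P.1 P.2 ∧ Module.finrank F P.1 = m}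
  let B := {W : Submodule F V // Module.finrank F W = m}
  let f : A → B := fun P => ⟨P.1.1, P.2.2⟩
  have hfib : ∀ W : B, Nat.card {P : A // f P = W} = (Fintype.card F) ^ ((Module.finrank F V - m) * m) := by
    intro W
    have e1 : {P : A // f P = W} ≃ {q : Submodule F V // IsCompl W.1 q} :=
      ⟨fun P => ⟨P.1.1.2, by have h1 : P.1.1.1 = W.1 := congrArg Subtype.val P.2
                             rw [← h1]; exact P.1.2.1⟩,
        fun q => ⟨⟨(W.1, q.1), ⟨q.2, W.2⟩⟩, rfl⟩,
        fun P => by
          have h1 : P.1.1.1 = W.1 := congrArg Subtype.val P.2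
          apply Subtype.ext; apply Subtype.ext
          exact Prod.ext h1.symm rfl,
        fun q => rfl⟩
    rw [Nat.card_congr e1, Nat.card_congr (Submodule.isComplEquivProj W.1)]
    obtain ⟨q0, hq0⟩ := Submodule.exists_isCompl W.1
    let f0 := (Submodule.isComplEquivProj W.1) ⟨q0, hq0⟩
    -- difference with f0 kills W: factor through the quotient
    have e2 : {f : V →ₗ[F] W.1 // ∀ x : W.1, f x = x} ≃ ((V ⧸ W.1) →ₗ[F] W.1) :=
      ⟨fun f => W.1.liftQ (f.1 - f0.1) (by
          intro x hx
          rw [LinearMap.mem_ker, LinearMap.sub_apply]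
          have h1 := f.2 ⟨x, hx⟩
          have h2 := f0.2 ⟨x, hx⟩
          rw [show f.1 x = ⟨x, hx⟩ from h1, show f0.1 x = ⟨x, hx⟩ from h2, sub_self]),
        fun g => ⟨f0.1 + g.comp W.1.mkQ, by
          intro x
          have h2 := f0.2 x
          rw [LinearMap.add_apply, LinearMap.comp_apply]
          rw [show f0.1 (x : V) = x from h2]
          have : W.1.mkQ (x : V) = 0 := by simp
          rw [this, map_zero, add_zero]⟩,
        fun f => by
          apply Subtype.ext; apply LinearMap.ext; intro v
          simp,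
        fun g => by
          apply LinearMap.ext; intro v
          obtain ⟨v, rfl⟩ := Submodule.mkQ_surjective _ v
          simp⟩
    rw [Nat.card_congr e2]
    have : Finite ((V ⧸ W.1) →ₗ[F] W.1) := Module.finite_of_finite F
    rw [Module.natCard_eq_pow_finrank (K := F), Module.finrank_linearMap, W.2, Nat.card_eq_fintype_card,
      Submodule.finrank_quotient, W.2]
  change Nat.card A = Nat.card B * _
  rw [Nat.card_congr (Equiv.sigmaFiberEquiv f).symm]
  have : Fintype B := Fintype.ofFinite B
  rw [Nat.card_sigma, Finset.sum_congr rfl (fun W _ => hfib W), Finset.sum_const, Finset.card_univ,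
    Nat.card_eq_fintype_card (α := B), smul_eq_mul]

end Cfsg.Agent.Lib.SubspaceCount
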