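import Cfsg.Agent.Lib.SuzRel
import Cfsg.Agent.Lib.CosetInst
import Cfsg.Agent.Lib.CosetInj
import Cfsg.Agent.Lib.CosetPack
import Cfsg.Agent.Lib.SuzNetsB
import Cfsg.Agent.Lib.SuzCertB

set_option autoImplicit false
set_option linter.all false
set_option maxRecDepth 100000
set_option Elab.async false

namespace Cfsg.Agent.Lib.SuzB
open Cfsg.Spor Cfsg.Agent.Lib.BenesPerm Cfsg.Agent.Lib.BenesAct Cfsg.Agent.Lib.BenesWord
open Cfsg.Agent.Lib.BenesPlane Cfsg.Agent.Lib.CosetClosure Cfsg.Agent.Lib.CosetFacts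
open Cfsg.Agent.Lib.CosetMain Cfsg.Agent.Lib.CoxBridge Cfsg.Agent.Lib.CosetGroup Cfsg.Agent.Lib.CosetInst Cfsg.Agent.Lib.CosetInj
open Cfsg.Agent.Lib.BenesPack Cfsg.Agent.Lib.CosetPack
open Cfsg.Agent.Lib.SuzRel Cfsg.Agent.Lib.SuzNetsB Cfsg.Agent.Lib.SuzCertB

/-- words for the subgroup -/
def WS : List Wd := [(Wd.g 0), (Wd.g 1), (Wd.g 2), (Wd.g 3), (Wd.g 5), (Wd.g 6)]
/-- patterns of the subgroup words -/
def hpats : List Wd := []
/-- patterns -/
def pats : List Wd := pats0 ++ hpats
/-- inverse letters -/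
noncomputable def ivx : ℕ → ℕ := ivOf [0, 1, 2, 3, 4, 5, 6]

theorem c_nets : netsCheck (2 ^ 15) nets = true := by decide +kernel
theorem c_iv : ivK nets 15 ivx 7 = true := by decide +kernel
theorem c_full : fullInvK nets 22880 7 = true := by decide +kernel
theorem c_len : lenK R 7 7 = true := by decide +kernel
theorem c_sym : symK nets ivx R 7 = true := by decide +kernel
theorem c_disj : disjK D 1 = true := by decide +kernel
theorem c_tree : treeK nets 15 D = true := by decide +kernel
theorem c_treelet : netLetK 7 D = true := by decide +kernel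
theorem c_dtab : dtabK (2 ^ 15) nd DT = true := by decide +kernel
theorem c_facts : factsK nets ivx R 7 22880 (2 ^ 15) nd T DT (pats.map (fun W => (W.flat ivx).reverse)) 6 scr = true := by decide +kernel
theorem c_ex : exK nets R 7 T (6 + scr.len) E = true := by decide +kernel
theorem c_simdlet : simdLetK ivx 7 simd = true := by decide +kernel
theorem c_cover : force (2 ^ 15) (fun N => relsMDK nets ivx R N 3 7 (simd.map (splitW ivx)) (exM E D) (fun ms => coverK nets ivx 22880 ms 7)) = true := by decide +kernel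
theorem c_rels : relsD nets 15 4 ivx rels = true := by decide +kernel

theorem c_rel (W : Wd) (h : W ∈ rels) : relK nets 15 (W.flat ivx) = true := relK_of_relsD c_nets c_rels W h

/-- further elements of the group used as letters (without the subgroup words) -/
noncomputable def L0 : List (CoxPresented Suz.Gen Suz.edges Suz.extra) := []

/-- further elements of the group used as letters -/
noncomputable def HL : List (CoxPresented Suz.Gen Suz.edges Suz.extra) := []

theorem rel_eval (L : List (CoxPresented Suz.Gen Suz.edges Suz.extra)) : ∀ W ∈ rels, W.eval (C.x L) = 1 := by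
  have h := C.rel_x L
  intro W hW
  rcases List.mem_append.mp hW with h1 | h1
  · exact h.1 W (by rw [show coxWds Suz.edges C.gen C.nn = coxW from coxW_eq]; exact h1)
  · exact h.2.1 W h1

theorem x_iv0 : ∀ c, C.x L0 (iv c) = (C.x L0 c)⁻¹ := by
  have h2 : ∀ i, i < 7 → C.x L0 i = (C.x L0 i)⁻¹ := fun i hi => mul_eq_one_iff_eq_inv.mp ((C.rel_x L0).2.2 i hi)
  intro c
  by_cases hc : c < 7
  · interval_cases c
    · exact h2 0 (by norm_num)
    · exact h2 1 (by norm_num)
    · exact h2 2 (by norm_num)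
    · exact h2 3 (by norm_num)
    · exact h2 4 (by norm_num)
    · exact h2 5 (by norm_num)
    · exact h2 6 (by norm_num)
  · have h1 : iv c = c := ivOf_ge _ (by simpa using hc)
    obtain ⟨d, rfl⟩ := Nat.exists_eq_add_of_le (not_lt.mp hc)
    rw [h1, show C.x L0 (7 + d) = 1 from ?_, inv_one]
    have h3 : 7 + d = C.ng + (0 + d) := by change 7 + d = 7 + (0 + d); omega
    rw [h3, C.x_ge, List.getElem?_eq_none (by simp [L0])]; rfl

theorem x_iv : ∀ c, C.x HL (ivx c) = (C.x HL c)⁻¹ := by
  have h2 : ∀ i, i < 7 → C.x HL i = (C.x HL i)⁻¹ := fun i hi => mul_eq_one_iff_eq_inv.mp ((C.rel_x HL).2.2 i hi)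
  intro c
  by_cases hc : c < 7
  · interval_cases c
    · exact h2 0 (by norm_num)
    · exact h2 1 (by norm_num)
    · exact h2 2 (by norm_num)
    · exact h2 3 (by norm_num)
    · exact h2 4 (by norm_num)
    · exact h2 5 (by norm_num)
    · exact h2 6 (by norm_num)
  · have h1 : ivx c = c := ivOf_ge _ (by simpa using hc)
    obtain ⟨d, rfl⟩ := Nat.exists_eq_add_of_le (not_lt.mp hc)
    rw [h1, show C.x HL (7 + d) = 1 from ?_, inv_one]
    have h3 : 7 + d = C.ng + (0 + d) := by change 7 + d = 7 + (0 + d); omega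
    rw [h3, C.x_ge, List.getElem?_eq_none (by simp [HL])]; rfl

theorem phi_exists : ∃ φ : (CoxPresented Suz.Gen Suz.edges Suz.extra) →* Equiv.Perm ℕ, ∀ c, φ (C.x L0 c) = sperm nets c := by
  refine exists_phi C (iv := iv) (k := 15) (rels := rels) rfl c_nets ?_ (fun c hc => ivOf_ge _ hc) ?_ ?_ ?_ ?_ ?_
  · intro W hW
    have h := c_rel W hW
    exact h
  · exact c_iv
  · intro c hc
    change c < 7 at hc
    interval_cases c <;> rfl
  · intro c
    have h1 : iv (C.ng + c) = C.ng + c := ivOf_ge _ (by simp [C])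
    rw [h1, C.x_ge]; simp [L0]
  · intro c; right; simp [nets, C]
  · intro c _; simp [L0]

theorem map_exists (H : Subgroup (CoxPresented Suz.Gen Suz.edges Suz.extra)) (hH : H = Subgroup.closure (wset (C.x L0) WS)) :
    ∃ f : ℕ → (CoxPresented Suz.Gen Suz.edges Suz.extra) ⧸ H, f 0 = ((1 : (CoxPresented Suz.Gen Suz.edges Suz.extra)) : (CoxPresented Suz.Gen Suz.edges Suz.extra) ⧸ H) ∧
      ∀ c i, c < 7 → i < 22880 → C.x L0 c • f i = f (sig nets c i) := by
  have h0 : ∃ f : ℕ → (CoxPresented Suz.Gen Suz.edges Suz.extra) ⧸ H, f 0 = ((1 : (CoxPresented Suz.Gen Suz.edges Suz.extra)) : (CoxPresented Suz.Gen Suz.edges Suz.extra) ⧸ H) ∧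
      ∀ c i, c < 7 → i < 22880 → C.x HL c • f i = f (sig nets c i) := by
    refine exists_mapD (j := 3) (P := 7) (D := D) (R := R) (simd := simd) (pats := pats) (scr := scr) (E := E) (T := T) (DT := DT)
      (nd := nd) (g := 6)
      c_nets (by norm_num) (by norm_num) c_iv c_full c_len c_sym x_iv ?_ c_disj c_tree c_treelet ?_ c_dtab ?_ c_facts c_ex
      (fun q hq => c_rel _ (mem_zip_left hq)) (fun q hq => rel_eval HL _ (mem_zip_left hq)) c_simdlet c_cover
    · rfl
    · apply eval_pats
      · intro W hW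
        simp only [triv, List.mem_cons, List.not_mem_nil, or_false] at hW
        have h2 := (C.rel_x HL).2.2
        rcases hW with rfl | rfl | rfl | rfl | rfl | rfl | rfl <;> exact h2 _ (by decide)
      · exact rel_eval HL
      · intro W hW
        exact absurd hW (by simp [hpats])
    · intro j hj
      have h1 : ∀ j, j < 6 → eSrc (T.get j) = 0 ∧ eDst (T.get j) = 0 ∧ eLet (T.get j) = nthK 0 [0, 1, 2, 3, 5, 6] j := by
        decide +kernel
      obtain ⟨h2, h3, h4⟩ := h1 j hj
      refine ⟨h2, h3, ?_⟩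
      rw [h4]
      apply smul_one_coset
      rw [hH]
      interval_cases j
      · exact mem_wset (x := C.x L0) (W := (Wd.g 0)) (by simp [WS])
      · exact mem_wset (x := C.x L0) (W := (Wd.g 1)) (by simp [WS])
      · exact mem_wset (x := C.x L0) (W := (Wd.g 2)) (by simp [WS])
      · exact mem_wset (x := C.x L0) (W := (Wd.g 3)) (by simp [WS])
      · exact mem_wset (x := C.x L0) (W := (Wd.g 5)) (by simp [WS])
      · exact mem_wset (x := C.x L0) (W := (Wd.g 6)) (by simp [WS])
  obtain ⟨f, hf0, hf⟩ := h0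
  refine ⟨f, hf0, ?_⟩
  intro c i hc hi
  rw [← hf c i hc hi]
  interval_cases c <;> rfl

/-- everything about the action on the cosets -/
theorem full (H : Subgroup (CoxPresented Suz.Gen Suz.edges Suz.extra)) (hH : H = Subgroup.closure (wset (C.x L0) WS)) :
    ∃ (φ : (CoxPresented Suz.Gen Suz.edges Suz.extra) →* Equiv.Perm ℕ) (f : ℕ → (CoxPresented Suz.Gen Suz.edges Suz.extra) ⧸ H), (∀ c, φ (C.x L0 c) = sperm nets c) ∧
      f 0 = ((1 : (CoxPresented Suz.Gen Suz.edges Suz.extra)) : (CoxPresented Suz.Gen Suz.edges Suz.extra) ⧸ H) ∧ (∀ c i, c < 7 → i < 22880 → C.x L0 c • f i = f (sig nets c i)) := by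
  obtain ⟨φ, hφ⟩ := phi_exists
  obtain ⟨f, h1, h2⟩ := map_exists H hH
  exact ⟨φ, f, hφ, h1, h2⟩

end Cfsg.Agent.Lib.SuzB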