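import Cfsg.Agent.Lib.ProjCov
import Cfsg.Agent.Lib.SuzOrd

/-!
The covering group `6·Suz` as a group of matrices of degree 12 over the field with 7 elements (helper57).
-/

set_option autoImplicit false
set_option maxRecDepth 100000

namespace Cfsg.Agent.Lib.SuzCov

open Subgroup Cfsg.Spor Cfsg.Agent.Lib.H58SM Cfsg.Agent.Lib.Cov Cfsg.Agent.Lib.ProjCov Cfsg.Agent.Lib.BenesWord

instance fact7 : Fact (Nat.Prime 7) := ⟨by norm_num⟩

def A0 : ℕ := 0x91624e8c0a830da6edb51a2bbaeb8dd55d334a2543471c238e016379061ac2a8160560c0d98459a844712aa28c743953a1801bb18169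
def A1 : ℕ := 0xd5cd1e78125a03075614b92015a58a4a22ccc5cd667a16b550ac02ce8269a8426237191e5894a24cca76b5dd73556709451b894a02cc
def A2 : ℕ := 0x91a6c9c6eb1a6cdbb6c896693acd008c8060d711336858344c030104878d4b24a5931449b1a6c9a6e875574cf409c45468ca56052519
def A3 : ℕ := 0x2534ad523d350748a4551028733a4e98cc867b00a1c664e1d69600092cce59a571733d4119b408dad248c06a0b720b9b8d60f4182da5
def A4 : ℕ := 0x32e4922094b5cc24de08dcc64dab05cb670021c0e8c88d06c549642ae4928089b3842649833da5d290b0d864de51db240050f6d74195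
def A5 : ℕ := 0xc584c052e4a488e71861182ac9552a17439e61962ac956199aac958e8c84a8a9a3728b093905080cd55824e10c82461536d154c49a19
def A6 : ℕ := 0xcac806a4a6a9719ba126530b2b60b6d33d01cf16d0c0e99692645e669721ba19968e045e6cbd015b430a4a802d669719ba9708b8b79b
def B3 : ℕ := 0xdacb52adc2ca18b75baae0108cc5b167334184815e399b1e29680016d331a65a8e8cc286064a30252db02014348d846472910b04525a
def B4 : ℕ := 0xcd1b6dc36b4a305b21172301b254c23498c0c231103702c13ab69bd51b6d63064c7859b660c25a2d6148241b21ae24db00210928b06a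
def S1 : ℕ := 0x200000000040000000008000000001000000000200000000040000000008000000001000000000200000000040000000008000000001
def S2 : ℕ := 0x400000000080000000010000000002000000000400000000080000000010000000002000000000400000000080000000010000000002
def S3 : ℕ := 0x6000000000c00000000180000000030000000006000000000c00000000180000000030000000006000000000c0000000018000000003
def S4 : ℕ := 0x800000000100000000020000000004000000000800000000100000000020000000004000000000800000000100000000020000000004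
def S5 : ℕ := 0xa00000000140000000028000000005000000000a00000000140000000028000000005000000000a00000000140000000028000000005
def S6 : ℕ := 0xc00000000180000000030000000006000000000c00000000180000000030000000006000000000c00000000180000000030000000006

/-- field codes -/
def F7 : FC (ZMod 7) := fcP (ZMod 7) 7 3 7 (by norm_num) (by norm_num) (by norm_num)

def gc (c : ℕ) : ℕ := cond (Nat.beq c 0) A0 (cond (Nat.beq c 1) A1 (cond (Nat.beq c 2) A2 (cond (Nat.beq c 3) A3
  (cond (Nat.beq c 4) A4 (cond (Nat.beq c 5) A5 A6)))))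
def gi (c : ℕ) : ℕ := cond (Nat.beq c 0) A0 (cond (Nat.beq c 1) A1 (cond (Nat.beq c 2) A2 (cond (Nat.beq c 3) B3
  (cond (Nat.beq c 4) B4 (cond (Nat.beq c 5) A5 A6)))))

def scl : List ℕ := [S1, S2, S3, S4, S5, S6]

theorem dec_sc (i : Fin 6) : F7.dec 12 (scl.getD i 0) = Matrix.scalar (Fin 12) ((i : ℕ) + 1 : ZMod 7) := by
  ext a b
  rw [Matrix.scalar_apply, Matrix.diagonal_apply]
  show (((gt (scl.getD i 0) 3 7 (12 * a + b) : ℕ)) : ZMod 7) = _
  revert i a b
  decide +kernel

theorem one_ok : F7.dec 12 S1 = 1 := by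
  have h := dec_sc 0
  have e : scl.getD ((0 : Fin 6) : ℕ) 0 = S1 := rfl
  rw [e] at h
  rw [h]
  have : (((0 : Fin 6) : ℕ) + 1 : ZMod 7) = 1 := by decide
  rw [this, map_one]

theorem units_ok : alln (fun c => Nat.beq (F7.mm 12 (gc c) (gi c)) S1 && Nat.beq (F7.mm 12 (gi c) (gc c)) S1) 7 = true := by
  decide +kernel

theorem rel_ok : allSc F7 12 gc S1 scl ((SuzRel.coxW ++ SuzRel.extraW).map (Wd.flat fun c => c)) = true := by
  decide +kernel

/-- squares -/
def sqv (c : ℕ) : ℕ := cond (Nat.beq c 3) S6 (cond (Nat.beq c 4) S6 S1)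

theorem sq_ok : alln (fun c => Nat.beq (evl F7 12 gc S1 [c, c]) (sqv c)) 7 = true := by decide +kernel

theorem three_ok : Nat.beq (evl F7 12 gc S1 ((Wd.pow (Wd.mul (Wd.mul (Wd.g 1) (Wd.g 5)) (Wd.g 6)) 5).flat fun c => c)) S4 = true := by
  decide +kernel

theorem m1_ok : Nat.beq (F7.mm 12 S6 S6) S1 = true := by decide +kernel

theorem ne_ok : F7.dec 12 (sqv 3) 0 0 ≠ 1 := by
  show ((gt (sqv 3) 3 7 (12 * ((0 : Fin 12) : ℕ) + ((0 : Fin 12) : ℕ)) : ℕ) : ZMod 7) ≠ 1
  decide +kernel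

theorem lets_ok : (SuzRel.coxW ++ SuzRel.extraW).all (CoxBridge.lets 7) = true := by decide +kernel

theorem off_ok : (gt A3 3 7 1 : ZMod 7) ≠ 0 ∨ (gt A3 3 7 2 : ZMod 7) ≠ 0 := by decide +kernel

theorem mem_scl {c : ℕ} (h : c ∈ scl) : ∃ z : ZMod 7, z ≠ 0 ∧ F7.dec 12 c = Matrix.scalar (Fin 12) z := by
  obtain ⟨i, hi, rfl⟩ := List.getElem_of_mem h
  have h1 := dec_sc ⟨i, hi⟩
  have e : scl.getD ((⟨i, hi⟩ : Fin 6) : ℕ) 0 = scl[i] := List.getD_eq_getElem _ _ hi
  rw [e] at h1
  refine ⟨_, ?_, h1⟩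
  have : ∀ i : Fin 6, ((i : ℕ) + 1 : ZMod 7) ≠ 0 := by decide
  exact this ⟨i, hi⟩

set_option maxHeartbeats 1000000 in
/-- the covering group -/
theorem exists_stem6 : ∃ (Γ : Type) (_ : Group Γ) (_ : Finite Γ) (σ : Γ →* Suz), IsStemExtension σ ∧
    6 ∣ Nat.card σ.ker := by
  obtain ⟨hsimp, hcard, φ₀, hφ₀, hinj₀, -⟩ := SuzOrd.main
  have hfin : Finite Suz := Nat.finite_of_card_ne_zero (by rw [hcard]; norm_num)
  obtain ⟨x, hx, hx1⟩ := exists_units F7 12 rfl one_ok units_ok
  have hrel : ∀ W ∈ SuzRel.coxW ++ SuzRel.extraW, ((W.flat fun c => c).map x).prod ∈ SC (ZMod 7) 12 := by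
    intro W hW
    have h1 := allSc_spec F7 12 rel_ok _ (List.mem_map.2 ⟨W, hW, rfl⟩)
    obtain ⟨z, hz, h2⟩ := mem_scl h1
    exact (mem_of_code F7 12 rfl one_ok hx (letters_flat (List.all_eq_true.1 lets_ok W hW)) hz h2).1
  have hsq : ∀ c < 7, x c * x c ∈ SC (ZMod 7) 12 ∧ ((x c * x c : (Matrix (Fin 12) (Fin 12) (ZMod 7))ˣ) : Matrix (Fin 12) (Fin 12) (ZMod 7)) =
      F7.dec 12 (sqv c) := by
    intro c hc
    have h1 := Nat.eq_of_beq_eq_true (alln_iff.1 sq_ok c hc)
    have h2 : sqv c ∈ scl := by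
      revert c
      decide
    obtain ⟨z, hz, h3⟩ := mem_scl h2
    have h4 := mem_of_code F7 12 rfl one_ok hx (l := [c, c]) (by
      intro d hd
      rcases List.mem_cons.1 hd with rfl | hd
      · exact hc
      · rw [List.mem_singleton.1 hd]; exact hc) hz (by rw [h1, h3])
    rw [List.map_cons, List.map_cons, List.map_nil, List.prod_cons, List.prod_cons, List.prod_nil, mul_one] at h4
    exact ⟨h4.1, by rw [h4.2, h3]⟩
  have h2 : ∀ c, x c * x c ∈ SC (ZMod 7) 12 := by
    intro c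
    by_cases hc : c < 7
    · exact (hsq c hc).1
    · rw [hx1 c (by omega), mul_one]; exact one_mem _
  obtain ⟨φ, hφ⟩ := exists_proj SuzRel.C h2 hrel
  have hinj : Function.Injective φ := by
    rw [← MonoidHom.ker_eq_bot_iff]
    rcases hsimp.eq_bot_or_eq_top_of_normal φ.ker inferInstance with h | h
    · exact h
    exfalso
    have h3 : PresentedGroup.of (SuzRel.C.gen 3) ∈ φ.ker := by rw [h]; trivial
    rw [MonoidHom.mem_ker, hφ 3 (by decide)] at h3
    have h4 : x 3 ∈ SC (ZMod 7) 12 := (QuotientGroup.eq_one_iff _).1 h3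
    obtain ⟨z, hz, h5⟩ := mem_SC.1 h4
    rw [hx 3 (by norm_num)] at h5
    rcases off_ok with h6 | h6
    · apply h6
      have h7 := congrFun (congrFun h5 0) 1
      rw [Matrix.scalar_apply, Matrix.diagonal_apply_ne _ (by decide)] at h7
      exact h7
    · apply h6
      have h7 := congrFun (congrFun h5 0) 2
      rw [Matrix.scalar_apply, Matrix.diagonal_apply_ne _ (by decide)] at h7
      exact h7
  have hperf : commutator Suz = ⊤ := by
    rcases hsimp.eq_bot_or_eq_top_of_normal (commutator Suz) inferInstance with h | h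
    · exfalso
      have h3 : ∀ a b : Suz, a * b = b * a := by
        intro a b
        have h4 : a * b * a⁻¹ * b⁻¹ ∈ commutator Suz := commutator_mem_commutator (mem_top _) (mem_top _)
        rw [h, mem_bot] at h4
        rw [mul_inv_eq_one, mul_inv_eq_iff_eq_mul] at h4
        exact h4
      have h5 : (Nat.card Suz).Prime := by
        let _ : CommGroup Suz := { (inferInstance : Group Suz) with mul_comm := h3 }
        exact IsSimpleGroup.prime_card
      rw [hcard] at h5
      revert h5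
      norm_num
    · exact h
  obtain ⟨Γ, _, _, σ, hσ, hord⟩ := exists_stem φ hinj SC_center hperf
  refine ⟨Γ, _, inferInstance, σ, hσ, ?_⟩
  have hxm : ∀ c, x c ∈ PG φ := by
    intro c
    by_cases hc : c < 7
    · exact ⟨_, hφ c hc⟩
    · rw [hx1 c (by omega)]; exact one_mem _
  let y : ℕ → PG φ := fun c => ⟨x c, hxm c⟩
  have hE : ∀ s ∈ SC (ZMod 7) 12, s ^ 6 = 1 := by
    intro s hs
    have := SC_pow (K := ZMod 7) hs
    rwa [ZMod.card] at this
  have hall : ∀ t : PG φ, t ∈ TT (PG φ) 6 := TT_all φ hinj hperf hE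
  -- squares are 1 or -1
  have hm1 : F7.dec 12 S6 * F7.dec 12 S6 = 1 := by
    rw [← F7.dec_mm 12 rfl, Nat.eq_of_beq_eq_true m1_ok, one_ok]
  have hsq1 : ∀ c < 7, F7.dec 12 (sqv c) * F7.dec 12 (sqv c) = 1 := by
    intro c hc
    by_cases h3 : sqv c = S1
    · rw [h3, one_ok, mul_one]
    · have h4 : sqv c = S6 := by
        revert h3; revert c; decide
      rw [h4, hm1]
  have hy4 : ∀ c < 7, y c ^ 4 = 1 := by
    intro c hc
    apply Subtype.ext
    apply Units.ext
    show ((x c ^ 4 : (Matrix (Fin 12) (Fin 12) (ZMod 7))ˣ) : Matrix (Fin 12) (Fin 12) (ZMod 7)) = 1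
    have : x c ^ 4 = (x c * x c) * (x c * x c) := (pow_add (x c) 2 2).trans (by rw [pow_two])
    rw [this, Units.val_mul, (hsq c hc).2, hsq1 c hc]
  have hy2 : ∀ c < 7, y c ∈ TT (PG φ) 2 := by
    intro c hc
    have h5 : y c ∈ TT (PG φ) (Nat.gcd 4 6) := TT_gcd (TT_pow (hy4 c hc)) (hall (y c))
    have e : Nat.gcd 4 6 = 2 := by norm_num
    rw [e] at h5
    exact h5
  -- minus one
  have hz2 : y 3 * y 3 ∈ commutator (PG φ) := by
    rw [← TT_one, mem_TT, pow_one, map_mul, ← pow_two]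
    exact hy2 3 (by norm_num)
  have hz2S : ((y 3 * y 3 : PG φ) : (Matrix (Fin 12) (Fin 12) (ZMod 7))ˣ) ∈ SC (ZMod 7) 12 := h2 3
  have hne : y 3 * y 3 ≠ 1 := by
    intro h3
    have h4 := congrArg (fun u : PG φ => ((u : (Matrix (Fin 12) (Fin 12) (ZMod 7))ˣ) : Matrix (Fin 12) (Fin 12) (ZMod 7))) h3
    have h5 : F7.dec 12 (sqv 3) = 1 := by rw [← (hsq 3 (by norm_num)).2]; exact h4
    have h6 := congrFun (congrFun h5 0) 0
    exact ne_ok h6
  have ho2 : orderOf (y 3 * y 3) = 2 := by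
    apply orderOf_eq_prime _ hne
    have := hy4 3 (by norm_num)
    rw [← this, ← pow_two, ← pow_mul]
  -- order three
  let w : List ℕ := (Wd.pow (Wd.mul (Wd.mul (Wd.g 1) (Wd.g 5)) (Wd.g 6)) 5).flat fun c => c
  have hwl : ∀ c ∈ w, c < 7 := by decide
  have h4s : F7.dec 12 S4 = Matrix.scalar (Fin 12) (4 : ZMod 7) := by
    have h3 := dec_sc 3
    have e : scl.getD ((3 : Fin 6) : ℕ) 0 = S4 := rfl
    rw [e] at h3
    rw [h3]
    congr 1
  have hw3 := mem_of_code F7 12 rfl one_ok hx hwl (z := 4) (by decide) (by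
    rw [Nat.eq_of_beq_eq_true three_ok, h4s])
  have hval : (((w.map y).prod : PG φ) : (Matrix (Fin 12) (Fin 12) (ZMod 7))ˣ) = (w.map x).prod := by
    have := map_list_prod (PG φ).subtype (w.map y)
    rw [List.map_map] at this
    exact this
  have hz3S : (((w.map y).prod : PG φ) : (Matrix (Fin 12) (Fin 12) (ZMod 7))ˣ) ∈ SC (ZMod 7) 12 := by
    rw [hval]; exact hw3.1
  have hz3 : ((w.map y).prod) ^ 3 = 1 := by
    apply Subtype.ext
    apply Units.ext
    show ((((w.map y).prod : PG φ) : (Matrix (Fin 12) (Fin 12) (ZMod 7))ˣ) ^ 3 : (Matrix (Fin 12) (Fin 12) (ZMod 7))ˣ).val = 1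
    rw [hval, Units.val_pow_eq_pow_val, hw3.2, ← map_pow]
    have : (4 : ZMod 7) ^ 3 = 1 := by decide
    rw [this, map_one]
  have hne3 : (w.map y).prod ≠ 1 := by
    intro h3
    have h4 := congrArg (fun u : PG φ => ((u : (Matrix (Fin 12) (Fin 12) (ZMod 7))ˣ) : Matrix (Fin 12) (Fin 12) (ZMod 7))) h3
    have h5 : ((w.map x).prod : Matrix (Fin 12) (Fin 12) (ZMod 7)) = 1 := by rw [← hval]; exact h4
    rw [hw3.2] at h5
    have h6 := congrFun (congrFun h5 0) 0
    rw [Matrix.scalar_apply, Matrix.diagonal_apply_eq, Matrix.one_apply_eq] at h6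
    exact absurd h6 (by decide)
  have ho3 : orderOf (w.map y).prod = 3 := orderOf_eq_prime hz3 hne3
  have hc3 : (w.map y).prod ∈ commutator (PG φ) := by
    have h3 : (w.map y).prod ∈ TT (PG φ) 2 := by
      apply Subgroup.list_prod_mem
      intro t ht
      obtain ⟨c, hc, rfl⟩ := List.mem_map.1 ht
      exact hy2 c (hwl c hc)
    have h5 : (w.map y).prod ∈ TT (PG φ) (Nat.gcd 2 3) := TT_gcd h3 (TT_pow hz3)
    have e : Nat.gcd 2 3 = 1 := by norm_num
    rw [e] at h5
    rw [← TT_one]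
    exact h5
  have d2 := hord _ hz2S hz2
  have d3 := hord _ hz3S hc3
  rw [ho2] at d2
  rw [ho3] at d3
  exact Nat.Coprime.mul_dvd_of_dvd_of_dvd (by norm_num) d2 d3

end Cfsg.Agent.Lib.SuzCov
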