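import Cfsg.Agent.Lib.SMCox57
import Cfsg.Agent.Lib.SuzSM2
import Cfsg.Agent.Lib.SuzSM3
import Cfsg.Agent.Lib.SuzCov
import Cfsg.Agent.Lib.SuzG2
import Cfsg.Agent.Lib.H92StemB
import Cfsg.Agent.S1055

/-!
The Schur multiplier of the Suzuki group, from a bound for the multiplier of `G₂(4)` (helper57)
-/

set_option autoImplicit false
set_option linter.all false
set_option maxRecDepth 100000

namespace Cfsg.Agent.Lib.SuzSMM

open Subgroup Cfsg.Agent.Lib.SchurSylow Cfsg.Agent.Lib.H58SM Cfsg.Agent.Lib.H92SMPres Cfsg.Agent.Lib.SMCox57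
open Cfsg.Spor Cfsg.Agent.Lib.BenesWord Cfsg.Agent.Lib.CoxBridge Cfsg.Agent.Lib.CosetGroup
open Cfsg.Agent.Lib.K4 Cfsg.Agent.Lib.SuzRel Cfsg.Agent.Lib.SuzA
open scoped commutatorElement

/-- the presented group -/
abbrev Gz : Type := CoxPresented Suz.Gen Suz.edges Suz.extra

/-- all relators as words -/
def RW : List Wd := allRel 7 coxW extraW

theorem RW_eq : allRel C.nn (coxWds Suz.edges C.gen C.nn) C.extraW = RW := rfl

theorem m2 : mOk Suz2.Q.toDat RW = true := by decide +kernel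
theorem m3 : mOk Suz3.Q.toDat RW = true := by decide +kernel
theorem f2 : fOk Suz2.Q.toDat WS = true := by decide +kernel
theorem f3 : fOk Suz3.Q.toDat WS = true := by decide +kernel

/-- simple nonabelian groups are perfect -/
theorem perfect_of_simple {K : Type*} [Group K] (h : IsSimpleGroup K) (h' : ¬ IsMulCommutative K) : commutator K = ⊤ := by
  rcases (inferInstance : (commutator K).Normal).eq_bot_or_eq_top with h1 | h1
  · exfalso
    have h2 : center K = ⊤ := (commutator_eq_bot_iff_center_eq_top K).1 h1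
    apply h'
    refine ⟨⟨fun a b => ?_⟩⟩
    have h3 : b ∈ center K := by rw [h2]; trivial
    exact mem_center_iff.1 h3 a
  · exact h1

theorem perfect_congr {K K' : Type*} [Group K] [Group K'] (e : K ≃* K') (h : commutator K = ⊤) : commutator K' = ⊤ := by
  have h5 : (commutator K).map e.toMonoidHom = commutator K' := by
    rw [_root_.commutator_def, _root_.commutator_def, map_commutator, ← MonoidHom.range_eq_map,
      MonoidHom.range_eq_top.2 e.surjective]
  rw [← h5, h, ← MonoidHom.range_eq_map, MonoidHom.range_eq_top.2 e.surjective]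

/-- the subgroup -/
theorem exists_H : ∃ H : Subgroup Gz, H = closure (wset (C.x HL) WS) ∧ H.index = 1782 ∧
    Nonempty (H ≃* Cfsg.Lie.chevG2.group K4) ∧ commutator H = ⊤ := by
  obtain ⟨H, hH⟩ : ∃ H : Subgroup Gz, H = closure (wset (C.x HL) WS) := ⟨_, rfl⟩
  obtain ⟨e⟩ := SuzG2.main H hH
  refine ⟨H, hH, (Cfsg.Agent.Lib.SuzAIdx.main H hH).1, ⟨e⟩, ?_⟩
  obtain ⟨h1, h2⟩ := Cfsg.Agent.S1055.result (F := K4) (by
    have := card_K4
    by_contra hc
    push Not at hc
    have h3 : Fintype.card K4 ≤ 2 := by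
      have : (Finset.univ : Finset K4) ⊆ {0, 1} := by
        intro a _
        by_cases h0 : a = 0
        · simp [h0]
        · simp [hc a h0]
      have h4 := Finset.card_le_card this
      rw [Finset.card_univ] at h4
      exact h4.trans (Finset.card_le_two)
    omega)
  exact perfect_congr e.symm (perfect_of_simple h1 h2)

theorem card_Gz : Nat.card Gz = 448345497600 := SuzOrd.main.2.1

instance fin_Gz : Finite Gz := Nat.finite_of_card_ne_zero (by rw [card_Gz]; norm_num)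

theorem two (hG : PStemDvd 2 (Cfsg.Lie.chevG2.group K4) 2) : PStemDvd 2 Gz 2 := by
  obtain ⟨H, hH, hi, ⟨e⟩, hp⟩ := exists_H
  exact SMCox57.pStemDvd (p := 2) (s := 1) (q := 1) (N := 1) (M := 2) C HL RW RW_eq Suz2.Q.toDat (by decide) rfl Suz2.tab1_ok
    Suz2.tab2_ok Suz2.tab3_ok Suz2.w_ok Suz2.rel_ok m2 H WS hH hi f2 Suz2.nr Suz2.nr_ok Suz2.zl_ok rfl rfl (by decide)
    Suz2.chk_ok Suz2.gen_ok Suz2.par_ok (by intro r hr; cases hr) rfl (hG.congr e.symm) (not_dvd_index_of_perfect hp)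

theorem three (hG : PStemDvd 3 (Cfsg.Lie.chevG2.group K4) 1) : PStemDvd 3 Gz 3 := by
  obtain ⟨H, hH, hi, ⟨e⟩, hp⟩ := exists_H
  exact SMCox57.pStemDvd (p := 3) (s := 2) (q := 3) (N := 3) (M := 1) C HL RW RW_eq Suz3.Q.toDat (by decide) rfl Suz3.tab1_ok
    Suz3.tab2_ok Suz3.tab3_ok Suz3.w_ok Suz3.rel_ok m3 H WS hH hi f3 Suz3.nr Suz3.nr_ok Suz3.zl_ok rfl rfl (by decide)
    Suz3.chk_ok Suz3.gen_ok Suz3.par_ok (by intro r hr; fin_cases hr; decide) rfl (hG.congr e.symm)
    (not_dvd_index_of_perfect hp)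

theorem pStem_one_of {K : Type} [Group K] {p m : ℕ} [hp : Fact p.Prime] (hm : ¬ p ∣ m) (h : StemDvd K m) :
    PStemDvd p K 1 := by
  intro Γ _ _ σ hσ hpg
  have h1 := h Γ σ hσ
  obtain ⟨n, hn⟩ := IsPGroup.iff_card.1 hpg
  rw [hn] at h1 ⊢
  rcases Nat.eq_zero_or_pos n with h0 | h0
  · rw [h0, pow_zero]
  · exact absurd ((dvd_pow_self p h0.ne').trans h1) hm

theorem stem_six (hG : StemDvd (Cfsg.Lie.chevG2.group K4) 2) : StemDvd Gz 6 := by
  apply StemDvd.of_forall
  intro p hp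
  haveI : Fact p.Prime := ⟨hp⟩
  by_cases h2 : p = 2
  · subst h2; exact (two (hG.pStemDvd 2)).mono (by norm_num)
  by_cases h3 : p = 3
  · subst h3; exact (three (pStem_one_of (by norm_num) hG)).mono (by norm_num)
  by_cases h5 : p = 5
  · subst h5
    obtain ⟨H, hH, hi, ⟨e⟩, -⟩ := exists_H
    have h : PStemDvd 5 H 1 := (pStem_one_of (by norm_num) hG).congr e.symm
    exact (h.of_index (by rw [hi]; norm_num)).mono (by norm_num)
  refine (Cfsg.Agent.Lib.H92Stem.pStemDvd_of_sq ?_).mono (one_dvd _)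
  rw [card_Gz]
  intro hd
  have h1 : p ∣ 448345497600 := (dvd_pow_self p two_ne_zero).trans hd
  rw [show (448345497600 : ℕ) = 2 ^ 13 * (3 ^ 7 * (5 ^ 2 * (7 * (11 * 13)))) by norm_num] at h1
  rcases hp.dvd_mul.1 h1 with h | h1
  · exact absurd ((Nat.prime_dvd_prime_iff_eq hp Nat.prime_two).1 (hp.dvd_of_dvd_pow h)) h2
  rcases hp.dvd_mul.1 h1 with h | h1
  · exact absurd ((Nat.prime_dvd_prime_iff_eq hp Nat.prime_three).1 (hp.dvd_of_dvd_pow h)) h3
  rcases hp.dvd_mul.1 h1 with h | h1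
  · exact absurd ((Nat.prime_dvd_prime_iff_eq hp (by norm_num)).1 (hp.dvd_of_dvd_pow h)) h5
  rcases hp.dvd_mul.1 h1 with h | h1
  · have := (Nat.prime_dvd_prime_iff_eq hp (by norm_num)).1 h
    subst this; revert hd; norm_num
  rcases hp.dvd_mul.1 h1 with h | h
  · have := (Nat.prime_dvd_prime_iff_eq hp (by norm_num)).1 h
    subst this; revert hd; norm_num
  · have := (Nat.prime_dvd_prime_iff_eq hp (by norm_num)).1 h
    subst this; revert hd; norm_num

/-- the multiplier of the Suzuki group -/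
theorem mult (hG : StemDvd (Cfsg.Lie.chevG2.group K4) 2) : HasCyclicSchurMultiplier Suz 6 := by
  have h6 : StemDvd Suz 6 := stem_six hG
  refine hasCyclic_of_squarefree (by decide +kernel) h6 ?_
  obtain ⟨Γ, i1, i2, σ, hσ, hd⟩ := SuzCov.exists_stem6
  exact ⟨Γ, i1, i2, σ, hσ, Nat.dvd_antisymm (h6 Γ σ hσ) hd⟩

end Cfsg.Agent.Lib.SuzSMM
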