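import Mathlib
import Cfsg.Agent.Lib.SuzukiAut

/-!
`Out(Sz(q))` is isomorphic to the automorphism group of the field.
-/
set_option autoImplicit false

namespace Cfsg.Agent.Lib.SuzukiOut

open Cfsg.Agent.Lib.SuzukiOvoid Cfsg.Agent.Lib.SuzukiGroup Cfsg.Agent.Lib.SuzukiFin
  Cfsg.Agent.Lib.SuzukiStab Cfsg.Agent.Lib.SuzukiSyl Cfsg.Agent.Lib.SuzukiAut

variable {F : Type*} [Field F] [CharP F 2] (θ : F ≃+* F) (hθ : ∀ x, θ (θ x) = x ^ 2) (hne : ∃ x, θ x ≠ x ^ 2)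

include hne in
/-- an automorphism fixing the torus and fixing `U` modulo its centre is the identity -/
theorem eq_one_of_mod [Finite F] (ψ : MulAut (Gz θ)) (C : F → F → F) (hU : ∀ a b, ψ (Ug θ hθ a b) = Ug θ hθ a (C a b))
    (hH : ∀ κ, ψ (Hg θ hθ κ) = Hg θ hθ κ) : ψ = 1 := by
  have hβ : ∀ b, C 0 b = b := by
    intro b
    obtain ⟨a, ha⟩ := mulθ_surj θ hθ b
    have h1 : ψ (Ug θ hθ a 0 ^ 2) = (ψ (Ug θ hθ a 0)) ^ 2 := map_pow ψ _ 2
    rw [Ug_sq, hU, hU, Ug_sq] at h1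
    have h2 := (Ug_inj θ hθ h1).2
    rw [mul_comm (θ a) a, ha] at h2
    exact h2
  have hC : ∀ a b, C a b = C a 0 + b := by
    intro a b
    have h1 : Ug θ hθ a b = Ug θ hθ a 0 * Ug θ hθ 0 b := by rw [Ug_mul]; simp
    have h2 := congrArg ψ h1
    rw [map_mul, hU, hU, hU, Ug_mul, hβ] at h2
    have h3 := (Ug_inj θ hθ h2).2
    rw [h3]; simp
  have hadd : ∀ a c, C (a + c) 0 = C a 0 + C c 0 := by
    intro a c
    have h1 : Ug θ hθ a 0 * Ug θ hθ c 0 = Ug θ hθ (a + c) (0 + 0 + θ a * c) := Ug_mul θ hθ a 0 c 0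
    have h2 := congrArg ψ h1
    rw [map_mul, hU, hU, hU, Ug_mul, hC (a + c)] at h2
    have h3 := (Ug_inj θ hθ h2).2
    rw [zero_add, zero_add] at h3
    exact (add_right_cancel h3).symm
  have hmul : ∀ κ : Fˣ, C κ 0 = κ * θ κ * C 1 0 := by
    intro κ
    have h1 := Hg_conj θ hθ κ 1 0
    have h2 := congrArg ψ h1
    rw [map_mul, map_mul, map_inv, hH, hU, hU, Hg_conj, mul_one, mul_zero] at h2
    exact (Ug_inj θ hθ h2).2.symm
  have h10 : C 1 0 = 0 := by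
    obtain ⟨x, hx0, hx1⟩ := exists_ne θ hne
    have hx2 : x + 1 ≠ 0 := by
      intro h
      apply hx1
      have : x = -1 := eq_neg_of_add_eq_zero_left h
      rw [this, CharTwo.neg_eq]
    have e1 := hadd x 1
    have e2 := hmul (Units.mk0 x hx0)
    have e3 := hmul (Units.mk0 (x + 1) hx2)
    rw [Units.val_mk0] at e2 e3
    rw [e2, e3, map_add, map_one] at e1
    have e4 : (x + θ x) * C 1 0 = 0 := by linear_combination e1
    rcases mul_eq_zero.mp e4 with h | h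
    · exfalso
      have h5 : θ x = x := by
        have : θ x = -x := eq_neg_of_add_eq_zero_right h
        rw [this, CharTwo.neg_eq]
      rcases fix_eq θ hθ h5 with h6 | h6
      · exact hx0 h6
      · exact hx1 h6
    · exact h
  have hγ : ∀ a, C a 0 = 0 := by
    intro a
    by_cases ha : a = 0
    · have := hadd 0 0
      rw [add_zero] at this
      rw [ha]
      exact left_eq_add.mp this
    · have := hmul (Units.mk0 a ha)
      rw [Units.val_mk0, h10, mul_zero] at this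
      exact this
  apply eq_one_of_borel θ hθ hne ψ _ hH
  intro a b
  rw [hU, hC, hγ, zero_add]

include hθ hne in
theorem exists_conj_Z [Finite F] {t : Gz θ} (h1 : t ≠ 1) (h2 : t ^ 2 = 1) : ∃ g : Gz θ, g⁻¹ * t * g ∈ ZSub θ hθ := by
  have hodd : ¬ 2 ∣ Nat.card (ov θ) := by
    rw [card_ov]
    have : Fintype F := Fintype.ofFinite F
    have h3 : 2 ∣ Nat.card F := by
      rw [Nat.card_eq_fintype_card, ← CharP.cast_eq_zero_iff F 2]
      exact FiniteField.cast_card_eq_zero F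
    obtain ⟨k, hk⟩ := h3
    rw [hk]
    intro h
    have : 2 ∣ (2 * k) ^ 2 := Dvd.dvd.pow (Dvd.intro k rfl) two_ne_zero
    omega
  have hp : IsPGroup 2 (Subgroup.zpowers t) := by
    intro x
    obtain ⟨x, hx⟩ := x
    obtain ⟨k, rfl⟩ := Subgroup.mem_zpowers_iff.mp hx
    refine ⟨1, ?_⟩
    apply Subtype.ext
    simp only [pow_one, SubmonoidClass.mk_pow, OneMemClass.coe_one]
    rw [← zpow_natCast, ← zpow_mul, mul_comm, zpow_mul, zpow_natCast, h2, one_zpow]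
  obtain ⟨p, hpf⟩ := hp.nonempty_fixed_point_of_prime_not_dvd_card (ov θ) hodd
  have hpt : t • p = p := hpf ⟨t, Subgroup.mem_zpowers t⟩
  have := pretransitive θ hθ
  obtain ⟨g, rfl⟩ := MulAction.exists_smul_eq (Gz θ) (inf θ) p
  refine ⟨g, ?_⟩
  have h3 : (g⁻¹ * t * g) • inf θ = inf θ := by
    rw [mul_smul, mul_smul, hpt, inv_smul_smul]
  have h4 : (g⁻¹ * t * g) ^ 2 = 1 := by
    have : (g⁻¹ * t * g) ^ 2 = g⁻¹ * t ^ 2 * g := by rw [sq, sq]; group
    rw [this, h2]; group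
  have h5 : g⁻¹ * t * g ≠ 1 := by
    intro h
    apply h1
    have : t = g * (g⁻¹ * t * g) * g⁻¹ := by group
    rw [this, h]; group
  have hU : g⁻¹ * t * g ∈ USub θ hθ := by
    by_contra hnot
    obtain ⟨x, y, hxy⟩ := exists_fix θ hθ hne h3 hnot
    have h6 : (Ug θ hθ x y)⁻¹ * (g⁻¹ * t * g) * Ug θ hθ x y ∈ HSub θ hθ := by
      rw [mem_H_iff θ hθ hne]
      constructor
      · rw [mul_smul, mul_smul, Ug_inf, h3, inv_smul_eq_iff, Ug_inf]
      · rw [mul_smul, mul_smul, Ug_zero_pt, hxy, inv_smul_eq_iff, Ug_zero_pt]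
    obtain ⟨κ, hκ⟩ := (mem_HSub θ hθ).mp h6
    have h7 : Hg θ hθ (κ * κ) = 1 := by
      rw [← Hg_mul, ← hκ]
      have : (Ug θ hθ x y)⁻¹ * (g⁻¹ * t * g) * Ug θ hθ x y * ((Ug θ hθ x y)⁻¹ * (g⁻¹ * t * g) * Ug θ hθ x y) =
        (Ug θ hθ x y)⁻¹ * (g⁻¹ * t * g) ^ 2 * Ug θ hθ x y := by rw [sq]; group
      rw [this, h4]; group
    rw [Hg_eq_one] at h7
    have h8 : κ = 1 := by
      have h9 : (κ : F) ^ 2 = 1 := by
        rw [sq, ← Units.val_mul, h7, Units.val_one]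
      have t := c2 (F := F)
      have h10 : ((κ : F) - 1) ^ 2 = 0 := by linear_combination h9 + (1 - (κ : F)) * t
      exact Units.ext (sub_eq_zero.mp (pow_eq_zero_iff two_ne_zero |>.mp h10))
    rw [h8, Hg_one] at hκ
    apply h5
    have : g⁻¹ * t * g = Ug θ hθ x y * ((Ug θ hθ x y)⁻¹ * (g⁻¹ * t * g) * Ug θ hθ x y) * (Ug θ hθ x y)⁻¹ := by group
    rw [this, hκ]; group
  exact (mem_Z_iff_sq θ hθ hU).mpr h4

include hne in
/-- normalisation by inner automorphisms -/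
theorem exists_norm [Finite F] (φ : MulAut (Gz θ)) : ∃ g : Gz θ, (∀ u, (MulAut.conj g * φ) u ∈ USub θ hθ ↔ u ∈ USub θ hθ) ∧
    ∀ κ, (MulAut.conj g * φ) (Hg θ hθ κ) ∈ HSub θ hθ := by
  -- first step
  have step1 : ∃ g : Gz θ, ∀ u, (MulAut.conj g * φ) u ∈ USub θ hθ ↔ u ∈ USub θ hθ := by
    have hz1 : Ug θ hθ 0 1 ≠ 1 := fun h => one_ne_zero ((Ug_eq_one θ hθ).mp h).2
    have hz2 : (φ (Ug θ hθ 0 1)) ^ 2 = 1 := by
      rw [← map_pow, Ug_sq, map_zero, zero_mul, Ug_zero, map_one]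
    have hz3 : φ (Ug θ hθ 0 1) ≠ 1 := by
      intro h; exact hz1 (φ.injective (by rw [h, map_one]))
    obtain ⟨g, hg⟩ := exists_conj_Z θ hθ hne hz3 hz2
    refine ⟨g⁻¹, fun u => ?_⟩
    have hz4 : (MulAut.conj g⁻¹ * φ) (Ug θ hθ 0 1) ∈ ZSub θ hθ := by
      rw [MulAut.mul_apply, MulAut.conj_apply, inv_inv]; exact hg
    have hz5 : (MulAut.conj g⁻¹ * φ) (Ug θ hθ 0 1) ≠ 1 := by
      intro h; exact hz1 ((MulAut.conj g⁻¹ * φ).injective (by rw [h, map_one]))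
    rw [← commute_Z_iff θ hθ hne hz4 hz5, ← commute_Z_iff θ hθ hne (Uz_mem θ hθ 1) hz1, ← map_mul, ← map_mul]
    exact (MulAut.conj g⁻¹ * φ).injective.eq_iff
  obtain ⟨g, hg⟩ := step1
  obtain ⟨κ0, hκ0⟩ := IsCyclic.exists_generator (α := Fˣ)
  have hκ01 : κ0 ≠ 1 := by
    rintro rfl
    obtain ⟨κ, hκ⟩ := exists_ne_one θ hne
    have := hκ0 κ
    rw [Subgroup.zpowers_one_eq_bot, Subgroup.mem_bot] at this
    exact hκ this
  obtain ⟨φ', hφ'⟩ : ∃ φ', φ' = MulAut.conj g * φ := ⟨_, rfl⟩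
  rw [← hφ'] at hg
  have h1 : φ' (Hg θ hθ κ0) • inf θ = inf θ := by
    have hu : φ' (Ug θ hθ 1 0) ∈ USub θ hθ := (hg _).mpr (Ug_mem θ hθ 1 0)
    have hu1 : φ' (Ug θ hθ 1 0) ≠ 1 := by
      intro h
      exact one_ne_zero ((Ug_eq_one θ hθ).mp (φ'.injective (by rw [h, map_one]))).1
    refine fix_of_conj θ hθ hne hu hu1 ?_
    rw [← map_inv, ← map_mul, ← map_mul, Hg_conj, hg]
    exact Ug_mem θ hθ _ _
  have h2 : φ' (Hg θ hθ κ0) ∉ USub θ hθ := by
    rw [hg]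
    intro h
    have h3 := U_fix θ hθ h (fun h => hκ01 ((Hg_eq_one θ hθ).mp h)) (p := pt θ 0 0) (by rw [Hg_pt]; simp)
    exact pt_ne_inf θ 0 0 h3
  obtain ⟨x, y, hxy⟩ := exists_fix θ hθ hne h1 h2
  refine ⟨(Ug θ hθ x y)⁻¹ * g, ?_, ?_⟩
  · intro u
    rw [map_mul, mul_assoc, ← hφ', MulAut.mul_apply, MulAut.conj_apply, inv_inv]
    constructor
    · intro h
      rw [← hg]
      have := mul_mem (mul_mem (Ug_mem θ hθ x y) h) (inv_mem (Ug_mem θ hθ x y))
      rwa [show Ug θ hθ x y * ((Ug θ hθ x y)⁻¹ * φ' u * Ug θ hθ x y) * (Ug θ hθ x y)⁻¹ = φ' u by group] at this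
    · intro h
      exact mul_mem (mul_mem (inv_mem (Ug_mem θ hθ x y)) ((hg u).mpr h)) (Ug_mem θ hθ x y)
  · intro κ
    rw [map_mul, mul_assoc, ← hφ']
    have h0 : (MulAut.conj (Ug θ hθ x y)⁻¹ * φ') (Hg θ hθ κ0) ∈ HSub θ hθ := by
      rw [MulAut.mul_apply, MulAut.conj_apply, inv_inv, mem_H_iff θ hθ hne]
      constructor
      · rw [mul_smul, mul_smul, Ug_inf, h1, inv_smul_eq_iff, Ug_inf]
      · rw [mul_smul, mul_smul, Ug_zero_pt, hxy, inv_smul_eq_iff, Ug_zero_pt]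
    obtain ⟨k, hk⟩ := Subgroup.mem_zpowers_iff.mp (hκ0 κ)
    have h3 : Hg θ hθ κ = (Hg θ hθ κ0) ^ k := by
      rw [← hk]
      exact map_zpow (HHom θ hθ) κ0 k
    rw [h3, map_zpow]
    exact zpow_mem h0 k

theorem comm_aut {F : Type*} [Field F] [Finite F] (σ τ : F ≃+* F) (x : F) : σ (τ x) = τ (σ x) := by
  have : Fintype F := Fintype.ofFinite F
  have := FFAut.isCyclic_aut (F := F)
  have h : σ * τ = τ * σ := by
    obtain ⟨g, hg⟩ := IsCyclic.exists_generator (α := F ≃+* F)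
    obtain ⟨a, rfl⟩ := Subgroup.mem_zpowers_iff.mp (hg σ)
    obtain ⟨b, rfl⟩ := Subgroup.mem_zpowers_iff.mp (hg τ)
    rw [← zpow_add, ← zpow_add, add_comm]
  exact congrArg (fun ρ : F ≃+* F => ρ x) h

include hne in
/-- every automorphism is a product of an inner automorphism and a field automorphism -/
theorem exists_field [Finite F] (φ : MulAut (Gz θ)) : ∃ σ : F ≃+* F,
    (QuotientGroup.mk φ : Cfsg.Out (Gz θ)) = QuotientGroup.mk (fa θ hθ (comm_aut σ θ) hne) := by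
  obtain ⟨g, hgU, hgH⟩ := exists_norm θ hθ hne φ
  have hinn : ∀ (k : Gz θ) (ψ : MulAut (Gz θ)), (QuotientGroup.mk (MulAut.conj k * ψ) : Cfsg.Out (Gz θ)) = QuotientGroup.mk ψ := by
    intro k ψ
    have h1 : (QuotientGroup.mk (MulAut.conj k) : Cfsg.Out (Gz θ)) = 1 := (QuotientGroup.eq_one_iff _).mpr ⟨k, rfl⟩
    rw [QuotientGroup.mk_mul, h1, one_mul]
  rw [← hinn g φ]
  generalize MulAut.conj g * φ = ψ at hgU hgH
  have hU' : ∀ a b, ∃ p : F × F, ψ (Ug θ hθ a b) = Ug θ hθ p.1 p.2 := by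
    intro a b
    obtain ⟨x, y, h⟩ := (hgU _).mpr (Ug_mem θ hθ a b)
    exact ⟨(x, y), h⟩
  choose A hA using hU'
  have hH' : ∀ κ, ∃ μ : Fˣ, ψ (Hg θ hθ κ) = Hg θ hθ μ := fun κ => (mem_HSub θ hθ).mp (hgH κ)
  choose χ hχ using hH'
  have hA0 : ∀ b, (A 0 b).1 = 0 := by
    intro b
    have h1 : (ψ (Ug θ hθ 0 b)) ^ 2 = 1 := by
      rw [← map_pow, Ug_sq, map_zero, zero_mul, Ug_zero, map_one]
    have h2 : ψ (Ug θ hθ 0 b) ∈ USub θ hθ := (hgU _).mpr (Ug_mem θ hθ 0 b)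
    have h3 := (mem_Z_iff_sq θ hθ h2).mpr h1
    rw [hA, Ug_mem_Z] at h3
    exact h3
  have hAadd : ∀ a b c d, (A (a + c) (b + d + θ a * c)).1 = (A a b).1 + (A c d).1 := by
    intro a b c d
    have h1 := congrArg ψ (Ug_mul θ hθ a b c d)
    rw [map_mul, hA, hA, hA, Ug_mul] at h1
    exact (Ug_inj θ hθ h1).1.symm
  have hAb : ∀ a b, (A a b).1 = (A a 0).1 := by
    intro a b
    have := hAadd a 0 0 b
    rw [hA0] at this
    simpa using this
  have hαadd : ∀ a c, (A (a + c) 0).1 = (A a 0).1 + (A c 0).1 := by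
    intro a c
    have := hAadd a 0 c 0
    rw [hAb] at this
    exact this
  have hαmul : ∀ (κ : Fˣ) (a : F), (A (κ * a) 0).1 = χ κ * (A a 0).1 := by
    intro κ a
    have h1 := congrArg ψ (Hg_conj θ hθ κ a 0)
    rw [map_mul, map_mul, map_inv, hχ, hA, hA, Hg_conj] at h1
    have h2 := (Ug_inj θ hθ h1).1
    rw [hAb (κ * a)] at h2
    exact h2.symm
  have hα1 : (A 1 0).1 ≠ 0 := by
    intro h
    have h1 : ψ (Ug θ hθ 1 0) ∈ ZSub θ hθ := by rw [hA, Ug_mem_Z]; exact h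
    have h2 := (mem_Z_iff_sq θ hθ (ZSub_le θ hθ h1)).mp h1
    rw [← map_pow, Ug_sq] at h2
    have h3 := (Ug_eq_one θ hθ).mp (ψ.injective (h2.trans (map_one ψ).symm))
    rw [map_one, mul_one] at h3
    exact one_ne_zero h3.2
  have hα0 : (A 0 0).1 = 0 := hA0 0
  have hχα : ∀ κ : Fˣ, (χ κ : F) = (A κ 0).1 / (A 1 0).1 := by
    intro κ
    have := hαmul κ 1
    rw [mul_one] at this
    rw [this, mul_div_cancel_right₀ _ hα1]
  let s : F →+* F :=
    { toFun := fun x => (A x 0).1 / (A 1 0).1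
      map_one' := div_self hα1
      map_zero' := by rw [hα0, zero_div]
      map_add' := fun x y => by rw [hαadd, add_div]
      map_mul' := fun x y => by
        by_cases hx : x = 0
        · rw [hx, zero_mul, hα0, zero_div, zero_mul]
        · have h1 := hαmul (Units.mk0 x hx) y
          rw [Units.val_mk0, hχα, Units.val_mk0] at h1
          rw [h1, mul_div_assoc] }
  have hs : Function.Bijective s := Finite.injective_iff_bijective.mp s.injective
  let σ : F ≃+* F := RingEquiv.ofBijective s hs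
  have hσ : ∀ x, (A x 0).1 = (A 1 0).1 * σ x := by
    intro x
    change (A x 0).1 = (A 1 0).1 * ((A x 0).1 / (A 1 0).1)
    rw [mul_div_cancel₀ _ hα1]
  have hσχ : ∀ κ : Fˣ, (χ κ : F) = σ κ := by
    intro κ
    rw [hχα]; rfl
  refine ⟨σ, ?_⟩
  have ha1 : σ.symm (A 1 0).1 ≠ 0 := by rw [map_ne_zero]; exact hα1
  -- the corrected automorphism
  have key : MulAut.conj (Hg θ hθ (Units.mk0 _ ha1))⁻¹ * ((fa θ hθ (comm_aut σ θ) hne)⁻¹ * ψ) = 1 := by
    have hfU : ∀ a b, (fa θ hθ (comm_aut σ θ) hne)⁻¹ (Ug θ hθ a b) = Ug θ hθ (σ.symm a) (σ.symm b) := by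
      intro a b
      have : Ug θ hθ a b = fa θ hθ (comm_aut σ θ) hne (Ug θ hθ (σ.symm a) (σ.symm b)) := by
        rw [fa_Ug, RingEquiv.apply_symm_apply, RingEquiv.apply_symm_apply]
      rw [this, MulAut.inv_apply_self]
    have hfH : ∀ κ : Fˣ, (fa θ hθ (comm_aut σ θ) hne)⁻¹ (Hg θ hθ κ) = Hg θ hθ (Units.map (σ.symm : F →* F) κ) := by
      intro κ
      have : Hg θ hθ κ = fa θ hθ (comm_aut σ θ) hne (Hg θ hθ (Units.map (σ.symm : F →* F) κ)) := by
        rw [fa_Hg]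
        congr 1
        apply Units.ext
        simp
      rw [this, MulAut.inv_apply_self]
    apply eq_one_of_mod θ hθ hne _ (fun a b => ((σ.symm (A 1 0).1)⁻¹ * θ (σ.symm (A 1 0).1)⁻¹ * σ.symm (A a b).2))
    · intro a b
      have e1 : σ.symm (A a b).1 = σ.symm (A 1 0).1 * a := by
        rw [hAb, hσ a, map_mul, RingEquiv.symm_apply_apply]
      rw [MulAut.mul_apply, MulAut.mul_apply, hA, hfU, MulAut.conj_apply, Hg_inv, Hg_conj, e1]
      simp only [Units.val_inv_eq_inv_val, Units.val_mk0]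
      rw [← mul_assoc (σ.symm (A 1 0).1)⁻¹ (σ.symm (A 1 0).1) a, inv_mul_cancel₀ ha1, one_mul]
    · intro κ
      rw [MulAut.mul_apply, MulAut.mul_apply, hχ, hfH, MulAut.conj_apply, inv_inv, Hg_inv, Hg_mul, Hg_mul]
      congr 1
      rw [mul_comm, mul_inv_cancel_left]
      apply Units.ext
      change σ.symm (χ κ : F) = κ
      rw [hσχ, RingEquiv.symm_apply_apply]
  have h1 := congrArg (fun x : MulAut (Gz θ) => (QuotientGroup.mk x : Cfsg.Out (Gz θ))) key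
  rw [hinn, QuotientGroup.mk_mul, QuotientGroup.mk_inv, QuotientGroup.mk_one, inv_mul_eq_one] at h1
  exact h1.symm

include hne in
theorem field_inj [Finite F] {σ τ : F ≃+* F}
    (h : (QuotientGroup.mk (fa θ hθ (comm_aut σ θ) hne) : Cfsg.Out (Gz θ)) = QuotientGroup.mk (fa θ hθ (comm_aut τ θ) hne)) : σ = τ := by
  rw [QuotientGroup.eq] at h
  obtain ⟨g, hg⟩ := h
  have hact : ∀ a b, fa θ hθ (comm_aut σ θ) hne (g * Ug θ hθ a b * g⁻¹) = Ug θ hθ (τ a) (τ b) := by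
    intro a b
    have h1 := congrArg (fun x : MulAut (Gz θ) => fa θ hθ (comm_aut σ θ) hne (x (Ug θ hθ a b))) hg
    simp only [MulAut.conj_apply, MulAut.mul_apply, MulAut.apply_inv_self, fa_Ug] at h1
    exact h1
  have hact2 : ∀ a b, g * Ug θ hθ a b * g⁻¹ = Ug θ hθ (σ.symm (τ a)) (σ.symm (τ b)) := by
    intro a b
    apply (fa θ hθ (comm_aut σ θ) hne).injective
    rw [hact, fa_Ug, RingEquiv.apply_symm_apply, RingEquiv.apply_symm_apply]
  have hinf : g • inf θ = inf θ := by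
    refine fix_of_conj θ hθ hne (Ug_mem θ hθ 1 0) (fun h => one_ne_zero ((Ug_eq_one θ hθ).mp h).1) ?_
    rw [hact2]
    exact Ug_mem θ hθ _ _
  obtain ⟨c, d, κ, rfl⟩ := onePt θ hθ hne hinf
  have h2 : ∀ a, (κ : F) * a = σ.symm (τ a) := by
    intro a
    have h3 := hact2 a 0
    rw [Ug_Hg_conj] at h3
    exact (Ug_inj θ hθ h3).1
  have h4 : (κ : F) = 1 := by
    have := h2 1
    rw [mul_one, map_one, map_one] at this
    exact this
  ext a
  have := h2 a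
  rw [h4, one_mul, RingEquiv.eq_symm_apply] at this
  exact this

include hθ hne in
theorem card_out [Finite F] : Nat.card (Cfsg.Out (Gz θ)) = Nat.card (F ≃+* F) := by
  refine (Nat.card_congr (Equiv.ofBijective (fun σ : F ≃+* F =>
    (QuotientGroup.mk (fa θ hθ (comm_aut σ θ) hne) : Cfsg.Out (Gz θ))) ⟨?_, ?_⟩)).symm
  · intro σ τ h
    exact field_inj θ hθ hne h
  · intro x
    obtain ⟨φ, rfl⟩ := QuotientGroup.mk_surjective x
    obtain ⟨σ, hσ⟩ := exists_field θ hθ hne φ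
    exact ⟨σ, hσ.symm⟩

/-- `|Out(Sz(q))| = 2m + 1` -/
theorem card_out_Sz {F : Type*} [Field F] [Fintype F] {m : ℕ} (hm : 1 ≤ m) (hF : Fintype.card F = 2 ^ (2 * m + 1)) :
    Nat.card (Cfsg.Out ↥(Cfsg.Lie.Sz F (2 ^ (m + 1)))) = 2 * m + 1 := by
  have : CharP F 2 := SuzukiFin.charTwo hF
  rw [← card_out_congr (SuzukiLie.szEquiv m hm hF), SuzukiFin.Sz_eq m, card_out (th F m) (th_sq hF) (th_ne hm hF)]
  have : Fact (Nat.Prime 2) := ⟨Nat.prime_two⟩
  exact FFAut.card_aut hF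

end Cfsg.Agent.Lib.SuzukiOut
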