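import Mathlib
import Cfsg.Agent.Lib.HallPi
import Cfsg.Agent.Lib.MinNonNilp
import Cfsg.Agent.Lib.SubgroupTools
import Cfsg.Agent.Lib.ProdCard
import Cfsg.Prelude.Def_SolvableStructure

set_option autoImplicit false

/-!
# Hall complement systems and system normalizers

`IsComplementSystem`, `systemNormalizer` of `Def_SolvableStructure`.
-/

namespace Cfsg.Agent.Lib.SystemNorm

open Subgroup
open scoped Pointwise commutatorElement
open Cfsg.Agent.Lib.SubgroupTools Cfsg.Agent.Lib.HallPi

universe u

variable {G : Type u} [Group G]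

/-- If `A, B ≤ N` have coprime indices in `N`, then `N = AB`. -/
theorem exists_mul_eq_of_coprime_relIndex [Finite G] {A B N : Subgroup G} (hA : A ≤ N) (hB : B ≤ N)
    (h : (A.relIndex N).Coprime (B.relIndex N)) {n : G} (hn : n ∈ N) : ∃ a ∈ A, ∃ b ∈ B, a * b = n := by
  have h1 := card_mul_set A B
  have hi := card_mul_relIndex_of_le hA
  have hj := card_mul_relIndex_of_le hB
  have hAB : A ⊓ B ≤ N := inf_le_left.trans hA
  have hk := card_mul_relIndex_of_le hAB
  have hik : A.relIndex N ∣ (A ⊓ B).relIndex N :=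
    ⟨_, by rw [mul_comm]; exact (Subgroup.relIndex_mul_relIndex (A ⊓ B) A N inf_le_left hA).symm⟩
  have hjk : B.relIndex N ∣ (A ⊓ B).relIndex N :=
    ⟨_, by rw [mul_comm]; exact (Subgroup.relIndex_mul_relIndex (A ⊓ B) B N inf_le_right hB).symm⟩
  obtain ⟨m, hm⟩ := h.mul_dvd_of_dvd_of_dvd hik hjk
  rw [hm] at hk
  have hNpos : 0 < Nat.card N := Nat.card_pos
  have h2 : Nat.card ((A : Set G) * (B : Set G) : Set G) * Nat.card N = Nat.card N * m * Nat.card N := by
    calc Nat.card ((A : Set G) * (B : Set G) : Set G) * Nat.card N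
        = Nat.card ((A : Set G) * (B : Set G) : Set G) *
          (Nat.card (A ⊓ B : Subgroup G) * (A.relIndex N * B.relIndex N * m)) := by rw [hk]
      _ = (Nat.card ((A : Set G) * (B : Set G) : Set G) * Nat.card (A ⊓ B : Subgroup G)) *
          (A.relIndex N * B.relIndex N * m) := by ring
      _ = (Nat.card A * Nat.card B) * (A.relIndex N * B.relIndex N * m) := by rw [h1]
      _ = (Nat.card A * A.relIndex N) * m * (Nat.card B * B.relIndex N) := by ring
      _ = _ := by rw [hi, hj]
  have h3 : Nat.card ((A : Set G) * (B : Set G) : Set G) = Nat.card N * m := Nat.eq_of_mul_eq_mul_right hNpos h2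
  have hm0 : m ≠ 0 := by
    rintro rfl
    rw [mul_zero, mul_zero] at hk
    exact hNpos.ne hk
  have hsub : (A : Set G) * (B : Set G) ⊆ (N : Set G) := by
    rintro _ ⟨a, ha, b, hb, rfl⟩
    exact N.mul_mem (hA ha) (hB hb)
  have hle : (N : Set G).ncard ≤ ((A : Set G) * (B : Set G)).ncard := by
    rw [← Nat.card_coe_set_eq, ← Nat.card_coe_set_eq, h3]
    change Nat.card N ≤ _
    exact Nat.le_mul_of_pos_right _ (Nat.pos_of_ne_zero hm0)
  have heq := Set.eq_of_subset_of_ncard_le hsub hle (Set.toFinite _)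
  have hn' : n ∈ (A : Set G) * (B : Set G) := by rw [heq]; exact hn
  obtain ⟨a, ha, b, hb, hab⟩ := hn'
  exact ⟨a, ha, b, hb, hab⟩

theorem isPiHall_of_system [Finite G] {K : Nat.Primes → Subgroup G} (hK : IsComplementSystem K) (p : Nat.Primes) :
    Cfsg.IsPiHall {(p : ℕ)}ᶜ (K p) := by
  have h := hK p
  have hp := p.2
  rw [isPiHall_iff]
  constructor
  · intro q hq hqd
    rw [Set.mem_compl_iff, Set.mem_singleton_iff]
    rintro rfl
    have h1 := (K p).card_mul_index
    have h2 : (p : ℕ) * (p : ℕ) ^ (Nat.card G).factorization (p : ℕ) ∣ Nat.card G := by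
      rw [h] at h1
      obtain ⟨c, hc⟩ := hqd
      refine ⟨c, ?_⟩
      rw [hc] at h1
      rw [mul_right_comm]
      exact h1.symm
    rw [← pow_succ'] at h2
    exact Nat.pow_succ_factorization_not_dvd Nat.card_pos.ne' hp h2
  · rw [compl_compl, h]
    exact piNum_prime_pow hp rfl

theorem isComplementSystem_conj [Finite G] {K : Nat.Primes → Subgroup G} (hK : IsComplementSystem K) (g : G) :
    IsComplementSystem (fun p => MulAut.conj g • K p) := by
  intro p
  have h1 := (K p).card_mul_index
  have h2 := (MulAut.conj g • K p).card_mul_index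
  rw [card_conj_smul, ← h1] at h2
  exact (Nat.eq_of_mul_eq_mul_left Nat.card_pos h2).trans (hK p)

theorem conj_smul_sup_of_mem {H N : Subgroup G} [N.Normal] {n : G} (hn : n ∈ N) :
    (MulAut.conj n • H) ⊔ N = H ⊔ N := by
  have h1 : MulAut.conj n • (H ⊔ N) = H ⊔ N := conj_smul_self_of_mem (Subgroup.mem_sup_right hn)
  rw [conj_smul_sup, conj_smul_normal n N] at h1
  exact h1

/-- The indices of the members of a complement system in a normal subgroup. -/
theorem relIndex_system [Finite G] {K : Nat.Primes → Subgroup G} (hK : IsComplementSystem K) (N : Subgroup G)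
    [N.Normal] (p : Nat.Primes) : ∃ k : ℕ, (K p).relIndex N = (p : ℕ) ^ k := by
  have h1 := relIndex_eq_relIndex_sup (N := N) (H := K p) le_normalizer_of_normal
  have h2 : (K p).relIndex (N ⊔ K p) ∣ (K p).index := relIndex_dvd_index_of_le le_sup_right
  rw [← h1, hK p] at h2
  obtain ⟨k, -, hk⟩ := (Nat.dvd_prime_pow p.2).mp h2
  exact ⟨k, hk⟩

/-- Coprime relative indices multiply. -/
theorem relIndex_inf_of_coprime [Finite G] {A B N : Subgroup G} (h : (A.relIndex N).Coprime (B.relIndex N)) :
    (A ⊓ B).relIndex N = A.relIndex N * B.relIndex N := by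
  have h1 : A.relIndex N ∣ (A ⊓ B).relIndex N := Subgroup.relIndex_dvd_of_le_left N inf_le_left
  have h2 : B.relIndex N ∣ (A ⊓ B).relIndex N := Subgroup.relIndex_dvd_of_le_left N inf_le_right
  have h3 : (A ⊓ B).relIndex N ≤ A.relIndex N * B.relIndex N := Subgroup.relIndex_inf_le
  have h4 : (A ⊓ B).relIndex N ≠ 0 := by
    rw [Subgroup.relIndex]
    exact Subgroup.FiniteIndex.index_ne_zero
  exact le_antisymm h3 (Nat.le_of_dvd (Nat.pos_of_ne_zero h4) (h.mul_dvd_of_dvd_of_dvd h1 h2))

theorem prime_dvd_relIndex_inf [Finite G] {K : Nat.Primes → Subgroup G} (hK : IsComplementSystem K)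
    (N : Subgroup G) [N.Normal] (s : Finset Nat.Primes) :
    ∀ q : Nat.Primes, (q : ℕ) ∣ (s.inf K).relIndex N → q ∈ s := by
  classical
  induction s using Finset.induction_on with
  | empty =>
    intro q hq
    rw [Finset.inf_empty, Subgroup.relIndex_top_left] at hq
    exact absurd (Nat.dvd_one.mp hq) q.2.one_lt.ne'
  | insert p s hps ih =>
    intro q hq
    obtain ⟨k, hk⟩ := relIndex_system hK N p
    have hcop : ((K p).relIndex N).Coprime ((s.inf K).relIndex N) := by
      rw [hk]
      apply Nat.Coprime.pow_left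
      rw [Nat.Prime.coprime_iff_not_dvd p.2]
      intro h
      exact hps (ih p h)
    rw [Finset.inf_insert, relIndex_inf_of_coprime hcop, hk] at hq
    rw [Finset.mem_insert]
    rcases (Nat.Prime.dvd_mul q.2).mp hq with h | h
    · left
      exact Subtype.ext ((Nat.prime_dvd_prime_iff_eq q.2 p.2).mp (q.2.dvd_of_dvd_pow h))
    · right
      exact ih q h

theorem exists_conj_finset [Finite G] [Group.IsSolvable G] {K L : Nat.Primes → Subgroup G}
    (hK : IsComplementSystem K) (hL : IsComplementSystem L) (N : Subgroup G) [N.Normal]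
    (hN : ∀ p, K p ⊔ N = L p ⊔ N) (s : Finset Nat.Primes) :
    ∃ n ∈ N, ∀ p ∈ s, MulAut.conj n • K p = L p := by
  classical
  induction s using Finset.induction_on with
  | empty => exact ⟨1, N.one_mem, by simp⟩
  | insert q s hqs ih =>
    obtain ⟨n, hn, hns⟩ := ih
    set K' : Nat.Primes → Subgroup G := fun p => MulAut.conj n • K p with hK'def
    have hK' : IsComplementSystem K' := isComplementSystem_conj hK n
    have hsup : K' q ⊔ N = L q ⊔ N := by
      rw [hK'def]
      simp only
      rw [conj_smul_sup_of_mem hn, hN q]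
    -- conjugate inside M = K' q ⊔ N
    have hs : Group.IsSolvable ↥(K' q ⊔ N) := inferInstance
    obtain ⟨g, hg, hgL⟩ := exists_conj_eq_rel (M := K' q ⊔ N) hs
      (isPiHallOf_of_isPiHall (isPiHall_of_system hK' q) le_sup_left)
      (isPiHallOf_of_isPiHall (isPiHall_of_system hL q) (by rw [hsup]; exact le_sup_left))
    obtain ⟨k, hk, n', hn', rfl⟩ := (mem_sup_of_le_normalizer' (N := N) (H := K' q) le_normalizer_of_normal).mp
      (by rw [sup_comm]; exact hg)
    -- write k * n' = (k n' k⁻¹) * k
    have hn'' : k * n' * k⁻¹ ∈ N := Subgroup.Normal.conj_mem inferInstance n' hn' k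
    have h1 : MulAut.conj (k * n' * k⁻¹) • K' q = L q := by
      have h2 : MulAut.conj (k * n') • K' q = MulAut.conj (k * n' * k⁻¹) • (MulAut.conj k • K' q) := by
        have h3 : k * n' * k⁻¹ * k = k * n' := by group
        rw [← conj_smul_mul (k * n' * k⁻¹) k (K' q), h3]
      rw [← hgL, h2, conj_smul_self_of_mem hk]
    -- N = (N ∩ D)(N ∩ K' q) with D = ⋂_{p ∈ s} K' p
    have hcop : (((s.inf K') ⊓ N).relIndex N).Coprime ((K' q ⊓ N).relIndex N) := by
      rw [Subgroup.inf_relIndex_right, Subgroup.inf_relIndex_right]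
      obtain ⟨j, hj⟩ := relIndex_system hK' N q
      rw [hj]
      apply Nat.Coprime.pow_right
      apply Nat.Coprime.symm
      rw [Nat.Prime.coprime_iff_not_dvd q.2]
      intro h
      exact hqs (prime_dvd_relIndex_inf hK' N s q h)
    obtain ⟨d, hd, e, he, hde⟩ := exists_mul_eq_of_coprime_relIndex (inf_le_right : (s.inf K') ⊓ N ≤ N)
      (inf_le_right : K' q ⊓ N ≤ N) hcop hn''
    refine ⟨d * n, N.mul_mem hd.2 hn, ?_⟩
    intro p hp
    rw [conj_smul_mul]
    rcases Finset.mem_insert.mp hp with rfl | hps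
    · change MulAut.conj d • K' p = L p
      rw [← h1, ← hde, conj_smul_mul, conj_smul_self_of_mem he.1]
    · have h3 : MulAut.conj n • K p = L p := hns p hps
      rw [h3]
      have h4 : d ∈ L p := by
        have h5 : s.inf K' ≤ K' p := Finset.inf_le hps
        have h6 : d ∈ K' p := h5 hd.1
        rw [← h3]
        exact h6
      exact conj_smul_self_of_mem h4

/-- Two Hall complement systems of a finite solvable group that agree modulo the normal subgroup `N` are conjugate by
an element of `N`. -/
theorem exists_conj_mem [Finite G] [Group.IsSolvable G] {K L : Nat.Primes → Subgroup G}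
    (hK : IsComplementSystem K) (hL : IsComplementSystem L) (N : Subgroup G) [N.Normal]
    (hN : ∀ p, K p ⊔ N = L p ⊔ N) : ∃ n ∈ N, ∀ p, MulAut.conj n • K p = L p := by
  classical
  have hfin : {p : Nat.Primes | (p : ℕ) ∈ (Nat.card G).primeFactors}.Finite := by
    apply Set.Finite.preimage (Subtype.val_injective.injOn) (Finset.finite_toSet _)
  obtain ⟨n, hn, hns⟩ := exists_conj_finset hK hL N hN hfin.toFinset
  refine ⟨n, hn, fun p => ?_⟩
  by_cases hp : (p : ℕ) ∈ (Nat.card G).primeFactors
  · exact hns p (hfin.mem_toFinset.mpr hp)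
  · have h0 : (Nat.card G).factorization p = 0 := by
      rw [Nat.factorization_eq_zero_iff]
      right; left
      intro h
      exact hp (Nat.mem_primeFactors.mpr ⟨p.2, h, Nat.card_pos.ne'⟩)
    have hKp : K p = ⊤ := by
      rw [← Subgroup.index_eq_one, hK p, h0, pow_zero]
    have hLp : L p = ⊤ := by
      rw [← Subgroup.index_eq_one, hL p, h0, pow_zero]
    rw [hKp, hLp]
    exact conj_smul_normal n ⊤

/-- Hall complement systems of a finite solvable group are conjugate. -/
theorem exists_conj [Finite G] [Group.IsSolvable G] {K L : Nat.Primes → Subgroup G}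
    (hK : IsComplementSystem K) (hL : IsComplementSystem L) : ∃ g : G, ∀ p, MulAut.conj g • K p = L p := by
  obtain ⟨n, -, hn⟩ := exists_conj_mem hK hL ⊤ (fun p => by rw [sup_top_eq, sup_top_eq])
  exact ⟨n, hn⟩

/-- System normalizers are nilpotent. -/
theorem isNilpotent_systemNormalizer [Finite G] {K : Nat.Primes → Subgroup G} (hK : IsComplementSystem K) :
    Group.IsNilpotent (systemNormalizer K) := by
  apply Cfsg.Agent.Lib.MinNonNilp.isNilpotent_of_hasNormalPComplement
  intro p hp
  have hpf : Fact p.Prime := ⟨hp⟩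
  rw [Cfsg.Agent.Lib.PNilp.hasNormalPComplement_iff]
  have hle : systemNormalizer K ≤ normalizer (K ⟨p, hp⟩ : Set G) := iInf_le _ _
  refine ⟨(K ⟨p, hp⟩).subgroupOf (systemNormalizer K), normal_subgroupOf_iff_le_normalizer' hle, ?_, ?_⟩
  · rw [card_subgroupOf]
    intro h
    have h1 := (isPiHall_iff.mp (isPiHall_of_system hK ⟨p, hp⟩)).1 p hp (h.trans (card_dvd_of_le inf_le_left))
    exact h1 rfl
  · have h1 : (K ⟨p, hp⟩).relIndex (systemNormalizer K) = (K ⟨p, hp⟩).relIndex (systemNormalizer K ⊔ K ⟨p, hp⟩) :=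
      (Cfsg.Agent.Lib.ProdCard.relIndex_sup_right_of_le_normalizer hle).symm
    have h2 : (K ⟨p, hp⟩).relIndex (systemNormalizer K ⊔ K ⟨p, hp⟩) ∣ (K ⟨p, hp⟩).index :=
      relIndex_dvd_index_of_le le_sup_right
    rw [hK ⟨p, hp⟩] at h2
    obtain ⟨k, -, hk⟩ := (Nat.dvd_prime_pow hp).mp h2
    exact ⟨k, h1.trans hk⟩

theorem isComplementSystem_map [Finite G] {K : Nat.Primes → Subgroup G} (hK : IsComplementSystem K)
    (N : Subgroup G) [N.Normal] : IsComplementSystem (fun p => (K p).map (QuotientGroup.mk' N)) := by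
  intro p
  have h1 : ((K p).map (QuotientGroup.mk' N)).index ∣ (K p).index :=
    index_map_dvd _ (QuotientGroup.mk'_surjective N)
  rw [hK p] at h1
  obtain ⟨k, -, hk⟩ := (Nat.dvd_prime_pow p.2).mp h1
  have h2 := ((K p).map (QuotientGroup.mk' N)).card_mul_index
  rw [hk] at h2
  have h3 : ¬ (p : ℕ) ∣ Nat.card ((K p).map (QuotientGroup.mk' N)) := by
    intro h
    have h4 := (isPiHall_iff.mp (isPiHall_of_system hK p)).1 p p.2 (h.trans (card_map_dvd _ _))
    exact h4 rfl
  have h5 : (Nat.card (G ⧸ N)).factorization p = k := by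
    rw [← h2, Nat.factorization_mul Nat.card_pos.ne' (pow_ne_zero _ p.2.ne_zero), Finsupp.add_apply,
      Nat.factorization_eq_zero_of_not_dvd h3, p.2.factorization_pow, Finsupp.single_eq_same, zero_add]
  change ((K p).map (QuotientGroup.mk' N)).index = _
  rw [hk, h5]

theorem systemNormalizer_map [Finite G] [Group.IsSolvable G] {K : Nat.Primes → Subgroup G}
    (hK : IsComplementSystem K) (N : Subgroup G) [N.Normal] :
    systemNormalizer (fun p => (K p).map (QuotientGroup.mk' N)) =
      (systemNormalizer K).map (QuotientGroup.mk' N) := by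
  apply le_antisymm
  · intro x hx
    obtain ⟨g, rfl⟩ := QuotientGroup.mk'_surjective N x
    have hLs : IsComplementSystem (fun p => MulAut.conj g • K p) := isComplementSystem_conj hK g
    have hsup : ∀ p, K p ⊔ N = (MulAut.conj g • K p) ⊔ N := by
      intro p
      have h1 : QuotientGroup.mk' N g ∈ normalizer (((K p).map (QuotientGroup.mk' N) : Subgroup _) : Set (G ⧸ N)) :=
        (Subgroup.mem_iInf.mp hx) p
      rw [mem_normalizer_iff_conj_smul, ← map_conj_smul] at h1
      have h2 := congrArg (Subgroup.comap (QuotientGroup.mk' N)) h1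
      rw [Subgroup.comap_map_eq, Subgroup.comap_map_eq, QuotientGroup.ker_mk'] at h2
      exact h2.symm
    obtain ⟨n, hn, hnp⟩ := exists_conj_mem hK hLs N hsup
    refine ⟨n⁻¹ * g, ?_, ?_⟩
    · change n⁻¹ * g ∈ systemNormalizer K
      refine Subgroup.mem_iInf.mpr fun p => ?_
      rw [mem_normalizer_iff_conj_smul, conj_smul_mul]
      have h3 : MulAut.conj g • K p = MulAut.conj n • K p := (hnp p).symm
      rw [h3, ← conj_smul_mul, inv_mul_cancel, conj_smul_one]
    · rw [map_mul, map_inv]
      have : QuotientGroup.mk' N n = 1 := (QuotientGroup.eq_one_iff n).mpr hn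
      rw [this, inv_one, one_mul]
  · refine le_iInf fun p => ?_
    exact (Subgroup.map_mono (iInf_le _ p)).trans (Subgroup.le_normalizer_map _)

theorem normalClosure_systemNormalizer [Finite G] [Group.IsSolvable G] {K : Nat.Primes → Subgroup G}
    (hK : IsComplementSystem K) : normalClosure ((systemNormalizer K : Subgroup G) : Set G) = ⊤ := by
  by_contra hne
  set R := normalClosure ((systemNormalizer K : Subgroup G) : Set G) with hR
  have hRn : R.Normal := Subgroup.normalClosure_normal
  have hnt : Nontrivial (G ⧸ R) := by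
    rw [← Finite.one_lt_card_iff_nontrivial]
    change 1 < R.index
    have h1 : R.index ≠ 1 := fun h => hne (Subgroup.index_eq_one.mp h)
    have h2 : R.index ≠ 0 := Subgroup.FiniteIndex.index_ne_zero
    omega
  have hlt := Group.IsSolvable.commutator_lt_top_of_nontrivial (G ⧸ R)
  set M : Subgroup G := (commutator (G ⧸ R)).comap (QuotientGroup.mk' R) with hM
  have hMn : M.Normal := inferInstance
  have hRM : R ≤ M := by
    intro x hx
    have : QuotientGroup.mk' R x = 1 := (QuotientGroup.eq_one_iff x).mpr hx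
    rw [hM, Subgroup.mem_comap, this]
    exact Subgroup.one_mem _
  have hMtop : M ≠ ⊤ := by
    intro h
    apply hlt.ne
    have h2 : (commutator (G ⧸ R)) = M.map (QuotientGroup.mk' R) := by
      rw [hM, Subgroup.map_comap_eq_self_of_surjective (QuotientGroup.mk'_surjective R)]
    rw [h2, h, Subgroup.map_top_of_surjective _ (QuotientGroup.mk'_surjective R)]
  have hcomm : ∀ a b : G ⧸ M, a * b = b * a := by
    intro a b
    obtain ⟨a, rfl⟩ := QuotientGroup.mk'_surjective M a
    obtain ⟨b, rfl⟩ := QuotientGroup.mk'_surjective M b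
    rw [← map_mul, ← map_mul]
    apply QuotientGroup.eq.mpr
    rw [hM, Subgroup.mem_comap, map_mul, map_inv, map_mul, map_mul]
    have h3 := Subgroup.commutator_mem_commutator (Subgroup.mem_top (QuotientGroup.mk' R b)⁻¹)
      (Subgroup.mem_top (QuotientGroup.mk' R a)⁻¹)
    rw [commutatorElement_def] at h3
    rw [commutator_def]
    convert h3 using 1
    group
  have h4 := systemNormalizer_map hK M
  have h5 : systemNormalizer (fun p => (K p).map (QuotientGroup.mk' M)) = ⊤ := by
    rw [systemNormalizer, iInf_eq_top]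
    intro p
    rw [Subgroup.eq_top_iff']
    intro x
    rw [mem_normalizer_iff]
    intro y
    rw [hcomm x y, mul_assoc, mul_inv_cancel, mul_one]
  have h6 : (systemNormalizer K).map (QuotientGroup.mk' M) = ⊥ := by
    rw [Subgroup.map_eq_bot_iff, QuotientGroup.ker_mk']
    exact (Subgroup.subset_normalClosure (s := ((systemNormalizer K : Subgroup G) : Set G))).trans hRM
  rw [h5, h6] at h4
  apply hMtop
  rw [Subgroup.eq_top_iff']
  intro x
  have h7 : QuotientGroup.mk' M x ∈ (⊤ : Subgroup (G ⧸ M)) := Subgroup.mem_top _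
  rw [h4, Subgroup.mem_bot] at h7
  exact (QuotientGroup.eq_one_iff x).mp h7

end Cfsg.Agent.Lib.SystemNorm
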