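import Mathlib
import Cfsg.Agent.Lib.SystemNorm
import Cfsg.Agent.Lib.Carter
import Cfsg.Agent.Lib.Supersolvable2
import Cfsg.Agent.Lib.MinNormSolv
import Cfsg.Agent.Lib.Subnormal
import Cfsg.Agent.Lib.FratFit
import Cfsg.Agent.Lib.NilpotentHall
import Cfsg.Agent.Lib.ProdHall
import Cfsg.Agent.Lib.SmallSimple

/-!
System normalizers: cover-avoidance and Carter subgroups.  (helper10)
-/

set_option autoImplicit false

namespace Cfsg.Agent.Lib.SysNorm2

open Subgroup Pointwise
open Cfsg.Agent.Lib.SystemNorm Cfsg.Agent.Lib.HallPi Cfsg.Agent.Lib.Carter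
open Cfsg.Agent.Lib.SubgroupTools (card_mul_relIndex_of_le card_subgroupOf_of_le mem_conj_smul
  conj_smul_eq_map mem_normalizer_iff_conj_smul card_sup_of_disjoint isSolvable_of_le)
open Cfsg.Agent.Lib.LocBase (IsSyl)

universe u

theorem mem_systemNormalizer {G : Type*} [Group G] {K : Nat.Primes → Subgroup G} {x : G} :
    x ∈ Cfsg.systemNormalizer K ↔ ∀ p, x ∈ normalizer (K p : Set G) := by
  unfold Cfsg.systemNormalizer
  rw [mem_iInf]

/-- A minimal normal subgroup which is not central meets each system normalizer trivially. -/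
theorem inf_eq_bot_of_minimal {G : Type u} [Group G] [Finite G] [hsol : Group.IsSolvable G]
    {K : Nat.Primes → Subgroup G} (hK : Cfsg.IsComplementSystem K) {N : Subgroup G} [hNn : N.Normal]
    (hN : N ≠ ⊥) (hNmin : ∀ M : Subgroup G, M.Normal → M ≤ N → M = ⊥ ∨ M = N)
    (hnc : centralizer (N : Set G) ≠ ⊤) : N ⊓ Cfsg.systemNormalizer K = ⊥ := by
  obtain ⟨p, hp, hNab, hNel⟩ := Lib.MinNormSolv.elementary_of_minimal hN hNmin
  have : Fact p.Prime := ⟨hp⟩
  have hNpg : IsPGroup p N := Lib.SubgroupTools.isPGroup_of_forall_pow_eq_one hNel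
  obtain ⟨d, hd, hNcard⟩ := Lib.MinNormSolv.card_eq_prime_pow hN hp hNel
  set Kp := K ⟨p, hp⟩ with hKp
  have hHall := isPiHall_of_system hK ⟨p, hp⟩
  rw [isPiHall_iff] at hHall
  have hpK : ¬ p ∣ Nat.card Kp := by
    intro h
    exact hHall.1 p hp h rfl
  have hNK : N ⊓ Kp = ⊥ := by
    apply Lib.SubgroupTools.inf_eq_bot_of_coprime'
    rw [hNcard]
    exact Nat.Coprime.pow_left d ((Nat.Prime.coprime_iff_not_dvd hp).mpr hpK)
  have hNC : N ≤ centralizer (N : Set G) := by
    intro a ha
    rw [mem_centralizer_iff]
    intro b hb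
    exact congrArg Subtype.val (hNab.is_comm.comm ⟨b, hb⟩ ⟨a, ha⟩)
  rw [eq_bot_iff]
  intro x hx
  obtain ⟨hxN, hxD⟩ := mem_inf.mp hx
  have hxK := mem_systemNormalizer.mp hxD ⟨p, hp⟩
  -- `x` centralizes `K_p`
  have hxC : x ∈ centralizer (Kp : Set G) := by
    rw [mem_centralizer_iff]
    intro k hk
    have h1 : k * x * k⁻¹ * x⁻¹ ∈ N ⊓ Kp := by
      refine mem_inf.mpr ⟨N.mul_mem (hNn.conj_mem x hxN k) (N.inv_mem hxN), ?_⟩
      have h2 : x * k⁻¹ * x⁻¹ ∈ Kp := (mem_normalizer_iff.mp hxK _).mp (Kp.inv_mem hk)
      have h3 : k * x * k⁻¹ * x⁻¹ = k * (x * k⁻¹ * x⁻¹) := by group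
      rw [h3]
      exact Kp.mul_mem hk h2
    rw [hNK, mem_bot] at h1
    have h4 : k * x * (x * k)⁻¹ = 1 := by rw [← h1]; group
    exact mul_inv_eq_one.mp h4
  set C : Subgroup G := centralizer (N : Set G) with hC
  have hCn : C.Normal := inferInstance
  -- key: any normal `L` with `x ∈ C(L)`, `¬ L ≤ C` gives the claim
  have key : ∀ L : Subgroup G, L.Normal → ¬ L ≤ C → ∀ y ∈ N, y ∈ centralizer (L : Set G) → y = 1 := by
    intro L hL hLC y hyN hyL
    rcases hNmin (N ⊓ centralizer (L : Set G)) inferInstance inf_le_left with h1 | h1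
    · have : y ∈ N ⊓ centralizer (L : Set G) := mem_inf.mpr ⟨hyN, hyL⟩
      rwa [h1, mem_bot] at this
    · exfalso
      apply hLC
      rw [hC, le_centralizer_iff]
      exact inf_eq_left.mp h1
  have hnt : Nontrivial (G ⧸ C) := by
    rw [← Finite.one_lt_card_iff_nontrivial]
    have h1 : Nat.card (G ⧸ C) = C.index := rfl
    rw [h1]
    have h2 : C.index ≠ 1 := by rwa [ne_eq, index_eq_one]
    have h3 : C.index ≠ 0 := index_ne_zero_of_finite
    omega
  obtain ⟨Lb, hLbn, hLb, hLbmin'⟩ := Lib.Subnormal.exists_isMinNormal (G := G ⧸ C)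
  have hLbmin : ∀ K : Subgroup (G ⧸ C), K.Normal → K ≤ Lb → K = ⊥ ∨ K = Lb := by
    intro K hK hKN
    by_cases h : K = ⊥
    · exact Or.inl h
    · exact Or.inr (hLbmin' K hK hKN h)
  obtain ⟨q, hq, hLab, hLel⟩ := Lib.MinNormSolv.elementary_of_minimal hLb hLbmin
  have : Fact q.Prime := ⟨hq⟩
  obtain ⟨e, he, hLcard⟩ := Lib.MinNormSolv.card_eq_prime_pow hLb hq hLel
  have hsurj := QuotientGroup.mk'_surjective C
  set L : Subgroup G := Lb.comap (QuotientGroup.mk' C) with hL
  have hLn : L.Normal := hLbn.comap _
  have hLC : ¬ L ≤ C := by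
    intro h
    apply hLb
    rw [← map_comap_eq_self_of_surjective hsurj Lb, ← hL, Subgroup.map_eq_bot_iff,
      QuotientGroup.ker_mk']
    exact h
  have hCL : C ≤ L := by
    intro y hy
    have : QuotientGroup.mk' C y = 1 := (QuotientGroup.eq_one_iff y).mpr hy
    show QuotientGroup.mk' C y ∈ Lb
    rw [this]; exact one_mem _
  rw [mem_bot]
  by_cases hqp : q = p
  · subst hqp
    -- impossible
    exfalso
    obtain ⟨S, hS⟩ := Lib.LocBase.exists_isSyl q L
    have hLCS : L ≤ C ⊔ S := by
      have h1 : (C ⊔ S).relIndex L = 1 := by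
        by_contra h
        obtain ⟨r, hr, hrd⟩ := Nat.exists_prime_and_dvd h
        have h2 : (C ⊔ S).relIndex L ∣ C.relIndex L := relIndex_dvd_of_le_left L le_sup_left
        have h3 : C.relIndex L = q ^ e := by
          rw [← hLcard, Lib.Supersolvable.relIndex_eq_card_map_mk', hL,
            map_comap_eq_self_of_surjective hsurj]
        have h4 : r ∣ q ^ e := h3 ▸ (hrd.trans h2)
        have h5 : r = q := (Nat.prime_dvd_prime_iff_eq hr hq).mp (hr.dvd_of_dvd_pow h4)
        apply hS.ndvd
        rw [← relIndex_mul_relIndex S (C ⊔ S) L le_sup_right (sup_le hCL hS.le), ← h5]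
        exact hrd.mul_left _
      exact relIndex_eq_one.mp h1
    have h6 : N ⊓ centralizer ((N ⊔ S : Subgroup G) : Set G) ≠ ⊥ := by
      apply Lib.Supersolvable.inf_centralizer_ne_bot (p := q)
      · exact Lib.LocBase.isPGroup_sup hNpg hS.pgroup le_normalizer_of_normal
      · exact le_sup_left
      · exact le_normalizer_of_normal
      · exact hN
    apply h6
    rw [eq_bot_iff]
    intro y hy
    obtain ⟨hyN, hyC⟩ := mem_inf.mp hy
    rw [mem_bot]
    apply key L hLn hLC y hyN
    -- y centralizes C and S
    have h7 : C ⊔ S ≤ centralizer {y} := by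
      refine sup_le ?_ ?_
      · intro c hc
        rw [mem_centralizer_singleton_iff]
        exact (mem_centralizer_iff.mp hc y hyN).symm
      · intro s hs
        rw [mem_centralizer_singleton_iff]
        exact mem_centralizer_iff.mp hyC s (mem_sup_right hs)
    rw [mem_centralizer_iff]
    intro l hl
    exact mem_centralizer_singleton_iff.mp (h7 (hLCS hl))
  · -- `L ≤ K_p C`
    have hHall' := isPiHall_of_system (isComplementSystem_map hK C) ⟨p, hp⟩
    have h1 : Lb ≤ Kp.map (QuotientGroup.mk' C) := by
      apply le_of_normal_piNum _ hHall'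
      rw [hLcard]
      exact piNum_prime_pow hq (by simpa using hqp)
    have h2 : L ≤ Kp ⊔ C := by
      have h3 := comap_mono (f := QuotientGroup.mk' C) h1
      rwa [comap_map_eq, QuotientGroup.ker_mk'] at h3
    apply key L hLn hLC x hxN
    have h7 : Kp ⊔ C ≤ centralizer {x} := by
      refine sup_le ?_ ?_
      · intro s hs
        rw [mem_centralizer_singleton_iff]
        exact mem_centralizer_iff.mp hxC s hs
      · intro c hc
        rw [mem_centralizer_singleton_iff]
        exact (mem_centralizer_iff.mp hc x hxN).symm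
    rw [mem_centralizer_iff]
    intro l hl
    exact mem_centralizer_singleton_iff.mp (h7 (h2 hl))

/-- central elements lie in the system normalizers -/
theorem center_le_systemNormalizer {G : Type*} [Group G] (K : Nat.Primes → Subgroup G) :
    center G ≤ Cfsg.systemNormalizer K := by
  intro x hx
  rw [mem_systemNormalizer]
  intro p
  rw [mem_normalizer_iff]
  intro y
  rw [mem_center_iff] at hx
  rw [← hx y, mul_inv_cancel_right]

/-- **Cover-avoidance** of system normalizers. -/
theorem cover_avoid {G : Type u} [Group G] [Finite G] [hsol : Group.IsSolvable G]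
    {K : Nat.Primes → Subgroup G} (hK : Cfsg.IsComplementSystem K) {A B : Subgroup G} [hAn : A.Normal]
    [hBn : B.Normal] (hAB : A < B)
    (hchief : ∀ N : Subgroup G, N.Normal → A ≤ N → N ≤ B → N = A ∨ N = B) :
    (⁅B, (⊤ : Subgroup G)⁆ ≤ A → B ≤ A ⊔ Cfsg.systemNormalizer K) ∧
      (¬ ⁅B, (⊤ : Subgroup G)⁆ ≤ A → B ⊓ Cfsg.systemNormalizer K ≤ A) := by
  set π := QuotientGroup.mk' A with hπ
  have hsurj : Function.Surjective π := QuotientGroup.mk'_surjective A
  have hsys := systemNormalizer_map hK A
  have hcomm : ∀ b ∈ B, ∀ g : G, ⁅B, (⊤ : Subgroup G)⁆ ≤ A → b * g * b⁻¹ * g⁻¹ ∈ A := by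
    intro b hb g h
    exact h (commutator_mem_commutator hb (mem_top g))
  constructor
  · intro h b hb
    have h1 : π b ∈ center (G ⧸ A) := by
      rw [mem_center_iff]
      intro y
      obtain ⟨g, rfl⟩ := hsurj y
      have h2 := hcomm b hb g h
      have h3 : π (b * g * b⁻¹ * g⁻¹) = 1 := (QuotientGroup.eq_one_iff _).mpr h2
      have h4 : π b * π g * (π g * π b)⁻¹ = 1 := by
        rw [← h3]; simp only [map_mul, map_inv, mul_inv_rev]; group
      exact (mul_inv_eq_one.mp h4).symm
    have h2 := center_le_systemNormalizer (fun p => (K p).map π) h1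
    rw [hsys] at h2
    obtain ⟨d, hd, hdb⟩ := h2
    have h3 : d⁻¹ * b ∈ A := QuotientGroup.eq.mp hdb
    have h4 : b = d * (d⁻¹ * b) := by group
    rw [h4]
    exact mul_mem (mem_sup_right hd) (mem_sup_left h3)
  · intro h
    set Bb : Subgroup (G ⧸ A) := B.map π with hBb
    have hBbn : Bb.Normal := hBn.map _ hsurj
    have hcm : Bb.comap π = B := by
      rw [hBb, comap_map_eq, hπ, QuotientGroup.ker_mk', sup_eq_left]
      exact hAB.le
    have hBb1 : Bb ≠ ⊥ := by
      intro h1
      rw [hBb, Subgroup.map_eq_bot_iff, hπ, QuotientGroup.ker_mk'] at h1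
      exact absurd h1 (not_le_of_gt hAB)
    have hmin : ∀ M : Subgroup (G ⧸ A), M.Normal → M ≤ Bb → M = ⊥ ∨ M = Bb := by
      intro M hM hMB
      have h1 : A ≤ M.comap π := by
        intro x hx
        have : π x = 1 := (QuotientGroup.eq_one_iff x).mpr hx
        show π x ∈ M
        rw [this]; exact one_mem _
      have h2 : M.comap π ≤ B := by rw [← hcm]; exact comap_mono hMB
      rcases hchief (M.comap π) (hM.comap _) h1 h2 with h3 | h3
      · left
        rw [← map_comap_eq_self_of_surjective hsurj M, h3, Subgroup.map_eq_bot_iff, hπ,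
          QuotientGroup.ker_mk']
      · right
        rw [← map_comap_eq_self_of_surjective hsurj M, h3]
    have hnc : centralizer (Bb : Set (G ⧸ A)) ≠ ⊤ := by
      intro hc
      apply h
      rw [commutator_le]
      intro b hb g _
      have h1 : π g ∈ centralizer (Bb : Set (G ⧸ A)) := by rw [hc]; trivial
      have h2 := mem_centralizer_iff.mp h1 (π b) (mem_map_of_mem π hb)
      have h3 : π (b * g * b⁻¹ * g⁻¹) = 1 := by
        simp only [map_mul, map_inv]
        rw [h2]; group
      exact (QuotientGroup.eq_one_iff _).mp h3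
    have h1 := inf_eq_bot_of_minimal (isComplementSystem_map hK A) hBb1 hmin hnc
    rw [hsys] at h1
    intro x hx
    obtain ⟨hxB, hxD⟩ := mem_inf.mp hx
    have h2 : π x ∈ Bb ⊓ (Cfsg.systemNormalizer K).map π :=
      mem_inf.mpr ⟨mem_map_of_mem π hxB, mem_map_of_mem π hxD⟩
    rw [h1, mem_bot] at h2
    exact (QuotientGroup.eq_one_iff x).mp h2

/-! ### Reduction of complement systems into subgroups, Carter subgroups -/

theorem isComplementSystem_iff {G : Type u} [Group G] [Finite G] {K : Nat.Primes → Subgroup G} :
    Cfsg.IsComplementSystem K ↔ ∀ p : Nat.Primes, Cfsg.IsPiHall {(p : ℕ)}ᶜ (K p) := by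
  refine ⟨fun h p => isPiHall_of_system h p, fun h p => ?_⟩
  have hp := p.2
  have h1 := isPiHall_iff.mp (h p)
  rw [compl_compl] at h1
  have h2 : (K p).index ≠ 0 := index_ne_zero_of_finite
  obtain ⟨k, hk⟩ : ∃ k : ℕ, (K p).index = (p : ℕ) ^ k :=
    ⟨_, Nat.eq_prime_pow_of_unique_prime_dvd h2 (fun {d} hd hdd => h1.2 d hd hdd)⟩
  have h3 : ¬ (p : ℕ) ∣ Nat.card (K p) := fun hd => h1.1 p hp hd rfl
  rw [← (K p).card_mul_index, hk, Nat.factorization_mul Nat.card_pos.ne' (by rw [← hk]; exact h2)]
  rw [Finsupp.add_apply, Nat.factorization_eq_zero_of_not_dvd h3, zero_add,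
    hp.factorization_pow, Finsupp.single_eq_same]

/-- the system `K` reduces into `C` -/
def Reduces {G : Type*} [Group G] (K : Nat.Primes → Subgroup G) (C : Subgroup G) : Prop :=
  ∀ p : Nat.Primes, PiNum {(p : ℕ)} ((K p).relIndex C)

theorem isComplementSystem_subgroupOf {G : Type u} [Group G] [Finite G]
    {K : Nat.Primes → Subgroup G} (hK : Cfsg.IsComplementSystem K) {H : Subgroup G}
    (hH : Reduces K H) : Cfsg.IsComplementSystem (fun p => (K p).subgroupOf H) := by
  rw [isComplementSystem_iff] at hK ⊢
  intro p
  rw [isPiHall_iff, compl_compl]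
  refine ⟨?_, hH p⟩
  rw [Lib.SubgroupTools.card_subgroupOf]
  exact (isPiHall_iff.mp (hK p)).1.of_dvd (card_dvd_of_le inf_le_left)

theorem relIndex_map_dvd {G G' : Type*} [Group G] [Group G'] [Finite G] (f : G →* G')
    (A B : Subgroup G) : (A.map f).relIndex (B.map f) ∣ A.relIndex B := by
  rw [← relIndex_comap]
  exact relIndex_dvd_of_le_left B (le_comap_map f A)

/-- images of Carter subgroups -/
theorem isCarter_map {G : Type u} [Group G] [Finite G] [hsol : Group.IsSolvable G] {C : Subgroup G}
    (hC : IsCarter C) (N : Subgroup G) [hN : N.Normal] :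
    IsCarter (C.map (QuotientGroup.mk' N)) := by
  have hsurj := QuotientGroup.mk'_surjective N
  have hC1 := hC.1
  refine ⟨Group.nilpotent_of_surjective _ ((QuotientGroup.mk' N).subgroupMap_surjective C), ?_⟩
  apply le_antisymm _ le_normalizer
  intro x hx
  obtain ⟨g, rfl⟩ := hsurj x
  set H : Subgroup G := C ⊔ N with hH
  have hcm : (C.map (QuotientGroup.mk' N)).comap (QuotientGroup.mk' N) = H := by
    rw [comap_map_eq, QuotientGroup.ker_mk']
  have hgH : g ∈ normalizer (H : Set G) := by
    rw [mem_normalizer_iff]
    intro y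
    rw [← hcm]
    have := mem_normalizer_iff.mp hx (QuotientGroup.mk' N y)
    rw [mem_comap, mem_comap, map_mul, map_mul, map_inv]
    exact this
  have hgC : MulAut.conj g • C ≤ H := by
    have h1 := Lib.SubgroupTools.conj_smul_mono g (le_sup_left : C ≤ H)
    rwa [mem_normalizer_iff_conj_smul.mp hgH] at h1
  have hCg := hC.conj g
  obtain ⟨h, hh⟩ := carter_conj (G := H) inferInstance (hCg.subgroupOf hgC)
    (hC.subgroupOf (le_sup_left : C ≤ H))
  have h1 := congrArg (fun A => A.map H.subtype) hh
  rw [Lib.SubgroupTools.conj_smul_map_subtype, map_subgroupOf_eq_of_le hgC,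
    map_subgroupOf_eq_of_le le_sup_left, ← Lib.SubgroupTools.conj_smul_mul] at h1
  have h2 : (h : G) * g ∈ C := by
    rw [← hC.2]
    exact mem_normalizer_iff_conj_smul.mpr h1
  have h3 : g ∈ H := by
    have : g = (h : G)⁻¹ * (h * g) := by group
    rw [this]
    exact H.mul_mem (H.inv_mem h.2) ((le_sup_left : C ≤ H) h2)
  rw [← hcm] at h3
  exact h3

/-- Hall `p'`-subgroups of nilpotent groups are normal. -/
theorem normal_of_isPiHall_compl {X : Type u} [Group X] [Finite X] [Group.IsNilpotent X] {p : ℕ}
    [hp : Fact p.Prime] {H : Subgroup X} (hH : Cfsg.IsPiHall {p}ᶜ H) : H.Normal := by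
  have hn1 := Lib.Fitting.normal_pCore p (G := X)
  have hn2 := Lib.Fitting.normal_pPrimeCore p (G := X)
  have h1 := pCore_sup_pPrimeCore (X := X) p
  have h2 : Cfsg.IsPiHall {p}ᶜ (pPrimeCore p X) := by
    rw [isPiHall_iff, compl_compl]
    have hc := Lib.Fitting.coprime_card_pPrimeCore (G := X) p
    obtain ⟨k, hk⟩ := IsPGroup.iff_card.mp (Lib.Fitting.isPGroup_pCore p (G := X))
    constructor
    · intro q hq hqd hqp
      rw [Set.mem_singleton_iff] at hqp
      subst hqp
      exact hq.one_lt.ne' (Nat.dvd_one.mp (hc ▸ Nat.dvd_gcd hqd dvd_rfl))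
    · have h3 := Lib.SubgroupTools.card_sup_of_coprime (N := pCore p X) (H := pPrimeCore p X)
        le_normalizer_of_normal (by rw [hk]; exact (hc.symm).pow_left k)
      rw [h1, card_top, ← (pPrimeCore p X).card_mul_index, mul_comm] at h3
      have h4 := Nat.eq_of_mul_eq_mul_right Nat.card_pos h3
      rw [h4, hk]
      exact piNum_prime_pow hp.out rfl
  have h3 : pPrimeCore p X ≤ H := le_of_normal_piNum (isPiHall_iff.mp h2).1 hH
  rw [← eq_of_isPiHall_le_isPiHall h2 hH h3]
  exact hn2

theorem le_normalizer_of_reduces {G : Type u} [Group G] [Finite G] {K : Nat.Primes → Subgroup G}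
    (hK : Cfsg.IsComplementSystem K) {C : Subgroup G} (hC : Group.IsNilpotent C) (hr : Reduces K C)
    (p : Nat.Primes) : C ≤ normalizer ((K p ⊓ C : Subgroup G) : Set G) := by
  have : Fact (p : ℕ).Prime := ⟨p.2⟩
  have h1 := (isComplementSystem_iff.mp (isComplementSystem_subgroupOf hK hr)) p
  have h2 := normal_of_isPiHall_compl h1
  have h3 : (K p).subgroupOf C = (K p ⊓ C).subgroupOf C := by
    rw [inf_subgroupOf_right]
  rw [h3] at h2
  exact (normal_subgroupOf_iff_le_normalizer inf_le_right).mp h2

/-- A system normalizer of a system reducing into a Carter subgroup lies in it. -/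
theorem systemNormalizer_le_aux (n : ℕ) : ∀ (G : Type u) [Group G] [Finite G] [Group.IsSolvable G],
    Nat.card G = n → ∀ (K : Nat.Primes → Subgroup G) (C : Subgroup G),
    Cfsg.IsComplementSystem K → IsCarter C → Reduces K C → Cfsg.systemNormalizer K ≤ C := by
  induction n using Nat.strong_induction_on with
  | _ n ih =>
    intro G _ _ hsol hn K C hK hC hr
    rcases subsingleton_or_nontrivial G with hs | hs
    · intro x _
      rw [Subsingleton.elim x 1]; exact one_mem _
    obtain ⟨N, hNn, hN, hNmin'⟩ := Lib.Subnormal.exists_isMinNormal (G := G)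
    have hNmin : ∀ K : Subgroup G, K.Normal → K ≤ N → K = ⊥ ∨ K = N := by
      intro K hK hKN
      by_cases h : K = ⊥
      · exact Or.inl h
      · exact Or.inr (hNmin' K hK hKN h)
    obtain ⟨p, hp, hNab, hNel⟩ := Lib.MinNormSolv.elementary_of_minimal hN hNmin
    have : Fact p.Prime := ⟨hp⟩
    have hNpg : IsPGroup p N := Lib.SubgroupTools.isPGroup_of_forall_pow_eq_one hNel
    obtain ⟨d, hd, hNcard⟩ := Lib.MinNormSolv.card_eq_prime_pow hN hp hNel
    set π := QuotientGroup.mk' N with hπ
    have hsurj : Function.Surjective π := QuotientGroup.mk'_surjective N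
    have hlt : Nat.card (G ⧸ N) < n := by
      have h1 := Subgroup.card_mul_index N
      have h2 : 1 < Nat.card N := (Subgroup.one_lt_card_iff_ne_bot N).mpr hN
      have h3 : Nat.card (G ⧸ N) = N.index := rfl
      have h4 : 0 < N.index := Nat.pos_of_ne_zero Subgroup.index_ne_zero_of_finite
      rw [h3, ← hn]
      nlinarith
    set H : Subgroup G := C ⊔ N with hH
    -- modulo `N`
    have hDH : Cfsg.systemNormalizer K ≤ H := by
      have h1 := ih _ hlt (G ⧸ N) rfl (fun q => (K q).map π) (C.map π)
        (isComplementSystem_map hK N) (isCarter_map hC N)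
        (fun q => (hr q).of_dvd (relIndex_map_dvd π _ _))
      rw [systemNormalizer_map hK N] at h1
      have h2 := comap_mono (f := π) h1
      rw [comap_map_eq, comap_map_eq, hπ, QuotientGroup.ker_mk'] at h2
      exact le_sup_left.trans h2
    have hCH : C ≤ H := le_sup_left
    by_cases hHtop : H = ⊤
    swap
    · -- induction in `H`
      have hrH : Reduces K H := by
        intro q
        by_cases hqp : (q : ℕ) = p
        · have h1 : (K q).relIndex H ∣ (K q ⊓ C).relIndex H := relIndex_dvd_of_le_left H inf_le_left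
          refine PiNum.of_dvd ?_ h1
          rw [← relIndex_mul_relIndex (K q ⊓ C) C H inf_le_right hCH, inf_relIndex_right]
          refine (hr q).mul ?_
          have h2 : C.relIndex H ∣ Nat.card N := by
            rw [hH, sup_comm, ← relIndex_eq_relIndex_sup le_normalizer_of_normal]
            exact relIndex_dvd_card C N
          refine PiNum.of_dvd ?_ h2
          rw [hNcard]
          exact piNum_prime_pow hp (by rw [hqp]; rfl)
        · have hNK : N ≤ K q := by
            apply le_of_normal_piNum _ ((isComplementSystem_iff.mp hK) q)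
            rw [hNcard]
            exact piNum_prime_pow hp (by
              rw [Set.mem_compl_iff, Set.mem_singleton_iff]; exact fun h => hqp h.symm)
          have h1 : (K q).relIndex H ∣ (K q).relIndex C := by
            have h2 := relIndex_map_dvd π (K q) C
            have h3 : (K q).relIndex H = ((K q).map π).relIndex (C.map π) := by
              rw [relIndex_map_map, hπ, QuotientGroup.ker_mk', sup_eq_left.mpr hNK]
            rw [h3]; exact h2
          exact (hr q).of_dvd h1
      have hltH : Nat.card H < n := by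
        rw [← hn]
        have h1 := Subgroup.card_mul_index H
        have h2 : H.index ≠ 1 := by rwa [ne_eq, index_eq_one]
        have h3 : H.index ≠ 0 := index_ne_zero_of_finite
        have h4 : 0 < Nat.card H := Nat.card_pos
        have h5 : 2 ≤ H.index := by omega
        nlinarith
      have h1 := ih _ hltH H rfl (fun q => (K q).subgroupOf H) (C.subgroupOf H)
        (isComplementSystem_subgroupOf hK hrH) (hC.subgroupOf hCH) (by
          intro q
          change PiNum _ (((K q).subgroupOf H).relIndex (C.subgroupOf H))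
          rw [relIndex_subgroupOf hCH]
          exact hr q)
      intro x hx
      have hxH := hDH hx
      have h2 : (⟨x, hxH⟩ : H) ∈ Cfsg.systemNormalizer (fun q => (K q).subgroupOf H) := by
        rw [mem_systemNormalizer]
        intro q
        have h3 := mem_systemNormalizer.mp hx q
        rw [mem_normalizer_iff]
        intro y
        exact mem_normalizer_iff.mp h3 (y : G)
      exact h1 h2
    · -- `G = C N`
      have hinfn : (N ⊓ C).Normal := by
        rw [← normalizer_eq_top_iff, eq_top_iff, ← hHtop]
        refine sup_le ?_ ?_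
        · exact Lib.LocBase.le_normalizer_inf le_normalizer_of_normal le_normalizer
        · refine le_trans ?_ (centralizer_le_normalizer _)
          intro a ha
          rw [mem_centralizer_iff]
          intro b hb
          exact congrArg Subtype.val (hNab.is_comm.comm ⟨b, (mem_inf.mp hb).1⟩ ⟨a, ha⟩)
      rcases hNmin _ hinfn inf_le_left with hbot | hle
      swap
      · have h1 : N ≤ C := inf_eq_left.mp hle
        have h2 : C = ⊤ := by rw [← hHtop, hH, sup_eq_left.mpr h1]
        rw [h2]; exact le_top
      · -- `N ∩ C = 1`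
        have hCnil := hC.1
        set q : Nat.Primes := ⟨p, hp⟩ with hq
        have hKC : K q ≤ C := by
          have h1 : PiNum {p} ((K q ⊓ C).index) := by
            rw [← relIndex_mul_index (inf_le_right : K q ⊓ C ≤ C), inf_relIndex_right]
            refine (hr q).mul ?_
            have h2 : C.index ∣ Nat.card N := by
              rw [← relIndex_top_right, ← hHtop, hH, sup_comm,
                ← relIndex_eq_relIndex_sup le_normalizer_of_normal]
              exact relIndex_dvd_card C N
            refine PiNum.of_dvd ?_ h2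
            rw [hNcard]
            exact piNum_prime_pow hp rfl
          have h2 : PiNum {p} ((K q ⊓ C).relIndex (K q)) :=
            h1.of_dvd (relIndex_dvd_index_of_le inf_le_left)
          have h3 : PiNum {p}ᶜ ((K q ⊓ C).relIndex (K q)) :=
            (isPiHall_iff.mp (isComplementSystem_iff.mp hK q)).1.of_dvd (relIndex_dvd_card _ _)
          have h4 := h2.eq_one h3
          exact (relIndex_eq_one.mp h4).trans inf_le_right
        have hKCn : C ≤ normalizer (K q : Set G) := by
          have h1 := le_normalizer_of_reduces hK hCnil hr q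
          rwa [inf_eq_left.mpr hKC] at h1
        -- the normalizer of `K_p`
        have hXC : normalizer (K q : Set G) = C := by
          by_contra hne
          set X := normalizer (K q : Set G) with hX
          have hXN : (N ⊓ X).Normal := by
            rw [← normalizer_eq_top_iff, eq_top_iff, ← hHtop]
            refine sup_le ?_ ?_
            · exact Lib.LocBase.le_normalizer_inf le_normalizer_of_normal (hKCn.trans le_normalizer)
            · refine le_trans ?_ (centralizer_le_normalizer _)
              intro a ha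
              rw [mem_centralizer_iff]
              intro b hb
              exact congrArg Subtype.val (hNab.is_comm.comm ⟨b, (mem_inf.mp hb).1⟩ ⟨a, ha⟩)
          rcases hNmin _ hXN inf_le_left with h1 | h1
          · -- `X = C`
            apply hne
            apply le_antisymm _ hKCn
            intro x hx
            have h2 : x ∈ C ⊔ N := by rw [← hH, hHtop]; trivial
            rw [sup_comm] at h2
            obtain ⟨m, hm, c, hc, rfl⟩ := mem_sup_of_normal_left.mp h2
            have h3 : m ∈ N ⊓ X := by
              refine mem_inf.mpr ⟨hm, ?_⟩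
              have : m = m * c * c⁻¹ := by group
              rw [this]
              exact X.mul_mem hx (X.inv_mem (hKCn hc))
            rw [h1, mem_bot] at h3
            rw [h3, one_mul]; exact hc
          · -- `N` centralizes `K_p`
            have hNX : N ≤ X := inf_eq_left.mp h1
            have hNK : N ⊓ K q = ⊥ := by
              rw [eq_bot_iff, ← hbot]
              exact inf_le_inf_left N hKC
            have hNCK : N ≤ centralizer (K q : Set G) :=
              Lib.NilpotentHall.le_centralizer_of_normalize hNX le_normalizer_of_normal hNK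
            obtain ⟨P, hP⟩ := Lib.LocBase.exists_isSyl p C
            have h6 : N ⊓ centralizer ((N ⊔ P : Subgroup G) : Set G) ≠ ⊥ := by
              apply Lib.Supersolvable.inf_centralizer_ne_bot (p := p)
              · exact Lib.LocBase.isPGroup_sup hNpg hP.pgroup le_normalizer_of_normal
              · exact le_sup_left
              · exact le_normalizer_of_normal
              · exact hN
            apply h6
            rw [eq_bot_iff, ← hbot]
            intro y hy
            obtain ⟨hyN, hyC⟩ := mem_inf.mp hy
            refine mem_inf.mpr ⟨hyN, ?_⟩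
            -- `C = K_p P`
            have hCKP : C ≤ K q ⊔ P := by
              have h7 : (K q ⊔ P).relIndex C = 1 := by
                by_contra h
                obtain ⟨r, hr', hrd⟩ := Nat.exists_prime_and_dvd h
                have h8 : (K q ⊔ P).relIndex C ∣ (K q).relIndex C :=
                  relIndex_dvd_of_le_left C le_sup_left
                have h9 : r = p := hr q r hr' (hrd.trans h8)
                subst h9
                apply hP.ndvd
                rw [← relIndex_mul_relIndex P (K q ⊔ P) C le_sup_right (sup_le hKC hP.le)]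
                exact hrd.mul_left _
              exact relIndex_eq_one.mp h7
            rw [← hC.2]
            apply centralizer_le_normalizer
            rw [mem_centralizer_iff]
            have h7 : K q ⊔ P ≤ centralizer {y} := by
              refine sup_le ?_ ?_
              · intro k hk
                rw [mem_centralizer_singleton_iff]
                exact mem_centralizer_iff.mp (hNCK hyN) k hk
              · intro s hs'
                rw [mem_centralizer_singleton_iff]
                exact mem_centralizer_iff.mp hyC s (mem_sup_right hs')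
            intro c hc
            exact mem_centralizer_singleton_iff.mp (h7 (hCKP hc))
        intro x hx
        have h1 := mem_systemNormalizer.mp hx q
        rwa [hXC] at h1

theorem systemNormalizer_le {G : Type u} [Group G] [Finite G] [Group.IsSolvable G]
    {K : Nat.Primes → Subgroup G} {C : Subgroup G} (hK : Cfsg.IsComplementSystem K)
    (hC : IsCarter C) (hr : Reduces K C) : Cfsg.systemNormalizer K ≤ C :=
  systemNormalizer_le_aux _ G rfl K C hK hC hr

theorem exists_reducing {G : Type u} [Group G] [Finite G] [hsol : Group.IsSolvable G]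
    (C : Subgroup G) : ∃ K : Nat.Primes → Subgroup G, Cfsg.IsComplementSystem K ∧ Reduces K C := by
  have h : ∀ p : Nat.Primes, ∃ K : Subgroup G, Cfsg.IsPiHall {(p : ℕ)}ᶜ K ∧
      PiNum {(p : ℕ)} (K.relIndex C) := by
    intro p
    obtain ⟨X, hX⟩ := exists_isPiHall (G := C) {(p : ℕ)}ᶜ
    rw [isPiHall_iff, compl_compl] at hX
    obtain ⟨K, hK, hXK⟩ := exists_le_isPiHall (G := G) (π := {(p : ℕ)}ᶜ) (X.map C.subtype) (by
      rw [card_map_of_injective C.subtype_injective]; exact hX.1)
    refine ⟨K, hK, ?_⟩
    have h1 : K.relIndex C ∣ (X.map C.subtype).relIndex C := relIndex_dvd_of_le_left C hXK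
    refine PiNum.of_dvd ?_ h1
    rw [relIndex, subgroupOf, comap_map_eq_self_of_injective C.subtype_injective]
    exact hX.2
  choose K hK hr using h
  exact ⟨K, isComplementSystem_iff.mpr hK, hr⟩

theorem systemNormalizer_conj {G : Type*} [Group G] (K : Nat.Primes → Subgroup G) (g : G) :
    Cfsg.systemNormalizer (fun p => MulAut.conj g • K p) =
      MulAut.conj g • Cfsg.systemNormalizer K := by
  ext x
  rw [mem_systemNormalizer, mem_conj_smul, mem_systemNormalizer]
  refine forall_congr' fun p => ?_
  rw [mem_normalizer_iff_conj_smul, mem_normalizer_iff_conj_smul]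
  constructor
  · intro h
    have h1 := congrArg (fun A => MulAut.conj g⁻¹ • A) h
    simp only [← Lib.SubgroupTools.conj_smul_mul] at h1
    rw [inv_mul_cancel, Lib.SubgroupTools.conj_smul_one, ← mul_assoc] at h1
    exact h1
  · intro h
    have h1 := congrArg (fun A => MulAut.conj g • A) h
    simp only [← Lib.SubgroupTools.conj_smul_mul] at h1
    rw [← Lib.SubgroupTools.conj_smul_mul, ← h1]
    congr 2
    group

theorem exists_systemNormalizer_le {G : Type u} [Group G] [Finite G] [hsol : Group.IsSolvable G]
    {C : Subgroup G} (hC : IsCarter C) :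
    ∃ K : Nat.Primes → Subgroup G, Cfsg.IsComplementSystem K ∧ Cfsg.systemNormalizer K ≤ C := by
  obtain ⟨K, hK, hr⟩ := exists_reducing C
  exact ⟨K, hK, systemNormalizer_le hK hC hr⟩

theorem exists_carter_ge {G : Type u} [Group G] [Finite G] [hsol : Group.IsSolvable G]
    {K : Nat.Primes → Subgroup G} (hK : Cfsg.IsComplementSystem K) :
    ∃ C : Subgroup G, IsCarter C ∧ Cfsg.systemNormalizer K ≤ C := by
  obtain ⟨C, hC⟩ := exists_carter hsol
  obtain ⟨L, hL, hle⟩ := exists_systemNormalizer_le hC
  obtain ⟨g, hg⟩ := exists_conj hL hK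
  refine ⟨MulAut.conj g • C, hC.conj g, ?_⟩
  have h1 : K = fun p => MulAut.conj g • L p := funext fun p => (hg p).symm
  rw [h1, systemNormalizer_conj]
  exact Lib.SubgroupTools.conj_smul_mono g hle

/-- If `G` has nilpotent length at most 2, a Carter subgroup is the system normalizer of each
system reducing into it. -/
theorem carter_eq_systemNormalizer {G : Type u} [Group G] [Finite G] [hsol : Group.IsSolvable G]
    {F : Subgroup G} [hFn : F.Normal] (hF : Group.IsNilpotent F) (hGF : Group.IsNilpotent (G ⧸ F))
    {K : Nat.Primes → Subgroup G} {C : Subgroup G} (hK : Cfsg.IsComplementSystem K)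
    (hC : IsCarter C) (hr : Reduces K C) : C = Cfsg.systemNormalizer K := by
  refine le_antisymm ?_ (systemNormalizer_le hK hC hr)
  have hCnil := hC.1
  -- `G = C F`
  have hsup : C ⊔ F = ⊤ := by
    have h1 := isCarter_map hC F
    have h2 : C.map (QuotientGroup.mk' F) = ⊤ := by
      apply h1.eq_of_le le_top
      infer_instance
    have h3 := congrArg (fun A => A.comap (QuotientGroup.mk' F)) h2
    simp only [comap_top] at h3
    rwa [comap_map_eq, QuotientGroup.ker_mk'] at h3
  intro c hc
  rw [mem_systemNormalizer]
  intro p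
  have : Fact (p : ℕ).Prime := ⟨p.2⟩
  have hKp := isComplementSystem_iff.mp hK p
  set X : Subgroup G := K p ⊓ C with hX
  set Y : Subgroup G := K p ⊓ F with hY
  have hYr : Reduces K F := by
    intro q
    have := isPiHallOf_inf_normal (N := F) (isComplementSystem_iff.mp hK q)
    rw [isPiHallOf_iff, compl_compl, inf_relIndex_right] at this
    exact this.2.2
  have hYn : Y.Normal := by
    have h1 := isComplementSystem_iff.mp (isComplementSystem_subgroupOf hK hYr) p
    have h2 := normal_of_isPiHall_compl h1
    have h3 : ((K p).subgroupOf F).Characteristic := by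
      apply Lib.SmallSimple.characteristic_of_coprime
      exact Lib.HallPi.IsPiHall.coprime h1
    have h4 : Y = ((K p).subgroupOf F).map F.subtype := by
      rw [subgroupOf_map_subtype]
    rw [h4]
    exact ConjAct.normal_of_characteristic_of_normal
  have hXY : X ⊔ Y = K p := by
    apply le_antisymm (sup_le inf_le_left inf_le_left)
    -- the index of `X ⊔ Y` is a power of `p`
    have hprod : ∀ g : G, ∃ a ∈ C, ∃ b ∈ F, g = a * b := by
      intro g
      have hg : g ∈ F ⊔ C := by rw [sup_comm, hsup]; trivial
      rw [sup_comm] at hg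
      obtain ⟨a, ha, b, hb, h⟩ := mem_sup_of_normal_right.mp hg
      exact ⟨a, ha, b, hb, h.symm⟩
    have h1 : (X ⊔ Y).relIndex (K p) = 1 := by
      by_contra h
      obtain ⟨r, hr', hrd⟩ := Nat.exists_prime_and_dvd h
      have : Fact r.Prime := ⟨hr'⟩
      have hrp : r ≠ p := by
        have := (isPiHall_iff.mp hKp).1 r hr' (hrd.trans (relIndex_dvd_card _ _))
        exact this
      obtain ⟨P, Q, R, hP, hQ, hR, hPQ⟩ := Lib.ProdHall.exists_sylow_factor hprod r
      -- `P ≤ X`
      have hsub : ∀ {A P : Subgroup G}, Reduces K A → A ≤ normalizer ((K p ⊓ A : Subgroup G) : Set G) →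
          IsSyl r P A → P ≤ K p ⊓ A := by
        intro A P hrA hAn hP
        have h2 : PiNum {(p : ℕ)} ((K p ⊓ A).relIndex A) := by
          rw [inf_relIndex_right]; exact hrA p
        have h3 : (K p ⊓ A).relIndex (P ⊔ (K p ⊓ A)) = 1 := by
          rw [sup_comm]
          have h4 : (K p ⊓ A).relIndex ((K p ⊓ A) ⊔ P) ∣ (K p ⊓ A).relIndex A :=
            ⟨_, (relIndex_mul_relIndex (K p ⊓ A) ((K p ⊓ A) ⊔ P) A le_sup_left
              (sup_le inf_le_right hP.le)).symm⟩
          have h5 : (K p ⊓ A).relIndex ((K p ⊓ A) ⊔ P) ∣ Nat.card P := by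
            have h6 := Lib.SubgroupTools.card_sup_mul_card_inf (N := K p ⊓ A) (H := P)
              (hP.le.trans hAn)
            have h7 := card_mul_relIndex_of_le (le_sup_left : K p ⊓ A ≤ (K p ⊓ A) ⊔ P)
            rw [← h7, mul_assoc] at h6
            have h8 := Nat.eq_of_mul_eq_mul_left Nat.card_pos h6
            exact Dvd.intro _ h8
          obtain ⟨k, hk⟩ := IsPGroup.iff_card.mp hP.pgroup
          rw [hk] at h5
          by_contra hne
          obtain ⟨t, ht, htd⟩ := Nat.exists_prime_and_dvd hne
          have e1 : t = p := h2 t ht (htd.trans h4)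
          have e2 : t = r := (Nat.prime_dvd_prime_iff_eq ht hr').mp (ht.dvd_of_dvd_pow (htd.trans h5))
          exact hrp (e2.symm.trans e1)
        exact le_sup_left.trans (relIndex_eq_one.mp h3)
      have hPX : P ≤ X := hsub hr (le_normalizer_of_reduces hK hCnil hr p) hP
      have hQY : Q ≤ Y := hsub hYr (show F ≤ normalizer (Y : Set G) from le_normalizer_of_normal) hQ
      have hRXY : R ≤ X ⊔ Y := by
        intro x hx
        have : x ∈ (P : Set G) * (Q : Set G) := by rw [← hPQ]; exact hx
        obtain ⟨a, ha, b, hb, rfl⟩ := this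
        exact mul_mem (mem_sup_left (hPX ha)) (mem_sup_right (hQY hb))
      have h9 : ¬ r ∣ (X ⊔ Y).index := by
        intro hd
        apply hR.ndvd
        rw [relIndex_top_right, ← relIndex_mul_index hRXY]
        exact hd.mul_left _
      exact h9 (hrd.trans (relIndex_dvd_index_of_le (sup_le inf_le_left inf_le_left)))
    exact relIndex_eq_one.mp h1
  rw [← hXY]
  have h1 : C ≤ normalizer ((X ⊔ Y : Subgroup G) : Set G) :=
    Lib.LocBase.le_normalizer_sup (le_normalizer_of_reduces hK hCnil hr p) le_normalizer_of_normal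
  exact h1 hc

end Cfsg.Agent.Lib.SysNorm2
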