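import Cfsg.Prelude.Def_Sz
import Mathlib

/-!
Functoriality of the Suzuki groups in the field (lead)
-/

set_option autoImplicit false

namespace Cfsg.Agent.Lib.SzCongr

open Matrix Cfsg.Lie

variable {F K : Type*} [Field F] [Field K] (φ : F ≃+* K)

/-- the isomorphism of general linear groups -/
def glE : GL (Fin 4) F ≃* GL (Fin 4) K := Units.mapEquiv (RingEquiv.mapMatrix φ).toMulEquiv

theorem glE_apply (g : GL (Fin 4) F) (i j : Fin 4) : (glE φ g).1 i j = φ (g.1 i j) := rfl

theorem form_map (u v : Fin 4 → F) : altForm4 (fun i => φ (u i)) (fun i => φ (v i)) = φ (altForm4 u v) := by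
  simp only [altForm4, map_add, map_mul]

theorem mulVec_map (g : GL (Fin 4) F) (u : Fin 4 → F) :
    (glE φ g).1 *ᵥ (fun i => φ (u i)) = fun i => φ ((g.1 *ᵥ u) i) := by
  ext i
  simp only [Matrix.mulVec, dotProduct, map_sum, map_mul]
  rfl

theorem sp_map {g : GL (Fin 4) F} (h : g ∈ Sp4 F) : glE φ g ∈ Sp4 K := by
  intro u v
  have e : ∀ w : Fin 4 → K, w = fun i => φ (φ.symm (w i)) := fun w => by ext i; simp
  rw [e u, e v]
  show altForm4 ((glE φ g).1 *ᵥ _) ((glE φ g).1 *ᵥ _) = _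
  rw [mulVec_map, mulVec_map, form_map, form_map]
  exact congrArg φ (h _ _)

theorem star_map {g : GL (Fin 4) F} {e : ℕ} (h : star4 (g : Matrix (Fin 4) (Fin 4) F) = (g : Matrix (Fin 4) (Fin 4) F).map (fun x => x ^ e)) :
    star4 (glE φ g : Matrix (Fin 4) (Fin 4) K) = (glE φ g : Matrix (Fin 4) (Fin 4) K).map (fun x => x ^ e) := by
  ext i j
  have h1 := congrArg φ (congrFun (congrFun h i) j)
  simp only [star4, Matrix.of_apply, Matrix.map_apply, map_sub, map_mul, map_pow] at h1 ⊢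
  exact h1

theorem map_eq (e : ℕ) : (Sz F e).map (glE φ).toMonoidHom = Sz K e := by
  unfold Sz
  rw [MonoidHom.map_closure]
  congr 1
  ext g
  constructor
  · rintro ⟨h, ⟨h1, h2⟩, rfl⟩
    exact ⟨sp_map φ h1, star_map φ h2⟩
  · rintro ⟨h1, h2⟩
    have e1 : glE φ (glE φ.symm g) = g := by
      apply Units.ext
      ext i j
      rw [glE_apply, glE_apply, RingEquiv.apply_symm_apply]
    exact ⟨glE φ.symm g, ⟨sp_map φ.symm h1, star_map φ.symm h2⟩, e1⟩

/-- **functoriality** -/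
noncomputable def szCongr (e : ℕ) : Sz F e ≃* Sz K e :=
  ((glE φ).subgroupMap (Sz F e)).trans (MulEquiv.subgroupCongr (map_eq φ e))

end Cfsg.Agent.Lib.SzCongr
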