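import Cfsg.Prelude.Def_Transfer
import Mathlib.GroupTheory.Nilpotent
import Mathlib.GroupTheory.PGroup
import Mathlib.GroupTheory.Frattini

/-!
# TI subgroups: conjugates `cj g H = g H g⁻¹`, and the commuting theorem for a family of subgroups of
equal order with nontrivial Frattini subgroup, in a 2-group.
-/
set_option autoImplicit false

namespace Cfsg.Agent.Lib.TISub

variable {G : Type*} [Group G]

/-- the conjugate subgroup `g H g⁻¹` -/
abbrev cj (g : G) (H : Subgroup G) : Subgroup G := H.map (MulAut.conj g).toMonoidHom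

theorem mem_cj {g x : G} {H : Subgroup G} : x ∈ cj g H ↔ g⁻¹ * x * g ∈ H := by
  constructor
  · rintro ⟨y, hy, rfl⟩
    have : g⁻¹ * (MulAut.conj g).toMonoidHom y * g = y := by
      simp [MulAut.conj_apply, mul_assoc]
    rw [this]; exact hy
  · intro h
    exact ⟨_, h, by simp [MulAut.conj_apply, mul_assoc]⟩

theorem conj_mem_cj {g x : G} {H : Subgroup G} : g * x * g⁻¹ ∈ cj g H ↔ x ∈ H := by
  rw [mem_cj]; simp [mul_assoc]

theorem cj_mul (g h : G) (H : Subgroup G) : cj (g * h) H = cj g (cj h H) := by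
  ext x
  simp only [mem_cj, mul_inv_rev, mul_assoc]

@[simp] theorem cj_one (H : Subgroup G) : cj 1 H = H := by
  ext x; rw [mem_cj]; simp

theorem cj_inv_cj (g : G) (H : Subgroup G) : cj g⁻¹ (cj g H) = H := by
  rw [← cj_mul]; simp

theorem cj_cj_inv (g : G) (H : Subgroup G) : cj g (cj g⁻¹ H) = H := by
  rw [← cj_mul]; simp

theorem cj_injective (g : G) : Function.Injective (cj g) := by
  intro H K h
  rw [← cj_inv_cj g H, h, cj_inv_cj]

theorem cj_le_cj {g : G} {H K : Subgroup G} (h : H ≤ K) : cj g H ≤ cj g K := Subgroup.map_mono h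

theorem card_cj (g : G) (H : Subgroup G) : Nat.card (cj g H) = Nat.card H :=
  Subgroup.card_map_of_injective (MulAut.conj g).injective

theorem cj_eq_self_of_mem {g : G} {H : Subgroup G} (h : g ∈ H) : cj g H = H := by
  ext x
  rw [mem_cj]
  constructor
  · intro hx
    have := H.mul_mem (H.mul_mem h hx) (H.inv_mem h)
    simpa [mul_assoc] using this
  · intro hx
    exact H.mul_mem (H.mul_mem (H.inv_mem h) hx) h

theorem cj_eq_iff {g : G} {H : Subgroup G} :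
    cj g H = H ↔ g ∈ Subgroup.normalizer (H : Set G) := by
  constructor
  · intro h
    rw [Subgroup.mem_normalizer_iff]
    intro x
    nth_rewrite 2 [← h]
    exact conj_mem_cj.symm
  · intro h
    ext x
    rw [mem_cj]
    rw [Subgroup.mem_normalizer_iff] at h
    rw [h (g⁻¹ * x * g)]
    simp [mul_assoc]

theorem cj_inf (g : G) (H K : Subgroup G) : cj g (H ⊓ K) = cj g H ⊓ cj g K := by
  ext x; simp only [mem_cj, Subgroup.mem_inf]

theorem cj_sup (g : G) (H K : Subgroup G) : cj g (H ⊔ K) = cj g H ⊔ cj g K := Subgroup.map_sup _ _ _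

@[simp] theorem cj_bot (g : G) : cj g (⊥ : Subgroup G) = ⊥ := Subgroup.map_bot _

/-- if `t` commutes with a nontrivial element of the TI subgroup `R`, it normalizes `R` -/
theorem cj_eq_of_commute {R : Subgroup G} (hti : ∀ g : G, cj g R = R ∨ cj g R ⊓ R = ⊥)
    {t x : G} (hx : x ∈ R) (hx1 : x ≠ 1) (hc : t * x = x * t) : cj t R = R := by
  rcases hti t with h | h
  · exact h
  · exfalso
    apply hx1
    have : x ∈ cj t R ⊓ R := by
      refine ⟨?_, hx⟩
      change x ∈ cj t R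
      rw [mem_cj, mul_assoc, ← hc, inv_mul_cancel_left]
      exact hx
    rw [h] at this
    exact this

/-- a proper subgroup of a finite `p`-group and any of its conjugates generate a proper subgroup -/
theorem sup_cj_lt [Finite G] {p : ℕ} [Fact p.Prime] (hG : IsPGroup p G) {R H : Subgroup G} (hR : R < H)
    {s : G} (hs : s ∈ H) : R ⊔ cj s R < H := by
  have hH : Group.IsNilpotent ↥H := (hG.to_subgroup H).isNilpotent
  have hne : R.subgroupOf H ≠ ⊤ := by
    rw [Ne, Subgroup.subgroupOf_eq_top]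
    exact not_le_of_gt hR
  obtain ⟨M, hM, hRM⟩ := (eq_top_or_exists_le_coatom (R.subgroupOf H)).resolve_left hne
  have hMn : M.Normal :=
    Subgroup.NormalizerCondition.normal_of_coatom M (Group.normalizerCondition_of_isNilpotent) hM
  have hRM' : R ≤ M.map H.subtype := by
    intro x hx
    exact ⟨⟨x, hR.le hx⟩, hRM hx, rfl⟩
  have hcM : cj s R ≤ M.map H.subtype := by
    intro x hx
    rw [mem_cj] at hx
    obtain ⟨y, hy, hyx⟩ := hRM' hx
    refine ⟨⟨s, hs⟩ * y * ⟨s, hs⟩⁻¹, hMn.conj_mem y hy _, ?_⟩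
    have : (y : G) = s⁻¹ * x * s := hyx
    simp [this, mul_assoc]
  have hlt : M.map H.subtype < H := by
    refine lt_of_le_of_ne (Subgroup.map_subtype_le M) ?_
    intro h
    apply hM.1
    rw [eq_top_iff]
    rintro ⟨x, hx⟩ -
    rw [← h] at hx
    obtain ⟨y, hy, hyx⟩ := hx
    have : y = ⟨x, by rw [← hyx]; exact y.2⟩ := Subtype.ext hyx
    rw [← this]; exact hy
  exact lt_of_le_of_lt (sup_le hRM' hcM) hlt

/-- first case: `R` normalizes `T` -/
theorem commute_of_normalizes [Finite G] {R T : Subgroup G} (hcard : Nat.card R = Nat.card T)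
    (htiR : ∀ g : G, cj g R = R ∨ cj g R ⊓ R = ⊥) (hRT : R ⊓ T = ⊥)
    (hsR : ∀ s ∈ T, cj s R ≠ R → ∀ x ∈ R, ∀ y ∈ cj s R, x * y = y * x)
    (hN : ∀ r ∈ R, cj r T = T) : ∀ r ∈ R, ∀ t ∈ T, r * t = t * r := by
  have hbot : ∀ x, x ∈ R → x ∈ T → x = 1 := by
    intro x h1 h2
    have : x ∈ R ⊓ T := ⟨h1, h2⟩
    rw [hRT] at this; exact this
  have hconjT : ∀ r ∈ R, ∀ t ∈ T, r * t * r⁻¹ ∈ T := by
    intro r hr t ht
    have := (conj_mem_cj (g := r) (x := t) (H := T)).2 ht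
    rwa [hN r hr] at this
  by_cases hT : ∀ t ∈ T, cj t R = R
  · intro r hr t ht
    have h1 : r * t * r⁻¹ * t⁻¹ ∈ T := T.mul_mem (hconjT r hr t ht) (T.inv_mem ht)
    have h2 : r * t * r⁻¹ * t⁻¹ ∈ R := by
      have := (conj_mem_cj (g := t) (x := r⁻¹) (H := R)).2 (R.inv_mem hr)
      rw [hT t ht] at this
      have := R.mul_mem hr this
      simpa [mul_assoc] using this
    have := hbot _ h2 h1
    rw [mul_inv_eq_one, mul_inv_eq_iff_eq_mul] at this
    exact this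
  · exfalso
    push Not at hT
    obtain ⟨t, ht, htR⟩ := hT
    have hcomm := hsR t ht htR
    have hc : ∀ r ∈ R, ∀ r' ∈ R, r' * (t * r⁻¹ * t⁻¹) = (t * r⁻¹ * t⁻¹) * r' := by
      intro r hr r' hr'
      exact hcomm r' hr' _ (conj_mem_cj.2 (R.inv_mem hr))
    have hfT : ∀ r ∈ R, r * (t * r⁻¹ * t⁻¹) ∈ T := by
      intro r hr
      have := T.mul_mem (hconjT r hr t ht) (T.inv_mem ht)
      simpa [mul_assoc] using this
    have habel : ∀ r ∈ R, ∀ r' ∈ R, r * r' = r' * r := by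
      intro r hr r' hr'
      have h1 : (r * (t * r⁻¹ * t⁻¹)) * (r' * (r * (t * r⁻¹ * t⁻¹))⁻¹ * r'⁻¹) ∈ T :=
        T.mul_mem (hfT r hr) (hconjT r' hr' _ (T.inv_mem (hfT r hr)))
      have h2 : (r * (t * r⁻¹ * t⁻¹)) * (r' * (r * (t * r⁻¹ * t⁻¹))⁻¹ * r'⁻¹) = r * r' * r⁻¹ * r'⁻¹ := by
        have e := hc r hr r' hr'
        set c := t * r⁻¹ * t⁻¹
        have : r' * c * c⁻¹ = c * r' * c⁻¹ := by rw [e]
        rw [mul_inv_cancel_right] at this
        calc (r * c) * (r' * (r * c)⁻¹ * r'⁻¹) = r * (c * r' * c⁻¹) * r⁻¹ * r'⁻¹ := by group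
          _ = r * r' * r⁻¹ * r'⁻¹ := by rw [← this]
      rw [h2] at h1
      have h3 : r * r' * r⁻¹ * r'⁻¹ ∈ R :=
        R.mul_mem (R.mul_mem (R.mul_mem hr hr') (R.inv_mem hr)) (R.inv_mem hr')
      have := hbot _ h3 h1
      rw [mul_inv_eq_one, mul_inv_eq_iff_eq_mul] at this
      exact this
    let f : R → T := fun r => ⟨(r : G) * (t * (r : G)⁻¹ * t⁻¹), hfT r r.2⟩
    have hfinj : Function.Injective f := by
      rintro ⟨r, hr⟩ ⟨r', hr'⟩ h
      have h : r * (t * r⁻¹ * t⁻¹) = r' * (t * r'⁻¹ * t⁻¹) := congrArg Subtype.val h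
      have h2 : t * (r'⁻¹ * r) = (r'⁻¹ * r) * t := by
        have h3 : r'⁻¹ * r * t * r⁻¹ = t * r'⁻¹ := by
          have : r'⁻¹ * (r * (t * r⁻¹ * t⁻¹)) * t = r'⁻¹ * (r' * (t * r'⁻¹ * t⁻¹)) * t := by rw [h]
          simpa [mul_assoc] using this
        rw [mul_inv_eq_iff_eq_mul] at h3
        rw [h3, mul_assoc]
      have hx : r'⁻¹ * r ∈ R := R.mul_mem (R.inv_mem hr') hr
      by_contra hne
      have hx1 : r'⁻¹ * r ≠ 1 := by
        intro h1
        apply hne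
        apply Subtype.ext
        change r = r'
        rw [inv_mul_eq_one] at h1
        exact h1.symm
      exact htR (cj_eq_of_commute htiR hx hx1 h2)
    have hfsurj : Function.Surjective f := by
      have := (Nat.bijective_iff_injective_and_card f).2 ⟨hfinj, hcard⟩
      exact this.2
    obtain ⟨⟨r, hr⟩, hrt⟩ := hfsurj ⟨t, ht⟩
    have hrt : r * (t * r⁻¹ * t⁻¹) = t := congrArg Subtype.val hrt
    -- t commutes with R
    apply htR
    have hRbot : ∃ x ∈ R, x ≠ 1 := by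
      by_contra hno
      push Not at hno
      apply htR
      have : R = ⊥ := by
        rw [eq_bot_iff]; intro x hx; exact hno x hx
      rw [this, cj_bot]
    obtain ⟨x, hx, hx1⟩ := hRbot
    refine cj_eq_of_commute htiR hx hx1 ?_
    rw [← hrt]
    calc r * (t * r⁻¹ * t⁻¹) * x = r * (x * (t * r⁻¹ * t⁻¹)) := by rw [mul_assoc, hc r hr x hx]
      _ = x * (r * (t * r⁻¹ * t⁻¹)) := by rw [← mul_assoc, habel r hr x hx, mul_assoc]

/-- the key step: if `T` is not normalized by `R`, then no nontrivial element of `T` normalizes `R` -/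
theorem not_normalizes {R T : Subgroup G}
    (htiR : ∀ g : G, cj g R = R ∨ cj g R ⊓ R = ⊥) (htiT : ∀ g : G, cj g T = T ∨ cj g T ⊓ T = ⊥)
    (hsT : ∀ s ∈ R, cj s T ≠ T → ∀ x ∈ T, ∀ y ∈ cj s T, x * y = y * x)
    (hZ : ∃ z ∈ T, z ≠ 1 ∧ ∀ t ∈ T, z * t = t * z)
    {r₀ : G} (hr₀ : r₀ ∈ R) (hr₀T : cj r₀ T ≠ T) {t₀ : G} (ht₀ : t₀ ∈ T) (ht₀R : cj t₀ R ≠ R) :
    ∀ t ∈ T, cj t R = R → t = 1 := by
  intro t ht htR
  by_contra ht1
  obtain ⟨z, hz, hz1, hzT⟩ := hZ
  have hcomm := hsT r₀ hr₀ hr₀T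
  have hinf : cj r₀ T ⊓ T = ⊥ := (htiT r₀).resolve_left hr₀T
  have hd : ∀ s ∈ T, cj s R = R → s * (r₀ * s⁻¹ * r₀⁻¹) ∈ R := by
    intro s hs hsR
    have h1 : s * r₀ * s⁻¹ ∈ R := by
      have := (conj_mem_cj (g := s) (x := r₀) (H := R)).2 hr₀
      rwa [hsR] at this
    have := R.mul_mem h1 (R.inv_mem hr₀)
    simpa [mul_assoc] using this
  have hd1 : ∀ s ∈ T, s ≠ 1 → s * (r₀ * s⁻¹ * r₀⁻¹) ≠ 1 := by
    intro s hs hs1 h
    have h2 : s = r₀ * s * r₀⁻¹ := by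
      exact (eq_inv_of_mul_eq_one_left h).trans (by group)
    have h3 : s ∈ cj r₀ T ⊓ T := by
      refine ⟨?_, hs⟩
      rw [h2]
      exact conj_mem_cj.2 hs
    rw [hinf] at h3
    exact hs1 h3
  have hcomm' : ∀ s ∈ T, ∀ x ∈ T, x * (r₀ * s⁻¹ * r₀⁻¹) = (r₀ * s⁻¹ * r₀⁻¹) * x := by
    intro s hs x hx
    exact hcomm x hx _ (conj_mem_cj.2 (T.inv_mem hs))
  have hzR : cj z R = R := by
    refine cj_eq_of_commute htiR (hd t ht htR) (hd1 t ht ht1) ?_
    rw [← mul_assoc, hzT t ht, mul_assoc, hcomm' t ht z hz, ← mul_assoc, mul_assoc]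
  apply ht₀R
  refine cj_eq_of_commute htiR (hd z hz hzR) (hd1 z hz hz1) ?_
  rw [← mul_assoc, ← hzT t₀ ht₀, mul_assoc, hcomm' z hz t₀ ht₀, ← mul_assoc, mul_assoc]

/-- last case: no nontrivial element of `T` normalizes `R` nor conversely; then `T` has exponent two -/
theorem exponent_two {R T : Subgroup G}
    (htiT : ∀ g : G, cj g T = T ∨ cj g T ⊓ T = ⊥)
    (hsT : ∀ s ∈ R, cj s T ≠ T → ∀ x ∈ T, ∀ y ∈ cj s T, x * y = y * x)
    (hsR : ∀ s ∈ T, cj s R ≠ R → ∀ x ∈ R, ∀ y ∈ cj s R, x * y = y * x)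
    (hT1 : ∀ t ∈ T, cj t R = R → t = 1) (hR1 : ∀ r ∈ R, cj r T = T → r = 1)
    {r : G} (hr : r ∈ R) (hr4 : r ^ 4 = 1) (hr2 : r ^ 2 ≠ 1) : ∀ t ∈ T, t ^ 2 = 1 := by
  intro t ht
  by_contra ht2
  have ht1 : t ≠ 1 := by rintro rfl; simp at ht2
  have hr1 : r ≠ 1 := by rintro rfl; simp at hr2
  have htR : cj t R ≠ R := fun h => ht1 (hT1 t ht h)
  have hrT : cj r T ≠ T := fun h => hr1 (hR1 r hr h)
  have hr2T : cj (r ^ 2) T ≠ T := fun h => hr2 (hR1 _ (R.pow_mem hr 2) h)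
  -- the four conjugates
  have c01 : ∀ x ∈ T, ∀ y ∈ T, x * (r * y * r⁻¹) = (r * y * r⁻¹) * x := fun x hx y hy =>
    hsT r hr hrT x hx _ (conj_mem_cj.2 hy)
  have c02 : ∀ x ∈ T, ∀ y ∈ T, x * (r ^ 2 * y * (r ^ 2)⁻¹) = (r ^ 2 * y * (r ^ 2)⁻¹) * x := fun x hx y hy =>
    hsT _ (R.pow_mem hr 2) hr2T x hx _ (conj_mem_cj.2 hy)
  have cR : ∀ x ∈ R, ∀ y ∈ R, x * (t * y * t⁻¹) = (t * y * t⁻¹) * x := fun x hx y hy =>
    hsR t ht htR x hx _ (conj_mem_cj.2 hy)
  -- `a1 ^ 2 = a2 * a0`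
  have key : (r * t * r⁻¹) ^ 2 = (r ^ 2 * t * (r ^ 2)⁻¹) * t := by
    have e1 : r * (t * r⁻¹ * t⁻¹) = (r * t * r⁻¹) * t⁻¹ := by group
    have e2 : (r * (t * r⁻¹ * t⁻¹)) ^ 2 = (r ^ 2 * t * (r ^ 2)⁻¹) * t⁻¹ := by
      have h := cR r hr r⁻¹ (R.inv_mem hr)
      have : (r * (t * r⁻¹ * t⁻¹)) ^ 2 = r ^ 2 * (t * r⁻¹ * t⁻¹) ^ 2 := by
        have hc : Commute r (t * r⁻¹ * t⁻¹) := h
        exact hc.mul_pow 2
      rw [this, conj_pow]
      group
    have e3 : ((r * t * r⁻¹) * t⁻¹) ^ 2 = (r * t * r⁻¹) ^ 2 * (t⁻¹) ^ 2 := by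
      have hc : Commute (r * t * r⁻¹) t⁻¹ := (c01 t⁻¹ (T.inv_mem ht) t ht).symm
      exact hc.mul_pow 2
    rw [e1, e3] at e2
    have e4 : (r * t * r⁻¹) ^ 2 = (r ^ 2 * t * (r ^ 2)⁻¹) * t⁻¹ * t ^ 2 := by
      rw [← e2]; group
    rw [e4]; group
  have key2 : (r ^ 3 * t * (r ^ 3)⁻¹) ^ 2 = (r * t * r⁻¹) ^ 2 := by
    have h1 : r ^ 2 * (r * t * r⁻¹) ^ 2 * (r ^ 2)⁻¹ = (r ^ 3 * t * (r ^ 3)⁻¹) ^ 2 := by
      have : (r ^ 3 * t * (r ^ 3)⁻¹) = r ^ 2 * (r * t * r⁻¹) * (r ^ 2)⁻¹ := by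
        rw [show r ^ 3 = r ^ 2 * r from pow_succ r 2]
        group
      rw [this]
      simp only [conj_pow]
    have h2 : r ^ 2 * ((r ^ 2 * t * (r ^ 2)⁻¹) * t) * (r ^ 2)⁻¹ = t * (r ^ 2 * t * (r ^ 2)⁻¹) := by
      have h4 : r ^ 2 * r ^ 2 = 1 := by rw [← pow_add]; exact hr4
      have h4' : (r ^ 2)⁻¹ * (r ^ 2)⁻¹ = 1 := by rw [← mul_inv_rev, h4, inv_one]
      have h4'' : (r ^ 2)⁻¹ = r ^ 2 := inv_eq_of_mul_eq_one_left h4
      calc r ^ 2 * ((r ^ 2 * t * (r ^ 2)⁻¹) * t) * (r ^ 2)⁻¹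
          = (r ^ 2 * r ^ 2) * t * ((r ^ 2)⁻¹ * t * (r ^ 2)⁻¹) := by group
        _ = t * (r ^ 2 * t * (r ^ 2)⁻¹) := by rw [h4, one_mul, h4'']
    rw [← h1, key, h2, c02 t ht t ht]
  -- hence `a1 ^ 2 ∈ cj r T ⊓ cj (r ^ 3) T = ⊥`
  have hne : cj (r ^ 2) T ⊓ T = ⊥ := (htiT _).resolve_left hr2T
  have h3 : r ^ 2 * t ^ 2 * (r ^ 2)⁻¹ = t ^ 2 := by
    have h1 : (r ^ 3 * t * (r ^ 3)⁻¹) = r * (r ^ 2 * t * (r ^ 2)⁻¹) * r⁻¹ := by
      rw [show r ^ 3 = r * r ^ 2 from pow_succ' r 2]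
      group
    rw [h1, conj_pow, conj_pow, conj_pow] at key2
    exact mul_left_cancel (mul_right_cancel key2)
  apply ht2
  have : t ^ 2 ∈ cj (r ^ 2) T ⊓ T := by
    refine ⟨?_, T.pow_mem ht 2⟩
    rw [← h3]
    exact conj_mem_cj.2 (T.pow_mem ht 2)
  rw [hne] at this
  exact this

/-- In a group of exponent two, the Frattini subgroup is trivial. -/
theorem frattini_eq_bot_of_sq {T : Type*} [Group T] [Finite T] (h : ∀ t : T, t ^ 2 = 1) : frattini T = ⊥ := by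
  have hinv : ∀ t : T, t⁻¹ = t := fun t => inv_eq_of_mul_eq_one_left (by rw [← pow_two]; exact h t)
  have hcomm : ∀ a b : T, a * b = b * a := by
    intro a b
    have := hinv (a * b)
    rw [mul_inv_rev, hinv, hinv] at this
    exact this.symm
  rw [eq_bot_iff]
  intro x hx
  by_contra hx1
  have hx1 : x ≠ 1 := hx1
  -- a maximal subgroup not containing x
  obtain ⟨M, hMx, hmax⟩ : ∃ M : Subgroup T, x ∉ M ∧ ∀ K : Subgroup T, M < K → x ∈ K := by
    obtain ⟨M, hM⟩ := (Set.toFinite {M : Subgroup T | x ∉ M}).exists_maximal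
      ⟨⊥, by simpa using hx1⟩
    refine ⟨M, hM.1, fun K hK => ?_⟩
    by_contra hxK
    exact not_le_of_gt hK (hM.2 hxK hK.le)
  have hcover : ∀ y : T, y ∈ M ∨ y * x ∈ M := by
    intro y
    by_cases hy : y ∈ M
    · exact Or.inl hy
    right
    -- M ∪ M y is a subgroup
    let K : Subgroup T :=
      { carrier := {z | z ∈ M ∨ z * y ∈ M}
        one_mem' := Or.inl M.one_mem
        mul_mem' := by
          rintro a b (ha | ha) (hb | hb)
          · exact Or.inl (M.mul_mem ha hb)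
          · exact Or.inr (by rw [mul_assoc]; exact M.mul_mem ha hb)
          · right
            rw [mul_assoc, hcomm b y, ← mul_assoc]; exact M.mul_mem ha hb
          · left
            have := M.mul_mem ha hb
            have e : a * y * (b * y) = a * b := by
              rw [hcomm b y, mul_assoc, ← mul_assoc y y b, ← pow_two, h y, one_mul]
            rwa [e] at this
        inv_mem' := by
          intro a ha
          rw [hinv a]; exact ha }
    have hlt : M < K := by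
      refine lt_of_le_of_ne (fun z hz => Or.inl hz) ?_
      intro heq
      apply hy
      rw [heq]
      right
      rw [← pow_two, h y]; exact M.one_mem
    rcases hmax K hlt with h1 | h1
    · exact absurd h1 hMx
    · rw [hcomm]; exact h1
  have hco : IsCoatom M := by
    refine ⟨?_, fun K hK => ?_⟩
    · rintro rfl; exact hMx (Subgroup.mem_top x)
    · rw [eq_top_iff]
      intro y _
      have hxK := hmax K hK
      rcases hcover y with h1 | h1
      · exact hK.le h1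
      · have := K.mul_mem (hK.le h1) (K.inv_mem hxK)
        simpa using this
  exact hMx (frattini_le_coatom hco hx)

/-- The theorem for a conjugation-invariant family. -/
theorem family_commute {S : Type*} [Group S] [Finite S] (hS : IsPGroup 2 S)
    (Δ : Set (Subgroup S)) (hinv : ∀ s : S, ∀ R ∈ Δ, cj s R ∈ Δ)
    (hΦ : ∀ R ∈ Δ, ∃ r ∈ R, r ^ 2 ≠ 1) (hord : ∀ R ∈ Δ, ∀ T ∈ Δ, Nat.card ↥R = Nat.card ↥T)
    (hti : ∀ R ∈ Δ, ∀ T ∈ Δ, R = T ∨ R ⊓ T = ⊥) :
    ∀ R ∈ Δ, ∀ T ∈ Δ, R ≠ T → ∀ r ∈ R, ∀ t ∈ T, r * t = t * r := by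
  have main : ∀ n : ℕ, ∀ R ∈ Δ, ∀ T ∈ Δ, R ≠ T → Nat.card ↥(R ⊔ T) ≤ n → ∀ r ∈ R, ∀ t ∈ T, r * t = t * r := by
    intro n
    induction n with
    | zero =>
      intro R _ T _ _ h
      have : 0 < Nat.card ↥(R ⊔ T) := Nat.card_pos
      omega
    | succ n ih =>
      intro R hR T hT hne hcard
      have hti' : ∀ R ∈ Δ, ∀ g : S, cj g R = R ∨ cj g R ⊓ R = ⊥ := fun R hR g => hti _ (hinv g R hR) _ hR
      have ltR : ∀ R ∈ Δ, ∀ T ∈ Δ, R ≠ T → R < R ⊔ T := by
        intro R hR T hT hne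
        refine lt_of_le_of_ne le_sup_left ?_
        intro h
        apply hne
        have hTR : T ≤ R := by rw [h]; exact le_sup_right
        exact (Subgroup.eq_of_le_of_card_ge hTR (hord R hR T hT).le).symm
      have star : ∀ R ∈ Δ, ∀ T ∈ Δ, R ≠ T → Nat.card ↥(R ⊔ T) ≤ n + 1 →
          ∀ s ∈ T, cj s R ≠ R → ∀ x ∈ R, ∀ y ∈ cj s R, x * y = y * x := by
        intro R hR T hT hne hcard s hs hsR
        have hlt := sup_cj_lt hS (ltR R hR T hT hne) (s := s) (le_sup_right (a := R) hs)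
        have hc : Nat.card ↥(R ⊔ cj s R) < Nat.card ↥(R ⊔ T) := by
          rcases Nat.lt_or_ge (Nat.card ↥(R ⊔ cj s R)) (Nat.card ↥(R ⊔ T)) with h | h
          · exact h
          · exact absurd (Subgroup.eq_of_le_of_card_ge hlt.le h) hlt.ne
        exact ih R hR _ (hinv s R hR) (Ne.symm hsR) (by omega)
      have hsR := star R hR T hT hne hcard
      have hsT := star T hT R hR (Ne.symm hne) (by rwa [sup_comm])
      have hinf : R ⊓ T = ⊥ := (hti R hR T hT).resolve_left hne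
      by_cases h1 : ∀ r ∈ R, cj r T = T
      · exact commute_of_normalizes (hord R hR T hT) (hti' R hR) hinf hsR h1
      by_cases h2 : ∀ t ∈ T, cj t R = R
      · intro r hr t ht
        exact (commute_of_normalizes (hord T hT R hR) (hti' T hT) (by rwa [inf_comm]) hsT h2 t ht r hr).symm
      exfalso
      push Not at h1 h2
      obtain ⟨r₀, hr₀, hr₀T⟩ := h1
      obtain ⟨t₀, ht₀, ht₀R⟩ := h2
      have hZ : ∀ R ∈ Δ, ∃ z ∈ R, z ≠ 1 ∧ ∀ t ∈ R, z * t = t * z := by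
        intro R hR
        obtain ⟨r, hr, hr2⟩ := hΦ R hR
        have : Nontrivial ↥R := ⟨⟨⟨r, hr⟩, 1, fun h => hr2 (by
          have : r = 1 := congrArg Subtype.val h
          rw [this]; simp)⟩⟩
        have hc := (hS.to_subgroup R).center_nontrivial
        obtain ⟨⟨z, hz⟩, hz1⟩ := exists_ne (1 : Subgroup.center ↥R)
        refine ⟨z, z.2, fun h => hz1 (Subtype.ext (Subtype.ext h)), fun t ht => ?_⟩
        have := Subgroup.mem_center_iff.1 hz ⟨t, ht⟩
        exact (congrArg Subtype.val this).symm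
      have hT1 := not_normalizes (hti' R hR) (hti' T hT) hsT (hZ T hT) hr₀ hr₀T ht₀ ht₀R
      have hR1 := not_normalizes (hti' T hT) (hti' R hR) hsR (hZ R hR) ht₀ ht₀R hr₀ hr₀T
      obtain ⟨r, hr, hr2⟩ := hΦ R hR
      -- an element of order 4
      obtain ⟨r', hr', hr'4, hr'2⟩ : ∃ r' ∈ R, r' ^ 4 = 1 ∧ r' ^ 2 ≠ 1 := by
        classical
        have hex : ∃ m, r ^ (2 ^ m) = 1 := by
          obtain ⟨m, hm⟩ := hS r
          exact ⟨m, hm⟩
        have hs := Nat.find_spec hex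
        have hmin : ∀ k < Nat.find hex, r ^ (2 ^ k) ≠ 1 := fun k hk => Nat.find_min hex hk
        have h2 : 2 ≤ Nat.find hex := by
          by_contra hlt
          have h01 : Nat.find hex = 0 ∨ Nat.find hex = 1 := by omega
          rcases h01 with h | h
          · rw [h] at hs
            apply hr2
            have : r = 1 := by simpa using hs
            rw [this]; simp
          · rw [h] at hs
            exact hr2 (by simpa using hs)
        obtain ⟨n, hn⟩ : ∃ n, Nat.find hex = n + 2 := ⟨Nat.find hex - 2, by omega⟩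
        refine ⟨r ^ (2 ^ n), R.pow_mem hr _, ?_, ?_⟩
        · rw [← pow_mul, show 2 ^ n * 4 = 2 ^ (n + 2) by rw [pow_add]; norm_num, ← hn]
          exact hs
        · rw [← pow_mul, show 2 ^ n * 2 = 2 ^ (n + 1) by rw [pow_succ]]
          exact hmin _ (by omega)
      obtain ⟨t, ht, ht2⟩ := hΦ T hT
      exact ht2 (exponent_two (hti' T hT) hsT hsR hT1 hR1 hr' hr'4 hr'2 t ht)
  intro R hR T hT hne
  exact main _ R hR T hT hne le_rfl

end Cfsg.Agent.Lib.TISub
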