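import Mathlib
import Cfsg.Agent.Lib.OrthMax
import Cfsg.Agent.Lib.TSPairH94

set_option autoImplicit false
set_option linter.unusedSectionVars false

/-!
Overgroups in `Om Q` of the stabiliser of a pair of complementary totally singular subspaces.
-/

namespace Cfsg.Agent.Lib.TSPairQH94

open QuadraticMap Module Cfsg.Agent.Lib.Quad Cfsg.Agent.Lib.OrthMax

variable {F V : Type*} [Field F] [AddCommGroup V] [Module F V]

/-- the configuration -/
structure QPair (Q : QuadraticForm F V) (M : Subgroup (V ≃ₗ[F] V)) (A B : Submodule F V) :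
    Prop where
  nd : Nd Q
  gen : GenHyp Q
  le : M ≤ O Q
  tsA : ∀ x ∈ A, Q x = 0
  tsB : ∀ x ∈ B, Q x = 0
  dec : ∀ v, ∃ a ∈ A, ∃ b ∈ B, a + b = v
  int : ∀ v, v ∈ A → v ∈ B → v = 0
  five : 5 ≤ finrank F A
  eqd : finrank F A = finrank F B
  even : Even (finrank F A)
  stab : ∀ g ∈ Om Q, (∀ a ∈ A, g a ∈ A) → (∀ b ∈ B, g b ∈ B) → g ∈ M
  swap : ∀ g ∈ Om Q, (∀ a ∈ A, g a ∈ B) → (∀ b ∈ B, g b ∈ A) → g ∈ M

namespace QPair
variable {Q : QuadraticForm F V} {M : Subgroup (V ≃ₗ[F] V)} {A B : Submodule F V}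

theorem symm (P : QPair Q M A B) : QPair Q M B A where
  nd := P.nd
  gen := P.gen
  le := P.le
  tsA := P.tsB
  tsB := P.tsA
  dec v := by
    obtain ⟨a, ha, b, hb, h1⟩ := P.dec v
    exact ⟨b, hb, a, ha, by rw [add_comm]; exact h1⟩
  int v hv hv' := P.int v hv' hv
  five := by rw [← P.eqd]; exact P.five
  eqd := P.eqd.symm
  even := by rw [← P.eqd]; exact P.even
  stab g hg h1 h2 := P.stab g hg h2 h1
  swap g hg h1 h2 := P.swap g hg h2 h1

theorem pA (P : QPair Q M A B) {x y : V} (hx : x ∈ A) (hy : y ∈ A) : polar Q x y = 0 := by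
  rw [polar, P.tsA _ (A.add_mem hx hy), P.tsA _ hx, P.tsA _ hy]; ring

theorem pB (P : QPair Q M A B) {x y : V} (hx : x ∈ B) (hy : y ∈ B) : polar Q x y = 0 := by
  rw [polar, P.tsB _ (B.add_mem hx hy), P.tsB _ hx, P.tsB _ hy]; ring

variable [Finite F] [FiniteDimensional F V] (P : QPair Q M A B)
include P

/-- duality between `A` and `B` -/
theorem dual {C : Submodule F V} (hC : C ≤ A) {a : V} (ha : a ∈ A) (haC : a ∉ C) :
    ∃ b ∈ B, polar Q a b = 1 ∧ ∀ c ∈ C, polar Q c b = 0 := by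
  have h1 : a ∉ C ⊔ B := by
    intro hmem
    obtain ⟨c, hc, b, hb, hcb⟩ := Submodule.mem_sup.1 hmem
    have h2 : b ∈ A := by
      have : b = a - c := by rw [← hcb]; abel
      rw [this]; exact A.sub_mem ha (hC hc)
    have h3 := P.int b h2 hb
    rw [h3, add_zero] at hcb
    exact haC (hcb ▸ hc)
  obtain ⟨y, hy, hay⟩ := P.nd.exists_polar_one _ h1
  have hy0 : ∀ x ∈ C ⊔ B, polar Q x y = 0 := fun x hx => mem_perp.1 hy x hx
  refine ⟨y, ?_, hay, fun c hc => hy0 c (Submodule.mem_sup_left hc)⟩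
  obtain ⟨a', ha', b', hb', hab⟩ := P.dec y
  have h2 : a' = 0 := by
    apply P.nd.eq_zero
    intro z
    obtain ⟨a'', ha'', b'', hb'', rfl⟩ := P.dec z
    rw [polar_add_right, P.pA ha' ha'', zero_add]
    have h3 := hy0 b'' (Submodule.mem_sup_right hb'')
    rw [← hab, polar_add_right, P.pB hb'' hb', add_zero, polar_comm] at h3
    exact h3
  rw [h2, zero_add] at hab
  rw [← hab]; exact hb'

theorem Sab {a b : V} (ha : a ∈ A) (hb : b ∈ B) (hab : polar Q a b = 0) :
    ∃ g ∈ M, (∀ x, g x = x + polar Q a x • b - polar Q b x • a) := by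
  have hx : ∀ x, sieg P.nd (P.tsA a ha) hab x = x + polar Q a x • b - polar Q b x • a := by
    intro x
    rw [sieg_apply, P.tsB b hb, zero_mul, zero_smul, sub_zero]
  refine ⟨sieg P.nd (P.tsA a ha) hab, P.stab _ (SI_Om P.nd P.gen _ _) ?_ ?_, hx⟩
  · intro a' ha'
    rw [hx, P.pA ha ha', zero_smul, add_zero]
    exact A.sub_mem ha' (A.smul_mem _ ha)
  · intro b' hb'
    rw [hx, P.pB hb hb', zero_smul, sub_zero]
    exact B.add_mem hb' (B.smul_mem _ hb)

theorem SIab {a b : V} (ha : a ∈ A) (hb : b ∈ B) (hab : polar Q a b = 0) : SI Q M a b := by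
  obtain ⟨g, hg, hgx⟩ := P.Sab ha hb hab
  refine ⟨g, hg, fun x => ?_⟩
  rw [hgx, siegMap_apply, P.tsB b hb, zero_mul, zero_smul, sub_zero]

theorem finrank_inf_ker (U : Submodule F V) (w : V) :
    ∃ U' ≤ U, (∀ x ∈ U', polar Q w x = 0) ∧ finrank F U ≤ finrank F U' + 1 := by
  let φ : V →ₗ[F] F := polarBilin Q w
  refine ⟨U ⊓ LinearMap.ker φ, inf_le_left, fun x hx => hx.2, ?_⟩
  have h2 := Submodule.finrank_sup_add_finrank_inf_eq U (LinearMap.ker φ)
  have h3 := LinearMap.finrank_range_add_finrank_ker φ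
  have h4 : finrank F (LinearMap.range φ) ≤ 1 := by
    have := Submodule.finrank_le (LinearMap.range φ)
    rwa [finrank_self] at this
  have h5 := Submodule.finrank_le (U ⊔ LinearMap.ker φ)
  omega

/-- invariant subspaces of the group generated by the `S(a,b)` -/
theorem eq_of_invariant {U : Submodule F V} (hU : finrank F U = finrank F A)
    (hinv : ∀ a ∈ A, ∀ b ∈ B, polar Q a b = 0 → ∀ u ∈ U, polar Q a u • b - polar Q b u • a ∈ U) :
    U = A ∨ U = B := by
  have key : ∀ {A B : Submodule F V}, QPair Q M A B → finrank F U = finrank F B →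
      (∀ a ∈ A, ∀ b ∈ B, polar Q a b = 0 → ∀ u ∈ U, polar Q a u • b - polar Q b u • a ∈ U) →
      ∀ u ∈ U, u ∈ B → u ≠ 0 → U = B := by
    intro A B P hU hinv u hu huB hu0
    have h1 : ∀ b ∈ B, b ∉ F ∙ u → b ∈ U := by
      intro b hb hbu
      have hub : u ∉ F ∙ b := by
        intro hmem
        obtain ⟨c, rfl⟩ := Submodule.mem_span_singleton.1 hmem
        have hc : c ≠ 0 := by rintro rfl; rw [zero_smul] at hu0; exact hu0 rfl
        apply hbu
        rw [Submodule.mem_span_singleton]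
        exact ⟨c⁻¹, by rw [smul_smul, inv_mul_cancel₀ hc, one_smul]⟩
      obtain ⟨a, ha, h2, h3⟩ := P.symm.dual ((Submodule.span_singleton_le_iff_mem _ _).2 hb) huB hub
      replace h3 := h3 b (Submodule.mem_span_singleton_self b)
      have h4 := hinv a ha b hb (by rw [polar_comm]; exact h3) u hu
      rw [polar_comm Q a u, h2, P.pB hb huB, one_smul, zero_smul, sub_zero] at h4
      exact h4
    have h2 : B ≤ U := by
      intro b hb
      by_cases hbu : b ∈ F ∙ u
      · obtain ⟨c, rfl⟩ := Submodule.mem_span_singleton.1 hbu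
        exact U.smul_mem _ hu
      · exact h1 b hb hbu
    exact (Submodule.eq_of_le_of_finrank_eq h2 hU.symm).symm
  have hinv' : ∀ b ∈ B, ∀ a ∈ A, polar Q b a = 0 → ∀ u ∈ U, polar Q b u • a - polar Q a u • b ∈ U := by
    intro b hb a ha hba u hu
    have := U.neg_mem (hinv a ha b hb (by rw [polar_comm]; exact hba) u hu)
    rwa [neg_sub] at this
  have hU0 : U ≠ ⊥ := by
    rintro rfl
    rw [finrank_bot] at hU
    have := P.five
    omega
  obtain ⟨u, hu, hu0⟩ := Submodule.exists_mem_ne_zero_of_ne_bot hU0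
  obtain ⟨a₁, ha₁, b₁, hb₁, hab⟩ := P.dec u
  by_cases ha0 : a₁ = 0
  · right
    rw [ha0, zero_add] at hab
    exact key P (by rw [hU, P.eqd]) hinv u hu (hab ▸ hb₁) hu0
  by_cases hb0 : b₁ = 0
  · left
    rw [hb0, add_zero] at hab
    exact key P.symm hU hinv' u hu (hab ▸ ha₁) hu0
  · right
    obtain ⟨b, hb, hab₁, hbb⟩ : ∃ b ∈ B, polar Q a₁ b = 0 ∧ b ∉ F ∙ b₁ := by
      by_contra hcon
      push Not at hcon
      obtain ⟨U', hU', h1, h2⟩ := P.finrank_inf_ker B a₁
      have h3 : U' ≤ F ∙ b₁ := fun x hx => hcon x (hU' hx) (h1 x hx)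
      have h3 := Submodule.finrank_mono h3
      rw [finrank_span_singleton hb0] at h3
      have h4 := P.five
      have h5 := P.eqd
      omega
    have hb0' : b ≠ 0 := by rintro rfl; exact hbb (Submodule.zero_mem _)
    have hb₁b : b₁ ∉ F ∙ b := by
      intro hmem
      obtain ⟨c, rfl⟩ := Submodule.mem_span_singleton.1 hmem
      have hc : c ≠ 0 := by rintro rfl; rw [zero_smul] at hb0; exact hb0 rfl
      apply hbb
      rw [Submodule.mem_span_singleton]
      exact ⟨c⁻¹, by rw [smul_smul, inv_mul_cancel₀ hc, one_smul]⟩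
    obtain ⟨a, ha, h2, h3⟩ := P.symm.dual ((Submodule.span_singleton_le_iff_mem _ _).2 hb) hb₁ hb₁b
    replace h3 := h3 b (Submodule.mem_span_singleton_self b)
    have h4 := hinv a ha b hb (by rw [polar_comm]; exact h3) u hu
    rw [← hab, polar_add_right, polar_add_right, P.pA ha ha₁, polar_comm Q a b₁, h2, polar_comm Q b a₁,
      hab₁, P.pB hb hb₁, add_zero, zero_smul, zero_add, one_smul, sub_zero] at h4
    exact key P (by rw [hU, P.eqd]) hinv b h4 hb hb0'

theorem exists_SI {x : V ≃ₗ[F] V} (hx : x ∈ M) {a' b' : V}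
    (hxe : ∀ v, x v = v + polar Q a' v • b' - polar Q b' v • a') {b₀ : V} (hb₀ : b₀ ∈ B)
    (hxb : x b₀ ∉ B) :
    ∃ a ∈ A, a ≠ 0 ∧ ∃ y ∈ A, y ∉ F ∙ a ∧ SI Q M a y := by
  obtain ⟨U₁, hU₁, h₁, hd₁⟩ := P.finrank_inf_ker A a'
  obtain ⟨U₂, hU₂, h₂, hd₂⟩ := P.finrank_inf_ker U₁ b'
  obtain ⟨U₃, hU₃, h₃, hd₃⟩ := P.finrank_inf_ker U₂ b₀
  have hd := P.five
  have hprop : ∀ a ∈ U₃, a ∈ A ∧ x a = a ∧ polar Q b₀ a = 0 := by
    intro a ha
    refine ⟨hU₁ (hU₂ (hU₃ ha)), ?_, h₃ a ha⟩
    rw [hxe, h₁ a (hU₂ (hU₃ ha)), h₂ a (hU₃ ha)]; simp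
  obtain ⟨α, hα, β, hβ, hab⟩ := P.dec (x b₀)
  have hα0 : α ≠ 0 := by
    rintro rfl
    rw [zero_add] at hab
    exact hxb (hab ▸ hβ)
  obtain ⟨a, haU, haα⟩ : ∃ a ∈ U₃, a ∉ F ∙ α := by
    by_contra hcon
    push Not at hcon
    have := Submodule.finrank_mono (show U₃ ≤ F ∙ α from hcon)
    rw [finrank_span_singleton hα0] at this
    omega
  obtain ⟨haA, hxa, hab₀⟩ := hprop a haU
  have hαa : α ∉ F ∙ a := by
    intro hmem
    obtain ⟨c, rfl⟩ := Submodule.mem_span_singleton.1 hmem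
    have hc : c ≠ 0 := by rintro rfl; rw [zero_smul] at hα0; exact hα0 rfl
    apply haα
    rw [Submodule.mem_span_singleton]
    exact ⟨c⁻¹, by rw [smul_smul, inv_mul_cancel₀ hc, one_smul]⟩
  have hab₀' : polar Q a b₀ = 0 := by rw [polar_comm]; exact hab₀
  have h4 := (P.SIab haA hb₀ hab₀').map hx (P.le hx)
  rw [hxa] at h4
  have h5 : polar Q a (x b₀) = 0 := by
    rw [← hxa, O_polar (P.le hx)]; exact hab₀'
  have h6 : polar Q a β = 0 := by
    rw [← hab, polar_add_right, P.pA haA hα, zero_add] at h5; exact h5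
  have h7 := h4.sub (P.tsA a haA) h5 h6 (P.SIab haA hβ h6)
  rw [← hab, add_sub_cancel_right] at h7
  exact ⟨a, haA, fun h0 => haα (by rw [h0]; exact Submodule.zero_mem _), α, hα, hαa, h7⟩

theorem full_of {a y : V} (ha : a ∈ A) (hy : y ∈ A) (hya : y ∉ F ∙ a) (h : SI Q M a y) :
    Full Q M a := by
  have haa := P.tsA a ha
  have hpa : ∀ {x}, x ∈ A → polar Q a x = 0 := fun hx => P.pA ha hx
  have hspan : ∀ {x}, x ∈ A → (F ∙ x) ≤ A := fun hx => (Submodule.span_singleton_le_iff_mem _ _).2 hx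
  -- basic step
  have step : ∀ y ∈ A, SI Q M a y → ∀ b₁ ∈ B, polar Q y b₁ = 1 → polar Q a b₁ = 0 →
      ∀ a₁ ∈ A, polar Q a₁ b₁ = 0 → SI Q M a a₁ := by
    intro y hy h b₁ hb₁ h1 h2 a₁ ha₁ h3
    obtain ⟨g, hg, hgx⟩ := P.Sab ha₁ hb₁ h3
    have h4 := h.map hg (P.le hg)
    have h5 : g a = a := by
      rw [hgx, P.pA ha₁ ha, polar_comm, h2]; simp
    have h6 : g y = y - a₁ := by
      rw [hgx, P.pA ha₁ hy, polar_comm Q b₁ y, h1]; simp
    rw [h5, h6] at h4
    have h7 := h.sub haa (hpa hy) (hpa (A.sub_mem hy ha₁)) h4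
    rwa [sub_sub_cancel] at h7
  obtain ⟨b₁, hb₁, h1, h2⟩ := P.dual (hspan ha) hy hya
  replace h2 := h2 a (Submodule.mem_span_singleton_self a)
  have hAll : ∀ a₂ ∈ A, SI Q M a a₂ := by
    intro a₂ ha₂
    by_cases h3 : polar Q a₂ b₁ = 0
    · exact step y hy h b₁ hb₁ h1 h2 a₂ ha₂ h3
    -- a₁ ∈ A ∩ b₁^⊥ not in ⟨a, a₂⟩
    obtain ⟨a₁, ha₁, h4, h5⟩ : ∃ a₁ ∈ A, polar Q b₁ a₁ = 0 ∧ a₁ ∉ Submodule.span F {a, a₂} := by
      by_contra hcon
      push Not at hcon
      obtain ⟨U', hU', h1, h2⟩ := P.finrank_inf_ker A b₁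
      have h3 : U' ≤ Submodule.span F {a, a₂} := fun x hx => hcon x (hU' hx) (h1 x hx)
      have h3 := Submodule.finrank_mono h3
      have h6 : finrank F (Submodule.span F ({a, a₂} : Set V)) ≤ 2 := by
        classical
        have h2 := finrank_span_finset_le_card (R := F) ({a, a₂} : Finset V)
        have h3 : ({a, a₂} : Finset V).card ≤ 2 := Finset.card_le_two (a := a) (b := a₂)
        rw [Finset.coe_pair] at h2
        exact h2.trans h3
      have h4 := P.five
      omega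
    have h6 : SI Q M a a₁ := step y hy h b₁ hb₁ h1 h2 a₁ ha₁ (by rw [polar_comm]; exact h4)
    have hle : Submodule.span F {a, a₂} ≤ A := by
      rw [Submodule.span_le]
      rintro x (rfl | rfl)
      · exact ha
      · exact ha₂
    obtain ⟨b₂, hb₂, h7, h8⟩ := P.dual hle ha₁ h5
    exact step a₁ ha₁ h6 b₂ hb₂ h7 (h8 a (Submodule.subset_span (by simp))) a₂ ha₂
      (h8 a₂ (Submodule.subset_span (by simp)))
  refine ⟨haa, fun z hz => ?_⟩
  obtain ⟨α, hα, β, hβ, rfl⟩ := P.dec z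
  rw [polar_add_right, hpa hα, zero_add] at hz
  exact (hAll α hα).add haa (hpa hα) hz (P.SIab ha hβ hz)

theorem full_A {a : V} (ha : a ∈ A) (ha0 : a ≠ 0) (h : Full Q M a) : ∀ a' ∈ A, Full Q M a' := by
  intro a' ha'
  by_cases hd : a' ∈ F ∙ a
  · obtain ⟨c, rfl⟩ := Submodule.mem_span_singleton.1 hd
    exact h.smul c
  · have h1 : a ∉ F ∙ (a - a') := by
      intro hmem
      obtain ⟨c, hc⟩ := Submodule.mem_span_singleton.1 hmem
      have hc0 : c ≠ 0 := by
        rintro rfl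
        rw [zero_smul] at hc
        exact ha0 hc.symm
      apply hd
      rw [Submodule.mem_span_singleton]
      refine ⟨(c - 1) / c, ?_⟩
      have e : c • a' = (c - 1) • a := by
        have : c • a' = c • a - c • (a - a') := by module
        rw [this, hc]; module
      rw [div_eq_inv_mul, mul_smul, ← e, smul_smul, inv_mul_cancel₀ hc0, one_smul]
    obtain ⟨b, hb, h2, h3⟩ := P.dual ((Submodule.span_singleton_le_iff_mem _ _).2 (A.sub_mem ha ha')) ha h1
    replace h3 := h3 _ (Submodule.mem_span_singleton_self _)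
    obtain ⟨g, hg, hgx⟩ := P.Sab (A.sub_mem ha ha') hb h3
    have h4 : g a = a' := by
      rw [hgx, P.pA (A.sub_mem ha ha') ha, polar_comm Q b a, h2]; module
    rw [← h4]
    exact h.map P.le hg

theorem exists_swap : ∃ s ∈ M, (∀ a ∈ A, s a ∈ B) ∧ (∀ b ∈ B, s b ∈ A) := by
  let e₀ := finBasis F A
  let e : Fin (finrank F A) → V := fun i => (e₀ i : V)
  have heA : ∀ i, e i ∈ A := fun i => (e₀ i).2
  have hli : LinearIndependent F e := e₀.linearIndependent.map' A.subtype (Submodule.ker_subtype A)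
  have hspan : Submodule.span F (Set.range e) = A := by
    have h1 := e₀.span_eq
    have h2 : Set.range e = A.subtype '' Set.range e₀ := by
      rw [← Set.range_comp]; rfl
    rw [h2, ← Submodule.map_span, h1, Submodule.map_top, Submodule.range_subtype]
  have hf : ∀ i, ∃ f ∈ B, polar Q (e i) f = 1 ∧ ∀ j, j ≠ i → polar Q (e j) f = 0 := by
    intro i
    obtain ⟨f, hf, h1, h2⟩ := P.dual (C := Submodule.span F (e '' {j | j ≠ i})) (by
      rw [Submodule.span_le]
      rintro _ ⟨j, _, rfl⟩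
      exact heA j) (heA i) (hli.notMem_span_image (by simp))
    exact ⟨f, hf, h1, fun j hj => h2 _ (Submodule.subset_span ⟨j, hj, rfl⟩)⟩
  choose f hfB hef hef' using hf
  have hfe : ∀ i, polar Q (f i) (e i) = 1 := fun i => by rw [polar_comm, hef]
  have hfe' : ∀ i j, j ≠ i → polar Q (f i) (e j) = 0 := fun i j hij => by
    rw [polar_comm]; exact hef' i j hij
  have hq : ∀ i, Q (e i - f i) = -1 := by
    intro i
    rw [Q_sub, P.tsA _ (heA i), P.tsB _ (hfB i), hef]; ring
  have hq0 : ∀ i, Q (e i - f i) ≠ 0 := fun i => by rw [hq]; exact neg_ne_zero.2 one_ne_zero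
  obtain ⟨w, hw⟩ : ∃ w : Fin (finrank F A) → (V ≃ₗ[F] V), ∀ i, w i = refl Q (e i - f i) :=
    ⟨_, fun _ => rfl⟩
  have hwx : ∀ i x, w i x = x + polar Q (e i - f i) x • (e i - f i) := by
    intro i x
    rw [hw, refl_apply (hq0 i), hq, inv_neg, inv_one]; module
  have hww : ∀ i, w i (e i) = f i ∧ w i (f i) = e i := by
    intro i
    rw [hwx, hwx, polar_sub_left, polar_sub_left, P.pA (heA i) (heA i), P.pB (hfB i) (hfB i), hef, hfe]
    constructor <;> module
  have hww' : ∀ i j, j ≠ i → w i (e j) = e j ∧ w i (f j) = f j := by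
    intro i j hij
    rw [hwx, hwx, polar_sub_left, polar_sub_left, P.pA (heA i) (heA j), P.pB (hfB i) (hfB j),
      hfe' i j hij, hef' j i (Ne.symm hij)]
    constructor <;> module
  have hlist : ∀ l : List (Fin (finrank F A)), l.Nodup → ∀ j,
      (l.map w).prod (e j) = (if j ∈ l then f j else e j) ∧
      (l.map w).prod (f j) = (if j ∈ l then e j else f j) := by
    intro l
    induction l with
    | nil => intro _ j; simp
    | cons i l ih =>
      intro hnd j
      obtain ⟨h1, h2⟩ := List.nodup_cons.1 hnd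
      obtain ⟨h3, h4⟩ := ih h2 j
      rw [List.map_cons, List.prod_cons, LinearEquiv.mul_apply, LinearEquiv.mul_apply, h3, h4]
      by_cases hji : j = i
      · subst hji
        rw [if_neg h1, if_neg h1, if_pos List.mem_cons_self, if_pos List.mem_cons_self]
        exact hww j
      · obtain ⟨h5, h6⟩ := hww' i j hji
        by_cases hjl : j ∈ l
        · rw [if_pos hjl, if_pos hjl, if_pos (List.mem_cons_of_mem _ hjl),
            if_pos (List.mem_cons_of_mem _ hjl), h5, h6]
          exact ⟨rfl, rfl⟩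
        · rw [if_neg hjl, if_neg hjl, if_neg (by simp [hji, hjl]), if_neg (by simp [hji, hjl]), h5, h6]
          exact ⟨rfl, rfl⟩
  obtain ⟨s, hs⟩ : ∃ s, s = ((List.finRange (finrank F A)).map w).prod := ⟨_, rfl⟩
  have hsG : s ∈ Om Q := by
    have h1 : s = (((List.finRange (finrank F A)).map fun i => e i - f i).map (refl Q)).prod := by
      rw [hs, List.map_map]
      congr 1
      apply List.map_congr_left
      intro i _
      exact hw i
    rw [h1, P.nd.list_mem_Om_iff P.gen _ (by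
      intro v hv
      obtain ⟨i, _, rfl⟩ := List.mem_map.1 hv
      exact hq0 i)]
    have h2 : (((List.finRange (finrank F A)).map fun i => e i - f i).map Q) =
        List.replicate (finrank F A) (-1) := by
      rw [List.map_map]
      have h3 : (List.finRange (finrank F A)).map (Q ∘ fun i => e i - f i) =
          (List.finRange (finrank F A)).map (Function.const _ (-1)) :=
        List.map_congr_left fun i _ => hq i
      rw [h3, List.map_const, List.length_finRange]
    rw [h2, List.length_map, List.length_finRange, List.prod_replicate, P.even.neg_one_pow]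
    exact ⟨P.even, ⟨1, (mul_one 1).symm⟩⟩
  have hse : ∀ j, s (e j) = f j := fun j => by
    have := (hlist _ (List.nodup_finRange _) j).1
    rwa [if_pos (List.mem_finRange j), ← hs] at this
  have hsf : ∀ j, s (f j) = e j := fun j => by
    have := (hlist _ (List.nodup_finRange _) j).2
    rwa [if_pos (List.mem_finRange j), ← hs] at this
  have hsA : A.map s.toLinearMap ≤ B := by
    rw [← hspan, Submodule.map_span, Submodule.span_le]
    rintro _ ⟨_, ⟨j, rfl⟩, rfl⟩
    show s (e j) ∈ B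
    rw [hse]; exact hfB j
  have hsA' : A.map s.toLinearMap = B := by
    apply Submodule.eq_of_le_of_finrank_eq hsA
    rw [← P.eqd]
    exact LinearEquiv.finrank_map_eq s A
  have hss : (A.map s.toLinearMap).map s.toLinearMap ≤ A := by
    conv_lhs => rw [← hspan]
    rw [Submodule.map_span, Submodule.map_span, Submodule.span_le]
    rintro _ ⟨_, ⟨_, ⟨j, rfl⟩, rfl⟩, rfl⟩
    show s (s (e j)) ∈ A
    rw [hse, hsf]; exact heA j
  have h1 : ∀ a ∈ A, s a ∈ B := fun a ha => hsA ⟨a, ha, rfl⟩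
  have h2 : ∀ b ∈ B, s b ∈ A := by
    intro b hb
    rw [← hsA'] at hb
    exact hss ⟨b, hb, rfl⟩
  exact ⟨s, P.swap s hsG h1 h2, h1, h2⟩

theorem four : 4 ≤ finrank F V := by
  have h1 := P.five
  have h2 := Submodule.finrank_le A
  omega

theorem dual' {a : V} (ha : a ∈ A) (ha0 : a ≠ 0) : ∃ b ∈ B, polar Q a b = 1 := by
  obtain ⟨b, hb, hab, -⟩ := P.dual (C := ⊥) bot_le ha (by simpa using ha0)
  exact ⟨b, hb, hab⟩

/-- **Main theorem.** -/
theorem main (hex : ∃ g ∈ M, ¬ ((∀ a ∈ A, g a ∈ A) ∧ (∀ b ∈ B, g b ∈ B)) ∧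
      ¬ ((∀ a ∈ A, g a ∈ B) ∧ (∀ b ∈ B, g b ∈ A))) : Om Q ≤ M := by
  obtain ⟨g, hg, hg1, hg2⟩ := hex
  obtain ⟨s, hs, hsA, hsB⟩ := P.exists_swap
  have hor : (∃ a ∈ A, a ≠ 0 ∧ ∃ y ∈ A, y ∉ F ∙ a ∧ SI Q M a y) ∨
      (∃ b ∈ B, b ≠ 0 ∧ ∃ y ∈ B, y ∉ F ∙ b ∧ SI Q M b y) := by
    have hcomap : ∀ W : Submodule F V, finrank F (W.comap g.toLinearMap) = finrank F W := by
      intro W
      have h1 : (W.comap g.toLinearMap).map g.toLinearMap = W :=
        Submodule.map_comap_eq_of_surjective g.surjective W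
      conv_rhs => rw [← h1]
      exact (LinearEquiv.finrank_map_eq g _).symm
    have hstep : ∀ W : Submodule F V, ¬ (∀ a ∈ A, ∀ b ∈ B, polar Q a b = 0 →
        ∀ u ∈ W.comap g.toLinearMap, polar Q a u • b - polar Q b u • a ∈ W.comap g.toLinearMap) →
        ∃ x ∈ M, ∃ a' b' : V, (∀ v, x v = v + polar Q a' v • b' - polar Q b' v • a') ∧
          ∃ w ∈ W, x w ∉ W := by
      intro W hW
      push Not at hW
      obtain ⟨a, ha, b, hb, hab, u, hu, hu'⟩ := hW
      obtain ⟨r, hr, hrx⟩ := P.Sab ha hb hab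
      refine ⟨g * r * g⁻¹, mul_mem (mul_mem hg hr) (inv_mem hg), g a, g b, ?_, g u, hu, ?_⟩
      · intro v
        obtain ⟨v, rfl⟩ := g.surjective v
        have : (g * r * g⁻¹) (g v) = g (r v) := by
          show (g * r * g⁻¹ * g) v = _
          rw [inv_mul_cancel_right]; rfl
        rw [this, hrx, O_polar (P.le hg), O_polar (P.le hg), map_sub, map_add, LinearEquiv.map_smul,
          LinearEquiv.map_smul]
      · have : (g * r * g⁻¹) (g u) = g (r u) := by
          show (g * r * g⁻¹ * g) u = _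
          rw [inv_mul_cancel_right]; rfl
        rw [this, hrx]
        intro hmem
        apply hu'
        have h1 : g (u + polar Q a u • b - polar Q b u • a) - g u ∈ W := W.sub_mem hmem hu
        rw [← map_sub] at h1
        have e1 : u + polar Q a u • b - polar Q b u • a - u = polar Q a u • b - polar Q b u • a := by abel
        rw [e1] at h1
        exact h1
    by_cases hA : ∀ a ∈ A, ∀ b ∈ B, polar Q a b = 0 → ∀ u ∈ A.comap g.toLinearMap,
        polar Q a u • b - polar Q b u • a ∈ A.comap g.toLinearMap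
    · by_cases hB : ∀ a ∈ A, ∀ b ∈ B, polar Q a b = 0 → ∀ u ∈ B.comap g.toLinearMap,
          polar Q a u • b - polar Q b u • a ∈ B.comap g.toLinearMap
      · exfalso
        have hne : A ≠ B := by
          intro heq
          have h5 := P.five
          obtain ⟨a, ha, ha0⟩ := Submodule.exists_mem_ne_zero_of_ne_bot (show A ≠ ⊥ by
            intro h0; rw [h0, finrank_bot] at h5; omega)
          exact ha0 (P.int a ha (heq ▸ ha))
        have hne' : A.comap g.toLinearMap ≠ B.comap g.toLinearMap := fun heq =>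
          hne (Submodule.comap_injective_of_surjective g.surjective heq)
        rcases P.eq_of_invariant (hcomap A) hA with h1 | h1 <;>
          rcases P.eq_of_invariant (by rw [hcomap B, P.eqd]) hB with h2 | h2
        · exact hne' (h1.trans h2.symm)
        · exact hg1 ⟨fun a ha => by rw [← h1] at ha; exact ha, fun b hb => by rw [← h2] at hb; exact hb⟩
        · exact hg2 ⟨fun a ha => by rw [← h2] at ha; exact ha, fun b hb => by rw [← h1] at hb; exact hb⟩
        · exact hne' (h1.trans h2.symm)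
      · obtain ⟨x, hx, a', b', hxe, w, hw, hxw⟩ := hstep B hB
        exact Or.inl (P.exists_SI hx hxe hw hxw)
    · obtain ⟨x, hx, a', b', hxe, w, hw, hxw⟩ := hstep A hA
      exact Or.inr (P.symm.exists_SI hx hxe hw hxw)
  have hfin : ∀ {A B : Submodule F V}, QPair Q M A B → (∀ a ∈ A, s a ∈ B) →
      (∃ a ∈ A, a ≠ 0 ∧ ∃ y ∈ A, y ∉ F ∙ a ∧ SI Q M a y) → Om Q ≤ M := by
    intro A B P hs' ⟨a, ha, ha0, y, hy, hya, hSI⟩
    have hf := P.full_of ha hy hya hSI
    obtain ⟨a', ha', haa⟩ := P.symm.dual' (hs' a ha) (by simpa using ha0)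
    exact Om_le_of_two P.nd P.gen P.four P.le (hf.map P.le hs) (P.full_A ha ha0 hf a' ha')
      (by rw [haa]; exact one_ne_zero)
  rcases hor with h | h
  · exact hfin P hsA h
  · exact hfin P.symm hsB h

/-- some element of `Om Q` does not permute `A` and `B` -/
theorem exists_not : ∃ g ∈ Om Q, ¬ ((∀ a ∈ A, g a ∈ A) ∧ (∀ b ∈ B, g b ∈ B)) ∧
      ¬ ((∀ a ∈ A, g a ∈ B) ∧ (∀ b ∈ B, g b ∈ A)) := by
  have hA0 : A ≠ ⊥ := by
    intro h0
    have h5 := P.five
    rw [h0, finrank_bot] at h5; omega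
  obtain ⟨a, ha, ha0⟩ := Submodule.exists_mem_ne_zero_of_ne_bot hA0
  obtain ⟨y, hy, hya⟩ : ∃ y ∈ A, y ∉ F ∙ a := by
    by_contra hcon
    push Not at hcon
    have := Submodule.finrank_mono (show A ≤ F ∙ a from hcon)
    rw [finrank_span_singleton ha0] at this
    have h5 := P.five
    omega
  obtain ⟨b, hb, hab, h1⟩ := P.dual ((Submodule.span_singleton_le_iff_mem _ _).2 ha) hy hya
  obtain ⟨b', hb', hab', h1'⟩ := P.dual ((Submodule.span_singleton_le_iff_mem _ _).2 hy) ha (by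
    intro hmem
    obtain ⟨c, rfl⟩ := Submodule.mem_span_singleton.1 hmem
    have hc : c ≠ 0 := by rintro rfl; rw [zero_smul] at ha0; exact ha0 rfl
    apply hya
    rw [Submodule.mem_span_singleton]
    exact ⟨c⁻¹, by rw [smul_smul, inv_mul_cancel₀ hc, one_smul]⟩)
  replace h1' := h1' y (Submodule.mem_span_singleton_self y)
  have hx : ∀ x, sieg P.nd (P.tsA a ha) (P.pA ha hy) x = x + polar Q a x • y - polar Q y x • a := by
    intro x
    rw [sieg_apply, P.tsA y hy, zero_mul, zero_smul, sub_zero]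
  refine ⟨_, SI_Om P.nd P.gen (P.tsA a ha) (P.pA ha hy), ?_, ?_⟩
  · rintro ⟨-, h2⟩
    have h3 := h2 b' hb'
    rw [hx, hab', h1', one_smul, zero_smul, sub_zero] at h3
    have h4 := B.sub_mem h3 hb'
    rw [add_sub_cancel_left] at h4
    have h5 := P.int y hy h4
    rw [h5] at hya
    exact hya (Submodule.zero_mem _)
  · rintro ⟨h2, -⟩
    have h3 := h2 a ha
    rw [hx, P.pA ha ha, P.pA hy ha, zero_smul, zero_smul, add_zero, sub_zero] at h3
    exact ha0 (P.int a ha h3)

end QPair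

end Cfsg.Agent.Lib.TSPairQH94
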