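import Mathlib
import Cfsg.Agent.Lib.SLBlockH94

set_option autoImplicit false
set_option linter.unusedSectionVars false
set_option linter.unusedSimpArgs false
set_option linter.unusedVariables false

/-!
Overgroups of tensor product subgroups of the special linear group: the space is `W →ₗ[F] E`.
-/

namespace Cfsg.Agent.Lib.TenSLH94

open Module Cfsg.Agent.Lib.SLMax Cfsg.Agent.Lib.SLUn Cfsg.Agent.Lib.SLBlockH94

section general

variable {F V : Type*} [Field F] [AddCommGroup V] [Module F V] [FiniteDimensional F V]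

theorem exists_dual {W : Submodule F V} {x : V} (hx : x ∉ W) : ∃ φ : Dual F V, φ x = 1 ∧ ∀ w ∈ W, φ w = 0 := by
  obtain ⟨f, h1, h2⟩ := Submodule.exists_le_ker_of_notMem hx
  exact ⟨(f x)⁻¹ • f, by rw [LinearMap.smul_apply, smul_eq_mul, inv_mul_cancel₀ h1],
    fun w hw => by rw [LinearMap.smul_apply, show f w = 0 from h2 hw, smul_zero]⟩

theorem exists_dual0 {x : V} (hx : x ≠ 0) : ∃ φ : Dual F V, φ x = 1 := by
  obtain ⟨φ, h, -⟩ := exists_dual (W := (⊥ : Submodule F V)) (x := x) (by rwa [Submodule.mem_bot])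
  exact ⟨φ, h⟩

theorem exists_dual1 {v x : V} (hx : x ∉ Submodule.span F {v}) : ∃ φ : Dual F V, φ x = 1 ∧ φ v = 0 := by
  obtain ⟨φ, h, h'⟩ := exists_dual hx
  exact ⟨φ, h, h' v (Submodule.mem_span_singleton_self v)⟩

theorem exists_ker (hm : 2 ≤ finrank F V) (φ : Dual F V) : ∃ v, v ≠ 0 ∧ φ v = 0 := by
  have h1 := LinearMap.finrank_range_add_finrank_ker φ
  have h2 : finrank F (LinearMap.range φ) ≤ 1 := by
    have := Submodule.finrank_le (LinearMap.range φ)
    rwa [finrank_self] at this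
  have h3 : 0 < finrank F (LinearMap.ker φ) := by omega
  obtain ⟨x, hx⟩ := (Module.finrank_pos_iff_exists_ne_zero).1 h3
  exact ⟨x.1, fun h => hx (Subtype.ext h), x.2⟩

theorem finrank_span1 (v : V) : finrank F (Submodule.span F {v}) ≤ 1 := by
  have := finrank_span_le_card (R := F) ({v} : Set V)
  simpa using this

/-- a vector in a kernel outside a line -/
theorem exists_ker_out (hm : 3 ≤ finrank F V) (φ : Dual F V) (u : V) : ∃ v, v ∉ Submodule.span F {u} ∧ φ v = 0 := by
  have h1 := LinearMap.finrank_range_add_finrank_ker φ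
  have h2 : finrank F (LinearMap.range φ) ≤ 1 := by
    have := Submodule.finrank_le (LinearMap.range φ)
    rwa [finrank_self] at this
  have h3 := finrank_span1 (F := F) u
  obtain ⟨x, hx, hxv⟩ := Dec.exists_out (U := LinearMap.ker φ) (W := Submodule.span F {u}) (by omega)
  exact ⟨x, hxv, hx⟩

/-- a functional killing two vectors -/
theorem exists_kill2 (hm : 3 ≤ finrank F V) (u v : V) : ∃ φ : Dual F V, φ ≠ 0 ∧ φ u = 0 ∧ φ v = 0 := by
  classical
  have h1 : finrank F (Submodule.span F {u, v}) ≤ 2 := by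
    have := finrank_span_finset_le_card (R := F) ({u, v} : Finset V)
    rw [Finset.coe_pair] at this
    exact this.trans Finset.card_le_two
  obtain ⟨x, hx, hxv⟩ := Dec.exists_out (U := (⊤ : Submodule F V)) (W := Submodule.span F {u, v})
    (by rw [finrank_top]; omega)
  obtain ⟨φ, h2, h3⟩ := exists_dual hxv
  refine ⟨φ, ?_, h3 u (Submodule.subset_span (by simp)), h3 v (Submodule.subset_span (by simp))⟩
  rintro rfl
  exact zero_ne_one h2

/-- a vector with functional nonzero -/
theorem exists_val {φ : Dual F V} (h : φ ≠ 0) : ∃ v, φ v = 1 := by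
  obtain ⟨v, hv⟩ : ∃ v, φ v ≠ 0 := by
    by_contra hcon
    push Not at hcon
    exact h (LinearMap.ext hcon)
  exact ⟨(φ v)⁻¹ • v, by rw [map_smul, smul_eq_mul, inv_mul_cancel₀ hv]⟩

/-- independent functionals are separated -/
theorem exists_sep {φ ψ : Dual F V} (h : φ ∉ Submodule.span F {ψ}) : ∃ v, φ v = 1 ∧ ψ v = 0 := by
  by_cases hψ : ψ = 0
  · subst hψ
    have hφ : φ ≠ 0 := by
      rintro rfl
      exact h (zero_mem _)
    obtain ⟨v, hv⟩ := exists_val hφ
    exact ⟨v, hv, rfl⟩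
  obtain ⟨u, hu⟩ := exists_val hψ
  obtain ⟨x, hx⟩ : ∃ x, φ (x - ψ x • u) ≠ 0 := by
    by_contra hcon
    push Not at hcon
    apply h
    rw [Submodule.mem_span_singleton]
    refine ⟨φ u, LinearMap.ext fun x => ?_⟩
    have := hcon x
    rw [map_sub, map_smul, sub_eq_zero] at this
    rw [LinearMap.smul_apply, this, smul_eq_mul, smul_eq_mul, mul_comm]
  refine ⟨(φ (x - ψ x • u))⁻¹ • (x - ψ x • u), by rw [map_smul, smul_eq_mul, inv_mul_cancel₀ hx], ?_⟩
  rw [ψ.map_smul, ψ.map_sub, ψ.map_smul, hu, smul_eq_mul, smul_eq_mul, mul_one, sub_self, mul_zero]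

/-- all vectors eigenvectors -/
theorem exists_noneigen {X : V →ₗ[F] V} (h : ¬ ∃ c : F, ∀ x, X x = c • x) : ∃ v, X v ∉ Submodule.span F {v} := by
  by_contra hcon
  push Not at hcon
  apply h
  have h1 : ∀ v, ∃ c : F, c • v = X v := fun v => Submodule.mem_span_singleton.1 (hcon v)
  choose c hc using h1
  by_cases h0 : ∃ v₀ : V, v₀ ≠ 0
  · obtain ⟨v₀, h0⟩ := h0
    refine ⟨c v₀, fun x => ?_⟩
    by_cases hx : x ∈ Submodule.span F {v₀}
    · obtain ⟨s, rfl⟩ := Submodule.mem_span_singleton.1 hx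
      rw [map_smul, ← hc v₀, smul_comm]
    · obtain ⟨φ, h2, h3⟩ := exists_dual1 hx
      have h4 : c (x + v₀) • (x + v₀) = c x • x + c v₀ • v₀ := by rw [hc, hc, hc, map_add]
      have h5 := congrArg φ h4
      simp only [map_smul, map_add, h2, h3, smul_zero, add_zero, smul_eq_mul, mul_one, mul_zero] at h5
      rw [h5, smul_add, add_right_inj] at h4
      have h6 : (c x - c v₀) • v₀ = 0 := by rw [sub_smul, h4, sub_self]
      rcases smul_eq_zero.1 h6 with h7 | h7
      · rw [← hc x, sub_eq_zero.1 h7]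
      · exact absurd h7 h0
  · push Not at h0
    exact ⟨0, fun x => by rw [h0 x, h0 (X 0)]; simp⟩

/-- the rank one lemma -/
theorem rank_one {S : Submodule F (V →ₗ[F] V)} (hm : 2 ≤ finrank F V)
    (hexc : (∃ y : F, y ≠ 0 ∧ y ≠ 1) ∨ 3 ≤ finrank F V)
    (hS : ∀ X ∈ S, ∀ (a : V) (α : Dual F V), α a = 0 →
      X + (α ∘ₗ X).smulRight a - α.smulRight (X a) - (α (X a)) • α.smulRight a ∈ S)
    {X : V →ₗ[F] V} (hX : X ∈ S) (hns : ¬ ∃ c : F, ∀ x, X x = c • x) :
    ∃ (a : V) (α : Dual F V), a ≠ 0 ∧ α ≠ 0 ∧ α a = 0 ∧ α.smulRight a ∈ S := by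
  obtain ⟨a, ha⟩ := exists_noneigen hns
  obtain ⟨α, hα1, hα0⟩ := exists_dual1 ha
  have ha0 : a ≠ 0 := by
    rintro rfl
    apply ha
    rw [map_zero]; exact zero_mem _
  have hαne : α ≠ 0 := by rintro rfl; exact zero_ne_one hα1
  have hD : ∀ β : Dual F V, β a = 0 →
      (β ∘ₗ X).smulRight a - β.smulRight (X a) - (β (X a)) • β.smulRight a ∈ S := by
    intro β hβ
    have h1 := S.sub_mem (hS X hX a β hβ) hX
    have e : X + (β ∘ₗ X).smulRight a - β.smulRight (X a) - (β (X a)) • β.smulRight a - X =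
      (β ∘ₗ X).smulRight a - β.smulRight (X a) - (β (X a)) • β.smulRight a := by abel
    rwa [e] at h1
  rcases hexc with ⟨y, hy0, hy1⟩ | h3
  · refine ⟨a, α, ha0, hαne, hα0, ?_⟩
    have h1 := hD α hα0
    have h2 := hD (y • α) (by rw [LinearMap.smul_apply, hα0, smul_zero])
    have h3 := S.sub_mem (S.smul_mem y h1) h2
    have e : y • ((α ∘ₗ X).smulRight a - α.smulRight (X a) - (α (X a)) • α.smulRight a) -
      (((y • α) ∘ₗ X).smulRight a - (y • α).smulRight (X a) - ((y • α) (X a)) • (y • α).smulRight a) =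
      (y * y - y) • α.smulRight a := by
      apply LinearMap.ext
      intro z
      simp only [LinearMap.sub_apply, LinearMap.smul_apply, LinearMap.smulRight_apply, LinearMap.comp_apply, hα1,
        smul_eq_mul, mul_one]
      module
    rw [e] at h3
    have hy : y * y - y ≠ 0 := by
      have : y * y - y = y * (y - 1) := by ring
      rw [this]
      exact mul_ne_zero hy0 (sub_ne_zero.2 hy1)
    have h4 := S.smul_mem (y * y - y)⁻¹ h3
    rwa [smul_smul, inv_mul_cancel₀ hy, one_smul] at h4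
  · obtain ⟨β, hβ, hβa, hβX⟩ := exists_kill2 h3 a (X a)
    refine ⟨a, β, ha0, hβ, hβa, ?_⟩
    have h1 := hD α hα0
    have h2 := hD β hβa
    have h3 := hD (α + β) (by rw [LinearMap.add_apply, hα0, hβa, add_zero])
    have h4 := S.sub_mem (S.add_mem h1 h2) h3
    have e : (α ∘ₗ X).smulRight a - α.smulRight (X a) - (α (X a)) • α.smulRight a +
      ((β ∘ₗ X).smulRight a - β.smulRight (X a) - (β (X a)) • β.smulRight a) -
      (((α + β) ∘ₗ X).smulRight a - (α + β).smulRight (X a) - ((α + β) (X a)) • (α + β).smulRight a) =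
      β.smulRight a := by
      apply LinearMap.ext
      intro z
      simp only [LinearMap.sub_apply, LinearMap.add_apply, LinearMap.smul_apply, LinearMap.smulRight_apply,
        LinearMap.comp_apply, hα1, hβX, smul_eq_mul, mul_one]
      module
    rwa [e] at h4

/-- transitivity on flags -/
theorem flags {P : V → Dual F V → Prop} (hm : 2 ≤ finrank F V)
    (h1 : ∀ a α (d : V) (δ : Dual F V), P a α → δ d = 0 → P (a + δ a • d) (α - α d • δ))
    (h2 : ∀ a α (c : F), P a α → P (c • a) α) (h3 : ∀ a α (c : F), P a α → P a (c • α))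
    (h4 : ∀ a α β, P a α → P a β → P a (α - β))
    {a₀ : V} {α₀ : Dual F V} (ha : a₀ ≠ 0) (hα : α₀ ≠ 0) (h : P a₀ α₀) {a : V} (hane : a ≠ 0) {α : Dual F V}
    (h0 : α a = 0) : P a α := by
  -- fixed vector
  have k1 : ∀ (a : V) (β : Dual F V), β ≠ 0 → P a β → ∀ α : Dual F V, α a = 0 → P a α := by
    intro a β hβ hP α hα
    by_cases hdep : β ∈ Submodule.span F {α}
    · obtain ⟨c, hc⟩ := Submodule.mem_span_singleton.1 hdep
      have hc0 : c ≠ 0 := by rintro rfl; rw [zero_smul] at hc; exact hβ hc.symm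
      have := h3 a β c⁻¹ hP
      rwa [← hc, smul_smul, inv_mul_cancel₀ hc0, one_smul] at this
    · obtain ⟨d, hd1, hd2⟩ := exists_sep hdep
      have := h1 a β d α hP hd2
      rw [hα, zero_smul, add_zero, hd1, one_smul] at this
      have h5 := h4 a β _ hP this
      rwa [sub_sub_cancel] at h5
  -- moving the vector
  have k2 : ∀ b : V, b ∉ Submodule.span F {a₀} → ∃ β : Dual F V, β ≠ 0 ∧ P b β := by
    intro b hb
    have hb' : a₀ ∉ Submodule.span F {b - a₀} := by
      intro hcon
      obtain ⟨c, hc⟩ := Submodule.mem_span_singleton.1 hcon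
      by_cases hc0 : c = 0
      · rw [hc0, zero_smul] at hc; exact ha hc.symm
      · apply hb
        rw [Submodule.mem_span_singleton]
        refine ⟨1 + c⁻¹, ?_⟩
        have : b - a₀ = c⁻¹ • a₀ := by
          conv_rhs => rw [← hc]
          rw [smul_smul, inv_mul_cancel₀ hc0, one_smul]
        rw [add_smul, one_smul, ← this]
        abel
    obtain ⟨δ, hδ1, hδ2⟩ := exists_dual1 hb'
    have := h1 a₀ α₀ (b - a₀) δ h hδ2
    rw [hδ1, one_smul, add_sub_cancel] at this
    refine ⟨_, ?_, this⟩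
    intro hcon
    have h5 : α₀ a₀ - α₀ (b - a₀) * δ a₀ = 0 := by
      have := congrArg (fun ψ : Dual F V => ψ a₀) hcon
      simpa using this
    have h6 : α₀ (b - a₀) - α₀ (b - a₀) * δ (b - a₀) = 0 := by
      have := congrArg (fun ψ : Dual F V => ψ (b - a₀)) hcon
      simpa using this
    rw [hδ2, mul_zero, sub_zero] at h6
    rw [h6, zero_smul, sub_zero] at hcon
    exact hα hcon
  by_cases hdep : a ∈ Submodule.span F {a₀}
  · obtain ⟨c, rfl⟩ := Submodule.mem_span_singleton.1 hdep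
    have hc0 : c ≠ 0 := by rintro rfl; rw [zero_smul] at hane; exact hane rfl
    apply h2
    have : α a₀ = 0 := by
      rw [map_smul, smul_eq_mul] at h0
      exact (mul_eq_zero.1 h0).resolve_left hc0
    exact k1 a₀ α₀ hα h α this
  · obtain ⟨β, hβ, hP⟩ := k2 a hdep
    exact k1 a β hβ hP α h0

end general

end Cfsg.Agent.Lib.TenSLH94
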