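import Mathlib
import Cfsg.Agent.Lib.TenSLH94

set_option autoImplicit false
set_option linter.unusedSectionVars false
set_option linter.unusedSimpArgs false
set_option linter.unusedVariables false

/-!
Overgroups of tensor product subgroups of the special linear group: the space is `W →ₗ[F] E`. The spread argument.
-/

namespace Cfsg.Agent.Lib.TenSLH94

open Module Cfsg.Agent.Lib.SLMax Cfsg.Agent.Lib.SLUn Cfsg.Agent.Lib.SLBlockH94

variable {F E W : Type*} [Field F] [AddCommGroup E] [Module F E] [FiniteDimensional F E]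
  [AddCommGroup W] [Module F W] [FiniteDimensional F W]

/-- pure tensors -/
noncomputable def pt : E →ₗ[F] Dual F W →ₗ[F] (W →ₗ[F] E) := (LinearMap.smulRightₗ).flip

theorem pt_apply (a : E) (b : Dual F W) (w : W) : pt a b w = b w • a := rfl

/-- pure functionals -/
noncomputable def pf (α : Dual F E) (w : W) : Dual F (W →ₗ[F] E) := α ∘ₗ (LinearMap.applyₗ w)

theorem pf_apply (α : Dual F E) (w : W) (v : W →ₗ[F] E) : pf α w v = α (v w) := rfl

/-- the action of pairs -/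
noncomputable def ac (p : E ≃ₗ[F] E) (q : W ≃ₗ[F] W) : (W →ₗ[F] E) ≃ₗ[F] (W →ₗ[F] E) := LinearEquiv.arrowCongr q p

theorem ac_apply (p : E ≃ₗ[F] E) (q : W ≃ₗ[F] W) (v : W →ₗ[F] E) (w : W) : ac p q v w = p (v (q.symm w)) := rfl

theorem pt_ne {a : E} {b : Dual F W} (ha : a ≠ 0) (hb : b ≠ 0) : pt a b ≠ 0 := by
  obtain ⟨w, hw⟩ := exists_val hb
  intro h
  apply ha
  have := congrArg (fun v : W →ₗ[F] E => v w) h
  simpa [pt_apply, hw] using this

theorem pt_inj {a : E} (ha : a ≠ 0) {b b' : Dual F W} (h : pt a b = pt a b') : b = b' := by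
  by_contra hne
  exact pt_ne ha (sub_ne_zero.2 hne) (by rw [map_sub, h, sub_self])

theorem pt_inj' {b : Dual F W} (hb : b ≠ 0) {a a' : E} (h : pt a b = pt a' b) : a = a' := by
  by_contra hne
  exact pt_ne (sub_ne_zero.2 hne) hb (by rw [map_sub, LinearMap.sub_apply, h, sub_self])

/-- the space of a functional -/
noncomputable def sp (b : Dual F W) : Submodule F (W →ₗ[F] E) := LinearMap.range (pt.flip b)

theorem mem_sp {b : Dual F W} {v : W →ₗ[F] E} : v ∈ sp b ↔ ∃ a, v = pt a b :=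
  ⟨fun ⟨a, h⟩ => ⟨a, h.symm⟩, fun ⟨a, h⟩ => ⟨a, h.symm⟩⟩

theorem mem_sp_iff {b : Dual F W} (hb : b ≠ 0) {v : W →ₗ[F] E} : v ∈ sp b ↔ ∀ w, b w = 0 → v w = 0 := by
  rw [mem_sp]
  constructor
  · rintro ⟨a, rfl⟩ w hw
    rw [pt_apply, hw, zero_smul]
  · intro h
    obtain ⟨w₀, hw₀⟩ := exists_val hb
    refine ⟨v w₀, LinearMap.ext fun w => ?_⟩
    have := h (w - b w • w₀) (by rw [map_sub, map_smul, hw₀, smul_eq_mul, mul_one, sub_self])
    rw [map_sub, map_smul, sub_eq_zero] at this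
    rw [pt_apply, this]

theorem pt_mem_sp (a : E) (b : Dual F W) : pt a b ∈ sp b := mem_sp.2 ⟨a, rfl⟩

theorem finrank_sp {b : Dual F W} (hb : b ≠ 0) : finrank F (sp b : Submodule F (W →ₗ[F] E)) = finrank F E := by
  apply LinearMap.finrank_range_of_inj
  intro a a' h
  exact pt_inj' hb h

/-- distinct spaces are disjoint -/
theorem sp_disj {b c : Dual F W} (hb : b ≠ 0) (hc : c ≠ 0) {v : W →ₗ[F] E} (hv0 : v ≠ 0) (hv : v ∈ sp b)
    (hv' : v ∈ sp c) : (sp b : Submodule F (W →ₗ[F] E)) = sp c := by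
  obtain ⟨a, rfl⟩ := mem_sp.1 hv
  obtain ⟨a', h⟩ := mem_sp.1 hv'
  have ha : a ≠ 0 := by rintro rfl; apply hv0; rw [map_zero]; rfl
  obtain ⟨φ, hφ⟩ := exists_dual0 (F := F) ha
  have h1 : b = φ a' • c := by
    apply LinearMap.ext
    intro w
    have := congrArg (fun v : W →ₗ[F] E => φ (v w)) h
    simp only [pt_apply, map_smul, hφ, smul_eq_mul, mul_one] at this
    rw [this, LinearMap.smul_apply, smul_eq_mul, mul_comm]
  have h2 : φ a' ≠ 0 := by
    intro h3
    rw [h3, zero_smul] at h1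
    exact hb h1
  apply le_antisymm
  · intro x hx
    rw [mem_sp_iff hc]
    rw [mem_sp_iff hb] at hx
    intro w hw
    exact hx w (by rw [h1, LinearMap.smul_apply, hw, smul_zero])
  · intro x hx
    rw [mem_sp_iff hb]
    rw [mem_sp_iff hc] at hx
    intro w hw
    apply hx w
    rw [h1, LinearMap.smul_apply, smul_eq_mul] at hw
    exact (mul_eq_zero.1 hw).resolve_left h2

/-- the situation -/
structure TM (M : Subgroup ((W →ₗ[F] E) ≃ₗ[F] (W →ₗ[F] E))) : Prop where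
  hE : 2 ≤ finrank F E
  hEW : finrank F E < finrank F W
  det : ∀ m ∈ M, LinearMap.det ((m : (W →ₗ[F] E) ≃ₗ[F] (W →ₗ[F] E)) : (W →ₗ[F] E) →ₗ[F] (W →ₗ[F] E)) = 1
  H : ∀ (p : E ≃ₗ[F] E) (q : W ≃ₗ[F] W),
    LinearMap.det ((ac p q : (W →ₗ[F] E) ≃ₗ[F] (W →ₗ[F] E)) : (W →ₗ[F] E) →ₗ[F] (W →ₗ[F] E)) = 1 → ac p q ∈ M
  Hs : ∀ (p : E ≃ₗ[F] E) (q : W ≃ₗ[F] W),
    LinearMap.det (p : E →ₗ[F] E) = 1 → LinearMap.det (q : W →ₗ[F] W) = 1 → ac p q ∈ M

theorem tr_symm {V : Type*} [AddCommGroup V] [Module F V] [FiniteDimensional F V] (w : V) (b : Dual F V)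
    (h : b w = 0) : LinearMap.det (((tr w b h).symm : V ≃ₗ[F] V) : V →ₗ[F] V) = 1 := by
  have h1 := tr_det w b h
  have h2 : ((tr w b h : V ≃ₗ[F] V) : V →ₗ[F] V) ∘ₗ ((tr w b h).symm : V →ₗ[F] V) = LinearMap.id := by
    apply LinearMap.ext
    intro x
    exact (tr w b h).apply_symm_apply x
  have h3 := congrArg LinearMap.det h2
  rw [LinearMap.det_comp, h1, one_mul, LinearMap.det_id] at h3
  exact h3

/-- the orbit -/
def Orb (M : Subgroup ((W →ₗ[F] E) ≃ₗ[F] (W →ₗ[F] E))) (U : Submodule F (W →ₗ[F] E)) : Prop :=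
  ∃ m ∈ M, ∃ b : Dual F W, b ≠ 0 ∧ U = (sp b).map (m : (W →ₗ[F] E) →ₗ[F] (W →ₗ[F] E))

theorem Orb.finrank_eq {M : Subgroup ((W →ₗ[F] E) ≃ₗ[F] (W →ₗ[F] E))} {U : Submodule F (W →ₗ[F] E)}
    (h : Orb M U) : finrank F U = finrank F E := by
  obtain ⟨m, hm, b, hb, rfl⟩ := h
  rw [← finrank_sp (E := E) hb]
  exact LinearEquiv.finrank_map_eq m _

theorem Orb.map {M : Subgroup ((W →ₗ[F] E) ≃ₗ[F] (W →ₗ[F] E))} {U : Submodule F (W →ₗ[F] E)}
    (h : Orb M U) {g : (W →ₗ[F] E) ≃ₗ[F] (W →ₗ[F] E)} (hg : g ∈ M) :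
    Orb M (U.map (g : (W →ₗ[F] E) →ₗ[F] (W →ₗ[F] E))) := by
  obtain ⟨m, hm, b, hb, rfl⟩ := h
  refine ⟨g * m, mul_mem hg hm, b, hb, ?_⟩
  rw [← Submodule.map_comp]; rfl

theorem orb_sp {M : Subgroup ((W →ₗ[F] E) ≃ₗ[F] (W →ₗ[F] E))} {b : Dual F W} (hb : b ≠ 0) : Orb M (sp b) :=
  ⟨1, one_mem _, b, hb, by
    have : (((1 : (W →ₗ[F] E) ≃ₗ[F] (W →ₗ[F] E)) : (W →ₗ[F] E) ≃ₗ[F] (W →ₗ[F] E)) :
      (W →ₗ[F] E) →ₗ[F] (W →ₗ[F] E)) = LinearMap.id := rfl
    rw [this, Submodule.map_id]⟩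

/-- equality of spaces of equal dimension -/
theorem eq_of_le_finrank {V : Type*} [AddCommGroup V] [Module F V] [FiniteDimensional F V] {S T : Submodule F V}
    (h : S ≤ T) (h' : finrank F T ≤ finrank F S) : S = T := Submodule.eq_of_le_of_finrank_le h h'

/-- pure tensors span -/
theorem span_pt (v : W →ₗ[F] E) : ∃ (n : ℕ) (a : Fin n → E) (b : Fin n → Dual F W), v = ∑ i, pt (a i) (b i) := by
  let B := Module.finBasis F W
  refine ⟨finrank F W, fun i => v (B i), fun i => B.coord i, ?_⟩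
  apply LinearMap.ext
  intro w
  rw [LinearMap.sum_apply]
  simp only [pt_apply, Basis.coord_apply]
  conv_lhs => rw [← B.sum_repr w]
  rw [map_sum]
  simp only [map_smul]

theorem ext_pt {V' : Type*} [AddCommGroup V'] [Module F V'] {f g : (W →ₗ[F] E) →ₗ[F] V'}
    (h : ∀ a b, f (pt a b) = g (pt a b)) : f = g := by
  apply LinearMap.ext
  intro v
  obtain ⟨n, a, b, rfl⟩ := span_pt v
  rw [map_sum, map_sum]
  exact Finset.sum_congr rfl fun i _ => h _ _

/-- maps permuting the spaces `sp b` are pairs -/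
theorem fund (hE : 1 ≤ finrank F E) (hW : 2 ≤ finrank F W) {g : (W →ₗ[F] E) ≃ₗ[F] (W →ₗ[F] E)}
    (hg : ∀ b : Dual F W, b ≠ 0 → ∃ c : Dual F W, ∀ a : E, g (pt a b) ∈ sp c) : ∃ p q, g = ac p q := by
  obtain ⟨a₁, ha₁⟩ : ∃ a₁ : E, a₁ ≠ 0 := by
    have : Nontrivial E := Module.finrank_pos_iff (R := F).1 (by omega)
    exact exists_ne 0
  obtain ⟨b₀, hb₀⟩ : ∃ b₀ : Dual F W, b₀ ≠ 0 := by
    have : Nontrivial (Dual F W) := by
      rw [← Module.finrank_pos_iff (R := F), Subspace.dual_finrank_eq]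
      omega
    exact exists_ne 0
  -- the linear maps
  have h1 : ∀ b : Dual F W, b ≠ 0 → ∃ c : Dual F W, c ≠ 0 ∧ ∃ A : E →ₗ[F] E, (∀ a, g (pt a b) = pt (A a) c) ∧
      Function.Injective A := by
    intro b hb
    obtain ⟨c, hc⟩ := hg b hb
    have hc0 : c ≠ 0 := by
      rintro rfl
      obtain ⟨a, ha⟩ := mem_sp.1 (hc a₁)
      rw [map_zero] at ha
      exact pt_ne ha₁ hb (g.map_eq_zero_iff.1 ha)
    obtain ⟨w, hw⟩ := exists_val hc0
    have h2 : ∀ a, g (pt a b) = pt (g (pt a b) w) c := by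
      intro a
      obtain ⟨a', ha'⟩ := mem_sp.1 (hc a)
      rw [ha', pt_apply, hw, one_smul]
    refine ⟨c, hc0, (LinearMap.applyₗ w) ∘ₗ (g : (W →ₗ[F] E) →ₗ[F] (W →ₗ[F] E)) ∘ₗ pt.flip b, h2, ?_⟩
    intro a a' haa
    have h3 : g (pt a b) = g (pt a' b) := by
      rw [h2 a, h2 a']
      exact congrArg (fun x => pt x c) haa
    exact pt_inj' hb (g.injective h3)
  obtain ⟨c₀, hc₀, A, hA, hAi⟩ := h1 b₀ hb₀
  -- each map is proportional to A
  have h2 : ∀ b : Dual F W, ∃ c : Dual F W, ∀ a, g (pt a b) = pt (A a) c := by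
    intro b
    by_cases hdep : b ∈ Submodule.span F {b₀}
    · obtain ⟨s, rfl⟩ := Submodule.mem_span_singleton.1 hdep
      refine ⟨s • c₀, fun a => ?_⟩
      rw [map_smul, map_smul, hA, map_smul]
    · have hb : b ≠ 0 := by rintro rfl; exact hdep (zero_mem _)
      have hbb : b + b₀ ≠ 0 := by
        intro h
        apply hdep
        rw [eq_neg_of_add_eq_zero_left h]
        exact Submodule.neg_mem _ (Submodule.mem_span_singleton_self _)
      obtain ⟨c, hc, A1, hA1, hA1i⟩ := h1 b hb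
      obtain ⟨d, hd, A2, hA2, hA2i⟩ := h1 _ hbb
      have hcc : c ∉ Submodule.span F {c₀} := by
        intro h
        obtain ⟨s, rfl⟩ := Submodule.mem_span_singleton.1 h
        apply hdep
        have hAs : Function.Surjective A := LinearMap.injective_iff_surjective.1 hAi
        obtain ⟨x, hx⟩ := hAs (A1 a₁)
        have h3 : g (pt a₁ b) = g (pt (s • x) b₀) := by
          rw [hA1, hA, map_smul, map_smul, hx, map_smul]; rfl
        have h4 := g.injective h3
        have hsx : s • x ≠ 0 := by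
          intro h5
          rw [h5, map_zero] at h4
          exact pt_ne ha₁ hb h4
        obtain ⟨φ, hφ⟩ := exists_dual0 (F := F) ha₁
        rw [Submodule.mem_span_singleton]
        refine ⟨φ (s • x), LinearMap.ext fun w => ?_⟩
        have h6 : b w • a₁ = b₀ w • (s • x) := DFunLike.congr_fun h4 w
        have := congrArg φ h6
        rw [φ.map_smul, φ.map_smul (b₀ w), hφ, smul_eq_mul, smul_eq_mul, mul_one] at this
        rw [LinearMap.smul_apply, smul_eq_mul, this, mul_comm]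
      have hcc' : c₀ ∉ Submodule.span F {c} := by
        intro h
        obtain ⟨s, hs⟩ := Submodule.mem_span_singleton.1 h
        have hs0 : s ≠ 0 := by rintro rfl; rw [zero_smul] at hs; exact hc₀ hs.symm
        apply hcc
        rw [Submodule.mem_span_singleton]
        exact ⟨s⁻¹, by rw [← hs, smul_smul, inv_mul_cancel₀ hs0, one_smul]⟩
      have h3 : ∀ a, pt (A2 a) d = pt (A1 a) c + pt (A a) c₀ := by
        intro a
        rw [← hA2, ← hA1, ← hA, map_add, map_add]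
      obtain ⟨w, hw1, hw2⟩ := exists_sep hcc
      obtain ⟨w', hw1', hw2'⟩ := exists_sep hcc'
      have h4 : ∀ a, d w • A2 a = A1 a := by
        intro a
        have := congrArg (fun v : W →ₗ[F] E => v w) (h3 a)
        simpa [pt_apply, hw1, hw2] using this
      have h5 : ∀ a, d w' • A2 a = A a := by
        intro a
        have := congrArg (fun v : W →ₗ[F] E => v w') (h3 a)
        simpa [pt_apply, hw1', hw2'] using this
      have hdw : d w' ≠ 0 := by
        intro h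
        have := h5 a₁
        rw [h, zero_smul] at this
        exact ha₁ ((map_eq_zero_iff A hAi).1 this.symm)
      refine ⟨(d w / d w') • c, fun a => ?_⟩
      rw [hA1, ← h4, ← h5, map_smul, map_smul, map_smul, LinearMap.smul_apply, LinearMap.smul_apply, smul_smul,
        div_mul_cancel₀ _ hdw]
  choose ψ hψ using h2
  have hAa : A a₁ ≠ 0 := fun h => ha₁ ((map_eq_zero_iff A hAi).1 h)
  obtain ⟨Ψ, hΨ⟩ : ∃ Ψ : Dual F W →ₗ[F] Dual F W, ∀ b, Ψ b = ψ b := by
    refine ⟨⟨⟨ψ, fun b b' => ?_⟩, fun s b => ?_⟩, fun b => rfl⟩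
    · apply pt_inj hAa
      rw [← hψ, map_add, map_add, map_add, hψ, hψ]
    · apply pt_inj hAa
      show pt (A a₁) (ψ (s • b)) = pt (A a₁) (s • ψ b)
      rw [← hψ, map_smul, map_smul, map_smul, hψ]
  have hΨi : Function.Injective Ψ := by
    intro b b' h
    rw [hΨ, hΨ] at h
    apply pt_inj ha₁
    apply g.injective
    rw [hψ, hψ, h]
  -- the transpose
  obtain ⟨q', hq'⟩ : ∃ q' : W →ₗ[F] W, ∀ b w, b (q' w) = Ψ b w := by
    refine ⟨(Module.evalEquiv F W).symm.toLinearMap ∘ₗ Ψ.dualMap ∘ₗ (Module.evalEquiv F W).toLinearMap, fun b w => ?_⟩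
    rw [LinearMap.comp_apply, LinearMap.comp_apply, LinearEquiv.coe_coe, LinearEquiv.coe_coe]
    rw [Module.apply_evalEquiv_symm_apply, LinearMap.dualMap_apply]
    rfl
  have hq'i : Function.Injective q' := by
    rw [injective_iff_map_eq_zero]
    intro w hw
    by_contra hw0
    obtain ⟨b, hb⟩ := exists_dual0 (F := F) hw0
    obtain ⟨b', hb'⟩ := (LinearMap.injective_iff_surjective.1 hΨi) b
    have := hq' b' w
    rw [hw, map_zero, hb', hb] at this
    exact zero_ne_one this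
  refine ⟨LinearEquiv.ofInjectiveEndo A hAi, (LinearEquiv.ofInjectiveEndo q' hq'i).symm, ?_⟩
  apply LinearEquiv.toLinearMap_injective
  apply ext_pt
  intro a b
  apply LinearMap.ext
  intro w
  show g (pt a b) w = A (pt a b (q' w))
  rw [hψ, pt_apply, pt_apply, ← hΨ, map_smul, hq']

end Cfsg.Agent.Lib.TenSLH94
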