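import Mathlib
import Cfsg.Agent.Lib.TenSL2H94

set_option autoImplicit false
set_option linter.unusedSectionVars false
set_option linter.unusedSimpArgs false
set_option linter.unusedVariables false

/-!
Overgroups of tensor product subgroups of the special linear group: adjacent pairs.
-/

namespace Cfsg.Agent.Lib.TenSLH94

open Module Cfsg.Agent.Lib.SLMax Cfsg.Agent.Lib.SLUn Cfsg.Agent.Lib.SLBlockH94

variable {F E W : Type*} [Field F] [AddCommGroup E] [Module F E] [FiniteDimensional F E]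
  [AddCommGroup W] [Module F W] [FiniteDimensional F W]

theorem mem_map_le {V : Type*} [AddCommGroup V] [Module F V] [FiniteDimensional F V] {U : Submodule F V}
    {g : V ≃ₗ[F] V} (h : ∀ x ∈ U, g x ∈ U) : U.map (g : V →ₗ[F] V) = U := by
  apply Submodule.eq_of_le_of_finrank_le
  · rintro _ ⟨x, hx, rfl⟩
    exact h x hx
  · rw [LinearEquiv.finrank_map_eq g U]

namespace TM

variable {M : Subgroup ((W →ₗ[F] E) ≃ₗ[F] (W →ₗ[F] E))} (T : TM M)
include T

theorem xm {w : W} {b : Dual F W} (h : b w = 0) : ∃ x ∈ M, (∀ v : W →ₗ[F] E, x v = v + pt (v w) b) ∧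
    ∀ v : W →ₗ[F] E, x⁻¹ v = v - pt (v w) b := by
  have key : ∀ v : W →ₗ[F] E, ac 1 (tr w b h).symm v = v + pt (v w) b := by
    intro v
    apply LinearMap.ext
    intro z
    rw [ac_apply, LinearMap.add_apply, pt_apply, LinearEquiv.symm_symm, tr_apply, map_add, map_smul]
    rfl
  refine ⟨ac 1 (tr w b h).symm, T.Hs _ _ ?_ (tr_symm w b h), key, ?_⟩
  · exact LinearMap.det_id
  · intro v
    apply (ac 1 (tr w b h).symm : (W →ₗ[F] E) ≃ₗ[F] (W →ₗ[F] E)).injective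
    rw [← LinearEquiv.mul_apply, mul_inv_cancel, key]
    show v = _
    rw [LinearMap.sub_apply, pt_apply, h, zero_smul, sub_zero, sub_add_cancel]

theorem ym {a : E} {α : Dual F E} (h : α a = 0) : ∃ y ∈ M, ∀ v : W →ₗ[F] E, y v = v + pt a (α ∘ₗ v) := by
  refine ⟨ac (tr a α h) 1, T.Hs _ _ (tr_det a α h) LinearMap.det_id, fun v => ?_⟩
  apply LinearMap.ext
  intro z
  rw [ac_apply, tr_apply]
  rfl

theorem zm {a : E} {α : Dual F E} (h : α a = 0) {u₀ : W →ₗ[F] E} {w₀ : W} (hw : u₀ w₀ = a) :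
    ∃ z ∈ M, z u₀ = u₀ ∧ ∀ v : W →ₗ[F] E,
      z v = v + pt a (α ∘ₗ v) - pt (v w₀) (α ∘ₗ u₀) - α (v w₀) • pt a (α ∘ₗ u₀) := by
  have h0 : (α ∘ₗ u₀) w₀ = 0 := by rw [LinearMap.comp_apply, hw, h]
  obtain ⟨x, hx, hxv, hxi⟩ := T.xm h0
  obtain ⟨y, hy, hyv⟩ := T.ym h
  have key : ∀ v, (y * x⁻¹) v = v + pt a (α ∘ₗ v) - pt (v w₀) (α ∘ₗ u₀) - α (v w₀) • pt a (α ∘ₗ u₀) := by
    intro v
    rw [LinearEquiv.mul_apply, hxi, hyv]
    apply LinearMap.ext
    intro z
    simp only [LinearMap.add_apply, LinearMap.sub_apply, LinearMap.smul_apply, pt_apply, LinearMap.comp_apply,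
      map_sub, map_smul, smul_eq_mul]
    module
  refine ⟨y * x⁻¹, mul_mem hy (inv_mem hx), ?_, key⟩
  rw [key, hw, h, zero_smul, sub_zero, add_sub_cancel_right]

/-- partial spreads do not exist -/
theorem not_spread (hexc : (∃ y : F, y ≠ 0 ∧ y ≠ 1) ∨ 3 ≤ finrank F E)
    (hsp : ∀ U U', Orb M U → Orb M U' → U ≠ U' → U ⊓ U' = ⊥) {U : Submodule F (W →ₗ[F] E)} (hU : Orb M U) :
    ∃ b : Dual F W, b ≠ 0 ∧ U = sp b := by
  by_contra hcon
  push Not at hcon
  have hE := T.hE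
  have hEW := T.hEW
  have hUr := hU.finrank_eq
  -- elements of M fixing a vector of U
  have hfix : ∀ m ∈ M, ∀ u ∈ U, u ≠ 0 → m u = u → ∀ v ∈ U, m v ∈ U := by
    intro m hm u hu hu0 hmu v hv
    have h1 : U.map ((m : (W →ₗ[F] E) ≃ₗ[F] (W →ₗ[F] E)) : (W →ₗ[F] E) →ₗ[F] (W →ₗ[F] E)) = U := by
      by_contra hne
      have h2 := hsp _ _ (hU.map hm) hU hne
      have h3 : u ∈ U.map ((m : (W →ₗ[F] E) ≃ₗ[F] (W →ₗ[F] E)) : (W →ₗ[F] E) →ₗ[F] (W →ₗ[F] E)) ⊓ U :=
        ⟨⟨u, hu, hmu⟩, hu⟩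
      rw [h2] at h3
      exact hu0 h3
    rw [← h1]
    exact ⟨v, hv, rfl⟩
  -- step 3
  have step3 : ∀ u ∈ U, u ≠ 0 → ∀ w, u w = 0 → ∀ v ∈ U, v w = 0 := by
    intro u hu hu0 w hw v hv
    by_contra hvw
    have hw0 : w ≠ 0 := by rintro rfl; exact hvw (map_zero v)
    have h1 : ∀ b : Dual F W, b w = 0 → pt (v w) b ∈ U := by
      intro b hb
      obtain ⟨x, hx, hxv, -⟩ := T.xm hb
      have h2 := hfix x hx u hu hu0 (by rw [hxv, hw, map_zero, LinearMap.zero_apply, add_zero]) v hv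
      rw [hxv] at h2
      have := U.sub_mem h2 hv
      rwa [add_sub_cancel_left] at this
    have h2 : (LinearMap.ker (Dual.eval F W w)).map (pt (v w)) = U := by
      apply Submodule.eq_of_le_of_finrank_le
      · rintro _ ⟨b, hb, rfl⟩
        exact h1 b hb
      · have h3 := (Submodule.equivMapOfInjective (pt (F := F) (W := W) (v w)) (fun b b' h => pt_inj hvw h)
          (LinearMap.ker (Dual.eval F W w))).finrank_eq
        rw [← h3, hUr]
        have h4 := LinearMap.finrank_range_add_finrank_ker (Dual.eval F W w)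
        have h5 : finrank F (LinearMap.range (Dual.eval F W w)) ≤ 1 := by
          have := Submodule.finrank_le (LinearMap.range (Dual.eval F W w))
          rwa [finrank_self] at this
        rw [Subspace.dual_finrank_eq] at h4
        omega
    rw [← h2] at hv
    obtain ⟨b, hb, hbv⟩ := hv
    apply hvw
    have hb' : b w = 0 := hb
    rw [← hbv, pt_apply, hb', zero_smul]
  -- no pure tensors
  have nopure : ∀ (a : E) (b : Dual F W), a ≠ 0 → b ≠ 0 → pt a b ∉ U := by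
    intro a b ha hb h
    apply hcon b hb
    apply Submodule.eq_of_le_of_finrank_le
    · intro v hv
      rw [mem_sp_iff hb]
      intro w hw
      exact step3 _ h (pt_ne ha hb) w (by rw [pt_apply, hw, zero_smul]) v hv
    · rw [finrank_sp hb, hUr]
  -- step 4
  have step4 : ∀ u ∈ U, u ≠ 0 → ∀ α : Dual F E, α ∘ₗ u = 0 → ∀ v ∈ U, α ∘ₗ v = 0 := by
    intro u hu hu0 α hα v hv
    by_contra hv0
    obtain ⟨a, ha0, ha⟩ := exists_ker hE α
    obtain ⟨y, hy, hyv⟩ := T.ym ha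
    have h2 := hfix y hy u hu hu0 (by rw [hyv, hα, map_zero, add_zero]) v hv
    rw [hyv] at h2
    have := U.sub_mem h2 hv
    rw [add_sub_cancel_left] at this
    exact nopure a _ ha0 hv0 this
  -- a surjective element
  obtain ⟨u₀, hu₀, hu0⟩ : ∃ u ∈ U, u ≠ 0 := by
    by_contra hc
    push Not at hc
    have h1 : U = ⊥ := (Submodule.eq_bot_iff _).2 hc
    rw [h1, finrank_bot] at hUr
    omega
  have hsurj : LinearMap.range u₀ = ⊤ := by
    obtain ⟨w, hw⟩ : ∃ w, u₀ w ≠ 0 := by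
      by_contra hc
      push Not at hc
      exact hu0 (LinearMap.ext hc)
    have h1 : ∀ v ∈ U, v w ∈ LinearMap.range u₀ := by
      intro v hv
      by_contra hvw
      obtain ⟨α, hα1, hα0⟩ := exists_dual hvw
      have h2 := step4 u₀ hu₀ hu0 α (LinearMap.ext fun z => hα0 _ ⟨z, rfl⟩) v hv
      have h3 : α (v w) = 0 := DFunLike.congr_fun h2 w
      rw [hα1] at h3
      exact one_ne_zero h3
    apply Submodule.eq_top_of_finrank_eq
    apply le_antisymm (Submodule.finrank_le _)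
    rw [← hUr]
    have h2 : Function.Injective ((LinearMap.applyₗ (R := F) (M := W) (M₂ := E) w).domRestrict U) := by
      rw [injective_iff_map_eq_zero]
      intro v hv
      have hv' : (v : W →ₗ[F] E) w = 0 := hv
      by_contra hv0
      exact hw (step3 v v.2 (fun h => hv0 (Subtype.ext h)) w hv' u₀ hu₀)
    rw [← LinearMap.finrank_range_of_inj h2]
    apply Submodule.finrank_mono
    rintro _ ⟨v, rfl⟩
    exact h1 v v.2
  have hsurj' : ∀ a, ∃ w, u₀ w = a := fun a => LinearMap.range_eq_top.1 hsurj a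
  -- the space of endomorphisms
  obtain ⟨S, hS⟩ : ∃ S : Submodule F (E →ₗ[F] E), ∀ X, X ∈ S ↔ X ∘ₗ u₀ ∈ U :=
    ⟨U.comap (LinearMap.lcomp F E u₀), fun X => Iff.rfl⟩
  have hfac : ∀ v ∈ U, ∃ X : E →ₗ[F] E, v = X ∘ₗ u₀ := by
    intro v hv
    obtain ⟨s, hs⟩ := LinearMap.exists_rightInverse_of_surjective u₀ hsurj
    refine ⟨v ∘ₗ s, LinearMap.ext fun w => ?_⟩
    have h1 : u₀ (s (u₀ w) - w) = 0 := by
      rw [map_sub, sub_eq_zero]
      exact DFunLike.congr_fun hs (u₀ w)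
    have h2 := step3 u₀ hu₀ hu0 _ h1 v hv
    rw [map_sub, sub_eq_zero] at h2
    exact h2.symm
  obtain ⟨v, hv, hvu⟩ := Dec.exists_out (U := U) (W := Submodule.span F {u₀}) (by
    have := finrank_span1 (F := F) u₀
    omega)
  obtain ⟨X, hX⟩ := hfac v hv
  obtain ⟨a, α, ha, hα, hαa, haS⟩ := rank_one (S := S) hE hexc (fun X hX a α hα => by
    obtain ⟨w₀, hw₀⟩ := hsurj' a
    obtain ⟨z, hz, hzu, hzv⟩ := T.zm hα hw₀
    have h1 := hfix z hz u₀ hu₀ hu0 hzu _ ((hS X).1 hX)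
    rw [hzv] at h1
    rw [hS]
    have e : (X + (α ∘ₗ X).smulRight a - α.smulRight (X a) - (α (X a)) • α.smulRight a) ∘ₗ u₀ =
      X ∘ₗ u₀ + pt a (α ∘ₗ X ∘ₗ u₀) - pt ((X ∘ₗ u₀) w₀) (α ∘ₗ u₀) - α ((X ∘ₗ u₀) w₀) • pt a (α ∘ₗ u₀) := by
      apply LinearMap.ext
      intro y
      rw [← hw₀]
      rfl
    rw [e]; exact h1) (X := X) (by rw [hS, ← hX]; exact hv) (by
    rintro ⟨c, hc⟩
    apply hvu
    rw [Submodule.mem_span_singleton]
    exact ⟨c, by rw [hX]; exact LinearMap.ext fun y => (hc _).symm⟩)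
  rw [hS] at haS
  refine nopure a (α ∘ₗ u₀) ha ?_ haS
  intro h
  apply hα
  apply LinearMap.ext
  intro y
  obtain ⟨w, rfl⟩ := hsurj' y
  exact DFunLike.congr_fun h w

/-- adjacent pairs exist -/
theorem exists_adj (hexc : (∃ y : F, y ≠ 0 ∧ y ≠ 1) ∨ 3 ≤ finrank F E)
    (hg : ∃ g ∈ M, ¬ ∃ p q, g = ac p q) : ∃ U U', Orb M U ∧ Orb M U' ∧ U ≠ U' ∧ U ⊓ U' ≠ ⊥ := by
  have hE := T.hE
  have hEW := T.hEW
  by_contra hcon
  push Not at hcon
  obtain ⟨g, hgM, hg⟩ := hg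
  apply hg
  apply fund (by omega) (by omega)
  intro b hb
  obtain ⟨c, hc, h⟩ := T.not_spread hexc hcon ((orb_sp hb).map hgM)
  refine ⟨c, fun a => ?_⟩
  rw [← h]
  exact ⟨_, pt_mem_sp a b, rfl⟩

end TM

end Cfsg.Agent.Lib.TenSLH94
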