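import Mathlib
import Cfsg.Agent.Lib.TenSL3H94

set_option autoImplicit false
set_option linter.unusedSectionVars false
set_option linter.unusedSimpArgs false
set_option linter.unusedVariables false

/-!
Overgroups of tensor product subgroups of the special linear group: stabilisers of spaces.
-/

namespace Cfsg.Agent.Lib.TenSLH94

open Module Cfsg.Agent.Lib.SLMax Cfsg.Agent.Lib.SLUn Cfsg.Agent.Lib.SLBlockH94

variable {F E W : Type*} [Field F] [AddCommGroup E] [Module F E] [FiniteDimensional F E]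
  [AddCommGroup W] [Module F W] [FiniteDimensional F W]

/-- pairs of small rank -/
theorem ac_small (hE : 1 ≤ finrank F E) (hEW : finrank F E < finrank F W) {p : E ≃ₗ[F] E} {q : W ≃ₗ[F] W}
    {D : Submodule F (W →ₗ[F] E)} (hD : ∀ v : W →ₗ[F] E, ac p q v - v ∈ D) (hDr : finrank F D ≤ finrank F E)
    (hne : (ac p q : (W →ₗ[F] E) ≃ₗ[F] (W →ₗ[F] E)) ≠ 1) : ∃ b : Dual F W, b ≠ 0 ∧ D = sp b := by
  -- p is scalar
  obtain ⟨c, hc⟩ : ∃ c : F, ∀ x, (p : E →ₗ[F] E) x = c • x := by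
    by_contra hcon
    obtain ⟨a, ha⟩ := exists_noneigen hcon
    have ha' : a ∉ Submodule.span F {p a} := by
      intro h
      obtain ⟨s, hs⟩ := Submodule.mem_span_singleton.1 h
      by_cases hs0 : s = 0
      · apply ha
        rw [← hs, hs0, zero_smul]
        show p 0 ∈ _
        rw [map_zero]; exact zero_mem _
      · apply ha
        rw [Submodule.mem_span_singleton]
        refine ⟨s⁻¹, ?_⟩
        conv_lhs => rw [← hs]
        rw [smul_smul, inv_mul_cancel₀ hs0, one_smul]; rfl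
    obtain ⟨φ, hφ1, hφ0⟩ := exists_dual1 ha'
    obtain ⟨G, hG⟩ : ∃ G : Dual F W →ₗ[F] (W →ₗ[F] E), ∀ b, G b = ac p q (pt a b) - pt a b :=
      ⟨((ac p q : (W →ₗ[F] E) ≃ₗ[F] (W →ₗ[F] E)) : (W →ₗ[F] E) →ₗ[F] (W →ₗ[F] E)) ∘ₗ (pt a) - pt a, fun b => rfl⟩
    have hinj : Function.Injective G := by
      rw [injective_iff_map_eq_zero]
      intro b hb
      apply LinearMap.ext
      intro w
      have h1 : ac p q (pt a b) w - pt a b w = 0 := by
        rw [hG] at hb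
        exact DFunLike.congr_fun hb w
      rw [ac_apply, pt_apply, pt_apply, map_smul] at h1
      have h2 := congrArg φ h1
      rw [map_sub, φ.map_smul, φ.map_smul, hφ0, hφ1, smul_zero, zero_sub, smul_eq_mul, mul_one, map_zero,
        neg_eq_zero] at h2
      exact h2
    have h1 := LinearMap.finrank_range_of_inj hinj
    rw [Subspace.dual_finrank_eq] at h1
    have h2 : LinearMap.range G ≤ D := by
      rintro _ ⟨b, rfl⟩
      rw [hG]
      exact hD (pt a b)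
    have h3 := Submodule.finrank_mono h2
    omega
  have hc' : ∀ x, p x = c • x := hc
  have hac : ∀ v w, ac p q v w = v (c • q.symm w) := by
    intro v w
    rw [ac_apply, hc', map_smul]
  obtain ⟨b, hb⟩ : ∃ b : Dual F W, ∃ w, b (c • q.symm w) - b w ≠ 0 := by
    by_contra hcon
    push Not at hcon
    apply hne
    apply LinearEquiv.ext
    intro v
    apply LinearMap.ext
    intro w
    rw [hac]
    have h1 : c • q.symm w - w = 0 := by
      by_contra h0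
      obtain ⟨b, hb⟩ := exists_dual0 (F := F) h0
      rw [map_sub, hcon] at hb
      exact zero_ne_one hb
    rw [sub_eq_zero.1 h1]
    rfl
  obtain ⟨b', hb'⟩ : ∃ b' : Dual F W, ∀ w, b' w = b (c • q.symm w) - b w :=
    ⟨c • (b ∘ₗ (q.symm : W →ₗ[F] W)) - b, fun w => by
      rw [map_smul]; rfl⟩
  have hb'0 : b' ≠ 0 := by
    obtain ⟨w, hw⟩ := hb
    intro h
    apply hw
    rw [← hb', h]; rfl
  refine ⟨b', hb'0, ?_⟩
  symm
  apply Submodule.eq_of_le_of_finrank_le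
  · intro v hv
    obtain ⟨a, rfl⟩ := mem_sp.1 hv
    have h1 := hD (pt a b)
    have h2 : ac p q (pt a b) - pt a b = pt a b' := by
      apply LinearMap.ext
      intro w
      rw [LinearMap.sub_apply, hac, pt_apply, pt_apply, pt_apply, hb', sub_smul]
    rwa [h2] at h1
  · rw [finrank_sp hb'0]; exact hDr

namespace TM

variable {M : Subgroup ((W →ₗ[F] E) ≃ₗ[F] (W →ₗ[F] E))} (T : TM M)
include T

/-- an adjacent pair with a stabilising root element -/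
theorem exists_pair (hexc : (∃ y : F, y ≠ 0 ∧ y ≠ 1) ∨ 3 ≤ finrank F E)
    (hg : ∃ g ∈ M, ¬ ∃ p q, g = ac p q) : ∃ (b : Dual F W) (U : Submodule F (W →ₗ[F] E)) (w : W),
      b ≠ 0 ∧ Orb M U ∧ U ≠ sp b ∧ U ⊓ sp b ≠ ⊥ ∧ w ≠ 0 ∧ b w = 0 ∧
      ∀ v ∈ U, v + pt (v w) b ∈ U := by
  classical
  have hE := T.hE
  have hEW := T.hEW
  obtain ⟨P, hP⟩ : ∃ P : ℕ → Prop, ∀ k, P k ↔ ∃ U U', Orb M U ∧ Orb M U' ∧ U ≠ U' ∧
      0 < finrank F (U ⊓ U' : Submodule F (W →ₗ[F] E)) ∧ finrank F (U ⊓ U' : Submodule F (W →ₗ[F] E)) = k :=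
    ⟨_, fun k => Iff.rfl⟩
  obtain ⟨U₀, U₀', h1, h2, h3, h4⟩ := T.exists_adj hexc hg
  have h5 : P (finrank F (U₀ ⊓ U₀' : Submodule F (W →ₗ[F] E))) := by
    rw [hP]
    refine ⟨U₀, U₀', h1, h2, h3, ?_, rfl⟩
    rw [Nat.pos_iff_ne_zero]
    intro h
    exact h4 (Submodule.finrank_eq_zero.1 h)
  have hle : ∀ k, P k → k ≤ finrank F E := by
    intro k hk
    rw [hP] at hk
    obtain ⟨U, U', hU, hU', -, -, rfl⟩ := hk
    rw [← hU.finrank_eq]
    exact Submodule.finrank_mono inf_le_left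
  obtain ⟨k, hk, hkm⟩ : ∃ k, P k ∧ ∀ k', P k' → k' ≤ k := by
    have h6 := Nat.findGreatest_spec (P := P) (hle _ h5) h5
    refine ⟨_, h6, fun k' hk' => ?_⟩
    exact Nat.le_findGreatest (hle _ hk') hk'
  obtain ⟨U₁, U₂, hU₁, hU₂, hne, hpos, hfr⟩ := (hP k).1 hk
  obtain ⟨m, hm, b, hb, rfl⟩ := hU₁
  -- move to sp b
  obtain ⟨U, hU⟩ : ∃ U : Submodule F (W →ₗ[F] E), U = U₂.map ((m⁻¹ : (W →ₗ[F] E) ≃ₗ[F] (W →ₗ[F] E)) :
    (W →ₗ[F] E) →ₗ[F] (W →ₗ[F] E)) := ⟨_, rfl⟩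
  have hmU : U.map (m : (W →ₗ[F] E) →ₗ[F] (W →ₗ[F] E)) = U₂ := by
    rw [hU, ← Submodule.map_comp]
    have : ((m : (W →ₗ[F] E) →ₗ[F] (W →ₗ[F] E)) ∘ₗ ((m⁻¹ : (W →ₗ[F] E) ≃ₗ[F] (W →ₗ[F] E)) :
      (W →ₗ[F] E) →ₗ[F] (W →ₗ[F] E))) = LinearMap.id := by
      apply LinearMap.ext
      intro x
      show (m * m⁻¹) x = x
      rw [mul_inv_cancel]; rfl
    rw [this, Submodule.map_id]
  have hUO : Orb M U := by rw [hU]; exact hU₂.map (inv_mem hm)
  have hUne : U ≠ sp b := by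
    rintro rfl
    exact hne hmU
  have hmi : (U ⊓ sp b).map (m : (W →ₗ[F] E) →ₗ[F] (W →ₗ[F] E)) =
      (sp b).map (m : (W →ₗ[F] E) →ₗ[F] (W →ₗ[F] E)) ⊓ U₂ := by
    rw [Submodule.map_inf _ m.injective, hmU, inf_comm]
  have hfr' : finrank F (U ⊓ sp b : Submodule F (W →ₗ[F] E)) = k := by
    rw [← hfr, ← hmi]
    exact (LinearEquiv.finrank_map_eq m _).symm
  have hUr := hUO.finrank_eq
  -- a vector of U outside sp b
  obtain ⟨u, hu, hub⟩ : ∃ u ∈ U, u ∉ sp b := by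
    by_contra hcon
    push Not at hcon
    apply hUne
    apply Submodule.eq_of_le_of_finrank_le
    · exact hcon
    · rw [finrank_sp hb, hUr]
  -- the space of heads
  obtain ⟨A, hA⟩ : ∃ A : Submodule F E, ∀ a, a ∈ A ↔ pt a b ∈ U := ⟨U.comap (pt.flip b), fun a => Iff.rfl⟩
  have hAk : finrank F A = k := by
    rw [← hfr']
    have h6 : A.map (pt.flip b) = U ⊓ sp b := by
      ext v
      constructor
      · rintro ⟨a, ha, rfl⟩
        exact ⟨(hA a).1 ha, pt_mem_sp a b⟩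
      · rintro ⟨h7, h8⟩
        obtain ⟨a, rfl⟩ := mem_sp.1 h8
        exact ⟨a, (hA a).2 h7, rfl⟩
    rw [← h6]
    exact (Submodule.equivMapOfInjective (pt.flip b) (fun a a' h => pt_inj' hb h) A).finrank_eq
  obtain ⟨w, hw0, hbw, hwA⟩ : ∃ w, w ≠ 0 ∧ b w = 0 ∧ u w ∈ A := by
    obtain ⟨f, hf⟩ : ∃ f : LinearMap.ker b →ₗ[F] E ⧸ A, ∀ w, f w = A.mkQ (u w) :=
      ⟨A.mkQ ∘ₗ u ∘ₗ (LinearMap.ker b).subtype, fun w => rfl⟩
    have h6 := LinearMap.finrank_range_add_finrank_ker f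
    have h7 : finrank F (LinearMap.range f) ≤ finrank F (E ⧸ A) := Submodule.finrank_le _
    have h8 := Submodule.finrank_quotient_add_finrank A
    have h9 := LinearMap.finrank_range_add_finrank_ker b
    have h10 : finrank F (LinearMap.range b) ≤ 1 := by
      have := Submodule.finrank_le (LinearMap.range b)
      rwa [finrank_self] at this
    have h11 : 0 < finrank F (LinearMap.ker f) := by
      have : 0 < k := by rw [← hfr]; exact hpos
      omega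
    obtain ⟨x, hx⟩ := (Module.finrank_pos_iff_exists_ne_zero).1 h11
    refine ⟨x.1.1, fun h => hx (Subtype.ext (Subtype.ext h)), x.1.2, ?_⟩
    have h12 : f x.1 = 0 := x.2
    rw [hf] at h12
    exact (Submodule.Quotient.mk_eq_zero A).1 h12
  refine ⟨b, U, w, hb, hUO, hUne, ?_, hw0, hbw, ?_⟩
  · intro h
    rw [h, finrank_bot] at hfr'
    rw [hfr] at hpos
    omega
  -- the root element stabilises U
  obtain ⟨x, hx, hxv, -⟩ := T.xm hbw
  have hxU : U.map (x : (W →ₗ[F] E) →ₗ[F] (W →ₗ[F] E)) = U := by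
    by_contra hne'
    have hxu : x u ∈ U := by
      rw [hxv]
      exact U.add_mem hu ((hA _).1 hwA)
    have h6 : (U ⊓ sp b) ⊔ Submodule.span F {x u} ≤ U.map (x : (W →ₗ[F] E) →ₗ[F] (W →ₗ[F] E)) ⊓ U := by
      apply sup_le
      · rintro v ⟨hv, hv'⟩
        refine ⟨⟨v, hv, ?_⟩, hv⟩
        show x v = v
        rw [hxv, (mem_sp_iff hb).1 hv' w hbw, map_zero, LinearMap.zero_apply, add_zero]
      · rw [Submodule.span_singleton_le_iff_mem]
        exact ⟨⟨u, hu, rfl⟩, hxu⟩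
    have h7 : U ⊓ sp b < (U ⊓ sp b) ⊔ Submodule.span F {x u} := by
      refine lt_of_le_of_ne le_sup_left fun heq => ?_
      have h8 : x u ∈ U ⊓ sp b := by
        rw [heq]
        exact Submodule.mem_sup_right (Submodule.mem_span_singleton_self _)
      apply hub
      have h9 := (sp b).sub_mem h8.2 (pt_mem_sp (u w) b)
      rwa [hxv, add_sub_cancel_right] at h9
    have h8 := Submodule.finrank_lt_finrank_of_lt h7
    have h9 := Submodule.finrank_mono h6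
    have h10 : P (finrank F (U.map (x : (W →ₗ[F] E) →ₗ[F] (W →ₗ[F] E)) ⊓ U : Submodule F (W →ₗ[F] E))) := by
      rw [hP]
      exact ⟨_, _, hUO.map hx, hUO, hne', by omega, rfl⟩
    have h11 := hkm _ h10
    omega
  intro v hv
  rw [← hxv, ← hxU]
  exact ⟨v, hv, rfl⟩

/-- some stabiliser of a space is not made of pairs -/
theorem exists_stab (hexc : (∃ y : F, y ≠ 0 ∧ y ≠ 1) ∨ 3 ≤ finrank F E)
    (hg : ∃ g ∈ M, ¬ ∃ p q, g = ac p q) : ∃ b : Dual F W, b ≠ 0 ∧ ∃ g ∈ M, (∀ v ∈ sp b, g v ∈ sp b) ∧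
      ¬ ∃ p q, g = ac p q := by
  have hE := T.hE
  have hEW := T.hEW
  by_contra hcon
  push Not at hcon
  obtain ⟨b, U, w, hb, ⟨m, hm, c, hc, hU⟩, hne, hnb, hw0, hbw, hst⟩ := T.exists_pair hexc hg
  obtain ⟨x, hx, hxv, -⟩ := T.xm hbw
  have hmm : ∀ v, m (m⁻¹ v) = v := fun v => by rw [← LinearEquiv.mul_apply, mul_inv_cancel]; rfl
  have hmm' : ∀ v, m⁻¹ (m v) = v := fun v => by rw [← LinearEquiv.mul_apply, inv_mul_cancel]; rfl
  have hy : m⁻¹ * x * m ∈ M := mul_mem (mul_mem (inv_mem hm) hx) hm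
  have hyv : ∀ v, (m⁻¹ * x * m) v = v + m⁻¹ (pt (m v w) b) := by
    intro v
    rw [LinearEquiv.mul_apply, LinearEquiv.mul_apply, hxv, map_add, hmm']
  obtain ⟨p, q, hpq⟩ := hcon c hc _ hy (fun v hv => by
    have h1 : m v ∈ U := by rw [hU]; exact ⟨v, hv, rfl⟩
    have h2 := hst _ h1
    rw [hU] at h2
    obtain ⟨v', hv', h3⟩ := h2
    have h4 : (m⁻¹ * x * m) v = v' := by
      apply m.injective
      rw [hyv, map_add, hmm]
      exact h3.symm
    rw [h4]; exact hv')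
  obtain ⟨D, hD⟩ : ∃ D : Submodule F (W →ₗ[F] E), D = (sp b).map ((m⁻¹ : (W →ₗ[F] E) ≃ₗ[F] (W →ₗ[F] E)) :
    (W →ₗ[F] E) →ₗ[F] (W →ₗ[F] E)) := ⟨_, rfl⟩
  obtain ⟨d, hd, hDd⟩ := ac_small (p := p) (q := q) (D := D) (by omega) hEW (by
    intro v
    rw [← hpq, hyv, add_sub_cancel_left, hD]
    exact ⟨_, pt_mem_sp _ b, rfl⟩) (by
    rw [hD, ← finrank_sp (E := E) hb]
    exact le_of_eq (LinearEquiv.finrank_map_eq (m⁻¹) _)) (by
    rw [← hpq]
    intro h
    obtain ⟨φ, hφ⟩ := exists_dual0 (F := F) hw0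
    obtain ⟨a, ha⟩ : ∃ a : E, a ≠ 0 := by
      have : Nontrivial E := Module.finrank_pos_iff (R := F).1 (by omega)
      exact exists_ne 0
    have h1 := hyv (m⁻¹ (pt a φ))
    rw [h, hmm, pt_apply, hφ, one_smul] at h1
    have h2 : m⁻¹ (pt a b) = 0 := by
      have : m⁻¹ (pt a φ) = m⁻¹ (pt a φ) + m⁻¹ (pt a b) := h1
      exact (left_eq_add.1 this)
    exact pt_ne ha hb ((LinearEquiv.map_eq_zero_iff _).1 h2))
  -- contradiction
  obtain ⟨v, hv, hv0⟩ := Submodule.exists_mem_ne_zero_of_ne_bot hnb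
  rw [hU] at hv
  obtain ⟨⟨v', hv', rfl⟩, hvb⟩ := hv
  have h1 : v' ∈ D := by
    rw [hD]
    exact ⟨_, hvb, hmm' v'⟩
  rw [hDd] at h1
  have h2 : (sp d : Submodule F (W →ₗ[F] E)) = sp c := sp_disj hd hc (fun h => hv0 (by rw [h, map_zero])) h1 hv'
  apply hne
  rw [hU, ← h2, ← hDd, hD, ← Submodule.map_comp]
  have : ((m : (W →ₗ[F] E) →ₗ[F] (W →ₗ[F] E)) ∘ₗ ((m⁻¹ : (W →ₗ[F] E) ≃ₗ[F] (W →ₗ[F] E)) :
    (W →ₗ[F] E) →ₗ[F] (W →ₗ[F] E))) = LinearMap.id := by
    apply LinearMap.ext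
    intro x
    exact hmm x
  rw [this, Submodule.map_id]

end TM

end Cfsg.Agent.Lib.TenSLH94
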