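import Mathlib
import Cfsg.Agent.Lib.TenSL4H94

set_option autoImplicit false
set_option linter.unusedSectionVars false
set_option linter.unusedSimpArgs false
set_option linter.unusedVariables false

/-!
Overgroups of tensor product subgroups of the special linear group: all transvections.
-/

namespace Cfsg.Agent.Lib.TenSLH94

open Module Cfsg.Agent.Lib.SLMax Cfsg.Agent.Lib.SLUn Cfsg.Agent.Lib.SLBlockH94

/-- determinants of unipotent maps -/
theorem det_unip {F V E : Type*} [Field F] [AddCommGroup V] [Module F V] [FiniteDimensional F V]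
    [AddCommGroup E] [Module F E] [FiniteDimensional F E] (i : E →ₗ[F] V) (r : V →ₗ[F] E)
    (h : ∀ a, r (i a) = 0) : LinearMap.det (LinearMap.id + i ∘ₗ r) = 1 := by
  classical
  let B := Module.finBasis F E
  have key : ∀ s : Finset (Fin (finrank F E)),
      LinearMap.det (LinearMap.id + ∑ j ∈ s, (B.coord j ∘ₗ r).smulRight (i (B j))) = 1 := by
    intro s
    induction s using Finset.induction_on with
    | empty => rw [Finset.sum_empty, add_zero, LinearMap.det_id]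
    | insert a s has ih =>
      have h1 : (B.coord a ∘ₗ r) (i (B a)) = 0 := by rw [LinearMap.comp_apply, h, map_zero]
      have h2 : (LinearMap.id + ∑ j ∈ insert a s, (B.coord j ∘ₗ r).smulRight (i (B j))) =
          ((tr (i (B a)) (B.coord a ∘ₗ r) h1 : V ≃ₗ[F] V) : V →ₗ[F] V) ∘ₗ
            (LinearMap.id + ∑ j ∈ s, (B.coord j ∘ₗ r).smulRight (i (B j))) := by
        apply LinearMap.ext
        intro v
        rw [Finset.sum_insert has, LinearMap.comp_apply]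
        show _ = tr (i (B a)) (B.coord a ∘ₗ r) h1 _
        rw [tr_apply]
        have h3 : (B.coord a ∘ₗ r) ((LinearMap.id + ∑ j ∈ s, (B.coord j ∘ₗ r).smulRight (i (B j)) : V →ₗ[F] V) v) =
            (B.coord a ∘ₗ r) v := by
          rw [LinearMap.add_apply, map_add, LinearMap.sum_apply, map_sum]
          rw [Finset.sum_eq_zero, add_zero]
          · rfl
          · intro j _
            rw [LinearMap.smulRight_apply, map_smul, LinearMap.comp_apply (B.coord a), h, map_zero, smul_zero]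
        rw [h3]
        simp only [LinearMap.add_apply, LinearMap.smulRight_apply, LinearMap.id_apply]
        abel
      rw [h2, LinearMap.det_comp, tr_det, one_mul, ih]
  have h1 := key Finset.univ
  have h2 : ∑ j, (B.coord j ∘ₗ r).smulRight (i (B j)) = i ∘ₗ r := by
    apply LinearMap.ext
    intro v
    rw [LinearMap.sum_apply, LinearMap.comp_apply]
    conv_rhs => rw [← B.sum_repr (r v), map_sum]
    apply Finset.sum_congr rfl
    intro j _
    rw [LinearMap.smulRight_apply, LinearMap.comp_apply, map_smul]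
    rfl
  rwa [h2] at h1

theorem exists_ker2 {F V : Type*} [Field F] [AddCommGroup V] [Module F V] [FiniteDimensional F V]
    (hm : 3 ≤ finrank F V) (φ ψ : Dual F V) : ∃ v, v ≠ 0 ∧ φ v = 0 ∧ ψ v = 0 := by
  have h1 := LinearMap.finrank_range_add_finrank_ker (φ.prod ψ)
  have h2 : finrank F (LinearMap.range (φ.prod ψ)) ≤ 2 := by
    have := Submodule.finrank_le (LinearMap.range (φ.prod ψ))
    rwa [Module.finrank_prod, finrank_self] at this
  have h3 : 0 < finrank F (LinearMap.ker (φ.prod ψ)) := by omega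
  obtain ⟨x, hx⟩ := (Module.finrank_pos_iff_exists_ne_zero).1 h3
  have h4 := x.2
  rw [LinearMap.mem_ker, LinearMap.prod_apply, Prod.ext_iff] at h4
  exact ⟨x.1, fun h => hx (Subtype.ext h), h4.1, h4.2⟩

variable {F E W : Type*} [Field F] [AddCommGroup E] [Module F E] [FiniteDimensional F E]
  [AddCommGroup W] [Module F W] [FiniteDimensional F W]

theorem ac_mul (p p' : E ≃ₗ[F] E) (q q' : W ≃ₗ[F] W) : ac p q * ac p' q' = ac (p * p') (q * q') := rfl

theorem exists_xq {w : W} {b : Dual F W} (h : b w = 0) :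
    ∃ q : W ≃ₗ[F] W, ∀ v : W →ₗ[F] E, ac 1 q v = v + pt (v w) b := by
  refine ⟨(tr w b h).symm, fun v => ?_⟩
  apply LinearMap.ext
  intro z
  rw [ac_apply, LinearMap.add_apply, pt_apply, LinearEquiv.symm_symm, tr_apply, map_add, map_smul]
  rfl

namespace TM

variable {M : Subgroup ((W →ₗ[F] E) ≃ₗ[F] (W →ₗ[F] E))} (T : TM M)
include T

/-- elements of the unipotent radical -/
theorem exists_rad (hexc : (∃ y : F, y ≠ 0 ∧ y ≠ 1) ∨ 3 ≤ finrank F E)
    (hg : ∃ g ∈ M, ¬ ∃ p q, g = ac p q) : ∃ b : Dual F W, b ≠ 0 ∧ ∃ r : (W →ₗ[F] E) →ₗ[F] E,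
      (∀ a, r (pt a b) = 0) ∧ (∃ k ∈ M, ∀ v : W →ₗ[F] E, k v = v + pt (r v) b) ∧ ∀ w, ∃ v : W →ₗ[F] E, r v ≠ v w := by
  have hE := T.hE
  have hEW := T.hEW
  obtain ⟨a₁, ha₁⟩ : ∃ a : E, a ≠ 0 := by
    have : Nontrivial E := Module.finrank_pos_iff (R := F).1 (by omega)
    exact exists_ne 0
  obtain ⟨b, hb, g, hgM, hgb, hgn⟩ := T.exists_stab hexc hg
  refine ⟨b, hb, ?_⟩
  have gg : ∀ v, g (g⁻¹ v) = v := fun v => by rw [← LinearEquiv.mul_apply, mul_inv_cancel]; rfl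
  have gg' : ∀ v, g⁻¹ (g v) = v := fun v => by rw [← LinearEquiv.mul_apply, inv_mul_cancel]; rfl
  obtain ⟨w₀, hw₀⟩ := exists_val hb
  obtain ⟨p, hp⟩ : ∃ p : E →ₗ[F] E, ∀ a, g (pt a b) = pt (p a) b := by
    refine ⟨(LinearMap.applyₗ w₀) ∘ₗ (g : (W →ₗ[F] E) →ₗ[F] (W →ₗ[F] E)) ∘ₗ pt.flip b, fun a => ?_⟩
    obtain ⟨a', ha'⟩ := mem_sp.1 (hgb _ (pt_mem_sp a b))
    have h1 : (LinearMap.applyₗ w₀ ∘ₗ (g : (W →ₗ[F] E) →ₗ[F] (W →ₗ[F] E)) ∘ₗ pt.flip b) a = g (pt a b) w₀ := rfl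
    rw [h1, ha', pt_apply, hw₀, one_smul]
  have hpi : Function.Injective p := by
    intro a a' h
    apply pt_inj' hb
    apply g.injective
    rw [hp, hp, h]
  have hgib : ∀ a, ∃ a', g⁻¹ (pt a b) = pt a' b := by
    intro a
    obtain ⟨a', ha'⟩ := LinearMap.injective_iff_surjective.1 hpi a
    refine ⟨a', g.injective ?_⟩
    rw [gg, hp, ha']
  by_cases hcase : ∃ w, b w = 0 ∧ ∀ w', ∃ v : W →ₗ[F] E, p ((g⁻¹ v) w) ≠ v w'
  · obtain ⟨w, hbw, hw⟩ := hcase
    obtain ⟨x, hx, hxv, -⟩ := T.xm hbw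
    refine ⟨p ∘ₗ (LinearMap.applyₗ w) ∘ₗ ((g⁻¹ : (W →ₗ[F] E) ≃ₗ[F] (W →ₗ[F] E)) :
      (W →ₗ[F] E) →ₗ[F] (W →ₗ[F] E)), ?_, ⟨g * x * g⁻¹, mul_mem (mul_mem hgM hx) (inv_mem hgM), ?_⟩, hw⟩
    · intro a
      obtain ⟨a', ha'⟩ := hgib a
      show p ((g⁻¹ (pt a b)) w) = 0
      rw [ha', pt_apply, hbw, zero_smul, map_zero]
    · intro v
      rw [LinearEquiv.mul_apply, LinearEquiv.mul_apply, hxv, map_add, gg, hp]
      rfl
  push Not at hcase
  have h1 : ∀ w, ∃ w', ∀ v : W →ₗ[F] E, p (v (w - b w • w₀)) = (g v) w' := by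
    intro w
    obtain ⟨w', hw'⟩ := hcase (w - b w • w₀) (by rw [map_sub, map_smul, hw₀, smul_eq_mul, mul_one, sub_self])
    refine ⟨w', fun v => ?_⟩
    have := hw' (g v)
    rwa [gg'] at this
  choose f hf using h1
  have huniq : ∀ w w' : W, (∀ v : W →ₗ[F] E, (g v) w = (g v) w') → w = w' := by
    intro w w' h
    by_contra hne
    obtain ⟨c, hc⟩ := exists_dual0 (F := F) (sub_ne_zero.2 hne)
    have h2 := h (g⁻¹ (pt a₁ c))
    rw [gg, ← sub_eq_zero, ← map_sub, pt_apply, hc, one_smul] at h2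
    exact ha₁ h2
  obtain ⟨Q₀, hQ₀⟩ : ∃ Q₀ : W →ₗ[F] W, ∀ w, Q₀ w = f w := by
    refine ⟨⟨⟨f, fun w w' => ?_⟩, fun s w => ?_⟩, fun w => rfl⟩
    · apply huniq
      intro v
      rw [map_add, ← hf, ← hf, ← hf, ← map_add, ← map_add]
      congr 2
      rw [map_add]
      module
    · apply huniq
      intro v
      show (g v) (f (s • w)) = (g v) (s • f w)
      rw [map_smul, ← hf, ← hf, ← map_smul, ← map_smul]
      congr 2
      rw [map_smul, smul_eq_mul]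
      module
  have hbf : ∀ w, b (f w) = 0 := by
    intro w
    have h2 := hf w (pt a₁ b)
    rw [pt_apply, map_sub b, b.map_smul, hw₀, smul_eq_mul, mul_one, sub_self, zero_smul, map_zero, hp, pt_apply] at h2
    rcases smul_eq_zero.1 h2.symm with h3 | h3
    · exact h3
    · exact absurd ((map_eq_zero_iff p hpi).1 h3) ha₁
  obtain ⟨Q, hQ⟩ : ∃ Q : W →ₗ[F] W, ∀ w, Q w = f w + b w • w₀ := by
    refine ⟨Q₀ + b.smulRight w₀, fun w => ?_⟩
    rw [LinearMap.add_apply, hQ₀, LinearMap.smulRight_apply]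
  have hbQ : ∀ w, b (Q w) = b w := by
    intro w
    rw [hQ, map_add, hbf, zero_add, map_smul, hw₀, smul_eq_mul, mul_one]
  have hgQ : ∀ w, b w = 0 → ∀ v : W →ₗ[F] E, (g v) (Q w) = p (v w) := by
    intro w hw v
    rw [hQ, hw, zero_smul, add_zero, ← hf, hw, zero_smul, sub_zero]
  have hQi : Function.Injective Q := by
    rw [injective_iff_map_eq_zero]
    intro w hw
    have hbw : b w = 0 := by rw [← hbQ, hw, map_zero]
    by_contra hw0
    obtain ⟨c, hc⟩ := exists_dual0 (F := F) hw0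
    have h2 := hgQ w hbw (pt a₁ c)
    rw [hw, map_zero, pt_apply, hc, one_smul] at h2
    exact ha₁ ((map_eq_zero_iff p hpi).1 h2.symm)
  obtain ⟨P', hP'⟩ : ∃ P' : E ≃ₗ[F] E, ∀ a, P' a = p a := ⟨LinearEquiv.ofInjectiveEndo p hpi, fun a => rfl⟩
  obtain ⟨Q', hQ'⟩ : ∃ Q' : W ≃ₗ[F] W, ∀ a, Q' a = Q a := ⟨LinearEquiv.ofInjectiveEndo Q hQi, fun a => rfl⟩
  obtain ⟨h, hh⟩ : ∃ h : (W →ₗ[F] E) ≃ₗ[F] (W →ₗ[F] E), h = ac P' Q' := ⟨_, rfl⟩
  have hhv : ∀ v w, h v (Q w) = p (v w) := by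
    intro v w
    rw [hh, ac_apply, hP', ← hQ', LinearEquiv.symm_apply_apply]
  have hhb : ∀ a, h (pt a b) = pt (p a) b := by
    intro a
    apply LinearMap.ext
    intro z
    obtain ⟨w, rfl⟩ := LinearMap.injective_iff_surjective.1 hQi z
    rw [hhv, pt_apply, pt_apply, hbQ, map_smul]
  obtain ⟨s, hs⟩ : ∃ s : (W →ₗ[F] E) →ₗ[F] E, ∀ v, s v = g v w₀ - h v w₀ :=
    ⟨(LinearMap.applyₗ w₀) ∘ₗ ((g : (W →ₗ[F] E) →ₗ[F] (W →ₗ[F] E)) - (h : (W →ₗ[F] E) →ₗ[F] (W →ₗ[F] E))),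
      fun v => rfl⟩
  have hgh : ∀ v, g v = h v + pt (s v) b := by
    intro v
    have h2 : g v - h v ∈ sp b := by
      rw [mem_sp_iff hb]
      intro z hz
      obtain ⟨w, rfl⟩ := LinearMap.injective_iff_surjective.1 hQi z
      rw [hbQ] at hz
      rw [LinearMap.sub_apply, hgQ w hz, hhv, sub_self]
    obtain ⟨a, ha⟩ := mem_sp.1 h2
    have h3 : s v = a := by
      rw [hs, ← LinearMap.sub_apply, ha, pt_apply, hw₀, one_smul]
    rw [h3, ← ha, add_sub_cancel]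
  have hhi : ∀ a, h.symm (pt a b) = pt (P'.symm a) b := by
    intro a
    rw [LinearEquiv.symm_apply_eq, hhb, ← hP', LinearEquiv.apply_symm_apply]
  obtain ⟨r, hr⟩ : ∃ r : (W →ₗ[F] E) →ₗ[F] E, ∀ v, r v = P'.symm (s v) := ⟨P'.symm.toLinearMap ∘ₗ s, fun v => rfl⟩
  have hrb : ∀ a, r (pt a b) = 0 := by
    intro a
    rw [hr, hs, hp, hhb, sub_self, map_zero]
  obtain ⟨k, hk⟩ : ∃ k : (W →ₗ[F] E) ≃ₗ[F] (W →ₗ[F] E), k = h⁻¹ * g := ⟨_, rfl⟩
  have hkv : ∀ v : W →ₗ[F] E, k v = v + pt (r v) b := by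
    intro v
    have : k v = h.symm (g v) := by rw [hk]; rfl
    rw [this, hgh, map_add, LinearEquiv.symm_apply_apply, hhi, hr]
  have hkdet : LinearMap.det (k : (W →ₗ[F] E) →ₗ[F] (W →ₗ[F] E)) = 1 := by
    have : (k : (W →ₗ[F] E) →ₗ[F] (W →ₗ[F] E)) = LinearMap.id + (pt.flip b) ∘ₗ r := by
      apply LinearMap.ext
      intro v
      exact hkv v
    rw [this]
    exact det_unip _ _ hrb
  have hghk : g = h * k := by rw [hk, mul_inv_cancel_left]
  have hhdet : LinearMap.det (h : (W →ₗ[F] E) →ₗ[F] (W →ₗ[F] E)) = 1 := by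
    have h2 : (g : (W →ₗ[F] E) →ₗ[F] (W →ₗ[F] E)) = (h : (W →ₗ[F] E) →ₗ[F] (W →ₗ[F] E)) ∘ₗ
        (k : (W →ₗ[F] E) →ₗ[F] (W →ₗ[F] E)) := by rw [hghk]; rfl
    have h3 := congrArg LinearMap.det h2
    rw [LinearMap.det_comp, hkdet, mul_one, T.det g hgM] at h3
    exact h3.symm
  have hhM : h ∈ M := by
    rw [hh]
    apply T.H
    rw [← hh]
    exact hhdet
  refine ⟨r, hrb, ⟨k, by rw [hk]; exact mul_mem (inv_mem hhM) hgM, hkv⟩, fun w => ?_⟩
  by_contra hcon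
  push Not at hcon
  have hbw : b w = 0 := by
    have h2 := hrb a₁
    rw [hcon, pt_apply] at h2
    rcases smul_eq_zero.1 h2 with h3 | h3
    · exact h3
    · exact absurd h3 ha₁
  obtain ⟨q, hq⟩ := exists_xq (E := E) hbw
  have hkq : k = ac 1 q := by
    apply LinearEquiv.ext
    intro v
    rw [hkv, hq, hcon]
  apply hgn
  exact ⟨_, _, by rw [hghk, hh, hkq, ac_mul]⟩

end TM

end Cfsg.Agent.Lib.TenSLH94
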