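import Mathlib
import Cfsg.Agent.Lib.TenSL5H94

set_option autoImplicit false
set_option linter.unusedSectionVars false
set_option linter.unusedSimpArgs false
set_option linter.unusedVariables false

/-!
Overgroups of tensor product subgroups of the special linear group: conclusion.
-/

namespace Cfsg.Agent.Lib.TenSLH94

open Module Cfsg.Agent.Lib.SLMax Cfsg.Agent.Lib.SLUn Cfsg.Agent.Lib.SLBlockH94

variable {F E W : Type*} [Field F] [AddCommGroup E] [Module F E] [FiniteDimensional F E]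
  [AddCommGroup W] [Module F W] [FiniteDimensional F W]

/-- elements of the radical of shape `X ⊗ w` -/
def RX (M : Subgroup ((W →ₗ[F] E) ≃ₗ[F] (W →ₗ[F] E))) (b : Dual F W) (X : E →ₗ[F] E) (w : W) : Prop :=
  ∃ k ∈ M, ∀ v : W →ₗ[F] E, k v = v + pt (X (v w)) b

theorem pf_smul (c : F) (α : Dual F E) (w : W) : pf (c • α) w = c • pf α w := rfl

theorem pf_sub (α β : Dual F E) (w : W) : pf (α - β) w = pf α w - pf β w := rfl

theorem pf_add_right (α : Dual F E) (w w' : W) : pf α (w + w') = pf α w + pf α w' := by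
  apply LinearMap.ext
  intro v
  rw [LinearMap.add_apply, pf_apply, pf_apply, pf_apply, map_add, map_add]

theorem pf_sub_right (α : Dual F E) (w w' : W) : pf α (w - w') = pf α w - pf α w' := by
  apply LinearMap.ext
  intro v
  rw [LinearMap.sub_apply, pf_apply, pf_apply, pf_apply, map_sub, map_sub]

theorem pf_smul_right (c : F) (α : Dual F E) (w : W) : pf α (c • w) = c • pf α w := by
  apply LinearMap.ext
  intro v
  rw [LinearMap.smul_apply, pf_apply, pf_apply, map_smul, map_smul]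

theorem RG_zero {V : Type*} [AddCommGroup V] [Module F V] [FiniteDimensional F V] {M : Subgroup (V ≃ₗ[F] V)}
    (φ : Dual F V) : RG M 0 φ :=
  ⟨map_zero φ, fun c => ⟨1, one_mem _, fun x => by rw [smul_zero, add_zero]; rfl⟩⟩

theorem RG_zero' {V : Type*} [AddCommGroup V] [Module F V] [FiniteDimensional F V] {M : Subgroup (V ≃ₗ[F] V)}
    (v : V) : RG M v 0 :=
  ⟨rfl, fun c => ⟨1, one_mem _, fun x => by simp⟩⟩

namespace TM

variable {M : Subgroup ((W →ₗ[F] E) ≃ₗ[F] (W →ₗ[F] E))} (T : TM M)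

theorem RX.inv {b : Dual F W} {X : E →ₗ[F] E} {w : W} (hw : b w = 0) {k : (W →ₗ[F] E) ≃ₗ[F] (W →ₗ[F] E)}
    (hk : ∀ v : W →ₗ[F] E, k v = v + pt (X (v w)) b) (v : W →ₗ[F] E) : k⁻¹ v = v - pt (X (v w)) b := by
  apply k.injective
  rw [← LinearEquiv.mul_apply, mul_inv_cancel, hk]
  show v = _
  rw [LinearMap.sub_apply, pt_apply, hw, zero_smul, sub_zero, sub_add_cancel]

theorem RX.add {b : Dual F W} {X Y : E →ₗ[F] E} {w : W} (hw : b w = 0) (h : RX M b X w) (h' : RX M b Y w) :
    RX M b (X + Y) w := by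
  obtain ⟨k, hk, hkv⟩ := h
  obtain ⟨l, hl, hlv⟩ := h'
  refine ⟨k * l, mul_mem hk hl, fun v => ?_⟩
  rw [LinearEquiv.mul_apply, hlv, hkv, LinearMap.add_apply, pt_apply, hw, zero_smul, add_zero, LinearMap.add_apply,
    map_add, LinearMap.add_apply]
  abel

theorem RX.sub_right {b : Dual F W} {X : E →ₗ[F] E} {w w' : W} (hw : b w = 0) (hw' : b w' = 0)
    (h : RX M b X w) (h' : RX M b X w') : RX M b X (w - w') := by
  obtain ⟨k, hk, hkv⟩ := h
  obtain ⟨l, hl, hlv⟩ := h'
  refine ⟨k * l⁻¹, mul_mem hk (inv_mem hl), fun v => ?_⟩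
  rw [LinearEquiv.mul_apply, RX.inv hw' hlv, hkv, LinearMap.sub_apply, pt_apply, hw, zero_smul, sub_zero,
    map_sub, map_sub, map_sub, LinearMap.sub_apply]
  abel

include T

/-- a nonscalar element of shape `X ⊗ w` -/
theorem exists_RX (hexc : (∃ y : F, y ≠ 0 ∧ y ≠ 1) ∨ 3 ≤ finrank F E)
    (hg : ∃ g ∈ M, ¬ ∃ p q, g = ac p q) : ∃ b : Dual F W, b ≠ 0 ∧ ∃ X : E →ₗ[F] E,
      (¬ ∃ c : F, ∀ x, X x = c • x) ∧ ∃ w, w ≠ 0 ∧ b w = 0 ∧ RX M b X w := by
  have hE := T.hE
  have hEW := T.hEW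
  obtain ⟨a₁, ha₁⟩ : ∃ a : E, a ≠ 0 := by
    have : Nontrivial E := Module.finrank_pos_iff (R := F).1 (by omega)
    exact exists_ne 0
  obtain ⟨b, hb, r, hrb, ⟨k, hk, hkv⟩, hr⟩ := T.exists_rad hexc hg
  refine ⟨b, hb, ?_⟩
  obtain ⟨c, hc⟩ : ∃ c : Dual F W, ¬ ∃ l : F, ∀ a, r (pt a c) = l • a := by
    by_contra hcon
    push Not at hcon
    choose l hl using hcon
    obtain ⟨L, hL⟩ : ∃ L : Dual F (Dual F W), ∀ c, L c = l c := by
      refine ⟨⟨⟨l, fun c c' => ?_⟩, fun s c => ?_⟩, fun c => rfl⟩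
      · apply smul_left_injective F ha₁
        show l (c + c') • a₁ = (l c + l c') • a₁
        rw [← hl, add_smul, ← hl, ← hl, map_add, map_add]
      · apply smul_left_injective F ha₁
        show l (s • c) • a₁ = (s * l c) • a₁
        rw [← hl, mul_smul, ← hl, map_smul, map_smul]
    obtain ⟨w, hw⟩ : ∃ w : W, ∀ c : Dual F W, c w = L c :=
      ⟨(Module.evalEquiv F W).symm L, fun c => Module.apply_evalEquiv_symm_apply F W c L⟩
    obtain ⟨v, hv⟩ := hr w
    apply hv
    have h1 : r = LinearMap.applyₗ w := by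
      apply ext_pt
      intro a c
      show r (pt a c) = pt a c w
      rw [hl, pt_apply, hw, hL]
    rw [h1]; rfl
  obtain ⟨w, hw0, hbw, hcw⟩ := exists_ker2 (V := W) (by omega) b c
  obtain ⟨X, hX⟩ : ∃ X : E →ₗ[F] E, ∀ a, X a = r (pt a c) := ⟨r ∘ₗ pt.flip c, fun a => rfl⟩
  refine ⟨X, fun ⟨l, h⟩ => hc ⟨l, fun a => by rw [← hX, h]⟩, w, hw0, hbw, ?_⟩
  obtain ⟨x, hx, hxv, hxi⟩ := T.xm hcw
  have hki : ∀ v, k⁻¹ v = v - pt (r v) b := by
    intro v
    apply k.injective
    rw [← LinearEquiv.mul_apply, mul_inv_cancel, hkv]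
    show v = _
    rw [map_sub, hrb, sub_zero, sub_add_cancel]
  refine ⟨k⁻¹ * (x⁻¹ * k * x), mul_mem (inv_mem hk) (mul_mem (mul_mem (inv_mem hx) hk) hx), fun v => ?_⟩
  have h1 : (x⁻¹ * k * x) v = v + pt (r v) b + pt (X (v w)) b := by
    rw [LinearEquiv.mul_apply, LinearEquiv.mul_apply, hxv, hkv, hxi]
    simp only [LinearMap.add_apply, pt_apply, hcw, hbw, zero_smul, add_zero, map_add, hX]
    abel
  rw [LinearEquiv.mul_apply, h1, hki, r.map_add, r.map_add, hrb, hrb]
  simp only [add_zero]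
  abel

theorem RX_spread {b : Dual F W} {X : E →ₗ[F] E} {w : W} (hw0 : w ≠ 0) (hw : b w = 0) (h : RX M b X w) :
    ∀ d, b d = 0 → RX M b X d := by
  have hE := T.hE
  have hEW := T.hEW
  have key : ∀ w, b w = 0 → RX M b X w → ∀ d, b d = 0 → w ∉ Submodule.span F {d} → RX M b X d := by
    intro w hw h d hd hwd
    obtain ⟨δ, hδ1, hδ0⟩ := exists_dual1 hwd
    obtain ⟨x, hx, hxv, hxi⟩ := T.xm hδ0
    obtain ⟨k, hk, hkv⟩ := h
    have h1 : RX M b X (w + d) := by
      refine ⟨x⁻¹ * k * x, mul_mem (mul_mem (inv_mem hx) hk) hx, fun v => ?_⟩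
      rw [LinearEquiv.mul_apply, LinearEquiv.mul_apply, hxv, hkv, hxi]
      simp only [LinearMap.add_apply, pt_apply, hδ0, hδ1, hd, zero_smul, add_zero, map_add, one_smul]
      abel
    have h2 := RX.sub_right (by rw [map_add, hw, hd, add_zero]) hw h1 ⟨k, hk, hkv⟩
    rwa [add_sub_cancel_left] at h2
  intro d hd
  by_cases hd0 : d = 0
  · rw [hd0]
    exact ⟨1, one_mem _, fun v => by rw [map_zero, map_zero, map_zero, LinearMap.zero_apply, add_zero]; rfl⟩
  · by_cases hdep : w ∈ Submodule.span F {d}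
    · obtain ⟨e, he, hbe⟩ := exists_ker_out (V := W) (by omega) b d
      have hde : d ∉ Submodule.span F {e} := by
        intro h1
        obtain ⟨s, hs⟩ := Submodule.mem_span_singleton.1 h1
        have hs0 : s ≠ 0 := by rintro rfl; rw [zero_smul] at hs; exact hd0 hs.symm
        apply he
        rw [Submodule.mem_span_singleton]
        exact ⟨s⁻¹, by rw [← hs, smul_smul, inv_mul_cancel₀ hs0, one_smul]⟩
      have hwe : w ∉ Submodule.span F {e} := by
        intro h1
        obtain ⟨t, ht⟩ := Submodule.mem_span_singleton.1 hdep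
        have ht0 : t ≠ 0 := by rintro rfl; rw [zero_smul] at ht; exact hw0 ht.symm
        apply hde
        have := Submodule.smul_mem _ t⁻¹ h1
        rwa [← ht, smul_smul, inv_mul_cancel₀ ht0, one_smul] at this
      have h1 := key w hw h e hbe hwe
      exact key e hbe h1 d hd he
    · exact key w hw h d hd hdep

/-- root groups -/
theorem exists_RG (hexc : (∃ y : F, y ≠ 0 ∧ y ≠ 1) ∨ 3 ≤ finrank F E)
    (hg : ∃ g ∈ M, ¬ ∃ p q, g = ac p q) : ∃ b : Dual F W, b ≠ 0 ∧ ∃ (a : E) (α : Dual F E), a ≠ 0 ∧ α ≠ 0 ∧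
      ∀ w, b w = 0 → RG M (pt a b) (pf α w) := by
  obtain ⟨b, hb, X, hX, w, hw0, hbw, hR⟩ := T.exists_RX hexc hg
  have hall := T.RX_spread hw0 hbw hR
  obtain ⟨S, hS⟩ : ∃ S : Submodule F (E →ₗ[F] E), ∀ X, X ∈ S ↔ ∀ d, b d = 0 → RX M b X d := by
    refine ⟨⟨⟨⟨{X | ∀ d, b d = 0 → RX M b X d}, ?_⟩, ?_⟩, ?_⟩, fun X => Iff.rfl⟩
    · intro X Y hX hY d hd
      exact RX.add hd (hX d hd) (hY d hd)
    · intro d hd
      exact ⟨1, one_mem _, fun v => by
        rw [LinearMap.zero_apply, map_zero, LinearMap.zero_apply, add_zero]; rfl⟩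
    · intro s X hX d hd
      obtain ⟨k, hk, hkv⟩ := hX (s • d) (by rw [map_smul, hd, smul_zero])
      refine ⟨k, hk, fun v => ?_⟩
      rw [hkv, map_smul, map_smul, LinearMap.smul_apply]
  obtain ⟨a, α, ha, hα, hαa, haS⟩ := rank_one (S := S) T.hE hexc (fun X hX a α hα => by
    rw [hS] at hX ⊢
    intro d hd
    obtain ⟨k, hk, hkv⟩ := hX d hd
    obtain ⟨y, hy, hyv⟩ := T.ym hα
    have hyi : ∀ v, y⁻¹ v = v - pt a (α ∘ₗ v) := by
      intro v
      apply y.injective
      rw [← LinearEquiv.mul_apply, mul_inv_cancel, hyv]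
      show v = _
      apply LinearMap.ext
      intro z
      simp only [LinearMap.add_apply, LinearMap.sub_apply, pt_apply, LinearMap.comp_apply, map_sub, map_smul, hα,
        smul_zero, sub_zero]
      abel
    refine ⟨y * k * y⁻¹, mul_mem (mul_mem hy hk) (inv_mem hy), fun v => ?_⟩
    rw [LinearEquiv.mul_apply, LinearEquiv.mul_apply, hkv, map_add, ← LinearEquiv.mul_apply, mul_inv_cancel, hyi,
      hyv]
    show v + _ = _
    apply LinearMap.ext
    intro z
    simp only [LinearMap.add_apply, LinearMap.sub_apply, pt_apply, LinearMap.comp_apply, map_sub, map_smul, hα,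
      smul_zero, sub_zero, LinearMap.smulRight_apply, LinearMap.smul_apply, smul_eq_mul]
    module) ((hS X).2 hall) hX
  rw [hS] at haS
  refine ⟨b, hb, a, α, ha, hα, fun w hw => ⟨by rw [pf_apply, pt_apply, hw, zero_smul, map_zero], fun c => ?_⟩⟩
  obtain ⟨k, hk, hkv⟩ := haS (c • w) (by rw [map_smul, hw, smul_zero])
  refine ⟨k, hk, fun v => ?_⟩
  rw [hkv, pf_apply, LinearMap.smulRight_apply, v.map_smul, α.map_smul, smul_eq_mul, map_smul, LinearMap.smul_apply]

theorem all_RG (hexc : (∃ y : F, y ≠ 0 ∧ y ≠ 1) ∨ 3 ≤ finrank F E)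
    (hg : ∃ g ∈ M, ¬ ∃ p q, g = ac p q) (a : E) (α : Dual F E) (b : Dual F W) (w : W) (hα : α a = 0)
    (hw : b w = 0) : RG M (pt a b) (pf α w) := by
  obtain ⟨b₀, hb₀, a₀, α₀, ha₀, hα₀, h0⟩ := T.exists_RG hexc hg
  by_cases ha : a = 0
  · rw [ha, map_zero, LinearMap.zero_apply]; exact RG_zero _
  -- fixed b₀
  have h1 : ∀ (a : E) (α : Dual F E), a ≠ 0 → α a = 0 → ∀ w, b₀ w = 0 → RG M (pt a b₀) (pf α w) := by
    intro a α ha hα
    refine flags (P := fun a α => ∀ w, b₀ w = 0 → RG M (pt a b₀) (pf α w)) T.hE ?_ ?_ ?_ ?_ ha₀ hα₀ h0 ha hα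
    · intro a α d δ h hδ w hw
      obtain ⟨y, hy, hyv⟩ := T.ym hδ
      have h2 := (h w hw).map hy (ψ := pf (α - α d • δ) w) (fun v => by
        rw [pf_apply, pf_apply, hyv]
        simp only [LinearMap.add_apply, LinearMap.sub_apply, pt_apply, LinearMap.comp_apply, map_add, map_smul, hδ,
          LinearMap.smul_apply, smul_eq_mul]
        ring)
      have h3 : y (pt a b₀) = pt (a + δ a • d) b₀ := by
        rw [hyv]
        apply LinearMap.ext
        intro z
        simp only [LinearMap.add_apply, pt_apply, LinearMap.comp_apply, map_smul, smul_add, smul_smul, smul_eq_mul]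
      rwa [h3] at h2
    · intro a α c h w hw
      rw [map_smul]
      exact (h w hw).smul c
    · intro a α c h w hw
      rw [pf_smul]
      exact (h w hw).smul_right c
    · intro a α β h h' w hw
      rw [pf_sub]
      exact (h w hw).sub_right (h' w hw)
  by_cases hdep : b ∈ Submodule.span F {b₀}
  · obtain ⟨s, rfl⟩ := Submodule.mem_span_singleton.1 hdep
    rw [map_smul]
    by_cases hs : s = 0
    · rw [hs, zero_smul]; exact RG_zero _
    · apply RG.smul
      apply h1 a α ha hα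
      rw [LinearMap.smul_apply, smul_eq_mul] at hw
      exact (mul_eq_zero.1 hw).resolve_left hs
  · have hb' : b₀ ∉ Submodule.span F {b - b₀} := by
      intro hcon
      obtain ⟨c, hc⟩ := Submodule.mem_span_singleton.1 hcon
      by_cases hc0 : c = 0
      · rw [hc0, zero_smul] at hc; exact hb₀ hc.symm
      · apply hdep
        rw [Submodule.mem_span_singleton]
        refine ⟨1 + c⁻¹, ?_⟩
        have : b - b₀ = c⁻¹ • b₀ := by
          conv_rhs => rw [← hc]
          rw [smul_smul, inv_mul_cancel₀ hc0, one_smul]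
        rw [add_smul, one_smul, ← this]
        abel
    obtain ⟨d, hd1, hd0⟩ := exists_sep hb'
    obtain ⟨x, hx, hxv, -⟩ := T.xm hd0
    have h2 := (h1 a α ha hα (w - b₀ w • d) (by
      rw [map_sub, b₀.map_smul, hd1, smul_eq_mul, mul_one, sub_self])).map hx (ψ := pf α w) (fun v => by
        rw [pf_apply, pf_apply, hxv]
        simp only [LinearMap.add_apply, pt_apply, LinearMap.sub_apply, hw, zero_sub, map_sub, map_add, map_smul]
        simp only [neg_smul, smul_eq_mul, neg_mul]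
        ring)
    have h3 : x (pt a b₀) = pt a b := by
      rw [hxv, pt_apply, hd1, one_smul, ← map_add, add_sub_cancel]
    rwa [h3] at h2

/-- all pure root groups -/
theorem all_RG' (hexc : (∃ y : F, y ≠ 0 ∧ y ≠ 1) ∨ 3 ≤ finrank F E)
    (hg : ∃ g ∈ M, ¬ ∃ p q, g = ac p q) (a : E) (α : Dual F E) (b : Dual F W) (w : W) (h : α a = 0 ∨ b w = 0) :
    RG M (pt a b) (pf α w) := by
  have hE := T.hE
  have hEW := T.hEW
  have h0 := T.all_RG hexc hg
  by_cases ha : a = 0
  · rw [ha, map_zero, LinearMap.zero_apply]; exact RG_zero _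
  by_cases hb : b = 0
  · rw [hb, map_zero]; exact RG_zero _
  -- choices on the side of W
  have hW : ∀ (b : Dual F W) (w : W), b ≠ 0 → w ≠ 0 → ∃ (b' : Dual F W) (w' : W), b' w = 0 ∧ b w' = 0 ∧ b' w' = 1 := by
    intro b w hb hw
    obtain ⟨w', hw', hbw'⟩ := exists_ker_out (V := W) (by omega) b w
    obtain ⟨b', h1, h2⟩ := exists_dual1 hw'
    exact ⟨b', w', h2, hbw', h1⟩
  -- first extension
  have h1 : ∀ (a : E) (α : Dual F E) (b : Dual F W) (w : W), b w = 0 → RG M (pt a b) (pf α w) := by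
    intro a α b w hw
    by_cases hα : α a = 0
    · exact h0 a α b w hα hw
    by_cases hb : b = 0
    · rw [hb, map_zero]; exact RG_zero _
    by_cases hw0 : w = 0
    · have : pf α w = 0 := by
        apply LinearMap.ext
        intro v
        rw [pf_apply, hw0, map_zero, map_zero]; rfl
      rw [this]; exact RG_zero' _
    obtain ⟨b', w', hb'w, hbw', hb'w'⟩ := hW b w hb hw0
    obtain ⟨a', ha', hαa'⟩ := exists_ker hE α
    obtain ⟨α', hα'1, hα'0⟩ : ∃ α' : Dual F E, α' a' = 1 ∧ α' a = 0 := by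
      apply exists_dual1
      intro h3
      obtain ⟨s, rfl⟩ := Submodule.mem_span_singleton.1 h3
      have hs : s ≠ 0 := by rintro rfl; exact ha' (zero_smul _ _)
      rw [map_smul, smul_eq_mul] at hαa'
      exact hα ((mul_eq_zero.1 hαa').resolve_left hs)
    refine (h0 a' α b' w hαa' hb'w).comm (h0 a α' b w' hα'0 hbw') ?_ ?_
    · rw [pf_apply, pt_apply, hw, zero_smul, map_zero]
    · rw [pf_apply, pt_apply, hb'w', one_smul, hα'1]
      exact one_ne_zero
  rcases h with hα | hw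
  · by_cases hw : b w = 0
    · exact h1 a α b w hw
    have hw0 : w ≠ 0 := by rintro rfl; exact hw (map_zero b)
    obtain ⟨b', w', hb'w, hbw', hb'w'⟩ := hW b w hb hw0
    obtain ⟨α', hα'⟩ := exists_dual0 (F := F) ha
    refine (h1 a α b' w hb'w).comm (h1 a α' b w' hbw') ?_ ?_
    · rw [pf_apply, pt_apply, map_smul, hα, smul_zero]
    · rw [pf_apply, pt_apply, hb'w', one_smul, hα']
      exact one_ne_zero
  · exact h1 a α b w hw

/-- conclusion -/
theorem main (hexc : (∃ y : F, y ≠ 0 ∧ y ≠ 1) ∨ 3 ≤ finrank F E)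
    (hg : ∃ g ∈ M, ¬ ∃ p q, g = ac p q) (u : W →ₗ[F] E) (φ : Dual F (W →ₗ[F] E)) (h : φ u = 0) :
    tr u φ h ∈ M := by
  have hE := T.hE
  have hEW := T.hEW
  have h0 := T.all_RG' hexc hg
  have hpure : ∀ (a : E) (b : Dual F W), pt a b ∈ cenSL M := by
    intro a b φ hφ
    by_cases hb : b = 0
    · have : RG M (pt a b) φ := by
        rw [hb, map_zero]; exact RG_zero _
      exact this.mem
    obtain ⟨w₁, hw₁⟩ := exists_val hb
    let B := Module.finBasis F W
    obtain ⟨α₁, hα₁⟩ : ∃ α₁ : Dual F E, ∀ x, α₁ x = φ (pt x b) := ⟨φ ∘ₗ pt.flip b, fun x => rfl⟩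
    have hα : ∀ i, ∃ α : Dual F E, ∀ x, α x = φ (pt x (B.coord i)) := fun i => ⟨φ ∘ₗ pt.flip (B.coord i), fun x => rfl⟩
    choose α hα using hα
    have h1 : ∀ s : Finset (Fin (finrank F W)), RG M (pt a b) (∑ i ∈ s, pf (α i) (B i - b (B i) • w₁)) := by
      intro s
      induction s using Finset.induction_on with
      | empty => rw [Finset.sum_empty]; exact RG_zero' _
      | insert j s hj ih =>
        rw [Finset.sum_insert hj]
        refine (h0 a (α j) b _ (Or.inr ?_)).add_right ih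
        rw [map_sub, b.map_smul, hw₁, smul_eq_mul, mul_one, sub_self]
    have h2 : φ = pf α₁ w₁ + ∑ i, pf (α i) (B i - b (B i) • w₁) := by
      apply LinearMap.ext
      intro v
      rw [LinearMap.add_apply, LinearMap.sum_apply, pf_apply, hα₁]
      simp only [pf_apply, hα, map_sub, map_smul]
      have h3 : v = pt (v w₁) b + ∑ i, pt (v (B i) - b (B i) • v w₁) (B.coord i) := by
        apply LinearMap.ext
        intro z
        rw [LinearMap.add_apply, LinearMap.sum_apply, pt_apply]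
        simp only [pt_apply, Basis.coord_apply, smul_sub, Finset.sum_sub_distrib]
        have h4 : ∑ i, (B.repr z i) • v (B i) = v z := by
          conv_rhs => rw [← B.sum_repr z, map_sum]
          simp only [map_smul]
        have h5 : ∑ i, (B.repr z i) • b (B i) • v w₁ = b z • v w₁ := by
          conv_rhs => rw [← B.sum_repr z, map_sum]
          rw [Finset.sum_smul]
          simp only [map_smul, smul_eq_mul, mul_smul]
        rw [h4, h5]
        abel
      conv_lhs => rw [h3, map_add, map_sum]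
      simp only [map_sub, map_smul]
    have h3 : RG M (pt a b) (pf α₁ w₁ + ∑ i, pf (α i) (B i - b (B i) • w₁)) :=
      (h0 a α₁ b w₁ (Or.inl (by rw [hα₁, hφ]))).add_right (h1 _)
    rw [← h2] at h3
    exact h3.mem
  obtain ⟨n, a, b, rfl⟩ := span_pt u
  have h4 : ∀ s : Finset (Fin n), ∑ i ∈ s, pt (a i) (b i) ∈ cenSL M := by
    intro s
    induction s using Finset.induction_on with
    | empty =>
      intro φ h
      have : tr (∑ i ∈ (∅ : Finset (Fin n)), pt (a i) (b i)) φ h = 1 := by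
        apply LinearEquiv.ext
        intro v
        rw [tr_apply, Finset.sum_empty, smul_zero, add_zero]; rfl
      rw [this]; exact one_mem _
    | insert j s hj ih =>
      rw [Finset.sum_insert hj]
      exact cenSL_add (hpure _ _) ih
  exact h4 Finset.univ φ h

end TM

end Cfsg.Agent.Lib.TenSLH94
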