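import Mathlib
import Cfsg.Prelude.Def_GeometricClasses
import Cfsg.Agent.Lib.GeoBridge
import Cfsg.Agent.Lib.TensorGeo
import Cfsg.Agent.Lib.TenSL6H94

set_option autoImplicit false
set_option linter.unusedSectionVars false
set_option linter.unusedSimpArgs false
set_option linter.unusedVariables false

/-!
Bridge: tensor product subgroups and pairs acting on `W →ₗ[F] E`.
-/

namespace Cfsg.Agent.Lib.TenBrH94

open Module Cfsg Cfsg.Geo Cfsg.Agent.Lib.GeoBridge Cfsg.Agent.Lib.TensorGeo Cfsg.Agent.Lib.TenSLH94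
  Cfsg.Agent.Lib.SLMax
open scoped MatrixGroups Matrix Kronecker

variable {ι : Type} [Fintype ι] [DecidableEq ι] {F : Type*} [Field F] {n₁ n₂ : ℕ}

/-- functionals from vectors -/
noncomputable def be (y : Fin n₂ → F) : Dual F (Fin n₂ → F) :=
  { toFun := fun w => y ⬝ᵥ w
    map_add' := fun w w' => dotProduct_add _ _ _
    map_smul' := fun c w => dotProduct_smul _ _ _ }

theorem be_apply (y w : Fin n₂ → F) : be y w = y ⬝ᵥ w := rfl

theorem be_surj (β : Dual F (Fin n₂ → F)) : ∃ y, β = be y := by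
  refine ⟨fun j => β (Pi.single j 1), LinearMap.ext fun w => ?_⟩
  rw [be_apply, dotProduct]
  conv_lhs => rw [pi_eq_sum_univ w]
  rw [map_sum]
  apply Finset.sum_congr rfl
  intro j _
  rw [map_smul, smul_eq_mul, mul_comm]
  congr 2
  ext i
  rw [Pi.single_apply]
  simp only [eq_comm]

variable (e : ι ≃ Fin n₁ × Fin n₂) (P : GL ι F)

/-- the identification -/
noncomputable def Th : ((Fin n₂ → F) →ₗ[F] (Fin n₁ → F)) ≃ₗ[F] (ι → F) :=
  LinearMap.toMatrix' ≪≫ₗ (Matrix.ofLinearEquiv F).symm ≪≫ₗ (LinearEquiv.curry F F (Fin n₁) (Fin n₂)).symm ≪≫ₗ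
    LinearEquiv.funCongrLeft F F e ≪≫ₗ le P

theorem Th_pt (x : Fin n₁ → F) (y : Fin n₂ → F) : Th e P (pt x (be y)) = tp e P x y := by
  show (P : Matrix ι ι F) *ᵥ _ = (P : Matrix ι ι F) *ᵥ _
  congr 1
  ext i
  show LinearMap.toMatrix' (pt x (be y)) (e i).1 (e i).2 = x (e i).1 * y (e i).2
  rw [LinearMap.toMatrix'_apply, pt_apply, be_apply]
  simp [mul_comm]

/-- conjugation by the identification -/
noncomputable def phi : (((Fin n₂ → F) →ₗ[F] (Fin n₁ → F)) ≃ₗ[F] ((Fin n₂ → F) →ₗ[F] (Fin n₁ → F))) →*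
    ((ι → F) ≃ₗ[F] (ι → F)) :=
  MonoidHom.mk' (fun g => (Th e P).symm ≪≫ₗ g ≪≫ₗ Th e P) (fun g h => by
    apply LinearEquiv.ext
    intro x
    show Th e P (g (h _)) = Th e P (g ((Th e P).symm (Th e P (h _))))
    rw [LinearEquiv.symm_apply_apply])

theorem phi_apply (g : ((Fin n₂ → F) →ₗ[F] (Fin n₁ → F)) ≃ₗ[F] ((Fin n₂ → F) →ₗ[F] (Fin n₁ → F))) (x : ι → F) :
    phi e P g x = Th e P (g ((Th e P).symm x)) := rfl

theorem phi_surj (g : (ι → F) ≃ₗ[F] (ι → F)) : ∃ h, phi e P h = g := by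
  refine ⟨Th e P ≪≫ₗ g ≪≫ₗ (Th e P).symm, LinearEquiv.ext fun x => ?_⟩
  rw [phi_apply]
  show Th e P ((Th e P).symm (g (Th e P ((Th e P).symm x)))) = g x
  rw [LinearEquiv.apply_symm_apply, LinearEquiv.apply_symm_apply]

theorem phi_inj : Function.Injective (phi e P) := by
  intro g h hgh
  apply LinearEquiv.ext
  intro x
  have := congrArg (fun k : (ι → F) ≃ₗ[F] (ι → F) => (Th e P).symm (k (Th e P x))) hgh
  simpa [phi_apply] using this

theorem phi_det (g : ((Fin n₂ → F) →ₗ[F] (Fin n₁ → F)) ≃ₗ[F] ((Fin n₂ → F) →ₗ[F] (Fin n₁ → F))) :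
    LinearMap.det ((phi e P g : (ι → F) ≃ₗ[F] (ι → F)) : (ι → F) →ₗ[F] (ι → F)) =
      LinearMap.det (g : ((Fin n₂ → F) →ₗ[F] (Fin n₁ → F)) →ₗ[F] ((Fin n₂ → F) →ₗ[F] (Fin n₁ → F))) := by
  rw [← LinearMap.det_conj _ (Th e P)]
  rfl

/-- the transpose inverse -/
noncomputable def ti (b : GL (Fin n₂) F) : (Fin n₂ → F) ≃ₗ[F] (Fin n₂ → F) :=
  (LinearEquiv.ofLinearMap (Matrix.toLin' (b : Matrix (Fin n₂) (Fin n₂) F)ᵀ)
    (Matrix.toLin' ((b⁻¹ : GL (Fin n₂) F) : Matrix (Fin n₂) (Fin n₂) F)ᵀ) (by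
      rw [← Matrix.toLin'_mul, ← Matrix.transpose_mul, ← Units.val_mul, inv_mul_cancel, Units.val_one,
        Matrix.transpose_one, Matrix.toLin'_one]) (by
      rw [← Matrix.toLin'_mul, ← Matrix.transpose_mul, ← Units.val_mul, mul_inv_cancel, Units.val_one,
        Matrix.transpose_one, Matrix.toLin'_one])).symm

theorem be_ti (b : GL (Fin n₂) F) (y w : Fin n₂ → F) :
    be y ((ti b).symm w) = be ((b : Matrix (Fin n₂) (Fin n₂) F) *ᵥ y) w := by
  rw [be_apply, be_apply]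
  show y ⬝ᵥ ((b : Matrix (Fin n₂) (Fin n₂) F)ᵀ *ᵥ w) = _
  rw [Matrix.mulVec_transpose, dotProduct_comm, ← Matrix.dotProduct_mulVec, dotProduct_comm]

theorem phi_ac (a : GL (Fin n₁) F) (b : GL (Fin n₂) F) (x : Fin n₁ → F) (y : Fin n₂ → F) :
    phi e P (ac (le a) (ti b)) (tp e P x y) =
      tp e P ((a : Matrix (Fin n₁) (Fin n₁) F) *ᵥ x) ((b : Matrix (Fin n₂) (Fin n₂) F) *ᵥ y) := by
  rw [← Th_pt, ← Th_pt, phi_apply, LinearEquiv.symm_apply_apply]
  congr 1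
  apply LinearMap.ext
  intro w
  rw [ac_apply, pt_apply, pt_apply, map_smul, be_ti]
  rfl

theorem exists_ti (q : (Fin n₂ → F) ≃ₗ[F] (Fin n₂ → F)) : ∃ b, ti b = q := by
  obtain ⟨g, hg⟩ : ∃ g : GL (Fin n₂) F, le g = q.symm := ⟨le.symm q.symm, MulEquiv.apply_symm_apply _ _⟩
  refine ⟨⟨(g : Matrix (Fin n₂) (Fin n₂) F)ᵀ, ((g⁻¹ : GL (Fin n₂) F) : Matrix (Fin n₂) (Fin n₂) F)ᵀ, ?_, ?_⟩, ?_⟩
  · rw [← Matrix.transpose_mul, ← Units.val_mul, inv_mul_cancel, Units.val_one, Matrix.transpose_one]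
  · rw [← Matrix.transpose_mul, ← Units.val_mul, mul_inv_cancel, Units.val_one, Matrix.transpose_one]
  · apply LinearEquiv.symm_bijective.injective
    apply LinearEquiv.ext
    intro w
    rw [← hg]
    show (((g : Matrix (Fin n₂) (Fin n₂) F)ᵀ)ᵀ) *ᵥ w = (g : Matrix (Fin n₂) (Fin n₂) F) *ᵥ w
    rw [Matrix.transpose_transpose]

theorem det_ti (b : GL (Fin n₂) F) (h : LinearMap.det (ti b : (Fin n₂ → F) →ₗ[F] (Fin n₂ → F)) = 1) :
    (b : Matrix (Fin n₂) (Fin n₂) F).det = 1 := by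
  have h1 : ((ti b : (Fin n₂ → F) ≃ₗ[F] (Fin n₂ → F)) : (Fin n₂ → F) →ₗ[F] (Fin n₂ → F)) ∘ₗ
      Matrix.toLin' (b : Matrix (Fin n₂) (Fin n₂) F)ᵀ = LinearMap.id := by
    apply LinearMap.ext
    intro w
    exact (ti b).apply_symm_apply w
  have h2 := congrArg LinearMap.det h1
  rw [LinearMap.det_comp, h, one_mul, LinearMap.det_id, LinearMap.det_toLin', Matrix.det_transpose] at h2
  exact h2

theorem det_phi_ac (a : GL (Fin n₁) F) (b : GL (Fin n₂) F) (ha : (a : Matrix (Fin n₁) (Fin n₁) F).det = 1)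
    (hb : (b : Matrix (Fin n₂) (Fin n₂) F).det = 1) :
    LinearMap.det ((phi e P (ac (le a) (ti b)) : (ι → F) ≃ₗ[F] (ι → F)) : (ι → F) →ₗ[F] (ι → F)) = 1 := by
  have h1 : ((a : Matrix (Fin n₁) (Fin n₁) F) ⊗ₖ (b : Matrix (Fin n₂) (Fin n₂) F)) *
      (((a⁻¹ : GL (Fin n₁) F) : Matrix (Fin n₁) (Fin n₁) F) ⊗ₖ ((b⁻¹ : GL (Fin n₂) F) : Matrix (Fin n₂) (Fin n₂) F)) = 1 := by
    rw [← Matrix.mul_kronecker_mul, ← Units.val_mul, ← Units.val_mul, mul_inv_cancel, mul_inv_cancel,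
      Units.val_one, Units.val_one, Matrix.one_kronecker_one]
  have h2 : (((a⁻¹ : GL (Fin n₁) F) : Matrix (Fin n₁) (Fin n₁) F) ⊗ₖ ((b⁻¹ : GL (Fin n₂) F) : Matrix (Fin n₂) (Fin n₂) F)) *
      ((a : Matrix (Fin n₁) (Fin n₁) F) ⊗ₖ (b : Matrix (Fin n₂) (Fin n₂) F)) = 1 := by
    rw [← Matrix.mul_kronecker_mul, ← Units.val_mul, ← Units.val_mul, inv_mul_cancel, inv_mul_cancel,
      Units.val_one, Units.val_one, Matrix.one_kronecker_one]
  let k : GL (Fin n₁ × Fin n₂) F := ⟨_, _, h1, h2⟩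
  have h3 : phi e P (ac (le a) (ti b)) = le (P * glReindex e.symm k * P⁻¹) := by
    apply ext_tp (e := e) (P := P)
    intro x y
    rw [phi_ac, le_apply, tp, tp, Matrix.mulVec_mulVec, ← Units.val_mul, inv_mul_cancel_right, Units.val_mul,
      ← Matrix.mulVec_mulVec, reindex_mulVec]
    show _ = (P : Matrix ι ι F) *ᵥ ((((a : Matrix (Fin n₁) (Fin n₁) F) ⊗ₖ (b : Matrix (Fin n₂) (Fin n₂) F)) *ᵥ _) ∘ e)
    rw [kron_mulVec]
  rw [h3]
  have h4 : ((le (P * glReindex e.symm k * P⁻¹) : (ι → F) ≃ₗ[F] (ι → F)) : (ι → F) →ₗ[F] (ι → F)) =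
      Matrix.toLin' ((P * glReindex e.symm k * P⁻¹ : GL ι F) : Matrix ι ι F) := rfl
  rw [h4, LinearMap.det_toLin']
  have h5 : Matrix.GeneralLinearGroup.det (P * glReindex e.symm k * P⁻¹) = Matrix.GeneralLinearGroup.det (glReindex e.symm k) := by
    rw [map_mul, map_mul, map_inv, mul_inv_cancel_comm]
  have h6 := congrArg Units.val h5
  have h7 : ((Matrix.GeneralLinearGroup.det (P * glReindex e.symm k * P⁻¹) : Fˣ) : F) =
    ((P * glReindex e.symm k * P⁻¹ : GL ι F) : Matrix ι ι F).det := rfl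
  rw [← h7, h6]
  show (Matrix.reindexAlgEquiv F F e.symm ((a : Matrix (Fin n₁) (Fin n₁) F) ⊗ₖ (b : Matrix (Fin n₂) (Fin n₂) F))).det = 1
  rw [Matrix.det_reindexAlgEquiv, Matrix.det_kronecker, ha, hb, one_pow, one_pow, one_mul]

theorem mem_iff (g : (ι → F) ≃ₗ[F] (ι → F)) : le.symm g ∈ tensorProductSubgroup n₁ n₂ e P ↔
    ∃ p q, g = phi e P (ac p q) := by
  rw [mem_tensor_iff, MulEquiv.apply_symm_apply]
  constructor
  · rintro ⟨a, b, h⟩
    refine ⟨le a, ti b, ?_⟩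
    apply ext_tp (e := e) (P := P)
    intro x y
    rw [h, phi_ac]
  · rintro ⟨p, q, rfl⟩
    obtain ⟨b, rfl⟩ := exists_ti q
    refine ⟨le.symm p, b, fun x y => ?_⟩
    rw [← phi_ac, MulEquiv.apply_symm_apply]

/-- the abstract situation -/
theorem tm_of (h1 : 2 ≤ n₁) (h12 : n₁ < n₂) {M : Subgroup ((ι → F) ≃ₗ[F] (ι → F))}
    (hdet : ∀ g ∈ M, LinearMap.det ((g : (ι → F) ≃ₗ[F] (ι → F)) : (ι → F) →ₗ[F] (ι → F)) = 1)
    (hH : ∀ g : GL ι F, g ∈ tensorProductSubgroup n₁ n₂ e P → g ∈ specialLinear ι F → le g ∈ M) :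
    TM (M.comap (phi e P)) := by
  refine ⟨by rw [finrank_fintype_fun_eq_card, Fintype.card_fin]; exact h1, by
    rw [finrank_fintype_fun_eq_card, finrank_fintype_fun_eq_card, Fintype.card_fin, Fintype.card_fin]; exact h12,
    fun m hm => ?_, fun p q h => ?_, fun p q hp hq => ?_⟩
  · rw [← phi_det e P]
    exact hdet _ hm
  · show phi e P (ac p q) ∈ M
    have := hH (le.symm (phi e P (ac p q))) ((mem_iff e P _).2 ⟨p, q, rfl⟩) (by
      rw [mem_specialLinear_iff, MulEquiv.apply_symm_apply, phi_det]; exact h)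
    rwa [MulEquiv.apply_symm_apply] at this
  · show phi e P (ac p q) ∈ M
    have := hH (le.symm (phi e P (ac p q))) ((mem_iff e P _).2 ⟨p, q, rfl⟩) (by
      rw [mem_specialLinear_iff, MulEquiv.apply_symm_apply]
      obtain ⟨b, rfl⟩ := exists_ti q
      have h3 := det_ti b hq
      obtain ⟨a, rfl⟩ : ∃ a : GL (Fin n₁) F, le a = p := ⟨le.symm p, MulEquiv.apply_symm_apply _ _⟩
      refine det_phi_ac e P a b ?_ h3
      have h4 : ((le a : (Fin n₁ → F) ≃ₗ[F] (Fin n₁ → F)) : (Fin n₁ → F) →ₗ[F] (Fin n₁ → F)) =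
        Matrix.toLin' (a : Matrix (Fin n₁) (Fin n₁) F) := rfl
      rwa [h4, LinearMap.det_toLin'] at hp)
    rwa [MulEquiv.apply_symm_apply] at this

/-- transvections are not pairs -/
theorem tr_not_pair {E W : Type*} [AddCommGroup E] [Module F E] [FiniteDimensional F E]
    [AddCommGroup W] [Module F W] [FiniteDimensional F W] (hE : 2 ≤ finrank F E) (hEW : finrank F E < finrank F W)
    {u : W →ₗ[F] E} {φ : Dual F (W →ₗ[F] E)} (hu : u ≠ 0) (hφ : φ ≠ 0) (h : φ u = 0) :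
    ¬ ∃ p q, tr u φ h = ac p q := by
  rintro ⟨p, q, hpq⟩
  have h1 := finrank_span1 (F := F) u
  obtain ⟨b, hb, hD⟩ := ac_small (p := p) (q := q) (D := Submodule.span F {u}) (by omega) hEW (by
    intro v
    rw [← hpq, tr_apply, add_sub_cancel_left]
    exact Submodule.smul_mem _ _ (Submodule.mem_span_singleton_self u)) (by omega) (by
    rw [← hpq]
    intro h2
    obtain ⟨v, hv⟩ := exists_val hφ
    have h3 : tr u φ h v = v := by rw [h2]; rfl
    rw [tr_apply, hv, one_smul, add_eq_left] at h3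
    exact hu h3)
  have h2 := finrank_sp (E := E) hb
  rw [← hD] at h2
  omega

end Cfsg.Agent.Lib.TenBrH94
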