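import Cfsg.Agent.Lib.PrimeOrd2
import Cfsg.Agent.Lib.ExtField5
import Cfsg.Agent.Lib.FieldComm
import Cfsg.Agent.Lib.ElusiveUni

/-! # Fixed spaces of Kronecker products -/

set_option autoImplicit false

namespace Cfsg.Agent.Lib.TenFix

open Cfsg.Agent.Lib.InvSub Cfsg.Agent.Lib.PrimeOrd Module Polynomial Matrix
open scoped Kronecker

section hom

variable {F : Type*} [Field F] {X Y : Type*} [AddCommGroup X] [Module F X] [FiniteDimensional F X]
  [AddCommGroup Y] [Module F Y] [FiniteDimensional F Y]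

/-- a space of intertwiners is bounded by the number of generators -/
theorem finrank_le {g₁ : Module.End F X} {g₂ : Module.End F Y} {U : Submodule F X}
    (hU : ∀ K : Submodule F X, U ≤ K → Inv g₁ K → K = ⊤) {W : Submodule F (X →ₗ[F] Y)}
    (hW : ∀ M ∈ W, M ∘ₗ g₁ = g₂ ∘ₗ M) : finrank F W ≤ finrank F U * finrank F Y := by
  let ρ : W →ₗ[F] (U →ₗ[F] Y) := (LinearMap.lcomp F Y U.subtype) ∘ₗ W.subtype
  have hρ : Function.Injective ρ := by
    rw [← LinearMap.ker_eq_bot, LinearMap.ker_eq_bot']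
    rintro ⟨M, hM⟩ h
    have h1 : ∀ u ∈ U, M u = 0 := by
      intro u hu
      have := congrArg (fun f : U →ₗ[F] Y => f ⟨u, hu⟩) h
      exact this
    have h2 : LinearMap.ker M = ⊤ := by
      apply hU
      · intro u hu
        exact h1 u hu
      · intro v hv
        rw [LinearMap.mem_ker] at hv ⊢
        have := congrArg (fun f : X →ₗ[F] Y => f v) (hW M hM)
        simp only [LinearMap.comp_apply] at this
        rw [this, hv, map_zero]
    apply Subtype.ext
    exact LinearMap.ker_eq_top.1 h2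
  have := LinearMap.finrank_le_finrank_of_injective hρ
  rwa [finrank_linearMap] at this

/-- a nonscalar endomorphism has a noninvariant hyperplane -/
theorem exists_hyperplane {g : Module.End F X} (hg : ∀ c : F, g ≠ c • (1 : Module.End F X)) :
    ∃ U : Submodule F X, finrank F U + 1 = finrank F X ∧ ∀ K : Submodule F X, U ≤ K → Inv g K → K = ⊤ := by
  -- a functional which is not an eigenvector of the transpose
  have hex : ∃ φ : Module.Dual F X, ∀ c : F, φ ∘ₗ g ≠ c • φ := by
    by_contra hcon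
    push Not at hcon
    -- every functional is an eigenvector
    have h1 : ∀ φ : Module.Dual F X, ∃ c : F, φ ∘ₗ g = c • φ := hcon
    have h2 : ∃ c : F, ∀ φ : Module.Dual F X, φ ∘ₗ g = c • φ := by
      have hlin : ∃ c : F, (Module.Dual.transpose (R := F) g : Module.Dual F X →ₗ[F] Module.Dual F X) = c • (1 : Module.End F (Module.Dual F X)) := by
        by_contra hc
        push Not at hc
        obtain ⟨φ, hφ⟩ : ∃ φ : Module.Dual F X, ∀ c : F, (Module.Dual.transpose (R := F) g) φ ≠ c • φ := by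
          by_contra hc'
          push Not at hc'
          have := (LinearMap.exists_eq_smul_id_of_forall_notLinearIndependent (R := F) (V := Module.Dual F X)
            (f := (Module.Dual.transpose (R := F) g)) (fun φ => by
              intro hli
              obtain ⟨c, hc⟩ := hc' φ
              rw [hc] at hli
              have := LinearIndependent.pair_iff.1 hli c (-1) (by simp)
              simp at this))
          obtain ⟨c, hc2⟩ := this
          exact hc c hc2
        obtain ⟨c, hc⟩ := h1 φ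
        exact hφ c hc
      obtain ⟨c, hc⟩ := hlin
      exact ⟨c, fun φ => congrArg (fun f : Module.Dual F X →ₗ[F] Module.Dual F X => f φ) hc⟩
    obtain ⟨c, hc⟩ := h2
    apply hg c
    ext v
    have : ∀ φ : Module.Dual F X, φ (g v - c • v) = 0 := by
      intro φ
      have := congrArg (fun f : X →ₗ[F] F => f v) (hc φ)
      simp only [LinearMap.comp_apply, LinearMap.smul_apply, smul_eq_mul] at this
      rw [map_sub, map_smul, this, smul_eq_mul, sub_self]
    exact sub_eq_zero.1 ((Module.forall_dual_apply_eq_zero_iff F _).1 this)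
  obtain ⟨φ, hφ⟩ := hex
  have hφ0 : φ ≠ 0 := by
    rintro rfl
    exact hφ 0 (by simp)
  refine ⟨LinearMap.ker φ, ?_, ?_⟩
  · have h1 := LinearMap.finrank_range_add_finrank_ker φ
    have h2 : LinearMap.range φ = ⊤ := LinearMap.range_eq_top.2 (LinearMap.surjective hφ0)
    rw [h2, finrank_top, finrank_self] at h1
    omega
  · intro K hK hinv
    by_contra hne
    -- `K = ker φ`
    have hKe : K = LinearMap.ker φ := by
      apply le_antisymm _ hK
      intro v hv
      by_contra hv'
      rw [LinearMap.mem_ker] at hv'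
      apply hne
      rw [eq_top_iff]
      intro w _
      have : w = (w - (φ w / φ v) • v) + (φ w / φ v) • v := by abel
      rw [this]
      refine K.add_mem (hK ?_) (K.smul_mem _ hv)
      rw [LinearMap.mem_ker, map_sub, map_smul, smul_eq_mul, div_mul_cancel₀ _ hv', sub_self]
    -- then `φ ∘ g` vanishes on `ker φ`, hence a multiple
    have h1 : LinearMap.ker φ ≤ LinearMap.ker (φ ∘ₗ g) := by
      intro v hv
      rw [← hKe] at hv
      have := hinv v hv
      rw [hKe] at this
      exact this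
    obtain ⟨v, hv⟩ : ∃ v, φ v ≠ 0 := by
      by_contra h
      push Not at h
      exact hφ0 (LinearMap.ext h)
    apply hφ (φ (g v) / φ v)
    ext w
    have h2 : w - (φ w / φ v) • v ∈ LinearMap.ker φ := by
      rw [LinearMap.mem_ker, map_sub, map_smul, smul_eq_mul, div_mul_cancel₀ _ hv, sub_self]
    have h3 := h1 h2
    rw [LinearMap.mem_ker, map_sub, map_smul, smul_eq_mul, LinearMap.comp_apply, LinearMap.comp_apply, sub_eq_zero] at h3
    rw [LinearMap.comp_apply, h3, LinearMap.smul_apply, smul_eq_mul]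
    field_simp

end hom

section kron

variable {F : Type*} [Field F] {ι : Type} [Fintype ι] [DecidableEq ι] {a b : ℕ}

/-- the coordinates of a vector as a matrix -/
def unvec (e : ι ≃ Fin a × Fin b) : (ι → F) ≃ₗ[F] Matrix (Fin b) (Fin a) F where
  toFun v := Matrix.of fun j i => v (e.symm (i, j))
  invFun M := fun k => M (e k).2 (e k).1
  map_add' u v := by ext j i; rfl
  map_smul' c v := by ext j i; rfl
  left_inv v := by ext k; simp
  right_inv M := by ext j i; simp

/-- `F^ι` as the space of linear maps `F^a → F^b` -/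
def phi (e : ι ≃ Fin a × Fin b) (P : GL ι F) : (ι → F) ≃ₗ[F] ((Fin a → F) →ₗ[F] (Fin b → F)) :=
  (Matrix.toLin'OfInv (M := P.1) (M' := (P⁻¹ : GL ι F).1) (by rw [← Units.val_mul, mul_inv_cancel]; rfl)
    (by rw [← Units.val_mul, inv_mul_cancel]; rfl)) ≪≫ₗ (unvec e) ≪≫ₗ Matrix.toLin'

theorem phi_apply (e : ι ≃ Fin a × Fin b) (P : GL ι F) (v : ι → F) :
    phi e P v = Matrix.toLin' (unvec e ((P⁻¹ : GL ι F).1 *ᵥ v)) := rfl

omit [DecidableEq ι] in
theorem unvec_kron (e : ι ≃ Fin a × Fin b) (A : Matrix (Fin a) (Fin a) F) (B : Matrix (Fin b) (Fin b) F) (v : ι → F) :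
    unvec e (((A ⊗ₖ B).submatrix e e) *ᵥ v) = B * unvec e v * Aᵀ := by
  have h := Matrix.kronecker_mulVec_vec B (unvec e v) A
  ext j i
  have h1 := congrFun h (i, j)
  rw [Matrix.vec] at h1
  rw [← h1]
  show ((A ⊗ₖ B).submatrix e e *ᵥ v) (e.symm (i, j)) = _
  rw [Matrix.mulVec, Matrix.mulVec, dotProduct, dotProduct]
  rw [← Equiv.sum_comp e]
  apply Finset.sum_congr rfl
  intro k _
  simp only [Matrix.submatrix_apply, Equiv.apply_symm_apply]
  congr 1
  show v k = (unvec e v) (e k).2 (e k).1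
  exact (congrFun ((unvec (F := F) e).left_inv v) k).symm

/-- membership in the stabiliser of a tensor decomposition -/
theorem mem_iff (e : ι ≃ Fin a × Fin b) (P : GL ι F) (x : GL ι F) :
    x ∈ Cfsg.Geo.tensorProductSubgroup a b e P ↔ ∃ (A : GL (Fin a) F) (B : GL (Fin b) F),
      ∀ v, phi e P (x.1 *ᵥ v) = Matrix.toLin' B.1 ∘ₗ phi e P v ∘ₗ Matrix.toLin' (A.1)ᵀ := by
  have key : ∀ (A : GL (Fin a) F) (B : GL (Fin b) F) (y : GL ι F),
      (y.1 = (A.1 ⊗ₖ B.1).submatrix e e) → ∀ v, phi e P ((P * y * P⁻¹).1 *ᵥ v) =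
        Matrix.toLin' B.1 ∘ₗ phi e P v ∘ₗ Matrix.toLin' (A.1)ᵀ := by
    intro A B y hy v
    rw [phi_apply, phi_apply]
    have h1 : (P⁻¹ : GL ι F).1 *ᵥ ((P * y * P⁻¹).1 *ᵥ v) = y.1 *ᵥ ((P⁻¹ : GL ι F).1 *ᵥ v) := by
      rw [Matrix.mulVec_mulVec, Matrix.mulVec_mulVec, ← Units.val_mul, ← Units.val_mul]
      congr 2
      group
    rw [h1, hy, unvec_kron, Matrix.toLin'_mul, Matrix.toLin'_mul, LinearMap.comp_assoc]
  constructor
  · rintro ⟨y, ⟨g, ⟨A, B, hg⟩, rfl⟩, rfl⟩
    refine ⟨A, B, ?_⟩
    apply key A B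
    rw [← hg]
    rfl
  · rintro ⟨A, B, hAB⟩
    let g : GL (Fin a × Fin b) F := ⟨A.1 ⊗ₖ B.1, (A⁻¹).1 ⊗ₖ (B⁻¹).1, by
      rw [← Matrix.mul_kronecker_mul, ← Units.val_mul, ← Units.val_mul, mul_inv_cancel, mul_inv_cancel, Units.val_one,
        Units.val_one, Matrix.one_kronecker_one], by
      rw [← Matrix.mul_kronecker_mul, ← Units.val_mul, ← Units.val_mul, inv_mul_cancel, inv_mul_cancel, Units.val_one,
        Units.val_one, Matrix.one_kronecker_one]⟩
    let y : GL ι F := Cfsg.Geo.glReindex (F := F) e.symm g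
    have hy : y.1 = (A.1 ⊗ₖ B.1).submatrix e e := rfl
    have h2 := key A B y hy
    have hx : x = P * y * P⁻¹ := by
      apply Units.ext
      apply Matrix.toLin'.injective
      ext1 v
      ext1
      rw [← (phi e P).injective.eq_iff]
      · rw [LinearMap.comp_apply, LinearMap.comp_apply, Matrix.toLin'_apply, Matrix.toLin'_apply, hAB, h2]
    refine ⟨y, ⟨g, ⟨A, B, rfl⟩, rfl⟩, hx.symm⟩

end kron

end Cfsg.Agent.Lib.TenFix
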