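import Mathlib
import Cfsg.Agent.Lib.TenSL4H94
import Cfsg.Agent.Lib.OrthMax
import Cfsg.Agent.Lib.OrthDecH94
import Cfsg.Agent.Lib.OrthNd
import Cfsg.Agent.Lib.OrthPoint

/-!
# Overgroups of `O ⊗ O` in orthogonal groups: definitions (helper46)
-/

set_option autoImplicit false
set_option linter.unusedSectionVars false
set_option linter.unusedSimpArgs false
set_option linter.unusedVariables false

namespace Cfsg.Agent.Lib.TenOO

open QuadraticMap Module Cfsg.Agent.Lib.Quad Cfsg.Agent.Lib.OrthMax Cfsg.Agent.Lib.OrthNd Cfsg.Agent.Lib.TenSLH94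

variable {F E W : Type*} [Field F] [AddCommGroup E] [Module F E] [FiniteDimensional F E]
  [AddCommGroup W] [Module F W] [FiniteDimensional F W]

/-- the tensor `a ⊗ b` as a map `W → E` -/
noncomputable def tb (QW : QuadraticForm F W) (a : E) (b : W) : W →ₗ[F] E := pt a (polarBilin QW b)

theorem tb_apply (QW : QuadraticForm F W) (a : E) (b w : W) : tb QW a b w = polar QW b w • a := rfl

/-- the action of a Siegel element of the second factor -/
noncomputable def SgV (QW : QuadraticForm F W) (b e : W) (v : W →ₗ[F] E) : W →ₗ[F] E :=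
  v + tb QW (v b) e - tb QW (v e) b - QW e • tb QW (v b) b

/-- long root of the second factor: `1 ⊗ (b ∧ c)` -/
noncomputable def chi (QW : QuadraticForm F W) (b c : W) : Module.End F (W →ₗ[F] E) where
  toFun v := tb QW (v b) c - tb QW (v c) b
  map_add' u v := LinearMap.ext fun w => by
    simp only [tb_apply, LinearMap.add_apply, LinearMap.sub_apply, smul_add]; abel
  map_smul' t v := LinearMap.ext fun w => by
    simp only [tb_apply, LinearMap.smul_apply, LinearMap.sub_apply, RingHom.id_apply, smul_sub, smul_comm t]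

theorem chi_apply (QW : QuadraticForm F W) (b c : W) (v : W →ₗ[F] E) :
    chi QW b c v = tb QW (v b) c - tb QW (v c) b := rfl

/-- elements of the unipotent radical of the stabiliser of `E ⊗ b` -/
def Tv (QW : QuadraticForm F W) (b : W) (r : (W →ₗ[F] E) ≃ₗ[F] (W →ₗ[F] E)) : Prop :=
  (∀ a, r (tb QW a b) = tb QW a b) ∧ ∀ v : W →ₗ[F] E, v b = 0 → ∃ a, r v = v + tb QW a b

/-- `b, c` span a totally singular line -/
def Ln (QW : QuadraticForm F W) (b c : W) : Prop :=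
  QW b = 0 ∧ QW c = 0 ∧ polar QW b c = 0 ∧ LinearIndependent F ![b, c]

/-- the situation -/
structure TO (QE : QuadraticForm F E) (QW : QuadraticForm F W) (Q : QuadraticForm F (W →ₗ[F] E))
    (M : Subgroup ((W →ₗ[F] E) ≃ₗ[F] (W →ₗ[F] E))) : Prop where
  h2 : (2 : F) ≠ 0
  ndE : Nd QE
  ndW : Nd QW
  hE : 3 ≤ finrank F E
  hW : 5 ≤ finrank F W
  hEW : finrank F E < finrank F W
  hodd : Odd (finrank F E) ∨ Odd (finrank F W)
  hex : 4 ≤ finrank F E ∨ ∃ s : F, s ≠ 0 ∧ s ≠ 1 ∧ s ≠ -1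
  h4 : finrank F E = 4 → ∀ x y : E, QE x = 0 → QE y = 0 → polar QE x y = 0 → x ≠ 0 → ∃ c : F, y = c • x
  pol : ∀ (a : E) (b : W) (v : W →ₗ[F] E), polar Q (tb QW a b) v = polar QE (v b) a
  hM : M ≤ O Q
  tB : ∀ b e : W, QW b = 0 → polar QW b e = 0 → ∃ s ∈ M, ∀ v, s v = SgV QW b e v
  tA : ∀ a e : E, QE a = 0 → polar QE a e = 0 → ∃ s ∈ M, ∀ v : W →ₗ[F] E, s v = (siegMap QE a e) ∘ₗ v

/-- Case II: the overgroup has no extra elements in the radicals -/
def II (QW : QuadraticForm F W) (M : Subgroup ((W →ₗ[F] E) ≃ₗ[F] (W →ₗ[F] E))) : Prop :=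
  ∀ b : W, b ≠ 0 → QW b = 0 → ∀ r ∈ M, Tv QW b r → ∃ e, polar QW b e = 0 ∧ ∀ v, r v = SgV QW b e v

/-- elements mapping `E ⊗ b` to `E ⊗ b'` are pairs -/
def FixF (QW : QuadraticForm F W) (M : Subgroup ((W →ₗ[F] E) ≃ₗ[F] (W →ₗ[F] E))) : Prop :=
  ∀ g ∈ M, ∀ b b' : W, b ≠ 0 → QW b = 0 → b' ≠ 0 → QW b' = 0 → (∀ x, ∃ x', g (tb QW x b) = tb QW x' b') →
    ∃ p q, g = ac p q

/-- a quadratic root element -/
structure Rt (Q : QuadraticForm F (W →ₗ[F] E)) (M : Subgroup ((W →ₗ[F] E) ≃ₗ[F] (W →ₗ[F] E)))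
    (r : Module.End F (W →ₗ[F] E)) : Prop where
  sq : ∀ v, r (r v) = 0
  me : ∀ t : F, ∃ g ∈ M, ∀ v, g v = v + t • r v
  sk : ∀ u v, polar Q (r u) v = - polar Q u (r v)
  rk : finrank F (LinearMap.range r) = 2 * finrank F E

/-- scalar type -/
def Sca (QW : QuadraticForm F W) (r : Module.End F (W →ₗ[F] E)) (b c : W) : Prop :=
  ∃ σ : F, ∀ x : E, chi QW b c (r (tb QW x b)) = σ • tb QW x b ∧ chi QW b c (r (tb QW x c)) = σ • tb QW x c

/-- even type: an involution -/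
def Ivo (QW : QuadraticForm F W) (M : Subgroup ((W →ₗ[F] E) ≃ₗ[F] (W →ₗ[F] E)))
    (r : Module.End F (W →ₗ[F] E)) (b c : W) : Prop :=
  ∃ z ∈ M, z ≠ 1 ∧ (∀ v, z (z v) = v) ∧ (∀ v, z (chi QW b c v) = chi QW b c (z v)) ∧ (∀ v, z (r v) = r (z v)) ∧
    (∀ v, ∃ x y, z v - v = chi QW b c x + r y) ∧ ∀ v, chi QW b c v = 0 → r v = 0 → z v = v

/-- even type: consequence -/
def Evn (QW : QuadraticForm F W) (r : Module.End F (W →ₗ[F] E)) (b c : W) : Prop :=
  ∃ T : Submodule F W, finrank F T = 4 ∧ NDs QW T ∧ b ∈ T ∧ c ∈ T ∧ (∀ v, ∀ w ∈ perp QW T, r v w = 0) ∧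
    ∀ v : W →ₗ[F] E, (∀ w ∈ perp QW T, v w = 0) → ∃ x y, v = chi QW b c x + r y

/-- central elements of the radical of `E ⊗ b` -/
def ZX (QW : QuadraticForm F W) (M : Subgroup ((W →ₗ[F] E) ≃ₗ[F] (W →ₗ[F] E))) (b : W) (X : E →ₗ[F] E) : Prop :=
  ∃ m ∈ M, ∀ v : W →ₗ[F] E, m v = v + tb QW (X (v b)) b

/-- `x ∧ y` -/
noncomputable def wdg (QE : QuadraticForm F E) (x y : E) : E →ₗ[F] E :=
  (polarBilin QE x).smulRight y - (polarBilin QE y).smulRight x

theorem wdg_apply (QE : QuadraticForm F E) (x y z : E) : wdg QE x y z = polar QE x z • y - polar QE y z • x := rfl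

end Cfsg.Agent.Lib.TenOO
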