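import Cfsg.Agent.Lib.TenOO0

/-!
# Overgroups of `O ⊗ O` in orthogonal groups: the statements of the pieces (helper46)
-/

set_option autoImplicit false

namespace Cfsg.Agent.Lib.TenOO

open QuadraticMap Module Cfsg.Agent.Lib.Quad Cfsg.Agent.Lib.OrthMax Cfsg.Agent.Lib.OrthNd Cfsg.Agent.Lib.TenSLH94

variable {F E W : Type*} [Field F] [AddCommGroup E] [Module F E] [FiniteDimensional F E]
  [AddCommGroup W] [Module F W] [FiniteDimensional F W]

/-- elements mapping `E ⊗ L` to `E ⊗ L'` are pairs -/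
def LineF (QW : QuadraticForm F W) (M : Subgroup ((W →ₗ[F] E) ≃ₗ[F] (W →ₗ[F] E))) : Prop :=
  ∀ g ∈ M, ∀ b c b' c' : W, Ln QW b c → Ln QW b' c' →
    (∀ x y, ∃ x' y', g (tb QW x b + tb QW y c) = tb QW x' b' + tb QW y' c') → ∃ p q, g = ac p q

/-- `r = R ⊗ 1 + 1 ⊗ ν` -/
def Tens (r : Module.End F (W →ₗ[F] E)) : Prop :=
  ∃ (R : E →ₗ[F] E) (ν : W →ₗ[F] W), ∀ v, r v = R ∘ₗ v + v ∘ₗ ν

/-- `r` is a long root of the second factor -/
def Std (QW : QuadraticForm F W) (r : Module.End F (W →ₗ[F] E)) : Prop :=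
  ∃ b c, Ln QW b c ∧ ∀ v, r v = chi QW b c v


end Cfsg.Agent.Lib.TenOO
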