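import Mathlib
import Cfsg.Agent.Lib.TenSL4H94
import Cfsg.Agent.Lib.SpTrans
import Cfsg.Agent.Lib.OrthDecH94

set_option autoImplicit false
set_option linter.unusedSectionVars false
set_option linter.unusedSimpArgs false
set_option linter.unusedVariables false

/-!
Overgroups of `Sp ⊗ Sp` in orthogonal groups: the situation, first case.
-/

namespace Cfsg.Agent.Lib.TenSpH94

open QuadraticMap Module Cfsg.Agent.Lib.Quad Cfsg.Agent.Lib.OrthMax Cfsg.Agent.Lib.TenSLH94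
  Cfsg.Agent.Lib.SpTrans Cfsg.Agent.Lib.OrthDecH94

variable {F E W : Type*} [Field F] [AddCommGroup E] [Module F E] [FiniteDimensional F E]
  [AddCommGroup W] [Module F W] [FiniteDimensional F W]

/-- the situation -/
structure TS (α : E →ₗ[F] E →ₗ[F] F) (β : W →ₗ[F] W →ₗ[F] F) (Q : QuadraticForm F (W →ₗ[F] E))
    (M : Subgroup ((W →ₗ[F] E) ≃ₗ[F] (W →ₗ[F] E))) : Prop where
  hα : α.IsAlt
  hαn : ∀ x, (∀ y, α x y = 0) → x = 0
  hβ : β.IsAlt
  hβn : ∀ x, (∀ y, β x y = 0) → x = 0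
  hE : 2 ≤ finrank F E
  hW : 6 ≤ finrank F W
  hEW : finrank F E + 1 < finrank F W
  Qp : ∀ a b, Q (pt a (β b)) = 0
  pol : ∀ a b v, polar Q (pt a (β b)) v = α (v b) a
  hM : M ≤ O Q
  tB : ∀ q ∈ isom (fun x y => β x y), ac 1 q ∈ M
  tA : ∀ p ∈ isom (fun x y => α x y), ac p 1 ∈ M

theorem rep_of {β : W →ₗ[F] W →ₗ[F] F} (hβn : ∀ x, (∀ y, β x y = 0) → x = 0) (φ : Dual F W) : ∃ b, φ = β b := by
  have hinj : Function.Injective β := by
    rw [injective_iff_map_eq_zero]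
    intro y hy
    exact hβn y fun z => by rw [hy]; rfl
  obtain ⟨y, hy⟩ := (LinearMap.injective_iff_surjective_of_finrank_eq_finrank
    (Subspace.dual_finrank_eq (K := F) (V := W)).symm).1 hinj φ
  exact ⟨y, hy.symm⟩

/-- a vector in the kernel of a map to a smaller space and of a functional -/
theorem exists_kerv (h : finrank F E + 1 < finrank F W) (u : W →ₗ[F] E) (φ : Dual F W) :
    ∃ e, e ≠ 0 ∧ u e = 0 ∧ φ e = 0 := by
  have h1 := LinearMap.finrank_range_add_finrank_ker (u.prod φ)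
  have h2 := Submodule.finrank_le (LinearMap.range (u.prod φ))
  rw [Module.finrank_prod, finrank_self] at h2
  obtain ⟨e, he, he0⟩ := Submodule.exists_mem_ne_zero_of_ne_bot (show LinearMap.ker (u.prod φ) ≠ ⊥ by
    intro h3; rw [h3, finrank_bot] at h1; omega)
  have he' : (u e, φ e) = 0 := he
  rw [Prod.mk_eq_zero] at he'
  exact ⟨e, he0, he'.1, he'.2⟩

/-- maps killing a vector -/
theorem span_perp {b : W} {N : Submodule F (W →ₗ[F] E)} (h : ∀ x (ψ : Dual F W), ψ b = 0 → pt x ψ ∈ N)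
    {v : W →ₗ[F] E} (hv : v b = 0) : v ∈ N := by
  by_cases hb : b = 0
  · subst hb
    obtain ⟨n, a, φ, rfl⟩ := span_pt v
    exact Submodule.sum_mem _ fun i _ => h _ _ (map_zero _)
  obtain ⟨φ, hφ⟩ := exists_dual0 (F := F) hb
  let B := Module.finBasis F W
  have e1 : v = ∑ i, pt (v (B i)) (B.coord i - (B.coord i b) • φ) := by
    apply LinearMap.ext
    intro w
    have h1 : v w = v (w - φ w • b) := by rw [map_sub, map_smul, hv, smul_zero, sub_zero]
    rw [h1, LinearMap.sum_apply]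
    conv_lhs => rw [← B.sum_repr (w - φ w • b)]
    rw [map_sum]
    apply Finset.sum_congr rfl
    intro i _
    rw [map_smul, pt_apply, LinearMap.sub_apply, LinearMap.smul_apply, smul_eq_mul, mul_comm (B.coord i b)]
    congr 1
    rw [← Basis.coord_apply, map_sub, map_smul, smul_eq_mul]
  rw [e1]
  refine Submodule.sum_mem _ fun i _ => h _ _ ?_
  rw [LinearMap.sub_apply, LinearMap.smul_apply, hφ, smul_eq_mul, mul_one, sub_self]

namespace TS

variable {α : E →ₗ[F] E →ₗ[F] F} {β : W →ₗ[F] W →ₗ[F] F} {Q : QuadraticForm F (W →ₗ[F] E)}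
  {M : Subgroup ((W →ₗ[F] E) ≃ₗ[F] (W →ₗ[F] E))} (T : TS α β Q M)
include T

theorem an (x y : E) : α x y = - α y x := alt_neg T.hα x y

theorem bn (x y : W) : β x y = - β y x := alt_neg T.hβ x y

theorem bb (x : W) : β x x = 0 := T.hβ x

theorem rep (φ : Dual F W) : ∃ b, φ = β b := rep_of T.hβn φ

theorem beta_ne {b : W} (hb : b ≠ 0) : β b ≠ 0 := fun h => hb (T.hβn b fun y => by rw [h]; rfl)

theorem exists_one {b : W} (hb : b ≠ 0) : ∃ f, β b f = 1 := by
  obtain ⟨f, hf⟩ := exists_val (T.beta_ne hb)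
  exact ⟨f, hf⟩

/-- transvections of the second factor -/
theorem xb (b : W) (c : F) : ∃ x ∈ M, (∃ q, x = ac 1 q) ∧ ∀ v, x v = v + c • pt (v b) (β b) := by
  refine ⟨ac 1 (tv β T.hβ b c), T.tB _ (tv_mem_isom T.hβ b c), ⟨_, rfl⟩, fun v => ?_⟩
  have h1 : ∀ w, (tv β T.hβ b c).symm w = w + (c * β b w) • b := by
    intro w
    apply (tv β T.hβ b c).injective
    rw [LinearEquiv.apply_symm_apply, tv_apply, map_add, LinearMap.add_apply, map_smul, LinearMap.smul_apply,
      T.bb, smul_zero, add_zero, T.bn w b]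
    module
  apply LinearMap.ext
  intro w
  rw [ac_apply, h1, LinearMap.add_apply, LinearMap.smul_apply, pt_apply, map_add, map_smul, mul_smul]
  rfl

/-- Siegel elements of the second factor -/
theorem sb {b d : W} (hbd : β b d = 0) : ∃ s ∈ M, (∃ q, s = ac 1 q) ∧
    (∀ v, s v = v + pt (v b) (β d) + pt (v d) (β b)) ∧ ∀ v, s⁻¹ v = v - pt (v b) (β d) - pt (v d) (β b) := by
  have hdb : β d b = 0 := by rw [T.bn, hbd, neg_zero]
  obtain ⟨x, hx, ⟨q₁, hq₁⟩, hxv⟩ := T.xb (b + d) 1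
  obtain ⟨y, hy, ⟨q₂, hq₂⟩, hyv⟩ := T.xb b (-1)
  obtain ⟨z, hz, ⟨q₃, hq₃⟩, hzv⟩ := T.xb d (-1)
  have h1 : ∀ v, (x * (y * z)) v = v + pt (v b) (β d) + pt (v d) (β b) := by
    intro v
    rw [LinearEquiv.mul_apply, LinearEquiv.mul_apply, hxv, hyv, hzv]
    apply LinearMap.ext
    intro w
    simp only [LinearMap.add_apply, LinearMap.smul_apply, pt_apply, map_add, T.bb, hbd, hdb]
    module
  have h2 : ∀ v, (x * (y * z))⁻¹ v = v - pt (v b) (β d) - pt (v d) (β b) := by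
    intro v
    apply (x * (y * z)).injective
    rw [← LinearEquiv.mul_apply, mul_inv_cancel, h1]
    apply LinearMap.ext
    intro w
    simp only [LinearMap.add_apply, LinearMap.sub_apply, pt_apply, T.bb, hbd, hdb, LinearEquiv.coe_one, id]
    module
  refine ⟨x * (y * z), mul_mem hx (mul_mem hy hz), ⟨q₁ * (q₂ * q₃), ?_⟩, h1, h2⟩
  rw [hq₁, hq₂, hq₃]; rfl

variable (β) in
/-- elements acting trivially on the factors of the filtration of `b` -/
def _root_.Cfsg.Agent.Lib.TenSpH94.Tv (b : W) (r : (W →ₗ[F] E) ≃ₗ[F] (W →ₗ[F] E)) : Prop :=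
  (∀ a, r (pt a (β b)) = pt a (β b)) ∧ ∀ v, v b = 0 → ∃ a, r v = v + pt a (β b)

/-- members orthogonal to a standard space are standard -/
theorem perp_mem (hII : ∀ b, b ≠ 0 → ∀ r ∈ M, Tv β b r → ∃ q, r = ac 1 q) {U : Submodule F (W →ₗ[F] E)}
    (hU : Orb M U) {b : W} (hb : b ≠ 0) (hUb : ∀ u ∈ U, u b = 0) : ∃ c : Dual F W, c ≠ 0 ∧ U = sp c := by
  have hUr := hU.finrank_eq
  obtain ⟨m, hm, φ₀, hφ₀, hUe⟩ := hU
  obtain ⟨b₀, rfl⟩ := T.rep φ₀
  obtain ⟨ι, hι⟩ : ∃ ι : E →ₗ[F] (W →ₗ[F] E), ∀ x, ι x = m (pt x (β b₀)) :=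
    ⟨(m : (W →ₗ[F] E) →ₗ[F] (W →ₗ[F] E)) ∘ₗ (pt.flip (β b₀)), fun x => rfl⟩
  obtain ⟨π, hπ⟩ : ∃ π : (W →ₗ[F] E) →ₗ[F] E, ∀ v, π v = (m⁻¹ v) b₀ :=
    ⟨(LinearMap.applyₗ b₀) ∘ₗ ((m⁻¹ : (W →ₗ[F] E) ≃ₗ[F] (W →ₗ[F] E)) : (W →ₗ[F] E) →ₗ[F] (W →ₗ[F] E)), fun v => rfl⟩
  have hm1 : ∀ v, m (m⁻¹ v) = v := fun v => by rw [← LinearEquiv.mul_apply, mul_inv_cancel]; rfl
  have hm2 : ∀ v, m⁻¹ (m v) = v := fun v => by rw [← LinearEquiv.mul_apply, inv_mul_cancel]; rfl
  have hpol : ∀ x v, polar Q (ι x) v = α (π v) x := by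
    intro x v
    have h1 := O_polar (T.hM hm) (pt x (β b₀)) (m⁻¹ v)
    rw [hm1, T.pol] at h1
    rw [hι, hπ, h1]
  have hιU : ∀ x, ι x ∈ U := fun x => by rw [hUe, hι]; exact ⟨_, pt_mem_sp x _, rfl⟩
  have hπι : ∀ x, π (ι x) = 0 := fun x => by rw [hπ, hι, hm2, pt_apply, T.bb, zero_smul]
  have hιb : ∀ x, ι x b = 0 := fun x => hUb _ (hιU x)
  have hπb : ∀ y, π (pt y (β b)) = 0 := by
    intro y
    apply T.hαn
    intro x
    rw [← hpol, polar_comm, T.pol, hιb, map_zero, LinearMap.zero_apply]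
  have hαn' : ∀ x, (∀ y, α y x = 0) → x = 0 := fun x hx => T.hαn x fun y => by rw [T.an, hx, neg_zero]
  -- the element
  obtain ⟨X, hX, -, hXv⟩ := T.xb b₀ 1
  obtain ⟨t, ht⟩ : ∃ t, t = m * X * m⁻¹ := ⟨_, rfl⟩
  have htM : t ∈ M := by rw [ht]; exact mul_mem (mul_mem hm hX) (inv_mem hm)
  have htv : ∀ v, t v = v + ι (π v) := by
    intro v
    rw [ht, LinearEquiv.mul_apply, LinearEquiv.mul_apply, hXv, one_smul, map_add, hm1, ← hπ, ← hι]
  have htiv : ∀ v, t⁻¹ v = v - ι (π v) := by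
    intro v
    apply t.injective
    rw [← LinearEquiv.mul_apply, mul_inv_cancel, htv, map_sub, hπι, sub_zero, sub_add_cancel]; rfl
  -- commutators
  have L1 : ∀ d, β b d = 0 → ∃ φ : Dual F W, ∀ x, ∃ z, ι (π (pt x (β d))) = pt x φ + pt z (β b) := by
    intro d hbd
    have hdb : β d b = 0 := by rw [T.bn, hbd, neg_zero]
    obtain ⟨s, hs, -, hsv, hsiv⟩ := T.sb hbd
    obtain ⟨r, hr⟩ : ∃ r, r = s * t * s⁻¹ * t⁻¹ := ⟨_, rfl⟩
    have hrM : r ∈ M := by
      rw [hr]; exact mul_mem (mul_mem (mul_mem hs htM) (inv_mem hs)) (inv_mem htM)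
    have hsts : ∀ v, (s * t * s⁻¹) v = v + ι (π v - π (pt (v b) (β d))) +
        pt ((ι (π v - π (pt (v b) (β d)))) d) (β b) := by
      intro v
      have h1 : π (s⁻¹ v) = π v - π (pt (v b) (β d)) := by
        rw [hsiv, map_sub, map_sub, hπb, sub_zero]
      rw [LinearEquiv.mul_apply, LinearEquiv.mul_apply, htv, h1, map_add, ← LinearEquiv.mul_apply,
        mul_inv_cancel, hsv (ι _), hιb, map_zero, LinearMap.zero_apply, add_zero, LinearEquiv.coe_one, id, add_assoc]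
    have hrv : ∀ v, r v = v - ι (π (pt (v b) (β d))) + pt ((ι (π v - π (pt (v b) (β d)))) d) (β b) := by
      intro v
      rw [hr, LinearEquiv.mul_apply, htiv, hsts]
      have h1 : π (v - ι (π v)) = π v := by rw [map_sub, hπι, sub_zero]
      have h2 : (v - ι (π v)) b = v b := by rw [LinearMap.sub_apply, hιb, sub_zero]
      rw [h1, h2, map_sub ι]
      abel
    obtain ⟨q, hq⟩ := hII b hb r hrM ⟨fun a => by
      rw [hrv, pt_apply, T.bb, zero_smul, map_zero, LinearMap.zero_apply, map_zero, map_zero, sub_zero, sub_zero,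
        hπb, map_zero, LinearMap.zero_apply, map_zero, LinearMap.zero_apply, add_zero], fun v hv =>
      ⟨(ι (π v - π (pt (v b) (β d)))) d, by
        rw [hrv, hv, map_zero, LinearMap.zero_apply, map_zero, map_zero, sub_zero]⟩⟩
    obtain ⟨f, hf⟩ := T.exists_one hb
    refine ⟨(β f) ∘ₗ (q.symm : W →ₗ[F] W) - β f, fun x => ?_⟩
    have h3 : (pt (-x) (β f)) b = x := by
      rw [pt_apply, T.bn, hf, smul_neg, neg_smul, one_smul, neg_neg]
    have h4 := hrv (pt (-x) (β f))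
    have h5 : r (pt (-x) (β f)) = pt (-x) ((β f) ∘ₗ (q.symm : W →ₗ[F] W)) := by
      rw [hq]
      apply LinearMap.ext
      intro w
      rw [ac_apply]; rfl
    rw [h3, h5] at h4
    refine ⟨(ι (π (pt (-x) (β f)) - π (pt x (β d)))) d, ?_⟩
    have h6 : pt x ((β f) ∘ₗ (q.symm : W →ₗ[F] W) - β f) =
        pt (-x) (β f) - pt (-x) ((β f) ∘ₗ (q.symm : W →ₗ[F] W)) := by
      rw [map_sub, map_neg]
      simp only [LinearMap.neg_apply]
      abel
    rw [h6, h4]
    abel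
  -- the element is a pair
  have htq : ∃ q, t = ac 1 q := by
    by_cases hc : ∀ d, β b d = 0 → ∀ x, ∃ z, ι (π (pt x (β d))) = pt z (β b)
    · apply hII b hb t htM
      refine ⟨fun a => by rw [htv, hπb, map_zero, add_zero], fun v hv => ?_⟩
      have h1 : v ∈ (sp (β b) : Submodule F (W →ₗ[F] E)).comap (ι ∘ₗ π) := by
        apply span_perp _ hv
        intro x ψ hψ
        obtain ⟨d, rfl⟩ := T.rep ψ
        obtain ⟨z, hz⟩ := hc d (by rw [T.bn, hψ, neg_zero]) x
        exact mem_sp.2 ⟨z, hz⟩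
      obtain ⟨z, hz⟩ := mem_sp.1 h1
      exact ⟨z, by rw [htv]; exact congrArg (v + ·) hz⟩
    · push Not at hc
      obtain ⟨d, hbd, x₀, hx₀⟩ := hc
      have hdb : β d b = 0 := by rw [T.bn, hbd, neg_zero]
      obtain ⟨φ, hφ⟩ := L1 d hbd
      obtain ⟨θ, hθ⟩ : ∃ θ : E →ₗ[F] E, ∀ x, θ x = π (pt x (β d)) := ⟨π ∘ₗ pt.flip (β d), fun x => rfl⟩
      have hφb : φ ∉ Submodule.span F {β b} := by
        intro h
        obtain ⟨c, hc⟩ := Submodule.mem_span_singleton.1 h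
        obtain ⟨z, hz⟩ := hφ x₀
        apply hx₀ (c • x₀ + z)
        rw [hz, ← hc, map_add, map_smul, map_smul]; rfl
      obtain ⟨w₁, hw₁, hw₁'⟩ := exists_sep hφb
      obtain ⟨w₂, hw₂, hw₂'⟩ : ∃ w, β b w = 1 ∧ φ w = 0 := by
        apply exists_sep
        intro h
        obtain ⟨c, hc⟩ := Submodule.mem_span_singleton.1 h
        have hc0 : c ≠ 0 := by
          rintro rfl
          rw [zero_smul] at hc
          exact T.beta_ne hb hc.symm
        apply hφb
        rw [Submodule.mem_span_singleton]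
        exact ⟨c⁻¹, by rw [← hc, smul_smul, inv_mul_cancel₀ hc0, one_smul]⟩
      have hθ1 : ∀ x, (ι (θ x)) w₁ = x := by
        intro x
        obtain ⟨z, hz⟩ := hφ x
        rw [hθ, hz, LinearMap.add_apply, pt_apply, pt_apply, hw₁, hw₁', one_smul, zero_smul, add_zero]
      have hθinj : Function.Injective θ := by
        intro x y hxy
        rw [← hθ1 x, ← hθ1 y, hxy]
      have hθsurj : Function.Surjective θ := LinearMap.injective_iff_surjective.1 hθinj
      obtain ⟨n, hn⟩ : ∃ n : E →ₗ[F] E, ∀ y, n y = (ι y) w₁ := ⟨(LinearMap.applyₗ w₁) ∘ₗ ι, fun y => rfl⟩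
      obtain ⟨z', hz'⟩ : ∃ z' : E →ₗ[F] E, ∀ y, z' y = (ι y) w₂ := ⟨(LinearMap.applyₗ w₂) ∘ₗ ι, fun y => rfl⟩
      have hιn : ∀ y, ι y = pt (n y) φ + pt (z' y) (β b) := by
        intro y
        obtain ⟨x, rfl⟩ := hθsurj y
        obtain ⟨z, hz⟩ := hφ x
        have h1 : z' (θ x) = z := by
          rw [hz', hθ, hz, LinearMap.add_apply, pt_apply, pt_apply, hw₂, hw₂', one_smul, zero_smul, zero_add]
        rw [hn, hθ1, h1, hθ, hz]
      have hnθ : ∀ x, n (θ x) = x := fun x => by rw [hn, hθ1]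
      have hθn : ∀ x, θ (n x) = x := fun x => by
        obtain ⟨y, rfl⟩ := hθsurj x
        rw [hnθ]
      obtain ⟨d₁, rfl⟩ := T.rep φ
      have hx₀0 : x₀ ≠ 0 := by
        rintro rfl
        exact hx₀ 0 (by rw [map_zero, LinearMap.zero_apply, map_zero, map_zero, LinearMap.zero_apply])
      have hd₁b : β d₁ b = 0 := by
        have h1 := hιb (θ x₀)
        rw [hιn, LinearMap.add_apply, pt_apply, pt_apply, T.bb, zero_smul, add_zero, hnθ] at h1
        exact (smul_eq_zero.1 h1).resolve_right hx₀0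
      have hbd₁ : β b d₁ = 0 := by rw [T.bn, hd₁b, neg_zero]
      have hαπ : ∀ v x, v b = 0 → α (π v) x = α (v d₁) (n x) := by
        intro v x hv
        rw [← hpol, hιn, polar_add_left, T.pol, T.pol, hv, map_zero, LinearMap.zero_apply, add_zero]
      obtain ⟨κ, hκ⟩ : ∃ κ, κ = β d d₁ := ⟨_, rfl⟩
      have hsim : ∀ y x, α (θ y) x = κ * α y (n x) := by
        intro y x
        rw [hθ, hαπ _ _ (by rw [pt_apply, hdb, zero_smul]), pt_apply, ← hκ, map_smul, LinearMap.smul_apply, smul_eq_mul]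
      have hκ0 : κ ≠ 0 := by
        rintro hκ0
        apply hx₀0
        apply hθinj
        rw [map_zero]
        apply T.hαn
        intro x
        rw [hsim, hκ0, zero_mul]
      -- the action on the middle
      have hmid : ∀ v, v b = 0 → n (π v) = κ⁻¹ • v d₁ := by
        intro v hv
        have h1 : π v = κ⁻¹ • θ (v d₁) := by
          rw [← sub_eq_zero]
          apply T.hαn
          intro x
          rw [map_sub, LinearMap.sub_apply, hαπ v x hv, map_smul, LinearMap.smul_apply, hsim, smul_eq_mul,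
            inv_mul_cancel_left₀ hκ0, sub_self]
        rw [h1, map_smul, hnθ]
      obtain ⟨Y, hY, ⟨q₁, hq₁⟩, hYv⟩ := T.xb d₁ (-κ⁻¹)
      have hYb : ∀ v, (Y v) b = v b := by
        intro v
        rw [hYv, LinearMap.add_apply, LinearMap.smul_apply, pt_apply, hd₁b, zero_smul, smul_zero, add_zero]
      have hYd : ∀ v, (Y v) d₁ = v d₁ := by
        intro v
        rw [hYv, LinearMap.add_apply, LinearMap.smul_apply, pt_apply, T.bb, zero_smul, smul_zero, add_zero]
      obtain ⟨q₂, hq₂⟩ := hII b hb (t * Y) (mul_mem htM hY) ⟨fun a => by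
        have h1 : Y (pt a (β b)) = pt a (β b) := by
          rw [hYv, pt_apply, hbd₁, zero_smul, map_zero, LinearMap.zero_apply, smul_zero, add_zero]
        rw [LinearEquiv.mul_apply, h1, htv, hπb, map_zero, add_zero], fun v hv => by
        refine ⟨z' (π (Y v)), ?_⟩
        rw [LinearEquiv.mul_apply, htv, hιn, hmid _ (by rw [hYb, hv]), hYd, hYv]
        rw [map_smul, LinearMap.smul_apply]
        module⟩
      refine ⟨q₂ * q₁⁻¹, ?_⟩
      have h1 : t = t * Y * Y⁻¹ := by group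
      rw [h1, hq₂, hq₁]; rfl
  obtain ⟨q, hq⟩ := htq
  apply ac_small (p := 1) (q := q) (by have := T.hE; omega) (by have := T.hEW; omega) (D := U)
  · intro v
    rw [← hq, htv, add_sub_cancel_left]
    exact hιU _
  · exact hUr.le
  · rw [← hq]
    intro h
    obtain ⟨f, hf⟩ := T.exists_one (b := b₀) (by rintro rfl; exact hφ₀ (map_zero _))
    obtain ⟨x, hx⟩ : ∃ x : E, x ≠ 0 := by
      have : Nontrivial E := Module.finrank_pos_iff (R := F).1 (by have := T.hE; omega)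
      exact exists_ne 0
    have h1 := htv (m (pt x (β f)))
    rw [h] at h1
    have h2 : ι (π (m (pt x (β f)))) = 0 := by
      have h3 : m (pt x (β f)) + 0 = m (pt x (β f)) + ι (π (m (pt x (β f)))) := by
        rw [← h1, add_zero]; rfl
      exact (add_left_cancel h3).symm
    rw [hπ, hm2, hι, LinearEquiv.map_eq_zero_iff, pt_apply, T.bn, hf] at h2
    refine pt_ne ?_ hφ₀ h2
    rw [neg_smul, one_smul]
    exact neg_ne_zero.2 hx

end TS

end Cfsg.Agent.Lib.TenSpH94
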