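import Cfsg.Agent.Lib.TenOO0
import Cfsg.Agent.Lib.OrthDec2H94
import Cfsg.Agent.Lib.TenSpH94

/-!
# Overgroups of `O ⊗ O` in orthogonal groups: piece B1 (helper44)
-/

set_option autoImplicit false
set_option linter.unusedSectionVars false
set_option linter.unusedSimpArgs false
set_option linter.unusedVariables false

namespace Cfsg.Agent.Lib.TenOO_B1

open QuadraticMap Module Cfsg.Agent.Lib.Quad Cfsg.Agent.Lib.OrthMax Cfsg.Agent.Lib.OrthNd Cfsg.Agent.Lib.TenSLH94
open Cfsg.Agent.Lib.TenOO Cfsg.Agent.Lib.OrthDecH94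

section pure

variable {F E : Type*} [Field F] [AddCommGroup E] [Module F E] [FiniteDimensional F E]
  {QE : QuadraticForm F E}

theorem sieg_neg {a f : E} (ha : QE a = 0) (haf : polar QE a f = 0) (x : E) :
    siegMap QE a f (siegMap QE a (-f) x) = x := by
  have hfa : polar QE f a = 0 := by rw [polar_comm, haf]
  have haa : polar QE a a = 0 := by rw [polar_self', ha, mul_zero]
  have hff : polar QE f f = 2 * QE f := polar_self' QE f
  rw [siegMap_apply QE a (-f)]
  simp only [siegMap_apply, polar_add_right, polar_sub_right, polar_smul_right, polar_neg_right,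
    polar_neg_left, QuadraticMap.map_neg, haf, hfa, haa, hff, smul_eq_mul]
  module

/-- the even part -/
noncomputable def GG (QE : QuadraticForm F E) (a : E) (Y : E →ₗ[F] E) (f x : E) : E :=
  -(QE f * polar QE a x) • Y a - (polar QE a x * polar QE a (Y f)) • f
    + (polar QE f x * polar QE a (Y a)) • f + (polar QE a x * polar QE f (Y f)) • a
    - (polar QE f x * polar QE a (Y f)) • a - (QE f * polar QE a (Y x)) • a
    + (QE f * QE f * polar QE a x * polar QE a (Y a)) • a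

theorem GG_mem (h2 : (2 : F) ≠ 0) (N : Submodule F (E →ₗ[F] E))
    (hsa : ∀ Y ∈ N, ∀ x y, polar QE (Y x) y = polar QE x (Y y))
    (hconj : ∀ a f, QE a = 0 → polar QE a f = 0 → ∀ Y ∈ N, ∃ Z ∈ N,
      ∀ x, Z (siegMap QE a f x) = siegMap QE a f (Y x))
    {Y : E →ₗ[F] E} (hY : Y ∈ N) {a f : E} (ha : QE a = 0) (haf : polar QE a f = 0) :
    ∃ Z ∈ N, ∀ x, Z x = GG QE a Y f x := by
  obtain ⟨Z1, hZ1, h1⟩ := hconj a f ha haf Y hY
  have haf' : polar QE a (-f) = 0 := by rw [polar_neg_right, haf, neg_zero]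
  obtain ⟨Z2, hZ2, h3⟩ := hconj a (-f) ha haf' Y hY
  refine ⟨(2 : F)⁻¹ • (Z1 + Z2 - (2 : F) • Y), N.smul_mem _ (N.sub_mem (N.add_mem hZ1 hZ2)
    (N.smul_mem _ hY)), fun x => ?_⟩
  have e1 : Z1 x = siegMap QE a f (Y (siegMap QE a (-f) x)) := by
    rw [← h1, sieg_neg ha haf]
  have e2 : Z2 x = siegMap QE a (-f) (Y (siegMap QE a f x)) := by
    rw [← h3]
    congr 1
    have := sieg_neg ha haf' x
    rw [neg_neg] at this
    exact this.symm
  have hfa : polar QE f a = 0 := by rw [polar_comm, haf]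
  have haa : polar QE a a = 0 := by rw [polar_self', ha, mul_zero]
  have hff : polar QE f f = 2 * QE f := polar_self' QE f
  have hfY : polar QE f (Y a) = polar QE a (Y f) := by
    rw [polar_comm, hsa Y hY]
  have e3 : (Z1 + Z2 - (2 : F) • Y) x = (2 : F) • GG QE a Y f x := by
    rw [LinearMap.sub_apply, LinearMap.add_apply, LinearMap.smul_apply, e1, e2, GG]
    simp only [siegMap_apply, polar_add_right, polar_sub_right, polar_smul_right, polar_neg_right,
      polar_neg_left, QuadraticMap.map_neg, haf, hfa, haa, hff, hfY, smul_eq_mul, map_add, map_sub,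
      map_smul, map_neg]
    module
  rw [LinearMap.smul_apply, e3, smul_smul, inv_mul_cancel₀ h2, one_smul]

/-- rank one element -/
theorem theta_mem [Finite F] (h2 : (2 : F) ≠ 0) (hQ : Nd QE) (h3 : 3 ≤ finrank F E)
    (hex : 4 ≤ finrank F E ∨ ∃ s : F, s ≠ 0 ∧ s ≠ 1 ∧ s ≠ -1) (N : Submodule F (E →ₗ[F] E))
    (hsa : ∀ Y ∈ N, ∀ x y, polar QE (Y x) y = polar QE x (Y y))
    (hconj : ∀ a f, QE a = 0 → polar QE a f = 0 → ∀ Y ∈ N, ∃ Z ∈ N,
      ∀ x, Z (siegMap QE a f x) = siegMap QE a f (Y x))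
    {Y : E →ₗ[F] E} (hY : Y ∈ N) {a : E} (ha : QE a = 0) (hγ : polar QE a (Y a) ≠ 0) :
    ∃ Z ∈ N, ∀ x, Z x = polar QE a x • a := by
  have ha0 : a ≠ 0 := by
    rintro rfl
    exact hγ (by rw [polar_zero_left])
  -- it suffices to have a nonzero multiple
  have key : (∃ c : F, c ≠ 0 ∧ ∃ Z ∈ N, ∀ x, Z x = (c * polar QE a x) • a) →
      ∃ Z ∈ N, ∀ x, Z x = polar QE a x • a := by
    rintro ⟨c, hc, Z, hZ, hZx⟩
    refine ⟨c⁻¹ • Z, N.smul_mem _ hZ, fun x => ?_⟩
    rw [LinearMap.smul_apply, hZx, smul_smul, ← mul_assoc, inv_mul_cancel₀ hc, one_mul]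
  apply key
  have hT : NDs QE (⊤ : Submodule F E) := by
    rw [NDs, eq_bot_iff]
    rintro x ⟨-, hx⟩
    rw [Submodule.mem_bot]
    exact hQ.eq_zero fun y => by rw [polar_comm]; exact mem_perp.1 hx y trivial
  rcases hex with h4 | ⟨s, hs0, hs1, hs2⟩
  · obtain ⟨b, hb, hQb, hab⟩ := exists_partner hQ hT (z := a) trivial ha0 ha
    have hc := finrank_cut hQ (⊤ : Submodule F E) a b
    have hnd := nds_cut hQ hT (e := a) (f := b) trivial trivial ha hQb hab
    rw [finrank_top] at hc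
    obtain ⟨f, hf, hQf⟩ := exists_nonsing hnd (by omega)
    have h5 := nds_cut1 hQ h2 hnd hf hQf
    have h6 := finrank_cut1 hQ (A := (⊤ ⊓ perp QE (Submodule.span F {a, b}))) (a := f)
    obtain ⟨g, hg, hQg⟩ := exists_nonsing h5 (by omega)
    obtain ⟨hg1, hfg⟩ := mem_cut1.1 hg
    have haf := (mem_cut.1 hf).2.1
    have hag := (mem_cut.1 hg1).2.1
    obtain ⟨Z1, hZ1, e1⟩ := GG_mem h2 N hsa hconj hY ha haf
    obtain ⟨Z2, hZ2, e2⟩ := GG_mem h2 N hsa hconj hY ha hag
    obtain ⟨Z3, hZ3, e3⟩ := GG_mem h2 N hsa hconj hY ha (f := f + g) (by rw [polar_add_right, haf, hag, add_zero])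
    obtain ⟨Z4, hZ4, e4⟩ := GG_mem h2 N hsa hconj hY ha (f := f - g) (by rw [polar_sub_right, haf, hag, sub_zero])
    refine ⟨4 * QE f * QE g * polar QE a (Y a), ?_, Z3 + Z4 - (2 : F) • Z1 - (2 : F) • Z2,
      N.sub_mem (N.sub_mem (N.add_mem hZ3 hZ4) (N.smul_mem _ hZ1)) (N.smul_mem _ hZ2), fun x => ?_⟩
    · have h4' : (4 : F) ≠ 0 := by
        rw [show (4 : F) = 2 * 2 by norm_num]
        exact mul_ne_zero h2 h2
      exact mul_ne_zero (mul_ne_zero (mul_ne_zero h4' hQf) hQg) hγ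
    · simp only [LinearMap.sub_apply, LinearMap.add_apply, LinearMap.smul_apply, e1, e2, e3, e4, GG,
        Q_add, Q_sub, hfg, map_add, map_sub, polar_add_left, polar_sub_left, polar_add_right,
        polar_sub_right, polar_comm QE g f]
      module
  · obtain ⟨f, -, haf, hQf⟩ := exists_nonsing_perp' hQ hT (by rw [finrank_top]; exact h3)
      (e := a) trivial ha0 ha
    obtain ⟨Z1, hZ1, e1⟩ := GG_mem h2 N hsa hconj hY ha haf
    obtain ⟨Z2, hZ2, e2⟩ := GG_mem h2 N hsa hconj hY ha (f := s • f) (by rw [polar_smul_right, haf, smul_zero])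
    refine ⟨(s ^ 4 - s ^ 2) * QE f * QE f * polar QE a (Y a), ?_, Z2 - (s ^ 2) • Z1,
      N.sub_mem hZ2 (N.smul_mem _ hZ1), fun x => ?_⟩
    · have h6 : s ^ 4 - s ^ 2 = s ^ 2 * (s - 1) * (s + 1) := by ring
      rw [h6]
      refine mul_ne_zero (mul_ne_zero (mul_ne_zero (mul_ne_zero (mul_ne_zero (pow_ne_zero _ hs0)
        (sub_ne_zero.2 hs1)) (fun h => hs2 (eq_neg_of_add_eq_zero_left h))) hQf) hQf) hγ
    · simp only [LinearMap.sub_apply, LinearMap.add_apply, LinearMap.smul_apply, e1, e2, GG,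
        Q_smul, map_smul, polar_smul_left, polar_smul_right, smul_eq_mul]
      module

theorem nds_top (hQ : Nd QE) : NDs QE (⊤ : Submodule F E) := by
  rw [NDs, eq_bot_iff]
  rintro x ⟨-, hx⟩
  rw [Submodule.mem_bot]
  exact hQ.eq_zero fun y => by rw [polar_comm]; exact mem_perp.1 hx y trivial

/-- the basic equation -/
theorem van_eq {Y : E →ₗ[F] E} (hsa : ∀ x y, polar QE (Y x) y = polar QE x (Y y))
    (h0 : ∀ a, QE a = 0 → polar QE a (Y a) = 0) {a b e : E} (ha : QE a = 0) (hb : QE b = 0)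
    (hab : polar QE a b = 1) (hae : polar QE a e = 0) (hbe : polar QE b e = 0) {s : F} (hs : s ≠ 0) :
    polar QE e (Y e) + 2 * s * polar QE a (Y e) - 2 * QE e * polar QE a (Y b)
      - 2 * s⁻¹ * QE e * polar QE b (Y e) = 0 := by
  have hea : polar QE e a = 0 := by rw [polar_comm, hae]
  have h1 : QE (s • a + e - (s⁻¹ * QE e) • b) = 0 := by
    rw [Q_sub, Q_add, Q_smul, Q_smul, ha, hb, polar_add_left, polar_smul_left, polar_smul_right,
      polar_smul_left, polar_smul_right, hab, hae, polar_comm QE e b, hbe]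
    simp only [smul_eq_mul]
    field_simp
    ring
  have h2 := h0 _ h1
  have haa := h0 a ha
  have hbb := h0 b hb
  have h3 : polar QE e (Y a) = polar QE a (Y e) := by rw [polar_comm, hsa]
  have h4 : polar QE e (Y b) = polar QE b (Y e) := by rw [polar_comm, hsa]
  have h5 : polar QE b (Y a) = polar QE a (Y b) := by rw [polar_comm, hsa]
  simp only [map_add, map_sub, map_smul, polar_add_left, polar_sub_left, polar_smul_left, polar_add_right,
    polar_sub_right, polar_smul_right, haa, hbb, h3, h4, h5, smul_eq_mul] at h2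
  have h6 : s⁻¹ * s = 1 := inv_mul_cancel₀ hs
  linear_combination h2 + (2 * QE e * polar QE a (Y b)) * h6

theorem van_perp [Finite F] (h2 : (2 : F) ≠ 0) (hQ : Nd QE) 
    (hex : 4 ≤ finrank F E ∨ ∃ s : F, s ≠ 0 ∧ s ≠ 1 ∧ s ≠ -1)
    {Y : E →ₗ[F] E} (hsa : ∀ x y, polar QE (Y x) y = polar QE x (Y y))
    (h0 : ∀ a, QE a = 0 → polar QE a (Y a) = 0) {a b e : E} (ha : QE a = 0) (hb : QE b = 0)
    (hab : polar QE a b = 1) (hae : polar QE a e = 0) (hbe : polar QE b e = 0) :
    polar QE a (Y e) = 0 := by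
  have h4' : (4 : F) ≠ 0 := by
    rw [show (4 : F) = 2 * 2 by norm_num]
    exact mul_ne_zero h2 h2
  have step : ∀ e, polar QE a e = 0 → polar QE b e = 0 →
      polar QE a (Y e) = QE e * polar QE b (Y e) := by
    intro e hae hbe
    have e1 := van_eq hsa h0 ha hb hab hae hbe (s := 1) one_ne_zero
    have e2 := van_eq hsa h0 ha hb hab hae hbe (s := -1) (neg_ne_zero.2 one_ne_zero)
    have e3 : (-1 : F)⁻¹ = -1 := by norm_num
    rw [e3] at e2
    rw [inv_one] at e1
    apply mul_left_cancel₀ h4'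
    linear_combination e1 - e2
  rcases hex with h4 | ⟨s, hs0, hs1, hs2⟩
  · by_cases hQe : QE e = 0
    · rw [step e hae hbe, hQe, zero_mul]
    have hT := nds_top hQ
    have hc := finrank_cut hQ (⊤ : Submodule F E) a b
    have hnd := nds_cut hQ hT (e := a) (f := b) trivial trivial ha hb hab
    rw [finrank_top] at hc
    have he : e ∈ ⊤ ⊓ perp QE (Submodule.span F {a, b}) := mem_cut.2 ⟨trivial, hae, hbe⟩
    have h5 := nds_cut1 hQ h2 hnd he hQe
    have h6 := finrank_cut1 hQ (A := (⊤ ⊓ perp QE (Submodule.span F {a, b}))) (a := e)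
    obtain ⟨g, hg, hQg⟩ := exists_nonsing h5 (by omega)
    obtain ⟨hg1, heg⟩ := mem_cut1.1 hg
    have hag := (mem_cut.1 hg1).2.1
    have hbg := (mem_cut.1 hg1).2.2
    have e1 := step e hae hbe
    have e2 := step g hag hbg
    have e3 := step (e + g) (by rw [polar_add_right, hae, hag, add_zero]) (by rw [polar_add_right, hbe, hbg, add_zero])
    have e4 := step (e - g) (by rw [polar_sub_right, hae, hag, sub_zero]) (by rw [polar_sub_right, hbe, hbg, sub_zero])
    simp only [map_add, map_sub, polar_add_right, polar_sub_right, Q_add, Q_sub, heg] at e3 e4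
    have e5 : polar QE b (Y e) = 0 := by
      have : (2 : F) * QE g * polar QE b (Y e) = 0 := by
        linear_combination -e3 - e4 + 2 * e1
      rcases mul_eq_zero.1 this with h | h
      · rcases mul_eq_zero.1 h with h | h
        · exact absurd h h2
        · exact absurd h hQg
      · exact h
    rw [e1, e5, mul_zero]
  · have e1 := van_eq hsa h0 ha hb hab hae hbe hs0
    have e2 := van_eq hsa h0 ha hb hab hae hbe (s := -s) (neg_ne_zero.2 hs0)
    have e3 := step e hae hbe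
    rw [inv_neg] at e2
    have h6 : s * s⁻¹ = 1 := mul_inv_cancel₀ hs0
    have h7 : (4 : F) * (s - 1) * (s + 1) * polar QE a (Y e) = 0 := by
      linear_combination s * (e1 - e2) - 4 * e3 + 4 * QE e * polar QE b (Y e) * h6
    have h8 : s + 1 ≠ 0 := fun h => hs2 (eq_neg_of_add_eq_zero_left h)
    exact (mul_eq_zero.1 h7).resolve_left (mul_ne_zero (mul_ne_zero h4' (sub_ne_zero.2 hs1)) h8)

theorem scalar_of_van [Finite F] (h2 : (2 : F) ≠ 0) (hQ : Nd QE) (h3 : 3 ≤ finrank F E)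
    (hex : 4 ≤ finrank F E ∨ ∃ s : F, s ≠ 0 ∧ s ≠ 1 ∧ s ≠ -1)
    {Y : E →ₗ[F] E} (hsa : ∀ x y, polar QE (Y x) y = polar QE x (Y y))
    (h0 : ∀ a, QE a = 0 → polar QE a (Y a) = 0) : ∃ c : F, ∀ x, Y x = c • x := by
  obtain ⟨a, -, b, -, ha, hb, hab⟩ := exists_pair_in hQ (nds_top hQ) (by rw [finrank_top]; exact h3)
  have hba : polar QE b a = 1 := by rw [polar_comm, hab]
  have h5 : polar QE b (Y a) = polar QE a (Y b) := by rw [polar_comm, hsa]
  have hE : ∀ e, polar QE a e = 0 → polar QE b e = 0 →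
      polar QE a (Y e) = 0 ∧ polar QE b (Y e) = 0 ∧ polar QE e (Y e) = 2 * QE e * polar QE a (Y b) := by
    intro e hae hbe
    have e1 := van_perp h2 hQ hex hsa h0 ha hb hab hae hbe
    have e2 := van_perp h2 hQ hex hsa h0 hb ha hba hbe hae
    refine ⟨e1, e2, ?_⟩
    have e3 := van_eq hsa h0 ha hb hab hae hbe (s := 1) one_ne_zero
    rw [e1, e2] at e3
    linear_combination e3
  have hall : ∀ y, polar QE y (Y y) = 2 * QE y * polar QE a (Y b) := by
    intro y
    obtain ⟨e, he⟩ : ∃ e, e = y - polar QE b y • a - polar QE a y • b := ⟨_, rfl⟩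
    have haa : polar QE a a = 0 := by rw [polar_self', ha, mul_zero]
    have hbb : polar QE b b = 0 := by rw [polar_self', hb, mul_zero]
    have hae : polar QE a e = 0 := by
      rw [he, polar_sub_right, polar_sub_right, polar_smul_right, polar_smul_right, haa, hab]
      simp
    have hbe : polar QE b e = 0 := by
      rw [he, polar_sub_right, polar_sub_right, polar_smul_right, polar_smul_right, hbb, hba]
      simp
    obtain ⟨h6, h7, h8⟩ := hE e hae hbe
    have hy : y = polar QE b y • a + polar QE a y • b + e := by rw [he]; abel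
    have h9 : polar QE e (Y a) = 0 := by rw [polar_comm, hsa]; exact h6
    have h10 : polar QE e (Y b) = 0 := by rw [polar_comm, hsa]; exact h7
    have haYa := h0 a ha
    have hbYb := h0 b hb
    generalize polar QE b y = s at hy
    generalize polar QE a y = t at hy
    rw [hy]
    simp only [map_add, map_smul, polar_add_left, polar_smul_left, polar_add_right,
      polar_smul_right, Q_add, Q_smul, ha, hb, hab, hae, hbe, h5, h6, h7, h8, h9, h10, haYa, hbYb, smul_eq_mul]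
    ring
  refine ⟨polar QE a (Y b), fun x => ?_⟩
  rw [← sub_eq_zero]
  apply hQ.eq_zero
  intro y
  have e1 := hall (x + y)
  rw [Q_add, map_add, polar_add_left, polar_add_right, polar_add_right, hall x, hall y,
    show polar QE x (Y y) = polar QE (Y x) y from (hsa x y).symm, polar_comm QE y (Y x)] at e1
  rw [polar_sub_left, polar_smul_left, smul_eq_mul]
  apply mul_left_cancel₀ h2
  linear_combination e1

/-- stable commuting spaces of selfadjoint maps are scalar -/
theorem scalar_of_comm [Finite F] (h2 : (2 : F) ≠ 0) (hQ : Nd QE) (h3 : 3 ≤ finrank F E)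
    (hex : 4 ≤ finrank F E ∨ ∃ s : F, s ≠ 0 ∧ s ≠ 1 ∧ s ≠ -1) (N : Submodule F (E →ₗ[F] E))
    (hsa : ∀ Y ∈ N, ∀ x y, polar QE (Y x) y = polar QE x (Y y))
    (hcomm : ∀ Y ∈ N, ∀ Z ∈ N, ∀ x, Y (Z x) = Z (Y x))
    (hconj : ∀ a f, QE a = 0 → polar QE a f = 0 → ∀ Y ∈ N, ∃ Z ∈ N,
      ∀ x, Z (siegMap QE a f x) = siegMap QE a f (Y x))
    {Y : E →ₗ[F] E} (hY : Y ∈ N) : ∃ c : F, ∀ x, Y x = c • x := by
  by_contra hns
  obtain ⟨a, ha, hγ⟩ : ∃ a, QE a = 0 ∧ polar QE a (Y a) ≠ 0 := by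
    by_contra hcon
    push Not at hcon
    exact hns (scalar_of_van h2 hQ h3 hex (hsa Y hY) hcon)
  have ha0 : a ≠ 0 := by
    rintro rfl
    exact hγ (by rw [polar_zero_left])
  obtain ⟨T, hT, hTx⟩ := theta_mem h2 hQ h3 hex N hsa hconj hY ha hγ
  obtain ⟨z, -, hz, haz⟩ := exists_partner hQ (nds_top hQ) (z := a) trivial ha0 ha
  have hz0 : z ≠ 0 := by
    rintro rfl
    rw [polar_zero_right] at haz
    exact zero_ne_one haz
  obtain ⟨f, -, hzf, hQf⟩ := exists_nonsing_perp' hQ (nds_top hQ) (by rw [finrank_top]; exact h3)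
    (e := z) trivial hz0 hz
  obtain ⟨Z, hZ, hZx⟩ := hconj z f hz hzf T hT
  have haa : polar QE a a = 0 := by rw [polar_self', ha, mul_zero]
  have hza : polar QE z a = 1 := by rw [polar_comm, haz]
  have e1 : Z a = polar QE a (siegMap QE z (-f) a) • siegMap QE z f a := by
    conv_lhs => rw [← sieg_neg hz hzf a]
    rw [hZx, hTx, map_smul]
  have e2 := hcomm T hT Z hZ a
  rw [e1, map_smul, hTx, hTx a, haa, zero_smul, map_zero, smul_smul] at e2
  have e3 : polar QE a (siegMap QE z f a) = - QE f := by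
    rw [siegMap_apply]
    simp only [polar_add_right, polar_sub_right, polar_smul_right, haa, hza, haz, smul_eq_mul, polar_comm QE f a]
    ring
  have e4 : polar QE a (siegMap QE z (-f) a) = - QE f := by
    rw [siegMap_apply]
    simp only [polar_add_right, polar_sub_right, polar_smul_right, haa, hza, haz, smul_eq_mul,
      polar_neg_left, polar_neg_right, QuadraticMap.map_neg, polar_comm QE f a]
    ring
  rw [e3, e4] at e2
  rcases smul_eq_zero.1 e2 with h | h
  · exact mul_ne_zero (neg_ne_zero.2 hQf) (neg_ne_zero.2 hQf) h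
  · exact ha0 h

end pure

section main

variable {F E W : Type*} [Field F] [AddCommGroup E] [Module F E] [FiniteDimensional F E]
  [AddCommGroup W] [Module F W] [FiniteDimensional F W]
  {QE : QuadraticForm F E} {QW : QuadraticForm F W} {Q : QuadraticForm F (W →ₗ[F] E)}
  {M : Subgroup ((W →ₗ[F] E) ≃ₗ[F] (W →ₗ[F] E))}

theorem tb_add (a a' : E) (b : W) : tb QW (a + a') b = tb QW a b + tb QW a' b :=
  LinearMap.ext fun w => by simp only [tb_apply, LinearMap.add_apply, smul_add]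

theorem tb_neg (a : E) (b : W) : tb QW (-a) b = - tb QW a b :=
  LinearMap.ext fun w => by simp only [tb_apply, LinearMap.neg_apply, smul_neg]

theorem tb_sub (a a' : E) (b : W) : tb QW (a - a') b = tb QW a b - tb QW a' b :=
  LinearMap.ext fun w => by simp only [tb_apply, LinearMap.sub_apply, smul_sub]

theorem tb_smul (c : F) (a : E) (b : W) : tb QW (c • a) b = c • tb QW a b :=
  LinearMap.ext fun w => by simp only [tb_apply, LinearMap.smul_apply, smul_comm c]

theorem tb_zero (b : W) : tb QW (0 : E) b = 0 :=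
  LinearMap.ext fun w => by simp only [tb_apply, LinearMap.zero_apply, smul_zero]

/-- the tensor map, linear in the first variable -/
noncomputable def tbl (QW : QuadraticForm F W) (E : Type*) [AddCommGroup E] [Module F E]
    [FiniteDimensional F E] (b : W) :
    E →ₗ[F] (W →ₗ[F] E) where
  toFun a := tb QW a b
  map_add' a a' := tb_add a a' b
  map_smul' c a := tb_smul c a b

theorem tbl_apply (b : W) (a : E) : tbl QW E b a = tb QW a b := rfl

/-- an element of the radical with its linear map -/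
def RS (QW : QuadraticForm F W) (b : W) (r : (W →ₗ[F] E) ≃ₗ[F] (W →ₗ[F] E))
    (A : (W →ₗ[F] E) → E) : Prop :=
  (∀ y, r (tb QW y b) = tb QW y b) ∧ ∀ v : W →ₗ[F] E, v b = 0 → r v = v + tb QW (A v) b

/-- the additive maps of the radical -/
def AA (QW : QuadraticForm F W) (M : Subgroup ((W →ₗ[F] E) ≃ₗ[F] (W →ₗ[F] E))) (b : W)
    (A : (W →ₗ[F] E) → E) : Prop := ∃ r ∈ M, RS QW b r A

theorem AA.add {b : W} {A A' : (W →ₗ[F] E) → E} (h : AA QW M b A)
    (h' : AA QW M b A') : AA QW M b (fun v => A v + A' v) := by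
  obtain ⟨r, hr, h1, h2⟩ := h
  obtain ⟨r', hr', h1', h2'⟩ := h'
  refine ⟨r * r', M.mul_mem hr hr', fun y => ?_, fun v hv => ?_⟩
  · rw [LinearEquiv.mul_apply, h1', h1]
  · rw [LinearEquiv.mul_apply, h2' v hv, map_add, h1, h2 v hv, tb_add, add_assoc]

theorem AA.neg {b : W} {A : (W →ₗ[F] E) → E} (h : AA QW M b A) : AA QW M b (fun v => - A v) := by
  obtain ⟨r, hr, h1, h2⟩ := h
  refine ⟨r⁻¹, M.inv_mem hr, fun y => ?_, fun v hv => ?_⟩
  · exact (LinearEquiv.symm_apply_eq r).2 (h1 y).symm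
  · refine (LinearEquiv.symm_apply_eq r).2 ?_
    rw [map_add, h2 v hv, h1, tb_neg, add_neg_cancel_right]

theorem AA.congr {b : W} {A A' : (W →ₗ[F] E) → E} (h : AA QW M b A) (hA : ∀ v, v b = 0 → A v = A' v) :
    AA QW M b A' := by
  obtain ⟨r, hr, h1, h2⟩ := h
  exact ⟨r, hr, h1, fun v hv => by rw [← hA v hv, h2 v hv]⟩

theorem AA.conj {b : W} {A : (W →ₗ[F] E) → E} (h : AA QW M b A)
    {s : (W →ₗ[F] E) ≃ₗ[F] (W →ₗ[F] E)} (hs : s ∈ M) (h1 : ∀ y, s (tb QW y b) = tb QW y b)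
    (h2 : ∀ v : W →ₗ[F] E, v b = 0 → (s v) b = 0) : AA QW M b (fun v => A (s v)) := by
  obtain ⟨r, hr, h3, h4⟩ := h
  have h5 : ∀ y, s⁻¹ (tb QW y b) = tb QW y b := fun y => (LinearEquiv.symm_apply_eq s).2 (h1 y).symm
  refine ⟨s⁻¹ * r * s, M.mul_mem (M.mul_mem (M.inv_mem hs) hr) hs, fun y => ?_, fun v hv => ?_⟩
  · rw [LinearEquiv.mul_apply, LinearEquiv.mul_apply, h1, h3, h5]
  · rw [LinearEquiv.mul_apply, LinearEquiv.mul_apply, h4 _ (h2 v hv), map_add, h5]
    congr 1
    exact LinearEquiv.symm_apply_apply s v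

theorem SgV_tb {b z f : W} (hbz : polar QW b z = 0) (hbf : polar QW b f = 0) (y : E) :
    SgV QW z f (tb QW y b) = tb QW y b := by
  rw [SgV, tb_apply, tb_apply, hbz, hbf, zero_smul, tb_zero, tb_zero]
  simp

theorem SgV_b {b z f : W} (hbz : polar QW b z = 0) (hbf : polar QW b f = 0) (v : W →ₗ[F] E) :
    (SgV QW z f v) b = v b := by
  rw [SgV]
  simp only [LinearMap.sub_apply, LinearMap.add_apply, LinearMap.smul_apply, tb_apply,
    polar_comm QW z b, polar_comm QW f b, hbz, hbf]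
  simp

theorem AA.sieg (T : TO QE QW Q M) {b : W} {A : (W →ₗ[F] E) → E} (h : AA QW M b A) {z f : W}
    (hz : QW z = 0) (hzf : polar QW z f = 0) (hbz : polar QW b z = 0) (hbf : polar QW b f = 0) :
    AA QW M b (fun v => A (SgV QW z f v)) := by
  obtain ⟨s, hs, hsv⟩ := T.tB z f hz hzf
  exact (h.conj hs (fun y => by rw [hsv, SgV_tb hbz hbf])
    (fun v hv => by rw [hsv, SgV_b hbz hbf, hv])).congr fun v _ => by rw [hsv]

theorem SgV_SgV {z e f : W} (hz : QW z = 0) (hze : polar QW z e = 0) (hzf : polar QW z f = 0)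
    (v : W →ₗ[F] E) : SgV QW z e (SgV QW z f v) - SgV QW z e v - SgV QW z f v + v =
      -(polar QW e f) • tb QW (v z) z := by
  apply LinearMap.ext
  intro w
  have hzz : polar QW z z = 0 := by rw [polar_self', hz, mul_zero]
  simp only [SgV, LinearMap.sub_apply, LinearMap.add_apply, LinearMap.smul_apply, tb_apply,
    hzz, hze, hzf, polar_comm QW f z, polar_comm QW e z, polar_comm QW f e]
  module

theorem nonsing_perp (hQ : Nd QW) (hW : 5 ≤ finrank F W) (b z : W) :
    ∃ g, polar QW b g = 0 ∧ polar QW z g = 0 ∧ QW g ≠ 0 := by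
  by_contra hcon
  push Not at hcon
  set D := perp QW (Submodule.span F {b, z}) with hD
  have hc := finrank_cut hQ (⊤ : Submodule F W) b z
  rw [finrank_top, top_inf_eq, ← hD] at hc
  have hmem : ∀ x, x ∈ D ↔ polar QW b x = 0 ∧ polar QW z x = 0 := by
    intro x
    rw [hD, mem_perp_span]
    simp
  have h1 : D ≤ perp QW D := by
    intro x hx
    rw [mem_perp]
    intro y hy
    have h2 := (hmem _).1 (D.add_mem hy hx)
    have h3 := (hmem _).1 hx
    have h4 := (hmem _).1 hy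
    rw [polar, hcon _ h2.1 h2.2, hcon _ h3.1 h3.2, hcon _ h4.1 h4.2]
    ring
  have h2 := Submodule.finrank_mono h1
  have h3 := hQ.finrank_add_finrank_perp D
  omega

/-- rank one elements -/
theorem AA.rank (T : TO QE QW Q M) {b : W} {A : (W →ₗ[F] E) →ₗ[F] E} (h : AA QW M b A) {z : W}
    (hz : QW z = 0) (hbz : polar QW b z = 0) (t : F) : AA QW M b (fun v => t • A (tb QW (v z) z)) := by
  obtain ⟨g, hbg, hzg, hg⟩ := nonsing_perp T.ndW T.hW b z
  have hzc : ∀ c : F, polar QW z (c • g) = 0 := fun c => by rw [polar_smul_right, hzg, smul_zero]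
  have hbc : ∀ c : F, polar QW b (c • g) = 0 := fun c => by rw [polar_smul_right, hbg, smul_zero]
  set c : F := -(t * (2 * QW g)⁻¹) with hc
  have h1 := h.sieg T hz (hzc c) hbz (hbc c)
  have h2 := h1.sieg T hz hzg hbz hbg
  have h3 := h.sieg T hz hzg hbz hbg
  refine ((h2.add (h1.neg)).add ((h3.neg).add h)).congr fun v hv => ?_
  have e1 := SgV_SgV (E := E) hz (hzc c) hzg v
  have e2 : polar QW (c • g) g = -t := by
    rw [polar_smul_left, polar_self', smul_eq_mul, hc, neg_mul, mul_assoc,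
      inv_mul_cancel₀ (mul_ne_zero T.h2 hg), mul_one]
  rw [e2, neg_neg] at e1
  rw [← map_smul, ← e1]
  simp only [map_add, map_sub]
  abel

theorem RS.fix {b : W} (hb : b ≠ 0) (hQW : Nd QW) (hQb : QW b = 0) {r : (W →ₗ[F] E) ≃ₗ[F] (W →ₗ[F] E)}
    {A : (W →ₗ[F] E) → E} (h : RS QW b r A) (y : E) : A (tb QW y b) = 0 := by
  obtain ⟨h1, h2⟩ := h
  have h3 := h2 (tb QW y b) (by rw [tb_apply, polar_self', hQb, mul_zero, zero_smul])
  rw [h1, left_eq_add] at h3
  obtain ⟨c, hc⟩ := hQW.exists_polar_one' hb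
  have h4 := congrArg (fun v : W →ₗ[F] E => v c) h3
  simp only [tb_apply, hc, one_smul, LinearMap.zero_apply] at h4
  exact h4

/-- values at `b` -/
theorem RS.at_b (T : TO QE QW Q M) {b : W} (hQb : QW b = 0)
    {r : (W →ₗ[F] E) ≃ₗ[F] (W →ₗ[F] E)} (hr : r ∈ M) {A : (W →ₗ[F] E) → E}
    (h : RS QW b r A) (v : W →ₗ[F] E) : (r v) b = v b := by
  rw [← sub_eq_zero]
  apply T.ndE.eq_zero
  intro y
  rw [polar_sub_left, ← T.pol y b v, ← T.pol y b (r v), sub_eq_zero]
  conv_lhs => rw [← h.1 y]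
  exact O_polar (T.hM hr) _ _

/-- the adjoint formula -/
theorem RS.adj (T : TO QE QW Q M) {b : W} (hQb : QW b = 0)
    {r : (W →ₗ[F] E) ≃ₗ[F] (W →ₗ[F] E)} (hr : r ∈ M) {A : (W →ₗ[F] E) → E}
    (h : RS QW b r A) (v : W →ₗ[F] E) {w : W} (hbw : polar QW b w = 0) (x : E) :
    polar QE ((r v - v) w) x = - polar QE (v b) (A (tb QW x w)) := by
  have h1 : r (tb QW x w) = tb QW x w + tb QW (A (tb QW x w)) b :=
    h.2 _ (by rw [tb_apply, polar_comm, hbw, zero_smul])
  have h2 : polar Q (r (tb QW x w)) (r v) = polar Q (tb QW x w) v := O_polar (T.hM hr) _ _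
  rw [h1, polar_add_left, T.pol, T.pol, T.pol, h.at_b T hQb hr] at h2
  rw [LinearMap.sub_apply, polar_sub_left, ← h2]
  ring

/-- commutators -/
theorem comm_ZX (T : TO QE QW Q M) {b : W} (hQb : QW b = 0)
    {r r' : (W →ₗ[F] E) ≃ₗ[F] (W →ₗ[F] E)} (hr : r ∈ M) (hr' : r' ∈ M) {A A' : (W →ₗ[F] E) → E}
    (h : RS QW b r A) (h' : RS QW b r' A') {X : E →ₗ[F] E}
    (hX : ∀ v : W →ₗ[F] E, A (r' v - v) - A' (r v - v) = X (v b)) : ZX QW M b X := by
  refine ⟨r * r' * (r' * r)⁻¹, M.mul_mem (M.mul_mem hr hr') (M.inv_mem (M.mul_mem hr' hr)), fun u => ?_⟩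
  obtain ⟨v, hv⟩ : ∃ v, v = (r' * r)⁻¹ u := ⟨_, rfl⟩
  have hu : r' (r v) = u := by
    rw [hv]; exact LinearEquiv.apply_symm_apply (r' * r) u
  rw [LinearEquiv.mul_apply, ← hv, LinearEquiv.mul_apply]
  have e1 : (r' v - v) b = 0 := by rw [LinearMap.sub_apply, h'.at_b T hQb hr', sub_self]
  have e2 : (r v - v) b = 0 := by rw [LinearMap.sub_apply, h.at_b T hQb hr, sub_self]
  have e3 := h.2 _ e1
  have e4 := h'.2 _ e2
  rw [map_sub] at e3 e4
  have e5 : u b = v b := by rw [← hu, h'.at_b T hQb hr', h.at_b T hQb hr]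
  rw [e5, ← hX, tb_sub, ← hu]
  have e6 : r (r' v) = r v + (r' v - v + tb QW (A (r' v - v)) b) := by rw [← e3]; abel
  have e7 : r' (r v) = r' v + (r v - v + tb QW (A' (r v - v)) b) := by rw [← e4]; abel
  rw [e6, e7]
  abel

/-- selfadjointness -/
theorem RS.selfadj (T : TO QE QW Q M) {b : W} (hb : b ≠ 0) (hQb : QW b = 0)
    (hno : ∀ X : E →ₗ[F] E, ZX QW M b X → X = 0)
    {r : (W →ₗ[F] E) ≃ₗ[F] (W →ₗ[F] E)} (hr : r ∈ M) {A : (W →ₗ[F] E) →ₗ[F] E}
    (h : RS QW b r A) {e : W} (hbe : polar QW b e = 0) (x y : E) :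
    polar QE (A (tb QW x e)) y = polar QE x (A (tb QW y e)) := by
  obtain ⟨s, hs, hsv⟩ := T.tB b e hQb hbe
  have hs' : RS QW b s (fun v => - v e) := by
    have hbb : polar QW b b = 0 := by rw [polar_self', hQb, mul_zero]
    refine ⟨fun y => by rw [hsv, SgV_tb hbb hbe], fun v hv => ?_⟩
    rw [hsv, SgV, hv, tb_zero, tb_zero, tb_neg]
    simp [sub_eq_add_neg]
  obtain ⟨b1, hb1⟩ := T.ndW.exists_polar_one' hb
  have hb1' : polar QW b1 b = 1 := by rw [polar_comm, hb1]
  obtain ⟨X, hX⟩ : ∃ X : E →ₗ[F] E, ∀ y, X y = A (tb QW y e) + (r (tb QW y b1) - tb QW y b1) e :=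
    ⟨A ∘ₗ tbl QW E e + (LinearMap.applyₗ e) ∘ₗ ((r : (W →ₗ[F] E) →ₗ[F] (W →ₗ[F] E)) ∘ₗ tbl QW E b1 - tbl QW E b1),
      fun y => rfl⟩
  have h1 : ZX QW M b X := by
    apply comm_ZX T hQb hr hs h hs'
    intro v
    rw [hX, hsv]
    have e1 : SgV QW b e v - v = tb QW (v b) e - tb QW (v e) b - QW e • tb QW (v b) b := by
      rw [SgV]; abel
    rw [e1, map_sub, map_sub, map_smul, h.fix hb T.ndW hQb, h.fix hb T.ndW hQb, smul_zero, sub_zero, sub_zero,
      sub_neg_eq_add]
    congr 1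
    rw [← sub_eq_zero]
    apply T.ndE.eq_zero
    intro y
    rw [polar_sub_left, h.adj T hQb hr v hbe, h.adj T hQb hr _ hbe, tb_apply, hb1', one_smul, sub_self]
  have h2 := hno X h1
  have h3 := hX x
  rw [h2, LinearMap.zero_apply] at h3
  have h4 : A (tb QW x e) = -((r (tb QW x b1) - tb QW x b1) e) := (neg_eq_of_add_eq_zero_left h3.symm).symm
  rw [h4, polar_neg_left, h.adj T hQb hr _ hbe, neg_neg, tb_apply, hb1', one_smul]

/-- commuting -/
theorem comm_of (T : TO QE QW Q M) {b : W} (hb : b ≠ 0) (hQb : QW b = 0)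
    (hno : ∀ X : E →ₗ[F] E, ZX QW M b X → X = 0) {z z' : W} (hbz : polar QW b z = 0)
    (hbz' : polar QW b z' = 0) (hzz : polar QW z z' ≠ 0) {Y Y' : E →ₗ[F] E}
    (h : AA QW M b (fun v => Y (v z))) (h' : AA QW M b (fun v => Y' (v z')))
    (hY : ∀ x y, polar QE (Y x) y = polar QE x (Y y)) (hY' : ∀ x y, polar QE (Y' x) y = polar QE x (Y' y))
    (x : E) : Y (Y' x) = Y' (Y x) := by
  obtain ⟨r, hr, h1⟩ := h
  obtain ⟨r', hr', h1'⟩ := h'
  have e1 : ∀ v : W →ₗ[F] E, (r' v - v) z = -(polar QW z z') • Y' (v b) := by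
    intro v
    rw [← sub_eq_zero]
    apply T.ndE.eq_zero
    intro y
    rw [polar_sub_left, h1'.adj T hQb hr' v hbz, tb_apply, polar_smul_left, map_smul, polar_smul_right, hY']
    simp
  have e2 : ∀ v : W →ₗ[F] E, (r v - v) z' = -(polar QW z z') • Y (v b) := by
    intro v
    rw [← sub_eq_zero]
    apply T.ndE.eq_zero
    intro y
    rw [polar_sub_left, h1.adj T hQb hr v hbz', tb_apply, polar_smul_left, map_smul, polar_smul_right, hY,
      polar_comm QW z' z]
    simp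
  have h2 := comm_ZX T hQb hr hr' h1 h1' (X := -(polar QW z z') • (Y ∘ₗ Y' - Y' ∘ₗ Y)) (by
    intro v
    simp only [e1, e2, map_smul, LinearMap.smul_apply, LinearMap.sub_apply, LinearMap.comp_apply, smul_sub])
  have h3 := hno _ h2
  have h4 := congrArg (fun L : E →ₗ[F] E => L x) h3
  simp only [LinearMap.smul_apply, LinearMap.sub_apply, LinearMap.comp_apply, LinearMap.zero_apply] at h4
  exact sub_eq_zero.1 ((smul_eq_zero.1 h4).resolve_left (neg_ne_zero.2 hzz))

/-- transport -/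
theorem transport [Finite F] (T : TO QE QW Q M) {b : W} (hb : b ≠ 0) (hQb : QW b = 0) {z : W} (hz : QW z = 0)
    (hbz : polar QW b z = 0) (hzb : ∀ c : F, z ≠ c • b) :
    ∃ z', polar QW b z' = 0 ∧ polar QW z z' ≠ 0 ∧
      ∀ Y : E →ₗ[F] E, AA QW M b (fun v => Y (v z)) → AA QW M b (fun v => Y (v z')) := by
  obtain ⟨b1, -, hQb1, hbb1⟩ := exists_partner T.ndW (nds_top T.ndW) (z := b) trivial hb hQb
  have hb1b : polar QW b1 b = 1 := by rw [polar_comm, hbb1]
  have hbb : polar QW b b = 0 := by rw [polar_self', hQb, mul_zero]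
  have hc := finrank_cut T.ndW (⊤ : Submodule F W) b b1
  have hnd := nds_cut T.ndW (nds_top T.ndW) (e := b) (f := b1) trivial trivial hQb hQb1 hbb1
  have hW := T.hW
  rw [finrank_top] at hc
  obtain ⟨w0, hw0⟩ : ∃ w0, w0 = z - polar QW b1 z • b := ⟨_, rfl⟩
  have hw0A : w0 ∈ ⊤ ⊓ perp QW (Submodule.span F {b, b1}) := by
    refine mem_cut.2 ⟨trivial, ?_, ?_⟩
    · rw [hw0, polar_sub_right, polar_smul_right, hbz, hbb, smul_zero, sub_zero]
    · rw [hw0, polar_sub_right, polar_smul_right, hb1b, smul_eq_mul, mul_one, sub_self]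
  have hw00 : w0 ≠ 0 := by
    rw [hw0]
    exact sub_ne_zero.2 (hzb _)
  obtain ⟨y, hyA, hQy, hw0y⟩ := exists_sing_polar T.ndW hnd (by omega) hw0A hw00
  have hby := (mem_cut.1 hyA).2.1
  have hzy : polar QW z y = 1 := by
    have h1 : z = w0 + polar QW b1 z • b := by rw [hw0]; abel
    rw [h1, polar_add_left, polar_smul_left, hw0y, hby, smul_zero, add_zero]
  have hyz : polar QW y z = 1 := by rw [polar_comm, hzy]
  obtain ⟨f, hbf, hyf, hQf⟩ := nonsing_perp T.ndW T.hW b y
  have hzz : polar QW z z = 0 := by rw [polar_self', hz, mul_zero]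
  refine ⟨z + polar QW f z • y - f - QW f • y, ?_, ?_, fun Y hY => ?_⟩
  · simp only [polar_add_right, polar_sub_right, polar_smul_right, hbz, hby, hbf, smul_zero]
    ring
  · simp only [polar_add_right, polar_sub_right, polar_smul_right, hzz, hzy, polar_comm QW f z, smul_eq_mul, mul_one]
    intro h
    apply hQf
    linear_combination -h
  · refine (hY.sieg T hQy hyf hby hbf).congr fun v _ => ?_
    congr 1
    rw [SgV]
    simp only [LinearMap.sub_apply, LinearMap.add_apply, LinearMap.smul_apply, tb_apply, hyz, one_smul,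
      map_add, map_sub, map_smul]

theorem tb_add' (a : E) (b b' : W) : tb QW a (b + b') = tb QW a b + tb QW a b' :=
  LinearMap.ext fun w => by simp only [tb_apply, LinearMap.add_apply, polar_add_left, add_smul]

theorem tb_sub' (a : E) (b b' : W) : tb QW a (b - b') = tb QW a b - tb QW a b' :=
  LinearMap.ext fun w => by simp only [tb_apply, LinearMap.sub_apply, polar_sub_left, sub_smul]

theorem tb_smul' (c : F) (a : E) (b : W) : tb QW a (c • b) = c • tb QW a b :=
  LinearMap.ext fun w => by simp only [tb_apply, LinearMap.smul_apply, polar_smul_left, smul_smul, smul_eq_mul]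

/-- the scalar case: all vectors -/
theorem all_scalar [Finite F] (T : TO QE QW Q M) {b : W} (hb : b ≠ 0) (hQb : QW b = 0)
    {A : (W →ₗ[F] E) →ₗ[F] E}
    (hsc : ∀ z, QW z = 0 → polar QW b z = 0 → ∃ c : F, ∀ x, A (tb QW x z) = c • x) {w : W}
    (hbw : polar QW b w = 0) : ∃ c : F, ∀ x, A (tb QW x w) = c • x := by
  obtain ⟨b1, -, hQb1, hbb1⟩ := exists_partner T.ndW (nds_top T.ndW) (z := b) trivial hb hQb
  have hc := finrank_cut T.ndW (⊤ : Submodule F W) b b1
  have hnd := nds_cut T.ndW (nds_top T.ndW) (e := b) (f := b1) trivial trivial hQb hQb1 hbb1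
  have hW := T.hW
  rw [finrank_top] at hc
  obtain ⟨e, heA, f, hfA, hQe, hQf, hef⟩ := exists_pair_in T.ndW hnd (by omega)
  have hbe := (mem_cut.1 heA).2.1
  have hbf := (mem_cut.1 hfA).2.1
  obtain ⟨g, hg⟩ : ∃ g, g = w - polar QW f w • e - polar QW e w • f := ⟨_, rfl⟩
  have hee : polar QW e e = 0 := by rw [polar_self', hQe, mul_zero]
  have hff : polar QW f f = 0 := by rw [polar_self', hQf, mul_zero]
  have hfe : polar QW f e = 1 := by rw [polar_comm, hef]
  have hbg : polar QW b g = 0 := by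
    rw [hg]
    simp only [polar_sub_right, polar_smul_right, hbw, hbe, hbf]
    simp
  have heg : polar QW e g = 0 := by
    rw [hg]
    simp only [polar_sub_right, polar_smul_right, hee, hef]
    simp
  have hfg : polar QW f g = 0 := by
    rw [hg]
    simp only [polar_sub_right, polar_smul_right, hff, hfe]
    simp
  have hs : QW (e + g - QW g • f) = 0 := by
    rw [Q_sub, Q_add, Q_smul, hQe, hQf, heg, polar_add_left, polar_smul_right, polar_smul_right, hef,
      polar_comm QW g f, hfg]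
    simp
  obtain ⟨c1, h1⟩ := hsc _ hs (by
    simp only [polar_add_right, polar_sub_right, polar_smul_right, hbe, hbf, hbg]
    simp)
  obtain ⟨c2, h2⟩ := hsc e hQe hbe
  obtain ⟨c3, h3⟩ := hsc f hQf hbf
  refine ⟨c1 - c2 + QW g * c3 + polar QW f w * c2 + polar QW e w * c3, fun x => ?_⟩
  have h4 : w = (e + g - QW g • f) - e + QW g • f + polar QW f w • e + polar QW e w • f := by
    rw [hg]; abel
  have h5 : tb QW x w = tb QW x (e + g - QW g • f) - tb QW x e + QW g • tb QW x f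
      + polar QW f w • tb QW x e + polar QW e w • tb QW x f := by
    conv_lhs => rw [h4]
    simp only [tb_add', tb_sub', tb_smul']
  rw [h5]
  simp only [map_add, map_sub, map_smul] at h1 ⊢
  rw [h1, h2, h3]
  module

theorem exists_dual_rep (hQ : Nd QW) (φ : Dual F W) : ∃ e : W, ∀ w, polar QW e w = φ w := by
  refine ⟨(LinearMap.BilinForm.toDual (polarBilin QW) hQ).symm φ, fun w => ?_⟩
  exact LinearMap.BilinForm.apply_toDual_symm_apply (B := polarBilin QW) (hB := hQ) φ w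

/-- the scalar case -/
theorem scalar_case [Finite F] (T : TO QE QW Q M) {b : W} (hb : b ≠ 0) (hQb : QW b = 0)
    (hno : ∀ X : E →ₗ[F] E, ZX QW M b X → X = 0)
    {r : (W →ₗ[F] E) ≃ₗ[F] (W →ₗ[F] E)} (hr : r ∈ M) {A : (W →ₗ[F] E) →ₗ[F] E} (h : RS QW b r A)
    (hsc : ∀ z, QW z = 0 → polar QW b z = 0 → ∃ c : F, ∀ x, A (tb QW x z) = c • x) :
    ∃ e, polar QW b e = 0 ∧ ∀ v, r v = SgV QW b e v := by
  have hE := T.hE
  obtain ⟨x0, hx0⟩ : ∃ x0 : E, x0 ≠ 0 := by
    haveI : Nontrivial E := Module.nontrivial_of_finrank_pos (R := F) (by omega)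
    exact exists_ne 0
  obtain ⟨φ, hφ⟩ := exists_dual0 (F := F) hx0
  obtain ⟨e, he⟩ := exists_dual_rep T.ndW (-(φ ∘ₗ A ∘ₗ (pt x0 ∘ₗ polarBilin QW)))
  have he' : ∀ w, polar QW e w = - φ (A (tb QW x0 w)) := he
  have hbb : polar QW b b = 0 := by rw [polar_self', hQb, mul_zero]
  have heb : polar QW e b = 0 := by rw [he', h.fix hb T.ndW hQb, map_zero, neg_zero]
  have hbe : polar QW b e = 0 := by rw [polar_comm, heb]
  have h1 : ∀ w, polar QW b w = 0 → ∀ x, A (tb QW x w) = -(polar QW e w) • x := by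
    intro w hw x
    obtain ⟨c, hc⟩ := all_scalar T hb hQb hsc hw
    rw [he', neg_neg, hc x0, map_smul, hφ, smul_eq_mul, mul_one, hc]
  have h2 : ∀ v : W →ₗ[F] E, v b = 0 → A v = - v e := by
    intro v hv
    have h3 : v ∈ LinearMap.ker (A + LinearMap.applyₗ e) := by
      apply TenSpH94.span_perp _ hv
      intro x ψ hψ
      obtain ⟨w, hw⟩ := exists_dual_rep T.ndW ψ
      have hψ' : ψ = polarBilin QW w := LinearMap.ext fun u => (hw u).symm
      have hwb : polar QW w b = 0 := by rw [hw, hψ]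
      rw [LinearMap.mem_ker, hψ']
      show A (tb QW x w) + tb QW x w e = 0
      rw [h1 w (by rw [polar_comm, hwb]), tb_apply, polar_comm QW e w, neg_smul, neg_add_cancel]
    exact eq_neg_of_add_eq_zero_left h3
  obtain ⟨s, hs, hsv⟩ := T.tB b e hQb hbe
  have hss : ∀ v : W →ₗ[F] E, v b = 0 → s v = r v := by
    intro v hv
    rw [hsv, h.2 v hv, h2 v hv, SgV, hv, tb_zero, tb_zero, tb_neg]
    simp [sub_eq_add_neg]
  obtain ⟨m, hm⟩ : ∃ m, m = s⁻¹ * r := ⟨_, rfl⟩
  have hmM : m ∈ M := by rw [hm]; exact M.mul_mem (M.inv_mem hs) hr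
  have hm1 : ∀ v : W →ₗ[F] E, v b = 0 → m v = v := by
    intro v hv
    rw [hm, LinearEquiv.mul_apply, ← hss v hv]
    exact LinearEquiv.symm_apply_apply s v
  have hmR : RS QW b m (fun _ => (0 : E)) := by
    refine ⟨fun y => hm1 _ (by rw [tb_apply, hbb, zero_smul]), fun v hv => ?_⟩
    rw [hm1 v hv, tb_zero, add_zero]
  obtain ⟨b1, hb1⟩ := T.ndW.exists_polar_one' hb
  have hb1' : polar QW b1 b = 1 := by rw [polar_comm, hb1]
  obtain ⟨X, hX⟩ : ∃ X : E →ₗ[F] E, ∀ y, X y = (m (tb QW y b1) - tb QW y b1) b1 :=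
    ⟨(LinearMap.applyₗ b1) ∘ₗ ((m : (W →ₗ[F] E) →ₗ[F] (W →ₗ[F] E)) ∘ₗ tbl QW E b1 - tbl QW E b1),
      fun y => rfl⟩
  have h4 : ∀ v : W →ₗ[F] E, m v - v = tb QW ((m v - v) b1) b := by
    intro v
    apply LinearMap.ext
    intro w
    have h5 : (m v - v) (w - polar QW b w • b1) = 0 := by
      apply T.ndE.eq_zero
      intro y
      rw [hmR.adj T hQb hmM v (by rw [polar_sub_right, polar_smul_right, hb1, smul_eq_mul, mul_one, sub_self]),
        polar_zero_right, neg_zero]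
    rw [map_sub, map_smul, sub_eq_zero] at h5
    rw [h5, tb_apply]
  have h6 : ∀ v : W →ₗ[F] E, m v = v + tb QW (X (v b)) b := by
    intro v
    have h7 : m (v - tb QW (v b) b1) = v - tb QW (v b) b1 :=
      hm1 _ (by rw [LinearMap.sub_apply, tb_apply, hb1', one_smul, sub_self])
    rw [map_sub] at h7
    have h8 : m v - v = m (tb QW (v b) b1) - tb QW (v b) b1 := by
      have h9 : m v = (m v - m (tb QW (v b) b1)) + m (tb QW (v b) b1) := by abel
      rw [h9, h7]; abel
    rw [hX, ← h8, ← h4]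
    abel
  have h7 := hno X ⟨m, hmM, h6⟩
  refine ⟨e, hbe, fun v => ?_⟩
  have h8 := h6 v
  rw [h7, LinearMap.zero_apply, tb_zero, add_zero, hm, LinearEquiv.mul_apply] at h8
  rw [← hsv]
  conv_rhs => rw [← h8]
  exact (LinearEquiv.apply_symm_apply s (r v)).symm

/-- the nonscalar case -/
theorem nonscalar_case [Finite F] (T : TO QE QW Q M) {b : W} (hb : b ≠ 0) (hQb : QW b = 0)
    (hno : ∀ X : E →ₗ[F] E, ZX QW M b X → X = 0)
    {r : (W →ₗ[F] E) ≃ₗ[F] (W →ₗ[F] E)} (hr : r ∈ M) {A : (W →ₗ[F] E) →ₗ[F] E} (h : RS QW b r A)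
    {z : W} (hz : QW z = 0) (hbz : polar QW b z = 0) : ∃ c : F, ∀ x, A (tb QW x z) = c • x := by
  by_cases hzb : ∃ c : F, z = c • b
  · obtain ⟨c, rfl⟩ := hzb
    refine ⟨0, fun x => ?_⟩
    rw [tb_smul', map_smul, h.fix hb T.ndW hQb, smul_zero, zero_smul]
  push Not at hzb
  obtain ⟨z', hbz', hzz', htr⟩ := transport T hb hQb hz hbz hzb
  obtain ⟨e, hbe, hze⟩ := T.ndW.exists_polar_one (Submodule.span F {b}) (v := z) (by
    intro hmem
    obtain ⟨c, hc⟩ := Submodule.mem_span_singleton.1 hmem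
    exact hzb c hc.symm)
  replace hbe : polar QW b e = 0 := mem_perp_singleton.1 hbe
  let N : Submodule F (E →ₗ[F] E) :=
    { carrier := {Y | ∀ t : F, AA QW M b (fun v => t • Y (v z))}
      add_mem' := fun {Y Y'} hY hY' t => ((hY t).add (hY' t)).congr fun v _ => by
        rw [LinearMap.add_apply, smul_add]
      zero_mem' := fun t => ⟨1, M.one_mem, fun y => rfl, fun v hv => by
        show v = v + tb QW (t • (0 : E)) b
        rw [smul_zero, tb_zero, add_zero]⟩
      smul_mem' := fun c Y hY t => (hY (t * c)).congr fun v _ => by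
        rw [LinearMap.smul_apply, smul_smul] }
  have hN : ∀ Y, Y ∈ N ↔ ∀ t : F, AA QW M b (fun v => t • Y (v z)) := fun Y => Iff.rfl
  have hN1 : ∀ Y ∈ N, AA QW M b (fun v => Y (v z)) := fun Y hY => by
    have := hY 1
    simpa only [one_smul] using this
  have hsa : ∀ Y ∈ N, ∀ x y, polar QE (Y x) y = polar QE x (Y y) := by
    intro Y hY x y
    obtain ⟨r1, hr1, h1⟩ := hN1 Y hY
    have h2 := RS.selfadj T hb hQb hno hr1 (A := Y ∘ₗ LinearMap.applyₗ z) h1 hbe x y
    simp only [LinearMap.comp_apply, LinearMap.applyₗ_apply_apply, tb_apply, polar_comm QW e z, hze, one_smul] at h2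
    exact h2
  have hcomm : ∀ Y ∈ N, ∀ Z ∈ N, ∀ x, Y (Z x) = Z (Y x) := by
    intro Y hY Z hZ x
    exact comm_of T hb hQb hno hbz hbz' hzz' (hN1 Y hY) (htr Z (hN1 Z hZ)) (hsa Y hY) (hsa Z hZ) x
  have hconj : ∀ a f, QE a = 0 → polar QE a f = 0 → ∀ Y ∈ N, ∃ Z ∈ N,
      ∀ x, Z (siegMap QE a f x) = siegMap QE a f (Y x) := by
    intro a f ha haf Y hY
    have haf' : polar QE a (-f) = 0 := by rw [polar_neg_right, haf, neg_zero]
    have hinv : ∀ x, siegMap QE a (-f) (siegMap QE a f x) = x := by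
      intro x
      have := sieg_neg ha haf' x
      rwa [neg_neg] at this
    obtain ⟨s, hs, hsv⟩ := T.tA a f ha haf
    refine ⟨siegMap QE a f ∘ₗ Y ∘ₗ siegMap QE a (-f), ?_, fun x => ?_⟩
    · rw [hN]
      intro t
      obtain ⟨r1, hr1, h1, h2⟩ := hY t
      have h3 : ∀ y, s (tb QW y b) = tb QW (siegMap QE a f y) b := by
        intro y
        rw [hsv]
        apply LinearMap.ext
        intro w
        rw [LinearMap.comp_apply, tb_apply, tb_apply, map_smul]
      have h4 : ∀ y, s⁻¹ (tb QW y b) = tb QW (siegMap QE a (-f) y) b := by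
        intro y
        refine (LinearEquiv.symm_apply_eq s).2 ?_
        rw [h3, sieg_neg ha haf]
      have h5 : ∀ (v : W →ₗ[F] E) w, (s⁻¹ v) w = siegMap QE a (-f) (v w) := by
        intro v w
        have h6 : s (s⁻¹ v) = v := LinearEquiv.apply_symm_apply s v
        have h7 := congrArg (fun u : W →ₗ[F] E => u w) h6
        simp only [hsv, LinearMap.comp_apply] at h7
        rw [← h7, hinv]
      refine ⟨s * r1 * s⁻¹, M.mul_mem (M.mul_mem hs hr1) (M.inv_mem hs), fun y => ?_, fun v hv => ?_⟩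
      · rw [LinearEquiv.mul_apply, LinearEquiv.mul_apply, h4, h1, h3, sieg_neg ha haf]
      · rw [LinearEquiv.mul_apply, LinearEquiv.mul_apply, h2 _ (by rw [h5, hv, map_zero]), map_add, h3]
        have h6 : s (s⁻¹ v) = v := LinearEquiv.apply_symm_apply s v
        rw [h6]
        show v + tb QW (siegMap QE a f (t • Y ((s⁻¹ v) z))) b =
          v + tb QW (t • siegMap QE a f (Y (siegMap QE a (-f) (v z)))) b
        rw [h5, map_smul]
    · simp only [LinearMap.comp_apply, hinv]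
  have hY0 : A ∘ₗ tbl QW E z ∈ N := by
    rw [hN]
    intro t
    exact AA.rank T ⟨r, hr, h⟩ hz hbz t
  exact scalar_of_comm T.h2 T.ndE T.hE T.hex N hsa hcomm hconj hY0

theorem exists_ZX [Finite F] (T : TO QE QW Q M) (hII : ¬ II QW M) :
    ∃ b : W, b ≠ 0 ∧ QW b = 0 ∧ ∃ X : E →ₗ[F] E, X ≠ 0 ∧ ZX QW M b X := by
  by_contra hcon
  push Not at hcon
  apply hII
  intro b hb hQb r hr hTv
  have hno : ∀ X : E →ₗ[F] E, ZX QW M b X → X = 0 := by
    intro X hX
    by_contra hX0
    exact hcon b hb hQb X hX0 hX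
  obtain ⟨b1, hb1⟩ := T.ndW.exists_polar_one' hb
  have h : RS QW b r ((LinearMap.applyₗ b1) ∘ₗ
      ((r : (W →ₗ[F] E) →ₗ[F] (W →ₗ[F] E)) - LinearMap.id) : (W →ₗ[F] E) →ₗ[F] E) := by
    refine ⟨hTv.1, fun v hv => ?_⟩
    obtain ⟨a, ha⟩ := hTv.2 v hv
    have h1 : ((LinearMap.applyₗ b1) ∘ₗ
      ((r : (W →ₗ[F] E) →ₗ[F] (W →ₗ[F] E)) - LinearMap.id) : (W →ₗ[F] E) →ₗ[F] E) v = a := by
      show (r v - v) b1 = a
      rw [ha, add_sub_cancel_left, tb_apply, hb1, one_smul]
    rw [h1, ha]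
  exact scalar_case T hb hQb hno hr h fun z hz hbz => nonscalar_case T hb hQb hno hr h hz hbz

end main

end Cfsg.Agent.Lib.TenOO_B1
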