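import Mathlib
import Cfsg.Agent.Lib.TenOO1
import Cfsg.Agent.Lib.OrthDec2H94

/-!
# Overgroups of `O ⊗ O`, piece B2: the centre of the radical is everything (helper14)
-/

set_option autoImplicit false
set_option linter.unusedSectionVars false
set_option linter.unusedSimpArgs false
set_option linter.unusedVariables false

namespace Cfsg.Agent.Lib.TenOO_B2

open QuadraticMap Module Cfsg.Agent.Lib.Quad Cfsg.Agent.Lib.OrthMax Cfsg.Agent.Lib.OrthNd
open Cfsg.Agent.Lib.TenSLH94 Cfsg.Agent.Lib.TenOO

section Abs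

variable {F E : Type*} [Field F] [AddCommGroup E] [Module F E] [FiniteDimensional F E]
  {QE : QuadraticForm F E}

/-- additive groups of skew maps stable under Siegel maps -/
structure Zs (QE : QuadraticForm F E) (z : (E →ₗ[F] E) → Prop) : Prop where
  add : ∀ X Y, z X → z Y → z (X + Y)
  neg : ∀ X, z X → z (-X)
  zero : z 0
  alt : ∀ X, z X → ∀ x, polar QE x (X x) = 0
  conj : ∀ a e, QE a = 0 → polar QE a e = 0 → ∀ X, z X →
    z (siegMap QE a e ∘ₗ X ∘ₗ siegMap QE a (-e))

theorem skew {X : E →ₗ[F] E} (h : ∀ x, polar QE x (X x) = 0) (x y : E) :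
    polar QE x (X y) = - polar QE y (X x) := by
  have h1 := h (x + y)
  rw [map_add, polar_add_left, polar_add_right, polar_add_right, h, h] at h1
  linear_combination h1

theorem conj_apply {X : E →ₗ[F] E} (h : ∀ x, polar QE x (X x) = 0) (a e v : E) :
    (siegMap QE a e ∘ₗ X ∘ₗ siegMap QE a (-e)) v = X v - polar QE a v • X e +
      (polar QE e v - QE e * polar QE a v) • X a +
      (polar QE a (X v) + polar QE a v * polar QE e (X a)) • e -
      (polar QE e (X v) + polar QE e v * polar QE e (X a) + QE e * polar QE a (X v)) • a := by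
  have h1 : polar QE a (X e) = - polar QE e (X a) := skew h a e
  have h2 := h a
  have h3 := h e
  rw [LinearMap.comp_apply, LinearMap.comp_apply, siegMap_apply, siegMap_apply]
  simp only [QuadraticMap.map_neg, polar_neg_left, map_add, map_sub, map_smul, map_neg, smul_neg,
    polar_add_right, polar_sub_right, polar_smul_right, polar_neg_right, h1, h2, h3, smul_eq_mul]
  module

theorem wdg_self (x : E) : wdg QE x x = 0 := LinearMap.ext fun v => by
  rw [wdg_apply, sub_self, LinearMap.zero_apply]

theorem wdg_add_left (x y w : E) : wdg QE (x + y) w = wdg QE x w + wdg QE y w :=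
  LinearMap.ext fun v => by
    rw [LinearMap.add_apply, wdg_apply, wdg_apply, wdg_apply, polar_add_left]; module

theorem wdg_add_right (x y w : E) : wdg QE x (y + w) = wdg QE x y + wdg QE x w :=
  LinearMap.ext fun v => by
    rw [LinearMap.add_apply, wdg_apply, wdg_apply, wdg_apply, polar_add_left]; module

theorem wdg_smul_left (t : F) (y w : E) : wdg QE (t • y) w = t • wdg QE y w :=
  LinearMap.ext fun v => by
    rw [LinearMap.smul_apply, wdg_apply, wdg_apply, polar_smul_left, smul_eq_mul]; module

theorem wdg_smul_right (t : F) (y w : E) : wdg QE y (t • w) = t • wdg QE y w :=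
  LinearMap.ext fun v => by
    rw [LinearMap.smul_apply, wdg_apply, wdg_apply, polar_smul_left, smul_eq_mul]; module

theorem wdg_swap (x y : E) : wdg QE x y = - wdg QE y x :=
  LinearMap.ext fun v => by
    rw [LinearMap.neg_apply, wdg_apply, wdg_apply]; module

theorem key {z : (E →ₗ[F] E) → Prop} (hz : Zs QE z) {X : E →ₗ[F] E} (hX : z X) {a e f : E}
    (ha : QE a = 0) (he : polar QE a e = 0) (hf : polar QE a f = 0) :
    z (wdg QE a (polar QE f (X a) • e + polar QE e (X a) • f - polar QE e f • X a)) := by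
  have h := hz.alt X hX
  have h1 := hz.conj a (e + f) ha (by rw [polar_add_right, he, hf, add_zero]) X hX
  have h2 := hz.conj a e ha he X hX
  have h3 := hz.conj a f ha hf X hX
  have h4 := hz.add _ _ (hz.add _ _ (hz.add _ _ h1 (hz.neg _ h2)) (hz.neg _ h3)) hX
  convert h4 using 1
  refine LinearMap.ext fun v => ?_
  rw [LinearMap.add_apply, LinearMap.add_apply, LinearMap.add_apply, LinearMap.neg_apply,
    LinearMap.neg_apply, conj_apply h, conj_apply h, conj_apply h, wdg_apply]
  have h5 : polar QE (X a) v = - polar QE a (X v) := by rw [polar_comm, skew h]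
  simp only [polar_add_left, polar_sub_left, polar_smul_left, map_add, Q_add, h5, smul_eq_mul,
    polar_comm QE f e]
  module

variable [Finite F]

theorem nds_top (hE : Nd QE) : NDs QE (⊤ : Submodule F E) := by
  rw [NDs, eq_bot_iff]
  rintro x ⟨-, hx⟩
  rw [Submodule.mem_bot]
  exact hE.eq_zero fun y => mem_perp'.1 hx y trivial

theorem exists_pair (hE : Nd QE) (h3 : 3 ≤ finrank F E) :
    ∃ a b : E, QE a = 0 ∧ QE b = 0 ∧ polar QE a b = 1 := by
  obtain ⟨e, -, f, -, h1, h2, h4⟩ := exists_pair_in hE (nds_top hE) (by rwa [finrank_top])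
  exact ⟨e, f, h1, h2, h4⟩

/-- a nonsingular vector orthogonal to a hyperbolic pair -/
theorem exists_third (hE : Nd QE) (h3 : 3 ≤ finrank F E) {a b : E} (ha : QE a = 0) (hb : QE b = 0)
    (hab : polar QE a b = 1) : ∃ e : E, polar QE a e = 0 ∧ polar QE b e = 0 ∧ QE e ≠ 0 := by
  have h1 := finrank_cut hE (⊤ : Submodule F E) a b
  rw [finrank_top] at h1
  obtain ⟨d, hd, hQd⟩ := Cfsg.Agent.Lib.OrthDecH94.exists_nonsing
    (nds_cut hE (nds_top hE) trivial trivial ha hb hab) (by omega)
  exact ⟨d, (mem_cut.1 hd).2.1, (mem_cut.1 hd).2.2, hQd⟩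

/-- partner -/
theorem partner (hE : Nd QE) {a : E} (ha : QE a = 0) (ha0 : a ≠ 0) :
    ∃ b : E, QE b = 0 ∧ polar QE a b = 1 := by
  obtain ⟨y, hy⟩ := hE.exists_polar_one' ha0
  obtain ⟨h1, h2⟩ := adjust_singular ha hy
  exact ⟨_, h1, h2⟩

/-- singular vectors span -/
theorem ind_sing (h2 : (2 : F) ≠ 0) (hE : Nd QE) (h3 : 3 ≤ finrank F E) (S : Submodule F E)
    (hS : ∀ a, QE a = 0 → a ∈ S) : S = ⊤ := by
  obtain ⟨a, b, ha, hb, hab⟩ := exists_pair hE h3
  have hba : polar QE b a = 1 := by rw [polar_comm]; exact hab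
  rw [eq_top_iff]
  rintro x -
  obtain ⟨e, he⟩ : ∃ e, e = x - polar QE b x • a - polar QE a x • b := ⟨_, rfl⟩
  have hae : polar QE a e = 0 := by
    rw [he, polar_sub_right, polar_sub_right, polar_smul_right, polar_smul_right, hab, polar_self',
      ha]; simp
  have hbe : polar QE b e = 0 := by
    rw [he, polar_sub_right, polar_sub_right, polar_smul_right, polar_smul_right, hba, polar_self',
      hb]; simp
  have h1 : a - QE e • b + e ∈ S := by
    apply hS
    rw [Q_add, Q_sub, Q_smul, polar_sub_left, polar_smul_left, polar_smul_right, ha, hb, hab, hae,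
      hbe]; simp
  have h4 : e ∈ S := by
    have := S.add_mem (S.sub_mem h1 (hS a ha)) (S.smul_mem (QE e) (hS b hb))
    convert this using 1
    abel
  have h5 : x = e + polar QE b x • a + polar QE a x • b := by rw [he]; abel
  rw [h5]
  exact S.add_mem (S.add_mem h4 (S.smul_mem _ (hS a ha))) (S.smul_mem _ (hS b hb))

/-- a skew map which scales all singular vectors is zero -/
theorem exists_moved (h2 : (2 : F) ≠ 0) (hE : Nd QE) (h3 : 3 ≤ finrank F E) {X : E →ₗ[F] E}
    (h : ∀ x, polar QE x (X x) = 0) (hX : X ≠ 0) : ∃ a, QE a = 0 ∧ ∀ c : F, X a ≠ c • a := by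
  by_contra hcon
  push Not at hcon
  apply hX
  have key1 : ∀ a, QE a = 0 → X a = 0 := by
    intro a ha
    by_cases ha0 : a = 0
    · rw [ha0, map_zero]
    obtain ⟨b, hb, hab⟩ := partner hE ha ha0
    obtain ⟨e, hae, hbe, hQe⟩ := exists_third hE h3 ha hb hab
    have hba : polar QE b a = 1 := by rw [polar_comm]; exact hab
    obtain ⟨d, hd⟩ : ∃ d, d = a - QE e • b + e := ⟨_, rfl⟩
    have hQd : QE d = 0 := by
      rw [hd, Q_add, Q_sub, Q_smul, polar_sub_left, polar_smul_left, polar_smul_right, ha, hb, hab,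
        hae, hbe]; simp
    have had : polar QE a d = - QE e := by
      rw [hd, polar_add_right, polar_sub_right, polar_smul_right, hab, hae, polar_self', ha]; simp
    have hbd : polar QE b d = 1 := by
      rw [hd, polar_add_right, polar_sub_right, polar_smul_right, hba, hbe, polar_self', hb]; simp
    have hda : polar QE d a = - QE e := by rw [polar_comm]; exact had
    have hdb : polar QE d b = 1 := by rw [polar_comm]; exact hbd
    obtain ⟨la, hla⟩ := hcon a ha
    obtain ⟨lb, hlb⟩ := hcon b hb
    obtain ⟨ld, hld⟩ := hcon d hQd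
    have e1 := skew h a b
    have e2 := skew h a d
    have e3 := skew h b d
    rw [hla, hlb, polar_smul_right, polar_smul_right, hab, hba, smul_eq_mul, smul_eq_mul] at e1
    rw [hla, hld, polar_smul_right, polar_smul_right, had, hda, smul_eq_mul, smul_eq_mul] at e2
    rw [hlb, hld, polar_smul_right, polar_smul_right, hbd, hdb, smul_eq_mul, smul_eq_mul] at e3
    have e4 : ld = - la := by
      have : (ld + la) * QE e = 0 := by linear_combination -e2
      have := (mul_eq_zero.1 this).resolve_right hQe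
      linear_combination this
    have e5 : 2 * la = 0 := by linear_combination e4 + e1 - e3
    rw [hla, (mul_eq_zero.1 e5).resolve_left h2, zero_smul]
  have h5 := ind_sing h2 hE h3 (LinearMap.ker X) fun a ha => LinearMap.mem_ker.2 (key1 a ha)
  rw [LinearMap.ker_eq_top] at h5
  exact h5

/-- `a ∧ a^⊥` is contained in `z` -/
def Fl (QE : QuadraticForm F E) (z : (E →ₗ[F] E) → Prop) (a : E) : Prop :=
  ∀ y, polar QE a y = 0 → z (wdg QE a y)

theorem fl_step (h2 : (2 : F) ≠ 0) {z : (E →ₗ[F] E) → Prop} (hz : Zs QE z) {a w b : E}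
    (ha : QE a = 0) (haw : polar QE a w = 0) (hw : QE w ≠ 0) (h : z (wdg QE a w)) (hb : QE b = 0)
    (hab : polar QE a b ≠ 0) : Fl QE z b := by
  obtain ⟨w', hw'⟩ : ∃ w', w' = w - (polar QE w b * (polar QE a b)⁻¹) • a := ⟨_, rfl⟩
  have h1 : wdg QE a w' = wdg QE a w := by
    rw [hw', sub_eq_add_neg, wdg_add_right, ← neg_smul, wdg_smul_right, wdg_self, smul_zero, add_zero]
  have h3 : polar QE w' b = 0 := by
    rw [hw', polar_sub_left, polar_smul_left, smul_eq_mul, mul_assoc, inv_mul_cancel₀ hab, mul_one,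
      sub_self]
  have h4 : QE w' = QE w := by
    rw [hw', Q_sub, Q_smul, ha, polar_smul_right, polar_comm QE w a, haw]; simp
  rw [← h1] at h
  have h5 : wdg QE a w' b = polar QE a b • w' := by
    rw [wdg_apply, h3, zero_smul, sub_zero]
  have h6 : polar QE b w' = 0 := by rw [polar_comm]; exact h3
  intro y hy
  obtain ⟨s, hs⟩ : ∃ s, s = (polar QE a b * (2 * QE w))⁻¹ := ⟨_, rfl⟩
  have h7 := key hz h (e := s • y) (f := w') hb (by rw [polar_smul_right, hy, smul_zero]) h6
  rw [h5] at h7
  convert h7 using 2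
  simp only [polar_smul_right, polar_smul_left, polar_self', h4, smul_eq_mul, smul_smul]
  have h8 : polar QE a b * (2 * QE w) * s = 1 := by
    rw [hs, mul_inv_cancel₀ (mul_ne_zero hab (mul_ne_zero h2 hw))]
  have h9 : y = (polar QE a b * (2 * QE w) * s) • y := by rw [h8, one_smul]
  nth_rewrite 1 [h9]
  rw [polar_comm QE y w']
  module

theorem fl_fl (h2 : (2 : F) ≠ 0) (hE : Nd QE) (h3 : 3 ≤ finrank F E)
    {z : (E →ₗ[F] E) → Prop} (hz : Zs QE z) {a b : E} (ha : QE a = 0) (hb : QE b = 0)
    (hab : polar QE a b ≠ 0) (h : Fl QE z a) : Fl QE z b := by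
  have ha0 : a ≠ 0 := by rintro rfl; exact hab (polar_zero_left _ _)
  obtain ⟨c, hc, hac⟩ := partner hE ha ha0
  obtain ⟨w, haw, -, hw⟩ := exists_third hE h3 ha hc hac
  exact fl_step h2 hz ha haw hw (h w haw) hb hab

theorem fl_all (h2 : (2 : F) ≠ 0) (hE : Nd QE) (h3 : 3 ≤ finrank F E)
    {z : (E →ₗ[F] E) → Prop} (hz : Zs QE z) {a : E} (ha : QE a = 0) (ha0 : a ≠ 0) (h : Fl QE z a)
    {b : E} (hb : QE b = 0) : Fl QE z b := by
  by_cases hb0 : b = 0
  · intro y _
    have : wdg QE b y = 0 := by
      rw [hb0, show (0 : E) = (0 : F) • (0 : E) by simp, wdg_smul_left, zero_smul]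
    rw [this]; exact hz.zero
  by_cases hab : polar QE a b = 0
  · obtain ⟨y1, hy1⟩ := hE.exists_polar_one' ha0
    obtain ⟨y2, hy2⟩ := hE.exists_polar_one' hb0
    obtain ⟨y, hya, hyb⟩ : ∃ y, polar QE a y ≠ 0 ∧ polar QE b y ≠ 0 := by
      by_cases h4 : polar QE b y1 = 0
      · by_cases h5 : polar QE a y2 = 0
        · refine ⟨y1 + y2, ?_, ?_⟩
          · rw [polar_add_right, hy1, h5, add_zero]; exact one_ne_zero
          · rw [polar_add_right, hy2, h4, zero_add]; exact one_ne_zero
        · exact ⟨y2, h5, by rw [hy2]; exact one_ne_zero⟩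
      · exact ⟨y1, by rw [hy1]; exact one_ne_zero, h4⟩
    obtain ⟨d, hd⟩ : ∃ d, d = y - (QE y * (polar QE a y)⁻¹) • a := ⟨_, rfl⟩
    have hQd : QE d = 0 := by
      rw [hd, Q_sub, Q_smul, ha, polar_smul_right, polar_comm QE y a, smul_eq_mul,
        mul_assoc (QE y) _ (polar QE a y), inv_mul_cancel₀ hya]; simp
    have h4 : polar QE a d ≠ 0 := by
      rw [hd, polar_sub_right, polar_smul_right, polar_self', ha]; simpa using hya
    have h5 : polar QE d b ≠ 0 := by
      rw [hd, polar_sub_left, polar_smul_left, hab, polar_comm QE y b]; simpa using hyb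
    exact fl_fl h2 hE h3 hz hQd hb h5 (fl_fl h2 hE h3 hz ha hQd h4 h)
  · exact fl_fl h2 hE h3 hz ha hb hab h

theorem exists_fl (h2 : (2 : F) ≠ 0) (hE : Nd QE) (h3 : 3 ≤ finrank F E)
    (h4 : finrank F E = 4 → ∀ x y : E, QE x = 0 → QE y = 0 → polar QE x y = 0 → x ≠ 0 →
      ∃ c : F, y = c • x)
    {z : (E →ₗ[F] E) → Prop} (hz : Zs QE z) {X : E →ₗ[F] E} (hX : z X) (hX0 : X ≠ 0) :
    ∃ a, QE a = 0 ∧ a ≠ 0 ∧ Fl QE z a := by
  have h := hz.alt X hX
  obtain ⟨a, ha, hXa⟩ := exists_moved h2 hE h3 h hX0
  have ha0 : a ≠ 0 := by rintro rfl; exact hXa 0 (by simp)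
  have haX := h a
  obtain ⟨b, hb, hab⟩ := partner hE ha ha0
  suffices ∃ w, polar QE a w = 0 ∧ QE w ≠ 0 ∧ z (wdg QE a w) by
    obtain ⟨w, haw, hw, hzw⟩ := this
    exact ⟨b, hb, by rintro rfl; rw [polar_zero_right] at hab; exact zero_ne_one hab,
      fl_step h2 hz ha haw hw hzw hb (by rw [hab]; exact one_ne_zero)⟩
  by_cases hv : QE (X a) = 0
  · -- totally singular line `a, X a`
    have h5 : 5 ≤ finrank F E := by
      by_contra hlt
      have hXa0 : X a ≠ 0 := fun h0 => hXa 0 (by rw [h0, zero_smul])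
      by_cases h4' : finrank F E = 4
      · obtain ⟨c, hc⟩ := h4 h4' a (X a) ha hv haX ha0
        exact hXa c hc
      · -- dimension three
        have h3' : finrank F E = 3 := by omega
        have hli : LinearIndependent F ![a, X a] := by
          rw [LinearIndependent.pair_iff' ha0]
          intro c hc
          exact hXa c hc.symm
        have h6 : finrank F (Submodule.span F (Set.range ![a, X a])) = 2 := by
          rw [finrank_span_eq_card hli]; simp
        have h7 : Submodule.span F (Set.range ![a, X a]) ≤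
            perp QE (Submodule.span F (Set.range ![a, X a])) := by
          rw [Submodule.span_le]
          rintro _ ⟨i, rfl⟩
          rw [SetLike.mem_coe, mem_perp_span]
          rintro _ ⟨j, rfl⟩
          fin_cases i <;> fin_cases j
          · simp [polar_self', ha]
          · simp [polar_comm QE (X a) a, haX]
          · simp [haX]
          · simp [polar_self', hv]
        have h8 := Submodule.finrank_mono h7
        rw [hE.finrank_perp, h6] at h8
        omega
    -- a partner of `X a` inside `a^⊥`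
    obtain ⟨f, hf, hXf⟩ := hE.exists_polar_one (F ∙ a) (v := X a) (by
      intro hmem
      obtain ⟨c, hc⟩ := Submodule.mem_span_singleton.1 hmem
      exact hXa c hc.symm)
    have haf : polar QE a f = 0 := mem_perp_singleton.1 hf
    -- a nonsingular vector orthogonal to both
    obtain ⟨e, hae, hXe, hQe⟩ : ∃ e, polar QE a e = 0 ∧ polar QE (X a) e = 0 ∧ QE e ≠ 0 := by
      by_contra hcon
      push Not at hcon
      have h6 : finrank F (Submodule.span F {a, X a}) ≤ 2 := by
        classical
        have h3 := finrank_span_finset_le_card (R := F) ({a, X a} : Finset E)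
        have h4 : ({a, X a} : Finset E).card ≤ 2 := Finset.card_le_two (a := a) (b := X a)
        rw [Finset.coe_pair] at h3
        exact h3.trans h4
      have h7 : perp QE (Submodule.span F {a, X a}) ≤
          perp QE (perp QE (Submodule.span F {a, X a})) := by
        intro x hx
        rw [mem_perp]
        intro y hy
        have hx' : QE x = 0 := by
          rw [mem_perp_span] at hx
          exact hcon x (hx a (by simp)) (hx (X a) (by simp))
        have hy' : QE y = 0 := by
          rw [mem_perp_span] at hy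
          exact hcon y (hy a (by simp)) (hy (X a) (by simp))
        have hxy : QE (y + x) = 0 := by
          have hm := Submodule.add_mem _ hy hx
          rw [mem_perp_span] at hm
          exact hcon _ (hm a (by simp)) (hm (X a) (by simp))
        rw [Q_add, hx', hy'] at hxy
        linear_combination hxy
      rw [hE.perp_perp] at h7
      have h8 := Submodule.finrank_mono h7
      rw [hE.finrank_perp] at h8
      omega
    refine ⟨_, ?_, ?_, key hz hX ha hae haf⟩
    · simp only [polar_add_right, polar_sub_right, polar_smul_right, hae, haf, haX]; simp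
    · have e1 : polar QE f (X a) = 1 := by rw [polar_comm]; exact hXf
      have e2 : polar QE e (X a) = 0 := by rw [polar_comm]; exact hXe
      rw [e1, e2, one_smul, zero_smul, add_zero, Q_sub, Q_smul, hv, polar_smul_right, e2]
      simpa using hQe
  · refine ⟨_, ?_, ?_, key hz hX (e := X a) (f := X a) ha haX haX⟩
    · simp only [polar_add_right, polar_sub_right, polar_smul_right, haX]; simp
    · have e1 : polar QE (X a) (X a) • X a + polar QE (X a) (X a) • X a -
          polar QE (X a) (X a) • X a = (2 * QE (X a)) • X a := by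
        rw [polar_self']; abel
      rw [e1, Q_smul]
      exact mul_ne_zero (mul_ne_zero (mul_ne_zero h2 hv) (mul_ne_zero h2 hv)) hv

theorem all (h2 : (2 : F) ≠ 0) (hE : Nd QE) (h3 : 3 ≤ finrank F E)
    (h4 : finrank F E = 4 → ∀ x y : E, QE x = 0 → QE y = 0 → polar QE x y = 0 → x ≠ 0 →
      ∃ c : F, y = c • x)
    {z : (E →ₗ[F] E) → Prop} (hz : Zs QE z) {X : E →ₗ[F] E} (hX : z X) (hX0 : X ≠ 0) (x y : E) :
    z (wdg QE x y) := by
  obtain ⟨a0, ha0, ha00, hfl⟩ := exists_fl h2 hE h3 h4 hz hX hX0
  have hF : ∀ b, QE b = 0 → Fl QE z b := fun b hb => fl_all h2 hE h3 hz ha0 ha00 hfl hb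
  -- the largest subspace inside `z`
  have hmul : ∀ a b, QE a = 0 → QE b = 0 → ∀ t : F, z (t • wdg QE a b) := by
    intro a b ha hb t
    by_cases hab : polar QE a b = 0
    · rw [← wdg_smul_right]
      exact hF a ha _ (by rw [polar_smul_right, hab, smul_zero])
    -- normalise
    obtain ⟨a', ha'⟩ : ∃ a', a' = (polar QE a b)⁻¹ • a := ⟨_, rfl⟩
    have hQa' : QE a' = 0 := by rw [ha', Q_smul, ha, mul_zero]
    have ha'b : polar QE a' b = 1 := by
      rw [ha', polar_smul_left, smul_eq_mul, inv_mul_cancel₀ hab]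
    have haa : a = polar QE a b • a' := by rw [ha', smul_smul, mul_inv_cancel₀ hab, one_smul]
    obtain ⟨e, hae, hbe, hQe⟩ := exists_third hE h3 hQa' hb ha'b
    obtain ⟨d, hd⟩ : ∃ d, d = a' - QE e • b + e := ⟨_, rfl⟩
    have hQd : QE d = 0 := by
      rw [hd, Q_add, Q_sub, Q_smul, polar_sub_left, polar_smul_left, polar_smul_right, hQa', hb,
        ha'b, hae, hbe]; simp
    have hea : polar QE e a' = 0 := by rw [polar_comm]; exact hae
    have heb : polar QE e b = 0 := by rw [polar_comm]; exact hbe
    obtain ⟨y0, hy0⟩ : ∃ y0, y0 = e - (2 * QE e) • b := ⟨_, rfl⟩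
    have hdy : polar QE d y0 = 0 := by
      rw [hd, hy0]
      simp only [polar_add_left, polar_sub_left, polar_add_right, polar_sub_right, polar_smul_left,
        polar_smul_right, hae, hbe, heb, ha'b, polar_self', hb, smul_eq_mul]
      ring
    have key1 : ∀ s : F, z (s • wdg QE a' b) := by
      intro s
      obtain ⟨r, hr⟩ : ∃ r, r = s * (2 * QE e)⁻¹ := ⟨_, rfl⟩
      have hrs : r * (2 * QE e) = s := by
        rw [hr, mul_assoc, inv_mul_cancel₀ (mul_ne_zero h2 hQe), mul_one]
      have z1 := hF d hQd (r • y0) (by rw [polar_smul_right, hdy, smul_zero])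
      have z2 := hF a' hQa' (r • e) (by rw [polar_smul_right, hae, smul_zero])
      have z3 := hF b hb ((r * QE e) • e) (by rw [polar_smul_right, hbe, smul_zero])
      have z4 := hz.add _ _ (hz.add _ _ z2 z3) (hz.neg _ z1)
      convert z4 using 1
      rw [← hrs, hd, hy0]
      refine LinearMap.ext fun v => ?_
      simp only [LinearMap.add_apply, LinearMap.neg_apply, LinearMap.smul_apply, wdg_apply,
        polar_add_left, polar_sub_left, polar_smul_left, smul_eq_mul]
      module
    rw [haa, wdg_smul_left, smul_smul]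
    exact key1 _
  -- bilinear extension
  have step1 : ∀ a, QE a = 0 → ∀ y, ∀ t : F, z (t • wdg QE a y) := by
    intro a ha
    let S : Submodule F E :=
      { carrier := {y | ∀ t : F, z (t • wdg QE a y)}
        add_mem' := fun {u v} hu hv t => by
          rw [wdg_add_right, smul_add]; exact hz.add _ _ (hu t) (hv t)
        zero_mem' := fun t => by
          have : wdg QE a (0 : E) = 0 := by
            rw [show (0 : E) = (0 : F) • (0 : E) by simp, wdg_smul_right, zero_smul]
          rw [this, smul_zero]; exact hz.zero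
        smul_mem' := fun c u hu t => by
          rw [wdg_smul_right, smul_smul]; exact hu _ }
    have hS : S = ⊤ := ind_sing h2 hE h3 S fun b hb t => hmul a b ha hb t
    intro y
    have : y ∈ S := hS ▸ trivial
    exact this
  let S : Submodule F E :=
    { carrier := {x | ∀ y, ∀ t : F, z (t • wdg QE x y)}
      add_mem' := fun {u v} hu hv y t => by
        rw [wdg_add_left, smul_add]; exact hz.add _ _ (hu y t) (hv y t)
      zero_mem' := fun y t => by
        have : wdg QE (0 : E) y = 0 := by
          rw [show (0 : E) = (0 : F) • (0 : E) by simp, wdg_smul_left, zero_smul]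
        rw [this, smul_zero]; exact hz.zero
      smul_mem' := fun c u hu y t => by
        rw [wdg_smul_left, smul_smul]; exact hu _ _ }
  have hS : S = ⊤ := ind_sing h2 hE h3 S fun a ha y t => step1 a ha y t
  have : x ∈ S := hS ▸ trivial
  have h9 := this y 1
  rwa [one_smul] at h9

end Abs

section Main

variable {F E W : Type*} [Field F] [Finite F] [AddCommGroup E] [Module F E] [FiniteDimensional F E]
  [AddCommGroup W] [Module F W] [FiniteDimensional F W] {QE : QuadraticForm F E}
  {QW : QuadraticForm F W} {Q : QuadraticForm F (W →ₗ[F] E)}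
  {M : Subgroup ((W →ₗ[F] E) ≃ₗ[F] (W →ₗ[F] E))}

theorem tb_add (x y : E) (b : W) : tb QW (x + y) b = tb QW x b + tb QW y b :=
  LinearMap.ext fun w => by rw [LinearMap.add_apply, tb_apply, tb_apply, tb_apply, smul_add]

theorem tb_neg (x : E) (b : W) : tb QW (-x) b = - tb QW x b :=
  LinearMap.ext fun w => by rw [LinearMap.neg_apply, tb_apply, tb_apply, smul_neg]

theorem siegMap_neg_comp {a e : E} (ha : QE a = 0) (hae : polar QE a e = 0) (x : E) :
    siegMap QE a e (siegMap QE a (-e) x) = x := by
  simp only [siegMap_apply, QuadraticMap.map_neg, polar_neg_left, polar_add_right, polar_sub_right,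
    polar_smul_right, polar_neg_right, ha, hae, polar_self', polar_comm QE e a, smul_eq_mul]
  module

theorem ZX_zs (T : TO QE QW Q M) {b : W} (hb : b ≠ 0) (hQb : QW b = 0) : Zs QE (ZX QW M b) := by
  have hbb : polar QW b b = 0 := by rw [polar_self', hQb, mul_zero]
  have happ : ∀ (x : E), tb QW x b b = 0 := fun x => by rw [tb_apply, hbb, zero_smul]
  refine ⟨?_, ?_, ?_, ?_, ?_⟩
  · rintro X Y ⟨m, hm, hmX⟩ ⟨n, hn, hnY⟩
    refine ⟨m * n, M.mul_mem hm hn, fun v => ?_⟩
    rw [LinearEquiv.mul_apply, hmX, hnY, LinearMap.add_apply, happ, add_zero, LinearMap.add_apply,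
      tb_add]
    abel
  · rintro X ⟨m, hm, hmX⟩
    refine ⟨m⁻¹, M.inv_mem hm, fun v => ?_⟩
    have h1 : m (v + tb QW ((-X) (v b)) b) = v := by
      rw [hmX, LinearMap.add_apply, happ, add_zero, LinearMap.neg_apply, tb_neg]
      abel
    have h2 : m⁻¹ v = m.symm v := rfl
    rw [h2, LinearEquiv.symm_apply_eq]
    exact h1.symm
  · refine ⟨1, M.one_mem, fun v => ?_⟩
    have : tb QW ((0 : E →ₗ[F] E) (v b)) b = (0 : W →ₗ[F] E) := LinearMap.ext fun w => by
      rw [tb_apply, LinearMap.zero_apply, smul_zero, LinearMap.zero_apply]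
    rw [this, add_zero]; rfl
  · rintro X ⟨m, hm, hmX⟩ x
    obtain ⟨c, hc⟩ := T.ndW.exists_polar_one' hb
    have hcb : polar QW c b = 1 := by rw [polar_comm]; exact hc
    have hv : tb QW x c b = x := by rw [tb_apply, hcb, one_smul]
    have h1 := T.hM hm (tb QW x c)
    rw [hmX, hv, Q_add] at h1
    have h3 : Q (tb QW (X x) b) = 0 := by
      have h4 := T.pol (X x) b (tb QW (X x) b)
      rw [polar_self', happ, polar_zero_left] at h4
      exact (mul_eq_zero.1 h4).resolve_left T.h2
    rw [h3, polar_comm, T.pol, hv] at h1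
    linear_combination h1
  · rintro a e ha hae X ⟨m, hm, hmX⟩
    obtain ⟨s, hs, hsv⟩ := T.tA a e ha hae
    obtain ⟨s', hs', hsv'⟩ := T.tA a (-e) ha (by rw [polar_neg_right, hae, neg_zero])
    refine ⟨s * m * s', M.mul_mem (M.mul_mem hs hm) hs', fun v => ?_⟩
    rw [LinearEquiv.mul_apply, LinearEquiv.mul_apply, hsv', hmX, hsv]
    refine LinearMap.ext fun w => ?_
    simp only [LinearMap.comp_apply, LinearMap.add_apply, map_add, siegMap_neg_comp ha hae,
      tb_apply, map_smul]

/-- piece B2 -/
theorem ZX_all (T : TO QE QW Q M) {b : W} (hb : b ≠ 0) (hQb : QW b = 0) {X : E →ₗ[F] E}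
    (hX : X ≠ 0) (h : ZX QW M b X) : ∀ x y, ZX QW M b (wdg QE x y) :=
  all T.h2 T.ndE T.hE T.h4 (ZX_zs T hb hQb) h hX

end Main

end Cfsg.Agent.Lib.TenOO_B2
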