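import Cfsg.Agent.Lib.TenOO1
import Cfsg.Agent.Lib.TenSpH94
import Cfsg.Agent.Lib.OrthDec2H94

/-!
# Overgroups of `O ⊗ O` in orthogonal groups: piece B3
-/

set_option autoImplicit false
set_option linter.unusedSectionVars false
set_option linter.unusedSimpArgs false
set_option linter.unusedVariables false

namespace Cfsg.Agent.Lib.TenOO_B3

open Cfsg.Agent.Lib.TenOO
open QuadraticMap Module Cfsg.Agent.Lib.Quad Cfsg.Agent.Lib.OrthMax Cfsg.Agent.Lib.OrthNd Cfsg.Agent.Lib.TenSLH94

variable {F E W : Type*} [Field F] [AddCommGroup E] [Module F E] [FiniteDimensional F E]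
  [AddCommGroup W] [Module F W] [FiniteDimensional F W]

section one
variable {V : Type*} [AddCommGroup V] [Module F V] [FiniteDimensional F V] {q : QuadraticForm F V}

theorem ntop (hQ : Nd q) : NDs q (⊤ : Submodule F V) := by
  show (⊤ : Submodule F V) ⊓ perp q ⊤ = ⊥
  rw [eq_bot_iff]
  rintro x ⟨-, hx⟩
  rw [Submodule.mem_bot]
  exact hQ.eq_zero fun y => (mem_perp'.1 hx) y trivial

theorem partner (hQ : Nd q) {b : V} (hb : b ≠ 0) (hQb : q b = 0) : ∃ c, q c = 0 ∧ polar q b c = 1 := by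
  obtain ⟨c, -, h1, h2⟩ := exists_partner hQ (ntop hQ) (z := b) trivial hb hQb
  exact ⟨c, h1, h2⟩

theorem nonsing (hQ : Nd q) (h3 : 3 ≤ finrank F V) {b c : V} (hb : q b = 0) (hc : q c = 0) (hbc : polar q b c = 1) :
    ∃ w, polar q b w = 0 ∧ polar q c w = 0 ∧ q w ≠ 0 := by
  have h1 := finrank_cut hQ (⊤ : Submodule F V) b c
  rw [finrank_top] at h1
  obtain ⟨d, hd, hQd⟩ := Cfsg.Agent.Lib.OrthDecH94.exists_nonsing (nds_cut hQ (ntop hQ) (e := b) (f := c) trivial trivial hb hc hbc) (by omega)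
  exact ⟨d, (mem_cut.1 hd).2.1, (mem_cut.1 hd).2.2, hQd⟩

end one

variable {QE : QuadraticForm F E} {QW : QuadraticForm F W} {Q : QuadraticForm F (W →ₗ[F] E)}
  {M : Subgroup ((W →ₗ[F] E) ≃ₗ[F] (W →ₗ[F] E))}

theorem tb_add_left (a a' : E) (b : W) : tb QW (a + a') b = tb QW a b + tb QW a' b := by
  unfold tb; rw [map_add]; rfl
theorem tb_smul_left (t : F) (a : E) (b : W) : tb QW (t • a) b = t • tb QW a b := by
  unfold tb; rw [map_smul]; rfl
theorem tb_add_right (a : E) (b b' : W) : tb QW a (b + b') = tb QW a b + tb QW a b' := by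
  unfold tb; rw [map_add, map_add]
theorem tb_smul_right (t : F) (a : E) (b : W) : tb QW a (t • b) = t • tb QW a b := by
  unfold tb; rw [map_smul, map_smul]
theorem tb_sub_left (a a' : E) (b : W) : tb QW (a - a') b = tb QW a b - tb QW a' b := by
  unfold tb; rw [map_sub]; rfl
theorem tb_sub_right (a : E) (b b' : W) : tb QW a (b - b') = tb QW a b - tb QW a b' := by
  unfold tb; rw [map_sub, map_sub]
theorem tb_zero_left (b : W) : tb QW (0 : E) b = 0 := by
  unfold tb; rw [map_zero]; rfl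
theorem tb_zero_right (a : E) : tb QW a (0 : W) = 0 := by
  unfold tb; rw [map_zero, map_zero]

theorem pol_tb (T : TO QE QW Q M) (x y : E) (b c : W) :
    polar Q (tb QW x b) (tb QW y c) = polar QW c b * polar QE y x := by
  rw [T.pol, tb_apply, polar_smul_left, smul_eq_mul]

theorem Q_tb (T : TO QE QW Q M) {b : W} (hb : QW b = 0) (x : E) : Q (tb QW x b) = 0 := by
  have h1 := pol_tb T x x b b
  rw [polar_self', polar_self' (Q := QW), hb, mul_zero, zero_mul] at h1
  exact (mul_eq_zero.1 h1).resolve_left T.h2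

/-- all root elements `x ⊗ b, y ⊗ b` -/
def Pr (QE : QuadraticForm F E) (QW : QuadraticForm F W) (Q : QuadraticForm F (W →ₗ[F] E))
    (M : Subgroup ((W →ₗ[F] E) ≃ₗ[F] (W →ₗ[F] E))) (b : W) : Prop :=
  ∀ x y : E, SI Q M (tb QW x b) (tb QW y b)

theorem Pr.smul {b : W} (h : Pr QE QW Q M b) (t : F) : Pr QE QW Q M (t • b) := by
  intro x y
  rw [tb_smul_right, tb_smul_right, ← tb_smul_left, ← tb_smul_left]
  exact h _ _

theorem Pr.of_smul {b : W} {t : F} (ht : t ≠ 0) (h : Pr QE QW Q M (t • b)) : Pr QE QW Q M b := by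
  have := h.smul t⁻¹
  rwa [smul_smul, inv_mul_cancel₀ ht, one_smul] at this

theorem pr_base (T : TO QE QW Q M) {b : W} (hb : QW b = 0) (h : ∀ x y, ZX QW M b (wdg QE x y)) : Pr QE QW Q M b := by
  intro x y
  obtain ⟨m, hm, hmv⟩ := h x y
  refine ⟨m, hm, fun v => ?_⟩
  rw [hmv, siegMap_apply, T.pol, T.pol, Q_tb T hb, wdg_apply, tb_sub_left, tb_smul_left, tb_smul_left,
    polar_comm QE x, polar_comm QE y]
  module

theorem Sg_tb (x : E) (b c e : W) : SgV QW c e (tb QW x b) = tb QW x (siegMap QW c e b) := by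
  unfold SgV
  rw [siegMap_apply, tb_sub_right, tb_sub_right, tb_add_right, tb_smul_right, tb_smul_right, tb_smul_right,
    tb_apply, tb_apply, tb_smul_left, tb_smul_left, tb_smul_left, polar_comm QW b c, polar_comm QW b e]
  module

theorem Pr.map (T : TO QE QW Q M) {b : W} (h : Pr QE QW Q M b) {c e : W} (hc : QW c = 0) (hce : polar QW c e = 0) :
    Pr QE QW Q M (siegMap QW c e b) := by
  intro x y
  obtain ⟨s, hs, hsv⟩ := T.tB c e hc hce
  have := (h x y).map hs (T.hM hs)
  rwa [hsv, hsv, Sg_tb, Sg_tb] at this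

theorem Pr.step (T : TO QE QW Q M) {b b' : W} (h : Pr QE QW Q M b) (hb : QW b = 0) (hb' : QW b' = 0)
    (hbb : polar QW b b' ≠ 0) : Pr QE QW Q M b' := by
  have hW := T.hW
  obtain ⟨w, hw1, hw2, hw⟩ := nonsing T.ndW (by omega) hb (c := (polar QW b b')⁻¹ • b')
    (by rw [Q_smul, hb', mul_zero]) (by rw [polar_smul_right, smul_eq_mul, inv_mul_cancel₀ hbb])
  rw [polar_smul_left, smul_eq_mul] at hw2
  have hw2' : polar QW b' w = 0 := (mul_eq_zero.1 hw2).resolve_left (inv_ne_zero hbb)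
  set β : F := -(QW w) * (polar QW b b')⁻¹ with hβ
  have hβ0 : β ≠ 0 := mul_ne_zero (neg_ne_zero.2 hw) (inv_ne_zero hbb)
  set c : W := b + β • b' + w with hc
  have hbbb : polar QW b b = 0 := by rw [polar_self', hb, mul_zero]
  have hb'b' : polar QW b' b' = 0 := by rw [polar_self', hb', mul_zero]
  have hQc : QW c = 0 := by
    rw [hc, Q_add, Q_add, Q_smul, hb, hb', polar_add_left, polar_smul_left, polar_smul_right, hw1, hw2', hβ]
    simp only [smul_eq_mul]
    field_simp
    ring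
  have hcb : polar QW c b = β * polar QW b b' := by
    rw [hc, polar_add_left, polar_add_left, polar_smul_left, hbbb, polar_comm QW w b, hw1, polar_comm QW b' b]
    simp
  have hcb' : polar QW c b' = polar QW b b' := by
    rw [hc, polar_add_left, polar_add_left, polar_smul_left, hb'b', polar_comm QW w b', hw2']
    simp
  have hcb0 : polar QW c b ≠ 0 := by rw [hcb]; exact mul_ne_zero hβ0 hbb
  have hcb'0 : polar QW c b' ≠ 0 := by rw [hcb']; exact hbb
  set d : W := (polar QW c b)⁻¹ • b with hd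
  set d' : W := (polar QW c b')⁻¹ • b' with hd'
  have h1 : polar QW c d = 1 := by rw [hd, polar_smul_right, smul_eq_mul, inv_mul_cancel₀ hcb0]
  have h2 : polar QW c d' = 1 := by rw [hd', polar_smul_right, smul_eq_mul, inv_mul_cancel₀ hcb'0]
  have hQd : QW d = 0 := by rw [hd, Q_smul, hb, mul_zero]
  have hQd' : QW d' = 0 := by rw [hd', Q_smul, hb', mul_zero]
  have h3 : polar QW c (d' - d) = 0 := by rw [polar_sub_right, h1, h2, sub_self]
  have h4 := (h.smul (polar QW c b)⁻¹).map T hQc h3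
  have h5 : siegMap QW c (d' - d) d = d' := by
    rw [siegMap_apply, h1, Q_sub, hQd, hQd', polar_sub_left, polar_self', hQd]
    module
  rw [← hd, h5, hd'] at h4
  exact h4.of_smul (inv_ne_zero hcb'0)

theorem Pr.all (T : TO QE QW Q M) {b b' : W} (h : Pr QE QW Q M b) (hb0 : b ≠ 0) (hb : QW b = 0) (hb' : QW b' = 0)
    (hb'0 : b' ≠ 0) : Pr QE QW Q M b' := by
  obtain ⟨c1, hc1, h1⟩ := partner T.ndW hb0 hb
  obtain ⟨c2, hc2, h2⟩ := partner T.ndW hb'0 hb'
  have p1 : Pr QE QW Q M c1 := h.step T hb hc1 (by rw [h1]; exact one_ne_zero)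
  have hc2b : polar QW c2 b' ≠ 0 := by rw [polar_comm, h2]; exact one_ne_zero
  by_cases e1 : polar QW c1 b' = 0
  · by_cases e2 : polar QW b c2 = 0
    · by_cases e3 : polar QW c1 c2 = 0
      · have hQ : QW (c1 + c2) = 0 := by rw [Q_add, hc1, hc2, e3]; ring
        have p2 := h.step T hb hQ (by rw [polar_add_right, h1, e2, add_zero]; exact one_ne_zero)
        exact p2.step T hQ hb' (by rw [polar_add_left, e1, zero_add]; exact hc2b)
      · exact (p1.step T hc1 hc2 e3).step T hc2 hb' hc2b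
    · exact (h.step T hb hc2 e2).step T hc2 hb' hc2b
  · exact p1.step T hc1 hb' e1

/-- step 2 -/
theorem two (T : TO QE QW Q M) (hP : ∀ b, QW b = 0 → Pr QE QW Q M b) {b : W} (hb0 : b ≠ 0) (hb : QW b = 0) {y : E}
    {y' : E} (hy : polar QE y y' = 0) {b1 : W} (hb1 : QW b1 = 0) (hbb : polar QW b b1 ≠ 0) :
    SI Q M (tb QW y b) (tb QW y' b1) := by
  have key : ∀ y' : E, polar QE y y' = 0 → SI Q M (tb QW y b) (tb QW (polar QW b b1 • y') b1) := by
    intro y' hy
    by_cases hy'0 : y' = 0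
    · rw [hy'0, smul_zero, tb_zero_left]; exact SI.zero _
    -- choose `x` orthogonal to `y'`, not in `F y`
    obtain ⟨x, hx1, hx2⟩ : ∃ x, polar QE y' x = 0 ∧ x ∉ F ∙ y := by
      by_contra hcon
      push Not at hcon
      have h1 : perp QE (F ∙ y') ≤ F ∙ y := fun x hx => hcon x (mem_perp_singleton.1 hx)
      have h2 := T.ndE.finrank_add_finrank_perp (F ∙ y')
      have h3 := Submodule.finrank_mono h1
      have h4 : finrank F (F ∙ y) ≤ 1 := (finrank_span_le_card ({y} : Set E)).trans (by simp)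
      have h5 : finrank F (F ∙ y') ≤ 1 := (finrank_span_le_card ({y'} : Set E)).trans (by simp)
      have := T.hE
      omega
    obtain ⟨x', hx', hxx⟩ := T.ndE.exists_polar_one (F ∙ y) hx2
    rw [mem_perp_singleton] at hx'
    obtain ⟨g, hg, hgv⟩ := hP b1 hb1 x' y'
    have g1 : g (tb QW y b) = tb QW y b := by
      rw [hgv, siegMap_apply, pol_tb T, pol_tb T, hx', hy, Q_tb T hb1]
      simp
    have g2 : g (tb QW x b) = tb QW x b + tb QW (polar QW b b1 • y') b1 := by
      rw [hgv, siegMap_apply, pol_tb T, pol_tb T, hxx, polar_comm QE x y', hx1, Q_tb T hb1, tb_smul_left]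
      simp
    have h1 := (hP b hb y x).map hg (T.hM hg)
    rw [g1, g2] at h1
    have hQz : Q (tb QW y b) = 0 := Q_tb T hb y
    have hp1 : polar Q (tb QW y b) (tb QW x b) = 0 := by
      rw [pol_tb T, polar_self', hb]; ring
    have hp2 : polar Q (tb QW y b) (tb QW (polar QW b b1 • y') b1) = 0 := by
      rw [pol_tb T, polar_smul_left, polar_comm QE y' y, hy]; simp
    have h2 := h1.sub hQz (by rw [polar_add_right, hp1, hp2, add_zero]) hp1 (hP b hb y x)
    rwa [add_sub_cancel_left] at h2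
  have h1 := key ((polar QW b b1)⁻¹ • y') (by rw [polar_smul_right, hy, smul_zero])
  rwa [smul_smul, mul_inv_cancel₀ hbb, one_smul] at h1

/-- step 2, all vectors of the second factor -/
theorem two' (T : TO QE QW Q M) (hP : ∀ b, QW b = 0 → Pr QE QW Q M b) {b : W} (hb0 : b ≠ 0) (hb : QW b = 0) (y : E) :
    ∀ w : W, ∀ y', polar QE y y' = 0 → SI Q M (tb QW y b) (tb QW y' w) := by
  have hQz : Q (tb QW y b) = 0 := Q_tb T hb y
  have hpz : ∀ (w : W) (y' : E), polar QE y y' = 0 → polar Q (tb QW y b) (tb QW y' w) = 0 := by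
    intro w y' hy'
    rw [pol_tb T, polar_comm QE y' y, hy', mul_zero]
  let N : Submodule F W :=
    { carrier := {w | ∀ y', polar QE y y' = 0 → SI Q M (tb QW y b) (tb QW y' w)}
      zero_mem' := by
        intro y' _
        rw [tb_zero_right]; exact SI.zero _
      add_mem' := by
        intro w w' hw hw' y' hy'
        rw [tb_add_right]
        exact (hw y' hy').add hQz (hpz _ _ hy') (hpz _ _ hy') (hw' y' hy')
      smul_mem' := by
        intro t w hw y' hy'
        rw [tb_smul_right, ← tb_smul_left]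
        exact hw _ (by rw [polar_smul_right, hy', smul_zero]) }
  have hN : ∀ c, QW c = 0 → polar QW b c ≠ 0 → c ∈ N := fun c hc hbc y' hy' => two T hP hb0 hb hy' hc hbc
  obtain ⟨b1, hb1, hbb1⟩ := partner T.ndW hb0 hb
  have hbbb : polar QW b b = 0 := by rw [polar_self', hb, mul_zero]
  have hb1N : b1 ∈ N := hN b1 hb1 (by rw [hbb1]; exact one_ne_zero)
  -- `e - Q(e) b` in `N`
  have h1 : ∀ e, polar QW b e = 0 → polar QW b1 e = 0 → e - QW e • b ∈ N := by
    intro e he1 he2
    have h2 : b1 + (e - QW e • b) ∈ N := by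
      apply hN
      · rw [Q_add, Q_sub, Q_smul, hb, hb1, polar_sub_right, polar_smul_right, polar_smul_right, he2, polar_comm QW b1 b,
          hbb1, polar_comm QW e b, he1]
        simp
      · rw [polar_add_right, polar_sub_right, polar_smul_right, hbb1, he1, hbbb]
        simp
    have := N.sub_mem h2 hb1N
    rwa [add_sub_cancel_left] at this
  have hW := T.hW
  obtain ⟨e, he1, he2, hQe⟩ := nonsing T.ndW (by omega) hb hb1 hbb1
  have hbN : b ∈ N := by
    have h3 := h1 e he1 he2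
    have h4 := h1 (-e) (by rw [polar_neg_right, he1, neg_zero]) (by rw [polar_neg_right, he2, neg_zero])
    have h5 := N.add_mem h3 h4
    rw [QuadraticMap.map_neg] at h5
    have h6 : e - QW e • b + (-e - QW e • b) = (-(2 * QW e)) • b := by module
    rw [h6] at h5
    have h7 := N.smul_mem (-(2 * QW e))⁻¹ h5
    rwa [smul_smul, inv_mul_cancel₀ (neg_ne_zero.2 (mul_ne_zero T.h2 hQe)), one_smul] at h7
  intro w
  show w ∈ N
  have hdec : w = (polar QW b1 w) • b + (polar QW b w) • b1 + (w - (polar QW b1 w) • b - (polar QW b w) • b1) := by module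
  have hb1b1 : polar QW b1 b1 = 0 := by rw [polar_self', hb1, mul_zero]
  have h8 := h1 (w - (polar QW b1 w) • b - (polar QW b w) • b1)
    (by rw [polar_sub_right, polar_sub_right, polar_smul_right, polar_smul_right, hbbb, hbb1]; simp)
    (by rw [polar_sub_right, polar_sub_right, polar_smul_right, polar_smul_right, hb1b1, polar_comm QW b1 b, hbb1]; simp)
  have h9 := N.add_mem h8 (N.smul_mem (QW (w - (polar QW b1 w) • b - (polar QW b w) • b1)) hbN)
  rw [sub_add_cancel] at h9
  rw [hdec]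
  exact N.add_mem (N.add_mem (N.smul_mem _ hbN) (N.smul_mem _ hb1N)) h9

/-- step 3 -/
theorem three (T : TO QE QW Q M) (hP : ∀ b, QW b = 0 → Pr QE QW Q M b) {b : W} (hb0 : b ≠ 0) (hb : QW b = 0) (y x : E)
    {w2 : W} (hw2 : polar QW b w2 = 0) : SI Q M (tb QW y b) (tb QW x w2) := by
  by_cases hxy : polar QE y x = 0
  · exact two' T hP hb0 hb y w2 x hxy
  -- `y3` orthogonal to `x` and `y`
  obtain ⟨y3, hy30, hy3x, hy3y⟩ : ∃ y3, y3 ≠ 0 ∧ polar QE x y3 = 0 ∧ polar QE y y3 = 0 := by
    have h1 := finrank_cut T.ndE (⊤ : Submodule F E) x y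
    rw [finrank_top] at h1
    have hE := T.hE
    obtain ⟨d, hd, hd0⟩ := Submodule.exists_mem_ne_zero_of_ne_bot
      (show (⊤ ⊓ perp QE (Submodule.span F {x, y}) : Submodule F E) ≠ ⊥ by
        intro h; rw [h, finrank_bot] at h1; omega)
    exact ⟨d, hd0, (mem_cut.1 hd).2.1, (mem_cut.1 hd).2.2⟩
  have hy3n : y3 ∉ F ∙ y := by
    intro h
    obtain ⟨t, rfl⟩ := Submodule.mem_span_singleton.1 h
    rw [polar_smul_right, smul_eq_mul, polar_comm QE x y] at hy3x
    rcases mul_eq_zero.1 hy3x with h1 | h1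
    · rw [h1, zero_smul] at hy30; exact hy30 rfl
    · exact hxy h1
  obtain ⟨y', hy', hyy⟩ := T.ndE.exists_polar_one (F ∙ y) hy3n
  rw [mem_perp_singleton] at hy'
  obtain ⟨w, hw, hbw⟩ := partner T.ndW hb0 hb
  -- the conjugating element
  obtain ⟨g, hg, hgv⟩ := two' T hP hb0 hb y3 w2 x (by rw [polar_comm]; exact hy3x)
  have hQz : Q (tb QW y b) = 0 := Q_tb T hb y
  have g1 : g (tb QW y b) = tb QW y b := by
    rw [hgv, siegMap_apply, pol_tb T, pol_tb T, hy3y, hw2]
    simp
  have g2 : g (tb QW y' w) = tb QW y' w + tb QW x w2 - tb QW ((polar QW w w2 * polar QE y' x) • y3) b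
      - tb QW ((Q (tb QW x w2)) • y3) b := by
    rw [hgv, siegMap_apply, pol_tb T, pol_tb T, polar_comm QW w b, hbw, polar_comm QE y' y3, hyy, tb_smul_left, tb_smul_left]
    simp
  have s1 := two' T hP hb0 hb y w y' hy'
  have h1 := s1.map hg (T.hM hg)
  rw [g1, g2] at h1
  have pz : ∀ (w : W) (u : E), polar QE y u = 0 → polar Q (tb QW y b) (tb QW u w) = 0 := by
    intro w u hu
    rw [pol_tb T, polar_comm QE u y, hu, mul_zero]
  have px : polar Q (tb QW y b) (tb QW x w2) = 0 := by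
    rw [pol_tb T, polar_comm QW w2 b, hw2, zero_mul]
  have hz1 : polar QE y ((polar QW w w2 * polar QE y' x) • y3) = 0 := by rw [polar_smul_right, hy3y, smul_zero]
  have hz2 : polar QE y ((Q (tb QW x w2)) • y3) = 0 := by rw [polar_smul_right, hy3y, smul_zero]
  have s2 := two' T hP hb0 hb y b _ hz1
  have s3 := two' T hP hb0 hb y b _ hz2
  have q1 : polar Q (tb QW y b) (tb QW y' w + tb QW x w2 - tb QW ((polar QW w w2 * polar QE y' x) • y3) b
      - tb QW ((Q (tb QW x w2)) • y3) b) = 0 := by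
    rw [polar_sub_right, polar_sub_right, polar_add_right, pz _ _ hy', px, pz _ _ hz1, pz _ _ hz2]
    simp
  have h2 := h1.add hQz q1 (pz _ _ hz2) s3
  rw [sub_add_cancel] at h2
  have q2 : polar Q (tb QW y b) (tb QW y' w + tb QW x w2 - tb QW ((polar QW w w2 * polar QE y' x) • y3) b) = 0 := by
    rw [polar_sub_right, polar_add_right, pz _ _ hy', px, pz _ _ hz1]
    simp
  have h3 := h2.add hQz q2 (pz _ _ hz1) s2
  rw [sub_add_cancel] at h3
  have q3 : polar Q (tb QW y b) (tb QW y' w + tb QW x w2) = 0 := by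
    rw [polar_add_right, pz _ _ hy', px, add_zero]
  have h4 := h3.sub hQz q3 (pz _ _ hy') s1
  rwa [add_sub_cancel_left] at h4

theorem full [Finite F] (T : TO QE QW Q M) (hQ : Nd Q) {b0 : W} (hb0 : b0 ≠ 0) (hQb0 : QW b0 = 0)
    (h : ∀ x y, ZX QW M b0 (wdg QE x y)) : ∀ (y : E) (b : W), QW b = 0 → Full Q M (tb QW y b) := by
  have hP : ∀ b, QW b = 0 → Pr QE QW Q M b := by
    intro b hb
    by_cases h0 : b = 0
    · subst h0
      intro x y
      rw [tb_zero_right, tb_zero_right]; exact SI.zero _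
    · exact (pr_base T hQb0 h).all T hb0 hQb0 hb h0
  intro y b hb
  by_cases h0 : b = 0
  · subst h0
    rw [tb_zero_right]
    exact ⟨QuadraticMap.map_zero _, fun u _ => SI.zero_left u⟩
  have hQz : Q (tb QW y b) = 0 := Q_tb T hb y
  refine ⟨hQz, fun u hu => ?_⟩
  let N : Submodule F (W →ₗ[F] E) :=
    { carrier := {u | polar Q (tb QW y b) u = 0 ∧ ∀ t : F, SI Q M (tb QW y b) (t • u)}
      zero_mem' := by
        refine ⟨by simp, fun t => ?_⟩
        rw [smul_zero]; exact SI.zero _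
      add_mem' := by
        rintro u u' ⟨h1, h2⟩ ⟨h3, h4⟩
        refine ⟨by rw [polar_add_right, h1, h3, add_zero], fun t => ?_⟩
        rw [smul_add]
        exact (h2 t).add hQz (by rw [polar_smul_right, h1, smul_zero]) (by rw [polar_smul_right, h3, smul_zero]) (h4 t)
      smul_mem' := by
        rintro t u ⟨h1, h2⟩
        refine ⟨by rw [polar_smul_right, h1, smul_zero], fun t' => ?_⟩
        rw [smul_smul]; exact h2 _ }
  have hrep : ∀ ψ : Dual F W, ∃ w, ψ = polarBilin QW w :=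
    fun ψ => TenSpH94.rep_of (β := polarBilin QW) (fun x hx => T.ndW.eq_zero hx) ψ
  have hN1 : ∀ x (ψ : Dual F W), ψ b = 0 → pt x ψ ∈ N := by
    intro x ψ hψ
    obtain ⟨w, rfl⟩ := hrep ψ
    have hw : polar QW b w = 0 := by rw [polar_comm]; exact hψ
    have hpt : (pt x (polarBilin QW w) : W →ₗ[F] E) = tb QW x w := rfl
    rw [hpt]
    refine ⟨?_, fun t => ?_⟩
    · rw [pol_tb T, polar_comm QW w b, hw, zero_mul]
    · rw [← tb_smul_left]
      exact three T hP h0 hb y _ hw
  obtain ⟨b1, hb1, hbb1⟩ := partner T.ndW h0 hb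
  rw [T.pol] at hu
  have h1 : tb QW (u b) b1 ∈ N := by
    have hu' : polar QE y (u b) = 0 := by rw [polar_comm]; exact hu
    refine ⟨?_, fun t => ?_⟩
    · rw [pol_tb T, hu, mul_zero]
    · rw [← tb_smul_left]
      exact two' T hP h0 hb y b1 _ (by rw [polar_smul_right, hu', smul_zero])
  have h2 : u - tb QW (u b) b1 ∈ N := by
    apply TenSpH94.span_perp hN1
    rw [LinearMap.sub_apply, tb_apply, polar_comm QW b1 b, hbb1, one_smul, sub_self]
  have h3 := N.add_mem h2 h1
  rw [sub_add_cancel] at h3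
  have := h3.2 1
  rwa [one_smul] at this

end Cfsg.Agent.Lib.TenOO_B3
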