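import Mathlib
import Cfsg.Agent.Lib.TenSpH94

set_option autoImplicit false
set_option linter.unusedSectionVars false
set_option linter.unusedSimpArgs false
set_option linter.unusedVariables false

/-!
Overgroups of `Sp ⊗ Sp` in orthogonal groups: no extra elements in radicals implies pairs.
-/

namespace Cfsg.Agent.Lib.TenSpH94

open QuadraticMap Module Cfsg.Agent.Lib.Quad Cfsg.Agent.Lib.OrthMax Cfsg.Agent.Lib.TenSLH94
  Cfsg.Agent.Lib.SpTrans Cfsg.Agent.Lib.OrthDecH94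

variable {F E W : Type*} [Field F] [AddCommGroup E] [Module F E] [FiniteDimensional F E]
  [AddCommGroup W] [Module F W] [FiniteDimensional F W]

namespace TS

variable {α : E →ₗ[F] E →ₗ[F] F} {β : W →ₗ[F] W →ₗ[F] F} {Q : QuadraticForm F (W →ₗ[F] E)}
  {M : Subgroup ((W →ₗ[F] E) ≃ₗ[F] (W →ₗ[F] E))} (T : TS α β Q M)
include T

/-- orthogonality is preserved -/
theorem perp_step (hII : ∀ b, b ≠ 0 → ∀ r ∈ M, Tv β b r → ∃ q, r = ac 1 q)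
    {g : (W →ₗ[F] E) ≃ₗ[F] (W →ₗ[F] E)} (hg : g ∈ M) {b b' y : W} (hb' : b' ≠ 0)
    (h : (sp (β b) : Submodule F (W →ₗ[F] E)).map (g : (W →ₗ[F] E) →ₗ[F] (W →ₗ[F] E)) = sp (β b'))
    (hy0 : y ≠ 0) (hy : β y b = 0) :
    ∃ c, c ≠ 0 ∧ (sp (β y) : Submodule F (W →ₗ[F] E)).map (g : (W →ₗ[F] E) →ₗ[F] (W →ₗ[F] E)) = sp (β c) := by
  obtain ⟨φ, hφ, hφe⟩ := T.perp_mem hII ((orb_sp (T.beta_ne hy0)).map hg) hb' (by
    rintro _ ⟨u, hu, rfl⟩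
    obtain ⟨a, rfl⟩ := mem_sp.1 hu
    apply T.hαn
    intro x
    obtain ⟨u', hu', hu'e⟩ : pt x (β b') ∈ (sp (β b) : Submodule F (W →ₗ[F] E)).map (g : (W →ₗ[F] E) →ₗ[F] (W →ₗ[F] E)) := by
      rw [h]; exact pt_mem_sp _ _
    obtain ⟨x', rfl⟩ := mem_sp.1 hu'
    rw [← T.pol, ← hu'e]
    show polar Q (g _) (g _) = 0
    rw [O_polar (T.hM hg), T.pol, pt_apply, hy, zero_smul, map_zero, LinearMap.zero_apply])
  obtain ⟨c, rfl⟩ := T.rep φ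
  exact ⟨c, by rintro rfl; exact hφ (map_zero _), hφe⟩

/-- elements fixing a standard space are pairs -/
theorem fixF (hII : ∀ b, b ≠ 0 → ∀ r ∈ M, Tv β b r → ∃ q, r = ac 1 q)
    {g : (W →ₗ[F] E) ≃ₗ[F] (W →ₗ[F] E)} (hg : g ∈ M) {φ φ' : Dual F W} (hφ : φ ≠ 0) (hφ' : φ' ≠ 0)
    (h : (sp φ : Submodule F (W →ₗ[F] E)).map (g : (W →ₗ[F] E) →ₗ[F] (W →ₗ[F] E)) = sp φ') :
    ∃ p q, g = ac p q := by
  obtain ⟨b, rfl⟩ := T.rep φ
  obtain ⟨b', rfl⟩ := T.rep φ'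
  have hb' : b' ≠ 0 := by rintro rfl; exact hφ' (map_zero _)
  apply fund (by have := T.hE; omega) (by have := T.hW; omega)
  intro ψ hψ
  obtain ⟨y, rfl⟩ := T.rep ψ
  have hy0 : y ≠ 0 := by rintro rfl; exact hψ (map_zero _)
  obtain ⟨y₁, hy₁0, hy₁, hy₁'⟩ : ∃ y₁, y₁ ≠ 0 ∧ β b y₁ = 0 ∧ β y y₁ = 0 := by
    have h1 := LinearMap.finrank_range_add_finrank_ker ((β b).prod (β y))
    have h2 := Submodule.finrank_le (LinearMap.range ((β b).prod (β y)))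
    rw [Module.finrank_prod, finrank_self] at h2
    have := T.hW
    obtain ⟨e, he, he0⟩ := Submodule.exists_mem_ne_zero_of_ne_bot (show LinearMap.ker ((β b).prod (β y)) ≠ ⊥ by
      intro h3; rw [h3, finrank_bot] at h1; omega)
    have he' : (β b e, β y e) = 0 := he
    rw [Prod.mk_eq_zero] at he'
    exact ⟨e, he0, he'.1, he'.2⟩
  obtain ⟨c₁, hc₁0, hc₁⟩ := T.perp_step hII hg hb' h hy₁0 (by rw [T.bn, hy₁, neg_zero])
  obtain ⟨c, hc0, hc⟩ := T.perp_step hII hg hc₁0 hc₁ hy0 hy₁'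
  refine ⟨β c, fun a => ?_⟩
  rw [← hc]
  exact ⟨_, pt_mem_sp _ _, rfl⟩

/-- transvections move nonstandard members -/
theorem noinv (hII : ∀ b, b ≠ 0 → ∀ r ∈ M, Tv β b r → ∃ q, r = ac 1 q)
    {m : (W →ₗ[F] E) ≃ₗ[F] (W →ₗ[F] E)} (hm : m ∈ M) (hmn : ¬ ∃ p q, m = ac p q) {φ : Dual F W} (hφ : φ ≠ 0)
    {U : Submodule F (W →ₗ[F] E)}
    (hU : U = (sp φ : Submodule F (W →ₗ[F] E)).map (m : (W →ₗ[F] E) →ₗ[F] (W →ₗ[F] E))) {e : W} (he : e ≠ 0)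
    {x : (W →ₗ[F] E) ≃ₗ[F] (W →ₗ[F] E)} (hx : x ∈ M) (hxv : ∀ v, x v = v + (1 : F) • pt (v e) (β e))
    (hxU : U.map (x : (W →ₗ[F] E) →ₗ[F] (W →ₗ[F] E)) = U) : False := by
  have hm1 : ∀ v, m (m⁻¹ v) = v := fun v => by rw [← LinearEquiv.mul_apply, mul_inv_cancel]; rfl
  have hm2 : ∀ v, m⁻¹ (m v) = v := fun v => by rw [← LinearEquiv.mul_apply, inv_mul_cancel]; rfl
  have hg : m⁻¹ * x * m ∈ M := mul_mem (mul_mem (inv_mem hm) hx) hm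
  obtain ⟨p, q, hpq⟩ := T.fixF hII hg hφ hφ (by
    have h1 : (sp φ : Submodule F (W →ₗ[F] E)).map
        ((m⁻¹ * x * m : (W →ₗ[F] E) ≃ₗ[F] (W →ₗ[F] E)) : (W →ₗ[F] E) →ₗ[F] (W →ₗ[F] E)) =
        ((((sp φ : Submodule F (W →ₗ[F] E)).map (m : (W →ₗ[F] E) →ₗ[F] (W →ₗ[F] E))).map
          (x : (W →ₗ[F] E) →ₗ[F] (W →ₗ[F] E)))).map
          ((m⁻¹ : (W →ₗ[F] E) ≃ₗ[F] (W →ₗ[F] E)) : (W →ₗ[F] E) →ₗ[F] (W →ₗ[F] E)) := by
      rw [← Submodule.map_comp, ← Submodule.map_comp]; rfl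
    rw [h1, ← hU, hxU, hU, ← Submodule.map_comp]
    have h2 : ((m⁻¹ : (W →ₗ[F] E) ≃ₗ[F] (W →ₗ[F] E)) : (W →ₗ[F] E) →ₗ[F] (W →ₗ[F] E)) ∘ₗ
        (m : (W →ₗ[F] E) →ₗ[F] (W →ₗ[F] E)) = LinearMap.id := LinearMap.ext hm2
    rw [h2, Submodule.map_id])
  obtain ⟨f, hf⟩ := T.exists_one he
  obtain ⟨z, hz⟩ : ∃ z : E, z ≠ 0 := by
    have : Nontrivial E := Module.finrank_pos_iff (R := F).1 (by have := T.hE; omega)
    exact exists_ne 0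
  obtain ⟨ψ, hψ0, hψ⟩ := ac_small (p := p) (q := q) (by have := T.hE; omega) (by have := T.hEW; omega)
    (D := (sp (β e) : Submodule F (W →ₗ[F] E)).map
      ((m⁻¹ : (W →ₗ[F] E) ≃ₗ[F] (W →ₗ[F] E)) : (W →ₗ[F] E) →ₗ[F] (W →ₗ[F] E))) (by
    intro v
    rw [← hpq]
    refine ⟨pt ((m v) e) (β e), pt_mem_sp _ _, ?_⟩
    show m⁻¹ (pt ((m v) e) (β e)) = m⁻¹ (x (m v)) - v
    rw [hxv, one_smul, map_add, hm2, add_sub_cancel_left]) (by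
    rw [LinearEquiv.finrank_map_eq m⁻¹ (sp (β e)), finrank_sp (T.beta_ne he)]) (by
    rw [← hpq]
    intro h
    have h1 : m⁻¹ (x (m (m⁻¹ (pt z (β f))))) = m⁻¹ (pt z (β f)) := by
      have h2 : (m⁻¹ * x * m) (m⁻¹ (pt z (β f))) = m⁻¹ (pt z (β f)) := by rw [h]; rfl
      exact h2
    have h2 := (m⁻¹).injective h1
    rw [hm1, hxv, one_smul, add_eq_left, pt_apply, T.bn, hf] at h2
    refine pt_ne ?_ (T.beta_ne he) h2
    rw [neg_smul, one_smul]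
    exact neg_ne_zero.2 hz)
  apply hmn
  apply T.fixF hII hm hψ0 (T.beta_ne he)
  rw [← hψ, ← Submodule.map_comp]
  have h2 : (m : (W →ₗ[F] E) →ₗ[F] (W →ₗ[F] E)) ∘ₗ
      ((m⁻¹ : (W →ₗ[F] E) ≃ₗ[F] (W →ₗ[F] E)) : (W →ₗ[F] E) →ₗ[F] (W →ₗ[F] E)) = LinearMap.id := LinearMap.ext hm1
  rw [h2, Submodule.map_id]

/-- **First case.** -/
theorem caseII (hII : ∀ b, b ≠ 0 → ∀ r ∈ M, Tv β b r → ∃ q, r = ac 1 q)
    {g : (W →ₗ[F] E) ≃ₗ[F] (W →ₗ[F] E)} (hg : g ∈ M) : ∃ p q, g = ac p q := by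
  classical
  by_contra hgn
  obtain ⟨b₀, hb₀⟩ : ∃ b : W, b ≠ 0 := by
    have : Nontrivial W := Module.finrank_pos_iff (R := F).1 (by have := T.hW; omega)
    exact exists_ne 0
  obtain ⟨P, hP⟩ : ∃ P : ℕ → Prop, ∀ w, P w ↔ (0 < w ∧ ∃ U U' : Submodule F (W →ₗ[F] E), Orb M U ∧ Orb M U' ∧
    U ≠ U' ∧ finrank F (U ⊓ U' : Submodule F (W →ₗ[F] E)) = w) := ⟨_, fun w => Iff.rfl⟩
  have hle : ∀ w, P w → w ≤ finrank F E := by
    intro w hw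
    obtain ⟨-, U, U', hU, -, -, rfl⟩ := (hP _).1 hw
    rw [← hU.finrank_eq]
    exact Submodule.finrank_mono inf_le_left
  -- a first pair
  obtain ⟨w₀, hw₀⟩ : ∃ w, P w := by
    obtain ⟨U, hUe⟩ : ∃ U, U = (sp (β b₀) : Submodule F (W →ₗ[F] E)).map (g : (W →ₗ[F] E) →ₗ[F] (W →ₗ[F] E)) := ⟨_, rfl⟩
    have hU : Orb M U := by rw [hUe]; exact (orb_sp (T.beta_ne hb₀)).map hg
    obtain ⟨u, hu, hu0⟩ : ∃ u ∈ U, u ≠ 0 := by
      apply Submodule.exists_mem_ne_zero_of_ne_bot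
      intro h
      have := hU.finrank_eq
      rw [h, finrank_bot] at this
      have := T.hE
      omega
    obtain ⟨e, he0, hue, -⟩ := exists_kerv T.hEW u 0
    obtain ⟨x, hx, -, hxv⟩ := T.xb e 1
    have hxu : x u = u := by rw [hxv, hue, map_zero, LinearMap.zero_apply, smul_zero, add_zero]
    refine ⟨_, (hP _).2 ⟨?_, U, U.map (x : (W →ₗ[F] E) →ₗ[F] (W →ₗ[F] E)), hU, hU.map hx, ?_, rfl⟩⟩
    · apply Nat.pos_of_ne_zero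
      intro h
      rw [Submodule.finrank_eq_zero] at h
      have h1 : u ∈ U ⊓ U.map (x : (W →ₗ[F] E) →ₗ[F] (W →ₗ[F] E)) := ⟨hu, ⟨u, hu, hxu⟩⟩
      rw [h] at h1
      exact hu0 h1
    · intro h
      exact T.noinv hII hg hgn (T.beta_ne hb₀) hUe he0 hx hxv h.symm
  have h1 := Nat.findGreatest_spec (P := P) (m := w₀) (n := finrank F E) (hle _ hw₀) hw₀
  obtain ⟨w, hw⟩ : ∃ w, w = Nat.findGreatest P (finrank F E) := ⟨_, rfl⟩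
  rw [← hw, hP] at h1
  obtain ⟨hw0, U₁, U₂, hU₁, hU₂, hne, hf⟩ := h1
  have hmax : ∀ U U' : Submodule F (W →ₗ[F] E), Orb M U → Orb M U' → U ≠ U' →
      finrank F (U ⊓ U' : Submodule F (W →ₗ[F] E)) ≤ w := by
    intro U U' hU hU' hne
    by_contra hcon
    push Not at hcon
    have h2 : P (finrank F (U ⊓ U' : Submodule F (W →ₗ[F] E))) := (hP _).2 ⟨by omega, U, U', hU, hU', hne, rfl⟩
    rw [hw] at hcon
    exact Nat.findGreatest_is_greatest (P := P) hcon (hle _ h2) h2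
  -- moving the first to a standard space
  obtain ⟨m, hm, φ, hφ, hU₁e⟩ := hU₁
  obtain ⟨b, rfl⟩ := T.rep φ
  have hm1 : ∀ v, m (m⁻¹ v) = v := fun v => by rw [← LinearEquiv.mul_apply, mul_inv_cancel]; rfl
  have hm2 : ∀ v, m⁻¹ (m v) = v := fun v => by rw [← LinearEquiv.mul_apply, inv_mul_cancel]; rfl
  obtain ⟨U, hUe⟩ : ∃ U, U = U₂.map ((m⁻¹ : (W →ₗ[F] E) ≃ₗ[F] (W →ₗ[F] E)) : (W →ₗ[F] E) →ₗ[F] (W →ₗ[F] E)) := ⟨_, rfl⟩
  have hU : Orb M U := by rw [hUe]; exact hU₂.map (inv_mem hm)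
  have hfr : finrank F (sp (β b) ⊓ U : Submodule F (W →ₗ[F] E)) = w := by
    rw [← hf, ← LinearEquiv.finrank_map_eq m (sp (β b) ⊓ U), Submodule.map_inf _ m.injective, ← hU₁e, hUe,
      ← Submodule.map_comp]
    have h2 : (m : (W →ₗ[F] E) →ₗ[F] (W →ₗ[F] E)) ∘ₗ
      ((m⁻¹ : (W →ₗ[F] E) ≃ₗ[F] (W →ₗ[F] E)) : (W →ₗ[F] E) →ₗ[F] (W →ₗ[F] E)) = LinearMap.id := LinearMap.ext hm1
    rw [h2, Submodule.map_id]
  have hne' : U ≠ sp (β b) := by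
    intro h
    apply hne
    rw [hU₁e, ← h, hUe, ← Submodule.map_comp]
    have h2 : (m : (W →ₗ[F] E) →ₗ[F] (W →ₗ[F] E)) ∘ₗ
      ((m⁻¹ : (W →ₗ[F] E) ≃ₗ[F] (W →ₗ[F] E)) : (W →ₗ[F] E) →ₗ[F] (W →ₗ[F] E)) = LinearMap.id := LinearMap.ext hm1
    rw [h2, Submodule.map_id]
  have hUr := hU.finrank_eq
  obtain ⟨k, hk, ψ, hψ, hUk⟩ := hU
  have hkn : ¬ ∃ p q, k = ac p q := by
    rintro ⟨p, q, rfl⟩
    obtain ⟨v, hv, hv0⟩ : ∃ v ∈ (sp (β b) ⊓ U : Submodule F (W →ₗ[F] E)), v ≠ 0 := by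
      apply Submodule.exists_mem_ne_zero_of_ne_bot
      intro h
      rw [h, finrank_bot] at hfr
      omega
    have h2 : U = sp (ψ ∘ₗ (q.symm : W →ₗ[F] W)) := by
      rw [hUk]
      ext y
      constructor
      · rintro ⟨x, hx, rfl⟩
        obtain ⟨a, rfl⟩ := mem_sp.1 hx
        refine mem_sp.2 ⟨p a, LinearMap.ext fun z => ?_⟩
        show ac p q (pt a ψ) z = _
        rw [ac_apply, pt_apply, pt_apply, map_smul]; rfl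
      · intro hy
        obtain ⟨a, rfl⟩ := mem_sp.1 hy
        refine ⟨pt (p.symm a) ψ, pt_mem_sp _ _, LinearMap.ext fun z => ?_⟩
        show ac p q (pt (p.symm a) ψ) z = _
        rw [ac_apply, pt_apply, pt_apply, map_smul, LinearEquiv.apply_symm_apply]; rfl
    apply hne'
    rw [h2] at hv ⊢
    refine (sp_disj hφ ?_ hv0 hv.1 hv.2).symm
    intro h3
    apply hψ
    apply LinearMap.ext
    intro z
    have := DFunLike.congr_fun h3 (q z)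
    simpa using this
  obtain ⟨u₁, hu₁, hu₁b⟩ : ∃ u ∈ U, u ∉ (sp (β b) : Submodule F (W →ₗ[F] E)) := by
    by_contra hcon
    push Not at hcon
    exact hne' (eq_of_le_finrank hcon (by rw [hUr, finrank_sp hφ]))
  obtain ⟨e, he0, hue, hbe⟩ := exists_kerv T.hEW u₁ (β b)
  obtain ⟨x, hx, -, hxv⟩ := T.xb e 1
  have hxu : x u₁ = u₁ := by rw [hxv, hue, map_zero, LinearMap.zero_apply, smul_zero, add_zero]
  have hxb : ∀ v ∈ (sp (β b) : Submodule F (W →ₗ[F] E)), x v = v := by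
    intro v hv
    obtain ⟨a, rfl⟩ := mem_sp.1 hv
    rw [hxv, pt_apply, hbe, zero_smul, map_zero, LinearMap.zero_apply, smul_zero, add_zero]
  have hOU : Orb M U := ⟨k, hk, ψ, hψ, hUk⟩
  have h2 := hmax U (U.map (x : (W →ₗ[F] E) →ₗ[F] (W →ₗ[F] E))) hOU (hOU.map hx) (fun h =>
    T.noinv hII hk hkn hψ hUk he0 hx hxv h.symm)
  have h3 : sp (β b) ⊓ U < U ⊓ U.map (x : (W →ₗ[F] E) →ₗ[F] (W →ₗ[F] E)) := by
    refine lt_of_le_of_ne ?_ ?_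
    · rintro v ⟨hv, hv'⟩
      exact ⟨hv', ⟨v, hv', hxb v hv⟩⟩
    · intro h
      have h4 : u₁ ∈ U ⊓ U.map (x : (W →ₗ[F] E) →ₗ[F] (W →ₗ[F] E)) := ⟨hu₁, ⟨u₁, hu₁, hxu⟩⟩
      rw [← h] at h4
      exact hu₁b h4.1
  have h4 := Submodule.finrank_lt_finrank_of_lt h3
  rw [hfr] at h4
  omega

end TS

end Cfsg.Agent.Lib.TenSpH94
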