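import Mathlib
import Cfsg.Agent.Lib.TenSp2H94

set_option autoImplicit false
set_option linter.unusedSectionVars false
set_option linter.unusedSimpArgs false
set_option linter.unusedVariables false

/-!
Overgroups of `Sp ⊗ Sp` in orthogonal groups: extra elements in radicals.
-/

namespace Cfsg.Agent.Lib.TenSpH94

open QuadraticMap Module Cfsg.Agent.Lib.Quad Cfsg.Agent.Lib.OrthMax Cfsg.Agent.Lib.TenSLH94
  Cfsg.Agent.Lib.SpTrans Cfsg.Agent.Lib.OrthDecH94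
open Cfsg.Agent.Lib.SLBlockH94 (Dec)

variable {F E W : Type*} [Field F] [AddCommGroup E] [Module F E] [FiniteDimensional F E]
  [AddCommGroup W] [Module F W] [FiniteDimensional F W]

/-- adjoint maps -/
def Adj (α : E →ₗ[F] E →ₗ[F] F) (ξ ξ' : E →ₗ[F] E) : Prop := ∀ x y, α (ξ x) y = α x (ξ' y)

/-- root elements in radicals -/
def SZ (β : W →ₗ[F] W →ₗ[F] F) (M : Subgroup ((W →ₗ[F] E) ≃ₗ[F] (W →ₗ[F] E))) (b d : W)
    (ξ ξ' X : E →ₗ[F] E) : Prop :=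
  ∃ m ∈ M, ∀ v, m v = v + pt (ξ (v b)) (β d) + pt (ξ' (v d)) (β b) + pt (X (v b)) (β b)

/-- central root elements -/
def ZX (β : W →ₗ[F] W →ₗ[F] F) (M : Subgroup ((W →ₗ[F] E) ≃ₗ[F] (W →ₗ[F] E))) (b : W) (X : E →ₗ[F] E) : Prop :=
  ∃ m ∈ M, ∀ v, m v = v + pt (X (v b)) (β b)

namespace TS

variable {α : E →ₗ[F] E →ₗ[F] F} {β : W →ₗ[F] W →ₗ[F] F} {Q : QuadraticForm F (W →ₗ[F] E)}
  {M : Subgroup ((W →ₗ[F] E) ≃ₗ[F] (W →ₗ[F] E))} (T : TS α β Q M)
include T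

theorem an0 {x : E} (h : ∀ y, α y x = 0) : x = 0 := T.hαn x fun y => by rw [T.an, h, neg_zero]

theorem exists_adj (ξ : E →ₗ[F] E) : ∃ ξ', Adj α ξ ξ' := by
  have h1 : ∀ y, ∃ z, ∀ x, α (ξ x) y = α x z := by
    intro y
    obtain ⟨b, hb⟩ := rep_of T.hαn ((α.flip y) ∘ₗ ξ)
    refine ⟨-b, fun x => ?_⟩
    have := DFunLike.congr_fun hb x
    rw [map_neg, ← T.an]
    exact this
  choose z hz using h1
  refine ⟨⟨⟨z, fun y y' => ?_⟩, fun c y => ?_⟩, fun x y => hz y x⟩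
  · rw [← sub_eq_zero]
    apply T.an0
    intro x
    rw [map_sub, map_add, ← hz, ← hz, ← hz, map_add, sub_self]
  · rw [RingHom.id_apply, ← sub_eq_zero]
    apply T.an0
    intro x
    rw [map_sub, map_smul, ← hz, ← hz, map_smul, sub_self]

theorem adj_symm {ξ ξ' : E →ₗ[F] E} (h : Adj α ξ ξ') : Adj α ξ' ξ := by
  intro x y
  rw [T.an, ← h, T.an, neg_neg]

/-- separation -/
theorem sep {S : Submodule F W} {d : W} (hd : d ∉ S) : ∃ e, β d e = 1 ∧ ∀ s ∈ S, β s e = 0 := by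
  obtain ⟨φ, h1, h0⟩ := exists_dual hd
  obtain ⟨w, rfl⟩ := T.rep φ
  refine ⟨-w, by rw [map_neg, ← T.bn, h1], fun s hs => ?_⟩
  rw [map_neg, ← T.bn, h0 s hs]

theorem nd_top : NdOn β ⊤ := by
  intro x _ hx
  by_contra hcon
  push Not at hcon
  exact hx (T.hβn x fun y => hcon y trivial)

theorem move_b {b b' : W} (hb : b ≠ 0) (hb' : b' ≠ 0) : ∃ q ∈ isom (fun x y => β x y), q b = b' := by
  obtain ⟨t, ht, h⟩ := exists_move T.hβ T.nd_top (u := b) (v := b') trivial trivial hb hb'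
  exact ⟨t, tgrp_le_isom T.hβ _ ht, h⟩

theorem move_d {b d d' : W} (hd : d ∉ Submodule.span F {b}) (hd' : d' ∉ Submodule.span F {b})
    (hbd : β b d = 0) (hbd' : β b d' = 0) : ∃ q ∈ isom (fun x y => β x y), q b = b ∧ q d = d' := by
  have key : ∀ d d', β b d = 0 → β b d' = 0 → β d d' ≠ 0 → ∃ q ∈ isom (fun x y => β x y), q b = b ∧ q d = d' := by
    intro d d' hbd hbd' h
    obtain ⟨t, ht, h1, h2⟩ := exists_move_of_ne T.hβ (W := ⊤) (u := d) (v := d') trivial trivial h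
    exact ⟨t, tgrp_le_isom T.hβ _ ht, h2 b (by rw [hbd, hbd']), h1⟩
  obtain ⟨w₁, hw₁, hw₁'⟩ := T.sep hd
  obtain ⟨w₂, hw₂, hw₂'⟩ := T.sep hd'
  have hb := Submodule.mem_span_singleton_self (R := F) b
  obtain ⟨w, hw, hw', hwb⟩ : ∃ w, β d w ≠ 0 ∧ β d' w ≠ 0 ∧ β b w = 0 := by
    by_cases h1 : β d' w₁ = 0
    · by_cases h2 : β d w₂ = 0
      · refine ⟨w₁ + w₂, ?_, ?_, ?_⟩
        · rw [map_add, hw₁, h2, add_zero]; exact one_ne_zero
        · rw [map_add, hw₂, h1, zero_add]; exact one_ne_zero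
        · rw [map_add, hw₁' b hb, hw₂' b hb, add_zero]
      · exact ⟨w₂, h2, by rw [hw₂]; exact one_ne_zero, hw₂' b hb⟩
    · exact ⟨w₁, by rw [hw₁]; exact one_ne_zero, h1, hw₁' b hb⟩
  obtain ⟨q, hq, hqb, hqd⟩ := key d w hbd hwb hw
  obtain ⟨q', hq', hqb', hqd'⟩ := key w d' hwb hbd' (by rw [T.bn]; exact neg_ne_zero.2 hw')
  exact ⟨q' * q, mul_mem hq' hq, by rw [LinearEquiv.mul_apply, hqb, hqb'], by rw [LinearEquiv.mul_apply, hqd, hqd']⟩

theorem exists_perp (S : Submodule F W) (φ ψ : Dual F W) (hS : finrank F S + 2 < finrank F W) :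
    ∃ d, d ∉ S ∧ φ d = 0 ∧ ψ d = 0 := by
  have h1 := LinearMap.finrank_range_add_finrank_ker (φ.prod ψ)
  have h2 := Submodule.finrank_le (LinearMap.range (φ.prod ψ))
  rw [Module.finrank_prod, finrank_self] at h2
  obtain ⟨d, hd, hdS⟩ : ∃ d ∈ LinearMap.ker (φ.prod ψ), d ∉ S := Dec.exists_out (by omega)
  have hd' : (φ d, ψ d) = 0 := hd
  rw [Prod.mk_eq_zero] at hd'
  exact ⟨d, hdS, hd'.1, hd'.2⟩

omit T in
theorem span2 (b d : W) : finrank F (Submodule.span F {b, d}) ≤ 2 := by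
  classical
  have h1 := finrank_span_finset_le_card (R := F) ({b, d} : Finset W)
  rw [Finset.coe_pair] at h1
  exact h1.trans Finset.card_le_two

/-- a hyperbolic pair orthogonal to two vectors -/
theorem exists_hyp (b g : W) : ∃ d e, β d e = 1 ∧ β b d = 0 ∧ β b e = 0 ∧ β g d = 0 ∧ β g e = 0 := by
  have h1 := T.hW
  have h2 := span2 (F := F) b g
  obtain ⟨d, hd, h3, h4⟩ := T.exists_perp (Submodule.span F {b, g}) (β b) (β g) (by omega)
  obtain ⟨e, he, he'⟩ := T.sep hd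
  exact ⟨d, e, he, h3, he' b (Submodule.subset_span (by simp)), h4, he' g (Submodule.subset_span (by simp))⟩

/-! closure properties -/

theorem zx_add {b : W} {X Y : E →ₗ[F] E} (h : ZX β M b X) (h' : ZX β M b Y) : ZX β M b (X + Y) := by
  obtain ⟨m, hm, hmv⟩ := h
  obtain ⟨n, hn, hnv⟩ := h'
  refine ⟨m * n, mul_mem hm hn, fun v => ?_⟩
  apply LinearMap.ext
  intro w
  rw [LinearEquiv.mul_apply, hmv, hnv]
  simp only [LinearMap.add_apply, pt_apply, map_add, T.bb, map_smul, zero_smul, smul_zero, map_zero, add_zero, zero_add]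
  module

theorem zx_neg {b : W} {X : E →ₗ[F] E} (h : ZX β M b X) : ZX β M b (-X) := by
  obtain ⟨m, hm, hmv⟩ := h
  refine ⟨m⁻¹, inv_mem hm, fun v => ?_⟩
  apply m.injective
  rw [← LinearEquiv.mul_apply, mul_inv_cancel, hmv]
  apply LinearMap.ext
  intro w
  simp only [LinearMap.add_apply, pt_apply, map_add, T.bb, map_smul, LinearMap.neg_apply, LinearEquiv.coe_one, id,
    zero_smul, smul_zero, map_zero, add_zero, zero_add]
  module

theorem sz_z {b d : W} (hbd : β b d = 0) {ξ ξ' X Y : E →ₗ[F] E} (h : SZ β M b d ξ ξ' X) (h' : ZX β M b Y) :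
    SZ β M b d ξ ξ' (X + Y) := by
  obtain ⟨m, hm, hmv⟩ := h
  obtain ⟨n, hn, hnv⟩ := h'
  refine ⟨m * n, mul_mem hm hn, fun v => ?_⟩
  apply LinearMap.ext
  intro w
  rw [LinearEquiv.mul_apply, hmv, hnv]
  simp only [LinearMap.add_apply, pt_apply, map_add, T.bb, hbd, map_smul, zero_smul, smul_zero, map_zero, add_zero, zero_add]
  module

theorem sz_neg {b d : W} (hbd : β b d = 0) {ξ ξ' X : E →ₗ[F] E} (h : SZ β M b d ξ ξ' X) :
    SZ β M b d (-ξ) (-ξ') (-X) := by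
  have hdb : β d b = 0 := by rw [T.bn, hbd, neg_zero]
  obtain ⟨m, hm, hmv⟩ := h
  refine ⟨m⁻¹, inv_mem hm, fun v => ?_⟩
  apply m.injective
  rw [← LinearEquiv.mul_apply, mul_inv_cancel, hmv]
  apply LinearMap.ext
  intro w
  simp only [LinearMap.add_apply, pt_apply, map_add, T.bb, hbd, hdb, map_smul, LinearMap.neg_apply,
    LinearEquiv.coe_one, id, zero_smul, smul_zero, map_zero, add_zero, zero_add]
  module

theorem sz_add {b d : W} (hbd : β b d = 0) {ξ ξ' X η η' Y : E →ₗ[F] E} (h : SZ β M b d ξ ξ' X)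
    (h' : SZ β M b d η η' Y) : SZ β M b d (ξ + η) (ξ' + η') (X + Y) := by
  have hdb : β d b = 0 := by rw [T.bn, hbd, neg_zero]
  obtain ⟨m, hm, hmv⟩ := h
  obtain ⟨n, hn, hnv⟩ := h'
  refine ⟨m * n, mul_mem hm hn, fun v => ?_⟩
  apply LinearMap.ext
  intro w
  rw [LinearEquiv.mul_apply, hmv, hnv]
  simp only [LinearMap.add_apply, pt_apply, map_add, T.bb, hbd, hdb, map_smul, zero_smul, smul_zero, map_zero,
    add_zero, zero_add]
  module

theorem sz_add_d {b d₁ d₂ : W} (h1 : β b d₁ = 0) (h2 : β b d₂ = 0) {ξ ξ' X Y : E →ₗ[F] E}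
    (h : SZ β M b d₁ ξ ξ' X) (h' : SZ β M b d₂ ξ ξ' Y) :
    SZ β M b (d₁ + d₂) ξ ξ' (X + Y + (β d₂ d₁) • (ξ' ∘ₗ ξ)) := by
  have h1' : β d₁ b = 0 := by rw [T.bn, h1, neg_zero]
  have h2' : β d₂ b = 0 := by rw [T.bn, h2, neg_zero]
  obtain ⟨m, hm, hmv⟩ := h
  obtain ⟨n, hn, hnv⟩ := h'
  refine ⟨m * n, mul_mem hm hn, fun v => ?_⟩
  apply LinearMap.ext
  intro w
  rw [LinearEquiv.mul_apply, hmv, hnv]
  simp only [LinearMap.add_apply, LinearMap.smul_apply, LinearMap.comp_apply, pt_apply, map_add, T.bb, h1, h1', h2, h2',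
    map_smul, zero_smul, smul_zero, map_zero, add_zero, zero_add]
  module

theorem conj_B {b d : W} {ξ ξ' X : E →ₗ[F] E} (h : SZ β M b d ξ ξ' X) {q : W ≃ₗ[F] W}
    (hq : q ∈ isom (fun x y => β x y)) : SZ β M (q b) (q d) ξ ξ' X := by
  obtain ⟨m, hm, hmv⟩ := h
  have hqs : ∀ x w, β x (q.symm w) = β (q x) w := by
    intro x w
    have := hq x (q.symm w)
    simp only [LinearEquiv.apply_symm_apply] at this
    exact this.symm
  obtain ⟨A, hA⟩ : ∃ A : (W →ₗ[F] E) ≃ₗ[F] (W →ₗ[F] E), A = ac 1 q := ⟨_, rfl⟩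
  have hAM : A ∈ M := by rw [hA]; exact T.tB q hq
  have hAv : ∀ v w, (A v) w = v (q.symm w) := fun v w => by rw [hA]; rfl
  refine ⟨A * m * A⁻¹, mul_mem (mul_mem hAM hm) (inv_mem hAM), fun v => ?_⟩
  obtain ⟨u, rfl⟩ := A.surjective v
  have h1 : (A * m * A⁻¹) (A u) = A (m u) := by
    show (A * m * A⁻¹ * A) u = _
    rw [inv_mul_cancel_right]; rfl
  have h2 : ∀ x, (A u) (q x) = u x := by
    intro x
    rw [hAv, LinearEquiv.symm_apply_apply]
  rw [h1, hmv, h2, h2]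
  apply LinearMap.ext
  intro w
  simp only [hAv, LinearMap.add_apply, pt_apply, hqs]

theorem conj_Z {b : W} {X : E →ₗ[F] E} (h : ZX β M b X) {q : W ≃ₗ[F] W}
    (hq : q ∈ isom (fun x y => β x y)) : ZX β M (q b) X := by
  have h1 : SZ β M b 0 0 0 X := by
    obtain ⟨m, hm, hmv⟩ := h
    exact ⟨m, hm, fun v => by rw [hmv]; simp⟩
  obtain ⟨m, hm, hmv⟩ := T.conj_B h1 hq
  exact ⟨m, hm, fun v => by rw [hmv]; simp⟩

theorem conj_A {b d : W} {ξ ξ' X : E →ₗ[F] E} (h : SZ β M b d ξ ξ' X) {p : E ≃ₗ[F] E}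
    (hp : p ∈ isom (fun x y => α x y)) : SZ β M b d ((p : E →ₗ[F] E) ∘ₗ ξ ∘ₗ (p.symm : E →ₗ[F] E))
      ((p : E →ₗ[F] E) ∘ₗ ξ' ∘ₗ (p.symm : E →ₗ[F] E)) ((p : E →ₗ[F] E) ∘ₗ X ∘ₗ (p.symm : E →ₗ[F] E)) := by
  obtain ⟨m, hm, hmv⟩ := h
  obtain ⟨A, hA⟩ : ∃ A : (W →ₗ[F] E) ≃ₗ[F] (W →ₗ[F] E), A = ac p 1 := ⟨_, rfl⟩
  have hAM : A ∈ M := by rw [hA]; exact T.tA p hp
  have hAv : ∀ v w, (A v) w = p (v w) := fun v w => by rw [hA]; rfl
  refine ⟨A * m * A⁻¹, mul_mem (mul_mem hAM hm) (inv_mem hAM), fun v => ?_⟩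
  obtain ⟨u, rfl⟩ := A.surjective v
  have h1 : (A * m * A⁻¹) (A u) = A (m u) := by
    show (A * m * A⁻¹ * A) u = _
    rw [inv_mul_cancel_right]; rfl
  rw [h1, hmv]
  apply LinearMap.ext
  intro w
  simp only [hAv, LinearMap.add_apply, pt_apply, LinearMap.comp_apply, LinearEquiv.coe_coe, map_add, map_smul,
    LinearEquiv.symm_apply_apply]

/-- from an element of a radical -/
theorem from_r {b : W} {r : (W →ₗ[F] E) ≃ₗ[F] (W →ₗ[F] E)} (hr : r ∈ M) (hT : Tv β b r) {d : W}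
    (hbd : β b d = 0) {f : W} (hf : β f b = 1) : ∃ ξ ξ' : E →ₗ[F] E,
    (∀ x, ξ x = (r (pt x (β f))) d - (pt x (β f)) d) ∧ Adj α ξ ξ' ∧
    (∀ y, r (pt y (β d)) = pt y (β d) - pt (ξ' y) (β b)) ∧ SZ β M b d ξ ξ' (-(ξ' ∘ₗ ξ)) := by
  have hdb : β d b = 0 := by rw [T.bn, hbd, neg_zero]
  obtain ⟨ξ, hξ⟩ : ∃ ξ : E →ₗ[F] E, ∀ x, ξ x = (r (pt x (β f))) d - (pt x (β f)) d :=
    ⟨(LinearMap.applyₗ d) ∘ₗ ((r : (W →ₗ[F] E) →ₗ[F] (W →ₗ[F] E)) ∘ₗ (pt.flip (β f)) - pt.flip (β f)), fun x => rfl⟩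
  obtain ⟨ξ', hξ'⟩ := T.exists_adj ξ
  have hrb : ∀ v, (r v) b = v b := by
    intro v
    rw [← sub_eq_zero]
    apply T.hαn
    intro y
    rw [map_sub, LinearMap.sub_apply, ← T.pol, ← T.pol]
    conv_lhs => enter [1, 2]; rw [← hT.1 y]
    rw [O_polar (T.hM hr), sub_self]
  have hrd : ∀ v, (r v) d = v d + ξ (v b) := by
    intro v
    obtain ⟨a, ha⟩ := hT.2 (v - pt (v b) (β f)) (by
      rw [LinearMap.sub_apply, pt_apply, hf, one_smul, sub_self])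
    rw [map_sub, sub_eq_iff_eq_add] at ha
    rw [ha, hξ, LinearMap.add_apply, LinearMap.add_apply, LinearMap.sub_apply, pt_apply a, hbd, zero_smul]
    abel
  have hrp : ∀ y, r (pt y (β d)) = pt y (β d) - pt (ξ' y) (β b) := by
    intro y
    obtain ⟨a, ha⟩ := hT.2 (pt y (β d)) (by rw [pt_apply, hdb, zero_smul])
    have h1 : a = - ξ' y := by
      rw [← sub_eq_zero]
      apply T.an0
      intro x
      have h2 := O_polar (T.hM hr) (pt y (β d)) (pt x (β f))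
      rw [ha, polar_add_left, T.pol, T.pol, T.pol, hrd, hrb, pt_apply x (β f) b, hf, one_smul, map_add,
        LinearMap.add_apply, hξ' x y] at h2
      rw [map_sub, map_neg]
      linear_combination h2
    rw [ha, h1, map_neg, LinearMap.neg_apply, sub_eq_add_neg]
  refine ⟨ξ, ξ', hξ, hξ', hrp, ?_⟩
  obtain ⟨t, ht, -, htv⟩ := T.xb d 1
  have htiv : ∀ v, t⁻¹ v = v - pt (v d) (β d) := by
    intro v
    apply t.injective
    rw [← LinearEquiv.mul_apply, mul_inv_cancel, htv]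
    apply LinearMap.ext
    intro w
    simp only [LinearMap.add_apply, LinearMap.sub_apply, pt_apply, T.bb, LinearMap.smul_apply, LinearEquiv.coe_one, id]
    module
  refine ⟨t * r * t⁻¹ * r⁻¹, mul_mem (mul_mem (mul_mem ht hr) (inv_mem ht)) (inv_mem hr), fun u => ?_⟩
  obtain ⟨v, rfl⟩ := r.surjective u
  have e1 : (t * r * t⁻¹ * r⁻¹) (r v) = t (r (t⁻¹ v)) := by
    show (t * r * t⁻¹ * r⁻¹ * r) v = _
    rw [inv_mul_cancel_right]; rfl
  rw [e1, htiv, map_sub, hrp, htv, hrb, hrd]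
  apply LinearMap.ext
  intro w
  simp only [LinearMap.add_apply, LinearMap.sub_apply, pt_apply, T.bb, hbd, hdb, LinearMap.smul_apply, LinearMap.neg_apply,
    LinearMap.comp_apply, map_add, map_neg, hrd]
  module

end TS

end Cfsg.Agent.Lib.TenSpH94
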