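import Mathlib
import Cfsg.Agent.Lib.TenSp3H94

set_option autoImplicit false
set_option linter.unusedSectionVars false
set_option linter.unusedSimpArgs false
set_option linter.unusedVariables false

/-!
Overgroups of `Sp ⊗ Sp` in orthogonal groups: the ring of root elements.
-/

namespace Cfsg.Agent.Lib.TenSpH94

open QuadraticMap Module Cfsg.Agent.Lib.Quad Cfsg.Agent.Lib.OrthMax Cfsg.Agent.Lib.TenSLH94
  Cfsg.Agent.Lib.SpTrans Cfsg.Agent.Lib.OrthDecH94
open Cfsg.Agent.Lib.SLBlockH94 (Dec)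

variable {F E W : Type*} [Field F] [AddCommGroup E] [Module F E] [FiniteDimensional F E]
  [AddCommGroup W] [Module F W] [FiniteDimensional F W]

/-- the ring of root elements -/
def NB (α : E →ₗ[F] E →ₗ[F] F) (β : W →ₗ[F] W →ₗ[F] F) (M : Subgroup ((W →ₗ[F] E) ≃ₗ[F] (W →ₗ[F] E)))
    (ξ : E →ₗ[F] E) : Prop :=
  ∃ ξ', Adj α ξ ξ' ∧ ∀ b d, β b d = 0 → SZ β M b d ξ ξ' 0

namespace TS

variable {α : E →ₗ[F] E →ₗ[F] F} {β : W →ₗ[F] W →ₗ[F] F} {Q : QuadraticForm F (W →ₗ[F] E)}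
  {M : Subgroup ((W →ₗ[F] E) ≃ₗ[F] (W →ₗ[F] E))} (T : TS α β Q M)
include T

theorem adj_unique {ξ ξ' ξ'' : E →ₗ[F] E} (h : Adj α ξ ξ') (h' : Adj α ξ ξ'') : ξ' = ξ'' := by
  apply LinearMap.ext
  intro y
  rw [← sub_eq_zero]
  apply T.an0
  intro x
  rw [map_sub, ← h, ← h', sub_self]

theorem sz_zero_left (d : W) (ξ ξ' X : E →ₗ[F] E) : SZ β M 0 d ξ ξ' X :=
  ⟨1, one_mem _, fun v => by simp⟩

/-- from one root element to a member of the ring -/
theorem n_of_sz {b d : W} {ξ ξ' X : E →ₗ[F] E} (hb : b ≠ 0) (hd : d ∉ Submodule.span F {b}) (hbd : β b d = 0)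
    (h : SZ β M b d ξ ξ' X) (hξ : Adj α ξ ξ') : NB α β M ξ := by
  have hW := T.hW
  have h1 : ∀ d', d' ∉ Submodule.span F {b} → β b d' = 0 → SZ β M b d' ξ ξ' X := by
    intro d' hd' hbd'
    obtain ⟨q, hq, hqb, hqd⟩ := T.move_d hd hd' hbd hbd'
    have := T.conj_B h hq
    rwa [hqb, hqd] at this
  -- the central element
  have h2 : ZX β M b X := by
    obtain ⟨d₂, hd₂, hbd₂, hdd₂⟩ := T.exists_perp (Submodule.span F {b, d}) (β b) (β d)
      (by have := span2 (F := F) b d; omega)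
    have hd₂' : d₂ ∉ Submodule.span F {b} := fun h => hd₂ (Submodule.span_mono (by simp) h)
    have hdd : d + d₂ ∉ Submodule.span F {b} := by
      intro h
      apply hd₂
      have h3 : d₂ = (d + d₂) - d := by abel
      rw [h3]
      exact sub_mem (Submodule.span_mono (by simp) h) (Submodule.subset_span (by simp))
    have hb0 : β b (d + d₂) = 0 := by rw [map_add, hbd, hbd₂, add_zero]
    have e1 := T.sz_add_d hbd hbd₂ h (h1 _ hd₂' hbd₂)
    rw [T.bn, hdd₂, neg_zero, zero_smul, add_zero] at e1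
    have e2 := T.sz_neg hb0 (h1 _ hdd hb0)
    have e3 := T.sz_add hb0 e1 e2
    rw [add_neg_cancel, add_neg_cancel, add_neg_cancel_right] at e3
    obtain ⟨m, hm, hmv⟩ := e3
    exact ⟨m, hm, fun v => by rw [hmv]; simp⟩
  have h3 : ∀ d', d' ∉ Submodule.span F {b} → β b d' = 0 → SZ β M b d' ξ ξ' 0 := by
    intro d' hd' hbd'
    have := T.sz_z hbd' (h1 d' hd' hbd') (T.zx_neg h2)
    rwa [add_neg_cancel] at this
  have h4 : ∀ d', β b d' = 0 → SZ β M b d' ξ ξ' 0 := by
    intro d' hbd'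
    by_cases hd' : d' ∈ Submodule.span F {b}
    · obtain ⟨c, rfl⟩ := Submodule.mem_span_singleton.1 hd'
      have hn1 : d + c • b ∉ Submodule.span F {b} := by
        intro h
        apply hd
        have h5 : d = (d + c • b) - c • b := by abel
        rw [h5]
        exact sub_mem h hd'
      have hn2 : -d ∉ Submodule.span F {b} := fun h => hd (by have := neg_mem h; rwa [neg_neg] at this)
      have hb1 : β b (d + c • b) = 0 := by rw [map_add, hbd, hbd', add_zero]
      have hb2 : β b (-d) = 0 := by rw [map_neg, hbd, neg_zero]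
      have e1 := T.sz_add_d hb1 hb2 (h3 _ hn1 hb1) (h3 _ hn2 hb2)
      have e2 : β (-d) (d + c • b) = 0 := by
        rw [map_neg, LinearMap.neg_apply, map_add, T.bb, map_smul, T.bn, hbd, neg_zero, smul_zero, add_zero, neg_zero]
      rw [e2, zero_smul, add_zero, add_zero] at e1
      have e3 : d + c • b + -d = c • b := by abel
      rwa [e3] at e1
    · exact h3 d' hd' hbd'
  refine ⟨ξ', hξ, fun b' d' hbd' => ?_⟩
  by_cases hb' : b' = 0
  · rw [hb']; exact T.sz_zero_left _ _ _ _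
  obtain ⟨q, hq, hqb⟩ := T.move_b hb hb'
  have h5 : d' = q (q.symm d') := (q.apply_symm_apply d').symm
  have h6 := T.conj_B (h4 (q.symm d') (by
    have h7 := hq b (q.symm d')
    rw [q.apply_symm_apply, hqb] at h7
    have h8 : β b' d' = β b (q.symm d') := h7
    rw [← h8, hbd'])) hq
  rwa [hqb, ← h5] at h6

/-- central root elements give members of the ring -/
theorem n_of_zx {b : W} {X : E →ₗ[F] E} (hb : b ≠ 0) (h : ZX β M b X) : NB α β M X := by
  have hW := T.hW
  have h1 : ∀ b', ZX β M b' X := by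
    intro b'
    by_cases hb' : b' = 0
    · subst hb'
      exact ⟨1, one_mem _, fun v => by simp⟩
    · obtain ⟨q, hq, hqb⟩ := T.move_b hb hb'
      rw [← hqb]
      exact T.conj_Z h hq
  refine ⟨X, fun x y => ?_, fun b' d' hbd' => ?_⟩
  · obtain ⟨m, hm, hmv⟩ := h
    obtain ⟨f, hf⟩ := T.exists_one hb
    have hfb : β f (-b) = 1 := by rw [map_neg, ← T.bn, hf]
    have h2 := O_polar (T.hM hm) (pt x (-(β f))) (pt y (-(β f)))
    have h3 : ∀ z : E, (pt z (-(β f))) b = z := by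
      intro z
      rw [pt_apply, LinearMap.neg_apply, ← T.bn, hf, one_smul]
    rw [hmv, hmv, h3, h3, polar_add_left, polar_add_right, polar_add_right, T.pol, polar_comm Q _ (pt (X y) (β b)), T.pol,
      T.pol, h3, h3, pt_apply, T.bb, zero_smul, map_zero, LinearMap.zero_apply] at h2
    rw [T.an]
    linear_combination -h2
  · have hdb' : β d' b' = 0 := by rw [T.bn, hbd', neg_zero]
    obtain ⟨m, hm, hmv⟩ := h1 (b' + d')
    obtain ⟨n, hn, hnv⟩ := T.zx_neg (h1 b')
    obtain ⟨k, hk, hkv⟩ := T.zx_neg (h1 d')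
    refine ⟨m * (n * k), mul_mem hm (mul_mem hn hk), fun v => ?_⟩
    apply LinearMap.ext
    intro w
    rw [LinearEquiv.mul_apply, LinearEquiv.mul_apply, hmv, hnv, hkv]
    simp only [LinearMap.add_apply, LinearMap.neg_apply, LinearMap.zero_apply, pt_apply, map_add, T.bb, hbd', hdb', map_smul,
      zero_smul, smul_zero, map_zero, add_zero, zero_add, map_neg]
    module

/-- **existence of a nonscalar member** -/
theorem exists_N {b : W} (hb : b ≠ 0) {r : (W →ₗ[F] E) ≃ₗ[F] (W →ₗ[F] E)} (hr : r ∈ M) (hT : Tv β b r)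
    (hrn : ¬ ∃ q, r = ac 1 q) : ∃ ξ, NB α β M ξ ∧ ¬ ∃ c : F, ∀ x, ξ x = c • x := by
  obtain ⟨f', hf'⟩ := T.exists_one hb
  obtain ⟨f, hf⟩ : ∃ f, β f b = 1 := ⟨-f', by rw [T.bn, map_neg, neg_neg, hf']⟩
  by_cases hA : ∃ d, β b d = 0 ∧ ¬ ∃ c : F, ∀ x, (r (pt x (β f))) d - (pt x (β f)) d = c • x
  · obtain ⟨d, hbd, hns⟩ := hA
    obtain ⟨ξ, ξ', hξ, hadj, -, hS⟩ := T.from_r hr hT hbd hf
    refine ⟨ξ, T.n_of_sz hb ?_ hbd hS hadj, ?_⟩
    · intro hd
      obtain ⟨c, rfl⟩ := Submodule.mem_span_singleton.1 hd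
      apply hns
      refine ⟨0, fun x => ?_⟩
      obtain ⟨ξ₁, ξ₁', hξ₁, hadj₁, hrp, -⟩ := T.from_r hr hT (T.bb b) hf
      have h1 : ξ₁' = 0 := by
        apply LinearMap.ext
        intro y
        have h2 := hrp y
        rw [hT.1] at h2
        have h3 : pt (ξ₁' y) (β b) = 0 := by
          rw [eq_comm, sub_eq_self] at h2
          exact h2
        by_contra h4
        exact pt_ne h4 (T.beta_ne hb) h3
      have h2 : ξ₁ x = 0 := by
        apply T.hαn
        intro y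
        rw [hadj₁, h1, LinearMap.zero_apply, map_zero]
      rw [map_smul, map_smul, ← smul_sub, ← hξ₁, h2, smul_zero, zero_smul]
    · rintro ⟨c, hc⟩
      exact hns ⟨c, fun x => by rw [← hξ, hc]⟩
  · push Not at hA
    obtain ⟨x₀, hx₀⟩ : ∃ x : E, x ≠ 0 := by
      have : Nontrivial E := Module.finrank_pos_iff (R := F).1 (by have := T.hE; omega)
      exact exists_ne 0
    obtain ⟨χ, hχ⟩ := exists_dual0 (F := F) hx₀
    obtain ⟨φ, hφ⟩ : ∃ φ : Dual F W, ∀ w, φ w = χ ((r (pt x₀ (β f))) w - (pt x₀ (β f)) w) :=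
      ⟨χ ∘ₗ (r (pt x₀ (β f)) - pt x₀ (β f)), fun w => rfl⟩
    obtain ⟨d₀, rfl⟩ := T.rep φ
    have hμ : ∀ d, β b d = 0 → ∀ x, (r (pt x (β f))) d - (pt x (β f)) d = β d₀ d • x := by
      intro d hbd x
      obtain ⟨c, hc⟩ := hA d hbd
      have h1 := hφ d
      rw [hc, map_smul, hχ, smul_eq_mul, mul_one] at h1
      rw [hc, h1]
    have hrb : ∀ v, (r v) b = v b := by
      intro v
      rw [← sub_eq_zero]
      apply T.hαn
      intro y
      rw [map_sub, LinearMap.sub_apply, ← T.pol, ← T.pol]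
      conv_lhs => enter [1, 2]; rw [← hT.1 y]
      rw [O_polar (T.hM hr), sub_self]
    have hd₀b : β d₀ b = 0 := by rw [hφ, hrb, sub_self, map_zero]
    have hbd₀ : β b d₀ = 0 := by rw [T.bn, hd₀b, neg_zero]
    obtain ⟨s, hs, ⟨q₁, hq₁⟩, hsv, hsiv⟩ := T.sb hbd₀
    obtain ⟨m, hm⟩ : ∃ m, m = s⁻¹ * r := ⟨_, rfl⟩
    have hmM : m ∈ M := by rw [hm]; exact mul_mem (inv_mem hs) hr
    have hrp : ∀ d, β b d = 0 → ∀ y, r (pt y (β d)) = s (pt y (β d)) := by
      intro d hbd y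
      have hdb : β d b = 0 := by rw [T.bn, hbd, neg_zero]
      obtain ⟨ξ, ξ', hξ, hadj, h1, -⟩ := T.from_r hr hT hbd hf
      have h2 : ∀ x, ξ x = β d₀ d • x := fun x => by rw [hξ, hμ d hbd]
      have h3 : ξ' y = β d₀ d • y := by
        rw [← sub_eq_zero]
        apply T.an0
        intro x
        rw [map_sub, ← hadj, h2, map_smul, map_smul, LinearMap.smul_apply, sub_self]
      rw [h1, h3, hsv]
      apply LinearMap.ext
      intro w
      simp only [LinearMap.sub_apply, LinearMap.add_apply, pt_apply, hdb]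
      rw [T.bn d₀ d]
      module
    have hmp : ∀ v, v b = 0 → m v = v := by
      intro v hv
      have h1 : v ∈ LinearMap.eqLocus ((m : (W →ₗ[F] E) →ₗ[F] (W →ₗ[F] E))) LinearMap.id := by
        apply span_perp _ hv
        intro x ψ hψ
        obtain ⟨d, rfl⟩ := T.rep ψ
        show m (pt x (β d)) = pt x (β d)
        rw [hm, LinearEquiv.mul_apply, hrp d (by rw [T.bn, hψ, neg_zero]), ← LinearEquiv.mul_apply, inv_mul_cancel]; rfl
      exact h1
    have hmf : ∀ x, ∃ y, m (pt x (β f)) = pt x (β f) + pt y (β b) := by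
      intro x
      have h1 : r (pt x (β f)) - s (pt x (β f)) ∈ (sp (β b) : Submodule F (W →ₗ[F] E)) := by
        rw [mem_sp_iff (T.beta_ne hb)]
        intro w hw
        rw [LinearMap.sub_apply, hsv]
        have h2 := hμ w hw x
        rw [sub_eq_iff_eq_add] at h2
        rw [h2]
        simp only [LinearMap.add_apply, pt_apply, hf, hw]
        module
      obtain ⟨y, hy⟩ := mem_sp.1 h1
      refine ⟨y, ?_⟩
      rw [sub_eq_iff_eq_add] at hy
      have e1 : s⁻¹ (pt y (β b)) = pt y (β b) := by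
        rw [hsiv, pt_apply, pt_apply, T.bb, hbd₀, zero_smul, map_zero, LinearMap.zero_apply, LinearMap.zero_apply,
          sub_zero, sub_zero]
      rw [hm, LinearEquiv.mul_apply, hy, map_add, e1, ← LinearEquiv.mul_apply, inv_mul_cancel, add_comm]; rfl
    obtain ⟨X, hX⟩ : ∃ X : E →ₗ[F] E, ∀ x, X x = (m (pt x (β f)) - pt x (β f)) f' :=
      ⟨(LinearMap.applyₗ f') ∘ₗ ((m : (W →ₗ[F] E) →ₗ[F] (W →ₗ[F] E)) ∘ₗ (pt.flip (β f)) - pt.flip (β f)), fun x => rfl⟩
    have hmf' : ∀ x, m (pt x (β f)) = pt x (β f) + pt (X x) (β b) := by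
      intro x
      obtain ⟨y, hy⟩ := hmf x
      have h1 : X x = y := by rw [hX, hy, add_sub_cancel_left, pt_apply, hf', one_smul]
      rw [hy, h1]
    have hmv : ∀ v, m v = v + pt (X (v b)) (β b) := by
      intro v
      have h1 := hmp (v - pt (v b) (β f)) (by rw [LinearMap.sub_apply, pt_apply, hf, one_smul, sub_self])
      rw [map_sub, hmf', sub_eq_iff_eq_add] at h1
      rw [h1]
      abel
    refine ⟨X, T.n_of_zx hb ⟨m, hmM, hmv⟩, ?_⟩
    rintro ⟨c, hc⟩
    apply hrn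
    obtain ⟨x, hx, ⟨q₂, hq₂⟩, hxv⟩ := T.xb b c
    refine ⟨q₁ * q₂, ?_⟩
    have h1 : r = s * m := by rw [hm]; group
    have h2 : m = x := by
      apply LinearEquiv.ext
      intro v
      rw [hmv, hxv, hc, map_smul]; rfl
    rw [h1, h2, hq₁, hq₂]; rfl

end TS

end Cfsg.Agent.Lib.TenSpH94
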