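import Mathlib
import Cfsg.Agent.Lib.TenSp4H94

set_option autoImplicit false
set_option linter.unusedSectionVars false
set_option linter.unusedSimpArgs false
set_option linter.unusedVariables false

/-!
Overgroups of `Sp ⊗ Sp` in orthogonal groups: rank one root elements.
-/

namespace Cfsg.Agent.Lib.TenSpH94

open QuadraticMap Module Cfsg.Agent.Lib.Quad Cfsg.Agent.Lib.OrthMax Cfsg.Agent.Lib.TenSLH94
  Cfsg.Agent.Lib.SpTrans Cfsg.Agent.Lib.OrthDecH94
open Cfsg.Agent.Lib.SLBlockH94 (Dec)

variable {F E W : Type*} [Field F] [AddCommGroup E] [Module F E] [FiniteDimensional F E]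
  [AddCommGroup W] [Module F W] [FiniteDimensional F W]

/-- rank one maps -/
def ro (α : E →ₗ[F] E →ₗ[F] F) (a a' : E) : E →ₗ[F] E := (α.flip a').smulRight a

theorem ro_apply (α : E →ₗ[F] E →ₗ[F] F) (a a' x : E) : ro α a a' x = α x a' • a := rfl

namespace TS

variable {α : E →ₗ[F] E →ₗ[F] F} {β : W →ₗ[F] W →ₗ[F] F} {Q : QuadraticForm F (W →ₗ[F] E)}
  {M : Subgroup ((W →ₗ[F] E) ≃ₗ[F] (W →ₗ[F] E))} (T : TS α β Q M)
include T

theorem n_add {ξ η : E →ₗ[F] E} (h : NB α β M ξ) (h' : NB α β M η) : NB α β M (ξ + η) := by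
  obtain ⟨ξ', h1, h2⟩ := h
  obtain ⟨η', h3, h4⟩ := h'
  refine ⟨ξ' + η', fun x y => ?_, fun b d hbd => ?_⟩
  · rw [LinearMap.add_apply, LinearMap.add_apply, map_add, map_add, LinearMap.add_apply, h1, h3]
  · have := T.sz_add hbd (h2 b d hbd) (h4 b d hbd)
    rwa [add_zero] at this

theorem n_smul {ξ : E →ₗ[F] E} (c : F) (h : NB α β M ξ) : NB α β M (c • ξ) := by
  obtain ⟨ξ', h1, h2⟩ := h
  refine ⟨c • ξ', fun x y => ?_, fun b d hbd => ?_⟩
  · rw [LinearMap.smul_apply, LinearMap.smul_apply, map_smul, map_smul, LinearMap.smul_apply, h1]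
  · obtain ⟨m, hm, hmv⟩ := h2 b (c • d) (by rw [map_smul, hbd, smul_zero])
    refine ⟨m, hm, fun v => ?_⟩
    rw [hmv]
    apply LinearMap.ext
    intro w
    simp only [LinearMap.add_apply, pt_apply, map_smul, LinearMap.smul_apply, smul_eq_mul, LinearMap.zero_apply]

theorem n_one : NB α β M LinearMap.id := by
  refine ⟨LinearMap.id, fun x y => rfl, fun b d hbd => ?_⟩
  obtain ⟨s, hs, -, hsv, -⟩ := T.sb hbd
  exact ⟨s, hs, fun v => by rw [hsv]; simp⟩

theorem n_mul {ξ η : E →ₗ[F] E} (h : NB α β M ξ) (h' : NB α β M η) : NB α β M (η ∘ₗ ξ) := by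
  obtain ⟨ξ', h1, h2⟩ := h
  obtain ⟨η', h3, h4⟩ := h'
  have key : ∀ b g, β b g = 0 → SZ β M b g (-(η ∘ₗ ξ)) (-(ξ' ∘ₗ η')) 0 := by
    intro b g hbg
    obtain ⟨d, e, hde, hbd, hbe, hgd, hge⟩ := T.exists_hyp b g
    have hdb : β d b = 0 := by rw [T.bn, hbd, neg_zero]
    have heb : β e b = 0 := by rw [T.bn, hbe, neg_zero]
    have hdg : β d g = 0 := by rw [T.bn, hgd, neg_zero]
    have heg : β e g = 0 := by rw [T.bn, hge, neg_zero]
    have hgb : β g b = 0 := by rw [T.bn, hbg, neg_zero]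
    have hed : β e d = -1 := by rw [T.bn, hde]
    obtain ⟨m, hm, hmv⟩ := h2 b d hbd
    obtain ⟨m', hm', hmv'⟩ := T.sz_neg hbd (h2 b d hbd)
    obtain ⟨n, hn, hnv⟩ := h4 e g heg
    obtain ⟨n', hn', hnv'⟩ := T.sz_neg heg (h4 e g heg)
    refine ⟨m * (n * (m' * n')), mul_mem hm (mul_mem hn (mul_mem hm' hn')), fun v => ?_⟩
    apply LinearMap.ext
    intro w
    rw [LinearEquiv.mul_apply, LinearEquiv.mul_apply, LinearEquiv.mul_apply, hmv, hnv, hmv', hnv']
    simp only [LinearMap.add_apply, LinearMap.neg_apply, LinearMap.zero_apply, LinearMap.comp_apply, pt_apply, map_add,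
      T.bb, hbd, hdb, hbe, heb, hdg, hgd, heg, hge, hgb, hbg, hed, hde, map_smul, zero_smul, smul_zero, map_zero, add_zero,
      zero_add, map_neg, neg_zero, one_smul, neg_smul]
    module
  have h5 : NB α β M (-(η ∘ₗ ξ)) := by
    refine ⟨-(ξ' ∘ₗ η'), fun x y => ?_, key⟩
    rw [LinearMap.neg_apply, LinearMap.neg_apply, map_neg, map_neg, LinearMap.neg_apply, LinearMap.comp_apply,
      LinearMap.comp_apply, h3, h1]
  have h6 := T.n_smul (-1) h5
  rwa [neg_smul, one_smul, neg_neg] at h6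

theorem n_conj {ξ : E →ₗ[F] E} (h : NB α β M ξ) {p : E ≃ₗ[F] E} (hp : p ∈ isom (fun x y => α x y)) :
    NB α β M ((p : E →ₗ[F] E) ∘ₗ ξ ∘ₗ (p.symm : E →ₗ[F] E)) := by
  obtain ⟨ξ', h1, h2⟩ := h
  have hps : ∀ x w, α x (p.symm w) = α (p x) w := by
    intro x w
    have := hp x (p.symm w)
    simp only [LinearEquiv.apply_symm_apply] at this
    exact this.symm
  refine ⟨(p : E →ₗ[F] E) ∘ₗ ξ' ∘ₗ (p.symm : E →ₗ[F] E), fun x y => ?_, fun b d hbd => ?_⟩
  · have h3 : ∀ z, α (p z) y = α z (p.symm y) := fun z => (hps _ _).symm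
    have h4 : ∀ z, α x (p z) = α (p.symm x) z := by
      intro z
      rw [T.an, T.an _ z]
      congr 1
      rw [hps]
    simp only [LinearMap.comp_apply, LinearEquiv.coe_coe]
    rw [h3, h1, h4]
  · have := T.conj_A (h2 b d hbd) hp
    rwa [LinearMap.zero_comp, LinearMap.comp_zero] at this

theorem n_sub {ξ η : E →ₗ[F] E} (h : NB α β M ξ) (h' : NB α β M η) : NB α β M (ξ - η) := by
  have := T.n_add h (T.n_smul (-1) h')
  rwa [neg_smul, one_smul, ← sub_eq_add_neg] at this

/-- differences with conjugates -/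
theorem n_comm {ξ : E →ₗ[F] E} (h : NB α β M ξ) (a : E) (κ : F) :
    NB α β M (κ • (ro α a a ∘ₗ ξ) - κ • (ξ ∘ₗ ro α a a) - (κ * κ * α (ξ a) a) • ro α a a) := by
  have h1 := T.n_sub (T.n_conj h (tv_mem_isom T.hα a κ)) h
  have h2 : ∀ x, (tv α T.hα a κ).symm x = x - (κ * α x a) • a := by
    intro x
    apply (tv α T.hα a κ).injective
    rw [LinearEquiv.apply_symm_apply, tv_apply, map_sub, LinearMap.sub_apply, map_smul, LinearMap.smul_apply,
      T.hα a, smul_zero, sub_zero]
    module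
  convert h1 using 1
  apply LinearMap.ext
  intro x
  simp only [LinearMap.sub_apply, LinearMap.smul_apply, LinearMap.comp_apply, LinearEquiv.coe_coe, h2, tv_apply, ro_apply,
    map_sub, map_smul, smul_eq_mul]
  module

/-- two functionals on a hyperplane -/
theorem two_sep {a u₁ u₂ : E} (h1 : u₁ ∉ Submodule.span F {a}) (h2 : u₂ ∉ Submodule.span F {a}) :
    ∃ e, α a e = 0 ∧ α u₁ e ≠ 0 ∧ α u₂ e ≠ 0 := by
  have sp : ∀ u, u ∉ Submodule.span F {a} → ∃ e, α u e = 1 ∧ α a e = 0 := by
    intro u hu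
    obtain ⟨φ, h1, h0⟩ := exists_dual1 hu
    obtain ⟨w, rfl⟩ := rep_of T.hαn φ
    exact ⟨-w, by rw [map_neg, ← T.an, h1], by rw [map_neg, ← T.an, h0]⟩
  obtain ⟨e₁, he₁, he₁'⟩ := sp u₁ h1
  obtain ⟨e₂, he₂, he₂'⟩ := sp u₂ h2
  by_cases h3 : α u₂ e₁ = 0
  · by_cases h4 : α u₁ e₂ = 0
    · refine ⟨e₁ + e₂, by rw [map_add, he₁', he₂', add_zero], ?_, ?_⟩
      · rw [map_add, he₁, h4, add_zero]; exact one_ne_zero
      · rw [map_add, h3, he₂, zero_add]; exact one_ne_zero
    · exact ⟨e₂, he₂', h4, by rw [he₂]; exact one_ne_zero⟩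
  · exact ⟨e₁, he₁', by rw [he₁]; exact one_ne_zero, h3⟩

/-- a rank one member -/
theorem exists_eta (hexc : finrank F E = 2 → ∃ κ : F, κ ≠ 0 ∧ κ ≠ 1) {ξ : E →ₗ[F] E} (h : NB α β M ξ)
    (hns : ¬ ∃ c : F, ∀ x, ξ x = c • x) : ∃ a, a ≠ 0 ∧ NB α β M (ro α a a) := by
  obtain ⟨a, ha⟩ := exists_noneigen hns
  have ha0 : a ≠ 0 := by
    rintro rfl
    apply ha
    rw [map_zero]; exact zero_mem _
  obtain ⟨ξ', hadj, -⟩ := id h
  refine ⟨a, ha0, ?_⟩
  have of_smul : ∀ c : F, c ≠ 0 → NB α β M (c • ro α a a) → NB α β M (ro α a a) := by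
    intro c hc h1
    have := T.n_smul c⁻¹ h1
    rwa [smul_smul, inv_mul_cancel₀ hc, one_smul] at this
  obtain ⟨c, hc⟩ : ∃ c, c = α (ξ a) a := ⟨_, rfl⟩
  by_cases hE : finrank F E = 2
  · obtain ⟨κ, hκ0, hκ1⟩ := hexc hE
    have hc0 : c ≠ 0 := by
      rintro hc0
      -- the perp of `a` is its span
      obtain ⟨φ, h1, h0⟩ := exists_dual1 ha
      obtain ⟨w, rfl⟩ := rep_of T.hαn φ
      -- w ∈ a^⊥, so are a and ξ a: too many
      obtain ⟨y, hy⟩ : ∃ y, α a y ≠ 0 := by
        by_contra hcon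
        push Not at hcon
        exact ha0 (T.hαn a hcon)
      have hk := LinearMap.finrank_range_add_finrank_ker (α a)
      have hr : 0 < finrank F (LinearMap.range (α a)) := by
        rw [Module.finrank_pos_iff_exists_ne_zero]
        exact ⟨⟨α a y, ⟨y, rfl⟩⟩, fun h => hy (congrArg Subtype.val h)⟩
      have hk1 : finrank F (LinearMap.ker (α a)) ≤ finrank F (Submodule.span F {a}) := by
        rw [finrank_span_singleton ha0]; omega
      have hle : Submodule.span F {a} ≤ LinearMap.ker (α a) := by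
        rw [Submodule.span_singleton_le_iff_mem]
        exact T.hα a
      have heq := Submodule.eq_of_le_of_finrank_le hle hk1
      apply ha
      rw [heq]
      show α a (ξ a) = 0
      rw [T.an, ← hc, hc0, neg_zero]
    have h1 := T.n_smul κ (T.n_comm h a 1)
    have h2 := T.n_sub h1 (T.n_comm h a κ)
    apply of_smul ((κ * κ - κ) * c)
    · apply mul_ne_zero _ hc0
      have : κ * κ - κ = κ * (κ - 1) := by ring
      rw [this]
      exact mul_ne_zero hκ0 (sub_ne_zero.2 hκ1)
    · convert h2 using 1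
      rw [hc]
      module
  · have hE3 : 3 ≤ finrank F E := by have := T.hE; omega
    obtain ⟨Ξ, hΞ⟩ : ∃ Ξ, Ξ = (1 : F) • (ro α a a ∘ₗ ξ) - (1 : F) • (ξ ∘ₗ ro α a a) - (1 * 1 * α (ξ a) a) • ro α a a :=
      ⟨_, rfl⟩
    have hΞN : NB α β M Ξ := by rw [hΞ]; exact T.n_comm h a 1
    obtain ⟨w, hw⟩ : ∃ w, w = ξ a + c • a := ⟨_, rfl⟩
    obtain ⟨u, hu⟩ : ∃ u, u = ξ' a := ⟨_, rfl⟩
    have hΞv : ∀ x, Ξ x = α x u • a - α x a • w := by
      intro x
      rw [hΞ, hw, hu, hc]
      simp only [LinearMap.sub_apply, LinearMap.smul_apply, LinearMap.comp_apply, ro_apply, map_smul, hadj x a]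
      module
    have hwa : w ∉ Submodule.span F {a} := by
      intro h1
      apply ha
      have h2 : ξ a = w - c • a := by rw [hw]; abel
      rw [h2]
      exact sub_mem h1 (Submodule.smul_mem _ _ (Submodule.mem_span_singleton_self a))
    -- the second family
    have h2 : ∀ e, α a e = 0 → NB α β M (α u e • ro α a e - α w e • ro α e a) := by
      intro e hae
      have h3 := T.n_comm hΞN e 1
      have hea : α e a = 0 := by rw [T.an, hae, neg_zero]
      convert h3 using 1
      apply LinearMap.ext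
      intro x
      simp only [LinearMap.sub_apply, LinearMap.smul_apply, LinearMap.comp_apply, ro_apply, map_smul, hΞv, map_sub,
        hae, hea, smul_eq_mul]
      rw [T.an e u]
      module
    by_cases hua : u ∈ Submodule.span F {a}
    · have hue : ∀ e, α a e = 0 → α u e = 0 := by
        intro e hae
        obtain ⟨s, rfl⟩ := Submodule.mem_span_singleton.1 hua
        rw [map_smul, LinearMap.smul_apply, hae, smul_zero]
      have h3 : ∀ e, α a e = 0 → α w e ≠ 0 → NB α β M (ro α e a) := by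
        intro e hae hwe
        have h4 := T.n_smul (-(α w e)⁻¹) (h2 e hae)
        convert h4 using 1
        rw [hue e hae, zero_smul, zero_sub, smul_neg, neg_smul, neg_neg, smul_smul, inv_mul_cancel₀ hwe, one_smul]
      by_cases hwa0 : α w a = 0
      · obtain ⟨e, hae, hwe, -⟩ := T.two_sep hwa hwa
        have h4 := T.n_sub (h3 (e + a) (by rw [map_add, hae, T.hα a, add_zero]) (by rw [map_add, hwa0, add_zero]; exact hwe))
          (h3 e hae hwe)
        convert h4 using 1
        apply LinearMap.ext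
        intro x
        simp only [LinearMap.sub_apply, ro_apply]
        module
      · exact h3 a (T.hα a) hwa0
    · -- a vector in the hyperplane outside the line
      obtain ⟨y, hya, hay⟩ := exists_ker_out hE3 (α a) a
      obtain ⟨e', hae', hwe', hye'⟩ := T.two_sep hwa hya
      have he'a : e' ∉ Submodule.span F {a} := by
        intro h3
        obtain ⟨s, rfl⟩ := Submodule.mem_span_singleton.1 h3
        apply hye'
        rw [map_smul, T.an, hay, neg_zero, smul_zero]
      obtain ⟨e, hae, hue, he'e⟩ := T.two_sep hua he'a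
      have h3 := T.n_mul (h2 e' hae') (h2 e hae)
      apply of_smul (-(α w e' * α u e * α e' e))
      · exact neg_ne_zero.2 (mul_ne_zero (mul_ne_zero hwe' hue) he'e)
      · have he'a0 : α e' a = 0 := by rw [T.an, hae', neg_zero]
        convert h3 using 1
        apply LinearMap.ext
        intro x
        simp only [LinearMap.sub_apply, LinearMap.smul_apply, LinearMap.comp_apply, ro_apply, map_smul, map_sub, hae,
          he'a0, T.hα a, smul_eq_mul]
        module

theorem nd_topA : NdOn α ⊤ := by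
  intro x _ hx
  by_contra hcon
  push Not at hcon
  exact hx (T.hαn x fun y => hcon y trivial)

/-- all rank one members -/
theorem n_rank1 {a₀ : E} (ha₀ : a₀ ≠ 0) (h : NB α β M (ro α a₀ a₀)) (a a' : E) : NB α β M (ro α a a') := by
  have h1 : ∀ a, NB α β M (ro α a a) := by
    intro a
    by_cases ha : a = 0
    · have := T.n_smul 0 T.n_one
      convert this using 1
      apply LinearMap.ext
      intro x
      rw [ha, ro_apply, smul_zero, LinearMap.smul_apply, zero_smul]
    obtain ⟨t, ht, hta⟩ := exists_move T.hα T.nd_topA (u := a₀) (v := a) trivial trivial ha₀ ha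
    have ht' := tgrp_le_isom T.hα _ ht
    have := T.n_conj h ht'
    convert this using 1
    apply LinearMap.ext
    intro x
    rw [LinearMap.comp_apply, LinearMap.comp_apply, ro_apply, ro_apply, map_smul]
    simp only [LinearEquiv.coe_coe]
    rw [hta]
    congr 1
    have h2 := ht' (t.symm x) a₀
    rw [t.apply_symm_apply, hta] at h2
    exact h2
  have h2 : ∀ a a', α a' a ≠ 0 → NB α β M (ro α a a') := by
    intro a a' ha
    have h3 := T.n_smul (α a' a)⁻¹ (T.n_mul (h1 a') (h1 a))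
    convert h3 using 1
    apply LinearMap.ext
    intro x
    rw [LinearMap.smul_apply, LinearMap.comp_apply, ro_apply, ro_apply, ro_apply, map_smul, LinearMap.smul_apply,
      smul_eq_mul, smul_smul]
    congr 1
    field_simp
  by_cases haa : α a' a = 0
  · by_cases ha : a = 0
    · have := T.n_smul 0 T.n_one
      convert this using 1
      apply LinearMap.ext
      intro x
      rw [ha, ro_apply, smul_zero, LinearMap.smul_apply, zero_smul]
    by_cases ha' : a' = 0
    · have := T.n_smul 0 T.n_one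
      convert this using 1
      apply LinearMap.ext
      intro x
      rw [ha', ro_apply, map_zero, zero_smul, LinearMap.smul_apply, zero_smul]
    obtain ⟨z, -, hz, hz'⟩ := SpTrans.exists_common T.nd_topA (u := a) (v := a') trivial trivial ha ha'
    have hza : α z a ≠ 0 := by rw [T.an]; exact neg_ne_zero.2 hz
    have h3 := T.n_smul (α z a)⁻¹ (T.n_mul (h2 z a' hz') (h1 a))
    convert h3 using 1
    apply LinearMap.ext
    intro x
    rw [LinearMap.smul_apply, LinearMap.comp_apply, ro_apply, ro_apply, ro_apply, map_smul, LinearMap.smul_apply,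
      smul_eq_mul, smul_smul]
    congr 1
    field_simp
  · exact h2 a a' haa

end TS

end Cfsg.Agent.Lib.TenSpH94
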