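import Mathlib
import Cfsg.Agent.Lib.TenSp5H94

set_option autoImplicit false
set_option linter.unusedSectionVars false
set_option linter.unusedSimpArgs false
set_option linter.unusedVariables false

/-!
Overgroups of `Sp ⊗ Sp` in orthogonal groups: the main result.
-/

namespace Cfsg.Agent.Lib.TenSpH94

open QuadraticMap Module Cfsg.Agent.Lib.Quad Cfsg.Agent.Lib.OrthMax Cfsg.Agent.Lib.TenSLH94
  Cfsg.Agent.Lib.SpTrans Cfsg.Agent.Lib.OrthDecH94
open Cfsg.Agent.Lib.SLBlockH94 (Dec)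

variable {F E W : Type*} [Field F] [AddCommGroup E] [Module F E] [FiniteDimensional F E]
  [AddCommGroup W] [Module F W] [FiniteDimensional F W]

namespace TS

variable {α : E →ₗ[F] E →ₗ[F] F} {β : W →ₗ[F] W →ₗ[F] F} {Q : QuadraticForm F (W →ₗ[F] E)}
  {M : Subgroup ((W →ₗ[F] E) ≃ₗ[F] (W →ₗ[F] E))} (T : TS α β Q M)
include T

/-- root lines from the ring -/
theorem sf_perp (hN : ∀ a a', NB α β M (ro α a a')) (a a' : E) {b d : W} (hbd : β b d = 0) :
    SF Q M (pt a' (β b)) (pt a (β d)) := by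
  have hdb : β d b = 0 := by rw [T.bn, hbd, neg_zero]
  refine ⟨T.Qp _ _, by rw [T.pol, pt_apply, hdb, zero_smul, map_zero, LinearMap.zero_apply], fun s => ?_⟩
  obtain ⟨ξ', hadj, h⟩ := hN (s • a) a'
  have hξ' : ξ' = -(ro α a' (s • a)) := by
    apply T.adj_unique hadj
    intro x y
    simp only [ro_apply, LinearMap.neg_apply, map_smul, LinearMap.smul_apply, map_neg, smul_eq_mul, T.an y a]
    ring
  obtain ⟨m, hm, hmv⟩ := h b d hbd
  refine ⟨m, hm, fun v => ?_⟩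
  rw [hmv, siegMap_apply, Q_smul, T.Qp, polar_smul_left, T.pol, T.pol, hξ']
  apply LinearMap.ext
  intro w
  simp only [LinearMap.add_apply, LinearMap.sub_apply, LinearMap.neg_apply, LinearMap.smul_apply, pt_apply, ro_apply,
    LinearMap.zero_apply, map_smul, smul_eq_mul]
  module

theorem sf_cross (hN : ∀ a a', NB α β M (ro α a a')) {a a' : E} (haa : α a a' = 0) (b c : W) :
    SF Q M (pt a' (β b)) (pt a (β c)) := by
  have ha'a : α a' a = 0 := by rw [T.an, haa, neg_zero]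
  by_cases ha : a = 0
  · rw [ha, map_zero, LinearMap.zero_apply]
    exact SF.zero (T.Qp _ _)
  obtain ⟨d, e, hde, hbd, hbe, hcd, hce⟩ := T.exists_hyp b c
  have hec : β e c = 0 := by rw [T.bn, hce, neg_zero]
  have hdc : β d c = 0 := by rw [T.bn, hcd, neg_zero]
  have hdb : β d b = 0 := by rw [T.bn, hbd, neg_zero]
  obtain ⟨x₀, hx₀⟩ : ∃ x : E, x ≠ 0 := ⟨a, ha⟩
  obtain ⟨y₀, hy₀⟩ : ∃ y, α y x₀ ≠ 0 := by
    by_contra hcon
    push Not at hcon
    exact hx₀ (T.an0 hcon)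
  -- the element moving things
  have h1 := T.sf_perp hN a x₀ hec
  have h2 := T.sf_perp hN y₀ a' hbd
  obtain ⟨m, hm, hmv⟩ := h1.2.2 1
  rw [one_smul] at hmv
  have h3 := h2.map T.hM hm
  rw [hmv, hmv, siegMap_apply, siegMap_apply, T.Qp] at h3
  simp only [T.pol, pt_apply, hbe, hbd, hdc, hde, one_smul, zero_smul, map_smul, map_zero, LinearMap.zero_apply,
    LinearMap.smul_apply, mul_zero, zero_mul, sub_zero, add_zero, smul_zero, ha'a] at h3
  have h4 := h3.sub h2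
  rw [add_sub_cancel_left] at h4
  exact h4.of_smul hy₀

theorem full_pt (hN : ∀ a a', NB α β M (ro α a a')) (a' : E) {b : W} (hb : b ≠ 0) :
    Full Q M (pt a' (β b)) := by
  refine ⟨T.Qp _ _, fun y hy => ?_⟩
  rw [T.pol] at hy
  obtain ⟨f', hf'⟩ := T.exists_one hb
  obtain ⟨f, hf⟩ : ∃ f, β f b = 1 := ⟨-f', by rw [T.bn, map_neg, neg_neg, hf']⟩
  have h1 := T.sf_cross hN hy b f
  have h2 : y - pt (y b) (β f) ∈ Us Q M (T.Qp a' b) := by
    apply span_perp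
    · intro x ψ hψ
      obtain ⟨d, rfl⟩ := T.rep ψ
      exact T.sf_perp hN x a' (by rw [T.bn, hψ, neg_zero])
    · rw [LinearMap.sub_apply, pt_apply, hf, one_smul, sub_self]
  have h3 := h1.add h2
  have h4 := h3.2.2 1
  rwa [one_smul, add_sub_cancel] at h4

/-- **Second case.** -/
theorem Om_le [Finite F] (hQ : Nd Q) (hgen : GenHyp Q) (hexc : finrank F E = 2 → ∃ κ : F, κ ≠ 0 ∧ κ ≠ 1) {b : W}
    (hb : b ≠ 0) {r : (W →ₗ[F] E) ≃ₗ[F] (W →ₗ[F] E)} (hr : r ∈ M) (hT : Tv β b r)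
    (hrn : ¬ ∃ q, r = ac 1 q) : Om Q ≤ M := by
  obtain ⟨ξ, hξ, hns⟩ := T.exists_N hb hr hT hrn
  obtain ⟨a, ha, hη⟩ := T.exists_eta hexc hξ hns
  have hN := T.n_rank1 ha hη
  obtain ⟨f', hf'⟩ := T.exists_one hb
  obtain ⟨y₀, hy₀⟩ : ∃ y, α y a ≠ 0 := by
    by_contra hcon
    push Not at hcon
    exact ha (T.an0 hcon)
  have hf0 : f' ≠ 0 := by
    rintro rfl
    rw [map_zero] at hf'
    exact zero_ne_one hf'
  have h4 : 4 ≤ finrank F (W →ₗ[F] E) := by
    rw [Module.finrank_linearMap]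
    have := T.hE
    have := T.hW
    nlinarith
  refine Om_le_of_two hQ hgen h4 T.hM (T.full_pt hN a hb) (T.full_pt hN y₀ hf0) ?_
  rw [T.pol, pt_apply, T.bn, hf', neg_smul, one_smul, map_neg, LinearMap.neg_apply]
  exact neg_ne_zero.2 hy₀

/-- **Main result.** -/
theorem main [Finite F] (hQ : Nd Q) (hgen : GenHyp Q) (hexc : finrank F E = 2 → ∃ κ : F, κ ≠ 0 ∧ κ ≠ 1) :
    Om Q ≤ M ∨ ∀ g ∈ M, ∃ p q, g = ac p q := by
  by_cases hII : ∀ b, b ≠ 0 → ∀ r ∈ M, Tv β b r → ∃ q, r = ac 1 q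
  · exact Or.inr fun g hg => T.caseII hII hg
  · push Not at hII
    obtain ⟨b, hb, r, hr, hT, hrn⟩ := hII
    exact Or.inl (T.Om_le hQ hgen hexc hb hr hT (fun ⟨q, hq⟩ => hrn q hq))

end TS

end Cfsg.Agent.Lib.TenSpH94
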