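import Mathlib
import Cfsg.Agent.Lib.TenSp6H94
import Cfsg.Agent.Lib.QuadSum
import Cfsg.Agent.Lib.AltForm

set_option autoImplicit false
set_option linter.unusedSectionVars false
set_option linter.unusedSimpArgs false
set_option linter.unusedVariables false

/-!
Pairs of isometries lie in the commutator subgroup.
-/

namespace Cfsg.Agent.Lib.TenSpH94

open QuadraticMap Module Cfsg.Agent.Lib.Quad Cfsg.Agent.Lib.OrthMax Cfsg.Agent.Lib.TenSLH94
  Cfsg.Agent.Lib.SpTrans Cfsg.Agent.Lib.OrthDecH94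
open Cfsg.Agent.Lib.SLBlockH94 (Dec)

section gen

variable {F V : Type*} [Field F] [AddCommGroup V] [Module F V] [FiniteDimensional F V] {Q : QuadraticForm F V}

theorem mem_Om_of_even_mov [Finite F] (hQ : Nd Q) (hgen : GenHyp Q) (h2 : (2 : F) = 0) {g : V ≃ₗ[F] V}
    (hg : g ∈ O Q) (he : Even (finrank F (mov g))) : g ∈ Om Q := by
  rw [← hQ.R_eq_O hgen] at hg
  obtain ⟨vs, hvs, rfl⟩ := exists_list_of_mem_R hg
  rw [hQ.list_mem_Om_iff hgen vs hvs]
  refine ⟨(hQ.even_mov_list vs hvs).1 he, ?_⟩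
  exact FiniteField.isSquare_of_char_two (CharP.ringChar_of_prime_eq_zero Nat.prime_two (by exact_mod_cast h2)) _

end gen

variable {F E W : Type*} [Field F] [AddCommGroup E] [Module F E] [FiniteDimensional F E]
  [AddCommGroup W] [Module F W] [FiniteDimensional F W]

variable {α : E →ₗ[F] E →ₗ[F] F} {β : W →ₗ[F] W →ₗ[F] F} {Q : QuadraticForm F (W →ₗ[F] E)}

/-- the second factor as a homomorphism -/
noncomputable def acB : (W ≃ₗ[F] W) →* ((W →ₗ[F] E) ≃ₗ[F] (W →ₗ[F] E)) :=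
  MonoidHom.mk' (fun q => ac 1 q) (fun q q' => by
    apply LinearEquiv.ext
    intro v
    apply LinearMap.ext
    intro w
    rfl)

theorem acB_apply (q : W ≃ₗ[F] W) : (acB q : (W →ₗ[F] E) ≃ₗ[F] (W →ₗ[F] E)) = ac 1 q := rfl

/-- the first factor as a homomorphism -/
noncomputable def acA : (E ≃ₗ[F] E) →* ((W →ₗ[F] E) ≃ₗ[F] (W →ₗ[F] E)) :=
  MonoidHom.mk' (fun p => ac p 1) (fun p p' => by
    apply LinearEquiv.ext
    intro v
    apply LinearMap.ext
    intro w
    rfl)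

theorem acA_apply (p : E ≃ₗ[F] E) : (acA p : (W →ₗ[F] E) ≃ₗ[F] (W →ₗ[F] E)) = ac p 1 := rfl

theorem ac_tvB (hβ : β.IsAlt) (b : W) (c : F) (v : W →ₗ[F] E) :
    ac (1 : E ≃ₗ[F] E) (tv β hβ b c) v = v + c • pt (v b) (β b) := by
  have h1 : ∀ w, (tv β hβ b c).symm w = w + (c * β b w) • b := by
    intro w
    apply (tv β hβ b c).injective
    rw [LinearEquiv.apply_symm_apply, tv_apply, map_add, LinearMap.add_apply, map_smul, LinearMap.smul_apply,
      hβ b, smul_zero, add_zero, alt_neg hβ w b]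
    module
  apply LinearMap.ext
  intro w
  rw [ac_apply, h1, LinearMap.add_apply, LinearMap.smul_apply, pt_apply, map_add, map_smul, mul_smul]
  rfl

theorem ac_tvA (hα : α.IsAlt) (a : E) (κ : F) (v : W →ₗ[F] E) :
    ac (tv α hα a κ) (1 : W ≃ₗ[F] W) v = v + κ • pt a ((α.flip a) ∘ₗ v) := by
  apply LinearMap.ext
  intro w
  rw [ac_apply, LinearMap.add_apply, LinearMap.smul_apply, pt_apply]
  show tv α hα a κ (v w) = _
  rw [tv_apply, mul_smul]; rfl

variable (hα : α.IsAlt) (hαn : ∀ x, (∀ y, α x y = 0) → x = 0) (hβ : β.IsAlt) (hβn : ∀ x, (∀ y, β x y = 0) → x = 0)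
  (Qp : ∀ a b, Q (pt a (β b)) = 0) (pol : ∀ a b v, polar Q (pt a (β b)) v = α (v b) a)

include hα Qp pol in
theorem acB_O (b : W) (c : F) : ac (1 : E ≃ₗ[F] E) (tv β hβ b c) ∈ O Q := by
  intro v
  rw [ac_tvB, Q_add, Q_smul, Qp, polar_smul_right, polar_comm, pol, hα]
  simp

include hβn hβ Qp pol in
theorem acA_O (a : E) (κ : F) : ac (tv α hα a κ) (1 : W ≃ₗ[F] W) ∈ O Q := by
  intro v
  obtain ⟨d, hd⟩ := rep_of hβn ((α.flip a) ∘ₗ v)
  rw [ac_tvA, hd, Q_add, Q_smul, Qp, polar_smul_right, polar_comm, pol]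
  have h1 : α (v d) a = β d d := by rw [← hd]; rfl
  rw [h1, hβ d]
  simp

include hα hαn hβn Qp pol in
theorem acB_tv_Om [Finite F] (hQ : Nd Q) (hgen : GenHyp Q) (b : W) (c : F) :
    ac (1 : E ≃ₗ[F] E) (tv β hβ b c) ∈ Om Q := by
  by_cases h2 : (2 : F) = 0
  · by_cases hb : b = 0
    · rw [hb, tv_zero_left]
      exact one_mem _
    by_cases hc : c = 0
    · rw [hc, tv_zero]
      exact one_mem _
    have hbb : β b ≠ 0 := fun h => hb (hβn b fun y => by rw [h]; rfl)
    apply mem_Om_of_even_mov hQ hgen h2 (acB_O hα hβ Qp pol b c)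
    have h1 : mov (ac (1 : E ≃ₗ[F] E) (tv β hβ b c)) = sp (β b) := by
      ext u
      rw [mem_mov, mem_sp]
      constructor
      · rintro ⟨x, hx⟩
        rw [ac_tvB, add_sub_cancel_left] at hx
        exact ⟨c • x b, by rw [← hx, map_smul]; rfl⟩
      · rintro ⟨a, rfl⟩
        obtain ⟨f, hf⟩ := exists_val hbb
        refine ⟨-(c⁻¹ • pt a (β f)), ?_⟩
        rw [ac_tvB, add_sub_cancel_left, LinearMap.neg_apply, LinearMap.smul_apply, pt_apply, alt_neg hβ f b, hf,
          neg_smul, one_smul, smul_neg, neg_neg, map_smul, LinearMap.smul_apply, smul_smul, mul_inv_cancel₀ hc, one_smul]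
    rw [h1, finrank_sp hbb]
    exact Cfsg.Agent.Lib.AltForm.even_finrank α hα hαn
  · have : NeZero (2 : F) := ⟨h2⟩
    have h1 : (ac (1 : E ≃ₗ[F] E) (tv β hβ b c) : (W →ₗ[F] E) ≃ₗ[F] (W →ₗ[F] E)) =
        ac 1 (tv β hβ b (c / 2)) * ac 1 (tv β hβ b (c / 2)) := by
      rw [← acB_apply, ← acB_apply, ← map_mul, tv_mul, add_halves]
    rw [h1]
    exact sq_mem_Om (hQ.R_eq_O hgen) (acB_O hα hβ Qp pol b _)

include hβ hβn Qp pol in
theorem acA_tv_Om [Finite F] (hQ : Nd Q) (hgen : GenHyp Q) (hαn : ∀ x, (∀ y, α x y = 0) → x = 0) (a : E) (κ : F) :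
    ac (tv α hα a κ) (1 : W ≃ₗ[F] W) ∈ Om Q := by
  by_cases h2 : (2 : F) = 0
  · by_cases ha : a = 0
    · rw [ha, tv_zero_left]
      exact one_mem _
    by_cases hc : κ = 0
    · rw [hc, tv_zero]
      exact one_mem _
    apply mem_Om_of_even_mov hQ hgen h2 (acA_O hα hβ hβn Qp pol a κ)
    have h1 : mov (ac (tv α hα a κ) (1 : W ≃ₗ[F] W)) = LinearMap.range (pt a : Dual F W →ₗ[F] (W →ₗ[F] E)) := by
      ext u
      rw [mem_mov]
      constructor
      · rintro ⟨x, hx⟩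
        rw [ac_tvA, add_sub_cancel_left] at hx
        exact ⟨κ • ((α.flip a) ∘ₗ x), by rw [← hx, map_smul]⟩
      · rintro ⟨ψ, rfl⟩
        obtain ⟨y, hy⟩ : ∃ y, α y a ≠ 0 := by
          by_contra hcon
          push Not at hcon
          apply ha
          apply hαn
          intro y
          rw [alt_neg hα, hcon, neg_zero]
        refine ⟨pt ((κ * α y a)⁻¹ • y) ψ, ?_⟩
        rw [ac_tvA, add_sub_cancel_left, ← map_smul]
        congr 1
        apply LinearMap.ext
        intro w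
        simp only [LinearMap.smul_apply, LinearMap.comp_apply, pt_apply, LinearMap.flip_apply, map_smul, smul_eq_mul]
        field_simp
    have hinj : Function.Injective (pt a : Dual F W →ₗ[F] (W →ₗ[F] E)) := fun _ _ h => pt_inj ha h
    rw [h1, LinearMap.finrank_range_of_inj hinj, Subspace.dual_finrank_eq]
    exact Cfsg.Agent.Lib.AltForm.even_finrank β hβ hβn
  · have : NeZero (2 : F) := ⟨h2⟩
    have h1 : (ac (tv α hα a κ) (1 : W ≃ₗ[F] W) : (W →ₗ[F] E) ≃ₗ[F] (W →ₗ[F] E)) =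
        ac (tv α hα a (κ / 2)) 1 * ac (tv α hα a (κ / 2)) 1 := by
      rw [← acA_apply, ← acA_apply, ← map_mul, tv_mul, add_halves]
    rw [h1]
    exact sq_mem_Om (hQ.R_eq_O hgen) (acA_O hα hβ hβn Qp pol a _)

theorem nd_top_of {V : Type*} [AddCommGroup V] [Module F V] {B : V →ₗ[F] V →ₗ[F] F}
    (hn : ∀ x, (∀ y, B x y = 0) → x = 0) : NdOn B ⊤ := by
  intro x _ hx
  by_contra hcon
  push Not at hcon
  exact hx (hn x fun y => hcon y trivial)

include hα hαn hβ hβn Qp pol in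
theorem acB_Om [Finite F] (hQ : Nd Q) (hgen : GenHyp Q) {q : W ≃ₗ[F] W} (hq : q ∈ isom (fun x y => β x y)) :
    ac (1 : E ≃ₗ[F] E) q ∈ Om Q := by
  have := isom_le_of_tv_mem hβ (nd_top_of hβn) (M := (Om Q).comap acB)
    (fun v a => acB_tv_Om hα hαn hβ hβn Qp pol hQ hgen v a)
  exact this hq

include hα hαn hβ hβn Qp pol in
theorem acA_Om [Finite F] (hQ : Nd Q) (hgen : GenHyp Q) {p : E ≃ₗ[F] E} (hp : p ∈ isom (fun x y => α x y)) :
    ac p (1 : W ≃ₗ[F] W) ∈ Om Q := by
  have := isom_le_of_tv_mem hα (nd_top_of hαn) (M := (Om Q).comap acA)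
    (fun v a => acA_tv_Om hα hβ hβn Qp pol hQ hgen hαn v a)
  exact this hp

/-- an element that is not a pair -/
theorem exists_not_pair [Finite F] (hQ : Nd Q) (hgen : GenHyp Q) (h2 : 2 ≤ finrank F E)
    (hEW : finrank F E < finrank F W) (hα : α.IsAlt) (hαn : ∀ x, (∀ y, α x y = 0) → x = 0)
    (hβn : ∀ x, (∀ y, β x y = 0) → x = 0)
    (Qp : ∀ a b, Q (pt a (β b)) = 0) (pol : ∀ a b v, polar Q (pt a (β b)) v = α (v b) a) :
    ∃ t ∈ Om Q, ¬ ∃ p q, t = ac p q := by
  obtain ⟨a, ha⟩ : ∃ a : E, a ≠ 0 := by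
    have : Nontrivial E := Module.finrank_pos_iff (R := F).1 (by omega)
    exact exists_ne 0
  obtain ⟨b, hb⟩ : ∃ b : W, b ≠ 0 := by
    have : Nontrivial W := Module.finrank_pos_iff (R := F).1 (by omega)
    exact exists_ne 0
  obtain ⟨d, hd, -⟩ := exists_ker_out (F := F) (V := W) (by omega) 0 b
  have hbb : β b ≠ 0 := fun h => hb (hβn b fun y => by rw [h]; rfl)
  have hz := Qp a b
  have hzy : polar Q (pt a (β b)) (pt a (β d)) = 0 := by
    rw [pol, pt_apply, map_smul, LinearMap.smul_apply, hα, smul_zero]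
  refine ⟨sieg hQ hz hzy, hQ.sieg_mem_Om hgen hz hzy, ?_⟩
  rintro ⟨p, q, hpq⟩
  have hfr : finrank F (Submodule.span F {(pt a (β b) : W →ₗ[F] E), pt a (β d)}) ≤ 2 := TS.span2 _ _
  have hinj : Function.Injective (fun y => β y) := by
    intro x y hxy
    rw [← sub_eq_zero]
    apply hβn
    intro z
    have h3 : β x = β y := hxy
    rw [map_sub, h3, sub_self, LinearMap.zero_apply]
  have hdb : β d ∉ Submodule.span F {β b} := by
    intro h
    obtain ⟨c, hc⟩ := Submodule.mem_span_singleton.1 h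
    apply hd
    rw [Submodule.mem_span_singleton]
    refine ⟨c, hinj ?_⟩
    show β (c • b) = β d
    rw [map_smul, hc]
  obtain ⟨ψ, hψ, hD⟩ := ac_small (p := p) (q := q)
    (D := Submodule.span F {(pt a (β b) : W →ₗ[F] E), pt a (β d)}) (by omega) hEW (by
    intro v
    rw [← hpq, sieg_apply, Qp, zero_mul, zero_smul, sub_zero, add_sub_assoc, add_sub_cancel_left]
    exact sub_mem (Submodule.smul_mem _ _ (Submodule.subset_span (by simp)))
      (Submodule.smul_mem _ _ (Submodule.subset_span (by simp)))) (hfr.trans h2) (by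
    rw [← hpq]
    intro h
    -- choose a vector with v b = y, v d = 0
    obtain ⟨y, hy⟩ : ∃ y, α y a ≠ 0 := by
      by_contra hcon
      push Not at hcon
      apply ha
      apply hαn
      intro y
      rw [alt_neg hα, hcon, neg_zero]
    obtain ⟨φ, hφ1, hφ0⟩ := exists_dual1 (F := F) (v := d) (x := b) (by
      intro h4
      obtain ⟨c, hc⟩ := Submodule.mem_span_singleton.1 h4
      apply hd
      rw [Submodule.mem_span_singleton]
      have hc0 : c ≠ 0 := by rintro rfl; rw [zero_smul] at hc; exact hb hc.symm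
      exact ⟨c⁻¹, by rw [← hc, smul_smul, inv_mul_cancel₀ hc0, one_smul]⟩)
    have h5 : sieg hQ hz hzy (pt y φ) = pt y φ := by rw [h]; rfl
    rw [sieg_apply, Qp, zero_mul, zero_smul, sub_zero, pol, pol, pt_apply, pt_apply, hφ1, hφ0, one_smul,
      zero_smul, map_zero, LinearMap.zero_apply, zero_smul, sub_zero, add_eq_left] at h5
    rcases smul_eq_zero.1 h5 with h6 | h6
    · exact hy h6
    · refine pt_ne ha ?_ h6
      intro h7
      apply hdb
      rw [h7]; exact zero_mem _)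
  have m1 : pt a (β b) ∈ (sp ψ : Submodule F (W →ₗ[F] E)) := by rw [← hD]; exact Submodule.subset_span (by simp)
  have m2 : pt a (β d) ∈ (sp ψ : Submodule F (W →ₗ[F] E)) := by rw [← hD]; exact Submodule.subset_span (by simp)
  apply hdb
  have e1 := sp_disj hψ hbb (pt_ne ha hbb) m1 (pt_mem_sp _ _)
  have e2 := sp_disj hψ (b := ψ) (c := β d) (fun h7 => hdb (by rw [h7]; exact zero_mem _)) (pt_ne ha (fun h7 => hdb (by rw [h7]; exact zero_mem _))) m2 (pt_mem_sp _ _)
  rw [e1] at e2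
  have m3 : pt a (β d) ∈ (sp (β b) : Submodule F (W →ₗ[F] E)) := by rw [e2]; exact pt_mem_sp _ _
  rw [mem_sp_iff hbb] at m3
  by_contra hcon
  obtain ⟨w, hw1, hw0⟩ := exists_sep hcon
  have := m3 w hw0
  rw [pt_apply, hw1, one_smul] at this
  exact ha this

end Cfsg.Agent.Lib.TenSpH94
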