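import Mathlib
import Cfsg.Agent.Lib.TenSp7H94
import Cfsg.Agent.Lib.TenBrH94
import Cfsg.Agent.Lib.OrthBridge
import Cfsg.Agent.Lib.QuadNorm

set_option autoImplicit false
set_option linter.unusedSectionVars false
set_option linter.unusedSimpArgs false
set_option linter.unusedVariables false

/-!
Bridge for `Sp ⊗ Sp` in orthogonal groups.
-/

namespace Cfsg.Agent.Lib.TenSpH94

open QuadraticMap Module Cfsg Cfsg.Geo Cfsg.Agent.Lib.Quad Cfsg.Agent.Lib.OrthMax Cfsg.Agent.Lib.TenSLH94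
  Cfsg.Agent.Lib.SpTrans Cfsg.Agent.Lib.OrthDecH94 Cfsg.Agent.Lib.TenBrH94 Cfsg.Agent.Lib.GeoBridge
  Cfsg.Agent.Lib.TensorGeo Cfsg.Agent.Lib.OrthBridge Cfsg.Agent.Lib.QuadNorm
open scoped MatrixGroups Matrix Kronecker

variable {F : Type*} [Field F] {n₁ n₂ : ℕ}

/-- a symplectic form as a bilinear map -/
def blf {k : ℕ} {f : (Fin k → F) → (Fin k → F) → F} (hf : IsSymplecticForm f) (c : F) :
    (Fin k → F) →ₗ[F] (Fin k → F) →ₗ[F] F :=
  c • LinearMap.mk₂ F f hf.bilinear.add_left (fun c x y => hf.bilinear.smul_left c x y) hf.bilinear.add_right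
    (fun c x y => hf.bilinear.smul_right c x y)

theorem blf_apply {k : ℕ} {f : (Fin k → F) → (Fin k → F) → F} (hf : IsSymplecticForm f) (c : F) (x y : Fin k → F) :
    blf hf c x y = c * f x y := rfl

theorem blf_alt {k : ℕ} {f : (Fin k → F) → (Fin k → F) → F} (hf : IsSymplecticForm f) (c : F) : (blf hf c).IsAlt := by
  intro x
  rw [blf_apply, hf.alternating, mul_zero]

theorem blf_nd {k : ℕ} {f : (Fin k → F) → (Fin k → F) → F} (hf : IsSymplecticForm f) {c : F} (hc : c ≠ 0) :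
    ∀ x, (∀ y, blf hf c x y = 0) → x = 0 := by
  intro x hx
  by_contra hcon
  obtain ⟨y, hy⟩ := (hf.nondegenerate x hcon).2
  exact hy ((mul_eq_zero.1 (hx y)).resolve_left hc)

/-- the functionals as a linear map -/
noncomputable def beL : (Fin n₂ → F) →ₗ[F] Dual F (Fin n₂ → F) where
  toFun := be
  map_add' x y := LinearMap.ext fun w => by rw [LinearMap.add_apply, be_apply, be_apply, be_apply, add_dotProduct]
  map_smul' c x := LinearMap.ext fun w => by
    rw [RingHom.id_apply, LinearMap.smul_apply, be_apply, be_apply, smul_dotProduct]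

theorem beL_apply (y : Fin n₂ → F) : beL y = be y := rfl

/-- the dual form -/
theorem exists_dual_form {f₂ : (Fin n₂ → F) → (Fin n₂ → F) → F} (hf₂ : IsSymplecticForm f₂) :
    ∃ (m : (Fin n₂ → F) →ₗ[F] (Fin n₂ → F)) (β : (Fin n₂ → F) →ₗ[F] (Fin n₂ → F) →ₗ[F] F),
      (∀ b, β b = be (m b)) ∧ (∀ b y, f₂ (m b) y = - (be y b)) ∧ β.IsAlt ∧ (∀ x, (∀ y, β x y = 0) → x = 0) := by
  have hrep : ∀ b : Fin n₂ → F, ∃ u, ∀ y, f₂ u y = - (be y b) := by
    intro b
    obtain ⟨u, hu⟩ := rep_of (blf_nd hf₂ one_ne_zero) (-(beL b))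
    refine ⟨u, fun y => ?_⟩
    have := DFunLike.congr_fun hu y
    rw [LinearMap.neg_apply, beL_apply, be_apply, blf_apply, one_mul, dotProduct_comm] at this
    rw [be_apply, this]
  have huniq : ∀ u u' : Fin n₂ → F, (∀ y, f₂ u y = f₂ u' y) → u = u' := by
    intro u u' h
    rw [← sub_eq_zero]
    apply blf_nd hf₂ one_ne_zero
    intro y
    rw [map_sub, LinearMap.sub_apply, blf_apply, blf_apply, h, sub_self]
  choose m hm using hrep
  obtain ⟨mL, hmL⟩ : ∃ mL : (Fin n₂ → F) →ₗ[F] (Fin n₂ → F), ∀ b, mL b = m b :=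
    ⟨{ toFun := m
       map_add' := fun b b' => huniq _ _ fun y => by
        rw [hm, hf₂.bilinear.add_left, hm, hm, map_add, neg_add]
       map_smul' := fun c b => huniq _ _ fun y => by
        rw [RingHom.id_apply, hm, hf₂.bilinear.smul_left, hm, map_smul, smul_eq_mul, mul_neg] }, fun b => rfl⟩
  refine ⟨mL, beL ∘ₗ mL, fun b => rfl, fun b y => by rw [hmL, hm], fun b => ?_, fun b hb => ?_⟩
  · rw [LinearMap.comp_apply, beL_apply, ← neg_eq_zero, ← hm b (mL b), hmL, hf₂.alternating]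
  · have h1 : mL b = 0 := by
      ext j
      have := hb (Pi.single j 1)
      rw [LinearMap.comp_apply, beL_apply, be_apply] at this
      simpa using this
    have h2 : ∀ y, be y b = 0 := by
      intro y
      rw [← neg_eq_zero, ← hm b y, ← hmL, h1]
      have := hf₂.bilinear.smul_left 0 0 y
      simpa using this
    ext j
    have := h2 (Pi.single j 1)
    rw [be_apply] at this
    simpa using this

/-- **The bridge.** -/
theorem br_main [Fintype F] {n : ℕ} (hn : 13 ≤ n) {Q : (Fin n → F) → F} (hQ : IsNondegenerateQuadraticForm Q)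
    (h12 : n₁ < n₂) (hex : ¬ (Fintype.card F = 2 ∧ n₁ = 2)) (e : (Fin n) ≃ Fin n₁ × Fin n₂) (P : GL (Fin n) F)
    {f₁ : (Fin n₁ → F) → (Fin n₁ → F) → F} {f₂ : (Fin n₂ → F) → (Fin n₂ → F) → F} (hf₁ : IsSymplecticForm f₁)
    (hf₂ : IsSymplecticForm f₂) (hT : IsTensorFormStructure id (QuadraticMap.polar Q) f₁ f₂ e P)
    (hpure : ∀ (x₁ : Fin n₁ → F) (x₂ : Fin n₂ → F), Q (tp e P x₁ x₂) = 0) :
    IsMaximalIn (omegaGL Q) (tensorProductSubgroup n₁ n₂ e P ⊓ omegaGL Q) := by
  obtain ⟨c, hc, hT⟩ := hT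
  obtain ⟨Q₀, hQ₀⟩ : ∃ Q₀ : QuadraticForm F (Fin n → F), Q₀ = qf hQ := ⟨_, rfl⟩
  have hQc : (⇑Q₀ : (Fin n → F) → F) = Q := by rw [hQ₀, coe_qf]
  have hnd₀ : Nd Q₀ := by rw [hQ₀]; exact nd_qf hQ
  obtain ⟨m, β, hβm, hm, hβ, hβn⟩ := exists_dual_form hf₂
  obtain ⟨α, hα⟩ : ∃ α, α = blf hf₁ c := ⟨_, rfl⟩
  have hαa : α.IsAlt := by rw [hα]; exact blf_alt _ _
  have hαn : ∀ x, (∀ y, α x y = 0) → x = 0 := by rw [hα]; exact blf_nd _ hc
  obtain ⟨Q', hQ'⟩ : ∃ Q' : QuadraticForm F ((Fin n₂ → F) →ₗ[F] (Fin n₁ → F)),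
      Q' = Q₀.comp ((Th e P : _ ≃ₗ[F] _) : _ →ₗ[F] _) := ⟨_, rfl⟩
  have hQv : ∀ v, Q₀ (Th e P v) = Q' v := fun v => by rw [hQ']; rfl
  have hpv : ∀ u v, polar Q' u v = polar Q₀ (Th e P u) (Th e P v) := by
    intro u v
    rw [polar, polar, ← hQv, ← hQv, ← hQv, map_add]
  have hnd : Nd Q' := by
    apply nd_of
    intro x hx
    rw [← (Th e P).map_eq_zero_iff]
    apply hnd₀.eq_zero
    intro y
    have := hx ((Th e P).symm y)
    rwa [hpv, LinearEquiv.apply_symm_apply] at this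
  have Qp : ∀ a b, Q' (pt a (β b)) = 0 := by
    intro a b
    rw [← hQv, hβm, Th_pt, hQc]
    exact hpure _ _
  have pol0 : ∀ x₁ y₁ x₂ y₂, polar Q₀ (tp e P x₁ x₂) (tp e P y₁ y₂) = c * (f₁ x₁ y₁ * f₂ x₂ y₂) := by
    intro x₁ y₁ x₂ y₂
    rw [hQc]
    exact form_tp (σ := id) (fun a b => rfl)
      (eq_formOfGram (σ := id) hf₁.bilinear.add_left hf₁.bilinear.smul_left (fun x y z => hf₁.bilinear.add_right x y z)
        (fun c x y => hf₁.bilinear.smul_right c x y))
      (eq_formOfGram (σ := id) hf₂.bilinear.add_left hf₂.bilinear.smul_left (fun x y z => hf₂.bilinear.add_right x y z)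
        (fun c x y => hf₂.bilinear.smul_right c x y)) hT x₁ y₁ x₂ y₂
  have pol : ∀ a b v, polar Q' (pt a (β b)) v = α (v b) a := by
    intro a b v
    have h1 : (polarBilin Q') (pt a (β b)) = (α.flip a) ∘ₗ (LinearMap.applyₗ b) := by
      apply ext_pt
      intro x ψ
      obtain ⟨y, rfl⟩ := be_surj ψ
      show polar Q' (pt a (β b)) (pt x (be y)) = α ((pt x (be y)) b) a
      rw [hpv, hβm, Th_pt, Th_pt, pol0, hm, pt_apply, map_smul, LinearMap.smul_apply, hα, blf_apply, smul_eq_mul,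
        hf₁.skew x a]
      ring
    exact DFunLike.congr_fun h1 v
  have he1 : Even n₁ := by
    have := Cfsg.Agent.Lib.AltForm.even_finrank α hαa hαn
    rwa [finrank_fintype_fun_eq_card, Fintype.card_fin] at this
  have he2 : Even n₂ := by
    have := Cfsg.Agent.Lib.AltForm.even_finrank β hβ hβn
    rwa [finrank_fintype_fun_eq_card, Fintype.card_fin] at this
  have hcard : n = n₁ * n₂ := by
    have := Fintype.card_congr e
    rwa [Fintype.card_fin, Fintype.card_prod, Fintype.card_fin, Fintype.card_fin] at this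
  have hn1 : 2 ≤ n₁ := by
    obtain ⟨k, hk⟩ := he1
    rcases Nat.eq_zero_or_pos k with h | h
    · subst h
      rw [hcard, hk] at hn
      simp at hn
    · omega
  have hn12 : n₁ + 1 < n₂ := by
    obtain ⟨k, hk⟩ := he1
    obtain ⟨l, hl⟩ := he2
    omega
  have hn2 : 6 ≤ n₂ := by
    obtain ⟨l, hl⟩ := he2
    by_contra hcon
    have h4 : n₂ ≤ 4 := by omega
    have h5 : n₁ ≤ 2 := by omega
    have : n₁ * n₂ ≤ 2 * 4 := Nat.mul_le_mul h5 h4
    omega
  have hfE : finrank F (Fin n₁ → F) = n₁ := by rw [finrank_fintype_fun_eq_card, Fintype.card_fin]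
  have hfW : finrank F (Fin n₂ → F) = n₂ := by rw [finrank_fintype_fun_eq_card, Fintype.card_fin]
  have hfV : finrank F ((Fin n₂ → F) →ₗ[F] (Fin n₁ → F)) = n := by rw [finrank_linearMap, hfE, hfW, hcard, mul_comm]
  have hgen : GenHyp Q' := Or.inr (Or.inl (by rw [hfV]; omega))
  have hconj : ∀ g, phi e P g = conjLE (Th e P) g := fun g => rfl
  have hOm : ∀ g, phi e P g ∈ Om Q₀ ↔ g ∈ Om Q' := by
    intro g
    have h1 := map_Om_conjLE (Q := Q') (Q' := Q₀) (Th e P) hQv
    rw [← h1]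
    constructor
    · rintro ⟨x, hx, hxg⟩
      rw [← (conjLE (Th e P)).injective hxg]
      exact hx
    · intro h
      exact ⟨g, h, rfl⟩
  have key := Om_max_of (Q := Q₀) (K := tensorProductSubgroup n₁ n₂ e P) (P := fun g => ∃ p q, g = phi e P (ac p q))
    (fun g => by
      have := mem_iff e P (le g)
      rwa [MulEquiv.symm_apply_apply] at this) ?_ ?_
  · rwa [hQc] at key
  · obtain ⟨t, ht, htn⟩ := exists_not_pair (Q := Q') (α := α) (β := β) hnd hgen (by rw [hfE]; exact hn1)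
      (by rw [hfE, hfW]; exact h12) hαa hαn hβn Qp pol
    refine ⟨phi e P t, (hOm t).2 ht, ?_⟩
    rintro ⟨p, q, hpq⟩
    exact htn ⟨p, q, phi_inj e P hpq⟩
  · intro M hM hH hMex
    have T : TS α β Q' (M.comap (phi e P)) :=
      { hα := hαa
        hαn := hαn
        hβ := hβ
        hβn := hβn
        hE := by rw [hfE]; exact hn1
        hW := by rw [hfW]; exact hn2
        hEW := by rw [hfE, hfW]; exact hn12
        Qp := Qp
        pol := pol
        hM := fun g hg => Om_le ((hOm g).1 (hM hg))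
        tB := fun q hq => hH _ ((hOm _).2 (acB_Om hαa hαn hβ hβn Qp pol hnd hgen hq)) ⟨_, _, rfl⟩
        tA := fun p hp => hH _ ((hOm _).2 (acA_Om hαa hαn hβ hβn Qp pol hnd hgen hp)) ⟨_, _, rfl⟩ }
    rcases T.main hnd hgen (by
      intro h2
      rw [hfE] at h2
      have hc2 : Fintype.card F ≠ 2 := fun h => hex ⟨h, h2⟩
      have hc3 : 2 < Fintype.card F := by
        have := Fintype.one_lt_card (α := F)
        omega
      classical
      by_contra hcon
      push Not at hcon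
      have h5 : (Finset.univ : Finset F) ⊆ {0, 1} := fun x _ => by
        rw [Finset.mem_insert, Finset.mem_singleton]
        by_cases hx : x = 0
        · exact Or.inl hx
        · exact Or.inr (hcon x hx)
      have h6 := Finset.card_le_card h5
      rw [Finset.card_univ] at h6
      have h7 := Finset.card_le_two (a := (0 : F)) (b := 1)
      omega) with h | h
    · intro g hg
      obtain ⟨x, rfl⟩ := phi_surj e P g
      exact h ((hOm x).1 hg)
    · exfalso
      obtain ⟨g, hg, hgn⟩ := hMex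
      obtain ⟨x, rfl⟩ := phi_surj e P g
      obtain ⟨p, q, hpq⟩ := h x hg
      exact hgn ⟨p, q, by rw [hpq]⟩

end Cfsg.Agent.Lib.TenSpH94
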