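import Mathlib
import Cfsg.Agent.Lib.TenOO1
import Cfsg.Agent.Lib.TenSpBrH94

/-!
Overgroups of `O ⊗ O` in orthogonal groups: the bridge to matrices (helper99).
-/

set_option autoImplicit false
set_option linter.unusedSectionVars false
set_option linter.unusedSimpArgs false
set_option linter.unusedVariables false

namespace Cfsg.Agent.Lib.TenOO_Br

open QuadraticMap Module Cfsg Cfsg.Geo Cfsg.Agent.Lib.Quad Cfsg.Agent.Lib.OrthMax Cfsg.Agent.Lib.OrthNd Cfsg.Agent.Lib.TenSLH94
  Cfsg.Agent.Lib.TenSpH94 Cfsg.Agent.Lib.OrthDecH94 Cfsg.Agent.Lib.TenBrH94 Cfsg.Agent.Lib.GeoBridge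
  Cfsg.Agent.Lib.TensorGeo Cfsg.Agent.Lib.OrthBridge Cfsg.Agent.Lib.QuadNorm Cfsg.Agent.Lib.TenOO
open scoped MatrixGroups Matrix Kronecker

variable {F : Type*} [Field F] {n₁ n₂ : ℕ}

/-- a symmetric form as a bilinear map -/
def sbl {k : ℕ} {f : (Fin k → F) → (Fin k → F) → F} (hf : IsSymmetricForm f) (c : F) :
    (Fin k → F) →ₗ[F] (Fin k → F) →ₗ[F] F :=
  c • LinearMap.mk₂ F f hf.bilinear.add_left (fun c x y => hf.bilinear.smul_left c x y) hf.bilinear.add_right
    (fun c x y => hf.bilinear.smul_right c x y)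

theorem sbl_apply {k : ℕ} {f : (Fin k → F) → (Fin k → F) → F} (hf : IsSymmetricForm f) (c : F) (x y : Fin k → F) :
    sbl hf c x y = c * f x y := rfl

theorem sbl_nd {k : ℕ} {f : (Fin k → F) → (Fin k → F) → F} (hf : IsSymmetricForm f) {c : F} (hc : c ≠ 0) :
    ∀ x, (∀ y, sbl hf c x y = 0) → x = 0 := by
  intro x hx
  by_contra hcon
  obtain ⟨y, hy⟩ := (hf.nondegenerate x hcon).2
  exact hy ((mul_eq_zero.1 (hx y)).resolve_left hc)

/-- a symmetric form as a quadratic form -/
noncomputable def sqf {k : ℕ} {f : (Fin k → F) → (Fin k → F) → F} (hf : IsSymmetricForm f) (c : F) : QuadraticForm F (Fin k → F) :=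
  LinearMap.BilinMap.toQuadraticMap (sbl hf c)

theorem sqf_apply {k : ℕ} {f : (Fin k → F) → (Fin k → F) → F} (hf : IsSymmetricForm f) (c : F) (x : Fin k → F) :
    sqf hf c x = c * f x x := rfl

theorem polar_sqf {k : ℕ} {f : (Fin k → F) → (Fin k → F) → F} (hf : IsSymmetricForm f) (c : F) (x y : Fin k → F) :
    polar (sqf hf c) x y = 2 * c * f x y := by
  rw [polar, sqf_apply, sqf_apply, sqf_apply, hf.bilinear.add_left, hf.bilinear.add_right, hf.bilinear.add_right, hf.symm y x]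
  ring

theorem nd_sqf {k : ℕ} {f : (Fin k → F) → (Fin k → F) → F} (hf : IsSymmetricForm f) {c : F} (h2 : (2 : F) ≠ 0) (hc : c ≠ 0) :
    Nd (sqf hf c) := by
  apply nd_of
  intro x hx
  apply sbl_nd hf (mul_ne_zero h2 hc)
  intro y
  rw [sbl_apply, ← polar_sqf]
  exact hx y

/-- the dual form -/
theorem exists_dual_form' {f₂ : (Fin n₂ → F) → (Fin n₂ → F) → F} (h2 : (2 : F) ≠ 0) (hf₂ : IsSymmetricForm f₂) :
    ∃ (m : (Fin n₂ → F) →ₗ[F] (Fin n₂ → F)) (QW : QuadraticForm F (Fin n₂ → F)),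
      (∀ b, polarBilin QW b = be (m b)) ∧ (∀ b y, f₂ (m b) y = be y b) ∧ Nd QW := by
  have hrep : ∀ b : Fin n₂ → F, ∃ u, ∀ y, f₂ u y = be y b := by
    intro b
    obtain ⟨u, hu⟩ := rep_of (sbl_nd hf₂ one_ne_zero) (beL b)
    refine ⟨u, fun y => ?_⟩
    have := DFunLike.congr_fun hu y
    rw [beL_apply, be_apply, sbl_apply, one_mul, dotProduct_comm] at this
    rw [be_apply, this]
  have huniq : ∀ u u' : Fin n₂ → F, (∀ y, f₂ u y = f₂ u' y) → u = u' := by
    intro u u' h
    rw [← sub_eq_zero]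
    apply sbl_nd hf₂ one_ne_zero
    intro y
    rw [map_sub, LinearMap.sub_apply, sbl_apply, sbl_apply, h, sub_self]
  choose m hm using hrep
  obtain ⟨mL, hmL⟩ : ∃ mL : (Fin n₂ → F) →ₗ[F] (Fin n₂ → F), ∀ b, mL b = m b :=
    ⟨{ toFun := m
       map_add' := fun b b' => huniq _ _ fun y => by
        rw [hm, hf₂.bilinear.add_left, hm, hm, map_add]
       map_smul' := fun c b => huniq _ _ fun y => by
        rw [RingHom.id_apply, hm, hf₂.bilinear.smul_left, hm, map_smul, smul_eq_mul] }, fun b => rfl⟩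
  have hsymm : ∀ b b', be (mL b) b' = be (mL b') b := by
    intro b b'
    rw [← hm b' (mL b), ← hm b (mL b'), hmL, hmL, hf₂.symm]
  obtain ⟨QW, hQW⟩ : ∃ QW : QuadraticForm F (Fin n₂ → F),
      QW = LinearMap.BilinMap.toQuadraticMap ((2 : F)⁻¹ • (beL ∘ₗ mL)) := ⟨_, rfl⟩
  have hQa : ∀ x, QW x = (2 : F)⁻¹ * be (mL x) x := fun x => by rw [hQW]; rfl
  have hpol : ∀ b b', polar QW b b' = be (mL b) b' := by
    intro b b'
    have e1 : be (mL (b + b')) (b + b') = be (mL b) b + be (mL b) b' + be (mL b') b + be (mL b') b' := by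
      have hadd : ∀ x y w : Fin n₂ → F, be (x + y) w = be x w + be y w := fun x y w => by
        rw [be_apply, be_apply, be_apply, add_dotProduct]
      rw [(be (mL (b + b'))).map_add, mL.map_add, hadd, hadd]
      ring
    rw [polar, hQa, hQa, hQa, e1, hsymm b' b]
    field_simp
    ring
  have hpb : ∀ b, polarBilin QW b = be (mL b) := fun b => LinearMap.ext fun b' => hpol b b'
  refine ⟨mL, QW, hpb, fun b y => by rw [hmL, hm], ?_⟩
  apply nd_of
  intro b hb
  have h1 : mL b = 0 := by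
    ext j
    have := hb (Pi.single j 1)
    rw [hpol, be_apply] at this
    simpa using this
  have h2' : ∀ y, be y b = 0 := by
    intro y
    rw [← hm b y, ← hmL, h1]
    have := hf₂.bilinear.smul_left 0 0 y
    simpa using this
  ext j
  have := h2' (Pi.single j 1)
  rw [be_apply] at this
  simpa using this

/-- the results used by the bridge -/
structure Hyp (F : Type*) [Field F] (n₁ n₂ : ℕ) : Prop where
  main : ∀ (QE : QuadraticForm F (Fin n₁ → F)) (QW : QuadraticForm F (Fin n₂ → F))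
    (Q : QuadraticForm F ((Fin n₂ → F) →ₗ[F] (Fin n₁ → F)))
    (M : Subgroup (((Fin n₂ → F) →ₗ[F] (Fin n₁ → F)) ≃ₗ[F] ((Fin n₂ → F) →ₗ[F] (Fin n₁ → F)))),
    TO QE QW Q M → Nd Q → GenHyp Q → Om Q ≤ M ∨ ∀ g ∈ M, ∃ p q, g = ac p q
  B : ∀ (QE : QuadraticForm F (Fin n₁ → F)) (QW : QuadraticForm F (Fin n₂ → F))
    (Q : QuadraticForm F ((Fin n₂ → F) →ₗ[F] (Fin n₁ → F))), Nd QE → Nd QW → Nd Q → GenHyp Q →
    (∀ (a : Fin n₁ → F) (b : Fin n₂ → F) (v : (Fin n₂ → F) →ₗ[F] (Fin n₁ → F)), polar Q (tb QW a b) v = polar QE (v b) a) →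
    ∀ b e : Fin n₂ → F, QW b = 0 → polar QW b e = 0 → ∃ s ∈ Om Q, ∀ v, s v = SgV QW b e v
  A : ∀ (QE : QuadraticForm F (Fin n₁ → F)) (QW : QuadraticForm F (Fin n₂ → F))
    (Q : QuadraticForm F ((Fin n₂ → F) →ₗ[F] (Fin n₁ → F))), Nd QE → Nd QW → Nd Q → GenHyp Q →
    (∀ (a : Fin n₁ → F) (b : Fin n₂ → F) (v : (Fin n₂ → F) →ₗ[F] (Fin n₁ → F)), polar Q (tb QW a b) v = polar QE (v b) a) →
    ∀ a e : Fin n₁ → F, QE a = 0 → polar QE a e = 0 → ∃ s ∈ Om Q, ∀ v : (Fin n₂ → F) →ₗ[F] (Fin n₁ → F), s v = (siegMap QE a e) ∘ₗ v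
  C : ∀ (QE : QuadraticForm F (Fin n₁ → F)) (QW : QuadraticForm F (Fin n₂ → F))
    (Q : QuadraticForm F ((Fin n₂ → F) →ₗ[F] (Fin n₁ → F))), Nd QE → Nd QW → Nd Q → GenHyp Q →
    (∀ (a : Fin n₁ → F) (b : Fin n₂ → F) (v : (Fin n₂ → F) →ₗ[F] (Fin n₁ → F)), polar Q (tb QW a b) v = polar QE (v b) a) →
    ∃ t ∈ Om Q, ¬ ∃ p q, t = ac p q

/-- `SgV` is a pair -/
theorem sgV_ac {E W : Type*} [AddCommGroup E] [Module F E] [FiniteDimensional F E] [AddCommGroup W] [Module F W]
    [FiniteDimensional F W] {QW : QuadraticForm F W} (ndW : Nd QW) {b e : W} (hb : QW b = 0) (hbe : polar QW b e = 0)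
    {s : (W →ₗ[F] E) ≃ₗ[F] (W →ₗ[F] E)} (hs : ∀ v, s v = SgV QW b e v) : ∃ p q, s = ac p q := by
  have hbe' : polar QW b (-e) = 0 := by rw [polar_neg_right, hbe, neg_zero]
  refine ⟨1, (sieg ndW hb hbe').symm, LinearEquiv.ext fun v => LinearMap.ext fun w => ?_⟩
  rw [hs, ac_apply, LinearEquiv.symm_symm, sieg_apply]
  show _ = v _
  rw [SgV]
  simp only [LinearMap.add_apply, LinearMap.sub_apply, LinearMap.smul_apply, tb_apply, map_add, map_sub, map_smul, map_neg,
    polar_neg_left, QuadraticMap.map_neg, smul_neg, neg_smul, sub_neg_eq_add, mul_smul]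
  have h1 : polar QW e w • v b = polar QW e w • v b := rfl
  abel

theorem siegA_ac {E W : Type*} [AddCommGroup E] [Module F E] [FiniteDimensional F E] [AddCommGroup W] [Module F W]
    [FiniteDimensional F W] {QE : QuadraticForm F E} (ndE : Nd QE) {a e : E} (ha : QE a = 0) (hae : polar QE a e = 0)
    {s : (W →ₗ[F] E) ≃ₗ[F] (W →ₗ[F] E)} (hs : ∀ v : W →ₗ[F] E, s v = (siegMap QE a e) ∘ₗ v) : ∃ p q, s = ac p q := by
  refine ⟨sieg ndE ha hae, 1, LinearEquiv.ext fun v => LinearMap.ext fun w => ?_⟩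
  rw [hs, ac_apply, LinearMap.comp_apply, siegMap_apply, sieg_apply]
  rfl

/-- **The bridge.** -/
theorem br_oo {ι : Type} [Fintype ι] [DecidableEq ι] [Fintype F] (hn : 13 ≤ Fintype.card ι) {Q : (ι → F) → F}
    (hQ : IsNondegenerateQuadraticForm Q) (hodd : Odd (Fintype.card F)) (h1 : 3 ≤ n₁) (h12 : n₁ < n₂) (ho : Odd n₁ ∨ Odd n₂)
    (hex : ¬ (Fintype.card F = 3 ∧ n₁ = 3)) (e : ι ≃ Fin n₁ × Fin n₂) (P : GL ι F)
    {f₁ : (Fin n₁ → F) → (Fin n₁ → F) → F} {f₂ : (Fin n₂ → F) → (Fin n₂ → F) → F}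
    (h4 : n₁ = 4 → ¬ IsPlusTypeOn (fun v : Fin n₁ → F => f₁ v v) ⊤) (hf₁ : IsSymmetricForm f₁)
    (hf₂ : IsSymmetricForm f₂) (hT : IsTensorFormStructure id (QuadraticMap.polar Q) f₁ f₂ e P) (H : Hyp F n₁ n₂) :
    IsMaximalIn (omegaGL Q) (tensorProductSubgroup n₁ n₂ e P ⊓ omegaGL Q) := by
  obtain ⟨c, hc, hT⟩ := hT
  have h2 : (2 : F) ≠ 0 := by
    intro h
    have h3 : CharP F 2 := CharTwo.of_one_ne_zero_of_two_eq_zero one_ne_zero h
    obtain ⟨k, -, hk⟩ := FiniteField.card F 2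
    rw [hk] at hodd
    exact (Nat.not_odd_iff_even.2 ((Nat.even_pow.2 ⟨even_two, k.pos.ne'⟩))) hodd
  obtain ⟨Q₀, hQ₀⟩ : ∃ Q₀ : QuadraticForm F (ι → F), Q₀ = qf hQ := ⟨_, rfl⟩
  have hQc : (⇑Q₀ : (ι → F) → F) = Q := by rw [hQ₀, coe_qf]
  have hnd₀ : Nd Q₀ := by rw [hQ₀]; exact nd_qf hQ
  obtain ⟨m, QW, hβm, hm, ndW⟩ := exists_dual_form' h2 hf₂
  obtain ⟨QE, hQE⟩ : ∃ QE, QE = sqf hf₁ (c / 2) := ⟨_, rfl⟩
  have hc2 : c / 2 ≠ 0 := div_ne_zero hc h2
  have ndE : Nd QE := by rw [hQE]; exact nd_sqf hf₁ h2 hc2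
  have hpolE : ∀ x y, polar QE x y = c * f₁ x y := by
    intro x y
    rw [hQE, polar_sqf, mul_div_cancel₀ _ h2]
  obtain ⟨Q', hQ'⟩ : ∃ Q' : QuadraticForm F ((Fin n₂ → F) →ₗ[F] (Fin n₁ → F)),
      Q' = Q₀.comp ((Th e P : _ ≃ₗ[F] _) : _ →ₗ[F] _) := ⟨_, rfl⟩
  have hQv : ∀ v, Q₀ (Th e P v) = Q' v := fun v => by rw [hQ']; rfl
  have hpv : ∀ u v, polar Q' u v = polar Q₀ (Th e P u) (Th e P v) := by
    intro u v
    rw [polar, polar, ← hQv, ← hQv, ← hQv, map_add]
  have hnd : Nd Q' := by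
    apply nd_of
    intro x hx
    rw [← (Th e P).map_eq_zero_iff]
    apply hnd₀.eq_zero
    intro y
    have := hx ((Th e P).symm y)
    rwa [hpv, LinearEquiv.apply_symm_apply] at this
  have pol0 : ∀ x₁ y₁ x₂ y₂, polar Q₀ (tp e P x₁ x₂) (tp e P y₁ y₂) = c * (f₁ x₁ y₁ * f₂ x₂ y₂) := by
    intro x₁ y₁ x₂ y₂
    rw [hQc]
    exact form_tp (σ := id) (fun a b => rfl)
      (eq_formOfGram (σ := id) hf₁.bilinear.add_left hf₁.bilinear.smul_left (fun x y z => hf₁.bilinear.add_right x y z)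
        (fun c x y => hf₁.bilinear.smul_right c x y))
      (eq_formOfGram (σ := id) hf₂.bilinear.add_left hf₂.bilinear.smul_left (fun x y z => hf₂.bilinear.add_right x y z)
        (fun c x y => hf₂.bilinear.smul_right c x y)) hT x₁ y₁ x₂ y₂
  have pol : ∀ (a : Fin n₁ → F) (b : Fin n₂ → F) (v : (Fin n₂ → F) →ₗ[F] (Fin n₁ → F)),
      polar Q' (tb QW a b) v = polar QE (v b) a := by
    intro a b v
    have h1 : (polarBilin Q') (tb QW a b) = ((polarBilin QE).flip a) ∘ₗ (LinearMap.applyₗ b) := by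
      apply ext_pt
      intro x ψ
      obtain ⟨y, rfl⟩ := be_surj ψ
      show polar Q' (tb QW a b) (pt x (be y)) = polar QE ((pt x (be y)) b) a
      rw [hpv, tb, hβm, Th_pt, Th_pt, pol0, hm, pt_apply, polar_smul_left, hpolE, hf₁.symm x a, smul_eq_mul]
      ring
    exact DFunLike.congr_fun h1 v
  have hcard : Fintype.card ι = n₁ * n₂ := by
    have := Fintype.card_congr e
    rwa [Fintype.card_prod, Fintype.card_fin, Fintype.card_fin] at this
  have hn2 : 5 ≤ n₂ := by
    by_contra hcon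
    have h5 : n₂ ≤ 4 := by omega
    have h6 : n₁ ≤ 3 := by omega
    have : n₁ * n₂ ≤ 3 * 4 := Nat.mul_le_mul h6 h5
    omega
  have hfE : finrank F (Fin n₁ → F) = n₁ := by rw [finrank_fintype_fun_eq_card, Fintype.card_fin]
  have hfW : finrank F (Fin n₂ → F) = n₂ := by rw [finrank_fintype_fun_eq_card, Fintype.card_fin]
  have hfV : finrank F ((Fin n₂ → F) →ₗ[F] (Fin n₁ → F)) = Fintype.card ι := by rw [finrank_linearMap, hfE, hfW, hcard, mul_comm]
  have hgen : GenHyp Q' := Or.inr (Or.inl (by rw [hfV]; omega))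
  have hconj : ∀ g, phi e P g = conjLE (Th e P) g := fun g => rfl
  have hOm : ∀ g, phi e P g ∈ Om Q₀ ↔ g ∈ Om Q' := by
    intro g
    have h1 := map_Om_conjLE (Q := Q') (Q' := Q₀) (Th e P) hQv
    rw [← h1]
    constructor
    · rintro ⟨x, hx, hxg⟩
      rw [← (conjLE (Th e P)).injective hxg]
      exact hx
    · intro h
      exact ⟨g, h, rfl⟩
  have key := Om_max_of (Q := Q₀) (K := tensorProductSubgroup n₁ n₂ e P) (P := fun g => ∃ p q, g = phi e P (ac p q))
    (fun g => by
      have := mem_iff e P (le g)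
      rwa [MulEquiv.symm_apply_apply] at this) ?_ ?_
  · rwa [hQc] at key
  · obtain ⟨t, ht, htn⟩ := H.C QE QW Q' ndE ndW hnd hgen pol
    refine ⟨phi e P t, (hOm t).2 ht, ?_⟩
    rintro ⟨p, q, hpq⟩
    exact htn ⟨p, q, phi_inj e P hpq⟩
  · intro M hM hH hMex
    have T : TO QE QW Q' (M.comap (phi e P)) :=
      { h2 := h2
        ndE := ndE
        ndW := ndW
        hE := by rw [hfE]; exact h1
        hW := by rw [hfW]; exact hn2
        hEW := by rw [hfE, hfW]; exact h12
        hodd := by rw [hfE, hfW]; exact ho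
        hex := by
          rw [hfE]
          by_cases h3 : n₁ = 3
          · right
            have hq3 : Fintype.card F ≠ 3 := fun h => hex ⟨h, h3⟩
            have hq1 := Fintype.one_lt_card (α := F)
            have hq : 3 < Fintype.card F := by
              obtain ⟨k, hk⟩ := hodd
              omega
            classical
            by_contra hcon
            push Not at hcon
            have h5 : (Finset.univ : Finset F) ⊆ {0, 1, -1} := fun x _ => by
              simp only [Finset.mem_insert, Finset.mem_singleton]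
              by_cases hx : x = 0
              · exact Or.inl hx
              by_cases hx1 : x = 1
              · exact Or.inr (Or.inl hx1)
              · exact Or.inr (Or.inr (hcon x hx hx1))
            have h6 := Finset.card_le_card h5
            rw [Finset.card_univ] at h6
            have h7 := Finset.card_le_three (a := (0 : F)) (b := 1) (c := -1)
            omega
          · left; omega
        h4 := by
          rw [hfE]
          intro hn4 x y hx hy hxy hx0
          by_contra hcon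
          push Not at hcon
          apply h4 hn4
          have hli : LinearIndependent F ![x, y] := by
            rw [LinearIndependent.pair_iff]
            intro s t hst
            have ht : t = 0 := by
              by_contra ht
              apply hcon (-(t⁻¹ * s))
              have : t • y = -(s • x) := by rw [eq_neg_iff_add_eq_zero, add_comm]; exact hst
              calc y = t⁻¹ • (t • y) := by rw [smul_smul, inv_mul_cancel₀ ht, one_smul]
                _ = _ := by rw [this, smul_neg, smul_smul, neg_smul]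
            refine ⟨?_, ht⟩
            rw [ht, zero_smul, add_zero] at hst
            exact (smul_eq_zero.1 hst).resolve_right hx0
          have hval : ∀ v, QE v = 0 → f₁ v v = 0 := by
            intro v hv
            rw [hQE, sqf_apply] at hv
            exact (mul_eq_zero.1 hv).resolve_left hc2
          refine ⟨Submodule.span F {x, y}, le_top, ?_, ?_⟩
          · intro w hw
            obtain ⟨s, t, rfl⟩ := Submodule.mem_span_pair.1 hw
            apply hval
            have e1 : QE (s • x + t • y) = QE (s • x) + QE (t • y) + polar QE (s • x) (t • y) := by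
              rw [polar]; ring
            rw [e1, QuadraticMap.map_smul, QuadraticMap.map_smul, hx, hy, polar_smul_left, polar_smul_right, hxy]
            simp
          · have h5 : finrank F (Submodule.span F {x, y}) = 2 := by
              have h6 := finrank_span_eq_card hli
              have h7 : Set.range ![x, y] = {x, y} := by simp [Matrix.range_cons, Matrix.range_empty, Set.pair_comm]
              rw [h7, Fintype.card_fin] at h6
              exact h6
            rw [h5, finrank_top, hfE, hn4]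
        pol := pol
        hM := fun g hg => Om_le ((hOm g).1 (hM hg))
        tB := fun b e' hb hbe => by
          obtain ⟨s, hs, hsv⟩ := H.B QE QW Q' ndE ndW hnd hgen pol b e' hb hbe
          refine ⟨s, ?_, hsv⟩
          obtain ⟨p, q, rfl⟩ := sgV_ac ndW hb hbe hsv
          exact hH _ ((hOm _).2 hs) ⟨_, _, rfl⟩
        tA := fun a e' ha hae => by
          obtain ⟨s, hs, hsv⟩ := H.A QE QW Q' ndE ndW hnd hgen pol a e' ha hae
          refine ⟨s, ?_, hsv⟩
          obtain ⟨p, q, rfl⟩ := siegA_ac ndE ha hae hsv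
          exact hH _ ((hOm _).2 hs) ⟨_, _, rfl⟩ }
    rcases H.main QE QW Q' _ T hnd hgen with h | h
    · intro g hg
      obtain ⟨x, rfl⟩ := phi_surj e P g
      exact h ((hOm x).1 hg)
    · exfalso
      obtain ⟨g, hg, hgn⟩ := hMex
      obtain ⟨x, rfl⟩ := phi_surj e P g
      obtain ⟨p, q, hpq⟩ := h x hg
      exact hgn ⟨p, q, by rw [hpq]⟩

end Cfsg.Agent.Lib.TenOO_Br
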