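import Mathlib
import Cfsg.Agent.Lib.TenOO1
import Cfsg.Agent.Lib.OrthEmb67
import Cfsg.Agent.Lib.TenSp7H94

/-!
Piece C1 of S5681/S5709: the Siegel elements of the factors lie in `Om Q`.
-/

set_option autoImplicit false
set_option linter.unusedSectionVars false

namespace Cfsg.Agent.Lib.TenOO_C1

open QuadraticMap Module Cfsg.Agent.Lib.Quad Cfsg.Agent.Lib.OrthMax Cfsg.Agent.Lib.OrthNd Cfsg.Agent.Lib.TenSLH94
open Cfsg.Agent.Lib.TenOO

variable {F E W : Type*} [Field F] [Finite F] [AddCommGroup E] [Module F E] [FiniteDimensional F E]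
  [AddCommGroup W] [Module F W] [FiniteDimensional F W]
  {QE : QuadraticForm F E} {QW : QuadraticForm F W} {Q : QuadraticForm F (W →ₗ[F] E)}

theorem ac_tb {p : E ≃ₗ[F] E} {q : W ≃ₗ[F] W} (hq : q ∈ O QW) (a : E) (b : W) :
    ac p q (tb QW a b) = tb QW (p a) (q b) := by
  apply LinearMap.ext
  intro w
  rw [ac_apply, tb_apply, tb_apply, map_smul]
  congr 1
  have h := O_polar hq b (q.symm w)
  rw [LinearEquiv.apply_symm_apply] at h
  exact h.symm

theorem ac_mem_O (h2 : (2 : F) ≠ 0) (ndW : Nd QW)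
    (pol : ∀ (a : E) (b : W) (v : W →ₗ[F] E), polar Q (tb QW a b) v = polar QE (v b) a)
    {p : E ≃ₗ[F] E} {q : W ≃ₗ[F] W} (hp : p ∈ O QE) (hq : q ∈ O QW) : ac p q ∈ O Q := by
  have key : ∀ u v, polar Q (ac p q u) (ac p q v) = polar Q u v := by
    intro u v
    have h1 : ((polarBilin Q).flip (ac p q v)) ∘ₗ (ac p q : (W →ₗ[F] E) →ₗ[F] (W →ₗ[F] E)) =
        (polarBilin Q).flip v := by
      apply ext_pt
      intro a ψ
      obtain ⟨b, rfl⟩ : ∃ b, ψ = polarBilin QW b :=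
        TenSpH94.rep_of (β := polarBilin QW) (fun x hx => ndW.eq_zero hx) ψ
      show polar Q (ac p q (tb QW a b)) (ac p q v) = polar Q (tb QW a b) v
      rw [ac_tb hq, pol, pol, ac_apply, LinearEquiv.symm_apply_apply, O_polar hp]
    exact DFunLike.congr_fun h1 u
  intro v
  have h3 := key v v
  rw [polar_self', polar_self'] at h3
  exact mul_left_cancel₀ h2 h3

theorem siegA_Om (h2 : (2 : F) ≠ 0) (ndE : Nd QE) (ndW : Nd QW) (hQ : Nd Q)
    (pol : ∀ (a : E) (b : W) (v : W →ₗ[F] E), polar Q (tb QW a b) v = polar QE (v b) a)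
    {a e : E} (ha : QE a = 0) (hae : polar QE a e = 0) :
    ∃ s ∈ Om Q, ∀ v : W →ₗ[F] E, s v = (siegMap QE a e) ∘ₗ v := by
  have hae' : polar QE a ((2 : F)⁻¹ • e) = 0 := by rw [polar_smul_right, hae, smul_zero]
  refine ⟨_, OrthEmb67.sq_mem_Om hQ h2 (ac_mem_O h2 ndW pol (sieg_mem ndE ha hae') (one_mem (O QW))), fun v => ?_⟩
  apply LinearMap.ext
  intro w
  rw [pow_two, LinearEquiv.mul_apply, ac_apply, ac_apply]
  have h1 := sieg_mul ndE ha hae' hae'
  have h3 : (2 : F)⁻¹ • e + (2 : F)⁻¹ • e = e := by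
    rw [← add_smul, ← two_mul, mul_inv_cancel₀ h2, one_smul]
  have h4 := DFunLike.congr_fun h1 (v w)
  rw [LinearEquiv.mul_apply] at h4
  rw [LinearMap.comp_apply, siegMap_apply]
  refine Eq.trans h4 ?_
  rw [sieg_apply, h3]

theorem siegB_Om (h2 : (2 : F) ≠ 0) (ndE : Nd QE) (ndW : Nd QW) (hQ : Nd Q)
    (pol : ∀ (a : E) (b : W) (v : W →ₗ[F] E), polar Q (tb QW a b) v = polar QE (v b) a)
    {b e : W} (hb : QW b = 0) (hbe : polar QW b e = 0) :
    ∃ s ∈ Om Q, ∀ v : W →ₗ[F] E, s v = SgV QW b e v := by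
  have hbe' : polar QW b ((2 : F)⁻¹ • e) = 0 := by rw [polar_smul_right, hbe, smul_zero]
  refine ⟨_, OrthEmb67.sq_mem_Om hQ h2 (ac_mem_O (QE := QE) h2 ndW pol (one_mem (O QE)) (sieg_mem ndW hb hbe')), fun v => ?_⟩
  apply LinearMap.ext
  intro w
  rw [pow_two, LinearEquiv.mul_apply, ac_apply, ac_apply]
  have h1 := sieg_mul ndW hb hbe' hbe'
  have h3 : (2 : F)⁻¹ • e + (2 : F)⁻¹ • e = e := by
    rw [← add_smul, ← two_mul, mul_inv_cancel₀ h2, one_smul]
  have hq : ∀ x, (sieg ndW hb hbe').symm ((sieg ndW hb hbe').symm x) =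
      x - polar QW b x • e + polar QW e x • b - (QW e * polar QW b x) • b := by
    intro x
    rw [LinearEquiv.symm_apply_eq, LinearEquiv.symm_apply_eq]
    have h4 := DFunLike.congr_fun h1 (x - polar QW b x • e + polar QW e x • b - (QW e * polar QW b x) • b)
    rw [LinearEquiv.mul_apply] at h4
    rw [h4, sieg_apply, h3]
    have hbb : polar QW b b = 0 := by rw [polar_self', hb, mul_zero]
    have heb : polar QW e b = 0 := by rw [polar_comm, hbe]
    simp only [polar_sub_right, polar_add_right, polar_smul_right, hbb, heb, hbe, polar_self', smul_eq_mul, mul_zero,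
      sub_zero, add_zero]
    module
  change v ((sieg ndW hb hbe').symm ((sieg ndW hb hbe').symm w)) = _
  rw [hq]
  simp only [SgV, map_sub, map_add, map_smul, LinearMap.add_apply, LinearMap.sub_apply, LinearMap.smul_apply, tb_apply]
  rw [polar_comm QW e w, polar_comm QW b w]
  module

end Cfsg.Agent.Lib.TenOO_C1
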