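import Mathlib
import Cfsg.Agent.Lib.TenOO_C1

/-!
Piece C2 of S5681/S5709: an element of `Om Q` that is not a pair.
-/

set_option autoImplicit false
set_option linter.unusedSectionVars false

namespace Cfsg.Agent.Lib.TenOO_C2

open QuadraticMap Module Cfsg.Agent.Lib.Quad Cfsg.Agent.Lib.OrthMax Cfsg.Agent.Lib.OrthNd Cfsg.Agent.Lib.TenSLH94
open Cfsg.Agent.Lib.TenOO Cfsg.Agent.Lib.TenSpH94

variable {F E W : Type*} [Field F] [Finite F] [AddCommGroup E] [Module F E] [FiniteDimensional F E]
  [AddCommGroup W] [Module F W] [FiniteDimensional F W]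
  {QE : QuadraticForm F E} {QW : QuadraticForm F W} {Q : QuadraticForm F (W →ₗ[F] E)}

theorem Q_tb (h2 : (2 : F) ≠ 0) (pol : ∀ (a : E) (b : W) (v : W →ₗ[F] E), polar Q (tb QW a b) v = polar QE (v b) a)
    (a : E) (b : W) (hb : QW b = 0) : Q (tb QW a b) = 0 := by
  have h := pol a b (tb QW a b)
  rw [polar_self', tb_apply, polar_self', hb, mul_zero, zero_smul, polar_zero_left] at h
  exact (mul_eq_zero.1 h).resolve_left h2

theorem exists_not_pair (h2 : (2 : F) ≠ 0) (ndE : Nd QE) (ndW : Nd QW) (hQ : Nd Q)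
    (pol : ∀ (a : E) (b : W) (v : W →ₗ[F] E), polar Q (tb QW a b) v = polar QE (v b) a)
    (hE : 3 ≤ finrank F E) (hEW : finrank F E < finrank F W) : ∃ t ∈ Om Q, ¬ ∃ p q, t = ac p q := by
  have hgen : GenHyp Q := genHyp_of_two_ne_zero h2
  obtain ⟨a, ha⟩ : ∃ a : E, a ≠ 0 := by
    have : Nontrivial E := Module.finrank_pos_iff (R := F).1 (by omega)
    exact exists_ne 0
  obtain ⟨b, -, hb, hQb⟩ := exists_sing_in (Q := QW) (⊤ : Submodule F W) (by rw [finrank_top]; omega)
  obtain ⟨d, hd, hbd⟩ := exists_ker_out (F := F) (V := W) (by omega) (polarBilin QW b) b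
  have hbd' : polar QW b d = 0 := hbd
  have hz := Q_tb h2 pol a b hQb
  have hzy : polar Q (tb QW a b) (tb QW a d) = 0 := by
    rw [pol, tb_apply, polar_comm QW d b, hbd', zero_smul, polar_zero_left]
  -- the two tensors are independent
  obtain ⟨w, hw0, hw1⟩ : ∃ w : W, polar QW b w = 0 ∧ polar QW d w ≠ 0 := by
    by_contra hcon
    push Not at hcon
    apply hd
    have h3 : ∀ w, w ∈ LinearMap.ker (polarBilin QW b) → w ∈ LinearMap.ker (polarBilin QW d) := fun w hw => hcon w hw
    obtain ⟨c, hc⟩ : ∃ c : F, polarBilin QW d = c • polarBilin QW b := by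
      by_cases hb0 : polarBilin QW b = 0
      · exact absurd (ndW.eq_zero fun y => DFunLike.congr_fun hb0 y) hb
      · obtain ⟨y, hy⟩ : ∃ y, polarBilin QW b y ≠ 0 := by
          by_contra hcon2
          push Not at hcon2
          exact hb0 (LinearMap.ext hcon2)
        refine ⟨polarBilin QW d y / polarBilin QW b y, LinearMap.ext fun w => ?_⟩
        have h4 := h3 (w - (polarBilin QW b w / polarBilin QW b y) • y) (by
          rw [LinearMap.mem_ker, map_sub, map_smul, smul_eq_mul, div_mul_cancel₀ _ hy, sub_self])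
        rw [LinearMap.mem_ker, map_sub, map_smul, smul_eq_mul, sub_eq_zero] at h4
        rw [h4, LinearMap.smul_apply, smul_eq_mul]
        field_simp
    rw [Submodule.mem_span_singleton]
    refine ⟨c, ?_⟩
    rw [eq_comm, ← sub_eq_zero]
    apply ndW.eq_zero
    intro y
    have h4 := DFunLike.congr_fun hc y
    rw [LinearMap.smul_apply, smul_eq_mul] at h4
    rw [polar_sub_left, polar_smul_left, smul_eq_mul]
    exact sub_eq_zero.2 h4
  have htb : tb QW a b ≠ 0 := by
    intro h
    apply hb
    apply ndW.eq_zero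
    intro y
    have := DFunLike.congr_fun h y
    rw [tb_apply, LinearMap.zero_apply] at this
    exact (smul_eq_zero.1 this).resolve_right ha
  refine ⟨sieg hQ hz hzy, hQ.sieg_mem_Om hgen hz hzy, ?_⟩
  rintro ⟨p, q, hpq⟩
  have hfr : finrank F (Submodule.span F {(tb QW a b : W →ₗ[F] E), tb QW a d}) ≤ 2 := TS.span2 _ _
  obtain ⟨ψ, hψ, hD⟩ := ac_small (p := p) (q := q)
    (D := Submodule.span F {(tb QW a b : W →ₗ[F] E), tb QW a d}) (by omega) hEW (by
    intro v
    rw [← hpq, sieg_apply]
    have h5 : v + polar Q (tb QW a b) v • tb QW a d - polar Q (tb QW a d) v • tb QW a b -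
        (Q (tb QW a d) * polar Q (tb QW a b) v) • tb QW a b - v =
        polar Q (tb QW a b) v • tb QW a d - polar Q (tb QW a d) v • tb QW a b -
        (Q (tb QW a d) * polar Q (tb QW a b) v) • tb QW a b := by abel
    rw [h5]
    exact sub_mem (sub_mem (Submodule.smul_mem _ _ (Submodule.subset_span (by simp)))
      (Submodule.smul_mem _ _ (Submodule.subset_span (by simp)))) (Submodule.smul_mem _ _ (Submodule.subset_span (by simp))))
    (by omega) (by
    rw [← hpq]
    intro h
    obtain ⟨x, hx⟩ : ∃ x, polar Q (tb QW a b) x ≠ 0 := by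
      by_contra hcon
      push Not at hcon
      exact htb (hQ.eq_zero hcon)
    have h5 : sieg hQ hz hzy x = x := by rw [h]; rfl
    rw [sieg_apply] at h5
    have h6 := DFunLike.congr_fun h5 w
    simp only [LinearMap.sub_apply, LinearMap.add_apply, LinearMap.smul_apply, tb_apply, hw0, zero_smul, smul_zero,
      sub_zero, add_eq_left] at h6
    rcases smul_eq_zero.1 h6 with h7 | h7
    · exact hx h7
    · rcases smul_eq_zero.1 h7 with h8 | h8
      · exact hw1 h8
      · exact ha h8)
  have h3 := finrank_sp (E := E) hψ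
  rw [← hD] at h3
  omega

end Cfsg.Agent.Lib.TenOO_C2
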