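import Mathlib
import Cfsg.Prelude.Def_GeometricClasses
import Cfsg.Agent.Lib.TensorGeo

set_option autoImplicit false

/-!
Exchange of the two factors of a tensor decomposition (helper34).
-/

namespace Cfsg.Agent.Lib.TenOO_Sw

open Cfsg Cfsg.Geo Cfsg.Agent.Lib.GeoBridge Cfsg.Agent.Lib.TensorGeo
open scoped MatrixGroups Matrix Kronecker

variable {ι : Type} [Fintype ι] [DecidableEq ι] {F : Type*} [Field F] {n₁ n₂ : ℕ}

theorem tp_sw (e : ι ≃ Fin n₁ × Fin n₂) (P : GL ι F) (x₁ : Fin n₁ → F) (x₂ : Fin n₂ → F) :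
    tp (e.trans (Equiv.prodComm _ _)) P x₂ x₁ = tp e P x₁ x₂ := by
  rw [tp, tp]
  congr 1
  ext i
  show x₂ (e i).2 * x₁ (e i).1 = x₁ (e i).1 * x₂ (e i).2
  rw [mul_comm]

/-- the tensor product subgroup does not depend on the order of the factors -/
theorem tensor_sw (e : ι ≃ Fin n₁ × Fin n₂) (P : GL ι F) :
    tensorProductSubgroup n₂ n₁ (e.trans (Equiv.prodComm _ _)) P = tensorProductSubgroup n₁ n₂ e P := by
  ext g
  rw [mem_tensor_iff, mem_tensor_iff]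
  constructor
  · rintro ⟨b, a, h⟩
    refine ⟨a, b, fun x₁ x₂ => ?_⟩
    rw [← tp_sw e P x₁ x₂, ← tp_sw e P _ _, h]
  · rintro ⟨a, b, h⟩
    refine ⟨b, a, fun x₂ x₁ => ?_⟩
    rw [tp_sw, tp_sw, h]

theorem gram_sw {σ : F → F} (G₁ : Matrix (Fin n₁) (Fin n₁) F) (G₂ : Matrix (Fin n₂) (Fin n₂) F)
    (x y : Fin n₂ × Fin n₁ → F) :
    formOfGram σ (G₂ ⊗ₖ G₁) x y =
      formOfGram σ (G₁ ⊗ₖ G₂) (x ∘ Equiv.prodComm _ _) (y ∘ Equiv.prodComm _ _) := by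
  unfold formOfGram
  rw [← Equiv.sum_comp (Equiv.prodComm (Fin n₁) (Fin n₂))]
  refine Finset.sum_congr rfl fun a _ => ?_
  rw [← Equiv.sum_comp (Equiv.prodComm (Fin n₁) (Fin n₂))]
  refine Finset.sum_congr rfl fun b _ => ?_
  simp only [Function.comp_apply, Matrix.kroneckerMap_apply, Equiv.prodComm_apply, Prod.fst_swap, Prod.snd_swap]
  ring

/-- the structure with the factors exchanged -/
theorem structure_sw {σ : F → F} {f : (ι → F) → (ι → F) → F} {f₁ : (Fin n₁ → F) → (Fin n₁ → F) → F}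
    {f₂ : (Fin n₂ → F) → (Fin n₂ → F) → F} {e : ι ≃ Fin n₁ × Fin n₂} {P : GL ι F}
    (hT : IsTensorFormStructure σ f f₁ f₂ e P) :
    IsTensorFormStructure σ f f₂ f₁ (e.trans (Equiv.prodComm _ _)) P := by
  obtain ⟨c, hc, h⟩ := hT
  refine ⟨c, hc, fun x y => ?_⟩
  rw [gram_sw, ← h]
  rfl

end Cfsg.Agent.Lib.TenOO_Sw
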