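import Mathlib
import Cfsg.Agent.Lib.TenOO_Br
import Cfsg.Agent.Lib.TenOO_C1
import Cfsg.Agent.Lib.TenOO_C2
import Cfsg.Agent.Lib.TenOO_Sw

/-!
Overgroups of `O ⊗ O` in orthogonal groups: the hypotheses of the bridge, and the final statement for S5709 (helper99).
-/

set_option autoImplicit false

namespace Cfsg.Agent.Lib.TenOO_Hyp

open QuadraticMap Module Cfsg Cfsg.Geo Cfsg.Agent.Lib.Quad Cfsg.Agent.Lib.OrthMax Cfsg.Agent.Lib.OrthNd Cfsg.Agent.Lib.TenSLH94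
  Cfsg.Agent.Lib.TenOO Cfsg.Agent.Lib.TenOO_Br
open scoped MatrixGroups Matrix

variable {F : Type*} [Field F] {n₁ n₂ : ℕ}

/-- the main theorem for `F ^ n₁ ⊗ F ^ n₂` -/
def Main (F : Type*) [Field F] (n₁ n₂ : ℕ) : Prop :=
  ∀ (QE : QuadraticForm F (Fin n₁ → F)) (QW : QuadraticForm F (Fin n₂ → F))
    (Q : QuadraticForm F ((Fin n₂ → F) →ₗ[F] (Fin n₁ → F)))
    (M : Subgroup (((Fin n₂ → F) →ₗ[F] (Fin n₁ → F)) ≃ₗ[F] ((Fin n₂ → F) →ₗ[F] (Fin n₁ → F)))),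
    TO QE QW Q M → Nd Q → GenHyp Q → Om Q ≤ M ∨ ∀ g ∈ M, ∃ p q, g = ac p q

theorem two_ne [Fintype F] (hodd : Odd (Fintype.card F)) : (2 : F) ≠ 0 := by
  intro h
  have h3 : CharP F 2 := CharTwo.of_one_ne_zero_of_two_eq_zero one_ne_zero h
  obtain ⟨k, -, hk⟩ := FiniteField.card F 2
  rw [hk] at hodd
  exact (Nat.not_odd_iff_even.2 ((Nat.even_pow.2 ⟨even_two, k.pos.ne'⟩))) hodd

theorem hyp_of [Fintype F] (hodd : Odd (Fintype.card F)) (h1 : 3 ≤ n₁) (h12 : n₁ < n₂) (hmain : Main F n₁ n₂) :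
    Hyp F n₁ n₂ where
  main := hmain
  B := fun QE QW Q ndE ndW hQ _ pol b e hb hbe => TenOO_C1.siegB_Om (two_ne hodd) ndE ndW hQ pol hb hbe
  A := fun QE QW Q ndE ndW hQ _ pol a e ha hae => TenOO_C1.siegA_Om (two_ne hodd) ndE ndW hQ pol ha hae
  C := fun QE QW Q ndE ndW hQ _ pol => TenOO_C2.exists_not_pair (two_ne hodd) ndE ndW hQ pol
    (by rw [finrank_fintype_fun_eq_card, Fintype.card_fin]; exact h1)
    (by rw [finrank_fintype_fun_eq_card, finrank_fintype_fun_eq_card, Fintype.card_fin, Fintype.card_fin]; exact h12)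

/-- the bridge for `n₁ < n₂` -/
theorem br {ι : Type} [Fintype ι] [DecidableEq ι] [Fintype F] (hn : 13 ≤ Fintype.card ι) {Q : (ι → F) → F}
    (hQ : IsNondegenerateQuadraticForm Q) (hodd : Odd (Fintype.card F)) (h1 : 3 ≤ n₁) (h12 : n₁ < n₂) (ho : Odd n₁ ∨ Odd n₂)
    (hex : ¬ (Fintype.card F = 3 ∧ n₁ = 3)) (e : ι ≃ Fin n₁ × Fin n₂) (P : GL ι F)
    {f₁ : (Fin n₁ → F) → (Fin n₁ → F) → F} {f₂ : (Fin n₂ → F) → (Fin n₂ → F) → F}
    (h4 : n₁ = 4 → ¬ IsPlusTypeOn (fun v : Fin n₁ → F => f₁ v v) ⊤) (hf₁ : IsSymmetricForm f₁)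
    (hf₂ : IsSymmetricForm f₂) (hT : IsTensorFormStructure id (QuadraticMap.polar Q) f₁ f₂ e P) (hmain : Main F n₁ n₂) :
    IsMaximalIn (omegaGL Q) (tensorProductSubgroup n₁ n₂ e P ⊓ omegaGL Q) :=
  br_oo hn hQ hodd h1 h12 ho hex e P h4 hf₁ hf₂ hT (hyp_of hodd h1 h12 hmain)

/-- the statement S5709 from the main theorem -/
theorem core [Fintype F] {n : ℕ} (hn : 13 ≤ n) (Q : (Fin n → F) → F) (hQ : IsNondegenerateQuadraticForm Q)
    (hodd : Odd (Fintype.card F)) (n₁ n₂ : ℕ) (h1 : 3 ≤ n₁) (h1o : Odd n₁) (h2 : 4 ≤ n₂) (h2e : Even n₂)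
    (hex : ¬ (Fintype.card F = 3 ∧ n₁ = 3)) (e : (Fin n) ≃ Fin n₁ × Fin n₂) (P : GL (Fin n) F)
    (f₁ : (Fin n₁ → F) → (Fin n₁ → F) → F) (f₂ : (Fin n₂ → F) → (Fin n₂ → F) → F) (hf₁ : IsSymmetricForm f₁)
    (hf₂ : IsSymmetricForm f₂) (hf₂m : ¬ IsPlusTypeOn (fun v : Fin n₂ → F => f₂ v v) ⊤)
    (hT : IsTensorFormStructure id (QuadraticMap.polar Q) f₁ f₂ e P) (hmain : ∀ a b : ℕ, Main F a b) :
    IsMaximalIn (omegaGL Q) (tensorProductSubgroup n₁ n₂ e P ⊓ omegaGL Q) := by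
  have hn' : 13 ≤ Fintype.card (Fin n) := by rw [Fintype.card_fin]; exact hn
  rcases Nat.lt_trichotomy n₁ n₂ with h | h | h
  · refine br hn' hQ hodd h1 h (Or.inl h1o) hex e P (fun h4 => ?_) hf₁ hf₂ hT (hmain _ _)
    exact absurd h1o (by rw [h4]; decide)
  · subst h
    exact absurd h1o (Nat.not_odd_iff_even.2 h2e)
  · have h3 := br hn' hQ hodd (by omega) h (Or.inr h1o)
      (fun h5 => by rw [h5.2] at h2e; exact absurd h2e (by decide)) (e.trans (Equiv.prodComm _ _)) P (fun _ => hf₂m) hf₂ hf₁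
      (TenOO_Sw.structure_sw hT) (hmain _ _)
    rwa [TenOO_Sw.tensor_sw] at h3

end Cfsg.Agent.Lib.TenOO_Hyp
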