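import Cfsg.Agent.Lib.TenOO0
import Cfsg.Agent.Lib.OrthDec2H94

/-!
# Lemmas on one quadratic space (piece L of OO-PLAN, helper1)
-/

set_option autoImplicit false
set_option linter.unusedSectionVars false
set_option linter.unusedSimpArgs false
set_option linter.unusedVariables false

namespace Cfsg.Agent.Lib.TenOO_L

open QuadraticMap Module Cfsg.Agent.Lib.Quad Cfsg.Agent.Lib.OrthMax Cfsg.Agent.Lib.OrthNd Cfsg.Agent.Lib.TenSLH94

variable {F E : Type*} [Field F] [Finite F] [AddCommGroup E] [Module F E] [FiniteDimensional F E]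
  {QE : QuadraticForm F E}

theorem nds_top (hQ : Nd QE) : NDs QE (⊤ : Submodule F E) := by
  rw [NDs, eq_bot_iff]
  rintro x ⟨-, hx⟩
  rw [Submodule.mem_bot]
  apply hQ.eq_zero
  intro y
  rw [polar_comm]
  exact mem_perp.1 hx y trivial

theorem irr (h2 : (2 : F) ≠ 0) (hQ : Nd QE) (h3 : 3 ≤ finrank F E) {S : Submodule F E} (hS : S ≠ ⊥)
    (h : ∀ a f, QE a = 0 → polar QE a f = 0 → ∀ x ∈ S, siegMap QE a f x ∈ S) : S = ⊤ := by
  obtain ⟨w, hw, hw0⟩ := Submodule.exists_mem_ne_zero_of_ne_bot hS
  have hwA : w ∉ perp QE (⊤ : Submodule F E) := by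
    intro hmem
    apply hw0
    have h1 : w ∈ (⊤ : Submodule F E) ⊓ perp QE ⊤ := ⟨trivial, hmem⟩
    rwa [show (⊤ : Submodule F E) ⊓ perp QE ⊤ = ⊥ from nds_top hQ, Submodule.mem_bot] at h1
  exact top_le_iff.1 (OrthNd.le_of_sieg_stable hQ (nds_top hQ) (by rw [finrank_top]; exact h3)
    (fun z _ y _ hz hzy u hu => h z y hz hzy u hu) hw hwA)

theorem span_sing (h2 : (2 : F) ≠ 0) (hQ : Nd QE) (h3 : 3 ≤ finrank F E) :
    Submodule.span F {a | QE a = 0} = ⊤ := by
  apply irr h2 hQ h3
  · obtain ⟨a, -, b, -, hQa, hQb, hab⟩ := exists_pair_in hQ (nds_top hQ) (by rw [finrank_top]; exact h3)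
    intro h
    have h1 : a ∈ Submodule.span F {a | QE a = 0} := Submodule.subset_span hQa
    rw [h, Submodule.mem_bot] at h1
    rw [h1, polar_zero_left] at hab
    exact zero_ne_one hab
  · intro a f ha haf x hx
    have h1 : (Submodule.span F {a | QE a = 0}).map (siegMap QE a f) ≤ Submodule.span F {a | QE a = 0} := by
      rw [Submodule.map_span, Submodule.span_le]
      rintro _ ⟨u, hu, rfl⟩
      exact Submodule.subset_span (show QE _ = 0 by rw [siegMap_Q ha haf]; exact hu)
    exact h1 (Submodule.mem_map_of_mem hx)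

theorem fixd (h2 : (2 : F) ≠ 0) (hQ : Nd QE) (h3 : 3 ≤ finrank F E) {a y : E} (ha : a ≠ 0) (hQa : QE a = 0)
    (h : ∀ f, polar QE a f = 0 → siegMap QE a f y = y) : ∃ c : F, y = c • a := by
  have h1 : ∀ f, polar QE a f = 0 → polar QE a y • f - (polar QE f y + QE f * polar QE a y) • a = 0 := by
    intro f hf
    have h4 := h f hf
    rw [siegMap_apply] at h4
    have e : polar QE a y • f - (polar QE f y + QE f * polar QE a y) • a =
      (y + polar QE a y • f - polar QE f y • a - (QE f * polar QE a y) • a) - y := by module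
    rw [e, h4, sub_self]
  have hay : polar QE a y = 0 := by
    by_contra hne
    have h5 : perp QE (F ∙ a) ≤ F ∙ a := by
      intro f hf
      rw [mem_perp_singleton] at hf
      rw [Submodule.mem_span_singleton]
      refine ⟨(polar QE a y)⁻¹ * (polar QE f y + QE f * polar QE a y), ?_⟩
      have h6 := h1 f hf
      rw [sub_eq_zero] at h6
      rw [mul_smul, ← h6, smul_smul, inv_mul_cancel₀ hne, one_smul]
    have h6 := Submodule.finrank_mono h5
    have h7 := hQ.finrank_add_finrank_perp (F ∙ a)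
    rw [finrank_span_singleton ha] at h6 h7
    omega
  have h5 : y ∈ perp QE (perp QE (F ∙ a)) := by
    rw [mem_perp]
    intro f hf
    rw [mem_perp_singleton] at hf
    have h6 := h1 f hf
    rw [hay, zero_smul, zero_sub, mul_zero, add_zero, neg_eq_zero] at h6
    exact (smul_eq_zero.1 h6).resolve_right ha
  rw [hQ.perp_perp, Submodule.mem_span_singleton] at h5
  obtain ⟨c, hc⟩ := h5
  exact ⟨c, hc.symm⟩

section van

variable {X : Type*} [AddCommGroup X] [Module F X]

theorem exp3 (f : E →ₗ[F] E →ₗ[F] X) (a b e : E) (s t : F) : f (s • a + t • b + e) (s • a + t • b + e) =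
    (s * s) • f a a + (t * t) • f b b + (s * t) • (f a b + f b a) + s • (f a e + f e a) + t • (f b e + f e b) +
      f e e := by
  simp only [map_add, map_smul, LinearMap.add_apply, LinearMap.smul_apply]
  module

theorem Q3 {a b e : E} (hQa : QE a = 0) (hQb : QE b = 0) (hab : polar QE a b = 1) (ha : polar QE a e = 0)
    (hb : polar QE b e = 0) (s t : F) : QE (s • a + t • b + e) = s * t + QE e := by
  rw [Q_add, Q_add, Q_smul, Q_smul, polar_add_left, polar_smul_left, polar_smul_left, polar_smul_left,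
    polar_smul_right, hQa, hQb, hab, ha, hb]
  simp

theorem key {f : E →ₗ[F] E →ₗ[F] X} (h0 : ∀ a, QE a = 0 → f a a = 0) {a b e : E} (hQa : QE a = 0)
    (hQb : QE b = 0) (hab : polar QE a b = 1) (ha : polar QE a e = 0) (hb : polar QE b e = 0) {s : F}
    (hs : s ≠ 0) :
    s • (f a e + f e a) + f e e = QE e • (f a b + f b a) + (s⁻¹ * QE e) • (f b e + f e b) := by
  have h1 := h0 (s • a + (-(s⁻¹ * QE e)) • b + e) (by
    rw [Q3 hQa hQb hab ha hb]
    field_simp
    ring)
  rw [exp3, h0 a hQa, h0 b hQb] at h1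
  have e1 : s * -(s⁻¹ * QE e) = - QE e := by field_simp
  rw [e1] at h1
  rw [← sub_eq_zero, ← h1]
  module

theorem fee (h2 : (2 : F) ≠ 0) {f : E →ₗ[F] E →ₗ[F] X} (h0 : ∀ a, QE a = 0 → f a a = 0) {a b e : E}
    (hQa : QE a = 0) (hQb : QE b = 0) (hab : polar QE a b = 1) (ha : polar QE a e = 0)
    (hb : polar QE b e = 0) : f e e = QE e • (f a b + f b a) := by
  have h1 := key h0 hQa hQb hab ha hb (s := 1) one_ne_zero
  have h3 := key h0 hQa hQb hab ha hb (s := -1) (neg_ne_zero.2 one_ne_zero)
  have h4 : (2 : F) • (f e e - QE e • (f a b + f b a)) = 0 := by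
    have e1 : (2 : F) • (f e e - QE e • (f a b + f b a)) =
      (((1 : F) • (f a e + f e a) + f e e) - (QE e • (f a b + f b a) + ((1 : F)⁻¹ * QE e) • (f b e + f e b))) +
      (((-1 : F) • (f a e + f e a) + f e e) -
        (QE e • (f a b + f b a) + ((-1 : F)⁻¹ * QE e) • (f b e + f e b))) := by
      rw [inv_neg, inv_one]
      module
    rw [e1, h1, h3]
    simp
  exact sub_eq_zero.1 ((smul_eq_zero.1 h4).resolve_left h2)

theorem alp (h2 : (2 : F) ≠ 0) {f : E →ₗ[F] E →ₗ[F] X} (h0 : ∀ a, QE a = 0 → f a a = 0) {a b e : E}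
    (hQa : QE a = 0) (hQb : QE b = 0) (hab : polar QE a b = 1) (ha : polar QE a e = 0)
    (hb : polar QE b e = 0) {s : F} (hs : s ≠ 0) :
    s • (f a e + f e a) = (s⁻¹ * QE e) • (f b e + f e b) := by
  have h1 := key h0 hQa hQb hab ha hb hs
  rw [fee h2 h0 hQa hQb hab ha hb, add_comm] at h1
  exact add_left_cancel h1

theorem van (h2 : (2 : F) ≠ 0) (hQ : Nd QE) (h3 : 3 ≤ finrank F E)
    (hex : 4 ≤ finrank F E ∨ ∃ s : F, s ≠ 0 ∧ s ≠ 1 ∧ s ≠ -1) (f : E →ₗ[F] E →ₗ[F] X)
    (h0 : ∀ a, QE a = 0 → f a a = 0) : ∃ R : X, ∀ y, f y y = QE y • R := by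
  obtain ⟨a, haT, b, hbT, hQa, hQb, hab⟩ := exists_pair_in hQ (nds_top hQ) (by rw [finrank_top]; exact h3)
  have hba : polar QE b a = 1 := by rw [polar_comm]; exact hab
  have hA : ∀ e, polar QE a e = 0 → polar QE b e = 0 → f a e + f e a = QE e • (f b e + f e b) := by
    intro e ha hb
    have h1 := alp h2 h0 hQa hQb hab ha hb (s := 1) one_ne_zero
    rwa [one_smul, inv_one, one_mul] at h1
  have hB : ∀ e, polar QE a e = 0 → polar QE b e = 0 → f b e + f e b = QE e • (f a e + f e a) := by
    intro e ha hb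
    have h1 := alp h2 h0 hQb hQa hba hb ha (s := 1) one_ne_zero
    rwa [one_smul, inv_one, one_mul] at h1
  have hzero : ∀ e, polar QE a e = 0 → polar QE b e = 0 → f a e + f e a = 0 ∧ f b e + f e b = 0 := by
    intro e ha hb
    rcases hex with h4 | ⟨s, hs0, hs1, hs2⟩
    · by_cases hQe : QE e = 0
      · refine ⟨?_, ?_⟩
        · rw [hA e ha hb, hQe, zero_smul]
        · rw [hB e ha hb, hQe, zero_smul]
      · have hnd := nds_cut hQ (nds_top hQ) haT hbT hQa hQb hab
        have he : e ∈ (⊤ : Submodule F E) ⊓ perp QE (Submodule.span F {a, b}) := mem_cut.2 ⟨trivial, ha, hb⟩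
        have hnd' := Cfsg.Agent.Lib.OrthDecH94.nds_cut1 hQ h2 hnd he hQe
        have hd1 := finrank_cut hQ (⊤ : Submodule F E) a b
        have hd2 := Cfsg.Agent.Lib.OrthDecH94.finrank_cut1 hQ (A := (⊤ : Submodule F E) ⊓ perp QE (Submodule.span F {a, b}))
          (a := e)
        rw [finrank_top] at hd1
        obtain ⟨e', he', hQe'⟩ := Cfsg.Agent.Lib.OrthDecH94.exists_nonsing hnd' (by omega)
        obtain ⟨he'1, he'2⟩ := Cfsg.Agent.Lib.OrthDecH94.mem_cut1.1 he'
        obtain ⟨-, ha', hb'⟩ := mem_cut.1 he'1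
        have q1 : QE (e + e') = QE e + QE e' := by rw [Q_add, he'2, add_zero]
        have q2 : QE (e - e') = QE e + QE e' := by rw [Q_sub, he'2, sub_zero]
        have h5 := hA (e + e') (by rw [polar_add_right, ha, ha', add_zero])
          (by rw [polar_add_right, hb, hb', add_zero])
        have h6 := hA (e - e') (by rw [polar_sub_right, ha, ha', sub_zero])
          (by rw [polar_sub_right, hb, hb', sub_zero])
        have h7 := hA e ha hb
        have h8 := hA e' ha' hb'
        rw [q1] at h5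
        rw [q2] at h6
        have h9 : (2 * QE e') • (f b e + f e b) = 0 := by
          simp only [map_add, map_sub, LinearMap.add_apply, LinearMap.sub_apply] at h5 h6
          have e1 : (2 * QE e') • (f b e + f e b) =
            ((f a e + f e a) - QE e • (f b e + f e b)) + ((f a e + f e a) - QE e • (f b e + f e b))
            - (((f a e + f a e') + (f e a + f e' a)) - (QE e + QE e') • ((f b e + f b e') + (f e b + f e' b)))
            - (((f a e - f a e') + (f e a - f e' a)) - (QE e + QE e') • ((f b e - f b e') + (f e b - f e' b))) := by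
            module
          rw [e1, h5, h6, h7]
          simp
        have h10 : f b e + f e b = 0 := (smul_eq_zero.1 h9).resolve_left (mul_ne_zero h2 hQe')
        exact ⟨by rw [h7, h10, smul_zero], h10⟩
    · have h1 := alp h2 h0 hQa hQb hab ha hb hs0
      have h4 := hA e ha hb
      have h5 : (s * s - 1) • (f a e + f e a) = 0 := by
        have e1 : (s * s) • (f a e + f e a) = QE e • (f b e + f e b) := by
          rw [mul_smul, h1, smul_smul, ← mul_assoc, mul_inv_cancel₀ hs0, one_mul]
        rw [sub_smul, e1, one_smul, h4, sub_self]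
      have h6 : s * s - 1 ≠ 0 := by
        intro hh
        have h7 : (s - 1) * (s + 1) = 0 := by linear_combination hh
        rcases mul_eq_zero.1 h7 with h8 | h8
        · exact hs1 (sub_eq_zero.1 h8)
        · exact hs2 (eq_neg_of_add_eq_zero_left h8)
      have h7 : f a e + f e a = 0 := (smul_eq_zero.1 h5).resolve_left h6
      exact ⟨h7, by rw [hB e ha hb, h7, smul_zero]⟩
  refine ⟨f a b + f b a, fun y => ?_⟩
  set e : E := y - polar QE b y • a - polar QE a y • b with he
  have ha : polar QE a e = 0 := by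
    rw [he, polar_sub_right, polar_sub_right, polar_smul_right, polar_smul_right, polar_self', hQa, hab]
    simp
  have hb : polar QE b e = 0 := by
    rw [he, polar_sub_right, polar_sub_right, polar_smul_right, polar_smul_right, polar_self', hQb, hba]
    simp
  have hy : y = polar QE b y • a + polar QE a y • b + e := by rw [he]; module
  have h1 := fee h2 h0 hQa hQb hab ha hb
  obtain ⟨h4, h5⟩ := hzero e ha hb
  have h6 := exp3 f a b e (polar QE b y) (polar QE a y)
  have h7 := Q3 hQa hQb hab ha hb (polar QE b y) (polar QE a y)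
  rw [← hy] at h6 h7
  rw [h6, h7, h0 a hQa, h0 b hQb, h4, h5, h1]
  module

end van

end Cfsg.Agent.Lib.TenOO_L
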