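import Mathlib
import Cfsg.Agent.Lib.TenSpG5

/-!
# Overgroups of `Sp(E) ∘ O(W)`, `dim W ≥ 4`: no involutions (helper21)
-/

set_option autoImplicit false
set_option linter.unusedSectionVars false
set_option linter.unusedVariables false
set_option linter.unusedSimpArgs false

namespace Cfsg.Agent.Lib.TenSpT

open QuadraticMap Module Cfsg.Agent.Lib.Quad Cfsg.Agent.Lib.OrthNd Cfsg.Agent.Lib.OrthDecH94
open Cfsg.Agent.Lib.SpTrans Cfsg.Agent.Lib.TenSpO

variable {F E W V : Type*} [Field F] [AddCommGroup E] [Module F E] [FiniteDimensional F E]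
  [AddCommGroup W] [Module F W] [FiniteDimensional F W] [AddCommGroup V] [Module F V] [FiniteDimensional F V]

variable {α : E →ₗ[F] E →ₗ[F] F} {Q : QuadraticForm F W} {B : V →ₗ[F] V →ₗ[F] F} {τ : E →ₗ[F] W →ₗ[F] V}
  {M : Subgroup (V ≃ₗ[F] V)}

namespace TT

variable (T : TT α Q B τ M)

include T

theorem exists_q {e : E} (he : e ≠ 0) : ∃ q, α q e = 1 := by
  obtain ⟨y, hy⟩ : ∃ y, α y e ≠ 0 := by
    by_contra hc
    push Not at hc
    exact he (T.hαn e fun y => by rw [T.αsw, hc, neg_zero])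
  exact ⟨(α y e)⁻¹ • y, by rw [map_smul, LinearMap.smul_apply, smul_eq_mul, inv_mul_cancel₀ hy]⟩

theorem exists_w : ∃ w₀ w₁ : W, w₀ ≠ 0 ∧ polar Q w₀ w₁ = 1 ∨ finrank F W = 0 := by
  by_cases h : finrank F W = 0
  · exact ⟨0, 0, Or.inr h⟩
  · haveI : Nontrivial W := Module.nontrivial_of_finrank_pos (R := F) (Nat.pos_of_ne_zero h)
    obtain ⟨w₀, hw₀⟩ := exists_ne (0 : W)
    obtain ⟨z, hz⟩ := T.nd.exists_polar_one' hw₀
    exact ⟨w₀, z, Or.inl ⟨hw₀, hz⟩⟩

/-- **No involutions.** -/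
theorem no_even [Finite F] (h4 : 4 ≤ finrank F W) (hE : 3 ≤ finrank F E) (hcon : ¬ isom (fun x y => B x y) ≤ M)
    {h : V ≃ₗ[F] V} (hh : h ∈ M) {f e : E} (hf : f ≠ 0) (he : e ≠ 0)
    (hstar : ∀ v : E, v ≠ 0 → ∃ w, T.cc v (h (τ f w)) ≠ 0)
    {c d : F} (hc : c ≠ 0) (hd : d ≠ 0) {a b j : V ≃ₗ[F] V}
    (H : JJ M (c • chi T e LinearMap.id) (d • mu T h f) a b j) {m : ℕ} (hj : j ^ (m + m) = 1) (hj' : j ^ m ≠ 1) : False := by
  have h2 := T.two
  obtain ⟨z, hz, hz1, hzz, hzp, hzr, him, hfx⟩ := H.even_case h2 hj hj'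
  have hzP : ∀ v, z (τ e (T.cc e v)) = τ e (T.cc e (z v)) := by
    intro v
    have h5 := hzp v
    change z (c • τ e (T.cc e v)) = c • τ e (T.cc e (z v)) at h5
    rw [map_smul] at h5
    have := congrArg (fun x => c⁻¹ • x) h5
    simpa only [smul_smul, inv_mul_cancel₀ hc, one_smul] using this
  obtain ⟨q, hq⟩ := T.exists_q he
  obtain ⟨y, hy⟩ : ∃ y : W →ₗ[F] W, y = (T.cc e) ∘ₗ (z : V →ₗ[F] V) ∘ₗ (τ q) := ⟨_, rfl⟩
  have hzy : ∀ w, z (τ e w) = τ e (y w) := by
    intro w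
    have h5 := hzP (τ q w)
    rw [T.cc_τ, hq, one_smul] at h5
    rw [h5, hy]; rfl
  have hform : ∀ v v', B (z v) (z v') = B v v' := fun v v' => T.le hz v v'
  have hypol : ∀ w w', polar Q (y w) (y w') = polar Q w w' := by
    intro w w'
    have h5 : polar Q (y w) (y w') = B (z (τ q w)) (τ e (y w')) := by
      rw [← T.cc_spec, hy]; rfl
    rw [h5, ← hzy, hform, T.Bτ, hq, one_mul]
  have hyQ : ∀ w, Q (y w) = Q w := by
    intro w
    have h5 := hypol w w
    rw [polar_self', polar_self'] at h5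
    exact mul_left_cancel₀ h2 h5
  obtain ⟨t, ht, ht1⟩ := T.tW _ (ofMap_mem T.nd y hyQ)
  have ht2 : ∀ a w, t (τ a w) = τ a (y w) := fun a w => by rw [ht1, ofMap_apply]
  obtain ⟨x, hx⟩ := T.stepC h4 hE hcon (mul_mem (inv_mem ht) hz) he (fun w => by
    rw [LinearEquiv.mul_apply, hzy, ← ht2]; exact t.symm_apply_apply _)
  have hzx : ∀ a w, z (τ a w) = τ (x a) (y w) := by
    intro a w
    rw [← ht2, ← hx, LinearEquiv.mul_apply]
    exact (t.apply_symm_apply _).symm
  obtain ⟨w₀, w₁, hw | hw⟩ := T.exists_w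
  swap
  · omega
  obtain ⟨hw₀, hw₁⟩ := hw
  have hw₀' : ∀ {a a' : E}, τ a w₀ = τ a' w₀ → a = a' := by
    intro a a' haa
    rw [← sub_eq_zero]
    apply T.τ_inj' hw₀
    rw [map_sub, LinearMap.sub_apply, haa, sub_self]
  have hyi : ∀ {w w'}, y w = y w' → w = w' := by
    intro w w' hww
    apply T.eqW
    intro u
    rw [← hypol, hww, hypol]
  have hxe : x e = e := by
    apply hw₀'
    rw [← hx, LinearEquiv.mul_apply, hzy, ← ht2]
    exact t.symm_apply_apply _
  have hyy : ∀ w, y (y w) = w := by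
    intro w
    have h5 := hzz (τ e w)
    rw [hzy, hzy] at h5
    rw [← sub_eq_zero]
    apply T.τ_inj he
    rw [map_sub, h5, sub_self]
  have hxx : ∀ a, x (x a) = a := by
    intro a
    have h5 := hzz (τ a w₀)
    rw [hzx, hzx, hyy] at h5
    exact hw₀' h5
  have hxα : ∀ a a', α (x a) (x a') = α a a' := by
    intro a a'
    have h5 := hform (τ a w₀) (τ a' w₁)
    rw [hzx, hzx, T.Bτ, T.Bτ, hypol, hw₁, mul_one, mul_one] at h5
    exact h5
  -- key fact
  have key0 : ∀ v, z v = -v → ∃ w' u, v = τ e w' + h (τ f u) := by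
    intro v hv
    obtain ⟨x₀, y₀, h5⟩ := him v
    rw [hv] at h5
    change -v - v = c • τ e (T.cc e x₀) + d • h (τ f (T.cc f (h⁻¹ y₀))) at h5
    refine ⟨(-(2 : F)⁻¹ * c) • T.cc e x₀, (-(2 : F)⁻¹ * d) • T.cc f (h⁻¹ y₀), ?_⟩
    rw [map_smul, map_smul, map_smul, mul_smul, mul_smul, ← smul_add, ← h5]
    have : (-(2 : F)⁻¹) • (-v - v) = ((2 : F)⁻¹ * 2) • v := by module
    rw [this, inv_mul_cancel₀ h2, one_smul]
  have key : ∀ (a : E) (w : W), w ≠ 0 → α a e = 0 → z (τ a w) = -τ a w → ∃ c : F, a = c • e := by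
    intro a w hw hae hv
    obtain ⟨w', u, h5⟩ := key0 _ hv
    have h6 : T.cc e (h (τ f u)) = 0 := by
      have h7 := congrArg (T.cc e) h5
      rw [map_add, T.cc_τ, T.cc_τ, hae, T.hα e, zero_smul, zero_smul, zero_add] at h7
      exact h7.symm
    have h7 : z (h (τ f u)) = h (τ f u) := by
      apply hfx
      · change c • τ e (T.cc e (h (τ f u))) = 0
        rw [h6, map_zero, smul_zero]
      · change d • h (τ f (T.cc f (h⁻¹ (h (τ f u))))) = 0
        rw [T.hinv', T.cc_τ, T.hα f, zero_smul, map_zero, map_zero, smul_zero]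
    have h8 : z (τ a w) = τ e (y w') + h (τ f u) := by
      rw [h5, map_add, h7, hzy]
    have h9 : (2 : F) • τ a w = τ e (w' - y w') := by
      have : (2 : F) • τ a w = τ a w - z (τ a w) := by rw [hv, two_smul]; abel
      rw [this, h8]
      nth_rewrite 1 [h5]
      rw [map_sub]; abel
    have h10 : τ a w = τ e ((2 : F)⁻¹ • (w' - y w')) := by
      rw [map_smul, ← h9, smul_smul, inv_mul_cancel₀ h2, one_smul]
    exact T.span_of_τ hw h10
  have hneg : ∀ a, x a = -a → α a e = 0 := by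
    intro a ha
    have h5 := hxα a e
    rw [hxe, ha, map_neg, LinearMap.neg_apply] at h5
    have : 2 * α a e = 0 := by linear_combination -h5
    exact (mul_eq_zero.mp this).resolve_left h2
  have hselfneg : ∀ {X : Type _} [AddCommGroup X] [Module F X] (v : X), v = -v → v = 0 := by
    intro X _ _ v hv
    have h5 : (2 : F) • v = 0 := by rw [two_smul]; nth_rewrite 1 [hv]; abel
    exact (smul_eq_zero.mp h5).resolve_left h2
  have mix : ∀ a w, x a = -a → a ≠ 0 → y w = w → w ≠ 0 → False := by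
    intro a w ha ha0 hyw hw
    obtain ⟨c', hc'⟩ := key a w hw (hneg a ha) (by rw [hzx, ha, hyw, map_neg, LinearMap.neg_apply])
    apply ha0
    have h5 : x a = a := by rw [hc', map_smul, hxe]
    exact hselfneg a (by rw [← ha, h5])
  have hxne : ∀ a, x a ≠ a → ∃ a', a' ≠ 0 ∧ x a' = -a' := fun a ha =>
    ⟨a - x a, fun h0 => ha (sub_eq_zero.mp h0).symm, by rw [map_sub, hxx]; abel⟩
  by_cases hy1 : ∀ w, y w = w
  · -- `y = 1`
    have hx1 : ∃ a, x a ≠ a := by
      by_contra hcc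
      push Not at hcc
      apply hz1
      have h5 : (z : Module.End F V) = 1 := by
        apply T.extτ
        intro a w
        change z (τ a w) = τ a w
        rw [hzx, hcc, hy1]
      ext v
      exact LinearMap.congr_fun h5 v
    obtain ⟨a, ha⟩ := hx1
    obtain ⟨a', ha', ha''⟩ := hxne a ha
    exact mix a' w₀ ha'' ha' (hy1 w₀) hw₀
  · push Not at hy1
    obtain ⟨w, hw⟩ := hy1
    have hwm : w - y w ≠ 0 := fun h0 => hw (sub_eq_zero.mp h0).symm
    have hwm' : y (w - y w) = -(w - y w) := by rw [map_sub, hyy]; abel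
    -- `x ≠ 1`
    have hx1 : ∃ a, x a ≠ a := by
      by_contra hcc
      push Not at hcc
      obtain ⟨a, ha0, hae, haq⟩ := T.exists_orth2 hE e q
      obtain ⟨c', hc'⟩ := key a _ hwm hae (by rw [hzx, hcc, hwm', map_neg])
      rw [hc', map_smul, LinearMap.smul_apply, T.αsw, hq, smul_eq_mul] at haq
      have h5 : c' = 0 := by linear_combination -haq
      exact ha0 (by rw [hc', h5, zero_smul])
    obtain ⟨a, ha⟩ := hx1
    obtain ⟨a', ha', ha''⟩ := hxne a ha
    have hyneg : ∀ w, y w = -w := by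
      intro w
      by_contra hne
      apply mix a' (w + y w) ha'' ha' (by rw [map_add, hyy]; abel)
      intro h0
      exact hne (eq_neg_of_add_eq_zero_right h0)
    obtain ⟨q', hq'⟩ : ∃ q', q' = (2 : F)⁻¹ • (q + x q) := ⟨_, rfl⟩
    have hxq' : x q' = q' := by rw [hq', map_smul, map_add, hxx, add_comm]
    have hq'e : α q' e = 1 := by
      have h5 := hxα q e
      rw [hxe] at h5
      rw [hq', map_smul, map_add, LinearMap.smul_apply, LinearMap.add_apply, h5, hq, smul_eq_mul]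
      field_simp; norm_num
    have h5 : ∀ w, ∃ w' u, τ q' w = τ e w' + h (τ f u) := fun w => key0 _ (by rw [hzx, hxq', hyneg, map_neg])
    obtain ⟨X, hX⟩ : ∃ X : W →ₗ[F] W, X = (T.cc e) ∘ₗ (h : V →ₗ[F] V) ∘ₗ (τ f) := ⟨_, rfl⟩
    have hXu : ∀ {w w' u}, τ q' w = τ e w' + h (τ f u) → X u = w := by
      intro w w' u h6
      have h7 := congrArg (T.cc e) h6
      rw [map_add, T.cc_τ, T.cc_τ, hq'e, T.hα e, zero_smul, one_smul, zero_add] at h7
      rw [h7, hX]; rfl
    have hXs : Function.Surjective X := fun w => by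
      obtain ⟨w', u, h6⟩ := h5 w
      exact ⟨u, hXu h6⟩
    have hXi := LinearMap.injective_iff_surjective.2 hXs
    obtain ⟨v, hv0, hve, hvq⟩ := T.exists_orth2 hE e q'
    obtain ⟨u, hu⟩ := hstar v hv0
    obtain ⟨w', u', h6⟩ := h5 (X u)
    have h7 : u' = u := hXi (hXu h6)
    rw [h7] at h6
    apply hu
    have h8 : h (τ f u) = τ q' (X u) - τ e w' := by rw [h6]; abel
    rw [h8, map_sub, T.cc_τ, T.cc_τ, T.αsw q' v, T.αsw e v, hve, hvq, neg_zero, zero_smul, zero_smul, sub_zero]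

end TT

end Cfsg.Agent.Lib.TenSpT
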