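import Mathlib
import Cfsg.Agent.Lib.TenSpG6

/-!
# Overgroups of `Sp(E) ∘ O(W)`, `dim W ≥ 4`: conclusion (helper21)
-/

set_option autoImplicit false
set_option linter.unusedSectionVars false
set_option linter.unusedVariables false
set_option linter.unusedSimpArgs false

namespace Cfsg.Agent.Lib.TenSpT

open QuadraticMap Module Cfsg.Agent.Lib.Quad Cfsg.Agent.Lib.OrthNd Cfsg.Agent.Lib.OrthDecH94
open Cfsg.Agent.Lib.SpTrans Cfsg.Agent.Lib.TenSpO

variable {F E W V : Type*} [Field F] [AddCommGroup E] [Module F E] [FiniteDimensional F E]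
  [AddCommGroup W] [Module F W] [FiniteDimensional F W] [AddCommGroup V] [Module F V] [FiniteDimensional F V]

variable {α : E →ₗ[F] E →ₗ[F] F} {Q : QuadraticForm F W} {B : V →ₗ[F] V →ₗ[F] F} {τ : E →ₗ[F] W →ₗ[F] V}
  {M : Subgroup (V ≃ₗ[F] V)}

namespace TT

variable (T : TT α Q B τ M)

include T

/-- for all pairs of parameters -/
theorem odd_map [Finite F] (h4 : 4 ≤ finrank F W) (hE : 3 ≤ finrank F E) (hcon : ¬ isom (fun x y => B x y) ≤ M)
    {h : V ≃ₗ[F] V} (hh : h ∈ M) {f e : E} (hf : f ≠ 0) (he : e ≠ 0)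
    (hstar : ∀ v : E, v ≠ 0 → ∃ w, T.cc v (h (τ f w)) ≠ 0)
    {X X' : W →ₗ[F] W} (hX : Val T h f e X) (hA : Adj Q X X')
    {c d : F} (hc : c ≠ 0) (hd : d ≠ 0) :
    ∃ y : W →ₗ[F] W, (∀ w, y (y w) = w - (c * d) • X (X' w)) ∧ (∀ w, y w = 0 → w = 0) ∧ SS T e (y ∘ₗ y) := by
  have h2 := T.two
  obtain ⟨a, ha, ha'⟩ := (T.qd_nu e).me c
  obtain ⟨b, hb, hb'⟩ := (T.qd_mu hh f).me d
  have H : JJ M (c • chi T e LinearMap.id) (d • mu T h f) a b (a * (b * b) * a) :=
    ⟨((T.qd_nu e).smul c).sq, ((T.qd_mu hh f).smul d).sq, ha, hb, ha', hb', rfl⟩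
  obtain ⟨j, hj⟩ : ∃ j, j = a * (b * b) * a := ⟨_, rfl⟩
  rw [← hj] at H
  haveI : Finite V := Module.finite_of_finite F
  haveI : Finite (V ≃ₗ[F] V) := Finite.of_injective (fun g : V ≃ₗ[F] V => (g : V → V)) DFunLike.coe_injective
  have hpos := orderOf_pos j
  have hodd : Odd (orderOf j) := by
    by_contra hne
    rw [Nat.not_odd_iff_even] at hne
    obtain ⟨k, hk⟩ := hne
    refine T.no_even h4 hE hcon hh hf he hstar hc hd H (m := k) (by rw [← hk, pow_orderOf_eq_one]) fun h5 => ?_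
    have := Nat.le_of_dvd (by omega) (orderOf_dvd_of_pow_eq_one h5)
    omega
  obtain ⟨t, c₁, hc₁, htp, htt, hct, i, hi, hti⟩ := H.odd_case h2 hodd (pow_orderOf_eq_one j)
  have htP : ∀ v, t (τ e (T.cc e v)) = τ e (T.cc e (t v)) := by
    intro v
    have h5 := LinearMap.congr_fun htp v
    change t (c • τ e (T.cc e v)) = c • τ e (T.cc e (t v)) at h5
    rw [map_smul] at h5
    have := congrArg (fun x => c⁻¹ • x) h5
    simpa only [smul_smul, inv_mul_cancel₀ hc, one_smul] using this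
  have hcP : ∀ v, c₁ (τ e (T.cc e v)) = t (τ e (T.cc e v)) := by
    intro v
    have h5 := hct v
    change c₁ (c • τ e (T.cc e v)) = t (c • τ e (T.cc e v)) at h5
    rw [map_smul, map_smul] at h5
    have := congrArg (fun x => c⁻¹ • x) h5
    simpa only [smul_smul, inv_mul_cancel₀ hc, one_smul] using this
  obtain ⟨q, hq⟩ := T.exists_q he
  have hPq : ∀ w, T.cc e (τ q w) = w := fun w => by rw [T.cc_τ, hq, one_smul]
  obtain ⟨y, hy⟩ : ∃ y : W →ₗ[F] W, y = (T.cc e) ∘ₗ t ∘ₗ (τ q) := ⟨_, rfl⟩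
  have hty : ∀ w, t (τ e w) = τ e (y w) := by
    intro w
    have h5 := htP (τ q w)
    rw [hPq] at h5
    rw [h5, hy]; rfl
  have hcy : ∀ w, c₁ (τ e w) = τ e (y w) := by
    intro w
    have h5 := hcP (τ q w)
    rw [hPq] at h5
    rw [h5, hty]
  have hiv : ∀ v v', B (i v) v' = B v (i⁻¹ v') := by
    intro v v'
    rw [T.Bsw, ← T.Binv hi, ← T.Bsw]
  have htB : ∀ v v', B (t v) v' = B v (t v') := by
    intro v v'
    rw [hti]
    change B ((2 : F)⁻¹ • (i v + i⁻¹ v)) v' = B v ((2 : F)⁻¹ • (i v' + i⁻¹ v'))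
    rw [map_smul, LinearMap.smul_apply, map_smul, map_add, LinearMap.add_apply, map_add, hiv, T.Binv hi, add_comm]
  have hadj : ∀ w w', polar Q (y w) w' = polar Q w (y w') := by
    intro w w'
    have h5 : polar Q (y w) w' = B (t (τ q w)) (τ e w') := by
      rw [← T.cc_spec, hy]; rfl
    rw [h5, htB, hty, T.Bτ, hq, one_mul]
  have hR : ∀ w, mu T h f (τ e w) = h (τ f (-(X' w))) := by
    intro w
    have h5 := T.mu_nu hh hX hA (τ q w)
    rw [hPq] at h5
    rw [← h5]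
    congr 1
    change τ e w = τ e (T.cc e (τ q w))
    rw [hPq]
  refine ⟨y, fun w => ?_, fun w hw => ?_, T.ss_norm hc₁ hcy hadj⟩
  · rw [← sub_eq_zero]
    apply T.τ_inj he
    have h5 := LinearMap.congr_fun htt (τ e w)
    change t (t (τ e w)) = τ e w + (c • τ e (T.cc e (d • mu T h f (τ e w))) + d • mu T h f (c • τ e (T.cc e (τ e w)))) at h5
    rw [hty, hty, T.cc_τ, T.hα e, zero_smul, map_zero, smul_zero, map_zero, smul_zero, add_zero, hR, map_smul (T.cc e),
      hX] at h5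
    rw [map_sub, map_sub, h5, map_smul, map_smul, map_neg, map_neg]
    module
  · apply T.τ_inj he
    have h5 := hcy w
    rw [hw, map_zero] at h5
    exact (LinearEquiv.map_eq_zero_iff c₁).1 h5

/-- **The products vanish.** -/
theorem s_zero [Finite F] (h4 : 4 ≤ finrank F W) (hE : 3 ≤ finrank F E) (hcon : ¬ isom (fun x y => B x y) ≤ M)
    {h : V ≃ₗ[F] V} (hh : h ∈ M) {f e : E} (hf : f ≠ 0) (he : e ≠ 0)
    (hstar : ∀ v : E, v ≠ 0 → ∃ w, T.cc v (h (τ f w)) ≠ 0)
    {X X' : W →ₗ[F] W} (hX : Val T h f e X) (hA : Adj Q X X') (w : W) : X (X' w) = 0 := by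
  obtain ⟨w₀, w₁, hw | hw⟩ := T.exists_w
  swap
  · omega
  have hw₀ := hw.1
  obtain ⟨y, hy1, hy2, hy3⟩ := T.odd_map h4 hE hcon hh hf he hstar hX hA (c := 1) (d := 1) one_ne_zero one_ne_zero
  obtain ⟨κ, hκ⟩ := T.scal h4 hcon he hy3
  have h1 : ∀ w, X (X' w) = (1 - κ) • w := by
    intro w
    have h5 := LinearMap.congr_fun hκ w
    rw [LinearMap.comp_apply, hy1, LinearMap.smul_apply, LinearMap.id_apply, mul_one, one_smul] at h5
    rw [sub_smul, one_smul, ← h5]; abel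
  by_cases hs : 1 - κ = 0
  · rw [h1, hs, zero_smul]
  exfalso
  obtain ⟨y', hy1', hy2', -⟩ := T.odd_map h4 hE hcon hh hf he hstar hX hA (c := 1) (d := (1 - κ)⁻¹) one_ne_zero
    (inv_ne_zero hs)
  apply hw₀
  apply hy2'
  apply hy2'
  rw [hy1', h1, one_mul, smul_smul, inv_mul_cancel₀ hs, one_smul, sub_self]

/-- **Commuting.** -/
theorem comm_all [Finite F] (h4 : 4 ≤ finrank F W) (hE : 3 ≤ finrank F E) (hcon : ¬ isom (fun x y => B x y) ≤ M)
    {h : V ≃ₗ[F] V} (hh : h ∈ M) {f e : E} (hf : f ≠ 0) (he : e ≠ 0)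
    (hstar : ∀ v : E, v ≠ 0 → ∃ w, T.cc v (h (τ f w)) ≠ 0) (v : V) :
    τ e (T.cc e (mu T h f v)) = mu T h f (τ e (T.cc e v)) := by
  obtain ⟨X, hXdef⟩ : ∃ X : W →ₗ[F] W, X = (T.cc e) ∘ₗ (h : V →ₗ[F] V) ∘ₗ (τ f) := ⟨_, rfl⟩
  have hX : Val T h f e X := fun w => by rw [hXdef]; rfl
  obtain ⟨X', hA⟩ := T.exists_adj X
  have h1 := T.s_zero h4 hE hcon hh hf he hstar hX hA
  have hX0 : ∃ w, X w ≠ 0 := by
    obtain ⟨w, hw⟩ := hstar e he
    exact ⟨w, by rw [← hX]; exact hw⟩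
  have hval := T.val_inv hh hX hA
  have hA' : Adj Q (-X') (-X) := fun x y => by
    rw [LinearMap.neg_apply, LinearMap.neg_apply, polar_neg_left, polar_neg_right, adj_symm hA]
  -- the other product
  have hstar' : ∀ v : E, v ≠ 0 → ∃ w, T.cc v (h⁻¹ (τ e w)) ≠ 0 := by
    intro v hv
    by_contra hcc
    push Not at hcc
    obtain ⟨ε, hε, C, hC⟩ := T.pure_of h4 hE hcon (inv_mem hh) he hv hcc
    have h5 : ∀ w, -(X' w) = α ε f • C w := by
      intro w
      have := hval w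
      rw [hC, T.cc_τ] at this
      exact this.symm
    have hCi : ∀ w, C w = 0 → w = 0 := by
      intro w hw
      have h6 := hC w
      rw [hw, map_zero] at h6
      exact T.τ_inj he ((LinearEquiv.map_eq_zero_iff h⁻¹).1 h6)
    obtain ⟨w, hw⟩ := hX0
    apply hw
    by_cases hεf : α ε f = 0
    · apply T.eqW
      intro u
      have h6 := h5 u
      rw [hεf, zero_smul, neg_eq_zero] at h6
      rw [hA, h6, polar_zero_right, polar_zero_left]
    · have hXi : Function.Injective X' := by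
        rw [injective_iff_map_eq_zero]
        intro u hu
        have h6 := h5 u
        rw [hu, neg_zero] at h6
        exact hCi u ((smul_eq_zero.mp h6.symm).resolve_left hεf)
      obtain ⟨u, rfl⟩ := LinearMap.injective_iff_surjective.1 hXi w
      exact h1 u
  have h1' : ∀ w, X' (X w) = 0 := by
    intro w
    have := T.s_zero h4 hE hcon (inv_mem hh) he hf hstar' hval hA' w
    simpa using this
  have hPR : ∀ v, chi T e LinearMap.id (mu T h f v) = τ e (X (T.cc f (h⁻¹ v))) := fun v => T.nu_mu hX v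
  have hRP : ∀ v, mu T h f (chi T e LinearMap.id v) = h (τ f (-(X' (T.cc e v)))) := fun v => T.mu_nu hh hX hA v
  have k1 : chi T e LinearMap.id * (mu T h f * chi T e LinearMap.id) = 0 := by
    ext v
    change chi T e LinearMap.id (mu T h f (chi T e LinearMap.id v)) = 0
    rw [hRP]
    change τ e (T.cc e (h (τ f (-(X' (T.cc e v)))))) = 0
    rw [hX, map_neg, h1, neg_zero, map_zero]
  have k2 : mu T h f * (chi T e LinearMap.id * mu T h f) = 0 := by
    ext v
    change mu T h f (chi T e LinearMap.id (mu T h f v)) = 0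
    rw [hRP]
    change h (τ f (-(X' (T.cc e (h (τ f (T.cc f (h⁻¹ v)))))))) = 0
    rw [hX, h1', neg_zero, map_zero, map_zero]
  obtain ⟨z, hz, hz1⟩ := L3 (T.qd_nu e) (T.qd_mu hh f) k1 k2 1
  have hz2 : ∀ v, z v = v + (τ e (T.cc e (mu T h f v)) - mu T h f (τ e (T.cc e v))) := by
    intro v
    rw [hz1]
    change v + (1 : F) • (τ e (T.cc e (mu T h f v)) - mu T h f (τ e (T.cc e v))) = _
    rw [one_smul]
  obtain ⟨q, hq⟩ := T.exists_q he
  have hPq : ∀ w, T.cc e (τ q w) = w := fun w => by rw [T.cc_τ, hq, one_smul]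
  have hfix : ∀ w, z (τ e w) = τ e w := by
    intro w
    have h5 : τ e (T.cc e (mu T h f (τ e w))) = 0 := by
      have := LinearMap.congr_fun k1 (τ q w)
      change τ e (T.cc e (mu T h f (τ e (T.cc e (τ q w))))) = 0 at this
      rwa [hPq] at this
    rw [hz2, h5, T.cc_τ, T.hα e, zero_smul, map_zero, map_zero, sub_zero, add_zero]
  obtain ⟨x, hx⟩ := T.stepC h4 hE hcon hz he hfix
  have hN : ∀ a w, τ e (T.cc e (mu T h f (τ a w))) - mu T h f (τ e (T.cc e (τ a w))) = τ (x a - a) w := by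
    intro a w
    have h5 := hx a w
    rw [hz2] at h5
    rw [map_sub τ, LinearMap.sub_apply, ← h5]; abel
  have hRN : ∀ v, mu T h f (τ e (T.cc e (mu T h f v)) - mu T h f (τ e (T.cc e v))) = 0 := by
    intro v
    have h5 := LinearMap.congr_fun k2 v
    change mu T h f (τ e (T.cc e (mu T h f v))) = 0 at h5
    have h6 := LinearMap.congr_fun (T.qd_mu hh f).sq (τ e (T.cc e v))
    change mu T h f (mu T h f (τ e (T.cc e v))) = 0 at h6
    rw [map_sub, h5, h6, sub_zero]
  have hx0 : ∀ a, x a - a = 0 := by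
    intro a
    by_contra hne
    obtain ⟨u, hu⟩ := hstar _ hne
    apply hu
    apply T.eqW
    intro w
    have h5 := hRN (τ a w)
    rw [hN] at h5
    change h (τ f (T.cc f (h⁻¹ (τ (x a - a) w)))) = 0 at h5
    have h6 := T.τ_inj hf ((LinearEquiv.map_eq_zero_iff h).1 h5)
    rw [T.cc_spec, T.Bsw, ← T.Binv hh, ← T.cc_spec, h6, polar_zero_left, polar_zero_left, neg_zero]
  have h7 : (chi T e LinearMap.id * mu T h f : Module.End F V) = mu T h f * chi T e LinearMap.id := by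
    apply T.extτ
    intro a w
    have h8 := hN a w
    rw [hx0, map_zero, LinearMap.zero_apply, sub_eq_zero] at h8
    exact h8
  exact LinearMap.congr_fun h7 v

end TT

end Cfsg.Agent.Lib.TenSpT
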