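import Mathlib
import Cfsg.Agent.Lib.TenSpG7

/-!
# Overgroups of `Sp(E) ∘ O(W)`, `dim W ≥ 4`: main result (helper21)
-/

set_option autoImplicit false
set_option linter.unusedSectionVars false
set_option linter.unusedVariables false
set_option linter.unusedSimpArgs false

namespace Cfsg.Agent.Lib.TenSpT

open QuadraticMap Module Cfsg.Agent.Lib.Quad Cfsg.Agent.Lib.OrthNd Cfsg.Agent.Lib.OrthDecH94
open Cfsg.Agent.Lib.SpTrans Cfsg.Agent.Lib.TenSpO

variable {F E W V : Type*} [Field F] [AddCommGroup E] [Module F E] [FiniteDimensional F E]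
  [AddCommGroup W] [Module F W] [FiniteDimensional F W] [AddCommGroup V] [Module F V] [FiniteDimensional F V]

variable {α : E →ₗ[F] E →ₗ[F] F} {Q : QuadraticForm F W} {B : V →ₗ[F] V →ₗ[F] F} {τ : E →ₗ[F] W →ₗ[F] V}
  {M : Subgroup (V ≃ₗ[F] V)}

namespace TT

variable (T : TT α Q B τ M)

include T

/-- the commuting root group is of the form `1 ⊗ Y` -/
theorem exists_Y (hE : 3 ≤ finrank F E) (h4 : 4 ≤ finrank F W) {R : Module.End F V}
    (hR : ∀ e : E, e ≠ 0 → ∀ v, τ e (T.cc e (R v)) = R (τ e (T.cc e v))) : ∃ Y : W →ₗ[F] W, ∀ a w, R (τ a w) = τ a (Y w) := by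
  have h1 : ∀ e : E, e ≠ 0 → ∃ Y : W →ₗ[F] W, ∀ w, R (τ e w) = τ e (Y w) := by
    intro e he
    obtain ⟨q, hq⟩ := T.exists_q he
    refine ⟨(T.cc e) ∘ₗ R ∘ₗ (τ q), fun w => ?_⟩
    have h5 := hR e he (τ q w)
    rw [T.cc_τ, hq, one_smul] at h5
    exact h5.symm
  obtain ⟨e₀, he₀⟩ : ∃ e₀ : E, e₀ ≠ 0 := by
    haveI : Nontrivial E := Module.nontrivial_of_finrank_pos (R := F) T.hE
    exact exists_ne 0
  obtain ⟨Y, hY⟩ := h1 e₀ he₀
  refine ⟨Y, fun a w => ?_⟩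
  by_cases ha : ∃ c : F, a = c • e₀
  · obtain ⟨c, rfl⟩ := ha
    rw [map_smul τ, LinearMap.smul_apply, map_smul, hY, LinearMap.smul_apply]
  push Not at ha
  have ha0 : a ≠ 0 := fun h0 => ha 0 (by rw [h0, zero_smul])
  have hli : LinearIndependent F ![e₀, a] := by
    rw [LinearIndependent.pair_iff]
    intro s t hst
    have ht : t = 0 := by
      by_contra ht
      apply ha (-(t⁻¹ * s))
      have h4 : t • a = -(s • e₀) := eq_neg_of_add_eq_zero_right hst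
      have h5 : a = t⁻¹ • (t • a) := by rw [smul_smul, inv_mul_cancel₀ ht, one_smul]
      rw [h5, h4]; module
    rw [ht, zero_smul, add_zero, smul_eq_zero, or_iff_left he₀] at hst
    exact ⟨hst, ht⟩
  obtain ⟨g₁, k1, k2⟩ := T.exists_two hli 1 0
  obtain ⟨g₂, k3, k4⟩ := T.exists_two hli 0 1
  obtain ⟨Ya, hYa⟩ := h1 a ha0
  obtain ⟨Yp, hYp⟩ := h1 (e₀ + a) (fun h0 => ha (-1) (by
    rw [neg_smul, one_smul]; exact eq_neg_of_add_eq_zero_right h0))
  have h5 : τ (e₀ + a) (Yp w) = τ e₀ (Y w) + τ a (Ya w) := by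
    rw [← hYp, map_add τ, LinearMap.add_apply, map_add, hY, hYa]
  have h6 := congrArg (T.cc g₁) h5
  have h7 := congrArg (T.cc g₂) h5
  simp only [map_add, LinearMap.add_apply, T.cc_τ, k1, k2, k3, k4, one_smul, zero_smul, add_zero, zero_add] at h6 h7
  rw [hYa, ← h7, h6]

/-- a nonsingular vector in the kernel -/
theorem exists_ker (hE : 3 ≤ finrank F E) (h4 : 4 ≤ finrank F W) {R : Module.End F V} {Y : W →ₗ[F] W}
    (hY : ∀ a w, R (τ a w) = τ a (Y w)) {Θ : W →ₗ[F] V} (hΘ : ∀ v, ∃ u, R v = Θ u) :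
    ∃ w₀, Y w₀ = 0 ∧ Q w₀ ≠ 0 := by
  by_contra hcon
  push Not at hcon
  -- the kernel is totally singular
  have h1 : LinearMap.ker Y ≤ perp Q (LinearMap.ker Y) := by
    intro x hx
    rw [mem_perp]
    intro y hy
    have h5 : Y (y + x) = 0 := by rw [map_add, LinearMap.mem_ker.1 hx, LinearMap.mem_ker.1 hy, add_zero]
    rw [polar, hcon _ h5, hcon _ (LinearMap.mem_ker.1 hx), hcon _ (LinearMap.mem_ker.1 hy)]
    ring
  have h2 := T.nd.finrank_add_finrank_perp (LinearMap.ker Y)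
  have h3 := Submodule.finrank_mono h1
  have h5 := LinearMap.finrank_range_add_finrank_ker Y
  -- three copies of the range
  obtain ⟨a₁, ha₁⟩ : ∃ a₁ : E, a₁ ≠ 0 := by
    haveI : Nontrivial E := Module.nontrivial_of_finrank_pos (R := F) T.hE
    exact exists_ne 0
  obtain ⟨g₁, hg₁⟩ := T.exists_q ha₁
  obtain ⟨a₂, ha₂, hb1, hb2⟩ := T.exists_orth2 hE a₁ g₁
  have hg₁' : α a₁ g₁ = -1 := by rw [T.αsw, hg₁]
  let Φ : (LinearMap.range Y × LinearMap.range Y × LinearMap.range Y) →ₗ[F] V :=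
    LinearMap.coprod ((τ a₁) ∘ₗ (LinearMap.range Y).subtype) (LinearMap.coprod ((τ a₂) ∘ₗ (LinearMap.range Y).subtype)
      ((τ g₁) ∘ₗ (LinearMap.range Y).subtype))
  have hΦ : ∀ y₁ y₂ y₃, Φ (y₁, y₂, y₃) = τ a₁ (y₁ : W) + (τ a₂ (y₂ : W) + τ g₁ (y₃ : W)) := fun y₁ y₂ y₃ => rfl
  have hinj : Function.Injective Φ := by
    rw [injective_iff_map_eq_zero]
    rintro ⟨y₁, y₂, y₃⟩ h6
    rw [hΦ] at h6
    have h7 := congrArg (T.cc g₁) h6
    have h8 := congrArg (T.cc a₁) h6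
    rw [map_add, map_add, T.cc_τ, T.cc_τ, T.cc_τ, hg₁', hb2, T.hα g₁, zero_smul, zero_smul, add_zero, add_zero, map_zero,
      neg_smul, one_smul, neg_eq_zero] at h7
    rw [map_add, map_add, T.cc_τ, T.cc_τ, T.cc_τ, hg₁, hb1, T.hα a₁, zero_smul, zero_smul, zero_add, zero_add, map_zero,
      one_smul] at h8
    rw [h7, h8, map_zero, map_zero, zero_add, add_zero] at h6
    have h9 := T.τ_inj ha₂ h6
    have e1 : y₁ = 0 := Subtype.ext h7
    have e2 : y₂ = 0 := Subtype.ext h9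
    have e3 : y₃ = 0 := Subtype.ext h8
    rw [e1, e2, e3]; rfl
  have hτR : ∀ a (y : LinearMap.range Y), τ a (y : W) ∈ LinearMap.range Θ := by
    rintro a ⟨_, w, rfl⟩
    obtain ⟨u, hu⟩ := hΘ (τ a w)
    exact ⟨u, by rw [← hu, hY]⟩
  have hrange : LinearMap.range Φ ≤ LinearMap.range Θ := by
    rintro _ ⟨⟨y₁, y₂, y₃⟩, rfl⟩
    rw [hΦ]
    exact add_mem (hτR _ _) (add_mem (hτR _ _) (hτR _ _))
  have h6 := Submodule.finrank_mono hrange
  have h7 := LinearMap.finrank_range_le Θ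
  rw [LinearMap.finrank_range_of_inj hinj, Module.finrank_prod, Module.finrank_prod] at h6
  omega

/-- **Images.** -/
theorem img4 [Finite F] (h4 : 4 ≤ finrank F W) (hE : 3 ≤ finrank F E) (hcon : ¬ isom (fun x y => B x y) ≤ M)
    {h : V ≃ₗ[F] V} (hh : h ∈ M) {f : E} (hf : f ≠ 0) :
    ∃ ε : E, ε ≠ 0 ∧ ∃ C : W →ₗ[F] W, ∀ w, h (τ f w) = τ ε (C w) := by
  have h2 := T.two
  by_contra himp
  have hstar : ∀ v : E, v ≠ 0 → ∃ w, T.cc v (h (τ f w)) ≠ 0 := by
    intro v hv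
    by_contra hcc
    push Not at hcc
    exact himp (T.pure_of h4 hE hcon hh hf hv hcc)
  obtain ⟨Y, hY⟩ := T.exists_Y hE h4 (R := mu T h f) fun e he v => T.comm_all h4 hE hcon hh hf he hstar v
  obtain ⟨w₀, hYw₀, hQw₀⟩ := T.exists_ker hE h4 hY (Θ := (h : V →ₗ[F] V) ∘ₗ (τ f)) (fun v => ⟨T.cc f (h⁻¹ v), rfl⟩)
  obtain ⟨r, hr, hr1⟩ := T.refl_lift hQw₀
  have hw₀ : w₀ ≠ 0 := by rintro rfl; exact hQw₀ (by simp)
  -- the reflection fixes the image
  have hdd : ∀ v, T.dd w₀ (mu T h f v) = 0 := by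
    intro v
    apply T.eqE
    intro a
    rw [T.dd_spec, (T.qd_mu hh f).sk, hY, hYw₀]
    simp
  obtain ⟨q, hq⟩ := T.exists_q hf
  have hfixr : ∀ w, r (h (τ f w)) = h (τ f w) := by
    intro w
    have h5 : h (τ f w) = mu T h f (h (τ q w)) := by
      change h (τ f w) = h (τ f (T.cc f (h⁻¹ (h (τ q w)))))
      rw [T.hinv', T.cc_τ, hq, one_smul]
    rw [hr1, h5, hdd, map_zero, LinearMap.zero_apply, smul_zero, sub_zero]
  obtain ⟨x, hx⟩ := T.stepC h4 hE hcon (mul_mem (mul_mem (inv_mem hh) hr) hh) hf (fun w => by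
    rw [LinearEquiv.mul_apply, LinearEquiv.mul_apply, hfixr, T.hinv'])
  have hx' : ∀ a w, r (h (τ a w)) = h (τ (x a) w) := by
    intro a w
    rw [← hx, LinearEquiv.mul_apply, LinearEquiv.mul_apply, T.hinv]
  obtain ⟨a, ha⟩ : ∃ a, x a - a ≠ 0 := by
    by_contra hcc
    push Not at hcc
    have h5 : ((r : Module.End F V) * (h : Module.End F V)) = (h : Module.End F V) := by
      apply T.extτ
      intro a w
      change r (h (τ a w)) = h (τ a w)
      rw [hx', sub_eq_zero.mp (hcc a)]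
    have h6 : r (h (h⁻¹ (τ q w₀))) = h (h⁻¹ (τ q w₀)) := LinearMap.congr_fun h5 _
    rw [T.hinv, hr1, T.dd_τ, polar_self', map_smul τ, LinearMap.smul_apply, smul_smul] at h6
    have h7 : (2 : F) • τ q w₀ = 0 := by
      have h8 : τ q w₀ - ((Q w₀)⁻¹ * (2 * Q w₀)) • τ q w₀ = τ q w₀ := h6
      rw [show (Q w₀)⁻¹ * (2 * Q w₀) = 2 by field_simp, sub_eq_self] at h8
      exact h8
    have h8 := (smul_eq_zero.mp h7).resolve_left h2
    have h9 := T.τ_inj' hw₀ h8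
    rw [h9, map_zero, LinearMap.zero_apply] at hq
    exact zero_ne_one hq
  obtain ⟨φ, hφ⟩ : ∃ φ : W →ₗ[F] E, φ = (-(Q w₀)⁻¹) • ((T.dd w₀) ∘ₗ (h : V →ₗ[F] V) ∘ₗ (τ a)) := ⟨_, rfl⟩
  have h1 : ∀ w, h (τ (x a - a) w) = τ (φ w) w₀ := by
    intro w
    rw [map_sub τ, LinearMap.sub_apply, map_sub, ← hx', hr1, hφ]
    change h (τ a w) - (Q w₀)⁻¹ • τ (T.dd w₀ (h (τ a w))) w₀ - h (τ a w) = τ ((-(Q w₀)⁻¹) • T.dd w₀ (h (τ a w))) w₀
    rw [map_smul τ, LinearMap.smul_apply, neg_smul]; abel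
  have hφi : ∀ w, φ w = 0 → w = 0 := by
    intro w hw
    have h5 := h1 w
    rw [hw, map_zero, LinearMap.zero_apply] at h5
    exact T.τ_inj ha ((LinearEquiv.map_eq_zero_iff h).1 h5)
  have hiso : ∀ w w', α (φ w) (φ w') = 0 := by
    intro w w'
    have h5 : B (h (τ (x a - a) w)) (h (τ (x a - a) w')) = 0 := by
      rw [show B (h (τ (x a - a) w)) (h (τ (x a - a) w')) = B (τ (x a - a) w) (τ (x a - a) w') from T.le hh _ _, T.B_ττ]
    rw [h1, h1, T.Bτ, polar_self'] at h5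
    exact (mul_eq_zero.mp h5).resolve_right (mul_ne_zero h2 hQw₀)
  have hv : φ w₀ ≠ 0 := fun h0 => hw₀ (hφi _ h0)
  obtain ⟨ε, hε, C, hC⟩ := T.pure_of h4 hE hcon hh ha hv (fun w => by rw [h1, T.cc_τ, hiso, zero_smul])
  obtain ⟨g, hg⟩ := T.exists_q hε
  -- all values are multiples of `w₀`
  obtain ⟨L, hL⟩ : ∃ L : W →ₗ[F] F, L = (α.flip g) ∘ₗ φ := ⟨_, rfl⟩
  have h5 : ∀ w, L w • w₀ = -(C w) := by
    intro w
    have h6 : τ (φ w) w₀ = τ ε (C w) := by rw [← h1, hC]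
    have h7 := congrArg (T.cc g) h6
    rw [T.cc_τ, T.cc_τ, T.αsw ε g, hg, neg_smul, one_smul] at h7
    rw [← h7, hL]; rfl
  have hker : 0 < finrank F (LinearMap.ker L) := by
    have := LinearMap.finrank_range_add_finrank_ker L
    have h6 := Submodule.finrank_le (LinearMap.range L)
    rw [Module.finrank_self] at h6
    omega
  obtain ⟨u, hu⟩ := (Module.finrank_pos_iff_exists_ne_zero (R := F)).1 hker
  have h6 : L u = 0 := LinearMap.mem_ker.1 u.2
  have h7 := h5 u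
  rw [h6, zero_smul, eq_comm, neg_eq_zero] at h7
  have h8 := hC u
  rw [h7, map_zero] at h8
  exact hu (Subtype.ext (T.τ_inj ha ((LinearEquiv.map_eq_zero_iff h).1 h8)))

/-- from images to a decomposition -/
theorem dec_of_img (h4 : 4 ≤ finrank F W) {h : V ≃ₗ[F] V}
    (himg : ∀ f : E, f ≠ 0 → ∃ ε : E, ε ≠ 0 ∧ ∃ C : W →ₗ[F] W, ∀ w, h (τ f w) = τ ε (C w)) :
    ∃ (s : E ≃ₗ[F] E) (C : W ≃ₗ[F] W), ∀ e w, h (τ e w) = τ (s e) (C w) := by
  obtain ⟨f₀, hf₀⟩ : ∃ f₀ : E, f₀ ≠ 0 := by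
    haveI : Nontrivial E := Module.nontrivial_of_finrank_pos (R := F) T.hE
    exact exists_ne 0
  obtain ⟨w₀, hw₀⟩ : ∃ w₀ : W, w₀ ≠ 0 := by
    haveI : Nontrivial W := Module.nontrivial_of_finrank_pos (R := F) (by omega)
    exact exists_ne 0
  obtain ⟨ε₀, hε₀, C, hC⟩ := himg f₀ hf₀
  have hCi : Function.Injective C := by
    rw [injective_iff_map_eq_zero]
    intro w hw
    have h1 := hC w
    rw [hw, map_zero] at h1
    have h2 : τ f₀ w = 0 := by simpa using h1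
    exact T.τ_inj hf₀ h2
  have key : ∀ f, ∃ ε, ∀ w, h (τ f w) = τ ε (C w) := by
    intro f
    by_cases hf : f = 0
    · exact ⟨0, fun w => by rw [hf]; simp⟩
    by_cases hdep : ∃ a : F, f = a • f₀
    · obtain ⟨a, rfl⟩ := hdep
      exact ⟨a • ε₀, fun w => by
        rw [map_smul τ, LinearMap.smul_apply, map_smul, hC, map_smul τ, LinearMap.smul_apply]⟩
    obtain ⟨ε', hε', C', hC'⟩ := himg f hf
    -- `ε₀`, `ε'` are independent
    have hli : LinearIndependent F ![ε₀, ε'] := by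
      rw [LinearIndependent.pair_iff]
      intro s t hst
      have ht : t = 0 := by
        by_contra ht
        have h5 : ε' = (-(t⁻¹ * s)) • ε₀ := by
          have h4 : t • ε' = -(s • ε₀) := eq_neg_of_add_eq_zero_right hst
          have h5 : ε' = t⁻¹ • (t • ε') := by rw [smul_smul, inv_mul_cancel₀ ht, one_smul]
          rw [h5, h4]; module
        obtain ⟨w₂, hw₂⟩ := (LinearMap.injective_iff_surjective.1 hCi) ((-(t⁻¹ * s)) • C' w₀)
        have h6 : h (τ f w₀) = h (τ f₀ w₂) := by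
          rw [hC', hC, hw₂, h5, map_smul τ, LinearMap.smul_apply, map_smul]
        have h7 : τ f w₀ = τ f₀ w₂ := h.injective h6
        -- then `f` is a multiple of `f₀`
        apply hdep
        exact T.span_of_τ hw₀ h7
      rw [ht, zero_smul, add_zero, smul_eq_zero, or_iff_left hε₀] at hst
      exact ⟨hst, ht⟩
    obtain ⟨ε'', hε'', C'', hC''⟩ := himg (f₀ + f) (fun h0 => hdep ⟨-1, by
      rw [neg_smul, one_smul]; exact eq_neg_of_add_eq_zero_right h0⟩)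
    obtain ⟨e₁, h1, h2⟩ := T.exists_two hli 1 0
    obtain ⟨e₂, h4, h5⟩ := T.exists_two hli 0 1
    have h6 : ∀ w, τ ε₀ (C w) + τ ε' (C' w) = τ ε'' (C'' w) := by
      intro w
      rw [← hC, ← hC', ← hC'', ← map_add, map_add τ, LinearMap.add_apply]
    have h7 : ∀ w, C w = α ε'' e₁ • C'' w := by
      intro w
      have := congrArg (T.cc e₁) (h6 w)
      rw [map_add, T.cc_τ, T.cc_τ, T.cc_τ, h1, h2, one_smul, zero_smul, add_zero] at this
      exact this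
    have h8 : ∀ w, C' w = α ε'' e₂ • C'' w := by
      intro w
      have := congrArg (T.cc e₂) (h6 w)
      rw [map_add, T.cc_τ, T.cc_τ, T.cc_τ, h4, h5, one_smul, zero_smul, zero_add] at this
      exact this
    have h9 : α ε'' e₁ ≠ 0 := by
      intro h0
      have := h7 w₀
      rw [h0, zero_smul] at this
      exact hw₀ (hCi (by rw [this, map_zero]))
    refine ⟨(α ε'' e₂ / α ε'' e₁) • ε', fun w => ?_⟩
    rw [hC', h8, map_smul τ, LinearMap.smul_apply, h7, map_smul, map_smul, smul_smul, div_mul_cancel₀ _ h9]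
  obtain ⟨w₁, hw₁⟩ := T.nd.exists_polar_one' (show C w₀ ≠ 0 from fun h0 => hw₀ (hCi (by rw [h0, map_zero])))
  obtain ⟨s, hs⟩ : ∃ s : E →ₗ[F] E, s = (T.dd w₁) ∘ₗ (h : V →ₗ[F] V) ∘ₗ (τ.flip w₀) := ⟨_, rfl⟩
  have hsw : ∀ f w, h (τ f w) = τ (s f) (C w) := by
    intro f w
    obtain ⟨ε, hε⟩ := key f
    have h1 : s f = ε := by
      rw [hs]
      change T.dd w₁ (h (τ f w₀)) = ε
      rw [hε, T.dd_τ, hw₁, one_smul]
    rw [h1, hε]
  have hsi : Function.Injective s := by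
    rw [injective_iff_map_eq_zero]
    intro f hf
    have h1 := hsw f w₀
    rw [hf, map_zero, LinearMap.zero_apply] at h1
    have h2 : τ f w₀ = 0 := by simpa using h1
    exact T.τ_inj' hw₀ h2
  exact ⟨LinearEquiv.ofInjectiveEndo s hsi, LinearEquiv.ofInjectiveEndo C hCi, fun e w => hsw e w⟩

/-- **Main result for `dim W ≥ 4`, `dim E ≥ 4`.** -/
theorem main4 [Finite F] (h4 : 4 ≤ finrank F W) (hE : 3 ≤ finrank F E) (hcon : ¬ isom (fun x y => B x y) ≤ M)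
    {h : V ≃ₗ[F] V} (hh : h ∈ M) :
    ∃ (s : E ≃ₗ[F] E) (C : W ≃ₗ[F] W), ∀ e w, h (τ e w) = τ (s e) (C w) :=
  T.dec_of_img h4 fun f hf => T.img4 h4 hE hcon hh hf

end TT

end Cfsg.Agent.Lib.TenSpT
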