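import Mathlib
import Cfsg.Prelude.Def_GeometricClasses
import Cfsg.Agent.Lib.GeoBridge
import Cfsg.Agent.Lib.TensorGeo
import Cfsg.Agent.Lib.QuadNorm
import Cfsg.Agent.Lib.TenSpO6
import Cfsg.Agent.Lib.TenSpT7
import Cfsg.Agent.Lib.TenSpG8

/-!
# Stabilisers of tensor decompositions in symplectic groups: the bridge (helper21)
-/

set_option autoImplicit false
set_option linter.unusedSectionVars false
set_option linter.unusedVariables false
set_option linter.unusedSimpArgs false

namespace Cfsg.Agent.Lib.TenSpT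

open QuadraticMap Module Cfsg.Agent.Lib.Quad Cfsg.Agent.Lib.SpTrans Cfsg Cfsg.Geo
open Cfsg.Agent.Lib.GeoBridge Cfsg.Agent.Lib.TensorGeo Cfsg.Agent.Lib.QuadNorm
open scoped MatrixGroups Matrix Kronecker

variable {F : Type*} [Field F] {m n₁ k : ℕ}

/-- **The bridge.** -/
theorem tensor4_max [Fintype F] (hodd : Odd (Fintype.card F)) (hn : 3 ≤ n₁) (hk : 4 ≤ k)
    (e : (Fin m ⊕ Fin m) ≃ Fin n₁ × Fin k) (P : GL (Fin m ⊕ Fin m) F)
    (f₁ : (Fin n₁ → F) → (Fin n₁ → F) → F) (f₂ : (Fin k → F) → (Fin k → F) → F)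
    (hf₁ : IsSymplecticForm f₁) (hf₂ : IsSymmetricForm f₂) (hT : IsTensorFormStructure id (sympForm m F) f₁ f₂ e P) :
    IsMaximalIn (spGL m F) (tensorProductSubgroup n₁ k e P ⊓ spGL m F) := by
  obtain ⟨c, hc, hT⟩ := hT
  have h2F : (2 : F) ≠ 0 := by
    intro h0
    have hchar : ringChar F = 2 := by
      have h1 : ringChar F ∣ 2 := (ringChar.spec F 2).mp (by exact_mod_cast h0)
      have h2 : ringChar F ≠ 1 := CharP.ringChar_ne_one
      rcases (Nat.dvd_prime Nat.prime_two).mp h1 with h | h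
      · exact absurd h h2
      · exact h
    rw [FiniteField.even_card_iff_char_two] at hchar
    rw [Nat.odd_iff] at hodd
    omega
  have hpol : ∀ x₁ y₁ x₂ y₂, sympForm m F (tp e P x₁ x₂) (tp e P y₁ y₂) = c * (f₁ x₁ y₁ * f₂ x₂ y₂) := by
    intro x₁ y₁ x₂ y₂
    exact form_tp (σ := id) (fun a b => rfl)
      (eq_formOfGram (σ := id) hf₁.bilinear.add_left hf₁.bilinear.smul_left (fun x y z => hf₁.bilinear.add_right x y z)
        (fun c x y => hf₁.bilinear.smul_right c x y))
      (eq_formOfGram (σ := id) hf₂.bilinear.add_left hf₂.bilinear.smul_left (fun x y z => hf₂.bilinear.add_right x y z)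
        (fun c x y => hf₂.bilinear.smul_right c x y)) hT x₁ y₁ x₂ y₂
  -- the quadratic form
  let B₀ : (Fin k → F) →ₗ[F] (Fin k → F) →ₗ[F] F :=
    LinearMap.mk₂ F (fun x y => c / 2 * f₂ x y)
      (fun x y z => by rw [hf₂.bilinear.add_left]; ring)
      (fun a x y => by rw [hf₂.bilinear.smul_left, smul_eq_mul]; ring)
      (fun x y z => by rw [hf₂.bilinear.add_right]; ring)
      (fun a x y => by rw [hf₂.bilinear.smul_right, smul_eq_mul]; ring)
  obtain ⟨Q, hQ⟩ : ∃ Q : QuadraticForm F (Fin k → F), Q = LinearMap.BilinMap.toQuadraticMap B₀ := ⟨_, rfl⟩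
  have hQp : ∀ x y, polar Q x y = c * f₂ x y := by
    intro x y
    have h0 : ∀ z, Q z = c / 2 * f₂ z z := fun z => by rw [hQ]; rfl
    rw [polar, h0, h0, h0, hf₂.bilinear.add_left, hf₂.bilinear.add_right, hf₂.bilinear.add_right, hf₂.symm y x]
    field_simp
    ring
  have hnd : Nd Q := by
    apply nd_of
    intro x hx
    by_contra hne
    obtain ⟨-, y, hy⟩ := hf₂.nondegenerate x hne
    have := hx y
    rw [hQp] at this
    exact hy ((mul_eq_zero.mp this).resolve_left hc)
  -- the symplectic form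
  obtain ⟨α, hαf⟩ : ∃ α : (Fin n₁ → F) →ₗ[F] (Fin n₁ → F) →ₗ[F] F, ∀ x y, α x y = f₁ x y :=
    ⟨LinearMap.mk₂ F (fun x y => f₁ x y)
      (fun x y z => by rw [hf₁.bilinear.add_left])
      (fun a x y => by rw [hf₁.bilinear.smul_left, smul_eq_mul])
      (fun x y z => by rw [hf₁.bilinear.add_right])
      (fun a x y => by rw [hf₁.bilinear.smul_right, smul_eq_mul]), fun x y => rfl⟩
  have hfr : finrank F (Fin k → F) = k := by rw [finrank_fintype_fun_eq_card, Fintype.card_fin]
  have hTT : ∀ M : Subgroup ((Fin m ⊕ Fin m → F) ≃ₗ[F] (Fin m ⊕ Fin m → F)),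
      (∀ g ∈ tensorProductSubgroup n₁ k e P ⊓ spGL m F, le g ∈ M) → (∀ g, le g ∈ M → g ∈ spGL m F) →
      TT α Q (sympB m F) (tpB e P) M := by
    intro M hHM hMK
    have hBτ : ∀ e₁ w₁ e₂ w₂, sympB m F (tpB e P e₁ w₁) (tpB e P e₂ w₂) = α e₁ e₂ * polar Q w₁ w₂ := by
      intro e₁ w₁ e₂ w₂
      rw [sympB_apply, tpB_apply, tpB_apply, hpol, hαf, hQp]; ring
    have hspan : ∀ N : Submodule F (Fin m ⊕ Fin m → F), (∀ x y, tpB e P x y ∈ N) → N = ⊤ := by
      intro N hN
      rw [eq_top_iff, ← span_tp (e := e) (P := P), Submodule.span_le]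
      rintro v ⟨x₁, x₂, rfl⟩
      exact hN x₁ x₂
    have hlift : ∀ (σ : (Fin n₁ → F) ≃ₗ[F] (Fin n₁ → F)) (ρ : (Fin k → F) ≃ₗ[F] (Fin k → F)),
        (∀ x y z w, α (σ x) (σ y) * polar Q (ρ z) (ρ w) = α x y * polar Q z w) →
        ∃ t ∈ M, ∀ x z, t (tpB e P x z) = tpB e P (σ x) (ρ z) := by
      intro σ ρ hσρ
      obtain ⟨g, hg, h1⟩ := exists_kron e P (le.symm σ) (le.symm ρ)
      have h2 : ∀ x z, le g (tpB e P x z) = tpB e P (σ x) (ρ z) := by
        intro x z
        rw [tpB_apply, h1, tpB_apply, le_symm_mulVec, le_symm_mulVec]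
      refine ⟨le g, hHM g ⟨hg, ?_⟩, h2⟩
      change g ∈ spGL m F
      rw [mem_spGL_iff]
      -- an isometry
      have h3 : ∀ v w, sympB m F (le g v) (le g w) = sympB m F v w := by
        intro v w
        let L : (Fin m ⊕ Fin m → F) →ₗ[F] (Fin m ⊕ Fin m → F) →ₗ[F] F :=
          (sympB m F).compl₁₂ (le g : (Fin m ⊕ Fin m → F) →ₗ[F] _) (le g : (Fin m ⊕ Fin m → F) →ₗ[F] _) - sympB m F
        have hL : ∀ v w, L v w = sympB m F (le g v) (le g w) - sympB m F v w := fun v w => rfl
        have h4 : ∀ x z y w, L (tpB e P x z) (tpB e P y w) = 0 := by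
          intro x z y w
          rw [hL, h2, h2, hBτ, hBτ, hσρ, sub_self]
        have h5 : ∀ x z, LinearMap.ker (L (tpB e P x z)) = ⊤ := fun x z => hspan _ fun y w => h4 x z y w
        have h6 : LinearMap.ker (L.flip w) = ⊤ := hspan _ fun x z => by
          have : w ∈ LinearMap.ker (L (tpB e P x z)) := by rw [h5]; trivial
          exact this
        have h7 : v ∈ LinearMap.ker (L.flip w) := by rw [h6]; trivial
        exact sub_eq_zero.mp h7
      exact h3
    exact
      { hα := fun x => by rw [hαf]; exact hf₁.alternating x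
        hαn := by
          intro x hx
          by_contra hne
          obtain ⟨-, y, hy⟩ := hf₁.nondegenerate x hne
          apply hy
          rw [← hαf]; exact hx y
        hE := by rw [finrank_fintype_fun_eq_card, Fintype.card_fin]; omega
        nd := hnd
        two := h2F
        hB := sympB_isAlt m
        hBn := sympB_nd m
        Bτ := hBτ
        span := hspan
        le := by
          intro t ht
          have h1 : le (le.symm t) ∈ M := by rwa [MulEquiv.apply_symm_apply]
          have h2 := hMK _ h1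
          rw [mem_spGL_iff, MulEquiv.apply_symm_apply] at h2
          exact h2
        tE := by
          intro σ hσ
          obtain ⟨t, ht, h1⟩ := hlift σ (LinearEquiv.refl F _) (fun x y z w => by
            have := hσ x y
            simp only at this
            rw [this]; rfl)
          exact ⟨t, ht, fun x z => h1 x z⟩
        tW := by
          intro ρ hρ
          obtain ⟨t, ht, h1⟩ := hlift (LinearEquiv.refl F _) ρ (fun x y z w => by
            rw [O_polar hρ]; rfl)
          exact ⟨t, ht, fun x z => h1 x z⟩ }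
  have hmem : ∀ g : GL (Fin m ⊕ Fin m) F, g ∈ tensorProductSubgroup n₁ k e P ↔
      ∃ (s : (Fin n₁ → F) ≃ₗ[F] (Fin n₁ → F)) (C : (Fin k → F) ≃ₗ[F] (Fin k → F)),
        ∀ x z, le g (tpB e P x z) = tpB e P (s x) (C z) := by
    intro g
    rw [mem_tensor_iff]
    constructor
    · rintro ⟨a, b, h⟩
      exact ⟨le a, le b, fun x z => h x z⟩
    · rintro ⟨s, C, h⟩
      refine ⟨le.symm s, le.symm C, fun x z => ?_⟩
      rw [le_symm_mulVec, le_symm_mulVec]
      exact h x z
  refine isMaximalIn_of ?_ ?_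
  · refine lt_of_le_of_ne inf_le_right ?_
    intro heq
    have T := hTT ((spGL m F).map (le : GL (Fin m ⊕ Fin m) F ≃* _).toMonoidHom)
      (fun g hg => ⟨g, hg.2, rfl⟩) (fun g hg => by
        obtain ⟨y, hy, hyg⟩ := hg
        have : y = g := le.injective hyg
        exact this ▸ hy)
    obtain ⟨t, ht, htn⟩ := T.exists_not_pair (by rw [hfr]; omega)
    apply htn
    have h1 : le.symm t ∈ spGL m F := by
      rw [mem_spGL_iff, MulEquiv.apply_symm_apply]
      exact ht
    rw [← heq] at h1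
    obtain ⟨s, C, h⟩ := (hmem _).1 h1.1
    rw [MulEquiv.apply_symm_apply] at h
    exact ⟨s, C, h⟩
  · intro M hHM hMK hMex g hg
    have T := hTT M hHM hMK
    by_cases hcon : isom (fun x y => sympB m F x y) ≤ M
    · rw [mem_spGL_iff] at hg
      exact hcon hg
    · exfalso
      obtain ⟨g₁, hg₁, hg₁H⟩ := hMex
      apply hg₁H
      exact ⟨(hmem _).2 (T.main4 (by rw [hfr]; exact hk) (by rw [finrank_fintype_fun_eq_card, Fintype.card_fin]; exact hn) hcon hg₁), hMK _ hg₁⟩

end Cfsg.Agent.Lib.TenSpT
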