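import Mathlib
import Cfsg.Agent.Lib.TenBrH94
import Cfsg.Agent.Lib.OrthBridge

set_option autoImplicit false
set_option linter.unusedSectionVars false
set_option linter.unusedSimpArgs false
set_option linter.unusedVariables false

/-!
Tensor products `Sp_2(2) ⊗ Sp_m(2)` in `Ω⁺_{2m}(2)` are not maximal.
-/

namespace Cfsg.Agent.Lib.TenSpTwo59

open QuadraticMap Module Cfsg Cfsg.Geo Cfsg.Agent.Lib.Quad Cfsg.Agent.Lib.GeoBridge Cfsg.Agent.Lib.TensorGeo
  Cfsg.Agent.Lib.OrthBridge Cfsg.Agent.Lib.TenBrH94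
open scoped MatrixGroups Matrix Kronecker

variable {F : Type*} [Field F] [Fintype F]

theorem zero_or_one (hq : Fintype.card F = 2) (x : F) : x = 0 ∨ x = 1 := by
  classical
  have h1 : (Finset.univ : Finset F) = {0, 1} := by
    symm
    apply Finset.eq_of_subset_of_card_le (Finset.subset_univ _)
    rw [Finset.card_univ, hq, Finset.card_insert_of_notMem (by simp), Finset.card_singleton]
  have h2 := Finset.mem_univ x
  rw [h1] at h2
  simpa using h2

theorem one_add_one (hq : Fintype.card F = 2) : (1 : F) + 1 = 0 := by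
  rcases zero_or_one hq ((1 : F) + 1) with h | h
  · exact h
  · exfalso
    have : (1 : F) = 0 := by
      have h2 : (1 : F) + 1 = 1 + 0 := by rw [h, add_zero]
      exact add_left_cancel h2
    exact one_ne_zero this

theorem eq_one_of (hq : Fintype.card F = 2) {x : F} (h : x ≠ 0) : x = 1 := (zero_or_one hq x).resolve_left h

theorem neg_eq (hq : Fintype.card F = 2) (x : F) : -x = x := by
  rcases zero_or_one hq x with rfl | rfl
  · simp
  · rw [neg_eq_iff_add_eq_zero]; exact one_add_one hq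

/-- the matrix of order three -/
def tG (hq : Fintype.card F = 2) : GL (Fin 2) F where
  val := !![0, 1; 1, 1]
  inv := !![1, 1; 1, 0]
  val_inv := by
    rw [Matrix.mul_fin_two, Matrix.one_fin_two]
    simp [one_add_one hq]
  inv_val := by
    rw [Matrix.mul_fin_two, Matrix.one_fin_two]
    simp [one_add_one hq]

theorem tG_e0 (hq : Fintype.card F = 2) :
    ((tG hq : GL (Fin 2) F) : Matrix (Fin 2) (Fin 2) F) *ᵥ (Pi.single 0 1) = Pi.single 1 1 := by
  ext i
  fin_cases i <;> simp [tG]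

theorem tG_e1 (hq : Fintype.card F = 2) :
    ((tG hq : GL (Fin 2) F) : Matrix (Fin 2) (Fin 2) F) *ᵥ (Pi.single 1 1) = Pi.single 0 1 + Pi.single 1 1 := by
  ext i
  fin_cases i <;> simp [tG]

theorem tG_norm (hq : Fintype.card F = 2) (a : GL (Fin 2) F) : a * tG hq = tG hq * a ∨
    a * tG hq = tG hq * tG hq * a := by
  have hdet : (a : Matrix (Fin 2) (Fin 2) F).det ≠ 0 := by
    intro h
    have := congrArg Matrix.det (a.mul_inv)
    rw [Matrix.det_mul, h, zero_mul, Matrix.det_one] at this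
    exact zero_ne_one this
  obtain ⟨p, q, r, s, hm⟩ : ∃ p q r s, (a : Matrix (Fin 2) (Fin 2) F) = !![p, q; r, s] :=
    ⟨_, _, _, _, Matrix.eta_fin_two _⟩
  rw [hm, Matrix.det_fin_two_of] at hdet
  rw [← Units.val_inj, ← Units.val_inj, Units.val_mul, Units.val_mul, Units.val_mul, Units.val_mul, hm]
  show (!![p, q; r, s] * !![0, 1; 1, 1] = !![0, 1; 1, 1] * !![p, q; r, s]) ∨
    (!![p, q; r, s] * !![0, 1; 1, 1] = !![0, 1; 1, 1] * !![0, 1; 1, 1] * !![p, q; r, s])
  have h2 := one_add_one hq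
  rcases zero_or_one hq p with rfl | rfl <;> rcases zero_or_one hq q with rfl | rfl <;>
    rcases zero_or_one hq r with rfl | rfl <;> rcases zero_or_one hq s with rfl | rfl <;>
    simp [h2] at hdet ⊢

/-- the linear algebra of the form -/
theorem exists_four (hq : Fintype.card F = 2) {m : ℕ} (hm : 2 < m) {f : (Fin m → F) → (Fin m → F) → F}
    (hf : IsSymplecticForm f) : ∃ a b z w : Fin m → F, f a b = 1 ∧ f z w = 1 ∧ f a z = 0 ∧ f a w = 0 ∧
      f b z = 0 ∧ f b w = 0 := by
  obtain ⟨a, ha⟩ : ∃ a : Fin m → F, a ≠ 0 := by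
    refine ⟨Pi.single ⟨0, by omega⟩ 1, ?_⟩
    rw [Ne, Pi.single_eq_zero_iff]
    exact one_ne_zero
  obtain ⟨b, hb⟩ := (hf.nondegenerate a ha).2
  have hab := eq_one_of hq hb
  let L : (Fin m → F) →ₗ[F] F × F :=
    { toFun := fun y => (f a y, f b y)
      map_add' := fun y y' => by rw [hf.bilinear.add_right, hf.bilinear.add_right]; rfl
      map_smul' := fun c y => by rw [hf.bilinear.smul_right, hf.bilinear.smul_right]; rfl }
  have hL : LinearMap.ker L ≠ ⊥ := by
    apply LinearMap.ker_ne_bot_of_finrank_lt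
    rw [Module.finrank_prod, Module.finrank_self, Module.finrank_fintype_fun_eq_card, Fintype.card_fin]
    omega
  obtain ⟨z, hz, hz0⟩ := Submodule.exists_mem_ne_zero_of_ne_bot hL
  rw [LinearMap.mem_ker] at hz
  have haz : f a z = 0 := congrArg Prod.fst hz
  have hbz : f b z = 0 := congrArg Prod.snd hz
  obtain ⟨w', hw'⟩ := (hf.nondegenerate z hz0).2
  have hzw := eq_one_of hq hw'
  have hba : f b a = 1 := by rw [hf.skew, hab]; exact neg_eq hq 1
  have hza : f z a = 0 := by rw [hf.skew, haz, neg_zero]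
  have hzb : f z b = 0 := by rw [hf.skew, hbz, neg_zero]
  refine ⟨a, b, z, w' + f b w' • a + f a w' • b, hab, ?_, haz, ?_, hbz, ?_⟩
  · rw [hf.bilinear.add_right, hf.bilinear.add_right, hf.bilinear.smul_right, hf.bilinear.smul_right, hza, hzb, hzw]
    ring
  · rw [hf.bilinear.add_right, hf.bilinear.add_right, hf.bilinear.smul_right, hf.bilinear.smul_right,
      hf.alternating, hab, mul_zero, add_zero, mul_one]
    rw [← neg_eq_iff_add_eq_zero]; exact neg_eq hq _
  · rw [hf.bilinear.add_right, hf.bilinear.add_right, hf.bilinear.smul_right, hf.bilinear.smul_right,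
      hf.alternating, hba, mul_zero, add_zero, mul_one]
    rw [← neg_eq_iff_add_eq_zero]; exact neg_eq hq _

section Main

variable {n m : ℕ} {Q : QuadraticForm F (Fin n → F)}

/-- the element of order three of the centre field -/
theorem comm_rho (hq : Fintype.card F = 2) {t : (Fin n → F) ≃ₗ[F] (Fin n → F)} (ht : t ∈ O Q)
    (ht2 : ∀ x, t (t x) = x + t x) {v : Fin n → F} (hv : Q v = 1) :
    t * (refl Q v * refl Q (t v)) = (refl Q v * refl Q (t v)) * t := by
  have h2 := one_add_one hq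
  have hneg : ∀ x : F, -x = x := neg_eq hq
  have hvt : Q (t v) = 1 := by rw [ht, hv]
  have hpol : polar Q v (t v) = 1 := by
    rw [polar, ← ht2, ht, ht, hv]
    rw [sub_self, zero_sub, hneg]
  have hv0 : Q v ≠ 0 := by rw [hv]; exact one_ne_zero
  have hvt0 : Q (t v) ≠ 0 := by rw [hvt]; exact one_ne_zero
  have h3 : ∀ x, t (t (t x)) = x := by
    intro x
    rw [ht2 (t x), ht2 x, add_comm x (t x), ← add_assoc]
    have : t x + t x = 0 := by
      rw [← two_smul F (t x), ← one_add_one_eq_two, h2, zero_smul]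
    rw [this, zero_add]
  apply LinearEquiv.ext
  intro x
  show t (refl Q v (refl Q (t v) x)) = refl Q v (refl Q (t v) (t x))
  rw [refl_apply hv0, refl_apply hv0, refl_apply hvt0, refl_apply hvt0, hv, hvt, inv_one]
  have e1 : polar Q (t v) (t x) = polar Q v x := O_polar ht v x
  have e2 : polar Q v (t x) = polar Q v x + polar Q (t v) x := by
    have : polar Q (t (t v)) (t (t (t x))) = polar Q v (t x) := by rw [O_polar ht, O_polar ht]
    rw [← this, h3, ht2, polar_add_left]
  simp only [one_mul, e1, polar_sub_right, polar_smul_right, map_sub, map_smul, e2, hpol, ht2, smul_eq_mul, mul_one]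
  have hc : ∀ c : F, c + c = 0 := fun c => by rw [← neg_eq_iff_add_eq_zero]; exact hneg c
  have hx : ∀ c : F, c = -c := fun c => (hneg c).symm
  have key : t x - polar Q (t v) x • (v + t v) - (polar Q v x - polar Q (t v) x) • t v
      - (t x - polar Q v x • t v - (polar Q v x + polar Q (t v) x - polar Q v x) • v) = 0 := by
    module
  exact sub_eq_zero.1 key

theorem main {Q : (Fin n → F) → F} (hQ : IsNondegenerateQuadraticForm Q)
    (hq : Fintype.card F = 2) {n₂ : ℕ} (h2 : 2 < n₂) (e : Fin n ≃ Fin 2 × Fin n₂) (P : GL (Fin n) F)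
    {f₁ : (Fin 2 → F) → (Fin 2 → F) → F} {f₂ : (Fin n₂ → F) → (Fin n₂ → F) → F} (hf₁ : IsSymplecticForm f₁)
    (hf₂ : IsSymplecticForm f₂) (hT : IsTensorFormStructure id (QuadraticMap.polar Q) f₁ f₂ e P)
    (hpure : ∀ (x₁ : Fin 2 → F) (x₂ : Fin n₂ → F), Q (tp e P x₁ x₂) = 0) :
    ∃ K : Subgroup (GL (Fin n) F), tensorProductSubgroup 2 n₂ e P ⊓ omegaGL Q < K ∧ K < omegaGL Q := by
  have h11 := one_add_one hq
  have hneg : ∀ x : F, -x = x := neg_eq hq
  have hadd : ∀ x : F, x + x = 0 := fun c => by rw [← neg_eq_iff_add_eq_zero]; exact hneg c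
  have haddv : ∀ x : Fin n → F, x + x = 0 := fun x => funext fun i => hadd (x i)
  have haddw : ∀ x : Fin n₂ → F, x + x = 0 := fun x => funext fun i => hadd (x i)
  obtain ⟨c, hc, hT⟩ := hT
  have hc1 := eq_one_of hq hc
  subst hc1
  obtain ⟨Q₀, hQ₀⟩ : ∃ Q₀ : QuadraticForm F (Fin n → F), Q₀ = qf hQ := ⟨_, rfl⟩
  have hQc : (⇑Q₀ : (Fin n → F) → F) = Q := by rw [hQ₀, coe_qf]
  have hnd₀ : Nd Q₀ := by rw [hQ₀]; exact nd_qf hQ
  have pol0 : ∀ x₁ y₁ x₂ y₂, polar Q₀ (tp e P x₁ x₂) (tp e P y₁ y₂) = f₁ x₁ y₁ * f₂ x₂ y₂ := by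
    intro x₁ y₁ x₂ y₂
    rw [hQc]
    have := form_tp (σ := id) (fun a b => rfl)
      (eq_formOfGram (σ := id) hf₁.bilinear.add_left hf₁.bilinear.smul_left (fun x y z => hf₁.bilinear.add_right x y z)
        (fun c x y => hf₁.bilinear.smul_right c x y))
      (eq_formOfGram (σ := id) hf₂.bilinear.add_left hf₂.bilinear.smul_left (fun x y z => hf₂.bilinear.add_right x y z)
        (fun c x y => hf₂.bilinear.smul_right c x y)) hT x₁ y₁ x₂ y₂
    rwa [one_mul] at this
  have g01 : f₁ (Pi.single 0 1) (Pi.single 1 1) = 1 := by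
    apply eq_one_of hq
    intro h0
    have hne : (Pi.single 0 1 : Fin 2 → F) ≠ 0 := by
      rw [Ne, Pi.single_eq_zero_iff]; exact one_ne_zero
    obtain ⟨x, hx⟩ := (hf₁.nondegenerate _ hne).2
    apply hx
    have hxx : x = x 0 • (Pi.single 0 1 : Fin 2 → F) + x 1 • (Pi.single 1 1 : Fin 2 → F) := by
      ext i; fin_cases i <;> simp
    rw [hxx, hf₁.bilinear.add_right, hf₁.bilinear.smul_right, hf₁.bilinear.smul_right, hf₁.alternating, h0]
    ring
  have g10 : f₁ (Pi.single 1 1) (Pi.single 0 1) = 1 := by rw [hf₁.skew, g01, hneg]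
  have f2s : ∀ x y, f₂ x y = f₂ y x := fun x y => by rw [hf₂.skew, hneg]
  obtain ⟨E0, hE0⟩ : ∃ E0 : (Fin n₂ → F) → (Fin n → F), ∀ y, E0 y = tp e P (Pi.single 0 1) y := ⟨_, fun y => rfl⟩
  obtain ⟨E1, hE1⟩ : ∃ E1 : (Fin n₂ → F) → (Fin n → F), ∀ y, E1 y = tp e P (Pi.single 1 1) y := ⟨_, fun y => rfl⟩
  have E0a : ∀ y y', E0 (y + y') = E0 y + E0 y' := fun y y' => by rw [hE0, hE0, hE0, tp_add_right]
  have E1a : ∀ y y', E1 (y + y') = E1 y + E1 y' := fun y y' => by rw [hE1, hE1, hE1, tp_add_right]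
  have b00 : ∀ y y', polar Q₀ (E0 y) (E0 y') = 0 := fun y y' => by
    rw [hE0, hE0, pol0, hf₁.alternating, zero_mul]
  have b11 : ∀ y y', polar Q₀ (E1 y) (E1 y') = 0 := fun y y' => by
    rw [hE1, hE1, pol0, hf₁.alternating, zero_mul]
  have b01 : ∀ y y', polar Q₀ (E0 y) (E1 y') = f₂ y y' := fun y y' => by
    rw [hE0, hE1, pol0, g01, one_mul]
  have b10 : ∀ y y', polar Q₀ (E1 y) (E0 y') = f₂ y y' := fun y y' => by
    rw [hE0, hE1, pol0, g10, one_mul]
  have q0 : ∀ y, Q₀ (E0 y) = 0 := fun y => by rw [hQc, hE0, hpure]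
  have q1 : ∀ y, Q₀ (E1 y) = 0 := fun y => by rw [hQc, hE1, hpure]
  have q01 : ∀ y y', Q₀ (E0 y + E1 y') = f₂ y y' := fun y y' => by
    have := b01 y y'
    rw [polar, q0, q1, sub_zero, sub_zero] at this
    exact this
  have hdec : ∀ v, ∃ y y', v = E0 y + E1 y' := by
    intro v
    obtain ⟨w, hw⟩ := exists_sum_left e P v
    refine ⟨w 0, w 1, ?_⟩
    rw [hw, Fin.sum_univ_two, hE0, hE1]
  obtain ⟨t, ht⟩ : ∃ t : GL (Fin n) F, ∀ x y, le t (tp e P x y) =
      tp e P ((tG hq : Matrix (Fin 2) (Fin 2) F) *ᵥ x) y := by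
    refine ⟨le.symm (phi e P (TenSLH94.ac (le (tG hq)) (ti 1))), fun x y => ?_⟩
    rw [MulEquiv.apply_symm_apply, phi_ac, Units.val_one, Matrix.one_mulVec]
  have t0 : ∀ y, le t (E0 y) = E1 y := fun y => by rw [hE0, hE1, ht, tG_e0]
  have t1 : ∀ y, le t (E1 y) = E0 y + E1 y := fun y => by rw [hE0, hE1, ht, tG_e1, tp_add_left]
  have tO : le t ∈ O Q₀ := by
    intro v
    obtain ⟨y, y', rfl⟩ := hdec v
    rw [map_add, t0, t1, add_left_comm, ← E1a, q01, q01, hf₂.bilinear.add_right, hf₂.alternating, add_zero, f2s]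
  have t2 : ∀ x, le t (le t x) = x + le t x := by
    intro x
    obtain ⟨y, y', rfl⟩ := hdec x
    simp only [map_add, t0, t1]
    abel
  have f2add : ∀ x y z, f₂ (x + y) z = f₂ x z + f₂ y z := fun x y z => hf₂.bilinear.add_left x y z
  have hTN : ∀ g ∈ tensorProductSubgroup 2 n₂ e P, g ∈ Subgroup.normalizer (Subgroup.zpowers t : Set (GL (Fin n) F)) := by
    have key : ∀ g ∈ tensorProductSubgroup 2 n₂ e P, ∀ h ∈ Subgroup.zpowers t, g * h * g⁻¹ ∈ Subgroup.zpowers t := by
      intro g hg h hh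
      obtain ⟨a, b, hab⟩ := (mem_tensor_iff g).1 hg
      have h1 : g * t * g⁻¹ ∈ Subgroup.zpowers t := by
        rcases tG_norm hq a with h | h
        · have : g * t = t * g := by
            apply (le : GL (Fin n) F ≃* _).injective
            apply ext_tp (e := e) (P := P)
            intro x y
            rw [map_mul, map_mul]
            show le g (le t _) = le t (le g _)
            rw [ht, hab, hab, ht, Matrix.mulVec_mulVec, Matrix.mulVec_mulVec, ← Units.val_mul, ← Units.val_mul, h]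
          rw [this, mul_inv_cancel_right]; exact Subgroup.mem_zpowers t
        · have : g * t = t * t * g := by
            apply (le : GL (Fin n) F ≃* _).injective
            apply ext_tp (e := e) (P := P)
            intro x y
            rw [map_mul, map_mul, map_mul]
            show le g (le t _) = le t (le t (le g _))
            rw [ht, hab, hab, ht, ht, Matrix.mulVec_mulVec, Matrix.mulVec_mulVec, Matrix.mulVec_mulVec,
              ← Units.val_mul, ← Units.val_mul, ← Units.val_mul, h, mul_assoc]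
          rw [this, mul_inv_cancel_right]; exact mul_mem (Subgroup.mem_zpowers t) (Subgroup.mem_zpowers t)
      obtain ⟨k, rfl⟩ := Subgroup.mem_zpowers_iff.1 hh
      rw [← conj_zpow]
      exact zpow_mem h1 k
    intro g hg
    rw [Subgroup.mem_normalizer_iff]
    intro h
    refine ⟨key g hg h, fun h' => ?_⟩
    have := key g⁻¹ (inv_mem hg) _ h'
    rw [inv_inv] at this
    simpa [mul_assoc] using this
  obtain ⟨a, b, z, w, hab, hzw, haz, haw, hbz, hbw⟩ := exists_four hq h2 hf₂
  have hEv : ∀ u v, Q₀ u = 1 → Q₀ v = 1 → refl Q₀ u * refl Q₀ v ∈ Om Q₀ := by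
    intro u v hu hv
    apply hnd₀.Ev_le_Om
    refine ⟨[u, v], ?_, ?_, ⟨1, rfl⟩, ?_⟩
    · intro x hx
      rcases List.mem_cons.1 hx with rfl | hx
      · rw [hu]; exact one_ne_zero
      · rw [List.mem_singleton] at hx
        rw [hx, hv]; exact one_ne_zero
    · simp
    · simp [hu, hv]
  have hOmGL : ∀ g, g ∈ omegaGL Q ↔ le g ∈ Om Q₀ := fun g => by rw [← hQc, mem_omegaGL_iff]
  have hU : ∀ u w, (∀ x, f₂ u x = f₂ w x) → u = w := by
    intro u w h
    by_contra hcon
    obtain ⟨x, hx⟩ := (hf₂.nondegenerate (u - w) (sub_ne_zero.2 hcon)).2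
    apply hx
    rw [sub_eq_add_neg, ← neg_one_smul F w, f2add, hf₂.bilinear.smul_left, h x]
    ring
  have hinj : ∀ u u' w w', E0 u + E1 u' = E0 w + E1 w' → u = w ∧ u' = w' := by
    intro u u' w w' h
    constructor
    · apply hU
      intro x
      have := congrArg (fun y => polar Q₀ y (E1 x)) h
      simpa only [polar_add_left, b01, b11, add_zero] using this
    · apply hU
      intro x
      have := congrArg (fun y => polar Q₀ y (E0 x)) h
      simpa only [polar_add_left, b10, b00, zero_add] using this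
  have rf : ∀ v x, Q₀ v = 1 → refl Q₀ v x = x - polar Q₀ v x • v := by
    intro v x hv
    rw [refl_apply (by rw [hv]; exact one_ne_zero), hv, inv_one, one_mul]
  have hba : f₂ b a = 1 := by rw [f2s, hab]
  have hza : f₂ z a = 0 := by rw [f2s, haz]
  have hwa : f₂ w a = 0 := by rw [f2s, haw]
  refine ⟨Subgroup.normalizer (Subgroup.zpowers t : Set (GL (Fin n) F)) ⊓ omegaGL Q, ?_, ?_⟩
  · refine lt_of_le_of_ne (inf_le_inf_right _ hTN) fun heq => ?_
    obtain ⟨v, hv⟩ : ∃ v, v = E0 a + E1 b := ⟨_, rfl⟩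
    have hQv : Q₀ v = 1 := by rw [hv, q01, hab]
    obtain ⟨r, hr⟩ : ∃ r, r = refl Q₀ v * refl Q₀ (le t v) := ⟨_, rfl⟩
    have hrOm : r ∈ Om Q₀ := by
      rw [hr]; exact hEv _ _ hQv (by rw [tO, hQv])
    have hrc := comm_rho hq tO t2 hQv
    rw [← hr] at hrc
    have hcomm : le.symm r * t = t * le.symm r := by
      apply (le : GL (Fin n) F ≃* _).injective
      rw [map_mul, map_mul, MulEquiv.apply_symm_apply, hrc]
    have hmem : le.symm r ∈ Subgroup.normalizer (Subgroup.zpowers t : Set (GL (Fin n) F)) ⊓ omegaGL Q := by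
      refine Subgroup.mem_inf.2 ⟨?_, ?_⟩
      · rw [Subgroup.mem_normalizer_iff]
        intro h
        have hc : ∀ k : ℤ, le.symm r * t ^ k * (le.symm r)⁻¹ = t ^ k := by
          intro k
          have : Commute (le.symm r) t := hcomm
          rw [(this.zpow_right k).eq, mul_inv_cancel_right]
        constructor
        · rintro ⟨k, rfl⟩
          exact ⟨k, (hc k).symm⟩
        · rintro ⟨k, hk⟩
          refine ⟨k, ?_⟩
          have h1 : t ^ k = le.symm r * h * (le.symm r)⁻¹ := hk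
          rw [← hc k] at h1
          exact mul_left_cancel (mul_right_cancel h1)
      · rw [hOmGL, MulEquiv.apply_symm_apply]; exact hrOm
    rw [← heq] at hmem
    obtain ⟨a', b', hab'⟩ := (mem_tensor_iff _).1 (Subgroup.mem_inf.1 hmem).1
    rw [MulEquiv.apply_symm_apply] at hab'
    have h1 := hab' (Pi.single 0 1) (a + b + z)
    rw [← hE0] at h1
    obtain ⟨x', hx'⟩ : ∃ x', x' = (a' : Matrix (Fin 2) (Fin 2) F) *ᵥ (Pi.single 0 1 : Fin 2 → F) := ⟨_, rfl⟩
    obtain ⟨y', hy'⟩ : ∃ y', y' = (b' : Matrix (Fin n₂) (Fin n₂) F) *ᵥ (a + b + z) := ⟨_, rfl⟩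
    rw [← hx', ← hy'] at h1
    have hxx : x' = x' 0 • (Pi.single 0 1 : Fin 2 → F) + x' 1 • (Pi.single 1 1 : Fin 2 → F) := by
      ext i; fin_cases i <;> simp
    have h3 : tp e P x' y' = E0 (x' 0 • y') + E1 (x' 1 • y') := by
      conv_lhs => rw [hxx]
      rw [tp_add_left, tp_smul_left, tp_smul_left, hE0, hE1, tp_smul_right, tp_smul_right]
    have h4 : r (E0 (a + b + z)) = E0 (b + z) + E1 b := by
      rw [hr]
      show refl Q₀ v (refl Q₀ (le t v) (E0 (a + b + z))) = _
      have htv : le t v = E0 b + E1 (a + b) := by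
        rw [hv, map_add, t0, t1, E1a]; abel
      rw [rf (le t v) (E0 (a + b + z)) (by rw [tO, hQv]), htv]
      have h5 : polar Q₀ (E0 b + E1 (a + b)) (E0 (a + b + z)) = 0 := by
        rw [polar_add_left, b00, b10, hf₂.bilinear.add_right, hf₂.alternating, f2add, haz, hbz]
        ring
      rw [h5, zero_smul, sub_zero, rf _ _ hQv]
      have h6 : polar Q₀ v (E0 (a + b + z)) = 1 := by
        rw [hv, polar_add_left, b00, b10, hf₂.bilinear.add_right, hf₂.bilinear.add_right, hba, hf₂.alternating, hbz]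
        ring
      rw [h6, one_smul, hv]
      have h7 : E0 (a + b + z) = E0 a + E0 (b + z) := by rw [← E0a]; congr 1; abel
      have h8 : E1 b = - E1 b := by
        rw [eq_neg_iff_add_eq_zero]; exact haddv _
      rw [h7]
      have h9 : E0 a + E0 (b + z) - (E0 a + E1 b) = E0 (b + z) + - E1 b := by abel
      rw [h9, ← h8]
    rw [h4, h3] at h1
    obtain ⟨h5, h6⟩ := hinj _ _ _ _ h1
    rcases zero_or_one hq (x' 1) with h7 | h7
    · rw [h7, zero_smul] at h6
      rw [h6] at hab
      have := hf₂.bilinear.smul_right 0 a 0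
      rw [zero_smul, zero_mul] at this
      rw [this] at hab
      exact zero_ne_one hab
    · rw [h7, one_smul] at h6
      rw [← h6] at h5
      rcases zero_or_one hq (x' 0) with h8 | h8
      · rw [h8, zero_smul] at h5
        have h9 : f₂ a (b + z) = f₂ a 0 := congrArg (fun y => f₂ a y) h5
        have := hf₂.bilinear.smul_right 0 a 0
        rw [zero_smul, zero_mul] at this
        rw [this, hf₂.bilinear.add_right, hab, haz, add_zero] at h9
        exact one_ne_zero h9
      · rw [h8, one_smul, add_eq_left] at h5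
        rw [h5] at hzw
        have := hf₂.bilinear.smul_left 0 0 w
        rw [zero_smul, zero_mul] at this
        rw [this] at hzw
        exact zero_ne_one hzw
  · refine lt_of_le_of_ne inf_le_right fun heq => ?_
    obtain ⟨u, hu⟩ : ∃ u, u = E0 (b + z) + E1 w := ⟨_, rfl⟩
    obtain ⟨v, hv⟩ : ∃ v, v = E0 z + E1 w := ⟨_, rfl⟩
    have hQu : Q₀ u = 1 := by rw [hu, q01, f2add, hbw, hzw, zero_add]
    have hQv : Q₀ v = 1 := by rw [hv, q01, hzw]
    obtain ⟨r, hr⟩ : ∃ r, r = refl Q₀ u * refl Q₀ v := ⟨_, rfl⟩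
    have hrOm : r ∈ Om Q₀ := by rw [hr]; exact hEv _ _ hQu hQv
    have hmem : le.symm r ∈ omegaGL Q := by rw [hOmGL, MulEquiv.apply_symm_apply]; exact hrOm
    rw [← heq] at hmem
    have hN := (Subgroup.mem_normalizer_iff.1 (Subgroup.mem_inf.1 hmem).1 t).1 (Subgroup.mem_zpowers t)
    obtain ⟨k, hk⟩ := hN
    have hk' : t ^ k * le.symm r = le.symm r * t := by
      have : t ^ k = le.symm r * t * (le.symm r)⁻¹ := hk
      rw [this, inv_mul_cancel_right]
    have ht3 : t ^ (3 : ℤ) = 1 := by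
      apply (le : GL (Fin n) F ≃* _).injective
      apply LinearEquiv.ext
      intro x
      have : t ^ (3 : ℤ) = t * (t * t) := by
        show t ^ (3 : ℕ) = _
        rw [pow_succ, pow_two, mul_assoc]
      rw [this, map_mul, map_mul, map_one]
      show le t (le t (le t x)) = x
      rw [t2 (le t x), t2 x]
      have : le t x + (x + le t x) = x + (le t x + le t x) := by abel
      rw [this, haddv, add_zero]
    have h1 := congrArg (fun g => le g (E0 a)) hk'
    simp only [map_mul, MulEquiv.apply_symm_apply] at h1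
    have h2' : le (t ^ k) (r (E0 a)) = r (le t (E0 a)) := h1
    have hr1 : r (E0 a) = E0 a := by
      rw [hr]
      show refl Q₀ u (refl Q₀ v (E0 a)) = _
      have h5 : polar Q₀ v (E0 a) = 0 := by rw [hv, polar_add_left, b00, b10, hwa, add_zero]
      have h6 : polar Q₀ u (E0 a) = 0 := by rw [hu, polar_add_left, b00, b10, hwa, add_zero]
      rw [rf _ _ hQv, h5, zero_smul, sub_zero, rf _ _ hQu, h6, zero_smul, sub_zero]
    have hr2 : r (E1 a) = E1 a - u := by
      rw [hr]
      show refl Q₀ u (refl Q₀ v (E1 a)) = _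
      have h5 : polar Q₀ v (E1 a) = 0 := by rw [hv, polar_add_left, b01, b11, hza, add_zero]
      have h6 : polar Q₀ u (E1 a) = 1 := by
        rw [hu, polar_add_left, b01, b11, f2add, hba, hza, add_zero, add_zero]
      rw [rf _ _ hQv, h5, zero_smul, sub_zero, rf _ _ hQu, h6, one_smul]
    rw [t0, hr1, hr2] at h2'
    have hu2 : u = E1 a - le (t ^ k) (E0 a) := by rw [h2']; abel
    rw [zpow_eq_zpow_emod k ht3] at hu2
    have hk3 : k % 3 = 0 ∨ k % 3 = 1 ∨ k % 3 = 2 := by omega
    have hcon : Q₀ u = 0 := by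
      rcases hk3 with h | h | h
      · rw [hu2, h, zpow_zero, map_one]
        show Q₀ (E1 a - E0 a) = 0
        have h8 : -E0 a = E0 a := by
          rw [neg_eq_iff_add_eq_zero]; exact haddv _
        rw [sub_eq_add_neg, h8, add_comm, q01, hf₂.alternating]
      · rw [hu2, h, zpow_one, t0, sub_self, map_zero]
      · rw [hu2, h]
        have : t ^ (2 : ℤ) = t * t := by
          show t ^ (2 : ℕ) = _
          rw [pow_two]
        rw [this, map_mul]
        show Q₀ (E1 a - le t (le t (E0 a))) = 0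
        rw [t0, t1, sub_add_cancel_right, QuadraticMap.map_neg, q0]
    rw [hQu] at hcon
    exact one_ne_zero hcon

end Main

end Cfsg.Agent.Lib.TenSpTwo59
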