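import Mathlib
import Cfsg.Agent.Lib.TenU1H94

set_option autoImplicit false
set_option linter.unusedSectionVars false
set_option linter.unusedSimpArgs false
set_option linter.unusedVariables false

/-!
Sesquilinear forms vanishing on the singular vectors of a hermitian space are multiples of the form.
-/

namespace Cfsg.Agent.Lib.TenUH94

open Module Cfsg.Agent.Lib.TenSLH94 Cfsg.Agent.Lib.UnTrans Cfsg.Agent.Lib.UnMax
open Cfsg.Agent.Lib.SpTrans (isom mem_isom)

variable {F : Type*} [Field F]

/-- the scalar computation -/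
theorem pol_scalar {σ : F →+* F} (inv : ∀ a, σ (σ a) = a) (ne : ∃ a, σ a ≠ a)
    (tr : ∀ c, σ c = c → ∃ x : F, x + σ x = c) {q A B C D D' : F} (hq : σ q = q)
    (h : ∀ l m : F, m + σ m + l * σ l * q = 0 →
      σ l * A + l * B + l * σ l * C + l * σ m * D + m * σ l * D' = 0) :
    A = 0 ∧ B = 0 ∧ C = 0 ∧ D = 0 ∧ D' = 0 := by
  obtain ⟨a, ha⟩ := ne
  -- a nonzero element of trace zero
  have ht : (a - σ a) ≠ 0 := sub_ne_zero.2 (Ne.symm ha)
  have ht0 : (a - σ a) + σ (a - σ a) = 0 := by rw [map_sub, inv]; ring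
  set t := a - σ a with htdef
  have hσt : σ t = -t := by linear_combination ht0
  have hm : ∀ l : F, ∃ m : F, m + σ m + l * σ l * q = 0 := by
    intro l
    obtain ⟨m, hm⟩ := tr (-(l * σ l * q)) (by rw [map_neg, map_mul, map_mul, inv, hq]; ring)
    exact ⟨m, by rw [hm]; ring⟩
  have h1 : ∀ l : F, σ l * D' = l * D := by
    intro l
    obtain ⟨m, hm⟩ := hm l
    have e1 := h l m hm
    have e2 := h l (m + t) (by rw [map_add, hσt]; linear_combination hm)
    rw [map_add, hσt] at e2
    have e3 : t * (σ l * D' - l * D) = 0 := by linear_combination e2 - e1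
    rcases mul_eq_zero.1 e3 with e4 | e4
    · exact absurd e4 ht
    · linear_combination e4
  have hDD : D' = D := by have := h1 1; rwa [map_one, one_mul, one_mul] at this
  have hD : D = 0 := by
    have e1 := h1 a
    rw [hDD] at e1
    have e2 : t * D = 0 := by rw [htdef]; linear_combination -e1
    exact (mul_eq_zero.1 e2).resolve_left ht
  have hD' : D' = 0 := by rw [hDD, hD]
  have h2 : ∀ l : F, σ l * A + l * B + l * σ l * C = 0 := by
    intro l
    obtain ⟨m, hm⟩ := hm l
    have e1 := h l m hm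
    rw [hD, hD'] at e1
    linear_combination e1
  have hC : C = 0 := by
    obtain ⟨x, hx⟩ := tr 1 (map_one σ)
    have e1 := h2 x
    have e2 := h2 1
    have e3 := h2 (x + 1)
    rw [map_add, map_one] at e3
    rw [map_one] at e2
    linear_combination e3 - e1 - e2 - C * hx
  have h3 : ∀ l : F, σ l * A + l * B = 0 := by
    intro l
    have := h2 l
    rw [hC] at this
    linear_combination this
  have hBA : B = -A := by
    have := h3 1
    rw [map_one] at this
    linear_combination this
  have hA : A = 0 := by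
    have e1 := h3 a
    rw [hBA] at e1
    have e2 : t * A = 0 := by rw [htdef]; linear_combination -e1
    exact (mul_eq_zero.1 e2).resolve_left ht
  exact ⟨hA, by rw [hBA, hA, neg_zero], hC, hD, hD'⟩

/-- the case where the form vanishes on a hyperbolic pair -/
theorem pol_zero {V : Type*} [AddCommGroup V] [Module F V] {σ : F →+* F} {β : V → V → F} (H : HS σ β)
    {e f0 : V} (hee : β e e = 0) (hff : β f0 f0 = 0) (hef : β e f0 = 1) (g : V → V → F)
    (f1 : ∀ x y z, g (x + y) z = g x z + g y z) (f2 : ∀ (c : F) x y, g (c • x) y = c * g x y)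
    (f3 : ∀ x y z, g x (y + z) = g x y + g x z) (f4 : ∀ (c : F) x y, g x (c • y) = σ c * g x y)
    (h0 : ∀ b, β b b = 0 → g b b = 0) (g1 : g e f0 = 0) (g2 : g f0 e = 0) :
    ∀ x y, g x y = 0 := by
  have hfe : β f0 e = 1 := by rw [H.herm, hef, map_one]
  have key : ∀ w, β w e = 0 → β w f0 = 0 →
      g e w = 0 ∧ g w e = 0 ∧ g w w = 0 ∧ g w f0 = 0 ∧ g f0 w = 0 := by
    intro w hwe hwf
    have hew := H.symm_zero hwe
    have hfw := H.symm_zero hwf
    refine pol_scalar H.inv H.ne (fun c hc => H.exists_trace c hc) (q := β w w) (H.self_fixed w) ?_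
    intro l m hlm
    have hs : β (e + l • w + m • f0) (e + l • w + m • f0) = 0 := by
      simp only [H.add_left, H.add_right, H.smul_left, H.smul_right, hee, hff, hef, hfe, hwe, hwf, hew, hfw]
      linear_combination hlm
    have := h0 _ hs
    simp only [f1, f2, f3, f4, h0 e hee, h0 f0 hff, g1, g2] at this
    linear_combination this
  have key2 : ∀ w w', β w e = 0 → β w f0 = 0 → β w' e = 0 → β w' f0 = 0 → g w w' = 0 := by
    intro w w' h1 h2 h3 h4
    obtain ⟨a, ha⟩ := H.ne
    have e0 := (key w h1 h2).2.2.1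
    have e0' := (key w' h3 h4).2.2.1
    have e1 := (key (w + w') (by rw [H.add_left, h1, h3, add_zero])
      (by rw [H.add_left, h2, h4, add_zero])).2.2.1
    have e2 := (key (a • w + w') (by rw [H.add_left, H.smul_left, h1, h3, mul_zero, add_zero])
      (by rw [H.add_left, H.smul_left, h2, h4, mul_zero, add_zero])).2.2.1
    simp only [f1, f2, f3, f4, e0, e0'] at e1 e2
    have e3 : (a - σ a) * g w w' = 0 := by linear_combination e2 - (σ a) * e1
    exact (mul_eq_zero.1 e3).resolve_left (sub_ne_zero.2 (Ne.symm ha))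
  intro x y
  have dec : ∀ x : V, ∃ w : V, β w e = 0 ∧ β w f0 = 0 ∧ x = w + (β x f0) • e + (β x e) • f0 := by
    intro x
    refine ⟨x - (β x f0) • e - (β x e) • f0, ?_, ?_, ?_⟩
    · rw [H.sub_left, H.sub_left, H.smul_left, H.smul_left, hee, hfe]; ring
    · rw [H.sub_left, H.sub_left, H.smul_left, H.smul_left, hff, hef]; ring
    · abel
  obtain ⟨w, hw1, hw2, hx⟩ := dec x
  obtain ⟨w', hw1', hw2', hy⟩ := dec y
  obtain ⟨k1, k2, -, k3, k4⟩ := key w hw1 hw2
  obtain ⟨k1', k2', -, k3', k4'⟩ := key w' hw1' hw2'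
  rw [hx, hy]
  simp only [f1, f2, f3, f4, k1, k2, k3, k4, k1', k2', k3', k4', key2 w w' hw1 hw2 hw1' hw2', g1, g2,
    h0 e hee, h0 f0 hff]
  ring

/-- sesquilinear forms vanishing on the singular vectors are multiples of the hermitian form -/
theorem pol_form {V : Type*} [AddCommGroup V] [Module F V] [FiniteDimensional F V] {σ : F →+* F}
    {β : V → V → F} (H : HS σ β) (nd : Nd β (⊤ : Submodule F V)) (h2 : 2 ≤ finrank F V) (f : V → V → F)
    (f1 : ∀ x y z, f (x + y) z = f x z + f y z) (f2 : ∀ (c : F) x y, f (c • x) y = c * f x y)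
    (f3 : ∀ x y z, f x (y + z) = f x y + f x z) (f4 : ∀ (c : F) x y, f x (c • y) = σ c * f x y)
    (h0 : ∀ b, β b b = 0 → f b b = 0) : ∃ κ, ∀ x y, f x y = κ * β x y := by
  obtain ⟨e, -, he0, hee⟩ := exists_sing H (U := (⊤ : Submodule F V)) (by rwa [finrank_top])
  obtain ⟨u, -, hu⟩ := nd e trivial he0
  obtain ⟨a, ha⟩ := H.exists_add_norm hee hu (c := 0) (map_zero σ)
  have hb : β e (u + a • e) ≠ 0 := by
    rw [H.add_right, H.smul_right, hee, mul_zero, add_zero]; exact hu
  set f' := u + a • e with hf'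
  set f0 := (σ (β e f'))⁻¹ • f' with hf0
  have hef : β e f0 = 1 := by
    rw [hf0, H.smul_right, map_inv₀, H.inv, inv_mul_cancel₀ hb]
  have hff : β f0 f0 = 0 := by
    rw [hf0, H.smul_right, H.smul_left, ha, mul_zero, mul_zero]
  have hfe : β f0 e = 1 := by rw [H.herm, hef, map_one]
  obtain ⟨τ, hτ, hτ0⟩ := H.exists_tr0
  have hκ : f f0 e = f e f0 := by
    have hs : β (e + τ • f0) (e + τ • f0) = 0 := by
      simp only [H.add_left, H.add_right, H.smul_left, H.smul_right, hee, hff, hef, hfe]
      linear_combination hτ0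
    have := h0 _ hs
    simp only [f1, f2, f3, f4, h0 e hee, h0 f0 hff] at this
    have e3 : τ * (f f0 e - f e f0) = 0 := by linear_combination this - (f e f0) * hτ0
    exact sub_eq_zero.1 ((mul_eq_zero.1 e3).resolve_left hτ)
  refine ⟨f e f0, ?_⟩
  have := pol_zero H hee hff hef (fun x y => f x y - f e f0 * β x y)
    (fun x y z => by simp only [f1, H.add_left]; ring)
    (fun c x y => by simp only [f2, H.smul_left]; ring)
    (fun x y z => by simp only [f3, H.add_right]; ring)
    (fun c x y => by simp only [f4, H.smul_right]; ring)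
    (fun b hb => by simp only [h0 b hb, hb, mul_zero, sub_zero])
    (by simp only [hef, mul_one, sub_self])
    (by simp only [hfe, hκ, mul_one, sub_self])
  intro x y
  have h1 : f x y - f e f0 * β x y = 0 := this x y
  linear_combination h1

end Cfsg.Agent.Lib.TenUH94
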