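import Mathlib
import Cfsg.Agent.Lib.TenUPol

set_option autoImplicit false
set_option linter.unusedSectionVars false
set_option linter.unusedSimpArgs false
set_option linter.unusedVariables false

/-!
Subalgebras of `End E` invariant under `SU(E)` and the adjoint, containing a skew nonscalar element, contain all
rank one maps.
-/

namespace Cfsg.Agent.Lib.TenUH94

open Module Cfsg.Agent.Lib.TenSLH94 Cfsg.Agent.Lib.UnTrans Cfsg.Agent.Lib.UnMax
open Cfsg.Agent.Lib.SpTrans (isom mem_isom)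

variable {F E : Type*} [Field F] [AddCommGroup E] [Module F E] [FiniteDimensional F E]
  {σ : F →+* F}

/-- rank one maps `z ↦ α z x • y` -/
def ro (α : E → E → F) (Ha : HS σ α) (x y : E) : E →ₗ[F] E := (Ha.fl x).smulRight y

variable {α : E → E → F}

theorem ro_apply (Ha : HS σ α) (x y z : E) : ro α Ha x y z = α z x • y := rfl

theorem ro_add_right (Ha : HS σ α) (x y y' : E) : ro α Ha x (y + y') = ro α Ha x y + ro α Ha x y' :=
  LinearMap.ext fun z => by rw [ro_apply, LinearMap.add_apply, ro_apply, ro_apply, smul_add]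

theorem ro_smul_right (Ha : HS σ α) (c : F) (x y : E) : ro α Ha x (c • y) = c • ro α Ha x y :=
  LinearMap.ext fun z => by rw [ro_apply, LinearMap.smul_apply, ro_apply, smul_comm]

theorem ro_add_left (Ha : HS σ α) (x x' y : E) : ro α Ha (x + x') y = ro α Ha x y + ro α Ha x' y :=
  LinearMap.ext fun z => by rw [ro_apply, LinearMap.add_apply, ro_apply, ro_apply, Ha.add_right, add_smul]

theorem ro_smul_left (Ha : HS σ α) (c : F) (x y : E) : ro α Ha (c • x) y = σ c • ro α Ha x y :=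
  LinearMap.ext fun z => by rw [ro_apply, LinearMap.smul_apply, ro_apply, Ha.smul_right, mul_smul]

theorem ro_mul (Ha : HS σ α) (x y x' y' : E) :
    (ro α Ha x y : Module.End F E) * ro α Ha x' y' = α y' x • ro α Ha x' y :=
  LinearMap.ext fun z => by
    rw [Module.End.mul_apply, ro_apply, ro_apply, LinearMap.smul_apply, ro_apply, Ha.smul_left, mul_smul, smul_comm]

theorem ro_conj (Ha : HS σ α) {p : E ≃ₗ[F] E} (hp : p ∈ isom α) (x y : E) :
    (p : Module.End F E) * ro α Ha x y * ((p⁻¹ : E ≃ₗ[F] E) : Module.End F E) = ro α Ha (p x) (p y) :=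
  LinearMap.ext fun z => by
    have h1 : α (p⁻¹ z) x = α z (p x) := by
      rw [← hp (p⁻¹ z) x, ← LinearEquiv.mul_apply, mul_inv_cancel]; rfl
    show p (ro α Ha x y (p⁻¹ z)) = ro α Ha (p x) (p y) z
    rw [ro_apply, ro_apply, h1, map_smul]

section alg

variable {N : Subalgebra F (Module.End F E)}

theorem ro_adj (Ha : HS σ α) (na : Nd α (⊤ : Submodule F E))
    (hadj : ∀ ξ ∈ N, ∃ ξ' ∈ N, ∀ x y, α (ξ x) y = α x (ξ' y)) {x y : E} (h : ro α Ha x y ∈ N) :
    ro α Ha y x ∈ N := by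
  obtain ⟨ξ', h1, h2⟩ := hadj _ h
  have : ξ' = ro α Ha y x := by
    apply LinearMap.ext
    intro z
    rw [← sub_eq_zero]
    by_contra hne
    obtain ⟨w, -, hw⟩ := na _ trivial hne
    apply hw
    apply Ha.symm_zero
    rw [Ha.sub_right, ← h2, ro_apply, ro_apply, Ha.smul_left, Ha.smul_right, ← Ha.herm]
    ring
  rw [← this]; exact h1

/-- commutators with transvections -/
theorem alg_S (Ha : HS σ α)
    (hconj : ∀ p ∈ isom α, LinearMap.det ((p : E ≃ₗ[F] E) : E →ₗ[F] E) = 1 →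
      ∀ ξ ∈ N, (p : Module.End F E) * ξ * ((p⁻¹ : E ≃ₗ[F] E) : Module.End F E) ∈ N)
    {X : Module.End F E} (hX : X ∈ N) (hXs : ∀ x y, α (X x) y = - α x (X y)) {a : E} (ha : α a a = 0)
    {μ : F} (hμ0 : μ ≠ 0) (hμ : μ + σ μ = 0) :
    (ro α Ha a (X a) + ro α Ha (X a) a + (μ * α (X a) a) • ro α Ha a a : Module.End F E) ∈ N := by
  have h1 := hconj (tv Ha a ha μ hμ) (tv_mem Ha a ha μ hμ) (tv_det Ha a ha μ hμ) X hX
  have hinv : ∀ z, (tv Ha a ha μ hμ)⁻¹ z = z - (μ * α z a) • a := by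
    intro z
    apply (tv Ha a ha μ hμ).injective
    rw [← LinearEquiv.mul_apply, mul_inv_cancel, tv_apply, Ha.sub_left, Ha.smul_left, ha]
    show z = _
    module
  have h2 : X - ((tv Ha a ha μ hμ : Module.End F E) * X * (((tv Ha a ha μ hμ)⁻¹ : E ≃ₗ[F] E) : Module.End F E)) =
      μ • (ro α Ha a (X a) + ro α Ha (X a) a + (μ * α (X a) a) • ro α Ha a a : Module.End F E) := by
    apply LinearMap.ext
    intro z
    show X z - tv Ha a ha μ hμ (X ((tv Ha a ha μ hμ)⁻¹ z)) =
      μ • (α z a • X a + α z (X a) • a + (μ * α (X a) a) • α z a • a)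
    rw [hinv, tv_apply, map_sub, map_smul, Ha.sub_left, Ha.smul_left, hXs z a]
    module
  have h3 := N.smul_mem (N.sub_mem hX h1) μ⁻¹
  rw [h2, smul_smul, inv_mul_cancel₀ hμ0, one_smul] at h3
  exact h3

/-- the step from a singular vector -/
theorem alg_step (Ha : HS σ α) (na : Nd α (⊤ : Submodule F E))
    (hconj : ∀ p ∈ isom α, LinearMap.det ((p : E ≃ₗ[F] E) : E →ₗ[F] E) = 1 →
      ∀ ξ ∈ N, (p : Module.End F E) * ξ * ((p⁻¹ : E ≃ₗ[F] E) : Module.End F E) ∈ N)
    (hadj : ∀ ξ ∈ N, ∃ ξ' ∈ N, ∀ x y, α (ξ x) y = α x (ξ' y)) {a : E} (ha : α a a = 0)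
    (h : ro α Ha a a ∈ N) {b : E} (hb : α b b = 0) (hab : α a b ≠ 0) : ro α Ha a b ∈ N ∧ ro α Ha b b ∈ N := by
  obtain ⟨c, hc0, hc⟩ := Ha.exists_tr0
  have h1 := hconj (tv Ha b hb c hc) (tv_mem Ha b hb c hc) (tv_det Ha b hb c hc) _ h
  rw [ro_conj Ha (tv_mem Ha b hb c hc), tv_apply] at h1
  set d := c * α a b with hd
  have hd0 : d ≠ 0 := mul_ne_zero hc0 hab
  have hsd0 : σ d ≠ 0 := Ha.sigma_ne hd0
  have h2 := N.mul_mem h1 h
  rw [ro_mul] at h2
  have h3 : α a (a + d • b) ≠ 0 := by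
    rw [Ha.add_right, Ha.smul_right, ha, zero_add]; exact mul_ne_zero hsd0 hab
  have h4 := N.smul_mem h2 (α a (a + d • b))⁻¹
  rw [smul_smul, inv_mul_cancel₀ h3, one_smul, ro_add_right, ro_smul_right] at h4
  have h5 : ro α Ha a b ∈ N := by
    have h6 := N.smul_mem (N.sub_mem h4 h) d⁻¹
    rwa [add_sub_cancel_left, smul_smul, inv_mul_cancel₀ hd0, one_smul] at h6
  refine ⟨h5, ?_⟩
  have h6 := ro_adj Ha na hadj h5
  rw [ro_add_left, ro_add_right, ro_add_right, ro_smul_left, ro_smul_left, ro_smul_right, ro_smul_right] at h1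
  have h7 := N.sub_mem (N.sub_mem (N.sub_mem h1 h) (N.smul_mem h5 d)) (N.smul_mem h6 (σ d))
  have h8 := N.smul_mem (N.smul_mem h7 (σ d)⁻¹) d⁻¹
  have e : d⁻¹ • (σ d)⁻¹ • (ro α Ha a a + d • ro α Ha a b + (σ d • ro α Ha b a + σ d • d • ro α Ha b b) -
      ro α Ha a a - d • ro α Ha a b - σ d • ro α Ha b a) = ro α Ha b b := by
    have : ro α Ha a a + d • ro α Ha a b + (σ d • ro α Ha b a + σ d • d • ro α Ha b b) -
      ro α Ha a a - d • ro α Ha a b - σ d • ro α Ha b a = σ d • d • ro α Ha b b := by abel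
    rw [this, smul_smul (σ d)⁻¹, inv_mul_cancel₀ hsd0, one_smul, smul_smul, inv_mul_cancel₀ hd0, one_smul]
  rw [← e]; exact h8

theorem alg_row (Ha : HS σ α) (na : Nd α (⊤ : Submodule F E))
    (hconj : ∀ p ∈ isom α, LinearMap.det ((p : E ≃ₗ[F] E) : E →ₗ[F] E) = 1 →
      ∀ ξ ∈ N, (p : Module.End F E) * ξ * ((p⁻¹ : E ≃ₗ[F] E) : Module.End F E) ∈ N)
    (hadj : ∀ ξ ∈ N, ∃ ξ' ∈ N, ∀ x y, α (ξ x) y = α x (ξ' y)) {a : E} (ha0 : a ≠ 0) (ha : α a a = 0)
    (h : ro α Ha a a ∈ N) (v : E) : ro α Ha a v ∈ N := by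
  have key : ∀ v, α a v ≠ 0 → ro α Ha a v ∈ N := by
    intro v hv
    obtain ⟨t, ht⟩ := Ha.exists_add_norm (z := a) (u := v) ha hv (map_zero σ)
    have h1 := (alg_step Ha na hconj hadj ha h ht
      (by rw [Ha.add_right, Ha.smul_right, ha, mul_zero, add_zero]; exact hv)).1
    rw [ro_add_right, ro_smul_right] at h1
    have h2 := N.sub_mem h1 (N.smul_mem h t)
    rwa [add_sub_cancel_right] at h2
  obtain ⟨y, -, hy⟩ := na a trivial ha0
  by_cases hv : α a v = 0
  · have h1 := N.sub_mem (key (v + y) (by rw [Ha.add_right, hv, zero_add]; exact hy)) (key y hy)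
    rwa [ro_add_right, add_sub_cancel_right] at h1
  · exact key v hv

theorem alg_all (Ha : HS σ α) (na : Nd α (⊤ : Submodule F E))
    (hconj : ∀ p ∈ isom α, LinearMap.det ((p : E ≃ₗ[F] E) : E →ₗ[F] E) = 1 →
      ∀ ξ ∈ N, (p : Module.End F E) * ξ * ((p⁻¹ : E ≃ₗ[F] E) : Module.End F E) ∈ N)
    (hadj : ∀ ξ ∈ N, ∃ ξ' ∈ N, ∀ x y, α (ξ x) y = α x (ξ' y)) {a : E} (ha0 : a ≠ 0) (ha : α a a = 0)
    (h : ro α Ha a a ∈ N) (x y : E) : ro α Ha x y ∈ N := by
  obtain ⟨u, -, hu⟩ := na a trivial ha0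
  obtain ⟨t, ht⟩ := Ha.exists_add_norm (z := a) (u := u) ha hu (map_zero σ)
  set b := u + t • a with hb
  have hab : α a b ≠ 0 := by rw [hb, Ha.add_right, Ha.smul_right, ha, mul_zero, add_zero]; exact hu
  have hb0 : b ≠ 0 := by rintro h0; rw [h0, Ha.zero_right] at hab; exact hab rfl
  have h1 := (alg_step Ha na hconj hadj ha h ht hab).2
  have h2 := alg_row Ha na hconj hadj ha0 ha h y
  have h3 := ro_adj Ha na hadj (alg_row Ha na hconj hadj hb0 ht h1 x)
  have h4 := N.mul_mem h2 h3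
  rw [ro_mul] at h4
  have h5 := N.smul_mem h4 (α b a)⁻¹
  rwa [smul_smul, inv_mul_cancel₀ (Ha.symm_ne hab), one_smul] at h5

/-- the field of order four: from a nonsingular vector to all -/
theorem alg_all2 (Ha : HS σ α) (na : Nd α (⊤ : Submodule F E)) (h3 : 3 ≤ finrank F E) (h2 : (2 : F) = 0)
    (h1 : ∀ c : F, c ≠ 0 → σ c = c → c = 1)
    (hconj : ∀ p ∈ isom α, LinearMap.det ((p : E ≃ₗ[F] E) : E →ₗ[F] E) = 1 →
      ∀ ξ ∈ N, (p : Module.End F E) * ξ * ((p⁻¹ : E ≃ₗ[F] E) : Module.End F E) ∈ N)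
    (hadj : ∀ ξ ∈ N, ∃ ξ' ∈ N, ∀ x y, α (ξ x) y = α x (ξ' y)) {e : E} (he : α e e = 1)
    (h : ro α Ha e e ∈ N) (x y : E) : ro α Ha x y ∈ N := by
  -- the element of order three
  obtain ⟨w, hw⟩ := Ha.exists_trace 1 (map_one σ)
  have hw0 : w ≠ 0 := by rintro rfl; rw [map_zero, add_zero] at hw; exact zero_ne_one hw
  have hN : ∀ c : F, c ≠ 0 → c * σ c = 1 := fun c hc =>
    h1 _ (mul_ne_zero hc (Ha.sigma_ne hc)) (by rw [map_mul, Ha.inv]; ring)
  have hww := hN w hw0
  have key : ∀ u, α u u = 1 → α e u ≠ 0 → ro α Ha e u ∈ N := by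
    intro u hu heu
    have c1 : σ w + σ (σ w) + σ w * σ (σ w) * α u u = 0 := by
      rw [Ha.inv, hu]; linear_combination hw + hww + h2
    have c2 : w + σ w + w * σ w * α e e = 0 := by
      rw [he]; linear_combination hw + hww + h2
    -- the element `p`
    have hp : el Ha u (σ w) c1 * el Ha e w c2 ∈ isom α := mul_mem (el_mem Ha _ _ _) (el_mem Ha _ _ _)
    have hdet : LinearMap.det ((el Ha u (σ w) c1 * el Ha e w c2 : E ≃ₗ[F] E) : E →ₗ[F] E) = 1 := by
      have e1 : LinearMap.det ((el Ha u (σ w) c1 * el Ha e w c2 : E ≃ₗ[F] E) : E →ₗ[F] E) =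
          LinearMap.det ((el Ha u (σ w) c1 : E ≃ₗ[F] E) : E →ₗ[F] E) *
          LinearMap.det ((el Ha e w c2 : E ≃ₗ[F] E) : E →ₗ[F] E) := by
        rw [← LinearMap.det_comp]; rfl
      rw [e1, el_det, el_det, he, hu]
      linear_combination hw + hww + h2
    have hpe : (el Ha u (σ w) c1 * el Ha e w c2) e = σ w • e + (σ w * σ w * α e u) • u := by
      have e1 : (1 : F) + w = σ w := by linear_combination w * h2 - hw
      rw [LinearEquiv.mul_apply, el_apply Ha e w c2, he, el_apply, Ha.add_left, Ha.smul_left, ← e1]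
      match_scalars <;> ring
    have g1 := hconj _ hp hdet _ h
    rw [ro_conj Ha hp, hpe] at g1
    set p := σ w • e + (σ w * σ w * α e u) • u with hpdef
    have g2 := N.mul_mem g1 h
    rw [ro_mul] at g2
    have g3 : α e p = 1 := by
      rw [hpdef, Ha.add_right, Ha.smul_right, Ha.smul_right, he, map_mul, map_mul, Ha.inv]
      have := hN _ heu
      have e1 : w * w = σ w := by
        linear_combination w * hw - hww + hw - σ w * h2
      linear_combination (w * w) * this + e1 + hw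
    rw [g3, one_smul, ro_add_right, ro_smul_right, ro_smul_right] at g2
    have hs0 : σ w ≠ 0 := Ha.sigma_ne hw0
    have g4 := N.smul_mem (N.sub_mem g2 (N.smul_mem h (σ w))) (σ w * σ w * α e u)⁻¹
    rwa [add_sub_cancel_left, smul_smul, inv_mul_cancel₀ (mul_ne_zero (mul_ne_zero hs0 hs0) heu), one_smul] at g4
  -- all vectors orthogonal to `e`
  have hfr : 2 ≤ finrank F (LinearMap.ker (Ha.fl e)) := by
    have e1 := LinearMap.finrank_range_add_finrank_ker (Ha.fl e)
    have e2 : finrank F (LinearMap.range (Ha.fl e)) ≤ 1 := by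
      have := Submodule.finrank_le (LinearMap.range (Ha.fl e))
      rwa [finrank_self] at this
    omega
  obtain ⟨z, hz, hz0, hzz⟩ := exists_sing Ha hfr
  have hze : α z e = 0 := hz
  obtain ⟨y0, -, hy0⟩ := na z trivial hz0
  have perp : ∀ v, α v e = 0 → ro α Ha e v ∈ N := by
    intro v hv
    have m := Ha.mem_span_iso (U := LinearMap.ker (Ha.fl e)) (z := z) (y := y0 - α y0 e • e) (u := v) hz hzz
      (by
        rw [LinearMap.mem_ker]
        show α (y0 - α y0 e • e) e = 0
        rw [Ha.sub_left, Ha.smul_left, he, mul_one, sub_self])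
      (by rw [Ha.sub_right, Ha.smul_right, hze, mul_zero, sub_zero]; exact hy0) hv
    refine Submodule.span_induction (p := fun v _ => ro α Ha e v ∈ N) ?_ ?_ ?_ ?_ m
    · rintro t ⟨ht1, ht2⟩
      have ht1' : α t e = 0 := ht1
      have ht3 : α e t = 0 := Ha.symm_zero ht1'
      have g := key (e + t) (by
        rw [Ha.add_left, Ha.add_right, Ha.add_right, he, ht1', ht3, ht2]; ring)
        (by rw [Ha.add_right, he, ht3, add_zero]; exact one_ne_zero)
      rw [ro_add_right] at g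
      have := N.sub_mem g h
      rwa [add_sub_cancel_left] at this
    · have := N.smul_mem h 0
      rw [← ro_smul_right, zero_smul] at this
      exact this
    · intro s t _ _ hs ht
      rw [ro_add_right]; exact N.add_mem hs ht
    · intro c s _ hs
      rw [ro_smul_right]; exact N.smul_mem hs c
  have row : ∀ v, ro α Ha e v ∈ N := by
    intro v
    have g := perp (v - α v e • e) (by rw [Ha.sub_left, Ha.smul_left, he, mul_one, sub_self])
    have g2 := N.add_mem g (N.smul_mem h (α v e))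
    rwa [← ro_smul_right, ← ro_add_right, sub_add_cancel] at g2
  have g4 := N.mul_mem (row y) (ro_adj Ha na hadj (row x))
  rwa [ro_mul, he, one_smul] at g4

theorem alg_rank1 [Finite F] (Ha : HS σ α) (na : Nd α (⊤ : Submodule F E)) (hE : 2 ≤ finrank F E)
    (hex : finrank F E = 2 → ∃ μ ν : F, μ ≠ 0 ∧ ν ≠ 0 ∧ μ ≠ ν ∧ μ + σ μ = 0 ∧ ν + σ ν = 0)
    (N : Subalgebra F (Module.End F E))
    (hconj : ∀ p ∈ isom α, LinearMap.det ((p : E ≃ₗ[F] E) : E →ₗ[F] E) = 1 →
      ∀ ξ ∈ N, (p : Module.End F E) * ξ * ((p⁻¹ : E ≃ₗ[F] E) : Module.End F E) ∈ N)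
    (hadj : ∀ ξ ∈ N, ∃ ξ' ∈ N, ∀ x y, α (ξ x) y = α x (ξ' y)) (X : Module.End F E) (hX : X ∈ N)
    (hXs : ∀ x y, α (X x) y = - α x (X y)) (hXn : ¬ ∃ c : F, ∀ x, X x = c • x) : ∀ x y : E, ro α Ha x y ∈ N := by
  -- singular vectors with nonzero value
  have hsing : ∀ Y : Module.End F E, (¬ ∃ c : F, ∀ x, Y x = c • x) → ∃ a, α a a = 0 ∧ α (Y a) a ≠ 0 := by
    intro Y hY
    by_contra hcon
    push Not at hcon
    obtain ⟨κ, hκ⟩ := pol_form Ha na hE (fun x y => α (Y x) y)
      (fun x y z => by simp only [map_add, Ha.add_left])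
      (fun c x y => by simp only [map_smul, Ha.smul_left])
      (fun x y z => Ha.add_right _ _ _) (fun c x y => Ha.smul_right _ _ _) hcon
    apply hY
    refine ⟨κ, fun x => ?_⟩
    rw [← sub_eq_zero]
    by_contra hne
    obtain ⟨w, -, hw⟩ := na _ trivial hne
    apply hw
    have := hκ x w
    rw [Ha.sub_left, Ha.smul_left, ← this, sub_self]
  obtain ⟨a, haa, hγ⟩ := hsing X hXn
  have ha0 : a ≠ 0 := by rintro rfl; exact hγ (Ha.zero_right _)
  by_cases hq : ∃ μ ν : F, μ ≠ 0 ∧ ν ≠ 0 ∧ μ ≠ ν ∧ μ + σ μ = 0 ∧ ν + σ ν = 0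
  · obtain ⟨μ, ν, hμ0, hν0, hμν, hμ, hν⟩ := hq
    have h1 := alg_S Ha hconj hX hXs haa hμ0 hμ
    have h2 := alg_S Ha hconj hX hXs haa hν0 hν
    have h3 := N.smul_mem (N.sub_mem h1 h2) ((μ - ν) * α (X a) a)⁻¹
    have h4 : ((μ - ν) * α (X a) a)⁻¹ • ((ro α Ha a (X a) + ro α Ha (X a) a + (μ * α (X a) a) • ro α Ha a a) -
      (ro α Ha a (X a) + ro α Ha (X a) a + (ν * α (X a) a) • ro α Ha a a)) = ro α Ha a a := by
      rw [add_sub_add_left_eq_sub, ← sub_smul, ← sub_mul, smul_smul,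
        inv_mul_cancel₀ (mul_ne_zero (sub_ne_zero.2 hμν) hγ), one_smul]
    exact alg_all Ha na hconj hadj ha0 haa (h4 ▸ h3)
  -- the field of order four
  have hE3 : 3 ≤ finrank F E := by
    by_contra hlt
    exact hq (hex (by omega))
  obtain ⟨τ, hτ0, hτ⟩ := Ha.exists_tr0
  have h2 : (2 : F) = 0 := by
    by_contra h2
    apply hq
    refine ⟨τ, -τ, hτ0, neg_ne_zero.2 hτ0, ?_, hτ, by rw [map_neg]; linear_combination -hτ⟩
    intro h3
    have : 2 * τ = 0 := by linear_combination h3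
    rcases mul_eq_zero.1 this with h | h
    · exact h2 h
    · exact hτ0 h
  have h1 : ∀ c : F, c ≠ 0 → σ c = c → c = 1 := by
    intro c hc0 hc
    by_contra hc1
    exact hq ⟨c, 1, hc0, one_ne_zero, hc1, by rw [hc]; linear_combination c * h2, by rw [map_one]; linear_combination h2⟩
  have hsym : ∀ Y : Module.End F E, (∀ x y, α (Y x) y = - α x (Y y)) → ∀ x y, α (Y x) y = α x (Y y) := by
    intro Y hY x y
    rw [hY]; linear_combination (-α x (Y y)) * h2
  have t1 : (1 : F) + σ 1 = 0 := by rw [map_one]; linear_combination h2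
  have hXs' := hsym X hXs
  have hγ1 : α (X a) a = 1 := h1 _ hγ (by rw [← Ha.herm, hXs'])
  have hγ2 : α a (X a) = 1 := by rw [← hXs', hγ1]
  have hS := alg_S Ha hconj hX hXs haa one_ne_zero t1
  rw [one_mul, hγ1, one_smul] at hS
  set b := X a with hb
  set S : Module.End F E := ro α Ha a b + ro α Ha b a + ro α Ha a a with hSdef
  have hSz : ∀ z, S z = α z a • b + α z b • a + α z a • a := fun z => rfl
  have hSa : S a = a := by rw [hSz, haa, hγ2]; module
  have hSb : S b = b + (1 + α b b) • a := by rw [hSz, hγ1]; module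
  by_cases hδ : α b b = 1
  swap
  · have hδ0 : α b b = 0 := by
      by_contra h0
      exact hδ (h1 _ h0 (Ha.self_fixed b))
    have h3 := N.sub_mem (N.mul_mem hS hS) hS
    have h4 : S * S - S = ro α Ha a a := by
      apply LinearMap.ext
      intro z
      show S (S z) - S z = α z a • a
      rw [hSz z, map_add, map_add, map_smul, map_smul, map_smul, hSa, hSb, hδ0]
      module
    exact alg_all Ha na hconj hadj ha0 haa (h4 ▸ h3)
  · rw [hδ] at hSb
    have hSb' : S b = b := by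
      rw [hSb]
      have : (1 + 1 : F) = 0 := by linear_combination h2
      rw [this, zero_smul, add_zero]
    have hSS : ∀ z, S (S z) = S z := by
      intro z
      rw [hSz z, map_add, map_add, map_smul, map_smul, map_smul, hSa, hSb']
    have hSs : ∀ x y, α (S x) y = α x (S y) := by
      intro x y
      rw [hSz, hSz, Ha.add_left, Ha.add_left, Ha.add_right, Ha.add_right, Ha.smul_left, Ha.smul_left, Ha.smul_left,
        Ha.smul_right, Ha.smul_right, Ha.smul_right, ← Ha.herm, ← Ha.herm]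
      ring
    have hSn : ¬ ∃ c : F, ∀ x, S x = c • x := by
      rintro ⟨c, hc⟩
      have hc0 : c ≠ 0 := by
        rintro rfl
        have := hc a
        rw [hSa, zero_smul] at this
        exact ha0 this
      have hle : (⊤ : Submodule F E) ≤ Submodule.span F {a, b} := by
        intro x _
        have h3 : x = c⁻¹ • S x := by rw [hc, smul_smul, inv_mul_cancel₀ hc0, one_smul]
        rw [h3, hSz]
        refine Submodule.smul_mem _ _ (Submodule.add_mem _ (Submodule.add_mem _ ?_ ?_) ?_)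
        · exact Submodule.smul_mem _ _ (Submodule.subset_span (by simp))
        · exact Submodule.smul_mem _ _ (Submodule.subset_span (by simp))
        · exact Submodule.smul_mem _ _ (Submodule.subset_span (by simp))
      have h3 := Submodule.finrank_mono hle
      rw [finrank_top] at h3
      classical
      have h4 := finrank_span_finset_le_card (R := F) (M := E) ({a, b} : Finset E)
      have h5 : Finset.card ({a, b} : Finset E) ≤ 2 := Finset.card_le_two
      rw [Finset.coe_insert, Finset.coe_singleton] at h4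
      have h6 : finrank F E ≤ 2 := h3.trans (h4.trans h5)
      omega
    obtain ⟨c, hcc, hc⟩ := hsing S hSn
    have hc1 : α (S c) c = 1 := h1 _ hc (by rw [← Ha.herm, hSs])
    have hS' := alg_S Ha hconj hS (fun x y => by rw [hSs]; linear_combination (α x (S y)) * h2) hcc one_ne_zero t1
    rw [one_mul, hc1, one_smul] at hS'
    have h5 := N.mul_mem hS hS'
    have h6 : S * (ro α Ha c (S c) + ro α Ha (S c) c + ro α Ha c c) = ro α Ha (S c) (S c) := by
      apply LinearMap.ext
      intro z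
      show S (α z c • S c + α z (S c) • c + α z c • c) = α z (S c) • S c
      rw [map_add, map_add, map_smul, map_smul, map_smul, hSS]
      have : (α z c + α z c : F) = 0 := by linear_combination (α z c) * h2
      have e1 : α z c • S c + α z (S c) • S c + α z c • S c = (α z c + α z c) • S c + α z (S c) • S c := by module
      rw [e1, this, zero_smul, zero_add]
    rw [h6] at h5
    exact alg_all2 Ha na hE3 h2 h1 hconj hadj (e := S c) (by rw [hSs, hSS, ← hSs, hc1]) h5

end alg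

end Cfsg.Agent.Lib.TenUH94
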