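import Mathlib
import Cfsg.Agent.Lib.TenU1H94
import Cfsg.Agent.Lib.TenBrH94
import Cfsg.Agent.Lib.UnBridge

set_option autoImplicit false
set_option linter.unusedSectionVars false
set_option linter.unusedSimpArgs false
set_option linter.unusedVariables false

/-!
Bridge for tensor products of unitary forms.
-/

namespace Cfsg.Agent.Lib.TenUH94

open Module Cfsg Cfsg.Geo Cfsg.Agent.Lib.TenSLH94 Cfsg.Agent.Lib.UnTrans Cfsg.Agent.Lib.UnMax
  Cfsg.Agent.Lib.TenBrH94 Cfsg.Agent.Lib.GeoBridge Cfsg.Agent.Lib.TensorGeo Cfsg.Agent.Lib.UnBridge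
open Cfsg.Agent.Lib.SpTrans (isom mem_isom)
open scoped MatrixGroups Matrix Kronecker

variable {F : Type*} [Field F] {n₁ n₂ : ℕ}

/-- the forms are hermitian -/
theorem hs_of [Fintype F] {q k : ℕ} (hF : Fintype.card F = q ^ 2) {f : (Fin k → F) → (Fin k → F) → F}
    (hf : IsUnitaryFormPow q f) {c : F} (hc : sig hF c = c) : HS (sig hF) (fun x y => c * f x y) := by
  apply HS.of_finite (sig_inv hF) (sig_ne hF)
  · intro x y z
    simp only [hf.add_left]; ring
  · intro c x y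
    simp only [hf.smul_left]; ring
  · intro x y
    simp only [map_mul, hc]
    rw [sig_apply hF (f y x), ← hf.herm]

/-- the forms are nondegenerate -/
theorem nd_of_pow {q k : ℕ} {f : (Fin k → F) → (Fin k → F) → F}
    (hf : IsUnitaryFormPow q f) {c : F} (hc : c ≠ 0) :
    Nd (fun x y => c * f x y) (⊤ : Submodule F (Fin k → F)) := by
  intro x _ hx
  obtain ⟨y, hy⟩ := (hf.nondegenerate x hx).2
  exact ⟨y, trivial, mul_ne_zero hc hy⟩

/-- a third fixed element -/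
theorem exists_fixed [Fintype F] {q : ℕ} (hF : Fintype.card F = q ^ 2) (hq : q ≠ 2) :
    ∃ s : F, sig hF s = s ∧ s ≠ 0 ∧ s ≠ 1 := by
  classical
  by_contra hcon
  push Not at hcon
  have hq1 := one_lt_q hF
  have h1 : ∀ a : Fˣ, a ^ (q + 1) = 1 := by
    intro a
    have h2 := hcon ((a : F) * sig hF (a : F)) (by rw [map_mul, sig_inv]; ring)
      (mul_ne_zero a.ne_zero (by
        intro h0
        apply a.ne_zero
        rw [← sig_inv hF (a : F), h0, map_zero]))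
    rw [sig_apply] at h2
    ext
    rw [Units.val_pow_eq_pow_val, pow_succ, mul_comm, h2, Units.val_one]
  obtain ⟨g, hg⟩ := IsCyclic.exists_generator (α := Fˣ)
  have h2 := orderOf_dvd_of_pow_eq_one (h1 g)
  have h3 : orderOf g = q ^ 2 - 1 := by
    rw [orderOf_eq_card_of_forall_mem_zpowers hg, Nat.card_eq_fintype_card, Fintype.card_units, hF]
  have h4 := Nat.le_of_dvd (by omega) h2
  rw [h3] at h4
  have h5 : 3 ≤ q := by omega
  have h6 : 3 * q ≤ q ^ 2 := by rw [sq]; exact Nat.mul_le_mul_right q h5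
  omega

/-- the dual form -/
theorem exists_dual_un [Fintype F] {q : ℕ} (hF : Fintype.card F = q ^ 2)
    {f₂ : (Fin n₂ → F) → (Fin n₂ → F) → F} (hf₂ : IsUnitaryFormPow q f₂) :
    ∃ (m : (Fin n₂ → F) → (Fin n₂ → F)) (β : (Fin n₂ → F) → (Fin n₂ → F) → F) (Hb : HS (sig hF) β),
      (∀ b, Hb.fl b = be (m b)) ∧ (∀ b y, f₂ y (m b) = be y b) ∧ Nd β (⊤ : Submodule F (Fin n₂ → F)) := by
  have H2 : HS (sig hF) f₂ := by
    have := hs_of hF hf₂ (c := 1) (map_one _)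
    simpa only [one_mul] using this
  have N2 : Nd f₂ (⊤ : Submodule F (Fin n₂ → F)) := by
    have := nd_of_pow hf₂ (c := 1) one_ne_zero
    simpa only [one_mul] using this
  have hrep : ∀ b : Fin n₂ → F, ∃ u, ∀ y, f₂ y u = be y b := by
    intro b
    obtain ⟨u, hu⟩ := fl_surj H2 N2 (be b)
    refine ⟨u, fun y => ?_⟩
    have := DFunLike.congr_fun hu y
    rw [HS.fl_apply, be_apply, dotProduct_comm] at this
    rw [be_apply, this]
  choose m hm using hrep
  have Hb : HS (sig hF) (fun w b => be (m b) w) := by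
    apply HS.of_finite (sig_inv hF) (sig_ne hF)
    · intro x y z
      exact map_add _ _ _
    · intro c x y
      exact map_smul _ _ _
    · intro x y
      show be (m y) x = sig hF (be (m x) y)
      rw [← hm x (m y), ← hm y (m x)]
      exact H2.herm _ _
  refine ⟨m, fun w b => be (m b) w, Hb, fun b => rfl, fun b y => hm b y, ?_⟩
  intro w _ hw
  have hmw : m w ≠ 0 := by
    intro h0
    apply hw
    ext j
    have := hm w (Pi.single j 1)
    rw [h0, H2.zero_right, be_apply] at this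
    simpa using this.symm
  obtain ⟨j, hj⟩ := Function.ne_iff.1 hmw
  refine ⟨Pi.single j 1, trivial, ?_⟩
  apply Hb.symm_ne
  show be (m w) (Pi.single j 1) ≠ 0
  rw [be_apply]
  simpa using hj

/-- determinants of pairs -/
theorem det_pair {n : ℕ} (e : (Fin n) ≃ Fin n₁ × Fin n₂) (P : GL (Fin n) F) {p : (Fin n₁ → F) ≃ₗ[F] (Fin n₁ → F)}
    {q : (Fin n₂ → F) ≃ₗ[F] (Fin n₂ → F)} (hp : LinearMap.det ((p : (Fin n₁ → F) ≃ₗ[F] (Fin n₁ → F)) : (Fin n₁ → F) →ₗ[F] (Fin n₁ → F)) = 1)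
    (hq : LinearMap.det ((q : (Fin n₂ → F) ≃ₗ[F] (Fin n₂ → F)) : (Fin n₂ → F) →ₗ[F] (Fin n₂ → F)) = 1) :
    LinearMap.det ((phi e P (ac p q) : (Fin n → F) ≃ₗ[F] (Fin n → F)) : (Fin n → F) →ₗ[F] (Fin n → F)) = 1 := by
  obtain ⟨b, rfl⟩ := exists_ti q
  have h3 := det_ti b hq
  obtain ⟨a, rfl⟩ : ∃ a : GL (Fin n₁) F, le a = p := ⟨le.symm p, MulEquiv.apply_symm_apply _ _⟩
  refine det_phi_ac e P a b ?_ h3
  have h4 : ((le a : (Fin n₁ → F) ≃ₗ[F] (Fin n₁ → F)) : (Fin n₁ → F) →ₗ[F] (Fin n₁ → F)) =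
    Matrix.toLin' (a : Matrix (Fin n₁) (Fin n₁) F) := rfl
  rwa [h4, LinearMap.det_toLin'] at hp

/-- pairs of isometries are isometries -/
theorem ac_isom {E W : Type*} [AddCommGroup E] [Module F E] [FiniteDimensional F E]
    [AddCommGroup W] [Module F W] [FiniteDimensional F W] {σ : F →+* F} {α : E → E → F} {β : W → W → F}
    {h : (W →ₗ[F] E) → (W →ₗ[F] E) → F} (Ha : HS σ α) (Hb : HS σ β) (Hh : HS σ h)
    (nb : Nd β (⊤ : Submodule F W))
    (pol : ∀ (a : E) (b : W) (v : W →ₗ[F] E), h v (pt a (Hb.fl b)) = α (v b) a)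
    {p : E ≃ₗ[F] E} {q : W ≃ₗ[F] W} (hp : p ∈ isom α) (hq : q ∈ isom β) :
    (ac p q : (W →ₗ[F] E) ≃ₗ[F] (W →ₗ[F] E)) ∈ isom h := by
  have h1 : ∀ (u : W →ₗ[F] E) (a : E) (φ : Dual F W), h (ac p q u) (ac p q (pt a φ)) = h u (pt a φ) := by
    intro u a φ
    obtain ⟨b, rfl⟩ := fl_surj Hb nb φ
    have h2 : ac p q (pt a (Hb.fl b)) = pt (p a) (Hb.fl (q b)) := by
      apply LinearMap.ext
      intro w
      rw [ac_apply, pt_apply, pt_apply, map_smul]
      show β (q.symm w) b • p a = β w (q b) • p a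
      rw [← hq (q.symm w) b, LinearEquiv.apply_symm_apply]
    rw [h2, pol, pol, ac_apply, LinearEquiv.symm_apply_apply]
    exact hp _ _
  intro x y
  have h3 : (Hh.fl (ac p q y)) ∘ₗ ((ac p q : (W →ₗ[F] E) ≃ₗ[F] (W →ₗ[F] E)) : (W →ₗ[F] E) →ₗ[F] (W →ₗ[F] E)) = Hh.fl y := by
    apply ext_pt
    intro a φ
    show h (ac p q (pt a φ)) (ac p q y) = h (pt a φ) y
    rw [Hh.herm, h1, ← Hh.herm]
  exact DFunLike.congr_fun h3 x

/-- **The bridge.** -/
theorem br_main [Fintype F] {n q : ℕ} (hF : Fintype.card F = q ^ 2) (hn : 13 ≤ n) (h1 : 2 ≤ n₁) (h12 : n₁ < n₂)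
    (hex : ¬ (n₁ = 2 ∧ q = 2)) (e : (Fin n) ≃ Fin n₁ × Fin n₂) (P : GL (Fin n) F)
    {f₁ : (Fin n₁ → F) → (Fin n₁ → F) → F} {f₂ : (Fin n₂ → F) → (Fin n₂ → F) → F} (hf₁ : IsUnitaryFormPow q f₁)
    (hf₂ : IsUnitaryFormPow q f₂) (hT : IsTensorFormStructure (fun x : F => x ^ q) (hermForm n F q) f₁ f₂ e P)
    (main : ∀ {σ : F →+* F} {α : (Fin n₁ → F) → (Fin n₁ → F) → F} {β : (Fin n₂ → F) → (Fin n₂ → F) → F}
      {h : ((Fin n₂ → F) →ₗ[F] (Fin n₁ → F)) → ((Fin n₂ → F) →ₗ[F] (Fin n₁ → F)) → F}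
      (Ha : HS σ α) (Hb : HS σ β) (Hh : HS σ h)
      (M : Subgroup (((Fin n₂ → F) →ₗ[F] (Fin n₁ → F)) ≃ₗ[F] ((Fin n₂ → F) →ₗ[F] (Fin n₁ → F)))),
      TU Ha Hb Hh M → (finrank F (Fin n₁ → F) = 2 → ∃ μ ν : F, μ ≠ 0 ∧ ν ≠ 0 ∧ μ ≠ ν ∧ μ + σ μ = 0 ∧ ν + σ ν = 0) →
      tgrp Hh ⊤ ≤ M ∨ ∀ g ∈ M, Pr g) :
    IsMaximalIn (GU n F q ⊓ specialLinear (Fin n) F)
      (tensorProductSubgroup n₁ n₂ e P ⊓ (GU n F q ⊓ specialLinear (Fin n) F)) := by
  obtain ⟨c, hc, hT⟩ := hT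
  have H0 : HS (sig hF) (hermForm n F q) := herm_HS n hF
  have N0 : Nd (hermForm n F q) (⊤ : Submodule F (Fin n → F)) := herm_nd n hF
  have H1 : HS (sig hF) f₁ := by
    have := hs_of hF hf₁ (c := 1) (map_one _)
    simpa only [one_mul] using this
  have H2 : HS (sig hF) f₂ := by
    have := hs_of hF hf₂ (c := 1) (map_one _)
    simpa only [one_mul] using this
  have pol0 : ∀ x₁ y₁ x₂ y₂, hermForm n F q (tp e P x₁ x₂) (tp e P y₁ y₂) = c * (f₁ x₁ y₁ * f₂ x₂ y₂) := by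
    intro x₁ y₁ x₂ y₂
    exact form_tp (σ := fun x : F => x ^ q) (fun a b => mul_pow _ _ _)
      (eq_formOfGram (σ := fun x : F => x ^ q) H1.add_left H1.smul_left H1.add_right
        (fun c x y => by rw [H1.smul_right, sig_apply]))
      (eq_formOfGram (σ := fun x : F => x ^ q) H2.add_left H2.smul_left H2.add_right
        (fun c x y => by rw [H2.smul_right, sig_apply])) hT x₁ y₁ x₂ y₂
  -- c is fixed
  have hσc : sig hF c = c := by
    obtain ⟨x₁, hx₁⟩ : ∃ x : Fin n₁ → F, x ≠ 0 := ⟨Pi.single ⟨0, by omega⟩ 1, by simp⟩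
    obtain ⟨x₂, hx₂⟩ : ∃ x : Fin n₂ → F, x ≠ 0 := ⟨Pi.single ⟨0, by omega⟩ 1, by simp⟩
    obtain ⟨y₁, hy₁⟩ := (hf₁.nondegenerate x₁ hx₁).2
    obtain ⟨y₂, hy₂⟩ := (hf₂.nondegenerate x₂ hx₂).2
    have e1 := H0.herm (tp e P x₁ x₂) (tp e P y₁ y₂)
    rw [pol0, pol0, map_mul, map_mul, ← H1.herm, ← H2.herm] at e1
    exact (mul_right_cancel₀ (mul_ne_zero hy₁ hy₂) e1).symm
  obtain ⟨m, β, Hb, hβm, hm, nb⟩ := exists_dual_un hF hf₂
  obtain ⟨α, hα⟩ : ∃ α : (Fin n₁ → F) → (Fin n₁ → F) → F, α = fun x y => c * f₁ x y := ⟨_, rfl⟩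
  have Ha : HS (sig hF) α := by rw [hα]; exact hs_of hF hf₁ hσc
  have na : Nd α (⊤ : Submodule F (Fin n₁ → F)) := by rw [hα]; exact nd_of_pow hf₁ hc
  obtain ⟨h, hh⟩ : ∃ h : ((Fin n₂ → F) →ₗ[F] (Fin n₁ → F)) → ((Fin n₂ → F) →ₗ[F] (Fin n₁ → F)) → F,
      ∀ u v, h u v = hermForm n F q (Th e P u) (Th e P v) := ⟨fun u v => hermForm n F q (Th e P u) (Th e P v), fun _ _ => rfl⟩
  have Hh : HS (sig hF) h := by
    apply HS.of_finite (sig_inv hF) (sig_ne hF)
    · intro x y z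
      rw [hh, hh, hh, map_add, H0.add_left]
    · intro c x y
      rw [hh, hh, map_smul, H0.smul_left]
    · intro x y
      rw [hh, hh, H0.herm]
  have nh : Nd h (⊤ : Submodule F ((Fin n₂ → F) →ₗ[F] (Fin n₁ → F))) := by
    intro x _ hx
    obtain ⟨y, -, hy⟩ := N0 (Th e P x) trivial (fun h0 => hx ((Th e P).map_eq_zero_iff.1 h0))
    refine ⟨(Th e P).symm y, trivial, ?_⟩
    rwa [hh, LinearEquiv.apply_symm_apply]
  have pol : ∀ (a : Fin n₁ → F) (b : Fin n₂ → F) (v : (Fin n₂ → F) →ₗ[F] (Fin n₁ → F)),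
      h v (pt a (Hb.fl b)) = α (v b) a := by
    intro a b v
    have h1 : (Hh.fl (pt a (Hb.fl b))) = (Ha.fl a) ∘ₗ (LinearMap.applyₗ b) := by
      apply ext_pt
      intro x ψ
      obtain ⟨y, rfl⟩ := be_surj ψ
      show h (pt x (be y)) (pt a (Hb.fl b)) = α ((pt x (be y)) b) a
      rw [hh, hβm, Th_pt, Th_pt, pol0, hm, pt_apply, Ha.smul_left, hα]
      ring
    exact DFunLike.congr_fun h1 v
  have hcard : n = n₁ * n₂ := by
    have := Fintype.card_congr e
    rwa [Fintype.card_fin, Fintype.card_prod, Fintype.card_fin, Fintype.card_fin] at this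
  have hn2 : 5 ≤ n₂ := by
    by_contra hcon
    have h4 : n₂ ≤ 4 := by omega
    have h5 : n₁ ≤ 3 := by omega
    have : n₁ * n₂ ≤ 3 * 4 := Nat.mul_le_mul h5 h4
    omega
  have hfE : finrank F (Fin n₁ → F) = n₁ := by rw [finrank_fintype_fun_eq_card, Fintype.card_fin]
  have hfW : finrank F (Fin n₂ → F) = n₂ := by rw [finrank_fintype_fun_eq_card, Fintype.card_fin]
  have hfV : finrank F ((Fin n₂ → F) →ₗ[F] (Fin n₁ → F)) = n := by rw [finrank_linearMap, hfE, hfW, hcard, mul_comm]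
  have hiso : ∀ g, phi e P g ∈ isom (hermForm n F q) ↔ g ∈ isom h := by
    intro g
    constructor
    · intro hg x y
      rw [hh, hh]
      have := hg (Th e P x) (Th e P y)
      rw [phi_apply, phi_apply, LinearEquiv.symm_apply_apply, LinearEquiv.symm_apply_apply] at this
      exact this
    · intro hg x y
      rw [phi_apply, phi_apply, ← hh, hg, hh, LinearEquiv.apply_symm_apply, LinearEquiv.apply_symm_apply]
  refine SU_max_of (K := tensorProductSubgroup n₁ n₂ e P) (P := fun g => ∃ p q, g = phi e P (ac p q)) n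
    (fun g => by
      have := mem_iff e P (le g)
      rwa [MulEquiv.symm_apply_apply] at this) ?_ ?_
  · -- an isometry that is not a pair
    obtain ⟨w, -, hw0, hw⟩ := exists_sing Hh (U := ⊤) (by rw [finrank_top, hfV]; omega)
    obtain ⟨τ, hτ, hτ0⟩ := Hh.exists_tr0
    refine ⟨phi e P (tv Hh w hw τ hτ0), (hiso _).2 (tv_mem Hh w hw τ hτ0), by rw [phi_det]; exact tv_det Hh w hw τ hτ0, ?_⟩
    rintro ⟨p, q', hpq⟩
    have hpq := phi_inj e P hpq
    have h1 := finrank_span1 (F := F) w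
    obtain ⟨b, hb, hD⟩ := ac_small (p := p) (q := q') (D := Submodule.span F {w}) (by rw [hfE]; omega)
      (by rw [hfE, hfW]; exact h12) (by
      intro v
      rw [← hpq, tv_apply, add_sub_cancel_left]
      exact Submodule.smul_mem _ _ (Submodule.mem_span_singleton_self w)) (by rw [hfE]; omega) (by
      rw [← hpq]
      intro h2
      obtain ⟨v, -, hv⟩ := nh w trivial hw0
      have h3 : tv Hh w hw τ hτ0 v = v := by rw [h2]; rfl
      rw [tv_apply, add_eq_left] at h3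
      rcases smul_eq_zero.1 h3 with h4 | h4
      · rcases mul_eq_zero.1 h4 with h5 | h5
        · exact hτ h5
        · exact (Hh.symm_ne hv) h5
      · exact hw0 h4)
    have h2 := finrank_sp (E := Fin n₁ → F) hb
    rw [← hD, hfE] at h2
    omega
  · intro M hM hH hMd hMex g hg hgd
    have T : TU Ha Hb Hh (M.comap (phi e P)) :=
      { na := na
        nb := nb
        nh := nh
        hE := by rw [hfE]; exact h1
        hW := by rw [hfW]; exact hn2
        hEW := by rw [hfE, hfW]; exact h12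
        pol := pol
        hM := fun g hg => (hiso g).1 (hM hg)
        tA := fun p hp hpd => hH _ ((hiso _).2 (ac_isom Ha Hb Hh nb pol hp (one_mem _)))
          (det_pair e P hpd (by exact LinearMap.det_id)) ⟨_, _, rfl⟩
        tB := fun q hq hqd => hH _ ((hiso _).2 (ac_isom Ha Hb Hh nb pol (one_mem _) hq))
          (det_pair e P (by exact LinearMap.det_id) hqd) ⟨_, _, rfl⟩ }
    rcases main Ha Hb Hh _ T (by
      intro h2
      rw [hfE] at h2
      obtain ⟨s, hs, hs0, hs1⟩ := exists_fixed hF (fun hq2 => hex ⟨h2, hq2⟩)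
      obtain ⟨τ, hτ, hτ0⟩ := Hh.exists_tr0
      refine ⟨τ, s * τ, hτ, mul_ne_zero hs0 hτ, ?_, hτ0, ?_⟩
      · intro h3
        apply hs1
        apply mul_right_cancel₀ hτ
        rw [← h3, one_mul]
      · rw [map_mul, hs]
        linear_combination s * hτ0) with h | h
    · obtain ⟨x, rfl⟩ := phi_surj e P g
      refine h (su_le Hh nh (by rw [hfV]; omega) ((hiso x).1 hg) ?_)
      rw [← phi_det e P]
      exact hgd
    · exfalso
      obtain ⟨g, hg, hgn⟩ := hMex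
      obtain ⟨x, rfl⟩ := phi_surj e P g
      obtain ⟨p, q, hpq⟩ := h x hg
      exact hgn ⟨p, q, by rw [hpq]⟩

end Cfsg.Agent.Lib.TenUH94
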