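import Mathlib
import Cfsg.Agent.Lib.TenUBr

set_option autoImplicit false
set_option linter.unusedSectionVars false
set_option linter.unusedSimpArgs false
set_option linter.unusedVariables false

/-!
Bridge for tensor products of unitary forms, all degrees.
-/

namespace Cfsg.Agent.Lib.TenUH94

open Module Cfsg Cfsg.Geo Cfsg.Agent.Lib.TenSLH94 Cfsg.Agent.Lib.UnTrans Cfsg.Agent.Lib.UnMax
  Cfsg.Agent.Lib.TenBrH94 Cfsg.Agent.Lib.GeoBridge Cfsg.Agent.Lib.TensorGeo Cfsg.Agent.Lib.UnBridge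
open Cfsg.Agent.Lib.SpTrans (isom mem_isom)
open scoped MatrixGroups Matrix Kronecker

variable {F : Type*} [Field F] {n₁ n₂ : ℕ}

/-- **The bridge**, the conclusion of the main theorem being a hypothesis; any degrees `2 ≤ n₁ < n₂`. -/
theorem br_gen [Fintype F] {n q : ℕ} (hF : Fintype.card F = q ^ 2) (h1 : 2 ≤ n₁) (h12 : n₁ < n₂)
    (hex : ¬ (n₁ = 2 ∧ q = 2)) (e : (Fin n) ≃ Fin n₁ × Fin n₂) (P : GL (Fin n) F)
    {f₁ : (Fin n₁ → F) → (Fin n₁ → F) → F} {f₂ : (Fin n₂ → F) → (Fin n₂ → F) → F} (hf₁ : IsUnitaryFormPow q f₁)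
    (hf₂ : IsUnitaryFormPow q f₂) (hT : IsTensorFormStructure (fun x : F => x ^ q) (hermForm n F q) f₁ f₂ e P)
    (main : ∀ {σ : F →+* F} {α : (Fin n₁ → F) → (Fin n₁ → F) → F} {β : (Fin n₂ → F) → (Fin n₂ → F) → F}
      {h : ((Fin n₂ → F) →ₗ[F] (Fin n₁ → F)) → ((Fin n₂ → F) →ₗ[F] (Fin n₁ → F)) → F}
      (Ha : HS σ α) (Hb : HS σ β) (Hh : HS σ h)
      (M : Subgroup (((Fin n₂ → F) →ₗ[F] (Fin n₁ → F)) ≃ₗ[F] ((Fin n₂ → F) →ₗ[F] (Fin n₁ → F)))),
      Nd α (⊤ : Submodule F (Fin n₁ → F)) → Nd β (⊤ : Submodule F (Fin n₂ → F)) →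
      Nd h (⊤ : Submodule F ((Fin n₂ → F) →ₗ[F] (Fin n₁ → F))) →
      (∀ (a : Fin n₁ → F) (b : Fin n₂ → F) (v : (Fin n₂ → F) →ₗ[F] (Fin n₁ → F)), h v (pt a (Hb.fl b)) = α (v b) a) →
      M ≤ isom h →
      (∀ p ∈ isom α, LinearMap.det ((p : (Fin n₁ → F) ≃ₗ[F] (Fin n₁ → F)) : (Fin n₁ → F) →ₗ[F] (Fin n₁ → F)) = 1 →
        ac p 1 ∈ M) →
      (∀ q ∈ isom β, LinearMap.det ((q : (Fin n₂ → F) ≃ₗ[F] (Fin n₂ → F)) : (Fin n₂ → F) →ₗ[F] (Fin n₂ → F)) = 1 →
        ac 1 q ∈ M) →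
      (finrank F (Fin n₁ → F) = 2 → ∃ μ ν : F, μ ≠ 0 ∧ ν ≠ 0 ∧ μ ≠ ν ∧ μ + σ μ = 0 ∧ ν + σ ν = 0) →
      tgrp Hh ⊤ ≤ M ∨ ∀ g ∈ M, Pr g) :
    IsMaximalIn (GU n F q ⊓ specialLinear (Fin n) F)
      (tensorProductSubgroup n₁ n₂ e P ⊓ (GU n F q ⊓ specialLinear (Fin n) F)) := by
  obtain ⟨c, hc, hT⟩ := hT
  have H0 : HS (sig hF) (hermForm n F q) := herm_HS n hF
  have N0 : Nd (hermForm n F q) (⊤ : Submodule F (Fin n → F)) := herm_nd n hF
  have H1 : HS (sig hF) f₁ := by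
    have := hs_of hF hf₁ (c := 1) (map_one _)
    simpa only [one_mul] using this
  have H2 : HS (sig hF) f₂ := by
    have := hs_of hF hf₂ (c := 1) (map_one _)
    simpa only [one_mul] using this
  have pol0 : ∀ x₁ y₁ x₂ y₂, hermForm n F q (tp e P x₁ x₂) (tp e P y₁ y₂) = c * (f₁ x₁ y₁ * f₂ x₂ y₂) := by
    intro x₁ y₁ x₂ y₂
    exact form_tp (σ := fun x : F => x ^ q) (fun a b => mul_pow _ _ _)
      (eq_formOfGram (σ := fun x : F => x ^ q) H1.add_left H1.smul_left H1.add_right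
        (fun c x y => by rw [H1.smul_right, sig_apply]))
      (eq_formOfGram (σ := fun x : F => x ^ q) H2.add_left H2.smul_left H2.add_right
        (fun c x y => by rw [H2.smul_right, sig_apply])) hT x₁ y₁ x₂ y₂
  -- c is fixed
  have hσc : sig hF c = c := by
    obtain ⟨x₁, hx₁⟩ : ∃ x : Fin n₁ → F, x ≠ 0 := ⟨Pi.single ⟨0, by omega⟩ 1, by simp⟩
    obtain ⟨x₂, hx₂⟩ : ∃ x : Fin n₂ → F, x ≠ 0 := ⟨Pi.single ⟨0, by omega⟩ 1, by simp⟩
    obtain ⟨y₁, hy₁⟩ := (hf₁.nondegenerate x₁ hx₁).2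
    obtain ⟨y₂, hy₂⟩ := (hf₂.nondegenerate x₂ hx₂).2
    have e1 := H0.herm (tp e P x₁ x₂) (tp e P y₁ y₂)
    rw [pol0, pol0, map_mul, map_mul, ← H1.herm, ← H2.herm] at e1
    exact (mul_right_cancel₀ (mul_ne_zero hy₁ hy₂) e1).symm
  obtain ⟨m, β, Hb, hβm, hm, nb⟩ := exists_dual_un hF hf₂
  obtain ⟨α, hα⟩ : ∃ α : (Fin n₁ → F) → (Fin n₁ → F) → F, α = fun x y => c * f₁ x y := ⟨_, rfl⟩
  have Ha : HS (sig hF) α := by rw [hα]; exact hs_of hF hf₁ hσc
  have na : Nd α (⊤ : Submodule F (Fin n₁ → F)) := by rw [hα]; exact nd_of_pow hf₁ hc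
  obtain ⟨h, hh⟩ : ∃ h : ((Fin n₂ → F) →ₗ[F] (Fin n₁ → F)) → ((Fin n₂ → F) →ₗ[F] (Fin n₁ → F)) → F,
      ∀ u v, h u v = hermForm n F q (Th e P u) (Th e P v) := ⟨fun u v => hermForm n F q (Th e P u) (Th e P v), fun _ _ => rfl⟩
  have Hh : HS (sig hF) h := by
    apply HS.of_finite (sig_inv hF) (sig_ne hF)
    · intro x y z
      rw [hh, hh, hh, map_add, H0.add_left]
    · intro c x y
      rw [hh, hh, map_smul, H0.smul_left]
    · intro x y
      rw [hh, hh, H0.herm]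
  have nh : Nd h (⊤ : Submodule F ((Fin n₂ → F) →ₗ[F] (Fin n₁ → F))) := by
    intro x _ hx
    obtain ⟨y, -, hy⟩ := N0 (Th e P x) trivial (fun h0 => hx ((Th e P).map_eq_zero_iff.1 h0))
    refine ⟨(Th e P).symm y, trivial, ?_⟩
    rwa [hh, LinearEquiv.apply_symm_apply]
  have pol : ∀ (a : Fin n₁ → F) (b : Fin n₂ → F) (v : (Fin n₂ → F) →ₗ[F] (Fin n₁ → F)),
      h v (pt a (Hb.fl b)) = α (v b) a := by
    intro a b v
    have h1 : (Hh.fl (pt a (Hb.fl b))) = (Ha.fl a) ∘ₗ (LinearMap.applyₗ b) := by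
      apply ext_pt
      intro x ψ
      obtain ⟨y, rfl⟩ := be_surj ψ
      show h (pt x (be y)) (pt a (Hb.fl b)) = α ((pt x (be y)) b) a
      rw [hh, hβm, Th_pt, Th_pt, pol0, hm, pt_apply, Ha.smul_left, hα]
      ring
    exact DFunLike.congr_fun h1 v
  have hcard : n = n₁ * n₂ := by
    have := Fintype.card_congr e
    rwa [Fintype.card_fin, Fintype.card_prod, Fintype.card_fin, Fintype.card_fin] at this
  have hn6 : 6 ≤ n := by
    have : 2 * 3 ≤ n₁ * n₂ := Nat.mul_le_mul h1 (by omega)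
    omega
  have hfE : finrank F (Fin n₁ → F) = n₁ := by rw [finrank_fintype_fun_eq_card, Fintype.card_fin]
  have hfW : finrank F (Fin n₂ → F) = n₂ := by rw [finrank_fintype_fun_eq_card, Fintype.card_fin]
  have hfV : finrank F ((Fin n₂ → F) →ₗ[F] (Fin n₁ → F)) = n := by rw [finrank_linearMap, hfE, hfW, hcard, mul_comm]
  have hiso : ∀ g, phi e P g ∈ isom (hermForm n F q) ↔ g ∈ isom h := by
    intro g
    constructor
    · intro hg x y
      rw [hh, hh]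
      have := hg (Th e P x) (Th e P y)
      rw [phi_apply, phi_apply, LinearEquiv.symm_apply_apply, LinearEquiv.symm_apply_apply] at this
      exact this
    · intro hg x y
      rw [phi_apply, phi_apply, ← hh, hg, hh, LinearEquiv.apply_symm_apply, LinearEquiv.apply_symm_apply]
  refine SU_max_of (K := tensorProductSubgroup n₁ n₂ e P) (P := fun g => ∃ p q, g = phi e P (ac p q)) n
    (fun g => by
      have := mem_iff e P (le g)
      rwa [MulEquiv.symm_apply_apply] at this) ?_ ?_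
  · -- an isometry that is not a pair
    obtain ⟨w, -, hw0, hw⟩ := exists_sing Hh (U := ⊤) (by rw [finrank_top, hfV]; omega)
    obtain ⟨τ, hτ, hτ0⟩ := Hh.exists_tr0
    refine ⟨phi e P (tv Hh w hw τ hτ0), (hiso _).2 (tv_mem Hh w hw τ hτ0), by rw [phi_det]; exact tv_det Hh w hw τ hτ0, ?_⟩
    rintro ⟨p, q', hpq⟩
    have hpq := phi_inj e P hpq
    have h1 := finrank_span1 (F := F) w
    obtain ⟨b, hb, hD⟩ := ac_small (p := p) (q := q') (D := Submodule.span F {w}) (by rw [hfE]; omega)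
      (by rw [hfE, hfW]; exact h12) (by
      intro v
      rw [← hpq, tv_apply, add_sub_cancel_left]
      exact Submodule.smul_mem _ _ (Submodule.mem_span_singleton_self w)) (by rw [hfE]; omega) (by
      rw [← hpq]
      intro h2
      obtain ⟨v, -, hv⟩ := nh w trivial hw0
      have h3 : tv Hh w hw τ hτ0 v = v := by rw [h2]; rfl
      rw [tv_apply, add_eq_left] at h3
      rcases smul_eq_zero.1 h3 with h4 | h4
      · rcases mul_eq_zero.1 h4 with h5 | h5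
        · exact hτ h5
        · exact (Hh.symm_ne hv) h5
      · exact hw0 h4)
    have h2 := finrank_sp (E := Fin n₁ → F) hb
    rw [← hD, hfE] at h2
    omega
  · intro M hM hH hMd hMex g hg hgd
    rcases main Ha Hb Hh (M.comap (phi e P)) na nb nh pol (fun g hg => (hiso g).1 (hM hg))
      (fun p hp hpd => hH _ ((hiso _).2 (ac_isom Ha Hb Hh nb pol hp (one_mem _)))
          (det_pair e P hpd (by exact LinearMap.det_id)) ⟨_, _, rfl⟩)
      (fun q hq hqd => hH _ ((hiso _).2 (ac_isom Ha Hb Hh nb pol (one_mem _) hq))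
          (det_pair e P (by exact LinearMap.det_id) hqd) ⟨_, _, rfl⟩) (by
      intro h2
      rw [hfE] at h2
      obtain ⟨s, hs, hs0, hs1⟩ := exists_fixed hF (fun hq2 => hex ⟨h2, hq2⟩)
      obtain ⟨τ, hτ, hτ0⟩ := Hh.exists_tr0
      refine ⟨τ, s * τ, hτ, mul_ne_zero hs0 hτ, ?_, hτ0, ?_⟩
      · intro h3
        apply hs1
        apply mul_right_cancel₀ hτ
        rw [← h3, one_mul]
      · rw [map_mul, hs]
        linear_combination s * hτ0) with h | h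
    · obtain ⟨x, rfl⟩ := phi_surj e P g
      refine h (su_le Hh nh (by rw [hfV]; omega) ((hiso x).1 hg) ?_)
      rw [← phi_det e P]
      exact hgd
    · exfalso
      obtain ⟨g, hg, hgn⟩ := hMex
      obtain ⟨x, rfl⟩ := phi_surj e P g
      obtain ⟨p, q, hpq⟩ := h x hg
      exact hgn ⟨p, q, by rw [hpq]⟩


end Cfsg.Agent.Lib.TenUH94
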