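import Mathlib
import Cfsg.Agent.Lib.TenU1H94
import Cfsg.Agent.Lib.Involutions

set_option autoImplicit false
set_option linter.unusedSectionVars false
set_option linter.unusedSimpArgs false
set_option linter.unusedVariables false

/-!
Overgroups of `SU ⊗ SU` in unitary groups: even characteristic.
-/

namespace Cfsg.Agent.Lib.TenUH94

open Module Cfsg.Agent.Lib.TenSLH94 Cfsg.Agent.Lib.UnTrans Cfsg.Agent.Lib.UnMax
open Cfsg.Agent.Lib.SpTrans (isom mem_isom)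

section gen

/-- two involutions are conjugate in the group they generate, or there is a central involution -/
theorem ev_dih {G : Type*} [Group G] [Finite G] {a d : G} (ha : orderOf a = 2) (hd : orderOf d = 2) :
    (∃ c ∈ Subgroup.closure ({a, d} : Set G), c * a * c⁻¹ = d) ∨
    ∃ i ∈ Subgroup.closure ({a, d} : Set G), i ≠ 1 ∧ i * i = 1 ∧ i * a = a * i ∧ i * d = d * i := by
  have ham : a ∈ Subgroup.closure ({a, d} : Set G) := Subgroup.subset_closure (by simp)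
  have hdm : d ∈ Subgroup.closure ({a, d} : Set G) := Subgroup.subset_closure (by simp)
  rcases Nat.even_or_odd (orderOf (a * d)) with he | ho
  · right
    have h1 := Involutions.orderOf_pow_half he (orderOf_pos (a * d))
    exact ⟨(a * d) ^ (orderOf (a * d) / 2), pow_mem (mul_mem ham hdm) _, Involutions.ne_one h1, Involutions.mul_self h1,
      (Involutions.commute_pow_half (Involutions.conj_mul_left ha hd) he).eq,
      (Involutions.commute_pow_half (Involutions.conj_mul_right ha hd) he).eq⟩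
  · left
    exact Involutions.exists_conj_of_odd ha hd ho

variable {F V : Type*} [Field F] [AddCommGroup V] [Module F V]

theorem ev_clo_sub {a d : V ≃ₗ[F] V} {S : Submodule F V} (ha : ∀ v, a v - v ∈ S) (hd : ∀ v, d v - v ∈ S)
    {g : V ≃ₗ[F] V} (hg : g ∈ Subgroup.closure ({a, d} : Set (V ≃ₗ[F] V))) : ∀ v, g v - v ∈ S := by
  induction hg using Subgroup.closure_induction with
  | mem x hx =>
    rcases hx with rfl | rfl
    · exact ha
    · exact hd
  | one => intro v; rw [LinearEquiv.coe_one, id, sub_self]; exact S.zero_mem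
  | mul x y _ _ hx hy =>
    intro v
    have := S.add_mem (hx (y v)) (hy v)
    rwa [sub_add_sub_cancel] at this
  | inv x _ hx =>
    intro v
    have := S.neg_mem (hx (x⁻¹ v))
    rw [neg_sub, ← LinearEquiv.mul_apply, mul_inv_cancel] at this
    exact this

theorem ev_clo_fix {a d : V ≃ₗ[F] V} {v : V} (ha : a v = v) (hd : d v = v)
    {g : V ≃ₗ[F] V} (hg : g ∈ Subgroup.closure ({a, d} : Set (V ≃ₗ[F] V))) : g v = v := by
  induction hg using Subgroup.closure_induction with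
  | mem x hx =>
    rcases hx with rfl | rfl
    · exact ha
    · exact hd
  | one => rfl
  | mul x y _ _ hx hy => rw [LinearEquiv.mul_apply, hy, hx]
  | inv x _ hx =>
    conv_lhs => rw [← hx]
    rw [← LinearEquiv.mul_apply, inv_mul_cancel]; rfl

theorem ev_clo_comm {G : Type*} [Group G] {a d s : G} (ha : s * a = a * s) (hd : s * d = d * s)
    {g : G} (hg : g ∈ Subgroup.closure ({a, d} : Set G)) : s * g = g * s := by
  have h1 : Subgroup.closure ({a, d} : Set G) ≤ Subgroup.centralizer {s} := by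
    rw [Subgroup.closure_le]
    rintro x (rfl | rfl)
    · exact Subgroup.mem_centralizer_singleton_iff.2 ha.symm
    · exact Subgroup.mem_centralizer_singleton_iff.2 hd.symm
  exact (Subgroup.mem_centralizer_singleton_iff.1 (h1 hg)).symm

theorem ev_ord {G : Type*} [Group G] {x : G} (h1 : x * x = 1) (h2 : x ≠ 1) : orderOf x = 2 :=
  Involutions.orderOf_eq_two_iff'.2 ⟨h1, h2⟩

end gen

variable {F E W : Type*} [Field F] [AddCommGroup E] [Module F E] [FiniteDimensional F E]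
  [AddCommGroup W] [Module F W] [FiniteDimensional F W]

variable {σ : F →+* F} {α : E → E → F} {β : W → W → F} {h : (W →ₗ[F] E) → (W →ₗ[F] E) → F}
  {Ha : HS σ α} {Hb : HS σ β} {Hh : HS σ h} {M : Subgroup ((W →ₗ[F] E) ≃ₗ[F] (W →ₗ[F] E))}

namespace TU

variable (T : TU Ha Hb Hh M)
include T

theorem ev_root (h2 : (2 : F) = 0) {b : W} (hb : β b b = 0) : ∃ x ∈ M, ∀ v, x v = v + pt (v b) (Hb.fl b) := by
  obtain ⟨x, hx, -, hv⟩ := T.xb hb (μ := 1) (by rw [map_one]; linear_combination h2)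
  exact ⟨x, hx, fun v => by rw [hv, one_smul]⟩

theorem ev_sep {S : Submodule F W} {w : W} (hw : w ∉ S) : ∃ t, β t w = 1 ∧ ∀ s ∈ S, β t s = 0 := by
  obtain ⟨φ, h1, h2⟩ := exists_dual hw
  obtain ⟨t, rfl⟩ := T.rep φ
  have h3 : β w t = 1 := h1
  exact ⟨t, by rw [Hb.herm, h3, map_one], fun s hs => Hb.symm_zero (h2 s hs)⟩

theorem ev_span {S : Submodule F W} {w : W} {x : E} (hx : x ≠ 0)
    (h : ∀ t, (∀ s ∈ S, β t s = 0) → pt x (Hb.fl w) t = 0) : w ∈ S := by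
  by_contra hw
  obtain ⟨t, h1, h2⟩ := T.ev_sep hw
  have := h t h2
  rw [pt_apply, HS.fl_apply, h1, one_smul] at this
  exact hx this

theorem ev_exE : ∃ x : E, x ≠ 0 := by
  have : Nontrivial E := Module.finrank_pos_iff (R := F).1 (by have := T.hE; omega)
  exact exists_ne 0

theorem ev_scalar {S : Submodule F W} {i : (W →ₗ[F] E) ≃ₗ[F] (W →ₗ[F] E)} (hi : i ∈ M) (hp : Pr i) {w : W}
    (hw : w ∉ S) (h : ∀ x t, (∀ s ∈ S, β t s = 0) → i (pt x (Hb.fl w)) t = pt x (Hb.fl w) t) :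
    ∃ q ∈ isom β, i = ac 1 q := by
  obtain ⟨y, s, rfl⟩ := hp
  obtain ⟨t, h1, h2⟩ := T.ev_sep hw
  have h3 : ∀ x, β (s.symm t) w • y x = x := by
    intro x
    have := h x t h2
    rw [ac_apply, pt_apply, pt_apply, HS.fl_apply, HS.fl_apply, h1, one_smul, map_smul] at this
    exact this
  obtain ⟨c, hc⟩ : ∃ c, β (s.symm t) w = c := ⟨_, rfl⟩
  rw [hc] at h3
  have hc0 : c ≠ 0 := by
    intro h0
    obtain ⟨x, hx⟩ := T.ev_exE
    exact hx (by rw [← h3 x, h0, zero_smul])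
  have h4 : ∀ x, y x = c⁻¹ • x := fun x => by
    conv_rhs => rw [← h3 x]
    rw [smul_smul, inv_mul_cancel₀ hc0, one_smul]
  have h5 : (ac y s : (W →ₗ[F] E) ≃ₗ[F] (W →ₗ[F] E)) = ac 1 (s * LinearEquiv.smulOfNeZero F W c hc0) := by
    apply LinearEquiv.ext
    intro v
    apply LinearMap.ext
    intro t
    rw [ac_apply, ac_apply, h4]
    have h6 : (s * LinearEquiv.smulOfNeZero F W c hc0).symm t = c⁻¹ • s.symm t := by
      rw [LinearEquiv.symm_apply_eq]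
      show t = s (c • (c⁻¹ • s.symm t))
      rw [smul_smul, mul_inv_cancel₀ hc0, one_smul, LinearEquiv.apply_symm_apply]
    rw [h6, map_smul]
    rfl
  rw [h5] at hi ⊢
  exact ⟨_, T.isom_of_ac (T.hM hi), rfl⟩

theorem ev_sq (h2 : (2 : F) = 0) {b : W} (hb : β b b = 0) {x : (W →ₗ[F] E) ≃ₗ[F] (W →ₗ[F] E)}
    (hx : ∀ v, x v = v + pt (v b) (Hb.fl b)) : x * x = 1 := by
  apply LinearEquiv.ext
  intro v
  rw [LinearEquiv.mul_apply, hx, hx, LinearMap.add_apply, pt_apply, HS.fl_apply, hb, zero_smul, add_zero,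
    LinearEquiv.coe_one, id, add_assoc, ← two_smul F, h2, zero_smul, add_zero]

theorem ev_hit {b : W} (hb : b ≠ 0) (x : E) : ∃ v : W →ₗ[F] E, v b = x := by
  obtain ⟨f, hf⟩ := T.exists_one hb
  refine ⟨pt x (Hb.fl f), ?_⟩
  rw [pt_apply, HS.fl_apply, Hb.herm, hf, map_one, one_smul]

theorem ev_ne {b : W} (hb : b ≠ 0) {x : (W →ₗ[F] E) ≃ₗ[F] (W →ₗ[F] E)}
    (hx : ∀ v, x v = v + pt (v b) (Hb.fl b)) : x ≠ 1 := by
  rintro rfl
  obtain ⟨y, hy⟩ := T.ev_exE
  obtain ⟨v, rfl⟩ := T.ev_hit hb y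
  have := hx v
  rw [LinearEquiv.coe_one, id, left_eq_add] at this
  exact pt_ne hy (T.fl_ne hb) this

theorem ev_comm_sp {b : W} (hb : b ≠ 0) {a i : (W →ₗ[F] E) ≃ₗ[F] (W →ₗ[F] E)}
    (hav : ∀ v, a v = v + pt (v b) (Hb.fl b)) (hia : i * a = a * i) (x : E) :
    i (pt x (Hb.fl b)) ∈ (sp (Hb.fl b) : Submodule F (W →ₗ[F] E)) := by
  obtain ⟨v, rfl⟩ := T.ev_hit hb x
  have h3 : i (a v) = a (i v) := by rw [← LinearEquiv.mul_apply, hia, LinearEquiv.mul_apply]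
  rw [hav, map_add, hav] at h3
  rw [add_left_cancel h3]
  exact pt_mem_sp _ _

theorem ev_comm_ker {b : W} (hb : b ≠ 0) {a i : (W →ₗ[F] E) ≃ₗ[F] (W →ₗ[F] E)}
    (hav : ∀ v, a v = v + pt (v b) (Hb.fl b)) (hia : i * a = a * i) {v : W →ₗ[F] E} (hv : v b = 0) :
    (i v) b = 0 := by
  by_contra hne
  have h3 : i (a v) = a (i v) := by rw [← LinearEquiv.mul_apply, hia, LinearEquiv.mul_apply]
  rw [hav, hv, map_zero, LinearMap.zero_apply, add_zero, hav, left_eq_add] at h3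
  exact pt_ne hne (T.fl_ne hb) h3

/-- an isometry acting trivially on `sp b` preserves the values at `b` -/
theorem ev_val {s : (W →ₗ[F] E) ≃ₗ[F] (W →ₗ[F] E)} (hs : s ∈ M) {b : W}
    (h1 : ∀ x, s (pt x (Hb.fl b)) = pt x (Hb.fl b)) (v : W →ₗ[F] E) : (s v) b = v b := by
  apply T.eqE
  intro z
  have := T.hM hs v (pt z (Hb.fl b))
  rw [h1, T.pol, T.pol] at this
  exact this

end TU

/-- maximal pairs -/
structure Mx (Hb : HS σ β) (M : Subgroup ((W →ₗ[F] E) ≃ₗ[F] (W →ₗ[F] E))) (b c : W)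
    (k : (W →ₗ[F] E) ≃ₗ[F] (W →ₗ[F] E)) : Prop where
  b0 : b ≠ 0
  bb : β b b = 0
  c0 : c ≠ 0
  cc : β c c = 0
  hk : k ∈ M
  np : ¬ Pr k
  mx : ∀ b' c' k', b' ≠ 0 → β b' b' = 0 → c' ≠ 0 → β c' c' = 0 → k' ∈ M → ¬ Pr k' →
    finrank F (sp (Hb.fl b') ⊓ (sp (Hb.fl c')).map (k' : (W →ₗ[F] E) →ₗ[F] (W →ₗ[F] E)) :
      Submodule F (W →ₗ[F] E)) ≤
    finrank F (sp (Hb.fl b) ⊓ (sp (Hb.fl c)).map (k : (W →ₗ[F] E) →ₗ[F] (W →ₗ[F] E)) :
      Submodule F (W →ₗ[F] E))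

namespace Mx

variable {b c : W} {k : (W →ₗ[F] E) ≃ₗ[F] (W →ₗ[F] E)}

theorem mx1 (hm : Mx Hb M b c k) (T : TU Ha Hb Hh M) (h2 : (2 : F) = 0) (hN : NI Hb M) (a : E)
    (ha : (k (pt a (Hb.fl c))) b = 0) : k (pt a (Hb.fl c)) ∈ (sp (Hb.fl b) : Submodule F (W →ₗ[F] E)) := by
  obtain ⟨x, hx, hxv⟩ := T.ev_root h2 hm.bb
  have h1 : ¬ Pr (k⁻¹ * x * k) := hN k hm.hk hm.np b 1 hm.b0 hm.bb one_ne_zero x hx
    (fun v => by rw [one_smul]; exact hxv v)
  have h3 := hm.mx c c (k⁻¹ * x * k) hm.c0 hm.cc hm.c0 hm.cc (mul_mem (mul_mem (inv_mem hm.hk) hx) hm.hk) h1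
  have hki : ∀ v, k⁻¹ (k v) = v := fun v => k.symm_apply_apply v
  obtain ⟨U, hU⟩ : ∃ U, U = (sp (Hb.fl c)).map (k : (W →ₗ[F] E) →ₗ[F] (W →ₗ[F] E)) := ⟨_, rfl⟩
  have h4 : sp (Hb.fl b) ⊓ U = U ⊓ LinearMap.ker (LinearMap.applyₗ b) := by
    apply Submodule.eq_of_le_of_finrank_le
    · intro v hv
      refine ⟨hv.2, ?_⟩
      obtain ⟨a, rfl⟩ := mem_sp.1 hv.1
      show β b b • a = 0
      rw [hm.bb, zero_smul]
    · rw [hU]
      refine le_trans ?_ h3
      have h5 : ((sp (Hb.fl c)).map (k : (W →ₗ[F] E) →ₗ[F] (W →ₗ[F] E)) ⊓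
          LinearMap.ker (LinearMap.applyₗ b)).map ((k⁻¹ : (W →ₗ[F] E) ≃ₗ[F] (W →ₗ[F] E)) : (W →ₗ[F] E) →ₗ[F] (W →ₗ[F] E)) ≤
          sp (Hb.fl c) ⊓ (sp (Hb.fl c)).map ((k⁻¹ * x * k : (W →ₗ[F] E) ≃ₗ[F] (W →ₗ[F] E)) : (W →ₗ[F] E) →ₗ[F] (W →ₗ[F] E)) := by
        rintro _ ⟨_, ⟨⟨v, hv, rfl⟩, hv'⟩, rfl⟩
        have hv'' : (k v) b = 0 := hv'
        constructor
        · show k⁻¹ (k v) ∈ _
          rw [hki]; exact hv
        · refine ⟨v, hv, ?_⟩
          show k⁻¹ (x (k v)) = k⁻¹ (k v)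
          rw [hxv, hv'', map_zero, LinearMap.zero_apply, add_zero]
      have h6 := Submodule.finrank_mono h5
      rwa [LinearEquiv.finrank_map_eq] at h6
  have h5 : k (pt a (Hb.fl c)) ∈ U ⊓ LinearMap.ker (LinearMap.applyₗ b) :=
    ⟨by rw [hU]; exact ⟨_, pt_mem_sp _ _, rfl⟩, ha⟩
  rw [← h4] at h5
  exact h5.1

theorem nk (hm : Mx Hb M b c k) (T : TU Ha Hb Hh M) (h2 : (2 : F) = 0) (hF : FixF Hb M) (hN : NI Hb M)
    {e : W} (he : e ≠ 0) (hee : β e e = 0) (hu : ∀ a, (k (pt a (Hb.fl c))) e = 0) : False := by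
  obtain ⟨x, hx, hxv⟩ := T.ev_root h2 hee
  apply hN k hm.hk hm.np e 1 he hee one_ne_zero x hx (fun v => by rw [one_smul]; exact hxv v)
  apply hF _ (mul_mem (mul_mem (inv_mem hm.hk) hx) hm.hk) c c hm.c0 hm.c0 hm.cc hm.cc
  intro a
  have : (k⁻¹ * x * k) (pt a (Hb.fl c)) = pt a (Hb.fl c) := by
    show k⁻¹ (x (k (pt a _))) = _
    rw [hxv, hu, map_zero, LinearMap.zero_apply, add_zero]
    exact k.symm_apply_apply _
  rw [this]
  exact pt_mem_sp _ _

/-- the sum with the moved space, at `b` -/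
theorem sub_b (hm : Mx Hb M b c k) (T : TU Ha Hb Hh M) (h2 : (2 : F) = 0) (hN : NI Hb M) {v : W →ₗ[F] E}
    (hv : v ∈ sp (Hb.fl b) ⊔ (sp (Hb.fl c)).map (k : (W →ₗ[F] E) →ₗ[F] (W →ₗ[F] E))) (h0 : v b = 0) :
    v ∈ (sp (Hb.fl b) : Submodule F (W →ₗ[F] E)) := by
  obtain ⟨p, hp, q, hq, rfl⟩ := Submodule.mem_sup.1 hv
  apply Submodule.add_mem _ hp
  obtain ⟨x, rfl⟩ := mem_sp.1 hp
  obtain ⟨_, hy, rfl⟩ := hq
  obtain ⟨y, rfl⟩ := mem_sp.1 hy
  apply hm.mx1 T h2 hN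
  rw [LinearMap.add_apply, pt_apply, HS.fl_apply, hm.bb, zero_smul, zero_add] at h0
  exact h0

theorem dv (hm : Mx Hb M b c k) {x : (W →ₗ[F] E) ≃ₗ[F] (W →ₗ[F] E)}
    (hx : ∀ v, x v = v + pt (v c) (Hb.fl c)) (v : W →ₗ[F] E) :
    (k * x * k⁻¹) v = v + k (pt ((k⁻¹ v) c) (Hb.fl c)) := by
  show k (x (k⁻¹ v)) = _
  rw [hx, map_add]
  congr 1
  exact k.apply_symm_apply v

/-- commuting with the moved root element -/
theorem comm_d (hm : Mx Hb M b c k) (T : TU Ha Hb Hh M) {x i : (W →ₗ[F] E) ≃ₗ[F] (W →ₗ[F] E)}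
    (hx : ∀ v, x v = v + pt (v c) (Hb.fl c)) (hi : i * (k * x * k⁻¹) = (k * x * k⁻¹) * i) (a : E) :
    (k⁻¹ * i * k) (pt a (Hb.fl c)) ∈ (sp (Hb.fl c) : Submodule F (W →ₗ[F] E)) := by
  apply T.ev_comm_sp hm.c0 hx
  calc k⁻¹ * i * k * x = k⁻¹ * (i * (k * x * k⁻¹)) * k := by group
    _ = k⁻¹ * ((k * x * k⁻¹) * i) * k := by rw [hi]
    _ = x * (k⁻¹ * i * k) := by group

theorem ev_fin [Finite F] : Finite ((W →ₗ[F] E) ≃ₗ[F] (W →ₗ[F] E)) := by
  have : Finite (W →ₗ[F] E) := Module.finite_of_finite F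
  exact Finite.of_injective (fun g : (W →ₗ[F] E) ≃ₗ[F] (W →ₗ[F] E) => (g : (W →ₗ[F] E) → (W →ₗ[F] E)))
    DFunLike.coe_injective

/-- the two root elements are conjugate in the group they generate -/
theorem odd [Finite F] (hm : Mx Hb M b c k) (T : TU Ha Hb Hh M) (h2 : (2 : F) = 0) (hF : FixF Hb M)
    (hN : NI Hb M) {a x : (W →ₗ[F] E) ≃ₗ[F] (W →ₗ[F] E)} (ha : a ∈ M) (hav : ∀ v, a v = v + pt (v b) (Hb.fl b))
    (hx : x ∈ M) (hxv : ∀ v, x v = v + pt (v c) (Hb.fl c)) :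
    ∃ g ∈ Subgroup.closure ({a, k * x * k⁻¹} : Set ((W →ₗ[F] E) ≃ₗ[F] (W →ₗ[F] E))),
      g * a * g⁻¹ = k * x * k⁻¹ := by
  have := ev_fin (F := F) (E := E) (W := W)
  have hoa : orderOf a = 2 := ev_ord (T.ev_sq h2 hm.bb hav) (T.ev_ne hm.b0 hav)
  have hod : orderOf (k * x * k⁻¹) = 2 := by
    rw [Involutions.orderOf_conj]
    exact ev_ord (T.ev_sq h2 hm.cc hxv) (T.ev_ne hm.c0 hxv)
  rcases ev_dih hoa hod with h | ⟨i, hi, hi1, hii, hia, hid⟩
  · exact h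
  exfalso
  have hiM : i ∈ M := by
    have : Subgroup.closure ({a, k * x * k⁻¹} : Set ((W →ₗ[F] E) ≃ₗ[F] (W →ₗ[F] E))) ≤ M := by
      rw [Subgroup.closure_le]
      rintro y (rfl | rfl)
      · exact ha
      · exact mul_mem (mul_mem hm.hk hx) (inv_mem hm.hk)
    exact this hi
  have hS := ev_clo_sub (S := sp (Hb.fl b) ⊔ (sp (Hb.fl c)).map (k : (W →ₗ[F] E) →ₗ[F] (W →ₗ[F] E)))
    (a := a) (d := k * x * k⁻¹)
    (fun v => by rw [hav, add_sub_cancel_left]; exact Submodule.mem_sup_left (pt_mem_sp _ _))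
    (fun v => by
      rw [hm.dv hxv, add_sub_cancel_left]
      exact Submodule.mem_sup_right ⟨_, pt_mem_sp _ _, rfl⟩) hi
  have hib := T.ev_comm_sp hm.b0 hav hia
  have hik := fun {v} => T.ev_comm_ker (v := v) hm.b0 hav hia
  have hp : Pr i := hF i hiM b b hm.b0 hm.b0 hm.bb hm.bb hib
  have hsub : ∀ v : W →ₗ[F] E, v b = 0 → i v - v ∈ (sp (Hb.fl b) : Submodule F (W →ₗ[F] E)) := by
    intro v hv
    apply hm.sub_b T h2 hN (hS v)
    rw [LinearMap.sub_apply, hik hv, hv, sub_self]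
  obtain ⟨x₀, hx₀⟩ := T.ev_exE
  -- a vector perpendicular to `b` outside `⟨b⟩`
  obtain ⟨w, hw, hwb⟩ : ∃ w, w ∉ Submodule.span F {b} ∧ β w b = 0 :=
    exists_ker_out (by have := T.hW; omega) (Hb.fl b) b
  have hbw : β b w = 0 := Hb.symm_zero hwb
  have hspb : ∀ {v : W →ₗ[F] E}, v ∈ (sp (Hb.fl b) : Submodule F (W →ₗ[F] E)) → ∀ t, β t b = 0 → v t = 0 := by
    intro v hv t ht
    obtain ⟨y, rfl⟩ := mem_sp.1 hv
    rw [pt_apply, HS.fl_apply, ht, zero_smul]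
  have hpb : ∀ {z : W}, pt x₀ (Hb.fl z) ∈ (sp (Hb.fl b) : Submodule F (W →ₗ[F] E)) → z ∈ Submodule.span F {b} := by
    intro z hz
    exact T.ev_span hx₀ fun t ht => hspb hz t (ht b (Submodule.mem_span_singleton_self b))
  obtain ⟨q, hq, rfl⟩ := T.ev_scalar hiM hp hw (fun y t ht => by
    have h3 := hspb (hsub (pt y (Hb.fl w)) (by rw [pt_apply, HS.fl_apply, hbw, zero_smul])) t
      (ht b (Submodule.mem_span_singleton_self b))
    rw [LinearMap.sub_apply] at h3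
    exact sub_eq_zero.1 h3)
  have hqv := T.ac_one_isom hq
  -- the action of `q`
  have hq1 : ∀ z, pt x₀ (Hb.fl (q z - z)) = ac 1 q (pt x₀ (Hb.fl z)) - pt x₀ (Hb.fl z) := by
    intro z
    rw [hqv 0, T.fl_sub, map_sub]
  have hq2 : ∀ z, β z b = 0 → q z - z ∈ Submodule.span F {b} := by
    intro z hz
    apply hpb
    rw [hq1]
    apply hsub
    rw [pt_apply, HS.fl_apply, Hb.symm_zero hz, zero_smul]
  have hqq : ∀ z, q (q z) = z := by
    intro z
    apply T.fl_inj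
    apply pt_inj hx₀
    rw [← hqv 0, ← hqv 0, ← LinearEquiv.mul_apply, hii]
    rfl
  have hqb : q b = b := by
    have h3 : q b ∈ Submodule.span F {b} := hpb (by rw [← hqv 0]; exact hib _)
    obtain ⟨l, hl⟩ := Submodule.mem_span_singleton.1 h3
    have h4 := hqq b
    rw [← hl, map_smul, ← hl, smul_smul] at h4
    have h5 : l * l = 1 := by
      have : (l * l - 1) • b = 0 := by rw [sub_smul, h4, one_smul, sub_self]
      rcases smul_eq_zero.1 this with h | h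
      · exact sub_eq_zero.1 h
      · exact absurd h hm.b0
    have h6 : (l - 1) * (l - 1) = 0 := by linear_combination h5 + (1 - l) * h2
    have h7 : l = 1 := by
      rcases mul_eq_zero.1 h6 with h | h <;> exact sub_eq_zero.1 h
    rw [← hl, h7, one_smul]
  obtain ⟨f, hf⟩ := T.exists_one hm.b0
  have hbf : β b f = 1 := by rw [Hb.herm, hf, map_one]
  have hq3 : q f - f ∈ Submodule.span F {b} := by
    apply hpb
    rw [hq1]
    apply hm.sub_b T h2 hN (hS _)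
    rw [← hq1, pt_apply, HS.fl_apply, Hb.sub_right]
    have : β b (q f) = β b f := by
      conv_lhs => rw [← hqb]
      exact hq b f
    rw [this, sub_self, zero_smul]
  obtain ⟨ρ, hρ⟩ := Submodule.mem_span_singleton.1 hq3
  have hq4 : ∀ z, q z = z - (σ ρ * β z b) • b := by
    intro z
    have h3 : q z - z ∈ Submodule.span F {b} := by
      have h4 := Submodule.add_mem _ (hq2 (z - β z b • f) (by rw [Hb.sub_left, Hb.smul_left, hf, mul_one, sub_self]))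
        (Submodule.smul_mem _ (β z b) hq3)
      rw [map_sub, map_smul] at h4
      convert h4 using 1
      module
    obtain ⟨l, hl⟩ := Submodule.mem_span_singleton.1 h3
    have h4 : q z = z + l • b := by rw [hl]; abel
    have h5 : q f = f + ρ • b := by rw [hρ]; abel
    have h6 := hq z f
    rw [h4, h5, Hb.add_left, Hb.add_right, Hb.add_right, Hb.smul_left, Hb.smul_left, Hb.smul_right, Hb.smul_right,
      hbf, hm.bb] at h6
    have h7 : l = - (σ ρ * β z b) := by linear_combination h6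
    rw [h4, h7, neg_smul]
    abel
  have hiv : ∀ v : W →ₗ[F] E, ac 1 q v = v + (-ρ) • pt (v b) (Hb.fl b) := by
    have hl : ((ac 1 q : (W →ₗ[F] E) ≃ₗ[F] (W →ₗ[F] E)) : (W →ₗ[F] E) →ₗ[F] (W →ₗ[F] E)) =
        LinearMap.id + (-ρ) • ((pt.flip (Hb.fl b)) ∘ₗ (LinearMap.applyₗ b)) := by
      apply ext_pt
      intro y φ
      obtain ⟨z, rfl⟩ := T.rep φ
      show ac 1 q (pt y (Hb.fl z)) = pt y (Hb.fl z) + (-ρ) • pt (β b z • y) (Hb.fl b)
      rw [hqv 0, hq4, T.fl_sub, T.fl_smul, map_sub, map_smul, map_smul, LinearMap.smul_apply, map_mul, Hb.inv,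
        ← Hb.herm b z]
      module
    intro v
    exact LinearMap.congr_fun hl v
  have hρ0 : -ρ ≠ 0 := by
    intro h0
    apply hi1
    apply LinearEquiv.ext
    intro v
    rw [hiv, h0, zero_smul, add_zero]
    rfl
  apply hN k hm.hk hm.np b (-ρ) hm.b0 hm.bb hρ0 _ hiM hiv
  exact hF _ (mul_mem (mul_mem (inv_mem hm.hk) hiM) hm.hk) c c hm.c0 hm.c0 hm.cc hm.cc (hm.comm_d T hxv hid)

/-- involutions trivial on `sp b` and preserving the moved space are trivial on it -/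
theorem triv [Finite F] (hm : Mx Hb M b c k) (T : TU Ha Hb Hh M) (h2 : (2 : F) = 0) (hF : FixF Hb M)
    (hN : NI Hb M) {s : (W →ₗ[F] E) ≃ₗ[F] (W →ₗ[F] E)} (hs : s ∈ M) (hss : s * s = 1)
    (h1 : ∀ x, s (pt x (Hb.fl b)) = pt x (Hb.fl b))
    (h3 : ∀ x, (k⁻¹ * s * k) (pt x (Hb.fl c)) ∈ (sp (Hb.fl c) : Submodule F (W →ₗ[F] E))) (y : E) :
    s (k (pt y (Hb.fl c))) = k (pt y (Hb.fl c)) := by
  obtain ⟨a, ha, hav⟩ := T.ev_root h2 hm.bb
  obtain ⟨x, hx, hxv⟩ := T.ev_root h2 hm.cc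
  obtain ⟨g, hg, hga⟩ := hm.odd T h2 hF hN ha hav hx hxv
  have hsa : s * a = a * s := by
    apply LinearEquiv.ext
    intro v
    rw [LinearEquiv.mul_apply, LinearEquiv.mul_apply, hav, hav, map_add, h1, T.ev_val hs h1]
  have hsd : s * (k * x * k⁻¹) = (k * x * k⁻¹) * s := by
    obtain ⟨j, hj⟩ : ∃ j, j = k⁻¹ * s * k := ⟨_, rfl⟩
    have hjM : j ∈ M := by rw [hj]; exact mul_mem (mul_mem (inv_mem hm.hk) hs) hm.hk
    have hjj : ∀ v, j (j v) = v := by
      intro v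
      rw [← LinearEquiv.mul_apply, hj]
      have : k⁻¹ * s * k * (k⁻¹ * s * k) = 1 := by
        calc k⁻¹ * s * k * (k⁻¹ * s * k) = k⁻¹ * (s * s) * k := by group
          _ = 1 := by rw [hss]; group
      rw [this]
      rfl
    rw [← hj] at h3
    obtain ⟨p, q, hpq⟩ : Pr j := hF _ hjM c c hm.c0 hm.c0 hm.cc hm.cc h3
    have hjker : ∀ v : W →ₗ[F] E, v c = 0 → (j v) c = 0 := by
      intro v hv
      apply T.eqE
      intro z
      rw [Ha.zero_left, ← T.pol, ← T.hM hjM, hjj]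
      obtain ⟨z', hz'⟩ := mem_sp.1 (h3 z)
      rw [hz', T.pol, hv, Ha.zero_left]
    obtain ⟨x₀, hx₀⟩ := T.ev_exE
    have hqc : q.symm c ∈ Submodule.span F {c} := by
      by_contra hne
      obtain ⟨φ, hφ1, hφ2⟩ := exists_dual1 hne
      have h4 := hjker (pt x₀ φ) (by rw [pt_apply, hφ2, zero_smul])
      rw [hpq, ac_apply, pt_apply, hφ1, one_smul] at h4
      exact hx₀ (p.map_eq_zero_iff.1 h4)
    obtain ⟨ν, hν⟩ := Submodule.mem_span_singleton.1 hqc
    obtain ⟨f, hf⟩ := T.exists_one hm.c0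
    obtain ⟨l, hl⟩ : ∃ l, l = β (q.symm f) c := ⟨_, rfl⟩
    have hjc : ∀ z, j (pt z (Hb.fl c)) = l • pt (p z) (Hb.fl c) := by
      intro z
      obtain ⟨z', hz'⟩ := mem_sp.1 (h3 z)
      have h4 := congrArg (fun v : W →ₗ[F] E => v f) hz'
      simp only [pt_apply, HS.fl_apply, hf, one_smul] at h4
      rw [hpq, ac_apply, pt_apply, HS.fl_apply, ← hl, map_smul] at h4
      rw [hz', ← h4, map_smul]
      rfl
    have hjv : ∀ v, (j v) c = ν • p (v c) := by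
      intro v
      rw [hpq, ac_apply, ← hν, map_smul, map_smul]
    have hνl : ν = l := by
      obtain ⟨v, hv⟩ := T.ev_hit hm.c0 x₀
      have h4 := hjv (j v)
      rw [hjj, hjv, map_smul, smul_smul, hv] at h4
      have h5 := hjj (pt x₀ (Hb.fl c))
      rw [hjc, map_smul, hjc, smul_smul, ← LinearMap.smul_apply, ← map_smul] at h5
      have h6 := pt_inj' (T.fl_ne hm.c0) h5
      have h7 : (ν * ν - l * l) • p (p x₀) = 0 := by rw [sub_smul, ← h4, h6, sub_self]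
      have h8 : p (p x₀) ≠ 0 := fun h0 => hx₀ (p.map_eq_zero_iff.1 (p.map_eq_zero_iff.1 h0))
      have h9 : (ν - l) * (ν - l) = 0 := by
        have := (smul_eq_zero.1 h7).resolve_right h8
        linear_combination this + (l * l - ν * l) * h2
      rcases mul_eq_zero.1 h9 with h | h <;> exact sub_eq_zero.1 h
    have hjx : j * x = x * j := by
      apply LinearEquiv.ext
      intro v
      rw [LinearEquiv.mul_apply, LinearEquiv.mul_apply, hxv, hxv, map_add, hjc, hjv, map_smul, hνl]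
      rfl
    have hsj : s = k * j * k⁻¹ := by rw [hj]; group
    calc s * (k * x * k⁻¹) = k * (j * x) * k⁻¹ := by rw [hsj]; group
      _ = k * (x * j) * k⁻¹ := by rw [hjx]
      _ = (k * x * k⁻¹) * s := by rw [hsj]; group
  have hsg := ev_clo_comm hsa hsd hg
  obtain ⟨v, hv⟩ := T.ev_hit hm.c0 y
  have hki : ∀ v, k⁻¹ (k v) = v := fun v => k.symm_apply_apply v
  have e1 : k (pt y (Hb.fl c)) = (k * x * k⁻¹) (k v) - k v := by
    rw [hm.dv hxv, add_sub_cancel_left, hki, hv]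
  have e2 : k (pt y (Hb.fl c)) = g (pt ((g⁻¹ (k v)) b) (Hb.fl b)) := by
    rw [e1, ← hga]
    show g (a (g⁻¹ (k v))) - k v = _
    rw [hav, map_add, show g (g⁻¹ (k v)) = k v from g.apply_symm_apply _, add_sub_cancel_left]
  rw [e2, ← LinearEquiv.mul_apply, hsg, LinearEquiv.mul_apply, h1]

end Mx

namespace TU

variable (T : TU Ha Hb Hh M)
include T

theorem ev_mx {g : (W →ₗ[F] E) ≃ₗ[F] (W →ₗ[F] E)} (hg : g ∈ M) (hgp : ¬ Pr g) : ∃ b c k, Mx Hb M b c k := by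
  obtain ⟨D, hD⟩ : ∃ D : W → W → ((W →ₗ[F] E) ≃ₗ[F] (W →ₗ[F] E)) → ℕ, D = fun b c (k : (W →ₗ[F] E) ≃ₗ[F] (W →ₗ[F] E)) =>
      finrank F (sp (Hb.fl b) ⊓ (sp (Hb.fl c)).map (k : (W →ₗ[F] E) →ₗ[F] (W →ₗ[F] E)) :
        Submodule F (W →ₗ[F] E)) := ⟨_, rfl⟩
  obtain ⟨P, hP⟩ : ∃ P : Set ℕ, P = {n | ∃ b c k, b ≠ 0 ∧ β b b = 0 ∧ c ≠ 0 ∧ β c c = 0 ∧ k ∈ M ∧ ¬ Pr k ∧
      D b c k = n} := ⟨_, rfl⟩
  have h1 : P.Nonempty := by
    obtain ⟨b, -, hb, hbb⟩ := exists_sing Hb (U := ⊤) (by rw [finrank_top]; have := T.hW; omega)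
    exact ⟨D b b g, by rw [hP]; exact ⟨b, b, g, hb, hbb, hb, hbb, hg, hgp, rfl⟩⟩
  have h2 : BddAbove P := by
    refine ⟨finrank F (W →ₗ[F] E), ?_⟩
    rw [hP]
    rintro _ ⟨b, c, k, -, -, -, -, -, -, rfl⟩
    rw [hD]
    exact Submodule.finrank_le _
  have h3 := Nat.sSup_mem h1 h2
  rw [hP] at h3
  obtain ⟨b, c, k, hb, hbb, hc, hcc, hk, hkp, he⟩ := h3
  rw [← hP] at he
  refine ⟨b, c, k, hb, hbb, hc, hcc, hk, hkp, fun b' c' k' e1 e2 e3 e4 e5 e6 => ?_⟩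
  have h4 : D b' c' k' ≤ D b c k := by
    rw [he]
    apply le_csSup h2
    rw [hP]
    exact ⟨b', c', k', e1, e2, e3, e4, e5, e6, rfl⟩
  rw [hD] at h4
  exact h4

theorem even_case [Finite F] (h2 : (2 : F) = 0) (hF : FixF Hb M) (hN : NI Hb M) : ∀ g ∈ M, Pr g := by
  by_contra hcon
  push Not at hcon
  obtain ⟨g, hg, hgp⟩ := hcon
  obtain ⟨b, c, k, hm⟩ := T.ev_mx hg hgp
  clear hg hgp g
  have hW := T.hW
  obtain ⟨x₀, hx₀⟩ := T.ev_exE
  -- the second singular vector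
  obtain ⟨e, heS, hee, heb⟩ : ∃ e, e ∉ Submodule.span F {b} ∧ β e e = 0 ∧ β e b = 0 := by
    obtain ⟨φ, hφ⟩ := exists_dual0 (F := F) hm.b0
    have h3 := HS.finrank_inf_ker (⊤ : Submodule F W) (Hb.fl b)
    have h4 := HS.finrank_inf_ker (⊤ ⊓ LinearMap.ker (Hb.fl b)) φ
    rw [finrank_top] at h3
    obtain ⟨e, he, he0, hee⟩ := exists_sing Hb (U := ⊤ ⊓ LinearMap.ker (Hb.fl b) ⊓ LinearMap.ker φ) (by omega)
    refine ⟨e, ?_, hee, he.1.2⟩
    intro hmem
    obtain ⟨c, rfl⟩ := Submodule.mem_span_singleton.1 hmem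
    have h5 : φ (c • b) = 0 := he.2
    rw [map_smul, hφ, smul_eq_mul, mul_one] at h5
    exact he0 (by rw [h5, zero_smul])
  have hbe : β b e = 0 := Hb.symm_zero heb
  have he0 : e ≠ 0 := by rintro rfl; exact heS (Submodule.zero_mem _)
  obtain ⟨f₁, hf1, hf1b⟩ := T.ev_sep heS
  replace hf1b : β f₁ b = 0 := hf1b b (Submodule.mem_span_singleton_self b)
  obtain ⟨f₂, hf2, hf2e⟩ : ∃ f₂, β f₂ b = 1 ∧ β f₂ e = 0 := by
    obtain ⟨f, hf⟩ := T.exists_one hm.b0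
    exact ⟨f - β f e • f₁, by rw [Hb.sub_left, Hb.smul_left, hf, hf1b, mul_zero, sub_zero],
      by rw [Hb.sub_left, Hb.smul_left, hf1, mul_one, sub_self]⟩
  have hhit : ∀ x y : E, ∃ v : W →ₗ[F] E, v b = x ∧ v e = y := by
    intro x y
    refine ⟨pt x (Hb.fl f₂) + pt y (Hb.fl f₁), ?_, ?_⟩
    · rw [LinearMap.add_apply, pt_apply, pt_apply, HS.fl_apply, HS.fl_apply, Hb.herm b f₂, hf2, Hb.herm b f₁, hf1b,
        map_one, map_zero, one_smul, zero_smul, add_zero]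
    · rw [LinearMap.add_apply, pt_apply, pt_apply, HS.fl_apply, HS.fl_apply, Hb.herm e f₂, hf2e, Hb.herm e f₁, hf1,
        map_one, map_zero, one_smul, zero_smul, zero_add]
  -- the involutions
  obtain ⟨xa, hxa, hxav⟩ := T.ev_root h2 hm.bb
  obtain ⟨xe, hxe, hxev⟩ := T.ev_root h2 hee
  obtain ⟨x, hx, hxv⟩ := T.ev_root h2 hm.cc
  obtain ⟨i, hi⟩ : ∃ i, i = xa * xe := ⟨_, rfl⟩
  have hiv : ∀ v, i v = v + (pt (v e) (Hb.fl e) + pt (v b) (Hb.fl b)) := by
    intro v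
    rw [hi, LinearEquiv.mul_apply, hxev, hxav, LinearMap.add_apply, pt_apply, HS.fl_apply, hbe, zero_smul, add_zero,
      add_assoc]
  have hifix : ∀ v : W →ₗ[F] E, i v = v → v b = 0 ∧ v e = 0 := by
    intro v hv
    rw [hiv, add_eq_left] at hv
    constructor
    · have := congrArg (fun v : W →ₗ[F] E => v f₂) hv
      simpa [pt_apply, hf2, hf2e] using this
    · have := congrArg (fun v : W →ₗ[F] E => v f₁) hv
      simpa [pt_apply, hf1, hf1b] using this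
  have hifix' : ∀ v : W →ₗ[F] E, v b = 0 → v e = 0 → i v = v := by
    intro v hb he
    rw [hiv, hb, he, map_zero, LinearMap.zero_apply, LinearMap.zero_apply, add_zero, add_zero]
  have hiM : i ∈ M := by rw [hi]; exact mul_mem hxa hxe
  have hoi : orderOf i = 2 := by
    apply ev_ord
    · apply LinearEquiv.ext
      intro v
      rw [LinearEquiv.mul_apply, hiv (i v)]
      have e1 : (i v) e = v e := by
        rw [hiv, LinearMap.add_apply, LinearMap.add_apply, pt_apply, pt_apply, HS.fl_apply, HS.fl_apply, hee, heb,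
          zero_smul, zero_smul, add_zero, add_zero]
      have e2 : (i v) b = v b := by
        rw [hiv, LinearMap.add_apply, LinearMap.add_apply, pt_apply, pt_apply, HS.fl_apply, HS.fl_apply, hbe, hm.bb,
          zero_smul, zero_smul, add_zero, add_zero]
      rw [e1, e2, hiv, add_assoc, ← two_smul F, h2, zero_smul, add_zero]
      rfl
    · rintro h1
      obtain ⟨v, hv, -⟩ := hhit x₀ 0
      have := (hifix v (by rw [h1]; rfl)).1
      exact hx₀ (by rw [← hv, this])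
  have hod : orderOf (k * x * k⁻¹) = 2 := by
    rw [Involutions.orderOf_conj]
    exact ev_ord (T.ev_sq h2 hm.cc hxv) (T.ev_ne hm.c0 hxv)
  obtain ⟨U, hU⟩ : ∃ U, U = (sp (Hb.fl c)).map (k : (W →ₗ[F] E) →ₗ[F] (W →ₗ[F] E)) := ⟨_, rfl⟩
  obtain ⟨Z, hZ⟩ : ∃ Z : Submodule F (W →ₗ[F] E), Z = sp (Hb.fl b) ⊔ sp (Hb.fl e) := ⟨_, rfl⟩
  have hmU : ∀ a, k (pt a (Hb.fl c)) ∈ U := fun a => by rw [hU]; exact ⟨_, pt_mem_sp _ _, rfl⟩
  have hmU' : ∀ u ∈ U, ∃ a, u = k (pt a (Hb.fl c)) := by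
    intro u hu
    rw [hU] at hu
    obtain ⟨_, hy, rfl⟩ := hu
    obtain ⟨y, rfl⟩ := mem_sp.1 hy
    exact ⟨y, rfl⟩
  have hmZ : ∀ x y, pt x (Hb.fl b) + pt y (Hb.fl e) ∈ Z := fun x y => by
    rw [hZ]
    exact Submodule.add_mem _ (Submodule.mem_sup_left (pt_mem_sp _ _)) (Submodule.mem_sup_right (pt_mem_sp _ _))
  have hmZ' : ∀ z ∈ Z, ∃ x y, z = pt x (Hb.fl b) + pt y (Hb.fl e) := by
    intro z hz
    rw [hZ] at hz
    obtain ⟨p, hp, q, hq, rfl⟩ := Submodule.mem_sup.1 hz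
    obtain ⟨x, rfl⟩ := mem_sp.1 hp
    obtain ⟨y, rfl⟩ := mem_sp.1 hq
    exact ⟨x, y, rfl⟩
  have hUr : finrank F U = finrank F E := by
    rw [hU, LinearEquiv.finrank_map_eq]
    exact finrank_sp (T.fl_ne hm.c0)
  have hZt : ∀ z ∈ Z, ∀ t, β t b = 0 → β t e = 0 → z t = 0 := by
    intro z hz t h1 h3
    obtain ⟨x, y, rfl⟩ := hmZ' z hz
    rw [LinearMap.add_apply, pt_apply, pt_apply, HS.fl_apply, HS.fl_apply, h1, h3, zero_smul, zero_smul, add_zero]
  obtain ⟨S, hS⟩ : ∃ S : Submodule F W, S = Submodule.span F {b} ⊔ Submodule.span F {e} := ⟨_, rfl⟩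
  have hbS : b ∈ S := by rw [hS]; exact Submodule.mem_sup_left (Submodule.mem_span_singleton_self b)
  have heS' : e ∈ S := by rw [hS]; exact Submodule.mem_sup_right (Submodule.mem_span_singleton_self e)
  have hpS : ∀ s ∈ S, ∀ t, β t b = 0 → β t e = 0 → β t s = 0 := by
    intro s hs t h1 h3
    rw [hS] at hs
    obtain ⟨p, hp, q, hq, rfl⟩ := Submodule.mem_sup.1 hs
    obtain ⟨r, rfl⟩ := Submodule.mem_span_singleton.1 hp
    obtain ⟨r', rfl⟩ := Submodule.mem_span_singleton.1 hq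
    rw [Hb.add_right, Hb.smul_right, Hb.smul_right, h1, h3, mul_zero, mul_zero, add_zero]
  have hSS : ∀ s ∈ S, ∀ s' ∈ S, β s s' = 0 := by
    intro s hs s' hs'
    exact hpS s' hs' s (Hb.symm_zero (hpS s hs b hm.bb hbe)) (Hb.symm_zero (hpS s hs e heb hee))
  have := Mx.ev_fin (F := F) (E := E) (W := W)
  rcases ev_dih hoi hod with ⟨g, hg, hgi⟩ | ⟨τ, hτ, hτ1, hττ, hτi, hτd⟩
  · -- the two involutions are not conjugate
    have h3 : Z.map (g : (W →ₗ[F] E) →ₗ[F] (W →ₗ[F] E)) ≤ U := by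
      rintro _ ⟨z, hz, rfl⟩
      obtain ⟨y, y', rfl⟩ := hmZ' z hz
      obtain ⟨v, rfl, rfl⟩ := hhit y y'
      have h4 : pt (v b) (Hb.fl b) + pt (v e) (Hb.fl e) = i v - v := by rw [hiv]; abel
      have h5 : g (i v) = (k * x * k⁻¹) (g v) := by
        rw [← hgi]
        show _ = g (i (g⁻¹ (g v)))
        rw [show g⁻¹ (g v) = v from g.symm_apply_apply v]
      show g (pt (v b) (Hb.fl b) + pt (v e) (Hb.fl e)) ∈ U
      rw [h4, map_sub, h5, hm.dv hxv, add_sub_cancel_left]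
      exact hmU _
    have h4 := Submodule.finrank_mono h3
    rw [LinearEquiv.finrank_map_eq, hUr, ← finrank_sp (E := E) (T.fl_ne hm.b0)] at h4
    have h5 : (sp (Hb.fl b) : Submodule F (W →ₗ[F] E)) = Z :=
      Submodule.eq_of_le_of_finrank_le (by rw [hZ]; exact le_sup_left) h4
    apply heS
    apply T.ev_span hx₀
    intro t ht
    have h6 : pt x₀ (Hb.fl e) ∈ (sp (Hb.fl b) : Submodule F (W →ₗ[F] E)) := by
      rw [h5, hZ]
      exact Submodule.mem_sup_right (pt_mem_sp _ _)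
    obtain ⟨y, hy⟩ := mem_sp.1 h6
    rw [hy, pt_apply, HS.fl_apply, ht b (Submodule.mem_span_singleton_self b), zero_smul]
  -- the central involution
  have hτM : τ ∈ M := by
    have : Subgroup.closure ({i, k * x * k⁻¹} : Set ((W →ₗ[F] E) ≃ₗ[F] (W →ₗ[F] E))) ≤ M := by
      rw [Subgroup.closure_le]
      rintro y (rfl | rfl)
      · exact hiM
      · exact mul_mem (mul_mem hm.hk hx) (inv_mem hm.hk)
    exact this hτ
  have hsub := ev_clo_sub (S := Z ⊔ U) (a := i) (d := k * x * k⁻¹)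
    (fun v => by rw [hiv, add_sub_cancel_left, add_comm]; exact Submodule.mem_sup_left (hmZ _ _))
    (fun v => by
      rw [hm.dv hxv, add_sub_cancel_left]
      exact Submodule.mem_sup_right (hmU _)) hτ
  have hτi' : ∀ v, τ (i v) = i (τ v) := fun v => by rw [← LinearEquiv.mul_apply, hτi, LinearEquiv.mul_apply]
  have hker : ∀ v : W →ₗ[F] E, v b = 0 → v e = 0 → (τ v) b = 0 ∧ (τ v) e = 0 := by
    intro v hb he
    apply hifix
    rw [← hτi', hifix' v hb he]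
  have hτc := hm.comm_d T hxv hτd
  -- it is a pair
  have hp : Pr τ := by
    by_contra hnp
    have hm' : Mx Hb M b b τ := by
      refine ⟨hm.b0, hm.bb, hm.b0, hm.bb, hτM, hnp, fun b' c' k' e1 e2 e3 e4 e5 e6 => ?_⟩
      refine le_trans (hm.mx b' c' k' e1 e2 e3 e4 e5 e6) (Submodule.finrank_mono ?_)
      intro v hv
      have hvb := hv.1
      obtain ⟨y, hy⟩ := mem_sp.1 hvb
      have h3 : i v = v := by
        rw [hy]
        exact hifix' _ (by rw [pt_apply, HS.fl_apply, hm.bb, zero_smul]) (by rw [pt_apply, HS.fl_apply, heb, zero_smul])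
      have h4 : (k * x * k⁻¹) v = v := by
        obtain ⟨z, hz⟩ := hmU' v (by rw [hU]; exact hv.2)
        rw [hm.dv hxv, hz, show k⁻¹ (k (pt z (Hb.fl c))) = pt z (Hb.fl c) from k.symm_apply_apply _, pt_apply,
          HS.fl_apply, hm.cc, zero_smul, map_zero, LinearMap.zero_apply, map_zero, add_zero]
      exact ⟨hvb, v, hvb, ev_clo_fix h3 h4 hτ⟩
    apply hnp
    apply hF τ hτM b b hm.b0 hm.b0 hm.bb hm.bb
    intro y
    apply hm'.mx1 T h2 hN
    exact (hifix _ (by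
      rw [← hτi']
      congr 1
      exact hifix' _ (by rw [pt_apply, HS.fl_apply, hm.bb, zero_smul])
        (by rw [pt_apply, HS.fl_apply, heb, zero_smul]))).1
  have hsubZ : ∀ v : W →ₗ[F] E, v b = 0 → v e = 0 → τ v - v ∈ Z := by
    intro v hb he
    obtain ⟨z, hz, u, hu, hzu⟩ := Submodule.mem_sup.1 (hsub v)
    obtain ⟨y, rfl⟩ := hmU' u hu
    have h3 : (k (pt y (Hb.fl c))) b = 0 := by
      have h4 := congrArg (fun v : W →ₗ[F] E => v b) hzu
      simp only [LinearMap.add_apply, LinearMap.sub_apply] at h4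
      rw [(hker v hb he).1, hb, hZt z hz b hm.bb hbe, sub_zero, zero_add] at h4
      exact h4
    rw [← hzu]
    apply Submodule.add_mem _ hz
    rw [hZ]
    exact Submodule.mem_sup_left (hm.mx1 T h2 hN y h3)
  obtain ⟨w, hwS, hwb, hwe⟩ : ∃ w, w ∉ S ∧ β w b = 0 ∧ β w e = 0 := by
    by_contra hno
    push Not at hno
    have h3 := HS.finrank_inf_ker (⊤ : Submodule F W) (Hb.fl b)
    have h4 := HS.finrank_inf_ker (⊤ ⊓ LinearMap.ker (Hb.fl b)) (Hb.fl e)
    rw [finrank_top] at h3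
    have h5 : ⊤ ⊓ LinearMap.ker (Hb.fl b) ⊓ LinearMap.ker (Hb.fl e) ≤ S := by
      intro w hw
      by_contra hwS
      exact hno w hwS hw.1.2 hw.2
    have h6 := Submodule.finrank_mono h5
    have h7 := Submodule.finrank_add_le_finrank_add_finrank (Submodule.span F {b}) (Submodule.span F {e})
    rw [← hS] at h7
    have h8 := finrank_span1 (F := F) b
    have h9 := finrank_span1 (F := F) e
    omega
  obtain ⟨q, hq, rfl⟩ := T.ev_scalar hτM hp hwS (fun y t ht => by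
    have h3 := hZt _ (hsubZ (pt y (Hb.fl w)) (by rw [pt_apply, HS.fl_apply, Hb.symm_zero hwb, zero_smul])
      (by rw [pt_apply, HS.fl_apply, Hb.symm_zero hwe, zero_smul])) t (ht b hbS) (ht e heS')
    rw [LinearMap.sub_apply] at h3
    exact sub_eq_zero.1 h3)
  have hqv := T.ac_one_isom hq
  have hq1 : ∀ y z, pt y (Hb.fl (q z - z)) ∈ Z ⊔ U := by
    intro y z
    have h3 := hsub (pt y (Hb.fl z))
    rwa [hqv 0, ← map_sub, ← T.fl_sub] at h3
  by_cases hA : ∀ z, q z - z ∈ S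
  · have hfix : ∀ z, β z b = 0 → β z e = 0 → q z = z := by
      intro z hzb hze
      by_contra hne
      obtain ⟨y, -, hy⟩ := T.nb (q z - z) trivial (sub_ne_zero.2 hne)
      apply hy
      have h3 : β (q z) (q y - y) = 0 := by
        have h4 : q z = z + (q z - z) := by abel
        rw [h4, Hb.add_left, hpS _ (hA y) z hzb hze, hSS _ (hA z) _ (hA y), add_zero]
      rw [Hb.sub_right, hq z y] at h3
      rw [Hb.sub_left]
      linear_combination -h3
    have hqb : q b = b := hfix b hm.bb hbe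
    have htriv := hm.triv T h2 hF hN hτM hττ (fun y => by rw [hqv 0, hqb]) hτc
    obtain ⟨z, hz⟩ : ∃ z, q z ≠ z := by
      by_contra hno
      push Not at hno
      apply hτ1
      have : q = 1 := LinearEquiv.ext hno
      rw [this]
      rfl
    apply hm.nk T h2 hF hN (sub_ne_zero.2 hz) (hSS _ (hA z) _ (hA z))
    intro y
    have h3 := congrArg (fun v : W →ₗ[F] E => v (q z)) (htriv y)
    simp only [ac_apply, LinearEquiv.symm_apply_apply] at h3
    rw [map_sub, ← h3, sub_eq_zero]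
    rfl
  · push Not at hA
    obtain ⟨z, hz⟩ := hA
    obtain ⟨k₁, hk₁⟩ : ∃ k₁, k₁ = q z - z := ⟨_, rfl⟩
    rw [← hk₁] at hz
    have hk0 : k₁ ≠ 0 := by rintro rfl; exact hz (Submodule.zero_mem _)
    have h3 : Z ⊔ sp (Hb.fl k₁) ≤ Z ⊔ U := by
      apply sup_le le_sup_left
      intro v hv
      obtain ⟨y, rfl⟩ := mem_sp.1 hv
      rw [hk₁]
      exact hq1 y z
    have h4 : Z ⊓ sp (Hb.fl k₁) = ⊥ := by
      rw [eq_bot_iff]
      rintro v ⟨hv, hv'⟩
      obtain ⟨y, rfl⟩ := mem_sp.1 hv'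
      obtain ⟨t, ht, hts⟩ := T.ev_sep hz
      have h5 := hZt _ hv t (hts b hbS) (hts e heS')
      rw [pt_apply, HS.fl_apply, ht, one_smul] at h5
      rw [h5, map_zero, LinearMap.zero_apply]
      exact Submodule.zero_mem _
    have h5 := Submodule.finrank_sup_add_finrank_inf_eq Z (sp (Hb.fl k₁))
    have h6 := Submodule.finrank_add_le_finrank_add_finrank Z U
    rw [h4, finrank_bot, finrank_sp (T.fl_ne hk0)] at h5
    have h7 : Z ⊔ sp (Hb.fl k₁) = Z ⊔ U := Submodule.eq_of_le_of_finrank_le h3 (by omega)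
    -- the singular vector
    have h8 := HS.finrank_inf_ker (⊤ : Submodule F W) (Hb.fl b)
    have h9 := HS.finrank_inf_ker (⊤ ⊓ LinearMap.ker (Hb.fl b)) (Hb.fl e)
    have h10 := HS.finrank_inf_ker (⊤ ⊓ LinearMap.ker (Hb.fl b) ⊓ LinearMap.ker (Hb.fl e)) (Hb.fl k₁)
    rw [finrank_top] at h8
    obtain ⟨e', he', he'0, hee'⟩ := exists_sing Hb
      (U := ⊤ ⊓ LinearMap.ker (Hb.fl b) ⊓ LinearMap.ker (Hb.fl e) ⊓ LinearMap.ker (Hb.fl k₁)) (by omega)
    apply hm.nk T h2 hF hN he'0 hee'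
    intro y
    have h11 : k (pt y (Hb.fl c)) ∈ Z ⊔ sp (Hb.fl k₁) := by
      rw [h7]
      exact Submodule.mem_sup_right (hmU y)
    obtain ⟨z₁, hz₁, z₂, hz₂, h12⟩ := Submodule.mem_sup.1 h11
    obtain ⟨y', rfl⟩ := mem_sp.1 hz₂
    have e1 : β e' b = 0 := he'.1.1.2
    have e2 : β e' e = 0 := he'.1.2
    have e3 : β e' k₁ = 0 := he'.2
    rw [← h12, LinearMap.add_apply, hZt z₁ hz₁ e' e1 e2, pt_apply, HS.fl_apply, e3, zero_smul, add_zero]

end TU

end Cfsg.Agent.Lib.TenUH94
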