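import Mathlib
import Cfsg.Agent.Lib.TenUFixB

set_option autoImplicit false
set_option linter.unusedSectionVars false
set_option linter.unusedSimpArgs false
set_option linter.unusedVariables false

/-!
Overgroups of `SU ⊗ SU`: members taking a standard space to a standard space are pairs.
-/

namespace Cfsg.Agent.Lib.TenUH94

open Module Cfsg.Agent.Lib.TenSLH94 Cfsg.Agent.Lib.UnTrans Cfsg.Agent.Lib.UnMax
open Cfsg.Agent.Lib.SpTrans (isom mem_isom)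

variable {F E W : Type*} [Field F] [AddCommGroup E] [Module F E] [FiniteDimensional F E]
  [AddCommGroup W] [Module F W] [FiniteDimensional F W]

/-- the linear map of the first factor -/
theorem fx_lin {g : (W →ₗ[F] E) ≃ₗ[F] (W →ₗ[F] E)} {a₁ : E} (ha₁ : a₁ ≠ 0) {b : Dual F W} (hb : b ≠ 0)
    (hg : ∃ c : Dual F W, ∀ a : E, g (pt a b) ∈ (sp c : Submodule F (W →ₗ[F] E))) :
    ∃ c : Dual F W, c ≠ 0 ∧ ∃ A : E →ₗ[F] E, (∀ a, g (pt a b) = pt (A a) c) ∧ Function.Injective A := by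
  obtain ⟨c, hc⟩ := hg
  have hc0 : c ≠ 0 := by
    rintro rfl
    obtain ⟨a, ha⟩ := mem_sp.1 (hc a₁)
    rw [map_zero] at ha
    exact pt_ne ha₁ hb (g.map_eq_zero_iff.1 ha)
  obtain ⟨w, hw⟩ := exists_val hc0
  have h2 : ∀ a, g (pt a b) = pt (g (pt a b) w) c := by
    intro a
    obtain ⟨a', ha'⟩ := mem_sp.1 (hc a)
    rw [ha', pt_apply, hw, one_smul]
  refine ⟨c, hc0, (LinearMap.applyₗ w) ∘ₗ (g : (W →ₗ[F] E) →ₗ[F] (W →ₗ[F] E)) ∘ₗ pt.flip b, h2, ?_⟩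
  intro a a' haa
  have h3 : g (pt a b) = g (pt a' b) := by
    rw [h2 a, h2 a']
    exact congrArg (fun x => pt x c) haa
  exact pt_inj' hb (g.injective h3)

/-- the linear maps are proportional -/
theorem fx_prop {g : (W →ₗ[F] E) ≃ₗ[F] (W →ₗ[F] E)} {a₁ : E} (ha₁ : a₁ ≠ 0) {b₀ b : Dual F W}
    {c₀ : Dual F W} (hc₀ : c₀ ≠ 0) {A : E →ₗ[F] E} (hA : ∀ a, g (pt a b₀) = pt (A a) c₀) (hAi : Function.Injective A)
    (hg : b ≠ 0 → ∃ c : Dual F W, ∀ a : E, g (pt a b) ∈ (sp c : Submodule F (W →ₗ[F] E)))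
    (hg' : b + b₀ ≠ 0 → ∃ c : Dual F W, ∀ a : E, g (pt a (b + b₀)) ∈ (sp c : Submodule F (W →ₗ[F] E))) :
    ∃ c : Dual F W, ∀ a, g (pt a b) = pt (A a) c := by
  by_cases hdep : b ∈ Submodule.span F {b₀}
  · obtain ⟨s, rfl⟩ := Submodule.mem_span_singleton.1 hdep
    refine ⟨s • c₀, fun a => ?_⟩
    rw [map_smul, map_smul, hA, map_smul]
  · have hb : b ≠ 0 := by rintro rfl; exact hdep (zero_mem _)
    have hbb : b + b₀ ≠ 0 := by
      intro h
      apply hdep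
      rw [eq_neg_of_add_eq_zero_left h]
      exact Submodule.neg_mem _ (Submodule.mem_span_singleton_self _)
    obtain ⟨c, hc, A1, hA1, hA1i⟩ := fx_lin ha₁ hb (hg hb)
    obtain ⟨d, hd, A2, hA2, hA2i⟩ := fx_lin ha₁ hbb (hg' hbb)
    have hcc : c ∉ Submodule.span F {c₀} := by
      intro h
      obtain ⟨s, rfl⟩ := Submodule.mem_span_singleton.1 h
      apply hdep
      have hAs : Function.Surjective A := LinearMap.injective_iff_surjective.1 hAi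
      obtain ⟨x, hx⟩ := hAs (A1 a₁)
      have h3 : g (pt a₁ b) = g (pt (s • x) b₀) := by
        rw [hA1, hA, map_smul, map_smul, hx, map_smul]; rfl
      have h4 := g.injective h3
      have hsx : s • x ≠ 0 := by
        intro h5
        rw [h5, map_zero] at h4
        exact pt_ne ha₁ hb h4
      obtain ⟨φ, hφ⟩ := exists_dual0 (F := F) ha₁
      rw [Submodule.mem_span_singleton]
      refine ⟨φ (s • x), LinearMap.ext fun w => ?_⟩
      have h6 : b w • a₁ = b₀ w • (s • x) := DFunLike.congr_fun h4 w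
      have := congrArg φ h6
      rw [φ.map_smul, φ.map_smul (b₀ w), hφ, smul_eq_mul, smul_eq_mul, mul_one] at this
      rw [LinearMap.smul_apply, smul_eq_mul, this, mul_comm]
    have hcc' : c₀ ∉ Submodule.span F {c} := by
      intro h
      obtain ⟨s, hs⟩ := Submodule.mem_span_singleton.1 h
      have hs0 : s ≠ 0 := by rintro rfl; rw [zero_smul] at hs; exact hc₀ hs.symm
      apply hcc
      rw [Submodule.mem_span_singleton]
      exact ⟨s⁻¹, by rw [← hs, smul_smul, inv_mul_cancel₀ hs0, one_smul]⟩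
    have h3 : ∀ a, pt (A2 a) d = pt (A1 a) c + pt (A a) c₀ := by
      intro a
      rw [← hA2, ← hA1, ← hA, map_add, map_add]
    obtain ⟨w, hw1, hw2⟩ := exists_sep hcc
    obtain ⟨w', hw1', hw2'⟩ := exists_sep hcc'
    have h4 : ∀ a, d w • A2 a = A1 a := by
      intro a
      have := congrArg (fun v : W →ₗ[F] E => v w) (h3 a)
      simpa [pt_apply, hw1, hw2] using this
    have h5 : ∀ a, d w' • A2 a = A a := by
      intro a
      have := congrArg (fun v : W →ₗ[F] E => v w') (h3 a)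
      simpa [pt_apply, hw1', hw2'] using this
    have hdw : d w' ≠ 0 := by
      intro h
      have := h5 a₁
      rw [h, zero_smul] at this
      exact ha₁ ((map_eq_zero_iff A hAi).1 this.symm)
    refine ⟨(d w / d w') • c, fun a => ?_⟩
    rw [hA1, ← h4, ← h5, map_smul, map_smul, map_smul, LinearMap.smul_apply, LinearMap.smul_apply, smul_smul,
      div_mul_cancel₀ _ hdw]

variable {σ : F →+* F} {α : E → E → F} {β : W → W → F} {h : (W →ₗ[F] E) → (W →ₗ[F] E) → F}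
  {Ha : HS σ α} {Hb : HS σ β} {Hh : HS σ h} {M : Subgroup ((W →ₗ[F] E) ≃ₗ[F] (W →ₗ[F] E))}

namespace TU

variable (T : TU Ha Hb Hh M)
include T

/-- images of standard spaces in standard spaces fill them -/
theorem fx_surj {g : (W →ₗ[F] E) ≃ₗ[F] (W →ₗ[F] E)} {b b' : W} (hb : b ≠ 0) (hb' : b' ≠ 0)
    (hg : ∀ a : E, g (pt a (Hb.fl b)) ∈ (sp (Hb.fl b') : Submodule F (W →ₗ[F] E))) (x : E) :
    ∃ a, g (pt a (Hb.fl b)) = pt x (Hb.fl b') := by
  have h1 : (sp (Hb.fl b) : Submodule F (W →ₗ[F] E)).map (g : (W →ₗ[F] E) →ₗ[F] (W →ₗ[F] E)) = sp (Hb.fl b') := by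
    apply eq_of_le_finrank
    · rintro _ ⟨u, hu, rfl⟩
      obtain ⟨a, rfl⟩ := mem_sp.1 hu
      exact hg a
    · rw [LinearEquiv.finrank_map_eq g, finrank_sp (T.fl_ne hb), finrank_sp (T.fl_ne hb')]
  have h2 : pt x (Hb.fl b') ∈ (sp (Hb.fl b) : Submodule F (W →ₗ[F] E)).map
      (g : (W →ₗ[F] E) →ₗ[F] (W →ₗ[F] E)) := by rw [h1]; exact pt_mem_sp _ _
  obtain ⟨u, hu, hue⟩ := h2
  obtain ⟨a, rfl⟩ := mem_sp.1 hu
  exact ⟨a, hue⟩

/-- orthogonality is preserved -/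
theorem fx_step (hX : NoX Hb M) {g : (W →ₗ[F] E) ≃ₗ[F] (W →ₗ[F] E)} (hg : g ∈ M) {b b' y : W} (hb0 : b ≠ 0)
    (hb'0 : b' ≠ 0) (hb' : β b' b' = 0)
    (h : ∀ a : E, g (pt a (Hb.fl b)) ∈ (sp (Hb.fl b') : Submodule F (W →ₗ[F] E)))
    (hy0 : y ≠ 0) (hy : β y y = 0) (hyb : β y b = 0) :
    ∃ c, c ≠ 0 ∧ β c c = 0 ∧ ∀ a : E, g (pt a (Hb.fl y)) ∈ (sp (Hb.fl c) : Submodule F (W →ₗ[F] E)) := by
  apply T.fx_perp hX hg hy0 hy hb'0 hb'
  intro a
  apply T.eqE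
  intro x
  obtain ⟨x', hx'⟩ := T.fx_surj hb0 hb'0 h x
  rw [← T.pol, ← hx', T.hM hg, T.pol, pt_apply, HS.fl_apply, Hb.symm_zero hyb, zero_smul, Ha.zero_left, Ha.zero_left]

/-- singular vectors orthogonal to two vectors -/
theorem fx_common (b y : W) : ∃ z, z ≠ 0 ∧ β z z = 0 ∧ β z b = 0 ∧ β z y = 0 := by
  have h1 := LinearMap.finrank_range_add_finrank_ker ((Hb.fl b).prod (Hb.fl y))
  have h2 := Submodule.finrank_le (LinearMap.range ((Hb.fl b).prod (Hb.fl y)))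
  rw [Module.finrank_prod, finrank_self] at h2
  have := T.hW
  obtain ⟨z, hz, hz0, hzz⟩ := exists_sing Hb (U := LinearMap.ker ((Hb.fl b).prod (Hb.fl y))) (by omega)
  have hz' : (Hb.fl b z, Hb.fl y z) = 0 := hz
  rw [Prod.mk_eq_zero] at hz'
  exact ⟨z, hz0, hzz, hz'.1, hz'.2⟩

theorem fx_all (hX : NoX Hb M) {g : (W →ₗ[F] E) ≃ₗ[F] (W →ₗ[F] E)} (hg : g ∈ M) {b b' : W} (hb0 : b ≠ 0)
    (hb'0 : b' ≠ 0) (hb : β b b = 0) (hb' : β b' b' = 0)
    (h : ∀ a : E, g (pt a (Hb.fl b)) ∈ (sp (Hb.fl b') : Submodule F (W →ₗ[F] E)))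
    {y : W} (hy0 : y ≠ 0) (hy : β y y = 0) :
    ∃ c, c ≠ 0 ∧ β c c = 0 ∧ ∀ a : E, g (pt a (Hb.fl y)) ∈ (sp (Hb.fl c) : Submodule F (W →ₗ[F] E)) := by
  obtain ⟨z, hz0, hz, hzb, hzy⟩ := T.fx_common b y
  obtain ⟨c₁, hc₁0, hc₁, hg₁⟩ := T.fx_step hX hg hb0 hb'0 hb' h hz0 hz hzb
  exact T.fx_step hX hg hz0 hc₁0 hc₁ hg₁ hy0 hy (Hb.symm_zero hzy)

/-- members taking a standard space to a standard space are pairs -/
theorem fixF_of' (hX : NoX Hb M) : FixF Hb M := by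
  intro g hg b b' hb0 hb'0 hb hb' hgb
  obtain ⟨a₁, ha₁⟩ := T.fx_ne
  have hall : ∀ y, y ≠ 0 → β y y = 0 → ∃ c : Dual F W, ∀ a : E, g (pt a (Hb.fl y)) ∈
      (sp c : Submodule F (W →ₗ[F] E)) := by
    intro y hy0 hy
    obtain ⟨c, -, -, hc⟩ := T.fx_all hX hg hb0 hb'0 hb hb' hgb hy0 hy
    exact ⟨_, hc⟩
  have hne : ∀ {y : W}, Hb.fl y ≠ 0 → y ≠ 0 := by
    rintro y h1 rfl
    apply h1
    apply LinearMap.ext
    intro w
    rw [HS.fl_apply, Hb.zero_right]; rfl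
  obtain ⟨c₀, hc₀, A, hA, hAi⟩ := fx_lin ha₁ (T.fl_ne hb0) (hall b hb0 hb)
  -- orthogonal vectors
  have key : ∀ y z : W, y ≠ 0 → β y y = 0 → β z z = 0 → β z y = 0 →
      (∃ c : Dual F W, ∀ a, g (pt a (Hb.fl y)) = pt (A a) c) → ∃ c : Dual F W, ∀ a, g (pt a (Hb.fl z)) = pt (A a) c := by
    rintro y z hy0 hy hz hzy ⟨c, hc⟩
    have hc0 : c ≠ 0 := by
      rintro rfl
      have h1 := hc a₁
      rw [map_zero] at h1
      exact pt_ne ha₁ (T.fl_ne hy0) (g.map_eq_zero_iff.1 h1)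
    apply fx_prop ha₁ hc0 hc hAi
    · intro h1
      exact hall z (hne h1) hz
    · intro h1
      rw [← T.fl_add] at h1 ⊢
      apply hall _ (hne h1)
      rw [Hb.add_left, Hb.add_right, Hb.add_right, hz, hzy, hy, Hb.symm_zero hzy]
      simp
  have key2 : ∀ y : W, β y y = 0 → ∃ c : Dual F W, ∀ a, g (pt a (Hb.fl y)) = pt (A a) c := by
    intro y hy
    obtain ⟨z, hz0, hz, hzb, hzy⟩ := T.fx_common b y
    exact key z y hz0 hz hy (Hb.symm_zero hzy) (key b z hb0 hb hz hzb ⟨_, hA⟩)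
  -- all vectors
  have key3 : ∀ w : W, ∃ c : Dual F W, ∀ a, g (pt a (Hb.fl w)) = pt (A a) c := by
    intro w
    obtain ⟨y, hby⟩ := T.exists_one hb0
    have h1 := Hb.mem_span_iso (U := ⊤) (z := b) (y := y) (u := w) trivial hb trivial
      (by rw [Hb.herm, hby, map_one]; exact one_ne_zero) trivial
    refine Submodule.span_induction (p := fun w _ => ∃ c : Dual F W, ∀ a, g (pt a (Hb.fl w)) = pt (A a) c)
      ?_ ?_ ?_ ?_ h1
    · rintro x ⟨-, hx⟩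
      exact key2 x hx
    · exact key2 0 (Hb.zero_left 0)
    · rintro x y - - ⟨c, hc⟩ ⟨c', hc'⟩
      exact ⟨c + c', fun a => by rw [T.fl_add, map_add, map_add, hc, hc', map_add]⟩
    · rintro s x - ⟨c, hc⟩
      exact ⟨σ s • c, fun a => by rw [T.fl_smul, map_smul, map_smul, hc, map_smul]⟩
  apply fund (by have := T.hE; omega) (by have := T.hW; omega)
  intro ψ _
  obtain ⟨w, rfl⟩ := T.rep ψ
  obtain ⟨c, hc⟩ := key3 w
  exact ⟨c, fun a => by rw [hc]; exact pt_mem_sp _ _⟩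

/-- members taking a standard space to a standard space are pairs -/
theorem fixF_of [Finite F] (hX : NoX Hb M) : FixF Hb M := T.fixF_of' hX

/-- conjugates of root elements by elements that are not pairs are not pairs -/
theorem ni_of (hF : FixF Hb M) : NI Hb M := by
  rintro k hk hkn e μ he0 he hμ x hx hxv ⟨p, q, hpq⟩
  have hm1 : ∀ v, k (k⁻¹ v) = v := fun v => by rw [← LinearEquiv.mul_apply, mul_inv_cancel]; rfl
  have hm2 : ∀ v, k⁻¹ (k v) = v := fun v => by rw [← LinearEquiv.mul_apply, inv_mul_cancel]; rfl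
  obtain ⟨f, hf⟩ := T.exists_one he0
  have hf' : β e f = 1 := by rw [Hb.herm, hf, map_one]
  obtain ⟨z, hz⟩ := T.fx_ne
  obtain ⟨ψ, hψ0, hψ⟩ := ac_small (p := p) (q := q) (by have := T.hE; omega) (by have := T.hEW; omega)
    (D := (sp (Hb.fl e) : Submodule F (W →ₗ[F] E)).map
      ((k⁻¹ : (W →ₗ[F] E) ≃ₗ[F] (W →ₗ[F] E)) : (W →ₗ[F] E) →ₗ[F] (W →ₗ[F] E))) (by
    intro v
    rw [← hpq]
    refine ⟨μ • pt ((k v) e) (Hb.fl e), Submodule.smul_mem _ _ (pt_mem_sp _ _), ?_⟩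
    show k⁻¹ (μ • pt ((k v) e) (Hb.fl e)) = k⁻¹ (x (k v)) - v
    rw [hxv, map_add, hm2, add_sub_cancel_left]) (by
    rw [LinearEquiv.finrank_map_eq k⁻¹ (sp (Hb.fl e)), finrank_sp (T.fl_ne he0)]) (by
    rw [← hpq]
    intro h1
    have h2 : k⁻¹ (x (k (k⁻¹ (pt z (Hb.fl f))))) = k⁻¹ (pt z (Hb.fl f)) := by
      have h3 : (k⁻¹ * x * k) (k⁻¹ (pt z (Hb.fl f))) = k⁻¹ (pt z (Hb.fl f)) := by rw [h1]; rfl
      exact h3
    have h3 := (k⁻¹).injective h2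
    rw [hm1, hxv, add_eq_left, pt_apply, HS.fl_apply, hf', one_smul, smul_eq_zero, or_iff_right hμ] at h3
    exact pt_ne hz (T.fl_ne he0) h3)
  obtain ⟨b', rfl⟩ := T.rep ψ
  have hb'0 : b' ≠ 0 := by
    rintro rfl
    apply hψ0
    apply LinearMap.ext
    intro w
    rw [HS.fl_apply, Hb.zero_right]; rfl
  have hmem : ∀ y, ∃ a, pt y (Hb.fl b') = k⁻¹ (pt a (Hb.fl e)) := by
    intro y
    have h1 : pt y (Hb.fl b') ∈ (sp (Hb.fl e) : Submodule F (W →ₗ[F] E)).map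
        ((k⁻¹ : (W →ₗ[F] E) ≃ₗ[F] (W →ₗ[F] E)) : (W →ₗ[F] E) →ₗ[F] (W →ₗ[F] E)) := by
      rw [hψ]; exact pt_mem_sp _ _
    obtain ⟨u, hu, hue⟩ := h1
    obtain ⟨a, rfl⟩ := mem_sp.1 hu
    exact ⟨a, hue.symm⟩
  have hb' : β b' b' = 0 := by
    apply T.fx_sing
    intro x' y'
    obtain ⟨a, ha⟩ := hmem x'
    obtain ⟨a', ha'⟩ := hmem y'
    rw [ha, ha', T.hM (inv_mem hk), T.pol, pt_apply, HS.fl_apply, he, zero_smul, Ha.zero_left]
  apply hkn
  have h1 : Pr k⁻¹ := by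
    apply hF k⁻¹ (inv_mem hk) e b' he0 hb'0 he hb'
    intro a
    rw [← hψ]
    exact ⟨_, pt_mem_sp _ _, rfl⟩
  have h2 := h1.inv
  rwa [inv_inv] at h2

end TU

end Cfsg.Agent.Lib.TenUH94
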