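import Mathlib
import Cfsg.Agent.Lib.TenU1H94
import Cfsg.Agent.Lib.TenSpG5

set_option autoImplicit false
set_option linter.unusedSectionVars false
set_option linter.unusedSimpArgs false
set_option linter.unusedVariables false

/-!
Overgroups of `SU ⊗ SU`: odd characteristic, the half trace argument.
-/

namespace Cfsg.Agent.Lib.TenUH94

open Module Cfsg.Agent.Lib.TenSLH94 Cfsg.Agent.Lib.UnTrans Cfsg.Agent.Lib.UnMax Cfsg.Agent.Lib.TenSpT
open Cfsg.Agent.Lib.SpTrans (isom mem_isom)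

/-- traces of powers -/
theorem JJ_im {F V : Type*} [Field F] [AddCommGroup V] [Module F V] [FiniteDimensional F V] {M : Subgroup (V ≃ₗ[F] V)}
    {p r : Module.End F V} {a b j : V ≃ₗ[F] V} (H : JJ M p r a b j) (n : ℕ) :
    ∃ X : Module.End F V, Commute X p ∧ Commute X r ∧ ph F V (j ^ n) + ph F V (j ^ n)⁻¹ = 1 + 1 + X * (p * r + r * p) := by
  have hwp : Commute (p * r + r * p) p := by
    change (p * r + r * p) * p = p * (p * r + r * p)
    rw [add_mul, mul_add, mul_assoc r p p, H.pp, mul_zero, add_zero, ← mul_assoc p p r, H.pp, zero_mul, zero_add, mul_assoc]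
  have hwr : Commute (p * r + r * p) r := by
    change (p * r + r * p) * r = r * (p * r + r * p)
    rw [add_mul, mul_add, mul_assoc p r r, H.rr, mul_zero, zero_add, ← mul_assoc r r p, H.rr, zero_mul, add_zero, mul_assoc]
  obtain ⟨w, hw⟩ : ∃ w, w = p * r + r * p := ⟨_, rfl⟩
  have hs := H.jsum
  rw [← hw] at hwp hwr hs ⊢
  have key : ∀ n : ℕ, ∃ X : Module.End F V, Commute X p ∧ Commute X r ∧
      ph F V j ^ n + ph F V j⁻¹ ^ n = 1 + 1 + X * w := by
    intro n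
    induction n using Nat.twoStepInduction with
    | zero => exact ⟨0, Commute.zero_left p, Commute.zero_left r, by simp⟩
    | one =>
      refine ⟨1 + 1 + (1 + 1), ?_, ?_, ?_⟩
      · exact ((Commute.one_left p).add_left (Commute.one_left p)).add_left ((Commute.one_left p).add_left (Commute.one_left p))
      · exact ((Commute.one_left r).add_left (Commute.one_left r)).add_left ((Commute.one_left r).add_left (Commute.one_left r))
      · rw [pow_one, pow_one, hs]; noncomm_ring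
    | more n ih1 ih2 =>
      obtain ⟨X, hXp, hXr, hX⟩ := ih1
      obtain ⟨Y, hYp, hYr, hY⟩ := ih2
      have e1 : ph F V j ^ (n + 2) + ph F V j⁻¹ ^ (n + 2) =
          (ph F V j + ph F V j⁻¹) * (ph F V j ^ (n + 1) + ph F V j⁻¹ ^ (n + 1)) - (ph F V j ^ n + ph F V j⁻¹ ^ n) := by
        have h1 : ph F V j * ph F V j⁻¹ ^ (n + 1) = ph F V j⁻¹ ^ n := by
          rw [pow_succ', ← mul_assoc, H.j1, one_mul]
        have h2 : ph F V j⁻¹ * ph F V j ^ (n + 1) = ph F V j ^ n := by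
          rw [pow_succ', ← mul_assoc, H.j2, one_mul]
        rw [mul_add, add_mul, add_mul, h1, h2, ← pow_succ', ← pow_succ']
        abel
      refine ⟨(1 + 1) * Y + (1 + 1) * ((1 + 1) * (1 + 1)) + ((1 + 1) * (1 + 1)) * (w * Y) - X, ?_, ?_, ?_⟩
      · have c2 : Commute (1 + 1 : Module.End F V) p := (Commute.one_left p).add_left (Commute.one_left p)
        exact (((c2.mul_left hYp).add_left (c2.mul_left (c2.mul_left c2))).add_left
          ((c2.mul_left c2).mul_left (hwp.mul_left hYp))).sub_left hXp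
      · have c2 : Commute (1 + 1 : Module.End F V) r := (Commute.one_left r).add_left (Commute.one_left r)
        exact (((c2.mul_left hYr).add_left (c2.mul_left (c2.mul_left c2))).add_left
          ((c2.mul_left c2).mul_left (hwr.mul_left hYr))).sub_left hXr
      · rw [e1, hX, hY, hs]
        noncomm_ring
  obtain ⟨X, h1, h2, h3⟩ := key n
  exact ⟨X, h1, h2, by rw [← inv_pow, map_pow, map_pow]; exact h3⟩

variable {F E W : Type*} [Field F] [AddCommGroup E] [Module F E] [FiniteDimensional F E]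
  [AddCommGroup W] [Module F W] [FiniteDimensional F W]
  {σ : F →+* F} {α : E → E → F} {β : W → W → F} {h : (W →ₗ[F] E) → (W →ₗ[F] E) → F}
  {Ha : HS σ α} {Hb : HS σ β} {Hh : HS σ h} {M : Subgroup ((W →ₗ[F] E) ≃ₗ[F] (W →ₗ[F] E))}

/-- the map `v ↦ v b ⊗ b` -/
noncomputable def pb (E : Type*) [AddCommGroup E] [Module F E] (Hb : HS σ β) (b : W) : Module.End F (W →ₗ[F] E) :=
  (pt.flip (Hb.fl b)) ∘ₗ (LinearMap.applyₗ b)

theorem pb_apply (b : W) (v : W →ₗ[F] E) : pb E Hb b v = pt (v b) (Hb.fl b) := rfl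

namespace TU
variable (T : TU Ha Hb Hh M)
include T

theorem pb_pb {b : W} (hbb : β b b = 0) (v : W →ₗ[F] E) : pb E Hb b (pb E Hb b v) = 0 := by
  rw [pb_apply, pb_apply, pt_apply, HS.fl_apply, hbb, zero_smul, map_zero, LinearMap.zero_apply]

theorem pb_self (b : W) (v v' : W →ₗ[F] E) : h (pb E Hb b v) v' = h v (pb E Hb b v') := by
  rw [Hh.herm, pb_apply, pb_apply, T.pol, T.pol, ← Ha.herm]

/-- singular vectors off the line and orthogonal -/
theorem exists_off {b : W} (hb : b ≠ 0) (hbb : β b b = 0) : ∃ w, w ≠ 0 ∧ β w w = 0 ∧ β w b = 0 ∧ w ∉ Submodule.span F {b} := by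
  obtain ⟨f, hf, hff⟩ := T.exists_hyp hb hbb
  have h1 := LinearMap.finrank_range_add_finrank_ker ((Hb.fl b).prod (Hb.fl f))
  have h2 := Submodule.finrank_le (LinearMap.range ((Hb.fl b).prod (Hb.fl f)))
  rw [Module.finrank_prod, finrank_self] at h2
  have h5 := T.hW
  obtain ⟨w, hw, hw0, hww⟩ := exists_sing Hb (U := LinearMap.ker ((Hb.fl b).prod (Hb.fl f))) (by omega)
  have hw' : (β w b, β w f) = 0 := hw
  rw [Prod.mk_eq_zero] at hw'
  refine ⟨w, hw0, hww, hw'.1, fun hcon => ?_⟩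
  obtain ⟨c, rfl⟩ := Submodule.mem_span_singleton.1 hcon
  have h3 := hw'.2
  rw [Hb.smul_left, Hb.herm, hf, map_one, mul_one] at h3
  exact hw0 (by rw [h3, zero_smul])

/-- elements acting trivially between the two halves of the filtration -/
theorem scalar_of {b : W} (hb : b ≠ 0) (hbb : β b b = 0) {z : (W →ₗ[F] E) ≃ₗ[F] (W →ₗ[F] E)} (hz : z ∈ M) (hzp : Pr z)
    (hk : ∀ v : W →ₗ[F] E, v b = 0 → ∃ x : E, z v = v + pt x (Hb.fl b)) : ∃ q ∈ isom β, z = ac 1 q := by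
  obtain ⟨y, s, hys⟩ := hzp
  obtain ⟨w₀, hw0, hww, hwb, hwn⟩ := T.exists_off hb hbb
  have hsep : Hb.fl w₀ ∉ Submodule.span F {Hb.fl b} := by
    intro hcon
    obtain ⟨c, hc⟩ := Submodule.mem_span_singleton.1 hcon
    apply hwn
    refine Submodule.mem_span_singleton.2 ⟨σ c, T.fl_inj ?_⟩
    rw [T.fl_smul, Hb.inv, hc]
  obtain ⟨w₁, hw1, hw1b⟩ := exists_sep hsep
  have key : ∀ x : E, x ∈ Submodule.span F {y x} := by
    intro x
    obtain ⟨x', hx'⟩ := hk (pt x (Hb.fl w₀)) (by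
      rw [pt_apply, HS.fl_apply, Hb.symm_zero hwb, zero_smul])
    have h1 := congrArg (fun v : W →ₗ[F] E => v w₁) hx'
    simp only [hys, ac_apply, LinearMap.add_apply, pt_apply, hw1, hw1b, one_smul, zero_smul, add_zero, map_smul] at h1
    exact Submodule.mem_span_singleton.2 ⟨_, h1⟩
  obtain ⟨c, hc⟩ : ∃ c : F, ∀ x, (y : E →ₗ[F] E) x = c • x := by
    by_contra hcon
    obtain ⟨x, hx⟩ := exists_noneigen hcon
    apply hx
    obtain ⟨d, hd⟩ := Submodule.mem_span_singleton.1 (key x)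
    have hd0 : d ≠ 0 := by
      rintro rfl
      rw [zero_smul] at hd
      apply hx
      rw [← hd, map_zero]; exact zero_mem _
    refine Submodule.mem_span_singleton.2 ⟨d⁻¹, ?_⟩
    nth_rewrite 1 [← hd]
    rw [smul_smul, inv_mul_cancel₀ hd0, one_smul]; rfl
  have hc0 : c ≠ 0 := by
    rintro rfl
    obtain ⟨x, hx⟩ : ∃ x : E, x ≠ 0 := by
      have : Nontrivial E := Module.finrank_pos_iff (R := F).1 (by have := T.hE; omega)
      exact exists_ne 0
    have h1 := hc x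
    rw [zero_smul] at h1
    exact hx (y.map_eq_zero_iff.1 h1)
  have hac : z = ac 1 ((LinearEquiv.smulOfNeZero F W c hc0).symm ≪≫ₗ s) := by
    rw [hys]
    apply LinearEquiv.ext
    intro v
    apply LinearMap.ext
    intro w
    rw [ac_apply, ac_apply]
    show (y : E →ₗ[F] E) (v (s.symm w)) = v (c • s.symm w)
    rw [hc, map_smul]
  refine ⟨_, T.isom_of_ac ?_, hac⟩
  rw [← hac]
  exact T.hM hz

/-- an involution normalising a standard space -/
theorem ev_neg (h2 : (2 : F) ≠ 0) (hF : FixF Hb M) {b : W} (hb : b ≠ 0) (hbb : β b b = 0)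
    {z : (W →ₗ[F] E) ≃ₗ[F] (W →ₗ[F] E)} (hz : z ∈ M) (hz1 : z ≠ 1) (hzz : ∀ v, z (z v) = v)
    (hc : ∀ v, z (pb E Hb b v) = pb E Hb b (z v))
    (hk : ∀ v : W →ₗ[F] E, v b = 0 → ∃ x : E, z v = v + pt x (Hb.fl b)) :
    ∃ q ∈ isom β, z = ac 1 q ∧ q b = -b ∧ (∀ w, q (q w) = w) ∧ ∀ w, β w b = 0 → ∃ c : F, q w = w + c • b := by
  obtain ⟨f, hf, hff⟩ := T.exists_hyp hb hbb
  have hbf : β b f = 1 := by rw [Hb.herm, hf, map_one]
  have hzb : ∀ a : E, z (pt a (Hb.fl b)) = pt ((z (pt a (Hb.fl f))) b) (Hb.fl b) := by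
    intro a
    have h1 := hc (pt a (Hb.fl f))
    rw [pb_apply, pb_apply, pt_apply, HS.fl_apply, hbf, one_smul] at h1
    exact h1
  obtain ⟨q, hq, rfl⟩ := T.scalar_of hb hbb hz (hF z hz b b hb hb hbb hbb fun a => by rw [hzb]; exact pt_mem_sp _ _) hk
  obtain ⟨x₀, hx₀⟩ : ∃ x : E, x ≠ 0 := by
    have : Nontrivial E := Module.finrank_pos_iff (R := F).1 (by have := T.hE; omega)
    exact exists_ne 0
  have hqq : ∀ w, q (q w) = w := by
    intro w
    have h1 := hzz (pt x₀ (Hb.fl w))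
    rw [T.ac_one_isom hq 0, T.ac_one_isom hq 0] at h1
    exact T.fl_inj (pt_inj hx₀ h1)
  have hqw : ∀ w, β w b = 0 → ∃ c : F, q w = w + c • b := by
    intro w hw
    obtain ⟨x, hx⟩ := hk (pt x₀ (Hb.fl w)) (by rw [pt_apply, HS.fl_apply, Hb.symm_zero hw, zero_smul])
    rw [T.ac_one_isom hq 0] at hx
    have h1 : pt x₀ (Hb.fl (q w - w)) = pt x (Hb.fl b) := by
      rw [T.fl_sub, map_sub, hx]; abel
    by_cases hqw0 : q w - w = 0
    · exact ⟨0, by rw [zero_smul, add_zero]; exact sub_eq_zero.1 hqw0⟩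
    have h3 : Hb.fl (q w - w) ∈ Submodule.span F {Hb.fl b} := by
      by_contra hcon
      obtain ⟨w₁, h4, h5⟩ := exists_sep hcon
      have h6 := congrArg (fun v : W →ₗ[F] E => v w₁) h1
      simp only [pt_apply, h4, h5, one_smul, zero_smul] at h6
      exact hx₀ h6
    obtain ⟨c, hc'⟩ := Submodule.mem_span_singleton.1 h3
    refine ⟨σ c, ?_⟩
    have h4 : q w - w = σ c • b := T.fl_inj (by rw [T.fl_smul, Hb.inv, hc'])
    rw [← h4]; abel
  obtain ⟨c, hc'⟩ := hqw b hbb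
  obtain ⟨l, hl⟩ : ∃ l, l = 1 + c := ⟨_, rfl⟩
  have hqb : q b = l • b := by rw [hc', hl]; module
  have hll : l * l = 1 := by
    have h1 := hqq b
    rw [hqb, map_smul, hqb, smul_smul] at h1
    have h3 : (l * l - 1) • b = 0 := by rw [sub_smul, h1, one_smul, sub_self]
    exact sub_eq_zero.1 ((smul_eq_zero.1 h3).resolve_right hb)
  have hl1 : l = 1 ∨ l = -1 := mul_self_eq_one_iff.1 hll
  rcases hl1 with hl1 | hl1
  · exfalso
    apply hz1
    rw [hl1, one_smul] at hqb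
    have h1 : ∀ w, β w b = 0 → q w = w := by
      intro w hw
      obtain ⟨c, hc⟩ := hqw w hw
      have h3 := hqq w
      rw [hc, map_add, map_smul, hqb, hc] at h3
      have h4 : (2 * c) • b = 0 := by
        have h5 : (2 * c) • b = (w + c • b + c • b) - w := by module
        rw [h5, h3, sub_self]
      have h5 : c = 0 := by
        rcases mul_eq_zero.1 ((smul_eq_zero.1 h4).resolve_right hb) with h | h
        · exact absurd h h2
        · exact h
      rw [hc, h5, zero_smul, add_zero]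
    have h3 : ∃ c : F, q f = f + c • b := by
      obtain ⟨g, hg⟩ : ∃ g, g = q f - f := ⟨_, rfl⟩
      have h4 : ∀ w, β w b = 0 → β w g = 0 := by
        intro w hw
        have h5 := hq w f
        rw [h1 w hw] at h5
        rw [hg, Hb.sub_right, h5, sub_self]
      have h5 : Hb.fl g ∈ Submodule.span F {Hb.fl b} := by
        by_contra hcon
        obtain ⟨w₁, h6, h7⟩ := exists_sep hcon
        exact one_ne_zero (h6.symm.trans (h4 w₁ h7))
      obtain ⟨c, hc⟩ := Submodule.mem_span_singleton.1 h5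
      refine ⟨σ c, ?_⟩
      have h6 : g = σ c • b := T.fl_inj (by rw [T.fl_smul, Hb.inv, hc])
      rw [← h6, hg]; abel
    obtain ⟨c, hc⟩ := h3
    have h4 : q f = f := by
      have h5 := hqq f
      rw [hc, map_add, map_smul, hqb, hc] at h5
      have h6 : (2 * c) • b = 0 := by
        have h7 : (2 * c) • b = (f + c • b + c • b) - f := by module
        rw [h7, h5, sub_self]
      have h7 : c = 0 := by
        rcases mul_eq_zero.1 ((smul_eq_zero.1 h6).resolve_right hb) with h | h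
        · exact absurd h h2
        · exact h
      rw [hc, h7, zero_smul, add_zero]
    have h5 : ∀ w, q w = w := by
      intro w
      have h6 := h1 (w - β w b • f) (by rw [Hb.sub_left, Hb.smul_left, hf, mul_one, sub_self])
      rw [map_sub, map_smul, h4] at h6
      have := congrArg (· + β w b • f) h6
      simpa using this
    apply LinearEquiv.ext
    intro v
    apply LinearMap.ext
    intro w
    rw [ac_apply]
    show v (q.symm w) = v w
    congr 1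
    apply q.injective
    rw [LinearEquiv.apply_symm_apply, h5]
  · exact ⟨q, hq, rfl, by rw [hqb, hl1, neg_smul, one_smul], hqq, hqw⟩

theorem exists_E : ∃ x : E, x ≠ 0 := by
  have : Nontrivial E := Module.finrank_pos_iff (R := F).1 (by have := T.hE; omega)
  exact exists_ne 0

/-- the case of an even order -/
theorem ev_false (h2 : (2 : F) ≠ 0) (hF : FixF Hb M) (hN : NI Hb M) {k : (W →ₗ[F] E) ≃ₗ[F] (W →ₗ[F] E)}
    (hk : k ∈ M) (hkn : ¬ Pr k) {b₀ : W} (hb₀ : b₀ ≠ 0) (hbb₀ : β b₀ b₀ = 0) {ν : F} (hν0 : ν ≠ 0) (hν : ν + σ ν = 0)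
    {b : W} (hb : b ≠ 0) (hbb : β b b = 0) {z : (W →ₗ[F] E) ≃ₗ[F] (W →ₗ[F] E)} (hz : z ∈ M) (hz1 : z ≠ 1)
    (hzz : ∀ v, z (z v) = v) (hc : ∀ v, z (pb E Hb b v) = pb E Hb b (z v))
    (hkb : ∀ v : W →ₗ[F] E, v b = 0 → ∃ x : E, z v = v + pt x (Hb.fl b))
    (hc' : ∀ v, z (k (pb E Hb b₀ (k⁻¹ v))) = k (pb E Hb b₀ (k⁻¹ (z v))))
    (hkb' : ∀ v : W →ₗ[F] E, (k⁻¹ v) b₀ = 0 → ∃ x : E, z v = v + k (pt x (Hb.fl b₀))) : False := by
  have hk1 : ∀ v, k (k⁻¹ v) = v := fun v => by rw [← LinearEquiv.mul_apply, mul_inv_cancel]; rfl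
  have hk2 : ∀ v, k⁻¹ (k v) = v := fun v => by rw [← LinearEquiv.mul_apply, inv_mul_cancel]; rfl
  obtain ⟨q, hq, rfl, hqb, hqq, hqw⟩ := T.ev_neg h2 hF hb hbb hz hz1 hzz hc hkb
  obtain ⟨z, hze⟩ : ∃ z : (W →ₗ[F] E) ≃ₗ[F] (W →ₗ[F] E), z = ac 1 q := ⟨_, rfl⟩
  rw [← hze] at hz hz1 hzz hc hkb hc' hkb'
  obtain ⟨q', hq', hze', hqb', -, -⟩ := T.ev_neg h2 hF hb₀ hbb₀ (z := k⁻¹ * z * k)
    (mul_mem (mul_mem (inv_mem hk) hz) hk) (by
      intro h1
      apply hz1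
      have h3 : k * (k⁻¹ * z * k) * k⁻¹ = 1 := by rw [h1]; group
      rw [← h3]; group) (by
      intro v
      simp only [LinearEquiv.mul_apply, hk1, hzz, hk2]) (by
      intro v
      simp only [LinearEquiv.mul_apply]
      have h1 := hc' (k v)
      rw [hk2] at h1
      rw [h1, hk2]) (by
      intro v hv
      obtain ⟨x, hx⟩ := hkb' (k v) (by rw [hk2]; exact hv)
      refine ⟨x, ?_⟩
      simp only [LinearEquiv.mul_apply]
      rw [hx, map_add, hk2, hk2])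
  have hneg : ∀ a : E, z (k (pt a (Hb.fl b₀))) = - k (pt a (Hb.fl b₀)) := by
    intro a
    have h1 : (k⁻¹ * z * k) (pt a (Hb.fl b₀)) = - pt a (Hb.fl b₀) := by
      rw [hze', T.ac_one_isom hq' 0, hqb', show -b₀ = (-1 : F) • b₀ by rw [neg_smul, one_smul], T.fl_smul, map_neg,
        map_one, map_smul, neg_smul, one_smul]
    simp only [LinearEquiv.mul_apply] at h1
    rw [← hk1 (z (k (pt a (Hb.fl b₀)))), h1, map_neg]
  obtain ⟨w, hw0, hww, hwb, hwn⟩ := T.exists_off hb hbb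
  obtain ⟨c, hcw⟩ := hqw w hwb
  obtain ⟨w', hw'⟩ : ∃ w', w' = w + (c / 2) • b := ⟨_, rfl⟩
  have hqw' : q w' = w' := by
    rw [hw', map_add, map_smul, hqb, hcw]
    have : c = c / 2 + c / 2 := by field_simp; ring
    nth_rewrite 1 [this]
    module
  have hw'0 : w' ≠ 0 := by
    intro h0
    apply hwn
    rw [h0] at hw'
    have : w = (-(c / 2)) • b := by rw [neg_smul, eq_neg_iff_add_eq_zero]; exact hw'.symm
    rw [this]
    exact Submodule.smul_mem _ _ (Submodule.mem_span_singleton_self b)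
  have hw'w' : β w' w' = 0 := by
    rw [hw', Hb.add_left, Hb.add_right, Hb.add_right, Hb.smul_left, Hb.smul_left, Hb.smul_right, Hb.smul_right,
      hww, hwb, hbb, Hb.symm_zero hwb]
    ring
  have hkill : ∀ a : E, (k (pt a (Hb.fl b₀))) w' = 0 := by
    intro a
    have h1 := congrArg (fun v : W →ₗ[F] E => v w') (hneg a)
    have h3 : q.symm w' = w' := by rw [LinearEquiv.symm_apply_eq]; exact hqw'.symm
    simp only [hze, ac_apply, h3, LinearMap.neg_apply] at h1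
    have h4 : (k (pt a (Hb.fl b₀))) w' = -(k (pt a (Hb.fl b₀))) w' := h1
    have h5 : (2 : F) • (k (pt a (Hb.fl b₀))) w' = 0 := by rw [two_smul]; nth_rewrite 1 [h4]; abel
    exact (smul_eq_zero.1 h5).resolve_left h2
  obtain ⟨x, hx, -, hxv⟩ := T.xb (b := w') hw'w' hν
  apply hN k hk hkn w' ν hw'0 hw'w' hν0 x hx hxv
  refine hF _ (mul_mem (mul_mem (inv_mem hk) hx) hk) b₀ b₀ hb₀ hb₀ hbb₀ hbb₀ fun a => ?_
  simp only [LinearEquiv.mul_apply]
  rw [hxv, hkill, map_zero, LinearMap.zero_apply, smul_zero, add_zero, hk2]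
  exact pt_mem_sp _ _

/-- the case of an odd order: a half trace -/
theorem od_val (h2 : (2 : F) ≠ 0) (hF : FixF Hb M) {b : W} (hb : b ≠ 0) (hbb : β b b = 0)
    {c : (W →ₗ[F] E) ≃ₗ[F] (W →ₗ[F] E)} (hc : c ∈ M) {t : Module.End F (W →ₗ[F] E)}
    (htp : ∀ v, t (pb E Hb b v) = pb E Hb b (t v)) (hcp : ∀ v, c (pb E Hb b v) = t (pb E Hb b v))
    (hts : ∀ v v', h (t v) v' = h v (t v')) :
    ∃ κ : F, κ ≠ 0 ∧ ∀ x : E, t (t (pt x (Hb.fl b))) = pt (κ • x) (Hb.fl b) := by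
  obtain ⟨f, hf, hff⟩ := T.exists_hyp hb hbb
  have hbf : β b f = 1 := by rw [Hb.herm, hf, map_one]
  have hpf : ∀ x : E, pb E Hb b (pt x (Hb.fl f)) = pt x (Hb.fl b) := by
    intro x
    rw [pb_apply, pt_apply, HS.fl_apply, hbf, one_smul]
  obtain ⟨Y, hY⟩ : ∃ Y : E →ₗ[F] E, ∀ x, Y x = (t (pt x (Hb.fl f))) b :=
    ⟨(LinearMap.applyₗ b) ∘ₗ t ∘ₗ (pt.flip (Hb.fl f)), fun x => rfl⟩
  have htY : ∀ x : E, t (pt x (Hb.fl b)) = pt (Y x) (Hb.fl b) := by
    intro x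
    rw [← hpf, htp, pb_apply, hY]
  have hcY : ∀ x : E, c (pt x (Hb.fl b)) = pt (Y x) (Hb.fl b) := by
    intro x
    rw [← htY, ← hpf, hcp]
  have hfb := T.fl_ne hb
  have hYinj : Function.Injective Y := by
    intro x x' hxx
    have h1 : c (pt x (Hb.fl b)) = c (pt x' (Hb.fl b)) := by rw [hcY, hcY, hxx]
    exact pt_inj' hfb (c.injective h1)
  have hYsurj : Function.Surjective Y := LinearMap.injective_iff_surjective.1 hYinj
  obtain ⟨y, s, hys⟩ := hF c hc b b hb hb hbb hbb fun a => by rw [hcY]; exact pt_mem_sp _ _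
  -- `Y` is self adjoint
  have htb : ∀ v : W →ₗ[F] E, (t v) b = Y (v b) := by
    intro v
    have h1 := htp v
    rw [pb_apply, pb_apply, htY] at h1
    exact (pt_inj' hfb h1).symm
  have hYs : ∀ x x', α (Y x) x' = α x (Y x') := by
    intro x x'
    have h1 := hts (pt x (Hb.fl f)) (pt x' (Hb.fl b))
    rw [T.pol, htY, T.pol, htb, pt_apply, HS.fl_apply, hbf, one_smul] at h1
    exact h1
  -- the other factor
  obtain ⟨x₀, hx₀⟩ := T.exists_E
  have hpol : ∀ (v : W →ₗ[F] E) (x' : E), α (y (v (s.symm b))) (Y x') = α (v b) x' := by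
    intro v x'
    have h1 := T.hM hc v (pt x' (Hb.fl b))
    rw [hcY, T.pol, T.pol, hys, ac_apply] at h1
    exact h1
  obtain ⟨κ', hκ'⟩ : ∃ κ' : F, s.symm b = κ' • b := by
    by_contra hcon
    have h1 : s.symm b ∉ Submodule.span F {b} := by
      intro h3
      obtain ⟨c, hc⟩ := Submodule.mem_span_singleton.1 h3
      exact hcon ⟨c, hc.symm⟩
    obtain ⟨φ, hφ, hφb⟩ := exists_dual1 h1
    have h3 : y x₀ = 0 := by
      apply T.eqE
      intro z'
      obtain ⟨x', rfl⟩ := hYsurj z'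
      have h4 := hpol (pt x₀ φ) x'
      rw [pt_apply, pt_apply, hφ, hφb, one_smul, zero_smul, Ha.zero_left] at h4
      rw [h4, Ha.zero_left]
    exact hx₀ (y.map_eq_zero_iff.1 h3)
  have hκ'0 : κ' ≠ 0 := by
    rintro rfl
    rw [zero_smul] at hκ'
    exact hb (s.symm.map_eq_zero_iff.1 hκ')
  have hpol2 : ∀ x x' : E, κ' * α (y x) (Y x') = α x x' := by
    intro x x'
    have h1 := hpol (pt x (Hb.fl f)) x'
    rw [hκ', map_smul, pt_apply, HS.fl_apply, hbf, one_smul, map_smul, Ha.smul_left] at h1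
    exact h1
  -- `Y` is a multiple of `y`
  obtain ⟨l, hl⟩ : ∃ l : F, ∀ x, Y x = l • y x := by
    obtain ⟨ψ, hψ⟩ : ∃ ψ : Dual F W, ψ = Hb.fl b ∘ₗ (s.symm : W →ₗ[F] W) := ⟨_, rfl⟩
    have h1 : ∀ x : E, pt (y x) ψ = pt (Y x) (Hb.fl b) := by
      intro x
      rw [← hcY, hys]
      apply LinearMap.ext
      intro w
      rw [ac_apply, pt_apply, pt_apply, map_smul, hψ]; rfl
    refine ⟨ψ f, fun x => ?_⟩
    have h3 := congrArg (fun v : W →ₗ[F] E => v f) (h1 x)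
    simp only [pt_apply, HS.fl_apply, hf, one_smul] at h3
    exact h3.symm
  have hl0 : l ≠ 0 := by
    rintro rfl
    have h1 := hl x₀
    rw [zero_smul, ← map_zero Y] at h1
    exact hx₀ (hYinj h1)
  refine ⟨l / κ', div_ne_zero hl0 hκ'0, fun x => ?_⟩
  rw [htY, htY]
  congr 2
  apply T.eqE
  intro x'
  rw [hYs, Ha.smul_left, ← hpol2 x x', hl x, Ha.smul_left]
  field_simp

/-- one value of the parameter -/
theorem od_step [Finite F] (h2 : (2 : F) ≠ 0) (hF : FixF Hb M) (hN : NI Hb M) {k : (W →ₗ[F] E) ≃ₗ[F] (W →ₗ[F] E)}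
    (hk : k ∈ M) (hkn : ¬ Pr k) {b₀ : W} (hb₀ : b₀ ≠ 0) (hbb₀ : β b₀ b₀ = 0) {ν : F} (hν0 : ν ≠ 0) (hν : ν + σ ν = 0)
    {b : W} (hb : b ≠ 0) (hbb : β b b = 0) {μ : F} (hμ0 : μ ≠ 0) (hμ : μ + σ μ = 0) :
    ∃ ρ : F, (∀ x : E, (k (pb E Hb b₀ (k⁻¹ (pt x (Hb.fl b))))) b = ρ • x) ∧ 1 + μ * ν * ρ ≠ 0 := by
  have hk1 : ∀ v, k (k⁻¹ v) = v := fun v => by rw [← LinearEquiv.mul_apply, mul_inv_cancel]; rfl
  have hk2 : ∀ v, k⁻¹ (k v) = v := fun v => by rw [← LinearEquiv.mul_apply, inv_mul_cancel]; rfl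
  obtain ⟨r₀, hr₀⟩ : ∃ r₀ : Module.End F (W →ₗ[F] E), ∀ v, r₀ v = k (pb E Hb b₀ (k⁻¹ v)) :=
    ⟨(k : (W →ₗ[F] E) →ₗ[F] (W →ₗ[F] E)) ∘ₗ pb E Hb b₀ ∘ₗ ((k⁻¹ : (W →ₗ[F] E) ≃ₗ[F] (W →ₗ[F] E)) : (W →ₗ[F] E) →ₗ[F] (W →ₗ[F] E)),
      fun v => rfl⟩
  obtain ⟨a, ha, -, hav⟩ := T.xb hbb hμ
  obtain ⟨x₀, hx₀, -, hxv⟩ := T.xb hbb₀ hν
  obtain ⟨d, hd⟩ : ∃ d, d = k * x₀ * k⁻¹ := ⟨_, rfl⟩
  have hdM : d ∈ M := by rw [hd]; exact mul_mem (mul_mem hk hx₀) (inv_mem hk)
  have hdv : ∀ v, d v = v + ν • r₀ v := by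
    intro v
    rw [hd, LinearEquiv.mul_apply, LinearEquiv.mul_apply, hxv, map_add, hk1, map_smul, hr₀]; rfl
  have H : JJ M (μ • pb E Hb b) (ν • r₀) a d (a * (d * d) * a) :=
    { pp := by
        apply LinearMap.ext
        intro v
        show μ • pb E Hb b (μ • pb E Hb b v) = 0
        rw [map_smul, T.pb_pb hbb, smul_zero, smul_zero]
      rr := by
        apply LinearMap.ext
        intro v
        show ν • r₀ (ν • r₀ v) = 0
        rw [map_smul, hr₀, hr₀, hk2, T.pb_pb hbb₀, map_zero, smul_zero, smul_zero]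
      ha := ha
      hb := hdM
      a_eq := fun v => by rw [hav]; rfl
      b_eq := fun v => by rw [hdv]; rfl
      hj := rfl }
  obtain ⟨j, hj⟩ : ∃ j, j = a * (d * d) * a := ⟨_, rfl⟩
  rw [← hj] at H
  have hjM : j ∈ M := H.mem
  have : Finite (W →ₗ[F] E) := Module.finite_of_finite F
  have : Finite ((W →ₗ[F] E) ≃ₗ[F] (W →ₗ[F] E)) := DFunLike.finite _
  have hm0 : 0 < orderOf j := orderOf_pos j
  rcases Nat.even_or_odd (orderOf j) with ⟨n, hn⟩ | hodd
  · exfalso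
    have hjn : j ^ (n + n) = 1 := by rw [← hn]; exact pow_orderOf_eq_one j
    have hjn' : j ^ n ≠ 1 := by
      intro h1
      have := Nat.le_of_dvd (by omega) (orderOf_dvd_of_pow_eq_one h1)
      omega
    obtain ⟨z, hz⟩ : ∃ z, z = j ^ n := ⟨_, rfl⟩
    have hzi : (j ^ n)⁻¹ = z := by rw [hz, inv_eq_iff_mul_eq_one, ← pow_add, hjn]
    have hzz : ∀ v, z (z v) = v := by
      intro v
      rw [← LinearEquiv.mul_apply, hz, ← pow_add, hjn]; rfl
    have half : ∀ v v' : W →ₗ[F] E, v + v = v' + v' → v = v' := by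
      intro v v' hvv
      rw [← two_smul F, ← two_smul F v'] at hvv
      have := congrArg (fun x => (2 : F)⁻¹ • x) hvv
      simpa only [smul_smul, inv_mul_cancel₀ h2, one_smul] using this
    have c1 : ∀ v, z (μ • pb E Hb b v) = μ • pb E Hb b (z v) := by
      intro v
      have h1 := H.com_p n
      rw [hzi, ← hz] at h1
      have h4 := LinearMap.congr_fun h1 v
      change z (μ • pb E Hb b v) + z (μ • pb E Hb b v) = μ • pb E Hb b (z v + z v) at h4
      rw [map_add (pb E Hb b), smul_add] at h4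
      exact half _ _ h4
    have c2 : ∀ v, z (ν • r₀ v) = ν • r₀ (z v) := by
      intro v
      have h1 := H.com_r n
      rw [hzi, ← hz] at h1
      have h4 := LinearMap.congr_fun h1 v
      change z (ν • r₀ v) + z (ν • r₀ v) = ν • r₀ (z v + z v) at h4
      rw [map_add r₀, smul_add] at h4
      exact half _ _ h4
    have c3 : ∀ v, z (pb E Hb b v) = pb E Hb b (z v) := by
      intro v
      have := c1 v
      rw [map_smul] at this
      exact smul_right_injective _ hμ0 this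
    have c4 : ∀ v, z (r₀ v) = r₀ (z v) := by
      intro v
      have := c2 v
      rw [map_smul] at this
      exact smul_right_injective _ hν0 this
    obtain ⟨X, hXp, hXr, hX⟩ := JJ_im H n
    rw [hzi, ← hz] at hX
    have hzv : ∀ v, z v = v + (2 : F)⁻¹ • X (μ • pb E Hb b (ν • r₀ v) + ν • r₀ (μ • pb E Hb b v)) := by
      intro v
      have h4 := LinearMap.congr_fun hX v
      change z v + z v = v + v + X (μ • pb E Hb b (ν • r₀ v) + ν • r₀ (μ • pb E Hb b v)) at h4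
      rw [← two_smul F, ← two_smul F v] at h4
      have := congrArg (fun x => (2 : F)⁻¹ • x) h4
      simpa only [smul_add, smul_smul, inv_mul_cancel₀ h2, one_smul] using this
    refine T.ev_false h2 hF hN hk hkn hb₀ hbb₀ hν0 hν hb hbb (z := z) (by rw [hz]; exact pow_mem hjM n)
      (by rw [hz]; exact hjn') hzz c3 (fun v hv => ?_) (fun v => by rw [← hr₀, c4, hr₀]) (fun v hv => ?_)
    · have h1 : pb E Hb b v = 0 := by rw [pb_apply, hv, map_zero, LinearMap.zero_apply]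
      have h3 : X (μ • pb E Hb b (ν • r₀ v)) = μ • pb E Hb b (X (ν • r₀ v)) := LinearMap.congr_fun hXp (ν • r₀ v)
      refine ⟨(2 : F)⁻¹ • μ • (X (ν • r₀ v)) b, ?_⟩
      rw [hzv, h1, smul_zero, map_zero, smul_zero, add_zero, h3, pb_apply]
      simp only [map_smul, LinearMap.smul_apply]
    · have h1 : r₀ v = 0 := by rw [hr₀, pb_apply, hv, map_zero, LinearMap.zero_apply, map_zero]
      have h3 : X (ν • r₀ (μ • pb E Hb b v)) = ν • r₀ (X (μ • pb E Hb b v)) := LinearMap.congr_fun hXr (μ • pb E Hb b v)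
      refine ⟨(2 : F)⁻¹ • ν • (k⁻¹ (X (μ • pb E Hb b v))) b₀, ?_⟩
      rw [hzv, h1, smul_zero, map_zero, smul_zero, zero_add, h3, hr₀, pb_apply]
      simp only [map_smul, LinearMap.smul_apply]
  · obtain ⟨t, c, hc, htp, htt, hcp, i, hi, hti⟩ := H.odd_case h2 hodd (pow_orderOf_eq_one j)
    have htp' : ∀ v, t (pb E Hb b v) = pb E Hb b (t v) := by
      intro v
      have h1 := LinearMap.congr_fun htp v
      change t (μ • pb E Hb b v) = μ • pb E Hb b (t v) at h1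
      rw [map_smul] at h1
      exact smul_right_injective _ hμ0 h1
    have hcp' : ∀ v, c (pb E Hb b v) = t (pb E Hb b v) := by
      intro v
      have h1 := hcp v
      change c (μ • pb E Hb b v) = t (μ • pb E Hb b v) at h1
      rw [map_smul, map_smul] at h1
      exact smul_right_injective _ hμ0 h1
    have hi1 : ∀ v, i (i⁻¹ v) = v := fun v => by rw [← LinearEquiv.mul_apply, mul_inv_cancel]; rfl
    have hi2 : ∀ v, i⁻¹ (i v) = v := fun v => by rw [← LinearEquiv.mul_apply, inv_mul_cancel]; rfl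
    have htv : ∀ v, t v = (2 : F)⁻¹ • (i v + i⁻¹ v) := fun v => by rw [hti]; rfl
    have hts : ∀ v v', h (t v) v' = h v (t v') := by
      intro v v'
      have e1 : h (i v) v' = h v (i⁻¹ v') := by rw [← T.hM hi v (i⁻¹ v'), hi1]
      have e2 : h (i⁻¹ v) v' = h v (i v') := by rw [← T.hM hi (i⁻¹ v) v', hi1]
      rw [htv, htv, Hh.smul_left, Hh.smul_right, Hh.add_left, Hh.add_right, e1, e2, map_inv₀, map_ofNat]
      ring
    obtain ⟨κ, hκ0, hκ⟩ := T.od_val h2 hF hb hbb hc htp' hcp' hts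
    have hμν : μ * ν ≠ 0 := mul_ne_zero hμ0 hν0
    have hval : ∀ x : E, (μ * ν) • (r₀ (pt x (Hb.fl b))) b = (κ - 1) • x := by
      intro x
      have h1 := LinearMap.congr_fun htt (pt x (Hb.fl b))
      change t (t (pt x (Hb.fl b))) = pt x (Hb.fl b) + (μ • pb E Hb b (ν • r₀ (pt x (Hb.fl b))) +
        ν • r₀ (μ • pb E Hb b (pt x (Hb.fl b)))) at h1
      have h3 : pb E Hb b (pt x (Hb.fl b)) = 0 := by
        rw [pb_apply, pt_apply, HS.fl_apply, hbb, zero_smul, map_zero, LinearMap.zero_apply]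
      rw [hκ, h3, smul_zero, map_zero, smul_zero, add_zero, map_smul (pb E Hb b), pb_apply] at h1
      have h4 : pt (κ • x) (Hb.fl b) = pt (x + (μ * ν) • (r₀ (pt x (Hb.fl b))) b) (Hb.fl b) := by
        rw [h1, map_add, map_smul, mul_smul]; rfl
      have h5 := pt_inj' (T.fl_ne hb) h4
      rw [sub_smul, one_smul, h5]; abel
    refine ⟨(κ - 1) / (μ * ν), fun x => ?_, ?_⟩
    · rw [← hr₀]
      have h1 := hval x
      rw [div_eq_inv_mul, mul_smul, ← h1, smul_smul, inv_mul_cancel₀ hμν, one_smul]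
    · rw [mul_div_cancel₀ _ hμν, add_sub_cancel]
      exact hκ0

/-- the form of a nonstandard member vanishes on standard spaces -/
theorem od_zero [Finite F] (h2 : (2 : F) ≠ 0) (hF : FixF Hb M) (hN : NI Hb M) {k : (W →ₗ[F] E) ≃ₗ[F] (W →ₗ[F] E)}
    (hk : k ∈ M) (hkn : ¬ Pr k) {b₀ : W} (hb₀ : b₀ ≠ 0) (hbb₀ : β b₀ b₀ = 0)
    {b : W} (hbb : β b b = 0) (x : E) : (k (pb E Hb b₀ (k⁻¹ (pt x (Hb.fl b))))) b = 0 := by
  by_cases hb : b = 0
  · rw [hb, map_zero]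
  obtain ⟨ν, hν0, hν⟩ := Hh.exists_tr0
  obtain ⟨ρ, hρ, -⟩ := T.od_step h2 hF hN hk hkn hb₀ hbb₀ hν0 hν hb hbb hν0 hν
  have hk1 : ∀ v, k (k⁻¹ v) = v := fun v => by rw [← LinearEquiv.mul_apply, mul_inv_cancel]; rfl
  obtain ⟨r₀, hr₀⟩ : ∃ r₀ : Module.End F (W →ₗ[F] E), ∀ v, r₀ v = k (pb E Hb b₀ (k⁻¹ v)) :=
    ⟨(k : (W →ₗ[F] E) →ₗ[F] (W →ₗ[F] E)) ∘ₗ pb E Hb b₀ ∘ₗ ((k⁻¹ : (W →ₗ[F] E) ≃ₗ[F] (W →ₗ[F] E)) : (W →ₗ[F] E) →ₗ[F] (W →ₗ[F] E)),
      fun v => rfl⟩
  have hself : ∀ v v', h (r₀ v) v' = h v (r₀ v') := by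
    intro v v'
    rw [hr₀, hr₀]
    have e1 : h (k (pb E Hb b₀ (k⁻¹ v))) v' = h (pb E Hb b₀ (k⁻¹ v)) (k⁻¹ v') := by
      rw [← T.hM hk _ (k⁻¹ v'), hk1]
    have e2 : h v (k (pb E Hb b₀ (k⁻¹ v'))) = h (k⁻¹ v) (pb E Hb b₀ (k⁻¹ v')) := by
      rw [← T.hM hk (k⁻¹ v) _, hk1]
    rw [e1, e2, T.pb_self]
  have hρσ : σ ρ = ρ := by
    obtain ⟨x₀, hx₀⟩ := T.exists_E
    obtain ⟨x₁, -, hx₁⟩ := T.na x₀ trivial hx₀
    have e1 := hself (pt x₀ (Hb.fl b)) (pt x₁ (Hb.fl b))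
    rw [T.pol, Hh.herm (pt x₀ (Hb.fl b)), T.pol, hr₀, hr₀, hρ, hρ, Ha.smul_left, Ha.smul_left, map_mul, ← Ha.herm] at e1
    exact (mul_right_cancel₀ hx₁ e1).symm
  have hρ0 : ρ = 0 := by
    by_contra hρ0
    have hμ0 : -1 / (ν * ρ) ≠ 0 := div_ne_zero (neg_ne_zero.2 one_ne_zero) (mul_ne_zero hν0 hρ0)
    have hμ : -1 / (ν * ρ) + σ (-1 / (ν * ρ)) = 0 := by
      have hσν : σ ν = -ν := by linear_combination hν
      rw [map_div₀, map_neg, map_one, map_mul, hσν, hρσ]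
      field_simp
      ring
    obtain ⟨ρ', hρ', hρ''⟩ := T.od_step h2 hF hN hk hkn hb₀ hbb₀ hν0 hν hb hbb hμ0 hμ
    obtain ⟨x₀, hx₀⟩ := T.exists_E
    have h3 : ρ' = ρ := by
      have h4 := (hρ x₀).symm.trans (hρ' x₀)
      have h5 : (ρ - ρ') • x₀ = 0 := by rw [sub_smul, h4, sub_self]
      exact (sub_eq_zero.1 ((smul_eq_zero.1 h5).resolve_right hx₀)).symm
    apply hρ''
    rw [h3]
    field_simp
    ring
  rw [hρ, hρ0, zero_smul]

/-- **Odd characteristic.** -/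
theorem odd_case [Finite F] (h2 : (2 : F) ≠ 0) (hF : FixF Hb M) (hN : NI Hb M)
    (hpol : ∀ f : W → W → F, (∀ x y z, f (x + y) z = f x z + f y z) → (∀ (c : F) x y, f (c • x) y = c * f x y) →
      (∀ x y z, f x (y + z) = f x y + f x z) → (∀ (c : F) x y, f x (c • y) = σ c * f x y) →
      (∀ b, β b b = 0 → f b b = 0) → ∃ κ, ∀ x y, f x y = κ * β x y) : ∀ g ∈ M, Pr g := by
  intro k hk
  by_contra hkn
  have hk1 : ∀ v, k (k⁻¹ v) = v := fun v => by rw [← LinearEquiv.mul_apply, mul_inv_cancel]; rfl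
  have hk2 : ∀ v, k⁻¹ (k v) = v := fun v => by rw [← LinearEquiv.mul_apply, inv_mul_cancel]; rfl
  obtain ⟨ν, hν0, hν⟩ := Hh.exists_tr0
  obtain ⟨b₀, -, hb₀, hbb₀⟩ := exists_sing Hb (U := ⊤) (by rw [finrank_top]; have := T.hW; omega)
  obtain ⟨r₀, hr₀⟩ : ∃ r₀ : Module.End F (W →ₗ[F] E), ∀ v, r₀ v = k (pb E Hb b₀ (k⁻¹ v)) :=
    ⟨(k : (W →ₗ[F] E) →ₗ[F] (W →ₗ[F] E)) ∘ₗ pb E Hb b₀ ∘ₗ ((k⁻¹ : (W →ₗ[F] E) ≃ₗ[F] (W →ₗ[F] E)) : (W →ₗ[F] E) →ₗ[F] (W →ₗ[F] E)),
      fun v => rfl⟩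
  have hform : ∀ x x' : E, ∃ κ, ∀ w w', α ((r₀ (pt x (Hb.fl w'))) w) x' = κ * β w w' := by
    intro x x'
    refine hpol (fun w w' => α ((r₀ (pt x (Hb.fl w'))) w) x') ?_ ?_ ?_ ?_ ?_
    · intro w w₁ w'
      rw [map_add, Ha.add_left]
    · intro c w w'
      rw [map_smul, Ha.smul_left]
    · intro w w' w₁
      show α ((r₀ (pt x (Hb.fl (w' + w₁)))) w) x' = _
      rw [T.fl_add, map_add, map_add, LinearMap.add_apply, Ha.add_left]
    · intro c w w'
      show α ((r₀ (pt x (Hb.fl (c • w')))) w) x' = _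
      rw [T.fl_smul, map_smul, map_smul, LinearMap.smul_apply, Ha.smul_left]
    · intro b hb
      show α ((r₀ (pt x (Hb.fl b))) b) x' = 0
      rw [hr₀, T.od_zero h2 hF hN hk hkn hb₀ hbb₀ hb, Ha.zero_left]
  have hcomm : ∀ v, r₀ (pb E Hb b₀ v) = pb E Hb b₀ (r₀ v) := by
    have h1 : r₀ ∘ₗ pb E Hb b₀ = pb E Hb b₀ ∘ₗ r₀ := by
      apply ext_pt
      intro x φ
      obtain ⟨w, rfl⟩ := T.rep φ
      apply LinearMap.ext
      intro w'
      apply T.eqE
      intro x'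
      obtain ⟨κ, hκ⟩ := hform x x'
      show α ((r₀ (pb E Hb b₀ (pt x (Hb.fl w)))) w') x' = α ((pb E Hb b₀ (r₀ (pt x (Hb.fl w)))) w') x'
      rw [pb_apply, pb_apply, pt_apply, pt_apply, map_smul, LinearMap.smul_apply, map_smul, LinearMap.smul_apply,
        Ha.smul_left, Ha.smul_left, hκ, hκ, HS.fl_apply, HS.fl_apply]
      ring
    exact fun v => LinearMap.congr_fun h1 v
  obtain ⟨x₀, hx₀, -, hxv⟩ := T.xb hbb₀ hν
  have hxr : ∀ v, x₀ (r₀ v) = r₀ (x₀ v) := by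
    intro v
    rw [hxv, hxv, map_add, map_smul]
    congr 2
    exact (hcomm v).symm
  apply hN k hk hkn b₀ ν hb₀ hbb₀ hν0 x₀ hx₀ hxv
  obtain ⟨f, hf, hff⟩ := T.exists_hyp hb₀ hbb₀
  have hbf : β b₀ f = 1 := by rw [Hb.herm, hf, map_one]
  refine hF _ (mul_mem (mul_mem (inv_mem hk) hx₀) hk) b₀ b₀ hb₀ hb₀ hbb₀ hbb₀ fun a => ?_
  have hpf : pb E Hb b₀ (pt a (Hb.fl f)) = pt a (Hb.fl b₀) := by
    rw [pb_apply, pt_apply, HS.fl_apply, hbf, one_smul]
  have h1 : (k⁻¹ * x₀ * k) (pt a (Hb.fl b₀)) = pb E Hb b₀ (k⁻¹ (x₀ (k (pt a (Hb.fl f))))) := by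
    simp only [LinearEquiv.mul_apply]
    have e1 : k (pt a (Hb.fl b₀)) = r₀ (k (pt a (Hb.fl f))) := by rw [hr₀, hk2, hpf]
    rw [e1, hxr, hr₀, hk2]
  rw [h1, pb_apply]
  exact pt_mem_sp _ _

end TU

end Cfsg.Agent.Lib.TenUH94
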