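import Mathlib
import Cfsg.Agent.Lib.TenUOddH94
import Cfsg.Agent.Lib.TenURingH94
import Cfsg.Agent.Lib.TenUPol
import Cfsg.Agent.Lib.TenUFix
import Cfsg.Agent.Lib.TenUAlg
import Cfsg.Agent.Lib.TenUAll
import Cfsg.Agent.Lib.TenUEven

set_option autoImplicit false
set_option linter.unusedSectionVars false
set_option linter.unusedSimpArgs false
set_option linter.unusedVariables false

/-!
Overgroups of `SU ⊗ SU`: the main result.
-/

namespace Cfsg.Agent.Lib.TenUH94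

open Module Cfsg.Agent.Lib.TenSLH94 Cfsg.Agent.Lib.UnTrans Cfsg.Agent.Lib.UnMax
open Cfsg.Agent.Lib.SpTrans (isom mem_isom)

variable {F E W : Type*} [Field F] [AddCommGroup E] [Module F E] [FiniteDimensional F E]
  [AddCommGroup W] [Module F W] [FiniteDimensional F W]
  {σ : F →+* F} {α : E → E → F} {β : W → W → F} {h : (W →ₗ[F] E) → (W →ₗ[F] E) → F}
  {Ha : HS σ α} {Hb : HS σ β} {Hh : HS σ h} {M : Subgroup ((W →ₗ[F] E) ≃ₗ[F] (W →ₗ[F] E))}

/-- **Main result.** -/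
theorem TU.main [Finite F] (T : TU Ha Hb Hh M)
    (hex : finrank F E = 2 → ∃ μ ν : F, μ ≠ 0 ∧ ν ≠ 0 ∧ μ ≠ ν ∧ μ + σ μ = 0 ∧ ν + σ ν = 0) :
    tgrp Hh ⊤ ≤ M ∨ ∀ g ∈ M, Pr g := by
  by_cases hno : NoX Hb M
  · right
    have hF := T.fixF_of hno
    have hN := T.ni_of hF
    by_cases h2 : (2 : F) = 0
    · exact T.even_case h2 hF hN
    · exact T.odd_case h2 hF hN fun f f1 f2 f3 f4 h0 => pol_form Hb T.nb (by have := T.hW; omega) f f1 f2 f3 f4 h0
  · left
    refine T.caseI_of hno ?_ ?_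
    · intro N hconj hadj X hX hXs hXn
      exact alg_rank1 Ha T.na T.hE hex N hconj hadj X hX hXs hXn
    · exact fun hR => T.all_of_R hR

end Cfsg.Agent.Lib.TenUH94
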