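import Mathlib
import Cfsg.Agent.Lib.TenUBrG
import Cfsg.Agent.Lib.TenUMainH94

set_option autoImplicit false
set_option linter.unusedSectionVars false
set_option linter.unusedSimpArgs false
set_option linter.unusedVariables false

/-!
Bridge for tensor products of unitary forms, all degrees.
-/

namespace Cfsg.Agent.Lib.TenUH94

open Module Cfsg Cfsg.Geo Cfsg.Agent.Lib.TenSLH94 Cfsg.Agent.Lib.UnTrans Cfsg.Agent.Lib.UnMax
  Cfsg.Agent.Lib.TenBrH94 Cfsg.Agent.Lib.GeoBridge Cfsg.Agent.Lib.TensorGeo Cfsg.Agent.Lib.UnBridge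
open Cfsg.Agent.Lib.SpTrans (isom mem_isom)
open scoped MatrixGroups Matrix Kronecker

variable {F : Type*} [Field F] {n₁ n₂ : ℕ}

/-- tensor products with second factor of dimension at least five -/
theorem ten_max5 [Fintype F] {n q : ℕ} (hF : Fintype.card F = q ^ 2) (h1 : 2 ≤ n₁) (h12 : n₁ < n₂) (h5 : 5 ≤ n₂)
    (hex : ¬ (n₁ = 2 ∧ q = 2)) (e : (Fin n) ≃ Fin n₁ × Fin n₂) (P : GL (Fin n) F)
    {f₁ : (Fin n₁ → F) → (Fin n₁ → F) → F} {f₂ : (Fin n₂ → F) → (Fin n₂ → F) → F} (hf₁ : IsUnitaryFormPow q f₁)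
    (hf₂ : IsUnitaryFormPow q f₂) (hT : IsTensorFormStructure (fun x : F => x ^ q) (hermForm n F q) f₁ f₂ e P) :
    IsMaximalIn (GU n F q ⊓ specialLinear (Fin n) F)
      (tensorProductSubgroup n₁ n₂ e P ⊓ (GU n F q ⊓ specialLinear (Fin n) F)) := by
  refine br_gen hF h1 h12 hex e P hf₁ hf₂ hT ?_
  intro σ α β h Ha Hb Hh M na nb nh pol hM tA tB hx
  have T : TU Ha Hb Hh M :=
    { na := na
      nb := nb
      nh := nh
      hE := by rw [finrank_fintype_fun_eq_card, Fintype.card_fin]; exact h1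
      hW := by rw [finrank_fintype_fun_eq_card, Fintype.card_fin]; exact h5
      hEW := by rw [finrank_fintype_fun_eq_card, finrank_fintype_fun_eq_card, Fintype.card_fin, Fintype.card_fin]; exact h12
      pol := pol
      hM := hM
      tA := tA
      tB := tB }
  exact TU.main T hx

end Cfsg.Agent.Lib.TenUH94
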