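import Mathlib
import Cfsg.Agent.Lib.TenSL4H94
import Cfsg.Agent.Lib.UnTrans
import Cfsg.Agent.Lib.UnMax

set_option autoImplicit false
set_option linter.unusedSectionVars false
set_option linter.unusedSimpArgs false
set_option linter.unusedVariables false

/-!
Overgroups of `SU ⊗ SU` in unitary groups: the situation and the basic elements.
-/

namespace Cfsg.Agent.Lib.TenVH94

open Module Cfsg.Agent.Lib.TenSLH94 Cfsg.Agent.Lib.UnTrans Cfsg.Agent.Lib.UnMax
open Cfsg.Agent.Lib.SpTrans (isom mem_isom)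

variable {F E W : Type*} [Field F] [AddCommGroup E] [Module F E] [FiniteDimensional F E]
  [AddCommGroup W] [Module F W] [FiniteDimensional F W]

/-- two dimensional subspaces contain singular vectors -/
theorem exists_sing {V : Type*} [AddCommGroup V] [Module F V] [FiniteDimensional F V] {σ : F →+* F} {f : V → V → F}
    (H : HS σ f) {U : Submodule F V} (hU : 2 ≤ finrank F U) : ∃ e ∈ U, e ≠ 0 ∧ f e e = 0 := by
  obtain ⟨x, hx, hx0⟩ : ∃ x ∈ U, x ≠ 0 := Submodule.exists_mem_ne_zero_of_ne_bot (by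
    rintro rfl; rw [finrank_bot] at hU; omega)
  by_cases hxx : f x x = 0
  · exact ⟨x, hx, hx0, hxx⟩
  obtain ⟨y, hy, hyx⟩ : ∃ y ∈ U, y ∉ Submodule.span F {x} := by
    by_contra hcon
    push Not at hcon
    have := Submodule.finrank_mono (show U ≤ Submodule.span F {x} from hcon)
    have h1 := finrank_span1 (F := F) x
    omega
  obtain ⟨y', hy', hy'0, hyx'⟩ : ∃ y' ∈ U, y' ≠ 0 ∧ f y' x = 0 := by
    refine ⟨y - (f y x / f x x) • x, U.sub_mem hy (U.smul_mem _ hx), ?_, ?_⟩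
    · intro h0
      apply hyx
      rw [sub_eq_zero] at h0
      rw [h0]
      exact Submodule.smul_mem _ _ (Submodule.mem_span_singleton_self x)
    · rw [H.sub_left, H.smul_left, div_mul_cancel₀ _ hxx, sub_self]
  obtain ⟨c, hc⟩ := H.norm (-(f y' y') / f x x) (by rw [map_div₀, map_neg, H.self_fixed, H.self_fixed])
  refine ⟨y' + c • x, U.add_mem hy' (U.smul_mem _ hx), ?_, ?_⟩
  · intro h0
    have h1 : f (y' + c • x) x = 0 := by rw [h0, H.zero_left]
    rw [H.add_left, hyx', zero_add, H.smul_left] at h1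
    rcases mul_eq_zero.1 h1 with h2 | h2
    · rw [h2, zero_smul, add_zero] at h0
      exact hy'0 h0
    · exact hxx h2
  · rw [H.add_left, H.add_right, H.add_right, H.smul_left, H.smul_left, H.smul_right, H.smul_right, hyx',
      H.symm_zero hyx']
    have : c * (σ c * f x x) = -(f y' y') := by
      rw [← mul_assoc, hc, div_mul_cancel₀ _ hxx]
    rw [this]; ring

/-- the situation -/
structure TU {σ : F →+* F} {α : E → E → F} {β : W → W → F} {h : (W →ₗ[F] E) → (W →ₗ[F] E) → F}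
    (Ha : HS σ α) (Hb : HS σ β) (Hh : HS σ h) (M : Subgroup ((W →ₗ[F] E) ≃ₗ[F] (W →ₗ[F] E))) : Prop where
  na : Nd α (⊤ : Submodule F E)
  nb : Nd β (⊤ : Submodule F W)
  nh : Nd h (⊤ : Submodule F (W →ₗ[F] E))
  hE : 2 ≤ finrank F E
  hW : 4 ≤ finrank F W
  hEW : finrank F E < finrank F W
  hE3 : finrank F W = 4 → finrank F E = 3
  pol : ∀ (a : E) (b : W) (v : W →ₗ[F] E), h v (pt a (Hb.fl b)) = α (v b) a
  hM : M ≤ isom h
  tA : ∀ p ∈ isom α, LinearMap.det ((p : E ≃ₗ[F] E) : E →ₗ[F] E) = 1 → ac p 1 ∈ M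
  tB : ∀ q ∈ isom β, LinearMap.det ((q : W ≃ₗ[F] W) : W →ₗ[F] W) = 1 → ac 1 q ∈ M

variable {σ : F →+* F} {α : E → E → F} {β : W → W → F} {h : (W →ₗ[F] E) → (W →ₗ[F] E) → F}
  {Ha : HS σ α} {Hb : HS σ β} {Hh : HS σ h} {M : Subgroup ((W →ₗ[F] E) ≃ₗ[F] (W →ₗ[F] E))}

/-- pairs -/
def Pr (g : (W →ₗ[F] E) ≃ₗ[F] (W →ₗ[F] E)) : Prop := ∃ p q, g = ac p q

theorem Pr.mul {g g' : (W →ₗ[F] E) ≃ₗ[F] (W →ₗ[F] E)} (h : Pr g) (h' : Pr g') : Pr (g * g') := by
  obtain ⟨p, q, rfl⟩ := h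
  obtain ⟨p', q', rfl⟩ := h'
  exact ⟨p * p', q * q', rfl⟩

theorem Pr.inv {g : (W →ₗ[F] E) ≃ₗ[F] (W →ₗ[F] E)} (h : Pr g) : Pr g⁻¹ := by
  obtain ⟨p, q, rfl⟩ := h
  exact ⟨p⁻¹, q⁻¹, rfl⟩

/-- no extra elements in the centres of the radicals -/
def NoX (Hb : HS σ β) (M : Subgroup ((W →ₗ[F] E) ≃ₗ[F] (W →ₗ[F] E))) : Prop :=
  ∀ b : W, b ≠ 0 → β b b = 0 → ∀ X : E →ₗ[F] E, ∀ r ∈ M, (∀ v, r v = v + pt (X (v b)) (Hb.fl b)) → ∃ c : F, ∀ x, X x = c • x

/-- members of `M` taking a standard space to a standard space are pairs -/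
def FixF (Hb : HS σ β) (M : Subgroup ((W →ₗ[F] E) ≃ₗ[F] (W →ₗ[F] E))) : Prop :=
  ∀ g ∈ M, ∀ b b' : W, b ≠ 0 → b' ≠ 0 → β b b = 0 → β b' b' = 0 →
    (∀ a : E, g (pt a (Hb.fl b)) ∈ (sp (Hb.fl b') : Submodule F (W →ₗ[F] E))) → Pr g

/-- conjugates of root elements by elements that are not pairs -/
def NI (Hb : HS σ β) (M : Subgroup ((W →ₗ[F] E) ≃ₗ[F] (W →ₗ[F] E))) : Prop :=
  ∀ k ∈ M, ¬ Pr k → ∀ (e : W) (μ : F), e ≠ 0 → β e e = 0 → μ ≠ 0 → ∀ x ∈ M,
    (∀ v, x v = v + μ • pt (v e) (Hb.fl e)) → ¬ Pr (k⁻¹ * x * k)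

namespace TU

variable (T : TU Ha Hb Hh M)
include T

theorem rep (φ : Dual F W) : ∃ b, φ = Hb.fl b := by
  obtain ⟨b, hb⟩ := fl_surj Hb T.nb φ
  exact ⟨b, hb.symm⟩

theorem fl_ne {b : W} (hb : b ≠ 0) : Hb.fl b ≠ 0 := by
  intro h0
  obtain ⟨y, -, hy⟩ := T.nb b trivial hb
  apply hy
  apply Hb.symm_zero
  have := DFunLike.congr_fun h0 y
  exact this

theorem fl_add (b c : W) : Hb.fl (b + c) = Hb.fl b + Hb.fl c := LinearMap.ext fun x => Hb.add_right x b c

theorem fl_sub (b c : W) : Hb.fl (b - c) = Hb.fl b - Hb.fl c := LinearMap.ext fun x => Hb.sub_right x b c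

theorem fl_smul (c : F) (b : W) : Hb.fl (c • b) = σ c • Hb.fl b := LinearMap.ext fun x => Hb.smul_right c x b

theorem fl_inj {b c : W} (hbc : Hb.fl b = Hb.fl c) : b = c := by
  rw [← sub_eq_zero]
  by_contra hne
  exact T.fl_ne hne (by rw [T.fl_sub, hbc, sub_self])

theorem eqE {x y : E} (hxy : ∀ z, α x z = α y z) : x = y := by
  rw [← sub_eq_zero]
  by_contra hne
  obtain ⟨z, -, hz⟩ := T.na _ trivial hne
  exact hz (by rw [Ha.sub_left, hxy, sub_self])

theorem eqV {x y : W →ₗ[F] E} (hxy : ∀ z, h x z = h y z) : x = y := by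
  rw [← sub_eq_zero]
  by_contra hne
  obtain ⟨z, -, hz⟩ := T.nh _ trivial hne
  exact hz (by rw [Hh.sub_left, hxy, sub_self])

/-- a vector with value one -/
theorem exists_one {b : W} (hb : b ≠ 0) : ∃ f, β f b = 1 := by
  obtain ⟨f, hf⟩ := exists_val (T.fl_ne hb)
  exact ⟨f, hf⟩

/-- a singular vector with value one -/
theorem exists_hyp {b : W} (hb : b ≠ 0) (hbb : β b b = 0) : ∃ f, β f b = 1 ∧ β f f = 0 := by
  obtain ⟨f, hf⟩ := T.exists_one hb
  have hbf : β b f = 1 := by rw [Hb.herm, hf, map_one]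
  obtain ⟨a, ha⟩ := Hb.exists_add_norm (z := b) (u := f) hbb (by rw [hbf]; exact one_ne_zero) (map_zero σ)
  exact ⟨f + a • b, by rw [Hb.add_left, Hb.smul_left, hf, hbb, mul_zero, add_zero], ha⟩

/-- pairs of isometries -/
theorem ac_one_isom {q : W ≃ₗ[F] W} (hq : q ∈ isom β) (v : W →ₗ[F] E) (a : E) (b : W) :
    ac 1 q (pt a (Hb.fl b)) = pt a (Hb.fl (q b)) := by
  apply LinearMap.ext
  intro w
  rw [ac_apply, pt_apply, pt_apply]
  show β (q.symm w) b • a = β w (q b) • a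
  rw [← hq (q.symm w) b, LinearEquiv.apply_symm_apply]

/-- if `ac 1 q` is an isometry then so is `q` -/
theorem isom_of_ac {q : W ≃ₗ[F] W} (hq : (ac 1 q : (W →ₗ[F] E) ≃ₗ[F] (W →ₗ[F] E)) ∈ isom h) : q ∈ isom β := by
  intro x y
  obtain ⟨a, -, ha⟩ : ∃ a ∈ (⊤ : Submodule F E), ∃ a' ∈ (⊤ : Submodule F E), α a a' ≠ 0 := by
    have : Nontrivial E := Module.finrank_pos_iff (R := F).1 (by have := T.hE; omega)
    obtain ⟨a, ha⟩ := exists_ne (0 : E)
    exact ⟨a, trivial, T.na a trivial ha⟩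
  obtain ⟨a', -, haa⟩ := ha
  -- the image of `pt a (fl z)`
  obtain ⟨z, hz⟩ := T.rep (Hb.fl y ∘ₗ (q.symm : W →ₗ[F] W))
  have hz' : ∀ w, β (q.symm w) y = β w z := fun w => DFunLike.congr_fun hz w
  have h1 : ∀ w, β w y = β (q w) z := fun w => by rw [← hz', LinearEquiv.symm_apply_apply]
  have h2 : ac 1 q (pt a' (Hb.fl y)) = pt a' (Hb.fl z) := by
    apply LinearMap.ext
    intro w
    rw [ac_apply, pt_apply, pt_apply]
    show β (q.symm w) y • a' = β w z • a'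
    rw [hz']
  have h3 : ∀ v : W →ₗ[F] E, α (v y) a' = α (v (q.symm z)) a' := by
    intro v
    have h4 := hq v (pt a' (Hb.fl y))
    rw [h2, T.pol, T.pol, ac_apply] at h4
    exact h4.symm
  have h5 : q.symm z = y := by
    by_contra hne
    obtain ⟨φ, hφ⟩ := exists_dual0 (F := F) (sub_ne_zero.2 hne)
    have h6 := h3 (pt a φ)
    rw [pt_apply, pt_apply, Ha.smul_left, Ha.smul_left] at h6
    have h7 := mul_right_cancel₀ haa h6
    rw [map_sub, h7, sub_self] at hφ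
    exact zero_ne_one hφ
  have h6 : z = q y := by rw [← h5, LinearEquiv.apply_symm_apply]
  rw [← h6, h1]

/-- transvections of the second factor -/
theorem xb {b : W} (hb : β b b = 0) {μ : F} (hμ : μ + σ μ = 0) : ∃ x ∈ M, (∃ q ∈ isom β, x = ac 1 q) ∧
    ∀ v, x v = v + μ • pt (v b) (Hb.fl b) := by
  have hμ' : (-μ) + σ (-μ) = 0 := by rw [map_neg]; linear_combination -hμ
  refine ⟨ac 1 (tv Hb b hb (-μ) hμ'), T.tB _ (tv_mem Hb b hb _ hμ') (tv_det Hb b hb _ hμ'), ⟨_, tv_mem Hb b hb _ hμ', rfl⟩,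
    fun v => ?_⟩
  have h1 : ∀ w, (tv Hb b hb (-μ) hμ').symm w = w + (μ * β w b) • b := by
    intro w
    apply (tv Hb b hb (-μ) hμ').injective
    rw [LinearEquiv.apply_symm_apply, tv_apply, Hb.add_left, Hb.smul_left, hb]
    module
  apply LinearMap.ext
  intro w
  rw [ac_apply, h1, LinearMap.add_apply, LinearMap.smul_apply, pt_apply, map_add, map_smul, mul_smul]
  rfl

/-- Siegel elements of the second factor -/
theorem sb {b d : W} (hb : β b b = 0) (hbd : β d b = 0) {c : F} (hc : c + σ c + β d d = 0) : ∃ s ∈ M,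
    (∃ q ∈ isom β, s = ac 1 q) ∧
    (∀ v, s v = v + pt (v b) (Hb.fl d) - pt (v d) (Hb.fl b) + σ c • pt (v b) (Hb.fl b)) ∧
    ∀ v, s⁻¹ v = v - pt (v b) (Hb.fl d) + pt (v d) (Hb.fl b) + c • pt (v b) (Hb.fl b) := by
  have hdb : β b d = 0 := Hb.symm_zero hbd
  have h4 : 4 ≤ finrank F (⊤ : Submodule F W) := by rw [finrank_top]; have := T.hW; omega
  obtain ⟨q, hq, hqv⟩ := rhoIn_all Hb (M := tgrp Hb ⊤) (W := ⊤) le_rfl T.nb h4 (e := b) (u := d) trivial hb trivial hbd c hc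
  have hc' : σ c + σ (σ c) + β (-d) (-d) = 0 := by rw [Hb.inv, Hb.neg_left, Hb.neg_right]; linear_combination hc
  have hqi : ∀ w, q.symm w = w - β w b • d + β w d • b + (σ c * β w b) • b := by
    intro w
    apply q.injective
    rw [LinearEquiv.apply_symm_apply, hqv, rho]
    simp only [Hb.add_left, Hb.sub_left, Hb.smul_left, hb, hbd, hdb]
    have : β d d = -c - σ c := by linear_combination hc
    rw [this]
    module
  have hs : ∀ v : W →ₗ[F] E, ac 1 q v = v + pt (v b) (Hb.fl d) - pt (v d) (Hb.fl b) + σ c • pt (v b) (Hb.fl b) := by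
    intro v
    apply LinearMap.ext
    intro w
    rw [ac_apply, hqi]
    simp only [LinearMap.add_apply, LinearMap.sub_apply, LinearMap.smul_apply, pt_apply, map_add, map_sub, map_smul]
    show v w - β w b • v d + β w d • v b + (σ c * β w b) • v b = v w + β w d • v b - β w b • v d + σ c • β w b • v b
    module
  refine ⟨ac 1 q, T.tB _ (tgrp_le_isom Hb _ hq) (tgrp_det Hb hq), ⟨q, tgrp_le_isom Hb _ hq, rfl⟩, hs, fun v => ?_⟩
  apply (ac 1 q : (W →ₗ[F] E) ≃ₗ[F] (W →ₗ[F] E)).injective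
  rw [← LinearEquiv.mul_apply, mul_inv_cancel, hs]
  apply LinearMap.ext
  intro w
  have e : σ c = -c - β d d := by linear_combination hc
  simp only [LinearMap.add_apply, LinearMap.sub_apply, LinearMap.smul_apply, pt_apply, LinearEquiv.coe_one, id,
    HS.fl_apply, hb, hbd, hdb, e]
  module

end TU

end Cfsg.Agent.Lib.TenVH94
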