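import Mathlib
import Cfsg.Agent.Lib.TenV1H94

set_option autoImplicit false
set_option linter.unusedSectionVars false
set_option linter.unusedSimpArgs false
set_option linter.unusedVariables false

/-!
Overgroups of `SU ⊗ SU` in unitary groups: dimensions three and four in characteristic two.
-/

namespace Cfsg.Agent.Lib.TenVH94

open Module Cfsg.Agent.Lib.TenSLH94 Cfsg.Agent.Lib.UnTrans Cfsg.Agent.Lib.UnMax
open Cfsg.Agent.Lib.SpTrans (isom mem_isom)

theorem quad_eig {F E : Type*} [Field F] [AddCommGroup E] [Module F E] [FiniteDimensional F E]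
    (hE : finrank F E = 3) (T : E →ₗ[F] E) (p q : F) (hT : ∀ x, T (T x) = p • T x + q • x) :
    ∃ v : E, v ≠ 0 ∧ ∃ l : F, T v = l • v := by
  have : Nontrivial E := Module.finrank_pos_iff (R := F).1 (by omega)
  obtain ⟨v, hv⟩ := exists_ne (0 : E)
  obtain ⟨P, hP⟩ : ∃ P : Submodule F E, P = Submodule.span F {v, T v} := ⟨_, rfl⟩
  have hPr : finrank F P < 3 := by
    have h1 : finrank F P ≤ 2 := by
      rw [hP]
      classical
      have h0 := finrank_span_finset_le_card (R := F) ({v, T v} : Finset E)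
      rw [Finset.coe_pair] at h0
      exact h0.trans Finset.card_le_two
    omega
  have hTP : ∀ x ∈ P, T x ∈ P := by
    intro x hx
    rw [hP] at hx ⊢
    obtain ⟨a, c, rfl⟩ := Submodule.mem_span_pair.1 hx
    rw [map_add, map_smul, map_smul, hT]
    exact Submodule.mem_span_pair.2 ⟨c * q, a + c * p, by module⟩
  by_cases h2 : finrank F P = 2
  · -- the quotient
    obtain ⟨Q, hQ⟩ : ∃ Q : Submodule F E, IsCompl P Q := P.exists_isCompl
    have hQr : finrank F Q = 1 := by
      have := Submodule.finrank_add_eq_of_isCompl hQ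
      omega
    obtain ⟨x, hxQ, hx0⟩ : ∃ x ∈ Q, x ≠ 0 := Submodule.exists_mem_ne_zero_of_ne_bot (by
      rintro rfl; rw [finrank_bot] at hQr; omega)
    have hxP : x ∉ P := fun h => hx0 (by
      have := hQ.disjoint
      exact (Submodule.disjoint_def.1 this) x h hxQ)
    have hspan : ∀ y : E, ∃ l : F, y - l • x ∈ P := by
      intro y
      have hy : y ∈ P ⊔ Q := by rw [hQ.sup_eq_top]; trivial
      obtain ⟨a, ha, c, hc, rfl⟩ := Submodule.mem_sup.1 hy
      have h3 : Submodule.span F {x} = Q := by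
        apply Submodule.eq_of_le_of_finrank_eq
        · rw [Submodule.span_singleton_le_iff_mem]; exact hxQ
        · rw [finrank_span_singleton hx0, hQr]
      rw [← h3] at hc
      obtain ⟨l, rfl⟩ := Submodule.mem_span_singleton.1 hc
      exact ⟨l, by rwa [add_sub_cancel_right]⟩
    obtain ⟨l, hl⟩ := hspan (T x)
    have h4 : ∀ y : E, (T - l • LinearMap.id : E →ₗ[F] E) y ∈ P := by
      intro y
      obtain ⟨m, hm⟩ := hspan y
      have e1 : (T - l • LinearMap.id : E →ₗ[F] E) y = T (y - m • x) - l • (y - m • x) + m • (T x - l • x) := by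
        rw [LinearMap.sub_apply, LinearMap.smul_apply, LinearMap.id_apply, map_sub, map_smul]
        module
      rw [e1]
      exact P.add_mem (P.sub_mem (hTP _ hm) (P.smul_mem _ hm)) (P.smul_mem _ hl)
    have h5 : ¬ Function.Injective (T - l • LinearMap.id : E →ₗ[F] E) := by
      intro hinj
      obtain ⟨y, hy⟩ := LinearMap.surjective_of_injective hinj x
      exact hxP (by rw [← hy]; exact h4 y)
    rw [injective_iff_map_eq_zero] at h5
    push Not at h5
    obtain ⟨y, hy, hy0⟩ := h5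
    refine ⟨y, hy0, l, ?_⟩
    rw [LinearMap.sub_apply, LinearMap.smul_apply, LinearMap.id_apply, sub_eq_zero] at hy
    exact hy
  · have h6 : finrank F P ≤ 1 := by omega
    refine ⟨v, hv, ?_⟩
    have h7 : Submodule.span F {v} = P := by
      apply Submodule.eq_of_le_of_finrank_le
      · rw [hP]; exact Submodule.span_mono (by simp)
      · rw [finrank_span_singleton hv]; exact h6
    have h8 : T v ∈ Submodule.span F {v} := by
      rw [h7, hP]; exact Submodule.subset_span (by simp)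
    obtain ⟨l, hl⟩ := Submodule.mem_span_singleton.1 h8
    exact ⟨l, hl.symm⟩

variable {F E W : Type*} [Field F] [AddCommGroup E] [Module F E] [FiniteDimensional F E]
  [AddCommGroup W] [Module F W] [FiniteDimensional F W]
  {σ : F →+* F} {α : E → E → F} {β : W → W → F} {h : (W →ₗ[F] E) → (W →ₗ[F] E) → F}
  {Ha : HS σ α} {Hb : HS σ β} {Hh : HS σ h} {M : Subgroup ((W →ₗ[F] E) ≃ₗ[F] (W →ₗ[F] E))}

namespace TU

variable (T : TU Ha Hb Hh M)
include T

theorem ev_y4 (hE : finrank F E = 3) {b e : W} (hbb : β b b = 0) (hee : β e e = 0) (hbe : β b e = 0) (heb : β e b = 0)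
    (hindep : ∀ m : F, m • b + e ≠ 0)
    {t₁ t₂ : W} (h11 : β t₁ b = 0) (h12 : β t₁ e = 1) (h21 : β t₂ b = 1) (h22 : β t₂ e = 0)
    {U : Submodule F (W →ₗ[F] E)} (hU : finrank F U = 3) (hmx : ∀ u ∈ U, u b = 0 → u e = 0)
    {y : E ≃ₗ[F] E} {s : W ≃ₗ[F] W}
    (hfix : ∀ x x' : E, (∀ u ∈ U, α (u b) x + α (u e) x' = 0) →
      (ac y s : (W →ₗ[F] E) ≃ₗ[F] (W →ₗ[F] E)) (pt x (Hb.fl b) + pt x' (Hb.fl e)) = pt x (Hb.fl b) + pt x' (Hb.fl e))
    (hB : (∃ u ∈ U, u ≠ 0 ∧ u b = 0) ∨ (∀ u ∈ U, u ≠ 0 → ∀ b' : W, b' ≠ 0 → β b' b' = 0 → u b' ≠ 0)) :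
    ∃ c : F, ∀ x, y x = c • x := by
  obtain ⟨A, hA⟩ : ∃ A, A = β (s.symm t₁) b := ⟨_, rfl⟩
  obtain ⟨B, hBd⟩ : ∃ B, B = β (s.symm t₁) e := ⟨_, rfl⟩
  obtain ⟨A', hA'⟩ : ∃ A', A' = β (s.symm t₂) b := ⟨_, rfl⟩
  obtain ⟨B', hB'⟩ : ∃ B', B' = β (s.symm t₂) e := ⟨_, rfl⟩
  have hR : ∀ x x' : E, (∀ u ∈ U, α (u b) x + α (u e) x' = 0) →
      y (A • x + B • x') = x' ∧ y (A' • x + B' • x') = x := by
    intro x x' hxx
    have h1 := hfix x x' hxx
    have h2 := congrArg (fun v : W →ₗ[F] E => v t₁) h1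
    have h3 := congrArg (fun v : W →ₗ[F] E => v t₂) h1
    simp only [ac_apply, LinearMap.add_apply, pt_apply, HS.fl_apply, h11, h12, h21, h22, zero_smul, one_smul, zero_add,
      add_zero] at h2 h3
    rw [← hA, ← hBd] at h2
    rw [← hA', ← hB'] at h3
    exact ⟨h2, h3⟩
  -- existence of x for x'
  have hex : ∀ x' : E, ∃ x : E, ∀ u ∈ U, α (u b) x + α (u e) x' = 0 := by
    intro x'
    obtain ⟨L, hL⟩ : ∃ L : U →ₗ[F] E, ∀ u : U, L u = (u : W →ₗ[F] E) b :=
      ⟨(LinearMap.applyₗ b) ∘ₗ U.subtype, fun u => rfl⟩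
    obtain ⟨g, hg⟩ : ∃ g : U →ₗ[F] F, ∀ u : U, g u = -α ((u : W →ₗ[F] E) e) x' :=
      ⟨-((Ha.fl x') ∘ₗ (LinearMap.applyₗ e) ∘ₗ U.subtype), fun u => rfl⟩
    have h1 : g ∈ LinearMap.range L.dualMap := by
      rw [LinearMap.range_dualMap_eq_dualAnnihilator_ker, Submodule.mem_dualAnnihilator]
      intro u hu
      rw [LinearMap.mem_ker, hL] at hu
      rw [hg, hmx u u.2 hu, Ha.zero_left, neg_zero]
    obtain ⟨ψ, hψ⟩ := h1
    obtain ⟨x, hx⟩ := fl_surj Ha T.na ψ
    refine ⟨x, fun u hu => ?_⟩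
    have h2 := LinearMap.congr_fun hψ ⟨u, hu⟩
    rw [LinearMap.dualMap_apply, hL, hg, ← hx, HS.fl_apply] at h2
    rw [h2, neg_add_cancel]
  have hE0 : ∃ x : E, x ≠ 0 := by
    have : Nontrivial E := Module.finrank_pos_iff (R := F).1 (by omega)
    exact exists_ne 0
  have hdone : A = 0 → ∃ c : F, ∀ x, y x = c • x := by
    intro hA0
    have h1 : ∀ x', y (B • x') = x' := by
      intro x'
      obtain ⟨x, hx⟩ := hex x'
      have := (hR x x' hx).1
      rwa [hA0, zero_smul, zero_add] at this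
    have hB0 : B ≠ 0 := by
      rintro rfl
      obtain ⟨x, hx⟩ := hE0
      apply hx
      rw [← h1 x, zero_smul, map_zero]
    refine ⟨B⁻¹, fun x => ?_⟩
    have h2 := h1 (B⁻¹ • x)
    rwa [smul_smul, mul_inv_cancel₀ hB0, one_smul] at h2
  -- a subspace annihilated
  have hann : ∀ b' : W, (∃ u ∈ U, u ≠ 0 ∧ u b' = 0) → ∃ x : E, x ≠ 0 ∧ ∀ u ∈ U, α (u b') x = 0 := by
    intro b' ⟨u₀, hu₀, hu₀0, hub⟩
    obtain ⟨L, hL⟩ : ∃ L : U →ₗ[F] E, ∀ u : U, L u = (u : W →ₗ[F] E) b' :=
      ⟨(LinearMap.applyₗ b') ∘ₗ U.subtype, fun u => rfl⟩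
    have h1 : finrank F (LinearMap.range L) < 3 := by
      have h2 := LinearMap.finrank_range_add_finrank_ker L
      have h3 : 0 < finrank F (LinearMap.ker L) := by
        apply Nat.pos_of_ne_zero
        intro h4
        rw [Submodule.finrank_eq_zero] at h4
        have h5 : (⟨u₀, hu₀⟩ : U) ∈ LinearMap.ker L := by rw [LinearMap.mem_ker, hL]; exact hub
        rw [h4, Submodule.mem_bot] at h5
        exact hu₀0 (congrArg Subtype.val h5)
      rw [hU] at h2
      omega
    obtain ⟨z, hz⟩ : ∃ z, z ∉ LinearMap.range L := by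
      by_contra hcon
      push Not at hcon
      have : LinearMap.range L = ⊤ := by rw [eq_top_iff]; exact fun x _ => hcon x
      rw [this, finrank_top, hE] at h1
      omega
    obtain ⟨x, hx, hxz⟩ := exists_perp_ne Ha T.na hz
    refine ⟨x, ?_, fun u hu => ?_⟩
    · rintro rfl
      apply hxz
      exact Ha.zero_left z
    · apply Ha.symm_zero
      apply hx
      exact ⟨⟨u, hu⟩, hL _⟩
  by_cases hA0 : A = 0
  · exact hdone hA0
  rcases hB with hB1 | hB2
  · exfalso
    obtain ⟨x, hx0, hx⟩ := hann b hB1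
    have h1 := (hR x 0 (fun u hu => by rw [hx u hu, Ha.zero_right, add_zero])).1
    rw [smul_zero, add_zero] at h1
    have h2 : A • x = 0 := (LinearEquiv.map_eq_zero_iff y).1 h1
    rcases smul_eq_zero.1 h2 with h3 | h3
    · exact hA0 h3
    · exact hx0 h3
  · exfalso
    -- the quadratic equation
    obtain ⟨T', hT'⟩ : ∃ T' : E →ₗ[F] E, ∀ x, T' x = y.symm x := ⟨(y.symm : E →ₗ[F] E), fun x => rfl⟩
    have hq : ∀ x' : E, T' (T' x') = (B + A') • T' x' + (A * B' - A' * B) • x' := by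
      intro x'
      obtain ⟨x, hx⟩ := hex x'
      obtain ⟨h1, h2⟩ := hR x x' hx
      have h3 : T' x' = A • x + B • x' := by rw [hT', LinearEquiv.symm_apply_eq, h1]
      have h4 : T' x = A' • x + B' • x' := by rw [hT', LinearEquiv.symm_apply_eq, h2]
      rw [h3, map_add, map_smul, map_smul, h3, h4]
      module
    obtain ⟨v, hv0, l, hl⟩ := quad_eig hE T' _ _ hq
    obtain ⟨x, hx⟩ := hex v
    have h1 := (hR x v hx).1
    have h3 : T' v = A • x + B • v := by rw [hT', LinearEquiv.symm_apply_eq, h1]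
    have h4 : x = (A⁻¹ * (l - B)) • v := by
      rw [hl] at h3
      have h5 : A • x = (l - B) • v := by rw [sub_smul, h3, add_sub_cancel_right]
      rw [mul_smul, ← h5, smul_smul, inv_mul_cancel₀ hA0, one_smul]
    obtain ⟨m, hm⟩ : ∃ m, m = A⁻¹ * (l - B) := ⟨_, rfl⟩
    rw [← hm] at h4
    have h6 : ∀ u ∈ U, α (u (σ m • b + e)) v = 0 := by
      intro u hu
      have h7 := hx u hu
      rw [h4, Ha.smul_right] at h7
      rw [map_add, map_smul, Ha.add_left, Ha.smul_left]
      exact h7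
    have hs : β (σ m • b + e) (σ m • b + e) = 0 := by
      rw [Hb.add_left, Hb.add_right, Hb.add_right, Hb.smul_left, Hb.smul_left, Hb.smul_right, Hb.smul_right, hbb, hee,
        hbe, heb]
      ring
    -- the evaluation map is injective on U, hence surjective
    obtain ⟨L, hL⟩ : ∃ L : U →ₗ[F] E, ∀ u : U, L u = (u : W →ₗ[F] E) (σ m • b + e) :=
      ⟨(LinearMap.applyₗ (σ m • b + e)) ∘ₗ U.subtype, fun u => rfl⟩
    have hinj : Function.Injective L := by
      rw [injective_iff_map_eq_zero]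
      intro u hu
      by_contra hu0
      exact hB2 u u.2 (fun h0 => hu0 (Subtype.ext h0)) _ (hindep _) hs (by rw [← hL]; exact hu)
    have hsurj : Function.Surjective L :=
      (LinearMap.injective_iff_surjective_of_finrank_eq_finrank (by rw [hU, hE])).1 hinj
    obtain ⟨z, -, hz⟩ := T.na v trivial hv0
    obtain ⟨u, hu⟩ := hsurj z
    apply hz
    apply Ha.symm_zero
    rw [← hu, hL]
    exact h6 u u.2

end TU

end Cfsg.Agent.Lib.TenVH94
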