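import Mathlib
import Cfsg.Agent.Lib.TenV1H94

set_option autoImplicit false
set_option linter.unusedSectionVars false
set_option linter.unusedSimpArgs false
set_option linter.unusedVariables false

/-!
Overgroups of `SU ⊗ SU`: all Siegel elements of a pair of orthogonal rank one tensors give the whole group
(piece P2 of S5670-PLAN, helper1).
-/

namespace Cfsg.Agent.Lib.TenVH94

open Module Cfsg.Agent.Lib.TenSLH94 Cfsg.Agent.Lib.UnTrans Cfsg.Agent.Lib.UnMax
open Cfsg.Agent.Lib.SpTrans (isom mem_isom)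

section abstract

variable {F V : Type*} [Field F] [AddCommGroup V] [Module F V] {σ : F →+* F} {f : V → V → F}
  {M : Subgroup (V ≃ₗ[F] V)}

theorem rho_comm (H : HS σ f) (hM : M ≤ isom f) {e1 u1 e2 u2 : V} (h1 : RhoIn f M e1 u1 0)
    (h2 : RhoIn f M e2 u2 0) (h3 : RhoIn f M e2 (-u2) 0) (a1 : f e2 e1 = 0) (a2 : f u2 e1 = 0)
    (a3 : f u2 u1 = 0) (a4 : f u2 e2 = 0) (a5 : f e2 e2 = 0) (a6 : f u2 u2 = 0) :
    RhoIn f M ((-(f e2 u1)) • e1) u2 0 := by
  obtain ⟨t1, ht1, q1⟩ := h1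
  obtain ⟨t2, ht2, q2⟩ := h2
  obtain ⟨t3, ht3, q3⟩ := h3
  refine ⟨t1 * t2 * t1⁻¹ * t3, mul_mem (mul_mem (mul_mem ht1 ht2) (inv_mem ht1)) ht3, fun v => ?_⟩
  have hw : t3 v = v - f v e2 • u2 + f v u2 • e2 := by
    rw [q3, rho, H.neg_right]; module
  have he2 : t1 e2 = e2 - f e2 u1 • e1 := by rw [q1, rho, a1]; module
  have hu2 : t1 u2 = u2 := by rw [q1, rho, a2, a3]; module
  set w := t3 v with hwdef
  have hy : t1 (t1⁻¹ w) = w := by rw [← LinearEquiv.mul_apply, mul_inv_cancel]; rfl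
  set y := t1⁻¹ w with hydef
  have e0 : (t1 * t2 * t1⁻¹ * t3) v = t1 (t2 y) := rfl
  have iso := hM ht1
  have b1 : f y e2 = f w (e2 - f e2 u1 • e1) := by rw [← iso y e2, hy, he2]
  have b2 : f y u2 = f w u2 := by rw [← iso y u2, hy, hu2]
  have a4' : f e2 u2 = 0 := H.symm_zero a4
  have a1' : f e1 e2 = 0 := H.symm_zero a1
  rw [e0, q2, rho, zero_mul, zero_smul, add_zero, map_sub, map_add, map_smul, map_smul, hy, he2, hu2, b1, b2,
    hw]
  have hs : σ (f e2 u1) = f u1 e2 := (H.herm u1 e2).symm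
  rw [rho]
  simp only [H.add_left, H.sub_left, H.smul_left, H.sub_right, H.smul_right, H.neg_right, map_neg, a1, a2, a4, a4',
    a5, a6, hs, mul_zero, sub_zero, add_zero, zero_mul, zero_smul]
  module

end abstract

variable {F E W : Type*} [Field F] [AddCommGroup E] [Module F E] [FiniteDimensional F E]
  [AddCommGroup W] [Module F W] [FiniteDimensional F W]
variable {σ : F →+* F} {α : E → E → F} {β : W → W → F} {h : (W →ₗ[F] E) → (W →ₗ[F] E) → F}
  {Ha : HS σ α} {Hb : HS σ β} {Hh : HS σ h} {M : Subgroup ((W →ₗ[F] E) ≃ₗ[F] (W →ₗ[F] E))}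

namespace TU

variable (T : TU Ha Hb Hh M)
include T

theorem h_pt (x' x : E) (b' b : W) : h (pt x' (Hb.fl b')) (pt x (Hb.fl b)) = β b b' * α x' x := by
  rw [T.pol, pt_apply, Ha.smul_left]; rfl

theorem exists_ne : ∃ a a' : E, α a a' ≠ 0 := by
  have : Nontrivial E := Module.finrank_pos_iff (R := F).1 (by have := T.hE; omega)
  obtain ⟨a, ha⟩ := _root_.exists_ne (0 : E)
  obtain ⟨a', -, h1⟩ := T.na a trivial ha
  exact ⟨a, a', h1⟩

theorem pt_smul' (c : F) (x : E) (b : W) : c • pt x (Hb.fl b) = pt (c • x) (Hb.fl b) := by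
  rw [map_smul, LinearMap.smul_apply]

theorem pt_neg' (x : E) (b : W) : -pt x (Hb.fl b) = pt (-x) (Hb.fl b) := by
  rw [map_neg, LinearMap.neg_apply]

/-- a hyperbolic pair in the perp of a hyperbolic pair -/
theorem exists_hyp2 {b f0 : W} (hb : β b b = 0) (hf : β f0 f0 = 0) (hbf : β b f0 ≠ 0) :
    ∃ d d' : W, β d d = 0 ∧ β d' d' = 0 ∧ β d d' ≠ 0 ∧ β d b = 0 ∧ β d f0 = 0 ∧ β d' b = 0 ∧ β d' f0 = 0 := by
  have hfb : β f0 b ≠ 0 := Hb.symm_ne hbf
  have h1 := HS.finrank_inf_ker (⊤ : Submodule F W) (Hb.fl b)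
  have h2 := HS.finrank_inf_ker ((⊤ : Submodule F W) ⊓ LinearMap.ker (Hb.fl b)) (Hb.fl f0)
  rw [finrank_top] at h1
  have h5 := T.hW
  obtain ⟨d, hd, hd0, hdd⟩ := exists_sing Hb
    (U := ((⊤ : Submodule F W) ⊓ LinearMap.ker (Hb.fl b)) ⊓ LinearMap.ker (Hb.fl f0)) (by omega)
  have hdb : β d b = 0 := hd.1.2
  have hdf : β d f0 = 0 := hd.2
  obtain ⟨y, -, hy⟩ := T.nb d trivial hd0
  have hyd : β y d ≠ 0 := Hb.symm_ne hy
  set y' := y - (β y f0 / β b f0) • b - (β y b / β f0 b) • f0 with hy'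
  have e1 : β y' b = 0 := by
    rw [hy', Hb.sub_left, Hb.sub_left, Hb.smul_left, Hb.smul_left, hb, div_mul_cancel₀ _ hfb]; ring
  have e2 : β y' f0 = 0 := by
    rw [hy', Hb.sub_left, Hb.sub_left, Hb.smul_left, Hb.smul_left, hf, div_mul_cancel₀ _ hbf]; ring
  have e3 : β y' d = β y d := by
    rw [hy', Hb.sub_left, Hb.sub_left, Hb.smul_left, Hb.smul_left, Hb.symm_zero hdb, Hb.symm_zero hdf]; ring
  have e4 : β d y' ≠ 0 := Hb.symm_ne (by rw [e3]; exact hyd)
  obtain ⟨a, ha⟩ := Hb.exists_add_norm (z := d) (u := y') hdd e4 (map_zero σ)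
  refine ⟨d, y' + a • d, hdd, ha, ?_, hdb, hdf, ?_, ?_⟩
  · rw [Hb.add_right, Hb.smul_right, hdd, mul_zero, add_zero]; exact e4
  · rw [Hb.add_left, Hb.smul_left, e1, hdb]; ring
  · rw [Hb.add_left, Hb.smul_left, e2, hdf]; ring

theorem step1 (hR : ∀ (x y : E) (b d : W), β b b = 0 → β d d = 0 → β d b = 0 → b ≠ 0 →
      d ∉ Submodule.span F {b} → RhoIn h M (pt x (Hb.fl b)) (pt y (Hb.fl d)) 0)
    {x y : E} (hxy : α x y = 0) {b f0 : W} (hb : β b b = 0) (hf : β f0 f0 = 0) (hbf : β b f0 ≠ 0) :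
    RhoIn h M (pt x (Hb.fl b)) (pt y (Hb.fl f0)) 0 := by
  obtain ⟨d, d', hdd, hd'd', hdd', hdb, hdf, hd'b, hd'f⟩ := T.exists_hyp2 hb hf hbf
  obtain ⟨a', a, haa⟩ := T.exists_ne
  have hb0 : b ≠ 0 := by rintro rfl; rw [Hb.zero_left] at hbf; exact hbf rfl
  have hd0 : d ≠ 0 := by rintro rfl; rw [Hb.zero_left] at hdd'; exact hdd' rfl
  have hd'0 : d' ≠ 0 := by rintro rfl; rw [Hb.zero_right] at hdd'; exact hdd' rfl
  set k := β d d' * α a' a with hk
  have hk0 : k ≠ 0 := mul_ne_zero hdd' haa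
  set x1 := (-k)⁻¹ • x with hx1
  have hnk : -k ≠ 0 := neg_ne_zero.2 hk0
  have n1 : d ∉ Submodule.span F {b} := by
    intro hmem
    obtain ⟨c, hc⟩ := Submodule.mem_span_singleton.1 hmem
    have : β d f0 = c * β b f0 := by rw [← hc, Hb.smul_left]
    rw [hdf] at this
    rcases mul_eq_zero.1 this.symm with h0 | h0
    · rw [h0, zero_smul] at hc; exact hd0 hc.symm
    · exact hbf h0
  have n2 : f0 ∉ Submodule.span F {d'} := by
    intro hmem
    obtain ⟨c, hc⟩ := Submodule.mem_span_singleton.1 hmem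
    have : β f0 b = c * β d' b := by rw [← hc, Hb.smul_left]
    rw [hd'b, mul_zero] at this
    exact Hb.symm_ne hbf this
  have r1 := hR x1 a b d hb hdd hdb hb0 n1
  have r2 := hR a' y d' f0 hd'd' hf (Hb.symm_zero hd'f) hd'0 n2
  have r3 : RhoIn h M (pt a' (Hb.fl d')) (-pt y (Hb.fl f0)) 0 := by
    rw [T.pt_neg']
    exact hR a' (-y) d' f0 hd'd' hf (Hb.symm_zero hd'f) hd'0 n2
  have r4 := rho_comm Hh T.hM r1 r2 r3 (by rw [T.h_pt, Hb.symm_zero hd'b, zero_mul])
    (by rw [T.h_pt, hx1, Ha.smul_right, Ha.symm_zero hxy, mul_zero, mul_zero])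
    (by rw [T.h_pt, hdf, zero_mul]) (by rw [T.h_pt, hd'f, zero_mul])
    (by rw [T.h_pt, hd'd', zero_mul]) (by rw [T.h_pt, hf, zero_mul])
  rw [T.h_pt, ← hk, T.pt_smul', hx1, smul_smul, mul_inv_cancel₀ hnk, one_smul] at r4
  exact r4

/-- transvections with centre `x ⊗ b` -/
theorem step2 (hR : ∀ (x y : E) (b d : W), β b b = 0 → β d d = 0 → β d b = 0 → b ≠ 0 →
      d ∉ Submodule.span F {b} → RhoIn h M (pt x (Hb.fl b)) (pt y (Hb.fl d)) 0)
    (x : E) {b : W} (hb : β b b = 0) (hb0 : b ≠ 0) {c : F} (hc : c + σ c = 0) :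
    RhoIn h M (pt x (Hb.fl b)) 0 c := by
  obtain ⟨f0, hf1, hf⟩ := T.exists_hyp hb0 hb
  have hbf : β b f0 ≠ 0 := by rw [Hb.herm, hf1, map_one]; exact one_ne_zero
  obtain ⟨d, d', hdd, hd'd', hdd', hdb, hdf, hd'b, hd'f⟩ := T.exists_hyp2 hb hf hbf
  obtain ⟨a', a, haa⟩ := T.exists_ne
  have hd0 : d ≠ 0 := by rintro rfl; rw [Hb.zero_left] at hdd'; exact hdd' rfl
  have hd'0 : d' ≠ 0 := by rintro rfl; rw [Hb.zero_right] at hdd'; exact hdd' rfl
  have nn : ∀ z : W, z ≠ 0 → β z f0 = 0 → z ∉ Submodule.span F {b} := by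
    intro z hz0 hzf hmem
    obtain ⟨c, hc⟩ := Submodule.mem_span_singleton.1 hmem
    have : β z f0 = c * β b f0 := by rw [← hc, Hb.smul_left]
    rw [hzf] at this
    rcases mul_eq_zero.1 this.symm with h0 | h0
    · rw [h0, zero_smul] at hc; exact hz0 hc.symm
    · exact hbf h0
  have n1 := nn d hd0 hdf
  have n2 := nn d' hd'0 hd'f
  obtain ⟨a0, ha0⟩ := Ha.ne
  have hτ : a0 - σ a0 ≠ 0 := sub_ne_zero.2 (Ne.symm ha0)
  set m := (c / (a0 - σ a0)) * a0 with hm
  have hmc : m - σ m = c := by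
    have h1 : σ (c / (a0 - σ a0)) = c / (a0 - σ a0) := by
      rw [map_div₀, map_sub, Ha.inv]
      have e1 : σ c = -c := by linear_combination hc
      rw [e1]
      have e2 : σ a0 - a0 ≠ 0 := by
        intro h0; apply hτ; linear_combination -h0
      field_simp
      ring
    rw [hm, map_mul, h1, ← mul_sub, div_mul_cancel₀ _ hτ]
  set l := β d d' * α a' a with hl
  have hl0 : l ≠ 0 := mul_ne_zero hdd' haa
  set e := pt x (Hb.fl b) with he
  set u := pt ((m / l) • a') (Hb.fl d') with hu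
  set u' := pt a (Hb.fl d) with hu'
  have ru : RhoIn h M e u 0 := hR _ _ _ _ hb hd'd' hd'b hb0 n2
  have ru' : RhoIn h M e u' 0 := hR _ _ _ _ hb hdd hdb hb0 n1
  have rnu : RhoIn h M e (-u) 0 := by rw [hu, T.pt_neg']; exact hR _ _ _ _ hb hd'd' hd'b hb0 n2
  have rnu' : RhoIn h M e (-u') 0 := by rw [hu', T.pt_neg']; exact hR _ _ _ _ hb hdd hdb hb0 n1
  have hee : h e e = 0 := by rw [he, T.h_pt, hb, zero_mul]
  have hue : h u e = 0 := by rw [hu, he, T.h_pt, Hb.symm_zero hd'b, zero_mul]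
  have hu'e : h u' e = 0 := by rw [hu', he, T.h_pt, Hb.symm_zero hdb, zero_mul]
  have huu : h u u = 0 := by rw [hu, T.h_pt, hd'd', zero_mul]
  have hu'u' : h u' u' = 0 := by rw [hu', T.h_pt, hdd, zero_mul]
  have huu' : h u u' = m := by
    rw [hu, hu', T.h_pt, Ha.smul_left]
    rw [show β d d' * (m / l * α a' a) = m / l * l by rw [hl]; ring]
    exact div_mul_cancel₀ m hl0
  have hu'u : h u' u = σ m := by rw [Hh.herm, huu']
  have r1 := rhoIn_comp Hh hee hue hu'e ru ru'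
  have r2 := rhoIn_comp Hh hee (by rw [Hh.add_left, hue, hu'e, add_zero])
    (by rw [Hh.neg_left, hue, neg_zero]) r1 rnu
  have r3 := rhoIn_comp Hh hee (by rw [Hh.add_left, Hh.add_left, Hh.neg_left, hue, hu'e]; ring)
    (by rw [Hh.neg_left, hu'e, neg_zero]) r2 rnu'
  have e1 : u + u' + -u + -u' = 0 := by abel
  rw [e1] at r3
  convert r3 using 1
  simp only [Hh.add_right, Hh.neg_left, Hh.neg_right, huu, huu', hu'u, hu'u']
  linear_combination -hmc

/-- all vectors orthogonal to `x ⊗ b` -/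
theorem step3 (hR : ∀ (x y : E) (b d : W), β b b = 0 → β d d = 0 → β d b = 0 → b ≠ 0 →
      d ∉ Submodule.span F {b} → RhoIn h M (pt x (Hb.fl b)) (pt y (Hb.fl d)) 0)
    (x : E) {b : W} (hb : β b b = 0) (hb0 : b ≠ 0) {u : W →ₗ[F] E} (hue : h u (pt x (Hb.fl b)) = 0)
    {c : F} (hc : c + σ c + h u u = 0) : RhoIn h M (pt x (Hb.fl b)) u c := by
  obtain ⟨f0, hf1, hf⟩ := T.exists_hyp hb0 hb
  have hbf1 : β b f0 = 1 := by rw [Hb.herm, hf1, map_one]
  have hbf : β b f0 ≠ 0 := by rw [hbf1]; exact one_ne_zero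
  obtain ⟨d, d', hdd, hd'd', hdd', hdb, hdf, hd'b, hd'f⟩ := T.exists_hyp2 hb hf hbf
  have hd0 : d ≠ 0 := by rintro rfl; rw [Hb.zero_left] at hdd'; exact hdd' rfl
  have nd : ∀ c : F, c • b + d ∉ Submodule.span F {b} := by
    intro c0 hmem
    have hmem' : d ∈ Submodule.span F {b} := by
      have := Submodule.sub_mem _ hmem (Submodule.smul_mem _ c0 (Submodule.mem_span_singleton_self b))
      simpa using this
    obtain ⟨c, hc⟩ := Submodule.mem_span_singleton.1 hmem'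
    have : β d f0 = c * β b f0 := by rw [← hc, Hb.smul_left]
    rw [hdf] at this
    rcases mul_eq_zero.1 this.symm with h0 | h0
    · rw [h0, zero_smul] at hc; exact hd0 hc.symm
    · exact hbf h0
  set e := pt x (Hb.fl b) with he
  have hee : h e e = 0 := by rw [he, T.h_pt, hb, zero_mul]
  -- the property
  let P : (W →ₗ[F] E) → Prop := fun u => h u e = 0 ∧ ∃ c, c + σ c + h u u = 0 ∧ RhoIn h M e u c
  have P0 : P 0 := ⟨Hh.zero_left _, 0, by rw [Hh.zero_left, map_zero]; ring, ⟨1, one_mem _, fun x => by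
    simp [rho, Hh.zero_right]⟩⟩
  have Padd : ∀ u v, P u → P v → P (u + v) := by
    rintro u v ⟨hu, c, hc, hcu⟩ ⟨hv, c', hc', hcv⟩
    refine ⟨by rw [Hh.add_left, hu, hv, add_zero], c + c' - h v u, ?_, rhoIn_comp Hh hee hu hv hcu hcv⟩
    rw [map_sub, map_add, ← Hh.herm u v, Hh.add_left, Hh.add_right, Hh.add_right]
    linear_combination hc + hc'
  have Pd : ∀ (y : E) (z : W), β z z = 0 → β z b = 0 → z ∉ Submodule.span F {b} → P (pt y (Hb.fl z)) := by
    intro y z hzz hzb hz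
    refine ⟨by rw [he, T.h_pt, Hb.symm_zero hzb, zero_mul], 0, by rw [T.h_pt, hzz]; simp, ?_⟩
    exact hR x y b z hb hzz hzb hb0 hz
  have Pb : ∀ y : E, P (pt y (Hb.fl b)) := by
    intro y
    have e1 : pt y (Hb.fl b) = pt y (Hb.fl ((1 : F) • b + d)) + pt (-y) (Hb.fl ((0 : F) • b + d)) := by
      rw [one_smul, zero_smul, zero_add, T.fl_add, map_add, map_neg, LinearMap.neg_apply]; abel
    rw [e1]
    have hs : ∀ c : F, β (c • b + d) (c • b + d) = 0 ∧ β (c • b + d) b = 0 := by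
      intro c
      constructor
      · rw [Hb.add_left, Hb.add_right, Hb.add_right, Hb.smul_left, Hb.smul_left, Hb.smul_right, Hb.smul_right, hb,
          hdd, hdb, Hb.symm_zero hdb]; ring
      · rw [Hb.add_left, Hb.smul_left, hb, hdb]; ring
    exact Padd _ _ (Pd _ _ (hs 1).1 (hs 1).2 (nd 1)) (Pd _ _ (hs 0).1 (hs 0).2 (nd 0))
  have Pw : ∀ w : W, β w b = 0 → ∀ y : E, P (pt y (Hb.fl w)) := by
    intro w hw
    have hmem : w ∈ Submodule.span F {z | z ∈ LinearMap.ker (Hb.fl b) ∧ β z z = 0} := by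
      refine Hb.mem_span_iso (U := LinearMap.ker (Hb.fl b)) (z := d) (y := d') ?_ hdd ?_ hdd' ?_
      · exact hdb
      · exact hd'b
      · exact hw
    induction hmem using Submodule.span_induction with
    | mem z hz =>
      intro y
      by_cases hzb : z ∈ Submodule.span F {b}
      · obtain ⟨c0, rfl⟩ := Submodule.mem_span_singleton.1 hzb
        rw [T.fl_smul, map_smul, T.pt_smul']
        exact Pb _
      · exact Pd y z hz.2 hz.1 hzb
    | zero =>
      intro y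
      have : Hb.fl (0 : W) = 0 := LinearMap.ext fun z => Hb.zero_right z
      rw [this, map_zero]; exact P0
    | add z z' hz hz' ih ih' =>
      intro y
      rw [T.fl_add, map_add]
      have m1 : ∀ z ∈ Submodule.span F {z | z ∈ LinearMap.ker (Hb.fl b) ∧ β z z = 0}, β z b = 0 := by
        intro z hz
        have : Submodule.span F {z | z ∈ LinearMap.ker (Hb.fl b) ∧ β z z = 0} ≤ LinearMap.ker (Hb.fl b) :=
          Submodule.span_le.2 fun z hz => hz.1
        exact this hz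
      exact Padd _ _ (ih (m1 z hz) y) (ih' (m1 z' hz') y)
    | smul c0 z hz ih =>
      intro y
      have m1 : β z b = 0 := by
        have : Submodule.span F {z | z ∈ LinearMap.ker (Hb.fl b) ∧ β z z = 0} ≤ LinearMap.ker (Hb.fl b) :=
          Submodule.span_le.2 fun z hz => hz.1
        exact this hz
      rw [T.fl_smul, map_smul, T.pt_smul']
      exact ih m1 _
  have Pv : ∀ v : W →ₗ[F] E, v b = 0 → P v := by
    intro v hv
    set B := Module.finBasis F E with hB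
    have e1 : v = ∑ i, pt (B i) (B.coord i ∘ₗ v) := by
      apply LinearMap.ext
      intro w
      rw [LinearMap.sum_apply]
      simp only [pt_apply, LinearMap.comp_apply, Basis.coord_apply]
      exact (B.sum_repr (v w)).symm
    rw [e1]
    refine Finset.sum_induction _ P Padd P0 fun i _ => ?_
    obtain ⟨w, hw⟩ := T.rep (B.coord i ∘ₗ v)
    rw [hw]
    apply Pw
    apply Hb.symm_zero
    have := DFunLike.congr_fun hw b
    rw [LinearMap.comp_apply, hv, map_zero] at this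
    exact this.symm
  have Pu : P u := by
    have h1 : α (u b) x = 0 := by rw [he, T.pol] at hue; exact hue
    have e1 : u = pt (u b) (Hb.fl f0) + (u - pt (u b) (Hb.fl f0)) := by abel
    rw [e1]
    apply Padd
    · refine ⟨?_, 0, ?_, ?_⟩
      · rw [he, T.h_pt, h1, mul_zero]
      · rw [T.h_pt, hf]; simp
      · exact T.step1 hR (Ha.symm_zero h1) hb hf hbf
    · apply Pv
      rw [LinearMap.sub_apply, pt_apply, HS.fl_apply, hbf1, one_smul, sub_self]
  obtain ⟨-, c0, hc0, hr0⟩ := Pu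
  have r1 := T.step2 hR x hb hb0 (c := c - c0) (by rw [map_sub]; linear_combination hc - hc0)
  have r2 := rhoIn_comp Hh hee hue (Hh.zero_left _) hr0 r1
  rw [Hh.zero_left, add_zero] at r2
  convert r2 using 1
  ring

theorem all_of_R [Finite F] (hR : ∀ (x y : E) (b d : W), β b b = 0 → β d d = 0 → β d b = 0 → b ≠ 0 →
      d ∉ Submodule.span F {b} → RhoIn h M (pt x (Hb.fl b)) (pt y (Hb.fl d)) 0) : tgrp Hh ⊤ ≤ M := by
  have hcen : ∀ (x : E) (b : W), β b b = 0 → b ≠ 0 → pt x (Hb.fl b) ∈ cen Hh M := by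
    intro x b hb hb0
    refine ⟨by rw [T.h_pt, hb, zero_mul], fun hz a ha => ?_⟩
    obtain ⟨t, ht, htv⟩ := T.step2 hR x hb hb0 ha
    have e1 : tv Hh (pt x (Hb.fl b)) hz a ha = t := by
      apply LinearEquiv.ext
      intro v
      rw [tv_apply, htv, rho, Hh.zero_right]
      simp
    rw [e1]; exact ht
  refine tgrp_le_of_cen fun z _ hzz => ?_
  by_cases hz0 : z = 0
  · rw [hz0]; exact cen_zero
  -- a tensor not orthogonal to z
  obtain ⟨b, hb, hb0, x, hx⟩ : ∃ b : W, β b b = 0 ∧ b ≠ 0 ∧ ∃ x : E, α (z b) x ≠ 0 := by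
    by_contra hcon
    push Not at hcon
    apply hz0
    have hzb : ∀ b : W, β b b = 0 → z b = 0 := by
      intro b hb
      by_cases hb0 : b = 0
      · rw [hb0, map_zero]
      by_contra hne
      obtain ⟨x, -, hx⟩ := T.na (z b) trivial hne
      exact hx (hcon b hb hb0 x)
    obtain ⟨d, -, hd0, hdd⟩ := exists_sing Hb (U := (⊤ : Submodule F W)) (by rw [finrank_top]; have := T.hW; omega)
    obtain ⟨y, hy1, hyy⟩ := T.exists_hyp hd0 hdd
    have hdy : β d y ≠ 0 := by rw [Hb.herm, hy1, map_one]; exact one_ne_zero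
    apply LinearMap.ext
    intro w
    have hmem : w ∈ Submodule.span F {z | z ∈ (⊤ : Submodule F W) ∧ β z z = 0} :=
      Hb.mem_span_iso (U := ⊤) (z := d) (y := y) trivial hdd trivial hdy trivial
    have hle : Submodule.span F {z | z ∈ (⊤ : Submodule F W) ∧ β z z = 0} ≤ LinearMap.ker z :=
      Submodule.span_le.2 fun b hb => hzb b hb.2
    exact hle hmem
  set e := pt x (Hb.fl b) with he
  have hze : h z e ≠ 0 := by rw [he, T.pol]; exact hx
  have hx0 : x ≠ 0 := by rintro rfl; exact hx (Ha.zero_right _)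
  obtain ⟨b', hb'1, hb'⟩ := T.exists_hyp hb0 hb
  have hb'0 : b' ≠ 0 := by rintro rfl; rw [Hb.zero_left] at hb'1; exact zero_ne_one hb'1
  have hbb' : β b b' = 1 := by rw [Hb.herm, hb'1, map_one]
  obtain ⟨y, -, hy⟩ := T.na x trivial hx0
  have hyx : α y x ≠ 0 := Ha.symm_ne hy
  set x' := (α y x)⁻¹ • y with hx'
  have hx'x : α x' x = 1 := by rw [hx', Ha.smul_left, inv_mul_cancel₀ hyx]
  set e' := pt x' (Hb.fl b') with he'
  have he'c : e' ∈ cen Hh M := hcen x' b' hb' hb'0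
  have he'e : h e' e = 1 := by rw [he', he, T.h_pt, hbb', hx'x, one_mul]
  have he'e' : h e' e' = 0 := cen_iso he'c
  set z1 := (h z e)⁻¹ • z with hz1
  have hz1e : h z1 e = 1 := by rw [hz1, Hh.smul_left, inv_mul_cancel₀ hze]
  have hz1z1 : h z1 z1 = 0 := by rw [hz1, Hh.smul_left, Hh.smul_right, hzz]; ring
  have hue : h (z1 - e') e = 0 := by rw [Hh.sub_left, hz1e, he'e, sub_self]
  obtain ⟨t, ht, htv⟩ := T.step3 hR x hb hb0 (u := z1 - e') (c := h e' (z1 - e')) hue (by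
    rw [← Hh.herm (z1 - e') e']
    simp only [Hh.sub_left, Hh.sub_right]
    linear_combination hz1z1 - he'e')
  have h1 := cen_map T.hM he'c ht
  have h2 : t e' = z1 := by
    rw [htv, rho, ← he, he'e]
    module
  rw [h2] at h1
  exact cen_of_smul (inv_ne_zero hze) h1

end TU

end Cfsg.Agent.Lib.TenVH94
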