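import Mathlib
import Cfsg.Agent.Lib.TenV1H94

set_option autoImplicit false
set_option linter.unusedSectionVars false
set_option linter.unusedSimpArgs false
set_option linter.unusedVariables false

/-!
Overgroups of `SU ⊗ SU`: elements acting trivially on the filtration of a singular vector.
-/

namespace Cfsg.Agent.Lib.TenVH94

open Module Cfsg.Agent.Lib.TenSLH94 Cfsg.Agent.Lib.UnTrans Cfsg.Agent.Lib.UnMax
open Cfsg.Agent.Lib.SpTrans (isom mem_isom)
open Cfsg.Agent.Lib.SLMax (tr tr_apply)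

variable {F E W : Type*} [Field F] [AddCommGroup E] [Module F E] [FiniteDimensional F E]
  [AddCommGroup W] [Module F W] [FiniteDimensional F W]

/-- maps killing a vector -/
theorem fx_span {b : W} {N : Submodule F (W →ₗ[F] E)} (h : ∀ x (ψ : Dual F W), ψ b = 0 → pt x ψ ∈ N)
    {v : W →ₗ[F] E} (hv : v b = 0) : v ∈ N := by
  by_cases hb : b = 0
  · subst hb
    obtain ⟨n, a, φ, rfl⟩ := span_pt v
    exact Submodule.sum_mem _ fun i _ => h _ _ (map_zero _)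
  obtain ⟨φ, hφ⟩ := exists_dual0 (F := F) hb
  let B := Module.finBasis F W
  have e1 : v = ∑ i, pt (v (B i)) (B.coord i - (B.coord i b) • φ) := by
    apply LinearMap.ext
    intro w
    have h1 : v w = v (w - φ w • b) := by rw [map_sub, map_smul, hv, smul_zero, sub_zero]
    rw [h1, LinearMap.sum_apply]
    conv_lhs => rw [← B.sum_repr (w - φ w • b)]
    rw [map_sum]
    apply Finset.sum_congr rfl
    intro i _
    rw [map_smul, pt_apply, LinearMap.sub_apply, LinearMap.smul_apply, smul_eq_mul, mul_comm (B.coord i b)]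
    congr 1
    rw [← Basis.coord_apply, map_sub, map_smul, smul_eq_mul]
  rw [e1]
  refine Submodule.sum_mem _ fun i _ => h _ _ ?_
  rw [LinearMap.sub_apply, LinearMap.smul_apply, hφ, smul_eq_mul, mul_one, sub_self]

variable {σ : F →+* F} {α : E → E → F} {β : W → W → F} {h : (W →ₗ[F] E) → (W →ₗ[F] E) → F}
  {Ha : HS σ α} {Hb : HS σ β} {Hh : HS σ h} {M : Subgroup ((W →ₗ[F] E) ≃ₗ[F] (W →ₗ[F] E))}

namespace TU

variable (T : TU Ha Hb Hh M)
include T

theorem fx_b {r : (W →ₗ[F] E) ≃ₗ[F] (W →ₗ[F] E)} (hr : r ∈ M) {b : W}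
    (h1 : ∀ a, r (pt a (Hb.fl b)) = pt a (Hb.fl b)) (v : W →ₗ[F] E) : (r v) b = v b := by
  apply T.eqE
  intro z
  have h2 := T.hM hr v (pt z (Hb.fl b))
  rw [h1, T.pol, T.pol] at h2
  exact h2

theorem fx_ne : ∃ x : E, x ≠ 0 := by
  have : Nontrivial E := Module.finrank_pos_iff (R := F).1 (by have := T.hE; omega)
  exact exists_ne 0

/-- elements acting trivially on the filtration of a singular vector -/
theorem fx_star (hX : NoX Hb M) {b : W} (hb0 : b ≠ 0) (hb : β b b = 0)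
    {r : (W →ₗ[F] E) ≃ₗ[F] (W →ₗ[F] E)} (hr : r ∈ M) (h1 : ∀ a, r (pt a (Hb.fl b)) = pt a (Hb.fl b))
    (h2 : ∀ v, v b = 0 → ∃ a, r v = v + pt a (Hb.fl b)) : ∃ q, r = ac 1 q := by
  obtain ⟨f, hf⟩ := T.exists_one hb0
  obtain ⟨ψ, hψ⟩ := exists_dual0 (F := F) hb0
  obtain ⟨A, hA⟩ : ∃ A : (W →ₗ[F] E) →ₗ[F] E, ∀ v, A v = (r v - v) f :=
    ⟨(LinearMap.applyₗ f) ∘ₗ ((r : (W →ₗ[F] E) →ₗ[F] (W →ₗ[F] E)) - LinearMap.id), fun v => rfl⟩
  have hrA : ∀ v, v b = 0 → r v = v + pt (A v) (Hb.fl b) := by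
    intro v hv
    obtain ⟨a, ha⟩ := h2 v hv
    rw [hA, ha, add_sub_cancel_left, pt_apply, HS.fl_apply, hf, one_smul]
  have hrb : ∀ v, (r v) b = v b := T.fx_b hr h1
  have hadj : ∀ d, β b d = 0 → ∀ v x, α ((r v) d) x + α (v b) (A (pt x (Hb.fl d))) = α (v d) x := by
    intro d hd v x
    have hv : (pt x (Hb.fl d)) b = 0 := by rw [pt_apply, HS.fl_apply, hd, zero_smul]
    have h3 := T.hM hr v (pt x (Hb.fl d))
    rw [hrA _ hv, Hh.add_right, T.pol, T.pol, T.pol, hrb] at h3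
    exact h3
  have hdep : ∀ d, β b d = 0 → ∀ v, (r v) d - v d = (r (pt (v b) ψ)) d - (pt (v b) ψ) d := by
    intro d hd v
    apply T.eqE
    intro z
    have e1 := hadj d hd v z
    have e2 := hadj d hd (pt (v b) ψ) z
    rw [pt_apply, hψ, one_smul] at e2
    rw [Ha.sub_left, Ha.sub_left]
    linear_combination e1 - e2
  -- commutators with Siegel elements
  have hX1 : ∀ d, β d b = 0 → ∃ c : F, ∀ v : W →ₗ[F] E, A (pt (v b) (Hb.fl d)) + ((r v) d - v d) = c • v b := by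
    intro d hd
    have hd' := Hb.symm_zero hd
    obtain ⟨c, hc⟩ := Hb.exists_trace (-β d d) (by rw [map_neg, Hb.self_fixed])
    obtain ⟨s, hs, -, hsv, -⟩ := T.sb hb hd (c := c) (by rw [hc]; ring)
    obtain ⟨X, hXe⟩ : ∃ X : E →ₗ[F] E, ∀ y, X y = A (pt y (Hb.fl d)) + ((r (pt y ψ)) d - (pt y ψ) d) :=
      ⟨A ∘ₗ pt.flip (Hb.fl d) + ((LinearMap.applyₗ d) ∘ₗ (r : (W →ₗ[F] E) →ₗ[F] (W →ₗ[F] E)) ∘ₗ pt.flip ψ -
        (LinearMap.applyₗ d) ∘ₗ pt.flip ψ), fun y => rfl⟩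
    have hsb : ∀ v, (s v) b = v b := by
      intro v
      rw [hsv]
      simp only [LinearMap.add_apply, LinearMap.sub_apply, LinearMap.smul_apply, pt_apply, HS.fl_apply, hb, hd',
        zero_smul, smul_zero, add_zero, sub_zero]
    have hrs : ∀ v, r (s v) = s (r v) + pt (X (v b)) (Hb.fl b) := by
      intro v
      have hv : (pt (v b) (Hb.fl d)) b = 0 := by rw [pt_apply, HS.fl_apply, hd', zero_smul]
      rw [hsv, hsv, map_add, map_sub, map_add, map_smul, h1, h1, hrA _ hv, hrb, hXe, ← hdep d hd']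
      have e1 : pt ((r v) d) (Hb.fl b) = pt ((r v) d - v d) (Hb.fl b) + pt (v d) (Hb.fl b) := by
        rw [← LinearMap.add_apply, ← map_add, sub_add_cancel]
      rw [e1, map_add, LinearMap.add_apply]
      abel
    obtain ⟨c', hc'⟩ := hX b hb0 hb X (r * s * r⁻¹ * s⁻¹)
      (mul_mem (mul_mem (mul_mem hr hs) (inv_mem hr)) (inv_mem hs)) (by
      intro u
      obtain ⟨v, rfl⟩ : ∃ v, u = s (r v) := ⟨r⁻¹ (s⁻¹ u), by
        rw [← LinearEquiv.mul_apply, ← LinearEquiv.mul_apply, ← LinearEquiv.mul_apply]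
        rw [show s * r * r⁻¹ * s⁻¹ = 1 by group]; rfl⟩
      have e1 : (r * s * r⁻¹ * s⁻¹) (s (r v)) = r (s v) := by
        rw [← LinearEquiv.mul_apply, ← LinearEquiv.mul_apply, ← LinearEquiv.mul_apply]
        rw [show r * s * r⁻¹ * s⁻¹ * s * r = r * s by group]
      rw [e1, hrs, hsb, hrb])
    refine ⟨c', fun v => ?_⟩
    rw [hdep d hd', ← hXe, hc']
  have hsc : ∀ d, β d b = 0 → ∃ a : F, ∀ x, A (pt x (Hb.fl d)) = a • x := by
    intro d hd
    obtain ⟨l, hl⟩ := Hb.ne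
    have hl' : σ l - l ≠ 0 := sub_ne_zero.2 hl
    obtain ⟨c₁, hc₁⟩ := hX1 d hd
    obtain ⟨c₂, hc₂⟩ := hX1 (l • d) (by rw [Hb.smul_left, hd, mul_zero])
    refine ⟨(σ l - l)⁻¹ * (c₂ - l * c₁), fun x => ?_⟩
    have e1 := hc₁ (pt x ψ)
    have e2 := hc₂ (pt x ψ)
    rw [T.fl_smul, map_smul, map_smul, map_smul, map_smul, ← smul_sub] at e2
    have e3 : (pt x ψ : W →ₗ[F] E) b = x := by rw [pt_apply, hψ, one_smul]
    rw [e3] at e1 e2
    have e4 : (σ l - l) • A (pt x (Hb.fl d)) = (c₂ - l * c₁) • x := by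
      rw [sub_smul, sub_smul, ← e2, mul_smul, ← e1]
      rw [smul_add]
      abel
    rw [mul_smul, ← e4, smul_smul, inv_mul_cancel₀ hl', one_smul]
  -- the vector
  obtain ⟨x₀, hx₀⟩ := T.fx_ne
  obtain ⟨e₀, he₀⟩ := exists_dual0 (F := F) hx₀
  obtain ⟨u₀, hu₀⟩ : ∃ u₀ : W, ∀ φ : Dual F W, φ u₀ = e₀ (A (pt x₀ φ)) :=
    ⟨(Module.evalEquiv F W).symm (e₀ ∘ₗ A ∘ₗ pt x₀), fun φ => by
      rw [Module.apply_evalEquiv_symm_apply]; rfl⟩
  have hA2 : ∀ x (φ : Dual F W), φ b = 0 → A (pt x φ) = φ u₀ • x := by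
    intro x φ hφ
    obtain ⟨d, rfl⟩ := T.rep φ
    obtain ⟨a, ha⟩ := hsc d (Hb.symm_zero hφ)
    rw [hu₀, ha, ha, map_smul, he₀, smul_eq_mul, mul_one]
  have hA3 : ∀ v : W →ₗ[F] E, v b = 0 → A v = v u₀ := by
    intro v hv
    have h3 : v ∈ LinearMap.ker (A - LinearMap.applyₗ u₀) := by
      apply fx_span _ hv
      intro x φ hφ
      rw [LinearMap.mem_ker, LinearMap.sub_apply, hA2 x φ hφ]
      show φ u₀ • x - (pt x φ : W →ₗ[F] E) u₀ = 0
      rw [pt_apply, sub_self]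
    rw [LinearMap.mem_ker, LinearMap.sub_apply, sub_eq_zero] at h3
    exact h3
  have hub : β u₀ b = 0 := by
    have h3 := hA2 x₀ (Hb.fl b) hb
    rw [hA, h1, sub_self, LinearMap.zero_apply] at h3
    exact (smul_eq_zero.1 h3.symm).resolve_right hx₀
  have hbu : β b u₀ = 0 := Hb.symm_zero hub
  -- subtracting a Siegel element
  obtain ⟨c, hc⟩ := Hb.exists_trace (-β u₀ u₀) (by rw [map_neg, Hb.self_fixed])
  obtain ⟨s, hs, ⟨qs, -, hqs⟩, hsv, -⟩ := T.sb hb hub (c := c) (by rw [hc]; ring)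
  obtain ⟨r', hr'⟩ : ∃ r', r' = s * r := ⟨_, rfl⟩
  have hr'M : r' ∈ M := by rw [hr']; exact mul_mem hs hr
  have hfix : ∀ v : W →ₗ[F] E, v b = 0 → r' v = v := by
    intro v hv
    rw [hr', LinearEquiv.mul_apply, hrA v hv, hA3 v hv, hsv]
    apply LinearMap.ext
    intro w
    simp only [LinearMap.add_apply, LinearMap.sub_apply, LinearMap.smul_apply, pt_apply, HS.fl_apply, hb, hub, hv,
      zero_smul, smul_zero, add_zero, sub_zero, add_sub_cancel_right]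
  have h3 : ∀ (v : W →ₗ[F] E) w, β w b = 0 → (r' v) w = v w := by
    intro v w hw
    apply T.eqE
    intro z
    have h4 := T.hM hr'M v (pt z (Hb.fl w))
    rw [hfix (pt z (Hb.fl w)) (by rw [pt_apply, HS.fl_apply, Hb.symm_zero hw, zero_smul]), T.pol, T.pol] at h4
    exact h4
  obtain ⟨X, hXe⟩ : ∃ X : E →ₗ[F] E, ∀ y, X y = (r' (pt y ψ) - pt y ψ) f :=
    ⟨(LinearMap.applyₗ f) ∘ₗ ((r' : (W →ₗ[F] E) →ₗ[F] (W →ₗ[F] E)) ∘ₗ pt.flip ψ - pt.flip ψ), fun y => rfl⟩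
  have h4 : ∀ v : W →ₗ[F] E, r' v = v + pt (X (v b)) (Hb.fl b) := by
    intro v
    have e1 : r' v - v = r' (pt (v b) ψ) - pt (v b) ψ := by
      have := hfix (v - pt (v b) ψ) (by rw [LinearMap.sub_apply, pt_apply, hψ, one_smul, sub_self])
      rw [map_sub] at this
      rw [sub_eq_sub_iff_add_eq_add, add_comm (r' _) v, ← sub_eq_sub_iff_add_eq_add, this]
    rw [hXe, ← e1]
    apply LinearMap.ext
    intro w
    rw [LinearMap.add_apply, pt_apply, HS.fl_apply, LinearMap.sub_apply]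
    have e2 := h3 v (w - β w b • f) (by rw [Hb.sub_left, Hb.smul_left, hf, mul_one, sub_self])
    rw [map_sub, map_sub, map_smul, map_smul, sub_eq_iff_eq_add] at e2
    rw [e2, smul_sub]
    abel
  obtain ⟨c₀, hc₀⟩ := hX b hb0 hb X r' hr'M h4
  have hbb : (Hb.fl b) (c₀ • b) = 0 := by rw [map_smul, HS.fl_apply, hb, smul_zero]
  have h5 : r' = ac 1 (tr (c₀ • b) (Hb.fl b) hbb).symm := by
    apply LinearEquiv.ext
    intro v
    rw [h4, hc₀]
    apply LinearMap.ext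
    intro w
    rw [ac_apply, LinearMap.add_apply, pt_apply, LinearEquiv.symm_symm, tr_apply, map_add, map_smul, map_smul]
    rfl
  refine ⟨qs⁻¹ * (tr (c₀ • b) (Hb.fl b) hbb).symm, ?_⟩
  have h6 : r = s⁻¹ * r' := by rw [hr', inv_mul_cancel_left]
  rw [h6, h5, hqs]
  rfl

end TU

end Cfsg.Agent.Lib.TenVH94
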