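import Mathlib
import Cfsg.Agent.Lib.TenVFixA

set_option autoImplicit false
set_option linter.unusedSectionVars false
set_option linter.unusedSimpArgs false
set_option linter.unusedVariables false

/-!
Overgroups of `SU ⊗ SU`: members orthogonal to a standard space are standard.
-/

namespace Cfsg.Agent.Lib.TenVH94

open Module Cfsg.Agent.Lib.TenSLH94 Cfsg.Agent.Lib.UnTrans Cfsg.Agent.Lib.UnMax
open Cfsg.Agent.Lib.SpTrans (isom mem_isom)

variable {F E W : Type*} [Field F] [AddCommGroup E] [Module F E] [FiniteDimensional F E]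
  [AddCommGroup W] [Module F W] [FiniteDimensional F W]

variable {σ : F →+* F} {α : E → E → F} {β : W → W → F} {h : (W →ₗ[F] E) → (W →ₗ[F] E) → F}
  {Ha : HS σ α} {Hb : HS σ β} {Hh : HS σ h} {M : Subgroup ((W →ₗ[F] E) ≃ₗ[F] (W →ₗ[F] E))}

namespace TU

variable (T : TU Ha Hb Hh M)
include T

/-- two vectors with nonzero product -/
theorem fx_pair : ∃ x y : E, α x y ≠ 0 := by
  obtain ⟨x, hx⟩ := T.fx_ne
  obtain ⟨y, -, hy⟩ := T.na x trivial hx
  exact ⟨x, y, hy⟩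

/-- a standard space that is totally singular comes from a singular vector -/
theorem fx_sing {c : W} (hc : ∀ x y, h (pt x (Hb.fl c)) (pt y (Hb.fl c)) = 0) : β c c = 0 := by
  obtain ⟨x, y, hxy⟩ := T.fx_pair
  have h1 := hc x y
  rw [T.pol, pt_apply, HS.fl_apply, Ha.smul_left] at h1
  exact (mul_eq_zero.1 h1).resolve_right hxy

/-- members orthogonal to a standard space are standard -/
theorem fx_perp (hX : NoX Hb M) {m : (W →ₗ[F] E) ≃ₗ[F] (W →ₗ[F] E)} (hm : m ∈ M) {b₀ b : W} (hb₀0 : b₀ ≠ 0)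
    (hb₀ : β b₀ b₀ = 0) (hb0 : b ≠ 0) (hb : β b b = 0) (hUb : ∀ x, (m (pt x (Hb.fl b₀))) b = 0) :
    ∃ c : W, c ≠ 0 ∧ β c c = 0 ∧ ∀ x, m (pt x (Hb.fl b₀)) ∈ (sp (Hb.fl c) : Submodule F (W →ₗ[F] E)) := by
  obtain ⟨ι, hι⟩ : ∃ ι : E →ₗ[F] (W →ₗ[F] E), ∀ x, ι x = m (pt x (Hb.fl b₀)) :=
    ⟨(m : (W →ₗ[F] E) →ₗ[F] (W →ₗ[F] E)) ∘ₗ (pt.flip (Hb.fl b₀)), fun x => rfl⟩
  obtain ⟨π, hπ⟩ : ∃ π : (W →ₗ[F] E) →ₗ[F] E, ∀ v, π v = (m⁻¹ v) b₀ :=
    ⟨(LinearMap.applyₗ b₀) ∘ₗ ((m⁻¹ : (W →ₗ[F] E) ≃ₗ[F] (W →ₗ[F] E)) : (W →ₗ[F] E) →ₗ[F] (W →ₗ[F] E)), fun v => rfl⟩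
  have hm1 : ∀ v, m (m⁻¹ v) = v := fun v => by rw [← LinearEquiv.mul_apply, mul_inv_cancel]; rfl
  have hm2 : ∀ v, m⁻¹ (m v) = v := fun v => by rw [← LinearEquiv.mul_apply, inv_mul_cancel]; rfl
  have hpol : ∀ x v, h v (ι x) = α (π v) x := by
    intro x v
    have h1 := T.hM hm (m⁻¹ v) (pt x (Hb.fl b₀))
    rw [hm1, T.pol, ← hι, ← hπ] at h1
    exact h1
  have hπι : ∀ x, π (ι x) = 0 := fun x => by rw [hπ, hι, hm2, pt_apply, HS.fl_apply, hb₀, zero_smul]
  have hιb : ∀ x, ι x b = 0 := fun x => by rw [hι]; exact hUb x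
  have hπb : ∀ y, π (pt y (Hb.fl b)) = 0 := by
    intro y
    apply T.eqE
    intro x
    rw [← hpol, Hh.herm, T.pol, hιb, Ha.zero_left, Ha.zero_left, map_zero]
  -- the element
  obtain ⟨μ, hμ0, hμ⟩ := Hb.exists_tr0
  obtain ⟨X, hXM, -, hXv⟩ := T.xb hb₀ hμ
  obtain ⟨t, ht⟩ : ∃ t, t = m * X * m⁻¹ := ⟨_, rfl⟩
  have htM : t ∈ M := by rw [ht]; exact mul_mem (mul_mem hm hXM) (inv_mem hm)
  have htv : ∀ v, t v = v + μ • ι (π v) := by
    intro v
    rw [ht, LinearEquiv.mul_apply, LinearEquiv.mul_apply, hXv, map_add, map_smul, hm1, ← hπ, ← hι]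
  have htiv : ∀ v, t⁻¹ v = v - μ • ι (π v) := by
    intro v
    apply t.injective
    rw [← LinearEquiv.mul_apply, mul_inv_cancel, htv, map_sub, map_smul, hπι, smul_zero, sub_zero, sub_add_cancel]; rfl
  -- commutators
  have L1 : ∀ d, β d b = 0 → ∃ φ : Dual F W, ∀ x, ∃ z, ι (π (pt x (Hb.fl d))) = pt x φ + pt z (Hb.fl b) := by
    intro d hdb
    have hbd : β b d = 0 := Hb.symm_zero hdb
    obtain ⟨c, hc⟩ := Hb.exists_trace (-β d d) (by rw [map_neg, Hb.self_fixed])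
    obtain ⟨s, hs, -, hsv, hsiv⟩ := T.sb hb hdb (c := c) (by rw [hc]; ring)
    obtain ⟨r, hr⟩ : ∃ r, r = s * t * s⁻¹ * t⁻¹ := ⟨_, rfl⟩
    have hrM : r ∈ M := by
      rw [hr]; exact mul_mem (mul_mem (mul_mem hs htM) (inv_mem hs)) (inv_mem htM)
    have hsts : ∀ v, (s * t * s⁻¹) v = v + μ • ι (π v - π (pt (v b) (Hb.fl d))) -
        μ • pt ((ι (π v - π (pt (v b) (Hb.fl d)))) d) (Hb.fl b) := by
      intro v
      have h1 : π (s⁻¹ v) = π v - π (pt (v b) (Hb.fl d)) := by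
        rw [hsiv, map_add, map_add, map_sub, map_smul, hπb, hπb, add_zero, smul_zero, add_zero]
      rw [LinearEquiv.mul_apply, LinearEquiv.mul_apply, htv, h1, map_add, ← LinearEquiv.mul_apply,
        mul_inv_cancel, map_smul, hsv (ι _), hιb, map_zero, LinearMap.zero_apply, add_zero, LinearEquiv.coe_one, id,
        LinearMap.zero_apply, smul_zero, add_zero, smul_sub]
      abel
    have hrv : ∀ v, r v = v - μ • ι (π (pt (v b) (Hb.fl d))) -
        μ • pt ((ι (π v - π (pt (v b) (Hb.fl d)))) d) (Hb.fl b) := by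
      intro v
      rw [hr, LinearEquiv.mul_apply, htiv, hsts]
      have h1 : π (v - μ • ι (π v)) = π v := by rw [map_sub, map_smul, hπι, smul_zero, sub_zero]
      have h2 : (v - μ • ι (π v)) b = v b := by
        rw [LinearMap.sub_apply, LinearMap.smul_apply, hιb, smul_zero, sub_zero]
      rw [h1, h2, map_sub ι, smul_sub]
      abel
    obtain ⟨q, hq⟩ := T.fx_star hX hb0 hb hrM (fun a => by
        rw [hrv, pt_apply, HS.fl_apply, hb, zero_smul, map_zero, LinearMap.zero_apply, map_zero, map_zero, smul_zero,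
          sub_zero, sub_zero, hπb, map_zero, LinearMap.zero_apply, map_zero, LinearMap.zero_apply, smul_zero,
          sub_zero]) (fun v hv =>
      ⟨-(μ • (ι (π v - π (pt (v b) (Hb.fl d)))) d), by
        rw [hrv, hv, map_zero, LinearMap.zero_apply, map_zero, map_zero, smul_zero, sub_zero, map_neg, map_smul,
          LinearMap.neg_apply, LinearMap.smul_apply, sub_eq_add_neg]⟩)
    obtain ⟨f, hf⟩ := T.exists_one hb0
    refine ⟨μ⁻¹ • (Hb.fl f - (Hb.fl f) ∘ₗ (q.symm : W →ₗ[F] W)), fun x => ?_⟩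
    have hbf : β b f = 1 := by rw [Hb.herm, hf, map_one]
    have h3 : (pt x (Hb.fl f)) b = x := by
      rw [pt_apply, HS.fl_apply, hbf, one_smul]
    have h4 := hrv (pt x (Hb.fl f))
    have h5 : r (pt x (Hb.fl f)) = pt x ((Hb.fl f) ∘ₗ (q.symm : W →ₗ[F] W)) := by
      rw [hq]
      apply LinearMap.ext
      intro w
      rw [ac_apply]; rfl
    rw [h3, h5] at h4
    obtain ⟨z, hz⟩ : ∃ z, z = (ι (π (pt x (Hb.fl f)) - π (pt x (Hb.fl d)))) d := ⟨_, rfl⟩
    rw [← hz] at h4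
    refine ⟨-z, ?_⟩
    have h6 : μ • ι (π (pt x (Hb.fl d))) = pt x (Hb.fl f) - pt x ((Hb.fl f) ∘ₗ (q.symm : W →ₗ[F] W)) -
        μ • pt z (Hb.fl b) := by
      rw [h4]; abel
    have h7 : ι (π (pt x (Hb.fl d))) = μ⁻¹ • (μ • ι (π (pt x (Hb.fl d)))) := by
      rw [smul_smul, inv_mul_cancel₀ hμ0, one_smul]
    rw [h7, h6, map_smul, map_sub, map_neg, LinearMap.neg_apply, smul_sub, smul_smul, inv_mul_cancel₀ hμ0, one_smul,
      sub_eq_add_neg]
  -- the element is a pair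
  have htq : ∃ q, t = ac 1 q := by
    by_cases hc : ∀ d, β d b = 0 → ∀ x, ∃ z, ι (π (pt x (Hb.fl d))) = pt z (Hb.fl b)
    · apply T.fx_star hX hb0 hb htM
      · exact fun a => by rw [htv, hπb, map_zero, smul_zero, add_zero]
      · intro v hv
        have h1 : v ∈ (sp (Hb.fl b) : Submodule F (W →ₗ[F] E)).comap (ι ∘ₗ π) := by
          apply fx_span _ hv
          intro x ψ hψ
          obtain ⟨d, rfl⟩ := T.rep ψ
          obtain ⟨z, hz⟩ := hc d (Hb.symm_zero hψ) x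
          exact mem_sp.2 ⟨z, hz⟩
        obtain ⟨z, hz⟩ := mem_sp.1 h1
        exact ⟨μ • z, by rw [htv, map_smul, LinearMap.smul_apply]; exact congrArg (fun y => v + μ • y) hz⟩
    · push Not at hc
      obtain ⟨d, hdb, x₀, hx₀⟩ := hc
      have hbd : β b d = 0 := Hb.symm_zero hdb
      obtain ⟨φ, hφ⟩ := L1 d hdb
      obtain ⟨θ, hθ⟩ : ∃ θ : E →ₗ[F] E, ∀ x, θ x = π (pt x (Hb.fl d)) := ⟨π ∘ₗ pt.flip (Hb.fl d), fun x => rfl⟩
      have hφb : φ ∉ Submodule.span F {Hb.fl b} := by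
        intro h
        obtain ⟨c, hc⟩ := Submodule.mem_span_singleton.1 h
        obtain ⟨z, hz⟩ := hφ x₀
        apply hx₀ (c • x₀ + z)
        rw [hz, ← hc, map_add, map_smul, map_smul]; rfl
      obtain ⟨w₁, hw₁, hw₁'⟩ := exists_sep hφb
      obtain ⟨w₂, hw₂, hw₂'⟩ : ∃ w, Hb.fl b w = 1 ∧ φ w = 0 := by
        apply exists_sep
        intro h
        obtain ⟨c, hc⟩ := Submodule.mem_span_singleton.1 h
        have hc0 : c ≠ 0 := by
          rintro rfl
          rw [zero_smul] at hc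
          exact T.fl_ne hb0 hc.symm
        apply hφb
        rw [Submodule.mem_span_singleton]
        exact ⟨c⁻¹, by rw [← hc, smul_smul, inv_mul_cancel₀ hc0, one_smul]⟩
      have hθ1 : ∀ x, (ι (θ x)) w₁ = x := by
        intro x
        obtain ⟨z, hz⟩ := hφ x
        rw [hθ, hz, LinearMap.add_apply, pt_apply, pt_apply, hw₁, hw₁', one_smul, zero_smul, add_zero]
      have hθinj : Function.Injective θ := by
        intro x y hxy
        rw [← hθ1 x, ← hθ1 y, hxy]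
      have hθsurj : Function.Surjective θ := LinearMap.injective_iff_surjective.1 hθinj
      obtain ⟨n, hn⟩ : ∃ n : E →ₗ[F] E, ∀ y, n y = (ι y) w₁ := ⟨(LinearMap.applyₗ w₁) ∘ₗ ι, fun y => rfl⟩
      obtain ⟨z', hz'⟩ : ∃ z' : E →ₗ[F] E, ∀ y, z' y = (ι y) w₂ := ⟨(LinearMap.applyₗ w₂) ∘ₗ ι, fun y => rfl⟩
      have hιn : ∀ y, ι y = pt (n y) φ + pt (z' y) (Hb.fl b) := by
        intro y
        obtain ⟨x, rfl⟩ := hθsurj y
        obtain ⟨z, hz⟩ := hφ x
        have h1 : z' (θ x) = z := by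
          rw [hz', hθ, hz, LinearMap.add_apply, pt_apply, pt_apply, hw₂, hw₂', one_smul, zero_smul, zero_add]
        rw [hn, hθ1, h1, hθ, hz]
      have hnθ : ∀ x, n (θ x) = x := fun x => by rw [hn, hθ1]
      have hθn : ∀ x, θ (n x) = x := fun x => by
        obtain ⟨y, rfl⟩ := hθsurj x
        rw [hnθ]
      obtain ⟨d₁, rfl⟩ := T.rep φ
      have hx₀0 : x₀ ≠ 0 := by
        rintro rfl
        exact hx₀ 0 (by rw [map_zero, LinearMap.zero_apply, map_zero, map_zero, LinearMap.zero_apply])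
      have hbd₁ : β b d₁ = 0 := by
        have h1 := hιb (θ x₀)
        rw [hιn, LinearMap.add_apply, pt_apply, pt_apply, HS.fl_apply, HS.fl_apply, hb, zero_smul, add_zero, hnθ] at h1
        exact (smul_eq_zero.1 h1).resolve_right hx₀0
      have hd₁b : β d₁ b = 0 := Hb.symm_zero hbd₁
      have hαπ : ∀ v x, v b = 0 → α (π v) x = α (v d₁) (n x) := by
        intro v x hv
        rw [← hpol, hιn, Hh.add_right, T.pol, T.pol, hv, Ha.zero_left, add_zero]
      obtain ⟨κ, hκ⟩ : ∃ κ, κ = β d₁ d := ⟨_, rfl⟩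
      have hsim : ∀ y x, α (θ y) x = κ * α y (n x) := by
        intro y x
        rw [hθ, hαπ _ _ (by rw [pt_apply, HS.fl_apply, hbd, zero_smul]), pt_apply, HS.fl_apply, ← hκ, Ha.smul_left]
      have hκ0 : κ ≠ 0 := by
        rintro hκ0
        apply hx₀0
        apply hθinj
        rw [map_zero]
        apply T.eqE
        intro x
        rw [hsim, hκ0, zero_mul, Ha.zero_left]
      have hκσ : σ κ = κ := by
        obtain ⟨x, y, hxy⟩ := T.fx_pair
        have e1 := hsim x (θ y)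
        have e2 := hsim y (θ x)
        rw [hnθ] at e1 e2
        rw [Ha.herm, e2, map_mul, ← Ha.herm] at e1
        exact mul_right_cancel₀ hxy e1
      have hd₁ : β d₁ d₁ = 0 := by
        obtain ⟨x, y, hxy⟩ := T.fx_pair
        have e1 := hpol (θ y) (ι (θ x))
        rw [hπι, Ha.zero_left, hιn (θ y), Hh.add_right, T.pol, T.pol, hιb, Ha.zero_left, add_zero, hnθ, hιn,
          LinearMap.add_apply, pt_apply, pt_apply, HS.fl_apply, HS.fl_apply, hd₁b, zero_smul, add_zero, hnθ,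
          Ha.smul_left] at e1
        exact (mul_eq_zero.1 e1).resolve_right hxy
      -- the action on the middle
      have hmid : ∀ v, v b = 0 → n (π v) = κ⁻¹ • v d₁ := by
        intro v hv
        have h1 : π v = κ⁻¹ • θ (v d₁) := by
          apply T.eqE
          intro x
          rw [hαπ v x hv, Ha.smul_left, hsim, inv_mul_cancel_left₀ hκ0]
        rw [h1, map_smul, hnθ]
      obtain ⟨Y, hY, ⟨q₁, -, hq₁⟩, hYv⟩ := T.xb hd₁ (μ := -(μ * κ⁻¹)) (by
        rw [map_neg, map_mul, map_inv₀, hκσ]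
        linear_combination (-κ⁻¹) * hμ)
      have hYb : ∀ v, (Y v) b = v b := by
        intro v
        rw [hYv, LinearMap.add_apply, LinearMap.smul_apply, pt_apply, HS.fl_apply, hbd₁, zero_smul, smul_zero, add_zero]
      have hYd : ∀ v, (Y v) d₁ = v d₁ := by
        intro v
        rw [hYv, LinearMap.add_apply, LinearMap.smul_apply, pt_apply, HS.fl_apply, hd₁, zero_smul, smul_zero, add_zero]
      obtain ⟨q₂, hq₂⟩ := T.fx_star hX hb0 hb (mul_mem htM hY) (fun a => by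
        have h1 : Y (pt a (Hb.fl b)) = pt a (Hb.fl b) := by
          rw [hYv, pt_apply, HS.fl_apply, hd₁b, zero_smul, map_zero, LinearMap.zero_apply, smul_zero, add_zero]
        rw [LinearEquiv.mul_apply, h1, htv, hπb, map_zero, smul_zero, add_zero]) (fun v hv => by
        refine ⟨μ • z' (π (Y v)), ?_⟩
        rw [LinearEquiv.mul_apply, htv, hιn, hmid _ (by rw [hYb, hv]), hYd, hYv]
        rw [map_smul, LinearMap.smul_apply, map_smul, LinearMap.smul_apply]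
        module)
      refine ⟨q₂ * q₁⁻¹, ?_⟩
      have h1 : t = t * Y * Y⁻¹ := by group
      rw [h1, hq₂, hq₁]; rfl
  obtain ⟨q, hq⟩ := htq
  have hsp : finrank F ((sp (Hb.fl b₀) : Submodule F (W →ₗ[F] E)).map (m : (W →ₗ[F] E) →ₗ[F] (W →ₗ[F] E))) =
      finrank F E := by
    rw [LinearEquiv.finrank_map_eq m, finrank_sp (T.fl_ne hb₀0)]
  have hmem : ∀ x, ι x ∈ (sp (Hb.fl b₀) : Submodule F (W →ₗ[F] E)).map (m : (W →ₗ[F] E) →ₗ[F] (W →ₗ[F] E)) :=
    fun x => by rw [hι]; exact ⟨_, pt_mem_sp x _, rfl⟩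
  obtain ⟨c', hc'0, hc'⟩ := ac_small (p := 1) (q := q) (by have := T.hE; omega) (by have := T.hEW; omega)
    (D := (sp (Hb.fl b₀) : Submodule F (W →ₗ[F] E)).map (m : (W →ₗ[F] E) →ₗ[F] (W →ₗ[F] E))) (by
    intro v
    rw [← hq, htv, add_sub_cancel_left]
    exact Submodule.smul_mem _ _ (hmem _)) hsp.le (by
    rw [← hq]
    intro h1
    obtain ⟨f, hf⟩ := T.exists_one hb₀0
    have hf' : β b₀ f = 1 := by rw [Hb.herm, hf, map_one]
    obtain ⟨x, hx⟩ := T.fx_ne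
    have h2 := htv (m (pt x (Hb.fl f)))
    rw [h1] at h2
    have h3 : μ • ι (π (m (pt x (Hb.fl f)))) = 0 := by
      have h4 : m (pt x (Hb.fl f)) + 0 = m (pt x (Hb.fl f)) + μ • ι (π (m (pt x (Hb.fl f)))) := by
        rw [← h2, add_zero]; rfl
      exact (add_left_cancel h4).symm
    rw [hπ, hm2, hι, smul_eq_zero, or_iff_right hμ0, LinearEquiv.map_eq_zero_iff, pt_apply, HS.fl_apply, hf',
      one_smul] at h3
    exact pt_ne hx (T.fl_ne hb₀0) h3)
  obtain ⟨c, rfl⟩ := T.rep c'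
  refine ⟨c, ?_, ?_, fun x => ?_⟩
  · rintro rfl
    apply hc'0
    apply LinearMap.ext
    intro w
    rw [HS.fl_apply, Hb.zero_right]; rfl
  · apply T.fx_sing
    intro x y
    obtain ⟨_, ⟨u, hu, rfl⟩, hux⟩ : ∃ u ∈ (sp (Hb.fl b₀) : Submodule F (W →ₗ[F] E)).map
        (m : (W →ₗ[F] E) →ₗ[F] (W →ₗ[F] E)), u = pt x (Hb.fl c) := ⟨_, by rw [hc']; exact pt_mem_sp _ _, rfl⟩
    obtain ⟨_, ⟨u', hu', rfl⟩, huy⟩ : ∃ u ∈ (sp (Hb.fl b₀) : Submodule F (W →ₗ[F] E)).map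
        (m : (W →ₗ[F] E) →ₗ[F] (W →ₗ[F] E)), u = pt y (Hb.fl c) := ⟨_, by rw [hc']; exact pt_mem_sp _ _, rfl⟩
    obtain ⟨a, rfl⟩ := mem_sp.1 hu
    obtain ⟨a', rfl⟩ := mem_sp.1 hu'
    rw [← hux, ← huy]
    show h (m _) (m _) = 0
    rw [T.hM hm, T.pol, pt_apply, HS.fl_apply, hb₀, zero_smul, Ha.zero_left]
  · rw [← hc', ← hι]
    exact hmem x

end TU

end Cfsg.Agent.Lib.TenVH94
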