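import Mathlib
import Cfsg.Agent.Lib.TenV1H94

set_option autoImplicit false
set_option linter.unusedSectionVars false
set_option linter.unusedSimpArgs false
set_option linter.unusedVariables false

/-!
Overgroups of `SU ⊗ SU`: the ring of root elements.
-/

namespace Cfsg.Agent.Lib.TenVH94

open Module Cfsg.Agent.Lib.TenSLH94 Cfsg.Agent.Lib.UnTrans Cfsg.Agent.Lib.UnMax
open Cfsg.Agent.Lib.SpTrans (isom mem_isom)

variable {F E W : Type*} [Field F] [AddCommGroup E] [Module F E] [FiniteDimensional F E]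
  [AddCommGroup W] [Module F W] [FiniteDimensional F W]
  {σ : F →+* F} {α : E → E → F} {β : W → W → F} {h : (W →ₗ[F] E) → (W →ₗ[F] E) → F}
  {Ha : HS σ α} {Hb : HS σ β} {Hh : HS σ h} {M : Subgroup ((W →ₗ[F] E) ≃ₗ[F] (W →ₗ[F] E))}

/-- central root elements -/
def ZX (Hb : HS σ β) (M : Subgroup ((W →ₗ[F] E) ≃ₗ[F] (W →ₗ[F] E))) (b : W) (X : E →ₗ[F] E) : Prop :=
  ∃ r ∈ M, ∀ v, r v = v + pt (X (v b)) (Hb.fl b)

/-- root elements -/
def SZ (Hb : HS σ β) (M : Subgroup ((W →ₗ[F] E) ≃ₗ[F] (W →ₗ[F] E))) (b d : W) (ξ ξ' : E →ₗ[F] E) : Prop :=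
  ∃ g ∈ M, ∀ v, g v = v + pt (ξ (v b)) (Hb.fl d) + pt (ξ' (v d)) (Hb.fl b)

/-- members of the ring -/
def NN (α : E → E → F) (Hb : HS σ β) (M : Subgroup ((W →ₗ[F] E) ≃ₗ[F] (W →ₗ[F] E))) (ξ : E →ₗ[F] E) : Prop :=
  ∃ ξ' : E →ₗ[F] E, (∀ x y, α (ξ x) y = - α x (ξ' y)) ∧
    ∀ b d : W, β b b = 0 → β d d = 0 → β d b = 0 → b ≠ 0 → d ∉ Submodule.span F {b} → SZ Hb M b d ξ ξ'

/-- skew central root elements -/
def XS (α : E → E → F) (Hb : HS σ β) (M : Subgroup ((W →ₗ[F] E) ≃ₗ[F] (W →ₗ[F] E))) : Set (Module.End F E) :=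
  {X | (∀ x y, α (X x) y = - α x (X y)) ∧ ∀ b : W, β b b = 0 → ZX Hb M b X}

namespace TU
variable (T : TU Ha Hb Hh M)
include T

theorem ZX.neg {b : W} (hb : β b b = 0) {X : E →ₗ[F] E} (hX : ZX Hb M b X) : ZX Hb M b (-X) := by
  obtain ⟨r, hr, hrv⟩ := hX
  refine ⟨r⁻¹, inv_mem hr, fun v => ?_⟩
  apply r.injective
  rw [← LinearEquiv.mul_apply, mul_inv_cancel, hrv]
  apply LinearMap.ext
  intro w
  simp only [LinearMap.add_apply, pt_apply, LinearEquiv.coe_one, id, HS.fl_apply, hb, LinearMap.neg_apply, smul_neg,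
    zero_smul, neg_zero, add_zero]
  abel

theorem ZX.add {b : W} (hb : β b b = 0) {X Y : E →ₗ[F] E} (hX : ZX Hb M b X) (hY : ZX Hb M b Y) : ZX Hb M b (X + Y) := by
  obtain ⟨r, hr, hrv⟩ := hX
  obtain ⟨s, hs, hsv⟩ := hY
  refine ⟨r * s, mul_mem hr hs, fun v => ?_⟩
  rw [LinearEquiv.mul_apply, hrv, hsv]
  apply LinearMap.ext
  intro w
  simp only [LinearMap.add_apply, pt_apply, HS.fl_apply, hb, zero_smul, add_zero, smul_add]
  abel

/-- all singular vectors are equivalent -/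
theorem ZX.all [Finite F] {b : W} (hb0 : b ≠ 0) (hb : β b b = 0) {X : E →ₗ[F] E} (hX : ZX Hb M b X) {c : W} (hc : β c c = 0) :
    ZX Hb M c X := by
  by_cases hc0 : c = 0
  · subst hc0
    refine ⟨1, one_mem _, fun v => ?_⟩
    rw [map_zero, map_zero, map_zero, LinearMap.zero_apply, add_zero]; rfl
  have h4 : 4 ≤ finrank F (⊤ : Submodule F W) := by rw [finrank_top]; have := T.hW; omega
  obtain ⟨t, ht, htb⟩ := UnTrans.exists_move Hb T.nb h4 (x := b) (y := c) trivial trivial hb0 hc0 (by rw [hb, hc])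
  obtain ⟨r, hr, hrv⟩ := hX
  have hti := tgrp_le_isom Hb _ ht
  have hg : (ac 1 t : (W →ₗ[F] E) ≃ₗ[F] (W →ₗ[F] E)) ∈ M := T.tB t hti (tgrp_det Hb ht)
  obtain ⟨g, hge⟩ : ∃ g : (W →ₗ[F] E) ≃ₗ[F] (W →ₗ[F] E), g = ac 1 t := ⟨_, rfl⟩
  rw [← hge] at hg
  refine ⟨g * r * g⁻¹, mul_mem (mul_mem hg hr) (inv_mem hg), fun v => ?_⟩
  have h1 : g (g⁻¹ v) = v := by rw [← LinearEquiv.mul_apply, mul_inv_cancel]; rfl
  have h2 : (g⁻¹ v) b = v c := by
    have := congrArg (fun u : W →ₗ[F] E => u c) h1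
    simp only [hge] at this ⊢
    rw [ac_apply, ← htb, LinearEquiv.symm_apply_apply] at this
    rw [← htb, ← this]; rfl
  rw [LinearEquiv.mul_apply, LinearEquiv.mul_apply, hrv, map_add, h1, h2, hge, T.ac_one_isom hti 0, htb]

/-- central root elements are skew -/
theorem ZX.skew {b : W} (hb0 : b ≠ 0) (hb : β b b = 0) {X : E →ₗ[F] E} (hX : ZX Hb M b X) (x y : E) :
    α (X x) y = - α x (X y) := by
  obtain ⟨r, hr, hrv⟩ := hX
  obtain ⟨f, hf, hff⟩ := T.exists_hyp hb0 hb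
  have hbf : β b f = 1 := by rw [Hb.herm, hf, map_one]
  have h1 := T.hM hr (pt x (Hb.fl f)) (pt y (Hb.fl f))
  rw [hrv, hrv, Hh.add_left, Hh.add_right, Hh.add_right, T.pol, Hh.herm (pt _ (Hb.fl b)) (pt _ (Hb.fl f)), T.pol,
    T.pol, ← Ha.herm] at h1
  simp only [pt_apply, HS.fl_apply, hbf, hb, one_smul, zero_smul, Ha.zero_left, add_zero] at h1
  have h3 : h (pt (X x) (Hb.fl b)) (pt (X y) (Hb.fl b)) = 0 := by
    rw [T.pol, pt_apply, HS.fl_apply, hb, zero_smul, Ha.zero_left]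
  linear_combination h1 - h3

/-- scalars -/
theorem SZ.smul {b d : W} {ξ ξ' : E →ₗ[F] E} {l : F} (hl : l ≠ 0) (hZ : SZ Hb M b (l • d) ξ ξ') :
    SZ Hb M b d (σ l • ξ) (l • ξ') := by
  obtain ⟨g, hg, hgv⟩ := hZ
  refine ⟨g, hg, fun v => ?_⟩
  rw [hgv, T.fl_smul]
  simp only [map_smul, LinearMap.smul_apply]

theorem NN.smul {ξ : E →ₗ[F] E} (hξ : NN α Hb M ξ) (c : F) : NN α Hb M (c • ξ) := by
  obtain ⟨ξ', h1, h2⟩ := hξ
  by_cases hc : c = 0
  · subst hc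
    refine ⟨0, fun x y => by rw [zero_smul, LinearMap.zero_apply, LinearMap.zero_apply, Ha.zero_left, Ha.zero_right, neg_zero],
      fun b d _ _ _ _ _ => ⟨1, one_mem _, fun v => ?_⟩⟩
    rw [zero_smul]
    simp
  have hσ : σ c ≠ 0 := Ha.sigma_ne hc
  refine ⟨σ c • ξ', fun x y => ?_, fun b d hb hd hdb hb0 hdn => ?_⟩
  · rw [LinearMap.smul_apply, LinearMap.smul_apply, Ha.smul_left, Ha.smul_right, h1, Ha.inv]; ring
  · have h3 := h2 b (σ c • d) hb (by rw [Hb.smul_left, Hb.smul_right, hd]; ring) (by rw [Hb.smul_left, hdb, mul_zero]) hb0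
      (by
        intro hcon
        apply hdn
        have := Submodule.smul_mem _ (σ c)⁻¹ hcon
        rwa [smul_smul, inv_mul_cancel₀ hσ, one_smul] at this)
    have h4 := SZ.smul T hσ h3
    rwa [Ha.inv] at h4

theorem NN.add {ξ η : E →ₗ[F] E} (hξ : NN α Hb M ξ) (hη : NN α Hb M η) : NN α Hb M (ξ + η) := by
  obtain ⟨ξ', h1, h2⟩ := hξ
  obtain ⟨η', h3, h4⟩ := hη
  refine ⟨ξ' + η', fun x y => ?_, fun b d hb hd hdb hb0 hdn => ?_⟩
  · rw [LinearMap.add_apply, LinearMap.add_apply, Ha.add_left, Ha.add_right, h1, h3]; ring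
  · obtain ⟨g, hg, hgv⟩ := h2 b d hb hd hdb hb0 hdn
    obtain ⟨k, hk, hkv⟩ := h4 b d hb hd hdb hb0 hdn
    have hbd := Hb.symm_zero hdb
    refine ⟨g * k, mul_mem hg hk, fun v => ?_⟩
    rw [LinearEquiv.mul_apply, hgv, hkv]
    apply LinearMap.ext
    intro w
    simp only [LinearMap.add_apply, pt_apply, HS.fl_apply, hb, hd, hdb, hbd, zero_smul, add_zero, smul_add, map_add]
    abel

theorem NN.one : NN α Hb M 1 := by
  refine ⟨-1, fun x y => ?_, fun b d hb hd hdb hb0 hdn => ?_⟩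
  · rw [LinearMap.neg_apply, Ha.neg_right, neg_neg]; rfl
  · obtain ⟨s, hs, -, hsv, -⟩ := T.sb hb hdb (c := 0) (by rw [map_zero, hd]; ring)
    refine ⟨s, hs, fun v => ?_⟩
    rw [hsv, map_zero, zero_smul, add_zero]
    simp only [LinearMap.neg_apply, map_neg]
    rw [sub_eq_add_neg]; rfl

/-- central elements of perpendicular vectors -/
theorem NN.of_XS {X : E →ₗ[F] E} (hX : X ∈ XS α Hb M) : NN α Hb M X := by
  refine ⟨X, hX.1, fun b d hb hd hdb hb0 hdn => ?_⟩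
  have hbd := Hb.symm_zero hdb
  obtain ⟨r, hr, hrv⟩ := hX.2 (b + d) (by rw [Hb.add_left, Hb.add_right, Hb.add_right, hb, hd, hdb, hbd]; ring)
  obtain ⟨s, hs, hsv⟩ := ZX.neg T hb (hX.2 b hb)
  obtain ⟨t, ht, htv⟩ := ZX.neg T hd (hX.2 d hd)
  refine ⟨t * (s * r), mul_mem ht (mul_mem hs hr), fun v => ?_⟩
  rw [LinearEquiv.mul_apply, LinearEquiv.mul_apply, htv, hsv, hrv]
  apply LinearMap.ext
  intro w
  simp only [LinearMap.add_apply, pt_apply, HS.fl_apply, hb, hd, hdb, hbd, zero_smul, add_zero, smul_add, map_add,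
    LinearMap.neg_apply, map_neg, Hb.add_left, Hb.add_right, add_smul, neg_zero, smul_neg]
  abel

/-- a hyperbolic partner orthogonal to a given vector -/
theorem exists_partner {b d : W} (hb : b ≠ 0) (hbb : β b b = 0) (hd : d ∉ Submodule.span F {b}) (hdd : β d d = 0)
    (hdb : β d b = 0) : ∃ e, β e d = 1 ∧ β e b = 0 ∧ β e e = 0 := by
  have hsep : Hb.fl d ∉ Submodule.span F {Hb.fl b} := by
    intro hcon
    obtain ⟨c, hc⟩ := Submodule.mem_span_singleton.1 hcon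
    apply hd
    refine Submodule.mem_span_singleton.2 ⟨σ c, T.fl_inj ?_⟩
    rw [T.fl_smul, Hb.inv, hc]
  obtain ⟨e, he, heb⟩ := exists_sep hsep
  have hed : β e d = 1 := he
  have heb' : β e b = 0 := heb
  have hde : β d e = 1 := by rw [Hb.herm, hed, map_one]
  obtain ⟨a, ha⟩ := Hb.exists_add_norm (z := d) (u := e) hdd (by rw [hde]; exact one_ne_zero) (map_zero σ)
  exact ⟨e + a • d, by rw [Hb.add_left, Hb.smul_left, hed, hdd, mul_zero, add_zero],
    by rw [Hb.add_left, Hb.smul_left, heb', hdb, mul_zero, add_zero], ha⟩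

theorem off_smul {b d : W} (hdn : d ∉ Submodule.span F {b}) {l : F} (hl : l ≠ 0) : l • d ∉ Submodule.span F {b} := by
  intro hcon
  apply hdn
  have := Submodule.smul_mem _ l⁻¹ hcon
  rwa [smul_smul, inv_mul_cancel₀ hl, one_smul] at this

/-- products: the basic commutator -/
theorem prod_aux {X ξ ξ' : E →ₗ[F] E} (hX : X ∈ XS α Hb M)
    (h2 : ∀ b d : W, β b b = 0 → β d d = 0 → β d b = 0 → b ≠ 0 → d ∉ Submodule.span F {b} → SZ Hb M b d ξ ξ')
    {b d : W} (hb : β b b = 0) (hd : β d d = 0) (hdb : β d b = 0) (hb0 : b ≠ 0) (hdn : d ∉ Submodule.span F {b}) :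
    ∃ g ∈ M, ∀ v, g v = v + pt (X (ξ (v b))) (Hb.fl d) - pt (ξ' (X (v d))) (Hb.fl b) + pt (ξ' (X (ξ (v b)))) (Hb.fl b) := by
  obtain ⟨e, hed, heb, hee⟩ := T.exists_partner hb0 hb hdn hd hdb
  have hbd := Hb.symm_zero hdb
  have hbe := Hb.symm_zero heb
  have hde : β d e = 1 := by rw [Hb.herm, hed, map_one]
  have hen : e ∉ Submodule.span F {b} := by
    intro hcon
    obtain ⟨c, rfl⟩ := Submodule.mem_span_singleton.1 hcon
    rw [Hb.smul_left, hbd, mul_zero] at hed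
    exact zero_ne_one hed
  obtain ⟨g, hg, hgv⟩ := h2 b e hb hee heb hb0 hen
  obtain ⟨z, hz, hzv⟩ := hX.2 d hd
  have hgi : ∀ v, g⁻¹ v = v - pt (ξ (v b)) (Hb.fl e) - pt (ξ' (v e)) (Hb.fl b) := by
    intro v
    apply g.injective
    rw [← LinearEquiv.mul_apply, mul_inv_cancel, hgv]
    apply LinearMap.ext
    intro w
    simp only [LinearMap.add_apply, LinearMap.sub_apply, pt_apply, HS.fl_apply, hb, hee, heb, hbe, zero_smul, sub_zero,
      LinearEquiv.coe_one, id]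
    abel
  have hzi : ∀ v, z⁻¹ v = v - pt (X (v d)) (Hb.fl d) := by
    intro v
    apply z.injective
    rw [← LinearEquiv.mul_apply, mul_inv_cancel, hzv]
    apply LinearMap.ext
    intro w
    simp only [LinearMap.add_apply, LinearMap.sub_apply, pt_apply, HS.fl_apply, hd, zero_smul, sub_zero,
      LinearEquiv.coe_one, id]
    abel
  refine ⟨z * (g * (z⁻¹ * g⁻¹)), mul_mem hz (mul_mem hg (mul_mem (inv_mem hz) (inv_mem hg))), fun v => ?_⟩
  simp only [LinearEquiv.mul_apply, hzv, hzi, hgv, hgi]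
  apply LinearMap.ext
  intro w
  simp only [LinearMap.add_apply, LinearMap.sub_apply, pt_apply, HS.fl_apply, hb, hee, heb, hbe, hd, hdb, hbd, hde, hed,
    zero_smul, sub_zero, one_smul, map_add, map_sub, map_zero, add_zero, zero_add, zero_sub, sub_self, smul_zero]
  abel

theorem NN.prod {X ξ : E →ₗ[F] E} (hX : X ∈ XS α Hb M) (hξ : NN α Hb M ξ) : NN α Hb M (X ∘ₗ ξ) := by
  obtain ⟨ξ', h1, h2⟩ := hξ
  obtain ⟨θ, hθ⟩ := Hb.ne
  refine ⟨- (ξ' ∘ₗ X), fun x y => ?_, fun b d hb hd hdb hb0 hdn => ?_⟩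
  · rw [LinearMap.comp_apply, LinearMap.neg_apply, LinearMap.comp_apply, Ha.neg_right, neg_neg, hX.1, h1, neg_neg]
  have hbd := Hb.symm_zero hdb
  have key : ∀ l : F, l ≠ 0 → ∃ g ∈ M, ∀ v, g v = v + σ l • pt (X (ξ (v b))) (Hb.fl d) - l • pt (ξ' (X (v d))) (Hb.fl b) +
      pt (ξ' (X (ξ (v b)))) (Hb.fl b) := by
    intro l hl
    obtain ⟨g, hg, hgv⟩ := T.prod_aux hX h2 (b := b) (d := l • d) hb (by rw [Hb.smul_left, Hb.smul_right, hd]; ring)
      (by rw [Hb.smul_left, hdb, mul_zero]) hb0 (T.off_smul hdn hl)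
    refine ⟨g, hg, fun v => ?_⟩
    rw [hgv, T.fl_smul]
    simp only [map_smul, LinearMap.smul_apply]
  have hθ0 : θ ≠ 0 := by rintro rfl; exact hθ (map_zero _)
  have hθ1 : 1 + θ ≠ 0 := by
    intro h0
    apply hθ
    have : θ = -1 := by linear_combination h0
    rw [this, map_neg, map_one]
  obtain ⟨g₁, hg₁, hg₁v⟩ := key 1 one_ne_zero
  obtain ⟨g₂, hg₂, hg₂v⟩ := key θ hθ0
  obtain ⟨g₃, hg₃, hg₃v⟩ := key (1 + θ) hθ1
  -- the central part
  have hY : ZX Hb M b (ξ' ∘ₗ X ∘ₗ ξ) := by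
    refine ⟨g₃⁻¹ * (g₁ * g₂), mul_mem (inv_mem hg₃) (mul_mem hg₁ hg₂), fun v => ?_⟩
    apply g₃.injective
    rw [← LinearEquiv.mul_apply, ← mul_assoc, mul_inv_cancel, one_mul, LinearEquiv.mul_apply]
    simp only [hg₁v, hg₂v, hg₃v]
    apply LinearMap.ext
    intro w
    simp only [LinearMap.add_apply, LinearMap.sub_apply, LinearMap.smul_apply, pt_apply, HS.fl_apply, hb, hd, hdb, hbd,
      zero_smul, sub_zero, smul_zero, add_zero, LinearMap.comp_apply, map_one, one_smul, map_add, add_smul]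
    abel
  obtain ⟨y, hy, hyv⟩ := ZX.neg T hb hY
  refine ⟨y * g₁, mul_mem hy hg₁, fun v => ?_⟩
  rw [LinearEquiv.mul_apply, hyv, hg₁v]
  apply LinearMap.ext
  intro w
  simp only [LinearMap.add_apply, LinearMap.sub_apply, LinearMap.smul_apply, pt_apply, HS.fl_apply, hb, hd, hdb, hbd,
    zero_smul, sub_zero, smul_zero, add_zero, LinearMap.comp_apply, map_one, one_smul, map_add, add_smul,
    LinearMap.neg_apply, smul_neg]
  abel

/-- the ring generated by the skew elements -/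
theorem NN.of_adjoin {η : Module.End F E} (hη : η ∈ Algebra.adjoin F (XS α Hb M)) : NN α Hb M η := by
  have key : ∀ η ∈ Algebra.adjoin F (XS α Hb M), ∀ ξ : E →ₗ[F] E, NN α Hb M ξ → NN α Hb M (η ∘ₗ ξ) := by
    intro η hη
    induction hη using Algebra.adjoin_induction with
    | mem X hX => exact fun ξ hξ => NN.prod T hX hξ
    | algebraMap c =>
      intro ξ hξ
      have : (algebraMap F (Module.End F E) c : E →ₗ[F] E) ∘ₗ ξ = c • ξ := LinearMap.ext fun x => rfl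
      rw [this]
      exact NN.smul T hξ c
    | add η₁ η₂ _ _ h1 h2 =>
      intro ξ hξ
      have : (η₁ + η₂ : E →ₗ[F] E) ∘ₗ ξ = η₁ ∘ₗ ξ + η₂ ∘ₗ ξ := LinearMap.ext fun x => rfl
      rw [this]
      exact NN.add T (h1 ξ hξ) (h2 ξ hξ)
    | mul η₁ η₂ _ _ h1 h2 =>
      intro ξ hξ
      exact h1 _ (h2 ξ hξ)
  have := key η hη 1 (NN.one T)
  exact this

/-- adjoints in the ring -/
theorem adj_adjoin {η : Module.End F E} (hη : η ∈ Algebra.adjoin F (XS α Hb M)) :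
    ∃ η' ∈ Algebra.adjoin F (XS α Hb M), ∀ x y, α (η x) y = α x (η' y) := by
  induction hη using Algebra.adjoin_induction with
  | mem X hX => exact ⟨-X, neg_mem (Algebra.subset_adjoin hX), fun x y => by
      rw [LinearMap.neg_apply, Ha.neg_right]; exact hX.1 x y⟩
  | algebraMap c => exact ⟨algebraMap F _ (σ c), algebraMap_mem _ _, fun x y => by
      rw [Module.algebraMap_end_apply, Module.algebraMap_end_apply, Ha.smul_left, Ha.smul_right, Ha.inv]⟩
  | add η₁ η₂ _ _ h1 h2 =>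
    obtain ⟨ζ₁, h3, h4⟩ := h1
    obtain ⟨ζ₂, h5, h6⟩ := h2
    exact ⟨ζ₁ + ζ₂, add_mem h3 h5, fun x y => by
      rw [LinearMap.add_apply, LinearMap.add_apply, Ha.add_left, Ha.add_right, h4, h6]⟩
  | mul η₁ η₂ _ _ h1 h2 =>
    obtain ⟨ζ₁, h3, h4⟩ := h1
    obtain ⟨ζ₂, h5, h6⟩ := h2
    exact ⟨ζ₂ * ζ₁, mul_mem h5 h3, fun x y => by
      rw [Module.End.mul_apply, Module.End.mul_apply, h4, h6]⟩

/-- conjugates in the ring -/
theorem conj_adjoin {p : E ≃ₗ[F] E} (hp : p ∈ isom α) (hpd : LinearMap.det ((p : E ≃ₗ[F] E) : E →ₗ[F] E) = 1)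
    {η : Module.End F E} (hη : η ∈ Algebra.adjoin F (XS α Hb M)) :
    (p : Module.End F E) * η * ((p⁻¹ : E ≃ₗ[F] E) : Module.End F E) ∈ Algebra.adjoin F (XS α Hb M) := by
  have hp1 : ∀ x, p (p⁻¹ x) = x := fun x => by rw [← LinearEquiv.mul_apply, mul_inv_cancel]; rfl
  have hp2 : ∀ x, p⁻¹ (p x) = x := fun x => by rw [← LinearEquiv.mul_apply, inv_mul_cancel]; rfl
  induction hη using Algebra.adjoin_induction with
  | mem X hX =>
    apply Algebra.subset_adjoin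
    refine ⟨fun x y => ?_, fun b hb => ?_⟩
    · show α (p (X (p⁻¹ x))) y = - α x (p (X (p⁻¹ y)))
      have e1 : α (p (X (p⁻¹ x))) y = α (X (p⁻¹ x)) (p⁻¹ y) := by rw [← hp _ (p⁻¹ y), hp1]
      have e2 : α x (p (X (p⁻¹ y))) = α (p⁻¹ x) (X (p⁻¹ y)) := by rw [← hp (p⁻¹ x) _, hp1]
      rw [e1, e2, hX.1]
    · obtain ⟨r, hr, hrv⟩ := hX.2 b hb
      have hg := T.tA p hp hpd
      refine ⟨ac p 1 * r * (ac p 1)⁻¹, mul_mem (mul_mem hg hr) (inv_mem hg), fun v => ?_⟩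
      have h1 : ∀ v : W →ₗ[F] E, ac p 1 ((ac p 1)⁻¹ v) = v := fun v => by
        rw [← LinearEquiv.mul_apply, mul_inv_cancel]; rfl
      have h2 : ∀ w, ((ac p 1 : (W →ₗ[F] E) ≃ₗ[F] (W →ₗ[F] E))⁻¹ v) w = p⁻¹ (v w) := by
        intro w
        have := congrArg (fun u : W →ₗ[F] E => u w) (h1 v)
        simp only [ac_apply] at this
        rw [← this, hp2]; rfl
      rw [LinearEquiv.mul_apply, LinearEquiv.mul_apply, hrv, map_add, h1, h2]
      congr 1
      apply LinearMap.ext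
      intro w
      rw [ac_apply, pt_apply, pt_apply, map_smul]; rfl
  | algebraMap c =>
    have : (p : Module.End F E) * (algebraMap F (Module.End F E) c) * ((p⁻¹ : E ≃ₗ[F] E) : Module.End F E) =
        algebraMap F (Module.End F E) c := by
      apply LinearMap.ext
      intro x
      show p (c • p⁻¹ x) = c • x
      rw [map_smul, hp1]
    rw [this]
    exact algebraMap_mem _ _
  | add η₁ η₂ _ _ h1 h2 =>
    have : (p : Module.End F E) * (η₁ + η₂) * ((p⁻¹ : E ≃ₗ[F] E) : Module.End F E) =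
        (p : Module.End F E) * η₁ * ((p⁻¹ : E ≃ₗ[F] E) : Module.End F E) +
        (p : Module.End F E) * η₂ * ((p⁻¹ : E ≃ₗ[F] E) : Module.End F E) := by rw [mul_add, add_mul]
    rw [this]
    exact add_mem h1 h2
  | mul η₁ η₂ _ _ h1 h2 =>
    have : (p : Module.End F E) * (η₁ * η₂) * ((p⁻¹ : E ≃ₗ[F] E) : Module.End F E) =
        ((p : Module.End F E) * η₁ * ((p⁻¹ : E ≃ₗ[F] E) : Module.End F E)) *
        ((p : Module.End F E) * η₂ * ((p⁻¹ : E ≃ₗ[F] E) : Module.End F E)) := by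
      apply LinearMap.ext
      intro x
      show p (η₁ (η₂ (p⁻¹ x))) = p (η₁ (p⁻¹ (p (η₂ (p⁻¹ x)))))
      rw [hp2]
    rw [this]
    exact mul_mem h1 h2

/-- rank one members give root elements of the unitary group -/
theorem R_of_NN {x y : E} (hN : NN α Hb M ((Ha.fl x).smulRight y)) {b d : W} (hb : β b b = 0) (hd : β d d = 0)
    (hdb : β d b = 0) (hb0 : b ≠ 0) (hdn : d ∉ Submodule.span F {b}) :
    RhoIn h M (pt x (Hb.fl b)) (pt y (Hb.fl d)) 0 := by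
  obtain ⟨ξ', h1, h2⟩ := hN
  obtain ⟨g, hg, hgv⟩ := h2 b d hb hd hdb hb0 hdn
  have h3 : ∀ z, ξ' z = - (α z y • x) := by
    intro z
    apply T.eqE
    intro w
    have h4 := h1 w z
    rw [LinearMap.smulRight_apply, HS.fl_apply, Ha.smul_left] at h4
    have h5 : α (ξ' z) w = - σ (α w x * α y z) := by
      rw [Ha.herm (ξ' z) w, h4, map_neg, neg_neg]
    rw [h5, Ha.neg_left, Ha.smul_left, map_mul, ← Ha.herm, ← Ha.herm]
    ring
  refine ⟨g, hg, fun v => ?_⟩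
  rw [hgv, rho, T.pol, T.pol, LinearMap.smulRight_apply, HS.fl_apply, h3, zero_mul, zero_smul, add_zero, map_neg,
    LinearMap.neg_apply, map_smul, LinearMap.smul_apply, map_smul, LinearMap.smul_apply, ← sub_eq_add_neg]

/-- the conclusion when there are extra central root elements -/
theorem caseI_of [Finite F] (hno : ¬ NoX Hb M)
    (halg : ∀ (N : Subalgebra F (Module.End F E)), (∀ p ∈ isom α, LinearMap.det ((p : E ≃ₗ[F] E) : E →ₗ[F] E) = 1 →
      ∀ ξ ∈ N, (p : Module.End F E) * ξ * ((p⁻¹ : E ≃ₗ[F] E) : Module.End F E) ∈ N) →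
      (∀ ξ ∈ N, ∃ ξ' ∈ N, ∀ x y, α (ξ x) y = α x (ξ' y)) → ∀ X : Module.End F E, X ∈ N →
      (∀ x y, α (X x) y = - α x (X y)) → (¬ ∃ c : F, ∀ x, X x = c • x) → ∀ x y : E, (Ha.fl x).smulRight y ∈ N)
    (hall : (∀ (x y : E) (b d : W), β b b = 0 → β d d = 0 → β d b = 0 → b ≠ 0 → d ∉ Submodule.span F {b} →
      RhoIn h M (pt x (Hb.fl b)) (pt y (Hb.fl d)) 0) → tgrp Hh ⊤ ≤ M) : tgrp Hh ⊤ ≤ M := by
  rw [NoX] at hno
  push Not at hno
  obtain ⟨b, hb0, hb, X, r, hr, hrv, hX⟩ := hno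
  have hZ : ZX Hb M b X := ⟨r, hr, hrv⟩
  have hXS : (X : Module.End F E) ∈ XS α Hb M := ⟨ZX.skew T hb0 hb hZ, fun c hc => ZX.all T hb0 hb hZ hc⟩
  have h1 := halg (Algebra.adjoin F (XS α Hb M)) (fun p hp hpd ξ hξ => T.conj_adjoin hp hpd hξ)
    (fun ξ hξ => T.adj_adjoin hξ) X (Algebra.subset_adjoin hXS) hXS.1 (by
      rintro ⟨c, hc⟩
      obtain ⟨x, hx⟩ := hX c
      exact hx (hc x))
  exact hall fun x y b d hb hd hdb hb0 hdn => T.R_of_NN (NN.of_adjoin T (h1 x y)) hb hd hdb hb0 hdn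

end TU

end Cfsg.Agent.Lib.TenVH94
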