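import Mathlib
import Cfsg.Agent.Lib.TenVBr
import Cfsg.Agent.Lib.TenVMainH94

set_option autoImplicit false
set_option linter.unusedSectionVars false
set_option linter.unusedVariables false

/-!
Tensor products `2 ⊗ 6` and `3 ⊗ 4` of unitary forms in dimension 12.
-/

namespace Cfsg.Agent.Lib.TenVH94

theorem items10_11 {F : Type*} [Field F] [Fintype F] (q : ℕ) (hF : Fintype.card F = q ^ 2) :
    (3 ≤ q → ∀ (e : Fin 12 ≃ Fin 2 × Fin 6) (P : Matrix.GeneralLinearGroup (Fin 12) F) (f₁ : (Fin 2 → F) → (Fin 2 → F) → F) (f₂ : (Fin 6 → F) → (Fin 6 → F) → F), Cfsg.Geo.IsUnitaryFormPow q f₁ → Cfsg.Geo.IsUnitaryFormPow q f₂ → Cfsg.Geo.IsTensorFormStructure (fun x : F => x ^ q) (Cfsg.hermForm 12 F q) f₁ f₂ e P → Cfsg.Geo.IsMaximalIn (Cfsg.GU 12 F q ⊓ Cfsg.Geo.specialLinear (Fin 12) F) (Cfsg.Geo.tensorProductSubgroup 2 6 e P ⊓ (Cfsg.GU 12 F q ⊓ Cfsg.Geo.specialLinear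 (Fin 12) F))) ∧
    (∀ (e : Fin 12 ≃ Fin 3 × Fin 4) (P : Matrix.GeneralLinearGroup (Fin 12) F) (f₁ : (Fin 3 → F) → (Fin 3 → F) → F) (f₂ : (Fin 4 → F) → (Fin 4 → F) → F), Cfsg.Geo.IsUnitaryFormPow q f₁ → Cfsg.Geo.IsUnitaryFormPow q f₂ → Cfsg.Geo.IsTensorFormStructure (fun x : F => x ^ q) (Cfsg.hermForm 12 F q) f₁ f₂ e P → Cfsg.Geo.IsMaximalIn (Cfsg.GU 12 F q ⊓ Cfsg.Geo.specialLinear (Fin 12) F) (Cfsg.Geo.tensorProductSubgroup 3 4 e P ⊓ (Cfsg.GU 12 F q ⊓ Cfsg.Geo.specialLinear (Fin 12) F))) := by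
  constructor
  · intro hq e P f₁ f₂ hf₁ hf₂ hT
    exact br_main12 hF le_rfl (by omega) (by omega) (by omega) e P hf₁ hf₂ hT
      (fun Ha Hb Hh M T hex => T.main hex)
  · intro e P f₁ f₂ hf₁ hf₂ hT
    exact br_main12 hF le_rfl (by omega) (by omega) (by omega) e P hf₁ hf₂ hT
      (fun Ha Hb Hh M T hex => T.main hex)

end Cfsg.Agent.Lib.TenVH94
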