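import Cfsg.Agent.Lib.TenOO1

/-!
# Overgroups of `O₃ ⊗ O₄⁻`: definitions (helper34)
-/

set_option autoImplicit false
set_option linter.unusedSectionVars false
set_option linter.unusedVariables false

namespace Cfsg.Agent.Lib.TenW4

open QuadraticMap Module Cfsg.Agent.Lib.Quad Cfsg.Agent.Lib.OrthMax Cfsg.Agent.Lib.OrthNd Cfsg.Agent.Lib.TenSLH94
  Cfsg.Agent.Lib.TenOO

variable {F E W : Type*} [Field F] [AddCommGroup E] [Module F E] [FiniteDimensional F E]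
  [AddCommGroup W] [Module F W] [FiniteDimensional F W]

/-- the situation: `E` of dimension 3, `W` of dimension 4 and minus type, `q` odd, `q ≥ 5` -/
structure T4 (QE : QuadraticForm F E) (QW : QuadraticForm F W) (Q : QuadraticForm F (W →ₗ[F] E))
    (M : Subgroup ((W →ₗ[F] E) ≃ₗ[F] (W →ₗ[F] E))) : Prop where
  h2 : (2 : F) ≠ 0
  ndE : Nd QE
  ndW : Nd QW
  hE : 3 ≤ finrank F E
  hE3 : finrank F E = 3
  hW : 4 ≤ finrank F W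
  hW4 : finrank F W = 4
  hs : ∃ s : F, s ≠ 0 ∧ s ≠ 1 ∧ s ≠ -1
  hex : 4 ≤ finrank F E ∨ ∃ s : F, s ≠ 0 ∧ s ≠ 1 ∧ s ≠ -1
  hmin : ∀ x y : W, QW x = 0 → QW y = 0 → polar QW x y = 0 → x ≠ 0 → ∃ c : F, y = c • x
  pol : ∀ (a : E) (b : W) (v : W →ₗ[F] E), polar Q (tb QW a b) v = polar QE (v b) a
  hM : M ≤ O Q
  hdet : ∀ g ∈ M, LinearMap.det (g : (W →ₗ[F] E) →ₗ[F] (W →ₗ[F] E)) = 1
  tB : ∀ b e : W, QW b = 0 → polar QW b e = 0 → ∃ s ∈ M, ∀ v, s v = SgV QW b e v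
  tA : ∀ a e : E, QE a = 0 → polar QE a e = 0 → ∃ s ∈ M, ∀ v : W →ₗ[F] E, s v = (siegMap QE a e) ∘ₗ v

/-- being a pair -/
def Pr (g : (W →ₗ[F] E) ≃ₗ[F] (W →ₗ[F] E)) : Prop := ∃ (p : E ≃ₗ[F] E) (q : W ≃ₗ[F] W), g = ac p q

/-- the root group of `b` -/
def XB (QW : QuadraticForm F W) (b : W) (x : (W →ₗ[F] E) ≃ₗ[F] (W →ₗ[F] E)) : Prop :=
  ∃ e, polar QW b e = 0 ∧ ∀ v, x v = SgV QW b e v

/-- a non-trivial Siegel map with non-singular second vector -/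
def Sg {X : Type*} [AddCommGroup X] [Module F X] (Q : QuadraticForm F X) (a f : X) (g : X ≃ₗ[F] X) : Prop :=
  Q a = 0 ∧ a ≠ 0 ∧ polar Q a f = 0 ∧ Q f ≠ 0 ∧ ∀ x, g x = siegMap Q a f x

/-- an involution of `SO(E)` -/
def Zt (QE : QuadraticForm F E) (p : E ≃ₗ[F] E) : Prop :=
  p ∈ O QE ∧ p * p = 1 ∧ p ≠ 1 ∧ LinearMap.det (p : E →ₗ[F] E) = 1

theorem pr_mul (p p' : E ≃ₗ[F] E) (q q' : W ≃ₗ[F] W) : ac p q * ac p' q' = ac (p * p') (q * q') := rfl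

theorem pr_one : (ac (1 : E ≃ₗ[F] E) (1 : W ≃ₗ[F] W)) = 1 := rfl

theorem pr_inv (p : E ≃ₗ[F] E) (q : W ≃ₗ[F] W) : (ac p q)⁻¹ = ac p⁻¹ q⁻¹ := by
  rw [inv_eq_iff_mul_eq_one, pr_mul, mul_inv_cancel, mul_inv_cancel, pr_one]

theorem pr_pow (p : E ≃ₗ[F] E) (q : W ≃ₗ[F] W) (n : ℕ) : (ac p q) ^ n = ac (p ^ n) (q ^ n) := by
  induction n with
  | zero => rfl
  | succ n ih => rw [pow_succ, ih, pr_mul, ← pow_succ, ← pow_succ]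

/-- the pairs of `M` -/
def NN (M : Subgroup ((W →ₗ[F] E) ≃ₗ[F] (W →ₗ[F] E))) : Subgroup ((W →ₗ[F] E) ≃ₗ[F] (W →ₗ[F] E)) where
  carrier := {g | g ∈ M ∧ Pr g}
  mul_mem' := by
    rintro _ _ ⟨h, p, q, rfl⟩ ⟨h', p', q', rfl⟩
    exact ⟨M.mul_mem h h', p * p', q * q', rfl⟩
  one_mem' := ⟨M.one_mem, 1, 1, rfl⟩
  inv_mem' := by
    rintro _ ⟨h, p, q, rfl⟩
    exact ⟨M.inv_mem h, p⁻¹, q⁻¹, pr_inv p q⟩

theorem mem_NN {M : Subgroup ((W →ₗ[F] E) ≃ₗ[F] (W →ₗ[F] E))} {g : (W →ₗ[F] E) ≃ₗ[F] (W →ₗ[F] E)} :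
    g ∈ NN M ↔ g ∈ M ∧ Pr g := Iff.rfl

theorem NN_le (M : Subgroup ((W →ₗ[F] E) ≃ₗ[F] (W →ₗ[F] E))) : NN M ≤ M := fun _ h => h.1

/-- the root elements are pairs -/
theorem SgV_eq (QW : QuadraticForm F W) (b e : W) (v : W →ₗ[F] E) : SgV QW b e v = v ∘ₗ siegMap QW (-b) e := by
  ext w
  simp only [SgV, LinearMap.sub_apply, LinearMap.add_apply, tb_apply, LinearMap.smul_apply, LinearMap.comp_apply,
    siegMap_apply, map_add, map_sub, map_smul, map_neg, polar_neg_left, smul_smul, smul_neg, neg_smul, mul_neg, neg_neg]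
  module

end Cfsg.Agent.Lib.TenW4
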