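import Cfsg.Agent.Lib.OrthList2H94
import Cfsg.Agent.Lib.OrthNdBridge

/-!
# S5873: the assembly, with part (11) and part (8) for `q = 2` as hypotheses (helper10)
-/

set_option autoImplicit false
set_option linter.all false

namespace Cfsg.Agent.Lib.TenW4_AS

open Cfsg
open Cfsg.Agent.Lib.Quad Cfsg.Agent.Lib.OrthBridge Cfsg.Agent.Lib.OrthNdBridge Cfsg.Agent.Lib.OrthNd
  Cfsg.Agent.Lib.GeoBridge Cfsg.Agent.Lib.FldOH94 Cfsg.Agent.Lib Cfsg.Agent.Lib.Dk2H94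

theorem all {F : Type*} [Field F] [Fintype F] (Q : (Fin 12 → F) → F) (hQ : Cfsg.Geo.IsNondegenerateQuadraticForm Q) (hminus : ¬ Cfsg.Geo.IsPlusTypeOn Q ⊤)
    (h8 : Fintype.card F = 2 → ∀ D : Fin 3 → Submodule F (Fin 12 → F), Cfsg.Geo.IsOrthogonalMDecomposition Q 4 D → (∀ i, ¬ Cfsg.Geo.IsPlusTypeOn Q (D i)) → Cfsg.Geo.IsMaximalIn (Cfsg.Geo.omegaGL Q) (Cfsg.Geo.decompositionStabilizer D ⊓ Cfsg.Geo.omegaGL Q))
    (h11 : (Odd (Fintype.card F) ∧ 5 ≤ Fintype.card F → ∀ (e : Fin 12 ≃ Fin 3 × Fin 4) (P : Matrix.GeneralLinearGroup (Fin 12) F) (f₁ : (Fin 3 → F) → (Fin 3 → F) → F) (f₂ : (Fin 4 → F) → (Fin 4 → F) → F), Cfsg.Geo.IsSymmetricForm f₁ → Cfsg.Geo.IsSymmetricForm f₂ → ¬ Cfsg.Geo.IsPlusTypeOn (fun v : Fin 4 → F => f₂ v v) ⊤ → Cfsg.Geo.IsTensorFormStructure id (QuadraticMap.polar Q) f₁ f₂ e P → Cfsg.Geo.IsMaximalIn (Cfsg.Geo.omegaGL Q) (Cfsg.Geo.tensorProductSubgroup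 3 4 e P ⊓ Cfsg.Geo.omegaGL Q))) :

    (∀ W : Submodule F (Fin 12 → F), W ≠ ⊥ → Cfsg.Geo.IsTotallySingularQuad Q W → Cfsg.Geo.IsMaximalIn (Cfsg.Geo.omegaGL Q) (Cfsg.Geo.subspaceStabilizer W ⊓ Cfsg.Geo.omegaGL Q)) ∧
    (Odd (Fintype.card F) → ∀ W : Submodule F (Fin 12 → F), W ≠ ⊥ → W ≠ ⊤ → Odd (Module.finrank F W) → 2 * Module.finrank F W ≠ 12 → Cfsg.Geo.IsNondegenerateOn (QuadraticMap.polar Q) W → Cfsg.Geo.IsMaximalIn (Cfsg.Geo.omegaGL Q) (Cfsg.Geo.subspaceStabilizer W ⊓ Cfsg.Geo.omegaGL Q)) ∧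
    (∀ W : Submodule F (Fin 12 → F), Module.finrank F W = 2 → Cfsg.Geo.IsNondegenerateOn (QuadraticMap.polar Q) W → ¬ Cfsg.Geo.IsPlusTypeOn Q W → Cfsg.Geo.IsMaximalIn (Cfsg.Geo.omegaGL Q) (Cfsg.Geo.subspaceStabilizer W ⊓ Cfsg.Geo.omegaGL Q)) ∧
    (4 ≤ Fintype.card F → ∀ W : Submodule F (Fin 12 → F), Module.finrank F W = 2 → Cfsg.Geo.IsNondegenerateOn (QuadraticMap.polar Q) W → Cfsg.Geo.IsPlusTypeOn Q W → Cfsg.Geo.IsMaximalIn (Cfsg.Geo.omegaGL Q) (Cfsg.Geo.subspaceStabilizer W ⊓ Cfsg.Geo.omegaGL Q)) ∧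
    (∀ W : Submodule F (Fin 12 → F), Module.finrank F W = 4 → Cfsg.Geo.IsNondegenerateOn (QuadraticMap.polar Q) W → Cfsg.Geo.IsMaximalIn (Cfsg.Geo.omegaGL Q) (Cfsg.Geo.subspaceStabilizer W ⊓ Cfsg.Geo.omegaGL Q)) ∧
    (∀ W : Submodule F (Fin 12 → F), Module.finrank F W = 6 → Cfsg.Geo.IsNondegenerateOn (QuadraticMap.polar Q) W → Cfsg.Geo.IsMaximalIn (Cfsg.Geo.omegaGL Q) (Cfsg.Geo.subspaceStabilizer W ⊓ Cfsg.Geo.omegaGL Q)) ∧
    (¬ Odd (Fintype.card F) → ∀ v : (Fin 12 → F), Q v ≠ 0 → Cfsg.Geo.IsMaximalIn (Cfsg.Geo.omegaGL Q) (Cfsg.Geo.subspaceStabilizer (Submodule.span F {v}) ⊓ Cfsg.Geo.omegaGL Q)) ∧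
    (∀ D : Fin 3 → Submodule F (Fin 12 → F), Cfsg.Geo.IsOrthogonalMDecomposition Q 4 D → (∀ i, ¬ Cfsg.Geo.IsPlusTypeOn Q (D i)) → Cfsg.Geo.IsMaximalIn (Cfsg.Geo.omegaGL Q) (Cfsg.Geo.decompositionStabilizer D ⊓ Cfsg.Geo.omegaGL Q)) ∧
    (Odd (Fintype.card F) → ∀ K : Subalgebra F (Matrix (Fin 12) (Fin 12) F), Cfsg.Geo.IsFieldSubalgebra 2 K → Cfsg.Geo.IsSelfAdjointFor (QuadraticMap.polar Q) K → Cfsg.Geo.IsMaximalIn (Cfsg.Geo.omegaGL Q) (Cfsg.Geo.subalgebraNormalizer K ⊓ Cfsg.Geo.omegaGL Q)) ∧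
    (Odd (Fintype.card F) → ∀ K : Subalgebra F (Matrix (Fin 12) (Fin 12) F), Cfsg.Geo.IsFieldSubalgebra 3 K → Cfsg.Geo.IsSelfAdjointFor (QuadraticMap.polar Q) K → Cfsg.Geo.IsMaximalIn (Cfsg.Geo.omegaGL Q) (Cfsg.Geo.subalgebraNormalizer K ⊓ Cfsg.Geo.omegaGL Q)) ∧
    (Odd (Fintype.card F) ∧ 5 ≤ Fintype.card F → ∀ (e : Fin 12 ≃ Fin 3 × Fin 4) (P : Matrix.GeneralLinearGroup (Fin 12) F) (f₁ : (Fin 3 → F) → (Fin 3 → F) → F) (f₂ : (Fin 4 → F) → (Fin 4 → F) → F), Cfsg.Geo.IsSymmetricForm f₁ → Cfsg.Geo.IsSymmetricForm f₂ → ¬ Cfsg.Geo.IsPlusTypeOn (fun v : Fin 4 → F => f₂ v v) ⊤ → Cfsg.Geo.IsTensorFormStructure id (QuadraticMap.polar Q) f₁ f₂ e P → Cfsg.Geo.IsMaximalIn (Cfsg.Geo.omegaGL Q) (Cfsg.Geo.tensorProductSubgroup 3 4 e P ⊓ Cfsg.Geo.omegaGL Q)) ∧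
    (∀ (F₀ : Subfield F) (r : ℕ) (P : Matrix.GeneralLinearGroup (Fin 12) F) (ζ : F), r.Prime → Odd r → Fintype.card F = Nat.card F₀ ^ r → ζ ≠ 0 → Cfsg.Geo.IsQuadFormRationalStructure (fun v : Fin 12 → F => ζ * Q v) F₀ P → Cfsg.Geo.IsMaximalIn (Cfsg.Geo.omegaGL Q) (Cfsg.Geo.subfieldSubgroup F₀ P ⊓ Cfsg.Geo.omegaGL Q)) := by
  have hnd := nd_qf hQ
  have hfr : Module.finrank F (Fin 12 → F) = 12 := Module.finrank_fin_fun F
  refine ⟨?_, ?_, ?_, ?_, ?_, ?_, ?_, ?_, ?_, ?_, h11, ?_⟩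
  · intro W hW0 hW
    exact OrthListH94.ts hQ (by omega) hW0 hW (Or.inl hminus)
  · intro hodd W hW0 hW1 hWo hne hWn
    obtain ⟨k, hk⟩ := hWo
    exact OrthListH94.nd_any hQ (by omega) hW0 hW1 hWn hne (by omega) (by omega)
  · intro W hW2 hWn hWan
    exact OrthListH94.nd_two hQ (by omega) hW2 hWn (Or.inr hWan)
  · intro h4 W hW2 hWn _
    exact OrthListH94.nd_two hQ (by omega) hW2 hWn (Or.inl h4)
  · intro W hW4 hWn
    exact OrthListH94.nd_four hQ (by omega) hW4 hWn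
  · intro W hW6 hWn
    have hW := nds_of_nondeg (Q := qf hQ) hWn
    have hd := hnd.finrank_add_finrank_perp W
    rw [hfr] at hd
    refine OrthListH94.nd_max hQ (by omega) ?_ ?_ hW (by omega) ?_ (fun h => by omega)
    · rintro rfl; rw [finrank_bot] at hW6; omega
    · rintro rfl; rw [finrank_top] at hW6; omega
    · intro g hg hgw
      have hle' : (perp (qf hQ) W).map g.toLinearMap ≤ W := by
        rintro _ ⟨x, hx, rfl⟩; exact hgw x hx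
      have h3 : Module.finrank F ((perp (qf hQ) W).map g.toLinearMap) = Module.finrank F (perp (qf hQ) W) :=
        LinearEquiv.finrank_map_eq g _
      have h4 : (perp (qf hQ) W).map g.toLinearMap = W :=
        Submodule.eq_of_le_of_finrank_eq hle' (by rw [h3]; omega)
      have h5 : W.map (g⁻¹).toLinearMap = perp (qf hQ) W := by
        apply le_antisymm
        · rintro _ ⟨w, hw, rfl⟩
          rw [← h4] at hw
          obtain ⟨x, hx, rfl⟩ := hw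
          have : (g⁻¹).toLinearMap (g.toLinearMap x) = x := g.symm_apply_apply x
          rw [this]
          exact hx
        · intro x hx
          exact ⟨g x, hgw x hx, g.symm_apply_apply x⟩
      have hev : Even (Module.finrank F W) := by rw [hW6]; decide
      obtain ⟨U, hU, hUd⟩ := plus_of_swap hnd hW hev (inv_mem (Om_le hg)) h5
      exact hminus ⟨U, le_top, hU, by rw [finrank_top]; exact hUd⟩
  · intro _ v hv
    exact OrthListH94.point hQ (by omega) hv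
  · intro D hD hm
    by_cases h2 : Fintype.card F = 2
    · exact h8 h2 D hD hm
    · exact dk_bridge_low (Q := qf hQ) hnd (by omega) (by omega) (fun h => by omega) hD (fun h => absurd h (by decide))
        (fun h => by omega) (fun h => by omega) (fun h => by omega) (fun _ => h2)
  · intro hodd K hK hsa
    have h2 : (2 : F) ≠ 0 := two_ne_zero_of_odd rfl hodd
    have : Nonempty (Fin 12) := ⟨⟨0, by omega⟩⟩
    exact matrix_main (Q := qf hQ) hnd h2 Nat.prime_two (by rw [Fintype.card_fin]; omega) hK hsa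
  · intro hodd K hK hsa
    have h2 : (2 : F) ≠ 0 := two_ne_zero_of_odd rfl hodd
    have : Nonempty (Fin 12) := ⟨⟨0, by omega⟩⟩
    exact matrix_main (Q := qf hQ) hnd h2 Nat.prime_three (by rw [Fintype.card_fin]) hK hsa
  · intro F₀ r P ζ hr _ hcard hζ hP
    exact LowOrBridge.subf_gen (by rw [Fintype.card_fin]; omega) (qf hQ) hnd F₀ r hr hcard P ζ hζ
      (fun u hu => hP u hu)

end Cfsg.Agent.Lib.TenW4_AS
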