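import Cfsg.Agent.Lib.TenW40
import Cfsg.Agent.Lib.TenOO_L
import Cfsg.Agent.Lib.OrthDecH94

/-!
# Piece EX: an involution of the first factor (helper92)
-/

set_option autoImplicit false
set_option linter.unusedSectionVars false
set_option linter.unusedVariables false
set_option linter.unusedSimpArgs false

namespace Cfsg.Agent.Lib.TenW4_EX

open QuadraticMap Module Cfsg.Agent.Lib.Quad Cfsg.Agent.Lib.OrthMax Cfsg.Agent.Lib.OrthNd Cfsg.Agent.Lib.TenSLH94
  Cfsg.Agent.Lib.TenOO Cfsg.Agent.Lib.TenW4

variable {F E W : Type*} [Field F] [AddCommGroup E] [Module F E] [FiniteDimensional F E]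
  [AddCommGroup W] [Module F W] [FiniteDimensional F W] [Finite F]
  {QE : QuadraticForm F E} {QW : QuadraticForm F W} {Q : QuadraticForm F (W →ₗ[F] E)}
  {M : Subgroup ((W →ₗ[F] E) ≃ₗ[F] (W →ₗ[F] E))}

/-- a hyperbolic pair and a vector orthogonal to it, as a basis -/
theorem frame (hQ : Nd QE) (hE3 : finrank F E = 3) (h2 : (2 : F) ≠ 0) :
    ∃ (a b f : E) (B : Basis (Fin 3) F E), B 0 = a ∧ B 1 = f ∧ B 2 = b ∧ QE a = 0 ∧ QE b = 0 ∧ polar QE a b = 1 ∧
      polar QE a f = 0 ∧ polar QE b f = 0 ∧ QE f ≠ 0 := by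
  obtain ⟨a, -, b, -, ha, hb, hab⟩ := exists_pair_in hQ (Cfsg.Agent.Lib.TenOO_L.nds_top hQ)
    (by rw [finrank_top]; omega)
  have h1 := finrank_cut hQ (⊤ : Submodule F E) a b
  rw [finrank_top] at h1
  obtain ⟨f, hf, hQf⟩ := Cfsg.Agent.Lib.OrthDecH94.exists_nonsing
    (nds_cut hQ (Cfsg.Agent.Lib.TenOO_L.nds_top hQ) trivial trivial ha hb hab) (by omega)
  have haf : polar QE a f = 0 := (mem_cut.1 hf).2.1
  have hbf : polar QE b f = 0 := (mem_cut.1 hf).2.2
  have hli : LinearIndependent F ![a, f, b] := by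
    rw [Fintype.linearIndependent_iff]
    intro g hg
    rw [Fin.sum_univ_three] at hg
    simp only [Matrix.cons_val_zero, Matrix.cons_val_one, Matrix.cons_val_two, Matrix.head_cons, Matrix.tail_cons,
      Matrix.cons_val] at hg
    have hba : polar QE b a = 1 := by rw [polar_comm]; exact hab
    have hfa : polar QE f a = 0 := by rw [polar_comm]; exact haf
    have hfb : polar QE f b = 0 := by rw [polar_comm]; exact hbf
    have g0 : g 0 = 0 := by
      have := congrArg (fun x => polar QE b x) hg
      simpa [polar_add_right, polar_smul_right, hba, hbf, polar_self', hb] using this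
    have g2 : g 2 = 0 := by
      have := congrArg (fun x => polar QE a x) hg
      simpa [polar_add_right, polar_smul_right, hab, haf, polar_self', ha] using this
    have g1 : g 1 = 0 := by
      have := congrArg (fun x => polar QE f x) hg
      simp [polar_add_right, polar_smul_right, hfa, hfb, polar_self', h2, hQf] at this
      exact this
    intro i
    fin_cases i
    · exact g0
    · exact g1
    · exact g2
  let B : Basis (Fin 3) F E := basisOfLinearIndependentOfCardEqFinrank hli (by rw [hE3]; simp)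
  have hB : ∀ i, B i = ![a, f, b] i := fun i => by
    rw [coe_basisOfLinearIndependentOfCardEqFinrank]
  exact ⟨a, b, f, B, hB 0, hB 1, hB 2, ha, hb, hab, haf, hbf, hQf⟩

theorem ex (T : T4 QE QW Q M) : ∃ p : E ≃ₗ[F] E, Zt QE p ∧ ac p (1 : W ≃ₗ[F] W) ∈ M := by
  obtain ⟨a, b, f, B, hB0, hB1, hB2, ha, hb, hab, haf, hbf, hQf⟩ := frame T.ndE T.hE3 T.h2
  have hba : polar QE b a = 1 := by rw [polar_comm]; exact hab
  have hfa : polar QE f a = 0 := by rw [polar_comm]; exact haf
  have hfb : polar QE f b = 0 := by rw [polar_comm]; exact hbf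
  obtain ⟨s1, hs1, h1⟩ := T.tA a f ha haf
  obtain ⟨s2, hs2, h2⟩ := T.tA b ((QE f)⁻¹ • f) hb (by rw [polar_smul_right, hbf, smul_zero])
  obtain ⟨e, he⟩ : ∃ e, e = QE f • a - b := ⟨_, rfl⟩
  have hQe : QE e = - QE f := by
    rw [he, Q_sub, Q_smul, ha, hb, polar_smul_left, hab]; simp
  have hQe0 : QE e ≠ 0 := by rw [hQe]; exact neg_ne_zero.2 hQf
  let p : E ≃ₗ[F] E := (refl QE e).trans (LinearEquiv.neg F)
  have hp : ∀ x, p x = -x + ((QE e)⁻¹ * polar QE e x) • e := by
    intro x
    show -(refl QE e x) = _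
    rw [refl_apply hQe0]; abel
  have ea : polar QE e a = -1 := by
    rw [he, polar_sub_left, polar_smul_left, hba, polar_self', ha]; simp
  have ef : polar QE e f = 0 := by
    rw [he, polar_sub_left, polar_smul_left, haf, hbf]; simp
  have eb : polar QE e b = QE f := by
    rw [he, polar_sub_left, polar_smul_left, hab, polar_self', hb]; simp
  have pa : p a = -((QE f)⁻¹ • b) := by
    rw [hp, ea, hQe, he, smul_sub, smul_smul]
    have : (-QE f)⁻¹ * -1 * QE f = 1 := by field_simp
    rw [this, one_smul]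
    have : (-QE f)⁻¹ * -1 = (QE f)⁻¹ := by field_simp
    rw [this]; abel
  have pf : p f = -f := by rw [hp, ef]; simp
  have pb : p b = -(QE f • a) := by
    rw [hp, eb, hQe, he, smul_sub, smul_smul]
    have : (-QE f)⁻¹ * QE f = -1 := by field_simp
    rw [this]
    match_scalars <;> ring
  refine ⟨p, ⟨?_, ?_, ?_, ?_⟩, ?_⟩
  · intro x
    show QE (-(refl QE e x)) = QE x
    rw [QuadraticMap.map_neg]
    exact refl_mem e x
  · apply LinearEquiv.ext
    intro x
    show -(refl QE e (-(refl QE e x))) = x
    rw [map_neg, neg_neg, refl_refl]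
  · intro h
    have : p f = f := by rw [h]; rfl
    rw [pf] at this
    have h3 : (2 : F) • f = 0 := by
      rw [two_smul]
      nth_rw 1 [← this]
      abel
    rcases smul_eq_zero.1 h3 with h4 | h4
    · exact T.h2 h4
    · apply hQf; rw [h4, QuadraticMap.map_zero]
  · have h3 : (p : E →ₗ[F] E) = Matrix.toLin B B !![0, 0, -QE f; 0, -1, 0; -(QE f)⁻¹, 0, 0] := by
      apply B.ext
      intro i
      rw [Matrix.toLin_self, Fin.sum_univ_three, hB0, hB1, hB2]
      fin_cases i
      · simp only [Fin.zero_eta, hB0, LinearEquiv.coe_coe, pa]; simp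
      · simp only [Fin.mk_one, hB1, LinearEquiv.coe_coe, pf]; simp
      · simp only [Fin.reduceFinMk, hB2, LinearEquiv.coe_coe, pb]; simp
    rw [h3, LinearMap.det_toLin, Matrix.det_fin_three]
    simp
    field_simp
  · have h3 : (siegMap QE a f) ∘ₗ (siegMap QE b ((QE f)⁻¹ • f)) ∘ₗ (siegMap QE a f) = (p : E →ₗ[F] E) := by
      apply B.ext
      intro i
      have S1a : siegMap QE a f a = a := by
        rw [siegMap_apply, hfa, polar_self', ha]; simp
      have S1f : siegMap QE a f f = f - (2 * QE f) • a := by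
        rw [siegMap_apply, haf, polar_self']; simp
      have S1b : siegMap QE a f b = b + f - QE f • a := by
        rw [siegMap_apply, hab, hfb]; simp
      have hQy : QE ((QE f)⁻¹ • f) = (QE f)⁻¹ := by
        rw [Q_smul]; field_simp
      have S2b : siegMap QE b ((QE f)⁻¹ • f) b = b := by
        rw [siegMap_apply, polar_smul_left, hfb, polar_self', hb]; simp
      have S2f : siegMap QE b ((QE f)⁻¹ • f) f = f - (2 : F) • b := by
        rw [siegMap_apply, polar_smul_left, hbf, polar_self', smul_eq_mul]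
        have : (QE f)⁻¹ * (2 * QE f) = 2 := by field_simp
        rw [this]; simp
      have S2a : siegMap QE b ((QE f)⁻¹ • f) a = a + (QE f)⁻¹ • f - (QE f)⁻¹ • b := by
        rw [siegMap_apply, polar_smul_left, hfa, hba, hQy]; simp
      fin_cases i
      · simp only [Fin.zero_eta, hB0, LinearEquiv.coe_coe, pa, LinearMap.comp_apply, S1a, S2a, map_add, map_sub,
          map_smul, S1f, S1b]
        match_scalars <;> field_simp <;> ring
      · simp only [Fin.mk_one, hB1, LinearEquiv.coe_coe, pf, LinearMap.comp_apply, S1a, S2a, S2f, S2b, map_add,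
          map_sub, map_smul, S1f, S1b]
        match_scalars <;> field_simp <;> ring
      · simp only [Fin.reduceFinMk, hB2, LinearEquiv.coe_coe, pb, LinearMap.comp_apply, S1a, S2a, S2f, S2b, map_add,
          map_sub, map_smul, S1f, S1b]
        match_scalars <;> field_simp <;> ring
    have h4 : ac p (1 : W ≃ₗ[F] W) = s1 * s2 * s1 := by
      apply LinearEquiv.ext
      intro v
      show _ = s1 (s2 (s1 v))
      rw [h1, h2, h1]
      apply LinearMap.ext
      intro w
      rw [ac_apply]
      have := LinearMap.congr_fun h3 (v w)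
      exact this.symm
    rw [h4]
    exact M.mul_mem (M.mul_mem hs1 hs2) hs1

end Cfsg.Agent.Lib.TenW4_EX
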