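import Cfsg.Agent.Lib.TenW40
import Cfsg.Agent.Lib.TenSpH94
import Cfsg.Agent.Lib.TenOO_L

/-!
# Overgroups of `O_3 ⊗ O_4⁻`: piece FF (helper10; the proofs are those of the pieces A1a of helper92 and A1b of helper10
with `T4` in place of `TO`)
-/

set_option autoImplicit false
set_option linter.all false

namespace Cfsg.Agent.Lib.TenW4_FF

open QuadraticMap Module Cfsg.Agent.Lib.Quad Cfsg.Agent.Lib.OrthMax Cfsg.Agent.Lib.OrthNd Cfsg.Agent.Lib.TenSLH94
  Cfsg.Agent.Lib.TenOO Cfsg.Agent.Lib.TenW4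

section ofA

variable {F E W : Type*} [Field F] [AddCommGroup E] [Module F E] [FiniteDimensional F E]
  [AddCommGroup W] [Module F W] [FiniteDimensional F W]
  {QE : QuadraticForm F E} {QW : QuadraticForm F W} {Q : QuadraticForm F (W →ₗ[F] E)}
  {M : Subgroup ((W →ₗ[F] E) ≃ₗ[F] (W →ₗ[F] E))}

theorem tb_add (x y : E) (b : W) : tb QW (x + y) b = tb QW x b + tb QW y b := by
  ext w; simp only [tb_apply, LinearMap.add_apply, smul_add]
theorem tb_smul (c : F) (x : E) (b : W) : tb QW (c • x) b = c • tb QW x b := by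
  ext w; simp only [tb_apply, LinearMap.smul_apply, smul_comm c]
theorem tb_smul' (c : F) (x : E) (b : W) : tb QW x (c • b) = c • tb QW x b := by
  ext w; simp only [tb_apply, LinearMap.smul_apply, polar_smul_left, smul_smul, smul_eq_mul]
theorem tb_zero (b : W) : tb QW (0 : E) b = 0 := by
  ext w; simp only [tb_apply, LinearMap.zero_apply, smul_zero]
theorem tb_neg (x : E) (b : W) : tb QW (-x) b = - tb QW x b := by
  ext w; simp only [tb_apply, LinearMap.neg_apply, smul_neg]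
theorem tb_sub (x y : E) (b : W) : tb QW (x - y) b = tb QW x b - tb QW y b := by
  ext w; simp only [tb_apply, LinearMap.sub_apply, smul_sub]

theorem tb_inj (hQ : Nd QW) {b : W} (hb : b ≠ 0) {x y : E} (h : tb QW x b = tb QW y b) : x = y := by
  obtain ⟨w, hw⟩ := hQ.exists_polar_one' hb
  have := LinearMap.congr_fun h w
  simpa [tb_apply, hw] using this

theorem spanb (hQ : Nd QW) {b : W} {N : Submodule F (W →ₗ[F] E)} (h : ∀ (x : E) (e : W), polar QW b e = 0 → tb QW x e ∈ N)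
    {v : W →ₗ[F] E} (hv : v b = 0) : v ∈ N := by
  apply TenSpH94.span_perp _ hv
  intro x ψ hψ
  obtain ⟨e, he⟩ := TenSpH94.rep_of (β := polarBilin QW) (fun x hx => hQ.eq_zero hx) ψ
  have h1 : polar QW b e = 0 := by
    rw [polar_comm]
    have : ψ b = polar QW e b := by rw [he]; rfl
    rw [← this, hψ]
  rw [he]
  exact h x e h1

theorem comp_tb (S : E →ₗ[F] E) (x : E) (b : W) : S ∘ₗ (tb QW x b) = tb QW (S x) b := by
  ext w; simp only [tb_apply, LinearMap.comp_apply, map_smul]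

theorem exists_nonsing (h3 : 3 ≤ finrank F E) (hQ : Nd QE) : ∃ y, QE y ≠ 0 := by
  by_contra hcon
  push Not at hcon
  haveI : Nontrivial E := finrank_pos_iff.mp (by omega : 0 < finrank F E)
  obtain ⟨x, hx⟩ := exists_ne (0 : E)
  obtain ⟨z, hz⟩ := hQ.exists_polar_one' hx
  rw [polar, hcon, hcon, hcon] at hz
  simp at hz

section one
variable (T : T4 QE QW Q M) {g : (W →ₗ[F] E) ≃ₗ[F] (W →ₗ[F] E)} (hg : g ∈ M) {b b' : W}
  (A : E ≃ₗ[F] E) (hA : ∀ x, g (tb QW x b) = tb QW (A x) b')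
include T hg hA

theorem F1 (v : W →ₗ[F] E) (x : E) : polar QE ((g v) b') (A x) = polar QE (v b) x := by
  rw [← T.pol, ← T.pol, ← hA, O_polar (T.hM hg)]

theorem zero_iff (v : W →ₗ[F] E) : (g v) b' = 0 ↔ v b = 0 := by
  constructor
  · intro h
    apply T.ndE.eq_zero
    intro x
    rw [← F1 T hg A hA, h, polar_zero_left]
  · intro h
    apply T.ndE.eq_zero
    intro y
    have h1 := F1 T hg A hA v (A.symm y)
    rw [A.apply_symm_apply, h, polar_zero_left] at h1
    exact h1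

/-- the image of a Siegel element -/
theorem exists_c (hII : II QW M) (hQb : QW b = 0) (hb' : b' ≠ 0) (hQb' : QW b' = 0) (e : W) (he : polar QW b e = 0) :
    ∃ c : W, polar QW b' c = 0 ∧ (∀ u : W →ₗ[F] E, u b = 0 → (g u) c = A (u e)) ∧
      ∀ v : W →ₗ[F] E, g (tb QW (v b) e) = tb QW ((g v) b') c +
        tb QW (A (v e) + QW e • A (v b) - (g v) c - QW c • (g v) b') b' := by
  obtain ⟨s, hs, hsv⟩ := T.tB b e hQb he
  have hK : g * s * g⁻¹ ∈ M := M.mul_mem (M.mul_mem hg hs) (M.inv_mem hg)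
  have hKv : ∀ v, (g * s * g⁻¹) (g v) = g (s v) := by
    intro v
    change g (s (g⁻¹ (g v))) = _
    congr 2
    exact g.symm_apply_apply v
  have hbb : polar QW b b = 0 := by rw [polar_self', hQb, mul_zero]
  have hb2 : polar QW b' b' = 0 := by rw [polar_self', hQb', mul_zero]
  have hgs : ∀ v, g (s v) = g v + g (tb QW (v b) e) - tb QW (A (v e)) b' - QW e • tb QW (A (v b)) b' := by
    intro v
    rw [hsv, SgV, map_sub, map_sub, map_add, map_smul, hA, hA]
  have hTv : Tv QW b' (g * s * g⁻¹) := by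
    constructor
    · intro a
      have h1 : tb QW a b' = g (tb QW (A.symm a) b) := by rw [hA, A.apply_symm_apply]
      have h2 : (tb QW (A.symm a) b : W →ₗ[F] E) b = 0 := by rw [tb_apply, hbb, zero_smul]
      have h3 : (tb QW (A.symm a) b : W →ₗ[F] E) e = 0 := by rw [tb_apply, he, zero_smul]
      rw [h1, hKv, hgs, h2, h3, tb_zero, map_zero, map_zero, tb_zero, smul_zero, add_zero, sub_zero, sub_zero]
    · intro v hv
      obtain ⟨u, rfl⟩ := g.surjective v
      have hu : u b = 0 := (zero_iff T hg A hA u).mp hv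
      refine ⟨-(A (u e)), ?_⟩
      rw [hKv, hgs, hu, tb_zero, map_zero, map_zero, tb_zero, smul_zero, add_zero, sub_zero, tb_neg]
      abel
  obtain ⟨c, hc, hcv⟩ := hII b' hb' hQb' _ hK hTv
  have key : ∀ v : W →ₗ[F] E, g v + g (tb QW (v b) e) - tb QW (A (v e)) b' - QW e • tb QW (A (v b)) b' =
      g v + tb QW ((g v) b') c - tb QW ((g v) c) b' - QW c • tb QW ((g v) b') b' := by
    intro v
    rw [← hgs, ← hKv, hcv, SgV]
  refine ⟨c, hc, ?_, ?_⟩
  · intro u hu
    have h1 := key u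
    rw [hu, (zero_iff T hg A hA u).mpr hu] at h1
    simp only [map_zero, tb_zero, smul_zero, add_zero, sub_zero] at h1
    exact (tb_inj T.ndW hb' (sub_right_injective h1)).symm
  · intro v
    have h1 := key v
    rw [tb_sub, tb_sub, tb_add, tb_smul, tb_smul]
    have h2 : g (tb QW (v b) e) = (g v + g (tb QW (v b) e) - tb QW (A (v e)) b' - QW e • tb QW (A (v b)) b') - g v +
      tb QW (A (v e)) b' + QW e • tb QW (A (v b)) b' := by abel
    rw [h2, h1]
    abel

/-- the multiplier -/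
theorem exists_k (hII : II QW M) (hb : b ≠ 0) (hQb : QW b = 0) (hb' : b' ≠ 0) (hQb' : QW b' = 0) :
    ∃ k : F, k ≠ 0 ∧ (∀ v : W →ₗ[F] E, A (v b) = k • (g v) b') ∧ ∀ x y, polar QE (A x) (A y) = k * polar QE x y := by
  -- vectors e, w orthogonal to b with product 1
  have hex : ∃ e w : W, polar QW b e = 0 ∧ polar QW b w = 0 ∧ polar QW e w = 1 := by
    have hf1 : finrank F (F ∙ b : Submodule F W) = 1 := finrank_span_singleton hb
    have hlt : ∃ e ∈ perp QW (F ∙ b), e ∉ (F ∙ b : Submodule F W) := by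
      by_contra hcon
      push Not at hcon
      have h1 : perp QW (F ∙ b) ≤ (F ∙ b : Submodule F W) := hcon
      have h2 := Submodule.finrank_mono h1
      have h3 := T.ndW.finrank_add_finrank_perp (F ∙ b)
      have := T.hW
      omega
    obtain ⟨e, he, heb⟩ := hlt
    obtain ⟨w, hw, hew⟩ := T.ndW.exists_polar_one (F ∙ b) heb
    exact ⟨e, w, mem_perp_singleton.mp he, mem_perp_singleton.mp hw, hew⟩
  obtain ⟨e, w, he, hw, hew⟩ := hex
  obtain ⟨ce, hce, -, hce2⟩ := exists_c T hg A hA hII hQb hb' hQb' e he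
  obtain ⟨cw, hcw, hcw1, -⟩ := exists_c T hg A hA hII hQb hb' hQb' w hw
  have hk : ∀ v : W →ₗ[F] E, A (v b) = polar QW ce cw • (g v) b' := by
    intro v
    have h1 := hcw1 (tb QW (v b) e) (by rw [tb_apply, polar_comm, he, zero_smul])
    rw [tb_apply, hew, one_smul] at h1
    rw [← h1, hce2 v, LinearMap.add_apply, tb_apply, tb_apply, hcw, zero_smul, add_zero]
  obtain ⟨b1, hb1⟩ := T.ndW.exists_polar_one' hb
  have hv : ∀ x : E, (tb QW x b1 : W →ₗ[F] E) b = x := by
    intro x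
    rw [tb_apply, polar_comm, hb1, one_smul]
  refine ⟨polar QW ce cw, ?_, hk, ?_⟩
  · intro h0
    haveI : Nontrivial E := finrank_pos_iff.mp (by have := T.hE; omega : 0 < finrank F E)
    obtain ⟨x, hx⟩ := exists_ne (0 : E)
    have h1 := hk (tb QW x b1)
    rw [h0, zero_smul, hv] at h1
    exact hx (by simpa using h1)
  · intro x y
    have h1 := hk (tb QW x b1)
    rw [hv] at h1
    rw [h1, polar_smul_left, F1 T hg A hA, hv, smul_eq_mul]

/-- the images of the tensors -/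
theorem exists_h (hII : II QW M) (hb : b ≠ 0) (hQb : QW b = 0) (hb' : b' ≠ 0) (hQb' : QW b' = 0) {k : F} (hk0 : k ≠ 0)
    (hk : ∀ v : W →ₗ[F] E, A (v b) = k • (g v) b') (e : W) (he : polar QW b e = 0) :
    ∃ (c : W) (h : E →ₗ[F] E), polar QW b' c = 0 ∧ ∀ y, g (tb QW y e) = tb QW (k⁻¹ • A y) c + tb QW (h y) b' := by
  obtain ⟨c, hc, -, hc2⟩ := exists_c T hg A hA hII hQb hb' hQb' e he
  obtain ⟨b1, hb1⟩ := T.ndW.exists_polar_one' hb
  have hv : ∀ x : E, (tb QW x b1 : W →ₗ[F] E) b = x := by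
    intro x
    rw [tb_apply, polar_comm, hb1, one_smul]
  have hgb : ∀ y : E, (g (tb QW y b1)) b' = k⁻¹ • A y := by
    intro y
    have h1 := hk (tb QW y b1)
    rw [hv] at h1
    rw [h1, smul_smul, inv_mul_cancel₀ hk0, one_smul]
  let h : E →ₗ[F] E := (polar QW b1 e) • (A : E →ₗ[F] E) + QW e • (A : E →ₗ[F] E)
    - (LinearMap.applyₗ c) ∘ₗ (g : (W →ₗ[F] E) →ₗ[F] (W →ₗ[F] E)) ∘ₗ (pt.flip (polarBilin QW b1)) - (QW c * k⁻¹) • (A : E →ₗ[F] E)
  refine ⟨c, h, hc, fun y => ?_⟩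
  have h1 := hc2 (tb QW y b1)
  rw [hv, hgb] at h1
  rw [h1]
  congr 2
  change _ = polar QW b1 e • A y + QW e • A y - (g (tb QW y b1)) c - (QW c * k⁻¹) • A y
  rw [tb_apply, map_smul, smul_smul]

/-- the comparison of the Siegel maps -/
theorem sieg_conj {k : F} (hk0 : k ≠ 0) (hk : ∀ x y, polar QE (A x) (A y) = k * polar QE x y) (a f x : E) :
    siegMap QE (A a) (k⁻¹ • A f) (A x) = A (siegMap QE a f x) := by
  have hq : QE (A f) = k * QE f := by
    have h1 := hk f f
    rw [polar_self', polar_self'] at h1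
    apply mul_left_cancel₀ T.h2
    rw [h1]; ring
  rw [siegMap_apply, siegMap_apply, Q_smul, hq, hk, polar_smul_left, hk, smul_smul, smul_eq_mul, map_sub, map_sub, map_add,
    map_smul, map_smul, map_smul]
  congr 1
  · congr 1
    · congr 2
      field_simp
    · congr 1
      field_simp
  · congr 1
    field_simp

/-- the comparison -/
theorem exists_eps (hII : II QW M) (hb : b ≠ 0) (hQb : QW b = 0) (hb' : b' ≠ 0) (hQb' : QW b' = 0) {k : F} (hk0 : k ≠ 0)
    (hk : ∀ v : W →ₗ[F] E, A (v b) = k • (g v) b') (hka : ∀ x y, polar QE (A x) (A y) = k * polar QE x y)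
    (a f : E) (ha : QE a = 0) (haf : polar QE a f = 0) :
    ∃ ε : W, polar QW b' ε = 0 ∧ (∀ u : W →ₗ[F] E, g ((siegMap QE a f) ∘ₗ u) = SgV QW b' ε ((siegMap QE (A a) (k⁻¹ • A f)) ∘ₗ (g u))) ∧
      ∀ (e c : W) (h : E →ₗ[F] E), polar QW b' c = 0 → (∀ y, g (tb QW y e) = tb QW (k⁻¹ • A y) c + tb QW (h y) b') →
        ∀ y, h (siegMap QE a f y) = siegMap QE (A a) (k⁻¹ • A f) (h y) - (polar QW c ε * k⁻¹) • A (siegMap QE a f y) := by
  have hA1 : QE (A a) = 0 := by
    have h1 := hka a a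
    rw [polar_self', polar_self', ha, mul_zero, mul_zero] at h1
    exact (mul_eq_zero.mp h1).resolve_left T.h2
  have hA2 : polar QE (A a) (k⁻¹ • A f) = 0 := by rw [polar_smul_right, hka, haf, mul_zero, smul_zero]
  obtain ⟨s, hs, hsv⟩ := T.tA a f ha haf
  obtain ⟨s', hs', hsv'⟩ := T.tA (A a) (k⁻¹ • A f) hA1 hA2
  have hconj := fun x => sieg_conj T hg A hA hk0 hka a f x
  set K := g * s * g⁻¹ * s'⁻¹ with hKd
  have hK : K ∈ M := M.mul_mem (M.mul_mem (M.mul_mem hg hs) (M.inv_mem hg)) (M.inv_mem hs')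
  have hKv : ∀ u, K (s' (g u)) = g (s u) := by
    intro u
    change g (s (g⁻¹ (s'⁻¹ (s' (g u))))) = _
    have h1 : s'⁻¹ (s' (g u)) = g u := s'.symm_apply_apply _
    have h2 : g⁻¹ (g u) = u := g.symm_apply_apply _
    rw [h1, h2]
  have hbb : polar QW b b = 0 := by rw [polar_self', hQb, mul_zero]
  have hb2 : polar QW b' b' = 0 := by rw [polar_self', hQb', mul_zero]
  let S : E ≃ₗ[F] E := ofMap T.ndE (siegMap QE a f) (siegMap_Q ha haf)
  have hS : ∀ x, S x = siegMap QE a f x := fun x => ofMap_apply _ _ _ x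
  -- the two actions on the images
  have hval : ∀ (e c : W) (h : E →ₗ[F] E), (∀ y, g (tb QW y e) = tb QW (k⁻¹ • A y) c + tb QW (h y) b') → ∀ y,
      s' (g (tb QW y e)) = tb QW (k⁻¹ • A (S y)) c + tb QW (siegMap QE (A a) (k⁻¹ • A f) (h y)) b' ∧
      g (s (tb QW y e)) = tb QW (k⁻¹ • A (S y)) c + tb QW (h (S y)) b' := by
    intro e c h hh y
    constructor
    · rw [hh, hsv', LinearMap.comp_add, comp_tb, comp_tb, map_smul, hconj, hS]
    · rw [hsv, comp_tb, ← hS, hh]
  have hTv : Tv QW b' K := by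
    constructor
    · intro d
      have h1 : tb QW d b' = s' (g (tb QW (S.symm (A.symm d)) b)) := by
        rw [hA, hsv', comp_tb, hconj, ← hS, S.apply_symm_apply, A.apply_symm_apply]
      have h2 : tb QW d b' = g (s (tb QW (S.symm (A.symm d)) b)) := by
        rw [hsv, comp_tb, hA, ← hS, S.apply_symm_apply, A.apply_symm_apply]
      rw [h1, hKv, ← h2, ← h1]
    · intro v hv
      have hu : ∃ u : W →ₗ[F] E, v = s' (g u) ∧ u b = 0 := by
        refine ⟨g.symm (s'.symm v), ?_, ?_⟩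
        · rw [g.apply_symm_apply, s'.apply_symm_apply]
        · rw [← zero_iff T hg A hA, g.apply_symm_apply]
          have h1 : s' (s'.symm v) = v := s'.apply_symm_apply v
          rw [hsv'] at h1
          have h2 := LinearMap.congr_fun h1 b'
          rw [hv, LinearMap.comp_apply] at h2
          have h3 : (s'.symm v) b' = A (A.symm ((s'.symm v) b')) := (A.apply_symm_apply _).symm
          rw [h3, hconj, ← hS] at h2
          have h4 : S (A.symm ((s'.symm v) b')) = 0 := A.injective (by rw [h2, map_zero])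
          have h5 := S.injective (h4.trans (map_zero S).symm)
          exact A.symm.injective (h5.trans (map_zero A.symm).symm)
      obtain ⟨u, rfl, hub⟩ := hu
      let D : (W →ₗ[F] E) →ₗ[F] (W →ₗ[F] E) := ((g * s : (W →ₗ[F] E) ≃ₗ[F] (W →ₗ[F] E)) : (W →ₗ[F] E) →ₗ[F] (W →ₗ[F] E)) -
        ((s' * g : (W →ₗ[F] E) ≃ₗ[F] (W →ₗ[F] E)) : (W →ₗ[F] E) →ₗ[F] (W →ₗ[F] E))
      have hD : ∀ u, D u = g (s u) - s' (g u) := fun u => rfl
      have h1 : u ∈ Submodule.comap D (LinearMap.range (pt.flip (polarBilin QW b'))) := by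
        apply spanb T.ndW _ hub
        intro x e he
        obtain ⟨c, h, -, hh⟩ := exists_h T hg A hA hII hb hQb hb' hQb' hk0 hk e he
        obtain ⟨h3, h4⟩ := hval e c h hh x
        rw [Submodule.mem_comap, hD, h3, h4]
        refine ⟨h (S x) - siegMap QE (A a) (k⁻¹ • A f) (h x), ?_⟩
        change tb QW (h (S x) - siegMap QE (A a) (k⁻¹ • A f) (h x)) b' = _
        rw [tb_sub]; abel
      rw [Submodule.mem_comap] at h1
      obtain ⟨d, hd⟩ := h1
      refine ⟨d, ?_⟩
      change tb QW d b' = _ at hd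
      rw [hKv, hd, hD]; abel
  obtain ⟨ε, hε, hεv⟩ := hII b' hb' hQb' K hK hTv
  refine ⟨ε, hε, ?_, ?_⟩
  · intro u
    rw [← hsv, ← hKv, hεv, hsv']
  · intro e c h hc hh y
    obtain ⟨h3, h4⟩ := hval e c h hh y
    have h5 := hKv (tb QW y e)
    rw [hεv, h4, h3, SgV] at h5
    have h6 : (tb QW (k⁻¹ • A (S y)) c + tb QW (siegMap QE (A a) (k⁻¹ • A f) (h y)) b' : W →ₗ[F] E) b' = 0 := by
      rw [LinearMap.add_apply, tb_apply, tb_apply, hb2, polar_comm, hc, zero_smul, zero_smul, add_zero]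
    have h7 : (tb QW (k⁻¹ • A (S y)) c + tb QW (siegMap QE (A a) (k⁻¹ • A f) (h y)) b' : W →ₗ[F] E) ε =
        (polar QW c ε * k⁻¹) • A (S y) := by
      rw [LinearMap.add_apply, tb_apply, tb_apply, hε, zero_smul, add_zero, smul_smul]
    rw [h6, h7, tb_zero, tb_zero, smul_zero, sub_zero, add_zero] at h5
    have h8 : tb QW (h (S y)) b' = tb QW (siegMap QE (A a) (k⁻¹ • A f) (h y) - (polar QW c ε * k⁻¹) • A (S y)) b' := by
      rw [tb_sub]
      have h9 : tb QW (h (S y)) b' = (tb QW (k⁻¹ • A (S y)) c + tb QW (h (S y)) b') - tb QW (k⁻¹ • A (S y)) c := by abel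
      rw [h9, ← h5]; abel
    rw [← hS]
    exact tb_inj T.ndW hb' h8

end one

/-- **the piece**, with the vanishing lemma as a hypothesis -/
theorem inter' (hvan : ∀ (f : E →ₗ[F] E →ₗ[F] F), (∀ a, QE a = 0 → f a a = 0) → ∃ R : F, ∀ y, f y y = QE y • R)
    (T : T4 QE QW Q M) (hII : II QW M) {g : (W →ₗ[F] E) ≃ₗ[F] (W →ₗ[F] E)} (hg : g ∈ M) {b b' : W} (hb : b ≠ 0)
    (hQb : QW b = 0) (hb' : b' ≠ 0) (hQb' : QW b' = 0) (A : E ≃ₗ[F] E) (hA : ∀ x, g (tb QW x b) = tb QW (A x) b') :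
    ∃ k : F, k ≠ 0 ∧ (∀ x y, polar QE (A x) (A y) = k * polar QE x y) ∧
      ∀ a f, QE a = 0 → polar QE a f = 0 → ∀ v, g ((siegMap QE a f) ∘ₗ v) =
        (A : E →ₗ[F] E) ∘ₗ (siegMap QE a f) ∘ₗ (A.symm : E →ₗ[F] E) ∘ₗ (g v) := by
  obtain ⟨k, hk0, hk, hka⟩ := exists_k T hg A hA hII hb hQb hb' hQb'
  refine ⟨k, hk0, hka, fun a f ha haf => ?_⟩
  have hconj := fun a f x => sieg_conj T hg A hA hk0 hka a f x
  obtain ⟨ε, hε, hε1, hε2⟩ := exists_eps T hg A hA hII hb hQb hb' hQb' hk0 hk hka a f ha haf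
  have hbb : polar QW b b = 0 := by rw [polar_self', hQb, mul_zero]
  have hb2 : polar QW b' b' = 0 := by rw [polar_self', hQb', mul_zero]
  obtain ⟨y0, hy0⟩ := exists_nonsing T.hE T.ndE
  -- orthogonality of the images with ε
  have hce : ∀ (e c : W) (h : E →ₗ[F] E), polar QW b' c = 0 → (∀ y, g (tb QW y e) = tb QW (k⁻¹ • A y) c + tb QW (h y) b') →
      polar QW c ε = 0 := by
    intro e c h hc hh
    let h' : E →ₗ[F] E := (A.symm : E →ₗ[F] E) ∘ₗ h
    have hh' : ∀ y, h y = A (h' y) := fun y => (A.apply_symm_apply (h y)).symm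
    have hrel : ∀ a f, QE a = 0 → polar QE a f = 0 → ∀ ε, (∀ y, h (siegMap QE a f y) = siegMap QE (A a) (k⁻¹ • A f) (h y) -
        (polar QW c ε * k⁻¹) • A (siegMap QE a f y)) → ∀ y, h' (siegMap QE a f y) = siegMap QE a f (h' y) -
        (polar QW c ε * k⁻¹) • siegMap QE a f y := by
      intro a f ha haf ε hy y
      apply A.injective
      rw [← hh', hy, hh' y, hconj, map_sub, map_smul]
    obtain ⟨R, hR⟩ := hvan ((polarBilin QE).compl₂ h') (by
      intro a0 ha0
      change polar QE a0 (h' a0) = 0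
      by_cases h00 : a0 = 0
      · rw [h00, polar_zero_left]
      have hlt : ∃ f0 ∈ perp QE (F ∙ a0), f0 ∉ (F ∙ a0 : Submodule F E) := by
        by_contra hcon
        push Not at hcon
        have h1 : perp QE (F ∙ a0) ≤ (F ∙ a0 : Submodule F E) := hcon
        have h2 := Submodule.finrank_mono h1
        have h3 := T.ndE.finrank_add_finrank_perp (F ∙ a0)
        have h4 : finrank F (F ∙ a0 : Submodule F E) = 1 := finrank_span_singleton h00
        have := T.hE
        omega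
      obtain ⟨f0, hf0, hf0'⟩ := hlt
      rw [mem_perp_singleton] at hf0
      obtain ⟨ε0, hε0, -, hε02⟩ := exists_eps T hg A hA hII hb hQb hb' hQb' hk0 hk hka a0 f0 ha0 hf0
      have h1 := hrel a0 f0 ha0 hf0 ε0 (hε02 e c h hc hh) a0
      have h2 : siegMap QE a0 f0 a0 = a0 := by
        rw [siegMap_apply, polar_self', ha0, polar_comm QE f0 a0, hf0]; simp
      rw [h2, siegMap_apply] at h1
      by_contra hne
      apply hf0'
      rw [Submodule.mem_span_singleton]
      refine ⟨(polar QE a0 (h' a0))⁻¹ * (polar QE f0 (h' a0) + QE f0 * polar QE a0 (h' a0) + polar QW c ε0 * k⁻¹), ?_⟩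
      have h3 : polar QE a0 (h' a0) • f0 = (polar QE f0 (h' a0) + QE f0 * polar QE a0 (h' a0) + polar QW c ε0 * k⁻¹) • a0 := by
        rw [add_smul, add_smul]
        have h4 : h' a0 - (h' a0 + polar QE a0 (h' a0) • f0 - polar QE f0 (h' a0) • a0 - (QE f0 * polar QE a0 (h' a0)) • a0 -
          (polar QW c ε0 * k⁻¹) • a0) = 0 := sub_eq_zero.mpr h1
        have h5 : polar QE a0 (h' a0) • f0 = polar QE f0 (h' a0) • a0 + (QE f0 * polar QE a0 (h' a0)) • a0 +
          (polar QW c ε0 * k⁻¹) • a0 - (h' a0 - (h' a0 + polar QE a0 (h' a0) • f0 - polar QE f0 (h' a0) • a0 - (QE f0 * polar QE a0 (h' a0)) • a0 -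
          (polar QW c ε0 * k⁻¹) • a0)) := by abel
        rw [h5, h4, sub_zero]
      rw [← smul_smul, ← h3, smul_smul, inv_mul_cancel₀ hne, one_smul])
    have hR' : ∀ y, polar QE y (h' y) = QE y • R := hR
    have h1 := hR' (siegMap QE a f y0)
    rw [hrel a f ha haf ε (hε2 e c h hc hh), siegMap_Q ha haf, polar_sub_right,
      polar_map (siegMap QE a f) (siegMap_Q ha haf), hR', polar_smul_right, polar_self', siegMap_Q ha haf, smul_eq_mul] at h1
    have h2 : (polar QW c ε * k⁻¹) * (2 * QE y0) = 0 := by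
      have := sub_eq_self.mp h1
      exact this
    rcases mul_eq_zero.mp h2 with h3 | h3
    · exact (mul_eq_zero.mp h3).resolve_right (inv_ne_zero hk0)
    · exact absurd h3 (mul_ne_zero T.h2 hy0)
  -- maps killing b' kill ε
  have hkill : ∀ v : W →ₗ[F] E, v b' = 0 → v ε = 0 := by
    intro v hv
    obtain ⟨u, rfl⟩ := g.surjective v
    have hub : u b = 0 := (zero_iff T hg A hA u).mp hv
    have h1 : u ∈ LinearMap.ker ((LinearMap.applyₗ ε) ∘ₗ (g : (W →ₗ[F] E) →ₗ[F] (W →ₗ[F] E)) : (W →ₗ[F] E) →ₗ[F] E) := by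
      apply spanb T.ndW _ hub
      intro x e he
      obtain ⟨c, h, hc, hh⟩ := exists_h T hg A hA hII hb hQb hb' hQb' hk0 hk e he
      rw [LinearMap.mem_ker]
      change (g (tb QW x e)) ε = 0
      rw [hh, LinearMap.add_apply, tb_apply, tb_apply, hce e c h hc hh, hε, zero_smul, zero_smul, add_zero]
    exact h1
  have hspan : ε ∈ (F ∙ b' : Submodule F W) := by
    rw [← T.ndW.perp_perp (F ∙ b'), mem_perp]
    intro w hw
    rw [mem_perp_singleton] at hw
    haveI : Nontrivial E := finrank_pos_iff.mp (by have := T.hE; omega : 0 < finrank F E)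
    obtain ⟨x, hx⟩ := exists_ne (0 : E)
    have h1 := hkill (tb QW x w) (by rw [tb_apply, polar_comm, hw, zero_smul])
    rw [tb_apply] at h1
    exact (smul_eq_zero.mp h1).resolve_right hx
  obtain ⟨t, rfl⟩ := Submodule.mem_span_singleton.mp hspan
  have hSg : ∀ v : W →ₗ[F] E, SgV QW b' (t • b') v = v := by
    intro v
    rw [SgV, tb_smul', map_smul, tb_smul, Q_smul, hQb', mul_zero, zero_smul, sub_zero]
    abel
  intro v
  rw [hε1, hSg]
  ext w
  simp only [LinearMap.comp_apply, LinearEquiv.coe_coe]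
  rw [← hconj, A.apply_symm_apply]

/-- **the piece A1a** -/
theorem inter [Finite F] (T : T4 QE QW Q M) (hII : II QW M) {g : (W →ₗ[F] E) ≃ₗ[F] (W →ₗ[F] E)} (hg : g ∈ M) {b b' : W} (hb : b ≠ 0)
    (hQb : QW b = 0) (hb' : b' ≠ 0) (hQb' : QW b' = 0) (A : E ≃ₗ[F] E) (hA : ∀ x, g (tb QW x b) = tb QW (A x) b') :
    ∃ k : F, k ≠ 0 ∧ (∀ x y, polar QE (A x) (A y) = k * polar QE x y) ∧
      ∀ a f, QE a = 0 → polar QE a f = 0 → ∀ v, g ((siegMap QE a f) ∘ₗ v) =
        (A : E →ₗ[F] E) ∘ₗ (siegMap QE a f) ∘ₗ (A.symm : E →ₗ[F] E) ∘ₗ (g v) :=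
  inter' (fun f hf => TenOO_L.van T.h2 T.ndE T.hE T.hex f hf) T hII hg hb hQb hb' hQb' A hA

end ofA

section ofB
variable {F E W : Type*} [Field F] [AddCommGroup E] [Module F E] [FiniteDimensional F E]
  [AddCommGroup W] [Module F W] [FiniteDimensional F W]

/-- the lemmas of piece L -/
structure LL (QE : QuadraticForm F E) : Prop where
  irr : ∀ {S : Submodule F E}, S ≠ ⊥ → (∀ a f, QE a = 0 → polar QE a f = 0 → ∀ x ∈ S, siegMap QE a f x ∈ S) → S = ⊤
  fixd : ∀ {a y : E}, a ≠ 0 → QE a = 0 → (∀ f, polar QE a f = 0 → siegMap QE a f y = y) → ∃ c : F, y = c • a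
  span_sing : Submodule.span F {a | QE a = 0} = ⊤

theorem siegMap_self {QE : QuadraticForm F E} {a f : E} (ha : QE a = 0) (haf : polar QE a f = 0) :
    siegMap QE a f a = a := by
  have h1 : polar QE a a = 0 := by
    rw [polar_self, ha]; simp
  have h2 : polar QE f a = 0 := by rw [polar_comm]; exact haf
  rw [siegMap_apply, h1, h2]
  simp

theorem siegMap_pt {QE : QuadraticForm F E} {a f x : E} (φ : Dual F W) :
    (siegMap QE a f) ∘ₗ (pt x φ : W →ₗ[F] E) = pt (siegMap QE a f x) φ := by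
  apply LinearMap.ext
  intro w
  rw [LinearMap.comp_apply, pt_apply, pt_apply, map_smul]

theorem pair_core {QE : QuadraticForm F E} (L : LL QE) (hE : 1 ≤ finrank F E) (hW : 2 ≤ finrank F W)
    {g : (W →ₗ[F] E) ≃ₗ[F] (W →ₗ[F] E)} (A : E ≃ₗ[F] E)
    (h : ∀ a f, QE a = 0 → polar QE a f = 0 → ∀ v : W →ₗ[F] E, g ((siegMap QE a f) ∘ₗ v) =
      (A : E →ₗ[F] E) ∘ₗ (siegMap QE a f) ∘ₗ (A.symm : E →ₗ[F] E) ∘ₗ (g v)) : ∃ p q, g = ac p q := by
  -- a singular vector
  obtain ⟨a₀, ha₀, hQa₀⟩ : ∃ a₀ : E, a₀ ≠ 0 ∧ QE a₀ = 0 := by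
    by_contra hcon
    have h0 : Submodule.span F {a | QE a = 0} = ⊥ := by
      rw [Submodule.span_eq_bot]
      intro a ha
      by_contra hne
      exact hcon ⟨a, hne, ha⟩
    rw [L.span_sing] at h0
    haveI : Nontrivial E := Module.finrank_pos_iff (R := F).1 (by omega)
    exact top_ne_bot h0
  have hA₀ : A a₀ ≠ 0 := by
    intro e
    exact ha₀ (by simpa using e)
  obtain ⟨α, hα⟩ := exists_dual0 (F := F) hA₀
  -- the images of the tensors with a₀
  have key : ∀ φ : Dual F W, g (pt a₀ φ) = pt (A a₀) (α ∘ₗ g (pt a₀ φ)) := by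
    intro φ
    apply LinearMap.ext
    intro w
    have h1 : ∃ c : F, A.symm (g (pt a₀ φ) w) = c • a₀ := by
      apply L.fixd ha₀ hQa₀
      intro f hf
      have h2 := h a₀ f hQa₀ hf (pt a₀ φ)
      rw [siegMap_pt, siegMap_self hQa₀ hf] at h2
      have h3 := congrArg (fun v : W →ₗ[F] E => A.symm (v w)) h2
      simp only [LinearMap.comp_apply, LinearEquiv.coe_coe, LinearEquiv.symm_apply_apply] at h3
      exact h3.symm
    obtain ⟨c, hc⟩ := h1
    have h4 : g (pt a₀ φ) w = c • A a₀ := by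
      have := congrArg A hc
      rwa [LinearEquiv.apply_symm_apply, map_smul] at this
    rw [pt_apply, LinearMap.comp_apply, h4, map_smul, hα, smul_eq_mul, mul_one]
  let S : Submodule F E :=
    { carrier := {x | ∀ φ : Dual F W, g (pt x φ) = pt (A x) (α ∘ₗ g (pt a₀ φ))}
      add_mem' := by
        intro x y hx hy φ
        rw [map_add, map_add, map_add, LinearMap.add_apply, LinearMap.add_apply, map_add, hx φ, hy φ]
      zero_mem' := by
        intro φ
        rw [map_zero, map_zero, map_zero, LinearMap.zero_apply, LinearMap.zero_apply, map_zero]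
      smul_mem' := by
        intro c x hx φ
        rw [map_smul, map_smul, map_smul, LinearMap.smul_apply, LinearMap.smul_apply, map_smul, hx φ] }
  have hS : S = ⊤ := by
    apply L.irr
    · intro hbot
      have : a₀ ∈ S := key
      rw [hbot, Submodule.mem_bot] at this
      exact ha₀ this
    · intro a f hQ hf x hx φ
      have h1 := h a f hQ hf (pt x φ)
      rw [siegMap_pt, hx φ] at h1
      rw [h1]
      apply LinearMap.ext
      intro w
      simp only [LinearMap.comp_apply, pt_apply, map_smul, LinearEquiv.coe_coe, LinearEquiv.symm_apply_apply]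
  refine fund hE hW ?_
  intro b hb
  refine ⟨α ∘ₗ g (pt a₀ b), fun a => ?_⟩
  have ha : a ∈ S := by rw [hS]; trivial
  rw [ha b]
  exact pt_mem_sp _ _

theorem pair_of_inter [Finite F] {QE : QuadraticForm F E} {QW : QuadraticForm F W} {Q : QuadraticForm F (W →ₗ[F] E)}
    {M : Subgroup ((W →ₗ[F] E) ≃ₗ[F] (W →ₗ[F] E))} (T : T4 QE QW Q M)
    {g : (W →ₗ[F] E) ≃ₗ[F] (W →ₗ[F] E)} (A : E ≃ₗ[F] E) (k : F) (hk : k ≠ 0)
    (hA : ∀ x y, polar QE (A x) (A y) = k * polar QE x y)
    (h : ∀ a f, QE a = 0 → polar QE a f = 0 → ∀ v : W →ₗ[F] E, g ((siegMap QE a f) ∘ₗ v) =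
      (A : E →ₗ[F] E) ∘ₗ (siegMap QE a f) ∘ₗ (A.symm : E →ₗ[F] E) ∘ₗ (g v)) : ∃ p q, g = ac p q :=
  pair_core ⟨fun hS hh => TenOO_L.irr T.h2 T.ndE T.hE hS hh, fun ha hQa hh => TenOO_L.fixd T.h2 T.ndE T.hE ha hQa hh,
    TenOO_L.span_sing T.h2 T.ndE T.hE⟩ (by have := T.hE; omega) (by have := T.hW; omega) A h


end ofB

section fin
variable {F E W : Type*} [Field F] [AddCommGroup E] [Module F E] [FiniteDimensional F E]
  [AddCommGroup W] [Module F W] [FiniteDimensional F W] [Finite F]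
  {QE : QuadraticForm F E} {QW : QuadraticForm F W} {Q : QuadraticForm F (W →ₗ[F] E)}
  {M : Subgroup ((W →ₗ[F] E) ≃ₗ[F] (W →ₗ[F] E))}

/-- **the piece FF** -/
theorem fixF (T : T4 QE QW Q M) (hII : II QW M) : FixF QW M := by
  intro g hg b b' hb hQb hb' hQb' h
  obtain ⟨w, hw⟩ := T.ndW.exists_polar_one' hb'
  let A0 : E →ₗ[F] E := (LinearMap.applyₗ w) ∘ₗ (g : (W →ₗ[F] E) →ₗ[F] (W →ₗ[F] E)) ∘ₗ (pt.flip (polarBilin QW b))
  have hA0 : ∀ x, A0 x = (g (tb QW x b)) w := fun x => rfl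
  have hA1 : ∀ x, g (tb QW x b) = tb QW (A0 x) b' := by
    intro x
    obtain ⟨x', hx'⟩ := h x
    rw [hA0, hx', tb_apply, hw, one_smul]
  have hinj : Function.Injective A0 := by
    rw [injective_iff_map_eq_zero]
    intro x hx
    have h1 := hA1 x
    rw [hx, tb_zero] at h1
    have h2 : tb QW x b = 0 := by
      have := congrArg g.symm h1
      rwa [g.symm_apply_apply, map_zero] at this
    exact tb_inj T.ndW hb (h2.trans (tb_zero b).symm)
  let A : E ≃ₗ[F] E := LinearEquiv.ofInjectiveEndo A0 hinj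
  have hA : ∀ x, g (tb QW x b) = tb QW (A x) b' := fun x => hA1 x
  obtain ⟨k, hk0, hka, h3⟩ := inter T hII hg hb hQb hb' hQb' A hA
  exact pair_of_inter T A k hk0 hka h3

end fin

end Cfsg.Agent.Lib.TenW4_FF
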