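import Cfsg.Agent.Lib.TenW4_MXa

/-!
# Piece MX of S5873: determinants (helper45)
-/

set_option autoImplicit false
set_option linter.unusedSectionVars false
set_option linter.unusedVariables false

namespace Cfsg.Agent.Lib.TenW4_MX

open QuadraticMap Module Cfsg.Agent.Lib.Quad Cfsg.Agent.Lib.OrthMax Cfsg.Agent.Lib.OrthNd Cfsg.Agent.Lib.TenSLH94
  Cfsg.Agent.Lib.TenOO Cfsg.Agent.Lib.TenW4

variable {F E W : Type*} [Field F] [AddCommGroup E] [Module F E] [FiniteDimensional F E]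
  [AddCommGroup W] [Module F W] [FiniteDimensional F W]

/-- isometries have determinant `±1` -/
theorem det_sq {X : Type*} [AddCommGroup X] [Module F X] [FiniteDimensional F X] {Q : QuadraticForm F X} (hQ : Nd Q)
    {g : X ≃ₗ[F] X} (hg : g ∈ O Q) : LinearMap.det (g : X →ₗ[F] X) * LinearMap.det (g : X →ₗ[F] X) = 1 := by
  have hb : (polarBilin Q).Nondegenerate := hQ
  let B := LinearMap.BilinForm.toDual (polarBilin Q) hb
  have h1 : ((g : X →ₗ[F] X).dualMap) ∘ₗ ((B : X ≃ₗ[F] Dual F X) : X →ₗ[F] Dual F X) ∘ₗ (g : X →ₗ[F] X) = ((B : X ≃ₗ[F] Dual F X) : X →ₗ[F] Dual F X) := by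
    ext x y
    have := O_polar hg x y
    simpa [B, LinearMap.BilinForm.toDual_def] using this
  have h2 : ((g : X →ₗ[F] X).dualMap) ∘ₗ (((B : X ≃ₗ[F] Dual F X) : X →ₗ[F] Dual F X) ∘ₗ (g : X →ₗ[F] X) ∘ₗ ((B.symm : Dual F X ≃ₗ[F] X) : Dual F X →ₗ[F] X)) = LinearMap.id := by
    have h3 := congrArg (fun φ : X →ₗ[F] Dual F X => φ ∘ₗ ((B.symm : Dual F X ≃ₗ[F] X) : Dual F X →ₗ[F] X)) h1
    simp only [LinearMap.comp_assoc] at h3
    rw [h3]
    ext φ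
    simp
  have h3 := congrArg LinearMap.det h2
  rw [LinearMap.det_comp, LinearMap.det_dualMap, LinearMap.det_id] at h3
  have h4 : LinearMap.det (((B : X ≃ₗ[F] Dual F X) : X →ₗ[F] Dual F X) ∘ₗ (g : X →ₗ[F] X) ∘ₗ ((B.symm : Dual F X ≃ₗ[F] X) : Dual F X →ₗ[F] X)) = LinearMap.det (g : X →ₗ[F] X) := LinearMap.det_conj _ B
  rwa [h4] at h3

/-- first components -/
theorem det_ac1 (p : E ≃ₗ[F] E) : LinearMap.det ((ac p (1 : W ≃ₗ[F] W) : (W →ₗ[F] E) ≃ₗ[F] (W →ₗ[F] E)) : (W →ₗ[F] E) →ₗ[F] (W →ₗ[F] E)) =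
    LinearMap.det (p : E →ₗ[F] E) ^ finrank F W := by
  let b := Module.finBasis F W
  let e := b.constr F (M' := E)
  rw [← LinearMap.det_conj _ e.symm]
  have h : ((e.symm : (W →ₗ[F] E) ≃ₗ[F] (Fin (finrank F W) → E)) : (W →ₗ[F] E) →ₗ[F] (Fin (finrank F W) → E)) ∘ₗ
      ((ac p (1 : W ≃ₗ[F] W) : (W →ₗ[F] E) ≃ₗ[F] (W →ₗ[F] E)) : (W →ₗ[F] E) →ₗ[F] (W →ₗ[F] E)) ∘ₗ ((e.symm.symm : (Fin (finrank F W) → E) ≃ₗ[F] (W →ₗ[F] E)) : (Fin (finrank F W) → E) →ₗ[F] (W →ₗ[F] E)) =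
      LinearMap.pi (fun i => (p : E →ₗ[F] E).comp (LinearMap.proj i)) := by
    apply LinearMap.ext
    intro f
    apply e.injective
    apply b.ext
    intro i
    show (e (e.symm (ac p 1 (e f)))) (b i) = e _ (b i)
    rw [LinearEquiv.apply_symm_apply, ac_apply]
    show p (e f (b i)) = _
    rw [Basis.constr_basis, Basis.constr_basis]
    rfl
  rw [h, LinearMap.det_pi]
  simp

/-- second components -/
theorem det_ac2 (q : W ≃ₗ[F] W) : LinearMap.det ((ac (1 : E ≃ₗ[F] E) q : (W →ₗ[F] E) ≃ₗ[F] (W →ₗ[F] E)) : (W →ₗ[F] E) →ₗ[F] (W →ₗ[F] E)) *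
    LinearMap.det (q : W →ₗ[F] W) ^ finrank F E = 1 := by
  let b := Module.finBasis F E
  let e : (W →ₗ[F] E) ≃ₗ[F] (Fin (finrank F E) → Dual F W) :=
    { toFun := fun v i => (b.coord i) ∘ₗ v
      invFun := fun f => ∑ i, (f i).smulRight (b i)
      map_add' := fun u v => by ext i w; simp
      map_smul' := fun t v => by ext i w; simp
      left_inv := fun v => by
        ext w
        simp only [LinearMap.sum_apply, LinearMap.smulRight_apply, LinearMap.comp_apply, Basis.coord_apply]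
        exact b.sum_repr (v w)
      right_inv := fun f => by
        ext i w
        simp [Finsupp.single_apply] }
  rw [← LinearMap.det_conj _ e]
  have h : ((e : (W →ₗ[F] E) ≃ₗ[F] (Fin (finrank F E) → Dual F W)) : (W →ₗ[F] E) →ₗ[F] (Fin (finrank F E) → Dual F W)) ∘ₗ
      ((ac (1 : E ≃ₗ[F] E) q : (W →ₗ[F] E) ≃ₗ[F] (W →ₗ[F] E)) : (W →ₗ[F] E) →ₗ[F] (W →ₗ[F] E)) ∘ₗ ((e.symm : (Fin (finrank F E) → Dual F W) ≃ₗ[F] (W →ₗ[F] E)) : (Fin (finrank F E) → Dual F W) →ₗ[F] (W →ₗ[F] E)) =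
      LinearMap.pi (fun i => ((q.symm : W →ₗ[F] W).dualMap).comp (LinearMap.proj i)) := by
    apply LinearMap.ext
    intro f
    funext i
    apply LinearMap.ext
    intro w
    have h1 : ∀ w, b.coord i (e.symm f w) = f i w := by
      intro w
      have h2 := congrFun (e.apply_symm_apply f) i
      exact congrArg (fun φ : Dual F W => φ w) h2
    exact h1 (q.symm w)
  rw [h, LinearMap.det_pi]
  simp only [LinearMap.det_dualMap, Finset.prod_const, Finset.card_univ, Fintype.card_fin]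
  rw [← mul_pow]
  have h5 : LinearMap.det (q.symm : W →ₗ[F] W) * LinearMap.det (q : W →ₗ[F] W) = 1 := by
    rw [← LinearMap.det_comp]
    have : (q.symm : W →ₗ[F] W) ∘ₗ (q : W →ₗ[F] W) = LinearMap.id := by ext w; simp
    rw [this, LinearMap.det_id]
  rw [h5, one_pow]

theorem det_q {QE : QuadraticForm F E} {QW : QuadraticForm F W} (ndE : Nd QE) (ndW : Nd QW) (hE3 : finrank F E = 3) (hW4 : finrank F W = 4)
    {p : E ≃ₗ[F] E} {q : W ≃ₗ[F] W} (hp : p ∈ O QE) (hq : q ∈ O QW)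
    (h : LinearMap.det ((ac p q : (W →ₗ[F] E) ≃ₗ[F] (W →ₗ[F] E)) : (W →ₗ[F] E) →ₗ[F] (W →ₗ[F] E)) = 1) :
    LinearMap.det (q : W →ₗ[F] W) = 1 := by
  have e1 : ((ac p q : (W →ₗ[F] E) ≃ₗ[F] (W →ₗ[F] E)) : (W →ₗ[F] E) →ₗ[F] (W →ₗ[F] E)) =
      ((ac p (1 : W ≃ₗ[F] W) : (W →ₗ[F] E) ≃ₗ[F] (W →ₗ[F] E)) : (W →ₗ[F] E) →ₗ[F] (W →ₗ[F] E)) ∘ₗ
      ((ac (1 : E ≃ₗ[F] E) q : (W →ₗ[F] E) ≃ₗ[F] (W →ₗ[F] E)) : (W →ₗ[F] E) →ₗ[F] (W →ₗ[F] E)) := rfl
  rw [e1, LinearMap.det_comp, det_ac1, hW4] at h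
  have h1 := det_sq ndE hp
  have h2 := det_sq ndW hq
  have h3 := det_ac2 (E := E) q
  rw [hE3] at h3
  have h4 : LinearMap.det (p : E →ₗ[F] E) ^ 4 = 1 := by
    have : LinearMap.det (p : E →ₗ[F] E) ^ 4 = (LinearMap.det (p : E →ₗ[F] E) * LinearMap.det (p : E →ₗ[F] E)) ^ 2 := by ring
    rw [this, h1, one_pow]
  rw [h4, one_mul] at h
  rw [h, one_mul] at h3
  have h5 : LinearMap.det (q : W →ₗ[F] W) ^ 3 = (LinearMap.det (q : W →ₗ[F] W) * LinearMap.det (q : W →ₗ[F] W)) * LinearMap.det (q : W →ₗ[F] W) := by ring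
  rw [h5, h2, one_mul] at h3
  exact h3

end Cfsg.Agent.Lib.TenW4_MX
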