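import Cfsg.Agent.Lib.TenW4_MXa

/-!
# Piece MX of S5873: isometries of `W` fixing `b`, `e` modulo `b` (helper45)
-/

set_option autoImplicit false
set_option linter.unusedSectionVars false
set_option linter.unusedVariables false

namespace Cfsg.Agent.Lib.TenW4_MX

open QuadraticMap Module Cfsg.Agent.Lib.Quad Cfsg.Agent.Lib.OrthMax Cfsg.Agent.Lib.OrthNd Cfsg.Agent.Lib.TenSLH94
  Cfsg.Agent.Lib.TenOO Cfsg.Agent.Lib.TenW4

variable {F W : Type*} [Field F] [AddCommGroup W] [Module F W] [FiniteDimensional F W] {Q : QuadraticForm F W}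

theorem q_perp (h2 : (2 : F) ≠ 0) (hQ : Nd Q) (hW4 : finrank F W = 4)
    (hmin : ∀ x y : W, Q x = 0 → Q y = 0 → polar Q x y = 0 → x ≠ 0 → ∃ c : F, y = c • x)
    {b e : W} (hb : b ≠ 0) (hQb : Q b = 0) (hbe : polar Q b e = 0) (hQe : Q e ≠ 0)
    {q : W ≃ₗ[F] W} (hq : q ∈ O Q) (hdet : LinearMap.det (q : W →ₗ[F] W) = 1) (hqb : q b = b) {κ : F} (hqe : q e = e + κ • b)
    {e' : W} (he' : polar Q b e' = 0) : ∃ c : F, q e' = e' + c • b := by
  have pbb : polar Q b b = 0 := by rw [polar_self', hQb, mul_zero]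
  have peb : polar Q e b = 0 := by rw [polar_comm, hbe]
  have pee : polar Q e e ≠ 0 := by rw [polar_self']; exact mul_ne_zero h2 hQe
  obtain ⟨b0, hb0⟩ := hQ.exists_polar_one' hb
  -- adjust
  obtain ⟨b1, hb1, heb1⟩ : ∃ b1, polar Q b b1 = 1 ∧ polar Q e b1 = 0 := by
    refine ⟨b0 - ((polar Q e e)⁻¹ * polar Q e b0) • e, ?_, ?_⟩
    · rw [polar_sub_right, polar_smul_right, hbe, smul_zero, sub_zero, hb0]
    · rw [polar_sub_right, polar_smul_right, smul_eq_mul]
      field_simp
      ring
  obtain ⟨e0, he0, he0n⟩ : ∃ e0 ∈ perp Q (Submodule.span F (Set.range ![b, e, b1])), e0 ≠ 0 := by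
    have h1 := hQ.finrank_add_finrank_perp (Submodule.span F (Set.range ![b, e, b1]))
    have h3 := finrank_range_le_card (R := F) ![b, e, b1]
    rw [Set.finrank, Fintype.card_fin] at h3
    have h4 : perp Q (Submodule.span F (Set.range ![b, e, b1])) ≠ ⊥ := by
      intro h0
      rw [h0, finrank_bot] at h1
      omega
    exact Submodule.exists_mem_ne_zero_of_ne_bot h4
  have pb0 : polar Q b e0 = 0 := mem_perp.1 he0 b (Submodule.subset_span ⟨0, rfl⟩)
  have pe0 : polar Q e e0 = 0 := mem_perp.1 he0 e (Submodule.subset_span ⟨1, rfl⟩)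
  have pb10 : polar Q b1 e0 = 0 := mem_perp.1 he0 b1 (Submodule.subset_span ⟨2, rfl⟩)
  have hQe0 : Q e0 ≠ 0 := by
    intro h0
    obtain ⟨c, hc⟩ := hmin b e0 hQb h0 pb0 hb
    rw [hc, polar_smul_right, polar_comm, hb1, smul_eq_mul, mul_one] at pb10
    exact he0n (by rw [hc, pb10, zero_smul])
  have p00 : polar Q e0 e0 ≠ 0 := by rw [polar_self']; exact mul_ne_zero h2 hQe0
  have p0b : polar Q e0 b = 0 := by rw [polar_comm, pb0]
  have p0e : polar Q e0 e = 0 := by rw [polar_comm, pe0]
  have p0b1 : polar Q e0 b1 = 0 := by rw [polar_comm, pb10]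
  have p1b : polar Q b1 b = 1 := by rw [polar_comm, hb1]
  have p1e : polar Q b1 e = 0 := by rw [polar_comm, heb1]
  -- a basis
  have hli : LinearIndependent F ![b, e, e0, b1] := by
    rw [Fintype.linearIndependent_iff]
    intro g hg
    rw [Fin.sum_univ_four] at hg
    simp only [Matrix.cons_val_zero, Matrix.cons_val_one, Matrix.cons_val] at hg
    have t1 := congrArg (polar Q b) hg
    have t2 := congrArg (polar Q e) hg
    have t3 := congrArg (polar Q e0) hg
    have t4 := congrArg (polar Q b1) hg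
    simp only [polar_add_right, polar_smul_right, smul_eq_mul, pbb, hbe, pb0, hb1, mul_zero, zero_add, mul_one, add_zero, polar_zero_right] at t1
    simp only [polar_add_right, polar_smul_right, smul_eq_mul, peb, pe0, heb1, mul_zero, zero_add, mul_one, add_zero, polar_zero_right] at t2
    simp only [polar_add_right, polar_smul_right, smul_eq_mul, p0b, p0e, p0b1, mul_zero, zero_add, mul_one, add_zero, polar_zero_right] at t3
    rw [t1, zero_smul, add_zero] at hg t4
    simp only [polar_add_right, polar_smul_right, smul_eq_mul, p1b, p1e, pb10, mul_zero, zero_add, mul_one, add_zero, polar_zero_right] at t4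
    intro i
    fin_cases i
    · exact t4
    · exact (mul_eq_zero.1 t2).resolve_right pee
    · exact (mul_eq_zero.1 t3).resolve_right p00
    · exact t1
  let B := basisOfLinearIndependentOfCardEqFinrank hli (by rw [Fintype.card_fin, hW4])
  have B0 : B 0 = b := by simp [B]
  have B1 : B 1 = e := by simp [B]
  have B2 : B 2 = e0 := by simp [B]
  have B3 : B 3 = b1 := by simp [B]
  have dec : ∀ w, w = B.repr w 0 • b + B.repr w 1 • e + B.repr w 2 • e0 + B.repr w 3 • b1 := by
    intro w
    have := B.sum_repr w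
    rw [Fin.sum_univ_four, B0, B1, B2, B3] at this
    exact this.symm
  have c3 : ∀ w, B.repr w 3 = polar Q b w := by
    intro w
    conv_rhs => rw [dec w]
    simp only [polar_add_right, polar_smul_right, smul_eq_mul, pbb, hbe, pb0, hb1, mul_zero, zero_add, mul_one, add_zero]
  have c1 : ∀ w, B.repr w 1 * polar Q e e = polar Q e w := by
    intro w
    conv_rhs => rw [dec w]
    simp only [polar_add_right, polar_smul_right, smul_eq_mul, peb, pe0, heb1, mul_zero, zero_add, mul_one, add_zero]
  have qb0 : polar Q b (q e0) = 0 := by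
    have := O_polar hq b e0
    rwa [hqb, pb0] at this
  have qe0 : polar Q e (q e0) = 0 := by
    have h5 := O_polar hq e e0
    rwa [hqe, polar_add_left, polar_smul_left, qb0, smul_zero, add_zero, pe0] at h5
  obtain ⟨α, γ, hαγ⟩ : ∃ α γ : F, q e0 = α • b + γ • e0 := by
    refine ⟨B.repr (q e0) 0, B.repr (q e0) 2, ?_⟩
    have h5 := dec (q e0)
    have h6 := c1 (q e0)
    rw [qe0] at h6
    rw [c3, qb0, zero_smul, add_zero, (mul_eq_zero.1 h6).resolve_right pee, zero_smul, add_zero] at h5
    exact h5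
  have rb : B.repr b = Finsupp.single 0 1 := by rw [← B0, B.repr_self]
  have re : B.repr e = Finsupp.single 1 1 := by rw [← B1, B.repr_self]
  have re0 : B.repr e0 = Finsupp.single 2 1 := by rw [← B2, B.repr_self]
  -- the determinant
  have hγ : γ = 1 := by
    rw [← LinearMap.det_toMatrix B, Matrix.det_of_isUpperTriangular, Fin.prod_univ_four] at hdet
    · simp only [LinearMap.toMatrix_apply, LinearEquiv.coe_coe, B0, B1, B2, B3, hqb, hqe, hαγ, map_add, map_smul, rb, re, re0, c3] at hdet
      have h7 : polar Q b (q b1) = 1 := by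
        have := O_polar hq b b1
        rwa [hqb, hb1] at this
      rw [h7] at hdet
      simpa using hdet
    · intro i j hij
      simp only [LinearMap.toMatrix_apply, LinearEquiv.coe_coe]
      fin_cases j <;> fin_cases i <;> simp [B0, B1, B2, B3, hqb, hqe, hαγ, rb, re, re0] at hij ⊢
  have h8 := dec e'
  rw [c3, he', zero_smul, add_zero] at h8
  obtain ⟨r0, r1, r2, h9⟩ : ∃ r0 r1 r2 : F, e' = r0 • b + r1 • e + r2 • e0 := ⟨_, _, _, h8⟩
  refine ⟨r1 * κ + r2 * α, ?_⟩
  rw [h9, map_add, map_add, map_smul, map_smul, map_smul, hqb, hqe, hαγ, hγ]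
  module

end Cfsg.Agent.Lib.TenW4_MX
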