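import Cfsg.Agent.Lib.CoprimeGen
import Mathlib.GroupTheory.Transfer

/-! S5873, pieces OB, KG, BUR (helper42): pure group theory. -/

set_option autoImplicit false
set_option linter.all false

namespace Cfsg.Agent.Lib.TenW4_OB

open Subgroup Pointwise

section
variable {G : Type*} [Group G]

theorem ob {M X N P : Subgroup G} [Finite M] {p : ℕ} (hp : p.Prime) (hPM : P ≤ M) (hP : IsPGroup p P) (hXP : X ≤ P)
    (hXN : X ≤ N) (hx : ∀ g ∈ M, (∀ x ∈ X, g * x * g⁻¹ ∈ N) → g ∈ N) : P ≤ N := by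
  haveI : Fact p.Prime := ⟨hp⟩
  haveI : Finite P := Finite.of_injective (Subgroup.inclusion hPM) (Subgroup.inclusion_injective _)
  haveI : Group.IsNilpotent P := hP.isNilpotent
  by_contra hcon
  have hne : N.subgroupOf P ≠ ⊤ := by
    intro h
    rw [Subgroup.subgroupOf_eq_top] at h
    exact hcon h
  have hlt := Group.normalizerCondition_of_isNilpotent (G := P) (N.subgroupOf P) (lt_top_iff_ne_top.2 hne)
  obtain ⟨g, hg, hgN⟩ := SetLike.exists_of_lt hlt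
  apply hgN
  rw [Subgroup.mem_subgroupOf]
  refine hx g (hPM g.2) fun x hxX => ?_
  rw [Subgroup.mem_normalizer_iff] at hg
  have h1 := (hg ⟨x, hXP hxX⟩).1 (by
    rw [Subgroup.mem_subgroupOf]
    exact hXN hxX)
  rw [Subgroup.mem_subgroupOf] at h1
  exact h1

theorem exists_ne_one {X : Subgroup G} [Finite X] {p : ℕ} (hp : p.Prime) (hcard : p ^ 2 ≤ Nat.card X) : ∃ x ∈ X, x ≠ 1 := by
  by_contra hcon
  push Not at hcon
  have : X = ⊥ := (Subgroup.eq_bot_iff_forall X).2 hcon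
  rw [this, Subgroup.card_bot] at hcard
  have := hp.two_le
  nlinarith

theorem isPGroup_of_exp {X : Subgroup G} {p : ℕ} (hexp : ∀ x ∈ X, x ^ p = 1) : IsPGroup p X := fun x =>
  ⟨1, Subtype.ext (by simpa using hexp x x.2)⟩

theorem kg_fin [Finite G] {X N K : Subgroup G} {p : ℕ} (hp : p.Prime)
    (hab : ∀ x ∈ X, ∀ y ∈ X, x * y = y * x) (hexp : ∀ x ∈ X, x ^ p = 1) (hcard : p ^ 2 ≤ Nat.card X) (hXN : X ≤ N)
    (hx : ∀ x ∈ X, x ≠ 1 → ∀ g, g * x * g⁻¹ ∈ N → g ∈ N)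
    (hn : ∀ x ∈ X, ∀ k ∈ K, x * k * x⁻¹ ∈ K)
    (h1 : ∀ k ∈ K, k ∈ N → orderOf k ≠ p) : K ≤ N := by
  haveI : Fact p.Prime := ⟨hp⟩
  have hXp : IsPGroup p X := isPGroup_of_exp hexp
  obtain ⟨x0, hx0, hx01⟩ := exists_ne_one hp hcard
  have hXK : X ≤ normalizer (K : Set G) := by
    intro x hxX
    rw [Subgroup.mem_normalizer_iff]
    intro k
    refine ⟨fun hk => hn x hxX k hk, fun hk => ?_⟩
    have := hn x⁻¹ (X.inv_mem hxX) _ hk
    simpa [mul_assoc] using this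
  have hndvd : ¬ p ∣ Nat.card K := by
    intro hd
    obtain ⟨k, hk⟩ := exists_prime_orderOf_dvd_card' p hd
    have hLN : X ⊔ K ≤ normalizer (K : Set G) := sup_le hXK Subgroup.le_normalizer
    have hkL : (k : G) ∈ X ⊔ K := (le_sup_right : K ≤ X ⊔ K) k.2
    have hok : orderOf (k : G) = p := by rw [Subgroup.orderOf_coe]; exact hk
    have hXL : IsPGroup p (X.subgroupOf (X ⊔ K)) :=
      hXp.of_equiv (Subgroup.subgroupOfEquivOfLe (le_sup_left : X ≤ X ⊔ K)).symm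
    obtain ⟨P, hP⟩ := hXL.exists_le_sylow
    have hkP : IsPGroup p (Subgroup.zpowers (⟨k, hkL⟩ : (X ⊔ K : Subgroup G))) := by
      apply IsPGroup.of_card (n := 1)
      rw [Nat.card_zpowers, pow_one, ← hok]
      exact (Subgroup.orderOf_coe (⟨(k : G), hkL⟩ : (X ⊔ K : Subgroup G))).symm
    obtain ⟨P2, hP2⟩ := hkP.exists_le_sylow
    obtain ⟨g, hg⟩ := MulAction.exists_smul_eq (X ⊔ K : Subgroup G) P2 P
    have hkP2 : (⟨(k : G), hkL⟩ : (X ⊔ K : Subgroup G)) ∈ (P2 : Subgroup (X ⊔ K : Subgroup G)) := hP2 (Subgroup.mem_zpowers _)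
    have hgk : g * ⟨(k : G), hkL⟩ * g⁻¹ ∈ P := by
      rw [← hg]
      have : (g * ⟨(k : G), hkL⟩ * g⁻¹) ∈ (MulAut.conj g) • (P2 : Subgroup (X ⊔ K : Subgroup G)) := by
        rw [Subgroup.mem_pointwise_smul_iff_inv_smul_mem]
        rw [← map_inv, MulAut.smul_def, MulAut.conj_apply]
        simpa [mul_assoc] using hkP2
      exact this
    have hPN : (P : Subgroup (X ⊔ K : Subgroup G)).map (X ⊔ K : Subgroup G).subtype ≤ N := by
      haveI : Finite (⊤ : Subgroup G) := inferInstance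
      refine ob (M := ⊤) (X := X) hp le_top (P.2.map _) ?_ hXN ?_
      · intro x hxX
        exact ⟨⟨x, (le_sup_left : X ≤ X ⊔ K) hxX⟩, hP (by rw [Subgroup.mem_subgroupOf]; exact hxX), rfl⟩
      · intro g _ hg
        exact hx x0 hx0 hx01 g (hg x0 hx0)
    have hmem : (g : G) * k * (g : G)⁻¹ ∈ N := hPN ⟨_, hgk, rfl⟩
    have hmK : (g : G) * k * (g : G)⁻¹ ∈ K := ((Subgroup.mem_normalizer_iff.1 (hLN g.2)) k).1 k.2
    refine h1 _ hmK hmem ?_
    have : (g : G) * k * (g : G)⁻¹ = MulAut.conj (g : G) (k : G) := rfl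
    rw [this, MulEquiv.orderOf_eq, hok]
  have hnc : ¬ IsCyclic X := by
    intro hc
    obtain ⟨g, hg⟩ := hc.exists_ofOrder_eq_natCard
    have h2 : orderOf g ∣ p := orderOf_dvd_of_pow_eq_one (Subtype.ext (by simpa using hexp g g.2))
    rw [hg] at h2
    have h3 := Nat.le_of_dvd hp.pos h2
    have := hp.two_le
    nlinarith
  have hcop : (Nat.card X).Coprime (Nat.card K) := by
    obtain ⟨n, hn'⟩ := IsPGroup.iff_card.1 hXp
    rw [hn']
    exact Nat.Coprime.pow_left _ ((Nat.Prime.coprime_iff_not_dvd hp).2 hndvd)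
  have hX2 : IsMulCommutative X := ⟨⟨fun a b => Subtype.ext (hab a a.2 b b.2)⟩⟩
  have h := CoprimeGen.iSup_centralizer_eq hX2 hnc hXK hcop
  rw [← h]
  refine iSup₂_le fun a ha k hk => ?_
  obtain ⟨haX, ha1⟩ := ha
  have h5 : a * k = k * a := by
    have := Subgroup.mem_centralizer_iff.1 hk.2 a (Set.mem_singleton a)
    exact this
  refine hx a haX ha1 k ?_
  rw [← h5, mul_assoc, mul_inv_cancel, mul_one]
  exact hXN haX

theorem kg {M X N K : Subgroup G} [Finite M] {p : ℕ} (hp : p.Prime) (hXM : X ≤ M) (hNM : N ≤ M) (hKM : K ≤ M)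
    (hab : ∀ x ∈ X, ∀ y ∈ X, x * y = y * x) (hexp : ∀ x ∈ X, x ^ p = 1) (hcard : p ^ 2 ≤ Nat.card X) (hXN : X ≤ N)
    (hx : ∀ x ∈ X, x ≠ 1 → ∀ g ∈ M, g * x * g⁻¹ ∈ N → g ∈ N)
    (hn : ∀ x ∈ X, ∀ k ∈ K, x * k * x⁻¹ ∈ K)
    (h1 : ∀ k ∈ K, k ∈ N → orderOf k ≠ p) : K ≤ N := by
  have h := kg_fin (G := M) (X := X.subgroupOf M) (N := N.subgroupOf M) (K := K.subgroupOf M) hp
    (fun x hx y hy => Subtype.ext (hab x hx y hy))
    (fun x hx => Subtype.ext (by simpa using hexp x hx))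
    (by rw [Nat.card_congr (Subgroup.subgroupOfEquivOfLe hXM).toEquiv]; exact hcard)
    (fun x hx => hXN hx)
    (fun x hxX hx1 g hg => hx x hxX (fun h => hx1 (Subtype.ext h)) g g.2 hg)
    (fun x hxX k hk => hn x hxX k hk)
    (fun k hk hkN h => h1 k hk hkN (by rw [Subgroup.orderOf_coe]; exact h))
  intro k hk
  exact h (show (⟨k, hKM hk⟩ : M) ∈ K.subgroupOf M from hk)

theorem bur {M X S N C : Subgroup G} [Finite M] {p : ℕ} (hp : p.Prime) (hCM : C ≤ M) (hNM : N ≤ M) (hSC : S ≤ C)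
    (hXS : X ≤ S) (hSN : S ≤ N) (hS : IsPGroup p S)
    (hab : ∀ x ∈ X, ∀ y ∈ X, x * y = y * x) (hexp : ∀ x ∈ X, x ^ p = 1) (hcard : p ^ 2 ≤ Nat.card X)
    (hx : ∀ x ∈ X, x ≠ 1 → ∀ g ∈ M, g * x * g⁻¹ ∈ N → g ∈ N)
    (hsyl : ∀ g ∈ C, g ∈ N → (∃ k : ℕ, g ^ (p ^ k) = 1) → g ∈ S)
    (hcen : ∀ g ∈ C, g ∈ N → ∀ s ∈ S, g * s = s * g) : C ≤ N := by
  haveI : Fact p.Prime := ⟨hp⟩
  haveI : Finite C := Finite.of_injective (Subgroup.inclusion hCM) (Subgroup.inclusion_injective _)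
  haveI : Finite X := Finite.of_injective (Subgroup.inclusion (hXS.trans (hSC.trans hCM))) (Subgroup.inclusion_injective _)
  obtain ⟨x0, hx0, hx01⟩ := exists_ne_one hp hcard
  have hSp : IsPGroup p (S.subgroupOf C) := hS.of_equiv (Subgroup.subgroupOfEquivOfLe hSC).symm
  obtain ⟨P, hP⟩ := hSp.exists_le_sylow
  have hPN : (P : Subgroup C).map C.subtype ≤ N := by
    refine ob (M := M) (X := X) hp ?_ (P.2.map _) ?_ (hXS.trans hSN) ?_
    · rintro _ ⟨y, _, rfl⟩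
      exact hCM y.2
    · intro x hxX
      exact ⟨⟨x, hSC (hXS hxX)⟩, hP (by rw [Subgroup.mem_subgroupOf]; exact hXS hxX), rfl⟩
    · intro g hgM hg
      exact hx x0 hx0 hx01 g hgM (hg x0 hx0)
  have hPS : ∀ y : C, y ∈ (P : Subgroup C) → (y : G) ∈ S := by
    intro y hy
    refine hsyl y y.2 (hPN ⟨y, hy, rfl⟩) ?_
    obtain ⟨k, hk⟩ := P.2 ⟨y, hy⟩
    refine ⟨k, ?_⟩
    have := congrArg (fun z : (P : Subgroup C) => ((z : C) : G)) hk
    simpa using this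
  have hSP : ∀ y : C, (y : G) ∈ S → y ∈ (P : Subgroup C) := fun y hy => hP (by rw [Subgroup.mem_subgroupOf]; exact hy)
  have hnorm : normalizer ((P : Subgroup C) : Set C) ≤ centralizer ((P : Subgroup C) : Set C) := by
    intro g hg
    rw [Subgroup.mem_normalizer_iff] at hg
    have h1 := (hg ⟨x0, hSC (hXS hx0)⟩).1 (hSP _ (hXS hx0))
    have h2 : (g : G) * x0 * (g : G)⁻¹ ∈ N := hSN (hPS _ h1)
    have hgN := hx x0 hx0 hx01 g (hCM g.2) h2
    rw [Subgroup.mem_centralizer_iff]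
    intro s hs
    exact (Subtype.ext (hcen g g.2 hgN s (hPS s hs))).symm
  have hcomp := MonoidHom.ker_transferSylow_isComplement' P hnorm
  have hnd := MonoidHom.not_dvd_card_ker_transferSylow P hnorm
  set T := (MonoidHom.transferSylow P hnorm).ker with hT
  have hTN : T.map C.subtype ≤ N := by
    refine kg (M := M) (X := X) hp (hXS.trans (hSC.trans hCM)) hNM ?_ hab hexp hcard (hXS.trans hSN) hx ?_ ?_
    · rintro _ ⟨y, _, rfl⟩
      exact hCM y.2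
    · rintro x hxX _ ⟨y, hy, rfl⟩
      refine ⟨⟨x, hSC (hXS hxX)⟩ * y * ⟨x, hSC (hXS hxX)⟩⁻¹, ?_, rfl⟩
      exact (inferInstance : T.Normal).conj_mem y hy _
    · rintro _ ⟨y, hy, rfl⟩ _ ho
      apply hnd
      have h1 : orderOf (⟨y, hy⟩ : T) = p := by
        rw [← ho]
        rw [← Subgroup.orderOf_coe, ← Subgroup.orderOf_coe]
        rfl
      rw [← h1]
      exact orderOf_dvd_natCard _
  intro c hc
  have h1 : (⟨c, hc⟩ : C) ∈ ((T : Set C) * ((P : Subgroup C) : Set C)) := by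
    rw [hcomp.mul_eq]
    trivial
  obtain ⟨t, ht, s, hs, hts⟩ := h1
  have h2 : c = (t : G) * (s : G) := (congrArg Subtype.val hts).symm
  rw [h2]
  exact N.mul_mem (hTN ⟨t, ht, rfl⟩) (hPN ⟨s, hs, rfl⟩)

end

end Cfsg.Agent.Lib.TenW4_OB
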