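import Cfsg.Agent.Lib.TenW40

/-! S5873, piece U (helper47): a unipotent isometry in Witt index at most one is a Siegel map. -/

set_option autoImplicit false

namespace Cfsg.Agent.Lib.TenW4_U

open QuadraticMap Module Cfsg.Agent.Lib.Quad Cfsg.Agent.Lib.TenW4

variable {F : Type*} [Field F] {ℓ : ℕ}

theorem sg_of {X : Type*} [AddCommGroup X] [Module F X] [FiniteDimensional F X] {Q : QuadraticForm F X}
    (h2 : (2 : F) ≠ 0) (hQ : Nd Q)
    (hw : ∀ x y : X, Q x = 0 → Q y = 0 → polar Q x y = 0 → x ≠ 0 → ∃ c : F, y = c • x) (hℓ : ℓ.Prime) [CharP F ℓ]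
    {g : X ≃ₗ[F] X} (hg : g ∈ O Q) (hu : ∃ k : ℕ, g ^ (ℓ ^ k) = 1) (h1 : g ≠ 1) : ∃ a f, Sg Q a f g := by
  have hpol := O_polar hg
  have hgQ : ∀ v, Q (g v) = Q v := hg
  have hxx : ∀ x : X, polar Q x x = 2 * Q x := by
    intro x
    rw [polar_self, nsmul_eq_mul, Nat.cast_ofNat]
  have hsing : ∀ x : X, polar Q x x = 0 → Q x = 0 := by
    intro x hx
    rw [hxx] at hx
    exact (mul_eq_zero.1 hx).resolve_left h2
  obtain ⟨k, hk⟩ := hu
  set D : X →ₗ[F] X := (g : X →ₗ[F] X) - 1 with hD
  have hDa : ∀ x, D x = g x - x := fun x => rfl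
  have hnil : D ^ (ℓ ^ k) = 0 := by
    haveI : Nontrivial X := by
      by_contra hX
      rw [not_nontrivial_iff_subsingleton] at hX
      exact h1 (by ext x; exact Subsingleton.elim _ _)
    haveI : CharP (Module.End F X) ℓ :=
      charP_of_injective_algebraMap (algebraMap F (Module.End F X)).injective ℓ
    haveI : Fact ℓ.Prime := ⟨hℓ⟩
    have hp : ∀ n : ℕ, (g : X →ₗ[F] X) ^ n = ((g ^ n : X ≃ₗ[F] X) : X →ₗ[F] X) := by
      intro n
      induction n with
      | zero => rfl
      | succ n ih => rw [pow_succ, pow_succ, ih]; rfl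
    rw [hD, sub_pow_char_pow_of_commute _ _ (Commute.one_right _), hp, hk, one_pow]
    exact sub_self _
  -- `ker D` is orthogonal to `im D`
  have hperp : ∀ x y, D x = 0 → polar Q x (D y) = 0 := by
    intro x y hx
    rw [hDa, sub_eq_zero] at hx
    rw [hDa, polar_sub_right]
    nth_rewrite 1 [← hx]
    rw [hpol, sub_self]
  have hD0 : D ≠ 0 := by
    intro h
    apply h1
    ext x
    have h3 := congrArg (fun f : X →ₗ[F] X => f x) h
    simp only [hDa, LinearMap.zero_apply, sub_eq_zero] at h3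
    exact h3
  obtain ⟨n, hn, hn'⟩ : ∃ n, D ^ (n + 1) = 0 ∧ D ^ n ≠ 0 := by
    classical
    have hex : ∃ m, D ^ m = 0 := ⟨_, hnil⟩
    have hm := Nat.find_spec hex
    have hm0 : Nat.find hex ≠ 0 := by
      intro h0
      rw [h0, pow_zero] at hm
      apply hD0
      rw [← mul_one D, hm, mul_zero]
    obtain ⟨n, hn⟩ := Nat.exists_eq_succ_of_ne_zero hm0
    refine ⟨n, ?_, ?_⟩
    · rw [hn] at hm; exact hm
    · exact Nat.find_min hex (by rw [hn]; exact Nat.lt_succ_self n)
  have hn0 : n ≠ 0 := by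
    rintro rfl
    rw [zero_add, pow_one] at hn
    exact hD0 hn
  obtain ⟨m, rfl⟩ := Nat.exists_eq_succ_of_ne_zero hn0
  obtain ⟨v, hv⟩ : ∃ v, (D ^ (m + 1)) v ≠ 0 := by
    by_contra hcon
    push Not at hcon
    exact hn' (LinearMap.ext hcon)
  obtain ⟨a, ha⟩ : ∃ a, a = (D ^ (m + 1)) v := ⟨_, rfl⟩
  rw [← ha] at hv
  have haD : a = D ((D ^ m) v) := by rw [ha, pow_succ']; rfl
  have hDa0 : D a = 0 := by
    have h3 := congrArg (fun f : X →ₗ[F] X => f v) hn
    rw [ha]
    rw [pow_succ'] at h3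
    exact h3
  have hga : g a = a := by
    rw [hDa, sub_eq_zero] at hDa0
    exact hDa0
  have haa : polar Q a a = 0 := by
    have := hperp a ((D ^ m) v) hDa0
    rwa [← haD] at this
  have hQa : Q a = 0 := hsing a haa
  have haim : ∀ y, polar Q a (D y) = 0 := fun y => hperp a y hDa0
  -- on `a^⊥` the map `D` has values in `F a`
  have hstep : ∀ j : ℕ, (∀ y, polar Q a y = 0 → ∃ c : F, (D ^ (j + 2)) y = c • a) →
      ∀ y, polar Q a y = 0 → ∃ c : F, (D ^ (j + 1)) y = c • a := by
    intro j hj y hy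
    obtain ⟨c, hc⟩ := hj y hy
    obtain ⟨w', hw'⟩ : ∃ w', w' = (D ^ j) y := ⟨_, rfl⟩
    have hww : (D ^ (j + 1)) y = D w' := by rw [hw', pow_succ']; rfl
    have hww2 : (D ^ (j + 2)) y = D (D w') := by rw [pow_succ', ← hww]; rfl
    rw [hww]
    rw [hww2] at hc
    have haw' : polar Q a w' = 0 := by
      rw [hw']
      rcases Nat.eq_zero_or_pos j with rfl | hj0
      · rw [pow_zero]; exact hy
      · obtain ⟨i, rfl⟩ := Nat.exists_eq_succ_of_ne_zero hj0.ne'
        rw [pow_succ']; exact haim _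
    obtain ⟨w, hwd⟩ : ∃ w, w = D w' := ⟨_, rfl⟩
    rw [← hwd] at hc ⊢
    have haw : polar Q a w = 0 := by rw [hwd]; exact haim _
    have hgw' : g w' = w' + w := by rw [hwd, hDa]; abel
    have hgw : g w = w + c • a := by
      rw [← hc, hDa]; abel
    have h3 := hpol w w'
    rw [hgw, hgw', polar_add_left, polar_add_right, polar_add_right, polar_smul_left, polar_smul_left, haw', haw] at h3
    have h4 : polar Q w w = 0 := by
      simp only [smul_zero, add_zero] at h3
      linear_combination h3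
    exact hw a w hQa (hsing w h4) haw hv
  have hall : ∀ i : ℕ, ∀ y, polar Q a y = 0 → ∃ c : F, (D ^ (ℓ ^ k - i + 1)) y = c • a := by
    intro i
    induction i with
    | zero =>
      intro y _
      refine ⟨0, ?_⟩
      rw [Nat.sub_zero, pow_succ', hnil]
      simp
    | succ i ih =>
      rcases Nat.lt_or_ge i (ℓ ^ k) with hi | hi
      · have e : ℓ ^ k - i = (ℓ ^ k - (i + 1)) + 1 := by omega
        apply hstep
        rw [e] at ih
        exact ih
      · have e : ℓ ^ k - (i + 1) = ℓ ^ k - i := by omega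
        rw [e]; exact ih
  have hDy : ∀ y, polar Q a y = 0 → ∃ c : F, D y = c • a := by
    have := hall (ℓ ^ k)
    rwa [Nat.sub_self, zero_add, pow_one] at this
  -- the vector `a'`
  obtain ⟨a', ha'⟩ : ∃ a', polar Q a a' = 1 := by
    by_contra hcon
    push Not at hcon
    apply hv
    apply hQ.eq_zero
    intro y
    by_contra hy
    apply hcon ((polar Q a y)⁻¹ • y)
    rw [polar_smul_right, smul_eq_mul, inv_mul_cancel₀ hy]
  obtain ⟨u, hu⟩ : ∃ u, u = D a' := ⟨_, rfl⟩
  have hga' : g a' = a' + u := by rw [hu, hDa]; abel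
  have hau : polar Q a u = 0 := by rw [hu]; exact haim _
  have hQu : Q u + polar Q a' u = 0 := by
    have h3 := hgQ a'
    rw [hga', Q_add] at h3
    linear_combination h3
  have hga'' : siegMap Q a u a' = g a' := by
    rw [siegMap_apply, ha', hga', polar_comm Q u a']
    have : polar Q a' u = - Q u := by linear_combination hQu
    rw [this]
    module
  have hy : ∀ y, polar Q a y = 0 → siegMap Q a u y = g y := by
    intro y hy
    obtain ⟨c, hc⟩ := hDy y hy
    have hgy : g y = y + c • a := by rw [← hc, hDa]; abel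
    have h3 := hpol y a'
    rw [hgy, hga', polar_add_left, polar_add_right, polar_add_right, polar_smul_left, polar_smul_left, ha', hau] at h3
    have h4 : c = - polar Q u y := by
      rw [polar_comm Q u y]
      simp only [smul_eq_mul] at h3
      linear_combination h3
    rw [siegMap_apply, hy, hgy, h4]
    module
  have hmap : ∀ x, g x = siegMap Q a u x := by
    intro x
    have h3 : polar Q a (x - polar Q a x • a') = 0 := by
      rw [polar_sub_right, polar_smul_right, ha', smul_eq_mul, mul_one, sub_self]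
    have h4 := hy _ h3
    rw [map_sub, map_sub, map_smul, map_smul, hga''] at h4
    exact (sub_left_injective h4).symm
  refine ⟨a, u, hQa, hv, hau, ?_, hmap⟩
  intro hQu0
  obtain ⟨c, hc⟩ := hw a u hQa hQu0 hau hv
  have h3 : c = 0 := by
    rw [hQu0, zero_add, hc, polar_smul_right, polar_comm Q a' a, ha', smul_eq_mul, mul_one] at hQu
    exact hQu
  rw [h3, zero_smul] at hc
  apply h1
  ext x
  rw [hmap x, hc, siegMap_apply]
  simp

end Cfsg.Agent.Lib.TenW4_U
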