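import Cfsg.Agent.Lib.TenW4_PN0
import Cfsg.Agent.Lib.TenW4_U

/-!
# Pairs of `ℓ`-power order (helper32)
-/

set_option autoImplicit false
set_option linter.unusedSectionVars false
set_option linter.unusedVariables false

namespace Cfsg.Agent.Lib.TenW4_PN

open QuadraticMap Module Cfsg.Agent.Lib.Quad Cfsg.Agent.Lib.OrthMax Cfsg.Agent.Lib.OrthNd Cfsg.Agent.Lib.TenSLH94
  Cfsg.Agent.Lib.TenOO Cfsg.Agent.Lib.TenW4

variable {F E W : Type*} [Field F] [AddCommGroup E] [Module F E] [FiniteDimensional F E]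
  [AddCommGroup W] [Module F W] [FiniteDimensional F W] [Finite F]
  {QE : QuadraticForm F E} {QW : QuadraticForm F W} {Q : QuadraticForm F (W →ₗ[F] E)}
  {M : Subgroup ((W →ₗ[F] E) ≃ₗ[F] (W →ₗ[F] E))} {ℓ : ℕ}

theorem pnf (T : T4 QE QW Q M) (hℓ : ℓ.Prime) [CharP F ℓ] {u} (hu : u ∈ NN M) (ho : ∃ k : ℕ, u ^ (ℓ ^ k) = 1) :
    ∃ (p : E ≃ₗ[F] E) (q : W ≃ₗ[F] W), u = ac p q ∧ (p = 1 ∨ ∃ a f, Sg QE a f p) ∧ (q = 1 ∨ ∃ b e, Sg QW b e q) :=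
  pnf_of T hℓ (fun _ hg hk h1 => TenW4_U.sg_of T.h2 T.ndE (hminE T) hℓ hg hk h1)
    (fun _ hg hk h1 => TenW4_U.sg_of T.h2 T.ndW T.hmin hℓ hg hk h1) hu ho

end Cfsg.Agent.Lib.TenW4_PN
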