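import Cfsg.Agent.Lib.TenW40
import Cfsg.Agent.Lib.TenOO_L
import Cfsg.Agent.Lib.HypSys

/-!
# Overgroups of `O₃ ⊗ O₄⁻`: the root groups (piece XB of S5873-PLAN, helper91)
-/

set_option autoImplicit false
set_option linter.unusedSectionVars false
set_option linter.unusedVariables false

open QuadraticMap Module Cfsg.Agent.Lib.Quad Cfsg.Agent.Lib.OrthMax Cfsg.Agent.Lib.OrthNd Cfsg.Agent.Lib.TenSLH94
  Cfsg.Agent.Lib.TenOO Cfsg.Agent.Lib.TenW4

namespace Cfsg.Agent.Lib.TenW4_XB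

variable {F E W : Type*} [Field F] [AddCommGroup E] [Module F E] [FiniteDimensional F E]
  [AddCommGroup W] [Module F W] [FiniteDimensional F W] [Finite F]
  {QE : QuadraticForm F E} {QW : QuadraticForm F W} {Q : QuadraticForm F (W →ₗ[F] E)}
  {M : Subgroup ((W →ₗ[F] E) ≃ₗ[F] (W →ₗ[F] E))} {ℓ : ℕ}

theorem sgV_comp {b e e' : W} (hb : QW b = 0) (h : polar QW b e = 0) (h' : polar QW b e' = 0) (v : W →ₗ[F] E) :
    SgV QW b e (SgV QW b e' v) = SgV QW b (e + e') v := by
  have hb' : QW (-b) = 0 := by rw [QuadraticMap.map_neg]; exact hb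
  have h1 : polar QW (-b) e = 0 := by rw [polar_neg_left, h, neg_zero]
  have h2 : polar QW (-b) e' = 0 := by rw [polar_neg_left, h', neg_zero]
  rw [SgV_eq, SgV_eq, SgV_eq]
  ext w
  simp only [LinearMap.comp_apply]
  rw [HypSys.siegMap_comp QW hb' h2 h1, add_comm]

theorem sgV_zero (b : W) (v : W →ₗ[F] E) : SgV QW b 0 v = v := by
  rw [SgV_eq]
  ext w
  simp only [LinearMap.comp_apply]
  rw [HypSys.siegMap_zero]

theorem sgV_pow {b e : W} (hb : QW b = 0) (h : polar QW b e = 0) {x : (W →ₗ[F] E) ≃ₗ[F] (W →ₗ[F] E)}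
    (hx : ∀ v, x v = SgV QW b e v) (n : ℕ) (v : W →ₗ[F] E) : (x ^ n) v = SgV QW b (n • e) v := by
  induction n generalizing v with
  | zero => rw [pow_zero, zero_smul, sgV_zero]; rfl
  | succ n ih =>
    rw [pow_succ', LinearEquiv.mul_apply, ih, hx, sgV_comp hb h, succ_nsmul']
    rw [← Nat.cast_smul_eq_nsmul F, polar_smul_right, h, smul_zero]

/-- the root group -/
def Xg (QW : QuadraticForm F W) (b : W) (hQb : QW b = 0) : Subgroup ((W →ₗ[F] E) ≃ₗ[F] (W →ₗ[F] E)) where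
  carrier := {x | XB QW b x}
  mul_mem' := by
    rintro x y ⟨e, he, hx⟩ ⟨e', he', hy⟩
    refine ⟨e + e', by rw [polar_add_right, he, he', add_zero], fun v => ?_⟩
    rw [LinearEquiv.mul_apply, hx, hy, sgV_comp hQb he he']
  one_mem' := ⟨0, by rw [polar_zero_right], fun v => by rw [sgV_zero]; rfl⟩
  inv_mem' := by
    rintro x ⟨e, he, hx⟩
    have he' : polar QW b (-e) = 0 := by rw [polar_neg_right, he, neg_zero]
    refine ⟨-e, he', fun v => ?_⟩
    have h1 : x (SgV QW b (-e) v) = v := by rw [hx, sgV_comp hQb he he', add_neg_cancel, sgV_zero]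
    calc x⁻¹ v = x⁻¹ (x (SgV QW b (-e) v)) := by rw [h1]
      _ = SgV QW b (-e) v := by rw [← LinearEquiv.mul_apply, inv_mul_cancel]; rfl

theorem exists_x (T : T4 QE QW Q M) {b e : W} (hQb : QW b = 0) (h : polar QW b e = 0) :
    ∃ x ∈ NN M, ∀ v, x v = SgV QW b e v := by
  obtain ⟨s, hs, hsv⟩ := T.tB b e hQb h
  have hb' : QW (-b) = 0 := by rw [QuadraticMap.map_neg]; exact hQb
  have h1 : polar QW (-b) e = 0 := by rw [polar_neg_left, h, neg_zero]
  refine ⟨s, mem_NN.mpr ⟨hs, 1, (HypSys.sg QW (-b) e)⁻¹, ?_⟩, hsv⟩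
  ext v w
  rw [hsv, SgV_eq, LinearMap.comp_apply, ac_apply]
  show v _ = v (HypSys.sg QW (-b) e w)
  rw [HypSys.sg_apply hb' h1, siegMap_apply]

theorem sgV_inj (T : T4 QE QW Q M) {b e e' : W} (hb : b ≠ 0) (h : ∀ v : W →ₗ[F] E, SgV QW b e v = SgV QW b e' v) :
    ∃ c : F, e - e' = c • b := by
  obtain ⟨w, hw⟩ := T.ndW.exists_polar_one' hb
  have hS : siegMap QW (-b) e w = siegMap QW (-b) e' w := by
    rw [← sub_eq_zero, ← Module.forall_dual_apply_eq_zero_iff F]
    intro f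
    have hE : Nontrivial E := Module.nontrivial_of_finrank_pos (R := F) (by rw [T.hE3]; norm_num)
    obtain ⟨a, ha⟩ := exists_ne (0 : E)
    have h1 := h (f.smulRight a)
    rw [SgV_eq, SgV_eq] at h1
    have h2 := congrArg (fun v : W →ₗ[F] E => v w) h1
    simp only [LinearMap.comp_apply, LinearMap.smulRight_apply] at h2
    rw [← sub_eq_zero, ← sub_smul] at h2
    rw [map_sub]
    exact (smul_eq_zero.1 h2).resolve_right ha
  rw [siegMap_apply, siegMap_apply] at hS
  simp only [polar_neg_left, hw] at hS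
  refine ⟨polar QW e w - polar QW e' w - QW e + QW e', ?_⟩
  have h3 : e - e' = (w + (-1 : F) • e' - polar QW e' w • (-b) - (QW e' * -1) • (-b)) -
      (w + (-1 : F) • e - polar QW e w • (-b) - (QW e * -1) • (-b)) +
      (polar QW e w - polar QW e' w - QW e + QW e') • b := by module
  rw [h3, hS, sub_self, zero_add]

theorem xb (T : T4 QE QW Q M) (hℓ : ℓ.Prime) [CharP F ℓ] {b : W} (hb : b ≠ 0) (hQb : QW b = 0) :
    ∃ X : Subgroup ((W →ₗ[F] E) ≃ₗ[F] (W →ₗ[F] E)), (∀ x, x ∈ X ↔ XB QW b x) ∧ X ≤ NN M ∧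
      (∀ x ∈ X, ∀ y ∈ X, x * y = y * x) ∧ (∀ x ∈ X, x ^ ℓ = 1) ∧ ℓ ^ 2 ≤ Nat.card X := by
  classical
  refine ⟨Xg QW b hQb, fun x => Iff.rfl, ?_, ?_, ?_, ?_⟩
  · rintro x ⟨e, he, hx⟩
    obtain ⟨y, hy, hyv⟩ := exists_x T hQb he
    have : x = y := LinearEquiv.ext fun v => by rw [hx, hyv]
    rw [this]; exact hy
  · rintro x ⟨e, he, hx⟩ y ⟨e', he', hy⟩
    refine LinearEquiv.ext fun v => ?_
    rw [LinearEquiv.mul_apply, LinearEquiv.mul_apply, hx, hy, hy, hx, sgV_comp hQb he he', sgV_comp hQb he' he, add_comm]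
  · rintro x ⟨e, he, hx⟩
    refine LinearEquiv.ext fun v => ?_
    rw [sgV_pow hQb he hx, ← Nat.cast_smul_eq_nsmul F, CharP.cast_eq_zero, zero_smul, sgV_zero]
    rfl
  · obtain ⟨U, hU⟩ := Submodule.exists_isCompl (F ∙ b)
    set P := perp QW (F ∙ b) with hP
    have h1 : finrank F ↥(F ∙ b) = 1 := finrank_span_singleton hb
    have h2 := T.ndW.finrank_add_finrank_perp (F ∙ b)
    rw [← hP] at h2
    have h3 := Submodule.finrank_add_eq_of_isCompl hU
    have h4 := Submodule.finrank_sup_add_finrank_inf_eq U P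
    have h5 : finrank F ↥(U ⊔ P) ≤ finrank F W := Submodule.finrank_le _
    have h6 : 2 ≤ finrank F ↥(U ⊓ P) := by
      rw [T.hW4] at h2 h3 h5
      omega
    have hexi : ∀ u : ↥(U ⊓ P), ∃ x : ↥(Xg (E := E) QW b hQb), ∀ v, (x : (W →ₗ[F] E) ≃ₗ[F] (W →ₗ[F] E)) v = SgV QW b (u : W) v := by
      intro u
      have hu : polar QW b (u : W) = 0 := by
        have := (mem_perp_singleton (Q := QW)).1 u.2.2
        exact this
      obtain ⟨x, -, hx⟩ := exists_x T hQb hu
      exact ⟨⟨x, (u : W), hu, hx⟩, hx⟩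
    choose f hf using hexi
    have finj : Function.Injective f := by
      intro u u' huu
      obtain ⟨c, hc⟩ := sgV_inj T (E := E) (e := (u : W)) (e' := (u' : W)) hb (fun v => by
        have h7 := hf u v
        have h8 := hf u' v
        rw [huu] at h7
        exact h7.symm.trans h8)
      have h7 : (u : W) - u' ∈ (F ∙ b) ⊓ U := ⟨by rw [hc]; exact Submodule.smul_mem _ _ (Submodule.mem_span_singleton_self b),
        U.sub_mem u.2.1 u'.2.1⟩
      rw [hU.inf_eq_bot, Submodule.mem_bot, sub_eq_zero] at h7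
      exact Subtype.ext h7
    haveI : Finite ↥(Xg (E := E) QW b hQb) := by
      haveI : Finite W := Module.finite_of_finite F
      haveI : Finite E := Module.finite_of_finite F
      haveI : Finite (W →ₗ[F] E) := Module.finite_of_finite F
      haveI : Finite ((W →ₗ[F] E) ≃ₗ[F] (W →ₗ[F] E)) := Finite.of_injective (fun g => (g : (W →ₗ[F] E) → (W →ₗ[F] E))) (fun g h hgh => LinearEquiv.ext fun v => congrFun hgh v)
      infer_instance
    have h8 := Nat.card_le_card_of_injective f finj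
    have h9 : Nat.card ↥(U ⊓ P) = Nat.card F ^ finrank F ↥(U ⊓ P) := Module.natCard_eq_pow_finrank
    have h10 : ℓ ≤ Nat.card F := by
      have hne : Nat.card F ≠ 0 := Nat.card_ne_zero.mpr ⟨inferInstance, inferInstance⟩
      refine Nat.le_of_dvd (Nat.pos_of_ne_zero hne) ?_
      rw [← CharP.cast_eq_zero_iff F ℓ]
      haveI := Fintype.ofFinite F
      rw [Nat.card_eq_fintype_card]
      exact Nat.cast_card_eq_zero F
    calc ℓ ^ 2 ≤ Nat.card F ^ 2 := Nat.pow_le_pow_left h10 2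
      _ ≤ Nat.card F ^ finrank F ↥(U ⊓ P) := Nat.pow_le_pow_right (lt_of_lt_of_le hℓ.pos h10) h6
      _ = Nat.card ↥(U ⊓ P) := h9.symm
      _ ≤ _ := h8

end Cfsg.Agent.Lib.TenW4_XB
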