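import Cfsg.Agent.Lib.TenW40
import Cfsg.Agent.Lib.TenOO_L
import Cfsg.Agent.Lib.TenW4_PN

/-!
# `O₃ ⊗ O₄⁻`: elements conjugating a root element into the pairs are pairs
-/

set_option autoImplicit false
set_option linter.all false

namespace Cfsg.Agent.Lib.TenW4_XN

open QuadraticMap Module Cfsg.Agent.Lib.Quad Cfsg.Agent.Lib.OrthMax Cfsg.Agent.Lib.OrthNd Cfsg.Agent.Lib.TenSLH94
  Cfsg.Agent.Lib.TenOO Cfsg.Agent.Lib.TenW4

variable {F E W : Type*} [Field F] [AddCommGroup E] [Module F E] [FiniteDimensional F E]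
  [AddCommGroup W] [Module F W] [FiniteDimensional F W]
  {QE : QuadraticForm F E} {QW : QuadraticForm F W} {Q : QuadraticForm F (W →ₗ[F] E)}
  {M : Subgroup ((W →ₗ[F] E) ≃ₗ[F] (W →ₗ[F] E))} {ℓ : ℕ}

theorem tb_zero (b : W) : tb QW (0 : E) b = 0 := by
  apply LinearMap.ext; intro w; simp only [tb_apply, smul_zero, LinearMap.zero_apply]

theorem pself {X : Type*} [AddCommGroup X] [Module F X] {Q : QuadraticForm F X} {b : X} (h : Q b = 0) : polar Q b b = 0 := by
  rw [QuadraticMap.polar_self, h, smul_zero]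

/-- Siegel maps of `W` add up -/
theorem SgV_add {b e e' : W} (hb : QW b = 0) (he : polar QW b e = 0) (he' : polar QW b e' = 0) (v : W →ₗ[F] E) :
    SgV QW b e (SgV QW b e' v) = SgV QW b (e + e') v := by
  have hbb := pself hb
  have h1 : QW (e + e') = QW e + QW e' + polar QW e e' := QuadraticMap.map_add QW e e'
  apply LinearMap.ext
  intro w
  simp only [SgV, LinearMap.sub_apply, LinearMap.add_apply, tb_apply, LinearMap.smul_apply, hbb, polar_comm QW e b,
    polar_comm QW e' b, he, he', zero_smul, smul_zero, add_zero, sub_zero, h1, polar_add_left, map_add, polar_comm QW e' e]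
  module

theorem SgV_zero {b : W} (v : W →ₗ[F] E) : SgV QW b 0 v = v := by
  apply LinearMap.ext
  intro w
  simp only [SgV, LinearMap.sub_apply, LinearMap.add_apply, tb_apply, LinearMap.smul_apply, map_zero, polar_zero_left,
    zero_smul, smul_zero, add_zero, sub_zero, QuadraticMap.map_zero]

/-- root elements have order `ℓ` -/
theorem xb_pow (hℓ : ℓ.Prime) [CharP F ℓ] {b : W} (hb : QW b = 0) {x : (W →ₗ[F] E) ≃ₗ[F] (W →ₗ[F] E)}
    (hx : XB QW b x) : x ^ ℓ = 1 := by
  obtain ⟨e, hbe, hxv⟩ := hx
  have h1 : ∀ n : ℕ, ∀ v, (x ^ n) v = SgV QW b (n • e) v := by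
    intro n
    induction n with
    | zero => intro v; rw [zero_smul, SgV_zero]; rfl
    | succ n ih =>
      intro v
      rw [pow_succ']
      show x ((x ^ n) v) = _
      rw [ih, hxv, SgV_add hb hbe, succ_nsmul']
      rw [← Nat.cast_smul_eq_nsmul F, polar_smul_right, hbe, smul_zero]
  apply LinearEquiv.ext
  intro v
  rw [h1, ← Nat.cast_smul_eq_nsmul F, CharP.cast_eq_zero, zero_smul, SgV_zero]
  rfl

/-- double difference of a root element -/
theorem xb_two {b e : W} (hb : QW b = 0) (hbe : polar QW b e = 0) (v : W →ₗ[F] E) :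
    SgV QW b e (SgV QW b e v) - SgV QW b e v - (SgV QW b e v - v) = tb QW ((-(2 * QW e)) • v b) b := by
  have hbb := pself hb
  have hee : polar QW e e = 2 * QW e := by rw [QuadraticMap.polar_self, two_smul, two_mul]
  apply LinearMap.ext
  intro w
  simp only [SgV, LinearMap.sub_apply, LinearMap.add_apply, tb_apply, LinearMap.smul_apply, hbb, polar_comm QW e b, hbe,
    hee, zero_smul, smul_zero, add_zero, sub_zero]
  module

/-- double difference of a Siegel map -/
theorem sg_two {b e : W} (hb : QW b = 0) (hbe : polar QW b e = 0) (w : W) :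
    siegMap QW b e (siegMap QW b e w) - siegMap QW b e w - (siegMap QW b e w - w) = (-(2 * QW e) * polar QW b w) • b := by
  have hbb := pself hb
  have hee : polar QW e e = 2 * QW e := by rw [QuadraticMap.polar_self, two_smul, two_mul]
  simp only [siegMap_apply, sub_eq_add_neg, ← neg_smul, polar_add_right, polar_smul_right, hbb, polar_comm QW e b, hbe,
    hee, smul_eq_mul, mul_zero, add_zero]
  module

/-- a vector of a three-dimensional space orthogonal to a basis -/
theorem three_zero (h2 : (2 : F) ≠ 0) (hQ : Nd QE) (h3 : finrank F E = 3) {a f a' y : E} (hQa : QE a = 0)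
    (haf : polar QE a f = 0) (hQf : QE f ≠ 0) (haa' : polar QE a' a = 1) (h5 : polar QE a y = 0) (h7 : polar QE f y = 0)
    (hy0 : polar QE a' y = 0) : y = 0 := by
  have haa := pself hQa
  have hff : polar QE f f = 2 * QE f := by rw [QuadraticMap.polar_self, two_smul, two_mul]
  have hli : LinearIndependent F ![a, f, a'] := by
    rw [Fintype.linearIndependent_iff]
    intro c hc
    rw [Fin.sum_univ_three] at hc
    simp only [Matrix.cons_val_zero, Matrix.cons_val_one, Matrix.cons_val] at hc
    have e1 := congrArg (fun t => polar QE t a) hc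
    simp only [polar_add_left, polar_smul_left, haa, polar_comm QE f a, haf, haa', smul_eq_mul, mul_zero, mul_one, zero_add,
      polar_zero_left] at e1
    have e2 := congrArg (fun t => polar QE t f) hc
    simp only [polar_add_left, polar_smul_left, hff, haf, e1, smul_eq_mul, mul_zero, zero_mul, add_zero, zero_add,
      polar_zero_left] at e2
    have e3 : c 1 = 0 := (mul_eq_zero.1 e2).resolve_right (mul_ne_zero h2 hQf)
    have e4 := congrArg (fun t => polar QE a' t) hc
    simp only [polar_add_right, polar_smul_right, haa', e1, e3, smul_eq_mul, zero_mul, mul_one, add_zero,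
      polar_zero_right] at e4
    intro i
    fin_cases i
    · exact e4
    · exact e3
    · exact e1
  have hspan := hli.span_eq_top_of_card_eq_finrank (by rw [Fintype.card_fin, h3])
  have hmem : y ∈ perp QE (Submodule.span F (Set.range ![a, f, a'])) := by
    rw [mem_perp_span]
    rintro _ ⟨i, rfl⟩
    fin_cases i
    · exact h5
    · exact h7
    · exact hy0
  rw [hspan] at hmem
  apply hQ.eq_zero
  intro z
  rw [polar_comm]
  exact mem_perp.1 hmem z trivial

theorem xn_of (T : T4 QE QW Q M) (hF : FixF QW M) (hℓ : ℓ.Prime) [CharP F ℓ]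
    (hpnf : ∀ u ∈ NN M, (∃ k : ℕ, u ^ (ℓ ^ k) = 1) →
      ∃ (p : E ≃ₗ[F] E) (q : W ≃ₗ[F] W), u = ac p q ∧ (p = 1 ∨ ∃ a f, Sg QE a f p) ∧ (q = 1 ∨ ∃ b e, Sg QW b e q))
    {b : W} (hb : b ≠ 0) (hQb : QW b = 0) {x : (W →ₗ[F] E) ≃ₗ[F] (W →ₗ[F] E)}
    (hx : XB QW b x) (hx1 : x ≠ 1) {g : (W →ₗ[F] E) ≃ₗ[F] (W →ₗ[F] E)} (hg : g ∈ M) (h : g * x * g⁻¹ ∈ NN M) : g ∈ NN M := by
  have hpow := xb_pow (E := E) hℓ hQb hx
  obtain ⟨e, hbe, hxv⟩ := hx
  have h2 := T.h2
  have hQe : QW e ≠ 0 := by
    intro h0
    obtain ⟨c, hc⟩ := T.hmin b e hQb h0 hbe hb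
    apply hx1
    apply LinearEquiv.ext
    intro v
    rw [hxv]
    apply LinearMap.ext
    intro w
    rw [SgV, h0, hc]
    simp only [LinearMap.sub_apply, LinearMap.add_apply, tb_apply, polar_smul_left, map_smul, smul_eq_mul, zero_smul, sub_zero]
    show _ = v w
    module
  set u : (W →ₗ[F] E) ≃ₗ[F] (W →ₗ[F] E) := g * x * g⁻¹ with hu
  have hug : ∀ v, u (g v) = g (x v) := by
    intro v
    show g (x (g⁻¹ (g v))) = g (x v)
    have : g⁻¹ (g v) = v := g.symm_apply_apply v
    rw [this]
  have hupow : u ^ (ℓ ^ 1) = 1 := by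
    rw [pow_one, hu, conj_pow, hpow, mul_one, mul_inv_cancel]
  obtain ⟨p, q, hpq, hp, hq⟩ := hpnf u h ⟨1, hupow⟩
  rcases hp with rfl | ⟨a, f, hQa, ha, haf, hQf, hpx⟩
  · -- p = 1
    rcases hq with rfl | ⟨b', e', hQb', hb', hbe', hQe', hqx⟩
    · exfalso
      apply hx1
      have h3 : g * x * g⁻¹ = 1 := hpq
      have h4 : g * x = g := by
        have := congrArg (fun t => t * g) h3
        simpa using this
      exact mul_eq_left.1 h4
    · -- q Siegel
      have hcomp : ∀ v : W →ₗ[F] E, (u v) ∘ₗ (q : W →ₗ[F] W) = v := by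
        intro v
        apply LinearMap.ext
        intro w
        rw [LinearMap.comp_apply, hpq, ac_apply, LinearEquiv.coe_coe, q.symm_apply_apply]
        rfl
      have hgx : ∀ v w, g (x v) (q w) = g v w := by
        intro v w
        have := congrArg (fun t : W →ₗ[F] E => t w) (hcomp (g v))
        rw [hug] at this
        exact this
      have key : ∀ v : W →ₗ[F] E, g (tb QW ((-(2 * QW e)) • v b) b) = tb QW ((-(2 * QW e')) • (g (x (x v))) b') b' := by
        intro v
        rw [← xb_two hQb hbe, ← hxv, ← hxv, map_sub, map_sub, map_sub]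
        apply LinearMap.ext
        intro w
        rw [LinearMap.sub_apply, LinearMap.sub_apply, LinearMap.sub_apply]
        have e1 : g (x v) w = g (x (x v)) (q w) := (hgx (x v) w).symm
        have e2 : g v w = g (x (x v)) (q (q w)) := by rw [hgx (x v), hgx v]
        rw [e1, e2, tb_apply]
        have h5 := congrArg (g (x (x v))) (sg_two hQb' hbe' w)
        rw [map_sub, map_sub, map_sub, map_smul, ← hqx, ← hqx] at h5
        rw [← sub_eq_zero] at h5 ⊢
        rw [← h5]
        module
      obtain ⟨b1, hb1⟩ := T.ndW.exists_polar_one' hb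
      have hc : (-(2 * QW e)) ≠ 0 := neg_ne_zero.2 (mul_ne_zero h2 hQe)
      refine ⟨hg, hF g hg b b' hb hQb hb' hQb' (fun y => ?_)⟩
      have hk := key (tb QW ((-(2 * QW e))⁻¹ • y) b1)
      rw [tb_apply, polar_comm, hb1, one_smul, smul_smul, mul_inv_cancel₀ hc, one_smul] at hk
      exact ⟨_, hk⟩
  · -- p Siegel: dimensions
    exfalso
    obtain ⟨a', ha'⟩ := T.ndE.exists_polar_one' ha
    let lam : E →ₗ[F] F := polarBilin QE a'
    have hlam : lam a = 1 := by show polar QE a' a = 1; rw [polar_comm]; exact ha'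
    let Φ : (W →ₗ[F] E) →ₗ[F] ((E × E) × Dual F W) :=
      LinearMap.prod (LinearMap.prod (LinearMap.applyₗ b) (LinearMap.applyₗ e))
        ((LinearMap.llcomp F W E F lam) ∘ₗ (g : (W →ₗ[F] E) →ₗ[F] (W →ₗ[F] E)))
    have hΦ : ∀ v, Φ v = ((v b, v e), lam ∘ₗ (g v)) := fun v => rfl
    have hinj : Function.Injective Φ := by
      rw [← LinearMap.ker_eq_bot, LinearMap.ker_eq_bot']
      intro v hv
      rw [hΦ, Prod.mk_eq_zero, Prod.mk_eq_zero] at hv
      obtain ⟨⟨hvb, hve⟩, hl⟩ := hv
      have hxv1 : x v = v := by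
        rw [hxv, SgV, hvb, hve, tb_zero, tb_zero, smul_zero, add_zero, sub_zero, sub_zero]
      have huv : u (g v) = g v := by rw [hug, hxv1]
      have hinv : ∀ w, p (g v w) = g v (q w) := by
        intro w
        have : u (g v) (q w) = g v (q w) := by rw [huv]
        rw [hpq, ac_apply, q.symm_apply_apply] at this
        exact this
      have hl' : ∀ w, polar QE a' (g v w) = 0 := fun w => congrArg (fun t : W →ₗ[F] F => t w) hl
      have hz : ∀ w, g v w = 0 := by
        intro w
        set y := g v w with hy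
        have hy0 : polar QE a' y = 0 := hl' w
        have hy1 : polar QE a' (p y) = 0 := by rw [hinv]; exact hl' _
        have hy2 : polar QE a' (p (p y)) = 0 := by rw [hinv, hinv]; exact hl' _
        have haa' : polar QE a' a = 1 := hlam
        -- a(a, y) = 0
        have h3 := sg_two hQa haf y
        rw [← hpx, ← hpx] at h3
        have h4 := congrArg (fun t => polar QE a' t) h3
        simp only [sub_eq_add_neg, neg_add, neg_neg, polar_add_right, polar_neg_right, polar_smul_right, hy0, hy1, hy2, haa',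
          smul_eq_mul, mul_one, neg_zero, add_zero] at h4
        have h5 : polar QE a y = 0 := by
          have : -(2 * QE f) * polar QE a y = 0 := h4.symm
          exact (mul_eq_zero.1 this).resolve_left (neg_ne_zero.2 (mul_ne_zero h2 hQf))
        have h6 : p y = y - polar QE f y • a := by
          rw [hpx, siegMap_apply, h5, zero_smul, mul_zero, zero_smul, add_zero, sub_zero]
        have h7 : polar QE f y = 0 := by
          rw [h6, sub_eq_add_neg, polar_add_right, polar_neg_right, polar_smul_right, hy0, haa', smul_eq_mul, mul_one, zero_add,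
            neg_eq_zero] at hy1
          exact hy1
        exact three_zero h2 T.ndE T.hE3 hQa haf hQf haa' h5 h7 hy0
      have : g v = 0 := LinearMap.ext hz
      exact (map_eq_zero_iff g g.injective).1 this
    have hfin := LinearMap.finrank_le_finrank_of_injective hinj
    rw [Module.finrank_linearMap, Module.finrank_prod, Module.finrank_prod, Subspace.dual_finrank_eq, T.hE3, T.hW4] at hfin
    omega

/-- elements conjugating a root element into the pairs are pairs -/
theorem xn [Finite F] (T : T4 QE QW Q M) (hF : FixF QW M) (hℓ : ℓ.Prime) [CharP F ℓ] {b : W} (hb : b ≠ 0)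
    (hQb : QW b = 0) {x : (W →ₗ[F] E) ≃ₗ[F] (W →ₗ[F] E)} (hx : XB QW b x) (hx1 : x ≠ 1)
    {g : (W →ₗ[F] E) ≃ₗ[F] (W →ₗ[F] E)} (hg : g ∈ M) (h : g * x * g⁻¹ ∈ NN M) : g ∈ NN M :=
  xn_of T hF hℓ (fun _ hu ho => TenW4_PN.pnf T hℓ hu ho) hb hQb hx hx1 hg h

end Cfsg.Agent.Lib.TenW4_XN
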