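import Cfsg.Agent.Lib.TenW4_MXb
import Cfsg.Agent.Lib.TenW4_MXc
import Cfsg.Agent.Lib.TenW4_MXd
import Cfsg.Agent.Lib.TenW4_OB
import Cfsg.Agent.Lib.TenW4_XB
import Cfsg.Agent.Lib.TenW4_PN
import Cfsg.Agent.Lib.TenW4_XN

/-!
# Piece MX of S5873: centralisers of mixed unipotent elements (helper45)
-/

set_option autoImplicit false
set_option linter.unusedSectionVars false
set_option linter.unusedVariables false

namespace Cfsg.Agent.Lib.TenW4_MX

open QuadraticMap Module Cfsg.Agent.Lib.Quad Cfsg.Agent.Lib.OrthMax Cfsg.Agent.Lib.OrthNd Cfsg.Agent.Lib.TenSLH94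
  Cfsg.Agent.Lib.TenOO Cfsg.Agent.Lib.TenW4

section sg

variable {F X : Type*} [Field F] [AddCommGroup X] [Module F X] {Q : QuadraticForm F X}

/-- `p` is the Siegel map of `a, y` -/
def SG (Q : QuadraticForm F X) (a y : X) (p : X ≃ₗ[F] X) : Prop := ∀ x, p x = siegMap Q a y x

theorem SG.one (a : X) : SG Q a 0 1 := fun x => (sm_zero a x).symm

theorem SG.eq {a y : X} {p p' : X ≃ₗ[F] X} (h : SG Q a y p) (h' : SG Q a y p') : p = p' :=
  LinearEquiv.ext fun x => (h x).trans (h' x).symm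

theorem SG.mul {a y y' : X} {p p' : X ≃ₗ[F] X} (ha : Q a = 0) (hy : polar Q a y = 0) (hy' : polar Q a y' = 0)
    (h : SG Q a y p) (h' : SG Q a y' p') : SG Q a (y + y') (p * p') := fun x => by
  show p (p' x) = _
  rw [h' x, h, sm_add ha hy hy']

theorem SG.comm {a y y' : X} {p p' : X ≃ₗ[F] X} (ha : Q a = 0) (hy : polar Q a y = 0) (hy' : polar Q a y' = 0)
    (h : SG Q a y p) (h' : SG Q a y' p') : p * p' = p' * p :=
  (SG.mul ha hy hy' h h').eq (by rw [add_comm]; exact SG.mul ha hy' hy h' h)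

theorem SG.inv {a y : X} {p : X ≃ₗ[F] X} (ha : Q a = 0) (hy : polar Q a y = 0)
    (h : SG Q a y p) : SG Q a (-y) p⁻¹ := fun x => by
  apply p.injective
  have h1 : p (p⁻¹ x) = x := LinearEquiv.apply_symm_apply p x
  rw [h1, h, sm_add ha hy (by rw [polar_neg_right, hy, neg_zero]), add_neg_cancel, sm_zero]

theorem SG.pow {a y : X} {p : X ≃ₗ[F] X} (ha : Q a = 0) (hy : polar Q a y = 0)
    (h : SG Q a y p) (n : ℕ) : SG Q a ((n : F) • y) (p ^ n) := by
  induction n with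
  | zero => rw [Nat.cast_zero, zero_smul, pow_zero]; exact SG.one a
  | succ n ih =>
    rw [pow_succ, Nat.cast_succ, add_smul, one_smul]
    exact SG.mul ha (by rw [polar_smul_right, hy, smul_zero]) hy ih h

theorem SG.pow_char {a y : X} {p : X ≃ₗ[F] X} (ha : Q a = 0) (hy : polar Q a y = 0)
    (h : SG Q a y p) (ℓ : ℕ) [CharP F ℓ] : p ^ ℓ = 1 := by
  have h1 := h.pow ha hy ℓ
  rw [CharP.cast_eq_zero, zero_smul] at h1
  exact h1.eq (SG.one a)

end sg

variable {F E W : Type*} [Field F] [AddCommGroup E] [Module F E] [FiniteDimensional F E]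
  [AddCommGroup W] [Module F W] [FiniteDimensional F W] [Finite F]
  {QE : QuadraticForm F E} {QW : QuadraticForm F W} {Q : QuadraticForm F (W →ₗ[F] E)}
  {M : Subgroup ((W →ₗ[F] E) ≃ₗ[F] (W →ₗ[F] E))} {ℓ : ℕ}

/-- the abelian group `S_a × X_b` -/
def SS (QE : QuadraticForm F E) (QW : QuadraticForm F W) {a f : E} {b : W} (ha : QE a = 0) (haf : polar QE a f = 0) (hb : QW b = 0) :
    Subgroup ((W →ₗ[F] E) ≃ₗ[F] (W →ₗ[F] E)) where
  carrier := {g | ∃ (p : E ≃ₗ[F] E) (q : W ≃ₗ[F] W), g = ac p q ∧ (∃ t : F, SG QE a (t • f) p) ∧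
    ∃ e', polar QW b e' = 0 ∧ SG QW b e' q}
  mul_mem' := by
    rintro _ _ ⟨p, q, rfl, ⟨t, ht⟩, e', he', hq⟩ ⟨p', q', rfl, ⟨t', ht'⟩, e'', he'', hq'⟩
    refine ⟨p * p', q * q', rfl, ⟨t + t', ?_⟩, e' + e'', by rw [polar_add_right, he', he'', add_zero], hq.mul hb he' he'' hq'⟩
    rw [add_smul]
    exact ht.mul ha (by rw [polar_smul_right, haf, smul_zero]) (by rw [polar_smul_right, haf, smul_zero]) ht'
  one_mem' := ⟨1, 1, rfl, ⟨0, by rw [zero_smul]; exact SG.one a⟩, 0, by simp, SG.one b⟩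
  inv_mem' := by
    rintro _ ⟨p, q, rfl, ⟨t, ht⟩, e', he', hq⟩
    refine ⟨p⁻¹, q⁻¹, pr_inv p q, ⟨-t, ?_⟩, -e', by rw [polar_neg_right, he', neg_zero], hq.inv hb he'⟩
    rw [neg_smul]
    exact ht.inv ha (by rw [polar_smul_right, haf, smul_zero])

theorem mem_SS {a f : E} {b : W} (ha : QE a = 0) (haf : polar QE a f = 0) (hb : QW b = 0) {g : (W →ₗ[F] E) ≃ₗ[F] (W →ₗ[F] E)} :
    g ∈ SS QE QW ha haf hb ↔ ∃ (p : E ≃ₗ[F] E) (q : W ≃ₗ[F] W), g = ac p q ∧ (∃ t : F, SG QE a (t • f) p) ∧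
    ∃ e', polar QW b e' = 0 ∧ SG QW b e' q := Iff.rfl

theorem SS_le (T : T4 QE QW Q M) {a f : E} {b : W} (ha : QE a = 0) (haf : polar QE a f = 0) (hb : QW b = 0) :
    SS QE QW ha haf hb ≤ NN M := by
  rintro _ ⟨p, q, rfl, ⟨t, ht⟩, e', he', hq⟩
  refine mem_NN.2 ⟨?_, p, q, rfl⟩
  have h1 : ac p (1 : W ≃ₗ[F] W) ∈ M := by
    obtain ⟨s, hs, hsv⟩ := T.tA a (t • f) ha (by rw [polar_smul_right, haf, smul_zero])
    have : ac p (1 : W ≃ₗ[F] W) = s := by
      refine LinearEquiv.ext fun v => ?_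
      rw [hsv]
      ext w
      exact ht (v w)
    rwa [this]
  have h3 : ac (1 : E ≃ₗ[F] E) q ∈ M := by
    obtain ⟨s, hs, hsv⟩ := T.tB b e' hb he'
    have : ac (1 : E ≃ₗ[F] E) q = s := by
      refine LinearEquiv.ext fun v => ?_
      rw [hsv, SgV_eq]
      ext w
      show v (q⁻¹ w) = v (siegMap QW (-b) e' w)
      rw [hq.inv hb he' w, ← neg_one_smul F b, siegMap_smul_left, neg_one_smul]
    rwa [this]
  have h4 : ac p q = ac p (1 : W ≃ₗ[F] W) * ac (1 : E ≃ₗ[F] E) q := rfl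
  rw [h4]
  exact M.mul_mem h1 h3

theorem SS_comm {a f : E} {b : W} (ha : QE a = 0) (haf : polar QE a f = 0) (hb : QW b = 0) {g g' : (W →ₗ[F] E) ≃ₗ[F] (W →ₗ[F] E)}
    (hg : g ∈ SS QE QW ha haf hb) (hg' : g' ∈ SS QE QW ha haf hb) : g * g' = g' * g := by
  obtain ⟨p, q, rfl, ⟨t, ht⟩, e', he', hq⟩ := hg
  obtain ⟨p', q', rfl, ⟨t', ht'⟩, e'', he'', hq'⟩ := hg'
  rw [pr_mul, pr_mul, ht.comm ha (by rw [polar_smul_right, haf, smul_zero]) (by rw [polar_smul_right, haf, smul_zero]) ht',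
    hq.comm hb he' he'' hq']

theorem SS_p [CharP F ℓ] {a f : E} {b : W} (ha : QE a = 0) (haf : polar QE a f = 0) (hb : QW b = 0) : IsPGroup ℓ (SS QE QW ha haf hb) := by
  rintro ⟨g, hg⟩
  refine ⟨1, Subtype.ext ?_⟩
  obtain ⟨p, q, rfl, ⟨t, ht⟩, e', he', hq⟩ := hg
  show (ac p q) ^ (ℓ ^ 1) = 1
  rw [pow_one, pr_pow, ht.pow_char ha (by rw [polar_smul_right, haf, smul_zero]) ℓ, hq.pow_char hb he' ℓ]
  rfl

/-- vectors of `E` orthogonal to `a` -/
theorem dec3 (h2 : (2 : F) ≠ 0) (ndE : Nd QE) (hE3 : finrank F E = 3) {a f : E} (ha : QE a = 0) (ha0 : a ≠ 0) (haf : polar QE a f = 0) (hQf : QE f ≠ 0)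
    {v : E} (hv : polar QE a v = 0) : ∃ α β : F, v = α • a + β • f := by
  have hff : polar QE f f ≠ 0 := by rw [polar_self']; exact mul_ne_zero h2 hQf
  have hfa : polar QE f a = 0 := by rw [polar_comm, haf]
  have haa : polar QE a a = 0 := by rw [polar_self', ha, mul_zero]
  have hli : LinearIndependent F ![a, f] := by
    rw [LinearIndependent.pair_iff]
    intro s t hst
    have h1 := congrArg (polar QE f) hst
    rw [polar_add_right, polar_smul_right, polar_smul_right, hfa, smul_zero, zero_add, polar_zero_right, smul_eq_mul] at h1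
    have ht : t = 0 := (mul_eq_zero.1 h1).resolve_right hff
    rw [ht, zero_smul, add_zero] at hst
    exact ⟨(smul_eq_zero.1 hst).resolve_right ha0, ht⟩
  have h1 : finrank F (Submodule.span F (Set.range ![a, f])) = 2 := by
    rw [finrank_span_eq_card hli, Fintype.card_fin]
  have h3 : finrank F (perp QE (Submodule.span F {a})) = 2 := by
    have := ndE.finrank_add_finrank_perp (Submodule.span F {a})
    rw [finrank_span_singleton ha0, hE3] at this
    omega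
  have hle : Submodule.span F (Set.range ![a, f]) ≤ perp QE (Submodule.span F {a}) := by
    rw [Submodule.span_le]
    rintro _ ⟨i, rfl⟩
    rw [SetLike.mem_coe, mem_perp_singleton]
    fin_cases i
    · exact haa
    · exact haf
  have heq := Submodule.eq_of_le_of_finrank_eq hle (by rw [h1, h3])
  have hv' : v ∈ Submodule.span F (Set.range ![a, f]) := by
    rw [heq, mem_perp_singleton]
    exact hv
  rw [show Set.range ![a, f] = {a, f} by simp [Matrix.range_cons, Matrix.range_empty, Set.pair_comm]] at hv'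
  obtain ⟨α, β, h⟩ := Submodule.mem_span_pair.1 hv'
  exact ⟨α, β, h.symm⟩

/-- the unipotent part, first component -/
theorem compE (T : T4 QE QW Q M) {a f : E} {s : E ≃ₗ[F] E} (hs : Sg QE a f s) {p : E ≃ₗ[F] E}
    (hp : p = 1 ∨ ∃ a f, Sg QE a f p) (hc : ∀ y, p (s y) = s (p y)) : ∃ t : F, SG QE a (t • f) p := by
  obtain ⟨hQa, ha0, haf, hQf, hsx⟩ := id hs
  rcases hp with rfl | ⟨a', f', hp⟩
  · exact ⟨0, by rw [zero_smul]; exact SG.one a⟩
  · have h1 : polar QE a a' = 0 := comm4 T.h2 hs hp hc (T.ndE.exists_polar_one' ha0)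
    obtain ⟨hQa', ha0', haf', hQf', hpx⟩ := hp
    obtain ⟨α, β, h3⟩ := dec3 T.h2 T.ndE T.hE3 hQa ha0 haf hQf h1
    have hβ : β = 0 := by
      have h4 := hQa'
      rw [h3, Q_add, Q_smul, Q_smul, hQa, polar_smul_left, polar_smul_right, haf, smul_zero, smul_zero, mul_zero, zero_add, add_zero] at h4
      have := (mul_eq_zero.1 h4).resolve_right hQf
      exact mul_self_eq_zero.1 this
    rw [hβ, zero_smul, add_zero] at h3
    have hα : α ≠ 0 := by
      rintro rfl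
      exact ha0' (by rw [h3, zero_smul])
    have h5 : polar QE a (α • f') = 0 := by
      rw [h3, polar_smul_left] at haf'
      rw [polar_smul_right]
      exact haf'
    obtain ⟨α1, β1, h6⟩ := dec3 T.h2 T.ndE T.hE3 hQa ha0 haf hQf h5
    refine ⟨β1, fun y => ?_⟩
    rw [hpx, h3, siegMap_smul_left, h6, add_comm, sm_a hQa (by rw [polar_smul_right, haf, smul_zero])]

/-- the unipotent part, second component -/
theorem compW (T : T4 QE QW Q M) {b e : W} {x : W ≃ₗ[F] W} (hx : Sg QW b e x) {q : W ≃ₗ[F] W}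
    (hq : q = 1 ∨ ∃ b e, Sg QW b e q) (hc : ∀ y, q (x y) = x (q y)) : ∃ e', polar QW b e' = 0 ∧ SG QW b e' q := by
  obtain ⟨hQb, hb0, hbe, hQe, hxx⟩ := id hx
  rcases hq with rfl | ⟨b', e', hq⟩
  · exact ⟨0, by simp, SG.one b⟩
  · have h1 : polar QW b b' = 0 := comm4 T.h2 hx hq hc (T.ndW.exists_polar_one' hb0)
    obtain ⟨hQb', hb0', hbe', hQe', hqx⟩ := hq
    obtain ⟨c, h3⟩ := T.hmin b b' hQb hQb' h1 hb0
    refine ⟨c • e', ?_, fun y => ?_⟩
    · rw [h3, polar_smul_left] at hbe'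
      rw [polar_smul_right]
      exact hbe'
    · rw [hqx, h3, siegMap_smul_left]

theorem smul_equiv {X : Type*} [AddCommGroup X] [Module F X] (c : F) (hc : c ≠ 0) (p : X ≃ₗ[F] X) :
    ∃ p' : X ≃ₗ[F] X, ∀ x, p' x = c • p x :=
  ⟨p.trans (LinearEquiv.smulOfNeZero F X c hc), fun x => rfl⟩

omit [Finite F] in
theorem half (h2 : (2 : F) ≠ 0) {V : Type*} [AddCommGroup V] [Module F V] {R : QuadraticForm F V} {g : V ≃ₗ[F] V} {m : F} (hm : m = 1)
    (h : ∀ w w', m * polar R (g w) (g w') = polar R w w') : g ∈ O R := by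
  rw [mem_O]
  intro v
  have h1 := h v v
  rw [hm, one_mul, polar_self', polar_self'] at h1
  exact mul_left_cancel₀ h2 h1

/-- pairs of `M` commuting with `s ⊗ x` commute with `S` -/
theorem cen (T : T4 QE QW Q M) {a f : E} {s : E ≃ₗ[F] E} (hs : Sg QE a f s) {b e : W} {x : W ≃ₗ[F] W} (hx : Sg QW b e x)
    {p : E ≃ₗ[F] E} {q : W ≃ₗ[F] W} (hM : ac p q ∈ M) (hps : ∀ y, p (s y) = s (p y)) (hqx : ∀ y, q (x y) = x (q y)) :
    (∀ t : F, ∀ y, p (siegMap QE a (t • f) y) = siegMap QE a (t • f) (p y)) ∧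
      ∀ e', polar QW b e' = 0 → ∀ w, q (siegMap QW b e' w) = siegMap QW b e' (q w) := by
  obtain ⟨hQa, ha0, haf, hQf, hsx⟩ := id hs
  obtain ⟨hQb, hb0, hbe, hQe, hxx⟩ := id hx
  obtain ⟨y0, hy0⟩ := T.ndE.exists_polar_one' ha0
  obtain ⟨z0, hz0⟩ := T.ndW.exists_polar_one' hb0
  refine ⟨fun t y => comm3 T.h2 hs hps ⟨y0, hy0⟩ t y, ?_⟩
  -- scaling
  obtain ⟨c, hc0, hqb, hcw⟩ := comm1 T.h2 hx hqx ⟨z0, hz0⟩
  obtain ⟨p', hp'⟩ := smul_equiv c⁻¹ (inv_ne_zero hc0) p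
  obtain ⟨q', hq'⟩ := smul_equiv c⁻¹ (inv_ne_zero hc0) q
  have hq'' : ∀ w, q w = c • q' w := fun w => by rw [hq', smul_smul, mul_inv_cancel₀ hc0, one_smul]
  have hac : ac p' q' = ac p q := by
    refine LinearEquiv.ext fun v => ?_
    ext w
    rw [ac_apply, ac_apply, hp']
    have h1 : q'.symm w = c • q.symm w := by
      apply q'.injective
      rw [LinearEquiv.apply_symm_apply, map_smul, hq', LinearEquiv.apply_symm_apply, smul_smul, mul_inv_cancel₀ hc0, one_smul]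
    rw [h1, map_smul, map_smul, smul_smul, inv_mul_cancel₀ hc0, one_smul]
  obtain ⟨m, hm0, hmE, hmW⟩ := simil T.ndE T.ndW ⟨a, ha0⟩ ⟨b, hb0⟩ T.pol (p := p') (q := q') (by rw [hac]; exact T.hM hM)
  have hqb' : q' b = b := by rw [hq', hqb, smul_smul, inv_mul_cancel₀ hc0, one_smul]
  have hm1 : m = 1 := by
    have h1 := hmW b z0
    have h3 : polar QW b (q' z0) = 1 := by
      rw [hq', polar_smul_right, hcw, hz0, smul_eq_mul, mul_one, inv_mul_cancel₀ hc0]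
    rw [hqb', h3, mul_one, hz0] at h1
    exact h1
  have hpO : p' ∈ O QE := half T.h2 hm1 hmE
  have hqO : q' ∈ O QW := half T.h2 hm1 hmW
  have hdet : LinearMap.det (q' : W →ₗ[F] W) = 1 := by
    refine det_q T.ndE T.ndW T.hE3 T.hW4 hpO hqO ?_
    rw [hac]
    exact T.hdet _ hM
  -- `q' e = e + κ b`
  obtain ⟨κ, hκ⟩ : ∃ κ : F, q' e = e + κ • b := by
    have h1 := comm2 T.h2 hx hqx ⟨z0, hz0⟩ z0
    rw [hcw, hz0, mul_one, one_smul, map_sub, map_smul, hq'' e, hqb] at h1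
    refine ⟨c⁻¹ * (polar QW e z0 * c - polar QW e (q z0)), ?_⟩
    have h3 : c • q' e = c • e + (polar QW e z0 * c - polar QW e (q z0)) • b := by
      rw [sub_eq_iff_eq_add] at h1
      rw [h1]
      module
    have h4 := congrArg (fun w => c⁻¹ • w) h3
    simp only [smul_add, smul_smul, inv_mul_cancel₀ hc0, one_smul] at h4
    exact h4
  intro e' he' w
  obtain ⟨c', hc'⟩ := q_perp T.h2 T.ndW T.hW4 T.hmin hb0 hQb hbe hQe hqO hdet hqb' hκ he'
  have h5 := sm_conj hqO b e' w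
  rw [hqb', hc', sm_a hQb he'] at h5
  rw [hq'', h5, hq'' w, map_smul]

theorem mx (T : T4 QE QW Q M) (hF : FixF QW M) (hℓ : ℓ.Prime) [CharP F ℓ] {a f : E} {s : E ≃ₗ[F] E} (hs : Sg QE a f s)
    {b e : W} {x : W ≃ₗ[F] W} (hx : Sg QW b e x)
    {g} (hg : g ∈ M) (h : g * ac s x = ac s x * g) : g ∈ NN M := by
  classical
  obtain ⟨hQa, ha0, haf, hQf, hsx⟩ := id hs
  obtain ⟨hQb, hb0, hbe, hQe, hxx⟩ := id hx
  obtain ⟨X, hX, hXN, hab, hexp, hcard⟩ := TenW4_XB.xb (M := M) (Q := Q) T hℓ hb0 hQb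
  have hfin : Finite (W →ₗ[F] E) := Module.finite_of_finite F
  have hfin2 : Finite ((W →ₗ[F] E) ≃ₗ[F] (W →ₗ[F] E)) := DFunLike.finite _
  have hfin3 : Finite M := inferInstance
  have huS : ac s x ∈ SS QE QW hQa haf hQb :=
    ⟨s, x, rfl, ⟨1, by rw [one_smul]; exact hsx⟩, e, hbe, hxx⟩
  have hcomm : ∀ g ∈ M ⊓ Subgroup.centralizer {ac s x}, ∀ p q, g = ac p q → (∀ y, p (s y) = s (p y)) ∧ ∀ w, q (x w) = x (q w) := by
    rintro _ hg p q rfl
    refine pair_comm T.hE3 T.hW4 ?_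
    exact (Subgroup.mem_centralizer_iff.1 (Subgroup.mem_inf.1 hg).2 _ (Set.mem_singleton _)).symm
  refine TenW4_OB.bur (M := M) (X := X) (S := SS QE QW hQa haf hQb) (N := NN M) (C := M ⊓ Subgroup.centralizer {ac s x}) hℓ
    inf_le_left (NN_le M) ?_ ?_ (SS_le T hQa haf hQb) (SS_p hQa haf hQb) hab hexp hcard ?_ ?_ ?_
    (Subgroup.mem_inf.2 ⟨hg, Subgroup.mem_centralizer_iff.2 fun y hy => by rw [Set.mem_singleton_iff.1 hy]; exact h.symm⟩)
  · intro σ hσ
    refine Subgroup.mem_inf.2 ⟨NN_le M (SS_le T hQa haf hQb hσ), Subgroup.mem_centralizer_iff.2 fun y hy => ?_⟩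
    rw [Set.mem_singleton_iff.1 hy]
    exact SS_comm hQa haf hQb huS hσ
  · intro σ hσ
    obtain ⟨e', he', hv⟩ := (hX σ).1 hσ
    refine ⟨1, sieg T.ndW hQb he', ?_, ⟨0, by rw [zero_smul]; exact SG.one a⟩, e', he', ?_⟩
    · refine LinearEquiv.ext fun v => ?_
      rw [hv, SgV_eq]
      ext w
      have h1 : SG QW b e' (sieg T.ndW hQb he') := fun w => by rw [sieg_apply, siegMap_apply]
      show v (siegMap QW (-b) e' w) = v ((sieg T.ndW hQb he')⁻¹ w)
      rw [h1.inv hQb he' w, ← neg_one_smul F b, siegMap_smul_left, neg_one_smul]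
    · exact fun w => by rw [sieg_apply, siegMap_apply]
  · intro σ hσ hσ1 g hg hgσ
    exact TenW4_XN.xn_of T hF hℓ (fun u hu ho => TenW4_PN.pnf T hℓ hu ho) hb0 hQb ((hX σ).1 hσ) hσ1 hg hgσ
  · intro g hgC hgN ho
    obtain ⟨p, q, rfl, hp, hq⟩ := TenW4_PN.pnf T hℓ hgN ho
    obtain ⟨h1, h3⟩ := hcomm _ hgC p q rfl
    exact ⟨p, q, rfl, compE T hs hp h1, compW T hx hq h3⟩
  · intro g hgC hgN σ hσ
    obtain ⟨hgM, p, q, rfl⟩ := mem_NN.1 hgN
    obtain ⟨h1, h3⟩ := hcomm _ hgC p q rfl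
    obtain ⟨h4, h5⟩ := cen T hs hx hgM h1 h3
    obtain ⟨p', q', rfl, ⟨t, ht⟩, e', he', hq⟩ := hσ
    rw [pr_mul, pr_mul]
    have e1 : p * p' = p' * p := LinearEquiv.ext fun y => by
      show p (p' y) = p' (p y)
      rw [ht, ht, h4]
    have e2 : q * q' = q' * q := LinearEquiv.ext fun y => by
      show q (q' y) = q' (q y)
      rw [hq, hq, h5 e' he']
    rw [e1, e2]

end Cfsg.Agent.Lib.TenW4_MX
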