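import Cfsg.Agent.Lib.TenW4_XN
import Cfsg.Agent.Lib.TenW4_XB
import Cfsg.Agent.Lib.TenW4_OB

/-!
# `O₃ ⊗ O₄⁻`: centralizers of `siegMap ⊗ 1`
-/

set_option autoImplicit false
set_option linter.all false

namespace Cfsg.Agent.Lib.TenW4_PS

open QuadraticMap Module Cfsg.Agent.Lib.Quad Cfsg.Agent.Lib.OrthMax Cfsg.Agent.Lib.OrthNd Cfsg.Agent.Lib.TenSLH94
  Cfsg.Agent.Lib.TenOO Cfsg.Agent.Lib.TenW4 Cfsg.Agent.Lib.TenW4_XN

variable {F E W : Type*} [Field F] [AddCommGroup E] [Module F E] [FiniteDimensional F E]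
  [AddCommGroup W] [Module F W] [FiniteDimensional F W]
  {QE : QuadraticForm F E} {QW : QuadraticForm F W} {Q : QuadraticForm F (W →ₗ[F] E)}
  {M : Subgroup ((W →ₗ[F] E) ≃ₗ[F] (W →ₗ[F] E))} {ℓ : ℕ}

theorem rep (hQ : Nd QW) (f : W →ₗ[F] F) : ∃ p, ∀ w, f w = polar QW p w := by
  refine ⟨(LinearMap.BilinForm.toDual (polarBilin QW) hQ).symm f, fun w => ?_⟩
  have := congrArg (fun g : Dual F W => g w) ((LinearMap.BilinForm.toDual (polarBilin QW) hQ).apply_symm_apply f)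
  exact this.symm

theorem tb_inj (hQ : Nd QW) {a : E} (ha : a ≠ 0) {w w' : W} (h : tb QW a w = tb QW a w') : w = w' := by
  rw [← sub_eq_zero]
  apply hQ.eq_zero
  intro z
  have h1 := congrArg (fun v : W →ₗ[F] E => v z) h
  simp only [tb_apply] at h1
  have h2 : (polar QW w z - polar QW w' z) • a = 0 := by rw [sub_smul, h1, sub_self]
  rw [sub_eq_add_neg, polar_add_left, polar_neg_left, ← sub_eq_add_neg]
  exact (smul_eq_zero.1 h2).resolve_right ha

/-- maps with values in the fixed space of a Siegel map -/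
theorem v1 (T : T4 QE QW Q M) {a f : E} {s : E ≃ₗ[F] E} (hs : Sg QE a f s) {v : W →ₗ[F] E} (h : ∀ z, s (v z) = v z) :
    ∃ w, v = tb QW a w := by
  obtain ⟨hQa, ha, haf, hQf, hsx⟩ := hs
  obtain ⟨a', ha'⟩ := T.ndE.exists_polar_one' ha
  have haa' : polar QE a' a = 1 := by rw [polar_comm]; exact ha'
  have haa := pself hQa
  have hff : polar QE f f = 2 * QE f := by rw [QuadraticMap.polar_self, two_smul, two_mul]
  obtain ⟨w, hw⟩ := rep T.ndW ((polarBilin QE a') ∘ₗ v)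
  refine ⟨w, LinearMap.ext fun z => ?_⟩
  rw [tb_apply, ← hw]
  show v z = polar QE a' (v z) • a
  rw [← sub_eq_zero]
  set y := v z with hy
  have h1 := h z
  rw [← hy, hsx, siegMap_apply] at h1
  have h2 : polar QE a y • f - (polar QE f y + QE f * polar QE a y) • a = 0 := by
    rw [add_smul]
    have : y + polar QE a y • f - polar QE f y • a - (QE f * polar QE a y) • a - y = 0 := by rw [h1, sub_self]
    rw [← this]; abel
  have h3 : polar QE a y = 0 := by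
    have e1 := congrArg (fun t => polar QE f t) h2
    simp only [sub_eq_add_neg, ← neg_smul, polar_add_right, polar_smul_right, hff, polar_comm QE f a, haf, smul_eq_mul,
      mul_zero, add_zero, polar_zero_right] at e1
    exact (mul_eq_zero.1 e1).resolve_right (mul_ne_zero T.h2 hQf)
  have h4 : polar QE f y = 0 := by
    rw [h3, zero_smul, mul_zero, add_zero, zero_sub, neg_eq_zero] at h2
    exact (smul_eq_zero.1 h2).resolve_right ha
  apply three_zero T.h2 T.ndE T.hE3 hQa haf hQf haa'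
  · rw [sub_eq_add_neg, ← neg_smul, polar_add_right, polar_smul_right, haa, h3, smul_zero, add_zero]
  · rw [sub_eq_add_neg, ← neg_smul, polar_add_right, polar_smul_right, polar_comm QE f a, haf, h4, smul_zero, add_zero]
  · rw [sub_eq_add_neg, ← neg_smul, polar_add_right, polar_smul_right, haa', smul_eq_mul, mul_one, add_neg_cancel]

theorem S_apply (s : E ≃ₗ[F] E) (v : W →ₗ[F] E) (z : W) : (ac s (1 : W ≃ₗ[F] W)) v z = s (v z) := rfl

theorem comm_apply {s : E ≃ₗ[F] E} {g : (W →ₗ[F] E) ≃ₗ[F] (W →ₗ[F] E)} (h : g * ac s 1 = ac s 1 * g) (v : W →ₗ[F] E) :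
    g (ac s (1 : W ≃ₗ[F] W) v) = ac s 1 (g v) := congrArg (fun t : (W →ₗ[F] E) ≃ₗ[F] (W →ₗ[F] E) => t v) h

/-- elements of the centralizer act on `a ⊗ W` -/
theorem act (T : T4 QE QW Q M) {a f : E} {s : E ≃ₗ[F] E} (hs : Sg QE a f s)
    {g : (W →ₗ[F] E) ≃ₗ[F] (W →ₗ[F] E)} (h : g * ac s 1 = ac s 1 * g) :
    ∃ A : W →ₗ[F] W, ∀ w, g (tb QW a w) = tb QW a (A w) := by
  have hs' := hs
  obtain ⟨hQa, ha, haf, hQf, hsx⟩ := hs
  obtain ⟨a', ha'⟩ := T.ndE.exists_polar_one' ha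
  have hc : (-(2 * QE f)) ≠ 0 := neg_ne_zero.2 (mul_ne_zero T.h2 hQf)
  have h1 : ∀ w, ∃ w', g (tb QW a w) = tb QW a w' := by
    intro w
    set v : W →ₗ[F] E := tb QW ((-(2 * QE f))⁻¹ • a') w with hv
    obtain ⟨w', hw'⟩ := rep T.ndW ((-(2 * QE f)) • ((polarBilin QE a) ∘ₗ (g v)))
    refine ⟨w', ?_⟩
    have e1 : tb QW a w = ac s 1 (ac s 1 v) - ac s 1 v - (ac s 1 v - v) := by
      apply LinearMap.ext
      intro z
      rw [LinearMap.sub_apply, LinearMap.sub_apply, LinearMap.sub_apply, S_apply, S_apply, hsx, hsx, sg_two hQa haf, hv,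
        tb_apply, tb_apply, polar_smul_right, polar_smul_right, ha', smul_eq_mul, smul_eq_mul]
      congr 1
      rw [mul_one, mul_comm, mul_assoc, inv_mul_cancel₀ hc, mul_one]
    rw [e1, map_sub, map_sub, map_sub, comm_apply h, comm_apply h]
    apply LinearMap.ext
    intro z
    rw [LinearMap.sub_apply, LinearMap.sub_apply, LinearMap.sub_apply, S_apply, S_apply, hsx, hsx, sg_two hQa haf, tb_apply,
      ← hw']
    rfl
  let ta : W →ₗ[F] (W →ₗ[F] E) := (pt a : Dual F W →ₗ[F] (W →ₗ[F] E)) ∘ₗ (polarBilin QW)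
  have hta : ∀ w, ta w = tb QW a w := fun w => rfl
  have hker : LinearMap.ker ta = ⊥ := by
    rw [LinearMap.ker_eq_bot']
    intro w hw
    apply tb_inj T.ndW ha (w' := 0)
    rw [← hta, ← hta, hw, map_zero]
  obtain ⟨φ, hφ⟩ := ta.exists_leftInverse_of_injective hker
  refine ⟨φ ∘ₗ (g : (W →ₗ[F] E) →ₗ[F] (W →ₗ[F] E)) ∘ₗ ta, fun w => ?_⟩
  obtain ⟨w', hw'⟩ := h1 w
  have e2 : (φ ∘ₗ (g : (W →ₗ[F] E) →ₗ[F] (W →ₗ[F] E)) ∘ₗ ta) w = w' := by
    show φ (g (tb QW a w)) = w'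
    rw [hw', ← hta]
    exact congrArg (fun t : W →ₗ[F] W => t w') hφ
  rw [e2, hw']

/-- the action is isometric -/
theorem act_iso (T : T4 QE QW Q M) {a f : E} {s : E ≃ₗ[F] E} (hs : Sg QE a f s)
    {g : (W →ₗ[F] E) ≃ₗ[F] (W →ₗ[F] E)} (hg : g ∈ M) (h : g * ac s 1 = ac s 1 * g) {A : W →ₗ[F] W}
    (hA : ∀ w, g (tb QW a w) = tb QW a (A w)) (w w' : W) : polar QW (A w) (A w') = polar QW w w' := by
  have hs' := hs
  obtain ⟨hQa, ha, haf, hQf, hsx⟩ := hs
  have haa := pself hQa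
  have hff : polar QE f f = 2 * QE f := by rw [QuadraticMap.polar_self, two_smul, two_mul]
  have hsf : s f = f + (-(2 * QE f)) • a := by
    rw [hsx, siegMap_apply, haf, zero_smul, hff, mul_zero, zero_smul]
    module
  have h1 : ∀ w, ∃ z, g (tb QW f w) = tb QW f (A w) + tb QW a z := by
    intro w
    have e1 : ac s (1 : W ≃ₗ[F] W) (tb QW f w) = tb QW f w + (-(2 * QE f)) • tb QW a w := by
      apply LinearMap.ext
      intro z
      rw [S_apply, tb_apply, map_smul, hsf, LinearMap.add_apply, LinearMap.smul_apply, tb_apply, tb_apply]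
      module
    have e1' : ac s (1 : W ≃ₗ[F] W) (tb QW f (A w)) = tb QW f (A w) + (-(2 * QE f)) • tb QW a (A w) := by
      apply LinearMap.ext
      intro z
      rw [S_apply, tb_apply, map_smul, hsf, LinearMap.add_apply, LinearMap.smul_apply, tb_apply, tb_apply]
      module
    have e2 := comm_apply h (tb QW f w)
    rw [e1, map_add, map_smul, hA] at e2
    obtain ⟨z, hz⟩ := v1 T hs' (v := g (tb QW f w) - tb QW f (A w)) (by
      intro y
      have e3 : ac s (1 : W ≃ₗ[F] W) (g (tb QW f w) - tb QW f (A w)) = g (tb QW f w) - tb QW f (A w) := by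
        rw [map_sub, ← e2, e1']
        abel
      exact congrArg (fun t : W →ₗ[F] E => t y) e3)
    exact ⟨z, by rw [← hz]; abel⟩
  obtain ⟨z, hz⟩ := h1 w
  obtain ⟨z', hz'⟩ := h1 w'
  have e1 : polar Q (g (tb QW f w)) (g (tb QW f w')) = polar Q (tb QW f w) (tb QW f w') := O_polar (T.hM hg) _ _
  rw [hz, hz', polar_add_left, T.pol, T.pol, T.pol, LinearMap.add_apply, LinearMap.add_apply, tb_apply, tb_apply, tb_apply,
    tb_apply, tb_apply, polar_add_left, polar_add_left, polar_smul_left, polar_smul_left, polar_smul_left, polar_smul_left,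
    polar_smul_left, hff, haa, polar_comm QE f a, haf] at e1
  simp only [smul_eq_mul, mul_zero, add_zero] at e1
  have e2 := mul_right_cancel₀ (mul_ne_zero T.h2 hQf) e1
  rw [polar_comm QW (A w), polar_comm QW w]
  exact e2

/-- unipotent maps of class three have order `ℓ` -/
theorem pow_one_of {V : Type*} [AddCommGroup V] [Module F V] (h2 : (2 : F) ≠ 0) (hℓ : ℓ.Prime) [CharP F ℓ] {k : V ≃ₗ[F] V}
    (h : ∀ v, k (k (k v)) - k (k v) - (k (k v) - k v) - (k (k v) - k v - (k v - v)) = 0) : k ^ ℓ = 1 := by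
  haveI : Fact ℓ.Prime := ⟨hℓ⟩
  by_cases hV : ∃ v : V, v ≠ 0
  · obtain ⟨v0, hv0⟩ := hV
    haveI : Nontrivial V := ⟨v0, 0, hv0⟩
    haveI : CharP (Module.End F V) ℓ := charP_of_injective_algebraMap (FaithfulSMul.algebraMap_injective F (Module.End F V)) ℓ
    have hl3 : 3 ≤ ℓ := by
      have h1 := hℓ.two_le
      rcases Nat.lt_or_ge 2 ℓ with h3 | h3
      · exact h3
      · exfalso
        have : ℓ = 2 := le_antisymm h3 h1
        subst this
        apply h2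
        exact_mod_cast CharP.cast_eq_zero F 2
    set K : Module.End F V := (k : V →ₗ[F] V) with hK
    have h3 : (K - 1) ^ 3 = 0 := by
      apply LinearMap.ext
      intro v
      have e : (K - 1) ^ 3 = (K - 1) * ((K - 1) * (K - 1)) := by rw [pow_succ', pow_two]
      rw [e]
      show (k (k (k v - v) - (k v - v)) - (k (k v - v) - (k v - v))) = 0
      rw [← h v, map_sub, map_sub, map_sub]
    have h4 : K ^ ℓ = 1 := by
      have e1 : (K - 1) ^ ℓ = K ^ ℓ - 1 ^ ℓ := sub_pow_char_of_commute ℓ (Commute.one_right K)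
      have e2 : (K - 1) ^ ℓ = 0 := by
        rw [show ℓ = 3 + (ℓ - 3) by omega, pow_add, h3, zero_mul]
      rw [e2, one_pow] at e1
      exact (sub_eq_zero.1 e1.symm)
    have h5 : ∀ n : ℕ, ∀ v, (k ^ n) v = (K ^ n) v := by
      intro n
      induction n with
      | zero => intro v; rfl
      | succ n ih => intro v; rw [pow_succ', pow_succ']; show k ((k ^ n) v) = K ((K ^ n) v); rw [ih]; rfl
    apply LinearEquiv.ext
    intro v
    rw [h5, h4]
    rfl
  · push Not at hV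
    apply LinearEquiv.ext
    intro v
    rw [hV v, map_zero, map_zero]

/-- the group `K_a` -/
def Ka (M : Subgroup ((W →ₗ[F] E) ≃ₗ[F] (W →ₗ[F] E))) (QW : QuadraticForm F W) (a : E) (s : E ≃ₗ[F] E) :
    Subgroup ((W →ₗ[F] E) ≃ₗ[F] (W →ₗ[F] E)) where
  carrier := {k | k ∈ M ∧ k * ac s 1 = ac s 1 * k ∧ ∀ w, k (tb QW a w) = tb QW a w}
  mul_mem' := by
    rintro x y ⟨hx, hx1, hx2⟩ ⟨hy, hy1, hy2⟩
    refine ⟨M.mul_mem hx hy, ?_, fun w => ?_⟩
    · rw [mul_assoc, hy1, ← mul_assoc, hx1, mul_assoc]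
    · show x (y _) = _
      rw [hy2, hx2]
  one_mem' := ⟨M.one_mem, by rw [one_mul, mul_one], fun w => rfl⟩
  inv_mem' := by
    rintro x ⟨hx, hx1, hx2⟩
    refine ⟨M.inv_mem hx, ?_, fun w => ?_⟩
    · exact (Commute.inv_left (show Commute x (ac s 1) from hx1))
    · show x.symm _ = _
      rw [LinearEquiv.symm_apply_eq, hx2]

theorem ka_pow (T : T4 QE QW Q M) (hℓ : ℓ.Prime) [CharP F ℓ] {a f : E} {s : E ≃ₗ[F] E} (hs : Sg QE a f s)
    {k : (W →ₗ[F] E) ≃ₗ[F] (W →ₗ[F] E)} (hk : k ∈ Ka M QW a s) : k ^ ℓ = 1 := by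
  obtain ⟨hkM, hkS, hka⟩ := hk
  have hs' := hs
  obtain ⟨hQa, ha, haf, hQf, hsx⟩ := hs
  apply pow_one_of T.h2 hℓ
  intro v
  -- first step
  have h1 : ∀ z, polar QE ((k v - v) z) a = 0 := by
    intro z
    rw [← T.pol, sub_eq_add_neg, polar_add_right, polar_neg_right]
    have : polar Q (tb QW a z) (k v) = polar Q (tb QW a z) v := by
      conv_lhs => rw [← hka z]
      exact O_polar (T.hM hkM) _ _
    rw [this, add_neg_cancel]
  set d := k v - v with hd
  -- second step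
  obtain ⟨w1, hw1⟩ := rep T.ndW (-((polarBilin QE f) ∘ₗ d))
  have h2 : ac s (1 : W ≃ₗ[F] W) d = d + tb QW a w1 := by
    apply LinearMap.ext
    intro z
    have e1 : polar QE a (d z) = 0 := by rw [polar_comm]; exact h1 z
    rw [S_apply, hsx, siegMap_apply, e1, zero_smul, mul_zero, zero_smul, sub_zero, add_zero, LinearMap.add_apply, tb_apply,
      ← hw1]
    show _ = d z + (-(polar QE f (d z))) • a
    rw [neg_smul, sub_eq_add_neg]
  have h3 : ac s (1 : W ≃ₗ[F] W) (k d) = k d + tb QW a w1 := by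
    rw [← comm_apply hkS, h2, map_add, hka]
  obtain ⟨w2, hw2⟩ := v1 T hs' (v := k d - d) (by
    intro y
    have e3 : ac s (1 : W ≃ₗ[F] W) (k d - d) = k d - d := by
      rw [map_sub, h2, h3]
      abel
    exact congrArg (fun t : W →ₗ[F] E => t y) e3)
  have h4 : k (k d - d) = k d - d := by rw [hw2, hka]
  have h5 : k (k d) - k d - (k d - d) = 0 := by rw [← map_sub, h4, sub_self]
  rw [hd, map_sub, map_sub] at h5
  rw [← h5]

/-- `x (a ⊗ w)` -/
theorem xb_tb {b e : W} {x : (W →ₗ[F] E) ≃ₗ[F] (W →ₗ[F] E)} (hx : ∀ v, x v = SgV QW b e v) (a : E) (w : W) :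
    x (tb QW a w) = tb QW a (siegMap QW b e w) := by
  rw [hx, SgV]
  apply LinearMap.ext
  intro z
  simp only [LinearMap.sub_apply, LinearMap.add_apply, LinearMap.neg_apply, tb_apply, LinearMap.smul_apply, siegMap_apply,
    sub_eq_add_neg, ← neg_smul, polar_add_left, polar_smul_left, smul_eq_mul, polar_comm QW w b, polar_comm QW w e]
  module

theorem xb_S {b e : W} {x : (W →ₗ[F] E) ≃ₗ[F] (W →ₗ[F] E)} (hx : ∀ v, x v = SgV QW b e v) (s : E ≃ₗ[F] E) :
    x * ac s 1 = ac s 1 * x := by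
  apply LinearEquiv.ext
  intro v
  show x (ac s 1 v) = ac s 1 (x v)
  rw [hx, hx]
  apply LinearMap.ext
  intro z
  simp only [SgV, LinearMap.sub_apply, LinearMap.add_apply, tb_apply, LinearMap.smul_apply, S_apply, map_sub, map_add, map_smul]

theorem ps_of [Finite F] (T : T4 QE QW Q M) (hF : FixF QW M) (hℓ : ℓ.Prime) [CharP F ℓ]
    (hpnf : ∀ u ∈ NN M, (∃ k : ℕ, u ^ (ℓ ^ k) = 1) →
      ∃ (p : E ≃ₗ[F] E) (q : W ≃ₗ[F] W), u = ac p q ∧ (p = 1 ∨ ∃ a f, Sg QE a f p) ∧ (q = 1 ∨ ∃ b e, Sg QW b e q))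
    (hxb : ∀ b : W, b ≠ 0 → QW b = 0 →
      ∃ X : Subgroup ((W →ₗ[F] E) ≃ₗ[F] (W →ₗ[F] E)), (∀ x, x ∈ X ↔ XB QW b x) ∧ X ≤ NN M ∧
      (∀ x ∈ X, ∀ y ∈ X, x * y = y * x) ∧ (∀ x ∈ X, x ^ ℓ = 1) ∧ ℓ ^ 2 ≤ Nat.card X)
    (hob : ∀ X N P : Subgroup ((W →ₗ[F] E) ≃ₗ[F] (W →ₗ[F] E)), P ≤ M → IsPGroup ℓ P → X ≤ P →
      X ≤ N → (∀ g ∈ M, (∀ x ∈ X, g * x * g⁻¹ ∈ N) → g ∈ N) → P ≤ N)
    {a f : E} {s : E ≃ₗ[F] E} (hs : Sg QE a f s)
    {g : (W →ₗ[F] E) ≃ₗ[F] (W →ₗ[F] E)} (hg : g ∈ M) (h : g * ac s 1 = ac s 1 * g) : g ∈ NN M := by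
  obtain ⟨A, hA⟩ := act T hs h
  have hi : g⁻¹ * ac s 1 = ac s 1 * g⁻¹ := Commute.inv_left (show Commute g (ac s 1) from h)
  obtain ⟨B, hB⟩ := act T hs hi
  have hAiso := act_iso T hs hg h hA
  have ha : a ≠ 0 := hs.2.1
  have hAB : ∀ w, A (B w) = w := by
    intro w
    apply tb_inj T.ndW ha
    rw [← hA, ← hB]
    exact g.apply_symm_apply _
  have hBA : ∀ w, B (A w) = w := by
    intro w
    apply tb_inj T.ndW ha
    rw [← hB, ← hA]
    exact g.symm_apply_apply _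
  have hQA : ∀ w, QW (A w) = QW w := by
    intro w
    have e1 := hAiso w w
    rw [QuadraticMap.polar_self, QuadraticMap.polar_self, two_smul, two_smul, ← two_mul, ← two_mul] at e1
    exact mul_left_cancel₀ T.h2 e1
  have hAsg : ∀ b e w, A (siegMap QW b e (B w)) = siegMap QW (A b) (A e) w := by
    intro b e w
    have e1 : polar QW b (B w) = polar QW (A b) w := by rw [← hAiso, hAB]
    have e2 : polar QW e (B w) = polar QW (A e) w := by rw [← hAiso, hAB]
    rw [siegMap_apply, siegMap_apply, map_sub, map_sub, map_add, map_smul, map_smul, map_smul, hAB, e1, e2, hQA]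
  -- a singular vector
  obtain ⟨b, -, b', -, hQb, hQb', hbb'⟩ := exists_pair_in T.ndW (TenOO_L.nds_top T.ndW) (by rw [finrank_top, T.hW4]; omega)
  have hb : b ≠ 0 := by rintro rfl; rw [polar_zero_left] at hbb'; exact zero_ne_one hbb'
  obtain ⟨X, hX, hXN, hXc, hXp, hXcard⟩ := hxb b hb hQb
  have hex : ∃ x ∈ X, x ≠ 1 := by
    by_contra hall
    push Not at hall
    have : X = ⊥ := (Subgroup.eq_bot_iff_forall X).2 hall
    rw [this, Subgroup.card_bot] at hXcard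
    have := hℓ.two_le
    nlinarith
  obtain ⟨x, hxX, hx1⟩ := hex
  obtain ⟨e, hbe, hxv⟩ := (hX x).1 hxX
  -- the image
  have hAb : A b ≠ 0 := by
    intro h0
    apply hb
    rw [← hBA b, h0, map_zero]
  have hQAb : QW (A b) = 0 := by rw [hQA, hQb]
  obtain ⟨X', hX', hX'N, hX'c, hX'p, hX'card⟩ := hxb (A b) hAb hQAb
  obtain ⟨x', hx'M, hx'v⟩ := T.tB (A b) (A e) hQAb (by rw [hAiso, hbe])
  have hx'X : x' ∈ X' := (hX' x').2 ⟨A e, by rw [hAiso, hbe], hx'v⟩
  have hex' : ∃ x ∈ X', x ≠ 1 := by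
    by_contra hall
    push Not at hall
    have : X' = ⊥ := (Subgroup.eq_bot_iff_forall X').2 hall
    rw [this, Subgroup.card_bot] at hX'card
    have := hℓ.two_le
    nlinarith
  -- P
  set P := X' ⊔ Ka M QW a s with hP
  have hPM : P ≤ M := sup_le (hX'N.trans (NN_le M)) (fun k hk => hk.1)
  have hXpg : IsPGroup ℓ X' := fun y => ⟨1, Subtype.ext (by rw [pow_one]; exact hX'p _ y.2)⟩
  have hKpg : IsPGroup ℓ (Ka M QW a s) := fun y => ⟨1, Subtype.ext (by rw [pow_one]; exact ka_pow T hℓ hs y.2)⟩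
  have hnorm : ∀ y ∈ X', ∀ k ∈ Ka M QW a s, y * k * y⁻¹ ∈ Ka M QW a s := by
    intro y hy k hk
    obtain ⟨e1, hbe1, hyv⟩ := (hX' y).1 hy
    obtain ⟨e2, hbe2, hyv'⟩ := (hX' y⁻¹).1 (X'.inv_mem hy)
    obtain ⟨hkM, hkS, hka⟩ := hk
    have hyM : y ∈ M := NN_le M (hX'N hy)
    refine ⟨M.mul_mem (M.mul_mem hyM hkM) (M.inv_mem hyM), ?_, fun w => ?_⟩
    · have c1 : Commute y (ac s 1) := xb_S hyv s
      have c2 : Commute k (ac s 1) := hkS
      exact (c1.mul_left c2).mul_left c1.inv_left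
    · show y (k (y⁻¹ (tb QW a w))) = _
      rw [xb_tb hyv', hka, ← xb_tb hyv']
      exact y.apply_symm_apply _
  have hle : X' ≤ Subgroup.normalizer (Ka M QW a s) := by
    intro y hy
    rw [Subgroup.mem_normalizer_iff]
    intro k
    constructor
    · exact hnorm y hy k
    · intro hk
      have := hnorm y⁻¹ (X'.inv_mem hy) _ hk
      rw [inv_inv] at this
      have e3 : y⁻¹ * (y * k * y⁻¹) * y = k := by group
      rwa [e3] at this
  have hPpg : IsPGroup ℓ P := IsPGroup.to_sup_of_normal_right' hXpg hKpg hle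
  have hPN : P ≤ NN M := by
    apply hob X' (NN M) P hPM hPpg le_sup_left hX'N
    intro m hm hall
    obtain ⟨y, hyX, hy1⟩ := hex'
    exact xn_of T hF hℓ hpnf hAb hQAb ((hX' y).1 hyX) hy1 hm (hall y hyX)
  -- k
  have hk : g * x * g⁻¹ * x'⁻¹ ∈ Ka M QW a s := by
    have hxM : x ∈ M := NN_le M (hXN hxX)
    refine ⟨M.mul_mem (M.mul_mem (M.mul_mem hg hxM) (M.inv_mem hg)) (M.inv_mem hx'M), ?_, fun w => ?_⟩
    · have c1 : Commute g (ac s 1) := h
      have c2 : Commute x (ac s 1) := xb_S hxv s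
      have c3 : Commute x' (ac s 1) := xb_S hx'v s
      exact ((c1.mul_left c2).mul_left c1.inv_left).mul_left c3.inv_left
    · have e1 : ∀ w, (g * x * g⁻¹) (tb QW a w) = x' (tb QW a w) := by
        intro w
        show g (x (g⁻¹ (tb QW a w))) = _
        rw [hB, xb_tb hxv, hA, hAsg, xb_tb hx'v]
      obtain ⟨e2, hbe2, hyv'⟩ := (hX' x'⁻¹).1 (X'.inv_mem hx'X)
      show (g * x * g⁻¹) (x'⁻¹ (tb QW a w)) = _
      rw [xb_tb hyv', e1, ← xb_tb hyv']
      exact x'.apply_symm_apply _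
  have hgx : g * x * g⁻¹ ∈ NN M := by
    have e1 : g * x * g⁻¹ = (g * x * g⁻¹ * x'⁻¹) * x' := by group
    rw [e1]
    exact (NN M).mul_mem (hPN (show _ ∈ P from (le_sup_right : Ka M QW a s ≤ P) hk)) (hX'N hx'X)
  exact xn_of T hF hℓ hpnf hb hQb ⟨e, hbe, hxv⟩ hx1 hg hgx

/-- centralizers of `siegMap ⊗ 1` consist of pairs -/
theorem ps [Finite F] (T : T4 QE QW Q M) (hF : FixF QW M) (hℓ : ℓ.Prime) [CharP F ℓ] {a f : E} {s : E ≃ₗ[F] E}
    (hs : Sg QE a f s) {g : (W →ₗ[F] E) ≃ₗ[F] (W →ₗ[F] E)} (hg : g ∈ M) (h : g * ac s 1 = ac s 1 * g) : g ∈ NN M := by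
  haveI : Finite E := Module.finite_of_finite F
  haveI : Finite W := Module.finite_of_finite F
  haveI : Finite (W →ₗ[F] E) := Module.finite_of_finite F
  haveI : Finite ((W →ₗ[F] E) ≃ₗ[F] (W →ₗ[F] E)) := DFunLike.finite _
  exact ps_of T hF hℓ (fun _ hu ho => TenW4_PN.pnf T hℓ hu ho) (fun _ hb hQb => TenW4_XB.xb T hℓ hb hQb)
    (fun X N P hPM hP hXP hXN hx => TenW4_OB.ob hℓ hPM hP hXP hXN hx) hs hg h

end Cfsg.Agent.Lib.TenW4_PS
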