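import Cfsg.Agent.Lib.TenW40

/-!
# Involutions of `SO₃` (helper32)
-/

set_option autoImplicit false
set_option linter.unusedSectionVars false
set_option linter.unusedVariables false

namespace Cfsg.Agent.Lib.TenW4_ZT

open QuadraticMap Module Cfsg.Agent.Lib.Quad Cfsg.Agent.Lib.OrthMax Cfsg.Agent.Lib.OrthNd Cfsg.Agent.Lib.TenSLH94
  Cfsg.Agent.Lib.TenOO Cfsg.Agent.Lib.TenW4

variable {F E W : Type*} [Field F] [AddCommGroup E] [Module F E] [FiniteDimensional F E]
  [AddCommGroup W] [Module F W] [FiniteDimensional F W] [Finite F]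
  {QE : QuadraticForm F E} {QW : QuadraticForm F W} {Q : QuadraticForm F (W →ₗ[F] E)}
  {M : Subgroup ((W →ₗ[F] E) ≃ₗ[F] (W →ₗ[F] E))} {ℓ : ℕ}

theorem zt_fix (h2 : (2 : F) ≠ 0) (hQ : Nd QE) (hE3 : finrank F E = 3) {p : E ≃ₗ[F] E} (hp : Zt QE p) :
    ∃ e, QE e ≠ 0 ∧ ∀ x, p x = x ↔ ∃ c : F, x = c • e := by
  classical
  obtain ⟨hO, hpp, hp1, hdet⟩ := hp
  have hpp' : ∀ x, p (p x) = x := fun x => LinearEquiv.congr_fun hpp x
  let A : Submodule F E := LinearMap.ker ((p : E →ₗ[F] E) - LinearMap.id)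
  let B : Submodule F E := LinearMap.ker ((p : E →ₗ[F] E) + LinearMap.id)
  have mA : ∀ x, x ∈ A ↔ p x = x := fun x => by
    show ((p : E →ₗ[F] E) - LinearMap.id : E →ₗ[F] E) x = 0 ↔ _
    rw [LinearMap.sub_apply, LinearMap.id_apply, sub_eq_zero]; rfl
  have mB : ∀ x, x ∈ B ↔ p x = -x := fun x => by
    show ((p : E →ₗ[F] E) + LinearMap.id : E →ₗ[F] E) x = 0 ↔ _
    rw [LinearMap.add_apply, LinearMap.id_apply, add_eq_zero_iff_eq_neg]; rfl
  have hc : IsCompl A B := by
    constructor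
    · rw [Submodule.disjoint_def]
      intro x hx hy
      rw [mA] at hx
      rw [mB] at hy
      have h : x = -x := hx.symm.trans hy
      have : (2 : F) • x = 0 := by
        rw [two_smul]; nth_rewrite 1 [h]; rw [neg_add_cancel]
      exact (smul_eq_zero.1 this).resolve_left h2
    · rw [codisjoint_iff, eq_top_iff]
      intro x _
      rw [Submodule.mem_sup]
      refine ⟨(2:F)⁻¹ • (x + p x), (mA _).2 ?_, (2:F)⁻¹ • (x - p x), (mB _).2 ?_, ?_⟩
      · rw [map_smul, map_add, hpp', add_comm]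
      · rw [map_smul, map_sub, hpp', ← smul_neg, neg_sub]
      · rw [← smul_add, add_add_sub_cancel, ← two_smul F x, smul_smul, inv_mul_cancel₀ h2, one_smul]
  have hort : ∀ x ∈ A, ∀ y ∈ B, polar QE x y = 0 := by
    intro x hx y hy
    have h := O_polar hO x y
    rw [(mA x).1 hx, (mB y).1 hy, polar_neg_right] at h
    have h3 : (2 : F) * polar QE x y = 0 := by
      have : polar QE x y + polar QE x y = 0 := by
        nth_rewrite 1 [← h]; rw [neg_add_cancel]
      rw [two_mul]; exact this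
    exact (mul_eq_zero.1 h3).resolve_left h2
  have hdet2 : (-1 : F) ^ finrank F B = 1 := by
    let φ := Submodule.prodEquivOfIsCompl A B hc
    have h3 : (p : E →ₗ[F] E) = (φ : (A × B) →ₗ[F] E) ∘ₗ
        ((LinearMap.id : A →ₗ[F] A).prodMap ((-1 : F) • (LinearMap.id : B →ₗ[F] B))) ∘ₗ
          (φ.symm : E →ₗ[F] (A × B)) := by
      apply LinearMap.ext
      intro x
      obtain ⟨⟨a, b⟩, rfl⟩ := φ.surjective x
      show p (φ (a, b)) = φ (((LinearMap.id : A →ₗ[F] A).prodMap ((-1 : F) • (LinearMap.id : B →ₗ[F] B)))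
        (φ.symm (φ (a, b))))
      rw [φ.symm_apply_apply]
      show p ((a : E) + (b : E)) = ((a : E) + (((-1 : F) • b : B) : E))
      rw [map_add, (mA a).1 a.2, (mB b).1 b.2]
      simp
    rw [h3, LinearMap.det_conj, LinearMap.det_prodMap, LinearMap.det_id, LinearMap.det_smul, LinearMap.det_id] at hdet
    simpa using hdet
  have hsum : finrank F A + finrank F B = 3 := by
    rw [← hE3]; exact Submodule.finrank_add_eq_of_isCompl hc
  have hB0 : finrank F B ≠ 0 := by
    intro h0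
    have hBb : B = ⊥ := Submodule.finrank_eq_zero.1 h0
    have hAt : A = ⊤ := by
      have := hc.sup_eq_top
      rwa [hBb, sup_bot_eq] at this
    apply hp1
    apply LinearEquiv.ext
    intro x
    exact (mA x).1 (by rw [hAt]; exact Submodule.mem_top)
  have hev : Even (finrank F B) := by
    rcases Nat.even_or_odd (finrank F B) with h | h
    · exact h
    · rw [h.neg_one_pow] at hdet2
      exfalso
      apply h2
      have : (1 : F) + 1 = 0 := by nth_rewrite 1 [← hdet2]; rw [neg_add_cancel]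
      rw [← this]; norm_num
  have hA1 : finrank F A = 1 := by
    obtain ⟨k, hk⟩ := hev
    omega
  obtain ⟨⟨e, heA⟩, he0, he⟩ := finrank_eq_one_iff'.1 hA1
  have he0' : e ≠ 0 := fun h => he0 (Subtype.ext h)
  have hgen : ∀ x, p x = x ↔ ∃ c : F, x = c • e := by
    intro x
    constructor
    · intro hx
      obtain ⟨c, hc⟩ := he ⟨x, (mA x).2 hx⟩
      exact ⟨c, (congrArg Subtype.val hc).symm⟩
    · rintro ⟨c, rfl⟩
      rw [map_smul, (mA e).1 heA]
  refine ⟨e, ?_, hgen⟩
  intro hQe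
  apply he0'
  apply hQ.eq_zero
  intro y
  have hy : y ∈ A ⊔ B := by rw [hc.sup_eq_top]; exact Submodule.mem_top
  obtain ⟨a, ha, b, hb, rfl⟩ := Submodule.mem_sup.1 hy
  obtain ⟨c, rfl⟩ := (hgen a).1 ((mA a).1 ha)
  rw [polar_add_right, hort e heA b hb, add_zero, polar_smul_right, polar_self', hQe]
  simp

theorem zz (h2 : (2 : F) ≠ 0) {p p' : E ≃ₗ[F] E} (hp : Zt QE p) (hp' : Zt QE p') (hc : p * p' = p' * p) (hne : p ≠ p') :
    Zt QE (p * p') := by
  obtain ⟨hO, hpp, hp1, hdet⟩ := hp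
  obtain ⟨hO', hpp', hp1', hdet'⟩ := hp'
  refine ⟨(O QE).mul_mem hO hO', ?_, ?_, ?_⟩
  · calc p * p' * (p * p') = p * (p' * p) * p' := by simp only [mul_assoc]
      _ = p * (p * p') * p' := by rw [hc]
      _ = (p * p) * (p' * p') := by simp only [mul_assoc]
      _ = 1 := by rw [hpp, hpp', mul_one]
  · intro h
    apply hne
    calc p = p * (p' * p') := by rw [hpp', mul_one]
      _ = (p * p') * p' := by rw [mul_assoc]
      _ = p' := by rw [h, one_mul]
  · show LinearMap.det ((p : E →ₗ[F] E) ∘ₗ (p' : E →ₗ[F] E)) = 1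
    rw [LinearMap.det_comp, hdet, hdet', mul_one]

end Cfsg.Agent.Lib.TenW4_ZT
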