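import Cfsg.Agent.Lib.TenW4_OB
import Cfsg.Agent.Lib.TenW4_XB
import Cfsg.Agent.Lib.TenW4_PN
import Cfsg.Agent.Lib.TenW4_ZT
import Cfsg.Agent.Lib.TenW4_XN
import Cfsg.Agent.Lib.TenOO_L

/-!
# Piece Z1 of the plan for `O₃ ⊗ O₄⁻`: centralizers of involutions of `SO(E)` (helper13)
-/

set_option autoImplicit false
set_option linter.all false

open QuadraticMap Module Cfsg.Agent.Lib.Quad Cfsg.Agent.Lib.OrthMax Cfsg.Agent.Lib.OrthNd Cfsg.Agent.Lib.TenSLH94
  Cfsg.Agent.Lib.TenOO Cfsg.Agent.Lib.TenW4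

namespace Cfsg.Agent.Lib.TenW4_Z1

open Cfsg.Agent.Lib.TenW4_OB (kg)
open Cfsg.Agent.Lib.TenW4_XB (xb)
open Cfsg.Agent.Lib.TenW4_PN (pnf)
open Cfsg.Agent.Lib.TenW4_ZT (zt_fix)

variable {F E W : Type*} [Field F] [AddCommGroup E] [Module F E] [FiniteDimensional F E]
  [AddCommGroup W] [Module F W] [FiniteDimensional F W] [Finite F]
  {QE : QuadraticForm F E} {QW : QuadraticForm F W} {Q : QuadraticForm F (W →ₗ[F] E)}
  {M : Subgroup ((W →ₗ[F] E) ≃ₗ[F] (W →ₗ[F] E))} {ℓ : ℕ}

theorem tb_add_right (a : E) (b c : W) : tb QW a (b + c) = tb QW a b + tb QW a c := by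
  ext w; simp [tb_apply, polar_add_left, add_smul]

theorem tb_smul_right (a : E) (t : F) (b : W) : tb QW a (t • b) = t • tb QW a b := by
  ext w; simp [tb_apply, polar_smul_left, mul_smul]

theorem tb_smul_left (a : E) (t : F) (b : W) : tb QW (t • a) b = t • tb QW a b := by
  ext w; simp only [tb_apply, LinearMap.smul_apply]; rw [smul_comm]

theorem tb_sub_right (a : E) (b c : W) : tb QW a (b - c) = tb QW a b - tb QW a c := by
  ext w; simp [tb_apply, polar_sub_left, sub_smul]

theorem tb_inj (hW : Nd QW) {a : E} (ha : a ≠ 0) {b c : W} (h : tb QW a b = tb QW a c) : b = c := by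
  rw [← sub_eq_zero]
  apply hW.eq_zero
  intro w
  have h1 := LinearMap.congr_fun h w
  simp only [tb_apply] at h1
  rw [polar_sub_left]
  rw [← sub_eq_zero, ← sub_smul] at h1
  exact (smul_eq_zero.1 h1).resolve_right ha

/-- every linear form is a polar -/
theorem exists_rep (hW : Nd QW) (φ : W →ₗ[F] F) : ∃ b, ∀ w, polar QW b w = φ w := by
  have h1 : Function.Injective (polarBilin QW : W →ₗ[F] Dual F W) := by
    rw [injective_iff_map_eq_zero]
    intro x hx
    apply hW.eq_zero
    intro y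
    exact LinearMap.congr_fun hx y
  have h2 : Function.Surjective (polarBilin QW : W →ₗ[F] Dual F W) := by
    apply (LinearMap.injective_iff_surjective_of_finrank_eq_finrank (by rw [Subspace.dual_finrank_eq])).1 h1
  obtain ⟨b, hb⟩ := h2 φ
  exact ⟨b, fun w => by rw [← hb]; rfl⟩

theorem exists_tb (hW : Nd QW) {e : E} (he : e ≠ 0) {v : W →ₗ[F] E} (h : ∀ w, ∃ c : F, v w = c • e) :
    ∃ b, v = tb QW e b := by
  obtain ⟨l, hl⟩ : ∃ l : E →ₗ[F] F, l e = 1 := by
    by_contra hcon
    push Not at hcon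
    apply he
    rw [← Module.forall_dual_apply_eq_zero_iff F e]
    intro φ
    by_contra hne
    apply hcon ((φ e)⁻¹ • φ)
    rw [LinearMap.smul_apply, smul_eq_mul, inv_mul_cancel₀ hne]
  obtain ⟨b, hb⟩ := exists_rep hW (l ∘ₗ v)
  refine ⟨b, ?_⟩
  ext w
  obtain ⟨c, hc⟩ := h w
  rw [tb_apply, hb, LinearMap.comp_apply, hc, map_smul, hl, smul_eq_mul, mul_one]

theorem SgV_tb (a : E) (b e w : W) : SgV QW b e (tb QW a w) = tb QW a (siegMap QW b e w) := by
  ext y
  simp only [SgV, siegMap_apply, LinearMap.sub_apply, LinearMap.add_apply, LinearMap.smul_apply, tb_apply,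
    polar_add_left, polar_sub_left, polar_smul_left, smul_smul]
  rw [polar_comm QW w b, polar_comm QW w e]
  simp only [smul_eq_mul]
  module

/-- the formula for `Q` on pure tensors -/
theorem Q_tb (T : T4 QE QW Q M) (a : E) (w : W) : Q (tb QW a w) = 2 * QE a * QW w := by
  have h2 := T.h2
  have h1 := T.pol a w (tb QW a w)
  rw [polar_self', tb_apply, polar_smul_left, polar_self', polar_self'] at h1
  apply mul_left_cancel₀ h2
  rw [h1, smul_eq_mul]
  ring

theorem polar_tb (T : T4 QE QW Q M) (a : E) (w w' : W) :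
    polar Q (tb QW a w) (tb QW a w') = 2 * QE a * polar QW w w' := by
  rw [T.pol, tb_apply, polar_smul_left, polar_self', polar_comm QW w' w, smul_eq_mul]
  ring

/-- a pair fixing `e₀ ⊗ W` pointwise -/
theorem fix_one (T : T4 QE QW Q M) (hℓ : ℓ.Prime) [CharP F ℓ] {e : E} (he : QE e ≠ 0) {k}
    (hk : k ∈ NN M) (ho : ∃ j : ℕ, k ^ (ℓ ^ j) = 1) (hf : ∀ w, k (tb QW e w) = tb QW e w) : k = 1 := by
  have he0 : e ≠ 0 := by rintro rfl; exact he (by simp)
  obtain ⟨p, q, rfl, hp, hq⟩ := pnf T hℓ hk ho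
  have h1 : ∀ w w' : W, polar QW w (q.symm w') • p e = polar QW w w' • e := by
    intro w w'
    have := LinearMap.congr_fun (hf w) w'
    rw [ac_apply, tb_apply, tb_apply, map_smul] at this
    exact this
  have hp1 : p = 1 := by
    obtain ⟨w, hw⟩ : ∃ w : W, w ≠ 0 := by
      have : 0 < finrank F W := by rw [T.hW4]; norm_num
      have := Module.finrank_pos_iff.1 this
      exact exists_ne 0
    have hqw : q.symm w ≠ 0 := by simpa using hw
    obtain ⟨w1, hw1⟩ : ∃ w1, polar QW w1 (q.symm w) ≠ 0 := by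
      by_contra hcon
      push Not at hcon
      exact hqw (T.ndW.eq_zero fun y => by rw [polar_comm]; exact hcon y)
    have h3 : p e = ((polar QW w1 (q.symm w))⁻¹ * polar QW w1 w) • e := by
      rw [mul_smul, ← h1 w1 w, smul_smul, inv_mul_cancel₀ hw1, one_smul]
    rcases hp with rfl | ⟨a, f, hQa, ha, haf, hQf, hpa⟩
    · rfl
    set c := (polar QW w1 (q.symm w))⁻¹ * polar QW w1 w with hc
    have h4 : e + polar QE a e • f - polar QE f e • a - (QE f * polar QE a e) • a = c • e := by
      rw [← h3, hpa, siegMap_apply]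
    have haa : polar QE a a = 0 := by rw [polar_self', hQa, mul_zero]
    have h5 : polar QE a e = c * polar QE a e := by
      have := congrArg (polar QE a) h4
      rw [polar_sub_right, polar_sub_right, polar_add_right, polar_smul_right, polar_smul_right, polar_smul_right,
        polar_smul_right, haa, haf] at this
      simpa using this
    exfalso
    by_cases hae : polar QE a e = 0
    · -- `e` is perpendicular to `a`
      rw [hae] at h4
      have h6 : (1 - c) • e = polar QE f e • a := by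
        have : (1 - c) • e - polar QE f e • a = (e + (0:F) • f - polar QE f e • a - (QE f * 0) • a) - c • e := by module
        rw [h4, sub_self] at this
        exact sub_eq_zero.1 this
      have h7 : (1 - c) * (1 - c) * QE e = 0 := by
        rw [← Q_smul, h6, Q_smul, hQa, mul_zero]
      have h8 : 1 - c = 0 := by
        rcases mul_eq_zero.1 h7 with h | h
        · exact mul_self_eq_zero.1 h
        · exact absurd h he
      rw [h8, zero_smul] at h6
      have h9 : polar QE f e = 0 := (smul_eq_zero.1 h6.symm).resolve_right ha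
      -- now `e ∈ ⟨a, f⟩^⊥ = ⟨a⟩`
      have hfa : f ∉ F ∙ a := by
        intro h
        obtain ⟨t, rfl⟩ := Submodule.mem_span_singleton.1 h
        exact hQf (by rw [Q_smul, hQa, mul_zero])
      have h10 : (F ∙ a) ⊔ (F ∙ e) ≤ perp QE ((F ∙ a) ⊔ (F ∙ f)) := by
        rw [sup_le_iff, Submodule.span_singleton_le_iff_mem, Submodule.span_singleton_le_iff_mem, mem_perp, mem_perp]
        constructor
        · intro x hx
          obtain ⟨y, hy, z, hz, rfl⟩ := Submodule.mem_sup.1 hx
          obtain ⟨s, rfl⟩ := Submodule.mem_span_singleton.1 hy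
          obtain ⟨t, rfl⟩ := Submodule.mem_span_singleton.1 hz
          rw [polar_add_left, polar_smul_left, polar_smul_left, haa, polar_comm QE f a, haf]
          simp
        · intro x hx
          obtain ⟨y, hy, z, hz, rfl⟩ := Submodule.mem_sup.1 hx
          obtain ⟨s, rfl⟩ := Submodule.mem_span_singleton.1 hy
          obtain ⟨t, rfl⟩ := Submodule.mem_span_singleton.1 hz
          rw [polar_add_left, polar_smul_left, polar_smul_left, hae, h9]
          simp
      have h11 := Submodule.finrank_mono h10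
      have h12 := T.ndE.finrank_add_finrank_perp ((F ∙ a) ⊔ (F ∙ f))
      have h13 : 1 < finrank F ↥((F ∙ a) ⊔ (F ∙ f)) := by
        rw [← finrank_span_singleton (K := F) ha]
        apply Submodule.finrank_lt_finrank_of_lt
        refine lt_of_le_of_ne le_sup_left ?_
        intro h
        apply hfa
        rw [h]
        exact Submodule.mem_sup_right (Submodule.mem_span_singleton_self f)
      have h14 : e ∈ F ∙ a := by
        by_contra hcon
        have h15 : 1 < finrank F ↥((F ∙ a) ⊔ (F ∙ e)) := by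
          rw [← finrank_span_singleton (K := F) ha]
          apply Submodule.finrank_lt_finrank_of_lt
          refine lt_of_le_of_ne le_sup_left ?_
          intro h
          apply hcon
          rw [h]
          exact Submodule.mem_sup_right (Submodule.mem_span_singleton_self e)
        rw [T.hE3] at h12
        omega
      obtain ⟨t, ht⟩ := Submodule.mem_span_singleton.1 h14
      exact he (by rw [← ht, Q_smul, hQa, mul_zero])
    · have hc1 : c = 1 := by
        have : (c - 1) * polar QE a e = 0 := by rw [sub_mul, one_mul, ← h5, sub_self]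
        exact sub_eq_zero.1 ((mul_eq_zero.1 this).resolve_right hae)
      rw [hc1, one_smul] at h4
      have h6 : polar QE a e • f = (polar QE f e + QE f * polar QE a e) • a := by
        have : polar QE a e • f - (polar QE f e + QE f * polar QE a e) • a =
          (e + polar QE a e • f - polar QE f e • a - (QE f * polar QE a e) • a) - e := by module
        rw [h4, sub_self] at this
        exact sub_eq_zero.1 this
      have h7 : polar QE a e * polar QE a e * QE f = 0 := by
        rw [← Q_smul, h6, Q_smul, hQa, mul_zero]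
      rcases mul_eq_zero.1 h7 with h | h
      · exact hae (mul_self_eq_zero.1 h)
      · exact hQf h
  subst hp1
  have hq1 : q = 1 := by
    have : q.symm = LinearEquiv.refl F W := by
      ext w'
      show q.symm w' = w'
      rw [← sub_eq_zero]
      apply T.ndW.eq_zero
      intro w
      have := h1 w w'
      rw [← sub_eq_zero] at this
      have h5 : (polar QW w (q.symm w') - polar QW w w') • e = 0 := by rw [sub_smul]; exact this
      rw [polar_comm, polar_sub_right]
      exact (smul_eq_zero.1 h5).resolve_right he0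
    have : q = LinearEquiv.refl F W := by
      rw [← q.symm_symm, this]; rfl
    exact this
  rw [hq1]
  rfl

theorem XB_inv {b : W} {x : (W →ₗ[F] E) ≃ₗ[F] (W →ₗ[F] E)} (a : E) (hx : XB QW b x) (w : W) :
    ∃ w', x (tb QW a w) = tb QW a w' := by
  obtain ⟨e, he, h⟩ := hx
  exact ⟨_, by rw [h, SgV_tb]⟩

theorem tb_comp (p : E ≃ₗ[F] E) (a : E) (b : W) : (ac p (1 : W ≃ₗ[F] W)) (tb QW a b) = tb QW (p a) b := by
  ext w
  rw [ac_apply, tb_apply, tb_apply, map_smul]
  rfl

theorem XB_comm {b : W} {x : (W →ₗ[F] E) ≃ₗ[F] (W →ₗ[F] E)} (hx : XB QW b x) (p : E ≃ₗ[F] E) :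
    x * ac p 1 = ac p 1 * x := by
  obtain ⟨e, he, h⟩ := hx
  apply LinearEquiv.ext
  intro v
  show x (ac p 1 v) = ac p 1 (x v)
  rw [h, h, SgV_eq, SgV_eq]
  rfl

theorem xn (T : T4 QE QW Q M) (hF : FixF QW M) (hℓ : ℓ.Prime) [CharP F ℓ] {b : W} (hb : b ≠ 0) (hQb : QW b = 0) {x}
    (hx : XB QW b x) (hx1 : x ≠ 1) {g} (hg : g ∈ M) (h : g * x * g⁻¹ ∈ NN M) : g ∈ NN M :=
  TenW4_XN.xn_of T hF hℓ (fun u hu ho => pnf T hℓ hu ho) hb hQb hx hx1 hg h

theorem z1 (T : T4 QE QW Q M) (hF : FixF QW M) (hℓ : ℓ.Prime) [CharP F ℓ] {p : E ≃ₗ[F] E} (hp : Zt QE p)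
    (hpM : ac p 1 ∈ M) {g} (hg : g ∈ M) (h : g * ac p 1 = ac p 1 * g) : g ∈ NN M := by
  have h2 := T.h2
  haveI : Finite E := Module.finite_of_finite F
  haveI : Finite W := Module.finite_of_finite F
  haveI : Finite (W →ₗ[F] E) := Module.finite_of_finite F
  haveI : Finite ((W →ₗ[F] E) ≃ₗ[F] (W →ₗ[F] E)) := DFunLike.finite _
  obtain ⟨e, he, hfix⟩ := zt_fix T.h2 T.ndE T.hE3 hp
  have he0 : e ≠ 0 := by rintro rfl; exact he (by simp)
  have hpe : p e = e := (hfix e).2 ⟨1, by rw [one_smul]⟩
  -- `g` acts on `e ⊗ W`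
  have hA : ∀ w, ∃ w', g (tb QW e w) = tb QW e w' := by
    intro w
    apply exists_tb T.ndW he0
    intro y
    apply (hfix _).1
    have h1 : ac p 1 (g (tb QW e w)) = g (tb QW e w) := by
      have := LinearEquiv.congr_fun h (tb QW e w)
      change g (ac p 1 (tb QW e w)) = ac p 1 (g (tb QW e w)) at this
      rw [tb_comp, hpe] at this
      exact this.symm
    have := LinearMap.congr_fun h1 y
    rw [ac_apply] at this
    exact this
  choose A hA using hA
  have hAadd : ∀ w w', A (w + w') = A w + A w' := by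
    intro w w'
    apply tb_inj T.ndW he0
    rw [← hA, tb_add_right, map_add, hA, hA, tb_add_right]
  have hAsub : ∀ w w', A (w - w') = A w - A w' := by
    intro w w'
    apply tb_inj T.ndW he0
    rw [← hA, tb_sub_right, map_sub, hA, hA, tb_sub_right]
  have hAsmul : ∀ (c : F) w, A (c • w) = c • A w := by
    intro c w
    apply tb_inj T.ndW he0
    rw [← hA, tb_smul_right, map_smul, hA, tb_smul_right]
  have hAQ : ∀ w, QW (A w) = QW w := by
    intro w
    have h3 := T.hM hg (tb QW e w)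
    rw [hA, Q_tb T, Q_tb T] at h3
    exact mul_left_cancel₀ (mul_ne_zero h2 he) h3
  have hAp : ∀ w w', polar QW (A w) (A w') = polar QW w w' := by
    intro w w'
    rw [polar, polar, ← hAadd, hAQ, hAQ, hAQ]
  have hAne : ∀ w, w ≠ 0 → A w ≠ 0 := by
    intro w hw h3
    apply hw
    have h4 : g (tb QW e w) = 0 := by
      rw [hA, h3]
      ext y; simp [tb_apply]
    have h5 : tb QW e w = tb QW e (0 : W) := by
      rw [(LinearEquiv.map_eq_zero_iff g).1 h4]
      ext y; simp [tb_apply]
    exact tb_inj T.ndW he0 h5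
  -- a singular vector
  obtain ⟨b, hQb, hb⟩ : ∃ b : W, QW b = 0 ∧ b ≠ 0 := by
    obtain ⟨a, -, b, -, hQa, hQb, hab⟩ := exists_pair_in T.ndW (TenOO_L.nds_top T.ndW) (by
      rw [finrank_top, T.hW4]; norm_num)
    refine ⟨a, hQa, ?_⟩
    rintro rfl
    rw [polar_zero_left] at hab
    exact zero_ne_one hab
  -- a non-singular vector perpendicular to it
  obtain ⟨f, hbf, hQf⟩ : ∃ f : W, polar QW b f = 0 ∧ QW f ≠ 0 := by
    by_contra hcon
    push Not at hcon
    have h5 : perp QW (F ∙ b) ≤ F ∙ b := by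
      intro f hf
      rw [mem_perp_singleton] at hf
      obtain ⟨c, hc⟩ := T.hmin b f hQb (hcon f hf) hf hb
      exact Submodule.mem_span_singleton.2 ⟨c, hc.symm⟩
    have h6 := Submodule.finrank_mono h5
    have h7 := T.ndW.finrank_add_finrank_perp (F ∙ b)
    rw [finrank_span_singleton hb] at h6 h7
    rw [T.hW4] at h7
    omega
  obtain ⟨X, hX, hXN, hXab, hXexp, hXcard⟩ := xb T hℓ hb hQb
  let K : Subgroup ((W →ₗ[F] E) ≃ₗ[F] (W →ₗ[F] E)) :=
    { carrier := {k | k ∈ M ∧ ∀ w, k (tb QW e w) = tb QW e w}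
      mul_mem' := by
        rintro x y ⟨hx, hx'⟩ ⟨hy, hy'⟩
        exact ⟨M.mul_mem hx hy, fun w => by
          show x (y _) = _
          rw [hy', hx']⟩
      one_mem' := ⟨M.one_mem, fun w => rfl⟩
      inv_mem' := by
        rintro x ⟨hx, hx'⟩
        exact ⟨M.inv_mem hx, fun w => by
          show x.symm _ = _
          rw [LinearEquiv.symm_apply_eq, hx']⟩ }
  have hKN : K ≤ NN M := by
    apply kg (M := M) (X := X) (K := K) (p := ℓ) hℓ (hXN.trans (NN_le M)) (NN_le M) (fun k hk => hk.1) hXab hXexp hXcard hXN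
    · intro x hx hx1 g' hg' hgx
      exact xn T hF hℓ hb hQb ((hX x).1 hx) hx1 hg' hgx
    · intro x hx k hk
      refine ⟨M.mul_mem (M.mul_mem ((hXN.trans (NN_le M)) hx) hk.1) (M.inv_mem ((hXN.trans (NN_le M)) hx)), ?_⟩
      intro w
      obtain ⟨w', hw'⟩ := XB_inv e ((hX _).1 (X.inv_mem hx)) w
      show x (k (x⁻¹ (tb QW e w))) = _
      rw [hw', hk.2, ← hw']
      exact LinearEquiv.apply_symm_apply x _
    · intro k hk hkN hord
      have h3 : k = 1 := fix_one T hℓ he hkN ⟨1, by rw [pow_one, ← hord, pow_orderOf_eq_one]⟩ hk.2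
      rw [h3, orderOf_one] at hord
      exact hℓ.one_lt.ne hord
  -- the element of `X_b`, and the element of `X_{Ab}`
  obtain ⟨x, hxM, hx⟩ := T.tB b f hQb hbf
  obtain ⟨x', hxM', hx'⟩ := T.tB (A b) (A f) (by rw [hAQ, hQb]) (by rw [hAp, hbf])
  have hxN : x ∈ NN M := hXN ((hX x).2 ⟨f, hbf, hx⟩)
  have hk : g⁻¹ * x'⁻¹ * g * x ∈ K := by
    refine ⟨M.mul_mem (M.mul_mem (M.mul_mem (M.inv_mem hg) (M.inv_mem hxM')) hg) hxM, ?_⟩
    intro w
    have h3 : g (x (tb QW e w)) = x' (g (tb QW e w)) := by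
      rw [hx, SgV_tb, hA, hA, hx', SgV_tb, siegMap_apply, siegMap_apply, hAsub, hAsub, hAadd, hAsmul, hAsmul, hAsmul,
        hAp, hAp, hAQ]
    show g.symm (x'.symm (g (x (tb QW e w)))) = _
    rw [h3, LinearEquiv.symm_apply_apply, LinearEquiv.symm_apply_apply]
  have hk' := hKN hk
  have h3 : g⁻¹ * x' * g⁻¹⁻¹ ∈ NN M := by
    have : g⁻¹ * x' * g⁻¹⁻¹ = x * (g⁻¹ * x'⁻¹ * g * x)⁻¹ := by group
    rw [this]
    exact (NN M).mul_mem hxN ((NN M).inv_mem hk')
  have hx1 : x' ≠ 1 := by
    rintro rfl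
    obtain ⟨w, hw⟩ : ∃ w, polar QW (A b) w = 1 := by
      exact T.ndW.exists_polar_one' (hAne b hb)
    have h4 := hx' (tb QW e w)
    rw [SgV_tb] at h4
    have h5 : w = siegMap QW (A b) (A f) w := tb_inj T.ndW he0 h4
    rw [siegMap_apply, hw, one_smul, mul_one] at h5
    have h6 : A f = (polar QW (A f) w + QW (A f)) • A b := by
      have h7 : A f - (polar QW (A f) w + QW (A f)) • A b = (w + A f - polar QW (A f) w • A b - QW (A f) • A b) - w := by
        module
      rw [← h5, sub_self] at h7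
      exact sub_eq_zero.1 h7
    apply hQf
    rw [← hAQ f, h6, Q_smul, hAQ b, hQb, mul_zero]
  have h4 := xn T hF hℓ (hAne b hb) (by rw [hAQ, hQb]) ⟨A f, by rw [hAp, hbf], hx'⟩ hx1 (M.inv_mem hg) h3
  have := (NN M).inv_mem h4
  rwa [inv_inv] at this

end Cfsg.Agent.Lib.TenW4_Z1
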