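import Cfsg.Agent.Lib.TenW40
import Cfsg.Agent.Lib.TenOO_L
import Cfsg.Agent.Lib.TenW4_ZT

/-!
# Overgroups of `O₃ ⊗ O₄⁻`: involutions of the pair group (piece Z2 of S5873-PLAN, helper91)
-/

set_option autoImplicit false
set_option linter.unusedSectionVars false
set_option linter.unusedVariables false
set_option linter.style.haveILetI false

open QuadraticMap Module Cfsg.Agent.Lib.Quad Cfsg.Agent.Lib.OrthMax Cfsg.Agent.Lib.OrthNd Cfsg.Agent.Lib.TenSLH94
  Cfsg.Agent.Lib.TenOO Cfsg.Agent.Lib.TenW4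

namespace Cfsg.Agent.Lib.TenW4_Z2

variable {F E W : Type*} [Field F] [AddCommGroup E] [Module F E] [FiniteDimensional F E]
  [AddCommGroup W] [Module F W] [FiniteDimensional F W]

section dims

/-- the eigenspaces of an involution -/
def Ep (p : E ≃ₗ[F] E) : Submodule F E where
  carrier := {x | p x = x}
  add_mem' := fun {x y} hx hy => by
    have hx' : p x = x := hx
    have hy' : p y = y := hy
    show p (x + y) = x + y
    rw [map_add, hx', hy']
  zero_mem' := map_zero p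
  smul_mem' := fun c x hx => by
    have hx' : p x = x := hx
    show p (c • x) = c • x
    rw [map_smul, hx']

def Em (p : E ≃ₗ[F] E) : Submodule F E where
  carrier := {x | p x = -x}
  add_mem' := fun {x y} hx hy => by
    have hx' : p x = -x := hx
    have hy' : p y = -y := hy
    show p (x + y) = -(x + y)
    rw [map_add, hx', hy', neg_add]
  zero_mem' := by show p 0 = -0; rw [map_zero, neg_zero]
  smul_mem' := fun c x hx => by
    have hx' : p x = -x := hx
    show p (c • x) = -(c • x)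
    rw [map_smul, hx', smul_neg]

theorem mem_Ep {p : E ≃ₗ[F] E} {x : E} : x ∈ Ep p ↔ p x = x := Iff.rfl
theorem mem_Em {p : E ≃ₗ[F] E} {x : E} : x ∈ Em p ↔ p x = -x := Iff.rfl

theorem add_mem_Ep {p : E ≃ₗ[F] E} (hp : ∀ x, p (p x) = x) (x : E) : x + p x ∈ Ep p := by
  rw [mem_Ep, map_add, hp, add_comm]

theorem sub_mem_Em {p : E ≃ₗ[F] E} (hp : ∀ x, p (p x) = x) (x : E) : x - p x ∈ Em p := by
  rw [mem_Em, map_sub, hp, neg_sub]

theorem dim_add (h2 : (2 : F) ≠ 0) {p : E ≃ₗ[F] E} (hp : ∀ x, p (p x) = x) :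
    finrank F ↥(Ep p) + finrank F ↥(Em p) = finrank F E := by
  have h1 : Ep p ⊓ Em p = ⊥ := by
    rw [eq_bot_iff]
    rintro x ⟨hx, hx'⟩
    have e1 : p x = x := hx
    have e2 : p x = -x := hx'
    rw [Submodule.mem_bot]
    have e3 : (2 : F) • x = 0 := by
      rw [two_smul]
      nth_rewrite 1 [← e1]
      rw [e2, neg_add_cancel]
    exact (smul_eq_zero.1 e3).resolve_left h2
  have h3 : Ep p ⊔ Em p = ⊤ := by
    rw [eq_top_iff]
    intro x _
    have e1 : x = (2 : F)⁻¹ • (x + p x) + (2 : F)⁻¹ • (x - p x) := by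
      rw [← smul_add]
      have : x + p x + (x - p x) = (2 : F) • x := by module
      rw [this, smul_smul, inv_mul_cancel₀ h2, one_smul]
    rw [e1]
    exact Submodule.add_mem_sup (Submodule.smul_mem _ _ (add_mem_Ep hp x)) (Submodule.smul_mem _ _ (sub_mem_Em hp x))
  have h4 := Submodule.finrank_sup_add_finrank_inf_eq (Ep p) (Em p)
  rw [h1, h3, finrank_bot, finrank_top, add_zero] at h4
  exact h4.symm

/-- the fixed space of a pair of involutions -/
theorem dim_fix (h2 : (2 : F) ≠ 0) {p : E ≃ₗ[F] E} (hp : ∀ x, p (p x) = x) {q : W ≃ₗ[F] W} (hq : ∀ w, q (q w) = w) :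
    finrank F (LinearMap.ker (((ac p q : (W →ₗ[F] E) ≃ₗ[F] (W →ₗ[F] E)) : (W →ₗ[F] E) →ₗ[F] (W →ₗ[F] E)) - LinearMap.id)) =
      finrank F ↥(Ep q) * finrank F ↥(Ep p) + finrank F ↥(Em q) * finrank F ↥(Em p) := by
  have hqs : ∀ w, q.symm w = q w := fun w => by rw [LinearEquiv.symm_apply_eq, hq]
  set K := LinearMap.ker (((ac p q : (W →ₗ[F] E) ≃ₗ[F] (W →ₗ[F] E)) : (W →ₗ[F] E) →ₗ[F] (W →ₗ[F] E)) - LinearMap.id) with hK
  have hmem : ∀ v : W →ₗ[F] E, v ∈ K ↔ ∀ w, p (v (q w)) = v w := by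
    intro v
    rw [hK, LinearMap.mem_ker, LinearMap.sub_apply, sub_eq_zero]
    constructor
    · intro h w
      have h1 := congrArg (fun v : W →ₗ[F] E => v w) h
      have h3 : ac p q v w = v w := h1
      rw [ac_apply, hqs] at h3
      exact h3
    · intro h
      ext w
      show ac p q v w = v w
      rw [ac_apply, hqs, h]
  let πp : W →ₗ[F] ↥(Ep q) := LinearMap.codRestrict (Ep q) ((2 : F)⁻¹ • (LinearMap.id + (q : W →ₗ[F] W)))
    (fun w => Submodule.smul_mem _ _ (add_mem_Ep hq w))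
  let πm : W →ₗ[F] ↥(Em q) := LinearMap.codRestrict (Em q) ((2 : F)⁻¹ • (LinearMap.id - (q : W →ₗ[F] W)))
    (fun w => Submodule.smul_mem _ _ (sub_mem_Em hq w))
  have hπp : ∀ w, ((πp w : ↥(Ep q)) : W) = (2 : F)⁻¹ • (w + q w) := fun w => rfl
  have hπm : ∀ w, ((πm w : ↥(Em q)) : W) = (2 : F)⁻¹ • (w - q w) := fun w => rfl
  have hπpp : ∀ w : ↥(Ep q), πp w = w := by
    intro w
    apply Subtype.ext
    rw [hπp, mem_Ep.1 w.2, ← two_smul F, smul_smul, inv_mul_cancel₀ h2, one_smul]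
  have hπpm : ∀ w : ↥(Em q), πp w = 0 := by
    intro w
    apply Subtype.ext
    rw [hπp, mem_Em.1 w.2, add_neg_cancel, smul_zero]; rfl
  have hπmm : ∀ w : ↥(Em q), πm w = w := by
    intro w
    apply Subtype.ext
    rw [hπm, mem_Em.1 w.2, sub_neg_eq_add, ← two_smul F, smul_smul, inv_mul_cancel₀ h2, one_smul]
  have hπmp : ∀ w : ↥(Ep q), πm w = 0 := by
    intro w
    apply Subtype.ext
    rw [hπm, mem_Ep.1 w.2, sub_self, smul_zero]; rfl
  have hqp : ∀ w, πp (q w) = πp w := by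
    intro w
    apply Subtype.ext
    rw [hπp, hπp, hq, add_comm]
  have hqm : ∀ w, πm (q w) = - πm w := by
    intro w
    apply Subtype.ext
    rw [hπm, hq, Submodule.coe_neg, hπm, ← smul_neg, neg_sub]
  have hdec : ∀ w, ((πp w : ↥(Ep q)) : W) + ((πm w : ↥(Em q)) : W) = w := by
    intro w
    rw [hπp, hπm, ← smul_add]
    have : w + q w + (w - q w) = (2 : F) • w := by module
    rw [this, smul_smul, inv_mul_cancel₀ h2, one_smul]
  let Φ : ((↥(Ep q) →ₗ[F] ↥(Ep p)) × (↥(Em q) →ₗ[F] ↥(Em p))) →ₗ[F] ↥K :=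
    { toFun := fun gh => ⟨(Ep p).subtype ∘ₗ gh.1 ∘ₗ πp + (Em p).subtype ∘ₗ gh.2 ∘ₗ πm, (hmem _).2 (by
        intro w
        simp only [LinearMap.add_apply, LinearMap.comp_apply, map_add, hqp, hqm, map_neg, Submodule.subtype_apply]
        rw [mem_Ep.1 (gh.1 (πp w)).2, mem_Em.1 (gh.2 (πm w)).2, neg_neg])⟩
      map_add' := by
        intro a b
        apply Subtype.ext
        ext w
        simp only [Prod.fst_add, Prod.snd_add, LinearMap.add_apply, LinearMap.comp_apply, Submodule.subtype_apply, Submodule.coe_add]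
        abel
      map_smul' := by
        intro c a
        apply Subtype.ext
        ext w
        simp only [Prod.smul_fst, Prod.smul_snd, LinearMap.add_apply, LinearMap.comp_apply, Submodule.subtype_apply, Submodule.coe_smul,
          LinearMap.smul_apply, RingHom.id_apply, smul_add] }
  have hΦ : ∀ gh w, ((Φ gh : ↥K) : W →ₗ[F] E) w = ((gh.1 (πp w) : ↥(Ep p)) : E) + ((gh.2 (πm w) : ↥(Em p)) : E) := fun _ _ => rfl
  have hinj : Function.Injective Φ := by
    intro a b hab
    have h1 : ∀ w, ((a.1 (πp w) : ↥(Ep p)) : E) + ((a.2 (πm w) : ↥(Em p)) : E) =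
        ((b.1 (πp w) : ↥(Ep p)) : E) + ((b.2 (πm w) : ↥(Em p)) : E) := by
      intro w
      rw [← hΦ, ← hΦ, hab]
    apply Prod.ext
    · ext w
      have h3 := h1 w
      rw [hπpp, hπmp, map_zero, map_zero, Submodule.coe_zero, add_zero, add_zero] at h3
      exact h3
    · ext w
      have h3 := h1 w
      rw [hπpm, hπmm, map_zero, map_zero, Submodule.coe_zero, zero_add, zero_add] at h3
      exact h3
  have hsurj : Function.Surjective Φ := by
    rintro ⟨v, hv⟩
    have hv' := (hmem v).1 hv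
    refine ⟨(LinearMap.codRestrict (Ep p) (v ∘ₗ (Ep q).subtype) (fun w => ?_), LinearMap.codRestrict (Em p) (v ∘ₗ (Em q).subtype) (fun w => ?_)), ?_⟩
    · have h1 := hv' (w : W)
      rw [mem_Ep.1 w.2] at h1
      exact h1
    · have h1 := hv' (w : W)
      rw [mem_Em.1 w.2, map_neg, map_neg] at h1
      exact neg_eq_iff_eq_neg.mp h1
    · apply Subtype.ext
      ext w
      rw [hΦ]
      show v ((πp w : ↥(Ep q)) : W) + v ((πm w : ↥(Em q)) : W) = v w
      rw [← map_add, hdec]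
  rw [← (LinearEquiv.ofBijective Φ ⟨hinj, hsurj⟩).finrank_eq, Module.finrank_prod, Module.finrank_linearMap, Module.finrank_linearMap]

end dims

variable [Finite F] {QE : QuadraticForm F E} {QW : QuadraticForm F W} {Q : QuadraticForm F (W →ₗ[F] E)}
  {M : Subgroup ((W →ₗ[F] E) ≃ₗ[F] (W →ₗ[F] E))}

theorem z2' (T : T4 QE QW Q M) {p : E ≃ₗ[F] E} (hp : Zt QE p) :
    finrank F (LinearMap.ker (((ac p (1 : W ≃ₗ[F] W) : (W →ₗ[F] E) ≃ₗ[F] (W →ₗ[F] E)) :
      (W →ₗ[F] E) →ₗ[F] (W →ₗ[F] E)) - LinearMap.id)) = 4 := by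
  have hpp : ∀ x, p (p x) = x := fun x => by
    rw [← LinearEquiv.mul_apply, hp.2.1]; rfl
  rw [dim_fix T.h2 hpp (fun w => rfl)]
  obtain ⟨e, he, hfix⟩ := TenW4_ZT.zt_fix T.h2 T.ndE T.hE3 hp
  have he0 : e ≠ 0 := by rintro rfl; exact he (QuadraticMap.map_zero _)
  have h1 : Ep p = F ∙ e := by
    ext x
    rw [mem_Ep, hfix, Submodule.mem_span_singleton]
    constructor
    · rintro ⟨c, rfl⟩; exact ⟨c, rfl⟩
    · rintro ⟨c, rfl⟩; exact ⟨c, rfl⟩
  have h3 : Ep (1 : W ≃ₗ[F] W) = ⊤ := by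
    rw [eq_top_iff]; intro w _; rfl
  have h4 : Em (1 : W ≃ₗ[F] W) = ⊥ := by
    rw [eq_bot_iff]
    intro w hw
    have h5 : w = -w := hw
    rw [Submodule.mem_bot]
    have e3 : (2 : F) • w = 0 := by
      rw [two_smul]
      nth_rewrite 1 [h5]
      rw [neg_add_cancel]
    exact (smul_eq_zero.1 e3).resolve_left T.h2
  rw [h1, h3, h4, finrank_top, finrank_bot, finrank_span_singleton he0, T.hW4]
  simp

theorem ac_eq_one {p : E ≃ₗ[F] E} {q : W ≃ₗ[F] W} (hE : 0 < finrank F E) (hW : 0 < finrank F W) (h : ac p q = 1) :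
    ∃ c : F, c ≠ 0 ∧ (∀ x, p x = c • x) ∧ ∀ w, q w = c • w := by
  have h1 : ∀ (v : W →ₗ[F] E) (w : W), p (v (q.symm w)) = v w := by
    intro v w
    have h2 : ac p q v w = v w := by rw [h]; rfl
    rw [ac_apply] at h2
    exact h2
  haveI : Nontrivial W := Module.nontrivial_of_finrank_pos hW
  haveI : Nontrivial E := Module.nontrivial_of_finrank_pos hE
  obtain ⟨u, hu⟩ := exists_ne (0 : W)
  obtain ⟨f, hf⟩ : ∃ f : Dual F W, f u = 1 := by
    obtain ⟨g, hg⟩ : ∃ g : Dual F W, g u ≠ 0 := by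
      by_contra hcon
      push Not at hcon
      exact hu ((Module.forall_dual_apply_eq_zero_iff F u).1 hcon)
    exact ⟨(g u)⁻¹ • g, by rw [LinearMap.smul_apply, smul_eq_mul, inv_mul_cancel₀ hg]⟩
  have h3 : ∀ a : E, p a = f (q u) • a := by
    intro a
    have h4 := h1 (f.smulRight a) (q u)
    rw [LinearEquiv.symm_apply_apply, LinearMap.smulRight_apply, LinearMap.smulRight_apply, hf, one_smul] at h4
    exact h4
  have hc : f (q u) ≠ 0 := by
    intro hc
    obtain ⟨a, ha⟩ := exists_ne (0 : E)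
    apply ha
    apply p.injective
    rw [h3, hc, zero_smul, map_zero]
  refine ⟨f (q u), hc, h3, fun w => ?_⟩
  obtain ⟨a, ha⟩ := exists_ne (0 : E)
  rw [← sub_eq_zero, ← Module.forall_dual_apply_eq_zero_iff F]
  intro g
  have h4 := h1 (g.smulRight a) (q w)
  rw [LinearEquiv.symm_apply_apply, LinearMap.smulRight_apply, LinearMap.smulRight_apply, h3, smul_smul, ← sub_eq_zero, ← sub_smul] at h4
  rw [map_sub, map_smul, smul_eq_mul, ← neg_sub, (smul_eq_zero.1 h4).resolve_right ha, neg_zero]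

/-- an involution which is a similitude with multiplier -1 does not exist in dimension 3 -/
theorem mult_one (h2 : (2 : F) ≠ 0) (hQ : Nd QE) (hE3 : finrank F E = 3) {p : E ≃ₗ[F] E} (hp : ∀ x, p (p x) = x) {m : F}
    (hm : ∀ x y, polar QE (p x) (p y) = m * polar QE x y) : m = 1 := by
  have hne : ∃ x y, polar QE x y ≠ 0 := by
    by_contra hcon
    push Not at hcon
    haveI : Nontrivial E := Module.nontrivial_of_finrank_pos (R := F) (by rw [hE3]; norm_num)
    obtain ⟨a, ha⟩ := exists_ne (0 : E)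
    exact ha (hQ.eq_zero (hcon a))
  obtain ⟨x, y, hxy⟩ := hne
  have h1 : m * m = 1 := by
    have h3 := hm (p x) (p y)
    rw [hp, hp, hm] at h3
    have h4 : (m * m - 1) * polar QE x y = 0 := by
      have : (m * m - 1) * polar QE x y = m * (m * polar QE x y) - polar QE x y := by ring
      rw [this, ← h3, sub_self]
    exact sub_eq_zero.1 ((mul_eq_zero.1 h4).resolve_right hxy)
  rcases mul_self_eq_one_iff.1 h1 with h | h
  · exact h
  · exfalso
    subst h
    have key : ∀ U : Submodule F E, (∀ x ∈ U, ∀ y ∈ U, polar QE (p x) (p y) = polar QE x y) → finrank F U ≤ 1 := by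
      intro U hU
      have h3 : U ≤ perp QE U := by
        intro x hx
        rw [mem_perp]
        intro y hy
        have h4 := hU y hy x hx
        rw [hm] at h4
        have h5 : (2 : F) * polar QE y x = 0 := by
          have : (2 : F) * polar QE y x = polar QE y x - (-1 * polar QE y x) := by ring
          rw [this, h4, sub_self]
        exact (mul_eq_zero.1 h5).resolve_left h2
      have h4 := Submodule.finrank_mono h3
      have h5 := hQ.finrank_add_finrank_perp U
      rw [hE3] at h5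
      omega
    have k1 := key (Ep p) (by
      intro x hx y hy
      rw [mem_Ep.1 hx, mem_Ep.1 hy])
    have k2 := key (Em p) (by
      intro x hx y hy
      rw [mem_Em.1 hx, mem_Em.1 hy, polar_neg_left, polar_neg_right, neg_neg])
    have k3 := dim_add h2 hp
    rw [hE3] at k3
    omega

/-- a pair in the isometry group consists of similitudes -/
theorem sim_of (T : T4 QE QW Q M) {p : E ≃ₗ[F] E} {q : W ≃ₗ[F] W} (h : ac p q ∈ M) :
    ∃ m : F, ∀ x y, polar QE (p x) (p y) = m * polar QE x y := by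
  have hO := T.hM h
  have hpol : ∀ u v, polar Q (ac p q u) (ac p q v) = polar Q u v := by
    intro u v
    simp only [polar]
    rw [← map_add, hO, hO, hO]
  haveI : Nontrivial W := Module.nontrivial_of_finrank_pos (R := F) (by rw [T.hW4]; norm_num)
  obtain ⟨b, hb⟩ := exists_ne (0 : W)
  obtain ⟨y, hy⟩ := T.ndW.exists_polar_one' hb
  -- the functional of `q b`
  obtain ⟨b', hb'⟩ : ∃ b' : W, ∀ w, polar QW b' w = polar QW b (q.symm w) := by
    refine ⟨(LinearMap.BilinForm.toDual (polarBilin QW) T.ndW).symm ((polarBilin QW b) ∘ₗ (q.symm : W →ₗ[F] W)), fun w => ?_⟩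
    have := congrArg (fun g : Dual F W => g w) ((LinearMap.BilinForm.toDual (polarBilin QW) T.ndW).apply_symm_apply
      ((polarBilin QW b) ∘ₗ (q.symm : W →ₗ[F] W)))
    exact this
  have h1 : ∀ a, ac p q (tb QW a b) = tb QW (p a) b' := by
    intro a
    ext w
    rw [ac_apply, tb_apply, tb_apply, map_smul, hb']
  have h3 : ∀ x a, polar QE x a = polar QW y (q.symm b') * polar QE (p x) (p a) := by
    intro x a
    have h4 := hpol (tb QW a b) (tb QW x y)
    rw [h1, T.pol, T.pol, ac_apply, tb_apply, tb_apply, map_smul, polar_smul_left, polar_smul_left] at h4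
    rw [polar_comm QW y b, hy, one_smul, smul_eq_mul] at h4
    exact h4.symm
  refine ⟨(polar QW y (q.symm b'))⁻¹, fun x a => ?_⟩
  have h5 : polar QW y (q.symm b') ≠ 0 := by
    intro h5
    haveI : Nontrivial E := Module.nontrivial_of_finrank_pos (R := F) (by rw [T.hE3]; norm_num)
    obtain ⟨a, ha⟩ := exists_ne (0 : E)
    apply ha
    apply T.ndE.eq_zero
    intro z
    rw [h3, h5, zero_mul]
  rw [h3 x a, ← mul_assoc, inv_mul_cancel₀ h5, one_mul]

theorem z2 (T : T4 QE QW Q M) {k} (hk : k ∈ NN M) (hk2 : k * k = 1)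
    (hd : finrank F (LinearMap.ker ((k : (W →ₗ[F] E) →ₗ[F] (W →ₗ[F] E)) - LinearMap.id)) = 4) :
    ∃ p, Zt QE p ∧ k = ac p 1 := by
  classical
  obtain ⟨hkM, p, q, rfl⟩ := mem_NN.mp hk
  rw [pr_mul] at hk2
  obtain ⟨c, hc, hpc, hqc⟩ := ac_eq_one (by rw [T.hE3]; norm_num) (by rw [T.hW4]; norm_num) hk2
  have hpc' : ∀ x, p (p x) = c • x := fun x => hpc x
  have hqc' : ∀ x, q (q x) = c • x := fun x => hqc x
  have hdet : LinearMap.det (p : E →ₗ[F] E) * LinearMap.det (p : E →ₗ[F] E) = c ^ 3 := by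
    rw [← map_mul]
    have : (p : E →ₗ[F] E) * (p : E →ₗ[F] E) = c • (LinearMap.id : E →ₗ[F] E) := by
      ext x
      exact hpc' x
    rw [this, LinearMap.det_smul, T.hE3, LinearMap.det_id, mul_one]
  set δ := LinearMap.det (p : E →ₗ[F] E) with hδ
  obtain ⟨d, hdd⟩ : ∃ d, d = δ / c := ⟨_, rfl⟩
  have hd2 : d * d = c := by
    rw [hdd]
    field_simp
    rw [pow_two, hdet]
  have hd0 : d ≠ 0 := by
    rintro rfl
    rw [zero_mul] at hd2
    exact hc hd2.symm
  have hd3 : d ^ 3 = δ := by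
    rw [pow_succ, pow_two, hd2, hdd]
    field_simp
  set p' : E ≃ₗ[F] E := p.trans (LinearEquiv.smulOfNeZero F E d⁻¹ (inv_ne_zero hd0)) with hp'
  set q' : W ≃ₗ[F] W := q.trans (LinearEquiv.smulOfNeZero F W d⁻¹ (inv_ne_zero hd0)) with hq'
  have hp'a : ∀ x, p' x = d⁻¹ • p x := fun x => rfl
  have hq'a : ∀ x, q' x = d⁻¹ • q x := fun x => rfl
  have hp'' : ∀ x, p' (p' x) = x := by
    intro x
    rw [hp'a, hp'a, map_smul, hpc', smul_smul, smul_smul, ← hd2]
    have : d⁻¹ * d⁻¹ * (d * d) = 1 := by field_simp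
    rw [this, one_smul]
  have hq'' : ∀ x, q' (q' x) = x := by
    intro x
    rw [hq'a, hq'a, map_smul, hqc', smul_smul, smul_smul, ← hd2]
    have : d⁻¹ * d⁻¹ * (d * d) = 1 := by field_simp
    rw [this, one_smul]
  have hac : ac p q = ac p' q' := by
    ext v w
    rw [ac_apply, ac_apply, hp'a]
    have h1 : q'.symm w = d • q.symm w := by
      rw [LinearEquiv.symm_apply_eq, hq'a, map_smul, LinearEquiv.apply_symm_apply, smul_smul, inv_mul_cancel₀ hd0, one_smul]
    rw [h1, map_smul, map_smul, smul_smul, inv_mul_cancel₀ hd0, one_smul]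
  rw [hac] at hd hkM ⊢
  have hdet' : LinearMap.det (p' : E →ₗ[F] E) = 1 := by
    have : (p' : E →ₗ[F] E) = d⁻¹ • (p : E →ₗ[F] E) := by ext x; rfl
    rw [this, LinearMap.det_smul, T.hE3, ← hδ, ← hd3, ← mul_pow, inv_mul_cancel₀ hd0, one_pow]
  obtain ⟨m, hm⟩ := sim_of T hkM
  have hm1 := mult_one T.h2 T.ndE T.hE3 hp'' hm
  subst hm1
  have hO : p' ∈ O QE := by
    intro x
    have h1 := hm x x
    rw [one_mul, polar_self', polar_self'] at h1
    exact mul_left_cancel₀ T.h2 h1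
  rw [dim_fix T.h2 hp'' hq''] at hd
  have hE := dim_add T.h2 hp''
  have hW := dim_add T.h2 hq''
  rw [T.hE3] at hE
  rw [T.hW4] at hW
  by_cases hp1 : p' = 1
  · exfalso
    have h1 : Ep p' = ⊤ := by
      rw [eq_top_iff]; intro x _
      rw [mem_Ep, hp1]; rfl
    have h3 : finrank F ↥(Ep p') = 3 := by rw [h1, finrank_top, T.hE3]
    rw [h3] at hd hE
    have h4 : finrank F ↥(Em p') = 0 := by omega
    rw [h4] at hd
    omega
  · have hZ : Zt QE p' := ⟨hO, LinearEquiv.ext hp'', hp1, hdet'⟩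
    refine ⟨p', hZ, ?_⟩
    obtain ⟨e, he, hfix⟩ := TenW4_ZT.zt_fix T.h2 T.ndE T.hE3 hZ
    have he0 : e ≠ 0 := by rintro rfl; exact he (QuadraticMap.map_zero _)
    have h1 : Ep p' = F ∙ e := by
      ext x
      rw [mem_Ep, hfix, Submodule.mem_span_singleton]
      constructor
      · rintro ⟨c, rfl⟩; exact ⟨c, rfl⟩
      · rintro ⟨c, rfl⟩; exact ⟨c, rfl⟩
    have h3 : finrank F ↥(Ep p') = 1 := by rw [h1, finrank_span_singleton he0]
    rw [h3] at hd hE
    have h4 : finrank F ↥(Em p') = 2 := by omega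
    rw [h4] at hd
    have h5 : finrank F ↥(Em q') = 0 := by omega
    have h6 : Em q' = ⊥ := Submodule.finrank_eq_zero.mp h5
    have h7 : q' = 1 := by
      ext w
      have h8 := sub_mem_Em hq'' w
      rw [h6, Submodule.mem_bot, sub_eq_zero] at h8
      exact h8.symm
    rw [h7]

end Cfsg.Agent.Lib.TenW4_Z2
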