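import Cfsg.Agent.Lib.TenW40
import Cfsg.Agent.Lib.TenOO_L
import Cfsg.Agent.Lib.TenW4_ZT

/-! S5873, piece Z6 (helper47). -/

set_option autoImplicit false
set_option linter.unusedSectionVars false

namespace Cfsg.Agent.Lib.TenW4_Z6

open QuadraticMap Module Cfsg.Agent.Lib.Quad Cfsg.Agent.Lib.OrthMax Cfsg.Agent.Lib.OrthNd Cfsg.Agent.Lib.TenSLH94
  Cfsg.Agent.Lib.TenOO Cfsg.Agent.Lib.TenW4

theorem exists_conj_mem {G : Type*} [Group G] {N C : Subgroup G} [Finite N] {p : ℕ} (hp : p.Prime)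
    (h : ¬ p ∣ C.relIndex N) {t : G} (ht : t ∈ N) {k : ℕ} (htk : t ^ (p ^ k) = 1) : ∃ n ∈ N, n * t * n⁻¹ ∈ C := by
  haveI : Fact p.Prime := ⟨hp⟩
  have hP : IsPGroup p (Subgroup.zpowers (⟨t, ht⟩ : N)) := by
    rintro ⟨g, hg⟩
    obtain ⟨i, rfl⟩ := Subgroup.mem_zpowers_iff.1 hg
    refine ⟨k, Subtype.ext ?_⟩
    have h1 : (⟨t, ht⟩ : N) ^ (p ^ k) = 1 := Subtype.ext htk
    show ((⟨t, ht⟩ : N) ^ i) ^ (p ^ k) = 1
    rw [← zpow_natCast, zpow_comm, zpow_natCast, h1, one_zpow]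
  obtain ⟨x, hx⟩ := hP.nonempty_fixed_point_of_prime_not_dvd_card (N ⧸ C.subgroupOf N) h
  induction x using QuotientGroup.induction_on with
  | H n =>
    have h1 := hx ⟨⟨t, ht⟩, Subgroup.mem_zpowers _⟩
    have h2 : ((⟨t, ht⟩ * n : N) : N ⧸ C.subgroupOf N) = (n : N ⧸ C.subgroupOf N) := h1
    have h3 := QuotientGroup.eq.1 h2.symm
    refine ⟨(n : G)⁻¹, N.inv_mem n.2, ?_⟩
    have h4 : ((n⁻¹ * (⟨t, ht⟩ * n) : N) : G) ∈ C := h3
    simpa [mul_assoc] using h4

variable {F E W : Type*} [Field F] [AddCommGroup E] [Module F E] [FiniteDimensional F E]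
  [AddCommGroup W] [Module F W] [FiniteDimensional F W] [Finite F]
  {QE : QuadraticForm F E} {QW : QuadraticForm F W} {Q : QuadraticForm F (W →ₗ[F] E)}
  {M : Subgroup ((W →ₗ[F] E) ≃ₗ[F] (W →ₗ[F] E))} {ℓ : ℕ}

theorem polar_two (R : QuadraticForm F E) (x : E) : polar R x x = 2 * R x := by
  rw [polar_self, nsmul_eq_mul, Nat.cast_ofNat]

theorem exists_af (h2 : (2 : F) ≠ 0) (hQ : Nd QE) (h3 : 3 ≤ finrank F E) :
    ∃ a f, QE a = 0 ∧ a ≠ 0 ∧ polar QE a f = 0 ∧ QE f ≠ 0 := by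
  obtain ⟨a, -, b, -, hQa, hQb, hab⟩ := exists_pair_in hQ (TenOO_L.nds_top hQ) (by rw [finrank_top]; exact h3)
  have ha : a ≠ 0 := by
    rintro rfl
    rw [polar_zero_left] at hab
    exact zero_ne_one hab
  refine ⟨a, ?_⟩
  by_contra hcon
  push Not at hcon
  have h0 : ∀ f, polar QE a f = 0 → QE f = 0 := fun f hf => by
    by_contra h
    exact absurd (hcon f hQa ha hf) h
  have h5 : perp QE (F ∙ a) ≤ perp QE (perp QE (F ∙ a)) := by
    intro f hf
    rw [mem_perp]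
    intro g hg
    rw [mem_perp_singleton] at hf hg
    rw [polar, h0 f hf, h0 g hg, h0 (g + f) (by rw [polar_add_right, hf, hg, add_zero])]
    simp
  rw [hQ.perp_perp] at h5
  have h6 := Submodule.finrank_mono h5
  have h7 := hQ.finrank_add_finrank_perp (F ∙ a)
  rw [finrank_span_singleton ha] at h6 h7
  omega

theorem fix_sieg {R : QuadraticForm F E} (hE3 : finrank F E = 3) (hQ : Nd R) {a f x : E} (hQa : R a = 0) (ha : a ≠ 0)
    (haf : polar R a f = 0) (hf : R f ≠ 0) (hx : siegMap R a f x = x) : ∃ c : F, x = c • a := by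
  have hfa : f ∉ (F ∙ a) := by
    intro h
    obtain ⟨c, rfl⟩ := Submodule.mem_span_singleton.1 h
    rw [Q_smul, hQa, mul_zero] at hf
    exact hf rfl
  have h1 : polar R a x • f = (polar R f x + R f * polar R a x) • a := by
    rw [siegMap_apply] at hx
    have e : polar R a x • f - (polar R f x + R f * polar R a x) • a =
      (x + polar R a x • f - polar R f x • a - (R f * polar R a x) • a) - x := by module
    rw [hx, sub_self, sub_eq_zero] at e
    exact e
  have h2 : polar R a x = 0 := by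
    by_contra hne
    apply hfa
    rw [Submodule.mem_span_singleton]
    refine ⟨(polar R a x)⁻¹ * (polar R f x + R f * polar R a x), ?_⟩
    rw [mul_smul, ← h1, smul_smul, inv_mul_cancel₀ hne, one_smul]
  rw [h2, zero_smul, mul_zero, add_zero] at h1
  have h3 : polar R f x = 0 := (smul_eq_zero.1 h1.symm).resolve_right ha
  have h4 : (F ∙ a) < Submodule.span F {a, f} := by
    refine lt_of_le_of_ne (Submodule.span_mono (by simp)) ?_
    intro h
    apply hfa
    rw [h]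
    exact Submodule.subset_span (by simp)
  have h5 := Submodule.finrank_lt_finrank_of_lt h4
  rw [finrank_span_singleton ha] at h5
  have h6 := hQ.finrank_add_finrank_perp (Submodule.span F {a, f})
  have h7 : (F ∙ a) ≤ perp R (Submodule.span F {a, f}) := by
    rw [Submodule.span_singleton_le_iff_mem, mem_perp_span]
    intro w hw
    rcases hw with rfl | hw
    · rw [polar_self, hQa, smul_zero]
    · rw [Set.mem_singleton_iff] at hw
      rw [hw, polar_comm, haf]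
  have h8 : (F ∙ a) = perp R (Submodule.span F {a, f}) := by
    apply Submodule.eq_of_le_of_finrank_le h7
    rw [finrank_span_singleton ha]
    omega
  have h9 : x ∈ (F ∙ a) := by
    rw [h8, mem_perp_span]
    intro w hw
    rcases hw with rfl | hw
    · exact h2
    · rw [Set.mem_singleton_iff] at hw
      rw [hw, h3]
  obtain ⟨c, hc⟩ := Submodule.mem_span_singleton.1 h9
  exact ⟨c, hc.symm⟩

theorem sim (T : T4 QE QW Q M) {p : E ≃ₗ[F] E} {q : W ≃ₗ[F] W} (hpq : ac p q ∈ M) {a : E} (ha : QE a = 0) :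
    QE (p a) = 0 := by
  obtain ⟨b', hb'⟩ : ∃ b', QW b' ≠ 0 := by
    by_contra hcon
    push Not at hcon
    haveI : Nontrivial W := Module.nontrivial_of_finrank_pos (R := F) (by rw [T.hW4]; norm_num)
    obtain ⟨w, hw⟩ := exists_ne (0 : W)
    apply hw
    apply T.ndW.eq_zero
    intro y
    rw [polar, hcon, hcon, hcon, sub_zero, sub_zero]
  obtain ⟨b, hb⟩ : ∃ b, ∀ w, polar QW b w = polar QW b' (q w) := by
    refine ⟨(LinearMap.BilinForm.toDual (polarBilin QW) T.ndW).symm ((polarBilin QW b') ∘ₗ (q : W →ₗ[F] W)), ?_⟩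
    intro w
    exact LinearMap.BilinForm.apply_toDual_symm_apply (B := polarBilin QW) (hB := T.ndW)
      ((polarBilin QW b') ∘ₗ (q : W →ₗ[F] W)) w
  have hnu : ac p q (tb QW a b) = tb QW (p a) b' := by
    ext w
    rw [ac_apply, tb_apply, tb_apply, map_smul, hb]
    congr 2
    exact q.apply_symm_apply w
  have hQt : ∀ (x : E) (y : W), 2 * Q (tb QW x y) = (2 * QW y) * (2 * QE x) := by
    intro x y
    have h1 := T.pol x y (tb QW x y)
    rw [tb_apply, polar_smul_left, polar_self, polar_self, polar_self, smul_eq_mul, nsmul_eq_mul, nsmul_eq_mul,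
      nsmul_eq_mul, Nat.cast_ofNat] at h1
    exact h1
  have h1 := T.hM hpq (tb QW a b)
  have h2 := hQt a b
  rw [ha, mul_zero, mul_zero] at h2
  have h3 : Q (tb QW a b) = 0 := (mul_eq_zero.1 h2).resolve_left T.h2
  rw [hnu, h3] at h1
  have h4 := hQt (p a) b'
  rw [h1, mul_zero] at h4
  rcases mul_eq_zero.1 h4.symm with h5 | h5
  · exact absurd ((mul_eq_zero.1 h5).resolve_left T.h2) hb'
  · exact (mul_eq_zero.1 h5).resolve_left T.h2

theorem sieg_comp {R : QuadraticForm F E} {a f f' : E} (hQa : R a = 0) (haf : polar R a f = 0) (haf' : polar R a f' = 0)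
    (x : E) : siegMap R a f (siegMap R a f' x) = siegMap R a (f + f') x := by
  have haa : polar R a a = 0 := by rw [polar_self, hQa, smul_zero]
  have e1 : polar R a (siegMap R a f' x) = polar R a x := by
    rw [siegMap_apply, polar_sub_right, polar_sub_right, polar_add_right, polar_smul_right, polar_smul_right,
      polar_smul_right, haf', haa]
    simp
  have e2 : polar R f (siegMap R a f' x) = polar R f x + polar R a x * polar R f f' := by
    rw [siegMap_apply, polar_sub_right, polar_sub_right, polar_add_right, polar_smul_right, polar_smul_right,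
      polar_smul_right, polar_comm R f a, haf]
    simp
  rw [siegMap_apply R a f, e1, e2, siegMap_apply, siegMap_apply, polar_add_left, Q_add]
  module

theorem z6' (T : T4 QE QW Q M) (hℓ : ℓ.Prime) [CharP F ℓ] {p : E ≃ₗ[F] E} 
    (hzt : ∃ e, QE e ≠ 0 ∧ ∀ x, p x = x ↔ ∃ c : F, x = c • e) (hpM : ac p 1 ∈ M) :
    ℓ ∣ (Subgroup.centralizer {(ac p 1 : (W →ₗ[F] E) ≃ₗ[F] (W →ₗ[F] E))}).relIndex (NN M) := by
  by_contra hnd
  haveI : Finite (W →ₗ[F] E) := Module.finite_of_finite F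
  haveI : Finite ((W →ₗ[F] E) ≃ₗ[F] (W →ₗ[F] E)) := DFunLike.finite _
  obtain ⟨a, f, hQa, ha, haf, hf⟩ := exists_af T.h2 T.ndE T.hE
  obtain ⟨e0, he0, hfix⟩ := hzt
  obtain ⟨S, hS⟩ : ∃ S : E ≃ₗ[F] E, ∀ x, S x = siegMap QE a f x :=
    ⟨ofMap T.ndE (siegMap QE a f) (siegMap_Q hQa haf), fun x => rfl⟩
  obtain ⟨s, hsM, hs⟩ := T.tA a f hQa haf
  have hst : s = ac S 1 := by
    ext v w
    rw [hs, ac_apply, hS]
    rfl
  have hSn : ∀ (n : ℕ) (x : E), (S ^ n) x = siegMap QE a (n • f) x := by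
    intro n
    induction n with
    | zero => intro x; rw [zero_smul, siegMap_apply]; simp
    | succ n ih =>
      intro x
      rw [pow_succ', succ_nsmul']
      show S ((S ^ n) x) = _
      rw [ih, hS, sieg_comp hQa haf]
      rw [← Nat.cast_smul_eq_nsmul F, polar_smul_right, haf, smul_zero]
  have hSk : S ^ (ℓ ^ 1) = 1 := by
    ext x
    rw [pow_one, hSn, ← Nat.cast_smul_eq_nsmul F, CharP.cast_eq_zero, zero_smul, siegMap_apply]
    simp
  have htN : ac S (1 : W ≃ₗ[F] W) ∈ NN M := ⟨by rw [← hst]; exact hsM, S, 1, rfl⟩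
  obtain ⟨n, hnN, hn⟩ := exists_conj_mem hℓ hnd htN (k := 1) (by rw [pr_pow, hSk, one_pow, pr_one])
  obtain ⟨hnM, p1, q1, rfl⟩ := hnN
  rw [pr_inv, pr_mul, pr_mul, mul_one, mul_inv_cancel, Subgroup.mem_centralizer_singleton_iff, pr_mul, pr_mul,
    mul_one] at hn
  have hcomm : ∀ x, (p1 * S * p1⁻¹ * p) x = (p * (p1 * S * p1⁻¹)) x := by
    intro x
    haveI : Nontrivial W := Module.nontrivial_of_finrank_pos (R := F) (by rw [T.hW4]; norm_num)
    obtain ⟨w, hw⟩ := exists_ne (0 : W)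
    obtain ⟨y, hy⟩ := T.ndW.exists_polar_one' hw
    have h5 := congrArg (fun g : (W →ₗ[F] E) ≃ₗ[F] (W →ₗ[F] E) => (g (tb QW x w)) y) hn
    simp only [ac_apply, tb_apply] at h5
    have h6 : polar QW w ((1 : W ≃ₗ[F] W).symm y) = 1 := hy
    rw [h6, one_smul] at h5
    exact h5
  have hpe : p e0 = e0 := (hfix e0).2 ⟨1, (one_smul F e0).symm⟩
  obtain ⟨c, hc⟩ := (hfix ((p1 * S * p1⁻¹) e0)).1 (by
    have h5 := hcomm e0
    have h6 : (p1 * S * p1⁻¹ * p) e0 = (p1 * S * p1⁻¹) (p e0) := rfl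
    rw [h6, hpe] at h5
    exact h5.symm)
  have hcn : ∀ n : ℕ, ((p1 * S * p1⁻¹) ^ n) e0 = c ^ n • e0 := by
    intro n
    induction n with
    | zero => simp
    | succ n ih =>
      rw [pow_succ']
      show (p1 * S * p1⁻¹) (((p1 * S * p1⁻¹) ^ n) e0) = _
      rw [ih, map_smul, hc, smul_smul, pow_succ]
  have he00 : e0 ≠ 0 := by
    rintro rfl
    exact he0 (by simp)
  have hc1 : c = 1 := by
    haveI : Fact ℓ.Prime := ⟨hℓ⟩
    have h5 := hcn (ℓ ^ 1)
    rw [conj_pow, hSk, mul_one, mul_inv_cancel] at h5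
    have h6 : (1 : F) • e0 = c ^ (ℓ ^ 1) • e0 := by rw [one_smul]; exact h5
    have h7 := smul_left_injective F he00 h6
    have h8 : (c - 1) ^ (ℓ ^ 1) = 0 := by
      rw [sub_pow_char_pow, ← h7, one_pow, sub_self]
    have h9 := eq_zero_of_pow_eq_zero h8
    exact sub_eq_zero.1 h9
  rw [hc1, one_smul] at hc
  have hSe : S (p1⁻¹ e0) = p1⁻¹ e0 := by
    have h5 := congrArg (fun y => p1⁻¹ y) hc
    have h6 : p1⁻¹ ((p1 * S * p1⁻¹) e0) = S (p1⁻¹ e0) := by
      show (p1⁻¹ * (p1 * S * p1⁻¹)) e0 = _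
      rw [← mul_assoc, ← mul_assoc, inv_mul_cancel, one_mul]
      rfl
    rw [← h6]
    exact h5
  rw [hS] at hSe
  obtain ⟨d, hd⟩ := fix_sieg T.hE3 T.ndE hQa ha haf hf hSe
  have hz : QE (p1⁻¹ e0) = 0 := by rw [hd, Q_smul, hQa, mul_zero]
  have h5 := sim T hnM hz
  have h6 : p1 (p1⁻¹ e0) = e0 := by
    show (p1 * p1⁻¹) e0 = e0
    rw [mul_inv_cancel]; rfl
  rw [h6] at h5
  exact he0 h5

theorem z6 (T : T4 QE QW Q M) (hℓ : ℓ.Prime) [CharP F ℓ] {p : E ≃ₗ[F] E} (hp : Zt QE p) (hpM : ac p 1 ∈ M) :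
    ℓ ∣ (Subgroup.centralizer {(ac p 1 : (W →ₗ[F] E) ≃ₗ[F] (W →ₗ[F] E))}).relIndex (NN M) :=
  z6' T hℓ (TenW4_ZT.zt_fix T.h2 T.ndE T.hE3 hp) hpM

end Cfsg.Agent.Lib.TenW4_Z6
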