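import Cfsg.Agent.Lib.TenW4_CNT
import Cfsg.Agent.Lib.TenW4_EX
import Cfsg.Agent.Lib.TenW4_FF
import Cfsg.Agent.Lib.TenW4_PN
import Cfsg.Agent.Lib.TenW4_XB
import Cfsg.Agent.Lib.TenW4_XN
import Cfsg.Agent.Lib.TenW4_Z6
import Cfsg.Agent.Lib.TenW4_ZT
import Cfsg.Agent.Lib.TenW4_PS
import Cfsg.Agent.Lib.TenW4_MX
import Cfsg.Agent.Lib.TenW4_Z1
import Cfsg.Agent.Lib.TenW4_Z2

/-!
# Overgroups of `O₃ ⊗ O₄⁻`: assembly (helper34)
-/

set_option autoImplicit false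
set_option linter.unusedSectionVars false
set_option linter.unusedVariables false

namespace Cfsg.Agent.Lib.TenW4_ASM

open QuadraticMap Module Cfsg.Agent.Lib.Quad Cfsg.Agent.Lib.OrthMax Cfsg.Agent.Lib.OrthNd Cfsg.Agent.Lib.TenSLH94
  Cfsg.Agent.Lib.TenOO Cfsg.Agent.Lib.TenW4

variable {F E W : Type*} [Field F] [AddCommGroup E] [Module F E] [FiniteDimensional F E]
  [AddCommGroup W] [Module F W] [FiniteDimensional F W] [Finite F]
  {QE : QuadraticForm F E} {QW : QuadraticForm F W} {Q : QuadraticForm F (W →ₗ[F] E)}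
  {M : Subgroup ((W →ₗ[F] E) ≃ₗ[F] (W →ₗ[F] E))}

omit [Finite F] in
theorem acE_inj (hW : 0 < finrank F W) {p : E ≃ₗ[F] E} (h : (ac p (1 : W ≃ₗ[F] W)) = 1) : p = 1 := by
  have : Nontrivial W := finrank_pos_iff.1 hW
  have : Nontrivial (Dual F W) := by
    apply finrank_pos_iff (R := F).1
    rw [Subspace.dual_finrank_eq]; exact hW
  obtain ⟨ψ, hψ⟩ := exists_ne (0 : Dual F W)
  obtain ⟨w, hw⟩ : ∃ w, ψ w = 1 := by
    obtain ⟨w, hw⟩ : ∃ w, ψ w ≠ 0 := by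
      by_contra hcon
      push Not at hcon
      exact hψ (LinearMap.ext hcon)
    exact ⟨(ψ w)⁻¹ • w, by rw [map_smul, smul_eq_mul, inv_mul_cancel₀ hw]⟩
  apply LinearEquiv.ext
  intro x
  have h1 : ac p (1 : W ≃ₗ[F] W) (pt x ψ) = pt x ψ := by rw [h]; rfl
  have h2 := LinearMap.congr_fun h1 w
  rw [ac_apply, pt_apply] at h2
  have h3 : ((1 : W ≃ₗ[F] W).symm w) = w := rfl
  rw [h3, pt_apply, hw, one_smul] at h2
  exact h2

omit [Finite F] in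
theorem acE_eq (hW : 0 < finrank F W) {p p' : E ≃ₗ[F] E} (h : (ac p (1 : W ≃ₗ[F] W)) = ac p' 1) : p = p' := by
  have h1 : ac (p * p'⁻¹) (1 : W ≃ₗ[F] W) = 1 := by
    have : ac (p * p'⁻¹) (1 : W ≃ₗ[F] W) = ac p 1 * (ac p' 1)⁻¹ := by rw [pr_inv, pr_mul]; simp
    rw [this, h, mul_inv_cancel]
  exact mul_inv_eq_one.1 (acE_inj hW h1)

omit [Finite F] in
theorem XB_pair (T : T4 QE QW Q M) {b : W} (hQb : QW b = 0) {x : (W →ₗ[F] E) ≃ₗ[F] (W →ₗ[F] E)} (hx : XB QW b x) :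
    x ∈ NN M ∧ ∃ q : W ≃ₗ[F] W, x = ac 1 q := by
  obtain ⟨e, he, hxv⟩ := hx
  obtain ⟨s, hs, hsv⟩ := T.tB b e hQb he
  have hxs : x = s := LinearEquiv.ext fun v => by rw [hxv, hsv]
  have hz : QW (-b) = 0 := by rw [QuadraticMap.map_neg, hQb]
  have hze : polar QW (-b) e = 0 := by rw [polar_neg_left, he, neg_zero]
  have hsq : s = ac 1 (sieg T.ndW hz hze)⁻¹ := by
    apply LinearEquiv.ext
    intro v
    rw [hsv, SgV_eq]
    apply LinearMap.ext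
    intro w
    rw [ac_apply]
    show v (siegMap QW (-b) e w) = v ((sieg T.ndW hz hze) w)
    rw [sieg, ofMap_apply]
  rw [hxs]
  exact ⟨⟨hs, 1, _, hsq⟩, _, hsq⟩

/-- a non-trivial root element -/
theorem exists_root (T : T4 QE QW Q M) {ℓ : ℕ} (hℓ : ℓ.Prime) [CharP F ℓ] {b : W} (hb : b ≠ 0) (hQb : QW b = 0) :
    ∃ x q, XB QW b x ∧ x ≠ 1 ∧ x ∈ NN M ∧ x = ac 1 q := by
  obtain ⟨X, hX, -, -, -, hc⟩ := TenW4_XB.xb T hℓ hb hQb
  obtain ⟨x, hx, hx1⟩ : ∃ x ∈ X, x ≠ 1 := by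
    by_contra hcon
    push Not at hcon
    have h1 : X = ⊥ := (Subgroup.eq_bot_iff_forall X).2 hcon
    rw [h1, Subgroup.card_bot] at hc
    have := hℓ.two_le
    nlinarith
  obtain ⟨h2, q, h3⟩ := XB_pair T hQb ((hX x).1 hx)
  exact ⟨x, q, (hX x).1 hx, hx1, h2, h3⟩

omit [Finite F] in
theorem Sg_XB {b e : W} {q : W ≃ₗ[F] W} (h : Sg QW b e q) : XB QW b (ac (1 : E ≃ₗ[F] E) q) := by
  obtain ⟨hQb, hb, hbe, hQe, hq⟩ := h
  have hbb : polar QW b b = 0 := by rw [polar_self', hQb, mul_zero]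
  have heb : polar QW e b = 0 := by rw [polar_comm, hbe]
  have h0 : ∀ x, siegMap QW b e (siegMap QW (-b) e x) = x := by
    intro x
    have h1 : polar QW b (siegMap QW (-b) e x) = polar QW b x := by
      rw [siegMap_apply]
      simp only [polar_sub_right, polar_add_right, polar_smul_right, polar_neg_right, hbe, hbb, smul_eq_mul]
      ring
    have h2 : polar QW e (siegMap QW (-b) e x) = polar QW e x - polar QW b x * polar QW e e := by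
      rw [siegMap_apply]
      simp only [polar_sub_right, polar_add_right, polar_smul_right, polar_neg_right, polar_neg_left, heb, smul_eq_mul]
      ring
    rw [siegMap_apply QW b, h1, h2, siegMap_apply, polar_neg_left, polar_self']
    module
  refine ⟨e, hbe, fun v => ?_⟩
  rw [SgV_eq]
  apply LinearMap.ext
  intro w
  rw [ac_apply]
  show v (q.symm w) = v (siegMap QW (-b) e w)
  congr 1
  rw [LinearEquiv.symm_apply_eq, hq, h0]

/-- the centralizers of the elements of order `ℓ` outside the second factor -/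
theorem cent (T : T4 QE QW Q M) (hF : FixF QW M) {ℓ : ℕ} (hℓ : ℓ.Prime) [CharP F ℓ] {u : (W →ₗ[F] E) ≃ₗ[F] (W →ₗ[F] E)}
    (hu : u ∈ NN M) (ho : orderOf u = ℓ) : (∃ b, b ≠ 0 ∧ QW b = 0 ∧ XB QW b u) ∨
      ∃ b t, b ≠ 0 ∧ QW b = 0 ∧ XB QW b t ∧ t ≠ 1 ∧ t ∈ NN M ∧ t * u = u * t ∧ ∀ g ∈ M, g * u = u * g → g ∈ NN M := by
  have hu1 : u ≠ 1 := by
    rintro rfl
    rw [orderOf_one] at ho
    exact hℓ.one_lt.ne ho
  obtain ⟨p, q, hpq, hp, hq⟩ := TenW4_PN.pnf T hℓ hu ⟨1, by rw [pow_one, ← ho, pow_orderOf_eq_one]⟩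
  rcases hp with rfl | ⟨a, f, hp⟩
  · rcases hq with rfl | ⟨b, e, hq⟩
    · exact absurd hpq hu1
    · left
      exact ⟨b, hq.2.1, hq.1, by rw [hpq]; exact Sg_XB hq⟩
  · right
    rcases hq with rfl | ⟨b, e, hq⟩
    · obtain ⟨b, -, hb, hQb⟩ := exists_sing_in (Q := QW) (⊤ : Submodule F W) (by rw [finrank_top, T.hW4]; norm_num)
      obtain ⟨x, q, hx, hx1, hxN, hxq⟩ := exists_root T hℓ hb hQb
      refine ⟨b, x, hb, hQb, hx, hx1, hxN, ?_, ?_⟩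
      · rw [hxq, hpq, pr_mul, pr_mul, mul_one, one_mul, mul_one, one_mul]
      · intro g hg h
        rw [hpq] at h
        exact TenW4_PS.ps T hF hℓ hp hg h
    · have hX : XB QW b (ac (1 : E ≃ₗ[F] E) q) := Sg_XB hq
      obtain ⟨x, q', hx, hx1, hxN, hxq⟩ := exists_root T hℓ hq.2.1 hq.1
      refine ⟨b, x, hq.2.1, hq.1, hx, hx1, hxN, ?_, ?_⟩
      · obtain ⟨X, hXi, -, hXc, -, -⟩ := TenW4_XB.xb T hℓ hq.2.1 hq.1
        have h1 := hXc x ((hXi _).2 hx) _ ((hXi _).2 hX)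
        have h2 : ac p q = ac p 1 * ac (1 : E ≃ₗ[F] E) q := by rw [pr_mul, mul_one, one_mul]
        have h3 : x * ac p 1 = ac p 1 * x := by rw [hxq, pr_mul, pr_mul, mul_one, one_mul, mul_one, one_mul]
        rw [hpq, h2, ← mul_assoc, h3, mul_assoc, h1, mul_assoc]
      · intro g hg h
        rw [hpq] at h
        exact TenW4_MX.mx T hF hℓ hp hq hg h

/-- uniqueness of the fixed point of elements of order `ℓ` -/
theorem uniq (T : T4 QE QW Q M) (hF : FixF QW M) {ℓ : ℕ} (hℓ : ℓ.Prime) [CharP F ℓ] {u : (W →ₗ[F] E) ≃ₗ[F] (W →ₗ[F] E)}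
    (hu : u ∈ NN M) (ho : orderOf u = ℓ) {m : (W →ₗ[F] E) ≃ₗ[F] (W →ₗ[F] E)} (hm : m ∈ M) (h : m * u * m⁻¹ ∈ NN M) :
    m ∈ NN M := by
  have hne : ∀ v : (W →ₗ[F] E) ≃ₗ[F] (W →ₗ[F] E), orderOf v = ℓ → v ≠ 1 := by
    rintro v hv rfl
    rw [orderOf_one] at hv
    exact hℓ.one_lt.ne hv
  have ho' : orderOf (m * u * m⁻¹) = ℓ := by
    rw [← ho]
    exact orderOf_injective (MulAut.conj m).toMonoidHom (MulAut.conj m).injective u
  rcases cent T hF hℓ hu ho with ⟨b, hb, hQb, hX⟩ | ⟨b, t, hb, hQb, ht, ht1, htN, htu, -⟩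
  · exact TenW4_XN.xn T hF hℓ hb hQb hX (hne u ho) hm h
  · rcases cent T hF hℓ h ho' with ⟨b', hb', hQb', hX'⟩ | ⟨b', t', hb', hQb', ht', ht1', htN', htu', hC⟩
    · have h1 : m⁻¹ * (m * u * m⁻¹) * m⁻¹⁻¹ ∈ NN M := by
        have : m⁻¹ * (m * u * m⁻¹) * m⁻¹⁻¹ = u := by group
        rw [this]; exact hu
      have h2 := TenW4_XN.xn T hF hℓ hb' hQb' hX' (hne _ ho') (M.inv_mem hm) h1
      exact (Subgroup.inv_mem_iff _).1 h2
    · apply TenW4_XN.xn T hF hℓ hb hQb ht ht1 hm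
      apply hC _ (M.mul_mem (M.mul_mem hm (NN_le M htN)) (M.inv_mem hm))
      calc m * t * m⁻¹ * (m * u * m⁻¹) = m * (t * u) * m⁻¹ := by group
        _ = m * (u * t) * m⁻¹ := by rw [htu]
        _ = m * u * m⁻¹ * (m * t * m⁻¹) := by group

omit [Finite F] in
theorem ker_conj (k m : (W →ₗ[F] E) ≃ₗ[F] (W →ₗ[F] E)) :
    finrank F (LinearMap.ker (((m * k * m⁻¹ : (W →ₗ[F] E) ≃ₗ[F] (W →ₗ[F] E)) : (W →ₗ[F] E) →ₗ[F] (W →ₗ[F] E)) -
      LinearMap.id)) = finrank F (LinearMap.ker ((k : (W →ₗ[F] E) →ₗ[F] (W →ₗ[F] E)) - LinearMap.id)) := by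
  have h1 : LinearMap.ker (((m * k * m⁻¹ : (W →ₗ[F] E) ≃ₗ[F] (W →ₗ[F] E)) : (W →ₗ[F] E) →ₗ[F] (W →ₗ[F] E)) -
      LinearMap.id) = (LinearMap.ker ((k : (W →ₗ[F] E) →ₗ[F] (W →ₗ[F] E)) - LinearMap.id)).map
        (m : (W →ₗ[F] E) →ₗ[F] (W →ₗ[F] E)) := by
    ext v
    rw [LinearMap.mem_ker, Submodule.mem_map]
    constructor
    · intro h
      refine ⟨m⁻¹ v, ?_, ?_⟩
      · rw [LinearMap.mem_ker]
        have h2 : m (k (m⁻¹ v)) - v = 0 := h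
        show k (m⁻¹ v) - m⁻¹ v = 0
        apply m.injective
        rw [map_sub, map_zero]
        have h3 : m (m⁻¹ v) = v := m.apply_symm_apply v
        rw [h3, h2]
      · exact m.apply_symm_apply v
    · rintro ⟨w, hw, rfl⟩
      have h2 : k w - w = 0 := hw
      show m (k (m⁻¹ (m w))) - m w = 0
      have h3 : m⁻¹ (m w) = w := m.symm_apply_apply w
      rw [h3, ← map_sub, h2, map_zero]
  rw [h1]
  exact LinearEquiv.finrank_map_eq m _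

/-- **Case II** -/
theorem caseII (T : T4 QE QW Q M) (hII : II QW M) : ∀ g ∈ M, Pr g := by
  obtain ⟨ℓ, hℓ, hch⟩ : ∃ ℓ : ℕ, ℓ.Prime ∧ CharP F ℓ := by
    obtain ⟨ℓ, hch⟩ := CharP.exists F
    exact ⟨ℓ, CharP.char_is_prime F ℓ, hch⟩
  have hF := TenW4_FF.fixF T hII
  have hW0 : 0 < finrank F W := by have := T.hW4; omega
  have : Finite (W →ₗ[F] E) := Module.finite_of_finite F
  have : Finite ((W →ₗ[F] E) ≃ₗ[F] (W →ₗ[F] E)) := Finite.of_injective (fun g => (g : (W →ₗ[F] E) → (W →ₗ[F] E)))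
    (fun g h hgh => LinearEquiv.ext fun x => congrFun hgh x)
  obtain ⟨Z, hZ⟩ : ∃ Z : Set ((W →ₗ[F] E) ≃ₗ[F] (W →ₗ[F] E)), Z = {k | ∃ m ∈ M, ∃ p, Zt QE p ∧ ac p 1 ∈ M ∧
    k = m * ac p 1 * m⁻¹} := ⟨_, rfl⟩
  have hZi : ∀ k, k ∈ Z ↔ ∃ m ∈ M, ∃ p, Zt QE p ∧ ac p 1 ∈ M ∧ k = m * ac p 1 * m⁻¹ := fun k => by rw [hZ]; rfl
  have hinv : ∀ k ∈ Z, k * k = 1 ∧ k ≠ 1 := by
    intro k hk
    obtain ⟨m, hm, p, hp, hpM, rfl⟩ := (hZi k).1 hk
    have h1 : ac p (1 : W ≃ₗ[F] W) * ac p 1 = 1 := by rw [pr_mul, hp.2.1, one_mul]; rfl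
    constructor
    · calc m * ac p 1 * m⁻¹ * (m * ac p 1 * m⁻¹) = m * (ac p 1 * ac p 1) * m⁻¹ := by group
        _ = 1 := by rw [h1]; group
    · intro h
      apply hp.2.2.1
      apply acE_inj hW0
      have h2 : ac p (1 : W ≃ₗ[F] W) = m⁻¹ * (m * ac p 1 * m⁻¹) * m := by group
      rw [h2, h]; group
  have hZN : ∀ k ∈ Z, k ∈ NN M → ∃ p, Zt QE p ∧ k = ac p 1 := by
    intro k hk hkN
    apply TenW4_Z2.z2 T hkN (hinv k hk).1
    obtain ⟨m, hm, p, hp, hpM, rfl⟩ := (hZi k).1 hk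
    rw [ker_conj]
    exact TenW4_Z2.z2' T hp
  have key := TenW4_CNT.count (M := M) (N := NN M) (NN_le M) Z (fun k hk => by
      obtain ⟨m, hm, p, hp, hpM, rfl⟩ := (hZi k).1 hk
      exact M.mul_mem (M.mul_mem hm hpM) (M.inv_mem hm)) hℓ hinv ?_ ?_ ?_ ?_ ?_ ?_
  · exact fun g hg => (key hg).2
  · intro k hk m hm
    obtain ⟨m', hm', p, hp, hpM, rfl⟩ := (hZi k).1 hk
    exact (hZi _).2 ⟨m * m', M.mul_mem hm hm', p, hp, hpM, by group⟩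
  · intro k hk
    obtain ⟨m, hm, p, hp, hpM, rfl⟩ := (hZi k).1 hk
    refine ⟨m⁻¹, M.inv_mem hm, ?_⟩
    have : m⁻¹ * (m * ac p 1 * m⁻¹) * m⁻¹⁻¹ = ac p 1 := by group
    rw [this]
    exact ⟨hpM, p, 1, rfl⟩
  · intro k hk hkN m hm hmk
    obtain ⟨p, hp, hkp⟩ := hZN k hk hkN
    obtain ⟨p', hp', hkp'⟩ := hZN _ ((hZi _).2 (by
      obtain ⟨m', hm', p, hp, hpM, rfl⟩ := (hZi k).1 hk
      exact ⟨m * m', M.mul_mem hm hm', p, hp, hpM, by group⟩)) hmk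
    obtain ⟨b, -, hb, hQb⟩ := exists_sing_in (Q := QW) (⊤ : Submodule F W) (by rw [finrank_top, T.hW4]; norm_num)
    obtain ⟨x, q, hx, hx1, hxN, hxq⟩ := exists_root T hℓ hb hQb
    apply TenW4_XN.xn T hF hℓ hb hQb hx hx1 hm
    have hxk : x * k = k * x := by
      rw [hxq, hkp, pr_mul, pr_mul, mul_one, one_mul, mul_one, one_mul]
    apply TenW4_Z1.z1 T hF hℓ hp' (by rw [← hkp']; exact hmk.1) (M.mul_mem (M.mul_mem hm (NN_le M hxN)) (M.inv_mem hm))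
    rw [← hkp']
    calc m * x * m⁻¹ * (m * k * m⁻¹) = m * (x * k) * m⁻¹ := by group
      _ = m * (k * x) * m⁻¹ := by rw [hxk]
      _ = m * k * m⁻¹ * (m * x * m⁻¹) := by group
  · intro k hk l hl hkN hlN hkl hne m hm hmkl
    obtain ⟨p, hp, hkp⟩ := hZN k hk hkN
    obtain ⟨p', hp', hlp⟩ := hZN l hl hlN
    have h1 : p * p' = p' * p := by
      apply acE_eq (W := W) hW0
      have h2 : ac (p * p') (1 : W ≃ₗ[F] W) = k * l := by rw [hkp, hlp, pr_mul, one_mul]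
      have h3 : ac (p' * p) (1 : W ≃ₗ[F] W) = l * k := by rw [hkp, hlp, pr_mul, one_mul]
      rw [h2, h3, hkl]
    have h4 : p ≠ p' := by
      rintro rfl
      exact hne (by rw [hkp, hlp])
    have h5 : k * l = ac (p * p') 1 := by rw [hkp, hlp, pr_mul, one_mul]
    apply TenW4_Z1.z1 T hF hℓ (TenW4_ZT.zz T.h2 hp hp' h1 h4) (by rw [← h5]; exact M.mul_mem hkN.1 hlN.1) hm
    rw [← h5, hmkl]
  · intro u hu ho m hm h
    exact uniq T hF hℓ hu ho hm h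
  · obtain ⟨p, hp, hpM⟩ := TenW4_EX.ex T
    exact ⟨ac p 1, (hZi _).2 ⟨1, M.one_mem, p, hp, hpM, by group⟩, ⟨hpM, p, 1, rfl⟩, TenW4_Z6.z6 T hℓ hp hpM⟩

end Cfsg.Agent.Lib.TenW4_ASM
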