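import Cfsg.Agent.Lib.TenW40
import Cfsg.Agent.Lib.TenOO_B1

/-!
# Overgroups of `O₃ ⊗ O₄⁻`: piece B1 (helper37, after helper44)
-/

set_option autoImplicit false
set_option linter.unusedSectionVars false
set_option linter.unusedSimpArgs false
set_option linter.unusedVariables false

namespace Cfsg.Agent.Lib.TenW4_B1

open QuadraticMap Module Cfsg.Agent.Lib.Quad Cfsg.Agent.Lib.OrthMax Cfsg.Agent.Lib.OrthNd Cfsg.Agent.Lib.TenSLH94
open Cfsg.Agent.Lib.TenOO Cfsg.Agent.Lib.TenW4 Cfsg.Agent.Lib.OrthDecH94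
open Cfsg.Agent.Lib.TenOO_B1 (sieg_neg scalar_of_van nds_top)

section main

variable {F E W : Type*} [Field F] [AddCommGroup E] [Module F E] [FiniteDimensional F E]
  [AddCommGroup W] [Module F W] [FiniteDimensional F W]
  {QE : QuadraticForm F E} {QW : QuadraticForm F W} {Q : QuadraticForm F (W →ₗ[F] E)}
  {M : Subgroup ((W →ₗ[F] E) ≃ₗ[F] (W →ₗ[F] E))}

theorem tb_add (a a' : E) (b : W) : tb QW (a + a') b = tb QW a b + tb QW a' b :=
  LinearMap.ext fun w => by simp only [tb_apply, LinearMap.add_apply, smul_add]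

theorem tb_neg (a : E) (b : W) : tb QW (-a) b = - tb QW a b :=
  LinearMap.ext fun w => by simp only [tb_apply, LinearMap.neg_apply, smul_neg]

theorem tb_sub (a a' : E) (b : W) : tb QW (a - a') b = tb QW a b - tb QW a' b :=
  LinearMap.ext fun w => by simp only [tb_apply, LinearMap.sub_apply, smul_sub]

theorem tb_smul (c : F) (a : E) (b : W) : tb QW (c • a) b = c • tb QW a b :=
  LinearMap.ext fun w => by simp only [tb_apply, LinearMap.smul_apply, smul_comm c]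

theorem tb_zero (b : W) : tb QW (0 : E) b = 0 :=
  LinearMap.ext fun w => by simp only [tb_apply, LinearMap.zero_apply, smul_zero]

/-- the tensor map, linear in the first variable -/
noncomputable def tbl (QW : QuadraticForm F W) (E : Type*) [AddCommGroup E] [Module F E]
    [FiniteDimensional F E] (b : W) :
    E →ₗ[F] (W →ₗ[F] E) where
  toFun a := tb QW a b
  map_add' a a' := tb_add a a' b
  map_smul' c a := tb_smul c a b

theorem tbl_apply (b : W) (a : E) : tbl QW E b a = tb QW a b := rfl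

/-- an element of the radical with its linear map -/
def RS (QW : QuadraticForm F W) (b : W) (r : (W →ₗ[F] E) ≃ₗ[F] (W →ₗ[F] E))
    (A : (W →ₗ[F] E) → E) : Prop :=
  (∀ y, r (tb QW y b) = tb QW y b) ∧ ∀ v : W →ₗ[F] E, v b = 0 → r v = v + tb QW (A v) b

/-- the additive maps of the radical -/
def AA (QW : QuadraticForm F W) (M : Subgroup ((W →ₗ[F] E) ≃ₗ[F] (W →ₗ[F] E))) (b : W)
    (A : (W →ₗ[F] E) → E) : Prop := ∃ r ∈ M, RS QW b r A

theorem AA.add {b : W} {A A' : (W →ₗ[F] E) → E} (h : AA QW M b A)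
    (h' : AA QW M b A') : AA QW M b (fun v => A v + A' v) := by
  obtain ⟨r, hr, h1, h2⟩ := h
  obtain ⟨r', hr', h1', h2'⟩ := h'
  refine ⟨r * r', M.mul_mem hr hr', fun y => ?_, fun v hv => ?_⟩
  · rw [LinearEquiv.mul_apply, h1', h1]
  · rw [LinearEquiv.mul_apply, h2' v hv, map_add, h1, h2 v hv, tb_add, add_assoc]

theorem AA.neg {b : W} {A : (W →ₗ[F] E) → E} (h : AA QW M b A) : AA QW M b (fun v => - A v) := by
  obtain ⟨r, hr, h1, h2⟩ := h
  refine ⟨r⁻¹, M.inv_mem hr, fun y => ?_, fun v hv => ?_⟩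
  · exact (LinearEquiv.symm_apply_eq r).2 (h1 y).symm
  · refine (LinearEquiv.symm_apply_eq r).2 ?_
    rw [map_add, h2 v hv, h1, tb_neg, add_neg_cancel_right]

theorem AA.congr {b : W} {A A' : (W →ₗ[F] E) → E} (h : AA QW M b A) (hA : ∀ v, v b = 0 → A v = A' v) :
    AA QW M b A' := by
  obtain ⟨r, hr, h1, h2⟩ := h
  exact ⟨r, hr, h1, fun v hv => by rw [← hA v hv, h2 v hv]⟩

theorem AA.conj {b : W} {A : (W →ₗ[F] E) → E} (h : AA QW M b A)
    {s : (W →ₗ[F] E) ≃ₗ[F] (W →ₗ[F] E)} (hs : s ∈ M) (h1 : ∀ y, s (tb QW y b) = tb QW y b)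
    (h2 : ∀ v : W →ₗ[F] E, v b = 0 → (s v) b = 0) : AA QW M b (fun v => A (s v)) := by
  obtain ⟨r, hr, h3, h4⟩ := h
  have h5 : ∀ y, s⁻¹ (tb QW y b) = tb QW y b := fun y => (LinearEquiv.symm_apply_eq s).2 (h1 y).symm
  refine ⟨s⁻¹ * r * s, M.mul_mem (M.mul_mem (M.inv_mem hs) hr) hs, fun y => ?_, fun v hv => ?_⟩
  · rw [LinearEquiv.mul_apply, LinearEquiv.mul_apply, h1, h3, h5]
  · rw [LinearEquiv.mul_apply, LinearEquiv.mul_apply, h4 _ (h2 v hv), map_add, h5]
    congr 1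
    exact LinearEquiv.symm_apply_apply s v

theorem SgV_tb {b z f : W} (hbz : polar QW b z = 0) (hbf : polar QW b f = 0) (y : E) :
    SgV QW z f (tb QW y b) = tb QW y b := by
  rw [SgV, tb_apply, tb_apply, hbz, hbf, zero_smul, tb_zero, tb_zero]
  simp

theorem SgV_b {b z f : W} (hbz : polar QW b z = 0) (hbf : polar QW b f = 0) (v : W →ₗ[F] E) :
    (SgV QW z f v) b = v b := by
  rw [SgV]
  simp only [LinearMap.sub_apply, LinearMap.add_apply, LinearMap.smul_apply, tb_apply,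
    polar_comm QW z b, polar_comm QW f b, hbz, hbf]
  simp

theorem SgV_SgV {z e f : W} (hz : QW z = 0) (hze : polar QW z e = 0) (hzf : polar QW z f = 0)
    (v : W →ₗ[F] E) : SgV QW z e (SgV QW z f v) - SgV QW z e v - SgV QW z f v + v =
      -(polar QW e f) • tb QW (v z) z := by
  apply LinearMap.ext
  intro w
  have hzz : polar QW z z = 0 := by rw [polar_self', hz, mul_zero]
  simp only [SgV, LinearMap.sub_apply, LinearMap.add_apply, LinearMap.smul_apply, tb_apply,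
    hzz, hze, hzf, polar_comm QW f z, polar_comm QW e z, polar_comm QW f e]
  module

theorem RS.fix {b : W} (hb : b ≠ 0) (hQW : Nd QW) (hQb : QW b = 0) {r : (W →ₗ[F] E) ≃ₗ[F] (W →ₗ[F] E)}
    {A : (W →ₗ[F] E) → E} (h : RS QW b r A) (y : E) : A (tb QW y b) = 0 := by
  obtain ⟨h1, h2⟩ := h
  have h3 := h2 (tb QW y b) (by rw [tb_apply, polar_self', hQb, mul_zero, zero_smul])
  rw [h1, left_eq_add] at h3
  obtain ⟨c, hc⟩ := hQW.exists_polar_one' hb
  have h4 := congrArg (fun v : W →ₗ[F] E => v c) h3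
  simp only [tb_apply, hc, one_smul, LinearMap.zero_apply] at h4
  exact h4

/-- values at `b` -/
theorem RS.at_b (T : T4 QE QW Q M) {b : W} (hQb : QW b = 0)
    {r : (W →ₗ[F] E) ≃ₗ[F] (W →ₗ[F] E)} (hr : r ∈ M) {A : (W →ₗ[F] E) → E}
    (h : RS QW b r A) (v : W →ₗ[F] E) : (r v) b = v b := by
  rw [← sub_eq_zero]
  apply T.ndE.eq_zero
  intro y
  rw [polar_sub_left, ← T.pol y b v, ← T.pol y b (r v), sub_eq_zero]
  conv_lhs => rw [← h.1 y]
  exact O_polar (T.hM hr) _ _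

/-- the adjoint formula -/
theorem RS.adj (T : T4 QE QW Q M) {b : W} (hQb : QW b = 0)
    {r : (W →ₗ[F] E) ≃ₗ[F] (W →ₗ[F] E)} (hr : r ∈ M) {A : (W →ₗ[F] E) → E}
    (h : RS QW b r A) (v : W →ₗ[F] E) {w : W} (hbw : polar QW b w = 0) (x : E) :
    polar QE ((r v - v) w) x = - polar QE (v b) (A (tb QW x w)) := by
  have h1 : r (tb QW x w) = tb QW x w + tb QW (A (tb QW x w)) b :=
    h.2 _ (by rw [tb_apply, polar_comm, hbw, zero_smul])
  have h2 : polar Q (r (tb QW x w)) (r v) = polar Q (tb QW x w) v := O_polar (T.hM hr) _ _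
  rw [h1, polar_add_left, T.pol, T.pol, T.pol, h.at_b T hQb hr] at h2
  rw [LinearMap.sub_apply, polar_sub_left, ← h2]
  ring

/-- commutators -/
theorem comm_ZX (T : T4 QE QW Q M) {b : W} (hQb : QW b = 0)
    {r r' : (W →ₗ[F] E) ≃ₗ[F] (W →ₗ[F] E)} (hr : r ∈ M) (hr' : r' ∈ M) {A A' : (W →ₗ[F] E) → E}
    (h : RS QW b r A) (h' : RS QW b r' A') {X : E →ₗ[F] E}
    (hX : ∀ v : W →ₗ[F] E, A (r' v - v) - A' (r v - v) = X (v b)) : ZX QW M b X := by
  refine ⟨r * r' * (r' * r)⁻¹, M.mul_mem (M.mul_mem hr hr') (M.inv_mem (M.mul_mem hr' hr)), fun u => ?_⟩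
  obtain ⟨v, hv⟩ : ∃ v, v = (r' * r)⁻¹ u := ⟨_, rfl⟩
  have hu : r' (r v) = u := by
    rw [hv]; exact LinearEquiv.apply_symm_apply (r' * r) u
  rw [LinearEquiv.mul_apply, ← hv, LinearEquiv.mul_apply]
  have e1 : (r' v - v) b = 0 := by rw [LinearMap.sub_apply, h'.at_b T hQb hr', sub_self]
  have e2 : (r v - v) b = 0 := by rw [LinearMap.sub_apply, h.at_b T hQb hr, sub_self]
  have e3 := h.2 _ e1
  have e4 := h'.2 _ e2
  rw [map_sub] at e3 e4
  have e5 : u b = v b := by rw [← hu, h'.at_b T hQb hr', h.at_b T hQb hr]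
  rw [e5, ← hX, tb_sub, ← hu]
  have e6 : r (r' v) = r v + (r' v - v + tb QW (A (r' v - v)) b) := by rw [← e3]; abel
  have e7 : r' (r v) = r' v + (r v - v + tb QW (A' (r v - v)) b) := by rw [← e4]; abel
  rw [e6, e7]
  abel

/-- selfadjointness -/
theorem RS.selfadj (T : T4 QE QW Q M) {b : W} (hb : b ≠ 0) (hQb : QW b = 0)
    (hno : ∀ X : E →ₗ[F] E, ZX QW M b X → X = 0)
    {r : (W →ₗ[F] E) ≃ₗ[F] (W →ₗ[F] E)} (hr : r ∈ M) {A : (W →ₗ[F] E) →ₗ[F] E}
    (h : RS QW b r A) {e : W} (hbe : polar QW b e = 0) (x y : E) :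
    polar QE (A (tb QW x e)) y = polar QE x (A (tb QW y e)) := by
  obtain ⟨s, hs, hsv⟩ := T.tB b e hQb hbe
  have hs' : RS QW b s (fun v => - v e) := by
    have hbb : polar QW b b = 0 := by rw [polar_self', hQb, mul_zero]
    refine ⟨fun y => by rw [hsv, SgV_tb hbb hbe], fun v hv => ?_⟩
    rw [hsv, SgV, hv, tb_zero, tb_zero, tb_neg]
    simp [sub_eq_add_neg]
  obtain ⟨b1, hb1⟩ := T.ndW.exists_polar_one' hb
  have hb1' : polar QW b1 b = 1 := by rw [polar_comm, hb1]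
  obtain ⟨X, hX⟩ : ∃ X : E →ₗ[F] E, ∀ y, X y = A (tb QW y e) + (r (tb QW y b1) - tb QW y b1) e :=
    ⟨A ∘ₗ tbl QW E e + (LinearMap.applyₗ e) ∘ₗ ((r : (W →ₗ[F] E) →ₗ[F] (W →ₗ[F] E)) ∘ₗ tbl QW E b1 - tbl QW E b1),
      fun y => rfl⟩
  have h1 : ZX QW M b X := by
    apply comm_ZX T hQb hr hs h hs'
    intro v
    rw [hX, hsv]
    have e1 : SgV QW b e v - v = tb QW (v b) e - tb QW (v e) b - QW e • tb QW (v b) b := by
      rw [SgV]; abel
    rw [e1, map_sub, map_sub, map_smul, h.fix hb T.ndW hQb, h.fix hb T.ndW hQb, smul_zero, sub_zero, sub_zero,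
      sub_neg_eq_add]
    congr 1
    rw [← sub_eq_zero]
    apply T.ndE.eq_zero
    intro y
    rw [polar_sub_left, h.adj T hQb hr v hbe, h.adj T hQb hr _ hbe, tb_apply, hb1', one_smul, sub_self]
  have h2 := hno X h1
  have h3 := hX x
  rw [h2, LinearMap.zero_apply] at h3
  have h4 : A (tb QW x e) = -((r (tb QW x b1) - tb QW x b1) e) := (neg_eq_of_add_eq_zero_left h3.symm).symm
  rw [h4, polar_neg_left, h.adj T hQb hr _ hbe, neg_neg, tb_apply, hb1', one_smul]

/-- commuting -/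
theorem comm_of (T : T4 QE QW Q M) {b : W} (hb : b ≠ 0) (hQb : QW b = 0)
    (hno : ∀ X : E →ₗ[F] E, ZX QW M b X → X = 0) {z z' : W} (hbz : polar QW b z = 0)
    (hbz' : polar QW b z' = 0) (hzz : polar QW z z' ≠ 0) {Y Y' : E →ₗ[F] E}
    (h : AA QW M b (fun v => Y (v z))) (h' : AA QW M b (fun v => Y' (v z')))
    (hY : ∀ x y, polar QE (Y x) y = polar QE x (Y y)) (hY' : ∀ x y, polar QE (Y' x) y = polar QE x (Y' y))
    (x : E) : Y (Y' x) = Y' (Y x) := by
  obtain ⟨r, hr, h1⟩ := h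
  obtain ⟨r', hr', h1'⟩ := h'
  have e1 : ∀ v : W →ₗ[F] E, (r' v - v) z = -(polar QW z z') • Y' (v b) := by
    intro v
    rw [← sub_eq_zero]
    apply T.ndE.eq_zero
    intro y
    rw [polar_sub_left, h1'.adj T hQb hr' v hbz, tb_apply, polar_smul_left, map_smul, polar_smul_right, hY']
    simp
  have e2 : ∀ v : W →ₗ[F] E, (r v - v) z' = -(polar QW z z') • Y (v b) := by
    intro v
    rw [← sub_eq_zero]
    apply T.ndE.eq_zero
    intro y
    rw [polar_sub_left, h1.adj T hQb hr v hbz', tb_apply, polar_smul_left, map_smul, polar_smul_right, hY,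
      polar_comm QW z' z]
    simp
  have h2 := comm_ZX T hQb hr hr' h1 h1' (X := -(polar QW z z') • (Y ∘ₗ Y' - Y' ∘ₗ Y)) (by
    intro v
    simp only [e1, e2, map_smul, LinearMap.smul_apply, LinearMap.sub_apply, LinearMap.comp_apply, smul_sub])
  have h3 := hno _ h2
  have h4 := congrArg (fun L : E →ₗ[F] E => L x) h3
  simp only [LinearMap.smul_apply, LinearMap.sub_apply, LinearMap.comp_apply, LinearMap.zero_apply] at h4
  exact sub_eq_zero.1 ((smul_eq_zero.1 h4).resolve_left (neg_ne_zero.2 hzz))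

/-- conjugation by Siegel maps of the first factor -/
theorem AA.conjE (T : T4 QE QW Q M) {b : W} {A : (W →ₗ[F] E) → E} (h : AA QW M b A) {a f : E} (ha : QE a = 0)
    (haf : polar QE a f = 0) : AA QW M b (fun v => siegMap QE a f (A (siegMap QE a (-f) ∘ₗ v))) := by
  have haf' : polar QE a (-f) = 0 := by rw [polar_neg_right, haf, neg_zero]
  obtain ⟨s, hs, hsv⟩ := T.tA a f ha haf
  obtain ⟨r1, hr1, h1, h2⟩ := h
  have h3 : ∀ y, s (tb QW y b) = tb QW (siegMap QE a f y) b := by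
    intro y
    rw [hsv]
    apply LinearMap.ext
    intro w
    rw [LinearMap.comp_apply, tb_apply, tb_apply, map_smul]
  have h4 : ∀ y, s⁻¹ (tb QW y b) = tb QW (siegMap QE a (-f) y) b := by
    intro y
    refine (LinearEquiv.symm_apply_eq s).2 ?_
    rw [h3, sieg_neg ha haf]
  have h5 : ∀ (v : W →ₗ[F] E), s⁻¹ v = siegMap QE a (-f) ∘ₗ v := by
    intro v
    refine (LinearEquiv.symm_apply_eq s).2 ?_
    rw [hsv]
    apply LinearMap.ext
    intro w
    simp only [LinearMap.comp_apply]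
    exact (sieg_neg ha haf _).symm
  refine ⟨s * r1 * s⁻¹, M.mul_mem (M.mul_mem hs hr1) (M.inv_mem hs), fun y => ?_, fun v hv => ?_⟩
  · rw [LinearEquiv.mul_apply, LinearEquiv.mul_apply, h4, h1, h3, sieg_neg ha haf]
  · rw [LinearEquiv.mul_apply, LinearEquiv.mul_apply, h2 _ (by rw [h5, LinearMap.comp_apply, hv, map_zero]), map_add, h3]
    have h6 : s (s⁻¹ v) = v := LinearEquiv.apply_symm_apply s v
    rw [h6, h5]

theorem sieg_comp (a f : E) (v : W →ₗ[F] E) (t : F) : siegMap QE a (t • f) ∘ₗ v =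
    v + t • pt f (polarBilin QE a ∘ₗ v) - t • pt a (polarBilin QE f ∘ₗ v) - (t * t * QE f) • pt a (polarBilin QE a ∘ₗ v) := by
  apply LinearMap.ext
  intro w
  simp only [LinearMap.comp_apply, siegMap_apply, LinearMap.add_apply, LinearMap.sub_apply, LinearMap.smul_apply, pt_apply,
    polarBilin_apply_apply, polar_smul_left, Q_smul, smul_eq_mul]
  module

/-- the even part of the conjugation -/
noncomputable def GE (QE : QuadraticForm F E) (A : (W →ₗ[F] E) → E) (a f : E) (t : F) (v : W →ₗ[F] E) : E :=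
  siegMap QE a (t • f) (A (siegMap QE a (-(t • f)) ∘ₗ v)) + siegMap QE a (-(t • f)) (A (siegMap QE a (- -(t • f)) ∘ₗ v)) +
    (- A v + - A v)

theorem AA.ge (T : T4 QE QW Q M) {b : W} {A : (W →ₗ[F] E) → E} (h : AA QW M b A) {a f : E} (ha : QE a = 0)
    (haf : polar QE a f = 0) (t : F) : AA QW M b (GE QE A a f t) := by
  have h1 : polar QE a (t • f) = 0 := by rw [polar_smul_right, haf, smul_zero]
  have h2 : polar QE a (-(t • f)) = 0 := by rw [polar_neg_right, h1, neg_zero]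
  exact ((h.conjE T ha h1).add (h.conjE T ha h2)).add (h.neg.add h.neg)

theorem ge_id (A : (W →ₗ[F] E) →ₗ[F] E) (a f : E) (u : F) (v : W →ₗ[F] E) :
    GE QE A a f (1 - u * u) v + GE QE A a f (2 * u) v + - GE QE A a f (1 + u * u) v =
      (-(4 * ((1 - u * u) * (1 - u * u) * (2 * u) * (2 * u)) * QE f * QE f)) • (polar QE a (A (pt a (polarBilin QE a ∘ₗ v))) • a) := by
  have e1 : ∀ t : F, siegMap QE a (-(t • f)) ∘ₗ v =
    v + (-t) • pt f (polarBilin QE a ∘ₗ v) - (-t) • pt a (polarBilin QE f ∘ₗ v) - (t * t * QE f) • pt a (polarBilin QE a ∘ₗ v) := by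
    intro t
    rw [← neg_smul, sieg_comp, neg_mul_neg]
  have e2 : ∀ t : F, siegMap QE a (- -(t • f)) ∘ₗ v =
    v + t • pt f (polarBilin QE a ∘ₗ v) - t • pt a (polarBilin QE f ∘ₗ v) - (t * t * QE f) • pt a (polarBilin QE a ∘ₗ v) := by
    intro t
    rw [neg_neg, sieg_comp]
  simp only [GE, e1, e2]
  obtain ⟨P, hP⟩ : ∃ P, P = A v := ⟨_, rfl⟩
  obtain ⟨R, hR⟩ : ∃ R, R = A (pt f (polarBilin QE a ∘ₗ v)) := ⟨_, rfl⟩
  obtain ⟨R', hR'⟩ : ∃ R', R' = A (pt a (polarBilin QE f ∘ₗ v)) := ⟨_, rfl⟩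
  obtain ⟨S, hS⟩ : ∃ S, S = A (pt a (polarBilin QE a ∘ₗ v)) := ⟨_, rfl⟩
  simp only [map_add, map_sub, map_smul, ← hP, ← hR, ← hR', ← hS]
  simp only [siegMap_apply, polar_neg_left, polar_neg_right, polar_smul_left, polar_smul_right, Q_smul, QuadraticMap.map_neg,
    smul_eq_mul]
  module

theorem tb_add' (a : E) (b b' : W) : tb QW a (b + b') = tb QW a b + tb QW a b' :=
  LinearMap.ext fun w => by simp only [tb_apply, LinearMap.add_apply, polar_add_left, add_smul]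

theorem tb_sub' (a : E) (b b' : W) : tb QW a (b - b') = tb QW a b - tb QW a b' :=
  LinearMap.ext fun w => by simp only [tb_apply, LinearMap.sub_apply, polar_sub_left, sub_smul]

theorem tb_smul' (c : F) (a : E) (b : W) : tb QW a (c • b) = c • tb QW a b :=
  LinearMap.ext fun w => by simp only [tb_apply, LinearMap.smul_apply, polar_smul_left, smul_smul, smul_eq_mul]

theorem exists_dual_rep (hQ : Nd QW) (φ : Dual F W) : ∃ e : W, ∀ w, polar QW e w = φ w := by
  refine ⟨(LinearMap.BilinForm.toDual (polarBilin QW) hQ).symm φ, fun w => ?_⟩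
  exact LinearMap.BilinForm.apply_toDual_symm_apply (B := polarBilin QW) (hB := hQ) φ w

/-- the scalar case -/
theorem scalar_case [Finite F] (T : T4 QE QW Q M) {b : W} (hb : b ≠ 0) (hQb : QW b = 0)
    (hno : ∀ X : E →ₗ[F] E, ZX QW M b X → X = 0)
    {r : (W →ₗ[F] E) ≃ₗ[F] (W →ₗ[F] E)} (hr : r ∈ M) {A : (W →ₗ[F] E) →ₗ[F] E} (h : RS QW b r A)
    (hsc : ∀ w, polar QW b w = 0 → ∃ c : F, ∀ x, A (tb QW x w) = c • x) :
    ∃ e, polar QW b e = 0 ∧ ∀ v, r v = SgV QW b e v := by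
  have hE := T.hE
  obtain ⟨x0, hx0⟩ : ∃ x0 : E, x0 ≠ 0 := by
    haveI : Nontrivial E := Module.nontrivial_of_finrank_pos (R := F) (by omega)
    exact exists_ne 0
  obtain ⟨φ, hφ⟩ := exists_dual0 (F := F) hx0
  obtain ⟨e, he⟩ := exists_dual_rep T.ndW (-(φ ∘ₗ A ∘ₗ (pt x0 ∘ₗ polarBilin QW)))
  have he' : ∀ w, polar QW e w = - φ (A (tb QW x0 w)) := he
  have hbb : polar QW b b = 0 := by rw [polar_self', hQb, mul_zero]
  have heb : polar QW e b = 0 := by rw [he', h.fix hb T.ndW hQb, map_zero, neg_zero]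
  have hbe : polar QW b e = 0 := by rw [polar_comm, heb]
  have h1 : ∀ w, polar QW b w = 0 → ∀ x, A (tb QW x w) = -(polar QW e w) • x := by
    intro w hw x
    obtain ⟨c, hc⟩ := hsc w hw
    rw [he', neg_neg, hc x0, map_smul, hφ, smul_eq_mul, mul_one, hc]
  have h2 : ∀ v : W →ₗ[F] E, v b = 0 → A v = - v e := by
    intro v hv
    have h3 : v ∈ LinearMap.ker (A + LinearMap.applyₗ e) := by
      apply TenSpH94.span_perp _ hv
      intro x ψ hψ
      obtain ⟨w, hw⟩ := exists_dual_rep T.ndW ψ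
      have hψ' : ψ = polarBilin QW w := LinearMap.ext fun u => (hw u).symm
      have hwb : polar QW w b = 0 := by rw [hw, hψ]
      rw [LinearMap.mem_ker, hψ']
      show A (tb QW x w) + tb QW x w e = 0
      rw [h1 w (by rw [polar_comm, hwb]), tb_apply, polar_comm QW e w, neg_smul, neg_add_cancel]
    exact eq_neg_of_add_eq_zero_left h3
  obtain ⟨s, hs, hsv⟩ := T.tB b e hQb hbe
  have hss : ∀ v : W →ₗ[F] E, v b = 0 → s v = r v := by
    intro v hv
    rw [hsv, h.2 v hv, h2 v hv, SgV, hv, tb_zero, tb_zero, tb_neg]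
    simp [sub_eq_add_neg]
  obtain ⟨m, hm⟩ : ∃ m, m = s⁻¹ * r := ⟨_, rfl⟩
  have hmM : m ∈ M := by rw [hm]; exact M.mul_mem (M.inv_mem hs) hr
  have hm1 : ∀ v : W →ₗ[F] E, v b = 0 → m v = v := by
    intro v hv
    rw [hm, LinearEquiv.mul_apply, ← hss v hv]
    exact LinearEquiv.symm_apply_apply s v
  have hmR : RS QW b m (fun _ => (0 : E)) := by
    refine ⟨fun y => hm1 _ (by rw [tb_apply, hbb, zero_smul]), fun v hv => ?_⟩
    rw [hm1 v hv, tb_zero, add_zero]
  obtain ⟨b1, hb1⟩ := T.ndW.exists_polar_one' hb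
  have hb1' : polar QW b1 b = 1 := by rw [polar_comm, hb1]
  obtain ⟨X, hX⟩ : ∃ X : E →ₗ[F] E, ∀ y, X y = (m (tb QW y b1) - tb QW y b1) b1 :=
    ⟨(LinearMap.applyₗ b1) ∘ₗ ((m : (W →ₗ[F] E) →ₗ[F] (W →ₗ[F] E)) ∘ₗ tbl QW E b1 - tbl QW E b1),
      fun y => rfl⟩
  have h4 : ∀ v : W →ₗ[F] E, m v - v = tb QW ((m v - v) b1) b := by
    intro v
    apply LinearMap.ext
    intro w
    have h5 : (m v - v) (w - polar QW b w • b1) = 0 := by
      apply T.ndE.eq_zero
      intro y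
      rw [hmR.adj T hQb hmM v (by rw [polar_sub_right, polar_smul_right, hb1, smul_eq_mul, mul_one, sub_self]),
        polar_zero_right, neg_zero]
    rw [map_sub, map_smul, sub_eq_zero] at h5
    rw [h5, tb_apply]
  have h6 : ∀ v : W →ₗ[F] E, m v = v + tb QW (X (v b)) b := by
    intro v
    have h7 : m (v - tb QW (v b) b1) = v - tb QW (v b) b1 :=
      hm1 _ (by rw [LinearMap.sub_apply, tb_apply, hb1', one_smul, sub_self])
    rw [map_sub] at h7
    have h8 : m v - v = m (tb QW (v b) b1) - tb QW (v b) b1 := by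
      have h9 : m v = (m v - m (tb QW (v b) b1)) + m (tb QW (v b) b1) := by abel
      rw [h9, h7]; abel
    rw [hX, ← h8, ← h4]
    abel
  have h7 := hno X ⟨m, hmM, h6⟩
  refine ⟨e, hbe, fun v => ?_⟩
  have h8 := h6 v
  rw [h7, LinearMap.zero_apply, tb_zero, add_zero, hm, LinearEquiv.mul_apply] at h8
  rw [← hsv]
  conv_rhs => rw [← h8]
  exact (LinearEquiv.apply_symm_apply s (r v)).symm


/-- the scalar property -/
theorem scalar4 [Finite F] (T : T4 QE QW Q M) {b : W} (hb : b ≠ 0) (hQb : QW b = 0)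
    (hno : ∀ X : E →ₗ[F] E, ZX QW M b X → X = 0)
    {r : (W →ₗ[F] E) ≃ₗ[F] (W →ₗ[F] E)} (hr : r ∈ M) {A : (W →ₗ[F] E) →ₗ[F] E} (h : RS QW b r A)
    {w : W} (hbw : polar QW b w = 0) : ∃ c : F, ∀ x, A (tb QW x w) = c • x := by
  by_contra hns
  have hsaA : ∀ x y, polar QE ((A ∘ₗ tbl QW E w) x) y = polar QE x ((A ∘ₗ tbl QW E w) y) :=
    fun x y => RS.selfadj T hb hQb hno hr h hbw x y
  obtain ⟨a, ha, hγ⟩ : ∃ a, QE a = 0 ∧ polar QE a ((A ∘ₗ tbl QW E w) a) ≠ 0 := by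
    by_contra hcon
    push Not at hcon
    exact hns (scalar_of_van T.h2 T.ndE T.hE T.hex hsaA hcon)
  have ha0 : a ≠ 0 := by
    rintro rfl
    exact hγ (by rw [polar_zero_left])
  obtain ⟨f, -, haf, hQf⟩ := exists_nonsing_perp' T.ndE (nds_top T.ndE) (by rw [finrank_top]; exact T.hE)
    (e := a) trivial ha0 ha
  obtain ⟨z, hz⟩ := exists_dual_rep T.ndW ((polarBilin QE a) ∘ₗ A ∘ₗ (pt a ∘ₗ polarBilin QW))
  have hz' : ∀ y, polar QW z y = polar QE a (A (tb QW a y)) := hz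
  have hbz : polar QW b z = 0 := by
    rw [polar_comm, hz', h.fix hb T.ndW hQb, polar_zero_right]
  have hQz : QW z ≠ 0 := by
    intro hz0
    obtain ⟨c, hc⟩ := T.hmin b z hQb hz0 hbz hb
    apply hγ
    show polar QE a (A (tb QW a w)) = 0
    rw [← hz', hc, polar_smul_left, hbw, smul_zero]
  have hzz : polar QW z z ≠ 0 := by
    rw [polar_self']
    exact mul_ne_zero T.h2 hQz
  obtain ⟨u, hu0, hu1, hu2⟩ := T.hs
  obtain ⟨κ, hκ⟩ : ∃ κ, κ = -(4 * ((1 - u * u) * (1 - u * u) * (2 * u) * (2 * u)) * QE f * QE f) := ⟨_, rfl⟩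
  have hκ0 : κ ≠ 0 := by
    have h4' : (4 : F) ≠ 0 := by
      rw [show (4 : F) = 2 * 2 by norm_num]
      exact mul_ne_zero T.h2 T.h2
    have h5 : (1 - u * u) ≠ 0 := by
      have : 1 - u * u = -((u - 1) * (u + 1)) := by ring
      rw [this]
      refine neg_ne_zero.2 (mul_ne_zero (sub_ne_zero.2 hu1) fun h => hu2 (eq_neg_of_add_eq_zero_left h))
    have h6 : 2 * u ≠ 0 := mul_ne_zero T.h2 hu0
    rw [hκ]
    exact neg_ne_zero.2 (mul_ne_zero (mul_ne_zero (mul_ne_zero h4' (mul_ne_zero (mul_ne_zero (mul_ne_zero h5 h5) h6) h6)) hQf) hQf)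
  have hAA : AA QW M b A := ⟨r, hr, h⟩
  obtain ⟨Y, hY⟩ : ∃ Y : E →ₗ[F] E, ∀ x, Y x = (κ * polar QE a x) • a :=
    ⟨κ • (polarBilin QE a).smulRight a, fun x => by
      rw [LinearMap.smul_apply, LinearMap.smulRight_apply, polarBilin_apply_apply, smul_smul]⟩
  have h1 : AA QW M b (fun v => Y (v z)) := by
    refine (((hAA.ge T ha haf (1 - u * u)).add (hAA.ge T ha haf (2 * u))).add (hAA.ge T ha haf (1 + u * u)).neg).congr
      fun v _ => ?_
    rw [ge_id, ← hκ, hY, smul_smul]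
    congr 2
    obtain ⟨y, hy⟩ := exists_dual_rep T.ndW (polarBilin QE a ∘ₗ v)
    have h5 : pt a (polarBilin QE a ∘ₗ v) = tb QW a y := by
      apply LinearMap.ext
      intro w'
      rw [pt_apply, tb_apply, hy]
    rw [h5, ← hz', polar_comm, hy]
    rfl
  obtain ⟨z1, -, hz1, haz⟩ := exists_partner T.ndE (nds_top T.ndE) (z := a) trivial ha0 ha
  have hz10 : z1 ≠ 0 := by
    rintro rfl
    rw [polar_zero_right] at haz
    exact zero_ne_one haz
  obtain ⟨g, -, hzg, hQg⟩ := exists_nonsing_perp' T.ndE (nds_top T.ndE) (by rw [finrank_top]; exact T.hE)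
    (e := z1) trivial hz10 hz1
  have h2 : AA QW M b (fun v => (siegMap QE z1 g ∘ₗ Y ∘ₗ siegMap QE z1 (-g)) (v z)) := h1.conjE T hz1 hzg
  have hsa : ∀ Y : E →ₗ[F] E, AA QW M b (fun v => Y (v z)) → ∀ x y, polar QE (Y x) y = polar QE x (Y y) := by
    intro Y hY x y
    obtain ⟨r1, hr1, h1⟩ := hY
    have h2 := RS.selfadj T hb hQb hno hr1 (A := Y ∘ₗ LinearMap.applyₗ z) h1 hbz x y
    simp only [LinearMap.comp_apply, LinearMap.applyₗ_apply_apply, tb_apply, map_smul, polar_smul_left, polar_smul_right,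
      smul_eq_mul] at h2
    exact mul_left_cancel₀ hzz h2
  have e2 := comm_of T hb hQb hno hbz hbz hzz h1 h2 (hsa _ h1) (hsa _ h2) a
  have haa : polar QE a a = 0 := by rw [polar_self', ha, mul_zero]
  have hza : polar QE z1 a = 1 := by rw [polar_comm, haz]
  have e3 : polar QE a (siegMap QE z1 g a) = - QE g := by
    rw [siegMap_apply]
    simp only [polar_add_right, polar_sub_right, polar_smul_right, haa, hza, haz, smul_eq_mul, polar_comm QE g a]
    ring
  have e4 : polar QE a (siegMap QE z1 (-g) a) = - QE g := by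
    rw [siegMap_apply]
    simp only [polar_add_right, polar_sub_right, polar_smul_right, haa, hza, haz, smul_eq_mul,
      polar_neg_left, polar_neg_right, QuadraticMap.map_neg, polar_comm QE g a]
    ring
  rw [hY a, haa, mul_zero, zero_smul, map_zero] at e2
  simp only [LinearMap.comp_apply, hY, map_smul, e4, polar_smul_right, e3, smul_eq_mul] at e2
  rcases smul_eq_zero.1 e2 with h5 | h5
  · exact mul_ne_zero hκ0 (mul_ne_zero (mul_ne_zero hκ0 (neg_ne_zero.2 hQg)) (neg_ne_zero.2 hQg)) h5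
  · exact ha0 h5

theorem exists_ZX [Finite F] (T : T4 QE QW Q M) (hII : ¬ II QW M) :
    ∃ b : W, b ≠ 0 ∧ QW b = 0 ∧ ∃ X : E →ₗ[F] E, X ≠ 0 ∧ ZX QW M b X := by
  by_contra hcon
  push Not at hcon
  apply hII
  intro b hb hQb r hr hTv
  have hno : ∀ X : E →ₗ[F] E, ZX QW M b X → X = 0 := by
    intro X hX
    by_contra hX0
    exact hcon b hb hQb X hX0 hX
  obtain ⟨b1, hb1⟩ := T.ndW.exists_polar_one' hb
  have h : RS QW b r ((LinearMap.applyₗ b1) ∘ₗ
      ((r : (W →ₗ[F] E) →ₗ[F] (W →ₗ[F] E)) - LinearMap.id) : (W →ₗ[F] E) →ₗ[F] E) := by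
    refine ⟨hTv.1, fun v hv => ?_⟩
    obtain ⟨a, ha⟩ := hTv.2 v hv
    have h1 : ((LinearMap.applyₗ b1) ∘ₗ
      ((r : (W →ₗ[F] E) →ₗ[F] (W →ₗ[F] E)) - LinearMap.id) : (W →ₗ[F] E) →ₗ[F] E) v = a := by
      show (r v - v) b1 = a
      rw [ha, add_sub_cancel_left, tb_apply, hb1, one_smul]
    rw [h1, ha]
  exact scalar_case T hb hQb hno hr h fun w hbw => scalar4 T hb hQb hno hr h hbw

end main

end Cfsg.Agent.Lib.TenW4_B1
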