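import Cfsg.Agent.Lib.TenW4_B1
import Cfsg.Agent.Lib.TenW4_B2
import Cfsg.Agent.Lib.TenW4_B3
import Cfsg.Agent.Lib.TenW4_ASM

/-!
# Overgroups of `O₃ ⊗ O₄⁻`: Case I and the main statement (helper34, after helper46)
-/

set_option autoImplicit false
set_option linter.unusedSectionVars false
set_option linter.unusedVariables false

namespace Cfsg.Agent.Lib.TenW4_B4

open QuadraticMap Module Cfsg.Agent.Lib.Quad Cfsg.Agent.Lib.OrthMax Cfsg.Agent.Lib.OrthNd Cfsg.Agent.Lib.TenSLH94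
  Cfsg.Agent.Lib.TenOO Cfsg.Agent.Lib.TenW4

variable {F E W : Type*} [Field F] [AddCommGroup E] [Module F E] [FiniteDimensional F E]
  [AddCommGroup W] [Module F W] [FiniteDimensional F W] [Finite F]
  {QE : QuadraticForm F E} {QW : QuadraticForm F W} {Q : QuadraticForm F (W →ₗ[F] E)}
  {M : Subgroup ((W →ₗ[F] E) ≃ₗ[F] (W →ₗ[F] E))}

theorem caseI (T : T4 QE QW Q M) (hQ : Nd Q) (hgen : GenHyp Q) (hII : ¬ II QW M) : Om Q ≤ M := by
  obtain ⟨b, hb, hQb, X, hX, hZ⟩ := TenW4_B1.exists_ZX T hII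
  have hF := TenW4_B3.full T hQ hb hQb (TenW4_B2.ZX_all T hb hQb hX hZ)
  obtain ⟨y, hy⟩ : ∃ y : E, y ≠ 0 := by
    have : Nontrivial E := Module.finrank_pos_iff (R := F).1 (by have := T.hE; omega)
    exact exists_ne 0
  obtain ⟨y', hy'⟩ := T.ndE.exists_polar_one' hy
  obtain ⟨w, hw⟩ := T.ndW.exists_polar_one' hb
  obtain ⟨t, ht⟩ := exists_sing_add (Q := QW) (z := b) (y := w) hQb (by rw [polar_comm, hw]; exact one_ne_zero)
  have hbb : polar QW b b = 0 := by rw [polar_self', hQb, mul_zero]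
  have hp : polar QW b (w + t • b) = 1 := by
    rw [polar_add_right, polar_smul_right, hbb, smul_zero, add_zero, hw]
  refine Om_le_of_two hQ hgen ?_ T.hM (hF y b hQb) (hF y' (w + t • b) ht) ?_
  · rw [Module.finrank_linearMap, T.hE3, T.hW4]; norm_num
  · rw [T.pol, tb_apply, polar_comm QW, hp, one_smul, polar_comm QE, hy']
    exact one_ne_zero

/-- **Overgroups of `O₃ ⊗ O₄⁻`** -/
theorem main4 (T : T4 QE QW Q M) (hQ : Nd Q) (hgen : GenHyp Q) : Om Q ≤ M ∨ ∀ g ∈ M, Pr g := by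
  by_cases hII : II QW M
  · exact Or.inr (TenW4_ASM.caseII T hII)
  · exact Or.inl (caseI T hQ hgen hII)

end Cfsg.Agent.Lib.TenW4_B4
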