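import Mathlib
import Cfsg.Agent.Lib.TenW40
import Cfsg.Agent.Lib.TenOO_Hyp
import Cfsg.Agent.Lib.LineCount

/-!
Overgroups of `O₃ ⊗ O₄⁻` in `Ω₁₂⁻`: the bridge to matrices (helper21, after helper99).
-/

set_option autoImplicit false
set_option linter.unusedSectionVars false
set_option linter.unusedSimpArgs false
set_option linter.unusedVariables false

namespace Cfsg.Agent.Lib.TenW4_BR

open QuadraticMap Module Cfsg Cfsg.Geo Cfsg.Agent.Lib.Quad Cfsg.Agent.Lib.OrthMax Cfsg.Agent.Lib.OrthNd Cfsg.Agent.Lib.TenSLH94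
  Cfsg.Agent.Lib.TenSpH94 Cfsg.Agent.Lib.OrthDecH94 Cfsg.Agent.Lib.TenBrH94 Cfsg.Agent.Lib.GeoBridge
  Cfsg.Agent.Lib.TensorGeo Cfsg.Agent.Lib.OrthBridge Cfsg.Agent.Lib.QuadNorm Cfsg.Agent.Lib.TenOO Cfsg.Agent.Lib.TenOO_Br
  Cfsg.Agent.Lib.TenW4 Cfsg.Agent.Lib
open scoped MatrixGroups Matrix Kronecker

variable {F : Type*} [Field F]

/-- the main theorem for `F ^ 3 ⊗ F ^ 4` -/
def Main4 (F : Type*) [Field F] : Prop :=
  ∀ (QE : QuadraticForm F (Fin 3 → F)) (QW : QuadraticForm F (Fin 4 → F))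
    (Q : QuadraticForm F ((Fin 4 → F) →ₗ[F] (Fin 3 → F)))
    (M : Subgroup (((Fin 4 → F) →ₗ[F] (Fin 3 → F)) ≃ₗ[F] ((Fin 4 → F) →ₗ[F] (Fin 3 → F)))),
    T4 QE QW Q M → Nd Q → GenHyp Q → Om Q ≤ M ∨ ∀ g ∈ M, Pr g

theorem Om_det {V : Type*} [AddCommGroup V] [Module F V] {Q : QuadraticForm F V} {g : V ≃ₗ[F] V} (hg : g ∈ Om Q) :
    LinearMap.det (g : V →ₗ[F] V) = 1 := by
  have h1 : Om Q ≤ (LinearEquiv.det (R := F) (M := V)).ker := by
    rw [Om, Subgroup.commutator_le]
    intro a _ b _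
    rw [MonoidHom.mem_ker, commutatorElement_def, map_mul, map_mul, map_mul, map_inv, map_inv, mul_comm (LinearEquiv.det a),
      mul_assoc (LinearEquiv.det b), mul_inv_cancel, mul_one, mul_inv_cancel]
  have h2 := h1 hg
  rw [MonoidHom.mem_ker, ← Units.val_inj, LinearEquiv.coe_det] at h2
  exact h2

/-- **The bridge.** -/
theorem br4 {ι : Type} [Fintype ι] [DecidableEq ι] [Fintype F] {Q : (ι → F) → F}
    (hQ : IsNondegenerateQuadraticForm Q) (hodd : Odd (Fintype.card F)) (hq5 : 5 ≤ Fintype.card F)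
    (e : ι ≃ Fin 3 × Fin 4) (P : GL ι F)
    {f₁ : (Fin 3 → F) → (Fin 3 → F) → F} {f₂ : (Fin 4 → F) → (Fin 4 → F) → F}
    (hf₁ : IsSymmetricForm f₁) (hf₂ : IsSymmetricForm f₂) (h4 : ¬ IsPlusTypeOn (fun v : Fin 4 → F => f₂ v v) ⊤)
    (hT : IsTensorFormStructure id (QuadraticMap.polar Q) f₁ f₂ e P) (H : Main4 F) :
    IsMaximalIn (omegaGL Q) (tensorProductSubgroup 3 4 e P ⊓ omegaGL Q) := by
  obtain ⟨c, hc, hT⟩ := hT
  have h2 : (2 : F) ≠ 0 := by
    intro h
    have h3 : CharP F 2 := CharTwo.of_one_ne_zero_of_two_eq_zero one_ne_zero h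
    obtain ⟨k, -, hk⟩ := FiniteField.card F 2
    rw [hk] at hodd
    exact (Nat.not_odd_iff_even.2 ((Nat.even_pow.2 ⟨even_two, k.pos.ne'⟩))) hodd
  obtain ⟨Q₀, hQ₀⟩ : ∃ Q₀ : QuadraticForm F (ι → F), Q₀ = qf hQ := ⟨_, rfl⟩
  have hQc : (⇑Q₀ : (ι → F) → F) = Q := by rw [hQ₀, coe_qf]
  have hnd₀ : Nd Q₀ := by rw [hQ₀]; exact nd_qf hQ
  obtain ⟨m, QW, hβm, hm, ndW⟩ := exists_dual_form' h2 hf₂
  obtain ⟨QE, hQE⟩ : ∃ QE, QE = sqf hf₁ (c / 2) := ⟨_, rfl⟩
  have hc2 : c / 2 ≠ 0 := div_ne_zero hc h2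
  have ndE : Nd QE := by rw [hQE]; exact nd_sqf hf₁ h2 hc2
  have hpolE : ∀ x y, polar QE x y = c * f₁ x y := by
    intro x y
    rw [hQE, polar_sqf, mul_div_cancel₀ _ h2]
  obtain ⟨Q', hQ'⟩ : ∃ Q' : QuadraticForm F ((Fin 4 → F) →ₗ[F] (Fin 3 → F)),
      Q' = Q₀.comp ((Th e P : _ ≃ₗ[F] _) : _ →ₗ[F] _) := ⟨_, rfl⟩
  have hQv : ∀ v, Q₀ (Th e P v) = Q' v := fun v => by rw [hQ']; rfl
  have hpv : ∀ u v, polar Q' u v = polar Q₀ (Th e P u) (Th e P v) := by
    intro u v
    rw [polar, polar, ← hQv, ← hQv, ← hQv, map_add]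
  have hnd : Nd Q' := by
    apply nd_of
    intro x hx
    rw [← (Th e P).map_eq_zero_iff]
    apply hnd₀.eq_zero
    intro y
    have := hx ((Th e P).symm y)
    rwa [hpv, LinearEquiv.apply_symm_apply] at this
  have pol0 : ∀ x₁ y₁ x₂ y₂, polar Q₀ (tp e P x₁ x₂) (tp e P y₁ y₂) = c * (f₁ x₁ y₁ * f₂ x₂ y₂) := by
    intro x₁ y₁ x₂ y₂
    rw [hQc]
    exact form_tp (σ := id) (fun a b => rfl)
      (eq_formOfGram (σ := id) hf₁.bilinear.add_left hf₁.bilinear.smul_left (fun x y z => hf₁.bilinear.add_right x y z)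
        (fun c x y => hf₁.bilinear.smul_right c x y))
      (eq_formOfGram (σ := id) hf₂.bilinear.add_left hf₂.bilinear.smul_left (fun x y z => hf₂.bilinear.add_right x y z)
        (fun c x y => hf₂.bilinear.smul_right c x y)) hT x₁ y₁ x₂ y₂
  have pol : ∀ (a : Fin 3 → F) (b : Fin 4 → F) (v : (Fin 4 → F) →ₗ[F] (Fin 3 → F)),
      polar Q' (tb QW a b) v = polar QE (v b) a := by
    intro a b v
    have h1 : (polarBilin Q') (tb QW a b) = ((polarBilin QE).flip a) ∘ₗ (LinearMap.applyₗ b) := by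
      apply ext_pt
      intro x ψ
      obtain ⟨y, rfl⟩ := be_surj ψ
      show polar Q' (tb QW a b) (pt x (be y)) = polar QE ((pt x (be y)) b) a
      rw [hpv, tb, hβm, Th_pt, Th_pt, pol0, hm, pt_apply, polar_smul_left, hpolE, hf₁.symm x a, smul_eq_mul]
      ring
    exact DFunLike.congr_fun h1 v
  have hcard : Fintype.card ι = 3 * 4 := by
    have := Fintype.card_congr e
    rwa [Fintype.card_prod, Fintype.card_fin, Fintype.card_fin] at this
  have hfE : finrank F (Fin 3 → F) = 3 := by rw [finrank_fintype_fun_eq_card, Fintype.card_fin]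
  have hfW : finrank F (Fin 4 → F) = 4 := by rw [finrank_fintype_fun_eq_card, Fintype.card_fin]
  have hfV : finrank F ((Fin 4 → F) →ₗ[F] (Fin 3 → F)) = Fintype.card ι := by rw [finrank_linearMap, hfE, hfW, hcard, mul_comm]
  have hgen : GenHyp Q' := genHyp_of_two_ne_zero h2
  have hconj : ∀ g, phi e P g = conjLE (Th e P) g := fun g => rfl
  have hOm : ∀ g, phi e P g ∈ Om Q₀ ↔ g ∈ Om Q' := by
    intro g
    have h1 := map_Om_conjLE (Q := Q') (Q' := Q₀) (Th e P) hQv
    rw [← h1]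
    constructor
    · rintro ⟨x, hx, hxg⟩
      rw [← (conjLE (Th e P)).injective hxg]
      exact hx
    · intro h
      exact ⟨g, h, rfl⟩
  have key := Om_max_of (Q := Q₀) (K := tensorProductSubgroup 3 4 e P) (P := fun g => ∃ p q, g = phi e P (ac p q))
    (fun g => by
      have := mem_iff e P (le g)
      rwa [MulEquiv.symm_apply_apply] at this) ?_ ?_
  · rwa [hQc] at key
  · obtain ⟨t, ht, htn⟩ := TenOO_C2.exists_not_pair h2 ndE ndW hnd pol (by rw [hfE]) (by rw [hfE, hfW]; norm_num)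
    refine ⟨phi e P t, (hOm t).2 ht, ?_⟩
    rintro ⟨p, q, hpq⟩
    exact htn ⟨p, q, phi_inj e P hpq⟩
  · intro M hM hH hMex
    have hs : ∃ s : F, s ≠ 0 ∧ s ≠ 1 ∧ s ≠ -1 := by
      classical
      by_contra hcon
      push Not at hcon
      have h5 : (Finset.univ : Finset F) ⊆ {0, 1, -1} := fun x _ => by
        simp only [Finset.mem_insert, Finset.mem_singleton]
        by_cases hx : x = 0
        · exact Or.inl hx
        by_cases hx1 : x = 1
        · exact Or.inr (Or.inl hx1)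
        · exact Or.inr (Or.inr (hcon x hx hx1))
      have h6 := Finset.card_le_card h5
      rw [Finset.card_univ] at h6
      have h7 := Finset.card_le_three (a := (0 : F)) (b := 1) (c := -1)
      omega
    have T : T4 QE QW Q' (M.comap (phi e P)) :=
      { h2 := h2
        ndE := ndE
        ndW := ndW
        hE := by rw [hfE]
        hE3 := hfE
        hW := by rw [hfW]
        hW4 := hfW
        hs := hs
        hex := Or.inr hs
        hmin := by
          intro x y hx hy hxy hx0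
          by_contra hcon
          push Not at hcon
          apply h4
          have hval : ∀ v, QW v = 0 → f₂ (m v) (m v) = 0 := by
            intro v hv
            have h5 : polarBilin QW v v = be (m v) v := by rw [hβm]
            rw [hm, ← h5]
            change polar QW v v = 0
            rw [polar_self', hv, mul_zero]
          have hm0 : ∀ v, m v = 0 → v = 0 := by
            intro v hv
            apply ndW.eq_zero
            intro w
            have h5 : polarBilin QW v w = be (m v) w := by rw [hβm]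
            change polarBilin QW v w = 0
            rw [h5, hv, be_apply, zero_dotProduct]
          have hns : m y ∉ Submodule.span F {m x} := by
            intro hmem
            obtain ⟨d, hd⟩ := Submodule.mem_span_singleton.1 hmem
            apply hcon d
            rw [← sub_eq_zero]
            apply hm0
            rw [map_sub, map_smul, hd, sub_self]
          refine ⟨Submodule.span F {m x, m y}, le_top, ?_, ?_⟩
          · intro w hw
            obtain ⟨s, t, rfl⟩ := Submodule.mem_span_pair.1 hw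
            rw [← map_smul, ← map_smul, ← map_add]
            apply hval
            have e1 : QW (s • x + t • y) = QW (s • x) + QW (t • y) + polar QW (s • x) (t • y) := by
              rw [polar]; ring
            rw [e1, QuadraticMap.map_smul, QuadraticMap.map_smul, hx, hy, polar_smul_left, polar_smul_right, hxy]
            simp
          · rw [Cfsg.Agent.Lib.LineCount.finrank_pair (fun h0 => hx0 (hm0 _ h0)) hns, finrank_top, hfW]
        hdet := fun g hg => Om_det ((hOm g).1 (hM hg))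
        pol := pol
        hM := fun g hg => Om_le ((hOm g).1 (hM hg))
        tB := fun b e' hb hbe => by
          obtain ⟨s, hs, hsv⟩ := TenOO_C1.siegB_Om h2 ndE ndW hnd pol hb hbe
          refine ⟨s, ?_, hsv⟩
          obtain ⟨p, q, rfl⟩ := sgV_ac ndW hb hbe hsv
          exact hH _ ((hOm _).2 hs) ⟨_, _, rfl⟩
        tA := fun a e' ha hae => by
          obtain ⟨s, hs, hsv⟩ := TenOO_C1.siegA_Om h2 ndE ndW hnd pol ha hae
          refine ⟨s, ?_, hsv⟩
          obtain ⟨p, q, rfl⟩ := siegA_ac ndE ha hae hsv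
          exact hH _ ((hOm _).2 hs) ⟨_, _, rfl⟩ }
    rcases H QE QW Q' _ T hnd hgen with h | h
    · intro g hg
      obtain ⟨x, rfl⟩ := phi_surj e P g
      exact h ((hOm x).1 hg)
    · exfalso
      obtain ⟨g, hg, hgn⟩ := hMex
      obtain ⟨x, rfl⟩ := phi_surj e P g
      obtain ⟨p, q, hpq⟩ := h x hg
      exact hgn ⟨p, q, by rw [hpq]⟩

/-- part (11) of the statement S5873 -/
theorem part11 [Fintype F] {Q : (Fin 12 → F) → F} (hQ : IsNondegenerateQuadraticForm Q) (H : Main4 F) :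
    Odd (Fintype.card F) ∧ 5 ≤ Fintype.card F → ∀ (e : Fin 12 ≃ Fin 3 × Fin 4) (P : Matrix.GeneralLinearGroup (Fin 12) F)
      (f₁ : (Fin 3 → F) → (Fin 3 → F) → F) (f₂ : (Fin 4 → F) → (Fin 4 → F) → F), Cfsg.Geo.IsSymmetricForm f₁ →
      Cfsg.Geo.IsSymmetricForm f₂ → ¬ Cfsg.Geo.IsPlusTypeOn (fun v : Fin 4 → F => f₂ v v) ⊤ →
      Cfsg.Geo.IsTensorFormStructure id (QuadraticMap.polar Q) f₁ f₂ e P →
      Cfsg.Geo.IsMaximalIn (Cfsg.Geo.omegaGL Q) (Cfsg.Geo.tensorProductSubgroup 3 4 e P ⊓ Cfsg.Geo.omegaGL Q) :=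
  fun h e P f₁ f₂ hf₁ hf₂ h4 hT => br4 hQ h.1 h.2 e P hf₁ hf₂ h4 hT H

end Cfsg.Agent.Lib.TenW4_BR
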