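import Mathlib
import Cfsg.Agent.Lib.InvAct

/-! Bender counting for S5873 (helper29). -/

set_option autoImplicit false

namespace Cfsg.Agent.Lib.TenW4_CNT

open Subgroup

variable {G : Type*} [Group G]

/-- number of conjugates -/
theorem ncard_orb (K : Subgroup G) [Finite K] (z : G) :
    Set.ncard {v : G | ∃ k ∈ K, k * z * k⁻¹ = v} = (Subgroup.centralizer ({z} : Set G)).relIndex K := by
  have h1 := InvAct.card_conj_orbit K z
  have h2 := relIndex_mul_relIndex (⊥ : Subgroup G) (K ⊓ Subgroup.centralizer ({z} : Set G)) K bot_le inf_le_left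
  rw [relIndex_bot_left, relIndex_bot_left, inf_relIndex_left] at h2
  have hf : Finite ↥(K ⊓ Subgroup.centralizer ({z} : Set G)) := Set.Finite.subset (Set.toFinite (K : Set G)) (fun x hx => hx.1)
  have h3 : 0 < Nat.card ↥(K ⊓ Subgroup.centralizer ({z} : Set G)) := Nat.card_pos
  apply Nat.eq_of_mul_eq_mul_right h3
  rw [← h1, ← h2]; ring

section
variable {M N : Subgroup G} [Finite M] (hNM : N ≤ M) {Z : Set G} (hZM : Z ⊆ M)
    (h1 : ∀ k ∈ Z, k * k = 1 ∧ k ≠ 1) (hc : ∀ k ∈ Z, ∀ m ∈ M, m * k * m⁻¹ ∈ Z)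
    (h2 : ∀ k ∈ Z, ∃ m ∈ M, m * k * m⁻¹ ∈ N)
    (h3 : ∀ k ∈ Z, k ∈ N → ∀ m ∈ M, m * k * m⁻¹ ∈ N → m ∈ N)
    (h4 : ∀ k ∈ Z, ∀ l ∈ Z, k ∈ N → l ∈ N → k * l = l * k → k ≠ l → ∀ m ∈ M, m * (k * l) = k * l * m → m ∈ N)

include hZM h1 hc h3 h4 in
/-- (i) -/
theorem odd_prod {z y : G} (hz : z ∈ Z) (hzN : z ∈ N) (hy : y ∈ Z) (hyN : y ∉ N) : Odd (orderOf (z * y)) := by
  by_contra hcon
  rw [Nat.not_odd_iff_even] at hcon
  obtain ⟨m, hm⟩ := hcon
  have hzM : z ∈ M := hZM hz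
  have hyM : y ∈ M := hZM hy
  have hzz := (h1 z hz).1
  have hyy := (h1 y hy).1
  have hzi : z⁻¹ = z := inv_eq_of_mul_eq_one_left hzz
  have hyi : y⁻¹ = y := inv_eq_of_mul_eq_one_left hyy
  have hfin : IsOfFinOrder (z * y) := by
    have h5 : IsOfFinOrder (⟨z * y, mul_mem hzM hyM⟩ : M) := isOfFinOrder_of_finite _
    exact (Submonoid.isOfFinOrder_coe (H := M.toSubmonoid) (x := ⟨z * y, mul_mem hzM hyM⟩)).mpr h5
  have hpos : 0 < orderOf (z * y) := hfin.orderOf_pos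
  have hm0 : 0 < m := by omega
  set c := z * y with hcdef
  set w := c ^ m with hw
  have hw2 : w * w = 1 := by
    rw [hw, ← pow_add, ← hm, pow_orderOf_eq_one]
  have hw1 : w ≠ 1 := by
    intro h
    have := orderOf_dvd_of_pow_eq_one h
    have := Nat.le_of_dvd hm0 this
    omega
  have hzc : z * c * z⁻¹ = c⁻¹ := by
    rw [hcdef, mul_inv_rev, hzi, hyi]
    rw [← mul_assoc z z y, hzz, one_mul]
  have hyc : y * c * y⁻¹ = c⁻¹ := by
    rw [hcdef, mul_inv_rev, hzi, hyi]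
    rw [mul_assoc, mul_assoc, hyy, mul_one]
  have hzp : ∀ k : ℕ, z * c ^ k * z⁻¹ = (c ^ k)⁻¹ := by
    intro k
    rw [← conj_pow, hzc, inv_pow]
  have hwi : w⁻¹ = w := inv_eq_of_mul_eq_one_left hw2
  have hzw : z * w * z⁻¹ = w := by rw [hw, hzp, ← hw, hwi]
  have hyw : y * w * y⁻¹ = w := by
    rw [hw, ← conj_pow, hyc, inv_pow, ← hw, hwi]
  have hcM : c ∈ M := mul_mem hzM hyM
  have hwM : w ∈ M := pow_mem hcM m
  -- `z w ∈ Z`
  have hzwZ : z * w ∈ Z := by
    obtain ⟨k, hk⟩ := Nat.even_or_odd' m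
    rcases hk with hk | hk
    · have h5 : (c ^ k)⁻¹ * z * (c ^ k)⁻¹⁻¹ = z * w := by
        have h6 := hzp k
        have h7 : (c ^ k)⁻¹ * z = z * c ^ k := by rw [← h6]; group
        rw [h7, inv_inv, hw, hk, two_mul, pow_add]; group
      rw [← h5]
      exact hc z hz _ (inv_mem (pow_mem hcM k))
    · have h5 : (c ^ k)⁻¹ * y * (c ^ k)⁻¹⁻¹ = z * w := by
        have h6 := hzp k
        have h7 : (c ^ k)⁻¹ * z = z * c ^ k := by rw [← h6]; group
        have h8 : y = z * c := by rw [hcdef, ← mul_assoc, hzz, one_mul]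
        calc (c ^ k)⁻¹ * y * (c ^ k)⁻¹⁻¹ = ((c ^ k)⁻¹ * z) * c * c ^ k := by
              rw [inv_inv]; nth_rewrite 1 [h8]; group
          _ = z * c ^ k * c * c ^ k := by rw [h7]
          _ = z * w := by
              rw [hw, hk, two_mul, pow_succ, pow_add]
              have : c ^ k * c * c ^ k = c ^ k * c ^ k * c := by
                rw [← pow_succ, ← pow_add, ← pow_add, ← pow_succ]
                congr 1
                ring
              rw [mul_assoc z, mul_assoc z, this]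
      rw [← h5]
      exact hc y hy _ (inv_mem (pow_mem hcM k))
  have hcomm : z * (z * w) = z * w * z := by
    have : z * w = w * z := by rw [mul_inv_eq_iff_eq_mul] at hzw; exact hzw
    rw [mul_assoc, ← this]
  have hzwN : z * w ∈ N := by
    apply h3 z hz hzN _ (mul_mem hzM hwM)
    rw [← hcomm, mul_inv_cancel_right]
    exact hzN
  apply hyN
  have e0 : z * (z * w) = w := by rw [← mul_assoc, hzz, one_mul]
  apply h4 z hz (z * w) hzwZ hzN hzwN hcomm ?_ y hyM
  · rw [e0]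
    rw [mul_inv_eq_iff_eq_mul] at hyw
    exact hyw
  · intro h
    apply hw1
    exact (mul_eq_left.mp h.symm)

include hNM hZM h1 hc h2 h3 h4 in
/-- (ii) injectivity -/
theorem inj {z y y' y'' : G} (hz : z ∈ Z) (hzN : z ∈ N) (hy : y ∈ Z) (hyN : y ∉ N) (hy' : y' ∈ Z) (hy'' : y'' ∈ Z)
    (hd' : y * y' ∈ N) (hd'' : y * y'' ∈ N)
    (h : (y * y')⁻¹ * z * (y * y') = (y * y'')⁻¹ * z * (y * y'')) : y' = y'' := by
  have hyM : y ∈ M := hZM hy
  have hyM' : y' ∈ M := hZM hy'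
  have hyM'' : y'' ∈ M := hZM hy''
  have hyy := (h1 y hy).1
  have hyy' := (h1 y' hy').1
  have hyy'' := (h1 y'' hy'').1
  have hyi : y⁻¹ = y := inv_eq_of_mul_eq_one_left hyy
  have hyi' : y'⁻¹ = y' := inv_eq_of_mul_eq_one_left hyy'
  have hyi'' : y''⁻¹ = y'' := inv_eq_of_mul_eq_one_left hyy''
  set l := y' * y'' with hl
  set z' := (y * y')⁻¹ * z * (y * y') with hz'
  have hz'Z : z' ∈ Z := by
    have := hc z hz (y * y')⁻¹ (inv_mem (mul_mem hyM hyM'))
    rwa [inv_inv] at this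
  have hz'N : z' ∈ N := mul_mem (mul_mem (inv_mem hd') hzN) hd'
  have hyN' : y' ∉ N := by
    intro h5
    apply hyN
    have := mul_mem hd' (inv_mem h5)
    simpa using this
  -- `z'` commutes with `l`
  have hz'l : l⁻¹ * z' * l = z' := by
    have e0 : (y * y') * l = y * y'' := by
      calc (y * y') * l = y * (y' * y') * y'' := by rw [hl]; group
        _ = y * y'' := by rw [hyy', mul_one]
    have h5 : (y * y'')⁻¹ * z * (y * y'') = l⁻¹ * z' * l := by
      rw [← e0, hz']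
      group
    rw [← h5, ← h]
  have hyl : y' * l * y'⁻¹ = l⁻¹ := by
    rw [hl, mul_inv_rev, hyi'', hyi', ← mul_assoc, hyy', one_mul]
  have hz'y' : z' * l = l * z' := by
    have h5 : l * (l⁻¹ * z' * l) = l * z' := by rw [hz'l]
    rw [← h5]; group
  -- `c = z' y'` inverts `l`
  have hodd := odd_prod hZM h1 hc h3 h4 hz'Z hz'N hy' hyN'
  set c := z' * y' with hcdef
  have hcl : c * l * c⁻¹ = l⁻¹ := by
    have h5 : c * l * c⁻¹ = z' * (y' * l * y'⁻¹) * z'⁻¹ := by rw [hcdef]; group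
    rw [h5, hyl]
    have h6 : z' * l⁻¹ = l⁻¹ * z' := by
      have h7 : l⁻¹ * (z' * l) * l⁻¹ = l⁻¹ * (l * z') * l⁻¹ := by rw [hz'y']
      have h8 : l⁻¹ * (z' * l) * l⁻¹ = l⁻¹ * z' := by group
      have h9 : l⁻¹ * (l * z') * l⁻¹ = z' * l⁻¹ := by group
      rw [h8, h9] at h7
      exact h7.symm
    rw [h6]; group
  have hl2 : l = l⁻¹ := by
    obtain ⟨k, hk⟩ := hodd
    have h5 : ∀ k : ℕ, c ^ (2 * k) * l * (c ^ (2 * k))⁻¹ = l := by
      intro k
      induction k with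
      | zero => simp
      | succ n ih =>
        have h6 : c ^ (2 * (n + 1)) * l * (c ^ (2 * (n + 1)))⁻¹ = c ^ (2 * n) * (c * (c * l * c⁻¹) * c⁻¹) * (c ^ (2 * n))⁻¹ := by
          rw [show 2 * (n + 1) = 2 * n + 1 + 1 by ring, pow_succ, pow_succ]; group
        have h7 : c * (c * l * c⁻¹) * c⁻¹ = l := by
          rw [hcl]
          have : c * l⁻¹ * c⁻¹ = (c * l * c⁻¹)⁻¹ := by group
          rw [this, hcl, inv_inv]
        rw [h6, h7, ih]
    have h6 : c ^ (2 * k + 1) * l * (c ^ (2 * k + 1))⁻¹ = l := by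
      rw [← hk, pow_orderOf_eq_one]; simp
    have h7 : c ^ (2 * k + 1) * l * (c ^ (2 * k + 1))⁻¹ = c * (c ^ (2 * k) * l * (c ^ (2 * k))⁻¹) * c⁻¹ := by
      rw [pow_succ']; group
    rw [h7, h5, hcl] at h6
    exact h6.symm
  by_contra hne
  have hl1 : l ≠ 1 := by
    intro h5
    apply hne
    have h6 : y' = y''⁻¹ := eq_inv_of_mul_eq_one_left h5
    rw [h6, hyi'']
  have hcomm : y' * y'' = y'' * y' := by
    have h5 : l⁻¹ = y'' * y' := by rw [hl, mul_inv_rev, hyi'', hyi']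
    rw [← h5, ← hl2]
  obtain ⟨m, hm, hmN⟩ := h2 y' hy'
  have hk1 : m * y' * m⁻¹ ∈ Z := hc y' hy' m hm
  have hk2 : m * y'' * m⁻¹ ∈ Z := hc y'' hy'' m hm
  have hcc : (m * y' * m⁻¹) * (m * y'' * m⁻¹) = (m * y'' * m⁻¹) * (m * y' * m⁻¹) := by
    have h5 : (m * y' * m⁻¹) * (m * y'' * m⁻¹) = m * (y' * y'') * m⁻¹ := by group
    have h6 : (m * y'' * m⁻¹) * (m * y' * m⁻¹) = m * (y'' * y') * m⁻¹ := by group
    rw [h5, h6, hcomm]
  have hk2N : m * y'' * m⁻¹ ∈ N := by
    apply h3 _ hk1 hmN _ (mul_mem (mul_mem hm hyM'') (inv_mem hm))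
    rw [← hcc, mul_inv_cancel_right]
    exact hmN
  have hmz : m * z' * m⁻¹ ∈ N := by
    apply h4 _ hk1 _ hk2 hmN hk2N hcc ?_ _ (mul_mem (mul_mem hm (hZM hz'Z)) (inv_mem hm))
    · have h5 : (m * y' * m⁻¹) * (m * y'' * m⁻¹) = m * l * m⁻¹ := by rw [hl]; group
      rw [h5]
      have h6 : m * z' * m⁻¹ * (m * l * m⁻¹) = m * (z' * l) * m⁻¹ := by group
      have h7 : (m * l * m⁻¹) * (m * z' * m⁻¹) = m * (l * z') * m⁻¹ := by group
      rw [h6, h7, hz'y']
    · intro h5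
      apply hne
      have h6 : m⁻¹ * (m * y' * m⁻¹) * m = m⁻¹ * (m * y'' * m⁻¹) * m := by rw [h5]
      have h7 : m⁻¹ * (m * y' * m⁻¹) * m = y' := by group
      have h8 : m⁻¹ * (m * y'' * m⁻¹) * m = y'' := by group
      rwa [h7, h8] at h6
  have hmN' : m ∈ N := h3 z' hz'Z hz'N m hm hmz
  apply hyN'
  have h5 : y' = m⁻¹ * (m * y' * m⁻¹) * m := by group
  rw [h5]
  exact mul_mem (mul_mem (inv_mem hmN') hmN) hmN'

include hNM hZM h1 hc h2 h3 h4 in
/-- (iii): few elements of `Z` in a coset -/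
theorem coset_lt {p : ℕ} (hp : p.Prime) (h5 : ∀ u ∈ N, orderOf u = p → ∀ m ∈ M, m * u * m⁻¹ ∈ N → m ∈ N)
    {z : G} (hz : z ∈ Z) (hzN : z ∈ N) (h6 : p ∣ (Subgroup.centralizer ({z} : Set G)).relIndex N)
    {y : G} (hy : y ∈ Z) (hyN : y ∉ N) :
    ({k : G | k ∈ Z ∧ y * k ∈ N}).ncard < ({k : G | k ∈ Z ∧ k ∈ N}).ncard := by
  have hMf : (M : Set G).Finite := Set.toFinite _
  have hNf : Finite N := Set.Finite.subset hMf hNM
  have hyM : y ∈ M := hZM hy
  have hyy := (h1 y hy).1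
  have hyi : y⁻¹ = y := inv_eq_of_mul_eq_one_left hyy
  have F : Fact p.Prime := ⟨hp⟩
  let D : Subgroup G := N ⊓ N.map (MulAut.conj y).toMonoidHom
  have hDN : D ≤ N := inf_le_left
  have hDf : Finite D := Set.Finite.subset (Set.toFinite (N : Set G)) hDN
  have hDy : ∀ d ∈ D, y * d * y⁻¹ ∈ N := by
    rintro d ⟨-, e, he, hed⟩
    have h7 : y * e * y⁻¹ = d := hed
    rw [← h7]
    have h8 : y * (y * e * y⁻¹) * y⁻¹ = (y * y) * e * (y * y)⁻¹ := by group
    rw [h8, hyy]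
    simpa using he
  have hpD : ¬ p ∣ Nat.card D := by
    intro hd
    obtain ⟨u, hu⟩ := exists_prime_orderOf_dvd_card' p hd
    apply hyN
    apply h5 (u : G) (hDN u.2) (by rw [Subgroup.orderOf_coe]; exact hu) y hyM
    exact hDy _ u.2
  have hpz : ¬ p ∣ (Subgroup.centralizer ({z} : Set G)).relIndex D := by
    intro hd
    exact hpD (hd.trans (relIndex_dvd_card _ _))
  let O : Subgroup G → Set G := fun K => {v : G | ∃ k ∈ K, k * z * k⁻¹ = v}
  have hOD : (O D).ncard = (Subgroup.centralizer ({z} : Set G)).relIndex D := ncard_orb D z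
  have hON : (O N).ncard = (Subgroup.centralizer ({z} : Set G)).relIndex N := ncard_orb N z
  have hsub : O D ⊆ O N := by
    rintro v ⟨k, hk, h⟩
    exact ⟨k, hDN hk, h⟩
  have hsub2 : O N ⊆ {k : G | k ∈ Z ∧ k ∈ N} := by
    rintro v ⟨k, hk, rfl⟩
    exact ⟨hc z hz k (hNM hk), mul_mem (mul_mem hk hzN) (inv_mem hk)⟩
  have hfin : ({k : G | k ∈ Z ∧ k ∈ N}).Finite := Set.Finite.subset (Set.toFinite (N : Set G)) (fun k hk => hk.2)
  have hONf : (O N).Finite := hfin.subset hsub2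
  have hle1 : (O D).ncard ≤ (O N).ncard := Set.ncard_le_ncard hsub hONf
  have hle2 : (O N).ncard ≤ ({k : G | k ∈ Z ∧ k ∈ N}).ncard := Set.ncard_le_ncard hsub2 hfin
  have hne : (O D).ncard ≠ (O N).ncard := by
    intro h
    rw [hOD, hON] at h
    rw [h] at hpz
    exact hpz h6
  have hJ : ({k : G | k ∈ Z ∧ y * k ∈ N}).ncard ≤ (O D).ncard := by
    refine Set.ncard_le_ncard_of_injOn (fun k => (y * k)⁻¹ * z * (y * k)) ?_ ?_ (hONf.subset hsub)
    · rintro k ⟨hk, hkN⟩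
      have hki : k⁻¹ = k := inv_eq_of_mul_eq_one_left (h1 k hk).1
      have hkD : (y * k)⁻¹ ∈ D := by
        refine mem_inf.mpr ⟨inv_mem hkN, ?_⟩
        refine ⟨y * k, hkN, ?_⟩
        change y * (y * k) * y⁻¹ = (y * k)⁻¹
        rw [mul_inv_rev, hki, hyi, ← mul_assoc y y k, hyy, one_mul]
      exact ⟨(y * k)⁻¹, hkD, by rw [inv_inv]⟩
    · rintro k ⟨hk, hkN⟩ k' ⟨hk', hkN'⟩ h
      exact inj hNM hZM h1 hc h2 h3 h4 hz hzN hy hyN hk hk' hkN hkN' h
  omega

end

open Classical in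
theorem count {M N : Subgroup G} [Finite M] (hNM : N ≤ M) (Z : Set G) (hZM : Z ⊆ M) {p : ℕ} (hp : p.Prime)
    (h1 : ∀ k ∈ Z, k * k = 1 ∧ k ≠ 1) (hc : ∀ k ∈ Z, ∀ m ∈ M, m * k * m⁻¹ ∈ Z)
    (h2 : ∀ k ∈ Z, ∃ m ∈ M, m * k * m⁻¹ ∈ N)
    (h3 : ∀ k ∈ Z, k ∈ N → ∀ m ∈ M, m * k * m⁻¹ ∈ N → m ∈ N)
    (h4 : ∀ k ∈ Z, ∀ l ∈ Z, k ∈ N → l ∈ N → k * l = l * k → k ≠ l → ∀ m ∈ M, m * (k * l) = k * l * m → m ∈ N)
    (h5 : ∀ u ∈ N, orderOf u = p → ∀ m ∈ M, m * u * m⁻¹ ∈ N → m ∈ N)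
    (h6 : ∃ z ∈ Z, z ∈ N ∧ p ∣ (Subgroup.centralizer {z}).relIndex N) : M ≤ N := by
  obtain ⟨z, hz, hzN, h6⟩ := h6
  have hMf : (M : Set G).Finite := Set.toFinite _
  have hNf : (N : Set G).Finite := hMf.subset hNM
  have hZf : Z.Finite := hMf.subset hZM
  let Mf : Finset G := hMf.toFinset
  let Nf : Finset G := hNf.toFinset
  let Zf : Finset G := hZf.toFinset
  have mM : ∀ x, x ∈ Mf ↔ x ∈ M := fun x => by simp [Mf]
  have mN : ∀ x, x ∈ Nf ↔ x ∈ N := fun x => by simp [Nf]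
  have mZ : ∀ x, x ∈ Zf ↔ x ∈ Z := fun x => by simp [Zf]
  let c : ℕ := (Zf.filter (fun k => k ∈ N)).card
  have hc0 : 0 < c := Finset.card_pos.mpr ⟨z, by rw [Finset.mem_filter, mZ]; exact ⟨hz, hzN⟩⟩
  -- first count
  have hA1 : ∀ m ∈ Mf, (Zf.filter (fun k => m⁻¹ * k * m ∈ N)).card = c := by
    intro m hm
    rw [mM] at hm
    apply Finset.card_nbij' (fun k => m⁻¹ * k * m) (fun k => m * k * m⁻¹)
    · intro k hk
      rw [Finset.mem_coe, Finset.mem_filter, mZ] at hk ⊢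
      refine ⟨?_, hk.2⟩
      have := hc k hk.1 m⁻¹ (inv_mem hm)
      rwa [inv_inv] at this
    · intro k hk
      rw [Finset.mem_coe, Finset.mem_filter, mZ] at hk ⊢
      refine ⟨hc k hk.1 m hm, ?_⟩
      have : m⁻¹ * (m * k * m⁻¹) * m = k := by group
      rw [this]; exact hk.2
    · intro k _
      change m * (m⁻¹ * k * m) * m⁻¹ = k
      group
    · intro k _
      change m⁻¹ * (m * k * m⁻¹) * m = k
      group
  have hA2 : ∀ k ∈ Zf, (Mf.filter (fun m => m⁻¹ * k * m ∈ N)).card = Nf.card := by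
    intro k hk
    rw [mZ] at hk
    obtain ⟨m, hm, hmk⟩ := h2 k hk
    have hk1 : m * k * m⁻¹ ∈ Z := hc k hk m hm
    apply Finset.card_nbij' (fun x => m * x) (fun n => m⁻¹ * n)
    · intro x hx
      rw [Finset.mem_coe, Finset.mem_filter, mM] at hx
      rw [Finset.mem_coe, mN]
      have h7 : (m * x)⁻¹ ∈ N := by
        apply h3 _ hk1 hmk _ (inv_mem (mul_mem hm hx.1))
        have h8 : (m * x)⁻¹ * (m * k * m⁻¹) * (m * x)⁻¹⁻¹ = x⁻¹ * k * x := by group
        rw [h8]; exact hx.2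
      have := inv_mem h7
      rwa [inv_inv] at this
    · intro n hn
      rw [Finset.mem_coe, mN] at hn
      rw [Finset.mem_coe, Finset.mem_filter, mM]
      refine ⟨mul_mem (inv_mem hm) (hNM hn), ?_⟩
      have h8 : (m⁻¹ * n)⁻¹ * k * (m⁻¹ * n) = n⁻¹ * (m * k * m⁻¹) * n := by group
      rw [h8]
      exact mul_mem (mul_mem (inv_mem hn) hmk) hn
    · intro x _
      change m⁻¹ * (m * x) = x
      group
    · intro x _
      change m * (m⁻¹ * x) = x
      group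
  have hA := Finset.sum_card_bipartiteAbove_eq_sum_card_bipartiteBelow (s := Mf) (t := Zf) (fun m k => m⁻¹ * k * m ∈ N)
  have hA3 : Mf.card * c = Zf.card * Nf.card := by
    have e1 : ∑ m ∈ Mf, (Zf.filter (fun k => m⁻¹ * k * m ∈ N)).card = Mf.card * c := by
      rw [Finset.sum_congr rfl hA1, Finset.sum_const, smul_eq_mul]
    have e2 : ∑ k ∈ Zf, (Mf.filter (fun m => m⁻¹ * k * m ∈ N)).card = Zf.card * Nf.card := by
      rw [Finset.sum_congr rfl hA2, Finset.sum_const, smul_eq_mul]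
    rw [← e1, ← e2]
    exact hA
  -- second count
  have hB2 : ∀ k ∈ Zf, (Mf.filter (fun m => m⁻¹ * k ∈ N)).card = Nf.card := by
    intro k hk
    rw [mZ] at hk
    have hkM := hZM hk
    apply Finset.card_nbij' (fun x => x⁻¹ * k) (fun n => k * n⁻¹)
    · intro x hx
      rw [Finset.mem_coe, Finset.mem_filter, mM] at hx
      rw [Finset.mem_coe, mN]
      exact hx.2
    · intro n hn
      rw [Finset.mem_coe, mN] at hn
      rw [Finset.mem_coe, Finset.mem_filter, mM]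
      refine ⟨mul_mem hkM (inv_mem (hNM hn)), ?_⟩
      have h8 : (k * n⁻¹)⁻¹ * k = n := by group
      rw [h8]; exact hn
    · intro x _
      change k * (x⁻¹ * k)⁻¹ = x
      group
    · intro x _
      change (k * x⁻¹)⁻¹ * k = x
      group
  have hB := Finset.sum_card_bipartiteAbove_eq_sum_card_bipartiteBelow (s := Mf) (t := Zf) (fun m k => m⁻¹ * k ∈ N)
  have hB1 : ∀ m ∈ Mf, (Zf.filter (fun k => m⁻¹ * k ∈ N)).card ≤ if m ∈ N then c else c - 1 := by
    intro m hm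
    rw [mM] at hm
    by_cases hmN : m ∈ N
    · rw [if_pos hmN]
      apply Finset.card_le_card
      intro k hk
      rw [Finset.mem_filter] at hk ⊢
      refine ⟨hk.1, ?_⟩
      have := mul_mem hmN hk.2
      simpa using this
    · rw [if_neg hmN]
      by_cases hem : (Zf.filter (fun k => m⁻¹ * k ∈ N)).Nonempty
      · obtain ⟨y, hy⟩ := hem
        rw [Finset.mem_filter, mZ] at hy
        obtain ⟨hyZ, hym⟩ := hy
        have hyi : y⁻¹ = y := inv_eq_of_mul_eq_one_left (h1 y hyZ).1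
        have hyN : y ∉ N := by
          intro h
          apply hmN
          have h7 := mul_mem h (inv_mem hym)
          simpa using h7
        have h7 := coset_lt hNM hZM h1 hc h2 h3 h4 hp h5 hz hzN h6 hyZ hyN
        have h8 : ({k : G | k ∈ Z ∧ k ∈ N}).ncard = c := by
          have : c = ((Zf.filter (fun k => k ∈ N) : Finset G) : Set G).ncard := (Set.ncard_coe_finset _).symm
          rw [this]
          congr 1
          ext k
          simp [Zf]
        have h9 : ({k : G | k ∈ Z ∧ y * k ∈ N}).ncard = (Zf.filter (fun k => m⁻¹ * k ∈ N)).card := by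
          rw [← Set.ncard_coe_finset]
          congr 1
          ext k
          simp only [Set.mem_setOf_eq, Finset.coe_filter, mZ]
          apply and_congr_right
          intro hk
          have e1 : m⁻¹ * k = (m⁻¹ * y) * (y * k) := by
            have : y * y = 1 := (h1 y hyZ).1
            rw [mul_assoc, ← mul_assoc y y k, this, one_mul]
          rw [e1]
          constructor
          · intro h; exact mul_mem hym h
          · intro h
            have := mul_mem (inv_mem hym) h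
            rwa [inv_mul_cancel_left] at this
        omega
      · rw [Finset.not_nonempty_iff_eq_empty] at hem
        rw [hem]; simp
  have hB3 : Zf.card * Nf.card ≤ Nf.card * c + (Mf.card - Nf.card) * (c - 1) := by
    have h7 : ∑ k ∈ Zf, (Mf.filter (fun m => m⁻¹ * k ∈ N)).card = Zf.card * Nf.card := by
      rw [Finset.sum_congr rfl hB2, Finset.sum_const, smul_eq_mul]
    have h8 : ∑ m ∈ Mf, (Zf.filter (fun k => m⁻¹ * k ∈ N)).card ≤ ∑ m ∈ Mf, (if m ∈ N then c else c - 1) :=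
      Finset.sum_le_sum hB1
    have h9 : ∑ m ∈ Mf, (if m ∈ N then c else c - 1) = Nf.card * c + (Mf.card - Nf.card) * (c - 1) := by
      rw [Finset.sum_ite, Finset.sum_const, Finset.sum_const, smul_eq_mul, smul_eq_mul]
      have e1 : Mf.filter (fun m => m ∈ N) = Nf := by
        ext x
        rw [Finset.mem_filter, mM, mN]
        exact ⟨fun h => h.2, fun h => ⟨hNM h, h⟩⟩
      have e2 : (Mf.filter (fun m => m ∉ N)).card = Mf.card - Nf.card := by
        have := Finset.card_filter_add_card_filter_not (s := Mf) (fun m => m ∈ N)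
        rw [e1] at this
        omega
      rw [e1, e2]
    rw [← h7, ← h9]
    have hB' : ∑ m ∈ Mf, (Zf.filter (fun k => m⁻¹ * k ∈ N)).card = ∑ k ∈ Zf, (Mf.filter (fun m => m⁻¹ * k ∈ N)).card := hB
    rw [← hB']
    exact h8
  have hle : Nf.card ≤ Mf.card := Finset.card_le_card (fun x hx => by rw [mM]; rw [mN] at hx; exact hNM hx)
  have hfinal : Mf.card ≤ Nf.card := by
    rw [← hA3] at hB3
    obtain ⟨c', hc'⟩ : ∃ c', c = c' + 1 := ⟨c - 1, by omega⟩
    rw [hc'] at hB3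
    simp only [Nat.add_sub_cancel] at hB3
    obtain ⟨d, hd⟩ := Nat.exists_eq_add_of_le hle
    rw [hd] at hB3 ⊢
    simp only [Nat.add_sub_cancel_left] at hB3
    nlinarith
  have heq : Nf = Mf := Finset.eq_of_subset_of_card_le (fun x hx => by rw [mM]; rw [mN] at hx; exact hNM hx) hfinal
  intro x hx
  rw [← mM, ← heq, mN] at hx
  exact hx

end Cfsg.Agent.Lib.TenW4_CNT
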