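import Cfsg.Agent.Lib.TenW40
import Cfsg.Agent.Lib.TenOO_L

/-!
# Piece MX of S5873: commuting with Siegel maps (helper45)
-/

set_option autoImplicit false
set_option linter.unusedSectionVars false
set_option linter.unusedVariables false

namespace Cfsg.Agent.Lib.TenW4_MX

open QuadraticMap Module Cfsg.Agent.Lib.Quad Cfsg.Agent.Lib.OrthMax Cfsg.Agent.Lib.OrthNd Cfsg.Agent.Lib.TenSLH94
  Cfsg.Agent.Lib.TenOO Cfsg.Agent.Lib.TenW4

section one

variable {F X : Type*} [Field F] [AddCommGroup X] [Module F X] {Q : QuadraticForm F X}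

theorem D_eq {a f : X} (s : X ≃ₗ[F] X) (hs : Sg Q a f s) (x : X) :
    s x - x = polar Q a x • f - (polar Q f x + Q f * polar Q a x) • a := by
  rw [hs.2.2.2.2 x, siegMap_apply, add_smul]; abel

theorem DD_eq {a f : X} (s : X ≃ₗ[F] X) (hs : Sg Q a f s) (x : X) :
    s (s x - x) - (s x - x) = -((2 * Q f * polar Q a x) • a) := by
  rw [D_eq s hs (s x - x), D_eq s hs x]
  obtain ⟨h1, h2, h3, h4, h5⟩ := hs
  have e1 : polar Q a a = 0 := by rw [polar_self', h1, mul_zero]
  have e2 : polar Q f f = 2 * Q f := polar_self' Q f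
  have e3 : polar Q f a = 0 := by rw [polar_comm, h3]
  simp only [polar_sub_right, polar_smul_right, smul_eq_mul, h3, e1, e2, e3, mul_zero, sub_zero, zero_smul, zero_sub, add_zero]
  rw [mul_comm (polar Q a x)]

/-- a map commuting with a Siegel map scales its centre -/
theorem comm1 (h2 : (2 : F) ≠ 0) {a f : X} {s k : X ≃ₗ[F] X} (hs : Sg Q a f s) (hk : ∀ x, k (s x) = s (k x)) (hn : ∃ x, polar Q a x = 1) :
    ∃ c : F, c ≠ 0 ∧ k a = c • a ∧ ∀ x, polar Q a (k x) = c * polar Q a x := by
  have key : ∀ x, polar Q a x • k a = polar Q a (k x) • a := by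
    intro x
    have e1 := DD_eq s hs x
    have e2 := DD_eq s hs (k x)
    have e3 : k (s (s x - x) - (s x - x)) = s (s (k x) - k x) - (s (k x) - k x) := by
      rw [map_sub, hk, map_sub, hk]
    rw [e1, e2, map_neg, map_smul, neg_inj, mul_smul (2 * Q f), mul_smul (2 * Q f)] at e3
    have h4 : (2 * Q f) ≠ 0 := mul_ne_zero h2 hs.2.2.2.1
    exact smul_right_injective X h4 e3
  obtain ⟨x0, hx0⟩ := hn
  have h1 := key x0
  rw [hx0, one_smul] at h1
  refine ⟨polar Q a (k x0), ?_, h1, fun x => ?_⟩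
  · intro h0
    rw [h0, zero_smul] at h1
    exact hs.2.1 (k.injective (by rw [h1, map_zero]))
  · have h3 := key x
    rw [h1, smul_smul] at h3
    have h5 : polar Q a x * polar Q a (k x0) = polar Q a (k x) := smul_left_injective F hs.2.1 h3
    rw [← h5, mul_comm]

/-- and it commutes with the nilpotent part -/
theorem comm2 (h2 : (2 : F) ≠ 0) {a f : X} {s k : X ≃ₗ[F] X} (hs : Sg Q a f s) (hk : ∀ x, k (s x) = s (k x)) (hn : ∃ x, polar Q a x = 1) (x : X) :
    k (polar Q a x • f - polar Q f x • a) = polar Q a (k x) • f - polar Q f (k x) • a := by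
  obtain ⟨c, hc, h1, h3⟩ := comm1 h2 hs hk hn
  have e1 := D_eq s hs x
  have e2 := D_eq s hs (k x)
  have e3 : k (s x - x) = s (k x) - k x := by rw [map_sub, hk]
  rw [e1, e2, add_smul, add_smul, ← sub_sub, ← sub_sub, map_sub, map_smul k (Q f * polar Q a x), h1, smul_smul, h3] at e3
  have e4 : Q f * polar Q a x * c = Q f * (c * polar Q a x) := by ring
  rw [e4] at e3
  rw [h3]
  exact sub_left_injective e3

/-- and with all Siegel maps of the line -/
theorem comm3 (h2 : (2 : F) ≠ 0) {a f : X} {s k : X ≃ₗ[F] X} (hs : Sg Q a f s) (hk : ∀ x, k (s x) = s (k x)) (hn : ∃ x, polar Q a x = 1) (t : F) (x : X) :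
    k (siegMap Q a (t • f) x) = siegMap Q a (t • f) (k x) := by
  obtain ⟨c, hc, h1, h3⟩ := comm1 h2 hs hk hn
  have h4 := comm2 h2 hs hk hn x
  have e : ∀ y, siegMap Q a (t • f) y = y + t • (polar Q a y • f - polar Q f y • a) - (t * t * Q f * polar Q a y) • a := by
    intro y
    rw [siegMap_apply, polar_smul_left, Q_smul, smul_eq_mul]
    module
  rw [e, e, map_sub, map_add, map_smul k t, h4, map_smul, h1, h3, smul_smul]
  congr 2
  ring

/-- centres of commuting Siegel maps are orthogonal -/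
theorem comm4 (h2 : (2 : F) ≠ 0) {a f a' f' : X} {s k : X ≃ₗ[F] X} (hs : Sg Q a f s) (hk : Sg Q a' f' k) (hc : ∀ x, k (s x) = s (k x)) (hn : ∃ x, polar Q a x = 1) :
    polar Q a a' = 0 := by
  obtain ⟨c, hc0, h1, h3⟩ := comm1 h2 hs hc hn
  by_contra hne
  have e1 : k a - a = _ := D_eq k hk a
  have ha' : polar Q a' a ≠ 0 := by rwa [polar_comm] at hne
  have e5 : polar Q a' (k a - a) = 0 := by
    rw [e1, polar_sub_right, polar_smul_right, polar_smul_right, hk.2.2.1, polar_self', hk.1]
    simp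
  rw [polar_sub_right, h1, polar_smul_right, smul_eq_mul, ← sub_one_mul] at e5
  have hc1 : c = 1 := by
    rcases mul_eq_zero.1 e5 with h | h
    · exact sub_eq_zero.1 h
    · exact absurd h ha'
  rw [h1, hc1, one_smul, sub_self] at e1
  have e6 : polar Q a' a • f' = (polar Q f' a + Q f' * polar Q a' a) • a' := (sub_eq_zero.1 e1.symm)
  have e7 : f' = ((polar Q a' a)⁻¹ * (polar Q f' a + Q f' * polar Q a' a)) • a' := by
    rw [mul_smul, ← e6, smul_smul, inv_mul_cancel₀ ha', one_smul]
  apply hk.2.2.2.1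
  rw [e7, Q_smul, hk.1, mul_zero]

/-- composition of Siegel maps -/
theorem sm_add {a y y' : X} (ha : Q a = 0) (hy : polar Q a y = 0) (hy' : polar Q a y' = 0) (x : X) :
    siegMap Q a y (siegMap Q a y' x) = siegMap Q a (y + y') x := by
  simp only [siegMap_apply, polar_add_right, polar_sub_right, polar_smul_right, polar_self', ha, hy, hy',
    polar_comm Q y a, Q_add, polar_add_left, smul_eq_mul, mul_zero, sub_zero, add_zero]
  simp only [add_smul, smul_add, add_mul]
  rw [mul_comm (polar Q a x) (polar Q y y')]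
  abel

theorem sm_zero (a x : X) : siegMap Q a 0 x = x := by
  simp [siegMap_apply]

theorem sm_a {a y : X} (ha : Q a = 0) (hy : polar Q a y = 0) (c : F) (x : X) :
    siegMap Q a (y + c • a) x = siegMap Q a y x := by
  rw [siegMap_apply, siegMap_apply, polar_add_left, polar_smul_left, Q_add, Q_smul, ha, polar_smul_right, polar_comm Q y a, hy,
    smul_eq_mul, smul_eq_mul]
  module

/-- conjugation -/
theorem sm_conj {g : X ≃ₗ[F] X} (hg : g ∈ O Q) (a y x : X) : g (siegMap Q a y x) = siegMap Q (g a) (g y) (g x) := by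
  rw [siegMap_apply, siegMap_apply, O_polar hg, O_polar hg, mem_O.1 hg]
  simp only [map_add, map_sub, map_smul]

end one

end Cfsg.Agent.Lib.TenW4_MX
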