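import Cfsg.Agent.Lib.TenW4_MXa

/-!
# Piece MX of S5873: pairs (helper45)
-/

set_option autoImplicit false
set_option linter.unusedSectionVars false
set_option linter.unusedVariables false

namespace Cfsg.Agent.Lib.TenW4_MX

open QuadraticMap Module Cfsg.Agent.Lib.Quad Cfsg.Agent.Lib.OrthMax Cfsg.Agent.Lib.OrthNd Cfsg.Agent.Lib.TenSLH94
  Cfsg.Agent.Lib.TenOO Cfsg.Agent.Lib.TenW4

variable {F E W : Type*} [Field F] [AddCommGroup E] [Module F E] [FiniteDimensional F E]
  [AddCommGroup W] [Module F W] [FiniteDimensional F W]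

theorem exd {X : Type*} [AddCommGroup X] [Module F X] {x : X} (hx : x ≠ 0) : ∃ β : Dual F X, β x = 1 := by
  have h : ¬ ∀ φ : Dual F X, φ x = 0 := fun h => hx ((Module.forall_dual_apply_eq_zero_iff F x).1 h)
  rw [not_forall] at h
  obtain ⟨φ, hφ⟩ := h
  exact ⟨(φ x)⁻¹ • φ, by rw [LinearMap.smul_apply, smul_eq_mul, inv_mul_cancel₀ hφ]⟩

/-- pairs up to scalars -/
theorem ac_inj (hE : ∃ a : E, a ≠ 0) (hW : ∃ w : W, w ≠ 0) {p p' : E ≃ₗ[F] E} {q q' : W ≃ₗ[F] W}
    (h : ac p q = ac p' q') : ∃ c : F, (∀ x, p x = c • p' x) ∧ ∀ w, q w = c • q' w := by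
  obtain ⟨a0, ha0⟩ := hE
  obtain ⟨w0, hw0⟩ := hW
  obtain ⟨β0, hβ0⟩ : ∃ β : Dual F W, β w0 = 1 := exd hw0
  -- p v (q⁻¹ w) = p' v (q'⁻¹ w)
  have h1 : ∀ (v : W →ₗ[F] E) (w : W), p'.symm (p (v w)) = v (q'.symm (q w)) := by
    intro v w
    have h2 := congrArg (fun g : (W →ₗ[F] E) ≃ₗ[F] (W →ₗ[F] E) => g v (q w)) h
    simp only [ac_apply, LinearEquiv.symm_apply_apply] at h2
    rw [h2, LinearEquiv.symm_apply_apply]
  have h3 : ∀ (a : E) (β : Dual F W) (w : W), β w • p'.symm (p a) = β (q'.symm (q w)) • a := by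
    intro a β w
    have := h1 (pt a β) w
    rw [pt_apply, pt_apply, map_smul, map_smul] at this
    exact this
  have h4 : ∀ a, p'.symm (p a) = β0 (q'.symm (q w0)) • a := by
    intro a
    have := h3 a β0 w0
    rwa [hβ0, one_smul] at this
  refine ⟨β0 (q'.symm (q w0)), fun x => ?_, fun w => ?_⟩
  · have := congrArg p' (h4 x)
    rwa [LinearEquiv.apply_symm_apply, map_smul] at this
  · have h5 : ∀ β : Dual F W, β (q'.symm (q w)) = β (β0 (q'.symm (q w0)) • w) := by
      intro β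
      have h6 := h3 a0 β w
      rw [h4, smul_smul] at h6
      have h7 : β w * β0 (q'.symm (q w0)) = β (q'.symm (q w)) := smul_left_injective F ha0 h6
      rw [← h7, map_smul, smul_eq_mul, mul_comm]
    have h8 : q'.symm (q w) = β0 (q'.symm (q w0)) • w := by
      by_contra hne
      obtain ⟨β, hβ⟩ := exd (F := F) (sub_ne_zero.2 hne)
      rw [map_sub, h5, sub_self] at hβ
      exact zero_ne_one hβ
    have := congrArg q' h8
    rwa [LinearEquiv.apply_symm_apply, map_smul] at this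

theorem det_smul_eq {X : Type*} [AddCommGroup X] [Module F X] [FiniteDimensional F X] {p p' : X ≃ₗ[F] X} {c : F} (h : ∀ x, p x = c • p' x) :
    LinearMap.det (p : X →ₗ[F] X) = c ^ finrank F X * LinearMap.det (p' : X →ₗ[F] X) := by
  have : (p : X →ₗ[F] X) = c • (p' : X →ₗ[F] X) := LinearMap.ext h
  rw [this, LinearMap.det_smul]

/-- commuting pairs -/
theorem pair_comm (hE3 : finrank F E = 3) (hW4 : finrank F W = 4) {p s : E ≃ₗ[F] E} {q x : W ≃ₗ[F] W}
    (h : ac p q * ac s x = ac s x * ac p q) : (∀ y, p (s y) = s (p y)) ∧ ∀ w, q (x w) = x (q w) := by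
  have hE : ∃ a : E, a ≠ 0 := by
    have : Nontrivial E := Module.nontrivial_of_finrank_pos (R := F) (by omega)
    exact exists_ne 0
  have hW : ∃ a : W, a ≠ 0 := by
    have : Nontrivial W := Module.nontrivial_of_finrank_pos (R := F) (by omega)
    exact exists_ne 0
  rw [pr_mul, pr_mul] at h
  obtain ⟨c, h1, h2⟩ := ac_inj hE hW h
  have d1 := det_smul_eq h1
  have d2 := det_smul_eq h2
  rw [hE3] at d1
  rw [hW4] at d2
  have m1 : LinearMap.det ((p * s : E ≃ₗ[F] E) : E →ₗ[F] E) = LinearMap.det ((s * p : E ≃ₗ[F] E) : E →ₗ[F] E) := by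
    have e1 : ((p * s : E ≃ₗ[F] E) : E →ₗ[F] E) = (p : E →ₗ[F] E) ∘ₗ (s : E →ₗ[F] E) := rfl
    have e2 : ((s * p : E ≃ₗ[F] E) : E →ₗ[F] E) = (s : E →ₗ[F] E) ∘ₗ (p : E →ₗ[F] E) := rfl
    rw [e1, e2, LinearMap.det_comp, LinearMap.det_comp, mul_comm]
  have m2 : LinearMap.det ((q * x : W ≃ₗ[F] W) : W →ₗ[F] W) = LinearMap.det ((x * q : W ≃ₗ[F] W) : W →ₗ[F] W) := by
    have e1 : ((q * x : W ≃ₗ[F] W) : W →ₗ[F] W) = (q : W →ₗ[F] W) ∘ₗ (x : W →ₗ[F] W) := rfl
    have e2 : ((x * q : W ≃ₗ[F] W) : W →ₗ[F] W) = (x : W →ₗ[F] W) ∘ₗ (q : W →ₗ[F] W) := rfl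
    rw [e1, e2, LinearMap.det_comp, LinearMap.det_comp, mul_comm]
  rw [m1] at d1
  rw [m2] at d2
  have n1 : LinearMap.det ((s * p : E ≃ₗ[F] E) : E →ₗ[F] E) ≠ 0 := (LinearEquiv.isUnit_det' (s * p)).ne_zero
  have n2 : LinearMap.det ((x * q : W ≃ₗ[F] W) : W →ₗ[F] W) ≠ 0 := (LinearEquiv.isUnit_det' (x * q)).ne_zero
  have c3 : c ^ 3 = 1 := by
    have := mul_right_cancel₀ n1 ((one_mul _).trans d1)
    exact this.symm
  have c4 : c ^ 4 = 1 := by
    have := mul_right_cancel₀ n2 ((one_mul _).trans d2)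
    exact this.symm
  have c1 : c = 1 := by
    have : c ^ 4 = c ^ 3 * c := by ring
    rw [c3, one_mul, c4] at this
    exact this.symm
  rw [c1] at h1 h2
  exact ⟨fun y => by simpa using h1 y, fun w => by simpa using h2 w⟩

/-- the two components of an isometry are similitudes with the same multiplier -/
theorem simil {QE : QuadraticForm F E} {QW : QuadraticForm F W} {Q : QuadraticForm F (W →ₗ[F] E)}
    (ndE : Nd QE) (ndW : Nd QW) (hE : ∃ a : E, a ≠ 0) (hW : ∃ w : W, w ≠ 0)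
    (pol : ∀ (a : E) (b : W) (v : W →ₗ[F] E), polar Q (tb QW a b) v = polar QE (v b) a)
    {p : E ≃ₗ[F] E} {q : W ≃ₗ[F] W} (hg : ac p q ∈ O Q) :
    ∃ c : F, c ≠ 0 ∧ (∀ y y', c * polar QE (p y) (p y') = polar QE y y') ∧
      ∀ w w', c * polar QW (q w) (q w') = polar QW w w' := by
  have A : ∀ w0 : W, ∃ w1 : W, (∀ w, polar QW w1 (q w) = polar QW w0 w) ∧
      ∀ (v : W →ₗ[F] E) (a0 : E), polar QE (p (v (q.symm w1))) (p a0) = polar QE (v w0) a0 := by
    intro w0
    obtain ⟨w1, hw1⟩ : ∃ w1 : W, ∀ w, polar QW w1 w = polar QW w0 (q.symm w) := by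
      have hb : (polarBilin QW).Nondegenerate := ndW
      obtain ⟨w1, h⟩ := (LinearMap.BilinForm.toDual (polarBilin QW) hb).surjective
        ((polarBilin QW w0) ∘ₗ (q.symm : W →ₗ[F] W))
      refine ⟨w1, fun w => ?_⟩
      have := congrArg (fun φ : Dual F W => φ w) h
      simpa [LinearMap.BilinForm.toDual_def] using this
    refine ⟨w1, fun w => by rw [hw1, LinearEquiv.symm_apply_apply], fun v a0 => ?_⟩
    have e1 : ac p q (tb QW a0 w0) = tb QW (p a0) w1 := by
      ext w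
      rw [ac_apply, tb_apply, tb_apply, map_smul, hw1]
    have e2 := O_polar hg (tb QW a0 w0) v
    rw [e1, pol, pol, ac_apply] at e2
    exact e2
  -- w1 is proportional to q w0
  have B : ∀ w0 : W, w0 ≠ 0 → ∃ c : F, (∀ w, c * polar QW (q w0) (q w) = polar QW w0 w) ∧
      ∀ (y a0 : E), c * polar QE (p y) (p a0) = polar QE y a0 := by
    intro w0 hw0
    obtain ⟨w1, h1, h3⟩ := A w0
    have h4 : ∃ c : F, q.symm w1 = c • w0 := by
      by_contra hne
      obtain ⟨β, hβ0, hβ1⟩ : ∃ β : Dual F W, β w0 = 0 ∧ β (q.symm w1) = 1 := by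
        have hns : q.symm w1 ∉ Submodule.span F {w0} := by
          intro hm
          obtain ⟨c, hc⟩ := Submodule.mem_span_singleton.1 hm
          exact hne ⟨c, hc.symm⟩
        obtain ⟨β, h5, h6⟩ := Submodule.exists_dual_map_eq_bot_of_notMem hns inferInstance
        refine ⟨(β (q.symm w1))⁻¹ • β, ?_, ?_⟩
        · have h7 : β w0 ∈ (Submodule.span F {w0}).map β := Submodule.mem_map_of_mem (Submodule.mem_span_singleton_self w0)
          rw [h6] at h7
          rw [LinearMap.smul_apply, (Submodule.mem_bot F).1 h7, smul_zero]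
        · rw [LinearMap.smul_apply, smul_eq_mul, inv_mul_cancel₀ h5]
      obtain ⟨a, ha⟩ := hE
      apply ha
      apply p.injective
      rw [map_zero]
      apply ndE.eq_zero
      intro y
      have h5 := h3 (pt a β) (p.symm y)
      rw [pt_apply, pt_apply, hβ0, hβ1, one_smul, zero_smul, LinearEquiv.apply_symm_apply] at h5
      rw [h5]
      simp
    obtain ⟨c, hc⟩ := h4
    refine ⟨c, fun w => ?_, fun y a0 => ?_⟩
    · have h5 : w1 = c • q w0 := by
        rw [← map_smul, ← hc, LinearEquiv.apply_symm_apply]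
      rw [← h1 w, h5, polar_smul_left, smul_eq_mul]
    · obtain ⟨β, hβ⟩ := exd (F := F) hw0
      have h5 := h3 (pt y β) a0
      rw [hc, map_smul, map_smul, pt_apply, hβ, one_smul, polar_smul_left, smul_eq_mul] at h5
      exact h5
  obtain ⟨a, ha⟩ := hE
  obtain ⟨y, hy⟩ : ∃ y, polar QE a y ≠ 0 := by
    by_contra hh
    rw [not_exists] at hh
    simp only [not_not] at hh
    exact ha (ndE.eq_zero hh)
  obtain ⟨w0, hw0⟩ := hW
  obtain ⟨c, hc1, hc2⟩ := B w0 hw0
  refine ⟨c, ?_, hc2, fun w w' => ?_⟩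
  · rintro rfl
    have := hc2 a y
    rw [zero_mul] at this
    exact hy this.symm
  · rcases eq_or_ne w 0 with rfl | hw
    · rw [map_zero, polar_zero_left, polar_zero_left, mul_zero]
    · obtain ⟨c', hc1', hc2'⟩ := B w hw
      have h6 : c' = c := by
        have h7 := hc2' a y
        rw [← hc2 a y] at h7
        refine mul_right_cancel₀ ?_ h7
        intro h0
        have := hc2 a y
        rw [h0, mul_zero] at this
        exact hy this.symm
      rw [← h6]
      exact hc1' w'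

end Cfsg.Agent.Lib.TenW4_MX
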