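import Cfsg.Agent.Lib.TenW40

/-!
# Pairs of `ℓ`-power order (helper32)
-/

set_option autoImplicit false
set_option linter.unusedSectionVars false
set_option linter.unusedVariables false

namespace Cfsg.Agent.Lib.TenW4_PN

open QuadraticMap Module Cfsg.Agent.Lib.Quad Cfsg.Agent.Lib.OrthMax Cfsg.Agent.Lib.OrthNd Cfsg.Agent.Lib.TenSLH94
  Cfsg.Agent.Lib.TenOO Cfsg.Agent.Lib.TenW4

variable {F E W : Type*} [Field F] [AddCommGroup E] [Module F E] [FiniteDimensional F E]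
  [AddCommGroup W] [Module F W] [FiniteDimensional F W] [Finite F]
  {QE : QuadraticForm F E} {QW : QuadraticForm F W} {Q : QuadraticForm F (W →ₗ[F] E)}
  {M : Subgroup ((W →ₗ[F] E) ≃ₗ[F] (W →ₗ[F] E))} {ℓ : ℕ}

/-- totally singular subspaces of `E` have dimension at most one -/
theorem hminE (T : T4 QE QW Q M) (x y : E) (hx : QE x = 0) (hy : QE y = 0) (hxy : polar QE x y = 0) (hx0 : x ≠ 0) :
    ∃ c : F, y = c • x := by
  by_contra hcon
  push Not at hcon
  have hli : LinearIndependent F ![x, y] := by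
    rw [LinearIndependent.pair_iff' hx0]
    intro a h
    exact hcon a h.symm
  have h1 := finrank_span_eq_card hli
  rw [Fintype.card_fin] at h1
  have hr : Set.range ![x, y] = {x, y} := by
    simp only [Matrix.range_cons, Matrix.range_empty, Set.union_empty]
    exact (Set.insert_eq x {y}).symm
  rw [hr] at h1
  have h3 := T.ndE.finrank_add_finrank_perp (Submodule.span F {x, y})
  have h4 : Submodule.span F {x, y} ≤ perp QE (Submodule.span F {x, y}) := by
    rw [Submodule.span_le]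
    intro z hz
    show z ∈ perp QE (Submodule.span F {x, y})
    rw [mem_perp_span]
    intro w hw
    have hxx : polar QE x x = 0 := by rw [polar_self', hx, mul_zero]
    have hyy : polar QE y y = 0 := by rw [polar_self', hy, mul_zero]
    have hyx : polar QE y x = 0 := by rw [polar_comm]; exact hxy
    rcases hz with rfl | hz
    · rcases hw with rfl | hw
      · exact hxx
      · rw [Set.mem_singleton_iff] at hw; rw [hw]; exact hyx
    · rw [Set.mem_singleton_iff] at hz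
      rw [hz]
      rcases hw with rfl | hw
      · exact hxy
      · rw [Set.mem_singleton_iff] at hw; rw [hw]; exact hyy
  have h5 := Submodule.finrank_mono h4
  have h6 := T.hE3
  omega

theorem exE (T : T4 QE QW Q M) : ∃ a a' : E, a ≠ 0 ∧ polar QE a a' = 1 := by
  have : Nontrivial E := Module.finrank_pos_iff (R := F).1 (by have := T.hE; omega)
  obtain ⟨a, ha⟩ := exists_ne (0 : E)
  obtain ⟨a', h⟩ := T.ndE.exists_polar_one' ha
  exact ⟨a, a', ha, h⟩

theorem exW (T : T4 QE QW Q M) : ∃ a a' : W, a ≠ 0 ∧ polar QW a a' = 1 := by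
  have : Nontrivial W := Module.finrank_pos_iff (R := F).1 (by have := T.hW; omega)
  obtain ⟨a, ha⟩ := exists_ne (0 : W)
  obtain ⟨a', h⟩ := T.ndW.exists_polar_one' ha
  exact ⟨a, a', ha, h⟩

theorem eq_of_polar {X : Type*} [AddCommGroup X] [Module F X] {Q₁ : QuadraticForm F X} (hQ : Nd Q₁) {x y : X}
    (h : ∀ z, polar Q₁ z x = polar Q₁ z y) : x = y := by
  rw [← sub_eq_zero]
  apply hQ.eq_zero
  intro z
  rw [polar_comm, polar_sub_right, h z, sub_self]

/-- the two factors of an isometric pair are similitudes with the same multiplier -/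
theorem simil (T : T4 QE QW Q M) {p : E ≃ₗ[F] E} {q : W ≃ₗ[F] W} (h : ac p q ∈ M) :
    ∃ m : F, m ≠ 0 ∧ (∀ x y, polar QE (p x) (p y) = m * polar QE x y) ∧
      ∀ x y, polar QW (q x) (q y) = m * polar QW x y := by
  have hR : ∀ b : W, ∃ b' : W, ∀ w, polar QW b' w = polar QW b (q.symm w) := fun b =>
    ⟨(LinearMap.BilinForm.toDual (polarBilin QW) T.ndW).symm (polarBilin QW b ∘ₗ (q.symm : W →ₗ[F] W)), fun w =>
      LinearMap.BilinForm.apply_toDual_symm_apply (B := polarBilin QW) (hB := T.ndW) _ w⟩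
  choose R hR using hR
  have hu : ∀ a b, ac p q (tb QW a b) = tb QW (p a) (R b) := by
    intro a b
    apply LinearMap.ext
    intro w
    rw [ac_apply, tb_apply, tb_apply, hR, map_smul]
  have key : ∀ a a' : E, ∀ b b' : W, polar QW (R b') (R b) * polar QE (p a') (p a) = polar QW b' b * polar QE a' a := by
    intro a a' b b'
    have h1 := O_polar (T.hM h) (tb QW a b) (tb QW a' b')
    rw [hu, hu, T.pol, T.pol, tb_apply, tb_apply, polar_smul_left, polar_smul_left, smul_eq_mul, smul_eq_mul] at h1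
    exact h1
  obtain ⟨a₀, a₁, ha0, ha⟩ := exE T
  obtain ⟨b₀, b₁, hb0, hb⟩ := exW T
  set m := polar QE (p a₀) (p a₁) with hm
  set n := polar QW (R b₀) (R b₁) with hn
  have hnm : n * m = 1 := by
    have := key a₁ a₀ b₁ b₀
    rw [← hm, ← hn, ha, hb, mul_one] at this
    exact this
  have hm0 : m ≠ 0 := right_ne_zero_of_mul_eq_one hnm
  have hn0 : n ≠ 0 := left_ne_zero_of_mul_eq_one hnm
  have hmn : m * n = 1 := by rw [mul_comm]; exact hnm
  refine ⟨m, hm0, ?_, ?_⟩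
  · intro x y
    have := key y x b₁ b₀
    rw [← hn, hb, one_mul] at this
    rw [← this, ← mul_assoc, hmn, one_mul]
  · have h1 : ∀ b' b, polar QW (R b') (R b) = n * polar QW b' b := by
      intro b' b
      have := key a₁ a₀ b b'
      rw [← hm, ha, mul_one] at this
      rw [← this, mul_comm, mul_assoc, hmn, mul_one]
    have h2 : ∀ b, R b = n • q b := by
      intro b
      have h3 : q.symm (R b) = n • b := by
        apply eq_of_polar T.ndW
        intro z
        rw [← hR z (R b), h1, polar_smul_right, smul_eq_mul]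
      rw [← map_smul, ← h3, q.apply_symm_apply]
    intro x y
    have h4 := h1 x y
    rw [h2, h2, polar_smul_left, polar_smul_right, smul_eq_mul, smul_eq_mul] at h4
    have h5 : n * polar QW (q x) (q y) = polar QW x y := mul_left_cancel₀ hn0 h4
    rw [← h5, ← mul_assoc, hmn, one_mul]

theorem scal (T : T4 QE QW Q M) {p : E ≃ₗ[F] E} {q : W ≃ₗ[F] W} (h : ac p q = 1) :
    ∃ c : F, c ≠ 0 ∧ (∀ x, p x = c • x) ∧ ∀ w, q w = c • w := by
  obtain ⟨a₀, a₁, ha0, ha⟩ := exE T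
  obtain ⟨b₀, b₁, hb0, hb⟩ := exW T
  have h1 : ∀ a b w, polar QW b (q.symm w) • p a = polar QW b w • a := by
    intro a b w
    have := LinearMap.congr_fun (LinearEquiv.congr_fun h (tb QW a b)) w
    rw [ac_apply, tb_apply, map_smul] at this
    exact this
  set c' := polar QW b₀ (q.symm b₁) with hc'
  have h2 : ∀ a, c' • p a = a := fun a => by rw [hc', h1, hb, one_smul]
  have hc0 : c' ≠ 0 := by
    intro h0
    apply ha0
    rw [← h2 a₀, h0, zero_smul]
  have h3 : ∀ a, p a = c'⁻¹ • a := fun a => by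
    nth_rewrite 2 [← h2 a]
    rw [smul_smul, inv_mul_cancel₀ hc0, one_smul]
  refine ⟨c'⁻¹, inv_ne_zero hc0, h3, fun w => ?_⟩
  have h4 : c'⁻¹ • q.symm (q w) = q w := by
    apply eq_of_polar T.ndW
    intro z
    have h5 := h1 a₀ z (q w)
    rw [h3, smul_smul] at h5
    have h6 := smul_left_injective F ha0 h5
    rw [polar_smul_right, smul_eq_mul, mul_comm]
    exact h6
  rw [q.symm_apply_apply] at h4
  exact h4.symm

theorem frob_inj (hℓ : ℓ.Prime) [CharP F ℓ] (k : ℕ) : Function.Injective (fun x : F => x ^ ℓ ^ k) := by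
  haveI : Fact ℓ.Prime := ⟨hℓ⟩
  intro x y h
  exact (iterateFrobenius F ℓ k).injective (by simpa [iterateFrobenius_def] using h)

theorem mem_O_of_polar {X : Type*} [AddCommGroup X] [Module F X] {Q₁ : QuadraticForm F X} (h2 : (2 : F) ≠ 0)
    {g : X ≃ₗ[F] X} (h : ∀ x y, polar Q₁ (g x) (g y) = polar Q₁ x y) : g ∈ O Q₁ := by
  intro x
  have := h x x
  rw [polar_self', polar_self'] at this
  exact mul_left_cancel₀ h2 this

theorem pow_smul_eq {X : Type*} [AddCommGroup X] [Module F X] {p p₁ : X ≃ₗ[F] X} {d : F} (h : ∀ x, p₁ x = d • p x)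
    (n : ℕ) : ∀ x, (p₁ ^ n) x = d ^ n • (p ^ n) x := by
  induction n with
  | zero => intro x; simp
  | succ n ih =>
    intro x
    rw [pow_succ p₁, LinearEquiv.mul_apply, ih, h, map_smul, smul_smul, ← pow_succ, pow_succ p, LinearEquiv.mul_apply]

/-- the normal form -/
theorem norm' (T : T4 QE QW Q M) (hℓ : ℓ.Prime) [CharP F ℓ] {u} (hu : u ∈ NN M) (ho : ∃ k : ℕ, u ^ (ℓ ^ k) = 1) :
    ∃ (p : E ≃ₗ[F] E) (q : W ≃ₗ[F] W), u = ac p q ∧ p ∈ O QE ∧ q ∈ O QW ∧ (∃ k : ℕ, p ^ (ℓ ^ k) = 1) ∧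
      ∃ k : ℕ, q ^ (ℓ ^ k) = 1 := by
  obtain ⟨huM, p, q, rfl⟩ := hu
  obtain ⟨k, hk⟩ := ho
  rw [pr_pow] at hk
  obtain ⟨c, hc0, hcp, hcq⟩ := scal T hk
  obtain ⟨d, hd⟩ := (Finite.injective_iff_surjective.1 (frob_inj (F := F) hℓ k)) c
  have hd : d ^ ℓ ^ k = c := hd
  have hn0 : ℓ ^ k ≠ 0 := pow_ne_zero _ hℓ.ne_zero
  have hd0 : d ≠ 0 := by
    rintro rfl
    rw [zero_pow hn0] at hd
    exact hc0 hd.symm
  let p₁ : E ≃ₗ[F] E := p.trans (LinearEquiv.smulOfNeZero F E d⁻¹ (inv_ne_zero hd0))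
  let q₁ : W ≃ₗ[F] W := q.trans (LinearEquiv.smulOfNeZero F W d⁻¹ (inv_ne_zero hd0))
  have hp₁ : ∀ x, p₁ x = d⁻¹ • p x := fun x => rfl
  have hq₁ : ∀ x, q₁ x = d⁻¹ • q x := fun x => rfl
  have hq₁s : ∀ x, q₁.symm x = d • q.symm x := by
    intro x
    rw [LinearEquiv.symm_apply_eq, hq₁, map_smul, q.apply_symm_apply, smul_smul, inv_mul_cancel₀ hd0, one_smul]
  have hac : ac p₁ q₁ = ac p q := by
    apply LinearEquiv.ext
    intro v
    apply LinearMap.ext
    intro w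
    rw [ac_apply, ac_apply, hp₁, hq₁s, map_smul, map_smul, smul_smul, inv_mul_cancel₀ hd0, one_smul]
  have hdn : d⁻¹ ^ ℓ ^ k * c = 1 := by
    rw [inv_pow, hd, inv_mul_cancel₀ hc0]
  have hpn : p₁ ^ ℓ ^ k = 1 := by
    apply LinearEquiv.ext
    intro x
    rw [pow_smul_eq hp₁, hcp, smul_smul, hdn, one_smul]; rfl
  have hqn : q₁ ^ ℓ ^ k = 1 := by
    apply LinearEquiv.ext
    intro x
    rw [pow_smul_eq hq₁, hcq, smul_smul, hdn, one_smul]; rfl
  obtain ⟨m, hm0, hmE, hmW⟩ := simil T (p := p₁) (q := q₁) (by rw [hac]; exact huM)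
  have hmn : ∀ n : ℕ, ∀ x y, polar QE ((p₁ ^ n) x) ((p₁ ^ n) y) = m ^ n * polar QE x y := by
    intro n
    induction n with
    | zero => intro x y; simp
    | succ n ih =>
      intro x y
      rw [pow_succ, LinearEquiv.mul_apply, LinearEquiv.mul_apply, ih, hmE, ← mul_assoc, ← pow_succ]
  have hm1 : m = 1 := by
    obtain ⟨a₀, a₁, ha0, ha⟩ := exE T
    have h := hmn (ℓ ^ k) a₀ a₁
    rw [hpn] at h
    have h' : polar QE a₀ a₁ = m ^ ℓ ^ k * polar QE a₀ a₁ := h
    rw [ha, mul_one] at h'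
    exact frob_inj (F := F) hℓ k (by show m ^ ℓ ^ k = 1 ^ ℓ ^ k; rw [one_pow]; exact h'.symm)
  rw [hm1] at hmE hmW
  exact ⟨p₁, q₁, hac.symm, mem_O_of_polar T.h2 (fun x y => by rw [hmE, one_mul]),
    mem_O_of_polar T.h2 (fun x y => by rw [hmW, one_mul]), ⟨k, hpn⟩, ⟨k, hqn⟩⟩

/-- `pnf` with the unipotent classification as a hypothesis -/
theorem pnf_of (T : T4 QE QW Q M) (hℓ : ℓ.Prime) [CharP F ℓ]
    (hSE : ∀ g ∈ O QE, (∃ k : ℕ, g ^ (ℓ ^ k) = 1) → g ≠ 1 → ∃ a f, Sg QE a f g)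
    (hSW : ∀ g ∈ O QW, (∃ k : ℕ, g ^ (ℓ ^ k) = 1) → g ≠ 1 → ∃ a f, Sg QW a f g)
    {u} (hu : u ∈ NN M) (ho : ∃ k : ℕ, u ^ (ℓ ^ k) = 1) :
    ∃ (p : E ≃ₗ[F] E) (q : W ≃ₗ[F] W), u = ac p q ∧ (p = 1 ∨ ∃ a f, Sg QE a f p) ∧ (q = 1 ∨ ∃ b e, Sg QW b e q) := by
  obtain ⟨p, q, huq, hp, hq, hpk, hqk⟩ := norm' T hℓ hu ho
  refine ⟨p, q, huq, ?_, ?_⟩
  · by_cases h : p = 1
    · exact Or.inl h
    · exact Or.inr (hSE p hp hpk h)
  · by_cases h : q = 1
    · exact Or.inl h
    · exact Or.inr (hSW q hq hqk h)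

end Cfsg.Agent.Lib.TenW4_PN
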