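import Mathlib

/-!
# Tensor products of bilinear forms (helper14)
-/

set_option autoImplicit false

namespace Cfsg.Agent.Lib.TensorBilin

open Module TensorProduct LinearMap

variable {F U W : Type*} [Field F] [AddCommGroup U] [Module F U] [FiniteDimensional F U]
  [AddCommGroup W] [Module F W] [FiniteDimensional F W]

theorem tmul_eq (B₁ : LinearMap.BilinForm F U) (B₂ : LinearMap.BilinForm F W) :
    (B₁.tmul B₂ : LinearMap.BilinForm F (U ⊗[F] W)) = TensorProduct.dualDistrib F U W ∘ₗ TensorProduct.map B₁ B₂ := by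
  ext u w u' w'
  simp [mul_comm]

theorem nondeg_tmul {B₁ : LinearMap.BilinForm F U} {B₂ : LinearMap.BilinForm F W} (h₁ : B₁.Nondegenerate)
    (h₂ : B₂.Nondegenerate) (hs : (B₁.tmul B₂ : LinearMap.BilinForm F (U ⊗[F] W)).IsSymm) :
    (B₁.tmul B₂ : LinearMap.BilinForm F (U ⊗[F] W)).Nondegenerate := by
  rw [hs.isRefl.nondegenerate_iff_separatingLeft, LinearMap.separatingLeft_iff_ker_eq_bot, LinearMap.ker_eq_bot, tmul_eq]
  have h3 : (TensorProduct.map B₁ B₂ : U ⊗[F] W →ₗ[F] _) = (TensorProduct.congr (B₁.toDual h₁) (B₂.toDual h₂)).toLinearMap := by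
    ext u w
    rfl
  have h4 : (TensorProduct.dualDistrib F U W : _ →ₗ[F] _) = (TensorProduct.dualDistribEquiv F U W).toLinearMap := by
    ext f g u w
    rfl
  rw [h3, h4]
  rw [LinearMap.coe_comp]
  exact (LinearEquiv.injective _).comp (LinearEquiv.injective _)

/-- `L ⊗ W` -/
noncomputable def leftSub (L : Submodule F U) (W : Type*) [AddCommGroup W] [Module F W] : Submodule F (U ⊗[F] W) :=
  LinearMap.range (LinearMap.rTensor W L.subtype)

theorem finrank_leftSub (L : Submodule F U) : finrank F (leftSub L W) = finrank F L * finrank F W := by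
  rw [leftSub, LinearMap.finrank_range_of_inj, Module.finrank_tensorProduct]
  exact Module.Flat.rTensor_preserves_injective_linearMap _ L.subtype_injective

omit [FiniteDimensional F U] [FiniteDimensional F W] in
theorem leftSub_iso (B₁ : LinearMap.BilinForm F U) (B₂ : LinearMap.BilinForm F W) (L : Submodule F U)
    (h : ∀ x ∈ L, ∀ y ∈ L, B₁ x y = 0) : ∀ x ∈ leftSub L W, ∀ y ∈ leftSub L W, (B₁.tmul B₂) x y = 0 := by
  rintro _ ⟨x, rfl⟩ _ ⟨y, rfl⟩
  induction x using TensorProduct.induction_on with
  | zero => simp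
  | add a b ha hb => rw [map_add, map_add, LinearMap.add_apply, ha, hb, add_zero]
  | tmul u w =>
    induction y using TensorProduct.induction_on with
    | zero => simp
    | add a b ha hb => rw [map_add, map_add, ha, hb, add_zero]
    | tmul u' w' =>
      simp [h u u.2 u' u'.2]

end Cfsg.Agent.Lib.TensorBilin
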