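import Mathlib
import Cfsg.Agent.Lib.TensorBilin
import Cfsg.Agent.Lib.SymBasis

/-!
# Totally isotropic subspaces of tensor products of symmetric forms over finite fields (helper14)
-/

set_option autoImplicit false

namespace Cfsg.Agent.Lib.TensorBilin

open Module TensorProduct LinearMap

variable {F U W : Type*} [Field F] [AddCommGroup U] [Module F U]
  [AddCommGroup W] [Module F W]

theorem tmul_apply (B₁ : LinearMap.BilinForm F U) (B₂ : LinearMap.BilinForm F W) (u u' : U) (w w' : W) :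
    (B₁.tmul B₂) (u ⊗ₜ[F] w) (u' ⊗ₜ[F] w') = B₁ u u' * B₂ w w' := by
  rw [LinearMap.BilinForm.tensorDistrib_tmul, smul_eq_mul, mul_comm]

theorem exists_block [Finite F] (h2 : (2 : F) ≠ 0) (B₁ : LinearMap.BilinForm F U) (B₂ : LinearMap.BilinForm F W)
    {k l : ℕ} (e : Fin k → Fin 2 → U) (f : Fin l → Fin 2 → W) (α : Fin k → Fin 2 → F) (β : Fin l → Fin 2 → F)
    (hα : ∀ i s, α i s ≠ 0) (hβ : ∀ i s, β i s ≠ 0)
    (he : ∀ i s i' s', B₁ (e i s) (e i' s') = if i = i' ∧ s = s' then α i s else 0)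
    (hf : ∀ i s i' s', B₂ (f i s) (f i' s') = if i = i' ∧ s = s' then β i s else 0) :
    ∃ X : Submodule F (U ⊗[F] W), finrank F X = 2 * k * l ∧ (∀ x ∈ X, ∀ y ∈ X, (B₁.tmul B₂) x y = 0) ∧
      ∀ w : W, (∀ j s, B₂ (f j s) w = 0) → ∀ u : U, ∀ x ∈ X, (B₁.tmul B₂) x (u ⊗ₜ w) = 0 := by
  classical
  have hex : ∀ (i : Fin k) (j : Fin l), ∃ z : F × F, α i 0 * β j 1 * z.1 ^ 2 + α i 1 * β j 0 * z.2 ^ 2 = -(α i 0 * β j 0) := by
    intro i j
    obtain ⟨x, y, h⟩ := SymBasis.universal h2 (mul_ne_zero (hα i 0) (hβ j 1)) (mul_ne_zero (hα i 1) (hβ j 0))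
      (-(α i 0 * β j 0))
    exact ⟨(x, y), h⟩
  choose z hz using hex
  let v : (Fin k × Fin l) × Fin 2 → U ⊗[F] W := fun p =>
    ![e p.1.1 0 ⊗ₜ f p.1.2 0 + (z p.1.1 p.1.2).1 • e p.1.1 0 ⊗ₜ f p.1.2 1 + (z p.1.1 p.1.2).2 • e p.1.1 1 ⊗ₜ f p.1.2 0,
      (α p.1.1 0 * β p.1.2 0) • e p.1.1 1 ⊗ₜ f p.1.2 1 - (α p.1.1 1 * β p.1.2 0 * (z p.1.1 p.1.2).2) • e p.1.1 0 ⊗ₜ f p.1.2 1 +
        (α p.1.1 0 * β p.1.2 1 * (z p.1.1 p.1.2).1) • e p.1.1 1 ⊗ₜ f p.1.2 0] p.2
  have hv0 : ∀ i j, v ((i, j), 0) = e i 0 ⊗ₜ f j 0 + (z i j).1 • e i 0 ⊗ₜ f j 1 + (z i j).2 • e i 1 ⊗ₜ f j 0 :=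
    fun _ _ => rfl
  have hv1 : ∀ i j, v ((i, j), 1) = (α i 0 * β j 0) • e i 1 ⊗ₜ f j 1 - (α i 1 * β j 0 * (z i j).2) • e i 0 ⊗ₜ f j 1 +
        (α i 0 * β j 1 * (z i j).1) • e i 1 ⊗ₜ f j 0 := fun _ _ => rfl
  -- isotropy
  have hiso : ∀ p q, (B₁.tmul B₂) (v p) (v q) = 0 := by
    rintro ⟨⟨i, j⟩, s⟩ ⟨⟨i', j'⟩, s'⟩
    by_cases hi : i = i'
    · by_cases hj : j = j'
      · subst hi hj
        have h3 := hz i j
        fin_cases s <;> fin_cases s' <;>
          simp only [Fin.zero_eta, Fin.mk_one, hv0, hv1, map_add, map_sub, map_smul, LinearMap.add_apply, LinearMap.sub_apply,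
            LinearMap.smul_apply, tmul_apply, he, hf, smul_eq_mul] <;> simp
        · linear_combination h3
        · ring
        · ring
        · linear_combination (α i 0 * β j 0) * (α i 1 * β j 1) * h3
      · subst hi
        fin_cases s <;> fin_cases s' <;>
          simp only [Fin.zero_eta, Fin.mk_one, hv0, hv1, map_add, map_sub, map_smul, LinearMap.add_apply, LinearMap.sub_apply,
            LinearMap.smul_apply, tmul_apply, he, hf, smul_eq_mul] <;> simp [hj]
    · fin_cases s <;> fin_cases s' <;>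
          simp only [Fin.zero_eta, Fin.mk_one, hv0, hv1, map_add, map_sub, map_smul, LinearMap.add_apply, LinearMap.sub_apply,
            LinearMap.smul_apply, tmul_apply, he, hf, smul_eq_mul] <;> simp [hi]
  have htest : ∀ p i j s, (B₁.tmul B₂) (v p) (e i s ⊗ₜ f j s) = if p = ((i, j), s) then
      ![α i 0 * β j 0, (α i 0 * β j 0) * (α i 1 * β j 1)] s else 0 := by
    rintro ⟨⟨i, j⟩, s⟩ i' j' s'
    by_cases hi : i = i'
    · by_cases hj : j = j'
      · subst hi hj
        fin_cases s <;> fin_cases s' <;>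
          simp only [Fin.zero_eta, Fin.mk_one, hv0, hv1, map_add, map_sub, map_smul, LinearMap.add_apply, LinearMap.sub_apply,
            LinearMap.smul_apply, tmul_apply, he, hf, smul_eq_mul] <;> simp
      · subst hi
        fin_cases s <;> fin_cases s' <;>
          simp only [Fin.zero_eta, Fin.mk_one, hv0, hv1, map_add, map_sub, map_smul, LinearMap.add_apply, LinearMap.sub_apply,
            LinearMap.smul_apply, tmul_apply, he, hf, smul_eq_mul] <;> simp [hj]
    · fin_cases s <;> fin_cases s' <;>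
          simp only [Fin.zero_eta, Fin.mk_one, hv0, hv1, map_add, map_sub, map_smul, LinearMap.add_apply, LinearMap.sub_apply,
            LinearMap.smul_apply, tmul_apply, he, hf, smul_eq_mul] <;> simp [hi]
  have hli : LinearIndependent F v := by
    rw [Fintype.linearIndependent_iff]
    rintro g hg ⟨⟨i, j⟩, s⟩
    have h3 := congrArg (fun x => (B₁.tmul B₂) x (e i s ⊗ₜ f j s)) hg
    simp only [map_sum, map_smul, LinearMap.sum_apply, LinearMap.smul_apply, htest, map_zero, LinearMap.zero_apply,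
      smul_eq_mul, mul_ite, mul_zero, Finset.sum_ite_eq', Finset.mem_univ, if_true] at h3
    rcases mul_eq_zero.mp h3 with h4 | h4
    · exact h4
    · exfalso
      fin_cases s
      · exact mul_ne_zero (hα i 0) (hβ j 0) h4
      · exact mul_ne_zero (mul_ne_zero (hα i 0) (hβ j 0)) (mul_ne_zero (hα i 1) (hβ j 1)) h4
  refine ⟨Submodule.span F (Set.range v), ?_, ?_, ?_⟩
  · rw [finrank_span_eq_card hli]
    simp only [Fintype.card_prod, Fintype.card_fin]
    ring
  · intro x hx y hy
    induction hx using Submodule.span_induction with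
    | mem x hx =>
      obtain ⟨p, rfl⟩ := hx
      induction hy using Submodule.span_induction with
      | mem y hy => obtain ⟨q, rfl⟩ := hy; exact hiso p q
      | zero => simp
      | add a b _ _ ha hb => rw [map_add, ha, hb, add_zero]
      | smul c a _ ha => rw [map_smul, ha, smul_zero]
    | zero => simp
    | add a b _ _ ha hb => rw [map_add, LinearMap.add_apply, ha, hb, add_zero]
    | smul c a _ ha => rw [map_smul, LinearMap.smul_apply, ha, smul_zero]
  · intro w hw u x hx
    induction hx using Submodule.span_induction with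
    | mem x hx =>
      obtain ⟨⟨⟨i, j⟩, s⟩, rfl⟩ := hx
      fin_cases s <;>
          simp only [Fin.zero_eta, Fin.mk_one, hv0, hv1, map_add, map_sub, map_smul, LinearMap.add_apply, LinearMap.sub_apply,
            LinearMap.smul_apply, tmul_apply, hw, smul_eq_mul] <;> simp
    | zero => simp
    | add a b _ _ ha hb => rw [map_add, LinearMap.add_apply, ha, hb, add_zero]
    | smul c a _ ha => rw [map_smul, LinearMap.smul_apply, ha, smul_zero]

end Cfsg.Agent.Lib.TensorBilin

namespace Cfsg.Agent.Lib.TensorBilin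

open Module TensorProduct LinearMap

variable {F U V : Type*} [Field F] [AddCommGroup U] [Module F U]
  [AddCommGroup V] [Module F V] [FiniteDimensional F V]

theorem exists_ortho (h2 : (2 : F) ≠ 0) (B : LinearMap.BilinForm F V) (hS : B.IsSymm) (hB : B.Nondegenerate) {n : ℕ}
    (hn : finrank F V = n) : ∃ (b : Fin n → V) (α : Fin n → F), (∀ i, α i ≠ 0) ∧
      ∀ i j, B (b i) (b j) = if i = j then α i else 0 := by
  subst hn
  haveI : Invertible (2 : F) := invertibleOfNonzero h2
  obtain ⟨v, hv⟩ := LinearMap.BilinForm.exists_orthogonal_basis (B := B) (LinearMap.BilinForm.isSymm_iff.mp hS)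
  refine ⟨v, fun i => B (v i) (v i), ?_, ?_⟩
  · intro i
    exact hv.not_isOrtho_basis_self_of_separatingLeft hB.1 i
  · intro i j
    split_ifs with h
    · rw [h]
    · exact hv h

/-- descent of maximal totally isotropic subspaces -/
theorem descent [FiniteDimensional F U] (B : LinearMap.BilinForm F V) (hB : B.Nondegenerate) (hS : B.IsSymm)
    (X : Submodule F V) (hX : ∀ x ∈ X, ∀ y ∈ X, B x y = 0) (ι : U →ₗ[F] V) (B₁ : LinearMap.BilinForm F U)
    (hB₁ : B₁.Nondegenerate) (c : F) (hc : c ≠ 0) (hι : ∀ u u', B (ι u) (ι u') = c * B₁ u u')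
    (hXι : ∀ x ∈ X, ∀ u, B x (ι u) = 0) (hdim : finrank F V = 2 * finrank F X + finrank F U)
    (Y : Submodule F V) (hY0 : ∀ x ∈ Y, ∀ y ∈ Y, B x y = 0) (hY : 2 * finrank F Y = finrank F V) :
    ∃ Z : Submodule F U, 2 * finrank F Z = finrank F U ∧ ∀ x ∈ Z, ∀ y ∈ Z, B₁ x y = 0 := by
  have hinj : Function.Injective ι := by
    rw [injective_iff_map_eq_zero]
    intro u hu
    apply hB₁.1
    intro u'
    have := hι u u'
    rw [hu, map_zero, LinearMap.zero_apply, eq_comm] at this
    exact (mul_eq_zero.mp this).resolve_left hc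
  refine ⟨(Y ⊔ X).comap ι, ?_, ?_⟩
  · have h1 : finrank F ((Y ⊔ X).comap ι) = finrank F ↥(LinearMap.range ι ⊓ (Y ⊔ X)) := by
      rw [← Submodule.map_comap_eq]
      exact (Submodule.equivMapOfInjective ι hinj _).finrank_eq
    set P := B.orthogonal X with hP
    have hPdim : finrank F P = finrank F V - finrank F X := LinearMap.BilinForm.finrank_orthogonal hB X
    have hXP : X ≤ P := fun x hx y hy => hX y hy x hx
    have hιP : LinearMap.range ι ≤ P := by
      rintro _ ⟨u, rfl⟩ x hx
      exact hXι x hx u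
    have hdisj : X ⊓ LinearMap.range ι = ⊥ := by
      rw [eq_bot_iff]
      rintro _ ⟨hx, u, rfl⟩
      rw [Submodule.mem_bot]
      have : u = 0 := by
        apply hB₁.1
        intro u'
        have h3 := hXι _ hx u'
        rw [hι] at h3
        exact (mul_eq_zero.mp h3).resolve_left hc
      rw [this, map_zero]
    have hri : finrank F (LinearMap.range ι) = finrank F U := LinearMap.finrank_range_of_inj hinj
    have hsum := Submodule.finrank_sup_add_finrank_inf_eq X (LinearMap.range ι)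
    rw [hdisj, finrank_bot, hri] at hsum
    have hPeq : X ⊔ LinearMap.range ι = P := by
      apply Submodule.eq_of_le_of_finrank_eq (sup_le hXP hιP)
      omega
    have hYY : B.orthogonal Y = Y := by
      symm
      apply Submodule.eq_of_le_of_finrank_eq
      · intro y hy y' hy'
        exact hY0 y' hy' y hy
      · rw [LinearMap.BilinForm.finrank_orthogonal hB]
        omega
    have hPY : finrank F ↥(P ⊓ Y) = finrank F V - finrank F ↥(X ⊔ Y) := by
      rw [← LinearMap.BilinForm.finrank_orthogonal hB]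
      have hPP : P ⊓ Y = B.orthogonal (X ⊔ Y) := by
        apply le_antisymm
        · rintro v ⟨hv1, hv2⟩ w hw
          obtain ⟨x, hx, y, hy, rfl⟩ := Submodule.mem_sup.mp hw
          rw [← hYY] at hv2
          have e1 : B x v = 0 := hv1 x hx
          have e2 : B y v = 0 := hv2 y hy
          change B (x + y) v = 0
          rw [map_add, LinearMap.add_apply, e1, e2, add_zero]
        · intro v hv
          refine ⟨fun x hx => hv x (Submodule.mem_sup_left hx), ?_⟩
          have : v ∈ B.orthogonal Y := fun y hy => hv y (Submodule.mem_sup_right hy)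
          rwa [hYY] at this
      rw [hPP]
    have hmod1 : P ⊓ (Y ⊔ X) = (P ⊓ Y) ⊔ X := (inf_sup_assoc_of_le Y hXP).symm
    have hmod2 : P ⊓ (Y ⊔ X) = X ⊔ (LinearMap.range ι ⊓ (Y ⊔ X)) := by
      rw [← hPeq]
      exact sup_inf_assoc_of_le (LinearMap.range ι) (le_sup_right : X ≤ Y ⊔ X)
    have h4 := Submodule.finrank_sup_add_finrank_inf_eq (P ⊓ Y) X
    have h5 : P ⊓ Y ⊓ X = X ⊓ Y := by
      rw [inf_comm P Y, inf_assoc, inf_eq_right.mpr hXP, inf_comm]
    have h6 := Submodule.finrank_sup_add_finrank_inf_eq X (LinearMap.range ι ⊓ (Y ⊔ X))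
    have h7 : X ⊓ (LinearMap.range ι ⊓ (Y ⊔ X)) = ⊥ := by
      rw [← inf_assoc, hdisj, bot_inf_eq]
    have h8 := Submodule.finrank_sup_add_finrank_inf_eq X Y
    have h9 : finrank F ↥(X ⊔ Y) ≤ finrank F V := Submodule.finrank_le _
    rw [h7, finrank_bot, ← hmod2, hmod1] at h6
    rw [h5] at h4
    omega
  · intro u hu u' hu'
    obtain ⟨y, hy, x, hx, hyx⟩ := Submodule.mem_sup.mp hu
    obtain ⟨y', hy', x', hx', hyx'⟩ := Submodule.mem_sup.mp hu'
    have h1 := hι u u'
    have h2 : B (ι u) (ι u') = 0 := by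
      have h3 : y = ι u - x := by rw [← hyx, add_sub_cancel_right]
      have h4 : y' = ι u' - x' := by rw [← hyx', add_sub_cancel_right]
      have h5 := hY0 y hy y' hy'
      rw [h3, h4] at h5
      simp only [map_sub, LinearMap.sub_apply] at h5
      have h6 : B (ι u) x' = 0 := by
        have := hS.eq x' (ι u)
        rw [hXι x' hx' u] at this
        exact this.symm
      rw [hXι x hx, hX x hx x' hx', h6, sub_zero, sub_zero, sub_zero] at h5
      exact h5
    rw [h2, eq_comm] at h1
    exact (mul_eq_zero.mp h1).resolve_left hc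

end Cfsg.Agent.Lib.TensorBilin
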