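import Mathlib
import Cfsg.Prelude.Def_GeometricClasses

/-!
Over the field with two elements, `GL_2 ⊗ GL_m` is contained in the normaliser of a cyclic group of order three.
-/

set_option autoImplicit false

namespace Cfsg.Agent.Lib.TensorTwo

open Matrix
open scoped Kronecker

variable {F : Type*} [Field F] [Fintype F]

theorem two_elts (hq : Fintype.card F = 2) (x : F) : x = 0 ∨ x = 1 := by
  classical
  by_contra hcon
  push Not at hcon
  have h1 : ({0, 1, x} : Finset F).card = 3 := by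
    rw [Finset.card_insert_of_notMem, Finset.card_insert_of_notMem, Finset.card_singleton]
    · simpa using hcon.2.symm
    · simpa using hcon.1.symm
  have h2 : ({0, 1, x} : Finset F).card ≤ Fintype.card F := Finset.card_le_univ _
  omega

theorem char_two (hq : Fintype.card F = 2) : (1 : F) + 1 = 0 := by
  rcases two_elts hq ((1 : F) + 1) with h | h
  · exact h
  · exact absurd (add_eq_left.1 h) one_ne_zero

/-- the matrix of order three -/
def om (F : Type*) [Field F] : Matrix (Fin 2) (Fin 2) F := !![0, 1; 1, 1]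

theorem om_cube (hq : Fintype.card F = 2) : om F * (om F * om F) = 1 := by
  have h := char_two hq
  ext i j
  fin_cases i <;> fin_cases j <;> simp [om, Matrix.mul_apply, Fin.sum_univ_two, h]

theorem om_conj (hq : Fintype.card F = 2) (a : GL (Fin 2) F) :
    (a : Matrix (Fin 2) (Fin 2) F) * om F = om F * a ∨
    (a : Matrix (Fin 2) (Fin 2) F) * om F = om F * om F * a := by
  have h2 := char_two hq
  have hdet : (a : Matrix (Fin 2) (Fin 2) F).det ≠ 0 := by
    have := (Matrix.GeneralLinearGroup.det a).ne_zero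
    exact this
  rw [Matrix.det_fin_two] at hdet
  set M := (a : Matrix (Fin 2) (Fin 2) F) with hM
  clear_value M
  have hMe : M = !![M 0 0, M 0 1; M 1 0, M 1 1] := Matrix.eta_fin_two M
  rw [hMe]
  rcases two_elts hq (M 0 0) with h00 | h00 <;> rcases two_elts hq (M 0 1) with h01 | h01 <;>
  rcases two_elts hq (M 1 0) with h10 | h10 <;> rcases two_elts hq (M 1 1) with h11 | h11 <;>
  simp [h00, h01, h10, h11, om, h2] at hdet ⊢

variable (n₂ : ℕ)

/-- the element of order three of `GL (Fin 2 × Fin n₂) F` -/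
def T (hq : Fintype.card F = 2) : GL (Fin 2 × Fin n₂) F where
  val := om F ⊗ₖ (1 : Matrix (Fin n₂) (Fin n₂) F)
  inv := (om F * om F) ⊗ₖ (1 : Matrix (Fin n₂) (Fin n₂) F)
  val_inv := by
    rw [← Matrix.mul_kronecker_mul, om_cube hq, one_mul, Matrix.one_kronecker_one]
  inv_val := by
    rw [← Matrix.mul_kronecker_mul, mul_assoc, om_cube hq, one_mul, Matrix.one_kronecker_one]

/-- the normaliser, explicitly -/
def K (hq : Fintype.card F = 2) : Subgroup (GL (Fin 2 × Fin n₂) F) :=
  Subgroup.normalizer (Subgroup.zpowers (T n₂ hq) : Set (GL (Fin 2 × Fin n₂) F))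

theorem T_cube (hq : Fintype.card F = 2) : (T n₂ hq) ^ 3 = 1 := by
  have : (T n₂ hq) * ((T n₂ hq) * (T n₂ hq)) = 1 := by
    apply Units.ext
    change (om F ⊗ₖ (1 : Matrix (Fin n₂) (Fin n₂) F)) * ((om F ⊗ₖ (1 : Matrix (Fin n₂) (Fin n₂) F)) *
      (om F ⊗ₖ (1 : Matrix (Fin n₂) (Fin n₂) F))) = 1
    rw [← Matrix.mul_kronecker_mul, ← Matrix.mul_kronecker_mul, om_cube hq, one_mul, one_mul,
      Matrix.one_kronecker_one]
  rw [← this, pow_succ, pow_two, mul_assoc]

theorem T_sq_val (hq : Fintype.card F = 2) : (((T n₂ hq) * (T n₂ hq) : GL (Fin 2 × Fin n₂) F) :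
    Matrix (Fin 2 × Fin n₂) (Fin 2 × Fin n₂) F) = (om F * om F) ⊗ₖ (1 : Matrix (Fin n₂) (Fin n₂) F) := by
  change (om F ⊗ₖ (1 : Matrix (Fin n₂) (Fin n₂) F)) * (om F ⊗ₖ (1 : Matrix (Fin n₂) (Fin n₂) F)) = _
  rw [← Matrix.mul_kronecker_mul, one_mul]

theorem mem_K_iff (hq : Fintype.card F = 2) (g : GL (Fin 2 × Fin n₂) F) :
    g ∈ K n₂ hq ↔ g * T n₂ hq = T n₂ hq * g ∨ g * T n₂ hq = T n₂ hq * T n₂ hq * g := by
  have h3 := T_cube n₂ hq
  have hz : ∀ x, x ∈ Subgroup.zpowers (T n₂ hq) ↔ x = 1 ∨ x = T n₂ hq ∨ x = T n₂ hq * T n₂ hq := by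
    intro x
    constructor
    · rintro ⟨k, rfl⟩
      have h1 : (T n₂ hq) ^ k = (T n₂ hq) ^ (k % 3) := by
        conv_lhs => rw [← Int.emod_add_mul_ediv k 3]
        rw [_root_.zpow_add, _root_.zpow_mul]
        have : (T n₂ hq) ^ (3 : ℤ) = 1 := by exact_mod_cast h3
        rw [this, _root_.one_zpow, mul_one]
      change (T n₂ hq) ^ k = _ ∨ (T n₂ hq) ^ k = _ ∨ (T n₂ hq) ^ k = _
      rw [h1]
      have h2 : k % 3 = 0 ∨ k % 3 = 1 ∨ k % 3 = 2 := by omega
      rcases h2 with h | h | h <;> rw [h]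
      · left; simp
      · right; left; simp
      · right; right; rw [zpow_ofNat, pow_two]
    · rintro (rfl | rfl | rfl)
      · exact Subgroup.one_mem _
      · exact Subgroup.mem_zpowers _
      · exact Subgroup.mul_mem _ (Subgroup.mem_zpowers _) (Subgroup.mem_zpowers _)
  rw [K]
  constructor
  · intro hg
    have h1 := (Subgroup.mem_normalizer_iff.1 hg (T n₂ hq)).1 (Subgroup.mem_zpowers _)
    have h1' : g * T n₂ hq * g⁻¹ ∈ Subgroup.zpowers (T n₂ hq) := h1
    rw [hz] at h1'
    rcases h1' with h | h | h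
    · have : T n₂ hq = 1 := by
        have := congrArg (fun x => g⁻¹ * x * g) h
        simpa [mul_assoc] using this
      left; rw [this]; simp
    · left; rw [← mul_inv_eq_iff_eq_mul]; exact h
    · right; rw [← mul_inv_eq_iff_eq_mul]; exact h
  · intro hg
    have h1 : g * T n₂ hq * g⁻¹ ∈ Subgroup.zpowers (T n₂ hq) := by
      rw [hz]
      rcases hg with h | h
      · right; left; rw [mul_inv_eq_iff_eq_mul]; exact h
      · right; right; rw [mul_inv_eq_iff_eq_mul]; exact h
    have hle : (Subgroup.zpowers (T n₂ hq)).map (MulAut.conj g).toMonoidHom ≤ Subgroup.zpowers (T n₂ hq) := by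
      rw [MonoidHom.map_zpowers, Subgroup.zpowers_le]
      exact h1
    have heq : (Subgroup.zpowers (T n₂ hq)).map (MulAut.conj g).toMonoidHom = Subgroup.zpowers (T n₂ hq) := by
      have hfin : Finite (Subgroup.zpowers (T n₂ hq)) := by
        apply Nat.finite_of_card_ne_zero
        rw [Nat.card_zpowers]
        intro h0
        rw [orderOf_eq_zero_iff'] at h0
        exact h0 3 (by norm_num) h3
      apply Subgroup.eq_of_le_of_card_ge hle
      have hinj : Function.Injective (MulAut.conj g).toMonoidHom := (MulAut.conj g).injective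
      rw [Subgroup.card_map_of_injective hinj]
    rw [Subgroup.mem_normalizer_iff]
    intro h
    constructor
    · intro hh
      exact hle ⟨h, hh, rfl⟩
    · intro hh
      have : g * h * g⁻¹ ∈ (Subgroup.zpowers (T n₂ hq)).map (MulAut.conj g).toMonoidHom := by
        rw [heq]; exact hh
      obtain ⟨y, hy, hyh⟩ := this
      have hyh' : g * y * g⁻¹ = g * h * g⁻¹ := hyh
      have : y = h := by simpa using hyh'
      rw [← this]; exact hy

theorem kron_le (hq : Fintype.card F = 2) : Cfsg.Geo.kroneckerSubgroup 2 n₂ F ≤ K n₂ hq := by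
  rintro g ⟨a, b, hg⟩
  rw [mem_K_iff]
  rcases om_conj hq a with h | h
  · left
    apply Units.ext
    rw [Units.val_mul, Units.val_mul, hg]
    change (_ ⊗ₖ _) * (om F ⊗ₖ (1 : Matrix (Fin n₂) (Fin n₂) F)) = (om F ⊗ₖ (1 : Matrix (Fin n₂) (Fin n₂) F)) * _
    rw [← Matrix.mul_kronecker_mul, ← Matrix.mul_kronecker_mul, h, one_mul, mul_one]
  · right
    apply Units.ext
    rw [Units.val_mul, Units.val_mul, hg, T_sq_val]
    change (_ ⊗ₖ _) * (om F ⊗ₖ (1 : Matrix (Fin n₂) (Fin n₂) F)) = _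
    rw [← Matrix.mul_kronecker_mul, ← Matrix.mul_kronecker_mul, h, one_mul, mul_one]

theorem kron_lt (hq : Fintype.card F = 2) (hn : 2 ≤ n₂) : Cfsg.Geo.kroneckerSubgroup 2 n₂ F < K n₂ hq := by
  refine lt_of_le_of_ne (kron_le n₂ hq) ?_
  intro heq
  let j0 : Fin n₂ := ⟨0, by omega⟩
  let j1 : Fin n₂ := ⟨1, by omega⟩
  let E : Matrix (Fin n₂) (Fin n₂) F := Matrix.single j0 j0 1
  have hE : E * E = E := by simp [E]
  have hE1 : E * (1 - E) = 0 := by rw [mul_sub, hE, mul_one, sub_self]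
  have hE2 : (1 - E) * E = 0 := by rw [sub_mul, hE, one_mul, sub_self]
  have hE3 : (1 - E) * (1 - E) = 1 - E := by rw [mul_sub, hE2, mul_one, sub_zero]
  have hadd : (1 : Matrix (Fin 2) (Fin 2) F) ⊗ₖ E + (1 : Matrix (Fin 2) (Fin 2) F) ⊗ₖ (1 - E) = 1 := by
    rw [← Matrix.kronecker_add, add_sub_cancel, Matrix.one_kronecker_one]
  let g : GL (Fin 2 × Fin n₂) F :=
    { val := om F ⊗ₖ E + 1 ⊗ₖ (1 - E)
      inv := (om F * om F) ⊗ₖ E + 1 ⊗ₖ (1 - E)
      val_inv := by
        rw [mul_add, add_mul, add_mul, ← Matrix.mul_kronecker_mul, ← Matrix.mul_kronecker_mul,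
          ← Matrix.mul_kronecker_mul, ← Matrix.mul_kronecker_mul, hE, hE1, hE2, hE3, om_cube hq,
          Matrix.kronecker_zero, Matrix.kronecker_zero, add_zero, zero_add, one_mul, hadd]
      inv_val := by
        rw [mul_add, add_mul, add_mul, ← Matrix.mul_kronecker_mul, ← Matrix.mul_kronecker_mul,
          ← Matrix.mul_kronecker_mul, ← Matrix.mul_kronecker_mul, hE, hE1, hE2, hE3, mul_assoc, om_cube hq,
          Matrix.kronecker_zero, Matrix.kronecker_zero, add_zero, zero_add, one_mul, hadd] }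
  have hgK : g ∈ K n₂ hq := by
    rw [mem_K_iff]
    left
    apply Units.ext
    rw [Units.val_mul, Units.val_mul]
    change (om F ⊗ₖ E + 1 ⊗ₖ (1 - E)) * (om F ⊗ₖ (1 : Matrix (Fin n₂) (Fin n₂) F)) =
      (om F ⊗ₖ (1 : Matrix (Fin n₂) (Fin n₂) F)) * (om F ⊗ₖ E + 1 ⊗ₖ (1 - E))
    rw [mul_add, add_mul, ← Matrix.mul_kronecker_mul, ← Matrix.mul_kronecker_mul,
          ← Matrix.mul_kronecker_mul, ← Matrix.mul_kronecker_mul]
    simp
  rw [← heq] at hgK
  obtain ⟨a, b, hab⟩ := hgK
  have hab' : (om F ⊗ₖ E + 1 ⊗ₖ (1 - E)) = (a : Matrix (Fin 2) (Fin 2) F) ⊗ₖ (b : Matrix (Fin n₂) (Fin n₂) F) := hab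
  have hj : j0 ≠ j1 := by
    intro h
    have := congrArg Fin.val h
    simp [j0, j1] at this
  have e1 : ∀ i i' : Fin 2, (a : Matrix (Fin 2) (Fin 2) F) i i' * (b : Matrix (Fin n₂) (Fin n₂) F) j1 j1 =
      (1 : Matrix (Fin 2) (Fin 2) F) i i' := by
    intro i i'
    have := congrFun (congrFun hab' (i, j1)) (i', j1)
    rw [Matrix.add_apply, Matrix.kroneckerMap_apply, Matrix.kroneckerMap_apply, Matrix.kroneckerMap_apply] at this
    have hEz : E j1 j1 = 0 := Matrix.single_apply_of_ne _ _ _ _ _ (by intro h; exact hj h.1)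
    rw [← this, Matrix.sub_apply]
    change om F i i' * E j1 j1 + (1 : Matrix (Fin 2) (Fin 2) F) i i' * ((1 : Matrix (Fin n₂) (Fin n₂) F) j1 j1 - E j1 j1) = _
    rw [hEz, Matrix.one_apply_eq]
    simp
  have e0 : ∀ i i' : Fin 2, (a : Matrix (Fin 2) (Fin 2) F) i i' * (b : Matrix (Fin n₂) (Fin n₂) F) j0 j0 =
      om F i i' := by
    intro i i'
    have := congrFun (congrFun hab' (i, j0)) (i', j0)
    rw [Matrix.add_apply, Matrix.kroneckerMap_apply, Matrix.kroneckerMap_apply, Matrix.kroneckerMap_apply] at this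
    have hEz : E j0 j0 = 1 := Matrix.single_apply_same _ _ _
    rw [← this, Matrix.sub_apply]
    change om F i i' * E j0 j0 + (1 : Matrix (Fin 2) (Fin 2) F) i i' * ((1 : Matrix (Fin n₂) (Fin n₂) F) j0 j0 - E j0 j0) = _
    rw [hEz, Matrix.one_apply_eq]
    simp
  have h1 := e1 0 0
  have h2 := e1 0 1
  have h3 := e0 0 1
  simp only [Matrix.one_apply_eq] at h1
  rw [Matrix.one_apply_ne (by decide)] at h2
  have h4 : (b : Matrix (Fin n₂) (Fin n₂) F) j1 j1 ≠ 0 := right_ne_zero_of_mul (h1 ▸ one_ne_zero)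
  have h5 : (a : Matrix (Fin 2) (Fin 2) F) 0 1 = 0 := by
    rcases mul_eq_zero.1 h2 with h | h
    · exact h
    · exact absurd h h4
  rw [h5, zero_mul] at h3
  simp [om] at h3

theorem K_lt (hq : Fintype.card F = 2) (hn : 2 ≤ n₂) : K n₂ hq < ⊤ := by
  refine lt_of_le_of_ne le_top ?_
  intro heq
  let j0 : Fin n₂ := ⟨0, by omega⟩
  let j1 : Fin n₂ := ⟨1, by omega⟩
  have hj : j0 ≠ j1 := by
    intro h
    have := congrArg Fin.val h
    simp [j0, j1] at this
  -- the elementary matrix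
  let E : Matrix (Fin 2 × Fin n₂) (Fin 2 × Fin n₂) F := Matrix.single (0, j1) (0, j0) 1
  have hE : E * E = 0 := by
    apply Matrix.single_mul_single_of_ne
    intro h
    exact hj (congrArg Prod.snd h)
  let g : GL (Fin 2 × Fin n₂) F :=
    { val := 1 + E
      inv := 1 - E
      val_inv := by rw [mul_sub, add_mul, add_mul, hE]; simp
      inv_val := by rw [mul_add, sub_mul, sub_mul, hE]; simp }
  have hgK : g ∈ K n₂ hq := by rw [heq]; exact Subgroup.mem_top _
  rw [mem_K_iff] at hgK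
  rcases hgK with h | h
  · have h1 := congrArg Units.val h
    rw [Units.val_mul, Units.val_mul] at h1
    have h1' : (1 + E) * (om F ⊗ₖ (1 : Matrix (Fin n₂) (Fin n₂) F)) =
      (om F ⊗ₖ (1 : Matrix (Fin n₂) (Fin n₂) F)) * (1 + E) := h1
    rw [add_mul, mul_add, one_mul, mul_one, add_right_inj] at h1'
    have h2 := congrFun (congrFun h1' (1, j1)) (0, j0)
    rw [Matrix.single_mul_apply_of_ne, Matrix.mul_single_apply_same, Matrix.kroneckerMap_apply] at h2
    · simp [om] at h2
    · intro h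
      exact one_ne_zero (congrArg Prod.fst h)
  · have h1 := congrArg Units.val h
    rw [Units.val_mul, Units.val_mul, T_sq_val] at h1
    have h1' : (1 + E) * (om F ⊗ₖ (1 : Matrix (Fin n₂) (Fin n₂) F)) =
      ((om F * om F) ⊗ₖ (1 : Matrix (Fin n₂) (Fin n₂) F)) * (1 + E) := h1
    rw [add_mul, mul_add, one_mul, mul_one] at h1'
    have h2 := congrFun (congrFun h1' (1, j1)) (0, j0)
    rw [Matrix.add_apply, Matrix.add_apply, Matrix.single_mul_apply_of_ne, Matrix.mul_single_apply_same,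
      Matrix.kroneckerMap_apply, Matrix.kroneckerMap_apply, Matrix.kroneckerMap_apply] at h2
    · simp [om, Matrix.mul_apply, Fin.sum_univ_two, hj.symm] at h2
    · intro h
      exact one_ne_zero (congrArg Prod.fst h)

theorem sl_eq_top {ι : Type} [Fintype ι] [DecidableEq ι] (hq : Fintype.card F = 2) :
    Cfsg.Geo.specialLinear ι F = ⊤ := by
  rw [eq_top_iff]
  intro g _
  change Matrix.GeneralLinearGroup.det g = 1
  apply Units.ext
  rcases two_elts hq ((Matrix.GeneralLinearGroup.det g : Fˣ) : F) with h | h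
  · exact absurd h (Units.ne_zero _)
  · exact h

/-- `S5638` -/
theorem tensor_not_maximal (n : ℕ) (hn : 13 ≤ n) (hq : Fintype.card F = 2) (n₂ : ℕ) (e : Fin n ≃ Fin 2 × Fin n₂)
    (P : Matrix.GeneralLinearGroup (Fin n) F) : ∃ K : Subgroup (Matrix.GeneralLinearGroup (Fin n) F),
      Cfsg.Geo.tensorProductSubgroup 2 n₂ e P ⊓ Cfsg.Geo.specialLinear (Fin n) F < K ∧
      K < Cfsg.Geo.specialLinear (Fin n) F := by
  have hn₂ : 2 ≤ n₂ := by
    have := Fintype.card_congr e
    rw [Fintype.card_fin, Fintype.card_prod, Fintype.card_fin, Fintype.card_fin] at this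
    omega
  have hinj1 : Function.Injective (Cfsg.Geo.glReindex (F := F) e.symm).toMonoidHom :=
    (Cfsg.Geo.glReindex (F := F) e.symm).injective
  have hsurj1 : Function.Surjective (Cfsg.Geo.glReindex (F := F) e.symm).toMonoidHom :=
    (Cfsg.Geo.glReindex (F := F) e.symm).surjective
  have hinj2 : Function.Injective (MulAut.conj P).toMonoidHom := (MulAut.conj P).injective
  have hsurj2 : Function.Surjective (MulAut.conj P).toMonoidHom := (MulAut.conj P).surjective
  refine ⟨((K n₂ hq).map (Cfsg.Geo.glReindex e.symm).toMonoidHom).map (MulAut.conj P).toMonoidHom, ?_, ?_⟩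
  · rw [sl_eq_top hq, inf_top_eq]
    exact (Subgroup.map_lt_map_iff_of_injective hinj2).2 ((Subgroup.map_lt_map_iff_of_injective hinj1).2
      (kron_lt n₂ hq hn₂))
  · rw [sl_eq_top hq]
    have h1 := (Subgroup.map_lt_map_iff_of_injective hinj2).2 ((Subgroup.map_lt_map_iff_of_injective hinj1).2
      (K_lt n₂ hq hn₂))
    rwa [Subgroup.map_top_of_surjective _ hsurj1, Subgroup.map_top_of_surjective _ hsurj2] at h1

end Cfsg.Agent.Lib.TensorTwo
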