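import Cfsg.Agent.Lib.TernHexads
import Cfsg.Agent.Lib.GolayDodecad

/-!
helper27: the monomial automorphism group of the ternary code of length 12 (S1594).
-/

set_option autoImplicit false

namespace Cfsg.Agent.Lib.TernAut

open Cfsg Cfsg.Agent.Lib.Golay Cfsg.Agent.Lib.TernGolay Cfsg.Agent.Lib.TernHexads
open scoped Pointwise

/-! ### coded monomial maps -/

def nib (c i : ℕ) : ℕ := Nat.land (Nat.shiftRight c (Nat.mul 4 i)) 15
def sgb (c i : ℕ) : ℕ := Nat.land (Nat.shiftRight c (Nat.add 48 i)) 1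

def valid3 (c : ℕ) : Bool := Nat.beq (orLt 12 fun i => Nat.shiftLeft 1 (nib c i)) 4095

theorem testBit_full3 (j : ℕ) : (4095 : ℕ).testBit j = true ↔ j < 12 := by
  have : (4095 : ℕ) = 2 ^ 12 - 1 := by norm_num
  rw [this, Nat.testBit_two_pow_sub_one, decide_eq_true_eq]

theorem valid3_surj {c : ℕ} (h : valid3 c = true) {j : ℕ} (hj : j < 12) : ∃ i < 12, nib c i = j := by
  have h1 := (testBit_full3 j).mpr hj
  rw [← Nat.eq_of_beq_eq_true h, testBit_orLt] at h1
  obtain ⟨i, hi, h2⟩ := h1
  exact ⟨i, hi, (testBit_one_shiftLeft _ _).mp h2⟩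

theorem nib_lt {c : ℕ} (h : valid3 c = true) {i : ℕ} (hi : i < 12) : nib c i < 12 := by
  have h1 : (Nat.shiftLeft 1 (nib c i)).testBit (nib c i) = true := (testBit_one_shiftLeft _ _).mpr rfl
  have h2 : (orLt 12 fun i => Nat.shiftLeft 1 (nib c i)).testBit (nib c i) = true :=
    (testBit_orLt _ _ _).mpr ⟨i, hi, h1⟩
  rw [Nat.eq_of_beq_eq_true h] at h2
  exact (testBit_full3 _).mp h2

def tau (c : ℕ) (p : ArrayPt) : ArrayPt := pt3 (nib c (ix3 p))

theorem tau_bij {c : ℕ} (h : valid3 c = true) : Function.Bijective (tau c) := by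
  apply (Finite.injective_iff_bijective).mp
  apply Finite.injective_iff_surjective.mpr
  intro q
  obtain ⟨i, hi, h1⟩ := valid3_surj h (ix3_lt q)
  refine ⟨pt3 i, ?_⟩
  show pt3 (nib c (ix3 (pt3 i))) = q
  rw [ix3_pt3 hi, h1, pt3_ix3]

/-- the permutation whose inverse is coded by `c` -/
noncomputable def sg (c : ℕ) (h : valid3 c = true) : Equiv.Perm ArrayPt := (Equiv.ofBijective (tau c) (tau_bij h)).symm

theorem sg_symm {c : ℕ} (h : valid3 c = true) (p : ArrayPt) : (sg c h).symm p = tau c p := rfl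

theorem sg_apply {c : ℕ} (h : valid3 c = true) (p : ArrayPt) : sg c h (tau c p) = p :=
  (Equiv.ofBijective (tau c) (tau_bij h)).symm_apply_apply p

/-- signs -/
def sgn (c : ℕ) (p : ArrayPt) : (ZMod 3)ˣ := if sgb c (ix3 p) = 0 then 1 else -1

def yy (c g k : ℕ) : ℕ := Nat.mod (Nat.mul (Nat.add 1 (sgb c k)) (dg g (nib c k))) 3

theorem sgb_cases (c i : ℕ) : sgb c i = 0 ∨ sgb c i = 1 := by
  have : sgb c i = (c >>> (48 + i)) &&& 1 := rfl
  rw [this, Nat.and_one_is_mod]
  omega

theorem monomial_gw {c : ℕ} (h : valid3 c = true) (g : ℕ) (p : ArrayPt) :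
    monomialMap (sg c h) (sgn c) (gw g) p = ((yy c g (ix3 p) : ℕ) : ZMod 3) := by
  show (sgn c p : ZMod 3) * gw g (tau c p) = _
  have h1 : gw g (tau c p) = ((dg g (nib c (ix3 p)) : ℕ) : ZMod 3) := by
    show ((dg g (ix3 (pt3 (nib c (ix3 p)))) : ℕ) : ZMod 3) = _
    rw [ix3_pt3 (nib_lt h (ix3_lt p))]
  have h2 : yy c g (ix3 p) = ((1 + sgb c (ix3 p)) * dg g (nib c (ix3 p))) % 3 := rfl
  rw [h1, h2, ZMod.natCast_mod]
  push_cast
  congr 1
  unfold sgn
  rcases sgb_cases c (ix3 p) with e | e
  · rw [e]; simp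
  · rw [e]
    simp only [one_ne_zero, if_false]
    decide

/-- number of the word -/
def nm (c g : ℕ) : ℕ := Nat.add (yy c g 0) (Nat.add (Nat.mul 3 (yy c g 1)) (Nat.add (Nat.mul 9 (yy c g 2))
  (Nat.add (Nat.mul 27 (yy c g 3)) (Nat.add (Nat.mul 81 (yy c g 4)) (Nat.mul 243 (yy c g 6))))))

def okG (c g : ℕ) : Bool := force (nm c g) fun n => allLt 12 (fun k => Nat.beq (cw n k) (yy c g k))

def okM (c : ℕ) : Bool := cond (valid3 c) (cond (okG c 9765889) (cond (okG c 9077764) (cond (okG c 5784592)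
  (cond (okG c 1673280) (cond (okG c 9586944) (okG c 11096064) false) false) false) false) false) false

/-- preservation of the code -/
def Pres (σ : Equiv.Perm ArrayPt) (c : ArrayPt → (ZMod 3)ˣ) : Prop :=
  ∀ x ∈ ternaryGolayCode, monomialMap σ c x ∈ ternaryGolayCode

theorem okG_mem {c g : ℕ} (h : valid3 c = true) (hg : okG c g = true) :
    monomialMap (sg c h) (sgn c) (gw g) ∈ ternaryGolayCode := by
  have e : monomialMap (sg c h) (sgn c) (gw g) = word (nm c g) := by
    funext p
    rw [monomial_gw h]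
    unfold okG at hg
    rw [force_eq] at hg
    have := Nat.eq_of_beq_eq_true (allLt_iff.mp hg _ (ix3_lt p))
    show _ = ((cw (nm c g) (ix3 p) : ℕ) : ZMod 3)
    rw [this]
  rw [e]; exact word_mem _

theorem monomialMap_add (σ : Equiv.Perm ArrayPt) (c : ArrayPt → (ZMod 3)ˣ) (x y : ArrayPt → ZMod 3) :
    monomialMap σ c (x + y) = monomialMap σ c x + monomialMap σ c y := by
  funext i; simp [monomialMap, mul_add]

theorem monomialMap_smul (σ : Equiv.Perm ArrayPt) (c : ArrayPt → (ZMod 3)ˣ) (a : ZMod 3) (x : ArrayPt → ZMod 3) :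
    monomialMap σ c (a • x) = a • monomialMap σ c x := by
  funext i; simp [monomialMap, mul_left_comm]

theorem pres_of_okM {c : ℕ} (h : okM c = true) (hv : valid3 c = true) : Pres (sg c hv) (sgn c) := by
  unfold okM at h
  rw [cond_false_eq, cond_false_eq, cond_false_eq, cond_false_eq, cond_false_eq, cond_false_eq] at h
  obtain ⟨_, h0, h1, h2, h3, h4, h5⟩ := h
  intro x hx
  obtain ⟨n, hn, rfl⟩ := mem_iff.mp hx
  rw [word_eq]
  simp only [monomialMap_add, monomialMap_smul]
  exact Submodule.add_mem _ (Submodule.smul_mem _ _ (okG_mem hv h0)) <|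
    Submodule.add_mem _ (Submodule.smul_mem _ _ (okG_mem hv h1)) <|
    Submodule.add_mem _ (Submodule.smul_mem _ _ (okG_mem hv h2)) <|
    Submodule.add_mem _ (Submodule.smul_mem _ _ (okG_mem hv h3)) <|
    Submodule.add_mem _ (Submodule.smul_mem _ _ (okG_mem hv h4)) (Submodule.smul_mem _ _ (okG_mem hv h5))

/-! ### the group of permutation parts -/

theorem pres_one : Pres 1 1 := by
  intro x hx
  have : monomialMap 1 (1 : ArrayPt → (ZMod 3)ˣ) x = x := by
    funext i
    show ((1 : (ZMod 3)ˣ) : ZMod 3) * x i = x i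
    rw [Units.val_one, one_mul]
  rw [this]; exact hx

theorem monomialMap_comp (σ τ : Equiv.Perm ArrayPt) (c d : ArrayPt → (ZMod 3)ˣ) (x : ArrayPt → ZMod 3) :
    monomialMap σ c (monomialMap τ d x) = monomialMap (σ * τ) (fun i => c i * d (σ.symm i)) x := by
  funext i
  simp only [monomialMap, Units.val_mul]
  rw [mul_assoc]
  rfl

theorem pres_mul {σ τ : Equiv.Perm ArrayPt} {c d : ArrayPt → (ZMod 3)ˣ} (h : Pres σ c) (h' : Pres τ d) :
    Pres (σ * τ) (fun i => c i * d (σ.symm i)) := by
  intro x hx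
  rw [← monomialMap_comp]
  exact h _ (h' _ hx)

theorem monomialMap_inj (σ : Equiv.Perm ArrayPt) (c : ArrayPt → (ZMod 3)ˣ) :
    Function.Injective (monomialMap (F := ZMod 3) σ c) := by
  intro x y h
  funext i
  have h1 := congrFun h (σ i)
  simp only [monomialMap, Equiv.symm_apply_apply] at h1
  exact (Units.mul_right_inj (c (σ i))).mp h1

theorem pres_surj {σ : Equiv.Perm ArrayPt} {c : ArrayPt → (ZMod 3)ˣ} (h : Pres σ c) {x : ArrayPt → ZMod 3}
    (hx : x ∈ ternaryGolayCode) : ∃ y ∈ ternaryGolayCode, monomialMap σ c y = x := by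
  have hf : Function.Injective (fun y : ternaryGolayCode =>
      (⟨monomialMap σ c y.1, h y.1 y.2⟩ : ternaryGolayCode)) := by
    intro a b e
    exact Subtype.ext (monomialMap_inj σ c (congrArg Subtype.val e))
  have : Finite ternaryGolayCode := inferInstance
  have hs := Finite.surjective_of_injective hf
  obtain ⟨y, hy⟩ := hs ⟨x, hx⟩
  exact ⟨y.1, y.2, congrArg Subtype.val hy⟩

theorem pres_inv {σ : Equiv.Perm ArrayPt} {c : ArrayPt → (ZMod 3)ˣ} (h : Pres σ c) :
    Pres σ⁻¹ (fun i => (c (σ i))⁻¹) := by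
  intro x hx
  obtain ⟨y, hy, rfl⟩ := pres_surj h hx
  have : monomialMap σ⁻¹ (fun i => (c (σ i))⁻¹) (monomialMap σ c y) = y := by
    funext i
    simp only [monomialMap]
    have e1 : (σ⁻¹).symm i = σ i := rfl
    rw [e1, Equiv.symm_apply_apply, Units.inv_mul_cancel_left]
  rw [this]
  exact hy

/-- the group of permutation parts -/
def HG : Subgroup (Equiv.Perm ArrayPt) where
  carrier := {σ | ∃ c, Pres σ c}
  one_mem' := ⟨1, pres_one⟩
  mul_mem' := by
    rintro σ τ ⟨c, hc⟩ ⟨d, hd⟩
    exact ⟨_, pres_mul hc hd⟩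
  inv_mem' := by
    rintro σ ⟨c, hc⟩
    exact ⟨_, pres_inv hc⟩

theorem sg_mem {c : ℕ} (h : okM c = true) (hv : valid3 c = true) : sg c hv ∈ HG := ⟨_, pres_of_okM h hv⟩

theorem support_monomial (σ : Equiv.Perm ArrayPt) (c : ArrayPt → (ZMod 3)ˣ) (x : ArrayPt → ZMod 3) :
    ternarySupport (monomialMap σ c x) = σ • ternarySupport x := by
  ext p
  obtain ⟨q, rfl⟩ := σ.surjective p
  have e : σ q ∈ σ • ternarySupport x ↔ q ∈ ternarySupport x :=
    Finset.smul_mem_smul_finset_iff (a := σ) (b := q) (s := ternarySupport x)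
  rw [e, mem_ts, mem_ts]
  simp only [monomialMap, Equiv.symm_apply_apply]
  rw [not_iff_not]
  exact Units.mul_right_eq_zero _

theorem smul_HX_subset {σ : Equiv.Perm ArrayPt} (h : σ ∈ HG) {b : Finset ArrayPt} (hb : b ∈ HX) : σ • b ∈ HX := by
  obtain ⟨c, hc⟩ := h
  obtain ⟨x, hx, h1, h2⟩ := hb
  refine ⟨monomialMap σ c x, hc x hx, ?_, ?_⟩
  · rw [support_monomial, h1]
  · rw [Finset.card_smul_finset, h2]

theorem HG_le : HG ≤ setSystemAut HX := by
  intro σ hσ
  rw [MulAction.mem_stabilizer_iff]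
  apply Set.Subset.antisymm
  · rintro _ ⟨b, hb, rfl⟩
    exact smul_HX_subset hσ hb
  · intro b hb
    exact ⟨σ⁻¹ • b, smul_HX_subset (HG.inv_mem hσ) hb, smul_inv_smul σ b⟩

/-! ### transversals -/

def tL : List ℕ := [
  205163983024656, 114875801285121, 171143312191746, 177533222556803331, 177478470783410436, 177517768978145541,
  178658163800875270, 179129451721990407, 175738674579972360, 178589874069381385, 175717993303712010, 179181185102192907,
  0, 205163983024656, 148896472117536, 525415347500884272, 525349506407145792, 525399893922226512,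
  524202376263049568, 629564437806915952, 626128687827460480, 524189258825802128, 626199869106889120, 629526088358502832,
  0, 0, 205163983024656, 778164761993159440, 778132653924885520, 778198774358156560,
  776460497717503504, 376706335644002064, 373964070747056144, 776493204980836624, 373914541383428624, 376690039762135824,
  0, 0, 0, 205163983024656, 147865428247056, 186605193351696,
  1888455371219472, 1151349566066618896, 1151891909487329808, 1817116296843792, 1151878521015214608, 1151400079659348496,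
  0, 0, 0, 0, 205163983024656, 132399770186256,
  1872792665862672, 1151313496142983696, 1151906335796245008, 1842058397037072, 1151959931952968208, 1151327939812078096]

def tt (i k : ℕ) : ℕ := tL.getD (Nat.add (Nat.mul 12 i) k) 0

def ttOk (i k : ℕ) : Bool := cond (Nat.blt k i) true (cond (okM (tt i k))
  (cond (allLt i (fun j => Nat.beq (nib (tt i k) j) j)) (Nat.beq (nib (tt i k) i) k) false) false)

theorem tt_all : allLt 5 (fun i => allLt 12 (fun k => ttOk i k)) = true := by decide +kernel

theorem tt_spec {i k : ℕ} (hi : i < 5) (hk : k < 12) (hik : i ≤ k) :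
    ∃ g ∈ HG, (∀ j < i, g (pt3 j) = pt3 j) ∧ g (pt3 k) = pt3 i := by
  have h := allLt_iff.mp (allLt_iff.mp tt_all i hi) k hk
  unfold ttOk at h
  have hb : Nat.blt k i = false := by
    cases e : Nat.blt k i with
    | false => rfl
    | true =>
      have : Nat.ble (k + 1) i = true := e
      have := Nat.le_of_ble_eq_true this
      omega
  rw [hb, cond_false, cond_false_eq, cond_false_eq] at h
  obtain ⟨h1, h2, h3⟩ := h
  have hv : valid3 (tt i k) = true := (cond_false_eq.mp h1).1
  refine ⟨sg (tt i k) hv, sg_mem h1 hv, ?_, ?_⟩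
  · intro j hj
    have h4 := Nat.eq_of_beq_eq_true (allLt_iff.mp h2 j hj)
    have h5 : tau (tt i k) (pt3 j) = pt3 j := by
      show pt3 (nib (tt i k) (ix3 (pt3 j))) = pt3 j
      rw [ix3_pt3 (by omega), h4]
    conv_lhs => rw [← h5]
    rw [sg_apply]
  · have h5 : tau (tt i k) (pt3 i) = pt3 k := by
      show pt3 (nib (tt i k) (ix3 (pt3 i))) = pt3 k
      rw [ix3_pt3 (by omega), Nat.eq_of_beq_eq_true h3]
    rw [← h5, sg_apply]

theorem exists_std {f : ℕ → ArrayPt} (n : ℕ) (hn : n ≤ 5) (hf : ∀ i < n, ∀ j < n, f i = f j → i = j) :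
    ∃ g ∈ HG, ∀ i < n, g (f i) = pt3 i := by
  induction n with
  | zero => exact ⟨1, HG.one_mem, by simp⟩
  | succ n ih =>
    obtain ⟨g, hg, h1⟩ := ih (by omega) (fun i hi j hj => hf i (by omega) j (by omega))
    have hle : n ≤ ix3 (g (f n)) := by
      by_contra hlt
      push Not at hlt
      have h2 := h1 _ hlt
      rw [pt3_ix3] at h2
      have h3 := hf _ (by omega) n (by omega) (g.injective h2)
      omega
    obtain ⟨k, hk, h2, h3⟩ := tt_spec (i := n) (k := ix3 (g (f n))) (by omega) (ix3_lt _) hle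
    refine ⟨k * g, HG.mul_mem hk hg, ?_⟩
    intro i hi
    rw [Equiv.Perm.mul_apply]
    rcases Nat.lt_succ_iff_lt_or_eq.mp hi with h4 | h4
    · rw [h1 i h4, h2 i h4]
    · subst h4
      rw [pt3_ix3] at h3
      exact h3

/-! ### rigidity -/

theorem mem_smul3 (σ : Equiv.Perm ArrayPt) (s : Finset ArrayPt) (p : ArrayPt) : σ p ∈ σ • s ↔ p ∈ s :=
  Finset.smul_mem_smul_finset_iff (a := σ) (b := p) (s := s)

theorem lt_of_testBit {a i n : ℕ} (ha : a < 2 ^ n) (h : a.testBit i = true) : i < n := by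
  by_contra hcon
  push Not at hcon
  rw [Nat.testBit_lt_two_pow (lt_of_lt_of_le ha (Nat.pow_le_pow_right (by norm_num) hcon))] at h
  exact absurd h (by decide)

theorem comp_lemma {σ : Equiv.Perm ArrayPt} (hσ : σ ∈ setSystemAut HX) (h6 : ∀ i < 6, σ (pt3 i) = pt3 i)
    {a p x k k' : ℕ} (ha : a < 64) (hp : p < 12) (hx : x < 12) (hk : k < 12) (hk' : k' < 12)
    (hpx : σ (pt3 p) = pt3 x) (h1 : compl1 (a ||| 2 ^ p) k = true) (h2 : compl1 (a ||| 2 ^ x) k' = true)
    (h5 : pcR 12 (a ||| 2 ^ x) = 5) : σ (pt3 k) = pt3 k' := by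
  have hσ' : ∀ b ∈ HX, σ • b ∈ HX := by
    intro b hb
    have h3 : σ • HX = HX := hσ
    rw [← h3]
    exact Set.smul_mem_smul_set hb
  have lt12 : ∀ {m j : ℕ}, m < 4096 → j < 12 → m ||| 2 ^ j < 4096 := fun hm hj =>
    Nat.or_lt_two_pow (n := 12) hm (Nat.pow_lt_pow_right (by norm_num) hj)
  have ha' : a < 4096 := by omega
  rw [compl1_iff] at h1 h2
  have hH : mset3 (a ||| 2 ^ p ||| 2 ^ k) ∈ HX := (mset3_mem_HX (lt12 (lt12 ha' hp) hk)).mpr h1.2
  have hH' : mset3 (a ||| 2 ^ x ||| 2 ^ k') ∈ HX := (mset3_mem_HX (lt12 (lt12 ha' hx) hk')).mpr h2.2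
  have hfix : ∀ q ∈ mset3 a, σ q = q := by
    intro q hq
    rw [mem_mset3] at hq
    have := lt_of_testBit (n := 6) (by norm_num; exact ha) hq
    have := h6 _ this
    rwa [pt3_ix3] at this
  rw [mset3_insert _ _ hk, mset3_insert _ _ hp] at hH
  rw [mset3_insert _ _ hk'] at hH'
  have hcard : (mset3 (a ||| 2 ^ x)).card = 5 := by rw [card_mset3, h5]
  have hsub : mset3 (a ||| 2 ^ x) ⊆ σ • (insert (pt3 k) (insert (pt3 p) (mset3 a))) := by
    rw [mset3_insert _ _ hx]
    intro q hq
    rw [Finset.mem_insert] at hq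
    rcases hq with rfl | hq
    · rw [← hpx, mem_smul3]; simp
    · rw [← hfix q hq, mem_smul3]; simp [hq]
  obtain ⟨b, _, hb⟩ := hexads_steiner.2 _ hcard
  have e : σ • (insert (pt3 k) (insert (pt3 p) (mset3 a))) = insert (pt3 k') (mset3 (a ||| 2 ^ x)) := by
    rw [hb _ ⟨hσ' _ hH, hsub⟩, hb _ ⟨hH', Finset.subset_insert _ _⟩]
  have hk'n : pt3 k' ∉ mset3 (a ||| 2 ^ x) := by
    rw [mem_mset3, ix3_pt3 hk', h2.1]; decide
  have hmem : pt3 k' ∈ σ • (insert (pt3 k) (insert (pt3 p) (mset3 a))) := by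
    rw [e]; simp
  obtain ⟨z, hz⟩ := σ.surjective (pt3 k')
  rw [← hz, mem_smul3] at hmem
  simp only [Finset.mem_insert] at hmem
  rw [mset3_insert _ _ hx, Finset.mem_insert, not_or] at hk'n
  rcases hmem with rfl | rfl | hm
  · exact hz
  · exfalso
    exact hk'n.1 (hz.symm.trans hpx)
  · exfalso
    apply hk'n.2
    rw [← hz, hfix z hm]
    exact hm

theorem rigid {σ : Equiv.Perm ArrayPt} (hσ : σ ∈ setSystemAut HX) (h5 : ∀ i < 5, σ (pt3 i) = pt3 i) : σ = 1 := by
  have h6 : ∀ i < 6, σ (pt3 i) = pt3 i := by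
    have hlt : ∀ q ∈ mset3 15, σ q = q := by
      intro q hq
      rw [mem_mset3] at hq
      have := lt_of_testBit (a := 15) (n := 4) (by norm_num) hq
      have := h5 (ix3 q) (by omega)
      rwa [pt3_ix3] at this
    -- the hexad through the first five points
    have hH : mset3 63 ∈ HX := (mset3_mem_HX (by norm_num)).mpr (by decide +kernel)
    have hσH : σ • mset3 63 ∈ HX := by
      have h3 : σ • HX = HX := hσ
      rw [← h3]
      exact Set.smul_mem_smul_set hH
    have hcard : (mset3 31).card = 5 := by rw [card_mset3]; decide +kernel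
    obtain ⟨b, _, hb⟩ := hexads_steiner.2 _ hcard
    have hs : mset3 31 ⊆ mset3 63 := by
      intro q hq
      rw [mem_mset3] at hq ⊢
      have : ∀ q : ArrayPt, (31 : ℕ).testBit (ix3 q) = true → (63 : ℕ).testBit (ix3 q) = true := by decide +kernel
      exact this q hq
    have h31 : ∀ q ∈ mset3 31, σ q = q := by
      intro q hq
      rw [mem_mset3] at hq
      have := lt_of_testBit (a := 31) (n := 5) (by norm_num) hq
      have := h5 _ this
      rwa [pt3_ix3] at this
    have hs' : mset3 31 ⊆ σ • mset3 63 := by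
      intro q hq
      rw [← h31 q hq, mem_smul3]
      exact hs hq
    have e : σ • mset3 63 = mset3 63 := by
      rw [hb _ ⟨hσH, hs'⟩, hb _ ⟨hH, hs⟩]
    intro i hi
    by_cases hi5 : i < 5
    · exact h5 i hi5
    have : i = 5 := by omega
    subst this
    have h1 : σ (pt3 5) ∈ mset3 63 := by
      rw [← e, mem_smul3, mem_mset3]
      decide +kernel
    have h2 : ∀ q : ArrayPt, (63 : ℕ).testBit (ix3 q) = true → (31 : ℕ).testBit (ix3 q) = true ∨ q = pt3 5 := by
      decide +kernel
    rcases h2 _ (mem_mset3.mp h1) with h3 | h3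
    · exfalso
      have h4 := h31 _ (mem_mset3.mpr h3)
      have h7 := σ.injective h4
      rw [h7] at h3
      exact absurd h3 (by decide +kernel)
    · exact h3
  have hσ6 : ∀ j < 6, ¬ σ (pt3 6) = pt3 j := by
    intro j hj e
    rw [← h6 j hj] at e
    have := congrArg ix3 (σ.injective e)
    rw [ix3_pt3 (by norm_num), ix3_pt3 (by omega)] at this
    omega
  have h66 : σ (pt3 6) = pt3 6 := by
    have hx : ∃ x < 12, σ (pt3 6) = pt3 x := ⟨ix3 (σ (pt3 6)), ix3_lt _, (pt3_ix3 _).symm⟩
    obtain ⟨x, hxlt, hx⟩ := hx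
    interval_cases x
    · exact absurd (hσ6 0 (by norm_num) hx) id
    · exact absurd (hσ6 1 (by norm_num) hx) id
    · exact absurd (hσ6 2 (by norm_num) hx) id
    · exact absurd (hσ6 3 (by norm_num) hx) id
    · exact absurd (hσ6 4 (by norm_num) hx) id
    · exact absurd (hσ6 5 (by norm_num) hx) id
    · exact hx
    · exfalso
      have e1 := comp_lemma hσ h6 (a := 60) (p := 6) (x := 7) (k := 11) (k' := 9) (by norm_num) (by norm_num) (by norm_num)
        (by norm_num) (by norm_num) hx (by decide +kernel) (by decide +kernel) (by decide +kernel)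
      have e2 := comp_lemma hσ h6 (a := 43) (p := 6) (x := 7) (k := 11) (k' := 8) (by norm_num) (by norm_num) (by norm_num)
        (by norm_num) (by norm_num) hx (by decide +kernel) (by decide +kernel) (by decide +kernel)
      exact absurd (e1.symm.trans e2) (by decide +kernel)
    · exfalso
      have e1 := comp_lemma hσ h6 (a := 60) (p := 6) (x := 8) (k := 11) (k' := 10) (by norm_num) (by norm_num) (by norm_num)
        (by norm_num) (by norm_num) hx (by decide +kernel) (by decide +kernel) (by decide +kernel)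
      have e2 := comp_lemma hσ h6 (a := 43) (p := 6) (x := 8) (k := 11) (k' := 7) (by norm_num) (by norm_num) (by norm_num)
        (by norm_num) (by norm_num) hx (by decide +kernel) (by decide +kernel) (by decide +kernel)
      exact absurd (e1.symm.trans e2) (by decide +kernel)
    · exfalso
      have e1 := comp_lemma hσ h6 (a := 60) (p := 6) (x := 9) (k := 11) (k' := 7) (by norm_num) (by norm_num) (by norm_num)
        (by norm_num) (by norm_num) hx (by decide +kernel) (by decide +kernel) (by decide +kernel)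
      have e2 := comp_lemma hσ h6 (a := 43) (p := 6) (x := 9) (k := 11) (k' := 10) (by norm_num) (by norm_num) (by norm_num)
        (by norm_num) (by norm_num) hx (by decide +kernel) (by decide +kernel) (by decide +kernel)
      exact absurd (e1.symm.trans e2) (by decide +kernel)
    · exfalso
      have e1 := comp_lemma hσ h6 (a := 60) (p := 6) (x := 10) (k := 11) (k' := 8) (by norm_num) (by norm_num) (by norm_num)
        (by norm_num) (by norm_num) hx (by decide +kernel) (by decide +kernel) (by decide +kernel)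
      have e2 := comp_lemma hσ h6 (a := 43) (p := 6) (x := 10) (k := 11) (k' := 9) (by norm_num) (by norm_num) (by norm_num)
        (by norm_num) (by norm_num) hx (by decide +kernel) (by decide +kernel) (by decide +kernel)
      exact absurd (e1.symm.trans e2) (by decide +kernel)
    · exfalso
      have e1 := comp_lemma hσ h6 (a := 58) (p := 6) (x := 11) (k := 10) (k' := 7) (by norm_num) (by norm_num) (by norm_num)
        (by norm_num) (by norm_num) hx (by decide +kernel) (by decide +kernel) (by decide +kernel)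
      have e2 := comp_lemma hσ h6 (a := 29) (p := 6) (x := 11) (k := 10) (k' := 9) (by norm_num) (by norm_num) (by norm_num)
        (by norm_num) (by norm_num) hx (by decide +kernel) (by decide +kernel) (by decide +kernel)
      exact absurd (e1.symm.trans e2) (by decide +kernel)
  have hall : ∀ r < 12, σ (pt3 r) = pt3 r := by
    intro r hr
    interval_cases r
    · exact h6 0 (by norm_num)
    · exact h6 1 (by norm_num)
    · exact h6 2 (by norm_num)
    · exact h6 3 (by norm_num)
    · exact h6 4 (by norm_num)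
    · exact h6 5 (by norm_num)
    · exact h66
    · exact comp_lemma hσ h6 (a := 30) (p := 6) (x := 6) (k := 7) (k' := 7) (by norm_num) (by norm_num) (by norm_num)
        (by norm_num) (by norm_num) h66 (by decide +kernel) (by decide +kernel) (by decide +kernel)
    · exact comp_lemma hσ h6 (a := 46) (p := 6) (x := 6) (k := 8) (k' := 8) (by norm_num) (by norm_num) (by norm_num)
        (by norm_num) (by norm_num) h66 (by decide +kernel) (by decide +kernel) (by decide +kernel)
    · exact comp_lemma hσ h6 (a := 54) (p := 6) (x := 6) (k := 9) (k' := 9) (by norm_num) (by norm_num) (by norm_num)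
        (by norm_num) (by norm_num) h66 (by decide +kernel) (by decide +kernel) (by decide +kernel)
    · exact comp_lemma hσ h6 (a := 58) (p := 6) (x := 6) (k := 10) (k' := 10) (by norm_num) (by norm_num) (by norm_num)
        (by norm_num) (by norm_num) h66 (by decide +kernel) (by decide +kernel) (by decide +kernel)
    · exact comp_lemma hσ h6 (a := 60) (p := 6) (x := 6) (k := 11) (k' := 11) (by norm_num) (by norm_num) (by norm_num)
        (by norm_num) (by norm_num) h66 (by decide +kernel) (by decide +kernel) (by decide +kernel)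
  ext1 q
  have := hall (ix3 q) (ix3_lt q)
  rwa [pt3_ix3] at this

theorem HG_eq : HG = setSystemAut HX := by
  apply le_antisymm HG_le
  intro σ hσ
  obtain ⟨g, hg, h1⟩ := exists_std (f := fun i => σ (pt3 i)) 5 le_rfl (by
    intro i hi j hj e
    have := congrArg ix3 (σ.injective e)
    rwa [ix3_pt3 (by omega), ix3_pt3 (by omega)] at this)
  have h2 : g * σ = 1 := rigid ((setSystemAut HX).mul_mem (HG_le hg) hσ) (fun i hi => h1 i hi)
  rw [← inv_eq_of_mul_eq_one_right h2]
  exact HG.inv_mem hg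

theorem card_emb : Nat.card (Fin 5 ↪ ArrayPt) = 95040 := by
  rw [Nat.card_eq_fintype_card, Fintype.card_embedding_eq, card_pt3, Fintype.card_fin]
  rfl

theorem card_HG : Nat.card HG = 95040 := by
  rw [← card_emb]
  symm
  have hex : ∀ x : Fin 5 ↪ ArrayPt, ∃ g ∈ HG, ∀ i : Fin 5, g (x i) = pt3 i := by
    intro x
    obtain ⟨g, hg, h⟩ := exists_std (f := fun i => if h : i < 5 then x ⟨i, h⟩ else pt3 0) 5 le_rfl (by
      intro i hi j hj e
      simp only [hi, hj, dif_pos] at e
      exact congrArg Fin.val (x.injective e))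
    refine ⟨g, hg, fun i => ?_⟩
    have := h i i.2
    simp only [i.2, dif_pos] at this
    exact this
  choose g hg hgx using hex
  refine Nat.card_congr (Equiv.ofBijective (fun x => (⟨g x, hg x⟩ : HG)) ⟨?_, ?_⟩)
  · intro x y e
    have e' : g x = g y := congrArg Subtype.val e
    apply DFunLike.ext
    intro i
    apply (g x).injective
    rw [hgx, e', hgx]
  · rintro ⟨k, hk⟩
    let x : Fin 5 ↪ ArrayPt := ⟨fun i => k⁻¹ (pt3 i), by
      intro i j e
      have := congrArg ix3 (k⁻¹.injective e)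
      rw [ix3_pt3 (by omega), ix3_pt3 (by omega)] at this
      exact Fin.ext this⟩
    refine ⟨x, ?_⟩
    apply Subtype.ext
    show g x = k
    have h1 : g x * k⁻¹ = 1 := by
      apply rigid ((setSystemAut HX).mul_mem (HG_le (hg x)) (HG_le (HG.inv_mem hk)))
      intro i hi
      exact hgx x ⟨i, hi⟩
    exact mul_inv_eq_one.mp h1

theorem pres_scalar {σ : Equiv.Perm ArrayPt} {c : ArrayPt → (ZMod 3)ˣ} (h : Pres σ c) (u : (ZMod 3)ˣ) :
    Pres σ (fun i => u * c i) := by
  intro x hx
  have : monomialMap σ (fun i => u * c i) x = (u : ZMod 3) • monomialMap σ c x := by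
    funext i
    simp [monomialMap, mul_assoc]
  rw [this]
  exact Submodule.smul_mem _ _ (h x hx)

theorem card_pres : Nat.card {f : Equiv.Perm ArrayPt × (ArrayPt → (ZMod 3)ˣ) // Pres f.1 f.2} = 190080 := by
  have hex : ∀ σ : HG, ∃ c, Pres σ.1 c := fun σ => σ.2
  choose c hc using hex
  have e : (HG × (ZMod 3)ˣ) ≃ {f : Equiv.Perm ArrayPt × (ArrayPt → (ZMod 3)ˣ) // Pres f.1 f.2} := by
    refine Equiv.ofBijective (fun p => ⟨(p.1.1, fun i => p.2 * c p.1 i), pres_scalar (hc p.1) p.2⟩) ⟨?_, ?_⟩
    · rintro ⟨σ, u⟩ ⟨τ, v⟩ h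
      have h1 := congrArg (fun z => z.1.1) h
      have h2 := congrArg (fun z => z.1.2) h
      simp only at h1 h2
      have h1' : σ = τ := Subtype.ext h1
      subst h1'
      have h3 := congrFun h2 (pt3 0)
      simp only [mul_left_inj] at h3
      rw [h3]
    · rintro ⟨⟨σ, d⟩, hd⟩
      have hσ : σ ∈ HG := ⟨d, hd⟩
      have h1 := pres_mul hd (pres_inv (hc ⟨σ, hσ⟩))
      rw [mul_inv_cancel] at h1
      have h2 := diag_const _ h1
      refine ⟨(⟨σ, hσ⟩, d (pt3 0) * (c ⟨σ, hσ⟩ (pt3 0))⁻¹), ?_⟩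
      apply Subtype.ext
      refine Prod.ext rfl ?_
      funext i
      show d (pt3 0) * (c ⟨σ, hσ⟩ (pt3 0))⁻¹ * c ⟨σ, hσ⟩ i = d i
      have h3 := h2 (pt3 0) i
      simp only [Equiv.apply_symm_apply] at h3
      rw [h3, inv_mul_cancel_right]
  rw [← Nat.card_congr e, Nat.card_prod, card_HG, Nat.card_eq_fintype_card]
  decide

end Cfsg.Agent.Lib.TernAut
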