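import Cfsg.Prelude.Def_SporadicCombinatorics
import Cfsg.Agent.Lib.GolaySteiner

/-!
Computational model of the ternary code of length 12 of `Def_SporadicCombinatorics`.
-/

set_option autoImplicit false

namespace Cfsg.Agent.Lib.TernGolay

open Cfsg Cfsg.Agent.Lib.Golay

/-! ### explicit linear conditions -/

theorem mem_tetracode_iff {t : Fin 4 → ZMod 3} :
    t ∈ tetracode ↔ ∃ a b : ZMod 3, t = ![b, a, a + b, a + 2 * b] := by
  unfold tetracode
  rw [Submodule.mem_span_pair]
  refine exists_congr fun a => exists_congr fun b => ?_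
  constructor
  · rintro rfl
    funext i
    fin_cases i <;> simp <;> ring
  · rintro rfl
    funext i
    fin_cases i <;> simp <;> ring

theorem sum_zmod3 (f : ZMod 3 → ZMod 3) : ∑ r, f r = f 0 + f 1 + f 2 :=
  Fin.sum_univ_three f

theorem isWord_iff {x : ArrayPt → ZMod 3} : x ∈ ternaryGolayCode ↔
    ∃ s : ZMod 3, (∀ i : Fin 4, x (i, 0) + x (i, 1) + x (i, 2) = -s) ∧
      ∀ a b : ZMod 3, x (0, b) + x (1, a) + x (2, a + b) + x (3, a + 2 * b) = s := by
  show IsTernaryGolayWord x ↔ _
  unfold IsTernaryGolayWord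
  refine exists_congr fun s => and_congr ?_ ?_
  · refine forall_congr' fun i => ?_
    rw [sum_zmod3 (fun r => x (i, r))]
  · constructor
    · intro h a b
      have := h _ (mem_tetracode_iff.mpr ⟨a, b, rfl⟩)
      rw [Fin.sum_univ_four] at this
      simpa using this
    · rintro h t ht
      obtain ⟨a, b, rfl⟩ := mem_tetracode_iff.mp ht
      rw [Fin.sum_univ_four]
      simpa using h a b

/-- a code word vanishing on six information positions is zero -/
theorem eq_zero_of_info {x : ArrayPt → ZMod 3} (hx : x ∈ ternaryGolayCode)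
    (h0 : x (0, 0) = 0) (h1 : x (0, 1) = 0) (h2 : x (0, 2) = 0) (h3 : x (1, 0) = 0)
    (h4 : x (1, 1) = 0) (h6 : x (2, 0) = 0) : x = 0 := by
  obtain ⟨s, hc, ht⟩ := isWord_iff.mp hx
  have hs : s = 0 := by
    have := hc 0
    rw [h0, h1, h2] at this
    simpa using this.symm
  subst hs
  have h5 : x (1, 2) = 0 := by
    have := hc 1
    rw [h3, h4] at this
    simpa using this
  have hx0 : ∀ b : ZMod 3, x (0, b) = 0 := by
    intro b
    have : ∀ b : ZMod 3, b = 0 ∨ b = 1 ∨ b = 2 := by decide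
    rcases this b with rfl | rfl | rfl <;> assumption
  have hx1 : ∀ b : ZMod 3, x (1, b) = 0 := by
    intro b
    have : ∀ b : ZMod 3, b = 0 ∨ b = 1 ∨ b = 2 := by decide
    rcases this b with rfl | rfl | rfl <;> assumption
  have h23 : ∀ c d : ZMod 3, x (2, c) + x (3, d) = 0 := by
    intro c d
    have := ht (2 * c - d) (d - c)
    rw [hx0, hx1, zero_add, zero_add] at this
    rw [← this]
    congr 3
    · ring
    · ring
  have hx3 : ∀ d : ZMod 3, x (3, d) = 0 := by
    intro d
    have := h23 0 d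
    rwa [h6, zero_add] at this
  have hx2 : ∀ c : ZMod 3, x (2, c) = 0 := by
    intro c
    have := h23 c 0
    rwa [hx3, add_zero] at this
  funext ⟨i, r⟩
  fin_cases i
  · exact hx0 r
  · exact hx1 r
  · exact hx2 r
  · exact hx3 r

/-! ### numbering -/

/-- number of a position -/
def ix3 (p : ArrayPt) : ℕ := 3 * p.1.val + ZMod.val p.2

/-- position with a given number -/
def pt3 (n : ℕ) : ArrayPt := (Fin.ofNat 4 (n / 3), (Nat.cast n : ZMod 3))

theorem ix3_lt : ∀ p : ArrayPt, ix3 p < 12 := by decide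

theorem pt3_ix3 : ∀ p : ArrayPt, pt3 (ix3 p) = p := by decide

theorem ix3_pt3_fin : ∀ n : Fin 12, ix3 (pt3 n) = n := by decide

theorem ix3_pt3 {n : ℕ} (h : n < 12) : ix3 (pt3 n) = n := ix3_pt3_fin ⟨n, h⟩

theorem ix3_injective : Function.Injective ix3 := fun p q h => by
  rw [← pt3_ix3 p, ← pt3_ix3 q, h]

theorem ix3_inj {p q : ArrayPt} : ix3 p = ix3 q ↔ p = q := ix3_injective.eq_iff

/-- numbering as an equivalence -/
def ixEquiv3 : ArrayPt ≃ Fin 12 where
  toFun p := ⟨ix3 p, ix3_lt p⟩
  invFun n := pt3 n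
  left_inv p := pt3_ix3 p
  right_inv n := Fin.ext (ix3_pt3 n.2)

theorem card_pt3 : Fintype.card ArrayPt = 12 := by decide

/-! ### sets as 12-bit masks -/

/-- The set with bit pattern `m`. -/
def mset3 (m : ℕ) : Finset ArrayPt := Finset.univ.filter fun p => m.testBit (ix3 p) = true

@[simp] theorem mem_mset3 {m : ℕ} {p : ArrayPt} : p ∈ mset3 m ↔ m.testBit (ix3 p) = true := by
  simp [mset3]

theorem mset3_zero : mset3 0 = ∅ := by ext p; simp

theorem mset3_injOn {a b : ℕ} (ha : a < 4096) (hb : b < 4096) (h : mset3 a = mset3 b) : a = b := by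
  apply Nat.eq_of_testBit_eq
  intro i
  by_cases hi : i < 12
  · have := congrArg (fun s => pt3 i ∈ s) h
    simp only [mem_mset3, ix3_pt3 hi, eq_iff_iff] at this
    exact Bool.eq_iff_iff.mpr this
  · have hi' : 12 ≤ i := Nat.le_of_not_lt hi
    rw [Nat.testBit_lt_two_pow (lt_of_lt_of_le ha (by
        calc 4096 = 2 ^ 12 := by norm_num
          _ ≤ 2 ^ i := Nat.pow_le_pow_right (by norm_num) hi')),
      Nat.testBit_lt_two_pow (lt_of_lt_of_le hb (by
        calc 4096 = 2 ^ 12 := by norm_num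
          _ ≤ 2 ^ i := Nat.pow_le_pow_right (by norm_num) hi'))]

theorem mset3_insert (m k : ℕ) (hk : k < 12) : mset3 (m ||| 2 ^ k) = insert (pt3 k) (mset3 m) := by
  ext q
  simp only [mem_mset3, Nat.testBit_or, Nat.testBit_two_pow, Finset.mem_insert, Bool.or_eq_true,
    decide_eq_true_eq]
  rw [show (k = ix3 q ↔ q = pt3 k) from ⟨fun h => by rw [h, pt3_ix3], fun h => by rw [h, ix3_pt3 hk]⟩]
  tauto

theorem exists_mset3 (s : Finset ArrayPt) : ∃ m < 4096, mset3 m = s := by
  classical
  induction s using Finset.induction_on with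
  | empty => exact ⟨0, by norm_num, mset3_zero⟩
  | insert p s _ ih =>
    obtain ⟨m, hm, rfl⟩ := ih
    refine ⟨m ||| 2 ^ ix3 p, ?_, ?_⟩
    · exact Nat.or_lt_two_pow (n := 12) hm (Nat.pow_lt_pow_right (by norm_num) (ix3_lt p))
    · rw [mset3_insert _ _ (ix3_lt p), pt3_ix3]

theorem card_mset3 (m : ℕ) : (mset3 m).card = pcR 12 m := by
  rw [pcR_eq, mset3, Finset.card_filter]
  rw [← Fin.sum_univ_eq_sum_range (fun i => (m.testBit i).toNat) 12]
  rw [← ixEquiv3.sum_comp]
  apply Finset.sum_congr rfl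
  intro p _
  show _ = (m.testBit (ix3 p)).toNat
  cases m.testBit (ix3 p) <;> rfl

/-! ### code words by number -/

/-- 2-bit digit -/
def dg (n k : ℕ) : ℕ := Nat.land (Nat.shiftRight n (Nat.mul 2 k)) 3

/-- ternary digit `k` of code word number `n` (`n < 729`) -/
def cw (n k : ℕ) : ℕ :=
  Nat.mod (Nat.add (Nat.mul (Nat.mod n 3) (dg 9765889 k))
    (Nat.add (Nat.mul (Nat.mod (Nat.div n 3) 3) (dg 9077764 k))
    (Nat.add (Nat.mul (Nat.mod (Nat.div n 9) 3) (dg 5784592 k))
    (Nat.add (Nat.mul (Nat.mod (Nat.div n 27) 3) (dg 1673280 k))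
    (Nat.add (Nat.mul (Nat.mod (Nat.div n 81) 3) (dg 9586944 k))
    (Nat.mul (Nat.mod (Nat.div n 243) 3) (dg 11096064 k))))))) 3


/-- basis word from its packed digits -/
def gw (g : ℕ) : ArrayPt → ZMod 3 := fun p => ((dg g (ix3 p) : ℕ) : ZMod 3)

/-- code word number `n` -/
def word (n : ℕ) : ArrayPt → ZMod 3 := fun p => ((cw n (ix3 p) : ℕ) : ZMod 3)

theorem gw_mem (g : ℕ) (h : (∃ s : ZMod 3, (∀ i : Fin 4, gw g (i, 0) + gw g (i, 1) + gw g (i, 2) = -s) ∧
      ∀ a b : ZMod 3, gw g (0, b) + gw g (1, a) + gw g (2, a + b) + gw g (3, a + 2 * b) = s)) :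
    gw g ∈ ternaryGolayCode := isWord_iff.mpr h

theorem g0_mem : gw 9765889 ∈ ternaryGolayCode := gw_mem _ (by decide +kernel)
theorem g1_mem : gw 9077764 ∈ ternaryGolayCode := gw_mem _ (by decide +kernel)
theorem g2_mem : gw 5784592 ∈ ternaryGolayCode := gw_mem _ (by decide +kernel)
theorem g3_mem : gw 1673280 ∈ ternaryGolayCode := gw_mem _ (by decide +kernel)
theorem g4_mem : gw 9586944 ∈ ternaryGolayCode := gw_mem _ (by decide +kernel)
theorem g6_mem : gw 11096064 ∈ ternaryGolayCode := gw_mem _ (by decide +kernel)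

theorem word_eq (n : ℕ) : word n =
    ((n % 3 : ℕ) : ZMod 3) • gw 9765889 + (((n / 3 % 3 : ℕ) : ZMod 3) • gw 9077764 +
    (((n / 9 % 3 : ℕ) : ZMod 3) • gw 5784592 + (((n / 27 % 3 : ℕ) : ZMod 3) • gw 1673280 +
    (((n / 81 % 3 : ℕ) : ZMod 3) • gw 9586944 + ((n / 243 % 3 : ℕ) : ZMod 3) • gw 11096064)))) := by
  funext p
  show (((_ : ℕ) % 3 : ℕ) : ZMod 3) = _
  rw [ZMod.natCast_mod]
  simp only [Pi.add_apply, Pi.smul_apply, smul_eq_mul, gw]
  show ((((n % 3) * dg 9765889 (ix3 p)) + (((n / 3 % 3) * dg 9077764 (ix3 p)) +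
    (((n / 9 % 3) * dg 5784592 (ix3 p)) + (((n / 27 % 3) * dg 1673280 (ix3 p)) +
    (((n / 81 % 3) * dg 9586944 (ix3 p)) + ((n / 243 % 3) * dg 11096064 (ix3 p)))))) : ℕ) : ZMod 3) = _
  push_cast
  rfl

theorem word_mem (n : ℕ) : word n ∈ ternaryGolayCode := by
  rw [word_eq]
  exact Submodule.add_mem _ (Submodule.smul_mem _ _ g0_mem) <|
    Submodule.add_mem _ (Submodule.smul_mem _ _ g1_mem) <|
    Submodule.add_mem _ (Submodule.smul_mem _ _ g2_mem) <|
    Submodule.add_mem _ (Submodule.smul_mem _ _ g3_mem) <|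
    Submodule.add_mem _ (Submodule.smul_mem _ _ g4_mem) (Submodule.smul_mem _ _ g6_mem)

/-- number of a word from its information digits -/
def num (x : ArrayPt → ZMod 3) : ℕ :=
  ZMod.val (x (0, 0)) + 3 * ZMod.val (x (0, 1)) + 9 * ZMod.val (x (0, 2)) + 27 * ZMod.val (x (1, 0)) +
    81 * ZMod.val (x (1, 1)) + 243 * ZMod.val (x (2, 0))

theorem num_lt (x : ArrayPt → ZMod 3) : num x < 729 := by
  unfold num
  have h := fun z : ZMod 3 => ZMod.val_lt z
  have h0 := h (x (0, 0)); have h1 := h (x (0, 1)); have h2 := h (x (0, 2))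
  have h3 := h (x (1, 0)); have h4 := h (x (1, 1)); have h5 := h (x (2, 0))
  omega

theorem word_num {x : ArrayPt → ZMod 3} (hx : x ∈ ternaryGolayCode) : word (num x) = x := by
  have hsub : word (num x) - x ∈ ternaryGolayCode := Submodule.sub_mem _ (word_mem _) hx
  have h := fun z : ZMod 3 => ZMod.val_lt z
  have h0 := h (x (0, 0)); have h1 := h (x (0, 1)); have h2 := h (x (0, 2))
  have h3 := h (x (1, 0)); have h4 := h (x (1, 1)); have h5 := h (x (2, 0))
  have e0 : num x % 3 = ZMod.val (x (0, 0)) := by unfold num; omega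
  have e1 : num x / 3 % 3 = ZMod.val (x (0, 1)) := by unfold num; omega
  have e2 : num x / 9 % 3 = ZMod.val (x (0, 2)) := by unfold num; omega
  have e3 : num x / 27 % 3 = ZMod.val (x (1, 0)) := by unfold num; omega
  have e4 : num x / 81 % 3 = ZMod.val (x (1, 1)) := by unfold num; omega
  have e5 : num x / 243 % 3 = ZMod.val (x (2, 0)) := by unfold num; omega
  have hw : ∀ p, word (num x) p = x (0, 0) * gw 9765889 p + (x (0, 1) * gw 9077764 p +
      (x (0, 2) * gw 5784592 p + (x (1, 0) * gw 1673280 p +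
      (x (1, 1) * gw 9586944 p + x (2, 0) * gw 11096064 p)))) := by
    intro p
    rw [word_eq, e0, e1, e2, e3, e4, e5]
    simp only [ZMod.natCast_val, ZMod.cast_id', id, Pi.add_apply, Pi.smul_apply, smul_eq_mul]
  apply sub_eq_zero.mp
  have hg : ∀ (g : ℕ) (p : ArrayPt) , gw g p = gw g p := fun _ _ => rfl
  apply eq_zero_of_info hsub
  all_goals
    rw [Pi.sub_apply, hw, sub_eq_zero]
  · rw [show gw 9765889 (0, 0) = 1 by decide +kernel, show gw 9077764 (0, 0) = 0 by decide +kernel,
      show gw 5784592 (0, 0) = 0 by decide +kernel, show gw 1673280 (0, 0) = 0 by decide +kernel,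
      show gw 9586944 (0, 0) = 0 by decide +kernel, show gw 11096064 (0, 0) = 0 by decide +kernel]
    ring
  · rw [show gw 9765889 (0, 1) = 0 by decide +kernel, show gw 9077764 (0, 1) = 1 by decide +kernel,
      show gw 5784592 (0, 1) = 0 by decide +kernel, show gw 1673280 (0, 1) = 0 by decide +kernel,
      show gw 9586944 (0, 1) = 0 by decide +kernel, show gw 11096064 (0, 1) = 0 by decide +kernel]
    ring
  · rw [show gw 9765889 (0, 2) = 0 by decide +kernel, show gw 9077764 (0, 2) = 0 by decide +kernel,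
      show gw 5784592 (0, 2) = 1 by decide +kernel, show gw 1673280 (0, 2) = 0 by decide +kernel,
      show gw 9586944 (0, 2) = 0 by decide +kernel, show gw 11096064 (0, 2) = 0 by decide +kernel]
    ring
  · rw [show gw 9765889 (1, 0) = 0 by decide +kernel, show gw 9077764 (1, 0) = 0 by decide +kernel,
      show gw 5784592 (1, 0) = 0 by decide +kernel, show gw 1673280 (1, 0) = 1 by decide +kernel,
      show gw 9586944 (1, 0) = 0 by decide +kernel, show gw 11096064 (1, 0) = 0 by decide +kernel]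
    ring
  · rw [show gw 9765889 (1, 1) = 0 by decide +kernel, show gw 9077764 (1, 1) = 0 by decide +kernel,
      show gw 5784592 (1, 1) = 0 by decide +kernel, show gw 1673280 (1, 1) = 0 by decide +kernel,
      show gw 9586944 (1, 1) = 1 by decide +kernel, show gw 11096064 (1, 1) = 0 by decide +kernel]
    ring
  · rw [show gw 9765889 (2, 0) = 0 by decide +kernel, show gw 9077764 (2, 0) = 0 by decide +kernel,
      show gw 5784592 (2, 0) = 0 by decide +kernel, show gw 1673280 (2, 0) = 0 by decide +kernel,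
      show gw 9586944 (2, 0) = 0 by decide +kernel, show gw 11096064 (2, 0) = 1 by decide +kernel]
    ring

theorem mem_iff {x : ArrayPt → ZMod 3} : x ∈ ternaryGolayCode ↔ ∃ n < 729, x = word n :=
  ⟨fun h => ⟨num x, num_lt x, (word_num h).symm⟩, by rintro ⟨n, _, rfl⟩; exact word_mem n⟩

theorem num_word_all : allLt 729 (fun n =>
    Nat.beq (Nat.add (cw n 0) (Nat.add (Nat.mul 3 (cw n 1)) (Nat.add (Nat.mul 9 (cw n 2))
      (Nat.add (Nat.mul 27 (cw n 3)) (Nat.add (Nat.mul 81 (cw n 4)) (Nat.mul 243 (cw n 6))))))) n) = true := by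
  decide +kernel

theorem cw_lt (n k : ℕ) : cw n k < 3 := Nat.mod_lt _ (by norm_num)

theorem word_injOn {a b : ℕ} (ha : a < 729) (hb : b < 729) (h : word a = word b) : a = b := by
  have key : ∀ k < 12, cw a k = cw b k := by
    intro k hk
    have h1 := congrFun h (pt3 k)
    simp only [word, ix3_pt3 hk] at h1
    have h2 := congrArg ZMod.val h1
    rwa [ZMod.val_cast_of_lt (cw_lt _ _), ZMod.val_cast_of_lt (cw_lt _ _)] at h2
  have h1 := Nat.eq_of_beq_eq_true (allLt_iff.mp num_word_all a ha)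
  have h2 := Nat.eq_of_beq_eq_true (allLt_iff.mp num_word_all b hb)
  rw [key 0 (by norm_num), key 1 (by norm_num), key 2 (by norm_num), key 3 (by norm_num),
    key 4 (by norm_num), key 6 (by norm_num)] at h1
  exact h1.symm.trans h2

theorem natCard_code : Nat.card ternaryGolayCode = 729 := by
  have e : Fin 729 ≃ ternaryGolayCode := Equiv.ofBijective (fun n => ⟨word n, word_mem n⟩) ⟨
    fun a b h => Fin.ext (word_injOn a.2 b.2 (congrArg Subtype.val h)),
    fun w => by
      obtain ⟨n, hn, h⟩ := mem_iff.mp w.2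
      exact ⟨⟨n, hn⟩, Subtype.ext h.symm⟩⟩
  rw [← Nat.card_congr e, Nat.card_fin]

/-! ### supports -/

/-- mask of the support of code word `n` -/
def mk (n : ℕ) : ℕ :=
  Nat.rec (motive := fun _ => ℕ) 0 (fun k ih => cond (Nat.beq (cw n k) 0) ih (Nat.lor (Nat.shiftLeft 1 k) ih)) 12

theorem testBit_mk (n k : ℕ) : (mk n).testBit k = (decide (k < 12) && !Nat.beq (cw n k) 0) := by
  have : ∀ K : ℕ, (Nat.rec (motive := fun _ => ℕ) 0 (fun k ih => cond (Nat.beq (cw n k) 0) ih
      (Nat.lor (Nat.shiftLeft 1 k) ih)) K : ℕ).testBit k = (decide (k < K) && !Nat.beq (cw n k) 0) := by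
    intro K
    induction K with
    | zero => simp
    | succ K ih =>
      show (cond (Nat.beq (cw n K) 0) _ ((1 <<< K) ||| _) : ℕ).testBit k = _
      by_cases hK : k = K
      · subst hK
        cases h : Nat.beq (cw n k) 0
        · rw [cond_false, Nat.testBit_or, ih, Nat.one_shiftLeft, Nat.testBit_two_pow_self]
          simp [h]
        · rw [cond_true, ih, h]; simp
      · have hlt : (decide (k < K + 1) : Bool) = decide (k < K) := by
          rw [decide_eq_decide]; omega
        rw [hlt]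
        cases h : Nat.beq (cw n K) 0
        · rw [cond_false, Nat.testBit_or, ih, Nat.one_shiftLeft, Nat.testBit_two_pow_of_ne (Ne.symm hK),
            Bool.false_or]
        · rw [cond_true, ih]
  exact this 12

theorem mk_lt (n : ℕ) : mk n < 4096 := by
  apply Nat.lt_of_testBit 12 ?_ (by decide) ?_
  · rw [testBit_mk]; simp
  · intro j hj
    rw [testBit_mk]
    have h1 : ¬ j < 12 := by omega
    have h2 : (4096 : ℕ).testBit j = false := by
      rw [show (4096 : ℕ) = 2 ^ 12 by norm_num, Nat.testBit_two_pow_of_ne (by omega)]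
    simp [h1, h2]

theorem support_word (n : ℕ) : ternarySupport (word n) = mset3 (mk n) := by
  ext p
  rw [mem_mset3, ternarySupport, Finset.mem_filter, testBit_mk]
  have h1 := ix3_lt p
  simp only [Finset.mem_univ, true_and, word, h1, decide_true, Bool.true_and, Bool.not_eq_true']
  constructor
  · intro h
    cases h2 : Nat.beq (cw n (ix3 p)) 0
    · rfl
    · exfalso; apply h; rw [Nat.eq_of_beq_eq_true h2]; rfl
  · intro h h2
    have h3 := congrArg ZMod.val h2
    rw [ZMod.val_cast_of_lt (cw_lt _ _)] at h3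
    have : cw n (ix3 p) = 0 := h3
    rw [this] at h
    exact absurd h (by decide)

theorem card_support_word (n : ℕ) : (ternarySupport (word n)).card = pcR 12 (mk n) := by
  rw [support_word, card_mset3]

theorem ncard_weight (k : ℕ) : {x : ArrayPt → ZMod 3 | x ∈ ternaryGolayCode ∧ (ternarySupport x).card = k}.ncard =
    cntLt 729 (fun n => Nat.beq (pcR 12 (mk n)) k) := by
  have : {x : ArrayPt → ZMod 3 | x ∈ ternaryGolayCode ∧ (ternarySupport x).card = k} =
      (((Finset.range 729).filter (fun n => Nat.beq (pcR 12 (mk n)) k = true)).image word : Finset _) := by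
    ext u
    rw [Finset.mem_coe, Finset.mem_image]
    constructor
    · rintro ⟨h1, h2⟩
      obtain ⟨n, hn, rfl⟩ := mem_iff.mp h1
      refine ⟨n, ?_, rfl⟩
      rw [Finset.mem_filter, Finset.mem_range, Nat.beq_eq, ← card_support_word]
      exact ⟨hn, h2⟩
    · rintro ⟨n, hn, rfl⟩
      rw [Finset.mem_filter, Finset.mem_range, Nat.beq_eq, ← card_support_word] at hn
      exact ⟨mem_iff.mpr ⟨n, hn.1, rfl⟩, hn.2⟩
  rw [this, Set.ncard_coe_finset, Finset.card_image_of_injOn, cntLt_eq]
  intro a ha b hb h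
  simp only [Finset.coe_filter, Finset.mem_range, Set.mem_ofPred_eq] at ha hb
  exact word_injOn ha.1 hb.1 h

theorem weights_all3 : allLt 729 (fun n => cond (Nat.beq n 0) true
    (Nat.beq (Nat.land (Nat.shiftRight 4672 (pcR 12 (mk n))) 1) 1)) = true := by
  decide +kernel

theorem weight_cases3 {x : ArrayPt → ZMod 3} (hx : x ∈ ternaryGolayCode) (h0 : x ≠ 0) :
    (ternarySupport x).card = 6 ∨ (ternarySupport x).card = 9 ∨ (ternarySupport x).card = 12 := by
  obtain ⟨n, hn, rfl⟩ := mem_iff.mp hx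
  have hn0 : Nat.beq n 0 = false := by
    cases h : Nat.beq n 0
    · rfl
    · exfalso
      apply h0
      rw [Nat.eq_of_beq_eq_true h]
      funext p
      have : ∀ p, word 0 p = 0 := by decide +kernel
      exact this p
  have h := allLt_iff.mp weights_all3 n hn
  rw [hn0, cond_false] at h
  have h := Nat.eq_of_beq_eq_true h
  rw [card_support_word]
  have h2 := pcR_le 12 (mk n)
  revert h
  generalize pcR 12 (mk n) = w at *
  show (4672 >>> w) &&& 1 = 1 → _
  interval_cases w <;> decide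

end Cfsg.Agent.Lib.TernGolay
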