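import Cfsg.Agent.Lib.TernGolay

/-!
The hexads (supports of weight-6 words) of the ternary code of length 12: a Steiner system S(5,6,12).
-/

set_option autoImplicit false

namespace Cfsg.Agent.Lib.TernHexads

open Cfsg Cfsg.Agent.Lib.Golay Cfsg.Agent.Lib.TernGolay

/-- the family of hexads -/
abbrev HX : Set (Finset ArrayPt) :=
  {h : Finset ArrayPt | ∃ x ∈ ternaryGolayCode, ternarySupport x = h ∧ h.card = 6}

/-- bitmap of the hexads -/
def BM : ℕ := 56616434707392290493830608686343291913914207267407100963219031830768072610285952384273428868990593566594531319248978386164614129186098547051904027326856690386308343293234278131309831744515181060286237810205130283103071290812054500368720198549051777816520950195780427498749531016477947655071436515763187716147807729653932424073800312514691696682453497752566981157710252895858815880899027283754989393177790847186837342033871457340078508457877837459072047229248428918672118116567167685143878547773333450076844940658859214999325129602501558851104976923982750693009120964632814193991680354893635030030836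333415463315325253678746787809320187128156980823899637471492220311404941243786052492713182738134328711663684007242320418419141695329129535182791143355222521244263987029853496949810499493143085305780784673064128200836929668874800415841456585828974398871352587171226866468138417067278060298687515445872572279023192332183263791556260396583867539176980932805504251174452757142201001178607968280416838410976781783026036177284703664475156443601415081467147860243572819336534469608973602680420013884416783892022513924126910480808755978114617278929873061085508796110570687671481576307753911406027929554142807522829481803776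

/-- is the mask `m` a hexad -/
def isHex (m : ℕ) : Bool := Nat.beq (Nat.land (Nat.shiftRight BM m) 1) 1

/-- bitmap of the first `K` words -/
def bmR (K : ℕ) : ℕ :=
  Nat.rec (motive := fun _ => ℕ) 0 (fun n ih => cond (Nat.beq (pcR 12 (mk n)) 6)
    (Nat.lor (Nat.shiftLeft 1 (mk n)) ih) ih) K

theorem isHex_eq (m : ℕ) : isHex m = BM.testBit m := by
  unfold isHex
  show Nat.beq ((BM >>> m) &&& 1) 1 = _
  rw [Nat.testBit_eq_decide_div_mod_eq, Nat.and_one_is_mod, Nat.shiftRight_eq_div_pow]
  rcases Nat.mod_two_eq_zero_or_one (BM / 2 ^ m) with h | h <;> rw [h] <;> decide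

theorem bmR_testBit (K m : ℕ) : (bmR K).testBit m = true ↔ ∃ n < K, mk n = m ∧ pcR 12 (mk n) = 6 := by
  induction K with
  | zero => simp [bmR]
  | succ K ih =>
    have h : bmR (K + 1) = cond (Nat.beq (pcR 12 (mk K)) 6) ((1 <<< (mk K)) ||| bmR K) (bmR K) := rfl
    rw [h]
    cases h1 : Nat.beq (pcR 12 (mk K)) 6
    · rw [cond_false, ih]
      constructor
      · rintro ⟨n, hn, h2⟩; exact ⟨n, by omega, h2⟩
      · rintro ⟨n, hn, h2, h3⟩
        refine ⟨n, ?_, h2, h3⟩
        by_contra h4
        have : n = K := by omega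
        subst this
        rw [h3] at h1
        exact absurd h1 (by decide)
    · rw [cond_true, Nat.testBit_or, Bool.or_eq_true, ih, Nat.one_shiftLeft, Nat.testBit_two_pow,
        decide_eq_true_eq]
      have h1 := Nat.eq_of_beq_eq_true h1
      constructor
      · rintro (h2 | ⟨n, hn, h2⟩)
        · exact ⟨K, by omega, h2, h1⟩
        · exact ⟨n, by omega, h2⟩
      · rintro ⟨n, hn, h2, h3⟩
        by_cases h4 : n = K
        · left; rw [← h4]; exact h2
        · right; exact ⟨n, by omega, h2, h3⟩

theorem bm_eq : bmR 729 = BM := by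
  decide +kernel

theorem isHex_iff (m : ℕ) : isHex m = true ↔ ∃ n < 729, mk n = m ∧ pcR 12 (mk n) = 6 := by
  rw [isHex_eq, ← bm_eq, bmR_testBit]

theorem mem_HX {h : Finset ArrayPt} : h ∈ HX ↔ ∃ m < 4096, isHex m = true ∧ h = mset3 m := by
  constructor
  · rintro ⟨x, hx, hs, hc⟩
    obtain ⟨n, hn, rfl⟩ := mem_iff.mp hx
    rw [support_word] at hs
    refine ⟨mk n, mk_lt n, (isHex_iff _).mpr ⟨n, hn, rfl, ?_⟩, hs.symm⟩
    rw [← card_mset3, hs, hc]
  · rintro ⟨m, _, h1, rfl⟩
    obtain ⟨n, hn, rfl, h2⟩ := (isHex_iff _).mp h1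
    exact ⟨word n, word_mem n, support_word n, by rw [card_mset3, h2]⟩

theorem mset3_mem_HX {m : ℕ} (hm : m < 4096) : mset3 m ∈ HX ↔ isHex m = true := by
  rw [mem_HX]
  constructor
  · rintro ⟨m', hm', h1, h2⟩
    rwa [mset3_injOn hm hm' h2]
  · intro h
    exact ⟨m, hm, h, rfl⟩

theorem card_HX {h : Finset ArrayPt} (hh : h ∈ HX) : h.card = 6 := hh.choose_spec.2.2

/-- position `k` completes the 5-set `m` to a hexad -/
def compl1 (m k : ℕ) : Bool :=
  cond (Nat.beq (Nat.land (Nat.shiftRight m k) 1) 0) (isHex (Nat.lor m (Nat.shiftLeft 1 k))) false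

theorem steiner_all : allLt 4096 (fun m => cond (Nat.beq (pcR 12 m) 5)
    (Nat.beq (cntLt 12 (compl1 m)) 1) true) = true := by
  decide +kernel

theorem compl1_iff {m k : ℕ} : compl1 m k = true ↔ m.testBit k = false ∧ isHex (m ||| 2 ^ k) = true := by
  unfold compl1
  have h : (Nat.land (Nat.shiftRight m k) 1) = (m.testBit k).toNat := by
    show (m >>> k) &&& 1 = _
    rw [Nat.testBit_eq_decide_div_mod_eq, Nat.and_one_is_mod, Nat.shiftRight_eq_div_pow]
    rcases Nat.mod_two_eq_zero_or_one (m / 2 ^ k) with h | h <;> simp [h]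
  have h2 : Nat.lor m (Nat.shiftLeft 1 k) = m ||| 2 ^ k := by
    show m ||| (1 <<< k) = _
    rw [Nat.one_shiftLeft]
  rw [h, h2]
  cases m.testBit k <;> simp

theorem exists_unique_compl {m : ℕ} (hm : m < 4096) (h5 : pcR 12 m = 5) :
    ∃ k < 12, compl1 m k = true ∧ ∀ j < 12, compl1 m j = true → j = k := by
  have h := allLt_iff.mp steiner_all m hm
  rw [h5] at h
  have h := Nat.eq_of_beq_eq_true (show Nat.beq (cntLt 12 (compl1 m)) 1 = true from h)
  rw [cntLt_eq, Finset.card_eq_one] at h
  obtain ⟨k, hk⟩ := h
  have h1 : k ∈ (Finset.range 12).filter fun i => compl1 m i = true := by rw [hk]; simp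
  rw [Finset.mem_filter, Finset.mem_range] at h1
  refine ⟨k, h1.1, h1.2, ?_⟩
  intro j hj h2
  have : j ∈ (Finset.range 12).filter fun i => compl1 m i = true := by
    rw [Finset.mem_filter, Finset.mem_range]; exact ⟨hj, h2⟩
  rw [hk] at this
  simpa using this

theorem hexads_steiner : IsSteinerSystem 5 6 HX := by
  refine ⟨fun b hb => card_HX hb, fun s hs => ?_⟩
  obtain ⟨m, hm, rfl⟩ := exists_mset3 s
  rw [card_mset3] at hs
  obtain ⟨k, hk, h1, h2⟩ := exists_unique_compl hm hs
  have h3 := compl1_iff.mp h1
  have hlt : m ||| 2 ^ k < 4096 := Nat.or_lt_two_pow (n := 12) hm (Nat.pow_lt_pow_right (by norm_num) hk)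
  refine ⟨mset3 (m ||| 2 ^ k), ⟨(mset3_mem_HX hlt).mpr h3.2, ?_⟩, ?_⟩
  · rw [mset3_insert _ _ hk]; exact Finset.subset_insert _ _
  · rintro b ⟨hb, hsb⟩
    have hbc := card_HX hb
    have hsc : (mset3 m).card = 5 := by rw [card_mset3]; exact hs
    have hd : (b \ mset3 m).card = 1 := by
      rw [Finset.card_sdiff_of_subset hsb]; omega
    obtain ⟨p, hp⟩ := Finset.card_eq_one.mp hd
    have hb2 : b = insert p (mset3 m) := by
      rw [← Finset.union_sdiff_of_subset hsb, hp, Finset.union_comm]; rfl
    have hpm : p ∉ mset3 m := by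
      have : p ∈ b \ mset3 m := by rw [hp]; simp
      exact (Finset.mem_sdiff.mp this).2
    have hj := ix3_lt p
    have hbm : b = mset3 (m ||| 2 ^ ix3 p) := by
      rw [mset3_insert _ _ hj, pt3_ix3, hb2]
    have hlt2 : m ||| 2 ^ ix3 p < 4096 :=
      Nat.or_lt_two_pow (n := 12) hm (Nat.pow_lt_pow_right (by norm_num) hj)
    have : compl1 m (ix3 p) = true := by
      rw [compl1_iff]
      refine ⟨?_, (mset3_mem_HX hlt2).mp (hbm ▸ hb)⟩
      rw [mem_mset3] at hpm
      simpa using hpm
    have := h2 _ hj this
    rw [hbm, this]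

theorem ncard_HX : HX.ncard = 132 := by
  have : HX = (((Finset.range 4096).filter (fun m => isHex m = true)).image mset3 : Finset _) := by
    ext h
    rw [mem_HX, Finset.mem_coe, Finset.mem_image]
    constructor
    · rintro ⟨m, h1, h2, rfl⟩
      exact ⟨m, by rw [Finset.mem_filter, Finset.mem_range]; exact ⟨h1, h2⟩, rfl⟩
    · rintro ⟨m, h1, rfl⟩
      rw [Finset.mem_filter, Finset.mem_range] at h1
      exact ⟨m, h1.1, h1.2, rfl⟩
  rw [this, Set.ncard_coe_finset, Finset.card_image_of_injOn, ← cntLt_eq]
  · decide +kernel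
  · intro a ha b hb h
    simp only [Finset.coe_filter, Finset.mem_range, Set.mem_ofPred_eq] at ha hb
    exact mset3_injOn ha.1 hb.1 h

/-- Two code words of weight 6 with the same support are equal or opposite. -/
theorem eq_or_neg {x y : ArrayPt → ZMod 3} (hx : x ∈ ternaryGolayCode) (hy : y ∈ ternaryGolayCode)
    (hs : ternarySupport x = ternarySupport y) (h6 : (ternarySupport x).card = 6) :
    y = x ∨ y = -x := by
  by_contra hne
  push Not at hne
  have h1 := weight_cases3 (Submodule.sub_mem _ hy hx) (sub_ne_zero.mpr hne.1)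
  have h2 := weight_cases3 (Submodule.add_mem _ hy hx) (fun h => hne.2 (eq_neg_of_add_eq_zero_left h))
  have hd : Disjoint (ternarySupport (y - x)) (ternarySupport (y + x)) := by
    rw [Finset.disjoint_left]
    intro p hp hq
    simp only [ternarySupport, Finset.mem_filter, Finset.mem_univ, true_and, Pi.sub_apply,
      Pi.add_apply] at hp hq
    have hs1 : x p ≠ 0 ↔ y p ≠ 0 := by
      have := congrArg (fun s => p ∈ s) hs
      simpa [ternarySupport] using this
    revert hp hq hs1
    generalize x p = a
    generalize y p = b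
    revert a b
    decide
  have hsub : ternarySupport (y - x) ∪ ternarySupport (y + x) ⊆ ternarySupport x := by
    intro p hp
    simp only [ternarySupport, Finset.mem_union, Finset.mem_filter, Finset.mem_univ, true_and,
      Pi.sub_apply, Pi.add_apply] at hp ⊢
    have hs1 : x p ≠ 0 ↔ y p ≠ 0 := by
      have := congrArg (fun s => p ∈ s) hs
      simpa [ternarySupport] using this
    revert hp hs1
    generalize x p = a
    generalize y p = b
    revert a b
    decide
  have h3 := Finset.card_le_card hsub
  rw [Finset.card_union_of_disjoint hd] at h3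
  omega

theorem mem_ts {x : ArrayPt → ZMod 3} {p : ArrayPt} : p ∈ ternarySupport x ↔ x p ≠ 0 := by
  simp [ternarySupport]

/-- Diagonal maps preserving the code are constant. -/
theorem diag_const (c : ArrayPt → (ZMod 3)ˣ)
    (h : ∀ x ∈ ternaryGolayCode, monomialMap 1 c x ∈ ternaryGolayCode) : ∀ p q, c p = c q := by
  intro p q
  obtain ⟨s, hs, hs5⟩ := Finset.exists_superset_card_eq (s := {p, q}) (n := 5)
    (le_trans Finset.card_le_two (by norm_num)) (by rw [card_pt3]; norm_num)
  obtain ⟨b, ⟨⟨x, hx, hxs, hb6⟩, hsb⟩, _⟩ := hexads_steiner.2 s hs5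
  have hy := h x hx
  have hsup : ternarySupport x = ternarySupport (monomialMap 1 c x) := by
    ext r
    rw [mem_ts, mem_ts]
    show x r ≠ 0 ↔ (c r : ZMod 3) * x r ≠ 0
    constructor
    · intro h1 h2
      exact h1 ((Units.mul_right_eq_zero (c r)).mp h2)
    · intro h1 h2
      apply h1
      rw [h2, mul_zero]
  have hpx : x p ≠ 0 := by
    have : p ∈ ternarySupport x := by rw [hxs]; exact hsb (hs (by simp))
    simpa [ternarySupport] using this
  have hqx : x q ≠ 0 := by
    have : q ∈ ternarySupport x := by rw [hxs]; exact hsb (hs (by simp))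
    simpa [ternarySupport] using this
  have key : ∀ a b : ZMod 3, b ≠ 0 → a * b = b → a = 1 := by decide
  have key2 : ∀ a b : ZMod 3, b ≠ 0 → a * b = -b → a = -1 := by decide
  rcases eq_or_neg hx hy hsup (by rw [hxs]; exact hb6) with h1 | h1
  · have hp := congrFun h1 p
    have hq := congrFun h1 q
    exact Units.ext ((key _ _ hpx hp).trans (key _ _ hqx hq).symm)
  · have hp := congrFun h1 p
    have hq := congrFun h1 q
    exact Units.ext ((key2 _ _ hpx hp).trans (key2 _ _ hqx hq).symm)

end Cfsg.Agent.Lib.TernHexads
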