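import Cfsg.Agent.Lib.LargeExtra7

/-!
An extraspecial group of order `2 ^ 9` from nine elements (helper14).
-/

set_option autoImplicit false
set_option linter.all false

namespace Cfsg.Agent.Lib.ThC14A

open Subgroup Cfsg.Agent.Lib.LargeExtra

variable {G : Type*} [Group G]

/-- the data -/
structure D8 (a : G) (y : Fin 8 → G) : Prop where
  ha : a * a = 1
  ha1 : a ≠ 1
  hay : ∀ i, y i * a = a * y i
  hyy : ∀ i, y i * y i = 1
  hc : ∀ i j, i ≠ j → y i * y j = a * (y j * y i)

/-- the group generated -/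
def Q0 (a : G) (y : Fin 8 → G) : Subgroup G := Subgroup.closure (insert a (Set.range y))

theorem a_mem (a : G) (y : Fin 8 → G) : a ∈ Q0 a y := Subgroup.subset_closure (Set.mem_insert _ _)
theorem y_mem (a : G) (y : Fin 8 → G) (i : Fin 8) : y i ∈ Q0 a y :=
  Subgroup.subset_closure (Set.mem_insert_of_mem _ ⟨i, rfl⟩)

variable {a : G} {y : Fin 8 → G}

theorem D8.cen (h : D8 a y) {x : G} (hx : x ∈ Q0 a y) : x * a = a * x := by
  have h1 : Q0 a y ≤ Subgroup.centralizer {a} := by
    unfold Q0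
    rw [Subgroup.closure_le]
    rintro g (rfl | ⟨i, rfl⟩)
    · exact Subgroup.mem_centralizer_singleton_iff.2 rfl
    · exact Subgroup.mem_centralizer_singleton_iff.2 (h.hay i)
  exact Subgroup.mem_centralizer_singleton_iff.1 (h1 hx)

/-- the sign of the commutator -/
noncomputable def sg (a : G) (b x : G) : ℤˣ := by
  classical exact if b * x = x * b then 1 else -1

theorem D8.sg_eq (h : D8 a y) (i : Fin 8) {x : G} (hx : x ∈ Q0 a y) :
    (y i * x = x * y i ∧ sg a (y i) x = 1) ∨ (y i * x = a * (x * y i) ∧ sg a (y i) x = -1) := by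
  have key : y i * x = x * y i ∨ y i * x = a * (x * y i) := by
    unfold Q0 at hx
    induction hx using Subgroup.closure_induction with
    | mem g hg =>
      rcases hg with rfl | ⟨j, rfl⟩
      · exact Or.inl (h.hay i)
      · by_cases hij : i = j
        · subst hij; exact Or.inl rfl
        · exact Or.inr (h.hc i j hij)
    | one => left; rw [mul_one, one_mul]
    | mul g k hg hk ihg ihk =>
      have cg : g * a = a * g := h.cen hg
      rcases ihg with e1 | e1 <;> rcases ihk with e2 | e2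
      · left; rw [← mul_assoc, e1, mul_assoc, e2, mul_assoc]
      · right; rw [← mul_assoc, e1, mul_assoc, e2, ← mul_assoc, cg]; simp only [mul_assoc]
      · right; rw [← mul_assoc, e1]; simp only [mul_assoc]; rw [e2]
      · left
        rw [← mul_assoc, e1]
        calc a * (g * y i) * k = a * g * (y i * k) := by simp only [mul_assoc]
          _ = a * g * (a * (k * y i)) := by rw [e2]
          _ = a * (g * a) * (k * y i) := by simp only [mul_assoc]
          _ = (a * a) * g * (k * y i) := by rw [cg]; simp only [mul_assoc]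
          _ = g * k * y i := by rw [h.ha, one_mul, mul_assoc]
    | inv g hg ihg =>
      have cg : g * a = a * g := h.cen hg
      have cg' : g⁻¹ * a = a * g⁻¹ := h.cen ((Q0 a y).inv_mem hg)
      rcases ihg with e1 | e1
      · left
        have : g⁻¹ * (y i * g) * g⁻¹ = g⁻¹ * (g * y i) * g⁻¹ := by rw [e1]
        simpa [mul_assoc] using this.symm
      · right
        have : g⁻¹ * (y i * g) * g⁻¹ = g⁻¹ * (a * (g * y i)) * g⁻¹ := by rw [e1]
        have h2 : g⁻¹ * y i = a * (y i * g⁻¹) := by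
          calc g⁻¹ * y i = g⁻¹ * (y i * g) * g⁻¹ := by simp [mul_assoc]
            _ = g⁻¹ * (a * (g * y i)) * g⁻¹ := this
            _ = (g⁻¹ * a) * (g * y i) * g⁻¹ := by simp only [mul_assoc]
            _ = a * (g⁻¹ * (g * y i)) * g⁻¹ := by rw [cg']; simp only [mul_assoc]
            _ = a * (y i * g⁻¹) := by rw [inv_mul_cancel_left]; simp only [mul_assoc]
        rw [h2, ← mul_assoc a a, h.ha, one_mul]
  classical
  by_cases he : y i * x = x * y i
  · exact Or.inl ⟨he, by unfold sg; rw [if_pos he]⟩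
  · exact Or.inr ⟨key.resolve_left he, by unfold sg; rw [if_neg he]⟩

theorem D8.not_both (h : D8 a y) {b c : G} (h1 : b = c) (h2 : b = a * c) : False := by
  apply h.ha1
  have : a * c = 1 * c := by rw [← h2, one_mul]; exact h1
  exact mul_right_cancel this

/-- the commutator map -/
noncomputable def D8.kap (h : D8 a y) : Q0 a y →* (Fin 8 → ℤˣ) where
  toFun x := fun i => sg a (y i) x
  map_one' := by
    funext i
    show sg a (y i) 1 = 1
    unfold sg
    rw [if_pos (by rw [mul_one, one_mul])]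
  map_mul' g k := by
    funext i
    show sg a (y i) (g * k : G) = sg a (y i) g * sg a (y i) k
    have cg : (g : G) * a = a * g := h.cen g.2
    rcases h.sg_eq i g.2 with ⟨e1, s1⟩ | ⟨e1, s1⟩ <;> rcases h.sg_eq i k.2 with ⟨e2, s2⟩ | ⟨e2, s2⟩ <;>
      rcases h.sg_eq i (g * k).2 with ⟨e3, s3⟩ | ⟨e3, s3⟩ <;> rw [s1, s2] <;> rw [show ((g * k : Q0 a y) : G) = (g : G) * k from rfl] at s3 e3 <;> rw [s3]
    · rfl
    · exfalso
      refine h.not_both (b := y i * ((g : G) * k)) ?_ e3
      rw [← mul_assoc, e1, mul_assoc, e2, mul_assoc]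
    · exfalso
      refine h.not_both (b := y i * ((g : G) * k)) e3 ?_
      rw [← mul_assoc, e1, mul_assoc, e2, ← mul_assoc, cg]; simp only [mul_assoc]
    · rfl
    · exfalso
      refine h.not_both (b := y i * ((g : G) * k)) e3 ?_
      rw [← mul_assoc, e1]; simp only [mul_assoc]; rw [e2]
    · rfl
    · rfl
    · exfalso
      refine h.not_both (b := y i * ((g : G) * k)) ?_ e3
      rw [← mul_assoc, e1]
      calc a * ((g : G) * y i) * k = a * g * (y i * k) := by simp only [mul_assoc]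
        _ = a * g * (a * (k * y i)) := by rw [e2]
        _ = a * ((g : G) * a) * (k * y i) := by simp only [mul_assoc]
        _ = (a * a) * g * (k * y i) := by rw [cg]; simp only [mul_assoc]
        _ = g * k * y i := by rw [h.ha, one_mul, mul_assoc]

theorem D8.kap_apply (h : D8 a y) (x : Q0 a y) (i : Fin 8) : h.kap x i = sg a (y i) x := rfl

/-- the values on the generators -/
def vv (j : Fin 8) : Fin 8 → ℤˣ := fun i => if i = j then 1 else -1

theorem D8.kap_y (h : D8 a y) (j : Fin 8) : h.kap ⟨y j, y_mem a y j⟩ = vv j := by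
  funext i
  rw [h.kap_apply]
  unfold vv
  rcases h.sg_eq i (y_mem a y j) with ⟨e, s⟩ | ⟨e, s⟩
  · by_cases hij : i = j
    · rw [if_pos hij]; exact s
    · exact (h.not_both e (h.hc i j hij)).elim
  · by_cases hij : i = j
    · subst hij
      exact (h.not_both rfl e).elim
    · rw [if_neg hij]; exact s

theorem single_eq : ∀ i : Fin 8, Pi.mulSingle i (-1 : ℤˣ) = vv i * (vv 0 * vv 1 * vv 2 * vv 3 * vv 4 * vv 5 * vv 6 * vv 7) := by
  decide +kernel

theorem D8.kap_surj (h : D8 a y) : Function.Surjective h.kap := by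
  rw [← MonoidHom.range_eq_top, eq_top_iff]
  intro f _
  have hv : ∀ j, vv j ∈ h.kap.range := fun j => ⟨_, h.kap_y j⟩
  have hs : ∀ i, Pi.mulSingle i (f i) ∈ h.kap.range := by
    intro i
    rcases Int.units_eq_one_or (f i) with e | e
    · rw [e, Pi.mulSingle_one]; exact one_mem _
    · rw [e, single_eq]
      exact mul_mem (hv i) (mul_mem (mul_mem (mul_mem (mul_mem (mul_mem (mul_mem (mul_mem (hv 0) (hv 1)) (hv 2)) (hv 3)) (hv 4)) (hv 5)) (hv 6)) (hv 7))
  rw [← Finset.univ_prod_mulSingle f]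
  exact Subgroup.prod_mem _ fun i _ => hs i

theorem D8.kap_a (h : D8 a y) : h.kap ⟨a, a_mem a y⟩ = 1 := by
  funext i
  rw [h.kap_apply]
  rcases h.sg_eq i (a_mem a y) with ⟨e, s⟩ | ⟨e, s⟩
  · exact s
  · exact (h.not_both (h.hay i) e).elim

theorem D8.kap_comm (h : D8 a y) {x : G} (hx : x ∈ Q0 a y) (hk : h.kap ⟨x, hx⟩ = 1) :
    ∀ g ∈ Q0 a y, x * g = g * x := by
  have h1 : Q0 a y ≤ Subgroup.centralizer {x} := by
    unfold Q0
    rw [Subgroup.closure_le]
    rintro g (rfl | ⟨i, rfl⟩)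
    · exact Subgroup.mem_centralizer_singleton_iff.2 (h.cen hx).symm
    · have h2 := congrFun hk i
      rw [h.kap_apply] at h2
      rcases h.sg_eq i hx with ⟨e, s⟩ | ⟨e, s⟩
      · exact Subgroup.mem_centralizer_singleton_iff.2 e
      · rw [s] at h2
        exact absurd (show (-1 : ℤˣ) = 1 from h2) (by decide)
  intro g hg
  exact (Subgroup.mem_centralizer_singleton_iff.1 (h1 hg)).symm

theorem D8.card_eq (h : D8 a y) [Finite (Q0 a y)] : Nat.card (Q0 a y) = 256 * Nat.card h.kap.ker := by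
  have h1 := Subgroup.card_mul_index h.kap.ker
  rw [Subgroup.index_ker, MonoidHom.range_eq_top.2 h.kap_surj, Subgroup.card_top] at h1
  have h2 : Nat.card (Fin 8 → ℤˣ) = 256 := by
    rw [Nat.card_eq_fintype_card, Fintype.card_fun, Fintype.card_fin]
    rfl
  rw [h2] at h1
  omega

theorem D8.two_le (h : D8 a y) [Finite (Q0 a y)] : 2 ≤ Nat.card h.kap.ker := by
  have h1 : Nontrivial h.kap.ker := by
    refine ⟨⟨⟨a, a_mem a y⟩, h.kap_a⟩, 1, fun h2 => h.ha1 ?_⟩
    exact congrArg (fun x : h.kap.ker => ((x : Q0 a y) : G)) h2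
  exact (Finite.one_lt_card_iff_nontrivial).2 h1

/-- the conclusion -/
theorem extra [Finite G] (h : D8 a y) (Q : Subgroup G) (haQ : a ∈ Q) (hyQ : ∀ i, y i ∈ Q) (hcard : Nat.card Q ≤ 512) :
    Nat.card Q = 2 ^ 9 ∧ Cfsg.IsExtraspecial 2 Q := by
  have hle : Q0 a y ≤ Q := by
    unfold Q0
    rw [Subgroup.closure_le]
    rintro g (rfl | ⟨i, rfl⟩)
    · exact haQ
    · exact hyQ i
  have h1 := h.card_eq
  have h2 := h.two_le
  have h3 : Nat.card (Q0 a y) ≤ Nat.card Q := Subgroup.card_le_of_le hle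
  have hQ : Q0 a y = Q := Subgroup.eq_of_le_of_card_ge hle (by omega)
  have hk : Nat.card h.kap.ker = 2 := by omega
  have hcQ : Nat.card Q = 2 ^ 9 := by rw [← hQ, h1, hk]; norm_num
  refine ⟨hcQ, ?_⟩
  rw [← hQ]
  -- elements of the kernel
  have hker : ∀ x (hx : x ∈ Q0 a y), h.kap ⟨x, hx⟩ = 1 → x = 1 ∨ x = a := by
    intro x hx hx1
    by_contra hcon
    push Not at hcon
    have h5 : ({(1 : h.kap.ker), ⟨⟨a, a_mem a y⟩, h.kap_a⟩, ⟨⟨x, hx⟩, hx1⟩} : Set h.kap.ker).ncard ≤ 2 := by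
      rw [← hk]; exact Set.ncard_le_card _
    have h6 : (1 : h.kap.ker) ≠ ⟨⟨a, a_mem a y⟩, h.kap_a⟩ := fun e =>
      h.ha1 (congrArg (fun x : h.kap.ker => ((x : Q0 a y) : G)) e).symm
    have h7 : (1 : h.kap.ker) ≠ ⟨⟨x, hx⟩, hx1⟩ := fun e =>
      hcon.1 (congrArg (fun x : h.kap.ker => ((x : Q0 a y) : G)) e).symm
    have h8 : (⟨⟨a, a_mem a y⟩, h.kap_a⟩ : h.kap.ker) ≠ ⟨⟨x, hx⟩, hx1⟩ := fun e =>
      hcon.2 (congrArg (fun x : h.kap.ker => ((x : Q0 a y) : G)) e).symm
    rw [Set.ncard_eq_three.2 ⟨_, _, _, h6, h7, h8, rfl⟩] at h5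
    omega
  apply isExtraspecial_of_exData (z := a)
  apply ExData.of h.ha h.ha1 (a_mem a y)
  · intro q hq; exact h.cen hq
  · intro b hb c hc
    have hm : b * c * (c * b)⁻¹ ∈ Q0 a y := mul_mem (mul_mem hb hc) (inv_mem (mul_mem hc hb))
    have h5 : h.kap ⟨b * c * (c * b)⁻¹, hm⟩ = 1 := by
      have : (⟨b * c * (c * b)⁻¹, hm⟩ : Q0 a y) = ⟨b, hb⟩ * ⟨c, hc⟩ * (⟨c, hc⟩ * ⟨b, hb⟩)⁻¹ := rfl
      rw [this, map_mul, map_inv, map_mul, map_mul, mul_comm (h.kap ⟨c, hc⟩), mul_inv_cancel]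
    rcases hker _ hm h5 with e | e
    · left; exact mul_inv_eq_one.1 e
    · right; exact mul_inv_eq_iff_eq_mul.1 e
  · intro q hq hcen
    apply hker q hq
    funext i
    rw [h.kap_apply]
    rcases h.sg_eq i hq with ⟨e, s⟩ | ⟨e, s⟩
    · exact s
    · exact (h.not_both (hcen _ (y_mem a y i)).symm e).elim
  · refine ⟨y 0, y_mem a y 0, y 1, y_mem a y 1, fun e => ?_⟩
    exact h.not_both e (h.hc 0 1 (by decide))

end Cfsg.Agent.Lib.ThC14A
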