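import Cfsg.Agent.Lib.ThC2B
import Cfsg.Agent.Lib.ThC14A

/-!
The normal extraspecial subgroup of order `2 ^ 9` of the involution centralizer in Th (helper14).
-/

set_option autoImplicit false
set_option linter.all false
set_option maxRecDepth 100000
set_option Elab.async false

namespace Cfsg.Agent.Lib.ThC14

open Cfsg.Spor Cfsg.Agent.Lib.H58SM Cfsg.Agent.Lib.BenesWord Cfsg.Agent.Lib.MatF3 Cfsg.Agent.Lib.CosetGroup
open Cfsg.Agent.Lib.CoxBridge Cfsg.Agent.Lib.ThTab Cfsg.Agent.Lib.ThCTab Cfsg.Agent.Lib.ThRho Cfsg.Agent.Lib.ThC2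
open Cfsg.Agent.Lib.ThC14A

/-- the conjugating words `1, d, de, des, deS, dese, dess, desT` -/
def cw : ℕ → Wd
  | 0 => .one
  | 1 => .g 3
  | 2 => .mul (.g 3) (.g 4)
  | 3 => .mul (.g 3) (.mul (.g 4) (.g 5))
  | 4 => .mul (.g 3) (.mul (.g 4) (.inv (.g 5)))
  | 5 => .mul (.g 3) (.mul (.g 4) (.mul (.g 5) (.g 4)))
  | 6 => .mul (.g 3) (.mul (.g 4) (.mul (.g 5) (.g 5)))
  | _ => .mul (.g 3) (.mul (.g 4) (.mul (.g 5) (.inv (.g 6))))

/-- the conjugates of `c` -/
def yw (i : ℕ) : Wd := .mul (.inv (cw i)) (.mul (.g 2) (cw i))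

/-- the relation of a pair -/
def pr (i j : ℕ) : Bool := Nat.beq (ev (.mul (yw i) (yw j))) (ev (.mul (.g 0) (.mul (yw j) (yw i))))

/-- the relation with `a` -/
def cm (i : ℕ) : Bool := Nat.beq (ev (.mul (yw i) (.g 0))) (ev (.mul (.g 0) (yw i)))

theorem cm_all : (List.range 8).all cm = true := by decide +kernel

theorem pr0 : (List.range' 1 7).all (pr 0) = true := by decide +kernel
theorem pr1 : (List.range' 2 6).all (pr 1) = true := by decide +kernel
theorem pr2 : (List.range' 3 5).all (pr 2) = true := by decide +kernel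
theorem pr3 : (List.range' 4 4).all (pr 3) = true := by decide +kernel
theorem pr4 : (List.range' 5 3).all (pr 4) = true := by decide +kernel
theorem pr5 : (List.range' 6 2).all (pr 5) = true := by decide +kernel
theorem pr6 : (List.range' 7 1).all (pr 6) = true := by decide +kernel

theorem aa : Nat.beq (ev (.mul (.g 0) (.g 0))) one = true := by decide +kernel
theorem cc : Nat.beq (ev (.mul (.g 2) (.g 2))) one = true := by decide +kernel

theorem pr_lt : ∀ i j : ℕ, i < j → j < 8 → pr i j = true := by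
  intro i j hij hj
  have hm : ∀ (s n k : ℕ), s ≤ k → k < s + n → k ∈ List.range' s n := by
    intro s n k h1 h2
    rw [List.mem_range'_1]
    exact ⟨h1, h2⟩
  have hi : i < 7 := by omega
  interval_cases i
  · exact List.all_eq_true.1 pr0 j (hm _ _ _ (by omega) (by omega))
  · exact List.all_eq_true.1 pr1 j (hm _ _ _ (by omega) (by omega))
  · exact List.all_eq_true.1 pr2 j (hm _ _ _ (by omega) (by omega))
  · exact List.all_eq_true.1 pr3 j (hm _ _ _ (by omega) (by omega))
  · exact List.all_eq_true.1 pr4 j (hm _ _ _ (by omega) (by omega))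
  · exact List.all_eq_true.1 pr5 j (hm _ _ _ (by omega) (by omega))
  · exact List.all_eq_true.1 pr6 j (hm _ _ _ (by omega) (by omega))

theorem lets_cw : ∀ i : ℕ, lets 8 (cw i) = true
  | 0 => rfl
  | 1 => rfl
  | 2 => rfl
  | 3 => rfl
  | 4 => rfl
  | 5 => rfl
  | 6 => rfl
  | (_ + 7) => rfl

theorem lets_yw (i : ℕ) : lets 8 (yw i) = true := by
  show (lets 8 (cw i) && (decide (2 < 8) && lets 8 (cw i))) = true
  rw [lets_cw]; rfl

theorem cw_mem (i : ℕ) : (cw i).eval X ∈ CC := by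
  have m3 : X 3 ∈ CC := X_mem rfl
  have m4 : X 4 ∈ CC := X_mem rfl
  have m5 : X 5 ∈ CC := X_mem rfl
  have m6 : X 6 ∈ CC := X_mem rfl
  match i with
  | 0 => exact CC.one_mem
  | 1 => exact m3
  | 2 => exact CC.mul_mem m3 m4
  | 3 => exact CC.mul_mem m3 (CC.mul_mem m4 m5)
  | 4 => exact CC.mul_mem m3 (CC.mul_mem m4 (CC.inv_mem m5))
  | 5 => exact CC.mul_mem m3 (CC.mul_mem m4 (CC.mul_mem m5 m4))
  | 6 => exact CC.mul_mem m3 (CC.mul_mem m4 (CC.mul_mem m5 m5))
  | (_ + 7) => exact CC.mul_mem m3 (CC.mul_mem m4 (CC.mul_mem m5 (CC.inv_mem m6)))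

/-- the involution -/
noncomputable def aC : CC := ⟨X 0, X_mem rfl⟩
/-- the element `c` -/
noncomputable def c2 : CC := ⟨X 2, X_mem rfl⟩
/-- the conjugating elements -/
noncomputable def cC (i : ℕ) : CC := ⟨(cw i).eval X, cw_mem i⟩
/-- the eight elements -/
noncomputable def yC (i : Fin 8) : CC := (cC i)⁻¹ * (c2 * cC i)

theorem yC_val (i : Fin 8) : (yC i : Th) = (yw i).eval X := rfl

theorem aC_ker : aC ∈ th.ker := by
  rw [MonoidHom.mem_ker, aC, th_eq (g := ⟨X 0, X_mem rfl⟩) (Act.gen (c := 0) rfl), sg0, inv_one]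

theorem c2_ker : c2 ∈ th.ker := by
  rw [MonoidHom.mem_ker, c2, th_eq (g := ⟨X 2, X_mem rfl⟩) (Act.gen (c := 2) rfl), sg2, inv_one]

theorem yC_ker (i : Fin 8) : yC i ∈ th.ker := by
  have h := (inferInstance : th.ker.Normal).conj_mem _ c2_ker (cC i)⁻¹
  rw [inv_inv, mul_assoc] at h
  exact h

theorem d8 (hinj : Function.Injective rho) : D8 aC yC := by
  have hE : ∀ V W : Wd, lets 8 V = true → lets 8 W = true → Nat.beq (ev V) (ev W) = true → V.eval X = W.eval X :=
    fun V W hV hW h => hinj (rho_eq hV hW h)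
  have h0 : X 0 * X 0 = 1 := by
    apply hinj
    rw [map_one]
    exact rho_one (W := .mul (.g 0) (.g 0)) rfl aa
  have h2 : X 2 * X 2 = 1 := by
    apply hinj
    rw [map_one]
    exact rho_one (W := .mul (.g 2) (.g 2)) rfl cc
  have h2' : c2 * c2 = 1 := Subtype.ext h2
  have ha : aC * aC = 1 := Subtype.ext h0
  have hlt : ∀ i j : Fin 8, i < j → yC i * yC j = aC * (yC j * yC i) := by
    intro i j hij
    apply Subtype.ext
    have hV : lets 8 (.mul (yw i) (yw j)) = true := by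
      show (lets 8 (yw i) && lets 8 (yw j)) = true
      rw [lets_yw, lets_yw]; rfl
    have hW : lets 8 (.mul (.g 0) (.mul (yw j) (yw i))) = true := by
      show (decide (0 < 8) && (lets 8 (yw j) && lets 8 (yw i))) = true
      rw [lets_yw, lets_yw]; rfl
    exact hE _ _ hV hW (pr_lt i j hij j.2)
  refine ⟨ha, ?_, ?_, ?_, ?_⟩
  · intro h
    -- `a ≠ 1`
    have h1 : X 0 = 1 := congrArg Subtype.val h
    exact ne_one (W := Wd.g 0) (by decide) (i := 9) (j := 9) (by norm_num) (by norm_num) (by decide +kernel) h1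
  · intro i
    apply Subtype.ext
    have hV : lets 8 (.mul (yw i) (.g 0)) = true := by
      show (lets 8 (yw i) && decide (0 < 8)) = true
      rw [lets_yw]; rfl
    have hW : lets 8 (.mul (.g 0) (yw i)) = true := by
      show (decide (0 < 8) && lets 8 (yw i)) = true
      rw [lets_yw]; rfl
    exact hE _ _ hV hW (List.all_eq_true.1 cm_all i (List.mem_range.2 i.2))
  · intro i
    show (cC i)⁻¹ * (c2 * cC i) * ((cC i)⁻¹ * (c2 * cC i)) = 1
    calc (cC i)⁻¹ * (c2 * cC i) * ((cC i)⁻¹ * (c2 * cC i)) = (cC i)⁻¹ * (c2 * c2) * cC i := by group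
      _ = 1 := by rw [h2', mul_one, inv_mul_cancel]
  · intro i j hij
    rcases lt_or_gt_of_ne hij with h | h
    · exact hlt i j h
    · rw [hlt j i h, ← mul_assoc aC aC, ha, one_mul]

theorem final (hfin : Finite CC) (hcard : Nat.card CC ≤ 92897280) (hinj : Function.Injective rho) :
    Nat.card CC = 92897280 ∧ Nat.card th.ker = 2 ^ 9 ∧ Cfsg.IsExtraspecial 2 th.ker := by
  have h1 := Subgroup.card_mul_index th.ker
  rw [index_ker] at h1
  obtain ⟨h2, h3⟩ := extra (d8 hinj) th.ker aC_ker yC_ker (by omega)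
  refine ⟨?_, h2, h3⟩
  rw [← h1, h2]
  norm_num

end Cfsg.Agent.Lib.ThC14
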