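import Cfsg.Agent.Lib.ThCTab

/-!
The group `⟨a,c,d,e,s,t,u⟩` in Th permutes 120 lines and nine objects (helper36).
-/

set_option autoImplicit false
set_option linter.all false

namespace Cfsg.Agent.Lib.ThC2

open Cfsg.Spor Cfsg.Agent.Lib.H58SM Cfsg.Agent.Lib.BenesWord Cfsg.Agent.Lib.MatF3 Cfsg.Agent.Lib.CosetGroup
open Cfsg.Agent.Lib.CoxBridge Cfsg.Agent.Lib.ThTab Cfsg.Agent.Lib.ThCTab Cfsg.Agent.Lib.ThRho
open scoped Matrix

theorem lo_bit (R j k : ℕ) (hj : j < 248) (hk : k < 248) :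
    (gt (Nat.land R mS) 248 msk j).testBit k = R.testBit (248 * j + k) := by
  rw [← MatF2.bit_eq good.g2.hm _ _ hk, tb_lo good.hmS R (lt_S good.hS hj hk)]

theorem hi_bit (R j k : ℕ) (hj : j < 248) (hk : k < 248) :
    (gt (Nat.shiftRight R S) 248 msk j).testBit k = R.testBit (S + (248 * j + k)) := by
  rw [← MatF2.bit_eq good.g2.hm _ _ hk, tb_hi]

theorem e3_neg : ∀ p m : Bool, e3 m p = - e3 p m := by decide

/-- a row -/
def row (A : ℕ) (j : Fin 120) : Fin 248 → ZMod 3 := MT A ⟨j, by omega⟩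

theorem rowOK_spec {R B T : ℕ} (j : Fin 120)
    (h : rowOK (Nat.land R mS) (Nat.shiftRight R S) (Nat.land B mS) (Nat.shiftRight B S) T j = true)
    (hk : Nat.div (gt T 8 255 j) 2 < 120) :
    ∃ ε : (ZMod 3)ˣ, row R j = (ε : ZMod 3) • row B ⟨Nat.div (gt T 8 255 j) 2, hk⟩ := by
  unfold rowOK at h
  rw [frc_eq, frc_eq] at h
  set k := Nat.div (gt T 8 255 j) 2 with hkd
  have hj : (j : ℕ) < 248 := by omega
  cases hs : Nat.beq (Nat.mod (gt T 8 255 j) 2) 0 with
  | true =>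
    rw [hs, cond_true] at h
    cases h1 : Nat.beq (gt (Nat.land R mS) 248 msk j) (gt (Nat.land B mS) 248 msk k) with
    | false => rw [h1] at h; exact absurd h (by simp)
    | true =>
      rw [h1, cond_true] at h
      have e1 := Nat.eq_of_beq_eq_true h1
      have e2 := Nat.eq_of_beq_eq_true h
      refine ⟨1, ?_⟩
      funext l
      show e3 (R.testBit (248 * j + l)) (R.testBit (S + (248 * j + l))) =
        ((1 : (ZMod 3)ˣ) : ZMod 3) * e3 (B.testBit (248 * k + l)) (B.testBit (S + (248 * k + l)))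
      rw [← lo_bit R j l hj l.2, ← hi_bit R j l hj l.2, e1, e2, lo_bit B k l (by omega) l.2, hi_bit B k l (by omega) l.2,
        Units.val_one, one_mul]
  | false =>
    rw [hs, cond_false] at h
    cases h1 : Nat.beq (gt (Nat.land R mS) 248 msk j) (gt (Nat.shiftRight B S) 248 msk k) with
    | false => rw [h1] at h; exact absurd h (by simp)
    | true =>
      rw [h1, cond_true] at h
      have e1 := Nat.eq_of_beq_eq_true h1
      have e2 := Nat.eq_of_beq_eq_true h
      refine ⟨-1, ?_⟩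
      funext l
      show e3 (R.testBit (248 * j + l)) (R.testBit (S + (248 * j + l))) =
        ((-1 : (ZMod 3)ˣ) : ZMod 3) * e3 (B.testBit (248 * k + l)) (B.testBit (S + (248 * k + l)))
      rw [← lo_bit R j l hj l.2, ← hi_bit R j l hj l.2, e1, e2, lo_bit B k l (by omega) l.2, hi_bit B k l (by omega) l.2,
        Units.val_neg, Units.val_one, e3_neg (B.testBit (248 * k + l)), neg_one_mul]

/-- the lines -/
def w (j : Fin 120) : Fin 248 → ZMod 3 := row BB j

theorem bbT : OkT BB := ok_of good bb_ok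
theorem rrT : OkT RR := ok_of good rr_ok

theorem okc_lt {c : ℕ} (h : okc c = true) : c < 8 := by
  by_contra hc
  have : Nat.ble c 7 = false := by
    cases h' : Nat.ble c 7 with
    | false => rfl
    | true => have := Nat.le_of_ble_eq_true h'; omega
  unfold okc at h
  rw [this] at h
  exact absurd h (by simp)

theorem mon_ok {c : ℕ} (h : okc c = true) : monOK c = true := by
  have hc := okc_lt h
  interval_cases c
  · exact mon_0
  · exact absurd h (by decide)
  · exact mon_2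
  · exact mon_3
  · exact mon_4
  · exact mon_5
  · exact mon_6
  · exact mon_7

theorem perm_all {c : ℕ} (h : okc c = true) {j : ℕ} (hj : j < 120) :
    pi c j < 120 ∧ pinv c j < 120 ∧ pinv c (pi c j) = j ∧ pi c (pinv c j) = j := by
  have h1 := alln_iff.1 perm_ok c (okc_lt h)
  rw [h, imp, cond_true] at h1
  have h2 := alln_iff.1 h1 j hj
  simp only [Bool.cond_eq_true_distrib, Bool.cond_false_right, Bool.and_eq_true] at h2
  refine ⟨?_, ?_, Nat.eq_of_beq_eq_true h2.2.2.1, Nat.eq_of_beq_eq_true h2.2.2.2⟩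
  · have := Nat.le_of_ble_eq_true h2.1; omega
  · have := Nat.le_of_ble_eq_true h2.2.1; omega

theorem sg_all {c : ℕ} (h : okc c = true) {j : ℕ} (hj : j < 9) :
    sg c j < 9 ∧ sgi c j < 9 ∧ sgi c (sg c j) = j ∧ sg c (sgi c j) = j := by
  have h1 := alln_iff.1 sg_ok c (okc_lt h)
  rw [h, imp, cond_true] at h1
  have h2 := alln_iff.1 h1 j hj
  simp only [Bool.cond_eq_true_distrib, Bool.cond_false_right, Bool.and_eq_true] at h2
  refine ⟨?_, ?_, Nat.eq_of_beq_eq_true h2.2.2.1, Nat.eq_of_beq_eq_true h2.2.2.2⟩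
  · have := Nat.le_of_ble_eq_true h2.1; omega
  · have := Nat.le_of_ble_eq_true h2.2.1; omega

/-- permutation of the lines -/
def piE (c : ℕ) (h : okc c = true) : Equiv.Perm (Fin 120) where
  toFun j := ⟨pi c j, (perm_all h j.2).1⟩
  invFun j := ⟨pinv c j, (perm_all h j.2).2.1⟩
  left_inv j := Fin.ext (perm_all h j.2).2.2.1
  right_inv j := Fin.ext (perm_all h j.2).2.2.2

/-- permutation of the partitions -/
def sgE (c : ℕ) (h : okc c = true) : Equiv.Perm (Fin 9) where
  toFun j := ⟨sg c j, (sg_all h j.2).1⟩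
  invFun j := ⟨sgi c j, (sg_all h j.2).2.1⟩
  left_inv j := Fin.ext (sg_all h j.2).2.2.1
  right_inv j := Fin.ext (sg_all h j.2).2.2.2

theorem part_all {c : ℕ} (h : okc c = true) {k : ℕ} (hk : k < 9) :
    (∀ i < 120, prt (sg c k) (pi c i) = bm c k (prt k i) ∧ prt k i < 15) ∧ ∀ x < 15, bn c k (bm c k x) = x := by
  have h1 := alln_iff.1 part_ok c (okc_lt h)
  rw [h, imp, cond_true] at h1
  have h2 := alln_iff.1 h1 k hk
  rw [Bool.cond_false_right, Bool.and_eq_true] at h2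
  refine ⟨fun i hi => ?_, fun x hx => Nat.eq_of_beq_eq_true (alln_iff.1 h2.2 x hx)⟩
  have h3 := alln_iff.1 h2.1 i hi
  rw [frc_eq, Bool.cond_false_right, Bool.and_eq_true] at h3
  refine ⟨Nat.eq_of_beq_eq_true h3.1, ?_⟩
  have := Nat.le_of_ble_eq_true h3.2; omega

/-- the action of an element on lines and partitions -/
structure Act (g : Th) (π : Equiv.Perm (Fin 120)) (σ : Equiv.Perm (Fin 9)) : Prop where
  mono : ∀ j, ∃ ε : (ZMod 3)ˣ, w j ᵥ* ((rho g : GM) : Matrix (Fin 248) (Fin 248) (ZMod 3)) = (ε : ZMod 3) • w (π j)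
  part : ∀ (k : Fin 9) (i j : Fin 120), prt k i = prt k j ↔ prt (σ k) (π i) = prt (σ k) (π j)

theorem Act.one : Act 1 1 1 := by
  refine ⟨fun j => ⟨1, ?_⟩, fun k i j => Iff.rfl⟩
  rw [map_one, Units.val_one, Matrix.vecMul_one, Units.val_one, one_smul]; rfl

theorem Act.mul {g h : Th} {π π' : Equiv.Perm (Fin 120)} {σ σ' : Equiv.Perm (Fin 9)} (a : Act g π σ) (b : Act h π' σ') :
    Act (g * h) (π' * π) (σ' * σ) := by
  refine ⟨fun j => ?_, fun k i j => ?_⟩
  · obtain ⟨ε, h1⟩ := a.mono j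
    obtain ⟨ε', h2⟩ := b.mono (π j)
    refine ⟨ε * ε', ?_⟩
    rw [map_mul, Units.val_mul, ← Matrix.vecMul_vecMul, h1, Matrix.smul_vecMul, h2, smul_smul, Units.val_mul]; rfl
  · rw [a.part k i j, b.part (σ k) (π i) (π j)]; rfl

theorem Act.inv {g : Th} {π : Equiv.Perm (Fin 120)} {σ : Equiv.Perm (Fin 9)} (a : Act g π σ) : Act g⁻¹ π⁻¹ σ⁻¹ := by
  refine ⟨fun j => ?_, fun k i j => ?_⟩
  · obtain ⟨ε, h1⟩ := a.mono (π⁻¹ j)
    refine ⟨ε⁻¹, ?_⟩
    have h2 : π (π⁻¹ j) = j := π.apply_symm_apply j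
    rw [h2] at h1
    have h3 : w j = ((ε⁻¹ : (ZMod 3)ˣ) : ZMod 3) • ((ε : ZMod 3) • w j) := by
      rw [smul_smul, ← Units.val_mul, inv_mul_cancel, Units.val_one, one_smul]
    rw [h3, ← h1, Matrix.smul_vecMul, Matrix.vecMul_vecMul, ← Units.val_mul, ← map_mul, mul_inv_cancel, map_one,
      Units.val_one, Matrix.vecMul_one]
  · have := a.part (σ⁻¹ k) (π⁻¹ i) (π⁻¹ j)
    have h1 : σ (σ⁻¹ k) = k := σ.apply_symm_apply k
    have h2 : ∀ i, π (π⁻¹ i) = i := fun i => π.apply_symm_apply i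
    rw [h1, h2, h2] at this
    exact this.symm

theorem rr_row (i : Fin 120) (k : Fin 120) : (w i ᵥ* MT RR) ⟨k, by omega⟩ = if i = k then 1 else 0 := by
  have h0 := inv_ok
  unfold invOK at h0
  rw [frc_eq, frc_eq, frc_eq, Bool.cond_false_right, Bool.and_eq_true] at h0
  have h1 := Nat.eq_of_beq_eq_true h0.1
  have h2 := Nat.eq_of_beq_eq_true (alln_iff.1 h0.2 i i.2)
  have h3 : w i ᵥ* MT RR = MT (mulT BB RR) ⟨i, by omega⟩ := by
    rw [(mul_spec bbT rrT).2, Matrix.mul_apply_eq_vecMul]; rfl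
  rw [h3]
  show e3 ((mulT BB RR).testBit (248 * i + k)) ((mulT BB RR).testBit (S + (248 * i + k))) = _
  rw [← lo_bit _ i k (by omega) (by omega), ← tb_hi, h1, h2, Nat.zero_testBit]
  show e3 ((1 <<< (i : ℕ)).testBit k) false = _
  rw [Nat.one_shiftLeft, Nat.testBit_two_pow]
  by_cases hik : i = k
  · subst hik; simp [e3]
  · have : (i : ℕ) ≠ k := fun h => hik (Fin.ext h)
    simp [e3, this, hik]

theorem w_inj {i j : Fin 120} {a b : (ZMod 3)ˣ} (h : (a : ZMod 3) • w i = (b : ZMod 3) • w j) : i = j := by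
  by_contra hij
  have h1 := congrArg (fun v => (v ᵥ* MT RR) ⟨i, by omega⟩) h
  simp only [Matrix.smul_vecMul, Pi.smul_apply, rr_row, if_true, smul_eq_mul, mul_one] at h1
  rw [if_neg (fun h => hij h.symm), mul_zero] at h1
  exact a.ne_zero h1

theorem dist {k l : Fin 9} (h : k ≠ l) : ∃ i j : Fin 120, prt k i = prt k j ∧ prt l i ≠ prt l j := by
  have h1 := alln_iff.1 (alln_iff.1 dist_ok k k.2) l l.2
  have hkl : Nat.beq (k : ℕ) l = false := by
    cases h' : Nat.beq (k : ℕ) l with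
    | false => rfl
    | true => exact absurd (Fin.ext (Nat.eq_of_beq_eq_true h')) h
  rw [hkl, cond_false, frc_eq, frc_eq, frc_eq] at h1
  simp only [Bool.cond_eq_true_distrib, Bool.cond_false_right, Bool.cond_false_left, Bool.and_eq_true, Bool.and_true] at h1
  have key : ∀ i0 j0 : ℕ, i0.ble 119 = true → j0.ble 119 = true → (prt k i0).beq (prt k j0) = true →
      (!(prt l i0).beq (prt l j0)) = true → ∃ i j : Fin 120, prt k i = prt k j ∧ prt l i ≠ prt l j := by
    intro i0 j0 a1 a2 a3 a4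
    have b1 := Nat.le_of_ble_eq_true a1
    have b2 := Nat.le_of_ble_eq_true a2
    refine ⟨⟨i0, by omega⟩, ⟨j0, by omega⟩, Nat.eq_of_beq_eq_true a3, ?_⟩
    intro h5
    have h6 : (prt l i0).beq (prt l j0) = true := by
      have h5' : prt l i0 = prt l j0 := h5
      rw [h5']; exact Nat.beq_refl _
    rw [h6] at a4
    exact absurd a4 (by decide)
  exact key _ _ h1.1 h1.2.1 h1.2.2.1 h1.2.2.2

theorem Act.unique {g : Th} {π π' : Equiv.Perm (Fin 120)} {σ σ' : Equiv.Perm (Fin 9)} (a : Act g π σ) (b : Act g π' σ') :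
    π = π' ∧ σ = σ' := by
  have h1 : π = π' := by
    ext j
    obtain ⟨ε, h1⟩ := a.mono j
    obtain ⟨ε', h2⟩ := b.mono j
    exact congrArg Fin.val (w_inj (h1.symm.trans h2))
  refine ⟨h1, ?_⟩
  subst h1
  ext k
  by_contra hne
  have hne' : σ k ≠ σ' k := fun h => hne (congrArg Fin.val h)
  obtain ⟨i, j, e1, e2⟩ := dist hne'
  have h3 := a.part k (π⁻¹ i) (π⁻¹ j)
  have h4 := b.part k (π⁻¹ i) (π⁻¹ j)
  have h2 : ∀ i, π (π⁻¹ i) = i := fun i => π.apply_symm_apply i
  rw [h2, h2] at h3 h4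
  exact e2 (h4.1 (h3.2 e1))

theorem Act.gen {c : ℕ} (h : okc c = true) : Act (X c) (piE c h) (sgE c h) := by
  have hc := okc_lt h
  constructor
  · intro j
    have h1 := mon_ok h
    unfold monOK at h1
    rw [frc_eq, frc_eq, frc_eq, frc_eq, frc_eq] at h1
    obtain ⟨ε, hε⟩ := rowOK_spec (R := mulT BB (TB c)) (B := BB) (T := tP c) j (alln_iff.1 h1 j j.2) (perm_all h j.2).1
    refine ⟨ε, ?_⟩
    have h2 : ((rho (X c) : GM) : Matrix (Fin 248) (Fin 248) (ZMod 3)) = MT (TB c) := by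
      rw [show rho (X c) = x c from rho_of c hc, x_val c (by omega)]; rfl
    rw [h2]
    have h3 : w j ᵥ* MT (TB c) = row (mulT BB (TB c)) j := by
      unfold row
      rw [(mul_spec bbT (okT c (by omega))).2, Matrix.mul_apply_eq_vecMul]; rfl
    rw [h3, hε]; rfl
  · intro k i j
    obtain ⟨p1, p2⟩ := part_all h k.2
    have hi := p1 i i.2
    have hj := p1 j j.2
    show _ ↔ prt (sg c k) (pi c i) = prt (sg c k) (pi c j)
    rw [hi.1, hj.1]
    constructor
    · intro h5; rw [h5]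
    · intro h5
      have := congrArg (bn c k) h5
      rwa [p2 _ hi.2, p2 _ hj.2] at this

end Cfsg.Agent.Lib.ThC2
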