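import Cfsg.Agent.Lib.ThC2A

/-!
`⟨a,c,d,e,s,t,u⟩` maps onto the alternating group of degree 9 (helper36).
-/

set_option autoImplicit false
set_option linter.all false

namespace Cfsg.Agent.Lib.ThC2

open Cfsg.Spor Cfsg.Agent.Lib.H58SM Cfsg.Agent.Lib.BenesWord Cfsg.Agent.Lib.MatF3 Cfsg.Agent.Lib.CosetGroup
open Cfsg.Agent.Lib.CoxBridge Cfsg.Agent.Lib.ThTab Cfsg.Agent.Lib.ThCTab Cfsg.Agent.Lib.ThRho
open scoped Matrix

/-! ### degree nine -/

/-- the permutations -/
def s3 : Equiv.Perm (Fin 9) := sgE 3 rfl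
def s4 : Equiv.Perm (Fin 9) := sgE 4 rfl
def s5 : Equiv.Perm (Fin 9) := sgE 5 rfl
def s6 : Equiv.Perm (Fin 9) := sgE 6 rfl
def s7 : Equiv.Perm (Fin 9) := sgE 7 rfl

/-- the group generated -/
def H9 : Subgroup (Equiv.Perm (Fin 9)) := Subgroup.closure {s3, s4, s5, s6, s7}

theorem m3 : s3 ∈ H9 := Subgroup.subset_closure (by simp)
theorem m4 : s4 ∈ H9 := Subgroup.subset_closure (by simp)
theorem m5 : s5 ∈ H9 := Subgroup.subset_closure (by simp)
theorem m6 : s6 ∈ H9 := Subgroup.subset_closure (by simp)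
theorem m7 : s7 ∈ H9 := Subgroup.subset_closure (by simp)

theorem sgn3 : Equiv.Perm.sign s3 = 1 := by decide +kernel
theorem sgn4 : Equiv.Perm.sign s4 = 1 := by decide +kernel
theorem sgn5 : Equiv.Perm.sign s5 = 1 := by decide +kernel
theorem sgn6 : Equiv.Perm.sign s6 = 1 := by decide +kernel
theorem sgn7 : Equiv.Perm.sign s7 = 1 := by decide +kernel

theorem cyc3 : (s7 * s4 * s3) ^ 2 = Equiv.swap 0 3 * Equiv.swap 0 6 := by decide +kernel

/-- rank of a pair -/
def rk (i j : ℕ) : ℕ := gt 0x305030203030402030003040403040403040300020405030304040404000404040303020204030004030201010206030200020304030404030302000303040405030303030002020205010104010000 8 255 (Nat.add (Nat.mul 9 i) j)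

theorem rk_ok : ∀ i j : Fin 9, i ≠ j → (i ≠ 0 ∨ j ≠ 1) → rk (s3⁻¹ i : Fin 9) (s3⁻¹ j : Fin 9) < rk i j ∨
    rk (s4⁻¹ i : Fin 9) (s4⁻¹ j : Fin 9) < rk i j ∨ rk (s5⁻¹ i : Fin 9) (s5⁻¹ j : Fin 9) < rk i j ∨
    rk (s6⁻¹ i : Fin 9) (s6⁻¹ j : Fin 9) < rk i j ∨ rk (s7⁻¹ i : Fin 9) (s7⁻¹ j : Fin 9) < rk i j := by decide +kernel

theorem reach (n : ℕ) : ∀ i j : Fin 9, i ≠ j → rk i j ≤ n → ∃ g ∈ H9, g 0 = i ∧ g 1 = j := by
  induction n with
  | zero =>
    intro i j hij hr
    by_cases h : i ≠ 0 ∨ j ≠ 1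
    · rcases rk_ok i j hij h with h | h | h | h | h <;> omega
    · push Not at h
      exact ⟨1, H9.one_mem, h.1.symm, h.2.symm⟩
  | succ n ih =>
    intro i j hij hr
    by_cases h : i ≠ 0 ∨ j ≠ 1
    · have step : ∀ s ∈ H9, rk (s⁻¹ i : Fin 9) (s⁻¹ j : Fin 9) < rk i j → ∃ g ∈ H9, g 0 = i ∧ g 1 = j := by
        intro s hs hlt
        obtain ⟨g, hg, h1, h2⟩ := ih (s⁻¹ i) (s⁻¹ j) (fun h => hij (s⁻¹.injective h)) (by omega)
        refine ⟨s * g, H9.mul_mem hs hg, ?_, ?_⟩
        · rw [Equiv.Perm.mul_apply, h1]; exact s.apply_symm_apply i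
        · rw [Equiv.Perm.mul_apply, h2]; exact s.apply_symm_apply j
      rcases rk_ok i j hij h with h | h | h | h | h
      · exact step _ m3 h
      · exact step _ m4 h
      · exact step _ m5 h
      · exact step _ m6 h
      · exact step _ m7 h
    · push Not at h
      exact ⟨1, H9.one_mem, h.1.symm, h.2.symm⟩

theorem H9_eq : H9 = alternatingGroup (Fin 9) := by
  apply le_antisymm
  · unfold H9
    rw [Subgroup.closure_le]
    intro g hg
    rw [SetLike.mem_coe, Equiv.Perm.mem_alternatingGroup]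
    rcases hg with rfl | rfl | rfl | rfl | rfl
    · exact sgn3
    · exact sgn4
    · exact sgn5
    · exact sgn6
    · exact sgn7
  · have h2 : MulAction.IsMultiplyPretransitive H9 (Fin 9) 2 := by
      rw [MulAction.is_two_pretransitive_iff]
      intro a b c d hab hcd
      obtain ⟨g, hg, g0, g1⟩ := reach _ a b hab le_rfl
      obtain ⟨h, hh, h0, h1⟩ := reach _ c d hcd le_rfl
      refine ⟨⟨h * g⁻¹, H9.mul_mem hh (H9.inv_mem hg)⟩, ?_, ?_⟩
      · show (h * g⁻¹) a = c
        rw [Equiv.Perm.mul_apply, ← g0, show g⁻¹ (g 0) = 0 from g.symm_apply_apply 0, h0]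
      · show (h * g⁻¹) b = d
        rw [Equiv.Perm.mul_apply, ← g1, show g⁻¹ (g 1) = 1 from g.symm_apply_apply 1, h1]
    have h3 : ((s7 * s4 * s3) ^ 2).IsThreeCycle := by
      rw [cyc3]
      exact Equiv.Perm.isThreeCycle_swap_mul_swap_same (by decide) (by decide) (by decide)
    exact Equiv.Perm.alternatingGroup_le_of_isPreprimitive_of_isThreeCycle_mem
      (MulAction.isPreprimitive_of_is_two_pretransitive h2) h3
      (H9.pow_mem (H9.mul_mem (H9.mul_mem m7 m4) m3) 2)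

/-! ### the homomorphism -/

/-- the group `⟨a,c,d,e,s,t,u⟩` -/
def CC : Subgroup Th := Subgroup.closure {X 0, X 2, X 3, X 4, X 5, X 6, X 7}

theorem X_mem {c : ℕ} (h : okc c = true) : X c ∈ CC := by
  have hc := okc_lt h
  apply Subgroup.subset_closure
  interval_cases c
  · simp
  · exact absurd h (by decide)
  · simp
  · simp
  · simp
  · simp
  · simp
  · simp

theorem exists_act {g : Th} (hg : g ∈ CC) : ∃ (π : Equiv.Perm (Fin 120)) (σ : Equiv.Perm (Fin 9)), Act g π σ := by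
  induction hg using Subgroup.closure_induction with
  | mem g hg =>
    rcases hg with rfl | rfl | rfl | rfl | rfl | rfl | rfl
    · exact ⟨_, _, Act.gen (c := 0) rfl⟩
    · exact ⟨_, _, Act.gen (c := 2) rfl⟩
    · exact ⟨_, _, Act.gen (c := 3) rfl⟩
    · exact ⟨_, _, Act.gen (c := 4) rfl⟩
    · exact ⟨_, _, Act.gen (c := 5) rfl⟩
    · exact ⟨_, _, Act.gen (c := 6) rfl⟩
    · exact ⟨_, _, Act.gen (c := 7) rfl⟩
  | one => exact ⟨_, _, Act.one⟩
  | mul g h _ _ ihg ihh =>
    obtain ⟨π, σ, a⟩ := ihg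
    obtain ⟨π', σ', b⟩ := ihh
    exact ⟨_, _, a.mul b⟩
  | inv g _ ih =>
    obtain ⟨π, σ, a⟩ := ih
    exact ⟨_, _, a.inv⟩

/-- the action on nine objects -/
noncomputable def th : CC →* Equiv.Perm (Fin 9) where
  toFun g := (exists_act g.2).choose_spec.choose⁻¹
  map_one' := by
    rw [inv_eq_one]
    exact ((exists_act (1 : CC).2).choose_spec.choose_spec.unique Act.one).2
  map_mul' g h := by
    rw [← mul_inv_rev, inv_inj]
    exact ((exists_act (g * h).2).choose_spec.choose_spec.unique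
      ((exists_act g.2).choose_spec.choose_spec.mul (exists_act h.2).choose_spec.choose_spec)).2

theorem th_eq {g : CC} {π : Equiv.Perm (Fin 120)} {σ : Equiv.Perm (Fin 9)} (a : Act (g : Th) π σ) : th g = σ⁻¹ := by
  show (exists_act g.2).choose_spec.choose⁻¹ = σ⁻¹
  rw [inv_inj]
  exact ((exists_act g.2).choose_spec.choose_spec.unique a).2

theorem sg0 : sgE 0 rfl = 1 := by decide +kernel
theorem sg2 : sgE 2 rfl = 1 := by decide +kernel

theorem th_range : th.range = alternatingGroup (Fin 9) := by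
  rw [← H9_eq]
  apply le_antisymm
  · rintro _ ⟨⟨g, hg⟩, rfl⟩
    suffices h : ∀ σ : Equiv.Perm (Fin 9), ∀ π : Equiv.Perm (Fin 120), Act g π σ → σ ∈ H9 by
      obtain ⟨π, σ, a⟩ := exists_act hg
      rw [th_eq (g := ⟨g, hg⟩) a]
      exact H9.inv_mem (h σ π a)
    have key : ∃ (π : Equiv.Perm (Fin 120)) (σ : Equiv.Perm (Fin 9)), Act g π σ ∧ σ ∈ H9 := by
      induction hg using Subgroup.closure_induction with
      | mem g hg =>
        rcases hg with rfl | rfl | rfl | rfl | rfl | rfl | rfl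
        · exact ⟨_, _, Act.gen (c := 0) rfl, by rw [sg0]; exact H9.one_mem⟩
        · exact ⟨_, _, Act.gen (c := 2) rfl, by rw [sg2]; exact H9.one_mem⟩
        · exact ⟨_, _, Act.gen (c := 3) rfl, m3⟩
        · exact ⟨_, _, Act.gen (c := 4) rfl, m4⟩
        · exact ⟨_, _, Act.gen (c := 5) rfl, m5⟩
        · exact ⟨_, _, Act.gen (c := 6) rfl, m6⟩
        · exact ⟨_, _, Act.gen (c := 7) rfl, m7⟩
      | one => exact ⟨_, _, Act.one, H9.one_mem⟩
      | mul g h _ _ ihg ihh =>
        obtain ⟨π, σ, a, ha⟩ := ihg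
        obtain ⟨π', σ', b, hb⟩ := ihh
        exact ⟨_, _, a.mul b, H9.mul_mem hb ha⟩
      | inv g _ ih =>
        obtain ⟨π, σ, a, ha⟩ := ih
        exact ⟨_, _, a.inv, H9.inv_mem ha⟩
    obtain ⟨π', σ', b, hb⟩ := key
    intro σ π a
    rw [(a.unique b).2]; exact hb
  · unfold H9
    rw [Subgroup.closure_le]
    have key : ∀ c (h : okc c = true), sgE c h ∈ th.range := by
      intro c h
      refine ⟨⟨X c, X_mem h⟩⁻¹, ?_⟩
      rw [map_inv, th_eq (g := ⟨X c, X_mem h⟩) (Act.gen h), inv_inv]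
    intro g hg
    rcases hg with rfl | rfl | rfl | rfl | rfl
    · exact key 3 rfl
    · exact key 4 rfl
    · exact key 5 rfl
    · exact key 6 rfl
    · exact key 7 rfl

/-- `C / ker ≅ A₉` -/
theorem quot_iso : Nonempty ((CC ⧸ th.ker) ≃* alternatingGroup (Fin 9)) :=
  ⟨(QuotientGroup.quotientKerEquivRange th).trans (MulEquiv.subgroupCongr th_range)⟩

theorem index_ker : th.ker.index = 181440 := by
  rw [Subgroup.index_ker, th_range]
  have h := two_mul_nat_card_alternatingGroup (α := Fin 9)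
  rw [Nat.card_perm, Nat.card_eq_fintype_card (α := Fin 9), Fintype.card_fin] at h
  have : Nat.factorial 9 = 362880 := by decide
  omega

end Cfsg.Agent.Lib.ThC2
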