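import Cfsg.Agent.Lib.ThCTest
import Cfsg.Agent.Lib.ThC4G
import Cfsg.Agent.Lib.ThC2B
import Cfsg.Agent.Lib.ThC14
import Cfsg.Prelude.Def_Sporadic
import Cfsg.Prelude.Def_Transfer

/-!
The centralizer of `a` in Th is `⟨a,c,d,e,s,t,u⟩` (helper36).
-/

set_option autoImplicit false
set_option linter.all false
set_option maxRecDepth 100000

namespace Cfsg.Agent.Lib.ThCMain

open Cfsg.Spor Cfsg.Agent.Lib.H58SM Cfsg.Agent.Lib.BenesWord Cfsg.Agent.Lib.ThTab Cfsg.Agent.Lib.ThRho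
open Cfsg.Agent.Lib.ThCW Cfsg.Agent.Lib.ThCT

/-- coverage of Th by the double cosets of `P` -/
def Cov : Prop := ∀ y : Th, ∃ i < 11, ∃ p ∈ ThC4G.P, ∃ p' ∈ ThC4G.P, y = p * g i * p'

theorem CC_eq : ThC2.CC = ThC4G.CC := rfl

theorem K_le : ThC4G.K ≤ ThC4G.CC := by
  unfold ThC4G.K ThC4G.CC
  apply Subgroup.closure_mono
  intro g hg
  simp only [Set.mem_insert_iff, Set.mem_singleton_iff] at hg ⊢
  tauto

theorem mem_CC {c : ℕ} (h : c = 0 ∨ c = 2 ∨ c = 3 ∨ c = 4 ∨ c = 5 ∨ c = 6 ∨ c = 7) : X c ∈ ThC4G.CC := by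
  apply Subgroup.subset_closure
  rcases h with rfl | rfl | rfl | rfl | rfl | rfl | rfl <;> simp

theorem mem_P {c : ℕ} (h : c < 7) : X c ∈ ThC4G.P := by
  apply Subgroup.subset_closure
  interval_cases c <;> simp

theorem XX_mem {c : ℕ} (h : c < 11) (h7 : c ≠ 7 ∧ c ≠ 10) : XX c ∈ ThC4G.P := by
  obtain ⟨h7, h10⟩ := h7
  interval_cases c
  · exact mem_P (c := 0) (by norm_num)
  · exact mem_P (c := 1) (by norm_num)
  · exact mem_P (c := 2) (by norm_num)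
  · exact mem_P (c := 3) (by norm_num)
  · exact mem_P (c := 4) (by norm_num)
  · exact mem_P (c := 5) (by norm_num)
  · exact mem_P (c := 6) (by norm_num)
  · exact absurd rfl h7
  · exact inv_mem (mem_P (c := 5) (by norm_num))
  · exact inv_mem (mem_P (c := 6) (by norm_num))
  · exact absurd rfl h10

theorem evl_mem : ∀ (k : List ℕ), (∀ c ∈ k, c < 11 ∧ c ≠ 7 ∧ c ≠ 10) → evl k ∈ ThC4G.P := by
  intro k
  induction k with
  | nil => intro _; exact Subgroup.one_mem _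
  | cons c k ih =>
    intro h2
    have : evl (c :: k) = XX c * evl k := by unfold evl; simp
    rw [this]
    exact mul_mem (XX_mem (h2 c List.mem_cons_self).1 (h2 c List.mem_cons_self).2) (ih fun d hd => h2 d (List.mem_cons_of_mem _ hd))

section
variable (hinj : Function.Injective rho)
include hinj

theorem ua : X 7 * X 0 = X 0 * X 7 :=
  hinj (rho_eq (V := Wd.mul (Wd.g 7) (Wd.g 0)) (W := Wd.mul (Wd.g 0) (Wd.g 7)) (by decide) (by decide) (by decide +kernel))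

theorem CC_comm : ∀ g ∈ ThC4G.CC, g * X 0 = X 0 * g := by
  intro g hg
  have hK : ∀ c, (c = 0 ∨ c = 2 ∨ c = 3 ∨ c = 4 ∨ c = 5 ∨ c = 6) → X c * X 0 = X 0 * X c := by
    intro c hc
    apply ThC4G.K_comm
    apply Subgroup.subset_closure
    rcases hc with rfl | rfl | rfl | rfl | rfl | rfl <;> simp
  induction hg using Subgroup.closure_induction with
  | mem g hg =>
    rcases hg with rfl | rfl | rfl | rfl | rfl | rfl | rfl
    · rfl
    · exact hK 2 (by simp)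
    · exact hK 3 (by simp)
    · exact hK 4 (by simp)
    · exact hK 5 (by simp)
    · exact hK 6 (by simp)
    · exact ua hinj
  | one => rw [one_mul, mul_one]
  | mul g h _ _ ihg ihh => rw [mul_assoc, ihh, ← mul_assoc, ihg, mul_assoc]
  | inv g _ ih => exact (Commute.inv_left (show Commute g (X 0) from ih)).eq

/-- the last step -/
theorem fin {g p h p' k q r : Th} (hg : g * X 0 = X 0 * g) (hp : p ∈ ThC4G.P) (hh : h ∈ ThC4G.CC) (hk : k ∈ ThC4G.K)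
    (hr : r ∈ ThC4G.P) (e : g = p * h * p') (e' : p'⁻¹ = k * q) (hq : h * q = r * h) : g ∈ ThC4G.CC := by
  have e2 : p' = q⁻¹ * k⁻¹ := by rw [← inv_inv p', e', mul_inv_rev]
  have e3 : h * q⁻¹ = r⁻¹ * h := by
    have : h = r⁻¹ * (h * q) := by rw [hq, inv_mul_cancel_left]
    calc h * q⁻¹ = r⁻¹ * (h * q) * q⁻¹ := by rw [← this]
      _ = r⁻¹ * h := by group
  have e4 : g = (p * r⁻¹) * h * k⁻¹ := by
    calc g = p * (h * q⁻¹) * k⁻¹ := by rw [e, e2]; group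
      _ = (p * r⁻¹) * h * k⁻¹ := by rw [e3]; group
  have hK : p * r⁻¹ ∈ ThC4G.K := by
    apply ThC4G.mem_K _ (mul_mem hp (inv_mem hr))
    have e5 : p * r⁻¹ = g * k * h⁻¹ := by rw [e4]; group
    have c1 : Commute g (X 0) := hg
    have c2 : Commute k (X 0) := ThC4G.K_comm k hk
    have c3 : Commute h (X 0) := CC_comm hinj h hh
    rw [e5]
    exact ((c1.mul_left c2).mul_left c3.inv_left).eq
  rw [e4]
  exact mul_mem (mul_mem (K_le hK) hh) (inv_mem (K_le hk))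

theorem rel6 : X 7 ^ (3 : ℕ) * evl [1, 0, 2, 1] = (evl [1, 0, 2, 1] * X 4) * X 7 ^ (3 : ℕ) := by
  apply hinj
  have h := rho_eq (V := Wd.mul (Wd.pow (Wd.g 7) 3) (Wd.mul (Wd.g 1) (Wd.mul (Wd.g 0) (Wd.mul (Wd.g 2) (Wd.g 1)))))
    (W := Wd.mul (Wd.mul (Wd.mul (Wd.g 1) (Wd.mul (Wd.g 0) (Wd.mul (Wd.g 2) (Wd.g 1)))) (Wd.g 4)) (Wd.pow (Wd.g 7) 3))
    (by decide) (by decide) (by decide +kernel)
  have e : evl [1, 0, 2, 1] = X 1 * (X 0 * (X 2 * X 1)) := by unfold evl; simp [XX]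
  rw [e]
  exact h

/-- the word `r` with `u⁻¹ (bacb dcd) u = r` -/
def r29 : List ℕ := [1, 0, 2, 1, 4, 1, 0, 2, 1, 3, 2, 3, 4, 3, 2, 1, 0, 3, 2, 1, 3, 2, 3]

theorem rel29 : X 7 ^ (3 : ℕ) * evl [1, 0, 2, 1, 3, 2, 3] = evl r29 * X 7 ^ (3 : ℕ) := by
  apply hinj
  have h := rho_eq (V := Wd.mul (Wd.pow (Wd.g 7) 3) (Wd.mul (Wd.g 1) (Wd.mul (Wd.g 0) (Wd.mul (Wd.g 2) (Wd.mul (Wd.g 1) (Wd.mul (Wd.g 3) (Wd.mul (Wd.g 2) (Wd.g 3))))))))
    (W := Wd.mul (Wd.mul (Wd.g 1) (Wd.mul (Wd.g 0) (Wd.mul (Wd.g 2) (Wd.mul (Wd.g 1) (Wd.mul (Wd.g 4) (Wd.mul (Wd.g 1) (Wd.mul (Wd.g 0) (Wd.mul (Wd.g 2) (Wd.mul (Wd.g 1) (Wd.mul (Wd.g 3) (Wd.mul (Wd.g 2) (Wd.mul (Wd.g 3) (Wd.mul (Wd.g 4) (Wd.mul (Wd.g 3) (Wd.mul (Wd.g 2) (Wd.mul (Wd.g 1) (Wd.mul (Wd.g 0) (Wd.mul (Wd.g 3) (Wd.mul (Wd.g 2) (Wd.mul (Wd.g 1) (Wd.mul (Wd.g 3) (Wd.mul (Wd.g 2) (Wd.g 3))))))))))))))))))))))) (Wd.pow (Wd.g 7) 3))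
    (by decide) (by decide) (by decide +kernel)
  have e : evl [1, 0, 2, 1, 3, 2, 3] = X 1 * (X 0 * (X 2 * (X 1 * (X 3 * (X 2 * (X 3)))))) := by unfold evl; simp [XX]
  have e2 : evl r29 = X 1 * (X 0 * (X 2 * (X 1 * (X 4 * (X 1 * (X 0 * (X 2 * (X 1 * (X 3 * (X 2 * (X 3 * (X 4 * (X 3 * (X 2 * (X 1 * (X 0 * (X 3 * (X 2 * (X 1 * (X 3 * (X 2 * (X 3)))))))))))))))))))))) := by unfold evl r29; simp [XX]
  rw [e, e2]
  exact h

theorem u4 : X 7 ^ (4 : ℕ) = 1 :=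
  hinj ((rho_one (W := Wd.pow (Wd.g 7) 4) (by decide) (by decide +kernel)).trans (map_one rho).symm)

theorem gg0 : g 1 = X 7 ^ (3 : ℕ) := by
  have h : g 1 = (X 7)⁻¹ := by
    unfold g
    rw [show rw 1 = [10] by decide +kernel]
    unfold evl; simp [XX]
  rw [h, inv_eq_iff_mul_eq_one, ← pow_succ', u4 hinj]

theorem gg0_mem : g 1 ∈ ThC4G.CC := by
  rw [gg0 hinj]; exact pow_mem (mem_CC (by simp)) 3

theorem gg1_mem : g 2 ∈ ThC4G.CC := by
  have h : g 2 = (X 7)⁻¹ * (X 3 * (X 7)⁻¹) := by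
    unfold g
    rw [show rw 2 = [10, 3, 10] by decide +kernel]
    unfold evl; simp [XX]
  rw [h]
  exact mul_mem (inv_mem (mem_CC (by simp))) (mul_mem (mem_CC (by simp)) (inv_mem (mem_CC (by simp))))

omit hinj in
/-- conjugates of `a` in `P` -/
theorem conj_xx {p : Th} (hp : p ∈ ThC4G.P) : ∃ j < 819, ∃ k ∈ ThC4G.K, p = k * evl (wl j) ∧ p⁻¹ * X 0 * p = xx j := by
  obtain ⟨u, hu, hk⟩ := ThC4G.coset p hp
  obtain ⟨j, hj, rfl⟩ := wl_of_mem hu
  refine ⟨j, hj, _, hk, (inv_mul_cancel_right _ _).symm, ?_⟩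
  set k := p * (evl (wl j))⁻¹ with hkd
  have e1 : p = k * evl (wl j) := by rw [hkd, inv_mul_cancel_right]
  have hka : k * X 0 = X 0 * k := ThC4G.K_comm k hk
  have h1 : k⁻¹ * X 0 * k = X 0 := by rw [mul_assoc, ← hka, inv_mul_cancel_left]
  calc p⁻¹ * X 0 * p = (evl (wl j))⁻¹ * (k⁻¹ * X 0 * k) * evl (wl j) := by rw [e1]; group
    _ = xx j := by rw [h1]; rfl

theorem cent (hcov : Cov) {y : Th} (hg : y * X 0 = X 0 * y) : y ∈ ThC4G.CC := by
  obtain ⟨i, hi, p, hp, p', hp', h⟩ := hcov y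
  by_cases hi0 : i = 0
  · subst hi0
    apply K_le
    apply ThC4G.mem_K y _ hg
    rw [h]
    have : g 0 = 1 := by
      unfold g
      rw [show rw 0 = [] by decide +kernel]
      rfl
    rw [this, mul_one]
    exact mul_mem hp hp'
  · obtain ⟨j, hj, k, hk, e1, hx⟩ := conj_xx (inv_mem hp')
    obtain ⟨j', hj', k', hk', e1', hx'⟩ := conj_xx hp
    have hy : g i * xx j * (g i)⁻¹ = xx j' := by
      have h1 : y * X 0 * y⁻¹ = X 0 := by rw [hg, mul_inv_cancel_right]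
      calc g i * xx j * (g i)⁻¹ = p⁻¹ * ((p * g i * p') * X 0 * (p * g i * p')⁻¹) * p := by rw [← hx]; group
        _ = p⁻¹ * X 0 * p := by rw [← h, h1]
        _ = xx j' := hx'
    rcases test (by omega) hi hj hj' (by rw [hy]) with ⟨rfl, rfl | rfl | rfl⟩ | ⟨rfl, rfl⟩
    · rw [wl_special.1] at e1
      exact fin hinj hg hp (gg0_mem hinj) hk (Subgroup.one_mem _) h e1
          (by show g 1 * 1 = 1 * g 1; rw [mul_one, one_mul])
    · rw [wl_special.2.1] at e1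
      refine fin hinj hg hp (gg0_mem hinj) hk (r := evl [1, 0, 2, 1] * X 4) ?_ h e1 ?_
      · exact mul_mem (evl_mem _ (by decide)) (mem_P (by norm_num))
      · rw [gg0 hinj]; exact rel6 hinj
    · rw [wl_special.2.2] at e1
      refine fin hinj hg hp (gg0_mem hinj) hk (r := evl r29) ?_ h e1 ?_
      · exact evl_mem _ (by decide)
      · rw [gg0 hinj]; exact rel29 hinj
    · rw [wl_special.1] at e1
      exact fin hinj hg hp (gg1_mem hinj) hk (Subgroup.one_mem _) h e1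
          (by show g 2 * 1 = 1 * g 2; rw [mul_one, one_mul])

theorem centralizer_eq (hcov : Cov) : Subgroup.centralizer ({X 0} : Set Th) = ThC2.CC := by
  ext g
  rw [Subgroup.mem_centralizer_singleton_iff]
  exact ⟨fun h => cent hinj hcov h, fun h => CC_comm hinj g h⟩

end

theorem order_a : orderOf (X 0) = 2 := by
  haveI : Fact (Nat.Prime 2) := ⟨Nat.prime_two⟩
  exact orderOf_eq_prime ThC4G.relC.a2 ThC4G.a_ne

/-- S0475 from the simplicity of Th, the representation, the double cosets -/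
theorem main (hTh : Cfsg.IsTh Th) (hcov : Cov) :
    ∃ (G : Type) (_ : Group G) (_ : Finite G), Cfsg.IsTh G ∧ ∃ z : G, orderOf z = 2 ∧
      ∃ (Q : Subgroup (Subgroup.centralizer ({z} : Set G))) (_ : Q.Normal), Nat.card Q = 2 ^ 9 ∧
        Cfsg.IsExtraspecial 2 Q ∧ Nonempty ((Subgroup.centralizer ({z} : Set G)) ⧸ Q ≃* alternatingGroup (Fin 9)) := by
  have hfin : Finite Th := Nat.finite_of_card_ne_zero (by rw [hTh.2]; norm_num)
  have hinj : Function.Injective rho := by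
    haveI := hTh.1
    rw [← MonoidHom.ker_eq_bot_iff]
    rcases IsSimpleGroup.eq_bot_or_eq_top_of_normal rho.ker inferInstance with h | h
    · exact h
    · exfalso
      have h1 : X 0 ∈ rho.ker := by rw [h]; exact Subgroup.mem_top _
      exact rho_ne (W := Wd.g 0) (by decide) (i := 9) (j := 9) (by norm_num) (by norm_num) (by decide +kernel) h1
  obtain ⟨h1, h2, h3⟩ := ThC14.final ThC4G.card_CC.1 ThC4G.card_CC.2 hinj
  refine ⟨Th, inferInstance, hfin, hTh, X 0, order_a, ?_⟩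
  rw [centralizer_eq hinj hcov]
  exact ⟨ThC2.th.ker, inferInstance, h2, h3, ThC2.quot_iso⟩

end Cfsg.Agent.Lib.ThCMain
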