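import Cfsg.Agent.Lib.ThDTw
import Cfsg.Agent.Lib.ThDS
import Cfsg.Agent.Lib.ThGlue
import Cfsg.Agent.Lib.ThCMain
import Cfsg.Agent.Lib.DceFin

/-!
# Thompson group: the double cosets of `³D₄(2):3` in terms of words
-/

set_option autoImplicit false
set_option linter.all false
set_option maxRecDepth 100000
set_option Elab.async false

namespace Cfsg.Agent.Lib.ThCCov

open Cfsg.Spor Cfsg.Agent.Lib.Dce Cfsg.Agent.Lib.DceBig Cfsg.Agent.Lib.ThDT Cfsg.Agent.Lib.ThP Cfsg.Agent.Lib.ThDE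
open Cfsg.Agent.Lib.ThDRun

/-- comparison of edges -/
def eqE (a b : Edge) : Bool := (Nat.beq a.i b.i && (eqL a.h b.h && (Nat.beq a.j b.j && eqL a.a b.a)))

theorem eqE_sound {a b : Edge} (h : eqE a b = true) : a = b := by
  have : eqEs [a] [b] = true := by simp only [eqEs, Bool.and_true]; exact h
  have := eqEs_sound this
  simpa using this

/-- the first edges -/
def fst : ℕ → List Edge → Bool
  | _, [] => true
  | n, E :: l => (match ThDE.get n with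
    | none => false
    | some E' => eqE E' E) && fst (n + 1) l

theorem fst_spec {n : ℕ} {l : List Edge} (h : fst n l = true) :
    ∀ E ∈ l, ∃ f < n + l.length, ThDE.get f = some E := by
  induction l generalizing n with
  | nil => intro E hE; simp at hE
  | cons a l ih =>
    simp only [fst, Bool.and_eq_true] at h
    intro E hE
    rcases List.mem_cons.mp hE with rfl | hE
    · refine ⟨n, by simp, ?_⟩
      have h1 := h.1
      cases hg : ThDE.get n with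
      | none => rw [hg] at h1; simp at h1
      | some E' =>
        rw [hg] at h1
        simp only at h1
        rw [eqE_sound h1]
    · obtain ⟨f, hf, h3⟩ := ih h.2 E hE
      exact ⟨f, by simp only [List.length_cons]; omega, h3⟩

/-- definition edges -/
def dl : List Edge := [⟨0, [], 1, []⟩, ⟨1, [3], 2, []⟩, ⟨1, [5, 1], 3, []⟩, ⟨1, [3, 1], 4, []⟩, ⟨1, [6, 3, 1], 5, []⟩,
  ⟨1, [5, 3, 1], 6, []⟩, ⟨2, [1], 7, []⟩, ⟨2, [6, 1], 8, []⟩, ⟨3, [3, 1, 2, 3, 4, 6, 8, 4, 3, 2, 3], 9, []⟩,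
  ⟨3, [5, 3, 1, 2, 3, 4, 3, 2, 3, 1, 0], 10, []⟩]

theorem c_fst : fst 0 dl = true := by decide +kernel

theorem P_eq : ThGlue.P = ThC4G.P := rfl

section
variable {ψ : PP →* Th} (h0 : ψ (xs 0) = PresentedGroup.of Th.Gen.a) (h1 : ψ (xs 1) = PresentedGroup.of Th.Gen.b)
  (h2 : ψ (xs 2) = PresentedGroup.of Th.Gen.c) (h3 : ψ (xs 3) = PresentedGroup.of Th.Gen.d)
  (h4 : ψ (xs 4) = PresentedGroup.of Th.Gen.e) (h5 : ψ (xs 5) = PresentedGroup.of Th.Gen.s)
  (h7 : ψ (xs 7) = PresentedGroup.of Th.Gen.t)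

/-- translation of letters -/
def tr (c : ℕ) : ℕ :=
  match c with
  | 6 => 8
  | 7 => 6
  | 8 => 9
  | c => c

include h0 h1 h2 h3 h4 h5 h7 in
theorem psi_xs {c : ℕ} (hc : c < 9) : ψ (xs c) = ThCW.XX (tr c) := by
  obtain ⟨h6, h8⟩ := ev9 (a := PresentedGroup.of Th.Gen.a) (b := PresentedGroup.of Th.Gen.b)
    (c := PresentedGroup.of Th.Gen.c) (d := PresentedGroup.of Th.Gen.d) (e := PresentedGroup.of Th.Gen.e) h0 h1 h2 h3 h4 h5 h7
  interval_cases c
  · exact h0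
  · exact h1
  · exact h2
  · exact h3
  · exact h4
  · exact h5
  · exact h6
  · exact h7
  · exact h8

include h0 h1 h2 h3 h4 h5 h7 in
theorem psi_ev {w : List ℕ} (hw : ∀ c ∈ w, c < 9) : ψ (ev xs w) = ThCW.evl (w.map tr) := by
  induction w with
  | nil => rw [ev_nil, map_one]; rfl
  | cons a w ih =>
    rw [ev_cons, map_mul, ih (fun c hc => hw c (List.mem_cons_of_mem _ hc)),
      psi_xs h0 h1 h2 h3 h4 h5 h7 (hw a List.mem_cons_self)]
    rfl

theorem evl_app (v w : List ℕ) : ThCW.evl (v ++ w) = ThCW.evl v * ThCW.evl w := by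
  unfold ThCW.evl
  rw [List.map_append, List.prod_append]

variable {c : ℕ → Th ⧸ ThGlue.P}

include h0 h1 h2 h3 h4 h5 h7 in
/-- one step -/
theorem step {i j : ℕ} {w v : List ℕ} (hw : ∀ c ∈ w, c < 9)
    (hinv : DceBig.Inv xs ((MulAction.toPermHom Th (Th ⧸ ThGlue.P)).comp ψ)
      (MulAction.toPermHom Th (Th ⧸ ThGlue.P) (PresentedGroup.of Th.Gen.u : Th)⁻¹) c ThDE.get 4280 ThDS.s43)
    (hE : (⟨i, w, j, []⟩ : Edge) ∈ dl) (hi : c i = ((ThCW.evl v : Th) : Th ⧸ ThGlue.P)) :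
    c j = ((ThCW.evl (10 :: (w.map tr ++ v)) : Th) : Th ⧸ ThGlue.P) := by
  obtain ⟨f, hf, hg⟩ := fst_spec c_fst _ hE
  have hl : dl.length = 10 := rfl
  have h := hinv.1 f (by omega) _ hg
  simp only [ev_nil, map_one, Equiv.Perm.one_apply] at h
  rw [← h, hi]
  show (PresentedGroup.of Th.Gen.u : Th)⁻¹ • (ψ (ev xs w) • ((ThCW.evl v : Th) : Th ⧸ ThGlue.P)) = _
  rw [psi_ev h0 h1 h2 h3 h4 h5 h7 hw, MulAction.Quotient.smul_coe, MulAction.Quotient.smul_coe]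
  congr 1
  show (PresentedGroup.of Th.Gen.u : Th)⁻¹ * (ThCW.evl (w.map tr) * ThCW.evl v) = _
  rw [← evl_app]
  rfl

include h0 h1 h2 h3 h4 h5 h7 in
/-- the points in terms of words -/
theorem pts (hinv : DceBig.Inv xs ((MulAction.toPermHom Th (Th ⧸ ThGlue.P)).comp ψ)
      (MulAction.toPermHom Th (Th ⧸ ThGlue.P) (PresentedGroup.of Th.Gen.u : Th)⁻¹) c ThDE.get 4280 ThDS.s43)
    (hc0 : c 0 = ((1 : Th) : Th ⧸ ThGlue.P)) {i : ℕ} (hi : i < 11) : c i = ((ThCT.g i : Th) : Th ⧸ ThGlue.P) := by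
  have e0 : c 0 = ((ThCW.evl [] : Th) : Th ⧸ ThGlue.P) := hc0
  have e1 := step h0 h1 h2 h3 h4 h5 h7 (j := 1) (w := []) (by decide) hinv (by simp [dl]) e0
  have e2 := step h0 h1 h2 h3 h4 h5 h7 (j := 2) (w := [3]) (by decide) hinv (by simp [dl]) e1
  have e3 := step h0 h1 h2 h3 h4 h5 h7 (j := 3) (w := [5, 1]) (by decide) hinv (by simp [dl]) e1
  have e4 := step h0 h1 h2 h3 h4 h5 h7 (j := 4) (w := [3, 1]) (by decide) hinv (by simp [dl]) e1
  have e5 := step h0 h1 h2 h3 h4 h5 h7 (j := 5) (w := [6, 3, 1]) (by decide) hinv (by simp [dl]) e1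
  have e6 := step h0 h1 h2 h3 h4 h5 h7 (j := 6) (w := [5, 3, 1]) (by decide) hinv (by simp [dl]) e1
  have e7 := step h0 h1 h2 h3 h4 h5 h7 (j := 7) (w := [1]) (by decide) hinv (by simp [dl]) e2
  have e8 := step h0 h1 h2 h3 h4 h5 h7 (j := 8) (w := [6, 1]) (by decide) hinv (by simp [dl]) e2
  have e9 := step h0 h1 h2 h3 h4 h5 h7 (j := 9) (w := [3, 1, 2, 3, 4, 6, 8, 4, 3, 2, 3]) (by decide) hinv (by simp [dl]) e3
  have e10 := step h0 h1 h2 h3 h4 h5 h7 (j := 10) (w := [5, 3, 1, 2, 3, 4, 3, 2, 3, 1, 0]) (by decide) hinv (by simp [dl]) e3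
  interval_cases i
  · exact e0
  · exact e1
  · exact e2
  · exact e3
  · exact e4
  · exact e5
  · exact e6
  · exact e7
  · exact e8
  · exact e9
  · exact e10

include h0 h1 h2 h3 h4 h5 h7 in
/-- the double cosets -/
theorem cov_of (hr : ψ.range = ThGlue.P) (hinv : DceBig.Inv xs ((MulAction.toPermHom Th (Th ⧸ ThGlue.P)).comp ψ)
      (MulAction.toPermHom Th (Th ⧸ ThGlue.P) (PresentedGroup.of Th.Gen.u : Th)⁻¹) c ThDE.get 4280 ThDS.s43)
    (hc0 : c 0 = ((1 : Th) : Th ⧸ ThGlue.P)) (hcov : ∀ y, ∃ p i, i < 11 ∧ y = ψ p • c i) : ThCMain.Cov := by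
  intro y
  obtain ⟨p, i, hi, h⟩ := hcov ((y : Th) : Th ⧸ ThGlue.P)
  rw [pts h0 h1 h2 h3 h4 h5 h7 hinv hc0 hi, MulAction.Quotient.smul_coe] at h
  have h' := QuotientGroup.eq.mp h
  refine ⟨i, hi, ψ p, ?_, (ψ p * ThCT.g i)⁻¹ * y, ?_, ?_⟩
  · rw [← P_eq, ← hr]; exact ⟨p, rfl⟩
  · rw [← P_eq]
    have h2 := ThGlue.P.inv_mem h'
    rw [mul_inv_rev, inv_inv] at h2
    exact h2
  · group

end

end Cfsg.Agent.Lib.ThCCov
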