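import Cfsg.Agent.Lib.ThCT0

set_option autoImplicit false
set_option linter.all false
set_option maxRecDepth 100000
set_option Elab.async false

namespace Cfsg.Agent.Lib.ThCT

open Cfsg.Agent.Lib.H58SM

theorem c_0 : alln (fun x => chk (Nat.add 0 x)) 10 = true := by decide +kernel

theorem c_10 : alln (fun x => chk (Nat.add 10 x)) 10 = true := by decide +kernel

theorem c_20 : alln (fun x => chk (Nat.add 20 x)) 10 = true := by decide +kernel

theorem c_30 : alln (fun x => chk (Nat.add 30 x)) 10 = true := by decide +kernel

theorem c_40 : alln (fun x => chk (Nat.add 40 x)) 10 = true := by decide +kernel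

theorem c_50 : alln (fun x => chk (Nat.add 50 x)) 10 = true := by decide +kernel

theorem c_60 : alln (fun x => chk (Nat.add 60 x)) 10 = true := by decide +kernel

theorem c_70 : alln (fun x => chk (Nat.add 70 x)) 10 = true := by decide +kernel

theorem c_80 : alln (fun x => chk (Nat.add 80 x)) 10 = true := by decide +kernel

theorem c_90 : alln (fun x => chk (Nat.add 90 x)) 10 = true := by decide +kernel

theorem c_100 : alln (fun x => chk (Nat.add 100 x)) 10 = true := by decide +kernel

end Cfsg.Agent.Lib.ThCT
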