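import Cfsg.Agent.Lib.ThCT0

set_option autoImplicit false
set_option linter.all false
set_option maxRecDepth 100000
set_option Elab.async false

namespace Cfsg.Agent.Lib.ThCT

open Cfsg.Agent.Lib.H58SM

theorem c_110 : alln (fun x => chk (Nat.add 110 x)) 10 = true := by decide +kernel

theorem c_120 : alln (fun x => chk (Nat.add 120 x)) 10 = true := by decide +kernel

theorem c_130 : alln (fun x => chk (Nat.add 130 x)) 10 = true := by decide +kernel

theorem c_140 : alln (fun x => chk (Nat.add 140 x)) 10 = true := by decide +kernel

theorem c_150 : alln (fun x => chk (Nat.add 150 x)) 10 = true := by decide +kernel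

theorem c_160 : alln (fun x => chk (Nat.add 160 x)) 10 = true := by decide +kernel

theorem c_170 : alln (fun x => chk (Nat.add 170 x)) 10 = true := by decide +kernel

theorem c_180 : alln (fun x => chk (Nat.add 180 x)) 10 = true := by decide +kernel

theorem c_190 : alln (fun x => chk (Nat.add 190 x)) 10 = true := by decide +kernel

theorem c_200 : alln (fun x => chk (Nat.add 200 x)) 10 = true := by decide +kernel

theorem c_210 : alln (fun x => chk (Nat.add 210 x)) 10 = true := by decide +kernel

end Cfsg.Agent.Lib.ThCT
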