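import Cfsg.Agent.Lib.ThCT0

/-!
Soundness of the checks of piece C1 (helper30).
-/

set_option autoImplicit false
set_option linter.all false
set_option maxRecDepth 100000

namespace Cfsg.Agent.Lib.ThCT

open Cfsg.Spor Cfsg.Agent.Lib.H58SM Cfsg.Agent.Lib.MatF3 Cfsg.Agent.Lib.ThTab Cfsg.Agent.Lib.ThRho
open scoped Matrix

/-- value of a list of letters in the units -/
noncomputable def val (l : List ℕ) : GM := (l.map ThRho.x).prod

theorem ltOk_iff {l : List ℕ} (h : ltOk l = true) : ∀ c ∈ l, c < 11 := by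
  induction l with
  | nil => intro c hc; exact absurd hc List.not_mem_nil
  | cons a l ih =>
    unfold ltOk at h
    cases hb : Nat.blt a 11 with
    | false => rw [hb] at h; exact Bool.noConfusion h
    | true =>
      rw [hb] at h
      intro c hc
      rcases List.mem_cons.mp hc with rfl | hc
      · exact Nat.le_of_ble_eq_true hb
      · exact ih h c hc

theorem fold_spec {l : List ℕ} (hl : ∀ c ∈ l, c < 11) : ∀ {A : ℕ}, OkT A →
    OkT (fold l A) ∧ MT (fold l A) = MT A * (val l : Matrix (Fin 248) (Fin 248) (ZMod 3)) := by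
  induction l with
  | nil =>
    intro A hA
    refine ⟨hA, ?_⟩
    show MT A = MT A * 1
    rw [mul_one]
  | cons a l ih =>
    intro A hA
    obtain ⟨h1, h2⟩ := ThRho.mul_spec hA (okT a (hl a List.mem_cons_self))
    obtain ⟨h3, h4⟩ := ih (fun c hc => hl c (List.mem_cons_of_mem _ hc)) h1
    have e : fold (a :: l) A = fold l (mulT A (TB a)) := by
      show frc _ _ = _
      rw [frc_eq]
    rw [e]
    refine ⟨h3, ?_⟩
    rw [h4, h2]
    have e2 : (val (a :: l) : Matrix (Fin 248) (Fin 248) (ZMod 3)) = MT (TB a) * (val l : Matrix (Fin 248) (Fin 248) (ZMod 3)) := by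
      unfold val
      rw [List.map_cons, List.prod_cons, Units.val_mul, x_val a (hl a List.mem_cons_self)]
      rfl
    rw [e2, mul_assoc]

theorem val_append (l m : List ℕ) : val (l ++ m) = val l * val m := by
  unfold val
  rw [List.map_append, List.prod_append]

theorem val_inv (l : List ℕ) : val (l.reverse.map iv) = (val l)⁻¹ := by
  unfold val
  rw [List.prod_inv_reverse, List.map_map]
  congr 1
  rw [← List.map_reverse, ← List.map_reverse, List.map_map]
  apply List.map_congr_left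
  intro c _
  simp [x_iv]

theorem val_xw (j : ℕ) : val (xw j) = (val (wl j))⁻¹ * ThRho.x 0 * val (wl j) := by
  unfold xw
  rw [val_append, val_inv, mul_assoc]
  rfl

/-! ### entries -/

/-- planes of a packed matrix -/
def pp (A : ℕ) : ℕ := Nat.land A mS
def mm (A : ℕ) : ℕ := Nat.shiftRight A S

theorem S_eq : S = 248 * 248 := good.hS

theorem pp_bit (A : ℕ) {i j : ℕ} (hi : i < 248) (hj : j < 248) :
    (gt (pp A) 248 msk i).testBit j = A.testBit (248 * i + j) := by
  rw [← MatF2.bit_eq good.g2.hm _ _ hj]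
  exact tb_lo good.hmS A (lt_S good.hS hi hj)

theorem mm_bit (A : ℕ) {i j : ℕ} (hi : i < 248) (hj : j < 248) :
    (gt (mm A) 248 msk i).testBit j = A.testBit (S + (248 * i + j)) := by
  rw [← MatF2.bit_eq good.g2.hm _ _ hj]
  exact tb_hi S A _

theorem mt_eq (A : ℕ) {i j : ℕ} (hi : i < 248) (hj : j < 248) :
    MT A ⟨i, hi⟩ ⟨j, hj⟩ = e3 ((gt (pp A) 248 msk i).testBit j) ((gt (mm A) 248 msk i).testBit j) := by
  rw [pp_bit A hi hj, mm_bit A hi hj]
  rfl

theorem beq_iff {a b : ℕ} (h : Nat.beq a b = true) : a = b := Nat.eq_of_beq_eq_true h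

theorem cond_and {a b : Bool} (h : cond a b false = true) : a = true ∧ b = true := by
  cases a with
  | false => exact Bool.noConfusion h
  | true => exact ⟨rfl, h⟩

theorem row_eq {A B r r' : ℕ} (h : rowEq A B r r' = true) (hr : r < 248) (hr' : r' < 248) {j : ℕ} (hj : j < 248) :
    MT A ⟨r, hr⟩ ⟨j, hj⟩ = MT B ⟨r', hr'⟩ ⟨j, hj⟩ := by
  obtain ⟨h1, h2⟩ := cond_and h
  have h1' : gt (pp A) 248 msk r = gt (pp B) 248 msk r' := beq_iff h1
  have h2' : gt (mm A) 248 msk r = gt (mm B) 248 msk r' := beq_iff h2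
  rw [mt_eq, mt_eq, h1', h2']

theorem nib_bit {P i k l : ℕ} (hl : l < 4) :
    (nib P i k).testBit l = (gt P 248 msk (4 * i + k)).testBit (4 * i + l) := by
  show (Nat.land (Nat.shiftRight (gt P 248 msk (4 * i + k)) (4 * i)) 15).testBit l = _
  have h : ∀ a : ℕ, (Nat.land a 15).testBit l = a.testBit l := by
    intro a
    have h1 : (Nat.land a 15).testBit l = (a.testBit l && (15 : ℕ).testBit l) := Nat.testBit_and a 15 l
    rw [h1]
    have h2 : (15 : ℕ).testBit l = true := by interval_cases l <;> decide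
    rw [h2, Bool.and_true]
  rw [h]
  exact Nat.testBit_shiftRight _

theorem nib15 {a l : ℕ} (hl : l < 4) : (Nat.land a 15).testBit l = a.testBit l := by
  have h1 : (Nat.land a 15).testBit l = (a.testBit l && (15 : ℕ).testBit l) := Nat.testBit_and a 15 l
  rw [h1]
  have h2 : (15 : ℕ).testBit l = true := by interval_cases l <;> decide
  rw [h2, Bool.and_true]

theorem land15_eq {a b : ℕ} (h : ∀ l < 4, a.testBit l = b.testBit l) : Nat.land a 15 = Nat.land b 15 := by
  apply Nat.eq_of_testBit_eq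
  intro l
  by_cases hl : l < 4
  · rw [nib15 hl, nib15 hl, h l hl]
  · have h0 : ∀ c : ℕ, (Nat.land c 15).testBit l = false := by
      intro c
      have h1 : (Nat.land c 15).testBit l = (c.testBit l && (15 : ℕ).testBit l) := Nat.testBit_and c 15 l
      rw [h1]
      have h2 : (15 : ℕ).testBit l = false := Nat.testBit_lt_two_pow (by
        calc 15 < 2 ^ 4 := by norm_num
          _ ≤ 2 ^ l := Nat.pow_le_pow_right (by norm_num) (by omega))
      rw [h2, Bool.and_false]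
    rw [h0, h0]

/-- two valid sign pairs with the same value agree -/
theorem e3_inj : ∀ a b c d : Bool, (a && b) = false → (c && d) = false → e3 a b = e3 c d → a = c ∧ b = d := by
  decide

theorem ok_bits {A : ℕ} (hA : OkT A) {i j : ℕ} (hi : i < 248) (hj : j < 248) :
    ((gt (pp A) 248 msk i).testBit j && (gt (mm A) 248 msk i).testBit j) = false := by
  rw [pp_bit A hi hj, mm_bit A hi hj]
  exact hA i hi j hj

/-- equal entries give equal bits -/
theorem bits_of_entry {A B : ℕ} (hA : OkT A) (hB : OkT B) {i j i' j' : ℕ} (hi : i < 248) (hj : j < 248) (hi' : i' < 248)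
    (hj' : j' < 248) (h : MT A ⟨i, hi⟩ ⟨j, hj⟩ = MT B ⟨i', hi'⟩ ⟨j', hj'⟩) :
    (gt (pp A) 248 msk i).testBit j = (gt (pp B) 248 msk i').testBit j' ∧
      (gt (mm A) 248 msk i).testBit j = (gt (mm B) 248 msk i').testBit j' := by
  rw [mt_eq A hi hj, mt_eq B hi' hj'] at h
  exact e3_inj _ _ _ _ (ok_bits hA hi hj) (ok_bits hB hi' hj') h

/-! ### blocks -/

theorem ok_Z0 : OkT Z0 := ok_of good ok_tabs.1
theorem ok_Y0 : OkT Y0 := ok_of good ok_tabs.2.1
theorem ok_Lam : OkT Lam := ok_of good ok_tabs.2.2.1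
theorem ok_Phi : OkT Phi := ok_of good ok_tabs.2.2.2

theorem rw_lt {i : ℕ} (hi : i < 11) : ∀ c ∈ rw i, c < 11 := ltOk_iff (alln_iff.1 rw_ok i hi)

theorem lam_row {i k : ℕ} (hi : i < 11) (hk : k < 4) (hr : 4 * i + k < 248) (j : Fin 248) :
    MT Lam ⟨4 * i + k, hr⟩ j = (MT Z0 * (val (rw i) : Matrix (Fin 248) (Fin 248) (ZMod 3))) ⟨k, by omega⟩ j := by
  have h := alln_iff.1 row_ok i hi
  unfold rowChk at h
  rw [frc_eq] at h
  have h1 := alln_iff.1 h k hk
  rw [← (fold_spec (rw_lt hi) ok_Z0).2]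
  exact (row_eq h1 (by omega) hr j.2).symm

theorem phi_col {i l : ℕ} (hi : i < 11) (hl : l < 4) (hr : 4 * i + l < 248) (a : Fin 248) :
    ((val (rw i) : Matrix (Fin 248) (Fin 248) (ZMod 3)) * MT Phi) a ⟨4 * i + l, hr⟩ = MT Y0 a ⟨l, by omega⟩ := by
  have h := col_ok hi
  unfold colChk at h
  simp only [frc_eq] at h
  have h1 := alln_iff.1 h a a.2
  obtain ⟨h2, h3⟩ := cond_and h1
  obtain ⟨f1, f2⟩ := fold_spec (rw_lt hi) one_ok
  rw [one_eq, one_mul] at f2
  obtain ⟨g1, g2⟩ := ThRho.mul_spec f1 ok_Phi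
  rw [f2] at g2
  rw [← g2]
  have h2' := beq_iff h2
  have h3' := beq_iff h3
  have b1 := congrArg (fun n => Nat.testBit n l) h2'
  have b2 := congrArg (fun n => Nat.testBit n l) h3'
  simp only [nib15 hl] at b1 b2
  have key : ∀ x : ℕ, (Nat.shiftRight x (Nat.mul 4 i)).testBit l = x.testBit (4 * i + l) := fun x => Nat.testBit_shiftRight x
  rw [key] at b1 b2
  rw [mt_eq _ a.2 hr, mt_eq Y0 a.2 (by omega : l < 248)]
  exact congrArg₂ e3 b1 b2

theorem block_eq {i j : ℕ} (hi : i < 11) (hj : ∀ c ∈ xw j, c < 11) {k l : ℕ} (hk : k < 4) (hl : l < 4)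
    (hr : 4 * i + k < 248) (hc : 4 * i + l < 248) :
    OkT (Y j) ∧ MT (Y j) ⟨4 * i + k, hr⟩ ⟨4 * i + l, hc⟩ =
      (MT Z0 * ((val (rw i) * val (xw j) * (val (rw i))⁻¹ : GM) : Matrix (Fin 248) (Fin 248) (ZMod 3)) * MT Y0)
        ⟨k, by omega⟩ ⟨l, by omega⟩ := by
  obtain ⟨f1, f2⟩ := fold_spec hj ok_Lam
  obtain ⟨g1, g2⟩ := ThRho.mul_spec f1 ok_Phi
  have hY : Y j = mulT (fold (xw j) Lam) Phi := by
    unfold Y
    rw [frc_eq]
  rw [hY]
  refine ⟨g1, ?_⟩
  rw [g2, f2]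
  set g : Matrix (Fin 248) (Fin 248) (ZMod 3) := (val (rw i) : Matrix (Fin 248) (Fin 248) (ZMod 3)) with hg
  set X : Matrix (Fin 248) (Fin 248) (ZMod 3) := (val (xw j) : Matrix (Fin 248) (Fin 248) (ZMod 3)) with hX
  set gi : Matrix (Fin 248) (Fin 248) (ZMod 3) := (((val (rw i))⁻¹ : GM) : Matrix (Fin 248) (Fin 248) (ZMod 3)) with hgi
  have hgg : gi * g = 1 := by
    rw [hgi, hg, ← Units.val_mul, inv_mul_cancel, Units.val_one]
  have hcol : (fun b => MT Phi b ⟨4 * i + l, hc⟩) = gi *ᵥ (fun a => MT Y0 a ⟨l, by omega⟩) := by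
    have h1 : g *ᵥ (fun b => MT Phi b ⟨4 * i + l, hc⟩) = fun a => MT Y0 a ⟨l, by omega⟩ := by
      funext a
      exact phi_col hi hl hc a
    rw [← h1, Matrix.mulVec_mulVec, hgg, Matrix.one_mulVec]
  have hrow : MT Lam ⟨4 * i + k, hr⟩ = (MT Z0 * g) ⟨k, by omega⟩ := by
    funext b
    exact lam_row hi hk hr b
  have e1 : (MT Lam * X * MT Phi) ⟨4 * i + k, hr⟩ ⟨4 * i + l, hc⟩ =
      (MT Lam ⟨4 * i + k, hr⟩ ᵥ* X) ⬝ᵥ (fun b => MT Phi b ⟨4 * i + l, hc⟩) := by
    rw [Matrix.mul_apply']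
    rfl
  have e2 : (MT Z0 * ((val (rw i) * val (xw j) * (val (rw i))⁻¹ : GM) : Matrix (Fin 248) (Fin 248) (ZMod 3)) * MT Y0)
        ⟨k, by omega⟩ ⟨l, by omega⟩ = ((MT Z0 * g) ⟨k, by omega⟩ ᵥ* X) ⬝ᵥ (gi *ᵥ (fun a => MT Y0 a ⟨l, by omega⟩)) := by
    rw [Units.val_mul, Units.val_mul, ← hg, ← hX, ← hgi]
    have e3 : MT Z0 * (g * X * gi) * MT Y0 = (MT Z0 * g * X) * (gi * MT Y0) := by
      simp only [mul_assoc]
    rw [e3, Matrix.mul_apply']
    rfl
  rw [e1, e2, hrow, hcol]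

end Cfsg.Agent.Lib.ThCT
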