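import Cfsg.Agent.Lib.ThCT0

set_option autoImplicit false
set_option linter.all false
set_option maxRecDepth 100000
set_option Elab.async false

namespace Cfsg.Agent.Lib.ThCT

open Cfsg.Agent.Lib.H58SM

theorem c_220 : alln (fun x => chk (Nat.add 220 x)) 10 = true := by decide +kernel

theorem c_230 : alln (fun x => chk (Nat.add 230 x)) 10 = true := by decide +kernel

theorem c_240 : alln (fun x => chk (Nat.add 240 x)) 10 = true := by decide +kernel

theorem c_250 : alln (fun x => chk (Nat.add 250 x)) 10 = true := by decide +kernel

theorem c_260 : alln (fun x => chk (Nat.add 260 x)) 10 = true := by decide +kernel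

theorem c_270 : alln (fun x => chk (Nat.add 270 x)) 10 = true := by decide +kernel

theorem c_280 : alln (fun x => chk (Nat.add 280 x)) 10 = true := by decide +kernel

theorem c_290 : alln (fun x => chk (Nat.add 290 x)) 10 = true := by decide +kernel

theorem c_300 : alln (fun x => chk (Nat.add 300 x)) 10 = true := by decide +kernel

theorem c_310 : alln (fun x => chk (Nat.add 310 x)) 10 = true := by decide +kernel

theorem c_320 : alln (fun x => chk (Nat.add 320 x)) 10 = true := by decide +kernel

end Cfsg.Agent.Lib.ThCT
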