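import Cfsg.Agent.Lib.ThCT0

set_option autoImplicit false
set_option linter.all false
set_option maxRecDepth 100000
set_option Elab.async false

namespace Cfsg.Agent.Lib.ThCT

open Cfsg.Agent.Lib.H58SM

theorem c_330 : alln (fun x => chk (Nat.add 330 x)) 10 = true := by decide +kernel

theorem c_340 : alln (fun x => chk (Nat.add 340 x)) 10 = true := by decide +kernel

theorem c_350 : alln (fun x => chk (Nat.add 350 x)) 10 = true := by decide +kernel

theorem c_360 : alln (fun x => chk (Nat.add 360 x)) 10 = true := by decide +kernel

theorem c_370 : alln (fun x => chk (Nat.add 370 x)) 10 = true := by decide +kernel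

theorem c_380 : alln (fun x => chk (Nat.add 380 x)) 10 = true := by decide +kernel

theorem c_390 : alln (fun x => chk (Nat.add 390 x)) 10 = true := by decide +kernel

theorem c_400 : alln (fun x => chk (Nat.add 400 x)) 10 = true := by decide +kernel

theorem c_410 : alln (fun x => chk (Nat.add 410 x)) 10 = true := by decide +kernel

theorem c_420 : alln (fun x => chk (Nat.add 420 x)) 10 = true := by decide +kernel

theorem c_430 : alln (fun x => chk (Nat.add 430 x)) 10 = true := by decide +kernel

end Cfsg.Agent.Lib.ThCT
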