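import Cfsg.Agent.Lib.ThCT0

set_option autoImplicit false
set_option linter.all false
set_option maxRecDepth 100000
set_option Elab.async false

namespace Cfsg.Agent.Lib.ThCT

open Cfsg.Agent.Lib.H58SM

theorem c_440 : alln (fun x => chk (Nat.add 440 x)) 10 = true := by decide +kernel

theorem c_450 : alln (fun x => chk (Nat.add 450 x)) 10 = true := by decide +kernel

theorem c_460 : alln (fun x => chk (Nat.add 460 x)) 10 = true := by decide +kernel

theorem c_470 : alln (fun x => chk (Nat.add 470 x)) 10 = true := by decide +kernel

theorem c_480 : alln (fun x => chk (Nat.add 480 x)) 10 = true := by decide +kernel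

theorem c_490 : alln (fun x => chk (Nat.add 490 x)) 10 = true := by decide +kernel

theorem c_500 : alln (fun x => chk (Nat.add 500 x)) 10 = true := by decide +kernel

theorem c_510 : alln (fun x => chk (Nat.add 510 x)) 10 = true := by decide +kernel

theorem c_520 : alln (fun x => chk (Nat.add 520 x)) 10 = true := by decide +kernel

theorem c_530 : alln (fun x => chk (Nat.add 530 x)) 10 = true := by decide +kernel

theorem c_540 : alln (fun x => chk (Nat.add 540 x)) 10 = true := by decide +kernel

end Cfsg.Agent.Lib.ThCT
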