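import Cfsg.Agent.Lib.ThCT0

set_option autoImplicit false
set_option linter.all false
set_option maxRecDepth 100000
set_option Elab.async false

namespace Cfsg.Agent.Lib.ThCT

open Cfsg.Agent.Lib.H58SM

theorem c_550 : alln (fun x => chk (Nat.add 550 x)) 10 = true := by decide +kernel

theorem c_560 : alln (fun x => chk (Nat.add 560 x)) 10 = true := by decide +kernel

theorem c_570 : alln (fun x => chk (Nat.add 570 x)) 10 = true := by decide +kernel

theorem c_580 : alln (fun x => chk (Nat.add 580 x)) 10 = true := by decide +kernel

theorem c_590 : alln (fun x => chk (Nat.add 590 x)) 10 = true := by decide +kernel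

theorem c_600 : alln (fun x => chk (Nat.add 600 x)) 10 = true := by decide +kernel

theorem c_610 : alln (fun x => chk (Nat.add 610 x)) 10 = true := by decide +kernel

theorem c_620 : alln (fun x => chk (Nat.add 620 x)) 10 = true := by decide +kernel

theorem c_630 : alln (fun x => chk (Nat.add 630 x)) 10 = true := by decide +kernel

theorem c_640 : alln (fun x => chk (Nat.add 640 x)) 10 = true := by decide +kernel

theorem c_650 : alln (fun x => chk (Nat.add 650 x)) 10 = true := by decide +kernel

end Cfsg.Agent.Lib.ThCT
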