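import Cfsg.Agent.Lib.ThCT0

set_option autoImplicit false
set_option linter.all false
set_option maxRecDepth 100000
set_option Elab.async false

namespace Cfsg.Agent.Lib.ThCT

open Cfsg.Agent.Lib.H58SM

theorem c_660 : alln (fun x => chk (Nat.add 660 x)) 10 = true := by decide +kernel

theorem c_670 : alln (fun x => chk (Nat.add 670 x)) 10 = true := by decide +kernel

theorem c_680 : alln (fun x => chk (Nat.add 680 x)) 10 = true := by decide +kernel

theorem c_690 : alln (fun x => chk (Nat.add 690 x)) 10 = true := by decide +kernel

theorem c_700 : alln (fun x => chk (Nat.add 700 x)) 10 = true := by decide +kernel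

theorem c_710 : alln (fun x => chk (Nat.add 710 x)) 10 = true := by decide +kernel

theorem c_720 : alln (fun x => chk (Nat.add 720 x)) 10 = true := by decide +kernel

theorem c_730 : alln (fun x => chk (Nat.add 730 x)) 10 = true := by decide +kernel

theorem c_740 : alln (fun x => chk (Nat.add 740 x)) 10 = true := by decide +kernel

theorem c_750 : alln (fun x => chk (Nat.add 750 x)) 10 = true := by decide +kernel

theorem c_760 : alln (fun x => chk (Nat.add 760 x)) 10 = true := by decide +kernel

end Cfsg.Agent.Lib.ThCT
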