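import Cfsg.Agent.Lib.ThCT0

set_option autoImplicit false
set_option linter.all false
set_option maxRecDepth 100000
set_option Elab.async false

namespace Cfsg.Agent.Lib.ThCT

open Cfsg.Agent.Lib.H58SM

theorem c_770 : alln (fun x => chk (Nat.add 770 x)) 10 = true := by decide +kernel

theorem c_780 : alln (fun x => chk (Nat.add 780 x)) 10 = true := by decide +kernel

theorem c_790 : alln (fun x => chk (Nat.add 790 x)) 10 = true := by decide +kernel

theorem c_800 : alln (fun x => chk (Nat.add 800 x)) 10 = true := by decide +kernel

theorem c_810 : alln (fun x => chk (Nat.add 810 x)) 9 = true := by decide +kernel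

end Cfsg.Agent.Lib.ThCT
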