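import Cfsg.Agent.Lib.ThCTA
import Cfsg.Agent.Lib.ThCTB
import Cfsg.Agent.Lib.ThCTC
import Cfsg.Agent.Lib.ThCTD
import Cfsg.Agent.Lib.ThCTE
import Cfsg.Agent.Lib.ThCTF
import Cfsg.Agent.Lib.ThCTG
import Cfsg.Agent.Lib.ThCTH
import Cfsg.Agent.Lib.ThCTBase
import Cfsg.Agent.Lib.ThCW

/-!
Piece C1 of the computation of the centralizer of an involution in the Thompson group (helper36's plan TH-C-SPLIT): for
the representatives `g_1, …, g_10` and the 819 involutions `x_j`, the only coincidences `g_i x_j g_i⁻¹ = x_k` in the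
representation `rho` are `(i, j) = (1, 0), (1, 6), (1, 29), (2, 0)`, with `k = j` (helper30).

`g i = val of rw i` : 1, U, UdU, UsbU, UdbU, USdbU, UsdbU, UbUdU, USbUdU, UdbcdeSTedcdUsbU, UsdbcdedcdbaUsbU;
`w j = evl (wl j)` : the words `ThCW.WL`; `xx j = (w j)⁻¹ * X 0 * w j`.
Main results: `test`, `test_eq`, `wl_of_mem`, `wl_mem`, `g_eq`.
-/

set_option autoImplicit false
set_option linter.all false
set_option maxRecDepth 100000
set_option Elab.async false

namespace Cfsg.Agent.Lib.ThCT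

open Cfsg.Spor Cfsg.Agent.Lib.H58SM Cfsg.Agent.Lib.MatF3 Cfsg.Agent.Lib.ThTab Cfsg.Agent.Lib.ThRho
open Cfsg.Agent.Lib.ThCW (XX evl WL)

theorem chk_of {j s l : ℕ} (h : alln (fun x => chk (Nat.add s x)) l = true) (h1 : s ≤ j) (h2 : j < s + l) : chk j = true := by
  have h3 := alln_iff.1 h (j - s) (by omega)
  have e : Nat.add s (j - s) = j := by
    show s + (j - s) = j
    omega
  have h4 : chk (Nat.add s (j - s)) = true := h3
  rw [e] at h4
  exact h4

theorem chk_ok {j : ℕ} (hj : j < 819) : chk j = true := by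
  by_cases h0 : j < 10
  · exact chk_of c_0 (Nat.zero_le j) h0
  by_cases h1 : j < 20
  · exact chk_of c_10 (Nat.le_of_not_lt h0) h1
  by_cases h2 : j < 30
  · exact chk_of c_20 (Nat.le_of_not_lt h1) h2
  by_cases h3 : j < 40
  · exact chk_of c_30 (Nat.le_of_not_lt h2) h3
  by_cases h4 : j < 50
  · exact chk_of c_40 (Nat.le_of_not_lt h3) h4
  by_cases h5 : j < 60
  · exact chk_of c_50 (Nat.le_of_not_lt h4) h5
  by_cases h6 : j < 70
  · exact chk_of c_60 (Nat.le_of_not_lt h5) h6
  by_cases h7 : j < 80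
  · exact chk_of c_70 (Nat.le_of_not_lt h6) h7
  by_cases h8 : j < 90
  · exact chk_of c_80 (Nat.le_of_not_lt h7) h8
  by_cases h9 : j < 100
  · exact chk_of c_90 (Nat.le_of_not_lt h8) h9
  by_cases h10 : j < 110
  · exact chk_of c_100 (Nat.le_of_not_lt h9) h10
  by_cases h11 : j < 120
  · exact chk_of c_110 (Nat.le_of_not_lt h10) h11
  by_cases h12 : j < 130
  · exact chk_of c_120 (Nat.le_of_not_lt h11) h12
  by_cases h13 : j < 140
  · exact chk_of c_130 (Nat.le_of_not_lt h12) h13
  by_cases h14 : j < 150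
  · exact chk_of c_140 (Nat.le_of_not_lt h13) h14
  by_cases h15 : j < 160
  · exact chk_of c_150 (Nat.le_of_not_lt h14) h15
  by_cases h16 : j < 170
  · exact chk_of c_160 (Nat.le_of_not_lt h15) h16
  by_cases h17 : j < 180
  · exact chk_of c_170 (Nat.le_of_not_lt h16) h17
  by_cases h18 : j < 190
  · exact chk_of c_180 (Nat.le_of_not_lt h17) h18
  by_cases h19 : j < 200
  · exact chk_of c_190 (Nat.le_of_not_lt h18) h19
  by_cases h20 : j < 210
  · exact chk_of c_200 (Nat.le_of_not_lt h19) h20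
  by_cases h21 : j < 220
  · exact chk_of c_210 (Nat.le_of_not_lt h20) h21
  by_cases h22 : j < 230
  · exact chk_of c_220 (Nat.le_of_not_lt h21) h22
  by_cases h23 : j < 240
  · exact chk_of c_230 (Nat.le_of_not_lt h22) h23
  by_cases h24 : j < 250
  · exact chk_of c_240 (Nat.le_of_not_lt h23) h24
  by_cases h25 : j < 260
  · exact chk_of c_250 (Nat.le_of_not_lt h24) h25
  by_cases h26 : j < 270
  · exact chk_of c_260 (Nat.le_of_not_lt h25) h26
  by_cases h27 : j < 280
  · exact chk_of c_270 (Nat.le_of_not_lt h26) h27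
  by_cases h28 : j < 290
  · exact chk_of c_280 (Nat.le_of_not_lt h27) h28
  by_cases h29 : j < 300
  · exact chk_of c_290 (Nat.le_of_not_lt h28) h29
  by_cases h30 : j < 310
  · exact chk_of c_300 (Nat.le_of_not_lt h29) h30
  by_cases h31 : j < 320
  · exact chk_of c_310 (Nat.le_of_not_lt h30) h31
  by_cases h32 : j < 330
  · exact chk_of c_320 (Nat.le_of_not_lt h31) h32
  by_cases h33 : j < 340
  · exact chk_of c_330 (Nat.le_of_not_lt h32) h33
  by_cases h34 : j < 350
  · exact chk_of c_340 (Nat.le_of_not_lt h33) h34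
  by_cases h35 : j < 360
  · exact chk_of c_350 (Nat.le_of_not_lt h34) h35
  by_cases h36 : j < 370
  · exact chk_of c_360 (Nat.le_of_not_lt h35) h36
  by_cases h37 : j < 380
  · exact chk_of c_370 (Nat.le_of_not_lt h36) h37
  by_cases h38 : j < 390
  · exact chk_of c_380 (Nat.le_of_not_lt h37) h38
  by_cases h39 : j < 400
  · exact chk_of c_390 (Nat.le_of_not_lt h38) h39
  by_cases h40 : j < 410
  · exact chk_of c_400 (Nat.le_of_not_lt h39) h40
  by_cases h41 : j < 420
  · exact chk_of c_410 (Nat.le_of_not_lt h40) h41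
  by_cases h42 : j < 430
  · exact chk_of c_420 (Nat.le_of_not_lt h41) h42
  by_cases h43 : j < 440
  · exact chk_of c_430 (Nat.le_of_not_lt h42) h43
  by_cases h44 : j < 450
  · exact chk_of c_440 (Nat.le_of_not_lt h43) h44
  by_cases h45 : j < 460
  · exact chk_of c_450 (Nat.le_of_not_lt h44) h45
  by_cases h46 : j < 470
  · exact chk_of c_460 (Nat.le_of_not_lt h45) h46
  by_cases h47 : j < 480
  · exact chk_of c_470 (Nat.le_of_not_lt h46) h47
  by_cases h48 : j < 490
  · exact chk_of c_480 (Nat.le_of_not_lt h47) h48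
  by_cases h49 : j < 500
  · exact chk_of c_490 (Nat.le_of_not_lt h48) h49
  by_cases h50 : j < 510
  · exact chk_of c_500 (Nat.le_of_not_lt h49) h50
  by_cases h51 : j < 520
  · exact chk_of c_510 (Nat.le_of_not_lt h50) h51
  by_cases h52 : j < 530
  · exact chk_of c_520 (Nat.le_of_not_lt h51) h52
  by_cases h53 : j < 540
  · exact chk_of c_530 (Nat.le_of_not_lt h52) h53
  by_cases h54 : j < 550
  · exact chk_of c_540 (Nat.le_of_not_lt h53) h54
  by_cases h55 : j < 560
  · exact chk_of c_550 (Nat.le_of_not_lt h54) h55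
  by_cases h56 : j < 570
  · exact chk_of c_560 (Nat.le_of_not_lt h55) h56
  by_cases h57 : j < 580
  · exact chk_of c_570 (Nat.le_of_not_lt h56) h57
  by_cases h58 : j < 590
  · exact chk_of c_580 (Nat.le_of_not_lt h57) h58
  by_cases h59 : j < 600
  · exact chk_of c_590 (Nat.le_of_not_lt h58) h59
  by_cases h60 : j < 610
  · exact chk_of c_600 (Nat.le_of_not_lt h59) h60
  by_cases h61 : j < 620
  · exact chk_of c_610 (Nat.le_of_not_lt h60) h61
  by_cases h62 : j < 630
  · exact chk_of c_620 (Nat.le_of_not_lt h61) h62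
  by_cases h63 : j < 640
  · exact chk_of c_630 (Nat.le_of_not_lt h62) h63
  by_cases h64 : j < 650
  · exact chk_of c_640 (Nat.le_of_not_lt h63) h64
  by_cases h65 : j < 660
  · exact chk_of c_650 (Nat.le_of_not_lt h64) h65
  by_cases h66 : j < 670
  · exact chk_of c_660 (Nat.le_of_not_lt h65) h66
  by_cases h67 : j < 680
  · exact chk_of c_670 (Nat.le_of_not_lt h66) h67
  by_cases h68 : j < 690
  · exact chk_of c_680 (Nat.le_of_not_lt h67) h68
  by_cases h69 : j < 700
  · exact chk_of c_690 (Nat.le_of_not_lt h68) h69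
  by_cases h70 : j < 710
  · exact chk_of c_700 (Nat.le_of_not_lt h69) h70
  by_cases h71 : j < 720
  · exact chk_of c_710 (Nat.le_of_not_lt h70) h71
  by_cases h72 : j < 730
  · exact chk_of c_720 (Nat.le_of_not_lt h71) h72
  by_cases h73 : j < 740
  · exact chk_of c_730 (Nat.le_of_not_lt h72) h73
  by_cases h74 : j < 750
  · exact chk_of c_740 (Nat.le_of_not_lt h73) h74
  by_cases h75 : j < 760
  · exact chk_of c_750 (Nat.le_of_not_lt h74) h75
  by_cases h76 : j < 770
  · exact chk_of c_760 (Nat.le_of_not_lt h75) h76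
  by_cases h77 : j < 780
  · exact chk_of c_770 (Nat.le_of_not_lt h76) h77
  by_cases h78 : j < 790
  · exact chk_of c_780 (Nat.le_of_not_lt h77) h78
  by_cases h79 : j < 800
  · exact chk_of c_790 (Nat.le_of_not_lt h78) h79
  by_cases h80 : j < 810
  · exact chk_of c_800 (Nat.le_of_not_lt h79) h80
  exact chk_of c_810 (Nat.le_of_not_lt h80) hj

theorem blk_spec {p m i h : ℕ} (hb : blkOk p m i h = true) {k : ℕ} (hk : k < 4) :
    nib p i k = Nat.land (Nat.shiftRight h (Nat.mul 4 k)) 15 ∧ nib m i k = Nat.land (Nat.shiftRight h (Nat.add 16 (Nat.mul 4 k))) 15 := by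
  have h1 := alln_iff.1 hb k hk
  obtain ⟨h2, h3⟩ := cond_and h1
  exact ⟨beq_iff h2, beq_iff h3⟩

theorem chk_spec {j : ℕ} (hj : j < 819) :
    (∀ c ∈ wl j, c < 11) ∧ ∀ i < 11, blkOk (pp (Y j)) (mm (Y j)) i (gt (HT i) 32 m32 j) = true := by
  have h := chk_ok hj
  unfold chk at h
  obtain ⟨h1, h2⟩ := cond_and h
  simp only [frc_eq] at h2
  exact ⟨ltOk_iff h1, fun i hi => alln_iff.1 h2 i hi⟩

theorem xw_lt {j : ℕ} (hj : j < 819) : ∀ c ∈ xw j, c < 11 := by
  intro c hc
  unfold xw at hc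
  rcases List.mem_append.mp hc with h | h
  · obtain ⟨d, hd, rfl⟩ := List.mem_map.mp h
    exact iv_lt d ((chk_spec hj).1 d (List.mem_reverse.mp hd))
  · rcases List.mem_cons.mp h with rfl | h
    · norm_num
    · exact (chk_spec hj).1 c h

theorem bits32 {a b : ℕ} (ha : a < 2 ^ 32) (hb : b < 2 ^ 32)
    (h : ∀ k < 4, ∀ l < 4, a.testBit (4 * k + l) = b.testBit (4 * k + l) ∧ a.testBit (16 + 4 * k + l) = b.testBit (16 + 4 * k + l)) :
    a = b := by
  apply Nat.eq_of_testBit_eq
  intro t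
  by_cases ht : t < 32
  · by_cases h16 : t < 16
    · have h1 := (h (t / 4) (by omega) (t % 4) (by omega)).1
      have e : 4 * (t / 4) + t % 4 = t := by omega
      rwa [e] at h1
    · have h1 := (h ((t - 16) / 4) (by omega) ((t - 16) % 4) (by omega)).2
      have e : 16 + 4 * ((t - 16) / 4) + (t - 16) % 4 = t := by omega
      rwa [e] at h1
  · have hp : 2 ^ 32 ≤ 2 ^ t := Nat.pow_le_pow_right (by norm_num) (by omega)
    rw [Nat.testBit_lt_two_pow (lt_of_lt_of_le ha hp), Nat.testBit_lt_two_pow (lt_of_lt_of_le hb hp)]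

theorem gt32_lt (T j : ℕ) : gt T 32 m32 j < 2 ^ 32 := by
  have h : gt T 32 m32 j ≤ m32 := Nat.and_le_right
  have h2 : m32 < 2 ^ 32 := by decide
  exact lt_of_le_of_lt h h2

theorem hash_eq {i j k : ℕ} (hi : i < 11) (hj : j < 819) (hk : k < 819)
    (h : val (rw i) * val (xw j) * (val (rw i))⁻¹ = val (xw k)) : gt (HT i) 32 m32 j = gt (HT 0) 32 m32 k := by
  apply bits32 (gt32_lt _ _) (gt32_lt _ _)
  intro a ha l hl
  obtain ⟨o1, e1⟩ := block_eq hi (xw_lt hj) ha hl (by omega) (by omega)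
  obtain ⟨o2, e2⟩ := block_eq (i := 0) (by norm_num) (xw_lt hk) ha hl (by omega) (by omega)
  have e0 : val (rw 0) = 1 := rfl
  rw [e0, one_mul, inv_one, mul_one, ← h] at e2
  obtain ⟨h3, h4⟩ := bits_of_entry o1 o2 (by omega) (by omega) (by omega) (by omega) (e1.trans e2.symm)
  obtain ⟨p1, m1⟩ := blk_spec ((chk_spec hj).2 i hi) ha
  obtain ⟨p2, m2⟩ := blk_spec ((chk_spec hk).2 0 (by norm_num)) ha
  rw [← nib_bit hl, ← nib_bit hl, p1, p2, nib15 hl, nib15 hl] at h3
  rw [← nib_bit hl, ← nib_bit hl, m1, m2, nib15 hl, nib15 hl] at h4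
  have key : ∀ x s : ℕ, (Nat.shiftRight x s).testBit l = x.testBit (s + l) := fun x s => Nat.testBit_shiftRight x
  rw [key, key] at h3 h4
  exact ⟨h3, h4⟩

theorem look_false {h k : ℕ} (hk : k < 819) (e : gt HT0 32 m32 k = h) : look h = false := by
  have hb := beq_iff (alln_iff.1 bm_ok k hk)
  rw [e] at hb
  have h1 : alln (fun k => cond (Nat.beq (gt HT0 32 m32 k) h) false true) 819 = false := by
    cases h2 : alln (fun k => cond (Nat.beq (gt HT0 32 m32 k) h) false true) 819 with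
    | false => rfl
    | true =>
      have h3 : cond (Nat.beq (gt HT0 32 m32 k) h) false true = true := alln_iff.1 h2 k hk
      have h4 : Nat.beq (gt HT0 32 m32 k) h = true := by
        rw [e]
        exact Nat.beq_refl h
      rw [h4] at h3
      exact Bool.noConfusion h3
  unfold look
  rw [hb, h1]
  rfl

theorem exc_of {i j k : ℕ} (h1 : 1 ≤ i) (hi : i < 11) (hj : j < 819) (hk : k < 819)
    (h : gt (HT i) 32 m32 j = gt (HT 0) 32 m32 k) : exc i j = true := by
  have h2 : finChk (Nat.succ (i - 1)) = true := alln_iff.1 fin_ok (i - 1) (by omega)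
  have e : Nat.succ (i - 1) = i := by omega
  rw [e] at h2
  unfold finChk at h2
  have h4 : cond (exc i j) true (look (gt (HT i) 32 m32 j)) = true := alln_iff.1 h2 j hj
  have h5 : look (gt (HT i) 32 m32 j) = false := look_false hk h.symm
  rw [h5] at h4
  cases he : exc i j with
  | true => rfl
  | false =>
    rw [he] at h4
    exact Bool.noConfusion h4

theorem exc_iff {i j : ℕ} (h : exc i j = true) : (i = 1 ∧ (j = 0 ∨ j = 6 ∨ j = 29)) ∨ (i = 2 ∧ j = 0) := by
  unfold exc at h
  cases h1 : Nat.beq i 1 with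
  | true =>
    left
    rw [h1] at h
    refine ⟨beq_iff h1, ?_⟩
    cases h2 : Nat.beq j 0 with
    | true => exact Or.inl (beq_iff h2)
    | false =>
      rw [h2] at h
      cases h3 : Nat.beq j 6 with
      | true => exact Or.inr (Or.inl (beq_iff h3))
      | false =>
        rw [h3] at h
        exact Or.inr (Or.inr (beq_iff h))
  | false =>
    right
    rw [h1] at h
    have h2 : cond (Nat.beq i 2) (Nat.beq j 0) false = true := h
    obtain ⟨h3, h4⟩ := cond_and h2
    exact ⟨beq_iff h3, beq_iff h4⟩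

/-- the test in the units -/
theorem testG {i j k : ℕ} (h1 : 1 ≤ i) (hi : i < 11) (hj : j < 819) (hk : k < 819)
    (h : val (rw i) * val (xw j) * (val (rw i))⁻¹ = val (xw k)) : (i = 1 ∧ (j = 0 ∨ j = 6 ∨ j = 29)) ∨ (i = 2 ∧ j = 0) :=
  exc_iff (exc_of h1 hi hj hk (hash_eq hi hj hk h))

/-! ### in the group -/

theorem rho_XX {c : ℕ} (hc : c < 11) : rho (XX c) = ThRho.x c := by
  have h5 : iv 5 = 8 := by decide
  have h6 : iv 6 = 9 := by decide
  have h7 : iv 7 = 10 := by decide
  interval_cases c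
  · exact rho_of 0 (by norm_num)
  · exact rho_of 1 (by norm_num)
  · exact rho_of 2 (by norm_num)
  · exact rho_of 3 (by norm_num)
  · exact rho_of 4 (by norm_num)
  · exact rho_of 5 (by norm_num)
  · exact rho_of 6 (by norm_num)
  · exact rho_of 7 (by norm_num)
  · show rho (X 5)⁻¹ = _
    rw [map_inv, ← h5, x_iv]
    exact congrArg _ (rho_of 5 (by norm_num))
  · show rho (X 6)⁻¹ = _
    rw [map_inv, ← h6, x_iv]
    exact congrArg _ (rho_of 6 (by norm_num))
  · show rho (X 7)⁻¹ = _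
    rw [map_inv, ← h7, x_iv]
    exact congrArg _ (rho_of 7 (by norm_num))

theorem rho_evl {l : List ℕ} (h : ∀ c ∈ l, c < 11) : rho (evl l) = val l := by
  unfold ThCW.evl val
  rw [map_list_prod, List.map_map]
  congr 1
  apply List.map_congr_left
  intro c hc
  exact rho_XX (h c hc)

/-- the representatives -/
noncomputable def g (i : ℕ) : Th := evl (rw i)

/-- the involution with number `j` -/
noncomputable def xx (j : ℕ) : Th := (evl (wl j))⁻¹ * X 0 * evl (wl j)

theorem rho_g {i : ℕ} (hi : i < 11) : rho (g i) = val (rw i) := rho_evl (rw_lt hi)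

theorem rho_xx {j : ℕ} (hj : j < 819) : rho (xx j) = val (xw j) := by
  unfold xx
  have h0 : rho (X 0) = ThRho.x 0 := rho_of 0 (by norm_num)
  rw [map_mul, map_mul, map_inv, rho_evl (chk_spec hj).1, h0, val_xw]

/-- **The test**: only four coincidences. -/
theorem test {i j k : ℕ} (h1 : 1 ≤ i) (hi : i < 11) (hj : j < 819) (hk : k < 819)
    (h : rho (g i * xx j * (g i)⁻¹) = rho (xx k)) : (i = 1 ∧ (j = 0 ∨ j = 6 ∨ j = 29)) ∨ (i = 2 ∧ j = 0) := by
  rw [map_mul, map_mul, map_inv, rho_g hi, rho_xx hj, rho_xx hk] at h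
  exact testG h1 hi hj hk h

theorem eq_of {i j : ℕ} (hi : i < 11) (hj : j < 819) (h : eqChk i j = true) :
    rho (g i * xx j * (g i)⁻¹) = rho (xx j) := by
  have h1 := beq_iff h
  have l1 : ∀ c ∈ rw i ++ xw j, c < 11 := by
    intro c hc
    rcases List.mem_append.mp hc with h | h
    · exact rw_lt hi c h
    · exact xw_lt hj c h
  have l2 : ∀ c ∈ xw j ++ rw i, c < 11 := by
    intro c hc
    rcases List.mem_append.mp hc with h | h
    · exact xw_lt hj c h
    · exact rw_lt hi c h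
  have e1 := (fold_spec l1 one_ok).2
  have e2 := (fold_spec l2 one_ok).2
  rw [one_eq, one_mul] at e1 e2
  have e3 : val (rw i ++ xw j) = val (xw j ++ rw i) := by
    apply Units.ext
    rw [← e1, ← e2, h1]
  rw [val_append, val_append] at e3
  rw [map_mul, map_mul, map_inv, rho_g hi, rho_xx hj, e3, mul_inv_cancel_right]

/-- the four coincidences -/
theorem test_eq : rho (g 1 * xx 0 * (g 1)⁻¹) = rho (xx 0) ∧ rho (g 1 * xx 6 * (g 1)⁻¹) = rho (xx 6) ∧
    rho (g 1 * xx 29 * (g 1)⁻¹) = rho (xx 29) ∧ rho (g 2 * xx 0 * (g 2)⁻¹) = rho (xx 0) :=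
  ⟨eq_of (by norm_num) (by norm_num) eq_1_0, eq_of (by norm_num) (by norm_num) eq_1_6,
    eq_of (by norm_num) (by norm_num) eq_1_29, eq_of (by norm_num) (by norm_num) eq_2_0⟩

/-- the words are those of `ThCW.WL` -/
theorem wl_list : (List.range 819).map wl = WL := by decide +kernel

theorem wl_of_mem {l : List ℕ} (h : l ∈ WL) : ∃ j < 819, wl j = l := by
  rw [← wl_list] at h
  obtain ⟨j, hj, rfl⟩ := List.mem_map.mp h
  exact ⟨j, List.mem_range.mp hj, rfl⟩

theorem wl_mem {j : ℕ} (hj : j < 819) : wl j ∈ WL := by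
  rw [← wl_list]
  exact List.mem_map.mpr ⟨j, List.mem_range.mpr hj, rfl⟩

/-- the special words -/
theorem wl_special : wl 0 = [] ∧ wl 6 = [1, 0, 2, 1] ∧ wl 29 = [1, 0, 2, 1, 3, 2, 3] := by decide +kernel

end Cfsg.Agent.Lib.ThCT
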