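import Cfsg.Agent.Lib.ThGauss

/-!
Every positive definite real symmetric matrix gives a dual pair in triangular shape.
-/

set_option autoImplicit false

namespace Cfsg.Agent.Lib.ThDual

open Cfsg.Agent.Lib.ThGauss Matrix

theorem exists_gp : ∀ (n : ℕ) (A : Matrix (Fin n) (Fin n) ℝ) (_ : ∀ i j, A i j = A j i)
    (_ : ∀ x : Fin n → ℝ, x ≠ 0 → 0 < x ⬝ᵥ (A *ᵥ x)),
    ∃ T : (Fin n → ℝ) → ℝ, GP n (fun x => x ⬝ᵥ (A *ᵥ x)) T ∧
      ∀ x : Fin n → ℝ, T (A *ᵥ x) = x ⬝ᵥ (A *ᵥ x) := by
  intro n
  induction n with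
  | zero =>
    intro A _ _
    refine ⟨fun _ => 0, ?_, fun x => by simp⟩
    have : (fun x : Fin 0 → ℝ => x ⬝ᵥ (A *ᵥ x)) = fun _ => 0 := by funext x; simp
    rw [this]; exact GP.nil
  | succ n ih =>
    intro A hs hp
    set a : ℝ := A 0 0 with ha_def
    set u : Fin n → ℝ := fun i => A 0 i.succ / a with hu_def
    set S : Matrix (Fin n) (Fin n) ℝ := fun i j => A i.succ j.succ - a * u i * u j with hS_def
    have ha : 0 < a := by
      have h := hp (Pi.single 0 1) (by
        intro h; have := congrFun h 0; simp at this)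
      simpa [ha_def] using h
    have hau : ∀ i, A 0 i.succ = a * u i := by
      intro i; simp only [hu_def]; field_simp
    -- the value of the form
    have hform : ∀ x : Fin (n + 1) → ℝ, x ⬝ᵥ (A *ᵥ x) =
        a * (x 0 + u ⬝ᵥ Fin.tail x) ^ 2 + Fin.tail x ⬝ᵥ (S *ᵥ Fin.tail x) := by
      intro x
      simp only [dotProduct, mulVec, Fin.sum_univ_succ, Fin.tail, hS_def]
      have e1 : ∀ i : Fin n, A i.succ 0 = a * u i := fun i => by rw [hs, hau]
      simp only [e1, hau, ← ha_def]
      have e2 : ∀ i : Fin n, ∑ j : Fin n, (A i.succ j.succ - a * u i * u j) * x j.succ =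
          ∑ j : Fin n, A i.succ j.succ * x j.succ - a * u i * ∑ j : Fin n, u j * x j.succ := by
        intro i
        rw [Finset.mul_sum, ← Finset.sum_sub_distrib]
        exact Finset.sum_congr rfl fun j _ => by ring
      simp only [e2]
      have e3 : ∑ i : Fin n, a * u i * x i.succ = a * ∑ i : Fin n, u i * x i.succ := by
        rw [Finset.mul_sum]; exact Finset.sum_congr rfl fun j _ => by ring
      have e4 : ∑ i : Fin n, x i.succ * (a * u i * x 0 + ∑ j : Fin n, A i.succ j.succ * x j.succ)
          = a * x 0 * ∑ i : Fin n, u i * x i.succ +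
            ∑ i : Fin n, x i.succ * ∑ j : Fin n, A i.succ j.succ * x j.succ := by
        rw [Finset.mul_sum, ← Finset.sum_add_distrib]
        exact Finset.sum_congr rfl fun j _ => by ring
      have e5 : ∑ i : Fin n, x i.succ * (∑ j : Fin n, A i.succ j.succ * x j.succ -
          a * u i * ∑ j : Fin n, u j * x j.succ) =
          ∑ i : Fin n, x i.succ * ∑ j : Fin n, A i.succ j.succ * x j.succ -
            a * (∑ i : Fin n, u i * x i.succ) * ∑ j : Fin n, u j * x j.succ := by
        rw [mul_assoc, Finset.sum_mul, Finset.mul_sum, ← Finset.sum_sub_distrib]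
        exact Finset.sum_congr rfl fun j _ => by ring
      rw [e3, e4, e5]
      ring
    have hSs : ∀ i j, S i j = S j i := by
      intro i j; simp only [hS_def]; rw [hs i.succ j.succ]; ring
    have hSp : ∀ x : Fin n → ℝ, x ≠ 0 → 0 < x ⬝ᵥ (S *ᵥ x) := by
      intro x hx
      have h := hform (Fin.cons (-(u ⬝ᵥ x)) x)
      have hne : (Fin.cons (-(u ⬝ᵥ x)) x : Fin (n + 1) → ℝ) ≠ 0 := by
        intro h0
        apply hx
        funext i
        have := congrFun h0 i.succ
        simpa using this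
      have hpos := hp _ hne
      rw [h] at hpos
      simpa [Fin.tail_cons] using hpos
    obtain ⟨T, hT, hTd⟩ := ih S hSs hSp
    refine ⟨fun ξ => (ξ 0) ^ 2 / a + T (Fin.tail ξ - ξ 0 • u), ?_, fun x => ?_⟩
    · have : (fun x : Fin (n + 1) → ℝ => x ⬝ᵥ (A *ᵥ x)) =
        fun x => a * (x 0 + u ⬝ᵥ Fin.tail x) ^ 2 +
          (fun z : Fin n → ℝ => z ⬝ᵥ (S *ᵥ z)) (Fin.tail x) := by
        funext x; exact hform x
      rw [this]
      exact GP.cons hT a ha u
    · have h0 : (A *ᵥ x) 0 = a * (x 0 + u ⬝ᵥ Fin.tail x) := by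
        simp only [mulVec, dotProduct, Fin.sum_univ_succ, hau, ← ha_def, Fin.tail]
        rw [mul_add, Finset.mul_sum]
        congr 1
        exact Finset.sum_congr rfl fun j _ => by ring
      have h1 : Fin.tail (A *ᵥ x) - (A *ᵥ x) 0 • u = S *ᵥ Fin.tail x := by
        rw [h0]
        funext i
        simp only [Fin.tail, Pi.sub_apply, Pi.smul_apply, smul_eq_mul, mulVec, dotProduct,
          Fin.sum_univ_succ, hS_def]
        rw [hs i.succ 0, hau]
        have e2 : ∑ j : Fin n, (A i.succ j.succ - a * u i * u j) * x j.succ =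
          ∑ j : Fin n, A i.succ j.succ * x j.succ - a * u i * ∑ j : Fin n, u j * x j.succ := by
          rw [Finset.mul_sum, ← Finset.sum_sub_distrib]
          exact Finset.sum_congr rfl fun j _ => by ring
        rw [e2]
        ring
      simp only []
      rw [h1, h0, hTd, hform]
      field_simp

end Cfsg.Agent.Lib.ThDual
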