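import Cfsg.Agent.Lib.ThMod

/-!
The theta series as a modular form, its `q`-expansion and the resulting counts.
-/

set_option autoImplicit false

namespace Cfsg.Agent.Lib.ThForm

open Cfsg.Agent.Lib.ThGauss Cfsg.Agent.Lib.ThDual Cfsg.Agent.Lib.ThLat
  Cfsg.Agent.Lib.ThMod Matrix Complex UpperHalfPlane ModularForm SlashInvariantForm
open scoped MatrixGroups

variable {B : Matrix (Fin 24) (Fin 24) ℤ} (hs : B.IsSymm)
    (hpos : ∀ x : Fin 24 → ℤ, x ≠ 0 → 0 < x ⬝ᵥ (B *ᵥ x)) (hdet : B.det = 1)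
    (heven : ∀ x : Fin 24 → ℤ, (2 : ℤ) ∣ x ⬝ᵥ (B *ᵥ x))

variable (B) in
/-- the theta series on the upper half plane. -/
noncomputable def thH (τ : ℍ) : ℂ := th B τ

set_option backward.isDefEq.respectTransparency.types false in
include heven in
lemma thH_T : (thH B ∣[(12 : ℤ)] ModularGroup.T) = thH B := by
  ext z
  rw [SL_slash_apply, denom, modular_T_smul, ModularGroup.T]
  simp only [thH]
  have := th_add_one heven (z : ℂ)
  simpa [add_comm] using this

set_option backward.isDefEq.respectTransparency.types false in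
include hs hpos hdet in
lemma thH_S : (thH B ∣[(12 : ℤ)] ModularGroup.S) = thH B := by
  ext z
  suffices th B (-(↑z)⁻¹) * ((z : ℂ) ^ 12)⁻¹ = th B z by
    rw [SL_slash_apply, UpperHalfPlane.modular_S_smul]
    simpa [denom, ModularGroup.S, thH]
  have h := th_inv hs hpos hdet (τ := (z : ℂ)) z.2
  have e : (-1 / (z : ℂ)) = -(↑z)⁻¹ := by rw [neg_div, one_div]
  rw [← e, h]
  have := z.ne_zero
  field_simp

include hs hpos hdet in
lemma finite_fiber (m : ℤ) : {x : Fin 24 → ℤ | qf B x = m}.Finite := by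
  have h := (summable_theta hs hpos hdet one_pos).comp_injective
    (i := fun x : {x : Fin 24 → ℤ | qf B x = m} => (x : Fin 24 → ℤ)) Subtype.val_injective
  have h2 : Summable fun _ : {x : Fin 24 → ℤ | qf B x = m} =>
      Real.exp (-(Real.pi * 1 * (m : ℤ))) := by
    refine h.congr fun x => ?_
    have := x.2
    simp only [Set.mem_ofPred_eq] at this
    simp only [Function.comp_apply, this]
  by_contra hinf
  have : Infinite {x : Fin 24 → ℤ | qf B x = m} := Set.infinite_coe_iff.mpr hinf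
  have h3 := h2.tendsto_cofinite_zero
  have h4 := tendsto_nhds_unique h3 tendsto_const_nhds
  exact (Real.exp_pos _).ne h4

variable (B) in
/-- the number of vectors of norm `2m`. -/
noncomputable def rr (m : ℕ) : ℕ := {x : Fin 24 → ℤ | qf B x = 2 * m}.ncard

include hs hpos hdet heven in
lemma hasSum_thH (τ : ℍ) :
    HasSum (fun m : ℕ => ((rr B m : ℕ) : ℂ) • (Function.Periodic.qParam (1 : ℝ) τ) ^ m)
      (thH B τ) := by
  have hsum := summable_th hs hpos hdet (τ := (τ : ℂ)) τ.2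
  have h1 := hsum.hasSum
  -- the grading
  let g : (Fin 24 → ℤ) → ℕ := fun x => (qf B x / 2).toNat
  have hg : ∀ x, qf B x = 2 * (g x : ℤ) := by
    intro x
    obtain ⟨k, hk⟩ := heven x
    have hk' : qf B x = 2 * k := hk
    have hn := qf_nonneg hpos x
    simp only [g]
    omega
  have h2 := (Equiv.sigmaFiberEquiv g).hasSum_iff.mpr h1
  refine h2.sigma fun m => ?_
  -- the fibre
  have hfib : {x : Fin 24 → ℤ | g x = m} = {x : Fin 24 → ℤ | qf B x = 2 * m} := by
    ext x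
    simp only [Set.mem_ofPred_eq]
    rw [hg x]
    omega
  have hfin : Finite {x // g x = m} := by
    have := finite_fiber hs hpos hdet (2 * (m : ℤ))
    rw [← hfib] at this
    exact this
  have := Fintype.ofFinite {x // g x = m}
  have e : ∀ c : {x // g x = m},
      ((fun x : Fin 24 → ℤ => cexp (Real.pi * Complex.I * τ * (qf B x : ℤ))) ∘
        (Equiv.sigmaFiberEquiv g)) ⟨m, c⟩ = (Function.Periodic.qParam (1 : ℝ) τ) ^ m := by
    intro c
    simp only [Function.comp_apply, Equiv.sigmaFiberEquiv_apply]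
    rw [hg, c.2, Function.Periodic.qParam, ← Complex.exp_nat_mul]
    congr 1
    push_cast
    ring
  have h3 := hasSum_fintype (fun c : {x // g x = m} =>
      ((fun x : Fin 24 → ℤ => cexp (Real.pi * Complex.I * τ * (qf B x : ℤ))) ∘
        (Equiv.sigmaFiberEquiv g)) ⟨m, c⟩)
  convert h3 using 1
  simp only [e, Finset.sum_const, Finset.card_univ]
  rw [nsmul_eq_mul, smul_eq_mul]
  congr 2
  rw [rr, ← hfib, ← Nat.card_eq_fintype_card]
  rfl

/-- the theta series as a modular form of weight `12`. -/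
noncomputable def thM : ModularForm 𝒮ℒ 12 where
  toFun := thH B
  slash_action_eq' A hA := by
    obtain ⟨A, rfl⟩ := hA
    exact slash_action_generators_SL2Z (thH_S hs hpos hdet) (thH_T heven) A
  holo' := by
    rw [UpperHalfPlane.mdifferentiable_iff]
    refine (differentiableOn_th hs hpos hdet).congr fun z hz => ?_
    have hz' : 0 < z.im := hz
    simp [thH, ofComplex_apply_of_im_pos hz']
  bdd_at_cusps' hc := by
    rw [Subgroup.IsArithmetic.isCusp_iff_isCusp_SL2Z] at hc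
    rw [OnePoint.isBoundedAt_iff_forall_SL2Z hc]
    intro γ _
    have hγ := slash_action_generators_SL2Z (thH_S hs hpos hdet) (thH_T heven) γ
    have hb : IsBoundedAtImInfty (thH B) :=
      isBoundedAtImInfty_of_hasSum_qExpansion one_pos (hasSum_thH hs hpos hdet heven)
    change IsBoundedAtImInfty (thH B ∣[(12 : ℤ)] γ)
    rw [hγ]
    exact hb

lemma thM_coeff (m : ℕ) :
    (qExpansion 1 (thM hs hpos hdet heven)).coeff m = (rr B m : ℕ) :=
  (ModularFormClass.qExpansion_coeff_unique one_pos one_mem_strictPeriods_SL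
    (f := thM hs hpos hdet heven) (hasSum_thH hs hpos hdet heven) m).symm

lemma E4_coeff (m : ℕ) : (qExpansion 1 E₄).coeff m =
    if m = 0 then 1 else 240 * (ArithmeticFunction.sigma 3 m : ℂ) := by
  have h := EisensteinSeries.E_qExpansion_coeff (k := 4) (by norm_num) ⟨2, rfl⟩ m
  rw [show qExpansion 1 E₄ = qExpansion 1 (E (k := 4) (by norm_num)) from rfl, h]
  split_ifs
  · rfl
  · norm_num [show bernoulli 4 = -1 / 30 by decide +kernel]

lemma E6_coeff (m : ℕ) : (qExpansion 1 E₆).coeff m =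
    if m = 0 then 1 else -504 * (ArithmeticFunction.sigma 5 m : ℂ) := by
  have h := EisensteinSeries.E_qExpansion_coeff (k := 6) (by norm_num) ⟨3, rfl⟩ m
  rw [show qExpansion 1 E₆ = qExpansion 1 (E (k := 6) (by norm_num)) from rfl, h]
  split_ifs
  · rfl
  · norm_num [show bernoulli 6 = 1 / 42 by decide +kernel]

lemma sig3 : ArithmeticFunction.sigma 3 1 = 1 ∧ ArithmeticFunction.sigma 3 2 = 9 ∧
    ArithmeticFunction.sigma 3 3 = 28 ∧ ArithmeticFunction.sigma 3 4 = 73 := by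
  simp only [ArithmeticFunction.sigma_apply]
  decide +kernel

lemma sig5 : ArithmeticFunction.sigma 5 1 = 1 ∧ ArithmeticFunction.sigma 5 2 = 33 ∧
    ArithmeticFunction.sigma 5 3 = 244 ∧ ArithmeticFunction.sigma 5 4 = 1057 := by
  simp only [ArithmeticFunction.sigma_apply]
  decide +kernel

/-- the comparison form `(7 E₄³ + 5 E₆²)/12`. -/
noncomputable def GG : ModularForm 𝒮ℒ 12 :=
  (7 / 12 : ℂ) • ModularForm.mcast (by decide) (E₄.pow 3) +
    (5 / 12 : ℂ) • ModularForm.mcast (by decide) (E₆.pow 2)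

lemma GG_q : qExpansion 1 GG = (7 / 12 : ℂ) • (qExpansion 1 E₄ * qExpansion 1 E₄ *
    qExpansion 1 E₄) + (5 / 12 : ℂ) • (qExpansion 1 E₆ * qExpansion 1 E₆) := by
  have e1 : qExpansion 1 GG =
      qExpansion 1 (⇑((7 / 12 : ℂ) • (ModularForm.mcast (b := 12) (by decide) (E₄.pow 3) :
        ModularForm 𝒮ℒ 12)) + ⇑((5 / 12 : ℂ) • (ModularForm.mcast (b := 12) (by decide) (E₆.pow 2) :
        ModularForm 𝒮ℒ 12))) := rfl
  rw [e1, ModularForm.qExpansion_add one_pos one_mem_strictPeriods_SL]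
  have e2 : ∀ (c : ℂ) (f : ModularForm 𝒮ℒ 12), qExpansion 1 ⇑(c • f) = c • qExpansion 1 ⇑f := by
    intro c f
    exact ModularForm.qExpansion_smul one_pos one_mem_strictPeriods_SL c f
  rw [e2, e2, ModularForm.qExpansion_mcast, ModularForm.qExpansion_mcast,
    ModularForm.qExpansion_pow one_pos one_mem_strictPeriods_SL,
    ModularForm.qExpansion_pow one_pos one_mem_strictPeriods_SL]
  congr 2 <;> ring

lemma cm (P Q : PowerSeries ℂ) :
    (P * Q).coeff 0 = P.coeff 0 * Q.coeff 0 ∧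
    (P * Q).coeff 1 = P.coeff 0 * Q.coeff 1 + P.coeff 1 * Q.coeff 0 ∧
    (P * Q).coeff 2 = P.coeff 0 * Q.coeff 2 + P.coeff 1 * Q.coeff 1 + P.coeff 2 * Q.coeff 0 ∧
    (P * Q).coeff 3 = P.coeff 0 * Q.coeff 3 + P.coeff 1 * Q.coeff 2 + P.coeff 2 * Q.coeff 1 +
      P.coeff 3 * Q.coeff 0 ∧
    (P * Q).coeff 4 = P.coeff 0 * Q.coeff 4 + P.coeff 1 * Q.coeff 3 + P.coeff 2 * Q.coeff 2 +
      P.coeff 3 * Q.coeff 1 + P.coeff 4 * Q.coeff 0 := by
  refine ⟨?_, ?_, ?_, ?_, ?_⟩ <;>
    simp [PowerSeries.coeff_mul, Finset.Nat.antidiagonal_succ,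
      -PowerSeries.coeff_zero_eq_constantCoeff] <;> ring

lemma coeffs_aux (P R : PowerSeries ℂ) (a0 : P.coeff 0 = 1) (a1 : P.coeff 1 = 240)
    (a2 : P.coeff 2 = 2160) (a3 : P.coeff 3 = 6720) (a4 : P.coeff 4 = 17520)
    (b0 : R.coeff 0 = 1) (b1 : R.coeff 1 = -504)
    (b2 : R.coeff 2 = -16632) (b3 : R.coeff 3 = -122976) (b4 : R.coeff 4 = -532728) :
    ((7 / 12 : ℂ) • (P * P * P) + (5 / 12 : ℂ) • (R * R)).coeff 0 = 1 ∧
    ((7 / 12 : ℂ) • (P * P * P) + (5 / 12 : ℂ) • (R * R)).coeff 1 = 0 ∧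
    ((7 / 12 : ℂ) • (P * P * P) + (5 / 12 : ℂ) • (R * R)).coeff 2 = 196560 ∧
    ((7 / 12 : ℂ) • (P * P * P) + (5 / 12 : ℂ) • (R * R)).coeff 3 = 16773120 ∧
    ((7 / 12 : ℂ) • (P * P * P) + (5 / 12 : ℂ) • (R * R)).coeff 4 = 398034000 := by
  obtain ⟨p0, p1, p2, p3, p4⟩ := cm P P
  obtain ⟨q0, q1, q2, q3, q4⟩ := cm (P * P) P
  obtain ⟨r0, r1, r2, r3, r4⟩ := cm R R
  simp only [a0, a1, a2, a3, a4] at p0 p1 p2 p3 p4
  simp only [p0, p1, p2, p3, p4, a0, a1, a2, a3, a4] at q0 q1 q2 q3 q4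
  simp only [b0, b1, b2, b3, b4] at r0 r1 r2 r3 r4
  refine ⟨?_, ?_, ?_, ?_, ?_⟩
  · rw [map_add, PowerSeries.coeff_smul, PowerSeries.coeff_smul, q0, r0]; norm_num
  · rw [map_add, PowerSeries.coeff_smul, PowerSeries.coeff_smul, q1, r1]; norm_num
  · rw [map_add, PowerSeries.coeff_smul, PowerSeries.coeff_smul, q2, r2]; norm_num
  · rw [map_add, PowerSeries.coeff_smul, PowerSeries.coeff_smul, q3, r3]; norm_num
  · rw [map_add, PowerSeries.coeff_smul, PowerSeries.coeff_smul, q4, r4]; norm_num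

lemma GG_coeffs : (qExpansion 1 GG).coeff 0 = 1 ∧ (qExpansion 1 GG).coeff 1 = 0 ∧
    (qExpansion 1 GG).coeff 2 = 196560 ∧ (qExpansion 1 GG).coeff 3 = 16773120 ∧
    (qExpansion 1 GG).coeff 4 = 398034000 := by
  obtain ⟨s1, s2, s3, s4⟩ := sig3
  obtain ⟨t1, t2, t3, t4⟩ := sig5
  rw [GG_q]
  apply coeffs_aux
  · rw [E4_coeff]; simp
  · rw [E4_coeff, s1]; norm_num
  · rw [E4_coeff, s2]; norm_num
  · rw [E4_coeff, s3]; norm_num
  · rw [E4_coeff, s4]; norm_num
  · rw [E6_coeff]; simp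
  · rw [E6_coeff, t1]; norm_num
  · rw [E6_coeff, t2]; norm_num
  · rw [E6_coeff, t3]; norm_num
  · rw [E6_coeff, t4]; norm_num

include hpos in
lemma rr_zero : rr B 0 = 1 := by
  have : {x : Fin 24 → ℤ | qf B x = 2 * ((0 : ℕ) : ℤ)} = {0} := by
    ext x
    simp only [Set.mem_ofPred_eq, Set.mem_singleton_iff]
    constructor
    · intro h
      by_contra hne
      have := hpos x hne
      have h' : x ⬝ᵥ (B *ᵥ x) = 0 := by simpa [qf] using h
      omega
    · intro h; simp [h, qf]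
  rw [rr, this, Set.ncard_singleton]

lemma rr_one (h2 : ∀ x : Fin 24 → ℤ, x ⬝ᵥ (B *ᵥ x) ≠ 2) : rr B 1 = 0 := by
  have : {x : Fin 24 → ℤ | qf B x = 2 * ((1 : ℕ) : ℤ)} = ∅ := by
    ext x
    simp only [Set.mem_ofPred_eq, Set.mem_empty_iff_false, iff_false]
    intro h
    apply h2 x
    simpa [qf] using h
  rw [rr, this, Set.ncard_empty]

include hs hpos hdet heven in
theorem counts (h2 : ∀ x : Fin 24 → ℤ, x ⬝ᵥ (B *ᵥ x) ≠ 2) :
    rr B 2 = 196560 ∧ rr B 3 = 16773120 ∧ rr B 4 = 398034000 := by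
  set f : ModularForm 𝒮ℒ 12 := thM hs hpos hdet heven - GG with hf
  obtain ⟨g0, g1, g2, g3, g4⟩ := GG_coeffs
  have hq : qExpansion 1 f = qExpansion 1 (thM hs hpos hdet heven) - qExpansion 1 GG := by
    have e : qExpansion 1 f = qExpansion 1 (⇑(thM hs hpos hdet heven) - ⇑GG) := rfl
    rw [e]
    exact ModularForm.qExpansion_sub one_pos one_mem_strictPeriods_SL _ _
  have hc : ∀ m, (qExpansion 1 f).coeff m = (rr B m : ℕ) - (qExpansion 1 GG).coeff m := by
    intro m
    rw [hq, map_sub, thM_coeff]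
  have hzero : f = 0 := by
    have := ModularForm.sturm_bound_levelOne_nat (k := 12) (f := f) ?_
    · exact this
    · have hord : (2 : ℕ∞) ≤ (qExpansion 1 f).order := by
        apply PowerSeries.le_order
        intro i hi
        have hi' : i < 2 := by exact_mod_cast hi
        interval_cases i
        · rw [hc, rr_zero hpos, g0]; simp
        · rw [hc, rr_one h2, g1]; simp
      refine lt_of_lt_of_le ?_ hord
      norm_num
  have hz : ∀ m, ((rr B m : ℕ) : ℂ) = (qExpansion 1 GG).coeff m := by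
    intro m
    have h := hc m
    have h0 : qExpansion 1 f = 0 := by
      rw [hzero]
      exact qExpansion_zero 1
    rw [h0, map_zero] at h
    exact (sub_eq_zero.mp h.symm)
  refine ⟨?_, ?_, ?_⟩
  · have := hz 2; rw [g2] at this; exact_mod_cast this
  · have := hz 3; rw [g3] at this; exact_mod_cast this
  · have := hz 4; rw [g4] at this; exact_mod_cast this

end Cfsg.Agent.Lib.ThForm
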