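import Mathlib

/-!
Poisson summation for Gaussians in dimension `n`, by induction on `n` (one variable at a time).
-/

set_option autoImplicit false

namespace Cfsg.Agent.Lib.ThGauss

open Complex Real

/-- the one dimensional theta transformation, with a shift and a character. -/
lemma one_dim {α : ℝ} (hα : 0 < α) (s y : ℝ) :
    ∑' k : ℤ, cexp (-(π * α * ((k : ℂ) + s) ^ 2)) * cexp (2 * π * I * y * k) =
      ((√α)⁻¹ : ℝ) * ∑' m : ℤ, cexp (-(π / α * ((m : ℂ) - y) ^ 2)) *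
        cexp (2 * π * I * (((m : ℂ) - y) * s)) := by
  have h := Complex.tsum_exp_neg_quadratic (a := (α : ℂ)) (by simpa using hα)
    (-(α * s : ℂ) + I * y)
  have hα' : (α : ℂ) ≠ 0 := by exact_mod_cast hα.ne'
  have h1 : ∀ k : ℤ, cexp (-(π * α * ((k : ℂ) + s) ^ 2)) * cexp (2 * π * I * y * k) =
      cexp (-(π * α * s ^ 2)) *
        cexp (-π * α * (k : ℂ) ^ 2 + 2 * π * (-(α * s : ℂ) + I * y) * k) := by
    intro k
    rw [← Complex.exp_add, ← Complex.exp_add]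
    congr 1
    ring
  have h2 : ∀ m : ℤ, cexp (-π / α * ((m : ℂ) + I * (-(α * s : ℂ) + I * y)) ^ 2) =
      cexp (π * α * s ^ 2) * (cexp (-(π / α * ((m : ℂ) - y) ^ 2)) *
        cexp (2 * π * I * (((m : ℂ) - y) * s))) := by
    intro m
    rw [← Complex.exp_add, ← Complex.exp_add]
    congr 1
    field_simp
    ring_nf
    simp only [I_sq]
    have : I ^ 3 = -I := by rw [pow_succ, I_sq]; ring
    have h4 : I ^ 4 = 1 := by rw [show 4 = 2 + 2 from rfl, pow_add, I_sq]; ring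
    simp only [this, h4]
    ring
  have h3 : (1 : ℂ) / (α : ℂ) ^ (1 / 2 : ℂ) = ((√α)⁻¹ : ℝ) := by
    rw [Real.sqrt_eq_rpow]
    push_cast
    rw [one_div, Complex.ofReal_cpow hα.le]
    push_cast
    rfl
  simp_rw [h1]
  rw [tsum_mul_left, h]
  simp_rw [h2]
  rw [tsum_mul_left, h3]
  have h5 : cexp (-(π * α * s ^ 2)) * cexp (π * α * s ^ 2) = 1 := by
    rw [← Complex.exp_add]; simp
  generalize (∑' m : ℤ, cexp (-(π / α * ((m : ℂ) - y) ^ 2)) *
        cexp (2 * π * I * (((m : ℂ) - y) * s))) = Z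
  calc cexp (-(π * α * s ^ 2)) * (((√α)⁻¹ : ℝ) * (cexp (π * α * s ^ 2) * Z))
      = (cexp (-(π * α * s ^ 2)) * cexp (π * α * s ^ 2)) * ((((√α)⁻¹ : ℝ) : ℂ) * Z) := by ring
    _ = _ := by rw [h5, one_mul]

/-- one dimensional Gaussian sums are summable. -/
lemma summable_one {α : ℝ} (hα : 0 < α) (s : ℝ) :
    Summable fun k : ℤ => rexp (-(π * α * ((k : ℝ) + s) ^ 2)) := by
  have h := (summable_jacobiTheta₂_term_iff (I * α * s) (I * α)).mpr (by simpa using hα)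
  have h2 := h.norm.mul_left (rexp (-(π * α * s ^ 2)))
  refine h2.congr fun k => ?_
  rw [norm_jacobiTheta₂_term, ← Real.exp_add]
  congr 1
  simp
  ring

/-- uniform bound for shifted one dimensional Gaussian sums. -/
lemma tsum_one_le {α : ℝ} (hα : 0 < α) (s : ℝ) :
    ∑' k : ℤ, rexp (-(π * α * ((k : ℝ) + s) ^ 2)) ≤ ∑' k : ℤ, rexp (-(π * α * (k : ℝ) ^ 2)) := by
  have hα' : 0 < 1 / α := by positivity
  have e1 := one_dim hα s 0
  have e2 := one_dim hα 0 0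
  have n1 : ‖∑' k : ℤ, cexp (-(π * α * ((k : ℂ) + s) ^ 2)) * cexp (2 * π * I * (0 : ℝ) * k)‖ =
      ∑' k : ℤ, rexp (-(π * α * ((k : ℝ) + s) ^ 2)) := by
    have : ∀ k : ℤ, cexp (-(π * α * ((k : ℂ) + s) ^ 2)) * cexp (2 * π * I * (0 : ℝ) * k) =
        ((rexp (-(π * α * ((k : ℝ) + s) ^ 2)) : ℝ) : ℂ) := by
      intro k; push_cast; simp
    simp_rw [this, ← Complex.ofReal_tsum]
    rw [Complex.norm_real, Real.norm_of_nonneg (tsum_nonneg fun _ => (Real.exp_pos _).le)]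
  have n2 : ‖∑' k : ℤ, cexp (-(π * α * ((k : ℂ) + (0 : ℝ)) ^ 2)) *
      cexp (2 * π * I * (0 : ℝ) * k)‖ = ∑' k : ℤ, rexp (-(π * α * (k : ℝ) ^ 2)) := by
    have : ∀ k : ℤ, cexp (-(π * α * ((k : ℂ) + (0 : ℝ)) ^ 2)) * cexp (2 * π * I * (0 : ℝ) * k) =
        ((rexp (-(π * α * (k : ℝ) ^ 2)) : ℝ) : ℂ) := by
      intro k; push_cast; simp
    simp_rw [this, ← Complex.ofReal_tsum]
    rw [Complex.norm_real, Real.norm_of_nonneg (tsum_nonneg fun _ => (Real.exp_pos _).le)]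
  rw [← n1, ← n2, e1, e2, norm_mul, norm_mul]
  refine mul_le_mul_of_nonneg_left ?_ (norm_nonneg _)
  have hsum : Summable fun m : ℤ => rexp (-(π * (1 / α) * ((m : ℝ) + 0) ^ 2)) := summable_one hα' 0
  have n3 : ‖∑' m : ℤ, cexp (-(π / α * ((m : ℂ) - (0 : ℝ)) ^ 2)) *
        cexp (2 * π * I * (((m : ℂ) - (0 : ℝ)) * (0 : ℝ)))‖ =
        ∑' m : ℤ, rexp (-(π * (1 / α) * ((m : ℝ) + 0) ^ 2)) := by
    have : ∀ m : ℤ, cexp (-(π / α * ((m : ℂ) - (0 : ℝ)) ^ 2)) *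
        cexp (2 * π * I * (((m : ℂ) - (0 : ℝ)) * (0 : ℝ))) =
        ((rexp (-(π * (1 / α) * ((m : ℝ) + 0) ^ 2)) : ℝ) : ℂ) := by
      intro m; push_cast; simp [div_eq_mul_inv]
    simp_rw [this, ← Complex.ofReal_tsum]
    rw [Complex.norm_real, Real.norm_of_nonneg (tsum_nonneg fun _ => (Real.exp_pos _).le)]
  rw [n3]
  have key : ∀ m : ℤ, ‖cexp (-(π / α * ((m : ℂ) - (0 : ℝ)) ^ 2)) *
        cexp (2 * π * I * (((m : ℂ) - (0 : ℝ)) * s))‖ =
        rexp (-(π * (1 / α) * ((m : ℝ) + 0) ^ 2)) := by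
    intro m
    rw [norm_mul, Complex.norm_exp, Complex.norm_exp]
    have i1 : (-(π / α * ((m : ℂ) - (0 : ℝ)) ^ 2)).re = -(π * (1 / α) * ((m : ℝ) + 0) ^ 2) := by
      have : (-(π / α * ((m : ℂ) - (0 : ℝ)) ^ 2)) =
        ((-(π * (1 / α) * ((m : ℝ) + 0) ^ 2) : ℝ) : ℂ) := by push_cast; simp [div_eq_mul_inv]
      rw [this, Complex.ofReal_re]
    have i2 : (2 * π * I * (((m : ℂ) - (0 : ℝ)) * s)).re = 0 := by simp
    rw [i1, i2, Real.exp_zero, mul_one]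
  calc _ ≤ ∑' m : ℤ, ‖cexp (-(π / α * ((m : ℂ) - (0 : ℝ)) ^ 2)) *
        cexp (2 * π * I * (((m : ℂ) - (0 : ℝ)) * s))‖ := norm_tsum_le_tsum_norm (by
          simp_rw [key]; exact hsum)
    _ = _ := by simp_rw [key]

/-- the real vector attached to an integer vector. -/
def cst {n : ℕ} (x : Fin n → ℤ) : Fin n → ℝ := fun i => (x i : ℝ)

lemma cst_apply {n : ℕ} (x : Fin n → ℤ) (i : Fin n) : cst x i = (x i : ℝ) := rfl

lemma tail_cst_cons {n : ℕ} (a : ℤ) (x : Fin n → ℤ) :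
    Fin.tail (cst (Fin.cons a x : Fin (n + 1) → ℤ)) = cst x := by
  funext i; simp [cst, Fin.tail]

lemma zero_cst_cons {n : ℕ} (a : ℤ) (x : Fin n → ℤ) :
    cst (Fin.cons a x : Fin (n + 1) → ℤ) 0 = (a : ℝ) := by
  simp [cst]

/-- pairs of dual positive definite quadratic forms in triangular shape. -/
inductive GP : (n : ℕ) → ((Fin n → ℝ) → ℝ) → ((Fin n → ℝ) → ℝ) → Prop
  | nil : GP 0 (fun _ => 0) (fun _ => 0)
  | cons {n : ℕ} {S T : (Fin n → ℝ) → ℝ} (h : GP n S T) (a : ℝ) (ha : 0 < a)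
      (u : Fin n → ℝ) :
      GP (n + 1) (fun x => a * (x 0 + u ⬝ᵥ Fin.tail x) ^ 2 + S (Fin.tail x))
        (fun ξ => (ξ 0) ^ 2 / a + T (Fin.tail ξ - ξ 0 • u))

/-- the statement of the Poisson summation formula for a dual pair. -/
def Pois (n : ℕ) (S T : (Fin n → ℝ) → ℝ) : Prop :=
  (∀ t : ℝ, 0 < t → Summable (fun x : Fin n → ℤ => rexp (-(π * t * S (cst x))))) ∧
  (∀ t : ℝ, 0 < t → ∀ y : Fin n → ℝ,
    Summable (fun m : Fin n → ℤ => rexp (-(π * t * T (cst m - y))))) ∧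
  ∃ κ : ℝ, 0 < κ ∧ ∀ t : ℝ, 0 < t → ∀ y : Fin n → ℝ,
    ∑' x : Fin n → ℤ, ((rexp (-(π * t * S (cst x))) : ℝ) : ℂ) *
        cexp (2 * π * I * ((y ⬝ᵥ cst x : ℝ) : ℂ)) =
      ((κ * (√t)⁻¹ ^ n * ∑' m : Fin n → ℤ, rexp (-(π / t * T (cst m - y))) : ℝ) : ℂ)

lemma Pois.bound {n : ℕ} {S T : (Fin n → ℝ) → ℝ} (h : Pois n S T) {t : ℝ} (ht : 0 < t) :
    ∃ M : ℝ, ∀ y : Fin n → ℝ, ∑' m : Fin n → ℤ, rexp (-(π * t * T (cst m - y))) ≤ M := by
  obtain ⟨h1, h2, κ, hκ, h3⟩ := h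
  have ht' : 0 < 1 / t := by positivity
  have hc : 0 < κ * (√(1 / t))⁻¹ ^ n := by positivity
  refine ⟨(∑' x : Fin n → ℤ, rexp (-(π * (1 / t) * S (cst x)))) / (κ * (√(1 / t))⁻¹ ^ n),
    fun y => ?_⟩
  rw [le_div_iff₀ hc]
  have e := h3 (1 / t) ht' y
  have hn := congrArg norm e
  rw [Complex.norm_real] at hn
  have e4 : (fun m : Fin n → ℤ => rexp (-(π / (1 / t) * T (cst m - y)))) =
      fun m : Fin n → ℤ => rexp (-(π * t * T (cst m - y))) := by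
    funext m; congr 2; field_simp
  rw [e4] at hn
  calc (∑' m : Fin n → ℤ, rexp (-(π * t * T (cst m - y)))) * (κ * (√(1 / t))⁻¹ ^ n)
      ≤ ‖κ * (√(1 / t))⁻¹ ^ n * ∑' m : Fin n → ℤ, rexp (-(π * t * T (cst m - y)))‖ := by
        rw [mul_comm]; exact le_abs_self _
    _ = _ := hn.symm
    _ ≤ ∑' x : Fin n → ℤ, ‖((rexp (-(π * (1 / t) * S (cst x))) : ℝ) : ℂ) *
        cexp (2 * π * I * ((y ⬝ᵥ cst x : ℝ) : ℂ))‖ := by
        apply norm_tsum_le_tsum_norm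
        refine (h1 (1 / t) ht').congr fun x => ?_
        rw [norm_mul, Complex.norm_real, Real.norm_of_nonneg (Real.exp_pos _).le,
          Complex.norm_exp]
        simp
    _ = _ := by
        congr 1; funext x
        rw [norm_mul, Complex.norm_real, Real.norm_of_nonneg (Real.exp_pos _).le,
          Complex.norm_exp]
        simp

lemma norm_term {a b : ℝ} : ‖((rexp a : ℝ) : ℂ) * cexp (2 * π * I * (b : ℂ))‖ = rexp a := by
  rw [norm_mul, Complex.norm_real, Real.norm_of_nonneg (Real.exp_pos _).le, Complex.norm_exp]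
  simp

lemma summable_cons_iff {n : ℕ} {α : Type*} [AddCommMonoid α] [TopologicalSpace α]
    (f : (Fin (n + 1) → ℤ) → α) :
    Summable f ↔ Summable fun p : (Fin n → ℤ) × ℤ => f (Fin.cons p.2 p.1) := by
  rw [← (Fin.consEquiv (fun _ : Fin (n + 1) => ℤ)).summable_iff,
    ← (Equiv.prodComm (Fin n → ℤ) ℤ).summable_iff]
  rfl

lemma tsum_cons {n : ℕ} {α : Type*} [AddCommMonoid α] [TopologicalSpace α]
    (f : (Fin (n + 1) → ℤ) → α) :
    ∑' x, f x = ∑' p : (Fin n → ℤ) × ℤ, f (Fin.cons p.2 p.1) := by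
  rw [← (Fin.consEquiv (fun _ : Fin (n + 1) => ℤ)).tsum_eq,
    ← (Equiv.prodComm (Fin n → ℤ) ℤ).tsum_eq]
  rfl

lemma pois_nil : Pois 0 (fun _ => 0) (fun _ => 0) := by
  refine ⟨fun t _ => (hasSum_fintype _).summable, fun t _ y => (hasSum_fintype _).summable,
    1, one_pos, fun t _ y => ?_⟩
  simp [tsum_fintype]

section step

variable {n : ℕ} {S T : (Fin n → ℝ) → ℝ}

lemma step1 (h : Pois n S T) {a : ℝ} (ha : 0 < a) (u : Fin n → ℝ) {t : ℝ} (ht : 0 < t) :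
    Summable (fun p : (Fin n → ℤ) × ℤ =>
      rexp (-(π * t * (a * ((p.2 : ℝ) + u ⬝ᵥ cst p.1) ^ 2 + S (cst p.1))))) := by
  have hta : 0 < t * a := by positivity
  rw [summable_prod_of_nonneg (fun p => (Real.exp_pos _).le)]
  have e : ∀ (x : Fin n → ℤ) (k : ℤ),
      rexp (-(π * t * (a * ((k : ℝ) + u ⬝ᵥ cst x) ^ 2 + S (cst x)))) =
      rexp (-(π * t * S (cst x))) * rexp (-(π * (t * a) * ((k : ℝ) + u ⬝ᵥ cst x) ^ 2)) := by
    intro x k
    rw [← Real.exp_add]; congr 1; ring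
  constructor
  · intro x
    simp only [e]
    exact (summable_one hta _).mul_left _
  · refine Summable.of_nonneg_of_le (fun x => tsum_nonneg fun _ => (Real.exp_pos _).le)
      (fun x => ?_) ((h.1 t ht).mul_right (∑' k : ℤ, rexp (-(π * (t * a) * (k : ℝ) ^ 2))))
    simp only [e]
    rw [tsum_mul_left]
    exact mul_le_mul_of_nonneg_left (tsum_one_le hta _) (Real.exp_pos _).le

lemma step2 (h : Pois n S T) {a : ℝ} (ha : 0 < a) (u : Fin n → ℝ) {t : ℝ} (ht : 0 < t)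
    (y0 : ℝ) (y : Fin n → ℝ) :
    Summable (fun p : ℤ × (Fin n → ℤ) =>
      rexp (-(π * t * (((p.1 : ℝ) - y0) ^ 2 / a + T (cst p.2 - y - ((p.1 : ℝ) - y0) • u))))) := by
  have hta : 0 < t / a := by positivity
  obtain ⟨M, hM⟩ := h.bound ht
  rw [summable_prod_of_nonneg (fun p => (Real.exp_pos _).le)]
  have e : ∀ (k : ℤ) (m : Fin n → ℤ),
      rexp (-(π * t * (((k : ℝ) - y0) ^ 2 / a + T (cst m - y - ((k : ℝ) - y0) • u)))) =
      rexp (-(π * (t / a) * ((k : ℝ) + (-y0)) ^ 2)) *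
        rexp (-(π * t * T (cst m - (y + ((k : ℝ) - y0) • u)))) := by
    intro k m
    rw [← Real.exp_add, ← sub_sub]; congr 1; ring
  constructor
  · intro k
    simp only [e]
    exact (h.2.1 t ht _).mul_left _
  · refine Summable.of_nonneg_of_le (fun x => tsum_nonneg fun _ => (Real.exp_pos _).le)
      (fun x => ?_) ((summable_one hta (-y0)).mul_right M)
    simp only [e]
    rw [tsum_mul_left]
    exact mul_le_mul_of_nonneg_left (hM _) (Real.exp_pos _).le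

lemma step3_inner {a t : ℝ} (ha : 0 < a) (ht : 0 < t) (s c y0 σ : ℝ) :
    ∑' k : ℤ, ((rexp (-(π * t * (a * ((k : ℝ) + s) ^ 2 + σ))) : ℝ) : ℂ) *
        cexp (2 * π * I * ((y0 * k + c : ℝ) : ℂ)) =
      ∑' m : ℤ, (((√(t * a))⁻¹ * rexp (-(π / (t * a) * ((m : ℝ) - y0) ^ 2)) : ℝ) : ℂ) *
        (((rexp (-(π * t * σ)) : ℝ) : ℂ) *
          cexp (2 * π * I * ((c + ((m : ℝ) - y0) * s : ℝ) : ℂ))) := by
  have hta : 0 < t * a := by positivity
  have h := one_dim hta s y0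
  have e1 : ∀ k : ℤ, ((rexp (-(π * t * (a * ((k : ℝ) + s) ^ 2 + σ))) : ℝ) : ℂ) *
        cexp (2 * π * I * ((y0 * k + c : ℝ) : ℂ)) =
      (((rexp (-(π * t * σ)) : ℝ) : ℂ) * cexp (2 * π * I * (c : ℂ))) *
        (cexp (-(π * ((t * a : ℝ) : ℂ) * ((k : ℂ) + s) ^ 2)) * cexp (2 * π * I * y0 * k)) := by
    intro k
    push_cast
    simp only [← Complex.exp_add]
    congr 1
    ring
  have e2 : ∀ m : ℤ, (((√(t * a))⁻¹ * rexp (-(π / (t * a) * ((m : ℝ) - y0) ^ 2)) : ℝ) : ℂ) *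
        (((rexp (-(π * t * σ)) : ℝ) : ℂ) *
          cexp (2 * π * I * ((c + ((m : ℝ) - y0) * s : ℝ) : ℂ))) =
      (((rexp (-(π * t * σ)) : ℝ) : ℂ) * cexp (2 * π * I * (c : ℂ)) * ((√(t * a))⁻¹ : ℝ)) *
        (cexp (-(π / ((t * a : ℝ) : ℂ) * ((m : ℂ) - y0) ^ 2)) *
        cexp (2 * π * I * (((m : ℂ) - y0) * s))) := by
    intro m
    push_cast
    have : ∀ A B C D E F G : ℂ, B + (C + D) = E + F + G → A * cexp B * (cexp C * cexp D) =
      A * (cexp E * (cexp F * cexp G)) := by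
      intro A B C D E F G hh
      rw [← Complex.exp_add, ← Complex.exp_add, ← Complex.exp_add, mul_assoc,
        ← Complex.exp_add, hh]
      congr 2; ring
    rw [this _ _ _ _ (-(π * t * σ) + 2 * π * I * (c : ℂ))
      (-(π / (t * a) * ((m : ℂ) - y0) ^ 2)) (2 * π * I * (((m : ℂ) - y0) * s)) (by ring),
      Complex.exp_add]
    ring
  simp_rw [e1, e2]
  rw [tsum_mul_left, tsum_mul_left, h]
  push_cast
  ring

lemma step3 (h : Pois n S T) {a : ℝ} (ha : 0 < a) (u : Fin n → ℝ) :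
    ∃ κ : ℝ, 0 < κ ∧ ∀ t : ℝ, 0 < t → ∀ y : Fin (n + 1) → ℝ,
    ∑' x : Fin (n + 1) → ℤ, ((rexp (-(π * t *
        (a * (cst x 0 + u ⬝ᵥ Fin.tail (cst x)) ^ 2 + S (Fin.tail (cst x))))) : ℝ) : ℂ) *
        cexp (2 * π * I * ((y ⬝ᵥ cst x : ℝ) : ℂ)) =
      ((κ * (√t)⁻¹ ^ (n + 1) * ∑' m : Fin (n + 1) → ℤ,
        rexp (-(π / t * (((cst m - y) 0) ^ 2 / a +
          T (Fin.tail (cst m - y) - ((cst m - y) 0) • u)))) : ℝ) : ℂ) := by
  obtain ⟨κ, hκ, h3⟩ := h.2.2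
  refine ⟨κ * (√a)⁻¹, by positivity, fun t ht y => ?_⟩
  have hta : 0 < t * a := by positivity
  have ht' : 0 < 1 / t := by positivity
  have hdot : ∀ (k : ℤ) (x : Fin n → ℤ), y ⬝ᵥ cst (Fin.cons k x : Fin (n + 1) → ℤ) =
      y 0 * k + Fin.tail y ⬝ᵥ cst x := by
    intro k x
    simp only [dotProduct, Fin.sum_univ_succ, zero_cst_cons]
    congr 1
  rw [tsum_cons]
  simp only [tail_cst_cons, zero_cst_cons, hdot]
  -- the summability of the left side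
  have s1 : Summable (fun p : (Fin n → ℤ) × ℤ => ((rexp (-(π * t *
      (a * ((p.2 : ℝ) + u ⬝ᵥ cst p.1) ^ 2 + S (cst p.1)))) : ℝ) : ℂ) *
        cexp (2 * π * I * ((y 0 * p.2 + Fin.tail y ⬝ᵥ cst p.1 : ℝ) : ℂ))) := by
    apply Summable.of_norm
    refine (step1 h ha u ht).congr fun p => ?_
    rw [norm_term]
  rw [s1.tsum_prod]
  have e1 : ∀ x : Fin n → ℤ, (∑' k : ℤ, ((rexp (-(π * t *
      (a * ((k : ℝ) + u ⬝ᵥ cst x) ^ 2 + S (cst x)))) : ℝ) : ℂ) *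
        cexp (2 * π * I * ((y 0 * k + Fin.tail y ⬝ᵥ cst x : ℝ) : ℂ))) =
      ∑' m : ℤ, (((√(t * a))⁻¹ * rexp (-(π / (t * a) * ((m : ℝ) - y 0) ^ 2)) : ℝ) : ℂ) *
        (((rexp (-(π * t * S (cst x))) : ℝ) : ℂ) *
          cexp (2 * π * I * ((((Fin.tail y + ((m : ℝ) - y 0) • u)) ⬝ᵥ cst x : ℝ) : ℂ))) := by
    intro x
    rw [step3_inner ha ht]
    simp only [add_dotProduct, smul_dotProduct, smul_eq_mul]
  simp only [e1]
  -- exchange the sums
  have s2 : Summable (fun p : (Fin n → ℤ) × ℤ =>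
      (((√(t * a))⁻¹ * rexp (-(π / (t * a) * ((p.2 : ℝ) - y 0) ^ 2)) : ℝ) : ℂ) *
        (((rexp (-(π * t * S (cst p.1))) : ℝ) : ℂ) *
        cexp (2 * π * I * ((((Fin.tail y + ((p.2 : ℝ) - y 0) • u)) ⬝ᵥ cst p.1 : ℝ) : ℂ)))) := by
    apply Summable.of_norm
    have q := (h.1 t ht).mul_of_nonneg (((summable_one (α := 1 / (t * a)) (by positivity)
      (-(y 0))).mul_left ((√(t * a))⁻¹))) (fun _ => (Real.exp_pos _).le)
      (fun _ => by positivity)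
    refine q.congr fun p => ?_
    rw [norm_mul, norm_term, Complex.norm_real, Real.norm_of_nonneg (by positivity)]
    rw [mul_comm]
    congr 3
    ring_nf
  rw [← Summable.tsum_comm (f := fun (x : Fin n → ℤ) (m : ℤ) =>
      (((√(t * a))⁻¹ * rexp (-(π / (t * a) * ((m : ℝ) - y 0) ^ 2)) : ℝ) : ℂ) *
        (((rexp (-(π * t * S (cst x))) : ℝ) : ℂ) *
        cexp (2 * π * I * ((((Fin.tail y + ((m : ℝ) - y 0) • u)) ⬝ᵥ cst x : ℝ) : ℂ)))) s2]
  simp only [tsum_mul_left, h3 t ht]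
  -- the right side
  rw [tsum_cons]
  have s3 := step2 h ha u ht' (y 0) (Fin.tail y)
  have hsub : ∀ (k : ℤ) (m : Fin n → ℤ),
      Fin.tail (cst (Fin.cons k m : Fin (n + 1) → ℤ) - y) = cst m - Fin.tail y := by
    intro k m; funext i; simp [Fin.tail, cst]
  have hsub0 : ∀ (k : ℤ) (m : Fin n → ℤ),
      (cst (Fin.cons k m : Fin (n + 1) → ℤ) - y) 0 = (k : ℝ) - y 0 := by
    intro k m; simp [cst]
  simp only [hsub, hsub0]
  have s4 : Summable (fun p : (Fin n → ℤ) × ℤ => rexp (-(π / t *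
      (((p.2 : ℝ) - y 0) ^ 2 / a + T (cst p.1 - Fin.tail y - ((p.2 : ℝ) - y 0) • u))))) := by
    have := s3.prod_symm
    refine this.congr fun p => ?_
    simp only [Prod.fst_swap, Prod.snd_swap]
    congr 2
    ring
  rw [s4.tsum_prod, ← Summable.tsum_comm (f := fun (x : Fin n → ℤ) (k : ℤ) => rexp (-(π / t *
      (((k : ℝ) - y 0) ^ 2 / a + T (cst x - Fin.tail y - ((k : ℝ) - y 0) • u))))) s4]
  rw [Complex.ofReal_mul, Complex.ofReal_tsum, ← tsum_mul_left]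
  refine tsum_congr fun k => ?_
  have e5 : ∀ m : Fin n → ℤ, rexp (-(π / t *
      (((k : ℝ) - y 0) ^ 2 / a + T (cst m - Fin.tail y - ((k : ℝ) - y 0) • u)))) =
      rexp (-(π / (t * a) * ((k : ℝ) - y 0) ^ 2)) *
      rexp (-(π / t * T (cst m - (Fin.tail y + ((k : ℝ) - y 0) • u)))) := by
    intro m
    rw [← Real.exp_add, ← sub_sub]
    congr 1
    field_simp
    ring
  simp only [e5, tsum_mul_left]
  rw [← Complex.ofReal_mul, ← Complex.ofReal_mul]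
  congr 1
  rw [Real.sqrt_mul ht.le, mul_inv, pow_succ]
  ring

end step

theorem GP.pois {n : ℕ} {S T : (Fin n → ℝ) → ℝ} (h : GP n S T) : Pois n S T := by
  induction h with
  | nil => exact pois_nil
  | @cons n S T h a ha u ih =>
    refine ⟨fun t ht => ?_, fun t ht y => ?_, step3 ih ha u⟩
    · rw [summable_cons_iff]
      simp only [tail_cst_cons, zero_cst_cons]
      exact step1 ih ha u ht
    · rw [summable_cons_iff]
      have := (step2 ih ha u ht (y 0) (Fin.tail y)).prod_symm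
      refine this.congr fun p => ?_
      have hsub : Fin.tail (cst (Fin.cons p.2 p.1 : Fin (n + 1) → ℤ) - y) =
          cst p.1 - Fin.tail y := by
        funext i; simp [Fin.tail, cst]
      have hsub0 : (cst (Fin.cons p.2 p.1 : Fin (n + 1) → ℤ) - y) 0 = (p.2 : ℝ) - y 0 := by
        simp [cst]
      simp only [hsub, hsub0, Prod.fst_swap, Prod.snd_swap]

end Cfsg.Agent.Lib.ThGauss
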