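import Cfsg.Agent.Lib.Critical
import Cfsg.Agent.Lib.Fitting

/-!
Thompson's theorem on solvable groups with one class of involutions (helper59), part 1:
`O₂(G)` is special with every square in `V = Ω₁`.
-/

set_option autoImplicit false

namespace Cfsg.Agent.Lib.ThInv1

open Subgroup
open scoped commutatorElement

universe u

variable {G : Type u} [Group G]

/-- `a^y = a v` with `v` fixed by `y`, `v` a 2-element, `y` of odd order: `v = 1`. -/
theorem eq_one_of_fix {a y v : G} (h : y * a * y⁻¹ = a * v) (hv : y * v * y⁻¹ = v)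
    (hy : Odd (orderOf y)) {m : ℕ} (hm : v ^ 2 ^ m = 1) : v = 1 := by
  have key : ∀ j : ℕ, y ^ j * a * (y ^ j)⁻¹ = a * v ^ j := by
    intro j
    induction j with
    | zero => simp
    | succ j ih =>
      have h1 : y ^ (j + 1) * a * (y ^ (j + 1))⁻¹ = y * (y ^ j * a * (y ^ j)⁻¹) * y⁻¹ := by
        rw [pow_succ']; group
      have h2 : y * v ^ j * y⁻¹ = v ^ j := by
        rw [← conj_pow, hv]
      calc y ^ (j + 1) * a * (y ^ (j + 1))⁻¹ = y * (y ^ j * a * (y ^ j)⁻¹) * y⁻¹ := h1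
        _ = (y * a * y⁻¹) * (y * v ^ j * y⁻¹) := by rw [ih]; group
        _ = a * v ^ (j + 1) := by rw [h, h2, pow_succ']; group
  have h1 := key (orderOf y)
  rw [pow_orderOf_eq_one] at h1
  have h2 : v ^ orderOf y = 1 := by
    have : a = a * v ^ orderOf y := by simpa using h1
    exact (mul_eq_left.1 this.symm)
  have h3 : orderOf v ∣ orderOf y := orderOf_dvd_of_pow_eq_one h2
  have h4 : orderOf v ∣ 2 ^ m := orderOf_dvd_of_pow_eq_one hm
  have h5 : Nat.Coprime (orderOf y) (2 ^ m) := Nat.Coprime.pow_right m hy.coprime_two_right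
  rw [← orderOf_eq_one_iff]
  exact Nat.eq_one_of_dvd_coprimes h5 h3 h4

/-- a 2-group automorphism of odd order fixing the involutions acts trivially on abelian
invariant subgroups -/
theorem fix_abelian {V N : Subgroup G} (hV : ∀ g : G, g ∈ V ↔ g ^ 2 = 1) {y : G}
    (hy : Odd (orderOf y)) (hyV : ∀ v ∈ V, y * v * y⁻¹ = v)
    (hN : ∀ a ∈ N, ∀ b ∈ N, a * b = b * a) (hyN : ∀ a ∈ N, y * a * y⁻¹ ∈ N) :
    ∀ n : ℕ, ∀ a ∈ N, a ^ 2 ^ n = 1 → y * a * y⁻¹ = a := by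
  intro n
  induction n with
  | zero =>
    intro a _ ha
    rw [pow_zero, pow_one] at ha
    rw [ha]; group
  | succ n ih =>
    intro a ha han
    have h1 : y * a ^ 2 * y⁻¹ = a ^ 2 := by
      apply ih _ (pow_mem ha 2)
      rw [← pow_mul, ← pow_succ']
      exact han
    have h2 : (y * a * y⁻¹) ^ 2 = a ^ 2 := by rw [conj_pow, h1]
    have h3 : a⁻¹ * (y * a * y⁻¹) ∈ V := by
      rw [hV]
      have hc : Commute a⁻¹ (y * a * y⁻¹) := hN _ (inv_mem ha) _ (hyN a ha)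
      rw [hc.mul_pow, h2, inv_pow, inv_mul_cancel]
    have h4 : a⁻¹ * (y * a * y⁻¹) = 1 := by
      apply eq_one_of_fix (a := a) (m := 1) _ (hyV _ h3) hy
      · rw [pow_one]; exact (hV _).1 h3
      · group
    exact (inv_mul_eq_one.1 h4).symm

/-- the main structure statement. -/
theorem special_of [Finite G] {P V : Subgroup G} (hPn : P.Normal) (hP : IsPGroup 2 P)
    (hV : ∀ g : G, g ∈ V ↔ g ^ 2 = 1) (hVP : V ≤ P)
    (hVc : ∀ v ∈ V, ∀ p ∈ P, v * p = p * v)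
    (htr : ∀ v ∈ V, ∀ w ∈ V, v ≠ 1 → w ≠ 1 → ∃ g : G, g * v * g⁻¹ = w)
    {y : G} (hy : Odd (orderOf y)) (hyV : ∀ v ∈ V, y * v * y⁻¹ = v)
    (hyP : ¬ ∀ p ∈ P, y * p * y⁻¹ = p) :
    (∀ p ∈ P, p ^ 2 ∈ V) ∧ (∀ c ∈ P, (∀ p ∈ P, c * p = p * c) → c ∈ V) ∧
      ∀ v ∈ V, v ≠ 1 → ∃ u ∈ P, u ^ 2 = v := by
  have hPpow : ∀ p ∈ P, ∃ m, p ^ 2 ^ m = 1 := fun p hp => by
    obtain ⟨m, hm⟩ := hP ⟨p, hp⟩
    exact ⟨m, by simpa using congrArg Subtype.val hm⟩
  have hVn : V.Normal := ⟨fun v hv g => by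
    rw [hV] at hv ⊢
    rw [conj_pow, hv]; group⟩
  -- the critical subgroup
  obtain ⟨H, hHc, -, hH1, hH2, hH3⟩ := Critical.exists_critical (p := 2) hP
  set D : Subgroup G := H.map P.subtype with hD
  have hDn : D.Normal := inferInstance
  have hDP : D ≤ P := by
    rw [hD]; exact map_subtype_le H
  have hA1 : ∀ d ∈ D, ∀ p ∈ P, ⁅d, p⁆ ∈ D ∧ ∀ e ∈ D, ⁅d, p⁆ * e = e * ⁅d, p⁆ := by
    rintro _ ⟨d, hd, rfl⟩ p hp
    have h1 := hH1 (commutator_mem_commutator hd (mem_top (⟨p, hp⟩ : P)))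
    obtain ⟨h2, h3⟩ := mem_inf.1 h1
    refine ⟨⟨_, h2, rfl⟩, ?_⟩
    rintro _ ⟨e, he, rfl⟩
    exact congrArg Subtype.val ((mem_centralizer_iff.1 h3 e he).symm)
  have hA2 : ∀ c ∈ P, (∀ d ∈ D, c * d = d * c) → c ∈ D := by
    intro c hc hcd
    refine ⟨⟨c, hc⟩, hH2 ?_, rfl⟩
    rw [mem_centralizer_iff]
    intro d hd
    exact Subtype.ext (hcd d ⟨d, hd, rfl⟩).symm
  have hA3 : ∀ d ∈ D, ∀ e ∈ D, d ^ 2 * e = e * d ^ 2 := by
    rintro _ ⟨d, hd, rfl⟩ _ ⟨e, he, rfl⟩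
    have h1 := mem_centralizer_iff.1 (hH3 d hd) e he
    exact (congrArg Subtype.val h1).symm
  -- general fact: y centralizes a normal abelian subgroup
  have habn : ∀ N : Subgroup G, N.Normal → N ≤ P → (∀ a ∈ N, ∀ b ∈ N, a * b = b * a) →
      ∀ a ∈ N, y * a * y⁻¹ = a := by
    intro N hNn hNP hNc a ha
    obtain ⟨m, hm⟩ := hPpow a (hNP ha)
    exact fix_abelian hV hy hyV hNc (fun a ha => hNn.conj_mem a ha y) m a ha hm
  -- general fact : if a⁻¹ y a y⁻¹ is fixed by y then it is 1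
  have hfixone : ∀ a ∈ P, y * (a⁻¹ * (y * a * y⁻¹)) * y⁻¹ = a⁻¹ * (y * a * y⁻¹) →
      y * a * y⁻¹ = a := by
    intro a ha h
    obtain ⟨m, hm⟩ := hPpow (a⁻¹ * (y * a * y⁻¹)) (mul_mem (inv_mem ha) (hPn.conj_mem a ha y))
    have := eq_one_of_fix (a := a) (y := y) (v := a⁻¹ * (y * a * y⁻¹)) (by group) h hy hm
    exact (inv_mul_eq_one.1 this).symm
  -- y does not centralize D
  have hyD : ¬ ∀ d ∈ D, y * d * y⁻¹ = d := by
    intro h
    apply hyP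
    intro p hp
    apply hfixone p hp
    apply h
    apply hA2
    · exact mul_mem (inv_mem hp) (hPn.conj_mem p hp y)
    · intro d hd
      have h1 : y * (p * d * p⁻¹) * y⁻¹ = p * d * p⁻¹ := h _ (hDn.conj_mem d hd p)
      have h2 : y * d * y⁻¹ = d := h d hd
      have h3 : (y * p * y⁻¹) * d * (y * p * y⁻¹)⁻¹ = p * d * p⁻¹ := by
        calc (y * p * y⁻¹) * d * (y * p * y⁻¹)⁻¹ = y * (p * (y⁻¹ * d * y) * p⁻¹) * y⁻¹ := by group
          _ = y * (p * d * p⁻¹) * y⁻¹ := by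
            congr 4
            calc y⁻¹ * d * y = y⁻¹ * (y * d * y⁻¹) * y := by rw [h2]
              _ = d := by group
          _ = p * d * p⁻¹ := h1
      calc p⁻¹ * (y * p * y⁻¹) * d = p⁻¹ * ((y * p * y⁻¹) * d * (y * p * y⁻¹)⁻¹) * (y * p * y⁻¹) := by
            group
        _ = p⁻¹ * (p * d * p⁻¹) * (y * p * y⁻¹) := by rw [h3]
        _ = d * (p⁻¹ * (y * p * y⁻¹)) := by group
  -- commutators in D
  have hcomm : ∀ a ∈ D, ∀ b ∈ D, ⁅a, b⁆ ∈ V := by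
    intro a ha b hb
    obtain ⟨-, hc⟩ := hA1 a ha b (hDP hb)
    rw [hV]
    have h1 : a * b * a⁻¹ = ⁅a, b⁆ * b := by rw [commutatorElement_def]; group
    have h2 : a ^ 2 * b * (a ^ 2)⁻¹ = ⁅a, b⁆ ^ 2 * b := by
      calc a ^ 2 * b * (a ^ 2)⁻¹ = a * (a * b * a⁻¹) * a⁻¹ := by rw [pow_two]; group
        _ = a * (⁅a, b⁆ * b) * a⁻¹ := by rw [h1]
        _ = (a * ⁅a, b⁆) * b * a⁻¹ := by group
        _ = (⁅a, b⁆ * a) * b * a⁻¹ := by rw [hc a ha]
        _ = ⁅a, b⁆ * (a * b * a⁻¹) := by group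
        _ = ⁅a, b⁆ ^ 2 * b := by rw [h1, pow_two]; group
    rw [hA3 a ha b hb] at h2
    have h3 : b = ⁅a, b⁆ ^ 2 * b := by rw [← h2]; group
    exact (mul_eq_right.1 h3.symm)
  have hsq : ∀ a ∈ D, ∀ b ∈ D, ∃ c ∈ V, (a * b) ^ 2 = a ^ 2 * b ^ 2 * c := by
    intro a ha b hb
    refine ⟨⁅b, a⁆, hcomm b hb a ha, ?_⟩
    obtain ⟨-, hc⟩ := hA1 b hb a (hDP ha)
    have h1 : b * a = ⁅b, a⁆ * (a * b) := by rw [commutatorElement_def]; group
    calc (a * b) ^ 2 = a * (b * a) * b := by rw [pow_two]; group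
      _ = a * (⁅b, a⁆ * (a * b)) * b := by rw [h1]
      _ = a * (⁅b, a⁆ * (a * b * b)) := by group
      _ = a * ((a * b * b) * ⁅b, a⁆) := by
        rw [hc _ (mul_mem (mul_mem ha hb) hb)]
      _ = a ^ 2 * b ^ 2 * ⁅b, a⁆ := by rw [pow_two, pow_two]; group
  let D₁ : Subgroup G :=
    { carrier := {a | a ∈ D ∧ a ^ 2 ∈ V}
      one_mem' := ⟨one_mem _, by simp⟩
      mul_mem' := by
        rintro a b ⟨ha, ha2⟩ ⟨hb, hb2⟩
        obtain ⟨c, hc, h⟩ := hsq a ha b hb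
        exact ⟨mul_mem ha hb, by rw [h]; exact mul_mem (mul_mem ha2 hb2) hc⟩
      inv_mem' := by
        rintro a ⟨ha, ha2⟩
        exact ⟨inv_mem ha, by rw [inv_pow]; exact inv_mem ha2⟩ }
  have hD₁mem : ∀ a, a ∈ D₁ ↔ a ∈ D ∧ a ^ 2 ∈ V := fun a => Iff.rfl
  have hD₁n : D₁.Normal := ⟨by
    intro a ha g
    rw [hD₁mem] at ha ⊢
    refine ⟨hDn.conj_mem a ha.1 g, ?_⟩
    rw [conj_pow]
    exact hVn.conj_mem _ ha.2 g⟩
  have hD₁P : D₁ ≤ P := fun a ha => hDP ha.1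
  have hyD₁ : ¬ ∀ d ∈ D₁, y * d * y⁻¹ = d := by
    intro h
    apply hyD
    intro a ha
    apply hfixone a (hDP ha)
    apply h
    have hya : y * a * y⁻¹ ∈ D := hDn.conj_mem a ha y
    rw [hD₁mem]
    refine ⟨mul_mem (inv_mem ha) hya, ?_⟩
    obtain ⟨c, hc, h1⟩ := hsq a⁻¹ (inv_mem ha) _ hya
    rw [h1, conj_pow]
    -- a² is centralized by y
    have hA : y * a ^ 2 * y⁻¹ = a ^ 2 := by
      apply habn (D ⊓ centralizer (D : Set G)) inferInstance (inf_le_left.trans hDP)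
      · intro x hx z hz
        exact ((mem_centralizer_iff.1 (mem_inf.1 hx).2 z (mem_inf.1 hz).1)).symm
      · refine mem_inf.2 ⟨pow_mem ha 2, ?_⟩
        rw [mem_centralizer_iff]
        intro e he
        exact (hA3 a ha e he).symm
    rw [hA, inv_pow, inv_mul_cancel, one_mul]
    exact hc
  have hD₁na : ¬ ∀ a ∈ D₁, ∀ b ∈ D₁, a * b = b * a := fun h =>
    hyD₁ (habn D₁ hD₁n hD₁P h)
  -- there is u₀ in D₁ outside V
  obtain ⟨u₀, hu₀, hu₀V⟩ : ∃ u ∈ D₁, u ∉ V := by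
    by_contra hcon
    push Not at hcon
    exact hD₁na fun a ha b hb => hVc a (hcon a ha) b (hD₁P hb)
  have hu₀2 : u₀ ^ 2 ≠ 1 := fun h => hu₀V ((hV _).2 h)
  have hsurj : ∀ v ∈ V, v ≠ 1 → ∃ u ∈ D₁, u ^ 2 = v := by
    intro v hv hv1
    obtain ⟨g, hg⟩ := htr _ hu₀.2 v hv hu₀2 hv1
    exact ⟨g * u₀ * g⁻¹, hD₁n.conj_mem _ hu₀ g, by rw [conj_pow, hg]⟩
  have hVD₁ : V ≤ D₁ := by
    intro v hv
    by_cases hv1 : v = 1
    · rw [hv1]; exact one_mem _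
    · obtain ⟨u, hu, hu2⟩ := hsurj v hv hv1
      rw [← hu2]; exact pow_mem hu 2
  -- the center of D₁ is V
  have hZ : ∀ z ∈ D₁, (∀ d ∈ D₁, z * d = d * z) → z ∈ V := by
    intro z hz hzc
    by_contra hzV
    have hz2 : z ^ 2 ≠ 1 := fun h => hzV ((hV _).2 h)
    obtain ⟨u, hu, hu'⟩ : ∃ u ∈ D₁, ¬ ∀ d ∈ D₁, u * d = d * u := by
      by_contra hcon
      push Not at hcon
      exact hD₁na hcon
    have huV : u ∉ V := fun h => hu' fun d hd => hVc u h d (hD₁P hd)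
    have hu2 : u ^ 2 ≠ 1 := fun h => huV ((hV _).2 h)
    obtain ⟨g, hg⟩ := htr _ hz.2 _ hu.2 hz2 hu2
    have hz'c : ∀ d ∈ D₁, (g * z * g⁻¹) * d = d * (g * z * g⁻¹) := by
      intro d hd
      have h1 : g⁻¹ * d * g ∈ D₁ := by
        have := hD₁n.conj_mem d hd g⁻¹
        rwa [inv_inv] at this
      have h2 := hzc _ h1
      calc (g * z * g⁻¹) * d = g * (z * (g⁻¹ * d * g)) * g⁻¹ := by group
        _ = g * ((g⁻¹ * d * g) * z) * g⁻¹ := by rw [h2]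
        _ = d * (g * z * g⁻¹) := by group
    have h3 : (g * z * g⁻¹) * u ∈ V := by
      rw [hV]
      have hc : Commute (g * z * g⁻¹) u := hz'c u hu
      rw [hc.mul_pow, conj_pow, hg, ← pow_add]
      have : (u ^ 2) ^ 2 = 1 := (hV _).1 hu.2
      rw [← this, ← pow_mul]
    apply hu'
    intro d hd
    have h4 := hVc _ h3 d (hD₁P hd)
    have h5 := hz'c d hd
    calc u * d = (g * z * g⁻¹)⁻¹ * ((g * z * g⁻¹) * u * d) := by group
      _ = (g * z * g⁻¹)⁻¹ * (d * (g * z * g⁻¹) * u) := by rw [h4]; group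
      _ = (g * z * g⁻¹)⁻¹ * ((g * z * g⁻¹) * d * u) := by rw [h5]
      _ = d * u := by group
  -- the centralizer of D₁ in P is V
  have hCP : ∀ c ∈ P, (∀ d ∈ D₁, c * d = d * c) → c ∈ V := by
    intro c hc hcd
    by_contra hcV
    obtain ⟨m, hm⟩ := hPpow c hc
    -- take the least n with c^(2^n) ∈ V
    classical
    have hex : ∃ n : ℕ, c ^ 2 ^ n ∈ V := ⟨m, by rw [hm]; exact one_mem _⟩
    set n := Nat.find hex with hn
    have hn1 : c ^ 2 ^ n ∈ V := Nat.find_spec hex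
    have hn0 : n ≠ 0 := by
      intro h0
      rw [h0, pow_zero, pow_one] at hn1
      exact hcV hn1
    obtain ⟨j, hj⟩ := Nat.exists_eq_succ_of_ne_zero hn0
    have hj1 : c ^ 2 ^ j ∉ V := Nat.find_min hex (by omega)
    set e := c ^ 2 ^ j with he
    have he2 : e ^ 2 ∈ V := by
      rw [he, ← pow_mul, ← pow_succ]
      rw [hj] at hn1
      exact hn1
    have heP : e ∈ P := pow_mem hc _
    have hec : ∀ d ∈ D₁, e * d = d * e := fun d hd =>
      ((show Commute c d from hcd d hd).pow_left _).eq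
    have he21 : e ^ 2 ≠ 1 := fun h => hj1 ((hV _).2 h)
    obtain ⟨u, hu, hu2⟩ := hsurj _ he2 he21
    have h1 : e * u ∈ V := by
      rw [hV, (show Commute e u from hec u hu).mul_pow, hu2, ← pow_two]
      exact (hV _).1 he2
    have h2 : e ∈ D₁ := by
      have := mul_mem (hVD₁ h1) (inv_mem hu)
      rwa [mul_inv_cancel_right] at this
    exact hj1 (hZ e h2 hec)
  have hPD : ∀ p ∈ P, ∀ a ∈ D₁, ⁅a, p⁆ ∈ V := by
    intro p hp a ha
    have h1 := hA1 a ha.1 p hp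
    apply hZ
    · rw [commutatorElement_def]
      have : a * p * a⁻¹ * p⁻¹ = a * (p * a⁻¹ * p⁻¹) := by group
      rw [this]
      exact mul_mem ha (hD₁n.conj_mem _ (inv_mem ha) p)
    · intro d hd
      exact h1.2 d hd.1
  refine ⟨?_, ?_, ?_⟩
  · intro p hp
    apply hCP _ (pow_mem hp 2)
    intro a ha
    have h1 := hPD p hp a ha
    -- p a p⁻¹ = v a
    set v := ⁅a, p⁆⁻¹ with hv
    have hvV : v ∈ V := inv_mem h1
    have h2 : p * a * p⁻¹ = v * a := by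
      rw [hv, commutatorElement_def]; group
    have hv2 : v ^ 2 = 1 := (hV _).1 hvV
    have h3 : p ^ 2 * a * (p ^ 2)⁻¹ = a := by
      calc p ^ 2 * a * (p ^ 2)⁻¹ = p * (p * a * p⁻¹) * p⁻¹ := by rw [pow_two]; group
        _ = (p * v) * a * p⁻¹ := by rw [h2]; group
        _ = (v * p) * a * p⁻¹ := by rw [hVc v hvV p hp]
        _ = v * (p * a * p⁻¹) := by group
        _ = v ^ 2 * a := by rw [h2, pow_two]; group
        _ = a := by rw [hv2, one_mul]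
    exact mul_inv_eq_iff_eq_mul.1 h3
  · intro c hc hcp
    exact hCP c hc fun d hd => hcp d (hD₁P hd)
  · intro v hv hv1
    obtain ⟨u, hu, hu2⟩ := hsurj v hv hv1
    exact ⟨u, hD₁P hu, hu2⟩

end Cfsg.Agent.Lib.ThInv1
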