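import Mathlib

/-!
Thompson's theorem on solvable groups with one class of involutions (helper59), part 2:
character sum counting in a special 2-group with equal fibres of the squaring map.
-/

set_option autoImplicit false

namespace Cfsg.Agent.Lib.ThInv2

open Subgroup
open scoped commutatorElement Classical

universe u

variable {P : Type u} [Group P] [Fintype P]

/-- sign attached to a subgroup. -/
noncomputable def sgn (U : Subgroup P) (g : P) : ℤ := if g ∈ U then 1 else -1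

theorem sgn_of_mem {U : Subgroup P} {g : P} (h : g ∈ U) : sgn U g = 1 := if_pos h

theorem sgn_of_not_mem {U : Subgroup P} {g : P} (h : g ∉ U) : sgn U g = -1 := if_neg h

theorem sgn_mul_self (U : Subgroup P) (g : P) : sgn U g * sgn U g = 1 := by
  unfold sgn; split_ifs <;> norm_num

theorem sgn_mul {U V : Subgroup P} (hUV : U ≤ V) (hidx : 2 * Nat.card U = Nat.card V) {a b : P}
    (ha : a ∈ V) (hb : b ∈ V) : sgn U (a * b) = sgn U a * sgn U b := by
  have h2 : (U.subgroupOf V).index = 2 := by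
    have h1 := Subgroup.card_mul_index (U.subgroupOf V)
    rw [Nat.card_congr (Subgroup.subgroupOfEquivOfLe hUV).toEquiv, ← hidx] at h1
    have h3 : 0 < Nat.card U := Nat.card_pos
    exact Nat.eq_of_mul_eq_mul_left h3 (by rw [h1, mul_comm])
  have h3 := Subgroup.mul_mem_iff_of_index_two h2 (a := ⟨a, ha⟩) (b := ⟨b, hb⟩)
  rw [mem_subgroupOf, mem_subgroupOf, mem_subgroupOf] at h3
  change a * b ∈ U ↔ (a ∈ U ↔ b ∈ U) at h3
  unfold sgn
  by_cases h4 : a ∈ U <;> by_cases h5 : b ∈ U <;> simp [h3, h4, h5]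

theorem sum_zero {X : Type*} [Fintype X] [Group X] (f : X → ℤ) (w : X) (hw : f w = -1)
    (hf : ∀ x, f (w * x) = f w * f x) : ∑ x, f x = 0 := by
  have h1 : ∑ x, f x = ∑ x, f (w * x) := (Equiv.sum_comp (Equiv.mulLeft w) f).symm
  have h2 : ∑ x, f (w * x) = - ∑ x, f x := by
    rw [← Finset.sum_neg_distrib]
    apply Finset.sum_congr rfl
    intro x _
    rw [hf, hw]; ring
  linarith

theorem count_aux {V U : Subgroup P} (hUV : U ≤ V) (hidx : 2 * Nat.card U = Nat.card V)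
    (hVc : ∀ v ∈ V, ∀ p, v * p = p * v) (hV : ∀ g, g ∈ V ↔ g ^ 2 = 1) (hsq : ∀ p, p ^ 2 ∈ V)
    {F : ℕ} (hF : ∀ v ∈ V, v ≠ 1 → Nat.card {p : P // p ^ 2 = v} = F) :
    ∃ R : Subgroup P, (∀ c : P, c ∈ R ↔ ∀ a : P, ⁅a, c⁆ ∈ U) ∧
      (((Nat.card V : ℤ) - F) ^ 2 = 0 ∨
        ((Nat.card V : ℤ) - F) ^ 2 = Nat.card P * Nat.card R) := by
  have hcid : ∀ a c : P, a ^ 2 * (a⁻¹ * c) ^ 2 = ⁅a, c⁆ * c ^ 2 := by
    intro a c
    rw [commutatorElement_def, pow_two, pow_two, pow_two]; group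
  have hcV : ∀ a c : P, ⁅a, c⁆ ∈ V := by
    intro a c
    have h1 : ⁅a, c⁆ = a ^ 2 * (a⁻¹ * c) ^ 2 * (c ^ 2)⁻¹ := by rw [hcid]; group
    rw [h1]
    exact mul_mem (mul_mem (hsq _) (hsq _)) (inv_mem (hsq _))
  have hcmul : ∀ a b c : P, ⁅a * b, c⁆ = ⁅a, c⁆ * ⁅b, c⁆ := by
    intro a b c
    have h1 : ⁅a * b, c⁆ = a * ⁅b, c⁆ * a⁻¹ * ⁅a, c⁆ := by
      simp only [commutatorElement_def]; group
    rw [h1, ← hVc _ (hcV b c) a, mul_inv_cancel_right, hVc _ (hcV b c)]
  have hcmul' : ∀ a b c : P, ⁅c, a * b⁆ = ⁅c, a⁆ * ⁅c, b⁆ := by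
    intro a b c
    have h1 : ⁅c, a * b⁆ = ⁅c, a⁆ * (a * ⁅c, b⁆ * a⁻¹) := by
      simp only [commutatorElement_def]; group
    rw [h1, ← hVc _ (hcV c b) a, mul_inv_cancel_right]
  have hsqm : ∀ a b : P, (a * b) ^ 2 = a ^ 2 * b ^ 2 * ⁅b, a⁆ := by
    intro a b
    have h1 : b * a = ⁅b, a⁆ * (a * b) := by rw [commutatorElement_def]; group
    calc (a * b) ^ 2 = a * (b * a) * b := by rw [pow_two]; group
      _ = a * (⁅b, a⁆ * (a * b * b)) := by rw [h1]; group
      _ = a * ((a * b * b) * ⁅b, a⁆) := by rw [hVc _ (hcV b a)]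
      _ = a ^ 2 * b ^ 2 * ⁅b, a⁆ := by rw [pow_two, pow_two]; group
  have hUn : ∀ u ∈ U, ∀ g, g * u * g⁻¹ = u := fun u hu g => by
    rw [← hVc u (hUV hu) g, mul_inv_cancel_right]
  let R : Subgroup P :=
    { carrier := {c | ∀ a : P, ⁅a, c⁆ ∈ U}
      one_mem' := by
        intro a
        rw [commutatorElement_one_right]; exact one_mem _
      mul_mem' := by
        intro c d hc hd a
        rw [hcmul']
        exact mul_mem (hc a) (hd a)
      inv_mem' := by
        intro c hc a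
        have h1 := hcmul' c c⁻¹ a
        rw [mul_inv_cancel, commutatorElement_one_right] at h1
        rw [← inv_eq_of_mul_eq_one_right h1.symm]
        exact inv_mem (hc a) }
  have hR : ∀ c : P, c ∈ R ↔ ∀ a : P, ⁅a, c⁆ ∈ U := fun c => Iff.rfl
  refine ⟨R, hR, ?_⟩
  -- an element of V outside U
  obtain ⟨w, hwV, hwU⟩ : ∃ w ∈ V, w ∉ U := by
    by_contra hcon
    push Not at hcon
    have h1 : U = V := le_antisymm hUV hcon
    rw [h1] at hidx
    have : 0 < Nat.card V := Nat.card_pos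
    omega
  have hs1 : sgn U 1 = 1 := sgn_of_mem (one_mem _)
  have hsumV : ∑ v : V, sgn U (v : P) = 0 :=
    sum_zero (fun v : V => sgn U (v : P)) ⟨w, hwV⟩ (sgn_of_not_mem hwU)
      fun x => sgn_mul hUV hidx hwV x.2
  set s : ℤ := ∑ p : P, sgn U (p ^ 2) with hs
  have hs_eq : s = (Nat.card V : ℤ) - F := by
    have h1 : ∀ p : P, sgn U (p ^ 2) = ∑ v : V, if p ^ 2 = (v : P) then sgn U (v : P) else 0 := by
      intro p
      rw [Finset.sum_eq_single (⟨p ^ 2, hsq p⟩ : V)]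
      · simp
      · intro v _ hv
        rw [if_neg]
        intro h
        exact hv (Subtype.ext h.symm)
      · intro h; exact absurd (Finset.mem_univ _) h
    have h2 : ∀ v : V, (∑ p : P, if p ^ 2 = (v : P) then sgn U (v : P) else 0)
        = F * sgn U (v : P) + if v = 1 then ((Nat.card V : ℤ) - F) else 0 := by
      intro v
      rw [← Finset.sum_filter, Finset.sum_const, nsmul_eq_mul]
      by_cases hv : v = 1
      · rw [if_pos hv, hv]
        have h3 : (Finset.univ.filter fun p : P => p ^ 2 = ((1 : V) : P)).card = Nat.card V := by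
          rw [Nat.card_eq_fintype_card, ← Fintype.card_subtype]
          apply Fintype.card_congr
          exact Equiv.subtypeEquivRight fun p => (hV p).symm
        rw [h3, Subgroup.coe_one, hs1]; ring
      · rw [if_neg hv]
        have h3 := hF v v.2 (fun h => hv (Subtype.ext h))
        rw [Nat.card_eq_fintype_card, Fintype.card_subtype] at h3
        rw [h3]; ring
    rw [hs, Finset.sum_congr rfl fun p _ => h1 p, Finset.sum_comm,
      Finset.sum_congr rfl fun v _ => h2 v, Finset.sum_add_distrib, ← Finset.mul_sum, hsumV,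
      Finset.sum_ite_eq' Finset.univ (1 : V)]
    simp
  have hinner : ∀ c : P, ∑ a : P, sgn U ⁅a, c⁆ = if c ∈ R then (Nat.card P : ℤ) else 0 := by
    intro c
    by_cases hc : c ∈ R
    · rw [if_pos hc, Finset.sum_congr rfl fun a _ => sgn_of_mem (hc a)]
      simp
    · rw [if_neg hc]
      rw [hR] at hc
      push Not at hc
      obtain ⟨a₀, ha₀⟩ := hc
      exact sum_zero (fun a : P => sgn U ⁅a, c⁆) a₀ (sgn_of_not_mem ha₀) fun x => by
        rw [hcmul, sgn_mul hUV hidx (hcV _ _) (hcV _ _)]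
  have hsR : (∑ c : R, sgn U ((c : P) ^ 2)) = 0 ∨ (∑ c : R, sgn U ((c : P) ^ 2)) = Nat.card R := by
    by_cases h : ∀ c : R, sgn U ((c : P) ^ 2) = 1
    · right
      rw [Finset.sum_congr rfl fun c _ => h c]
      simp
    · left
      push Not at h
      obtain ⟨c₀, hc₀⟩ := h
      have h1 : sgn U ((c₀ : P) ^ 2) = -1 := by
        unfold sgn at hc₀ ⊢
        split_ifs at hc₀ ⊢ with h2
        · exact absurd rfl hc₀
        · rfl
      refine sum_zero (fun c : R => sgn U ((c : P) ^ 2)) c₀ h1 ?_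
      intro x
      change sgn U (((c₀ : P) * x) ^ 2) = _
      rw [hsqm, sgn_mul hUV hidx (mul_mem (hsq _) (hsq _)) (hcV _ _),
        sgn_mul hUV hidx (hsq _) (hsq _), sgn_of_mem (c₀.2 (x : P)), mul_one]
  have hss : s ^ 2 = Nat.card P * ∑ c : R, sgn U ((c : P) ^ 2) := by
    have h1 : s ^ 2 = ∑ a : P, ∑ c : P, sgn U ⁅a, c⁆ * sgn U (c ^ 2) := by
      rw [pow_two, hs, Finset.sum_mul]
      apply Finset.sum_congr rfl
      intro a _
      rw [Finset.mul_sum, ← Equiv.sum_comp (Equiv.mulLeft a⁻¹)]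
      apply Finset.sum_congr rfl
      intro c _
      rw [Equiv.coe_mulLeft, ← sgn_mul hUV hidx (hsq _) (hsq _), hcid,
        sgn_mul hUV hidx (hcV _ _) (hsq _)]
    rw [h1, Finset.sum_comm]
    have h2 : ∀ c : P, ∑ a : P, sgn U ⁅a, c⁆ * sgn U (c ^ 2)
        = if c ∈ R then (Nat.card P : ℤ) * sgn U (c ^ 2) else 0 := by
      intro c
      rw [← Finset.sum_mul, hinner]
      split_ifs <;> simp
    rw [Finset.sum_congr rfl fun c _ => h2 c, ← Finset.sum_filter, ← Finset.mul_sum]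
    congr 1
    rw [Finset.sum_subtype (p := fun c => c ∈ R) (Finset.univ.filter fun c => c ∈ R)
      (fun x => by simp) (fun c : P => sgn U (c ^ 2))]
  rw [← hs_eq]
  rcases hsR with h | h
  · left; rw [hss, h, mul_zero]
  · right; rw [hss, h]

theorem two_pow_uniq {a b c d : ℕ} (hb : 0 < b) (hd : 0 < d)
    (h : 2 ^ a * (2 ^ b + 1) = 2 ^ c * (2 ^ d + 1)) : a = c ∧ b = d := by
  have hodd : ∀ e : ℕ, 0 < e → Odd (2 ^ e + 1) := fun e he =>
    Even.add_one ((Nat.even_pow' he.ne').2 even_two)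
  have key : ∀ a b c d : ℕ, 0 < b → 2 ^ a * (2 ^ b + 1) = 2 ^ c * (2 ^ d + 1) → c ≤ a := by
    intro a b c d hb h
    by_contra hac
    push Not at hac
    obtain ⟨k, rfl⟩ := Nat.exists_eq_add_of_lt hac
    have h1 : 2 ^ b + 1 = 2 ^ (k + 1) * (2 ^ d + 1) := by
      apply Nat.eq_of_mul_eq_mul_left (pow_pos (two_pos) a)
      rw [h, show a + k + 1 = a + (k + 1) by ring, pow_add]; ring
    have h2 := hodd b hb
    rw [h1, pow_succ] at h2
    exact (Nat.not_even_iff_odd.2 h2) ⟨2 ^ k * (2 ^ d + 1), by ring⟩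
  have hac : a = c := le_antisymm (key c d a b hd h.symm) (key a b c d hb h)
  refine ⟨hac, ?_⟩
  subst hac
  have h1 := Nat.eq_of_mul_eq_mul_left (pow_pos (two_pos) a) h
  exact Nat.pow_right_injective le_rfl (by simpa using h1)

theorem nt {n m ρ F : ℕ} (hn : 0 < n) (hm : 0 < m) (h1 : (2 ^ n - 1) * F + 2 ^ n = 2 ^ (n + m))
    (hF : F ≠ 2 ^ n) (h2 : ((2 ^ n : ℕ) - (F : ℤ)) ^ 2 = 2 ^ (n + m) * 2 ^ ρ) :
    m = 2 * n ∧ ρ = n := by
  have hq : 1 < 2 ^ n := Nat.one_lt_two_pow hn.ne'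
  have hcop : Nat.Coprime (2 ^ n) (2 ^ n - 1) := by
    rw [Nat.coprime_comm]
    exact (Nat.coprime_self_sub_left hq.le).2 (Nat.coprime_one_left _)
  have hdvd : 2 ^ n ∣ F := by
    apply hcop.dvd_of_dvd_mul_left
    have h3 : 2 ^ n ∣ (2 ^ n - 1) * F + 2 ^ n := by rw [h1, pow_add]; exact Dvd.intro _ rfl
    exact (Nat.dvd_add_left (dvd_refl _)).1 h3
  obtain ⟨f, rfl⟩ := hdvd
  have h3 : (2 ^ n - 1) * f + 1 = 2 ^ m := by
    apply Nat.eq_of_mul_eq_mul_left (pow_pos two_pos n)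
    rw [← pow_add, ← h1]; ring
  have hf1 : f ≠ 1 := by
    rintro rfl
    exact hF (mul_one _)
  have hf0 : f ≠ 0 := by
    rintro rfl
    rw [mul_zero, zero_add] at h3
    have := Nat.one_lt_two_pow hm.ne'
    omega
  obtain ⟨g, rfl⟩ : ∃ g, f = g + 1 := ⟨f - 1, by omega⟩
  have hg0 : g ≠ 0 := by omega
  have h4 : (2 ^ n) ^ 2 * g ^ 2 = 2 ^ (n + m) * 2 ^ ρ := by
    have h5 : (((2 ^ n) ^ 2 * g ^ 2 : ℕ) : ℤ) = ((2 ^ (n + m) * 2 ^ ρ : ℕ) : ℤ) := by
      push_cast
      rw [← h2]; push_cast; ring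
    exact_mod_cast h5
  have h5 : g ∣ 2 ^ (n + m + ρ) := by
    rw [pow_add, ← h4]
    exact Dvd.intro_left ((2 ^ n) ^ 2 * g) (by ring)
  obtain ⟨j, -, rfl⟩ := (Nat.dvd_prime_pow Nat.prime_two).1 h5
  have h6 : 2 ^ (n + j) + 2 ^ n = 2 ^ m + 2 ^ j := by
    obtain ⟨q, hq'⟩ : ∃ q, 2 ^ n = q + 1 := ⟨2 ^ n - 1, by omega⟩
    rw [hq'] at h3
    rw [pow_add, hq', ← h3]
    simp only [Nat.add_sub_cancel]
    ring
  have h7 : 2 * n + 2 * j = n + m + ρ := by
    apply Nat.pow_right_injective (le_refl 2)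
    change 2 ^ (2 * n + 2 * j) = 2 ^ (n + m + ρ)
    rw [pow_add (a := 2) (n + m) ρ, ← h4]; ring
  have hj : 0 < j := by
    rcases Nat.eq_zero_or_pos j with rfl | h
    · exfalso
      obtain ⟨n', rfl⟩ : ∃ n', n = n' + 1 := ⟨n - 1, by omega⟩
      obtain ⟨m', rfl⟩ : ∃ m', m = m' + 1 := ⟨m - 1, by omega⟩
      rw [Nat.add_zero, pow_succ, pow_succ, pow_zero] at h6
      omega
    · exact h
  rcases lt_trichotomy m j with h | h | h
  · exfalso
    obtain ⟨k, rfl⟩ := Nat.exists_eq_add_of_lt h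
    have h8 : 2 ^ n * (2 ^ (m + k + 1) + 1) = 2 ^ m * (2 ^ (k + 1) + 1) := by
      rw [pow_add 2 n, show 2 ^ (m + k + 1) = 2 ^ m * 2 ^ (k + 1) by rw [← pow_add]; rfl] at h6
      rw [show 2 ^ (m + k + 1) = 2 ^ m * 2 ^ (k + 1) by rw [← pow_add]; rfl]
      linarith
    have := two_pow_uniq (by omega) (by omega) h8
    omega
  · exfalso
    subst h
    have h8 : 2 ^ n * (2 ^ m + 1) = 2 ^ (m + 1) * 1 := by
      rw [pow_add 2 n] at h6
      rw [pow_succ]; linarith
    have h9 : (2 ^ m + 1) ∣ 2 ^ (m + 1) := by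
      rw [mul_one] at h8
      exact ⟨2 ^ n, by rw [← h8]; ring⟩
    obtain ⟨i, -, hi⟩ := (Nat.dvd_prime_pow Nat.prime_two).1 h9
    have h10 : Odd (2 ^ m + 1) := Even.add_one ((Nat.even_pow' hj.ne').2 even_two)
    rw [hi] at h10
    rcases Nat.eq_zero_or_pos i with rfl | h11
    · have := Nat.one_lt_two_pow hj.ne'
      rw [pow_zero] at hi; omega
    · exact (Nat.not_even_iff_odd.2 h10) ((Nat.even_pow' h11.ne').2 even_two)
  · obtain ⟨k, rfl⟩ := Nat.exists_eq_add_of_lt h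
    have h8 : 2 ^ n * (2 ^ j + 1) = 2 ^ j * (2 ^ (k + 1) + 1) := by
      rw [pow_add 2 n, show 2 ^ (j + k + 1) = 2 ^ j * 2 ^ (k + 1) by rw [← pow_add]; rfl] at h6
      linarith
    have := two_pow_uniq (by omega) (by omega) h8
    omega

/-- a special 2-group with equal non-trivial fibres of the squaring map has order `|V|³` and all
commutator maps `a ↦ ⁅a, c⁆` (`c ∉ V`) are onto `V`. -/
theorem cube {V : Subgroup P} (hP : IsPGroup 2 P)
    (hVc : ∀ v ∈ V, ∀ p, v * p = p * v) (hV : ∀ g, g ∈ V ↔ g ^ 2 = 1) (hsq : ∀ p, p ^ 2 ∈ V)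
    (hV1 : V ≠ ⊥) (hVt : V ≠ ⊤)
    {F : ℕ} (hF : ∀ v ∈ V, v ≠ 1 → Nat.card {p : P // p ^ 2 = v} = F) (hFV : F ≠ Nat.card V) :
    Nat.card P = Nat.card V ^ 3 ∧ ∀ c : P, c ∉ V → ∀ v ∈ V, ∃ a : P, ⁅a, c⁆ = v := by
  have hVp : IsPGroup 2 V := hP.to_subgroup V
  obtain ⟨n, hn⟩ := IsPGroup.iff_card.1 hVp
  obtain ⟨N, hN⟩ := IsPGroup.iff_card.1 hP
  have hn0 : 0 < n := by
    rcases Nat.eq_zero_or_pos n with rfl | h
    · exact absurd (Subgroup.eq_bot_of_card_eq _ (by rw [hn, pow_zero])) hV1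
    · exact h
  have hnN : n < N := by
    by_contra h
    push Not at h
    apply hVt
    apply Subgroup.eq_top_of_le_card
    rw [hn, hN]
    exact Nat.pow_le_pow_right two_pos h
  obtain ⟨m, rfl⟩ := Nat.exists_eq_add_of_lt hnN
  -- count of elements
  have hcount : (2 ^ n - 1) * F + 2 ^ n = 2 ^ (n + (m + 1)) := by
    have h1 : Nat.card P = ∑ v : V, Nat.card {p : P // p ^ 2 = (v : P)} := by
      have h2 : ∀ p : P, (1 : ℕ) = ∑ v : V, if p ^ 2 = (v : P) then 1 else 0 := by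
        intro p
        rw [Finset.sum_eq_single (⟨p ^ 2, hsq p⟩ : V)]
        · simp
        · intro v _ hv
          rw [if_neg]
          intro h
          exact hv (Subtype.ext h.symm)
        · intro h; exact absurd (Finset.mem_univ _) h
      rw [Nat.card_eq_fintype_card, ← Finset.card_univ, Finset.card_eq_sum_ones,
        Finset.sum_congr rfl fun p _ => h2 p, Finset.sum_comm]
      apply Finset.sum_congr rfl
      intro v _
      rw [← Finset.sum_filter, ← Finset.card_eq_sum_ones, Nat.card_eq_fintype_card,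
        Fintype.card_subtype]
    have h2 : ∀ v : V, Nat.card {p : P // p ^ 2 = (v : P)} = if v = 1 then Nat.card V else F := by
      intro v
      by_cases hv : v = 1
      · rw [if_pos hv, hv]
        apply Nat.card_congr
        exact Equiv.subtypeEquivRight fun p => (hV p).symm
      · rw [if_neg hv]
        exact hF v v.2 (fun h => hv (Subtype.ext h))
    rw [Finset.sum_congr rfl fun v _ => h2 v, ← Finset.add_sum_erase _ _ (Finset.mem_univ (1 : V)),
      if_pos rfl, Finset.sum_congr rfl (g := fun _ => F) (by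
        intro v hv
        rw [if_neg (Finset.ne_of_mem_erase hv)]), Finset.sum_const, smul_eq_mul,
      Finset.card_erase_of_mem (Finset.mem_univ _), Finset.card_univ, ← Nat.card_eq_fintype_card,
      hn, hN] at h1
    rw [← Nat.add_assoc, h1]; ring
  have hkey : ∀ U : Subgroup P, U ≤ V → 2 * Nat.card U = Nat.card V →
      m + 1 = 2 * n ∧ ∀ c : P, (∀ a : P, ⁅a, c⁆ ∈ U) → c ∈ V := by
    intro U hUV hUi
    obtain ⟨R, hR, h | h⟩ := count_aux hUV hUi hVc hV hsq hF
    · exfalso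
      apply hFV
      have h2 : (Nat.card V : ℤ) - F = 0 := by simpa using h
      have h3 : (F : ℤ) = Nat.card V := by linarith
      exact_mod_cast h3
    · obtain ⟨ρ, hρ⟩ := IsPGroup.iff_card.1 (hP.to_subgroup R)
      rw [hn, hN, hρ] at h
      have h2 := nt (n := n) (m := m + 1) (ρ := ρ) (F := F) hn0 (Nat.succ_pos m) hcount
        (by rw [← hn]; exact hFV) (by rw [h]; push_cast; ring)
      refine ⟨h2.1, ?_⟩
      have hVR : V ≤ R := by
        intro v hv
        rw [hR]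
        intro a
        rw [commutatorElement_eq_one_iff_mul_comm.2 (hVc v hv a).symm]
        exact one_mem _
      have h3 : V = R := Subgroup.eq_of_le_of_card_ge hVR (by rw [hρ, hn, h2.2])
      intro c hc
      rw [h3, hR]
      exact hc
  have hex : ∀ W : Subgroup P, W ≤ V → W ≠ V → ∃ U : Subgroup P, W ≤ U ∧ U ≤ V ∧
      2 * Nat.card U = Nat.card V := by
    intro W hWV hW
    have hWp : IsPGroup 2 (W.subgroupOf V) := hVp.to_subgroup _
    obtain ⟨w, hw⟩ := IsPGroup.iff_card.1 hWp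
    have hwn : w ≤ n - 1 := by
      by_contra h
      push Not at h
      apply hW
      apply Subgroup.eq_of_le_of_card_ge hWV
      have h2 : Nat.card W = 2 ^ w := by
        rw [← hw]
        exact Nat.card_congr (Subgroup.subgroupOfEquivOfLe hWV).symm.toEquiv
      rw [h2, hn]
      exact Nat.pow_le_pow_right two_pos (by omega)
    obtain ⟨K, hK, hWK⟩ := Sylow.exists_subgroup_card_pow_prime_le (G := V) 2 (n := w) (m := n - 1)
      (by rw [hn]; exact pow_dvd_pow 2 (Nat.sub_le n 1)) (W.subgroupOf V) hw hwn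
    refine ⟨K.map V.subtype, ?_, map_subtype_le K, ?_⟩
    · intro x hx
      exact ⟨⟨x, hWV hx⟩, hWK (mem_subgroupOf.2 hx), rfl⟩
    · rw [← Nat.card_congr (K.equivMapOfInjective _ V.subtype_injective).toEquiv, hK, hn,
        ← pow_succ']
      congr 1; omega
  refine ⟨?_, ?_⟩
  · obtain ⟨U, -, hUV, hU2⟩ := hex ⊥ bot_le hV1.symm
    have h1 := (hkey U hUV hU2).1
    rw [hN, hn, ← pow_mul]
    congr 1; omega
  · intro c hc v hv
    have hcid : ∀ a c : P, a ^ 2 * (a⁻¹ * c) ^ 2 = ⁅a, c⁆ * c ^ 2 := by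
      intro a c
      rw [commutatorElement_def, pow_two, pow_two, pow_two]; group
    have hcV : ∀ a c : P, ⁅a, c⁆ ∈ V := by
      intro a c
      have h1 : ⁅a, c⁆ = a ^ 2 * (a⁻¹ * c) ^ 2 * (c ^ 2)⁻¹ := by rw [hcid]; group
      rw [h1]
      exact mul_mem (mul_mem (hsq _) (hsq _)) (inv_mem (hsq _))
    have hcmul : ∀ a b : P, ⁅a * b, c⁆ = ⁅a, c⁆ * ⁅b, c⁆ := by
      intro a b
      have h1 : ⁅a * b, c⁆ = a * ⁅b, c⁆ * a⁻¹ * ⁅a, c⁆ := by
        simp only [commutatorElement_def]; group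
      rw [h1, ← hVc _ (hcV b c) a, mul_inv_cancel_right, hVc _ (hcV b c)]
    let f : P →* P := MonoidHom.mk' (fun a => ⁅a, c⁆) hcmul
    by_contra hcon
    push Not at hcon
    obtain ⟨U, hWU, hUV, hU2⟩ := hex f.range (by rintro _ ⟨a, rfl⟩; exact hcV a c) (by
      intro h
      rw [← h] at hv
      obtain ⟨a, ha⟩ := hv
      exact hcon a ha)
    exact hc ((hkey U hUV hU2).2 c fun a => hWU ⟨a, rfl⟩)

end Cfsg.Agent.Lib.ThInv2
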