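import Cfsg.Agent.Lib.ThInv2
import Cfsg.Agent.Lib.CoprimeAction

/-!
Thompson's theorem on solvable groups with one class of involutions (helper59), part 3:
the Sylow subgroup is `O₂(G)`.
-/

set_option autoImplicit false

namespace Cfsg.Agent.Lib.ThInv3

open Subgroup Cfsg.Agent.Lib.CoprimeAction
open scoped commutatorElement

universe u

variable {G : Type u} [Group G] [Finite G]

structure Cfg (P V S B : Subgroup G) : Prop where
  Pn : P.Normal
  VP : V ≤ P
  PS : P ≤ S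
  S2 : IsPGroup 2 S
  memV : ∀ g : G, g ∈ V ↔ g ^ 2 = 1
  VS : ∀ v ∈ V, ∀ s ∈ S, v * s = s * v
  sq : ∀ p ∈ P, p ^ 2 ∈ V
  faith : ∀ x ∈ S, (∀ p ∈ P, ⁅p, x⁆ ∈ V) → x ∈ P
  BS : B ≤ normalizer (S : Set G)
  Bodd : Odd (Nat.card B)
  tr : ∀ v ∈ V, ∀ w ∈ V, v ≠ 1 → w ≠ 1 → ∃ b ∈ B, b * v * b⁻¹ = w
  two : ∃ v ∈ V, ∃ w ∈ V, v ≠ 1 ∧ w ≠ 1 ∧ v ≠ w
  cube : Nat.card P = Nat.card V ^ 3
  nd : ∀ c ∈ P, c ∉ V → ∀ v ∈ V, ∃ a ∈ P, ⁅a, c⁆ = v

variable {P V S B : Subgroup G}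

theorem Cfg.Vn (h : Cfg P V S B) : V.Normal := ⟨fun v hv g => by
  rw [h.memV] at hv ⊢
  rw [conj_pow, hv]; group⟩

theorem Cfg.vsq (h : Cfg P V S B) {v : G} (hv : v ∈ V) : v * v = 1 := by
  rw [← pow_two]; exact (h.memV v).1 hv

theorem Cfg.VPc (h : Cfg P V S B) {v p : G} (hv : v ∈ V) (hp : p ∈ P) : v * p = p * v :=
  h.VS v hv p (h.PS hp)

theorem Cfg.c_mem (h : Cfg P V S B) {a c : G} (ha : a ∈ P) (hc : c ∈ P) : ⁅a, c⁆ ∈ V := by
  have h1 : ⁅a, c⁆ = a ^ 2 * (a⁻¹ * c) ^ 2 * (c ^ 2)⁻¹ := by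
    rw [commutatorElement_def, pow_two, pow_two, pow_two]; group
  rw [h1]
  exact mul_mem (mul_mem (h.sq _ ha) (h.sq _ (mul_mem (inv_mem ha) hc))) (inv_mem (h.sq _ hc))

theorem Cfg.c_mul_left (h : Cfg P V S B) {a b c : G} (ha : a ∈ P) (hb : b ∈ P) (hc : c ∈ P) :
    ⁅a * b, c⁆ = ⁅a, c⁆ * ⁅b, c⁆ := by
  have h1 : ⁅a * b, c⁆ = a * ⁅b, c⁆ * a⁻¹ * ⁅a, c⁆ := by
    simp only [commutatorElement_def]; group
  rw [h1, ← h.VPc (h.c_mem hb hc) ha, mul_inv_cancel_right,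
    h.VPc (h.c_mem hb hc) (h.VP (h.c_mem ha hc))]

theorem Cfg.c_symm (h : Cfg P V S B) {a c : G} (ha : a ∈ P) (hc : c ∈ P) : ⁅a, c⁆ = ⁅c, a⁆ := by
  rw [← commutatorElement_inv a c]
  exact eq_inv_of_mul_eq_one_left (h.vsq (h.c_mem ha hc))

theorem Cfg.c_mul_right (h : Cfg P V S B) {a b c : G} (ha : a ∈ P) (hb : b ∈ P) (hc : c ∈ P) :
    ⁅c, a * b⁆ = ⁅c, a⁆ * ⁅c, b⁆ := by
  rw [h.c_symm hc (mul_mem ha hb), h.c_mul_left ha hb hc, h.c_symm ha hc, h.c_symm hb hc]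

theorem Cfg.c_V (h : Cfg P V S B) {v c : G} (hv : v ∈ V) (hc : c ∈ P) : ⁅v, c⁆ = 1 :=
  commutatorElement_eq_one_iff_mul_comm.2 (h.VPc hv hc)

/-- counting with the squaring map. -/
theorem Cfg.card_of_inv (h : Cfg P V S B) {E : Subgroup G} (hVE : V ≤ E) (hEP : E ≤ P)
    (hBE : B ≤ normalizer (E : Set G)) :
    Nat.card E = Nat.card V ∨ Nat.card E = Nat.card V ^ 2 ∨ Nat.card E = Nat.card V ^ 3 := by
  classical
  have hfin : Fintype E := Fintype.ofFinite E
  obtain ⟨v₀, hv₀, -, -, hv₀1, -, -⟩ := h.two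
  set V' : Subgroup E := V.subgroupOf E with hV'
  have hV'm : ∀ p : E, p ∈ V' ↔ p ^ 2 = 1 := fun p => by
    rw [hV', mem_subgroupOf, h.memV, ← Subgroup.coe_pow, OneMemClass.coe_eq_one]
  have hcV' : Nat.card V' = Nat.card V := Nat.card_congr (Subgroup.subgroupOfEquivOfLe hVE).toEquiv
  set F := Nat.card {p : E // p ^ 2 = ⟨v₀, hVE hv₀⟩} with hF
  have hF' : ∀ v ∈ V', v ≠ 1 → Nat.card {p : E // p ^ 2 = v} = F := by
    rintro ⟨v, hvE⟩ hv hv1
    obtain ⟨b, hb, hbv⟩ := h.tr v hv v₀ hv₀ (fun h => hv1 (Subtype.ext h)) hv₀1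
    apply Nat.card_congr
    have hbE := mem_normalizer_iff.1 (hBE hb)
    refine ⟨fun p => ⟨⟨b * p * b⁻¹, (hbE _).1 p.1.2⟩, ?_⟩,
      fun p => ⟨⟨b⁻¹ * p * b, ?_⟩, ?_⟩, ?_, ?_⟩
    · apply Subtype.ext
      have h1 : ((p : E) : G) ^ 2 = v := congrArg Subtype.val p.2
      change (b * (p : E) * b⁻¹ : G) ^ 2 = v₀
      rw [conj_pow, h1, hbv]
    · rw [hbE]
      have : b * (b⁻¹ * ((p : E) : G) * b) * b⁻¹ = p := by group
      rw [this]; exact p.1.2
    · apply Subtype.ext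
      have h1 : ((p : E) : G) ^ 2 = v₀ := congrArg Subtype.val p.2
      change (b⁻¹ * (p : E) * b : G) ^ 2 = v
      have h2 : (b⁻¹ * (p : E) * b : G) ^ 2 = b⁻¹ * ((p : E) : G) ^ 2 * b := by
        rw [pow_two, pow_two]; group
      rw [h2, h1, ← hbv]; group
    · intro p
      apply Subtype.ext; apply Subtype.ext
      change b⁻¹ * (b * ((p : E) : G) * b⁻¹) * b = _
      group
    · intro p
      apply Subtype.ext; apply Subtype.ext
      change b * (b⁻¹ * ((p : E) : G) * b) * b⁻¹ = _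
      group
  -- the count
  have hsqV : ∀ p : E, p ^ 2 ∈ V' := fun p => by
    rw [hV', mem_subgroupOf]; exact h.sq _ (hEP p.2)
  have hcount : Nat.card E = Nat.card V + (Nat.card V - 1) * F := by
    have h1 : Nat.card E = ∑ v : V', Nat.card {p : E // p ^ 2 = (v : E)} := by
      have h2 : ∀ p : E, (1 : ℕ) = ∑ v : V', if p ^ 2 = (v : E) then 1 else 0 := by
        intro p
        rw [Finset.sum_eq_single (⟨p ^ 2, hsqV p⟩ : V')]
        · simp
        · intro v _ hv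
          rw [if_neg]
          intro h
          exact hv (Subtype.ext h.symm)
        · intro h; exact absurd (Finset.mem_univ _) h
      rw [Nat.card_eq_fintype_card, ← Finset.card_univ, Finset.card_eq_sum_ones,
        Finset.sum_congr rfl fun p _ => h2 p, Finset.sum_comm]
      apply Finset.sum_congr rfl
      intro v _
      rw [← Finset.sum_filter, ← Finset.card_eq_sum_ones, Nat.card_eq_fintype_card,
        Fintype.card_subtype]
    have h2 : ∀ v : V', Nat.card {p : E // p ^ 2 = (v : E)} = if v = 1 then Nat.card V else F := by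
      intro v
      by_cases hv : v = 1
      · rw [if_pos hv, hv, ← hcV']
        apply Nat.card_congr
        exact Equiv.subtypeEquivRight fun p => (hV'm p).symm
      · rw [if_neg hv]
        exact hF' v v.2 (fun h => hv (Subtype.ext h))
    rw [h1, Finset.sum_congr rfl fun v _ => h2 v,
      ← Finset.add_sum_erase _ _ (Finset.mem_univ (1 : V')),
      if_pos rfl, Finset.sum_congr rfl (g := fun _ => F) (by
        intro v hv
        rw [if_neg (Finset.ne_of_mem_erase hv)]), Finset.sum_const, smul_eq_mul,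
      Finset.card_erase_of_mem (Finset.mem_univ _), Finset.card_univ, ← Nat.card_eq_fintype_card,
      hcV']
  obtain ⟨n, hn⟩ := IsPGroup.iff_card.1 (h.S2.to_le (h.VP.trans h.PS))
  obtain ⟨N, hN⟩ := IsPGroup.iff_card.1 (h.S2.to_le (hEP.trans h.PS))
  have hn0 : n ≠ 0 := by
    rintro rfl
    rw [pow_zero] at hn
    have := Subgroup.eq_bot_of_card_eq _ hn
    rw [this, mem_bot] at hv₀
    exact hv₀1 hv₀
  have hnN : n ≤ N := by
    have h1 : Nat.card V ≤ Nat.card E := Subgroup.card_le_of_le hVE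
    rw [hn, hN] at h1
    exact (Nat.pow_le_pow_iff_right (by norm_num)).1 h1
  obtain ⟨m, rfl⟩ := Nat.exists_eq_add_of_le hnN
  have hm2 : n + m ≤ 3 * n := by
    have h1 : Nat.card E ≤ Nat.card P := Subgroup.card_le_of_le hEP
    rw [h.cube, hn, hN, ← pow_mul, mul_comm n 3] at h1
    exact (Nat.pow_le_pow_iff_right (by norm_num)).1 h1
  rw [hN, hn] at hcount
  have hdvd : 2 ^ n - 1 ∣ 2 ^ m - 1 := by
    have hq : 1 < 2 ^ n := Nat.one_lt_two_pow hn0
    have hcop : Nat.Coprime (2 ^ n - 1) (2 ^ n) :=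
      (Nat.coprime_self_sub_left hq.le).2 (Nat.coprime_one_left _)
    apply hcop.dvd_of_dvd_mul_left
    rw [Nat.mul_sub, mul_one, ← pow_add, hcount]
    exact ⟨F, by omega⟩
  have hnm : n ∣ m := by
    have h1 := Nat.pow_sub_one_gcd_pow_sub_one 2 n m
    rw [Nat.gcd_eq_left hdvd] at h1
    have h2 : n = Nat.gcd n m := by
      have h3 : 2 ^ n = 2 ^ Nat.gcd n m := by
        have h4 : 0 < 2 ^ n := pow_pos two_pos n
        have h5 : 0 < 2 ^ Nat.gcd n m := pow_pos two_pos _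
        omega
      exact Nat.pow_right_injective le_rfl h3
    rw [h2]
    exact Nat.gcd_dvd_right n m
  obtain ⟨k, rfl⟩ := hnm
  have hk : k ≤ 2 := by
    have : n * k ≤ n * 2 := by nlinarith
    exact Nat.le_of_mul_le_mul_left this (Nat.pos_of_ne_zero hn0)
  rw [hN, hn]
  interval_cases k
  · left; rw [mul_zero, add_zero]
  · right; left; rw [← pow_mul]; congr 1; ring
  · right; right; rw [← pow_mul]; congr 1; ring

/-- fixed points modulo `V`. -/
theorem exists_fixed_mod {S V E : Subgroup G} (hS : IsPGroup 2 S) (hES : E ≤ S)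
    (hSE : S ≤ normalizer (E : Set G)) (hEV : ¬ E ≤ V) :
    ∃ a ∈ E, a ∉ V ∧ ∀ x ∈ S, ⁅a, x⁆ ∈ V := by
  classical
  let f : ℕ → Subgroup G := fun n => Nat.rec E (fun _ X => ⁅X, S⁆) n
  have hf0 : f 0 = E := rfl
  have hfs : ∀ n, f (n + 1) = ⁅f n, S⁆ := fun n => rfl
  have hfE : ∀ n, f n ≤ E := by
    intro n
    induction n with
    | zero => exact le_rfl
    | succ n ih =>
      rw [hfs]
      exact (commutator_mono ih le_rfl).trans (le_normalizer_iff_commutator_le_left.1 hSE)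
  have hfl : ∀ n, f n ≤ S.lowerCentralSeries n := by
    intro n
    induction n with
    | zero => exact hES
    | succ n ih =>
      rw [hfs, Subgroup.lowerCentralSeries_succ]
      exact commutator_mono ih le_rfl
  have hnil : Group.IsNilpotent S := hS.isNilpotent
  obtain ⟨m, hm⟩ := (isNilpotent_iff_lowerCentralSeries S).mp hnil
  have hex : ∃ n, f n ≤ V := ⟨m, (hfl m).trans (hm.le.trans bot_le)⟩
  obtain ⟨n, h1, hmin⟩ : ∃ n, f n ≤ V ∧ ∀ j < n, ¬ f j ≤ V := by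
    obtain ⟨n, hn, hmin⟩ := wellFounded_lt.has_min {n | f n ≤ V} hex
    exact ⟨n, hn, fun j hj hf => hmin j hf hj⟩
  have hn0 : n ≠ 0 := by
    intro h0
    rw [h0, hf0] at h1
    exact hEV h1
  obtain ⟨j, hj⟩ := Nat.exists_eq_succ_of_ne_zero hn0
  have h2 : ¬ f j ≤ V := hmin j (by omega)
  obtain ⟨a, ha, haV⟩ := SetLike.not_le_iff_exists.1 h2
  refine ⟨a, hfE j ha, haV, ?_⟩
  intro x hx
  rw [hj] at h1
  exact h1 (commutator_mem_commutator ha hx)

/-- `δ_x(n) = n⁻¹ x n x⁻¹`. -/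
def dl (x n : G) : G := n⁻¹ * (x * n * x⁻¹)

theorem Cfg.sylow_le (h : Cfg P V S B) : S ≤ P := by
  classical
  by_contra hSP
  obtain ⟨x₀, hx₀S, hx₀P⟩ := SetLike.not_le_iff_exists.1 hSP
  have hVn := h.Vn
  have hPn := h.Pn
  have hq1 : 1 < Nat.card V := by
    rw [Subgroup.one_lt_card_iff_ne_bot]
    obtain ⟨v₀, hv₀, -, -, hv₀1, -, -⟩ := h.two
    intro h0
    rw [h0, mem_bot] at hv₀
    exact hv₀1 hv₀
  have hq0 : 0 < Nat.card V := by omega
  have hlt1 : Nat.card V < Nat.card V ^ 2 := by nlinarith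
  have hlt2 : Nat.card V ^ 2 < Nat.card V ^ 3 := by
    rw [pow_succ (Nat.card V) 2]
    have : 0 < Nat.card V ^ 2 := by positivity
    nlinarith
  -- D₀
  let D : Subgroup G :=
    { carrier := {a | a ∈ P ∧ ∀ x ∈ S, ⁅a, x⁆ ∈ V}
      one_mem' := ⟨one_mem _, fun x _ => by
        rw [commutatorElement_one_left]; exact one_mem _⟩
      mul_mem' := by
        rintro a b ⟨ha, ha'⟩ ⟨hb, hb'⟩
        refine ⟨mul_mem ha hb, fun x hx => ?_⟩
        have h1 : ⁅a * b, x⁆ = a * ⁅b, x⁆ * a⁻¹ * ⁅a, x⁆ := by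
          simp only [commutatorElement_def]; group
        rw [h1]
        exact mul_mem (hVn.conj_mem _ (hb' x hx) a) (ha' x hx)
      inv_mem' := by
        rintro a ⟨ha, ha'⟩
        refine ⟨inv_mem ha, fun x hx => ?_⟩
        have h1 : ⁅a⁻¹, x⁆ = a⁻¹ * ⁅a, x⁆⁻¹ * a⁻¹⁻¹ := by
          simp only [commutatorElement_def]; group
        rw [h1]
        exact hVn.conj_mem _ (inv_mem (ha' x hx)) _ }
  have hDm : ∀ a, a ∈ D ↔ a ∈ P ∧ ∀ x ∈ S, ⁅a, x⁆ ∈ V := fun a => Iff.rfl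
  have hDP : D ≤ P := fun a ha => ha.1
  have hVD : V ≤ D := fun v hv => ⟨h.VP hv, fun x hx => by
    rw [commutatorElement_eq_one_iff_mul_comm.2 (h.VS v hv x hx)]; exact one_mem _⟩
  have hBconj : ∀ b ∈ B, ∀ x ∈ S, b * x * b⁻¹ ∈ S := fun b hb x hx =>
    (mem_normalizer_iff.1 (h.BS hb) x).1 hx
  have hBD : B ≤ normalizer (D : Set G) := by
    rw [le_normalizer_iff]
    intro b hb a ha
    refine ⟨hPn.conj_mem a ha.1 b, fun x hx => ?_⟩
    have h1 : ⁅b * a * b⁻¹, x⁆ = b * ⁅a, b⁻¹ * x * b⁆ * b⁻¹ := by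
      simp only [commutatorElement_def]; group
    rw [h1]
    apply hVn.conj_mem
    apply ha.2
    have := hBconj b⁻¹ (inv_mem hb) x hx
    rwa [inv_inv] at this
  have hSD : ∀ s ∈ S, ∀ a ∈ D, ⁅a, s⁆ ∈ V := fun s hs a ha => ha.2 s hs
  -- size of D
  obtain ⟨p₀, hp₀, hp₀x⟩ : ∃ p ∈ P, ⁅p, x₀⁆ ∉ V := by
    by_contra hcon
    push Not at hcon
    exact hx₀P (h.faith x₀ hx₀S hcon)
  have hPV : ¬ P ≤ V := by
    intro h1
    have h2 := Subgroup.card_le_of_le h1
    rw [h.cube] at h2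
    omega
  obtain ⟨a₁, ha₁P, ha₁V, ha₁⟩ := exists_fixed_mod h.S2 h.PS (by
    rw [normalizer_eq_top]; exact le_top) hPV
  have ha₁D : a₁ ∈ D := ⟨ha₁P, ha₁⟩
  have hbig : ∀ E : Subgroup G, V ≤ E → ∀ a ∈ E, a ∉ V → Nat.card V < Nat.card E := by
    intro E hVE a ha haV
    by_contra hcon
    push Not at hcon
    have := Subgroup.eq_of_le_of_card_ge hVE hcon
    rw [this] at haV
    exact haV ha
  have hcD : Nat.card D = Nat.card V ^ 2 := by
    rcases h.card_of_inv hVD hDP hBD with h1 | h1 | h1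
    · have := hbig D hVD a₁ ha₁D ha₁V
      omega
    · exact h1
    · exfalso
      have h2 : D = P := Subgroup.eq_of_le_of_card_ge hDP (by rw [h1, h.cube])
      have h3 : p₀ ∈ D := by rw [h2]; exact hp₀
      exact hp₀x (h3.2 x₀ hx₀S)
  -- E
  have hPSn : S ≤ normalizer ((⁅P, S⁆ : Subgroup G) : Set G) := by
    have h1 : S ≤ normalizer (P : Set G) := by rw [normalizer_eq_top]; exact le_top
    rw [le_normalizer_iff]
    intro s hs
    have h2 : ⁅P, S⁆ ≤ (⁅P, S⁆).comap (MulAut.conj s).toMonoidHom := by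
      rw [commutator_le]
      intro p hp t ht
      rw [mem_comap]
      change s * ⁅p, t⁆ * s⁻¹ ∈ ⁅P, S⁆
      have h3 : s * ⁅p, t⁆ * s⁻¹ = ⁅s * p * s⁻¹, s * t * s⁻¹⁆ := by
        simp only [commutatorElement_def]; group
      rw [h3]
      exact commutator_mem_commutator (hPn.conj_mem p hp s) (mul_mem (mul_mem hs ht) (inv_mem hs))
    exact fun a ha => h2 ha
  have hBPS : B ≤ normalizer ((⁅P, S⁆ : Subgroup G) : Set G) := by
    rw [le_normalizer_iff]
    intro s hs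
    have h2 : ⁅P, S⁆ ≤ (⁅P, S⁆).comap (MulAut.conj s).toMonoidHom := by
      rw [commutator_le]
      intro p hp t ht
      rw [mem_comap]
      change s * ⁅p, t⁆ * s⁻¹ ∈ ⁅P, S⁆
      have h3 : s * ⁅p, t⁆ * s⁻¹ = ⁅s * p * s⁻¹, s * t * s⁻¹⁆ := by
        simp only [commutatorElement_def]; group
      rw [h3]
      exact commutator_mem_commutator (hPn.conj_mem p hp s) (hBconj s hs t ht)
    exact fun a ha => h2 ha
  have hPSP : ⁅P, S⁆ ≤ P := commutator_le_left P S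
  have hPSV : ¬ ⁅P, S⁆ ≤ V := fun h1 => hp₀x (h1 (commutator_mem_commutator hp₀ hx₀S))
  obtain ⟨a₂, ha₂E, ha₂V, ha₂⟩ := exists_fixed_mod h.S2 (hPSP.trans h.PS) hPSn hPSV
  set E : Subgroup G := V ⊔ ⁅P, S⁆ with hE
  have hVE : V ≤ E := le_sup_left
  have hEP : E ≤ P := sup_le h.VP hPSP
  have hBE : B ≤ normalizer (E : Set G) := by
    rw [le_normalizer_iff]
    intro b hb
    have h2 : E ≤ E.comap (MulAut.conj b).toMonoidHom := by
      refine sup_le ?_ ?_
      · intro v hv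
        exact hVE (hVn.conj_mem v hv b)
      · intro v hv
        exact mem_sup_right ((mem_normalizer_iff.1 (hBPS hb) v).1 hv)
    exact fun a ha => h2 ha
  have hBDE : B ≤ normalizer ((D ⊓ E : Subgroup G) : Set G) := by
    rw [le_normalizer_iff]
    intro b hb a ha
    exact mem_inf.2 ⟨(mem_normalizer_iff.1 (hBD hb) a).1 (mem_inf.1 ha).1,
      (mem_normalizer_iff.1 (hBE hb) a).1 (mem_inf.1 ha).2⟩
  have hDE : D ≤ E := by
    have h1 : D ⊓ E = D := by
      apply Subgroup.eq_of_le_of_card_ge inf_le_left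
      rcases h.card_of_inv (le_inf hVD hVE) (inf_le_left.trans hDP) hBDE with h1 | h1 | h1
      · have := hbig (D ⊓ E) (le_inf hVD hVE) a₂
          (mem_inf.2 ⟨⟨hPSP ha₂E, ha₂⟩, mem_sup_right ha₂E⟩) ha₂V
        omega
      · rw [h1, hcD]
      · rw [h1, hcD]; exact hlt2.le
    rw [← h1]; exact inf_le_right
  -- D centralizes E
  have hDcE : ∀ u ∈ D, ∀ e ∈ E, e * u = u * e := by
    intro u hu
    have hcen : E ≤ centralizer {u} := by
      refine sup_le ?_ ?_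
      · intro v hv
        rw [mem_centralizer_singleton_iff]
        exact h.VPc hv (hDP hu)
      · rw [commutator_le]
        intro a ha s hs
        rw [mem_centralizer_singleton_iff]
        -- s⁻¹ u s = u v'
        have h1 : ⁅u, s⁻¹⁆ ∈ V := hu.2 _ (inv_mem hs)
        obtain ⟨v', hv', hv'e⟩ : ∃ v' ∈ V, s⁻¹ * u * s = u * v' := by
          refine ⟨u⁻¹ * (s⁻¹ * u * s), ?_, by group⟩
          have h2 : u⁻¹ * (s⁻¹ * u * s) = u⁻¹ * (⁅u, s⁻¹⁆)⁻¹ * u := by
            rw [commutatorElement_def]; group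
          rw [h2]
          have := hVn.conj_mem _ (inv_mem h1) u⁻¹
          rwa [inv_inv] at this
        obtain ⟨c, hc, hce⟩ : ∃ c ∈ V, u * a * u⁻¹ = c * a :=
          ⟨⁅u, a⁆, h.c_mem (hDP hu) ha, by rw [commutatorElement_def]; group⟩
        have h3 : u * s = s * (u * v') := by rw [← hv'e]; group
        have hv'a : v' * a⁻¹ = a⁻¹ * v' := h.VPc hv' (inv_mem ha)
        have hcs : s * c⁻¹ = c⁻¹ * s := (h.VS _ (inv_mem hc) s hs).symm
        have h4 : u * (s * a⁻¹ * s⁻¹) * u⁻¹ = s * a⁻¹ * s⁻¹ * c⁻¹ := by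
          have h5 : u * a⁻¹ * u⁻¹ = a⁻¹ * c⁻¹ := by
            have : u * a⁻¹ * u⁻¹ = (u * a * u⁻¹)⁻¹ := by group
            rw [this, hce]; group
          calc u * (s * a⁻¹ * s⁻¹) * u⁻¹ = (u * s) * a⁻¹ * (u * s)⁻¹ := by group
            _ = s * u * (v' * a⁻¹) * v'⁻¹ * u⁻¹ * s⁻¹ := by rw [h3]; group
            _ = s * (u * a⁻¹ * u⁻¹) * s⁻¹ := by rw [hv'a]; group
            _ = s * a⁻¹ * (c⁻¹ * s⁻¹) := by rw [h5]; group
            _ = s * a⁻¹ * (s⁻¹ * c⁻¹) := by rw [h.VS _ (inv_mem hc) _ (inv_mem hs)]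
            _ = s * a⁻¹ * s⁻¹ * c⁻¹ := by group
        have hcP : ⁅a, s⁆ ∈ P := hPSP (commutator_mem_commutator ha hs)
        have h6 : u * ⁅a, s⁆ * u⁻¹ = ⁅a, s⁆ := by
          calc u * ⁅a, s⁆ * u⁻¹ = (u * a * u⁻¹) * (u * (s * a⁻¹ * s⁻¹) * u⁻¹) := by
                rw [commutatorElement_def]; group
            _ = c * (⁅a, s⁆ * c⁻¹) := by
                rw [hce, h4, commutatorElement_def]; group
            _ = c * (c⁻¹ * ⁅a, s⁆) := by rw [h.VPc (inv_mem hc) hcP]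
            _ = ⁅a, s⁆ := by group
        exact (mul_inv_eq_iff_eq_mul.1 h6).symm
    intro e he
    exact mem_centralizer_singleton_iff.1 (hcen he)
  -- centralizers of elements outside V
  have hcent : ∀ a ∈ P, a ∉ V → Nat.card (P ⊓ centralizer {a} : Subgroup G) = Nat.card V ^ 2 := by
    intro a ha haV
    let f : P →* G := MonoidHom.mk' (fun p => ⁅(p : G), a⁆) (fun p r =>
      h.c_mul_left p.2 r.2 ha)
    have hfr : f.range = V := by
      apply le_antisymm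
      · rintro _ ⟨p, rfl⟩
        exact h.c_mem p.2 ha
      · intro v hv
        obtain ⟨p, hp, hpv⟩ := h.nd a ha haV v hv
        exact ⟨⟨p, hp⟩, hpv⟩
    have hfk : f.ker.map P.subtype = P ⊓ centralizer {a} := by
      ext x
      rw [mem_inf, mem_centralizer_singleton_iff]
      constructor
      · rintro ⟨p, hp, rfl⟩
        refine ⟨p.2, ?_⟩
        have h1 : ⁅(p : G), a⁆ = 1 := hp
        exact commutatorElement_eq_one_iff_mul_comm.1 h1
      · rintro ⟨hx, hxa⟩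
        exact ⟨⟨x, hx⟩, commutatorElement_eq_one_iff_mul_comm.2 hxa, rfl⟩
    have h1 : Nat.card f.ker * f.ker.index = Nat.card P := Subgroup.card_mul_index _
    rw [Subgroup.index_ker, hfr, h.cube] at h1
    have h2 : Nat.card (P ⊓ centralizer {a} : Subgroup G) = Nat.card f.ker := by
      rw [← hfk]
      exact (Nat.card_congr (f.ker.equivMapOfInjective _ P.subtype_injective).toEquiv).symm
    rw [h2]
    apply Nat.eq_of_mul_eq_mul_right hq0
    rw [h1]; ring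
  have hEc : ∀ a ∈ D, a ∉ V → P ⊓ centralizer {a} = D ∧ E = D := by
    intro a ha haV
    have h1 : E ≤ P ⊓ centralizer {a} := by
      intro e he
      exact mem_inf.2 ⟨hEP he, mem_centralizer_singleton_iff.2 (hDcE a ha e he)⟩
    have h2 := hcent a (hDP ha) haV
    refine ⟨(Subgroup.eq_of_le_of_card_ge (hDE.trans h1) (by rw [h2, hcD])).symm,
      (Subgroup.eq_of_le_of_card_ge hDE ?_).symm⟩
    rw [hcD, ← h2]
    exact Subgroup.card_le_of_le h1
  have hED : E = D := (hEc a₁ ha₁D ha₁V).2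
  have hC : ∀ a ∈ D, a ∉ V → ∀ p ∈ P, p * a = a * p → p ∈ D := by
    intro a ha haV p hp hpa
    rw [← (hEc a ha haV).1]
    exact mem_inf.2 ⟨hp, mem_centralizer_singleton_iff.2 hpa⟩
  have hDab : ∀ u ∈ D, ∀ e ∈ D, e * u = u * e := fun u hu e he => hDcE u hu e (hDE he)
  -- δ
  have hdD : ∀ x ∈ S, ∀ n ∈ P, dl x n ∈ D := by
    intro x hx n hn
    rw [← hED]
    apply mem_sup_right
    have h1 : dl x n = ⁅n⁻¹, x⁆ := by
      rw [dl, commutatorElement_def]; group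
    rw [h1]
    exact commutator_mem_commutator (inv_mem hn) hx
  have hstar : ∀ x ∈ S, ∀ n ∈ P, ⁅dl x n, n⁆ = (dl x n) ^ 2 := by
    intro x hx n hn
    set d := dl x n with hd
    have hdP : d ∈ P := hDP (hdD x hx n hn)
    have h1 : x * n * x⁻¹ = n * d := by rw [hd, dl]; group
    have h2 : (n * d) ^ 2 = n ^ 2 := by
      rw [← h1, conj_pow, ← h.VS _ (h.sq n hn) x hx, mul_inv_cancel_right]
    have h3 : d * n * d = n := by
      have : n * (d * n * d) = n * n := by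
        calc n * (d * n * d) = (n * d) ^ 2 := by rw [pow_two]; group
          _ = n * n := by rw [h2, pow_two]
      exact mul_left_cancel this
    -- ⁅d, n⁆ = d n d⁻¹ n⁻¹ ; from d n d = n : d n = n d⁻¹
    have h4 : d * n = n * d⁻¹ := eq_mul_inv_of_mul_eq h3
    have h5 : d ^ 2 * n = n * d ^ 2 := h.VPc (h.sq d hdP) hn
    have h6 : (d ^ 2) ^ 2 = 1 := (h.memV _).1 (h.sq d hdP)
    have h7 : d⁻¹ * d⁻¹ = d ^ 2 := by
      have h8 : d * d * (d * d) = 1 := by
        rw [← pow_two, ← pow_two]; exact h6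
      calc d⁻¹ * d⁻¹ = d⁻¹ * d⁻¹ * (d * d * (d * d)) := by rw [h8, mul_one]
        _ = d ^ 2 := by group
    calc ⁅d, n⁆ = (d * n) * d⁻¹ * n⁻¹ := by rw [commutatorElement_def]
      _ = n * (d⁻¹ * d⁻¹) * n⁻¹ := by rw [h4]; group
      _ = d ^ 2 := by rw [h7, ← h5, mul_inv_cancel_right]
  have hdmul : ∀ x ∈ S, ∀ n ∈ P, ∀ n' ∈ P, ∃ w ∈ V, dl x (n * n') = dl x n * w * dl x n' := by
    intro x hx n hn n' hn'
    have hdP : dl x n ∈ P := hDP (hdD x hx n hn)
    refine ⟨(dl x n)⁻¹ * (n'⁻¹ * dl x n * n'), ?_, ?_⟩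
    · have h1 : (dl x n)⁻¹ * (n'⁻¹ * dl x n * n') = ⁅(dl x n)⁻¹, n'⁻¹⁆ := by
        rw [commutatorElement_def]; group
      rw [h1]
      exact h.c_mem (inv_mem hdP) (inv_mem hn')
    · simp only [dl]; group
  have hpol : ∀ x ∈ S, ∀ n ∈ P, ∀ n' ∈ P, ⁅dl x n, n'⁆ = ⁅dl x n', n⁆ := by
    intro x hx n hn n' hn'
    obtain ⟨w, hw, hwe⟩ := hdmul x hx n hn n' hn'
    set d := dl x n with hd
    set d' := dl x n' with hd'
    have hdD' : d ∈ D := hdD x hx n hn
    have hd'D : d' ∈ D := hdD x hx n' hn'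
    have hdP : d ∈ P := hDP hdD'
    have hd'P : d' ∈ P := hDP hd'D
    have hwP : w ∈ P := h.VP hw
    have hs1 : ⁅d, n⁆ = d ^ 2 := hstar x hx n hn
    have hs2 : ⁅d', n'⁆ = d' ^ 2 := hstar x hx n' hn'
    have h1 := hstar x hx (n * n') (mul_mem hn hn')
    rw [hwe, h.c_mul_left (mul_mem hdP hwP) hd'P (mul_mem hn hn'),
      h.c_mul_left hdP hwP (mul_mem hn hn'), h.c_V hw (mul_mem hn hn'), mul_one,
      h.c_mul_right hn hn' hdP, h.c_mul_right hn hn' hd'P, hs1, hs2] at h1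
    have h2 : (d * w * d') ^ 2 = d ^ 2 * d' ^ 2 := by
      have hc1 : Commute (d * w) d' := by
        have : Commute d d' := (hDab d hdD' d' hd'D).symm
        have hw' : Commute w d' := h.VPc hw hd'P
        exact this.mul_left hw'
      have hc2 : Commute d w := (h.VPc hw hdP).symm
      rw [hc1.mul_pow, hc2.mul_pow, (h.memV w).1 hw, mul_one]
    rw [h2] at h1
    -- d² c(d,n') (c(d',n) d'²) = d² d'²
    have hA : ⁅d, n'⁆ ∈ V := h.c_mem hdP hn'
    have hB' : ⁅d', n⁆ ∈ V := h.c_mem hd'P hn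
    have h3 : ⁅d, n'⁆ * ⁅d', n⁆ = 1 := by
      have h4 : d ^ 2 * (⁅d, n'⁆ * ⁅d', n⁆) * d' ^ 2 = d ^ 2 * 1 * d' ^ 2 := by
        rw [mul_one, ← h1]; group
      exact mul_left_cancel (mul_right_cancel h4)
    have h5 := h.vsq hB'
    calc ⁅d, n'⁆ = ⁅d, n'⁆ * (⁅d', n⁆ * ⁅d', n⁆) := by rw [h5, mul_one]
      _ = ⁅d', n⁆ := by rw [← mul_assoc, h3, one_mul]
  -- kernel of δ_x
  have hker : ∀ x ∈ S, x ∉ P → ∀ n' ∈ P, dl x n' ∈ V → n' ∈ D := by
    intro x hx hxP n' hn' hd'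
    obtain ⟨n, hn, hnx⟩ : ∃ p ∈ P, ⁅p, x⁆ ∉ V := by
      by_contra hcon
      push Not at hcon
      exact hxP (h.faith x hx hcon)
    have hdV : dl x n⁻¹ ∉ V := by
      intro h1
      apply hnx
      have : dl x n⁻¹ = ⁅n, x⁆ := by rw [dl, commutatorElement_def]; group
      rwa [← this]
    apply hC _ (hdD x hx n⁻¹ (inv_mem hn)) hdV n' hn'
    have h2 := hpol x hx n⁻¹ (inv_mem hn) n' hn'
    rw [h.c_V hd' (inv_mem hn)] at h2
    exact (commutatorElement_eq_one_iff_mul_comm.1 h2).symm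
  have hkerD : ∀ x ∈ S, ∀ n ∈ D, dl x n ∈ V := by
    intro x hx n hn
    have : dl x n = ⁅n⁻¹, x⁆ := by rw [dl, commutatorElement_def]; group
    rw [this]
    exact (inv_mem hn : n⁻¹ ∈ D).2 x hx
  -- surjectivity
  have hsurj : ∀ x ∈ S, x ∉ P → ∀ w ∈ D, ∃ n ∈ P, w⁻¹ * dl x n ∈ V := by
    intro x hx hxP w hw
    let f : P →* G ⧸ V := MonoidHom.mk' (fun p => QuotientGroup.mk' V (dl x (p : G))) (by
      intro p r
      obtain ⟨u, hu, hue⟩ := hdmul x hx p p.2 r r.2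
      change QuotientGroup.mk' V (dl x ((p : G) * r)) = _
      rw [hue, map_mul, map_mul]
      have : QuotientGroup.mk' V u = 1 := (QuotientGroup.eq_one_iff u).2 hu
      rw [this, mul_one])
    have hfr : f.range ≤ D.map (QuotientGroup.mk' V) := by
      rintro _ ⟨p, rfl⟩
      exact ⟨_, hdD x hx p p.2, rfl⟩
    have hfk : f.ker = D.subgroupOf P := by
      ext p
      rw [MonoidHom.mem_ker, mem_subgroupOf]
      change (QuotientGroup.mk' V (dl x (p : G)) = 1) ↔ _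
      rw [QuotientGroup.mk'_apply, QuotientGroup.eq_one_iff]
      exact ⟨hker x hx hxP p p.2, hkerD x hx p⟩
    have h1 : Nat.card f.ker * f.ker.index = Nat.card P := Subgroup.card_mul_index _
    have h2 : Nat.card f.ker = Nat.card V ^ 2 := by
      rw [hfk, ← hcD]
      exact Nat.card_congr (Subgroup.subgroupOfEquivOfLe hDP).toEquiv
    rw [Subgroup.index_ker, h2, h.cube] at h1
    have h3 : Nat.card f.range = Nat.card V := by
      have h0 : 0 < Nat.card V ^ 2 := by positivity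
      apply Nat.eq_of_mul_eq_mul_left h0
      rw [h1]; ring
    have h4 : Nat.card (D.map (QuotientGroup.mk' V)) = Nat.card V := by
      have h5 : Nat.card D = Nat.card (D.map (QuotientGroup.mk' V)) * Nat.card V := by
        let g : D →* G ⧸ V := (QuotientGroup.mk' V).comp D.subtype
        have hgr : g.range = D.map (QuotientGroup.mk' V) := by
          rw [MonoidHom.range_comp, Subgroup.range_subtype]
        have hgk : g.ker = V.subgroupOf D := by
          rw [← MonoidHom.comap_ker, QuotientGroup.ker_mk']; rfl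
        have h6 : Nat.card g.ker * g.ker.index = Nat.card D := Subgroup.card_mul_index _
        rw [Subgroup.index_ker, hgr, hgk] at h6
        rw [← h6, Nat.card_congr (Subgroup.subgroupOfEquivOfLe hVD).toEquiv, mul_comm]
      rw [hcD] at h5
      apply Nat.eq_of_mul_eq_mul_right hq0
      rw [← h5]; ring
    have h5 : f.range = D.map (QuotientGroup.mk' V) :=
      Subgroup.eq_of_le_of_card_ge hfr (by rw [h3, h4])
    have h6 : QuotientGroup.mk' V w ∈ f.range := by rw [h5]; exact ⟨w, hw, rfl⟩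
    obtain ⟨p, hp⟩ := h6
    refine ⟨p, p.2, ?_⟩
    have h7 : QuotientGroup.mk' V (dl x (p : G)) = QuotientGroup.mk' V w := hp
    rw [← QuotientGroup.eq]
    exact h7.symm
  -- |S/P| = 2
  have htwo : ∀ x ∈ S, x ∉ P → ∀ x' ∈ S, x' ∉ P → x⁻¹ * x' ∈ P := by
    intro x hx hxP x' hx' hx'P
    have hkey : ∀ n ∈ P, (dl x n) * (dl x' n)⁻¹ ∈ V := by
      intro n hn
      by_cases hnD : n ∈ D
      · exact mul_mem (hkerD x hx n hnD) (inv_mem (hkerD x' hx' n hnD))
      set u := dl x n with hu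
      set w := dl x' n with hw
      have huD : u ∈ D := hdD x hx n hn
      have hwD : w ∈ D := hdD x' hx' n hn
      have huP := hDP huD
      have hwP := hDP hwD
      have hwV : w ∉ V := fun h1 => hnD (hker x' hx' hx'P n hn h1)
      obtain ⟨n', hn', v, hv, hn'e⟩ : ∃ n' ∈ P, ∃ v ∈ V, dl x n' = w * v := by
        obtain ⟨n', hn', h1⟩ := hsurj x hx hxP w hwD
        exact ⟨n', hn', _, h1, by group⟩
      have hvP := h.VP hv
      have hn'D : n' ∉ D := by
        intro h1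
        have h2 := hkerD x hx n' h1
        rw [hn'e] at h2
        apply hwV
        have := mul_mem h2 (inv_mem hv)
        rwa [mul_inv_cancel_right] at this
      -- ⁅u, n'⁆ = w²
      have h1 : ⁅u, n'⁆ = w ^ 2 := by
        rw [hu, hpol x hx n hn n' hn', hn'e, h.c_mul_left hwP hvP hn, h.c_V hv hn, mul_one, hw]
        exact hstar x' hx' n hn
      have h2 : ⁅w, n'⁆ = w ^ 2 := by
        have h3 := hstar x hx n' hn'
        rw [hn'e, h.c_mul_left hwP hvP hn', h.c_V hv hn', mul_one] at h3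
        rw [h3, (show Commute w v from (h.VPc hv hwP).symm).mul_pow, (h.memV v).1 hv, mul_one]
      have h3 : ⁅u * w⁻¹, n'⁆ = 1 := by
        have h4 : ⁅u * w⁻¹ * w, n'⁆ = ⁅u * w⁻¹, n'⁆ * ⁅w, n'⁆ :=
          h.c_mul_left (mul_mem huP (inv_mem hwP)) hwP hn'
        rw [inv_mul_cancel_right, h1, h2] at h4
        exact (mul_eq_right.1 h4.symm)
      by_contra hcon
      exact hn'D (hC _ (mul_mem huD (inv_mem hwD)) hcon n' hn'
        (commutatorElement_eq_one_iff_mul_comm.1 h3).symm)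
    apply h.faith _ (mul_mem (inv_mem hx) hx')
    intro p hp
    -- x p x⁻¹ = p dl x p ; x' p x'⁻¹ = p dl x' p
    have h1 := hkey p⁻¹ (inv_mem hp)
    have h2 : ⁅p, x⁻¹ * x'⁆ = x⁻¹ * ((dl x p⁻¹)⁻¹ * (dl x p⁻¹ * (dl x' p⁻¹)⁻¹)⁻¹ * dl x p⁻¹) * x := by
      simp only [dl, commutatorElement_def]; group
    rw [h2]
    have h3 := hVn.conj_mem _ (inv_mem h1) (dl x p⁻¹)⁻¹
    rw [inv_inv] at h3
    have h4 := hVn.conj_mem _ h3 x⁻¹
    rwa [inv_inv] at h4
  -- fixed point of B in x₀P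
  have hPsol : Group.IsSolvable P := by
    have : Group.IsNilpotent P := (h.S2.to_le h.PS).isNilpotent
    infer_instance
  obtain ⟨k, hk⟩ := IsPGroup.iff_card.1 (h.S2.to_le h.PS)
  obtain ⟨d, hd, hdB⟩ := exists_mul_mem_centralizer (A := B) (D := P)
    (by rw [normalizer_eq_top]; exact le_top)
    (by rw [hk]; exact Nat.Coprime.pow_right k h.Bodd.coprime_two_right) (Or.inr hPsol) x₀ (by
      intro b hb
      apply htwo x₀ hx₀S hx₀P _ (hBconj b hb x₀ hx₀S)
      intro h1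
      apply hx₀P
      have := hPn.conj_mem _ h1 b⁻¹
      have h2 : b⁻¹ * (b * x₀ * b⁻¹) * b⁻¹⁻¹ = x₀ := by group
      rwa [h2] at this)
  set x := x₀ * d with hx
  have hxS : x ∈ S := mul_mem hx₀S (h.PS hd)
  have hx1 : x ≠ 1 := by
    intro h1
    apply hx₀P
    have : x₀ = d⁻¹ := eq_inv_of_mul_eq_one_left h1
    rw [this]; exact inv_mem hd
  have hex : ∃ m : ℕ, x ^ 2 ^ m = 1 := by
    obtain ⟨m, hm⟩ := h.S2 ⟨x, hxS⟩
    exact ⟨m, by simpa using congrArg Subtype.val hm⟩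
  obtain ⟨j, hj, hjmin⟩ := wellFounded_lt.has_min {m | x ^ 2 ^ m = 1} hex
  have hj0 : j ≠ 0 := by
    rintro rfl
    apply hx1
    simpa using hj
  obtain ⟨i, rfl⟩ := Nat.exists_eq_succ_of_ne_zero hj0
  have hz1 : x ^ 2 ^ i ≠ 1 := fun h1 => hjmin i h1 (Nat.lt_succ_self i)
  have hzV : x ^ 2 ^ i ∈ V := by
    rw [h.memV, ← pow_mul, ← pow_succ]
    exact hj
  obtain ⟨v, hv, w, hw, hv1, hw1, hvw⟩ := h.two
  have hfix : ∀ u ∈ V, u ≠ 1 → x ^ 2 ^ i = u := by
    intro u hu hu1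
    obtain ⟨b, hb, hbu⟩ := h.tr _ hzV u hu hz1 hu1
    rw [← hbu]
    have h1 : b * x = x * b := (mem_centralizer_iff.1 hdB b hb)
    have h2 : b * x * b⁻¹ = x := by rw [h1, mul_inv_cancel_right]
    rw [← conj_pow, h2]
  exact hvw ((hfix v hv hv1).symm.trans (hfix w hw hw1))

end Cfsg.Agent.Lib.ThInv3
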