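import Cfsg.Agent.Lib.ThInv1
import Cfsg.Agent.Lib.ThInv3
import Cfsg.Agent.Lib.Cores2
import Cfsg.Agent.Lib.PLength

/-!
Thompson's theorem on solvable groups with one class of involutions (helper59), part 4:
assembly for groups with `O(G) = 1`.
-/

set_option autoImplicit false

namespace Cfsg.Agent.Lib.ThInv4

open Subgroup Cfsg Cfsg.Agent.Lib.CoprimeAction
open scoped commutatorElement

universe u

variable {G : Type u} [Group G] [Finite G]

/-- the centralizer of `V` has odd index. -/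
theorem step1 [Group.IsSolvable G] {V : Subgroup G}
    (hV : ∀ g : G, g ∈ V ↔ g ^ 2 = 1) (hVab : ∀ v ∈ V, ∀ w ∈ V, v * w = w * v)
    (htr : ∀ v ∈ V, ∀ w ∈ V, v ≠ 1 → w ≠ 1 → ∃ g : G, g * v * g⁻¹ = w)
    (hV1 : V ≠ ⊥) : ¬ 2 ∣ (centralizer (V : Set G)).index := by
  intro h2
  have hVn : V.Normal := ⟨fun v hv g => by
    rw [hV] at hv ⊢
    rw [conj_pow, hv]; group⟩
  have hV2 : IsPGroup 2 V := fun v => ⟨1, by
    rw [pow_one]; exact Subtype.ext ((hV _).1 v.2)⟩
  set C := centralizer (V : Set G) with hC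
  have hCn : C.Normal := inferInstance
  have hVC : V ≤ C := fun v hv => mem_centralizer_iff.2 fun w hw => hVab w hw v hv
  have hH : Nontrivial (G ⧸ C) := by
    by_contra hcon
    rw [not_nontrivial_iff_subsingleton] at hcon
    have h3 : C.index = 1 := by
      rw [Subgroup.index_eq_card]
      exact Nat.card_eq_one_iff_unique.2 ⟨hcon, ⟨1⟩⟩
    rw [h3] at h2
    omega
  -- a nontrivial `pCore q`
  obtain ⟨q, hq, hqF⟩ : ∃ q : ℕ, q.Prime ∧ pCore q (G ⧸ C) ≠ ⊥ := by
    by_contra hcon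
    push Not at hcon
    apply Lib.Fitting.fittingSubgroup_ne_bot (G := G ⧸ C)
    rw [Lib.Fitting.fittingSubgroup_eq_iSup_pCore, eq_bot_iff]
    exact iSup_le fun q => (hcon q.1 q.2).le
  have hqf := Fact.mk hq
  set L : Subgroup G := (pCore q (G ⧸ C)).comap (QuotientGroup.mk' C) with hL
  have hLn : L.Normal := inferInstance
  have hCL : C ≤ L := by
    intro c hc
    rw [hL, mem_comap, QuotientGroup.mk'_apply, (QuotientGroup.eq_one_iff c).2 hc]
    exact one_mem _
  have hmain : ∀ t ∈ V, t ≠ 1 → (∀ l ∈ L, l * t = t * l) → False := by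
    intro t ht ht1 htl
    have h3 : L ≤ C := by
      intro l hl
      rw [hC, mem_centralizer_iff]
      intro v hv
      by_cases hv1 : v = 1
      · rw [hv1, one_mul, mul_one]
      obtain ⟨g, hg⟩ := htr t ht v hv ht1 hv1
      have h4 : g⁻¹ * l * g ∈ L := by
        have := hLn.conj_mem l hl g⁻¹
        rwa [inv_inv] at this
      have h5 := htl _ h4
      rw [← hg]
      calc g * t * g⁻¹ * l = g * (t * (g⁻¹ * l * g)) * g⁻¹ := by group
        _ = g * ((g⁻¹ * l * g) * t) * g⁻¹ := by rw [h5]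
        _ = l * (g * t * g⁻¹) := by group
    apply hqF
    rw [← map_comap_eq_self_of_surjective (QuotientGroup.mk'_surjective C) (pCore q (G ⧸ C)),
      Subgroup.map_eq_bot_iff, QuotientGroup.ker_mk']
    exact h3
  by_cases hq2 : q = 2
  · subst hq2
    obtain ⟨S, -⟩ := (IsPGroup.of_bot (p := 2) (G := G)).exists_le_sylow
    have hVS : V ≤ S := by
      exact hV2.le_sylow_of_normal S
    obtain ⟨a, ha, ha1, haS⟩ := ThInv3.exists_fixed_mod (V := (⊥ : Subgroup G)) S.2 hVS (by
      rw [normalizer_eq_top]; exact le_top) (fun h => hV1 (le_bot_iff.1 h))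
    refine hmain a ha (fun h => ha1 (by rw [h]; exact one_mem _)) ?_
    intro l hl
    -- l ∈ S C
    have h3 : QuotientGroup.mk' C l ∈ ((S.mapSurjective (QuotientGroup.mk'_surjective C) :
        Sylow 2 (G ⧸ C)) : Subgroup (G ⧸ C)) := by
      apply Cores.pCore_le_sylow
      exact hl
    rw [Sylow.coe_mapSurjective] at h3
    obtain ⟨s, hs, hsl⟩ := h3
    have h4 : s⁻¹ * l ∈ C := by
      rw [← QuotientGroup.eq]
      exact hsl
    have h5 : a * (s⁻¹ * l) = (s⁻¹ * l) * a := mem_centralizer_iff.1 h4 a ha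
    have h6 : a * s = s * a := by
      have := haS s hs
      rw [mem_bot] at this
      exact commutatorElement_eq_one_iff_mul_comm.1 this
    calc l * a = s * ((s⁻¹ * l) * a) := by group
      _ = s * (a * (s⁻¹ * l)) := by rw [h5]
      _ = (s * a) * (s⁻¹ * l) := by group
      _ = (a * s) * (s⁻¹ * l) := by rw [h6]
      _ = a * l := by group
  · -- Sylow q-subgroup of L
    obtain ⟨Q, -⟩ := (IsPGroup.of_bot (p := q) (G := L)).exists_le_sylow
    set Q' : Subgroup G := (Q : Subgroup L).map L.subtype with hQ'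
    have hQ'q : IsPGroup q Q' := Q.2.map _
    have hfr : normalizer (Q' : Set G) ⊔ L = ⊤ := Sylow.normalizer_sup_eq_top Q
    have hLQC : L ≤ Q' ⊔ C := by
      -- image of Q' in G/C is pCore
      have hle : Q'.map (QuotientGroup.mk' C) ≤ pCore q (G ⧸ C) := by
        rw [map_le_iff_le_comap]
        exact map_subtype_le _
      have hcop : ¬ q ∣ (Q' ⊔ C).relIndex L := by
        have h3 : (Q' ⊔ C).relIndex L ∣ Q'.relIndex L := relIndex_dvd_of_le_left L le_sup_left
        intro h4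
        have h5 : Q'.relIndex L = (Q : Subgroup L).index := by
          rw [relIndex, hQ', Subgroup.subgroupOf, comap_map_eq_self_of_injective L.subtype_injective]
        exact Q.not_dvd_index (h5 ▸ h4.trans h3)
      have hpow : ∃ k, (Q' ⊔ C).relIndex L = q ^ k := by
        have h3 : (Q' ⊔ C).relIndex L ∣ C.relIndex L := relIndex_dvd_of_le_left L le_sup_right
        have h4 : C.relIndex L = Nat.card (pCore q (G ⧸ C)) := PLength.relIndex_comap_mk C _
        obtain ⟨k, hk⟩ := IsPGroup.iff_card.1 (Cores.isPGroup_pCore q (G ⧸ C))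
        rw [h4, hk] at h3
        obtain ⟨j, -, hj⟩ := (Nat.dvd_prime_pow hq).1 h3
        exact ⟨j, hj⟩
      obtain ⟨k, hk⟩ := hpow
      rcases Nat.eq_zero_or_pos k with rfl | hk0
      · rw [pow_zero, relIndex_eq_one] at hk
        exact hk
      · exfalso
        apply hcop
        rw [hk]
        exact dvd_pow_self q hk0.ne'
    have hNC : normalizer (Q' : Set G) ⊔ C = ⊤ := by
      rw [eq_top_iff, ← hfr]
      refine sup_le le_sup_left (hLQC.trans (sup_le ?_ le_sup_right))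
      exact le_normalizer.trans le_sup_left
    have hcard : 2 ∣ Nat.card (normalizer (Q' : Set G)) := by
      let f : normalizer (Q' : Set G) →* G ⧸ C := (QuotientGroup.mk' C).comp (Subgroup.subtype _)
      have hf : Function.Surjective f := by
        intro x
        obtain ⟨g, rfl⟩ := QuotientGroup.mk'_surjective C x
        have hg : g ∈ normalizer (Q' : Set G) ⊔ C := by rw [hNC]; exact mem_top g
        obtain ⟨n, hn, c, hc, rfl⟩ := mem_sup_of_normal_right.1 hg
        refine ⟨⟨n, hn⟩, ?_⟩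
        change QuotientGroup.mk' C n = QuotientGroup.mk' C (n * c)
        rw [map_mul]
        have : QuotientGroup.mk' C c = 1 := (QuotientGroup.eq_one_iff c).2 hc
        rw [this, mul_one]
      have h3 := Subgroup.card_dvd_of_surjective f hf
      rw [← Subgroup.index_eq_card] at h3
      exact h2.trans h3
    obtain ⟨t, ht⟩ := exists_prime_orderOf_dvd_card' (G := normalizer (Q' : Set G)) 2 hcard
    have ht2 : (t : G) ^ 2 = 1 := by
      have := pow_orderOf_eq_one t
      rw [ht] at this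
      simpa using congrArg Subtype.val this
    have ht1 : (t : G) ≠ 1 := by
      intro h3
      have h4 : t = 1 := Subtype.ext h3
      rw [h4, orderOf_one] at ht
      omega
    have htV : (t : G) ∈ V := (hV _).2 ht2
    refine hmain t htV ht1 ?_
    have hcen : Q' ⊔ C ≤ centralizer {(t : G)} := by
      refine sup_le ?_ ?_
      · intro x hx
        rw [mem_centralizer_singleton_iff]
        have h3 : (t : G) * x * (t : G)⁻¹ * x⁻¹ ∈ Q' :=
          mul_mem ((mem_normalizer_iff.1 t.2 x).1 hx) (inv_mem hx)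
        have h4 : (t : G) * x * (t : G)⁻¹ * x⁻¹ ∈ V := by
          have : (t : G) * x * (t : G)⁻¹ * x⁻¹ = (t : G) * (x * (t : G)⁻¹ * x⁻¹) := by group
          rw [this]
          exact mul_mem htV (hVn.conj_mem _ (inv_mem htV) x)
        have h5 : (t : G) * x * (t : G)⁻¹ * x⁻¹ = 1 := by
          have h6 := (IsPGroup.disjoint_of_ne q 2 hq2 Q' V hQ'q hV2)
          exact mem_bot.1 (disjoint_iff.1 h6 ▸ mem_inf.2 ⟨h3, h4⟩)
        have h6 : (t : G) * x * (t : G)⁻¹ = x := mul_inv_eq_one.1 h5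
        exact (mul_inv_eq_iff_eq_mul.1 h6).symm
      · intro c hc
        rw [mem_centralizer_singleton_iff]
        exact (mem_centralizer_iff.1 hc t htV).symm
    intro l hl
    exact mem_centralizer_singleton_iff.1 (hcen (hLQC hl))

/-- elements of odd order trivial ⟹ 2-group -/
theorem isPGroup_two_of {H : Subgroup G} (h : ∀ y ∈ H, Odd (orderOf y) → y = 1) : IsPGroup 2 H := by
  intro y
  have h0 : orderOf y ≠ 0 := (orderOf_pos y).ne'
  obtain ⟨k, m, hm, hkm⟩ := Nat.exists_eq_two_pow_mul_odd h0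
  refine ⟨k, ?_⟩
  have h1 : orderOf (y ^ 2 ^ k) = m := by
    rw [orderOf_pow' y (pow_ne_zero k two_ne_zero), hkm,
      Nat.gcd_eq_right (Dvd.intro _ rfl), Nat.mul_div_cancel_left m (pow_pos two_pos k)]
  have h2 : Odd (orderOf ((y ^ 2 ^ k : H) : G)) := by
    rw [Subgroup.orderOf_coe, h1]; exact hm
  exact Subtype.ext (h _ (y ^ 2 ^ k : H).2 h2)

theorem main [hsol : Group.IsSolvable G] (hO : pPrimeCore 2 G = ⊥) (S : Sylow 2 G)
    {x₁ x₂ : G} (hx₁ : x₁ ≠ 1) (hx₁2 : x₁ ^ 2 = 1) (hx₂ : x₂ ≠ 1) (hx₂2 : x₂ ^ 2 = 1)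
    (hx₁₂ : x₁ ≠ x₂)
    (hconj : ∀ x y : G, x ≠ 1 → x ^ 2 = 1 → y ≠ 1 → y ^ 2 = 1 → IsConj x y) :
    (S : Subgroup G) ≤ pCore 2 G := by
  classical
  set P := pCore 2 G with hP
  have hPn : P.Normal := inferInstance
  have hP2 : IsPGroup 2 P := Cores.isPGroup_pCore 2 G
  have hPc : centralizer (P : Set G) ≤ P := Cores.centralizer_pCore_le hO
  have hconj' : ∀ x y : G, x ≠ 1 → x ^ 2 = 1 → y ≠ 1 → y ^ 2 = 1 → ∃ g, g * x * g⁻¹ = y :=
    fun x y h1 h2 h3 h4 => isConj_iff.1 (hconj x y h1 h2 h3 h4)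
  have hPnt : Nontrivial P := by
    rw [Subgroup.nontrivial_iff_ne_bot]
    intro h0
    rw [h0, le_bot_iff, Subgroup.coe_bot] at hPc
    have h1 : x₁ ∈ centralizer ({1} : Set G) := by
      rw [mem_centralizer_singleton_iff, mul_one, one_mul]
    rw [hPc, mem_bot] at h1
    exact hx₁ h1
  -- an involution in the center of P
  obtain ⟨z, hzP, hzc, hz2, hz1⟩ : ∃ z ∈ P, (∀ p ∈ P, z * p = p * z) ∧ z ^ 2 = 1 ∧ z ≠ 1 := by
    have hcn : Nontrivial (center P) := hP2.center_nontrivial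
    obtain ⟨k, hk⟩ := IsPGroup.iff_card.1 (hP2.to_subgroup (center P))
    have h2 : 2 ∣ Nat.card (center P) := by
      rcases Nat.eq_zero_or_pos k with rfl | hk0
      · rw [pow_zero] at hk
        have := Finite.one_lt_card (α := center P)
        omega
      · rw [hk]; exact dvd_pow_self 2 hk0.ne'
    obtain ⟨t, ht⟩ := exists_prime_orderOf_dvd_card' (G := center P) 2 h2
    refine ⟨((t : P) : G), (t : P).2, ?_, ?_, ?_⟩
    · intro p hp
      exact congrArg Subtype.val ((mem_center_iff.1 t.2 ⟨p, hp⟩).symm)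
    · have h3 := pow_orderOf_eq_one t
      rw [ht] at h3
      simpa using congrArg (fun a : center P => ((a : P) : G)) h3
    · intro h3
      have h4 : t = 1 := Subtype.ext (Subtype.ext h3)
      rw [h4, orderOf_one] at ht
      omega
  -- V
  have hinvP : ∀ g : G, g ^ 2 = 1 → g ∈ P ∧ ∀ p ∈ P, g * p = p * g := by
    intro g hg
    by_cases hg1 : g = 1
    · rw [hg1]; exact ⟨one_mem _, fun p _ => by rw [one_mul, mul_one]⟩
    obtain ⟨c, hc⟩ := hconj' z g hz1 hz2 hg1 hg
    refine ⟨by rw [← hc]; exact hPn.conj_mem z hzP c, fun p hp => ?_⟩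
    have h3 : c⁻¹ * p * c ∈ P := by
      have := hPn.conj_mem p hp c⁻¹
      rwa [inv_inv] at this
    rw [← hc]
    calc c * z * c⁻¹ * p = c * (z * (c⁻¹ * p * c)) * c⁻¹ := by group
      _ = c * ((c⁻¹ * p * c) * z) * c⁻¹ := by rw [hzc _ h3]
      _ = p * (c * z * c⁻¹) := by group
  let V : Subgroup G :=
    { carrier := {g | g ^ 2 = 1}
      one_mem' := one_pow 2
      mul_mem' := by
        intro a b ha hb
        have hc : Commute a b := (hinvP a ha).2 b (hinvP b hb).1
        change (a * b) ^ 2 = 1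
        rw [hc.mul_pow, show a ^ 2 = 1 from ha, show b ^ 2 = 1 from hb, one_mul]
      inv_mem' := by
        intro a ha
        change (a⁻¹) ^ 2 = 1
        rw [inv_pow, show a ^ 2 = 1 from ha, inv_one] }
  have hV : ∀ g : G, g ∈ V ↔ g ^ 2 = 1 := fun g => Iff.rfl
  have hVP : V ≤ P := fun g hg => (hinvP g hg).1
  have hVc : ∀ v ∈ V, ∀ p ∈ P, v * p = p * v := fun v hv p hp => (hinvP v hv).2 p hp
  have htr : ∀ v ∈ V, ∀ w ∈ V, v ≠ 1 → w ≠ 1 → ∃ g : G, g * v * g⁻¹ = w :=
    fun v hv w hw hv1 hw1 => hconj' v w hv1 hv hw1 hw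
  have hVn : V.Normal := ⟨fun v hv g => by
    rw [hV] at hv ⊢
    rw [conj_pow, hv]; group⟩
  have hV1 : V ≠ ⊥ := by
    intro h0
    have : x₁ ∈ V := hx₁2
    rw [h0, mem_bot] at this
    exact hx₁ this
  set C := centralizer (V : Set G) with hC
  have hCn : C.Normal := inferInstance
  have hPC : P ≤ C := fun p hp => mem_centralizer_iff.2 fun v hv => hVc v hv p hp
  have hodd := step1 hV (fun v hv w hw => hVc v hv w (hVP hw)) htr hV1
  -- Sylow subgroup in C
  have hSC : (S : Subgroup G) ≤ C := by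
    have h1 : IsPGroup 2 ((S : Subgroup G).map (QuotientGroup.mk' C)) := S.2.map _
    obtain ⟨k, hk⟩ := IsPGroup.iff_card.1 h1
    have h2 : Nat.card ((S : Subgroup G).map (QuotientGroup.mk' C)) ∣ C.index := by
      rw [Subgroup.index_eq_card]; exact Subgroup.card_subgroup_dvd_card _
    rcases Nat.eq_zero_or_pos k with rfl | hk0
    · rw [pow_zero] at hk
      have h3 := Subgroup.eq_bot_of_card_eq _ hk
      rwa [Subgroup.map_eq_bot_iff, QuotientGroup.ker_mk'] at h3
    · exfalso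
      apply hodd
      rw [hk] at h2
      exact (dvd_pow_self 2 hk0.ne').trans h2
  have hfr : normalizer ((S : Subgroup G) : Set G) ⊔ C = ⊤ := Sylow.normalizer_sup_eq_top' S hSC
  -- complement B
  obtain ⟨B, hBN, hBc, -, hSB⟩ := exists_complement_rel (N := (S : Subgroup G))
    (S := normalizer ((S : Subgroup G) : Set G)) le_rfl (by
      rw [inf_of_le_left le_normalizer]
      obtain ⟨k, hk⟩ := IsPGroup.iff_card.1 S.2
      rw [hk]
      apply Nat.Coprime.pow_left
      rw [Nat.Prime.coprime_iff_not_dvd Nat.prime_two]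
      intro h3
      apply S.not_dvd_index
      exact h3.trans (relIndex_dvd_index_of_le le_normalizer))
  rw [inf_of_le_left le_normalizer] at hSB
  have hBodd : Odd (Nat.card B) := by
    rw [← Nat.not_even_iff_odd, even_iff_two_dvd, hBc]
    intro h3
    apply S.not_dvd_index
    exact h3.trans (relIndex_dvd_index_of_le le_normalizer)
  have hCB : C ⊔ B = ⊤ := by
    rw [eq_top_iff, ← hfr, ← hSB]
    exact sup_le (sup_le (hSC.trans le_sup_left) le_sup_right) le_sup_left
  have htrB : ∀ v ∈ V, ∀ w ∈ V, v ≠ 1 → w ≠ 1 → ∃ b ∈ B, b * v * b⁻¹ = w := by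
    intro v hv w hw hv1 hw1
    obtain ⟨g, hg⟩ := htr v hv w hw hv1 hw1
    have h3 : g ∈ C ⊔ B := by rw [hCB]; exact mem_top g
    obtain ⟨c, hc, b, hb, rfl⟩ := mem_sup_of_normal_left.1 h3
    refine ⟨b, hb, ?_⟩
    have h4 : b * v * b⁻¹ ∈ V := hVn.conj_mem v hv b
    have h5 := mem_centralizer_iff.1 hc _ h4
    rw [← hg]
    calc b * v * b⁻¹ = (b * v * b⁻¹ * c) * c⁻¹ := by group
      _ = (c * (b * v * b⁻¹)) * c⁻¹ := by rw [h5]
      _ = c * b * v * (c * b)⁻¹ := by group
  by_contra hSP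
  -- y
  obtain ⟨y, hyC, hyodd, hyP⟩ : ∃ y ∈ C, Odd (orderOf y) ∧ ¬ ∀ p ∈ P, y * p * y⁻¹ = p := by
    by_contra hcon
    push Not at hcon
    apply hSP
    have h3 : IsPGroup 2 C := by
      apply isPGroup_two_of
      intro y hy hyo
      have h4 := hcon y hy hyo
      have h5 : y ∈ P := hPc (mem_centralizer_iff.2 fun p hp =>
        (mul_inv_eq_iff_eq_mul.1 (h4 p hp)).symm)
      obtain ⟨m, hm⟩ := hP2 ⟨y, h5⟩
      have h6 : y ^ 2 ^ m = 1 := by simpa using congrArg Subtype.val hm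
      have h7 : orderOf y ∣ 2 ^ m := orderOf_dvd_of_pow_eq_one h6
      have h8 : Nat.Coprime (orderOf y) (2 ^ m) := Nat.Coprime.pow_right m hyo.coprime_two_right
      rw [← orderOf_eq_one_iff]
      exact Nat.eq_one_of_dvd_coprimes h8 dvd_rfl h7
    exact hSC.trans (Cores.le_pCore hCn h3)
  have hyV : ∀ v ∈ V, y * v * y⁻¹ = v := fun v hv => by
    rw [← mem_centralizer_iff.1 hyC v hv, mul_inv_cancel_right]
  obtain ⟨hsq, hcen, hsurj⟩ := ThInv1.special_of hPn hP2 hV hVP hVc htr hyodd hyV hyP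
  -- the cube
  have hfinP : Fintype P := Fintype.ofFinite P
  set V' : Subgroup P := V.subgroupOf P with hV'
  have hcV' : Nat.card V' = Nat.card V := Nat.card_congr (Subgroup.subgroupOfEquivOfLe hVP).toEquiv
  set F := Nat.card {p : P // p ^ 2 = ⟨x₁, hVP hx₁2⟩} with hF
  have hF' : ∀ v ∈ V', v ≠ 1 → Nat.card {p : P // p ^ 2 = v} = F := by
    rintro ⟨v, hvE⟩ hv hv1
    obtain ⟨b, hbv⟩ := htr v hv x₁ hx₁2 (fun h => hv1 (Subtype.ext h)) hx₁
    apply Nat.card_congr
    refine ⟨fun p => ⟨⟨b * p * b⁻¹, hPn.conj_mem _ p.1.2 b⟩, ?_⟩,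
      fun p => ⟨⟨b⁻¹ * p * b, ?_⟩, ?_⟩, ?_, ?_⟩
    · apply Subtype.ext
      have h1 : ((p : P) : G) ^ 2 = v := congrArg Subtype.val p.2
      change (b * (p : P) * b⁻¹ : G) ^ 2 = x₁
      rw [conj_pow, h1, hbv]
    · have := hPn.conj_mem _ p.1.2 b⁻¹
      rwa [inv_inv] at this
    · apply Subtype.ext
      have h1 : ((p : P) : G) ^ 2 = x₁ := congrArg Subtype.val p.2
      change (b⁻¹ * (p : P) * b : G) ^ 2 = v
      have h2 : (b⁻¹ * (p : P) * b : G) ^ 2 = b⁻¹ * ((p : P) : G) ^ 2 * b := by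
        rw [pow_two, pow_two]; group
      rw [h2, h1, ← hbv]; group
    · intro p
      apply Subtype.ext; apply Subtype.ext
      change b⁻¹ * (b * ((p : P) : G) * b⁻¹) * b = _
      group
    · intro p
      apply Subtype.ext; apply Subtype.ext
      change b * (b⁻¹ * ((p : P) : G) * b) * b⁻¹ = _
      group
  have hFV : F ≠ Nat.card V' := by
    intro hFeq
    apply hyP
    intro p hp
    by_cases hpV : p ∈ V
    · exact hyV p hpV
    have hp2 : p ^ 2 ≠ 1 := hpV
    have h1 := hF' ⟨p ^ 2, hVP (hsq p hp)⟩ (hsq p hp) (fun h => hp2 (congrArg Subtype.val h))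
    -- the fibre is p V
    let j : V' → {r : P // r ^ 2 = ⟨p ^ 2, hVP (hsq p hp)⟩} := fun v =>
      ⟨⟨p, hp⟩ * v, by
        apply Subtype.ext
        have hc : Commute p ((v : P) : G) := (hVc _ v.2 p hp).symm
        change (p * ((v : P) : G)) ^ 2 = p ^ 2
        rw [hc.mul_pow, show ((v : P) : G) ^ 2 = 1 from (hV _).1 v.2, mul_one]⟩
    have hj : Function.Injective j := by
      intro v w hvw
      have h2 : (⟨p, hp⟩ : P) * v = ⟨p, hp⟩ * w := congrArg Subtype.val hvw
      exact Subtype.ext (mul_left_cancel h2)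
    have hjs : Function.Surjective j := by
      have := Nat.bijective_iff_injective_and_card j
      exact (this.2 ⟨hj, by rw [h1, hFeq]⟩).2
    obtain ⟨v, hv⟩ := hjs ⟨⟨y * p * y⁻¹, hPn.conj_mem p hp y⟩, by
      apply Subtype.ext
      change (y * p * y⁻¹) ^ 2 = p ^ 2
      rw [conj_pow, hyV _ (hsq p hp)]⟩
    have h2 : p * ((v : P) : G) = y * p * y⁻¹ :=
      congrArg (fun r : {r : P // r ^ 2 = ⟨p ^ 2, hVP (hsq p hp)⟩} => ((r : P) : G)) hv
    have h3 : ((v : P) : G) = 1 :=
      ThInv1.eq_one_of_fix (a := p) (m := 1) h2.symm (hyV _ v.2) hyodd (by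
        rw [pow_one]; exact (hV _).1 v.2)
    rw [← h2, h3, mul_one]
  obtain ⟨hcube, hnd⟩ := ThInv2.cube (V := V') hP2
    (fun v hv p => Subtype.ext (hVc v hv p p.2))
    (fun g => by
      rw [hV', mem_subgroupOf, hV, ← Subgroup.coe_pow, OneMemClass.coe_eq_one])
    (fun p => hsq p p.2)
    (fun h => by
      have h1 : (⟨x₁, hVP hx₁2⟩ : P) ∈ V' := hx₁2
      rw [h, mem_bot] at h1
      exact hx₁ (congrArg Subtype.val h1))
    (fun h => by
      apply hyP
      intro p hp
      apply hyV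
      have h1 : (⟨p, hp⟩ : P) ∈ V' := by rw [h]; exact mem_top _
      exact h1) hF' hFV
  -- apply the last step
  apply hSP
  refine ThInv3.Cfg.sylow_le (V := V) (B := B) ⟨hPn, hVP, Cores.pCore_le_sylow S, S.2, hV, ?_, hsq,
    ?_, hBN, hBodd, htrB, ⟨x₁, hx₁2, x₂, hx₂2, hx₁, hx₂, hx₁₂⟩, ?_, ?_⟩
  · intro v hv s hs
    exact mem_centralizer_iff.1 (hSC hs) v hv
  · intro x hx hxP
    let N : Subgroup G := (centralizer ((P.map (QuotientGroup.mk' V) : Subgroup (G ⧸ V)) :
      Set (G ⧸ V))).comap (QuotientGroup.mk' V) ⊓ C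
    have hPmn : (P.map (QuotientGroup.mk' V)).Normal :=
      hPn.map _ (QuotientGroup.mk'_surjective V)
    have hNn : N.Normal := inferInstance
    have hNm : ∀ g ∈ N, ∀ p ∈ P, ⁅p, g⁆ ∈ V := by
      intro g hg p hp
      have h1 := mem_centralizer_iff.1 (mem_comap.1 (mem_inf.1 hg).1) (QuotientGroup.mk' V p)
        ⟨p, hp, rfl⟩
      have h2 : QuotientGroup.mk' V ⁅p, g⁆ = 1 := by
        rw [map_commutatorElement]
        exact commutatorElement_eq_one_iff_mul_comm.2 h1
      exact (QuotientGroup.eq_one_iff _).1 h2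
    have hN2 : IsPGroup 2 N := by
      apply isPGroup_two_of
      intro g hg hgo
      have hgV : ∀ v ∈ V, g * v * g⁻¹ = v := fun v hv => by
        rw [← mem_centralizer_iff.1 (mem_inf.1 hg).2 v hv, mul_inv_cancel_right]
      have h3 : ∀ p ∈ P, g * p * g⁻¹ = p := by
        intro p hp
        have h4 : p⁻¹ * (g * p * g⁻¹) ∈ V := by
          have := hNm g hg p⁻¹ (inv_mem hp)
          have h5 : ⁅p⁻¹, g⁆ = p⁻¹ * (g * p * g⁻¹) := by rw [commutatorElement_def]; group
          rwa [h5] at this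
        have h5 := ThInv1.eq_one_of_fix (a := p) (y := g) (m := 1) (by group) (hgV _ h4) hgo (by
          rw [pow_one]; exact (hV _).1 h4)
        exact (inv_mul_eq_one.1 h5).symm
      have h5 : g ∈ P := hPc (mem_centralizer_iff.2 fun p hp =>
        (mul_inv_eq_iff_eq_mul.1 (h3 p hp)).symm)
      obtain ⟨m, hm⟩ := hP2 ⟨g, h5⟩
      have h6 : g ^ 2 ^ m = 1 := by simpa using congrArg Subtype.val hm
      have h7 : orderOf g ∣ 2 ^ m := orderOf_dvd_of_pow_eq_one h6
      have h8 : Nat.Coprime (orderOf g) (2 ^ m) := Nat.Coprime.pow_right m hgo.coprime_two_right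
      rw [← orderOf_eq_one_iff]
      exact Nat.eq_one_of_dvd_coprimes h8 dvd_rfl h7
    apply Cores.le_pCore hNn hN2
    refine mem_inf.2 ⟨?_, hSC hx⟩
    rw [mem_comap, mem_centralizer_iff]
    rintro _ ⟨p, hp, rfl⟩
    have h1 : QuotientGroup.mk' V ⁅p, x⁆ = 1 := (QuotientGroup.eq_one_iff _).2 (hxP p hp)
    rw [map_commutatorElement] at h1
    exact commutatorElement_eq_one_iff_mul_comm.1 h1
  · rw [hcube, hcV']
  · intro c hc hcV v hv
    obtain ⟨a, ha⟩ := hnd ⟨c, hc⟩ hcV ⟨v, hVP hv⟩ hv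
    exact ⟨a, a.2, congrArg Subtype.val ha⟩

end Cfsg.Agent.Lib.ThInv4
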