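import Cfsg.Agent.Lib.ThDual

/-!
The theta function of a unimodular integral lattice on the imaginary axis.
-/

set_option autoImplicit false

namespace Cfsg.Agent.Lib.ThLat

open Cfsg.Agent.Lib.ThGauss Cfsg.Agent.Lib.ThDual Matrix

variable {n : ℕ} (B : Matrix (Fin n) (Fin n) ℤ)

/-- the integral quadratic form. -/
def qf (x : Fin n → ℤ) : ℤ := x ⬝ᵥ (B *ᵥ x)

/-- the real matrix. -/
def rm : Matrix (Fin n) (Fin n) ℝ := B.map (Int.cast : ℤ → ℝ)

lemma rm_mulVec (x : Fin n → ℤ) : rm B *ᵥ cst x = cst (B *ᵥ x) := by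
  funext i
  simp only [rm, mulVec, dotProduct, cst, Matrix.map_apply]
  push_cast
  rfl

lemma rm_form (x : Fin n → ℤ) : cst x ⬝ᵥ (rm B *ᵥ cst x) = ((qf B x : ℤ) : ℝ) := by
  rw [rm_mulVec]
  simp only [qf, dotProduct, cst]
  push_cast
  rfl

variable {B}

lemma rm_nonneg (hpos : ∀ x : Fin n → ℤ, x ≠ 0 → 0 < x ⬝ᵥ (B *ᵥ x)) (x : Fin n → ℝ) :
    0 ≤ x ⬝ᵥ (rm B *ᵥ x) := by
  have hd : DenseRange (Pi.map (fun _ : Fin n => (Rat.cast : ℚ → ℝ))) :=
    DenseRange.piMap fun _ => Rat.denseRange_cast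
  refine hd.induction_on x ?_ ?_
  · refine isClosed_le continuous_const ?_
    simp only [dotProduct, mulVec]
    fun_prop
  · intro q
    obtain ⟨N, hN, z, hz⟩ : ∃ N : ℕ, 0 < N ∧ ∃ z : Fin n → ℤ, ∀ i, (N : ℚ) * q i = z i := by
      refine ⟨∏ i, (q i).den, Finset.prod_pos fun i _ => (q i).den_pos,
        fun i => (q i).num * ∏ j ∈ Finset.univ.erase i, ((q j).den : ℤ), fun i => ?_⟩
      rw [← Finset.mul_prod_erase Finset.univ _ (Finset.mem_univ i)]
      push_cast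
      rw [mul_right_comm, mul_comm ((q i).den : ℚ) (q i), Rat.mul_den_eq_num]
    have h0 : (0 : ℝ) ≤ ((qf B z : ℤ) : ℝ) := by
      rcases eq_or_ne z 0 with h | h
      · simp [h, qf]
      · exact_mod_cast (hpos z h).le
    rw [← rm_form] at h0
    have e : cst z = (N : ℝ) • (Pi.map (fun _ : Fin n => (Rat.cast : ℚ → ℝ)) q) := by
      funext i
      have := hz i
      simp only [cst, Pi.smul_apply, Pi.map_apply, smul_eq_mul]
      exact_mod_cast this.symm
    rw [e, mulVec_smul, dotProduct_smul, smul_dotProduct, smul_eq_mul, smul_eq_mul] at h0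
    have hN' : (0 : ℝ) < N := by exact_mod_cast hN
    by_contra hneg
    push Not at hneg
    have := mul_neg_of_pos_of_neg hN' (mul_neg_of_pos_of_neg hN' hneg)
    linarith

lemma rm_symm (hs : B.IsSymm) (i j : Fin n) : rm B i j = rm B j i := by
  simp only [rm, Matrix.map_apply]
  rw [hs.apply j i]

lemma rm_pos (hs : B.IsSymm) (hpos : ∀ x : Fin n → ℤ, x ≠ 0 → 0 < x ⬝ᵥ (B *ᵥ x))
    (hdet : B.det = 1) (x : Fin n → ℝ) (hx : x ≠ 0) : 0 < x ⬝ᵥ (rm B *ᵥ x) := by
  rcases (rm_nonneg hpos x).lt_or_eq with h | h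
  · exact h
  exfalso
  apply hx
  have hdet' : (rm B).det ≠ 0 := by
    have : (rm B).det = ((B.det : ℤ) : ℝ) := by
      have := RingHom.map_det (Int.castRingHom ℝ) B
      simpa [rm] using this.symm
    rw [this, hdet]; simp
  have hz : rm B *ᵥ x = 0 := by
    -- every y is orthogonal
    have hsym : ∀ y : Fin n → ℝ, y ⬝ᵥ (rm B *ᵥ x) = x ⬝ᵥ (rm B *ᵥ y) := by
      intro y
      simp only [dotProduct, mulVec, Finset.mul_sum]
      rw [Finset.sum_comm]
      refine Finset.sum_congr rfl fun i _ => Finset.sum_congr rfl fun j _ => ?_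
      rw [rm_symm hs j i]; ring
    have key : ∀ y : Fin n → ℝ, y ⬝ᵥ (rm B *ᵥ x) = 0 := by
      intro y
      set b := y ⬝ᵥ (rm B *ᵥ x) with hb
      set c := y ⬝ᵥ (rm B *ᵥ y) with hc
      have hq : ∀ t : ℝ, 0 ≤ 2 * t * b + t ^ 2 * c := by
        intro t
        have := rm_nonneg hpos (x + t • y)
        rw [mulVec_add, mulVec_smul, add_dotProduct, dotProduct_add, dotProduct_add,
          smul_dotProduct, dotProduct_smul, smul_dotProduct, dotProduct_smul, ← h, ← hsym y,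
          ← hb, ← hc] at this
        simp only [smul_eq_mul] at this
        linarith
      have hc0 : 0 ≤ c := rm_nonneg hpos y
      by_contra hne
      have h1 := hq (-b / (c + 1))
      have h2 : 2 * (-b / (c + 1)) * b + (-b / (c + 1)) ^ 2 * c =
        -(b ^ 2 * (c + 2)) / (c + 1) ^ 2 := by
        field_simp; ring
      rw [h2] at h1
      have h3 : 0 < b ^ 2 * (c + 2) / (c + 1) ^ 2 := by positivity
      have h4 : -(b ^ 2 * (c + 2)) / (c + 1) ^ 2 = -(b ^ 2 * (c + 2) / (c + 1) ^ 2) := by ring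
      linarith
    exact dotProduct_eq_zero _ (fun y => by rw [dotProduct_comm]; exact key y)
  exact Matrix.eq_zero_of_mulVec_eq_zero hdet' hz

/-- the bijection `x ↦ Bx` of the integral lattice. -/
noncomputable def mvEquiv (hdet : B.det = 1) : (Fin n → ℤ) ≃ (Fin n → ℤ) where
  toFun x := B *ᵥ x
  invFun x := B⁻¹ *ᵥ x
  left_inv x := by
    beta_reduce
    rw [mulVec_mulVec, Matrix.nonsing_inv_mul _ (by rw [hdet]; exact isUnit_one), one_mulVec]
  right_inv x := by
    beta_reduce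
    rw [mulVec_mulVec, Matrix.mul_nonsing_inv _ (by rw [hdet]; exact isUnit_one), one_mulVec]

theorem summable_theta (hs : B.IsSymm) (hpos : ∀ x : Fin n → ℤ, x ≠ 0 → 0 < x ⬝ᵥ (B *ᵥ x))
    (hdet : B.det = 1) {t : ℝ} (ht : 0 < t) :
    Summable fun x : Fin n → ℤ => Real.exp (-(Real.pi * t * (qf B x : ℤ))) := by
  obtain ⟨T, hT, -⟩ := exists_gp n (rm B) (rm_symm hs) (rm_pos hs hpos hdet)
  have := hT.pois.1 t ht
  simpa only [rm_form] using this

theorem theta_real (hs : B.IsSymm) (hpos : ∀ x : Fin n → ℤ, x ≠ 0 → 0 < x ⬝ᵥ (B *ᵥ x))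
    (hdet : B.det = 1) {t : ℝ} (ht : 0 < t) :
    ∑' x : Fin n → ℤ, Real.exp (-(Real.pi * t * (qf B x : ℤ))) =
      (√t)⁻¹ ^ n * ∑' x : Fin n → ℤ, Real.exp (-(Real.pi / t * (qf B x : ℤ))) := by
  obtain ⟨T, hT, hTd⟩ := exists_gp n (rm B) (rm_symm hs) (rm_pos hs hpos hdet)
  obtain ⟨h1, -, κ, hκ, h3⟩ := hT.pois
  have key : ∀ t : ℝ, 0 < t → ∑' x : Fin n → ℤ, Real.exp (-(Real.pi * t * (qf B x : ℤ))) =
      κ * (√t)⁻¹ ^ n * ∑' x : Fin n → ℤ, Real.exp (-(Real.pi / t * (qf B x : ℤ))) := by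
    intro t ht
    have h := h3 t ht 0
    have e1 : ∀ x : Fin n → ℤ, ((Real.exp (-(Real.pi * t * (cst x ⬝ᵥ (rm B *ᵥ cst x)))) : ℝ) : ℂ) *
        Complex.exp (2 * Real.pi * Complex.I * (((0 : Fin n → ℝ) ⬝ᵥ cst x : ℝ) : ℂ)) =
        ((Real.exp (-(Real.pi * t * (qf B x : ℤ))) : ℝ) : ℂ) := by
      intro x
      rw [rm_form]; simp
    simp only [e1] at h
    rw [← Complex.ofReal_tsum] at h
    have h' := Complex.ofReal_injective h
    rw [h']
    congr 1
    rw [← (mvEquiv hdet).tsum_eq]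
    refine tsum_congr fun x => ?_
    have : cst ((mvEquiv hdet) x) - 0 = rm B *ᵥ cst x := by
      rw [sub_zero, rm_mulVec]; rfl
    rw [this, hTd, rm_form]
  have hκ1 : κ = 1 := by
    have h := key 1 one_pos
    simp only [mul_one, Real.sqrt_one, inv_one, one_pow, div_one] at h
    have hsum : Summable fun x : Fin n → ℤ => Real.exp (-(Real.pi * (qf B x : ℤ))) := by
      have := h1 1 one_pos
      simpa only [rm_form, mul_one] using this
    have hp : 0 < ∑' x : Fin n → ℤ, Real.exp (-(Real.pi * (qf B x : ℤ))) :=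
      hsum.tsum_pos (fun _ => (Real.exp_pos _).le) 0 (Real.exp_pos _)
    have : (κ - 1) * ∑' x : Fin n → ℤ, Real.exp (-(Real.pi * (qf B x : ℤ))) = 0 := by
      linarith
    rcases mul_eq_zero.mp this with h | h
    · linarith
    · exact absurd h hp.ne'
  rw [key t ht, hκ1, one_mul]

end Cfsg.Agent.Lib.ThLat
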