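import Cfsg.Agent.Lib.H10Enum
import Cfsg.Agent.Lib.SchurSylow
import Cfsg.Prelude.Def_Spor_Th

/-! The relators of the Thompson group as words, central extensions, and the splitting criterion. -/

set_option autoImplicit false
set_option linter.all false

namespace Cfsg.Agent.Lib.ThMa

open Subgroup Cfsg.Agent.Lib.H10Enum Cfsg.Agent.Lib.SchurSylow
open Cfsg.Spor

/-- the 39 relators: letter codes `2c` for the generator `c`, `2c+1` for its inverse (a b c d e s t u = 1 .. 8) -/
def relW : List (List ℕ) := [[2, 2], [4, 4], [6, 6], [8, 8], [10, 10], [2, 4, 2, 4, 2, 4], [2, 10, 2, 10], [4, 6, 4, 6, 4, 6], [4, 8, 4, 8], [4, 10, 4, 10], [2, 9, 7, 9, 7, 9, 7, 9, 7], [6, 10, 6, 10], [8, 10, 8, 10, 8, 10], [4, 6, 8, 10, 4, 6, 8, 10, 4, 6, 8, 10, 4, 6, 8, 10, 4, 6, 8, 10, 4, 6, 8, 10, 4, 6, 8, 10, 4, 6, 8, 10], [12, 12, 12, 12, 12, 12, 12], [13, 3, 12, 2], [13, 5, 12, 4], [13, 7, 12, 6], [12, 8, 12, 8], [11, 13, 10, 13, 13, 11, 12, 12, 12], [14, 14, 14], [15, 3, 14, 2], [15, 5, 14,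 4], [15, 7, 14, 6], [15, 9, 14, 8], [15, 11, 14, 10], [15, 12, 14, 13, 13], [16, 16, 7, 3], [17, 3, 16, 2], [17, 7, 16, 6], [17, 11, 16, 10], [8, 10, 17, 8, 16, 8, 10, 17, 8, 16], [17, 5, 7, 3, 4, 16, 5, 2, 6, 4, 11], [9, 17, 8, 5, 7, 3, 4, 9, 16, 8, 5, 2, 6, 4, 7, 11, 9, 17, 8, 5, 7, 3, 4, 11, 17], [17, 14, 16, 14], [11, 13, 13, 17, 12, 12, 10, 13, 13, 16, 12, 12], [2, 6, 13, 17, 13, 17, 13, 17], [2, 6, 13, 17, 12, 16, 13, 17, 12, 16, 13, 17, 12, 16, 13, 17, 12, 16], [8, 13, 13, 16, 12, 12, 8, 13, 13, 16, 12, 12, 8, 13, 13, 16, 12, 12, 8, 13, 13, 16, 11, 9, 7, 8, 10, 12, 12, 12, 11, 9, 7, 8, 10, 13, 9, 7, 8, 7, 3]]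

/-- the relator number `i` -/
def rl (i : ℕ) : List ℕ := nthw relW i

/-- generators of `Th` -/
def gen : ℕ → Th.Gen
  | 1 => .a
  | 2 => .b
  | 3 => .c
  | 4 => .d
  | 5 => .e
  | 6 => .s
  | 7 => .t
  | _ => .u

/-- the images of the generators -/
def tx : ℕ → Th := fun n => if n = 0 then 1 else PresentedGroup.of (gen n)

/-- an assignment on the letters -/
def xx {Γ : Type*} [Group Γ] (a b c d e s t u : Γ) : ℕ → Γ
  | 0 => 1
  | 1 => a
  | 2 => b
  | 3 => c
  | 4 => d
  | 5 => e
  | 6 => s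
  | 7 => t
  | _ => u

theorem tx_eq : ∀ n, n < 9 → tx n = xx (PresentedGroup.of Th.Gen.a : Th) (PresentedGroup.of Th.Gen.b : Th) (PresentedGroup.of Th.Gen.c : Th)
    (PresentedGroup.of Th.Gen.d : Th) (PresentedGroup.of Th.Gen.e : Th) (PresentedGroup.of Th.Gen.s : Th) (PresentedGroup.of Th.Gen.t : Th) (PresentedGroup.of Th.Gen.u : Th) n := by
  intro n hn
  interval_cases n <;> rfl

theorem wval_congr {Γ : Type*} [Group Γ] {x y : ℕ → Γ} {w : List ℕ} (h : ∀ c ∈ w, x (c / 2) = y (c / 2)) :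
    wval x w = wval y w := by
  unfold wval
  congr 1
  apply List.map_congr_left
  intro c hc
  unfold val
  rw [h c hc]

theorem map_wval {Γ Δ : Type*} [Group Γ] [Group Δ] (f : Γ →* Δ) (x : ℕ → Γ) (w : List ℕ) :
    f (wval x w) = wval (fun n => f (x n)) w := by
  unfold wval
  rw [map_list_prod, List.map_map]
  congr 1
  apply List.map_congr_left
  intro c _
  simp only [Function.comp, val]
  split_ifs with h
  · rfl
  · rw [map_inv]

set_option maxHeartbeats 4000000 in
/-- a hom from `Th` -/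
theorem exists_hom {Γ : Type*} [Group Γ] (a b c d e s t u : Γ)
    (h : ∀ w ∈ relW, wval (xx a b c d e s t u) w = 1) :
    ∃ τ : Th →* Γ, τ (PresentedGroup.of Th.Gen.a) = a ∧ τ (PresentedGroup.of Th.Gen.b) = b ∧
      τ (PresentedGroup.of Th.Gen.c) = c ∧ τ (PresentedGroup.of Th.Gen.d) = d ∧
      τ (PresentedGroup.of Th.Gen.e) = e ∧ τ (PresentedGroup.of Th.Gen.s) = s ∧
      τ (PresentedGroup.of Th.Gen.t) = t ∧ τ (PresentedGroup.of Th.Gen.u) = u := by
  let f : Th.Gen → Γ := fun g => match g with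
    | .a => a | .b => b | .c => c | .d => d | .e => e | .s => s | .t => t | .u => u
  have hf : ∀ r ∈ (coxRelators Th.edges ∪ {r | r ∈ Th.extra}), FreeGroup.lift f r = 1 := by
    intro r hr
    rcases hr with hr | hr
    · obtain ⟨x, hx, -⟩ := hr
      simp [coxNodes, Th.edges] at hx
    · simp only [Set.mem_setOf_eq, Th.extra, List.mem_cons, List.not_mem_nil, or_false] at hr
      simp only [relW, List.mem_cons, List.not_mem_nil, or_false, forall_eq_or_imp, forall_eq] at h
      obtain ⟨h0, h1, h2, h3, h4, h5, h6, h7, h8, h9, h10, h11, h12, h13, h14, h15, h16, h17, h18, h19, h20, h21, h22, h23, h24, h25, h26, h27, h28, h29, h30, h31, h32, h33, h34, h35, h36, h37, h38⟩ := h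
      rcases hr with rfl | rfl | rfl | rfl | rfl | rfl | rfl | rfl | rfl | rfl | rfl | rfl | rfl | rfl | rfl | rfl | rfl | rfl | rfl | rfl | rfl | rfl | rfl | rfl | rfl | rfl | rfl | rfl | rfl | rfl | rfl | rfl | rfl | rfl | rfl | rfl | rfl | rfl | rfl
      · simpa [f, wval, val, xx, mul_assoc, pow_succ, mul_inv_rev] using h0
      · simpa [f, wval, val, xx, mul_assoc, pow_succ, mul_inv_rev] using h1
      · simpa [f, wval, val, xx, mul_assoc, pow_succ, mul_inv_rev] using h2
      · simpa [f, wval, val, xx, mul_assoc, pow_succ, mul_inv_rev] using h3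
      · simpa [f, wval, val, xx, mul_assoc, pow_succ, mul_inv_rev] using h4
      · simpa [f, wval, val, xx, mul_assoc, pow_succ, mul_inv_rev] using h5
      · simpa [f, wval, val, xx, mul_assoc, pow_succ, mul_inv_rev] using h6
      · simpa [f, wval, val, xx, mul_assoc, pow_succ, mul_inv_rev] using h7
      · simpa [f, wval, val, xx, mul_assoc, pow_succ, mul_inv_rev] using h8
      · simpa [f, wval, val, xx, mul_assoc, pow_succ, mul_inv_rev] using h9
      · simpa [f, wval, val, xx, mul_assoc, pow_succ, mul_inv_rev] using h10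
      · simpa [f, wval, val, xx, mul_assoc, pow_succ, mul_inv_rev] using h11
      · simpa [f, wval, val, xx, mul_assoc, pow_succ, mul_inv_rev] using h12
      · simpa [f, wval, val, xx, mul_assoc, pow_succ, mul_inv_rev] using h13
      · simpa [f, wval, val, xx, mul_assoc, pow_succ, mul_inv_rev] using h14
      · simpa [f, wval, val, xx, mul_assoc, pow_succ, mul_inv_rev] using h15
      · simpa [f, wval, val, xx, mul_assoc, pow_succ, mul_inv_rev] using h16
      · simpa [f, wval, val, xx, mul_assoc, pow_succ, mul_inv_rev] using h17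
      · simpa [f, wval, val, xx, mul_assoc, pow_succ, mul_inv_rev] using h18
      · simpa [f, wval, val, xx, mul_assoc, pow_succ, mul_inv_rev] using h19
      · simpa [f, wval, val, xx, mul_assoc, pow_succ, mul_inv_rev] using h20
      · simpa [f, wval, val, xx, mul_assoc, pow_succ, mul_inv_rev] using h21
      · simpa [f, wval, val, xx, mul_assoc, pow_succ, mul_inv_rev] using h22
      · simpa [f, wval, val, xx, mul_assoc, pow_succ, mul_inv_rev] using h23
      · simpa [f, wval, val, xx, mul_assoc, pow_succ, mul_inv_rev] using h24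
      · simpa [f, wval, val, xx, mul_assoc, pow_succ, mul_inv_rev] using h25
      · simpa [f, wval, val, xx, mul_assoc, pow_succ, mul_inv_rev] using h26
      · simpa [f, wval, val, xx, mul_assoc, pow_succ, mul_inv_rev] using h27
      · simpa [f, wval, val, xx, mul_assoc, pow_succ, mul_inv_rev] using h28
      · simpa [f, wval, val, xx, mul_assoc, pow_succ, mul_inv_rev] using h29
      · simpa [f, wval, val, xx, mul_assoc, pow_succ, mul_inv_rev] using h30
      · simpa [f, wval, val, xx, mul_assoc, pow_succ, mul_inv_rev] using h31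
      · simpa [f, wval, val, xx, mul_assoc, pow_succ, mul_inv_rev] using h32
      · simpa [f, wval, val, xx, mul_assoc, pow_succ, mul_inv_rev] using h33
      · simpa [f, wval, val, xx, mul_assoc, pow_succ, mul_inv_rev] using h34
      · simpa [f, wval, val, xx, mul_assoc, pow_succ, mul_inv_rev] using h35
      · simpa [f, wval, val, xx, mul_assoc, pow_succ, mul_inv_rev] using h36
      · simpa [f, wval, val, xx, mul_assoc, pow_succ, mul_inv_rev] using h37
      · simpa [f, wval, val, xx, mul_assoc, pow_succ, mul_inv_rev] using h38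
  exact ⟨PresentedGroup.toGroup hf, by simp [f], by simp [f], by simp [f], by simp [f], by simp [f], by simp [f],
    by simp [f], by simp [f]⟩

/-- the quotient map -/
def mkT : FreeGroup Th.Gen →* Th := PresentedGroup.mk (coxRelators Th.edges ∪ {r | r ∈ Th.extra})

theorem mkT_of (g : Th.Gen) : mkT (FreeGroup.of g) = (PresentedGroup.of g : Th) := rfl

theorem mkT_one {r : FreeGroup Th.Gen} (h : r ∈ Th.extra) : mkT r = 1 :=
  PresentedGroup.one_of_mem (Or.inr h)

/-- the generators of `Th` -/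
def gx : ℕ → Th := xx (mkT (FreeGroup.of Th.Gen.a)) (mkT (FreeGroup.of Th.Gen.b)) (mkT (FreeGroup.of Th.Gen.c))
  (mkT (FreeGroup.of Th.Gen.d)) (mkT (FreeGroup.of Th.Gen.e)) (mkT (FreeGroup.of Th.Gen.s))
  (mkT (FreeGroup.of Th.Gen.t)) (mkT (FreeGroup.of Th.Gen.u))

set_option maxHeartbeats 4000000 in
/-- the relators hold in `Th` -/
theorem rel_th : ∀ w ∈ relW, wval gx w = 1 := by
  have key : ∀ r ∈ Th.extra, mkT r = 1 := fun r h => mkT_one h
  simp only [Th.extra, List.mem_cons, List.not_mem_nil, or_false, forall_eq_or_imp, forall_eq] at key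
  simp only [relW, List.mem_cons, List.not_mem_nil, or_false, forall_eq_or_imp, forall_eq]
  obtain ⟨h0, h1, h2, h3, h4, h5, h6, h7, h8, h9, h10, h11, h12, h13, h14, h15, h16, h17, h18, h19, h20, h21, h22, h23, h24, h25, h26, h27, h28, h29, h30, h31, h32, h33, h34, h35, h36, h37, h38⟩ := key
  refine ⟨?_, ?_, ?_, ?_, ?_, ?_, ?_, ?_, ?_, ?_, ?_, ?_, ?_, ?_, ?_, ?_, ?_, ?_, ?_, ?_, ?_, ?_, ?_, ?_, ?_, ?_, ?_, ?_, ?_, ?_, ?_, ?_, ?_, ?_, ?_, ?_, ?_, ?_, ?_⟩
  · simpa [gx, wval, val, xx, mul_assoc, pow_succ, mul_inv_rev] using h0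
  · simpa [gx, wval, val, xx, mul_assoc, pow_succ, mul_inv_rev] using h1
  · simpa [gx, wval, val, xx, mul_assoc, pow_succ, mul_inv_rev] using h2
  · simpa [gx, wval, val, xx, mul_assoc, pow_succ, mul_inv_rev] using h3
  · simpa [gx, wval, val, xx, mul_assoc, pow_succ, mul_inv_rev] using h4
  · simpa [gx, wval, val, xx, mul_assoc, pow_succ, mul_inv_rev] using h5
  · simpa [gx, wval, val, xx, mul_assoc, pow_succ, mul_inv_rev] using h6
  · simpa [gx, wval, val, xx, mul_assoc, pow_succ, mul_inv_rev] using h7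
  · simpa [gx, wval, val, xx, mul_assoc, pow_succ, mul_inv_rev] using h8
  · simpa [gx, wval, val, xx, mul_assoc, pow_succ, mul_inv_rev] using h9
  · simpa [gx, wval, val, xx, mul_assoc, pow_succ, mul_inv_rev] using h10
  · simpa [gx, wval, val, xx, mul_assoc, pow_succ, mul_inv_rev] using h11
  · simpa [gx, wval, val, xx, mul_assoc, pow_succ, mul_inv_rev] using h12
  · simpa [gx, wval, val, xx, mul_assoc, pow_succ, mul_inv_rev] using h13
  · simpa [gx, wval, val, xx, mul_assoc, pow_succ, mul_inv_rev] using h14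
  · simpa [gx, wval, val, xx, mul_assoc, pow_succ, mul_inv_rev] using h15
  · simpa [gx, wval, val, xx, mul_assoc, pow_succ, mul_inv_rev] using h16
  · simpa [gx, wval, val, xx, mul_assoc, pow_succ, mul_inv_rev] using h17
  · simpa [gx, wval, val, xx, mul_assoc, pow_succ, mul_inv_rev] using h18
  · simpa [gx, wval, val, xx, mul_assoc, pow_succ, mul_inv_rev] using h19
  · simpa [gx, wval, val, xx, mul_assoc, pow_succ, mul_inv_rev] using h20
  · simpa [gx, wval, val, xx, mul_assoc, pow_succ, mul_inv_rev] using h21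
  · simpa [gx, wval, val, xx, mul_assoc, pow_succ, mul_inv_rev] using h22
  · simpa [gx, wval, val, xx, mul_assoc, pow_succ, mul_inv_rev] using h23
  · simpa [gx, wval, val, xx, mul_assoc, pow_succ, mul_inv_rev] using h24
  · simpa [gx, wval, val, xx, mul_assoc, pow_succ, mul_inv_rev] using h25
  · simpa [gx, wval, val, xx, mul_assoc, pow_succ, mul_inv_rev] using h26
  · simpa [gx, wval, val, xx, mul_assoc, pow_succ, mul_inv_rev] using h27
  · simpa [gx, wval, val, xx, mul_assoc, pow_succ, mul_inv_rev] using h28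
  · simpa [gx, wval, val, xx, mul_assoc, pow_succ, mul_inv_rev] using h29
  · simpa [gx, wval, val, xx, mul_assoc, pow_succ, mul_inv_rev] using h30
  · simpa [gx, wval, val, xx, mul_assoc, pow_succ, mul_inv_rev] using h31
  · simpa [gx, wval, val, xx, mul_assoc, pow_succ, mul_inv_rev] using h32
  · simpa [gx, wval, val, xx, mul_assoc, pow_succ, mul_inv_rev] using h33
  · simpa [gx, wval, val, xx, mul_assoc, pow_succ, mul_inv_rev] using h34
  · simpa [gx, wval, val, xx, mul_assoc, pow_succ, mul_inv_rev] using h35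
  · simpa [gx, wval, val, xx, mul_assoc, pow_succ, mul_inv_rev] using h36
  · simpa [gx, wval, val, xx, mul_assoc, pow_succ, mul_inv_rev] using h37
  · simpa [gx, wval, val, xx, mul_assoc, pow_succ, mul_inv_rev] using h38

end Cfsg.Agent.Lib.ThMa
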