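import Cfsg.Agent.Lib.ThMa
import Cfsg.Prelude.Def_KGroupFacts

/-! Central extensions of the Thompson group: splitting criterion, central elements, cosets certificates. -/

set_option autoImplicit false
set_option linter.all false

namespace Cfsg.Agent.Lib.ThMb

open Subgroup Cfsg.Agent.Lib.H10Enum Cfsg.Agent.Lib.SchurSylow Cfsg.Agent.Lib.ThMa
open Cfsg.Spor Cfsg
open scoped commutatorElement

universe u

/-- it suffices to exclude kernels of order `p` -/
theorem pStem_one {G : Type u} [Group G] {p : ℕ} [hp : Fact p.Prime]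
    (h : ∀ (Γ : Type u) [Group Γ] [Finite Γ] (σ : Γ →* G), IsStemExtension σ → Nat.card σ.ker ≠ p) : PStemDvd p G 1 := by
  intro Γ _ _ σ hσ hpg
  obtain ⟨n, hn⟩ := IsPGroup.iff_card.1 hpg
  rcases Nat.eq_zero_or_pos n with h0 | h0
  · rw [hn, h0, pow_zero]
  exfalso
  obtain ⟨B0, hB0⟩ := Sylow.exists_subgroup_card_pow_prime (G := σ.ker) p (n := n - 1) (by rw [hn]; exact pow_dvd_pow p (by omega))
  let B : Subgroup Γ := B0.map σ.ker.subtype
  have hB : B ≤ σ.ker := by
    rintro _ ⟨x, -, rfl⟩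
    exact x.2
  haveI hBn : B.Normal := by
    refine ⟨fun x hx g => ?_⟩
    have : g * x * g⁻¹ = x := by rw [mem_center_iff.1 (hσ.2.1 (hB hx)) g]; group
    rw [this]; exact hx
  obtain ⟨hst, hker⟩ := quotient_isStem σ hσ B hB
  apply h _ _ hst
  rw [hker]
  have h1 : Nat.card (σ.ker.map (QuotientGroup.mk' B)) * Nat.card B = Nat.card σ.ker := by
    let F : σ.ker →* (σ.ker.map (QuotientGroup.mk' B)) :=
      { toFun := fun x => ⟨QuotientGroup.mk' B (x : Γ), ⟨x, x.2, rfl⟩⟩
        map_one' := Subtype.ext (map_one _)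
        map_mul' := fun x y => Subtype.ext (map_mul _ _ _) }
    have hF : Function.Surjective F := by
      rintro ⟨_, x, hx, rfl⟩
      exact ⟨⟨x, hx⟩, rfl⟩
    have hFk : F.ker = B0 := by
      ext x
      rw [MonoidHom.mem_ker]
      constructor
      · intro hx
        have h6 : QuotientGroup.mk' B (x : Γ) = 1 := congrArg Subtype.val hx
        rw [QuotientGroup.mk'_apply, QuotientGroup.eq_one_iff] at h6
        obtain ⟨y, hy, hyx⟩ := h6
        have : y = x := Subtype.ext hyx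
        rwa [← this]
      · intro hx
        apply Subtype.ext
        show QuotientGroup.mk' B (x : Γ) = 1
        rw [QuotientGroup.mk'_apply, QuotientGroup.eq_one_iff]
        exact ⟨x, hx, rfl⟩
    have h7 : Nat.card B = Nat.card B0 := (Nat.card_congr (B0.equivMapOfInjective _ (subtype_injective σ.ker)).toEquiv).symm
    rw [h7, ← hFk, card_eq_card_quotient_mul_card_subgroup F.ker]
    congr 1
    exact (Nat.card_congr (QuotientGroup.quotientKerEquivOfSurjective F hF).toEquiv).symm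
  have h7 : Nat.card B = p ^ (n - 1) := by
    rw [← hB0]; exact (Nat.card_congr (B0.equivMapOfInjective _ (subtype_injective σ.ker)).toEquiv).symm
  rw [h7, hn] at h1
  have h8 : p ^ n = p * p ^ (n - 1) := by rw [← pow_succ']; congr 1; omega
  rw [h8] at h1
  exact Nat.eq_of_mul_eq_mul_right (pow_pos hp.out.pos _) h1

/-- the generators generate -/
theorem hom_ext_th {M : Type*} [Group M] {f g : Th →* M} (h : ∀ n, n < 9 → f (gx n) = g (gx n)) : f = g := by
  apply PresentedGroup.ext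
  intro x
  cases x
  · exact h 1 (by norm_num)
  · exact h 2 (by norm_num)
  · exact h 3 (by norm_num)
  · exact h 4 (by norm_num)
  · exact h 5 (by norm_num)
  · exact h 6 (by norm_num)
  · exact h 7 (by norm_num)
  · exact h 8 (by norm_num)

/-- if the relators lift, the kernel of a stem extension is trivial -/
theorem split {Γ : Type} [Group Γ] {σ : Γ →* Th} (hσ : IsStemExtension σ) (a b c d e s t u : Γ)
    (hl : ∀ n, n < 9 → σ (xx a b c d e s t u n) = gx n)
    (h : ∀ w ∈ relW, wval (xx a b c d e s t u) w = 1) : σ.ker = ⊥ := by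
  obtain ⟨τ, ha, hb, hc, hd, he, hs, ht, hu⟩ := exists_hom a b c d e s t u h
  have hst : σ.comp τ = MonoidHom.id Th := by
    apply hom_ext_th
    intro n hn
    rw [MonoidHom.comp_apply, MonoidHom.id_apply, ← hl n hn]
    apply congrArg σ
    rw [hl n hn]
    interval_cases n
    · show τ 1 = 1; rw [map_one]
    · exact ha
    · exact hb
    · exact hc
    · exact hd
    · exact he
    · exact hs
    · exact ht
    · exact hu
  have hst' : ∀ y, σ (τ y) = y := fun y => DFunLike.congr_fun hst y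
  have hcom : commutator Γ ≤ τ.range := by
    rw [_root_.commutator_def, commutator_le]
    intro g _ h _
    have hg : τ (σ g) * g⁻¹ ∈ center Γ := hσ.2.1 (by rw [MonoidHom.mem_ker, map_mul, hst', map_inv, mul_inv_cancel])
    have hh : τ (σ h) * h⁻¹ ∈ center Γ := hσ.2.1 (by rw [MonoidHom.mem_ker, map_mul, hst', map_inv, mul_inv_cancel])
    refine ⟨⁅σ g, σ h⁆, ?_⟩
    rw [map_commutatorElement]
    obtain ⟨z, hz, e1⟩ : ∃ z ∈ center Γ, τ (σ g) = z * g := ⟨_, hg, by group⟩
    obtain ⟨w, hw, e2⟩ : ∃ w ∈ center Γ, τ (σ h) = w * h := ⟨_, hh, by group⟩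
    rw [e1, e2, commutatorElement_def, commutatorElement_def]
    have hz' := mem_center_iff.1 hz
    have hw' := mem_center_iff.1 hw
    calc z * g * (w * h) * (z * g)⁻¹ * (w * h)⁻¹ = z * (g * w) * h * g⁻¹ * z⁻¹ * h⁻¹ * w⁻¹ := by group
      _ = z * (w * g) * h * g⁻¹ * z⁻¹ * h⁻¹ * w⁻¹ := by rw [hw' g]
      _ = z * (w * (g * h * g⁻¹)) * z⁻¹ * h⁻¹ * w⁻¹ := by group
      _ = z * ((g * h * g⁻¹) * w) * z⁻¹ * h⁻¹ * w⁻¹ := by rw [hw' (g * h * g⁻¹)]
      _ = z * ((g * h * g⁻¹) * w * z⁻¹ * h⁻¹ * w⁻¹) := by group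
      _ = ((g * h * g⁻¹) * w * z⁻¹ * h⁻¹ * w⁻¹) * z := by rw [hz' _]
      _ = (g * h * g⁻¹) * w * (z⁻¹ * (h⁻¹ * w⁻¹ * z)) := by group
      _ = (g * h * g⁻¹) * w * (z⁻¹ * (z * (h⁻¹ * w⁻¹))) := by rw [hz' (h⁻¹ * w⁻¹)]
      _ = (g * h * g⁻¹) * (w * (h⁻¹ * w⁻¹)) := by group
      _ = (g * h * g⁻¹) * ((h⁻¹ * w⁻¹) * w) := by rw [hw' (h⁻¹ * w⁻¹)]
      _ = g * h * g⁻¹ * h⁻¹ := by group
  rw [eq_bot_iff]
  intro z hz
  obtain ⟨y, rfl⟩ := hcom (hσ.2.2 hz)
  rw [mem_bot]
  have : y = 1 := by rw [← hst' y]; exact hz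
  rw [this, map_one]

section central

variable {Γ : Type*} [Group Γ] {Z : Subgroup Γ}

theorem cpow (hZ : Z ≤ center Γ) {z : Γ} (hz : z ∈ Z) (x : Γ) (n : ℕ) : (x * z) ^ n = x ^ n * z ^ n := by
  have : Commute x z := mem_center_iff.1 (hZ hz) x
  exact this.mul_pow n

theorem one_of_cop {p n : ℕ} (hp : ∀ z ∈ Z, z ^ p = 1) (hn : Nat.Coprime n p) {z : Γ} (hz : z ∈ Z) (h : z ^ n = 1) :
    z = 1 := by
  have h1 := orderOf_dvd_of_pow_eq_one h
  have h2 := orderOf_dvd_of_pow_eq_one (hp z hz)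
  have h3 := Nat.dvd_gcd h1 h2
  rw [hn] at h3
  exact orderOf_eq_one_iff.1 (Nat.dvd_one.1 h3)

/-- every element of `Z` is an `n`-th power -/
theorem exists_root {p n : ℕ} (hp : ∀ z ∈ Z, z ^ p = 1) (hn : Nat.Coprime n p) (hp1 : 1 < p) {z : Γ} (hz : z ∈ Z) :
    ∃ w ∈ Z, w ^ n = z := by
  obtain ⟨k, -, hk⟩ := Nat.exists_mul_mod_eq_one_of_coprime hn hp1
  refine ⟨z ^ k, Z.pow_mem hz _, ?_⟩
  rw [← pow_mul, mul_comm k n, ← Nat.mod_add_div (n * k) p, hk, pow_add, pow_one, pow_mul, hp z hz, one_pow, mul_one]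

theorem lift_ord {p n : ℕ} (hZ : Z ≤ center Γ) (hp : ∀ z ∈ Z, z ^ p = 1) (hn : Nat.Coprime n p) (hp1 : 1 < p) {x : Γ}
    (h : x ^ n ∈ Z) : ∃ z ∈ Z, (x * z) ^ n = 1 := by
  obtain ⟨w, hw, h1⟩ := exists_root hp hn hp1 (Z.inv_mem h)
  exact ⟨w, hw, by rw [cpow hZ hw, h1, mul_inv_cancel]⟩

theorem ord_uniq {p n : ℕ} (hZ : Z ≤ center Γ) (hp : ∀ z ∈ Z, z ^ p = 1) (hn : Nat.Coprime n p) {x z : Γ} (hz : z ∈ Z)
    (h1 : x ^ n = 1) (h2 : (x * z) ^ n = 1) : z = 1 := by
  apply one_of_cop hp hn hz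
  rw [cpow hZ hz, h1, one_mul] at h2
  exact h2

/-- a canonical element commutes with everything commuting modulo the center -/
theorem conj_canon {p n : ℕ} (hZ : Z ≤ center Γ) (hp : ∀ z ∈ Z, z ^ p = 1) (hn : Nat.Coprime n p) {x g z : Γ}
    (hz : z ∈ Z) (h1 : x ^ n = 1) (h2 : g⁻¹ * x * g = x * z) : z = 1 := by
  apply ord_uniq hZ hp hn hz h1
  rw [← h2]
  have : (g⁻¹ * x * g) ^ n = g⁻¹ * x ^ n * g := by
    have := conj_pow (i := n) (a := g⁻¹) (b := x)
    rw [inv_inv] at this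
    exact this
  rw [this, h1]; group

end central

/-! ### certificates -/

/-- a list of codes is a trivial word or a commutator with a central letter -/
def okw (facts : List (List ℕ)) (cen : List ℕ) (w : List ℕ) : Bool :=
  facts.contains w || (match w with
    | [A, B] => decide (A % 2 = 0) && decide (B = A + 1)
    | [A, B, C, D] => decide (C % 2 = 0) && decide (D % 2 = 0) && decide (A = C + 1) && decide (B = D + 1) && cen.contains (C / 2)
    | _ => false)

theorem okw_sound {Γ : Type*} [Group Γ] {X : ℕ → Γ} {facts : List (List ℕ)} {cen : List ℕ}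
    (hf : ∀ w ∈ facts, wval X w = 1) (hc : ∀ z ∈ cen, X z ∈ center Γ) {w : List ℕ} (h : okw facts cen w = true) :
    wval X w = 1 := by
  unfold okw at h
  rw [Bool.or_eq_true] at h
  rcases h with h | h
  · exact hf w (by simpa using h)
  · split at h
    · rename_i A B
      simp only [Bool.and_eq_true, decide_eq_true_eq] at h
      obtain ⟨h1, h2⟩ := h
      obtain ⟨k, rfl⟩ : ∃ k, A = 2 * k := ⟨A / 2, by omega⟩
      subst h2
      rw [wval_cons, wval_cons, wval_nil, val_even, val_odd, mul_one, mul_inv_cancel]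
    · rename_i A B C D
      simp only [Bool.and_eq_true, decide_eq_true_eq] at h
      obtain ⟨⟨⟨⟨h1, h2⟩, h3⟩, h4⟩, h5⟩ := h
      obtain ⟨k, rfl⟩ : ∃ k, C = 2 * k := ⟨C / 2, by omega⟩
      obtain ⟨l, rfl⟩ : ∃ l, D = 2 * l := ⟨D / 2, by omega⟩
      subst h3 h4
      have h6 : k ∈ cen := by
        have : 2 * k / 2 = k := by omega
        rw [this] at h5
        simpa using h5
      rw [wval_cons, wval_cons, wval_cons, wval_cons, wval_nil, val_even, val_even, val_odd, val_odd, mul_one]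
      have := mem_center_iff.1 (hc k h6) (X l)
      rw [← this]; group
    · exact absurd h Bool.false_ne_true

/-- membership of a letter in a subgroup from a certificate -/
theorem mem_of_cert {Γ : Type*} [Group Γ] (H : Subgroup Γ) {T iv fuel m N : ℕ} {sub S : List ℕ} {R : List (List ℕ)}
    {rs : List Rule} {X : ℕ → Γ} (hx0 : X 0 = 1) (hiv : ∀ c, iv.testBit c = true → (X c)⁻¹ = X c)
    (hR : ∀ w ∈ R, wval X w = 1) (hsub : ∀ c ∈ sub, X c ∈ H) (h : check T iv fuel m N sub S R rs = true)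
    {k c : ℕ} (hk : k < N) (hv : fct T k = 33554432 * c) (hc : c < 128) : X c ∈ H := by
  have h1 := sound (X := Γ ⧸ H) (x := X) (p := ((1 : Γ) : Γ ⧸ H)) hx0 hiv hR (by
    intro c hc
    rw [MulAction.Quotient.smul_coe, smul_eq_mul, mul_one]
    exact (QuotientGroup.eq).2 (by rw [mul_one]; exact H.inv_mem (hsub c hc))) h k hk
  unfold Good at h1
  rw [hv] at h1
  have e1 : fsrc (33554432 * c) = 0 := by unfold fsrc; show (33554432 * c) % 4096 = 0; omega
  have e2 : fdst (33554432 * c) = 0 := by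
    unfold fdst; show ((33554432 * c) >>> 12) % 4096 = 0; rw [Nat.shiftRight_eq_div_pow]; omega
  have e3 : flet (33554432 * c) = 2 * c := by
    unfold flet; show (33554432 * c) >>> 24 = 2 * c; rw [Nat.shiftRight_eq_div_pow]; omega
  rw [e1, e2, e3, val_even, pts_zero, MulAction.Quotient.smul_coe, smul_eq_mul, mul_one] at h1
  have h2 := (QuotientGroup.eq).1 h1
  rwa [inv_one, one_mul] at h2

end Cfsg.Agent.Lib.ThMb
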