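import Cfsg.Agent.Lib.ThMb

/-! Tools for lifting the relators of `Th`. -/

set_option autoImplicit false
set_option linter.all false

namespace Cfsg.Agent.Lib.ThMc

open Subgroup Cfsg.Agent.Lib.H10Enum Cfsg.Agent.Lib.SchurSylow Cfsg.Agent.Lib.ThMa Cfsg.Agent.Lib.ThMb
open Cfsg.Spor Cfsg

section central

variable {Γ : Type*} [Group Γ] {Z : Subgroup Γ}

theorem cc (hZ : Z ≤ center Γ) {z : Γ} (hz : z ∈ Z) (g : Γ) : g * z = z * g := mem_center_iff.1 (hZ hz) g

/-- `g⁻¹ x⁻¹ g x` for a canonical `x` -/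
theorem comm1 {p n : ℕ} (hZ : Z ≤ center Γ) (hp : ∀ z ∈ Z, z ^ p = 1) (hn : Nat.Coprime n p) {x g : Γ}
    (h1 : x ^ n = 1) (h : g⁻¹ * x⁻¹ * g * x ∈ Z) : g⁻¹ * x⁻¹ * g * x = 1 := by
  apply conj_canon hZ hp hn (x := x⁻¹) (g := g) h (by rw [inv_pow, h1, inv_one])
  rw [cc hZ h]; group

/-- `x⁻¹ g⁻¹ x g` for a canonical `x` -/
theorem comm2 {p n : ℕ} (hZ : Z ≤ center Γ) (hp : ∀ z ∈ Z, z ^ p = 1) (hn : Nat.Coprime n p) {x g : Γ}
    (h1 : x ^ n = 1) (h : x⁻¹ * g⁻¹ * x * g ∈ Z) : x⁻¹ * g⁻¹ * x * g = 1 := by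
  apply conj_canon hZ hp hn (x := x) (g := g) h h1
  group

/-- an element of `Z` which is inverted -/
theorem one_of_inv {p : ℕ} (hp : ∀ z ∈ Z, z ^ p = 1) (h2 : Nat.Coprime 2 p) {z : Γ} (hz : z ∈ Z) (h : z = z⁻¹) :
    z = 1 := by
  apply one_of_cop hp h2 hz
  rw [pow_two]
  nth_rewrite 2 [h]
  exact mul_inv_cancel z

/-- powers of products of two involutions, odd case -/
theorem dih {p : ℕ} (hZ : Z ≤ center Γ) (hp : ∀ z ∈ Z, z ^ p = 1) (h2 : Nat.Coprime 2 p) {x y : Γ}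
    (hx : x * x = 1) (hy : y * y = 1) {m : ℕ} (h : (x * y) ^ m ∈ Z) : (x * y) ^ m = 1 := by
  have hxi : x⁻¹ = x := inv_eq_of_mul_eq_one_left hx
  have hyi : y⁻¹ = y := inv_eq_of_mul_eq_one_left hy
  apply one_of_inv hp h2 h
  have h1 : x * (x * y) ^ m * x⁻¹ = (x * y) ^ m := by rw [cc hZ h x]; group
  have h2 : x * (x * y) ^ m * x⁻¹ = ((x * y) ^ m)⁻¹ := by
    rw [← conj_pow, ← inv_pow]
    congr 1
    rw [mul_inv_rev, hxi, hyi, ← mul_assoc, hx, one_mul]
  exact h1.symm.trans h2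

end central

/-- values of words in small letters -/
theorem wval_small {Γ : Type*} [Group Γ] {x y : ℕ → Γ} (h : ∀ n, n < 9 → x n = y n) (i : ℕ) :
    wval x (rl i) = wval y (rl i) := by
  have key : ∀ w ∈ relW, ∀ c ∈ w, c / 2 < 9 := by decide
  have key2 : ∀ (R : List (List ℕ)) (n : ℕ), nthw R n = [] ∨ nthw R n ∈ R := by
    intro R
    induction R with
    | nil => intro n; exact Or.inl rfl
    | cons a R ih =>
      intro n
      cases n with
      | zero => exact Or.inr List.mem_cons_self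
      | succ n =>
        rcases ih n with h | h
        · exact Or.inl h
        · exact Or.inr (List.mem_cons_of_mem _ h)
  rcases key2 relW i with h1 | h1
  · unfold rl; rw [h1]; rfl
  · exact wval_congr (fun c hc => h _ (key _ h1 c hc))

/-- the words of a list of pairs -/
def fw (F : List (ℕ × ℕ)) : List (List ℕ) := F.map (fun q => rl q.1 ++ (if q.2 = 0 then [] else [2 * q.2 + 1]))

theorem fw_ok {Γ : Type*} [Group Γ] {X : ℕ → Γ} (hx0 : X 0 = 1) {F : List (ℕ × ℕ)}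
    (hF : ∀ q ∈ F, wval X (rl q.1) = X q.2) : ∀ w ∈ fw F, wval X w = 1 := by
  intro w hw
  obtain ⟨q, hq, rfl⟩ := List.mem_map.1 hw
  rw [wval_append, hF q hq]
  split_ifs with h
  · rw [h, hx0, wval_nil, mul_one]
  · rw [wval_cons, wval_nil, val_odd, mul_one, mul_inv_cancel]

theorem cert_mem {Γ : Type*} [Group Γ] (H : Subgroup Γ) {T iv fuel m N : ℕ} {sub S : List ℕ} {R : List (List ℕ)}
    {rs : List Rule} {X : ℕ → Γ} (F : List (ℕ × ℕ)) (extra : List (List ℕ)) (cen : List ℕ) (hx0 : X 0 = 1)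
    (hiv : ∀ c, iv.testBit c = true → (X c)⁻¹ = X c) (hF : ∀ q ∈ F, wval X (rl q.1) = X q.2)
    (hE : ∀ w ∈ extra, wval X w = 1) (hcen : ∀ z ∈ cen, X z ∈ center Γ)
    (hok : (R.all fun w => okw (fw F ++ extra) cen w) = true)
    (hsub : ∀ c ∈ sub, X c ∈ H) (h : check T iv fuel m N sub S R rs = true)
    {k c : ℕ} (hk : k < N) (hv : fct T k = 33554432 * c) (hc : c < 128) : X c ∈ H := by
  refine mem_of_cert H hx0 hiv (fun w hw => okw_sound (facts := fw F ++ extra) ?_ hcen (List.all_eq_true.1 hok w hw))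
    hsub h hk hv hc
  intro w hw
  rcases List.mem_append.1 hw with hw | hw
  · exact fw_ok hx0 hF w hw
  · exact hE w hw

/-- the input about the subgroup generated by `a, ..., t` -/
def HypP : Prop := ∀ (Γ : Type) [Group Γ] (X : ℕ → Γ), (∀ i, i < 27 → wval X (rl i) = 1) → X 1 ≠ 1 →
  ∀ z ∈ closure {g : Γ | ∃ n, 0 < n ∧ n < 8 ∧ g = X n}, z ∈ center Γ → z = 1

/-- bits of a mask -/
theorem bits_iv {iv : ℕ} {L : List ℕ} (h : (L.foldr (fun k acc => 2 ^ k ||| acc) 0) = iv) {c : ℕ}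
    (hc : iv.testBit c = true) : c ∈ L := by
  subst h
  induction L with
  | nil => simp at hc
  | cons k L ih =>
    rw [List.foldr_cons, Nat.testBit_or, Bool.or_eq_true, Nat.testBit_two_pow] at hc
    rcases hc with hc | hc
    · have : k = c := by simpa using hc
      rw [this]; exact List.mem_cons_self
    · exact List.mem_cons_of_mem _ (ih hc)

section lifts

variable {Γ : Type} [Group Γ] {σ : Γ →* Th}

/-- relators of lifts are central -/
theorem relZ {a b c d e s t u : Γ} (hl : ∀ n, n < 9 → σ (xx a b c d e s t u n) = gx n) (i : ℕ) (hi : i < 39) :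
    wval (xx a b c d e s t u) (rl i) ∈ σ.ker := by
  rw [MonoidHom.mem_ker, map_wval, wval_small (y := gx) hl i]
  apply rel_th
  have : ∀ i, i < 39 → rl i ∈ relW := by decide
  exact this i hi

end lifts

end Cfsg.Agent.Lib.ThMc
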