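import Cfsg.Agent.Lib.H10Enum

set_option autoImplicit false
set_option maxRecDepth 100000
set_option linter.style.longLine false

/-! Certificate data (coset enumeration) for a step of M(Th) = 1. -/

namespace Cfsg.Agent.Lib.ThMcW

open Cfsg.Agent.Lib.H10Enum

/-- the facts -/
def T : ℕ := 0x26000000000030000000100200006004000090080c00b00c0a00500a0a00a0070c00800a0a00600826005007260040060c0030030a003001260010020c0000000c00c0080d00b0050c00a0040b0090040a0080040d0070020c0060020d0050010c004001260030000b0020000a001000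

/-- the relators -/
def R : List (List ℕ) := [[12, 12, 12, 12, 12, 12, 12], [11, 13, 10, 13, 13, 11, 12, 12, 12], [10, 10, 39], [38, 38], [39, 11, 38, 10], [39, 13, 38, 12], [10, 11], [12, 13], [38, 39]]

/-- rules -/
def rs0 : List Rule := [
  ⟨0, 0, 1, 1, [0x16000a00090015002900190016]⟩,
  ⟨1, 1, 1, 1, [0x100008001f00200020001e000900150013]⟩,
  ⟨1, 6, 0, 0, [0x120015002900100015002d0017002e00180017]⟩,
  ⟨1, 7, 1, 1, [0x1400080002001b001b001b0005000f0014]⟩,
  ⟨2, 0, 0, 1, [0x20005000d]⟩,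
  ⟨2, 2, 1, 1, [0x60003000e, 0x2300110012, 0x24002b0015]⟩,
  ⟨5, 0, 1, 1, [0x8001c000d0010]⟩,
  ⟨5, 1, 1, 1, [0x6001a0007000f]⟩,
  ⟨5, 2, 1, 1, [0xa001c000f0011]⟩,
  ⟨6, 1, 0, 0, [0x26003100120018, 0x1e00340004001a]⟩,
  ⟨7, 0, 0, 0, [0x90033000c0019]⟩,
  ⟨8, 0, 0, 1, [0x370006001b]⟩]

/-- all rules -/
def rs : List Rule := rs0

theorem ok : check T 524288 10 12 28 [6] [12] R rs = true := by decide +kernel

/-- the target fact 27: letter 19 -/
theorem tgt19 : fct T 27 = 637534208 := by decide +kernel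

end Cfsg.Agent.Lib.ThMcW
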