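import Cfsg.Agent.Lib.ThMw
import Cfsg.Agent.Lib.ThMcA
import Cfsg.Agent.Lib.ThMcB
import Cfsg.Agent.Lib.ThMcC

/-! Lifting the relators of `Th` through central extensions of odd exponent. -/

set_option autoImplicit false
set_option linter.all false

namespace Cfsg.Agent.Lib.ThMd

open Subgroup Cfsg.Agent.Lib.H10Enum Cfsg.Agent.Lib.SchurSylow Cfsg.Agent.Lib.ThMa Cfsg.Agent.Lib.ThMb
open Cfsg.Agent.Lib.ThMc Cfsg.Agent.Lib.ThMw
open Cfsg.Spor Cfsg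

theorem hF_of {Γ : Type*} [Group Γ] {x X : ℕ → Γ} (hsm : ∀ i, wval X (rl i) = wval x (rl i)) (K : List ℕ)
    (Ls : List ℕ) (idx : ℕ → ℕ) (hx0 : X 0 = 1) (hK : ∀ i ∈ K, wval x (rl i) = 1)
    (hX : ∀ n ∈ Ls, X n = wval x (rl (idx n))) {F : List (ℕ × ℕ)}
    (h : (F.all fun q => (decide (q.2 = 0) && K.contains q.1) || (Ls.contains q.2 && decide (idx q.2 = q.1))) = true) :
    ∀ q ∈ F, wval X (rl q.1) = X q.2 := by
  intro q hq
  have h1 := List.all_eq_true.1 h q hq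
  simp only [Bool.or_eq_true, Bool.and_eq_true, decide_eq_true_eq, List.contains_eq_mem] at h1
  rw [hsm]
  rcases h1 with ⟨h2, h3⟩ | ⟨h2, h3⟩
  · rw [h2, hx0, hK _ h3]
  · rw [hX _ h2, h3]

section pick

variable {Γ : Type} [Group Γ] {σ : Γ →* Th}

theorem rth (i : ℕ) (hi : i < 39) :
    wval (xx (gx 1) (gx 2) (gx 3) (gx 4) (gx 5) (gx 6) (gx 7) (gx 8)) (rl i) = 1 := by
  apply rel_th
  have : ∀ i, i < 39 → rl i ∈ relW := by decide
  exact this i hi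

theorem pick (hs : Function.Surjective σ) (hZ : σ.ker ≤ center Γ) {p n : ℕ} (hp : ∀ z ∈ σ.ker, z ^ p = 1)
    (hn : Nat.Coprime n p) (hp1 : 1 < p) {y : Th} (hy : y ^ n = 1) : ∃ x, σ x = y ∧ x ^ n = 1 := by
  obtain ⟨x, rfl⟩ := hs y
  obtain ⟨z, hz, h⟩ := lift_ord hZ hp hn hp1 (x := x) (n := n) (by rw [MonoidHom.mem_ker, map_pow, hy])
  exact ⟨x * z, by rw [map_mul, MonoidHom.mem_ker.1 hz, mul_one], h⟩

/-- lifts with normalized relators, odd case -/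
theorem odd_lifts (hs : Function.Surjective σ) (hZ : σ.ker ≤ center Γ) {p : ℕ} (hp : ∀ z ∈ σ.ker, z ^ p = 1)
    (h2 : Nat.Coprime 2 p) (hp1 : 1 < p) : ∃ a b c d e s t u : Γ, (∀ n, n < 9 → σ (xx a b c d e s t u n) = gx n) ∧
      a * a = 1 ∧ b * b = 1 ∧ c * c = 1 ∧ d * d = 1 ∧ e * e = 1 ∧ s * d * s * d = 1 ∧ u⁻¹ * t * u * t = 1 ∧
      u * u * c⁻¹ * a⁻¹ = 1 := by
  have r0 := rth 0 (by norm_num)
  have r1 := rth 1 (by norm_num)
  have r2 := rth 2 (by norm_num)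
  have r3 := rth 3 (by norm_num)
  have r4 := rth 4 (by norm_num)
  have r18 := rth 18 (by norm_num)
  have r34 := rth 34 (by norm_num)
  have r27 := rth 27 (by norm_num)
  rw [w0] at r0
  rw [w1] at r1
  rw [w2] at r2
  rw [w3] at r3
  rw [w4] at r4
  rw [w18] at r18
  rw [w34] at r34
  rw [w27] at r27
  obtain ⟨a, ha, ha2⟩ := pick hs hZ hp h2 hp1 (y := gx 1) (by rw [pow_two, r0])
  obtain ⟨b, hb, hb2⟩ := pick hs hZ hp h2 hp1 (y := gx 2) (by rw [pow_two, r1])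
  obtain ⟨c, hc, hc2⟩ := pick hs hZ hp h2 hp1 (y := gx 3) (by rw [pow_two, r2])
  obtain ⟨d, hd, hd2⟩ := pick hs hZ hp h2 hp1 (y := gx 4) (by rw [pow_two, r3])
  obtain ⟨e, he, he2⟩ := pick hs hZ hp h2 hp1 (y := gx 5) (by rw [pow_two, r4])
  obtain ⟨s0, hs0⟩ := hs (gx 6)
  obtain ⟨t0, ht0⟩ := hs (gx 7)
  obtain ⟨u0, hu0⟩ := hs (gx 8)
  obtain ⟨z1, hz1, e1⟩ := exists_root hp h2 hp1 (σ.ker.inv_mem
    (show s0 * d * s0 * d ∈ σ.ker by rw [MonoidHom.mem_ker]; simp only [map_mul]; rw [hs0, hd, r18]))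
  obtain ⟨z3, hz3, e3⟩ := exists_root hp h2 hp1 (σ.ker.inv_mem
    (show u0 * u0 * c⁻¹ * a⁻¹ ∈ σ.ker by
      rw [MonoidHom.mem_ker]; simp only [map_mul, map_inv]; rw [hu0, hc, ha, r27]))
  obtain ⟨z2, hz2, e2⟩ := exists_root hp h2 hp1 (σ.ker.inv_mem
    (show (u0 * z3)⁻¹ * t0 * (u0 * z3) * t0 ∈ σ.ker by
      rw [MonoidHom.mem_ker]; simp only [map_mul, map_inv]; rw [hu0, ht0, MonoidHom.mem_ker.1 hz3, mul_one, r34]))
  have k1 := fun g => cc hZ hz1 g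
  have k2 := fun g => cc hZ hz2 g
  have k3 := fun g => cc hZ hz3 g
  refine ⟨a, b, c, d, e, s0 * z1, t0 * z2, u0 * z3, ?_, by rw [← pow_two, ha2], by rw [← pow_two, hb2],
    by rw [← pow_two, hc2], by rw [← pow_two, hd2], by rw [← pow_two, he2], ?_, ?_, ?_⟩
  · intro n hn
    have q1 := MonoidHom.mem_ker.1 hz1
    have q2 := MonoidHom.mem_ker.1 hz2
    have q3 := MonoidHom.mem_ker.1 hz3
    interval_cases n
    · show σ 1 = 1; exact map_one σ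
    · exact ha
    · exact hb
    · exact hc
    · exact hd
    · exact he
    · show σ (s0 * z1) = _; rw [map_mul, q1, mul_one, hs0]
    · show σ (t0 * z2) = _; rw [map_mul, q2, mul_one, ht0]
    · show σ (u0 * z3) = _; rw [map_mul, q3, mul_one, hu0]
  · calc s0 * z1 * d * (s0 * z1) * d = s0 * (z1 * d) * s0 * (z1 * d) := by group
      _ = s0 * (d * z1) * s0 * (d * z1) := by rw [k1 d]
      _ = s0 * d * (z1 * (s0 * d)) * z1 := by group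
      _ = s0 * d * ((s0 * d) * z1) * z1 := by rw [k1 (s0 * d)]
      _ = s0 * d * s0 * d * z1 ^ 2 := by rw [pow_two]; group
      _ = 1 := by rw [e1, mul_inv_cancel]
  · set v := u0 * z3 with hv
    calc v⁻¹ * (t0 * z2) * v * (t0 * z2) = v⁻¹ * t0 * (z2 * v) * t0 * z2 := by group
      _ = v⁻¹ * t0 * (v * z2) * t0 * z2 := by rw [k2 v]
      _ = v⁻¹ * t0 * v * (z2 * t0) * z2 := by group
      _ = v⁻¹ * t0 * v * (t0 * z2) * z2 := by rw [k2 t0]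
      _ = v⁻¹ * t0 * v * t0 * z2 ^ 2 := by rw [pow_two]; group
      _ = 1 := by rw [e2, mul_inv_cancel]
  · calc u0 * z3 * (u0 * z3) * c⁻¹ * a⁻¹ = u0 * (z3 * u0) * (z3 * (c⁻¹ * a⁻¹)) := by group
      _ = u0 * (u0 * z3) * ((c⁻¹ * a⁻¹) * z3) := by rw [k3 u0, k3 (c⁻¹ * a⁻¹)]
      _ = u0 * u0 * (z3 * (c⁻¹ * a⁻¹)) * z3 := by group
      _ = u0 * u0 * ((c⁻¹ * a⁻¹) * z3) * z3 := by rw [k3 (c⁻¹ * a⁻¹)]
      _ = u0 * u0 * c⁻¹ * a⁻¹ * z3 ^ 2 := by rw [pow_two]; group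
      _ = 1 := by rw [e3, mul_inv_cancel]

end pick

end Cfsg.Agent.Lib.ThMd
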