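import Cfsg.Agent.Lib.ThMg

/-! The Schur multiplier of the Thompson group is trivial (modulo finiteness and the subgroup generated by `a, …, t`). -/

set_option autoImplicit false

namespace Cfsg.Agent.Lib.ThMh

open Subgroup Cfsg.Agent.Lib.H10Enum Cfsg.Agent.Lib.SchurSylow Cfsg.Agent.Lib.ThMa Cfsg.Agent.Lib.ThMb
open Cfsg.Agent.Lib.ThMc Cfsg.Agent.Lib.ThMw Cfsg.Agent.Lib.ThMd Cfsg.Agent.Lib.ThMe Cfsg.Agent.Lib.ThMg
open Cfsg.Spor Cfsg

theorem stemTh (HP : HypP) (hA : gx 1 ≠ 1) : StemDvd Th 1 := by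
  apply StemDvd.of_forall
  intro p hp
  haveI : Fact p.Prime := ⟨hp⟩
  apply pStem_one
  intro Γ _ _ σ hσ hcard
  have hexp : ∀ z ∈ σ.ker, z ^ p = 1 := by
    intro z hz
    have h1 : (⟨z, hz⟩ : σ.ker) ^ p = 1 := by rw [← hcard]; exact pow_card_eq_one'
    simpa using congrArg Subtype.val h1
  have h1 : σ.ker = ⊥ := by
    rcases hp.eq_two_or_odd' with rfl | hodd
    · obtain ⟨a, b, c, d, e, s, t, u, hl, h⟩ := two_relators hσ.1 hσ.2.1 hexp HP hA
      exact split hσ a b c d e s t u hl h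
    · obtain ⟨a, b, c, d, e, s, t, u, hl, h⟩ := odd_relators hσ.1 hσ.2.1 hexp (by
        rw [Nat.coprime_two_left]; exact hodd) hp.one_lt HP hA
      exact split hσ a b c d e s t u hl h
  rw [h1, card_bot] at hcard
  exact hp.one_lt.ne hcard

theorem mult (HP : HypP) (hA : gx 1 ≠ 1) (hfin : Finite Th) : HasCyclicSchurMultiplier Th 1 :=
  hasTrivial_of_stemDvd (stemTh HP hA)

end Cfsg.Agent.Lib.ThMh
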