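import Cfsg.Agent.Lib.ThMh
import Cfsg.Agent.Lib.ThPEnd
import Cfsg.Agent.Lib.ThRho

/-! The input about `⟨a, …, t⟩` for the multiplier of the Thompson group. -/

set_option autoImplicit false
set_option linter.all false

namespace Cfsg.Agent.Lib.ThMi

open Subgroup Cfsg.Agent.Lib.H10Enum Cfsg.Agent.Lib.ThMa Cfsg.Agent.Lib.ThMb
open Cfsg.Agent.Lib.ThMc Cfsg.Agent.Lib.ThMw
open Cfsg.Spor Cfsg

theorem relP_of {Γ : Type} [Group Γ] (X : ℕ → Γ) (h : ∀ i, i < 27 → wval X (rl i) = 1) :
    ThP.RelP (X 1) (X 2) (X 3) (X 4) (X 5) (X 6) (X 7) := by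
  have hs : ∀ i, i < 27 → wval (xx (X 1) (X 2) (X 3) (X 4) (X 5) (X 6) (X 7) (X 8)) (rl i) = 1 := by
    intro i hi
    rw [← h i hi]
    apply wval_congr
    have key : ∀ i, i < 27 → ∀ c ∈ rl i, 1 ≤ c / 2 ∧ c / 2 < 9 := by decide
    intro c hc
    obtain ⟨h1, h2⟩ := key i hi c hc
    generalize c / 2 = n at h1 h2
    interval_cases n <;> rfl
  have h0 := hs 0 (by norm_num); rw [w0] at h0
  have h1 := hs 1 (by norm_num); rw [w1] at h1
  have h2 := hs 2 (by norm_num); rw [w2] at h2
  have h3 := hs 3 (by norm_num); rw [w3] at h3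
  have h4 := hs 4 (by norm_num); rw [w4] at h4
  have h5 := hs 5 (by norm_num); rw [w5] at h5
  have h6 := hs 6 (by norm_num); rw [w6] at h6
  have h7 := hs 7 (by norm_num); rw [w7] at h7
  have h8 := hs 8 (by norm_num); rw [w8] at h8
  have h9 := hs 9 (by norm_num); rw [w9] at h9
  have h10 := hs 10 (by norm_num); rw [w10] at h10
  have h11 := hs 11 (by norm_num); rw [w11] at h11
  have h12 := hs 12 (by norm_num); rw [w12] at h12
  have h13 := hs 13 (by norm_num); rw [w13] at h13
  have h14 := hs 14 (by norm_num); rw [w14] at h14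
  have h15 := hs 15 (by norm_num); rw [w15] at h15
  have h16 := hs 16 (by norm_num); rw [w16] at h16
  have h17 := hs 17 (by norm_num); rw [w17] at h17
  have h18 := hs 18 (by norm_num); rw [w18] at h18
  have h19 := hs 19 (by norm_num); rw [w19] at h19
  have h20 := hs 20 (by norm_num); rw [w20] at h20
  have h21 := hs 21 (by norm_num); rw [w21] at h21
  have h22 := hs 22 (by norm_num); rw [w22] at h22
  have h23 := hs 23 (by norm_num); rw [w23] at h23
  have h24 := hs 24 (by norm_num); rw [w24] at h24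
  have h25 := hs 25 (by norm_num); rw [w25] at h25
  have h26 := hs 26 (by norm_num); rw [w26] at h26
  refine ⟨⟨?_, ?_, ?_, ?_, ?_, ?_, ?_, ?_, ?_, ?_, ?_, ?_, ?_, ?_, ?_, ?_, ?_, ?_, ?_, ?_⟩, ?_, ?_, ?_, ?_, ?_, ?_, ?_⟩
  · rw [← h0]; simp only [pow_succ, pow_zero, one_mul, mul_inv_rev, mul_assoc]
  · rw [← h1]; simp only [pow_succ, pow_zero, one_mul, mul_inv_rev, mul_assoc]
  · rw [← h2]; simp only [pow_succ, pow_zero, one_mul, mul_inv_rev, mul_assoc]
  · rw [← h3]; simp only [pow_succ, pow_zero, one_mul, mul_inv_rev, mul_assoc]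
  · rw [← h4]; simp only [pow_succ, pow_zero, one_mul, mul_inv_rev, mul_assoc]
  · rw [← h5]; simp only [pow_succ, pow_zero, one_mul, mul_inv_rev, mul_assoc]
  · rw [← h6]; simp only [pow_succ, pow_zero, one_mul, mul_inv_rev, mul_assoc]
  · rw [← h7]; simp only [pow_succ, pow_zero, one_mul, mul_inv_rev, mul_assoc]
  · rw [← h8]; simp only [pow_succ, pow_zero, one_mul, mul_inv_rev, mul_assoc]
  · rw [← h9]; simp only [pow_succ, pow_zero, one_mul, mul_inv_rev, mul_assoc]
  · rw [← h10]; simp only [pow_succ, pow_zero, one_mul, mul_inv_rev, mul_assoc]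
  · rw [← h11]; simp only [pow_succ, pow_zero, one_mul, mul_inv_rev, mul_assoc]
  · rw [← h12]; simp only [pow_succ, pow_zero, one_mul, mul_inv_rev, mul_assoc]
  · rw [← h13]; simp only [pow_succ, pow_zero, one_mul, mul_inv_rev, mul_assoc]
  · rw [← h14]; simp only [pow_succ, pow_zero, one_mul, mul_inv_rev, mul_assoc]
  · exact h15
  · exact h16
  · exact h17
  · rw [← h18]; simp only [pow_succ, pow_zero, one_mul, mul_inv_rev, mul_assoc]
  · rw [← h19]; simp only [pow_succ, pow_zero, one_mul, mul_inv_rev, inv_inv, mul_assoc, mul_inv_cancel_left]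
  · rw [← h20]; simp only [pow_succ, pow_zero, one_mul, mul_inv_rev, mul_assoc]
  · exact h21
  · exact h22
  · exact h23
  · exact h24
  · exact h25
  · rw [← h26]; simp only [pow_succ, pow_zero, one_mul, mul_inv_rev, mul_assoc]

theorem hypP : HypP := by
  intro Γ _ X h hne z hz hc
  have hR := relP_of X h
  refine hR.centr hne ?_ (fun x _ => mem_center_iff.1 hc x)
  refine closure_mono ?_ hz
  rintro g ⟨n, h1, h2, rfl⟩
  interval_cases n <;> simp

theorem gx_ne : gx 1 ≠ 1 := fun h =>
  ThRho.ne_one (W := Cfsg.Agent.Lib.BenesWord.Wd.g 0) (by decide) (i := 9) (j := 9) (by norm_num) (by norm_num)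
    (by decide +kernel) h

/-- stem extensions of the Thompson group are trivial -/
theorem stem : Cfsg.Agent.Lib.SchurSylow.StemDvd Th 1 := ThMh.stemTh hypP gx_ne

/-- the multiplier of the Thompson group, given that the presented group is finite -/
theorem multTh (hfin : Finite Th) : HasCyclicSchurMultiplier Th 1 := ThMh.mult hypP gx_ne hfin

end Cfsg.Agent.Lib.ThMi
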