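import Cfsg.Agent.Lib.ThLat

/-!
The theta series of an even unimodular lattice of rank 24 is a modular form of weight 12.
-/

set_option autoImplicit false

namespace Cfsg.Agent.Lib.ThMod

open Cfsg.Agent.Lib.ThGauss Cfsg.Agent.Lib.ThDual Cfsg.Agent.Lib.ThLat Matrix Complex
open scoped UpperHalfPlane ModularForm MatrixGroups

variable {B : Matrix (Fin 24) (Fin 24) ℤ}

variable (B) in
/-- the theta series. -/
noncomputable def th (τ : ℂ) : ℂ := ∑' x : Fin 24 → ℤ, cexp (Real.pi * I * τ * (qf B x : ℤ))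

lemma norm_th_term (τ : ℂ) (q : ℤ) :
    ‖cexp (Real.pi * I * τ * (q : ℤ))‖ = Real.exp (-(Real.pi * τ.im * q)) := by
  rw [Complex.norm_exp]
  congr 1
  simp

section

variable (hs : B.IsSymm) (hpos : ∀ x : Fin 24 → ℤ, x ≠ 0 → 0 < x ⬝ᵥ (B *ᵥ x))
    (hdet : B.det = 1)

include hpos in
lemma qf_nonneg (x : Fin 24 → ℤ) : 0 ≤ qf B x := by
  rcases eq_or_ne x 0 with h | h
  · simp [h, qf]
  · exact (hpos x h).le

include hs hpos hdet in
lemma summable_th {τ : ℂ} (hτ : 0 < τ.im) :
    Summable fun x : Fin 24 → ℤ => cexp (Real.pi * I * τ * (qf B x : ℤ)) := by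
  apply Summable.of_norm
  simp only [norm_th_term]
  exact summable_theta hs hpos hdet hτ

include hs hpos hdet in
lemma differentiableOn_th : DifferentiableOn ℂ (th B) {τ : ℂ | 0 < τ.im} := by
  intro τ hτ
  have hτ' : 0 < τ.im / 2 := by have : 0 < τ.im := hτ; positivity
  have hopen : IsOpen {z : ℂ | τ.im / 2 < z.im} := isOpen_lt continuous_const Complex.continuous_im
  have h : DifferentiableOn ℂ (th B) {z : ℂ | τ.im / 2 < z.im} := by
    unfold th
    refine differentiableOn_tsum_of_summable_norm (summable_theta hs hpos hdet hτ')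
      (fun x => ?_) hopen (fun x w hw => ?_)
    · fun_prop
    · rw [norm_th_term]
      apply Real.exp_le_exp.mpr
      have hq : (0 : ℝ) ≤ (qf B x : ℤ) := by exact_mod_cast qf_nonneg hpos x
      have hw' : τ.im / 2 ≤ w.im := le_of_lt hw
      have := mul_le_mul_of_nonneg_right (mul_le_mul_of_nonneg_left hw' Real.pi_pos.le) hq
      linarith
  have hmem : τ ∈ {z : ℂ | τ.im / 2 < z.im} := by
    simp only [Set.mem_ofPred_eq]
    have : 0 < τ.im := hτ
    linarith
  exact (h.differentiableAt (hopen.mem_nhds hmem)).differentiableWithinAt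

lemma th_imag {t : ℝ} : th B (I * t) =
    ((∑' x : Fin 24 → ℤ, Real.exp (-(Real.pi * t * (qf B x : ℤ))) : ℝ) : ℂ) := by
  unfold th
  rw [Complex.ofReal_tsum]
  refine tsum_congr fun x => ?_
  push_cast
  congr 1
  ring_nf
  rw [I_sq]; ring

include hs hpos hdet in
lemma th_imag_inv {t : ℝ} (ht : 0 < t) : th B (-1 / (I * t)) = (I * t) ^ 12 * th B (I * t) := by
  have e : (-1 / (I * t) : ℂ) = I * ((1 / t : ℝ) : ℂ) := by
    push_cast
    have : (t : ℂ) ≠ 0 := by exact_mod_cast ht.ne'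
    field_simp
    rw [I_sq]
  rw [e, th_imag, th_imag, theta_real hs hpos hdet ht]
  have e2 : ∀ x : Fin 24 → ℤ, Real.exp (-(Real.pi * (1 / t) * (qf B x : ℤ))) =
      Real.exp (-(Real.pi / t * (qf B x : ℤ))) := by
    intro x; congr 2; ring
  simp only [e2]
  have e3 : (I * (t : ℂ)) ^ 12 = ((t ^ 12 : ℝ) : ℂ) := by
    rw [mul_pow, show (12 : ℕ) = 4 * 3 from rfl, pow_mul I, I_pow_four]
    push_cast; ring
  rw [e3, ← Complex.ofReal_mul]
  congr 1
  have e4 : (√t)⁻¹ ^ 24 = (t ^ 12)⁻¹ := by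
    rw [inv_pow, show (24 : ℕ) = 2 * 12 from rfl, pow_mul, Real.sq_sqrt ht.le]
  rw [e4]
  field_simp

include hs hpos hdet in
lemma th_inv {τ : ℂ} (hτ : 0 < τ.im) : th B (-1 / τ) = τ ^ 12 * th B τ := by
  have hU : IsOpen {τ : ℂ | 0 < τ.im} := isOpen_lt continuous_const Complex.continuous_im
  have hconv : IsPreconnected {τ : ℂ | 0 < τ.im} :=
    (convex_halfSpace_im_gt 0).isPreconnected
  have hd := differentiableOn_th hs hpos hdet
  have hne : ∀ z ∈ {τ : ℂ | 0 < τ.im}, z ≠ 0 := by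
    intro z hz h; rw [h] at hz; simp at hz
  have hmaps : Set.MapsTo (fun z : ℂ => -1 / z) {τ : ℂ | 0 < τ.im} {τ : ℂ | 0 < τ.im} := by
    intro z hz
    simp only [Set.mem_ofPred_eq] at hz ⊢
    have hz0 : z ≠ 0 := hne z hz
    rw [neg_div, one_div, Complex.neg_im, Complex.inv_im]
    have : 0 < Complex.normSq z := Complex.normSq_pos.mpr hz0
    rw [neg_div, neg_neg]
    positivity
  have hf : DifferentiableOn ℂ (fun z => th B (-1 / z)) {τ : ℂ | 0 < τ.im} := by
    refine hd.comp (f := fun z : ℂ => -1 / z) ?_ hmaps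
    intro z hz
    have := hne z hz
    exact (DifferentiableAt.div (by fun_prop) (by fun_prop) this).differentiableWithinAt
  have hg : DifferentiableOn ℂ (fun z => z ^ 12 * th B z) {τ : ℂ | 0 < τ.im} :=
    DifferentiableOn.mul (by fun_prop) hd
  have hfa := hf.analyticOnNhd hU
  have hga := hg.analyticOnNhd hU
  have hI : (I : ℂ) ∈ {τ : ℂ | 0 < τ.im} := by simp
  refine hfa.eqOn_of_preconnected_of_frequently_eq hga hconv hI ?_ hτ
  -- frequently equal near `I`
  have htend : Filter.Tendsto (fun s : ℝ => I * ((1 + s : ℝ) : ℂ)) (nhdsWithin 0 (Set.Ioi 0))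
      (nhdsWithin I {I}ᶜ) := by
    apply tendsto_nhdsWithin_of_tendsto_nhds_of_eventually_within
    · have hc : Continuous (fun s : ℝ => I * ((1 + s : ℝ) : ℂ)) := by fun_prop
      have := hc.tendsto 0
      simp only [add_zero, Complex.ofReal_one, mul_one] at this
      exact this.mono_left nhdsWithin_le_nhds
    · filter_upwards [self_mem_nhdsWithin] with s hs'
      intro h
      have h' : I * ((1 + s : ℝ) : ℂ) = I := h
      have h2 := congrArg Complex.im h'
      simp at h2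
      exact (ne_of_gt hs') h2
  have hev : ∀ᶠ s : ℝ in nhdsWithin 0 (Set.Ioi 0),
      th B (-1 / (I * ((1 + s : ℝ) : ℂ))) =
        (I * ((1 + s : ℝ) : ℂ)) ^ 12 * th B (I * ((1 + s : ℝ) : ℂ)) := by
    filter_upwards [self_mem_nhdsWithin] with s hs'
    have : (0 : ℝ) < s := hs'
    exact th_imag_inv hs hpos hdet (by positivity)
  exact htend.frequently hev.frequently

variable (heven : ∀ x : Fin 24 → ℤ, (2 : ℤ) ∣ x ⬝ᵥ (B *ᵥ x))

include heven in
lemma th_add_one (τ : ℂ) : th B (τ + 1) = th B τ := by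
  unfold th
  refine tsum_congr fun x => ?_
  obtain ⟨m, hm⟩ := heven x
  have hm' : qf B x = 2 * m := hm
  rw [hm']
  have : (Real.pi * I * (τ + 1) * ((2 * m : ℤ) : ℂ) : ℂ) =
      Real.pi * I * τ * ((2 * m : ℤ) : ℂ) + m * (2 * Real.pi * I) := by
    push_cast; ring
  rw [this, Complex.exp_add, Complex.exp_int_mul_two_pi_mul_I, mul_one]

end

end Cfsg.Agent.Lib.ThMod
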