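import Cfsg.Agent.Lib.ThMc

/-! The relators of `Th` as explicit products. -/

set_option autoImplicit false
set_option linter.all false

namespace Cfsg.Agent.Lib.ThMw

open Cfsg.Agent.Lib.H10Enum Cfsg.Agent.Lib.ThMa

variable {Γ : Type*} [Group Γ] (a b c d e s t u : Γ)

theorem w0 : wval (xx a b c d e s t u) (rl 0) =
    a * a := by
  simp [rl, relW, nthw, wval, val, xx, mul_assoc]

theorem w1 : wval (xx a b c d e s t u) (rl 1) =
    b * b := by
  simp [rl, relW, nthw, wval, val, xx, mul_assoc]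

theorem w2 : wval (xx a b c d e s t u) (rl 2) =
    c * c := by
  simp [rl, relW, nthw, wval, val, xx, mul_assoc]

theorem w3 : wval (xx a b c d e s t u) (rl 3) =
    d * d := by
  simp [rl, relW, nthw, wval, val, xx, mul_assoc]

theorem w4 : wval (xx a b c d e s t u) (rl 4) =
    e * e := by
  simp [rl, relW, nthw, wval, val, xx, mul_assoc]

theorem w5 : wval (xx a b c d e s t u) (rl 5) =
    a * b * a * b * a * b := by
  simp [rl, relW, nthw, wval, val, xx, mul_assoc]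

theorem w6 : wval (xx a b c d e s t u) (rl 6) =
    a * e * a * e := by
  simp [rl, relW, nthw, wval, val, xx, mul_assoc]

theorem w7 : wval (xx a b c d e s t u) (rl 7) =
    b * c * b * c * b * c := by
  simp [rl, relW, nthw, wval, val, xx, mul_assoc]

theorem w8 : wval (xx a b c d e s t u) (rl 8) =
    b * d * b * d := by
  simp [rl, relW, nthw, wval, val, xx, mul_assoc]

theorem w9 : wval (xx a b c d e s t u) (rl 9) =
    b * e * b * e := by
  simp [rl, relW, nthw, wval, val, xx, mul_assoc]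

theorem w10 : wval (xx a b c d e s t u) (rl 10) =
    a * d⁻¹ * c⁻¹ * d⁻¹ * c⁻¹ * d⁻¹ * c⁻¹ * d⁻¹ * c⁻¹ := by
  simp [rl, relW, nthw, wval, val, xx, mul_assoc]

theorem w11 : wval (xx a b c d e s t u) (rl 11) =
    c * e * c * e := by
  simp [rl, relW, nthw, wval, val, xx, mul_assoc]

theorem w12 : wval (xx a b c d e s t u) (rl 12) =
    d * e * d * e * d * e := by
  simp [rl, relW, nthw, wval, val, xx, mul_assoc]

theorem w13 : wval (xx a b c d e s t u) (rl 13) =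
    b * c * d * e * b * c * d * e * b * c * d * e * b * c * d * e * b * c * d * e * b * c * d * e * b * c * d * e * b * c * d * e := by
  simp [rl, relW, nthw, wval, val, xx, mul_assoc]

theorem w14 : wval (xx a b c d e s t u) (rl 14) =
    s * s * s * s * s * s * s := by
  simp [rl, relW, nthw, wval, val, xx, mul_assoc]

theorem w15 : wval (xx a b c d e s t u) (rl 15) =
    s⁻¹ * a⁻¹ * s * a := by
  simp [rl, relW, nthw, wval, val, xx, mul_assoc]

theorem w16 : wval (xx a b c d e s t u) (rl 16) =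
    s⁻¹ * b⁻¹ * s * b := by
  simp [rl, relW, nthw, wval, val, xx, mul_assoc]

theorem w17 : wval (xx a b c d e s t u) (rl 17) =
    s⁻¹ * c⁻¹ * s * c := by
  simp [rl, relW, nthw, wval, val, xx, mul_assoc]

theorem w18 : wval (xx a b c d e s t u) (rl 18) =
    s * d * s * d := by
  simp [rl, relW, nthw, wval, val, xx, mul_assoc]

theorem w19 : wval (xx a b c d e s t u) (rl 19) =
    e⁻¹ * s⁻¹ * e * s⁻¹ * s⁻¹ * e⁻¹ * s * s * s := by
  simp [rl, relW, nthw, wval, val, xx, mul_assoc]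

theorem w20 : wval (xx a b c d e s t u) (rl 20) =
    t * t * t := by
  simp [rl, relW, nthw, wval, val, xx, mul_assoc]

theorem w21 : wval (xx a b c d e s t u) (rl 21) =
    t⁻¹ * a⁻¹ * t * a := by
  simp [rl, relW, nthw, wval, val, xx, mul_assoc]

theorem w22 : wval (xx a b c d e s t u) (rl 22) =
    t⁻¹ * b⁻¹ * t * b := by
  simp [rl, relW, nthw, wval, val, xx, mul_assoc]

theorem w23 : wval (xx a b c d e s t u) (rl 23) =
    t⁻¹ * c⁻¹ * t * c := by
  simp [rl, relW, nthw, wval, val, xx, mul_assoc]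

theorem w24 : wval (xx a b c d e s t u) (rl 24) =
    t⁻¹ * d⁻¹ * t * d := by
  simp [rl, relW, nthw, wval, val, xx, mul_assoc]

theorem w25 : wval (xx a b c d e s t u) (rl 25) =
    t⁻¹ * e⁻¹ * t * e := by
  simp [rl, relW, nthw, wval, val, xx, mul_assoc]

theorem w26 : wval (xx a b c d e s t u) (rl 26) =
    t⁻¹ * s * t * s⁻¹ * s⁻¹ := by
  simp [rl, relW, nthw, wval, val, xx, mul_assoc]

theorem w27 : wval (xx a b c d e s t u) (rl 27) =
    u * u * c⁻¹ * a⁻¹ := by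
  simp [rl, relW, nthw, wval, val, xx, mul_assoc]

theorem w28 : wval (xx a b c d e s t u) (rl 28) =
    u⁻¹ * a⁻¹ * u * a := by
  simp [rl, relW, nthw, wval, val, xx, mul_assoc]

theorem w29 : wval (xx a b c d e s t u) (rl 29) =
    u⁻¹ * c⁻¹ * u * c := by
  simp [rl, relW, nthw, wval, val, xx, mul_assoc]

theorem w30 : wval (xx a b c d e s t u) (rl 30) =
    u⁻¹ * e⁻¹ * u * e := by
  simp [rl, relW, nthw, wval, val, xx, mul_assoc]

theorem w31 : wval (xx a b c d e s t u) (rl 31) =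
    d * e * u⁻¹ * d * u * d * e * u⁻¹ * d * u := by
  simp [rl, relW, nthw, wval, val, xx, mul_assoc]

theorem w32 : wval (xx a b c d e s t u) (rl 32) =
    u⁻¹ * b⁻¹ * c⁻¹ * a⁻¹ * b * u * b⁻¹ * a * c * b * e⁻¹ := by
  simp [rl, relW, nthw, wval, val, xx, mul_assoc]

theorem w33 : wval (xx a b c d e s t u) (rl 33) =
    d⁻¹ * u⁻¹ * d * b⁻¹ * c⁻¹ * a⁻¹ * b * d⁻¹ * u * d * b⁻¹ * a * c * b * c⁻¹ * e⁻¹ * d⁻¹ * u⁻¹ * d * b⁻¹ * c⁻¹ * a⁻¹ * b * e⁻¹ * u⁻¹ := by
  simp [rl, relW, nthw, wval, val, xx, mul_assoc]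

theorem w34 : wval (xx a b c d e s t u) (rl 34) =
    u⁻¹ * t * u * t := by
  simp [rl, relW, nthw, wval, val, xx, mul_assoc]

theorem w35 : wval (xx a b c d e s t u) (rl 35) =
    e⁻¹ * s⁻¹ * s⁻¹ * u⁻¹ * s * s * e * s⁻¹ * s⁻¹ * u * s * s := by
  simp [rl, relW, nthw, wval, val, xx, mul_assoc]

theorem w36 : wval (xx a b c d e s t u) (rl 36) =
    a * c * s⁻¹ * u⁻¹ * s⁻¹ * u⁻¹ * s⁻¹ * u⁻¹ := by
  simp [rl, relW, nthw, wval, val, xx, mul_assoc]

theorem w37 : wval (xx a b c d e s t u) (rl 37) =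
    a * c * s⁻¹ * u⁻¹ * s * u * s⁻¹ * u⁻¹ * s * u * s⁻¹ * u⁻¹ * s * u * s⁻¹ * u⁻¹ * s * u := by
  simp [rl, relW, nthw, wval, val, xx, mul_assoc]

theorem w38 : wval (xx a b c d e s t u) (rl 38) =
    d * s⁻¹ * s⁻¹ * u * s * s * d * s⁻¹ * s⁻¹ * u * s * s * d * s⁻¹ * s⁻¹ * u * s * s * d * s⁻¹ * s⁻¹ * u * e⁻¹ * d⁻¹ * c⁻¹ * d * e * s * s * s * e⁻¹ * d⁻¹ * c⁻¹ * d * e * s⁻¹ * d⁻¹ * c⁻¹ * d * c⁻¹ * a⁻¹ := by
  simp [rl, relW, nthw, wval, val, xx, mul_assoc]

end Cfsg.Agent.Lib.ThMw
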