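import Mathlib
import Cfsg.Agent.Lib.HallPi
import Cfsg.Agent.Lib.SubgroupTools
import Cfsg.Agent.S0041

/-!
(helper67) In a finite solvable group, among any three distinct prime divisors of the order there are two whose
product is the order of an element.
-/

set_option autoImplicit false

open scoped Pointwise

namespace Cfsg.Agent.Lib.ThreePrimes67

open Cfsg.Agent.Lib Cfsg.Agent.Lib.SubgroupTools

universe u

theorem core {G : Type u} [Group G] [Finite G] [Group.IsSolvable G] {p q r : ℕ} (hp : p.Prime) (hq : q.Prime)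
    (hr : r.Prime) (hpq : p ≠ q) (hpr : p ≠ r) (hqr : q ≠ r) (hpG : p ∣ Nat.card G) (hqG : q ∣ Nat.card G)
    (hrG : r ∣ Nat.card G)
    (h : ∀ s t : ℕ, s.Prime → t.Prime → s ≠ t → s ∣ Nat.card G → t ∣ Nat.card G → ∀ x : G, orderOf x ≠ s * t) :
    False := by
  classical
  have hcard1 : 1 < Nat.card G := lt_of_lt_of_le hp.one_lt (Nat.le_of_dvd Nat.card_pos hpG)
  have hnt : Nontrivial G := Finite.one_lt_card_iff_nontrivial.1 hcard1
  obtain ⟨s, E, hs, hE1, hEchar, hEab, hEs⟩ := exists_characteristic_elementary G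
  have hsF : Fact s.Prime := ⟨hs⟩
  have hEn : E.Normal := inferInstance
  have hEp : IsPGroup s E := isPGroup_of_forall_pow_eq_one hEs
  have hsG : s ∣ Nat.card G := by
    obtain ⟨e, he⟩ := IsPGroup.iff_card.1 hEp
    have he0 : e ≠ 0 := by
      rintro rfl
      rw [pow_zero] at he
      exact hE1 (Subgroup.card_eq_one.1 he)
    exact ((dvd_pow_self s he0).trans he.symm.dvd).trans (Subgroup.card_subgroup_dvd_card E)
  -- two primes different from `s`
  obtain ⟨q', r', hq', hr', hqr', hq's, hr's, hq'G, hr'G⟩ : ∃ q' r' : ℕ, q'.Prime ∧ r'.Prime ∧ q' ≠ r' ∧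
      q' ≠ s ∧ r' ≠ s ∧ q' ∣ Nat.card G ∧ r' ∣ Nat.card G := by
    by_cases h1 : p = s
    · exact ⟨q, r, hq, hr, hqr, fun h2 => hpq (h1.trans h2.symm), fun h2 => hpr (h1.trans h2.symm), hqG, hrG⟩
    · by_cases h2 : q = s
      · exact ⟨p, r, hp, hr, hpr, h1, fun h3 => hqr (h2.trans h3.symm), hpG, hrG⟩
      · exact ⟨p, q, hp, hq, hpq, h1, h2, hpG, hqG⟩
  obtain ⟨K, hK⟩ := HallPi.exists_isPiHall (G := G) ({s}ᶜ : Set ℕ)
  have hKs : ¬ s ∣ Nat.card K := fun h1 => hK.1 s hs h1 rfl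
  have hKdvd : ∀ t : ℕ, t.Prime → t ≠ s → t ∣ Nat.card G → t ∣ Nat.card K := by
    intro t ht hts htG
    rw [← Subgroup.card_mul_index K] at htG
    rcases (Nat.Prime.dvd_mul ht).1 htG with h1 | h1
    · exact h1
    · exact absurd h1 (hK.2 t ht hts)
  have hKne : K ≠ ⊥ := by
    rintro rfl
    have := hKdvd q' hq' hq's hq'G
    rw [Subgroup.card_bot] at this
    exact hq'.one_lt.ne' (Nat.dvd_one.1 this)
  -- `K` acts fixed-point-freely on `E`
  have hfpf : ∀ a ∈ K, a ≠ 1 → E ⊓ Subgroup.centralizer {a} = ⊥ := by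
    intro a ha ha1
    rw [eq_bot_iff]
    rintro v ⟨hv, hva⟩
    rw [Subgroup.mem_bot]
    by_contra hv1
    have hvo : orderOf v = s := orderOf_eq_prime (hEs v hv) hv1
    have hao : orderOf a ≠ 1 := fun h1 => ha1 (orderOf_eq_one_iff.1 h1)
    obtain ⟨t, ht, hta⟩ := Nat.exists_prime_and_dvd hao
    have htK : t ∣ Nat.card K := by
      refine hta.trans ?_
      have := orderOf_dvd_natCard (⟨a, ha⟩ : K)
      rwa [Subgroup.orderOf_mk] at this
    have hts : s ≠ t := by rintro rfl; exact hKs htK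
    have hbo : orderOf (a ^ (orderOf a / t)) = t := orderOf_pow_orderOf_div (orderOf_pos a).ne' hta
    have hcomm : Commute v (a ^ (orderOf a / t)) := by
      apply Commute.pow_right
      exact Subgroup.mem_centralizer_singleton_iff.1 hva
    have h1 := hcomm.orderOf_mul_eq_mul_orderOf_of_coprime (by
      rw [hvo, hbo]; exact (Nat.coprime_primes hs ht).2 hts)
    rw [hvo, hbo] at h1
    exact h s t hs ht hts hsG (htK.trans (Subgroup.card_subgroup_dvd_card K)) _ h1
  have hcyc : ∀ A : Subgroup G, A ≤ K →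
      (IsMulCommutative A ∨ ∃ p q : ℕ, p.Prime ∧ q.Prime ∧ Nat.card A = p * q) → IsCyclic A := by
    intro A hA hA'
    exact Cfsg.Agent.S0041.result A E hE1 (by rw [Subgroup.normalizer_eq_top]; exact le_top)
      (fun a ha => hfpf a (hA ha)) hA'
  have hKnt : Nontrivial K := (Subgroup.nontrivial_iff_ne_bot K).2 hKne
  obtain ⟨t, M, ht, hM1, hMchar, hMab, hMt⟩ := exists_characteristic_elementary K
  have htF : Fact t.Prime := ⟨ht⟩
  have hMn : M.Normal := inferInstance
  set M' := M.map K.subtype with hM'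
  have hM'K : M' ≤ K := Subgroup.map_subtype_le M
  have hM'ab : IsMulCommutative M' := by
    rw [isMulCommutative_iff_of_setLike] at hMab ⊢
    rintro _ ⟨a, ha, rfl⟩ _ ⟨b, hb, rfl⟩
    rw [← map_mul, ← map_mul, hMab a ha b hb]
  have hM'c : IsCyclic M' := hcyc M' hM'K (Or.inl hM'ab)
  have hM'card : Nat.card M' = t := by
    obtain ⟨g, hg⟩ := hM'c.exists_generator
    have h2 : orderOf g = Nat.card M' := orderOf_eq_card_of_forall_mem_zpowers hg
    have h3 : g ^ t = 1 := by
      obtain ⟨⟨_, ⟨y, hy, rfl⟩⟩⟩ := (⟨g⟩ : Nonempty M')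
      obtain ⟨y, hy, hyg⟩ := g.2
      have h4 := hMt y hy
      apply Subtype.ext
      rw [Subgroup.coe_pow, ← hyg, ← map_pow, h4]
      rfl
    have h4 : Nat.card M' ∣ t := h2 ▸ orderOf_dvd_of_pow_eq_one h3
    rcases (Nat.dvd_prime ht).1 h4 with h5 | h5
    · exfalso
      have h6 : M' = ⊥ := Subgroup.card_eq_one.1 h5
      rw [hM', Subgroup.map_eq_bot_iff_of_injective _ K.subtype_injective] at h6
      exact hM1 h6
    · exact h5
  have htG : t ∣ Nat.card G := hM'card ▸ Subgroup.card_subgroup_dvd_card M'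
  -- another prime
  obtain ⟨w, hw, hwt, hws, hwG⟩ : ∃ w : ℕ, w.Prime ∧ w ≠ t ∧ w ≠ s ∧ w ∣ Nat.card G := by
    by_cases h1 : q' = t
    · exact ⟨r', hr', fun h2 => hqr' (h1.trans h2.symm), hr's, hr'G⟩
    · exact ⟨q', hq', h1, hq's, hq'G⟩
  have hwF : Fact w.Prime := ⟨hw⟩
  obtain ⟨x, hx⟩ := exists_prime_orderOf_dvd_card' w (hKdvd w hw hws hwG)
  set A := M' ⊔ Subgroup.zpowers (x : G) with hA
  have hxn : Subgroup.zpowers (x : G) ≤ Subgroup.normalizer (M' : Set G) := by
    rw [Subgroup.zpowers_le, Subgroup.mem_normalizer_iff]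
    intro y
    constructor
    · rintro ⟨z, hz, rfl⟩
      exact ⟨x * z * x⁻¹, hMn.conj_mem z hz x, by simp⟩
    · rintro ⟨z, hz, hzy⟩
      refine ⟨x⁻¹ * z * x, ?_, ?_⟩
      · have := hMn.conj_mem z hz x⁻¹
        rwa [inv_inv] at this
      · have h1 : (z : G) = x * y * (x : G)⁻¹ := hzy
        simp only [Subgroup.coe_subtype, Subgroup.coe_mul, Subgroup.coe_inv, h1]
        group
  have hxcard : Nat.card (Subgroup.zpowers (x : G)) = w := by
    rw [Nat.card_zpowers, Subgroup.orderOf_coe, hx]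
  have hAcard : Nat.card A = t * w := by
    rw [hA, card_sup_of_coprime hxn, hM'card, hxcard]
    rw [hM'card, hxcard]
    exact (Nat.coprime_primes ht hw).2 (Ne.symm hwt)
  have hAK : A ≤ K := sup_le hM'K (by rw [Subgroup.zpowers_le]; exact x.2)
  have hAc : IsCyclic A := hcyc A hAK (Or.inr ⟨t, w, ht, hw, hAcard⟩)
  obtain ⟨g, hg⟩ := IsCyclic.exists_ofOrder_eq_natCard (α := A)
  refine h t w ht hw (Ne.symm hwt) htG hwG (g : G) ?_
  rw [Subgroup.orderOf_coe, hg, hAcard]

/-- Among three primes dividing the order of a finite solvable group two are adjacent in the prime graph. -/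
theorem three_primes {G : Type u} [Group G] [Finite G] [Group.IsSolvable G] {p q r : ℕ} (hp : p.Prime) (hq : q.Prime)
    (hr : r.Prime) (hpq : p ≠ q) (hpr : p ≠ r) (hqr : q ≠ r) (hpG : p ∣ Nat.card G) (hqG : q ∣ Nat.card G)
    (hrG : r ∣ Nat.card G) (h1 : ∀ x : G, orderOf x ≠ p * q) (h2 : ∀ x : G, orderOf x ≠ p * r)
    (h3 : ∀ x : G, orderOf x ≠ q * r) : False := by
  obtain ⟨H, hH⟩ := HallPi.exists_isPiHall (G := G) ({p, q, r} : Set ℕ)
  have hdvd : ∀ t : ℕ, t.Prime → t ∈ ({p, q, r} : Set ℕ) → t ∣ Nat.card G → t ∣ Nat.card H := by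
    intro t ht htm htG
    rw [← Subgroup.card_mul_index H] at htG
    rcases (Nat.Prime.dvd_mul ht).1 htG with h4 | h4
    · exact h4
    · exact absurd h4 (hH.2 t ht htm)
  refine core (G := H) hp hq hr hpq hpr hqr (hdvd p hp (by simp) hpG) (hdvd q hq (by simp) hqG)
    (hdvd r hr (by simp) hrG) ?_
  intro s t hs ht hst hsH htH x hx
  rw [← Subgroup.orderOf_coe] at hx
  have hs' := hH.1 s hs hsH
  have ht' := hH.1 t ht htH
  simp only [Set.mem_insert_iff, Set.mem_singleton_iff] at hs' ht'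
  rcases hs' with rfl | rfl | rfl <;> rcases ht' with rfl | rfl | rfl
  · exact hst rfl
  · exact h1 _ hx
  · exact h2 _ hx
  · exact h1 _ (hx.trans (mul_comm _ _))
  · exact hst rfl
  · exact h3 _ hx
  · exact h2 _ (hx.trans (mul_comm _ _))
  · exact h3 _ (hx.trans (mul_comm _ _))
  · exact hst rfl

end Cfsg.Agent.Lib.ThreePrimes67
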