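import Cfsg.Agent.Lib.ThreeTranspL

/-!
# 3-transposition groups in which commuting transpositions are congruent modulo `O₂(G)` (helper89), S5356
-/

set_option autoImplicit false
set_option linter.all false

namespace Cfsg.Agent.Lib.ThreeTransp

open Cfsg Subgroup

universe u
variable {G : Type u} [Group G] {D : Set G}

theorem sylow_sup_eq_top {K : Type*} [Group K] [Finite K] {p : ℕ} [Fact p.Prime] (A : Sylow p K) {N : Subgroup K}
    [N.Normal] (hN : ∃ n : ℕ, N.index = p ^ n) : (A : Subgroup K) ⊔ N = ⊤ := by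
  obtain ⟨n, hn⟩ := hN
  rw [← Subgroup.index_eq_one]
  have h1 : ((A : Subgroup K) ⊔ N).index ∣ (A : Subgroup K).index := Subgroup.index_dvd_of_le le_sup_left
  have h2 : ((A : Subgroup K) ⊔ N).index ∣ N.index := Subgroup.index_dvd_of_le le_sup_right
  rw [hn] at h2
  have h3 : Nat.Coprime (A : Subgroup K).index (p ^ n) := by
    apply Nat.Coprime.pow_right
    rw [Nat.coprime_comm]
    exact (Nat.Prime.coprime_iff_not_dvd Fact.out).2 A.not_dvd_index
  exact Nat.eq_one_of_dvd_coprimes h3 h1 h2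

theorem exists_sylow_normalized [Finite G] (hD : IsThreeTranspositionClass D)
    (hD2 : ∃ a ∈ D, ∃ b ∈ D, a ≠ b) {d : G} (hd : d ∈ D) (hV : ∀ e ∈ D, Commute d e → e ∈ V D d) :
    ∃ P : Sylow 3 G, d ∈ Subgroup.normalizer (P : Set G) ∧
      Subgroup.zpowers d ⊔ (P : Subgroup G) ⊔ Cfsg.pCore 2 G = ⊤ := by
  classical
  haveI f3 : Fact (Nat.Prime 3) := ⟨Nat.prime_three⟩
  haveI f2 : Fact (Nat.Prime 2) := ⟨Nat.prime_two⟩
  have hconj := class_conj hD
  have hdd := mul_self hD.1 hd
  have hdi := inv_eq hD.1 hd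
  have hV' : ∀ a ∈ D, ∀ b ∈ D, Commute a b → b ∈ V D a := by
    intro a ha b hb hc
    obtain ⟨g, rfl⟩ := class_transitive hD d hd a ha
    have h1 := (commute_conj_iff g⁻¹).2 hc
    have e : g⁻¹ * (g * d * g⁻¹) * g⁻¹⁻¹ = d := by group
    rw [e] at h1
    have h2 := mem_V_conj hconj (hV _ (hconj g⁻¹ b hb) h1) g
    have e2 : g * (g⁻¹ * b * g⁻¹⁻¹) * g⁻¹ = b := by group
    rwa [e2] at h2
  set R := pCore 2 G with hR
  haveI hRn : R.Normal := by rw [hR]; infer_instance
  have hRp : IsPGroup 2 R := Cfsg.Agent.Lib.Cores.isPGroup_pCore 2 G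
  set π := QuotientGroup.mk' R with hπ
  have hπs : Function.Surjective π := QuotientGroup.mk'_surjective R
  have hπ1 : ∀ x : G, π x = 1 ↔ x ∈ R := fun x => QuotientGroup.eq_one_iff x
  have hnotR : ∀ a ∈ D, a ∉ R := by
    intro a ha haR
    obtain ⟨e, he, hae⟩ := exists_not_commute hD hD2 ha
    apply hae
    obtain ⟨g, rfl⟩ := class_transitive hD a ha e he
    exact commute_of_two_group hD.1 ha he hRp haR (hRn.conj_mem a haR g)
  set E := π '' D with hE
  have hE3 : IsThreeTranspositionSet E := by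
    refine ⟨?_, ?_⟩
    · rintro _ ⟨a, ha, rfl⟩
      apply orderOf_eq_prime
      · rw [← map_pow, pow_two, mul_self hD.1 ha, map_one]
      · intro h; exact hnotR a ha ((hπ1 a).1 h)
    · rintro _ ⟨a, ha, rfl⟩ _ ⟨b, hb, rfl⟩
      rcases hD.1.2 a ha b hb with h | h
      · left; rw [← map_mul, ← map_pow, h, map_one]
      · right; rw [← map_mul, ← map_pow, h, map_one]
  have hEconj : ∀ a ∈ E, ∀ b ∈ E, a * b * a ∈ E := by
    rintro _ ⟨a, ha, rfl⟩ _ ⟨b, hb, rfl⟩
    refine ⟨a * b * a, ?_, by simp⟩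
    have := hconj a b hb
    rwa [inv_eq hD.1 ha] at this
  have hEw : ∀ a ∈ E, ∀ b ∈ E, Commute a b → a = b := by
    rintro _ ⟨a, ha, rfl⟩ _ ⟨b, hb, rfl⟩ hc
    by_cases hab : Commute a b
    · have h1 := V_sub_core hD.1 hconj ha (hV' a ha b hb hab)
      have h2 : π (a⁻¹ * b) = 1 := by
        rw [hπ1]
        rw [inv_eq hD.1 ha]
        exact h1
      rw [map_mul, map_inv] at h2
      exact inv_mul_eq_one.1 h2
    · have h3 := cube_of_not_commute hD.1 ha hb hab
      have h4 : (π a * π b) ^ 2 = 1 :=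
        sq_of_commute (by rw [← map_mul, mul_self hD.1 ha, map_one]) (by rw [← map_mul, mul_self hD.1 hb, map_one]) hc
      have h5 : (π a * π b) ^ 3 = 1 := by rw [← map_mul, ← map_pow, h3, map_one]
      have h6 : π a * π b = 1 := by
        calc π a * π b = (π a * π b) ^ 3 * ((π a * π b) ^ 2)⁻¹ := by group
          _ = 1 := by rw [h4, h5]; simp
      have h7 : π b = (π a)⁻¹ := eq_inv_of_mul_eq_one_right h6
      rw [h7, ← map_inv, inv_eq hD.1 ha]
  set Q := closure {x : G ⧸ R | ∃ a ∈ E, ∃ b ∈ E, x = a * b} with hQ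
  have hQp : IsPGroup 3 Q := width_one_set hE3 hEconj hEw
  have hQn : Q.Normal := by
    constructor
    intro x hx g
    rw [hQ] at hx
    induction hx using Subgroup.closure_induction with
    | mem x hx =>
      obtain ⟨_, ⟨a, ha, rfl⟩, _, ⟨b, hb, rfl⟩, rfl⟩ := hx
      obtain ⟨g, rfl⟩ := hπs g
      apply Subgroup.subset_closure
      refine ⟨π (g * a * g⁻¹), ⟨_, hconj g a ha, rfl⟩, π (g * b * g⁻¹), ⟨_, hconj g b hb, rfl⟩, ?_⟩
      simp only [map_mul, map_inv]; group
    | one => simpa using Subgroup.one_mem _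
    | mul x y hx hy h1 h2 =>
      have : g * (x * y) * g⁻¹ = (g * x * g⁻¹) * (g * y * g⁻¹) := by group
      rw [this]
      exact Subgroup.mul_mem _ h1 h2
    | inv x hx h1 =>
      have : g * x⁻¹ * g⁻¹ = (g * x * g⁻¹)⁻¹ := by group
      rw [this]
      exact Subgroup.inv_mem _ h1
  set H := Q.comap π with hH
  haveI hHn : H.Normal := by rw [hH]; infer_instance
  have hRH : R ≤ H := by
    intro x hx
    rw [hH, mem_comap, (hπ1 x).2 hx]; exact Q.one_mem
  have hprodH : ∀ a ∈ D, ∀ b ∈ D, a * b ∈ H := by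
    intro a ha b hb
    rw [hH, mem_comap, map_mul]
    exact Subgroup.subset_closure ⟨_, ⟨a, ha, rfl⟩, _, ⟨b, hb, rfl⟩, rfl⟩
  have htop : zpowers d ⊔ H = ⊤ := by
    rw [eq_top_iff, ← hD.2.2, closure_le]
    intro e he
    have h2 : e = d * (d * e) := by rw [← mul_assoc, hdd, one_mul]
    rw [h2]
    exact Subgroup.mul_mem_sup (mem_zpowers d) (hprodH d hd e he)
  have hHindex : H.index ∣ 2 := by
    have h3 : H.relIndex (zpowers d ⊔ H) = H.relIndex (zpowers d) := Subgroup.relIndex_sup_right _ _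
    rw [htop, Subgroup.relIndex_top_right] at h3
    rw [h3]
    refine (Subgroup.relIndex_dvd_card _ _).trans ?_
    rw [Nat.card_zpowers]
    exact orderOf_dvd_of_pow_eq_one (by rw [pow_two]; exact hdd)
  -- 3-subgroups lie in H
  have h3H : ∀ P : Subgroup G, IsPGroup 3 P → P ≤ H := by
    intro P hP x hx
    rw [← QuotientGroup.eq_one_iff]
    obtain ⟨k, hk⟩ := hP ⟨x, hx⟩
    have hk' : x ^ 3 ^ k = 1 := by
      have := congrArg Subtype.val hk
      simpa using this
    have h1 : orderOf (QuotientGroup.mk x : G ⧸ H) ∣ 3 ^ k :=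
      orderOf_dvd_of_pow_eq_one (by rw [← QuotientGroup.mk_pow, hk', QuotientGroup.mk_one])
    have h2 : orderOf (QuotientGroup.mk x : G ⧸ H) ∣ 2 := (_root_.orderOf_dvd_natCard _).trans hHindex
    have h3 : Nat.Coprime (3 ^ k) 2 := Nat.Coprime.pow_left k (by norm_num)
    exact orderOf_eq_one_iff.1 (Nat.eq_one_of_dvd_coprimes h3 h1 h2)
  -- K = C_H(d) = A (K ∩ R)
  set K := centralizer ({d} : Set G) ⊓ H with hK
  obtain ⟨A⟩ : Nonempty (Sylow 3 K) := inferInstance
  have hAK : (A : Subgroup K) ⊔ R.subgroupOf K = ⊤ := by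
    apply sylow_sup_eq_top A
    -- index of R in K is a power of 3
    have h1 : IsPGroup 3 (K ⧸ R.subgroupOf K) := by
      intro x
      induction x using QuotientGroup.induction_on with
      | H x =>
        have hxQ : π (x : G) ∈ Q := x.2.2
        obtain ⟨k, hk⟩ := hQp ⟨_, hxQ⟩
        refine ⟨k, ?_⟩
        rw [← QuotientGroup.mk_pow, QuotientGroup.eq_one_iff, mem_subgroupOf]
        have := congrArg Subtype.val hk
        have h5 : (π (x : G)) ^ 3 ^ k = 1 := by simpa using this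
        rw [← map_pow, hπ1] at h5
        simpa using h5
    obtain ⟨n, hn⟩ := (IsPGroup.iff_card).1 h1
    exact ⟨n, hn⟩
  set A' := (A : Subgroup K).map K.subtype with hA'
  have hA'p : IsPGroup 3 A' := A.2.map _
  have hKA : ∀ x ∈ K, x ∈ A' ⊔ R := by
    intro x hx
    have h1 : (⟨x, hx⟩ : K) ∈ (A : Subgroup K) ⊔ R.subgroupOf K := by rw [hAK]; trivial
    have h2 : x ∈ ((A : Subgroup K) ⊔ R.subgroupOf K).map K.subtype := ⟨_, h1, rfl⟩
    rw [Subgroup.map_sup] at h2
    refine (sup_le_sup_left ?_ _ : _ ≤ A' ⊔ R) h2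
    rw [Subgroup.map_le_iff_le_comap]
    intro y hy; exact hy
  have hA'd : ∀ x ∈ A', Commute d x := by
    rintro x ⟨y, hy, rfl⟩
    have h0 : (y : G) ∈ centralizer ({d} : Set G) := y.2.1
    rw [mem_centralizer_singleton_iff] at h0
    exact h0.symm
  -- maximal d-invariant 3-subgroup containing A'
  set 𝒴 : Set (Subgroup G) := {Y | IsPGroup 3 Y ∧ A' ≤ Y ∧ ∀ x ∈ Y, d * x * d⁻¹ ∈ Y} with h𝒴
  have hA𝒴 : A' ∈ 𝒴 := by
    refine ⟨hA'p, le_rfl, fun x hx => ?_⟩
    rw [(hA'd x hx).eq, mul_assoc, mul_inv_cancel, mul_one]; exact hx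
  obtain ⟨Y, hY⟩ : ∃ Y, Maximal (· ∈ 𝒴) Y := (Set.toFinite 𝒴).exists_maximal ⟨A', hA𝒴⟩
  obtain ⟨⟨hYp, hAY, hYd⟩, hYmax⟩ := hY
  have hYH : Y ≤ H := h3H Y hYp
  have hdN : ∀ g : G, (∀ x ∈ Y, g * x * g⁻¹ ∈ Y) → g ∈ normalizer (Y : Set G) := by
    intro g hg
    have hmap : Y.map (MulAut.conj g).toMonoidHom = Y := by
      apply Subgroup.eq_of_le_of_card_ge
      · rintro _ ⟨x, hx, rfl⟩; exact hg x hx
      · rw [Nat.card_congr (Y.equivMapOfInjective (MulAut.conj g).toMonoidHom (MulAut.conj g).injective).toEquiv]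
    rw [mem_normalizer_iff]
    intro x
    refine ⟨hg x, fun hx => ?_⟩
    have hx' : g * x * g⁻¹ ∈ Y := hx
    rw [← hmap] at hx'
    obtain ⟨z, hz, hzx⟩ := hx'
    have h2 : g * z * g⁻¹ = g * x * g⁻¹ := hzx
    rw [← (mul_left_cancel (mul_right_cancel h2) : z = x)]
    exact hz
  have hdY : d ∈ normalizer (Y : Set G) := hdN d hYd
  -- [R-transitivity] members c of H with d (c d c⁻¹) ∈ R lie in Y ⊔ R
  have hcH : ∀ c ∈ H, Commute d c → c ∈ Y ⊔ R := by
    intro c hc hdc
    have h0 : c ∈ centralizer ({d} : Set G) := by rw [mem_centralizer_singleton_iff]; exact hdc.symm.eq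
    have h1 : c ∈ K := ⟨h0, hc⟩
    exact (sup_le_sup_right hAY R) (hKA c h1)
  have hcH' : ∀ c ∈ H, Commute d (c * d * c⁻¹) → c ∈ Y ⊔ R := by
    intro c hc hdc
    have h1 := hV _ (hconj c d hd) hdc
    rw [V_eq_orbit hD hD2 hd] at h1
    obtain ⟨r, hr, hrc⟩ := h1
    have h2 : r⁻¹ * c ∈ Y ⊔ R := by
      apply hcH _ (H.mul_mem (H.inv_mem (hRH hr)) hc)
      apply commute_of_conj_eq
      calc r⁻¹ * c * d * (r⁻¹ * c)⁻¹ = r⁻¹ * (c * d * c⁻¹) * r := by group
        _ = r⁻¹ * (r * d * r⁻¹) * r := by rw [hrc]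
        _ = d := by group
    have h3 : c = r * (r⁻¹ * c) := by group
    rw [h3]
    exact Subgroup.mul_mem _ ((le_sup_right : R ≤ Y ⊔ R) hr) h2
  have hYR : Y ⊔ R = H := by
    by_contra hne
    have hYRH : Y ⊔ R ≤ H := sup_le hYH hRH
    -- the image of Y in Q
    have hYQ : Y.map π ≤ Q := by
      rw [Subgroup.map_le_iff_le_comap]; exact hYH
    have hlt : (Y.map π).subgroupOf Q < ⊤ := by
      rw [lt_top_iff_ne_top]
      intro h1
      rw [Subgroup.subgroupOf_eq_top] at h1
      apply hne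
      apply le_antisymm hYRH
      intro x hx
      have h2 : π x ∈ Y.map π := h1 hx
      obtain ⟨y, hy, hyx⟩ := h2
      have h3 : y⁻¹ * x ∈ R := by
        rw [← hπ1, map_mul, map_inv, hyx]; group
      have h4 : x = y * (y⁻¹ * x) := by group
      rw [h4]
      exact Subgroup.mul_mem_sup hy h3
    haveI : Group.IsNilpotent Q := hQp.isNilpotent
    have hnc := Group.normalizerCondition_of_isNilpotent (G := Q) _ hlt
    obtain ⟨⟨z0, hzQ⟩, hz1, hz2⟩ := SetLike.exists_of_lt hnc
    obtain ⟨z, rfl⟩ := hπs z0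
    have hzH : z ∈ H := hzQ
    -- z normalises Y ⊔ R
    have hcomap : (Y.map π).comap π = Y ⊔ R := by
      rw [Subgroup.comap_map_eq, hπ, QuotientGroup.ker_mk']
    have hznorm : ∀ x ∈ Y, z * x * z⁻¹ ∈ Y ⊔ R := by
      intro x hx
      rw [← hcomap, mem_comap]
      have hxm : π x ∈ Y.map π := mem_map_of_mem π hx
      have h1 := (mem_normalizer_iff.1 hz1 (⟨π x, hYQ hxm⟩ : Q)).1 (by exact hxm)
      have h2 : π z * π x * (π z)⁻¹ ∈ Y.map π := h1
      simpa using h2
    have hzYR : z ∉ Y ⊔ R := by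
      intro h
      apply hz2
      rw [mem_subgroupOf]
      rw [← hcomap] at h
      exact h
    -- Sylow in Y ⊔ R
    set M := Y ⊔ R with hM
    have hYM : Y ≤ M := le_sup_left
    have hcardY : ∀ T : Subgroup G, T ≤ M → IsPGroup 3 T → Y ≤ T → T = Y := by
      intro T hTM hTp hYT
      -- T = Y (T ∩ R), T ∩ R = 1
      apply le_antisymm _ hYT
      intro t ht
      have h1 := hTM ht
      rw [hM, mem_sup_of_normal_right] at h1
      obtain ⟨y, hy, r, hr, hyr⟩ := h1
      have h2 : r ∈ T := by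
        have : r = y⁻¹ * t := by rw [← hyr]; group
        rw [this]
        exact T.mul_mem (T.inv_mem (hYT hy)) ht
      have h3 : r = 1 := by
        obtain ⟨k, hk⟩ := hTp ⟨r, h2⟩
        obtain ⟨l, hl⟩ := hRp ⟨r, hr⟩
        have hk' : r ^ 3 ^ k = 1 := by
          have := congrArg Subtype.val hk
          simpa using this
        have hl' : r ^ 2 ^ l = 1 := by
          have := congrArg Subtype.val hl
          simpa using this
        exact orderOf_eq_one_iff.1 (Nat.eq_one_of_dvd_coprimes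
          (Nat.Coprime.pow _ _ (by norm_num : Nat.Coprime 3 2)) (orderOf_dvd_of_pow_eq_one hk')
          (orderOf_dvd_of_pow_eq_one hl'))
      have h4 : t = y := by rw [← hyr, h3]; simp
      rw [h4]; exact hy
    have hYsyl : ∃ S : Sylow 3 M, (S : Subgroup M).map M.subtype = Y := by
      have hp : IsPGroup 3 (Y.subgroupOf M) := hYp.comap_subtype
      obtain ⟨S, hS⟩ := hp.exists_le_sylow
      refine ⟨S, hcardY _ (Subgroup.map_subtype_le _) (S.2.map _) ?_⟩
      intro y hy
      exact ⟨⟨y, hYM hy⟩, hS (by rw [mem_subgroupOf]; exact hy), rfl⟩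
    obtain ⟨S, hS⟩ := hYsyl
    -- z Y z⁻¹ as a subgroup of M
    have hzYM : Y.map (MulAut.conj z).toMonoidHom ≤ M := by
      rintro _ ⟨x, hx, rfl⟩; exact hznorm x hx
    have hzp : IsPGroup 3 ((Y.map (MulAut.conj z).toMonoidHom).subgroupOf M) := (hYp.map _).comap_subtype
    obtain ⟨S', hS'⟩ := hzp.exists_le_sylow
    obtain ⟨m, hm⟩ := MulAction.exists_smul_eq M S' S
    have hmz : ∀ x ∈ Y, ((m : G) * z) * x * ((m : G) * z)⁻¹ ∈ Y := by
      intro x hx
      have h1 : (⟨z * x * z⁻¹, hznorm x hx⟩ : M) ∈ S' := hS' (by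
        rw [mem_subgroupOf]; exact ⟨x, hx, rfl⟩)
      have h2 : m * ⟨z * x * z⁻¹, hznorm x hx⟩ * m⁻¹ ∈ S := by
        rw [← hm]
        exact ⟨_, h1, rfl⟩
      rw [← hS]
      refine ⟨_, h2, ?_⟩
      show (m : G) * (z * x * z⁻¹) * (m : G)⁻¹ = _
      group
    set w := (m : G) * z with hw
    have hwN : w ∈ normalizer (Y : Set G) := hdN w hmz
    have hwH : w ∈ H := H.mul_mem (hYRH m.2) hzH
    have hwM : w ∉ M := by
      intro h
      apply hzYR
      have : z = (m : G)⁻¹ * w := by rw [hw]; group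
      rw [this]
      exact M.mul_mem (M.inv_mem m.2) h
    -- the transposition e = w d w⁻¹
    set e := w * d * w⁻¹ with he
    have heD : e ∈ D := hconj w d hd
    have hdeM : ¬ Commute d e := fun h => hwM (hcH' w hwH h)
    have hcube := cube_of_not_commute hD.1 hd heD hdeM
    have hde : d * e ∈ M := by
      by_contra hdeM'
      -- the subgroup Y ⟨de⟩ is a larger d-invariant 3-subgroup
      have hdeN : d * e ∈ normalizer (Y : Set G) :=
        mul_mem hdY (mul_mem (mul_mem hwN hdY) (inv_mem hwN))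
      set Y' := zpowers (d * e) ⊔ Y with hY'
      have hzN : zpowers (d * e) ≤ normalizer (Y : Set G) := by
        rw [zpowers_le]; exact hdeN
      have hz3 : IsPGroup 3 (zpowers (d * e)) := by
        apply IsPGroup.of_card (n := 1)
        rw [pow_one, Nat.card_zpowers]
        apply orderOf_eq_prime hcube
        intro h
        apply hdeM'
        rw [h]; exact M.one_mem
      have hY'p : IsPGroup 3 Y' := IsPGroup.to_sup_of_normal_right' hz3 hYp hzN
      have hY'd : ∀ x ∈ Y', d * x * d⁻¹ ∈ Y' := by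
        have hle : Y' ≤ Y'.comap (MulAut.conj d).toMonoidHom := by
          rw [hY']
          apply sup_le
          · rw [zpowers_le, mem_comap]
            have : (MulAut.conj d).toMonoidHom (d * e) = (d * e)⁻¹ := by
              show d * (d * e) * d⁻¹ = (d * e)⁻¹
              rw [mul_inv_rev, hdi, inv_eq hD.1 heD, ← mul_assoc, hdd, one_mul]
            rw [this]
            exact Subgroup.inv_mem _ (mem_sup_left (mem_zpowers _))
          · intro y hy
            rw [mem_comap]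
            exact mem_sup_right (hYd y hy)
        intro x hx
        exact hle hx
      have h1 : Y' ≤ Y := hYmax ⟨hY'p, hAY.trans le_sup_right, hY'd⟩ le_sup_right
      exact hdeM' (hYM (h1 (mem_sup_left (mem_zpowers _))))
    -- c = (d e)⁻¹ w commutes with d
    have hconj3 := conj_of_cube hdd (mul_self hD.1 heD) (braid hD.1 hd heD hdeM)
    have hc : (d * e)⁻¹ * w ∈ M := by
      apply hcH _ (H.mul_mem (H.inv_mem (hprodH d hd e heD)) hwH)
      apply commute_of_conj_eq
      calc (d * e)⁻¹ * w * d * ((d * e)⁻¹ * w)⁻¹ = (d * e)⁻¹ * (w * d * w⁻¹) * (d * e) := by group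
        _ = (d * e)⁻¹ * ((d * e) * d * (d * e)⁻¹) * (d * e) := by rw [hconj3]
        _ = d := by group
    apply hwM
    have : w = (d * e) * ((d * e)⁻¹ * w) := by group
    rw [this]
    exact M.mul_mem hde hc
  -- Y is Sylow
  obtain ⟨P, hP⟩ := hYp.exists_le_sylow
  have hPY : (P : Subgroup G) = Y := by
    apply le_antisymm _ hP
    intro t ht
    have h1 : t ∈ Y ⊔ R := by rw [hYR]; exact h3H P P.2 ht
    rw [mem_sup_of_normal_right] at h1
    obtain ⟨y, hy, r, hr, hyr⟩ := h1
    have h2 : r ∈ (P : Subgroup G) := by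
      have : r = y⁻¹ * t := by rw [← hyr]; group
      rw [this]
      exact P.mul_mem (P.inv_mem (hP hy)) ht
    have h3 : r = 1 := by
      obtain ⟨k, hk⟩ := P.2 ⟨r, h2⟩
      obtain ⟨l, hl⟩ := hRp ⟨r, hr⟩
      have hk' : r ^ 3 ^ k = 1 := by
        have := congrArg Subtype.val hk
        simpa using this
      have hl' : r ^ 2 ^ l = 1 := by
        have := congrArg Subtype.val hl
        simpa using this
      exact orderOf_eq_one_iff.1 (Nat.eq_one_of_dvd_coprimes
        (Nat.Coprime.pow _ _ (by norm_num : Nat.Coprime 3 2)) (orderOf_dvd_of_pow_eq_one hk')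
        (orderOf_dvd_of_pow_eq_one hl'))
    have h4 : t = y := by rw [← hyr, h3]; simp
    rw [h4]; exact hy
  refine ⟨P, ?_, ?_⟩
  · have : (P : Set G) = (Y : Set G) := by rw [← hPY]; rfl
    rw [this]; exact hdY
  · rw [hPY, sup_assoc, hYR, htop]

end Cfsg.Agent.Lib.ThreeTransp
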