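import Cfsg.Agent.Lib.ThreeTranspL
import Cfsg.Agent.Lib.SymPres

/-!
# 3-transpositions whose commuting transpositions generate `S₃` (helper89), S5365
-/

set_option autoImplicit false
set_option linter.all false

namespace Cfsg.Agent.Lib.ThreeTransp

open Cfsg Subgroup Cfsg.Agent.Lib.SymPres

universe u
variable {G : Type u} [Group G] {D : Set G}

/-- structure of `D_d` when it generates `S₃`. -/
theorem Dd_of_sym3 (hD : IsThreeTranspositionSet D) (hconj : ∀ g : G, ∀ d ∈ D, g * d * g⁻¹ ∈ D) {d : G}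
    (hd : d ∈ D) (e : ↥(closure (Dd D d)) ≃* Equiv.Perm (Fin 3)) :
    ∃ a ∈ Dd D d, ∃ b ∈ Dd D d, a ≠ b ∧ ¬ Commute a b ∧ Dd D d = {a, b, a * b * a} ∧ a * b * a ≠ a ∧
      a * b * a ≠ b := by
  classical
  have hsub : ∀ x ∈ Dd D d, x ∈ closure (Dd D d) := fun x hx => subset_closure hx
  set E : ∀ x : G, x ∈ Dd D d → Equiv.Perm (Fin 3) := fun x hx => e ⟨x, hsub x hx⟩ with hE
  have hE2 : ∀ x (hx : x ∈ Dd D d), E x hx * E x hx = 1 := by
    intro x hx
    rw [hE]
    show e ⟨x, hsub x hx⟩ * e ⟨x, hsub x hx⟩ = 1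
    rw [← map_mul]
    have : (⟨x, hsub x hx⟩ * ⟨x, hsub x hx⟩ : ↥(closure (Dd D d))) = 1 := Subtype.ext (mul_self hD hx.1)
    rw [this, map_one]
  have hE1 : ∀ x (hx : x ∈ Dd D d), E x hx ≠ 1 := by
    intro x hx h
    have h1 : (⟨x, hsub x hx⟩ : ↥(closure (Dd D d))) = 1 := e.injective (by rw [map_one]; exact h)
    exact ne_one hD hx.1 (congrArg Subtype.val h1)
  have hEi : ∀ x (hx : x ∈ Dd D d) y (hy : y ∈ Dd D d), E x hx = E y hy → x = y := by
    intro x hx y hy h
    exact congrArg Subtype.val (e.injective h)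
  have f1 : ∀ x y : Equiv.Perm (Fin 3), x * x = 1 → x ≠ 1 → y * y = 1 → y ≠ 1 → x ≠ y → x * y ≠ y * x := by
    decide
  have f2 : ∀ x y z : Equiv.Perm (Fin 3), x * x = 1 → x ≠ 1 → y * y = 1 → y ≠ 1 → x ≠ y → z * z = 1 → z ≠ 1 →
      z = x ∨ z = y ∨ z = x * y * x := by
    decide
  have hnc : ∀ x ∈ Dd D d, ∀ y ∈ Dd D d, x ≠ y → ¬ Commute x y := by
    intro x hx y hy hne hc
    apply f1 (E x hx) (E y hy) (hE2 x hx) (hE1 x hx) (hE2 y hy) (hE1 y hy) (fun h => hne (hEi x hx y hy h))
    rw [hE]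
    show e ⟨x, hsub x hx⟩ * e ⟨y, hsub y hy⟩ = e ⟨y, hsub y hy⟩ * e ⟨x, hsub x hx⟩
    rw [← map_mul, ← map_mul]
    congr 1
    exact Subtype.ext hc
  have htwo : ∃ a ∈ Dd D d, ∃ b ∈ Dd D d, a ≠ b := by
    by_contra hcon
    push Not at hcon
    -- closure is abelian
    have hc : IsMulCommutative (closure (Dd D d)) := Subgroup.isMulCommutative_closure (fun x hx y hy => by
      rw [hcon x hx y hy])
    have h1 : (Equiv.swap 0 1 : Equiv.Perm (Fin 3)) * Equiv.swap 1 2 = Equiv.swap 1 2 * Equiv.swap 0 1 := by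
      apply e.symm.injective
      rw [map_mul, map_mul]
      exact hc.is_comm.comm _ _
    exact absurd h1 (by decide)
  obtain ⟨a, ha, b, hb, hab⟩ := htwo
  have hnab := hnc a ha b hb hab
  have hcD : a * b * a ∈ Dd D d := by
    have h1 := hconj a b hb.1
    rw [inv_eq hD ha.1] at h1
    have h2 : Commute d (a * b * a) := (ha.2.2.mul_right hb.2.2).mul_right ha.2.2
    refine ⟨h1, ?_, h2⟩
    intro h
    -- d = a b a is centralised by a, so b = ...
    have h3 : Commute a (a * b * a) := by rw [h]; exact ha.2.2.symm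
    apply hnab
    have haa := mul_self hD ha.1
    have h4 : a * (a * b * a) = (a * b * a) * a := h3
    have h5 : b * a = a * b := by
      calc b * a = (a * a) * b * a := by rw [haa, one_mul]
        _ = a * (a * b * a) := by group
        _ = (a * b * a) * a := h4
        _ = a * b * (a * a) := by group
        _ = a * b := by rw [haa, mul_one]
    exact h5.symm
  refine ⟨a, ha, b, hb, hab, hnab, ?_, ?_, ?_⟩
  · ext x
    constructor
    · intro hx
      have h := f2 (E a ha) (E b hb) (E x hx) (hE2 a ha) (hE1 a ha) (hE2 b hb) (hE1 b hb)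
        (fun h => hab (hEi a ha b hb h)) (hE2 x hx) (hE1 x hx)
      rcases h with h | h | h
      · left; exact hEi x hx a ha h
      · right; left; exact hEi x hx b hb h
      · right; right
        have h1 : E (a * b * a) hcD = E a ha * E b hb * E a ha := by
          rw [hE]
          show e ⟨a * b * a, _⟩ = e ⟨a, _⟩ * e ⟨b, _⟩ * e ⟨a, _⟩
          rw [← map_mul, ← map_mul]
          rfl
        rw [← h1] at h
        exact hEi x hx _ hcD h
    · rintro (rfl | rfl | rfl)
      · exact ha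
      · exact hb
      · exact hcD
  · intro h
    apply hnab
    have haa := mul_self hD ha.1
    have : a * b = 1 := by
      calc a * b = (a * b * a) * a := by rw [mul_assoc, haa, mul_one]
        _ = 1 := by rw [h, haa]
    rw [eq_inv_of_mul_eq_one_right this, inv_eq hD ha.1]
  · intro h
    apply hnab
    show a * b = b * a
    calc a * b = (a * b * a) * a := by rw [mul_assoc, mul_self hD ha.1, mul_one]
      _ = b * a := by rw [h]

theorem Dd_ncard (hD : IsThreeTranspositionSet D) (hconj : ∀ g : G, ∀ d ∈ D, g * d * g⁻¹ ∈ D) {d : G}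
    (hd : d ∈ D) (e : ↥(closure (Dd D d)) ≃* Equiv.Perm (Fin 3)) :
    (Dd D d).ncard = 3 ∧ ∀ x ∈ Dd D d, ∀ y ∈ Dd D d, x ≠ y → ¬ Commute x y := by
  classical
  obtain ⟨a, ha, b, hb, hab, hnab, heq, h1, h2⟩ := Dd_of_sym3 hD hconj hd e
  refine ⟨?_, ?_⟩
  · rw [heq, Set.ncard_eq_three]
    exact ⟨a, b, a * b * a, hab, h1.symm, h2.symm, rfl⟩
  · have haa := mul_self hD ha.1
    have hbb := mul_self hD hb.1
    have hbr := braid hD ha.1 hb.1 hnab
    have h3 : ¬ Commute a (a * b * a) := by
      intro h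
      apply hnab
      have h4 : a * (a * b * a) = (a * b * a) * a := h
      have h5 : b * a = a * b := by
        calc b * a = (a * a) * b * a := by rw [haa, one_mul]
          _ = a * (a * b * a) := by group
          _ = (a * b * a) * a := h4
          _ = a * b * (a * a) := by group
          _ = a * b := by rw [haa, mul_one]
      exact h5.symm
    have h4 : ¬ Commute b (a * b * a) := by
      intro h
      apply hnab
      rw [hbr] at h
      have h4 : b * (b * a * b) = (b * a * b) * b := h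
      calc a * b = (b * b) * a * b := by rw [hbb, one_mul]
        _ = b * (b * a * b) := by group
        _ = (b * a * b) * b := h4
        _ = b * a * (b * b) := by group
        _ = b * a := by rw [hbb, mul_one]
    intro x hx y hy hne hc
    rw [heq] at hx hy
    rcases hx with rfl | rfl | rfl <;> rcases hy with rfl | rfl | rfl
    · exact hne rfl
    · exact hnab hc
    · exact h3 hc
    · exact hnab hc.symm
    · exact hne rfl
    · exact h4 hc
    · exact h3 hc.symm
    · exact h4 hc.symm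
    · exact hne rfl

/-- an element commuting with `xy` but not with `x`, `y`. -/
theorem eq_of_commute_mul (hD : IsThreeTranspositionSet D) {f x y : G} (hf : f ∈ D) (hx : x ∈ D) (hy : y ∈ D)
    (hfx : ¬ Commute f x) (hfy : ¬ Commute f y) (h : Commute f (x * y)) : x = y := by
  have b1 := braid hD hf hx hfx
  have b2 := braid hD hf hy hfy
  have hff := mul_self hD hf
  have hxx := mul_self hD hx
  have hyy := mul_self hD hy
  have h1 : f * (x * y) * f = x * y := by rw [h.eq, mul_assoc, hff, mul_one]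
  have h2 : f * (x * y) * f = (x * f * x) * (y * f * y) := by
    rw [← b1, ← b2]
    calc f * (x * y) * f = f * x * (1 : G) * y * f := by group
      _ = f * x * (f * f) * y * f := by rw [hff]
      _ = _ := by group
  rw [h2] at h1
  have h3 : f * (x * y) * f = 1 := by
    calc f * (x * y) * f = (x * x) * (f * (x * y) * f) * (y * y) := by rw [hxx, hyy]; group
      _ = x * ((x * f * x) * (y * f * y)) * y := by group
      _ = x * (x * y) * y := by rw [h1]
      _ = (x * x) * (y * y) := by group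
      _ = 1 := by rw [hxx, hyy, one_mul]
  have h4 : x * y = 1 := by
    calc x * y = f⁻¹ * (f * (x * y) * f) * f⁻¹ := by group
      _ = 1 := by rw [h3, inv_eq hD hf, mul_one, hff]
  rw [eq_inv_of_mul_eq_one_right h4, inv_eq hD hx]

theorem swap_five : ∀ i j : Fin 5, i ≠ j → ∃ k l m : Fin 5,
        (Equiv.swap i j * Equiv.swap k l = Equiv.swap k l * Equiv.swap i j) ∧
        (Equiv.swap i j * Equiv.swap l m = Equiv.swap l m * Equiv.swap i j) ∧
        (Equiv.swap i j * Equiv.swap k m = Equiv.swap k m * Equiv.swap i j) ∧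
        Equiv.swap k l ≠ Equiv.swap i j ∧ Equiv.swap l m ≠ Equiv.swap i j ∧ Equiv.swap k m ≠ Equiv.swap i j ∧
        (Equiv.swap k l : Equiv.Perm (Fin 5)) ≠ Equiv.swap l m ∧
        (Equiv.swap k l : Equiv.Perm (Fin 5)) ≠ Equiv.swap k m ∧
        (Equiv.swap l m : Equiv.Perm (Fin 5)) ≠ Equiv.swap k m ∧
        k ≠ l ∧ l ≠ m ∧ k ≠ m := by
  have key : ∀ i j : Fin 5, i ≠ j → ∃ k l m : Fin 5, k ≠ l ∧ l ≠ m ∧ k ≠ m ∧ i ≠ k ∧ i ≠ l ∧ i ≠ m ∧
      j ≠ k ∧ j ≠ l ∧ j ≠ m := by decide
  intro i j hij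
  obtain ⟨k, l, m, h1, h2, h3, h4, h5, h6, h7, h8, h9⟩ := key i j hij
  have c : ∀ x y z w : Fin 5, x ≠ z → x ≠ w → y ≠ z → y ≠ w →
      Equiv.swap x y * Equiv.swap z w = Equiv.swap z w * Equiv.swap x y := by
    intro x y z w h1 h2 h3 h4
    rw [Equiv.mul_swap_eq_swap_mul, Equiv.swap_apply_of_ne_of_ne h1.symm h3.symm,
      Equiv.swap_apply_of_ne_of_ne h2.symm h4.symm]
  have n : ∀ x y z w : Fin 5, x ≠ y → z ≠ x → w ≠ x → (Equiv.swap x y : Equiv.Perm (Fin 5)) ≠ Equiv.swap z w := by
    intro x y z w hxy hzx hwx h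
    have := congrArg (fun σ => σ x) h
    simp only [Equiv.swap_apply_left] at this
    rw [Equiv.swap_apply_of_ne_of_ne hzx.symm hwx.symm] at this
    exact hxy this.symm
  refine ⟨k, l, m, c _ _ _ _ h4 h5 h7 h8, c _ _ _ _ h5 h6 h8 h9, c _ _ _ _ h4 h6 h7 h9,
    n _ _ _ _ h1 h4 h7, n _ _ _ _ h2 h5 h8, n _ _ _ _ h3 h4 h7, ?_, ?_, ?_, h1, h2, h3⟩
  · exact n _ _ _ _ h1 h1.symm h3.symm
  · rw [Equiv.swap_comm k l]; exact n _ _ _ _ h1.symm h1 h2.symm
  · exact n _ _ _ _ h2 h1 h2.symm

/-- case 1: a 4-string generates `S₅` and everything. -/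
theorem sym5_of_string (hD : IsThreeTranspositionSet D) (hconj : ∀ g : G, ∀ d ∈ D, g * d * g⁻¹ ∈ D)
    (hcard : ∀ d ∈ D, (Dd D d).ncard = 3)
    {d e a b : G} (hd : d ∈ D) (he : e ∈ D) (ha : a ∈ D) (hb : b ∈ D)
    (hde : ¬ Commute d e) (hda : Commute d a) (hdb : Commute d b) (hea : ¬ Commute e a) (heb : Commute e b)
    (hab : ¬ Commute a b) : Nonempty (↥(closure D) ≃* Equiv.Perm (Fin 5)) := by
  classical
  let s : ℕ → G := fun i => if i = 0 then d else if i = 1 then e else if i = 2 then a else b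
  have hs : CoxA 4 s := by
    constructor
    · intro i hi
      interval_cases i
      · exact mul_self hD hd
      · exact mul_self hD he
      · exact mul_self hD ha
      · exact mul_self hD hb
    · intro i hi
      have hi' : i < 3 := by omega
      interval_cases i
      · exact braid hD hd he hde
      · exact braid hD he ha hea
      · exact braid hD ha hb hab
    · intro i j hij hj
      interval_cases j
      · omega
      · omega
      · have : i = 0 := by omega
        subst this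
        exact hda.eq
      · have : i = 0 ∨ i = 1 := by omega
        rcases this with rfl | rfl
        · exact hdb.eq
        · exact heb.eq
  obtain ⟨φ, hφ⟩ := exists_hom hs
  have h01 : φ (Equiv.swap 0 1) = d := hφ 0
  have h12 : φ (Equiv.swap 1 2) = e := hφ 1
  have h23 : φ (Equiv.swap 2 3) = a := hφ 2
  have hswD : ∀ x y : Fin 5, x ≠ y → φ (Equiv.swap x y) ∈ D := by
    intro x y hxy
    obtain ⟨z, hz1, hz2⟩ : ∃ z : Fin 5, z ≠ x ∧ z ≠ y := by revert x y; decide
    obtain ⟨τ, h1, h2, -⟩ := exists_perm_three (x := (0 : Fin 5)) (y := 1) (z := 2) (x' := x) (y' := y) (z' := z)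
      (by decide) (by decide) (by decide) hxy hz1.symm hz2.symm
    have h3 : φ (Equiv.swap x y) = φ τ * d * (φ τ)⁻¹ := by
      rw [← h1, ← h2, Equiv.swap_apply_apply, map_mul, map_mul, h01, map_inv]
    rw [h3]; exact hconj _ d hd
  have hinj : Function.Injective φ := by
    apply injective_of_swaps φ
    · intro x y z hxy hxz hyz h
      obtain ⟨τ, h1, h2, h3⟩ := exists_perm_three (x' := (0 : Fin 5)) (y' := 1) (z' := 2) hxy hxz hyz
        (by decide) (by decide) (by decide)
      have h4 := conj_swap_eq φ τ h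
      rw [h1, h2, h3, h01, h12] at h4
      exact hde (by rw [h4])
    · intro x y z w hxy hxz hxw hyz hyw hzw h
      obtain ⟨τ, h1, h2, h3, h4⟩ := exists_perm_four (x' := (0 : Fin 5)) (y' := 1) (z' := 2) (w' := 3)
        hxy hxz hxw hyz hyw hzw (by decide) (by decide) (by decide) (by decide) (by decide) (by decide)
      have h5 := conj_swap_eq φ τ h
      rw [h1, h2, h3, h4, h01, h23] at h5
      rw [h5] at hdb
      exact hab hdb
    · decide
  have hne : ∀ σ τ : Equiv.Perm (Fin 5), σ ≠ τ → φ σ ≠ φ τ := fun σ τ h h' => h (hinj h')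
  have hcommS : ∀ x y z w : Fin 5, Equiv.swap x y * Equiv.swap z w = Equiv.swap z w * Equiv.swap x y →
      Commute (φ (Equiv.swap x y)) (φ (Equiv.swap z w)) := by
    intro x y z w h
    show _ * _ = _ * _
    rw [← map_mul, ← map_mul, h]
  -- neighbours
  have hnb : ∀ i j : Fin 5, i ≠ j → ∀ f ∈ Dd D (φ (Equiv.swap i j)), f ∈ φ.range := by
    intro i j hij f hf
    obtain ⟨k, l, m, hc1, hc2, hc3, n1, n2, n3, n4, n5, n6, hkl, hlm, hkm⟩ := swap_five i j hij
    have hsub : ({φ (Equiv.swap k l), φ (Equiv.swap l m), φ (Equiv.swap k m)} : Set G) ⊆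
        Dd D (φ (Equiv.swap i j)) := by
      rintro x (rfl | rfl | rfl)
      · exact ⟨hswD k l hkl, hne _ _ n1, hcommS _ _ _ _ hc1⟩
      · exact ⟨hswD l m hlm, hne _ _ n2, hcommS _ _ _ _ hc2⟩
      · exact ⟨hswD k m hkm, hne _ _ n3, hcommS _ _ _ _ hc3⟩
    have hfin : (Dd D (φ (Equiv.swap i j))).Finite := by
      apply Set.finite_of_ncard_ne_zero
      rw [hcard _ (hswD i j hij)]; norm_num
    have heq := Set.eq_of_subset_of_ncard_le hsub (by
      rw [hcard _ (hswD i j hij)]
      rw [Set.ncard_eq_three.2 ⟨_, _, _, hne _ _ n4, hne _ _ n5, hne _ _ n6, rfl⟩]) hfin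
    rw [← heq] at hf
    rcases hf with rfl | rfl | rfl
    · exact ⟨_, rfl⟩
    · exact ⟨_, rfl⟩
    · exact ⟨_, rfl⟩
  -- everything is in the range
  have hDr : ∀ f ∈ D, f ∈ φ.range := by
    intro f hf
    by_contra hfr
    have hnc : ∀ x y : Fin 5, x ≠ y → ¬ Commute f (φ (Equiv.swap x y)) := by
      intro x y hxy hc
      apply hfr
      apply hnb x y hxy
      refine ⟨hf, ?_, hc.symm⟩
      rintro rfl
      exact hfr ⟨_, rfl⟩
    have hexcl : ∀ x y z w : Fin 5, x ≠ y → z ≠ w → (Equiv.swap x y : Equiv.Perm (Fin 5)) ≠ Equiv.swap z w →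
        ¬ Commute f (φ (Equiv.swap x y * Equiv.swap z w)) := by
      intro x y z w hxy hzw hne' hc
      rw [map_mul] at hc
      exact hne _ _ hne' (eq_of_commute_mul hD hf (hswD x y hxy) (hswD z w hzw) (hnc x y hxy) (hnc z w hzw) hc)
    -- conjugates of f by double transpositions
    set F : Equiv.Perm (Fin 5) → G := fun t => φ t * f * (φ t)⁻¹ with hF
    have hFeq : ∀ s t : Equiv.Perm (Fin 5), F s = F t → Commute f (φ (s⁻¹ * t)) := by
      intro s t h
      have h1 : φ s * f * (φ s)⁻¹ = φ t * f * (φ t)⁻¹ := h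
      rw [map_mul, map_inv]
      show f * ((φ s)⁻¹ * φ t) = ((φ s)⁻¹ * φ t) * f
      calc f * ((φ s)⁻¹ * φ t) = (φ s)⁻¹ * (φ s * f * (φ s)⁻¹) * φ t := by group
        _ = (φ s)⁻¹ * (φ t * f * (φ t)⁻¹) * φ t := by rw [h1]
        _ = _ := by group
    have hFmem : ∀ x y z w : Fin 5, x ≠ y → z ≠ w → (Equiv.swap x y : Equiv.Perm (Fin 5)) ≠ Equiv.swap z w →
        Equiv.swap x y * Equiv.swap z w = Equiv.swap z w * Equiv.swap x y →
        F (Equiv.swap x y * Equiv.swap z w) ∈ Dd D f := by
      intro x y z w hxy hzw hne' hcom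
      refine ⟨hconj _ f hf, ?_, ?_⟩
      · intro h
        apply hexcl x y z w hxy hzw hne'
        have := hFeq 1 (Equiv.swap x y * Equiv.swap z w) (by
          rw [h]; show φ 1 * f * (φ 1)⁻¹ = f; rw [map_one]; group)
        rwa [inv_one, one_mul] at this
      · have := Cfsg.Agent.Lib.ThreeRank3.commute_conj_prod hD (hswD x y hxy) (hswD z w hzw) hf
          (hcommS _ _ _ _ hcom) (hnc x y hxy) (hnc z w hzw)
        show Commute f (φ (Equiv.swap x y * Equiv.swap z w) * f * (φ (Equiv.swap x y * Equiv.swap z w))⁻¹)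
        rw [map_mul]; exact this
    have hfin : (Dd D f).Finite := by
      apply Set.finite_of_ncard_ne_zero
      rw [hcard _ hf]; norm_num
    let v1 : Equiv.Perm (Fin 5) := Equiv.swap 0 1 * Equiv.swap 2 3
    let v2 : Equiv.Perm (Fin 5) := Equiv.swap 0 2 * Equiv.swap 1 3
    let v3 : Equiv.Perm (Fin 5) := Equiv.swap 0 3 * Equiv.swap 1 2
    let ta : Equiv.Perm (Fin 5) := Equiv.swap 1 2 * Equiv.swap 3 4
    let tb : Equiv.Perm (Fin 5) := Equiv.swap 1 3 * Equiv.swap 2 4
    have m1 : F v1 ∈ Dd D f := hFmem 0 1 2 3 (by decide) (by decide) (by decide) (by decide)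
    have m2 : F v2 ∈ Dd D f := hFmem 0 2 1 3 (by decide) (by decide) (by decide) (by decide)
    have m3 : F v3 ∈ Dd D f := hFmem 0 3 1 2 (by decide) (by decide) (by decide) (by decide)
    have ma : F ta ∈ Dd D f := hFmem 1 2 3 4 (by decide) (by decide) (by decide) (by decide)
    have mb : F tb ∈ Dd D f := hFmem 1 3 2 4 (by decide) (by decide) (by decide) (by decide)
    have hx : ∀ x y z w : Fin 5, x ≠ y → z ≠ w → (Equiv.swap x y : Equiv.Perm (Fin 5)) ≠ Equiv.swap z w →
        ∀ σ : Equiv.Perm (Fin 5), σ = Equiv.swap x y * Equiv.swap z w → ¬ Commute f (φ σ) := by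
      intro x y z w hxy hzw hne' σ hσ
      rw [hσ]; exact hexcl x y z w hxy hzw hne'
    have d12 : F v1 ≠ F v2 := fun h => hx 0 3 1 2 (by decide) (by decide) (by decide) _ (by decide) (hFeq _ _ h)
    have d13 : F v1 ≠ F v3 := fun h => hx 0 2 1 3 (by decide) (by decide) (by decide) _ (by decide) (hFeq _ _ h)
    have d23 : F v2 ≠ F v3 := fun h => hx 0 1 2 3 (by decide) (by decide) (by decide) _ (by decide) (hFeq _ _ h)
    have heq : ({F v1, F v2, F v3} : Set G) = Dd D f := by
      apply Set.eq_of_subset_of_ncard_le _ _ hfin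
      · rintro x (rfl | rfl | rfl)
        · exact m1
        · exact m2
        · exact m3
      · rw [hcard _ hf, Set.ncard_eq_three.2 ⟨_, _, _, d12, d13, d23, rfl⟩]
    rw [← heq] at ma mb
    have hprod : ∀ v w : Equiv.Perm (Fin 5), F ta = F v → F tb = F w → Commute f (φ ((v⁻¹ * ta) * (w⁻¹ * tb))) := by
      intro v w h1 h2
      rw [map_mul]
      exact (hFeq _ _ h1.symm).mul_right (hFeq _ _ h2.symm)
    rcases ma with ma | ma | ma
    · rcases mb with mb | mb | mb
      · exact hx 0 1 0 3 (by decide) (by decide) (by decide) _ (by decide) (hprod _ _ ma mb)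
      · exact hx 1 3 3 4 (by decide) (by decide) (by decide) _ (by decide) (hprod _ _ ma mb)
      · exact hx 0 3 0 4 (by decide) (by decide) (by decide) _ (by decide) (hprod _ _ ma mb)
    · rcases mb with mb | mb | mb
      · exact hx 1 2 1 3 (by decide) (by decide) (by decide) _ (by decide) (hprod _ _ ma mb)
      · exact hx 0 2 2 4 (by decide) (by decide) (by decide) _ (by decide) (hFeq _ _ mb.symm)
      · exact hx 0 4 1 2 (by decide) (by decide) (by decide) _ (by decide) (hprod _ _ ma mb)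
    · exact hx 0 3 3 4 (by decide) (by decide) (by decide) _ (by decide) (hFeq _ _ ma.symm)
  -- the isomorphism
  have hrange : φ.range = closure D := by
    apply le_antisymm
    · rw [MonoidHom.range_eq_map, ← Equiv.Perm.closure_isSwap, MonoidHom.map_closure, closure_le]
      rintro _ ⟨σ, ⟨x, y, hxy, rfl⟩, rfl⟩
      exact subset_closure (hswD x y hxy)
    · rw [closure_le]; exact hDr
  rw [← hrange]
  exact ⟨(MonoidHom.ofInjective hinj).symm⟩

/-- case 2. -/
theorem sym3_prod [Finite G] (hD : IsThreeTranspositionSet D) (hconj : ∀ g : G, ∀ d ∈ D, g * d * g⁻¹ ∈ D)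
    (hne : D.Nonempty)
    (hloc : ∀ d ∈ D, Nonempty (↥(closure (Dd D d)) ≃* Equiv.Perm (Fin 3)) ∧
      Nat.card (pCore 3 ↥(centralizer ({d} : Set G))) = 3)
    (hcase : ∀ x ∈ D, ∀ b ∈ Dd D x, ∀ e ∈ Dd D b, ∀ a ∈ Dd D x, Commute e a) :
    Nonempty (↥(closure D) ≃* Equiv.Perm (Fin 3) × Equiv.Perm (Fin 3)) := by
  classical
  haveI : Fact (Nat.Prime 3) := ⟨Nat.prime_three⟩
  have hcard : ∀ d ∈ D, (Dd D d).ncard = 3 ∧ ∀ x ∈ Dd D d, ∀ y ∈ Dd D d, x ≠ y → ¬ Commute x y := by
    intro d hd
    obtain ⟨e⟩ := (hloc d hd).1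
    exact Dd_ncard hD hconj hd e
  have hsymm : ∀ {x y : G}, x ∈ D → y ∈ Dd D x → x ∈ Dd D y := by
    intro x y hx hy
    exact ⟨hx, hy.2.1.symm, hy.2.2.symm⟩
  -- N(a) ⊆ W_d for a ∈ N(d)
  have hW : ∀ d ∈ D, ∀ a ∈ Dd D d, Dd D a = W D d := by
    intro d hd a ha
    apply Set.Subset.antisymm
    · intro e he
      refine ⟨he.1, ?_⟩
      apply Set.eq_of_subset_of_ncard_le _ (by rw [(hcard e he.1).1, (hcard d hd).1]) (Set.toFinite _)
      intro x hx
      refine ⟨hx.1, ?_, hcase d hd a ha e he x hx⟩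
      rintro rfl
      exact (hcard a ha.1).2 x he d (hsymm hd ha) hx.2.1 hx.2.2.symm
    · intro w hw
      have h1 := Dd_of_W hw ha
      exact hsymm hw.1 h1
  obtain ⟨d, hd⟩ := hne
  obtain ⟨ed⟩ := (hloc d hd).1
  obtain ⟨a, ha, b, hb, hab, hnab, heq, -, -⟩ := Dd_of_sym3 hD hconj hd ed
  obtain ⟨ea⟩ := (hloc a ha.1).1
  have hdd := mul_self hD hd
  have haa := mul_self hD ha.1
  have hdi := inv_eq hD hd
  have hai := inv_eq hD ha.1
  have hda : Commute d a := ha.2.2
  have hNa := hW d hd a ha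
  have hNd : Dd D d = W D a := hW a ha.1 d (hsymm hd ha)
  have hcube : (a * b) ^ 3 = 1 := cube_of_not_commute hD ha.1 hb.1 hnab
  have hab1 : a * b ≠ 1 := by
    intro h; apply hab; rw [eq_inv_of_mul_eq_one_right h, hai]
  -- the 3-group P = ⟨ab⟩
  set C := centralizer ({d} : Set G) with hC
  have hmemC : ∀ x : G, x ∈ C ↔ Commute d x := by
    intro x
    rw [hC, mem_centralizer_singleton_iff]
    exact ⟨fun h => h.symm, fun h => h.symm⟩
  set P := closure {x : G | ∃ y ∈ Dd D d, ∃ z ∈ Dd D d, x = y * z} with hP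
  have hPp : IsPGroup 3 P := by
    have := PW_pgroup hD hconj a
    unfold PW at this
    rw [← hNd] at this
    exact this
  have hPC : P ≤ C := by
    rw [hP, closure_le]
    rintro x ⟨y, hy, z, hz, rfl⟩
    rw [SetLike.mem_coe, hmemC]
    exact hy.2.2.mul_right hz.2.2
  have hCP : C ≤ normalizer (P : Set G) := by
    have key : ∀ g ∈ C, ∀ x ∈ P, g * x * g⁻¹ ∈ P := by
      intro g hg x hx
      rw [hmemC] at hg
      rw [hP] at hx
      have hgd : g * d * g⁻¹ = d := by rw [← hg.eq]; group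
      induction hx using Subgroup.closure_induction with
      | mem x hx =>
        obtain ⟨y, hy, z, hz, rfl⟩ := hx
        apply Subgroup.subset_closure
        have h1 := mem_Dd_conj hconj hy g
        have h2 := mem_Dd_conj hconj hz g
        rw [hgd] at h1 h2
        exact ⟨_, h1, _, h2, by group⟩
      | one => simpa using Subgroup.one_mem _
      | mul x y hx hy h1 h2 =>
        have : g * (x * y) * g⁻¹ = (g * x * g⁻¹) * (g * y * g⁻¹) := by group
        rw [this]
        exact Subgroup.mul_mem _ h1 h2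
      | inv x hx h1 =>
        have : g * x⁻¹ * g⁻¹ = (g * x * g⁻¹)⁻¹ := by group
        rw [this]
        exact Subgroup.inv_mem _ h1
    intro g hg
    rw [mem_normalizer_iff]
    intro x
    refine ⟨fun hx => key g hg x hx, fun hx => ?_⟩
    have h1 := key g⁻¹ (C.inv_mem hg) _ hx
    have h2 : g⁻¹ * (g * x * g⁻¹) * g⁻¹⁻¹ = x := by group
    rwa [h2] at h1
  have habP : a * b ∈ P := subset_closure ⟨a, ha, b, hb, rfl⟩
  have hPn : (P.subgroupOf C).Normal := (Subgroup.normal_subgroupOf_iff_le_normalizer hPC).2 hCP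
  have hcore : P.subgroupOf C = pCore 3 C := by
    have hle : P.subgroupOf C ≤ pCore 3 C := Cfsg.Agent.Lib.Cores.le_pCore hPn hPp.comap_subtype
    apply Subgroup.eq_of_le_of_card_ge hle
    rw [(hloc d hd).2]
    -- order of ab is 3
    have h1 : orderOf (⟨a * b, hPC habP⟩ : C) = 3 := by
      apply orderOf_eq_prime
      · exact Subtype.ext hcube
      · intro h; exact hab1 (congrArg Subtype.val h)
    rw [← h1]
    exact Subgroup.orderOf_le_card _ (Set.toFinite _) (by rw [mem_subgroupOf]; exact habP)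
  have hPz : P = zpowers (a * b) := by
    symm
    apply Subgroup.eq_of_le_of_card_ge
    · rw [zpowers_le]; exact habP
    · rw [Nat.card_zpowers, orderOf_eq_prime hcube hab1]
      have h1 : Nat.card P = Nat.card (P.subgroupOf C) :=
        Nat.card_congr (Subgroup.subgroupOfEquivOfLe hPC).symm.toEquiv
      rw [h1, hcore, (hloc d hd).2]
  -- the normal subgroup E
  set E := closure {x : G | ∃ y ∈ D, ∃ z ∈ W D y, x = y * z} with hE
  have hEker : E ≤ kerW hconj := by
    rw [hE, closure_le]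
    rintro x ⟨y, hy, z, hz, rfl⟩ f hf
    exact Dd_eq_conj hD hconj hy hz hf
  haveI hEn : E.Normal := by
    constructor
    intro x hx g
    rw [hE] at hx
    induction hx using Subgroup.closure_induction with
    | mem x hx =>
      obtain ⟨y, hy, z, hz, rfl⟩ := hx
      apply Subgroup.subset_closure
      exact ⟨_, hconj g y hy, _, mem_W_conj hconj hz g, by group⟩
    | one => simpa using Subgroup.one_mem _
    | mul x y hx hy h1 h2 =>
      have : g * (x * y) * g⁻¹ = (g * x * g⁻¹) * (g * y * g⁻¹) := by group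
      rw [this]
      exact Subgroup.mul_mem _ h1 h2
    | inv x hx h1 =>
      have : g * x⁻¹ * g⁻¹ = (g * x * g⁻¹)⁻¹ := by group
      rw [this]
      exact Subgroup.inv_mem _ h1
  have hEp : IsPGroup 3 E := by
    have hle : E ≤ pCore 3 G := by
      rw [hE, closure_le]
      rintro x ⟨y, hy, z, hz, rfl⟩
      apply PW_le_core hD hconj hy
      exact subset_closure ⟨y, mem_W_self hy, z, hz, rfl⟩
    exact (Cfsg.Agent.Lib.Cores.isPGroup_pCore 3 G).to_le hle
  have hECP : ∀ g ∈ E, Commute d g → g ∈ P := by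
    intro g hg hdg
    have hn : (E.subgroupOf C).Normal := inferInstance
    have hle : E.subgroupOf C ≤ pCore 3 C := Cfsg.Agent.Lib.Cores.le_pCore hn hEp.comap_subtype
    rw [← hcore] at hle
    have h1 : (⟨g, (hmemC g).2 hdg⟩ : C) ∈ E.subgroupOf C := by rw [mem_subgroupOf]; exact hg
    have h2 := hle h1
    rwa [mem_subgroupOf] at h2
  -- t = d a inverts E
  have hainv : ∀ s ∈ P, a * s * a⁻¹ = s⁻¹ := by
    intro s hs
    rw [hPz] at hs
    obtain ⟨k, rfl⟩ := mem_zpowers_iff.1 hs
    have h1 : a * (a * b) ^ k * a⁻¹ = (a * (a * b) * a⁻¹) ^ k := (conj_zpow).symm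
    have h2 : a * (a * b) * a⁻¹ = (a * b)⁻¹ := by
      rw [mul_inv_rev, inv_eq hD hb.1, hai, ← mul_assoc, haa, one_mul]
    rw [h1, h2, inv_zpow]
  have htinv : ∀ g ∈ E, (d * a) * g * (d * a)⁻¹ = g⁻¹ := by
    intro g hg
    have hsP : ∀ s ∈ P, (d * a) * s * (d * a)⁻¹ = s⁻¹ := by
      intro s hs
      have h1 : (d * a) * s * (d * a)⁻¹ = d * (a * s * a⁻¹) * d⁻¹ := by group
      rw [h1, hainv s hs]
      have h2 : Commute d s⁻¹ := ((hmemC s).1 (hPC hs)).inv_right
      rw [h2.eq, mul_assoc, mul_inv_cancel, mul_one]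
    set w := g * d * g⁻¹ with hw
    have hwW : w ∈ W D d := hEker hg d hd
    by_cases hwd : w = d
    · exact hsP g (hECP g hg (commute_of_conj_eq hwd))
    · have hnc : ¬ Commute d w := fun h => hwd (W_not_commute (mem_W_self hd) hwW h).symm
      set r := d * w with hr
      have hrE : r ∈ E := subset_closure ⟨d, hd, w, hwW, rfl⟩
      have hrd : r * d * r⁻¹ = w := conj_of_cube hdd (mul_self hD hwW.1) (braid hD hd hwW.1 hnc)
      set s := r⁻¹ * g with hs
      have hgs : g = r * s := by rw [hs]; group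
      have hsE : s ∈ E := E.mul_mem (E.inv_mem hrE) hg
      have hsd : Commute d s := by
        apply commute_of_conj_eq
        calc s * d * s⁻¹ = r⁻¹ * (g * d * g⁻¹) * r := by rw [hs]; group
          _ = r⁻¹ * (r * d * r⁻¹) * r := by rw [← hw, hrd]
          _ = d := by group
      have hsP' := hECP s hsE hsd
      have haw : Commute a w := (Dd_of_W hwW ha).2.2.symm
      have hbw : Commute b w := (Dd_of_W hwW hb).2.2.symm
      have har : Commute a r := hda.symm.mul_right haw
      have hbr : Commute b r := hb.2.2.symm.mul_right hbw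
      have hrs : Commute r s := by
        rw [hPz] at hsP'
        obtain ⟨k, hk⟩ := mem_zpowers_iff.1 hsP'
        rw [← hk]
        exact ((har.mul_left hbr).symm).zpow_right k
      have hrinv : (d * a) * r * (d * a)⁻¹ = r⁻¹ := by
        have h1 : (d * a) * r * (d * a)⁻¹ = d * (a * r * a⁻¹) * d⁻¹ := by group
        have h2 : a * r * a⁻¹ = r := by rw [har.eq]; group
        rw [h1, h2, hr, mul_inv_rev, inv_eq hD hwW.1, hdi, ← mul_assoc, hdd, one_mul]
      calc (d * a) * g * (d * a)⁻¹ = ((d * a) * r * (d * a)⁻¹) * ((d * a) * s * (d * a)⁻¹) := by rw [hgs]; group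
        _ = r⁻¹ * s⁻¹ := by rw [hrinv, hsP s hsP']
        _ = (r * s)⁻¹ := by rw [hrs.eq]; exact (mul_inv_rev s r).symm
        _ = g⁻¹ := by rw [← hgs]
  -- D ⊆ N(d) ∪ N(a)
  have hDsub : ∀ f ∈ D, f ∈ Dd D d ∨ f ∈ Dd D a := by
    intro f hf
    by_contra hcon
    push Not at hcon
    obtain ⟨h1, h2⟩ := hcon
    have hfd : ¬ Commute d f := by
      intro h
      by_cases he : f = d
      · apply h2; rw [he]; exact hsymm hd ha
      · exact h1 ⟨hf, he, h⟩
    have hfa : ¬ Commute a f := by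
      intro h
      by_cases he : f = a
      · apply h1; rw [he]; exact ha
      · exact h2 ⟨hf, he, h⟩
    have b1 := braid hD hd hf hfd
    have b2 := braid hD ha.1 hf hfa
    have hff := mul_self hD hf
    have hfi := inv_eq hD hf
    have hda' : d * a = a * d := hda.eq
    have hsc := string_comm hda' b1
    -- t f t f = f t f t
    have e1 : (d * a) * f * (d * a) = d * f * a * f * d := by
      calc (d * a) * f * (d * a) = d * a * f * (a * d) := by rw [hda']
        _ = d * (a * f * a) * d := by group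
        _ = d * f * a * f * d := by rw [b2]; group
    have e2 : (d * a) * f * (d * a) * f = f * (d * a) * f * (d * a) := by
      calc (d * a) * f * (d * a) * f = (d * f * a * f * d) * f := by rw [e1]
        _ = f * (d * f * a * f * d) := hsc.symm
        _ = f * ((d * a) * f * (d * a)) := by rw [e1]
        _ = _ := by group
    have e3 : (a * f * a) * (d * a) * (a * f * a) = f * (d * a) * f * (d * a) := by
      calc (a * f * a) * (d * a) * (a * f * a) = a * f * a * d * (a * a) * f * a := by group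
        _ = (a * f * a) * d * f * a := by rw [haa]; group
        _ = f * a * (f * d * f) * a := by rw [b2]; group
        _ = f * (a * d) * f * (d * a) := by rw [← b1]; group
        _ = _ := by rw [← hda']
    have hqi : (a * f * a)⁻¹ = a * f * a := by rw [mul_inv_rev, mul_inv_rev, hai, hfi]; group
    have hg : a * b ∈ E := by
      apply Subgroup.subset_closure
      refine ⟨a, ha.1, b, ?_, rfl⟩
      rw [← hNd]; exact hb
    have hinv1 : ∀ g ∈ E, ((a * f * a) * (d * a) * (a * f * a)) * g * ((a * f * a) * (d * a) * (a * f * a))⁻¹ = g⁻¹ := by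
      intro g hg
      have h3 : (a * f * a)⁻¹ * g * (a * f * a)⁻¹⁻¹ ∈ E := hEn.conj_mem g hg _
      have h4 := htinv _ h3
      calc ((a * f * a) * (d * a) * (a * f * a)) * g * ((a * f * a) * (d * a) * (a * f * a))⁻¹
          = ((a * f * a) * (d * a) * (a * f * a)⁻¹) * g * ((a * f * a) * (d * a) * (a * f * a)⁻¹)⁻¹ := by rw [hqi]
        _ = (a * f * a) * ((d * a) * ((a * f * a)⁻¹ * g * (a * f * a)⁻¹⁻¹) * (d * a)⁻¹) * (a * f * a)⁻¹ := by group
        _ = (a * f * a) * ((a * f * a)⁻¹ * g * (a * f * a)⁻¹⁻¹)⁻¹ * (a * f * a)⁻¹ := by rw [h4]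
        _ = g⁻¹ := by group
    have hinv2 : ∀ g ∈ E, ((d * a) * f * (d * a) * f) * g * ((d * a) * f * (d * a) * f)⁻¹ = g := by
      intro g hg
      have h3 : f⁻¹ * g * f⁻¹⁻¹ ∈ E := hEn.conj_mem g hg _
      have h4 := htinv _ h3
      have h5 := htinv _ (E.inv_mem hg)
      calc ((d * a) * f * (d * a) * f) * g * ((d * a) * f * (d * a) * f)⁻¹
          = ((d * a) * f * (d * a) * f⁻¹) * g * ((d * a) * f * (d * a) * f⁻¹)⁻¹ := by rw [hfi]
        _ = (d * a) * (f * ((d * a) * (f⁻¹ * g * f⁻¹⁻¹) * (d * a)⁻¹) * f⁻¹) * (d * a)⁻¹ := by group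
        _ = (d * a) * (f * (f⁻¹ * g * f⁻¹⁻¹)⁻¹ * f⁻¹) * (d * a)⁻¹ := by rw [h4]
        _ = (d * a) * g⁻¹ * (d * a)⁻¹ := by group
        _ = g := by rw [h5, inv_inv]
    have h6 := hinv1 _ hg
    rw [e3, ← e2, hinv2 _ hg] at h6
    apply hab1
    have h7 : (a * b) * (a * b) = 1 := by
      nth_rewrite 1 [h6]; group
    have h8 : (a * b) * (a * b) * (a * b) = 1 := by rw [← hcube, pow_succ, pow_two]
    rw [h7, one_mul] at h8
    exact h8
  -- the isomorphism
  have hcommNN : ∀ x ∈ Dd D d, ∀ y ∈ Dd D a, Commute x y := by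
    intro x hx y hy
    exact (hcase d hd a ha y hy x hx).symm
  have hcl : ∀ x ∈ closure (Dd D d), ∀ y ∈ closure (Dd D a), Commute x y := by
    intro x hx y hy
    have h1 : closure (Dd D a) ≤ centralizer (Dd D d) := by
      rw [closure_le]
      intro y hy
      rw [SetLike.mem_coe, mem_centralizer_iff]
      intro x hx
      exact hcommNN x hx y hy
    have h2 : closure (Dd D d) ≤ centralizer ((closure (Dd D a) : Subgroup G) : Set G) := by
      rw [closure_le]
      intro x hx
      rw [SetLike.mem_coe, mem_centralizer_iff]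
      intro y hy
      exact ((mem_centralizer_iff.1 (h1 hy)) x hx).symm
    exact ((mem_centralizer_iff.1 (h2 hx)) y hy).symm
  let f1 : Equiv.Perm (Fin 3) →* G := (closure (Dd D d)).subtype.comp ed.symm.toMonoidHom
  let f2 : Equiv.Perm (Fin 3) →* G := (closure (Dd D a)).subtype.comp ea.symm.toMonoidHom
  have hf1 : ∀ x, f1 x ∈ closure (Dd D d) := fun x => (ed.symm x).2
  have hf2 : ∀ x, f2 x ∈ closure (Dd D a) := fun x => (ea.symm x).2
  let φ := MonoidHom.noncommCoprod f1 f2 (fun x y => hcl _ (hf1 x) _ (hf2 y))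
  have hφi : Function.Injective φ := by
    rw [injective_iff_map_eq_one]
    rintro ⟨x, y⟩ h
    have h1 : f1 x * f2 y = 1 := h
    have hcx : ∀ z, x * z = z * x := by
      intro z
      apply ed.symm.injective
      apply Subtype.ext
      rw [map_mul, map_mul]
      show f1 x * f1 z = f1 z * f1 x
      have h2 : f1 x = (f2 y)⁻¹ := eq_inv_of_mul_eq_one_left h1
      rw [h2]
      exact ((hcl _ (hf1 z) _ (hf2 y)).inv_right).symm
    have key : ∀ x : Equiv.Perm (Fin 3), (∀ z, x * z = z * x) → x = 1 := by decide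
    have hx1 : x = 1 := key x hcx
    subst hx1
    rw [map_one, one_mul] at h1
    have h3 : ea.symm y = 1 := Subtype.ext h1
    have hy1 : y = 1 := by
      apply ea.symm.injective; rw [h3, map_one]
    rw [hy1]; rfl
  have hr1 : f1.range = closure (Dd D d) := by
    ext x
    constructor
    · rintro ⟨y, rfl⟩; exact hf1 y
    · intro hx
      exact ⟨ed ⟨x, hx⟩, by show ((ed.symm (ed ⟨x, hx⟩) : ↥(closure (Dd D d))) : G) = x; rw [ed.symm_apply_apply]⟩
  have hr2 : f2.range = closure (Dd D a) := by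
    ext x
    constructor
    · rintro ⟨y, rfl⟩; exact hf2 y
    · intro hx
      exact ⟨ea ⟨x, hx⟩, by show ((ea.symm (ea ⟨x, hx⟩) : ↥(closure (Dd D a))) : G) = x; rw [ea.symm_apply_apply]⟩
  have hrange : φ.range = closure D := by
    have h1 : φ.range = f1.range ⊔ f2.range := MonoidHom.noncommCoprod_range ..
    rw [h1, hr1, hr2]
    apply le_antisymm
    · apply sup_le
      · exact closure_mono (fun x hx => hx.1)
      · exact closure_mono (fun x hx => hx.1)
    · rw [closure_le]
      intro x hx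
      rcases hDsub x hx with h | h
      · exact mem_sup_left (subset_closure h)
      · exact mem_sup_right (subset_closure h)
  rw [← hrange]
  exact ⟨(MonoidHom.ofInjective hφi).symm⟩

/-- statement S5365 -/
theorem local_sym3 [Finite G] (hD : IsThreeTranspositionSet D) (hconj : ∀ g : G, ∀ d ∈ D, g * d * g⁻¹ ∈ D)
    (hne : D.Nonempty)
    (hloc : ∀ d ∈ D, Nonempty (↥(closure (Dd D d)) ≃* Equiv.Perm (Fin 3)) ∧
      Nat.card (pCore 3 ↥(centralizer ({d} : Set G))) = 3) :
    Nonempty (↥(closure D) ≃* Equiv.Perm (Fin 5)) ∨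
      Nonempty (↥(closure D) ≃* Equiv.Perm (Fin 3) × Equiv.Perm (Fin 3)) := by
  classical
  by_cases hex : ∀ x ∈ D, ∀ b ∈ Dd D x, ∀ e ∈ Dd D b, ∀ a ∈ Dd D x, Commute e a
  · exact Or.inr (sym3_prod hD hconj hne hloc hex)
  · left
    push Not at hex
    obtain ⟨d, hd, b, hb, e, he, a, ha, hea⟩ := hex
    have hcard : ∀ d ∈ D, (Dd D d).ncard = 3 ∧ ∀ x ∈ Dd D d, ∀ y ∈ Dd D d, x ≠ y → ¬ Commute x y := by
      intro d hd
      obtain ⟨e⟩ := (hloc d hd).1
      exact Dd_ncard hD hconj hd e
    have hdb : d ∈ Dd D b := ⟨hd, hb.2.1.symm, hb.2.2.symm⟩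
    have hed : d ≠ e := by
      rintro rfl; exact hea ha.2.2
    have hab : a ≠ b := by
      rintro rfl; exact hea he.2.2.symm
    exact sym5_of_string hD hconj (fun d hd => (hcard d hd).1) hd he.1 ha.1 hb.1
      ((hcard b hb.1).2 d hdb e he hed) ha.2.2 hb.2.2 hea he.2.2.symm ((hcard d hd).2 a ha b hb hab)

end Cfsg.Agent.Lib.ThreeTransp
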