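import Cfsg.Agent.Lib.TrForm

/-! # Normalizers of field subalgebras in `spGL` -/

set_option autoImplicit false

universe u

namespace Cfsg.Agent.Lib.TrForm

open Cfsg.Agent.Lib.InvSub Cfsg.Agent.Lib.PrimeOrd Cfsg.Agent.Lib.Sesq Cfsg.Agent.Lib.SpConj Module Matrix
open Cfsg.Agent.Lib.AltSim (JB)

section lin

variable {F L V : Type*} [Field F] [Field L] [Algebra F L] [AddCommGroup V] [Module F V] [Module L V]
  [IsScalarTower F L V]

/-- an `F`-linear map commuting with `L` -/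
def toL (T : Module.End F V) (hT : ∀ (a : L) v, T (a • v) = a • T v) : Module.End L V :=
  { toFun := T, map_add' := map_add T, map_smul' := hT }

lemma toL_apply (T : Module.End F V) (hT : ∀ (a : L) v, T (a • v) = a • T v) (v : V) : toL T hT v = T v := rfl

lemma toL_pow (T : Module.End F V) (hT : ∀ (a : L) v, T (a • v) = a • T v) (k : ℕ) (v : V) : (toL T hT ^ k) v = (T ^ k) v := by
  induction k generalizing v with
  | zero => rfl
  | succ k ih => rw [pow_succ, pow_succ, Module.End.mul_apply, Module.End.mul_apply, ih]; rfl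

lemma finrank_restrict (W : Submodule L V) : finrank F (W.restrictScalars F) = finrank F L * finrank L W :=
  (Module.finrank_mul_finrank F L W).symm

lemma E_toL (T : Module.End F V) (hT : ∀ (a : L) v, T (a • v) = a • T v) (y : F) :
    E T y = (E (toL T hT) (algebraMap F L y)).restrictScalars F := by
  ext v
  rw [Submodule.restrictScalars_mem, Module.End.mem_eigenspace_iff, Module.End.mem_eigenspace_iff, toL_apply, algebraMap_smul]

lemma finrank_E_toL (T : Module.End F V) (hT : ∀ (a : L) v, T (a • v) = a • T v) (y : F) :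
    finrank F (E T y) = finrank F L * finrank L (E (toL T hT) (algebraMap F L y)) := by
  rw [E_toL T hT, finrank_restrict]

lemma finrank_E_toL_one (T : Module.End F V) (hT : ∀ (a : L) v, T (a • v) = a • T v) :
    finrank F (E T 1) = finrank F L * finrank L (E (toL T hT) 1) := by
  rw [finrank_E_toL T hT, map_one]

/-- isometries of odd prime order commuting with `L`, alternating case -/
theorem key_commute [Fintype F] [Fintype L] [FiniteDimensional F V] {p r : ℕ} {B : V →ₗ[F] V →ₗ[F] F} {BL : V →ₗ[L] V →ₗ[L] L}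
    (h : ∀ (a : L) (u v : V), Algebra.trace F L (a * BL u v) = B (a • u) v) (halt : ∀ (a : L) (v : V), B (a • v) v = 0)
    {T : Module.End F V} (hPO : PO F p r B T) (hT : ∀ (a : L) v, T (a • v) = a • T v) :
    ∃ s, finrank F V = finrank F (E T 1) + s * (finrank F L * csz L r) := by
  have := hPO.hc
  have hfV : FiniteDimensional L V := FiniteDimensional.right F L V
  have hc : CharP L p := charP_of_injective_algebraMap (algebraMap F L).injective p
  have hPL : PO L p r BL (toL T hT) := by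
    refine ⟨hPO.hp, hc, hPO.hr, hPO.hrp, hPO.odd, alt_of (F := F) h halt, ?_, ?_, ?_⟩
    · apply nd_of (F := F) (σ := AlgHom.id F L) (B := B) h
      intro w hw hw'
      exact hPO.nd w trivial (fun v _ => hw' v trivial)
    · exact iso_of (F := F) (σ := AlgHom.id F L) h hPO.iso
    · apply LinearMap.ext
      intro v
      rw [toL_pow, hPO.pow]; rfl
  obtain ⟨s, hs⟩ := hPL.exists_ty inv_top hPL.nd
  have h1 := hs.f
  rw [top_inf_eq, finrank_top] at h1
  refine ⟨s, ?_⟩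
  rw [← Module.finrank_mul_finrank F L V, h1, finrank_E_toL_one T hT]
  ring

end lin

section mats

variable {F : Type u} [Field F] {d : ℕ}

/-- the field `L` acts as the subalgebra `K` -/
structure KL (K : Subalgebra F (Matrix (Fin d ⊕ Fin d) (Fin d ⊕ Fin d) F)) (L : Type*) [Field L] [Algebra F L]
    [Module L (Fin d ⊕ Fin d → F)] : Prop where
  ex : ∀ a : L, ∃ κ ∈ K, ∀ v : Fin d ⊕ Fin d → F, κ *ᵥ v = a • v
  ex' : ∀ κ ∈ K, ∃ a : L, ∀ v : Fin d ⊕ Fin d → F, κ *ᵥ v = a • v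

variable {K : Subalgebra F (Matrix (Fin d ⊕ Fin d) (Fin d ⊕ Fin d) F)} {L : Type*} [Field L] [Algebra F L]
    [Module L (Fin d ⊕ Fin d → F)] [IsScalarTower F L (Fin d ⊕ Fin d → F)]

omit [IsScalarTower F L (Fin d ⊕ Fin d → F)] [Algebra F L] in
lemma smul_ext (hd : 0 < d) {a b : L} (h : ∀ v : Fin d ⊕ Fin d → F, a • v = b • v) : a = b := by
  have hne : Nonempty (Fin d ⊕ Fin d) := ⟨Sum.inl ⟨0, hd⟩⟩
  obtain ⟨v, hv⟩ := exists_ne (0 : Fin d ⊕ Fin d → F)
  have h1 : (a - b) • v = 0 := by rw [sub_smul, h, sub_self]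
  exact sub_eq_zero.1 ((smul_eq_zero.1 h1).resolve_right hv)

/-- elements of the normalizer act semilinearly -/
theorem exists_tau [Finite L] (hd : 0 < d) (hKL : KL K L) {x : GL (Fin d ⊕ Fin d) F} (hx : x ∈ Cfsg.Geo.subalgebraNormalizer K) :
    ∃ τ : L ≃ₐ[F] L, ∀ (a : L) (v : Fin d ⊕ Fin d → F), Matrix.toLin' x.1 (a • v) = τ a • Matrix.toLin' x.1 v := by
  have hxi : ∀ v, x.1 *ᵥ ((x⁻¹).1 *ᵥ v) = v := fun v => by
    rw [Matrix.mulVec_mulVec, ← Units.val_mul, mul_inv_cancel, Units.val_one, Matrix.one_mulVec]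
  have hix : ∀ v, (x⁻¹).1 *ᵥ (x.1 *ᵥ v) = v := fun v => by
    rw [Matrix.mulVec_mulVec, ← Units.val_mul, inv_mul_cancel, Units.val_one, Matrix.one_mulVec]
  have h1 : ∀ a : L, ∃ b : L, ∀ v : Fin d ⊕ Fin d → F, x.1 *ᵥ (a • v) = b • (x.1 *ᵥ v) := by
    intro a
    obtain ⟨κ, hκ, hκa⟩ := hKL.ex a
    obtain ⟨b, hb⟩ := hKL.ex' _ ((hx κ).1 hκ)
    refine ⟨b, fun v => ?_⟩
    rw [← hb, ← hκa, Matrix.mulVec_mulVec, Matrix.mulVec_mulVec, Matrix.mul_assoc, Matrix.mul_assoc, ← Units.val_mul, inv_mul_cancel,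
      Units.val_one, Matrix.mul_one]
  choose τ hτ using h1
  have huniq : ∀ (a b : L), (∀ v : Fin d ⊕ Fin d → F, x.1 *ᵥ (a • v) = b • (x.1 *ᵥ v)) → τ a = b := by
    intro a b h
    apply smul_ext (F := F) hd
    intro v
    rw [← hxi v, ← hτ, h]
  let τ' : L →ₐ[F] L :=
    { toFun := τ
      map_one' := huniq _ _ (fun v => by rw [one_smul, one_smul])
      map_mul' := fun a b => huniq _ _ (fun v => by rw [← smul_smul, hτ, hτ, smul_smul])
      map_zero' := huniq _ _ (fun v => by rw [zero_smul, zero_smul, Matrix.mulVec_zero])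
      map_add' := fun a b => huniq _ _ (fun v => by rw [add_smul, Matrix.mulVec_add, hτ, hτ, add_smul])
      commutes' := fun c => huniq _ _ (fun v => by rw [algebraMap_smul, algebraMap_smul, Matrix.mulVec_smul]) }
  have hinj : Function.Injective τ' := τ'.toRingHom.injective
  exact ⟨AlgEquiv.ofBijective τ' ⟨hinj, Finite.surjective_of_injective hinj⟩, hτ⟩

/-- semilinear maps are in the normalizer -/
theorem mem_normalizer (hKL : KL K L) {x : GL (Fin d ⊕ Fin d) F} (τ : L ≃ₐ[F] L)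
    (h : ∀ (a : L) (v : Fin d ⊕ Fin d → F), Matrix.toLin' x.1 (a • v) = τ a • Matrix.toLin' x.1 v) :
    x ∈ Cfsg.Geo.subalgebraNormalizer K := by
  have hxi : ∀ v, x.1 *ᵥ ((x⁻¹).1 *ᵥ v) = v := fun v => by
    rw [Matrix.mulVec_mulVec, ← Units.val_mul, mul_inv_cancel, Units.val_one, Matrix.one_mulVec]
  have hmat : ∀ {M N : Matrix (Fin d ⊕ Fin d) (Fin d ⊕ Fin d) F}, (∀ v, M *ᵥ v = N *ᵥ v) → M = N := by
    intro M N hMN
    apply Matrix.toLin'.injective
    apply LinearMap.ext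
    exact hMN
  intro κ
  constructor
  · intro hκ
    obtain ⟨a, ha⟩ := hKL.ex' κ hκ
    obtain ⟨κ', hκ', hκ''⟩ := hKL.ex (τ a)
    have : x.1 * κ * (x⁻¹).1 = κ' := by
      apply hmat
      intro v
      rw [hκ'', ← Matrix.mulVec_mulVec, ← Matrix.mulVec_mulVec, ha]
      have := h a ((x⁻¹).1 *ᵥ v)
      rw [Matrix.toLin'_apply, Matrix.toLin'_apply, hxi] at this
      exact this
    rw [this]; exact hκ'
  · intro hκ
    obtain ⟨b, hb⟩ := hKL.ex' _ hκ
    obtain ⟨κ', hκ', hκ''⟩ := hKL.ex (τ.symm b)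
    have : κ = κ' := by
      apply hmat
      intro v
      rw [hκ'']
      have h1 : x.1 *ᵥ (κ *ᵥ v) = x.1 *ᵥ (τ.symm b • v) := by
        have h2 := h (τ.symm b) v
        rw [Matrix.toLin'_apply, Matrix.toLin'_apply, AlgEquiv.apply_symm_apply] at h2
        rw [h2, ← hb, Matrix.mulVec_mulVec, Matrix.mulVec_mulVec, Matrix.mul_assoc, Matrix.mul_assoc, ← Units.val_mul, inv_mul_cancel,
          Units.val_one, Matrix.mul_one]
      have h3 := congrArg (fun w => (x⁻¹).1 *ᵥ w) h1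
      simp only [Matrix.mulVec_mulVec, ← Matrix.mul_assoc, ← Units.val_mul, inv_mul_cancel, Units.val_one, Matrix.one_mul,
        Matrix.one_mulVec] at h3
      exact h3
    rw [this]; exact hκ'

/-- existence of the field -/
theorem exists_KL [Finite F] (hd : 0 < d) {k : ℕ} (hK : Cfsg.Geo.IsFieldSubalgebra k K) :
    ∃ (L : Type u) (_ : Field L) (_ : Algebra F L) (_ : Module L (Fin d ⊕ Fin d → F)), IsScalarTower F L (Fin d ⊕ Fin d → F) ∧
      KL K L ∧ finrank F L = k ∧ Finite L := by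
  have hne : Nonempty (Fin d ⊕ Fin d) := ⟨Sum.inl ⟨0, hd⟩⟩
  have hfield : IsField K :=
    { exists_pair_ne := ⟨0, 1, fun h => zero_ne_one (congrArg Subtype.val h)⟩
      mul_comm := fun a b => Subtype.ext (hK.comm a a.2 b b.2)
      mul_inv_cancel := fun {a} ha => by
        obtain ⟨y, hy, hxy⟩ := hK.inv a a.2 (fun h => ha (Subtype.ext h))
        exact ⟨⟨y, hy⟩, Subtype.ext hxy⟩ }
  let fK : Field K := hfield.toField
  let ρ : K →+* Module.End F (Fin d ⊕ Fin d → F) :=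
    ((Matrix.toLinAlgEquiv' : Matrix (Fin d ⊕ Fin d) (Fin d ⊕ Fin d) F ≃ₐ[F] _) : _ →+* _).comp K.val.toRingHom
  let mK : Module K (Fin d ⊕ Fin d → F) := Module.compHom _ ρ
  have hfinM : Finite (Matrix (Fin d ⊕ Fin d) (Fin d ⊕ Fin d) F) := inferInstanceAs (Finite (Fin d ⊕ Fin d → Fin d ⊕ Fin d → F))
  have hfinK : Finite K := Finite.of_injective (fun a : K => (a : Matrix (Fin d ⊕ Fin d) (Fin d ⊕ Fin d) F)) Subtype.coe_injective
  have hsm : ∀ (a : K) (v : Fin d ⊕ Fin d → F), a • v = a.1 *ᵥ v := fun a v => rfl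
  refine ⟨K, fK, inferInstance, mK, ⟨?_⟩, ⟨?_, ?_⟩, hK.finrank_eq, hfinK⟩
  · intro c a v
    show (c • a.1) *ᵥ v = c • (a.1 *ᵥ v)
    rw [Matrix.smul_mulVec]
  · intro a
    exact ⟨a.1, a.2, fun v => rfl⟩
  · intro κ hκ
    exact ⟨⟨κ, hκ⟩, fun v => rfl⟩

/-- the isometries commuting with `K` -/
def CK (K : Subalgebra F (Matrix (Fin d ⊕ Fin d) (Fin d ⊕ Fin d) F)) : Subgroup (GL (Fin d ⊕ Fin d) F) where
  carrier := {x | x ∈ Cfsg.spGL d F ∧ ∀ κ ∈ K, x.1 * κ = κ * x.1}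
  mul_mem' {x y} hx hy := ⟨mul_mem hx.1 hy.1, fun κ hκ => by
    rw [Units.val_mul, Matrix.mul_assoc, hy.2 κ hκ, ← Matrix.mul_assoc, hx.2 κ hκ, Matrix.mul_assoc]⟩
  one_mem' := ⟨one_mem _, fun κ _ => by simp⟩
  inv_mem' {x} hx := ⟨inv_mem hx.1, fun κ hκ => by
    have h1 : x.1 * (x⁻¹).1 = 1 := by rw [← Units.val_mul, mul_inv_cancel]; rfl
    have h2 : (x⁻¹).1 * x.1 = 1 := by rw [← Units.val_mul, inv_mul_cancel]; rfl
    calc (x⁻¹).1 * κ = (x⁻¹).1 * κ * (x.1 * (x⁻¹).1) := by rw [h1, Matrix.mul_one]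
      _ = (x⁻¹).1 * (κ * x.1) * (x⁻¹).1 := by simp only [Matrix.mul_assoc]
      _ = (x⁻¹).1 * (x.1 * κ) * (x⁻¹).1 := by rw [hx.2 κ hκ]
      _ = ((x⁻¹).1 * x.1) * κ * (x⁻¹).1 := by simp only [Matrix.mul_assoc]
      _ = κ * (x⁻¹).1 := by rw [h2, Matrix.one_mul]⟩

lemma CK_le (K : Subalgebra F (Matrix (Fin d ⊕ Fin d) (Fin d ⊕ Fin d) F)) :
    CK K ≤ Cfsg.Geo.subalgebraNormalizer K ⊓ Cfsg.spGL d F := by
  intro x hx
  refine ⟨?_, hx.1⟩
  have h1 : x.1 * (x⁻¹).1 = 1 := by rw [← Units.val_mul, mul_inv_cancel]; rfl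
  have h2 : (x⁻¹).1 * x.1 = 1 := by rw [← Units.val_mul, inv_mul_cancel]; rfl
  intro κ
  constructor
  · intro hκ
    rw [hx.2 κ hκ, Matrix.mul_assoc, h1, Matrix.mul_one]; exact hκ
  · intro hκ
    have h3 := hx.2 _ hκ
    have h4 : x.1 * κ * (x⁻¹).1 = κ := by
      have h5 : x.1 * (x.1 * κ * (x⁻¹).1) = x.1 * κ := by
        rw [h3, Matrix.mul_assoc, h2, Matrix.mul_one]
      have h6 := congrArg (fun m => (x⁻¹).1 * m) h5
      simp only [← Matrix.mul_assoc, h2, Matrix.one_mul] at h6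
      exact h6
    rw [← h4]; exact hκ

/-- relation between the index and the order of the centralizer -/
theorem index_rel [Finite F] (K : Subalgebra F (Matrix (Fin d ⊕ Fin d) (Fin d ⊕ Fin d) F)) :
    ∃ m, (Cfsg.Geo.subalgebraNormalizer K).relIndex (Cfsg.spGL d F) * (Nat.card (CK K) * m) = Nat.card (Cfsg.spGL d F) := by
  have h1 : Nat.card (CK K) ∣ Nat.card ↥(Cfsg.Geo.subalgebraNormalizer K ⊓ Cfsg.spGL d F) := Subgroup.card_dvd_of_le (CK_le K)
  obtain ⟨m, hm⟩ := h1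
  refine ⟨m, ?_⟩
  rw [← hm, ← Subgroup.inf_relIndex_right, mul_comm]
  have h2 := Subgroup.relIndex_mul_relIndex (⊥ : Subgroup (GL (Fin d ⊕ Fin d) F))
    (Cfsg.Geo.subalgebraNormalizer K ⊓ Cfsg.spGL d F) (Cfsg.spGL d F) bot_le inf_le_right
  rwa [Subgroup.relIndex_bot_left, Subgroup.relIndex_bot_left] at h2

/-- the centralizer is an isometry group over `L` -/
theorem card_CK [Finite F] [Finite L] (hKL : KL K L) {σ : L →ₐ[F] L} {BL : (Fin d ⊕ Fin d → F) →ₗ[L] (Fin d ⊕ Fin d → F) →ₛₗ[(σ : L →+* L)] L}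
    (h : ∀ (a : L) (u v : Fin d ⊕ Fin d → F), Algebra.trace F L (a * BL u v) = JB (F := F) d (a • u) v) :
    Nat.card (CK K) = Nat.card (ClIso.isoGrp L (fun u v => BL u v)) := by
  have hcomm : ∀ x : CK K, ∀ (a : L) (v : Fin d ⊕ Fin d → F), Matrix.toLin' x.1.1 (a • v) = a • Matrix.toLin' x.1.1 v := by
    intro x a v
    obtain ⟨κ, hκ, hκa⟩ := hKL.ex a
    rw [← hκa, ← hκa, Matrix.toLin'_apply, Matrix.toLin'_apply, Matrix.mulVec_mulVec, Matrix.mulVec_mulVec, x.2.2 κ hκ]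
  have hinj : ∀ x : GL (Fin d ⊕ Fin d) F, Function.Injective (Matrix.toLin' x.1) := by
    intro x u v huv
    have h1 : ∀ w, Matrix.toLin' (x⁻¹).1 (Matrix.toLin' x.1 w) = w := fun w => by
      rw [← LinearMap.comp_apply, ← Matrix.toLin'_mul, ← Units.val_mul, inv_mul_cancel, Units.val_one, Matrix.toLin'_one]; rfl
    rw [← h1 u, huv, h1]
  have hfV : FiniteDimensional L (Fin d ⊕ Fin d → F) := by
    have : Finite (Fin d ⊕ Fin d → F) := inferInstance
    exact Module.Finite.of_finite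
  let f : CK K → ClIso.isoGrp L (fun u v => BL u v) := fun x =>
    ⟨LinearEquiv.ofInjectiveEndo (toL (Matrix.toLin' x.1.1) (hcomm x)) (hinj x.1), by
      intro u v
      exact iso_of (F := F) h (T := toL (Matrix.toLin' x.1.1) (hcomm x)) ((mem_spGL x.1).1 x.2.1) u v⟩
  have hf : ∀ (x : CK K) v, (f x).1 v = Matrix.toLin' x.1.1 v := fun x v => rfl
  apply Nat.card_congr
  refine Equiv.ofBijective f ⟨?_, ?_⟩
  · intro x y hxy
    apply Subtype.ext
    apply Units.ext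
    apply Matrix.toLin'.injective
    apply LinearMap.ext
    intro v
    rw [← hf, ← hf, hxy]
  · intro g
    let T : Module.End F (Fin d ⊕ Fin d → F) := (g.1 : (Fin d ⊕ Fin d → F) →ₗ[L] (Fin d ⊕ Fin d → F)).restrictScalars F
    have hT : Iso (σ := RingHom.id F) (JB (F := F) d) T := iso_of' (F := F) h (T := (g.1 : (Fin d ⊕ Fin d → F) →ₗ[L] (Fin d ⊕ Fin d → F))) g.2
    obtain ⟨x, hx, hxT⟩ := exists_spGL hT
    have hxv : ∀ v, x.1 *ᵥ v = g.1 v := fun v => by
      rw [← Matrix.toLin'_apply, hxT]; rfl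
    refine ⟨⟨x, hx, ?_⟩, ?_⟩
    · intro κ hκ
      apply Matrix.toLin'.injective
      apply LinearMap.ext
      intro v
      obtain ⟨a, ha⟩ := hKL.ex' κ hκ
      rw [Matrix.toLin'_mul, Matrix.toLin'_mul, LinearMap.comp_apply, LinearMap.comp_apply]
      rw [Matrix.toLin'_apply, Matrix.toLin'_apply, Matrix.toLin'_apply, Matrix.toLin'_apply, ha, ha, hxv, hxv, map_smul]
    · apply Subtype.ext
      apply LinearEquiv.ext
      intro v
      rw [hf]
      exact hxv v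

end mats

end Cfsg.Agent.Lib.TrForm
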