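import Cfsg.Agent.Lib.TrForm3

/-! # Hyperbolic planes over quadratic extensions -/

set_option autoImplicit false

namespace Cfsg.Agent.Lib.TrForm

open Cfsg.Agent.Lib.InvSub Cfsg.Agent.Lib.PrimeOrd Cfsg.Agent.Lib.Sesq Cfsg.Agent.Lib.SpConj Module Matrix

variable {F L V : Type*} [Field F] [Field L] [Algebra F L] [AddCommGroup V] [Module F V] [Module L V]
  [IsScalarTower F L V]

/-- a hyperbolic pair and its coordinates -/
theorem exists_coords {BL : V →ₗ[L] V →ₗ[L] L} (halt : Alt BL) (hnd : ND (σ := RingHom.id L) BL ⊤)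
    [FiniteDimensional L V] (h2 : finrank L V = 2) :
    ∃ (u w : V) (c₀ c₁ : V →ₗ[L] L), (∀ v, v = c₀ v • u + c₁ v • w) ∧ c₀ u = 1 ∧ c₁ u = 0 ∧ c₀ w = 0 ∧ c₁ w = 1 ∧
      ∀ v v', BL v v' = c₀ v * c₁ v' - c₁ v * c₀ v' := by
  have hnt : Nontrivial V := Module.nontrivial_of_finrank_pos (R := L) (by omega)
  obtain ⟨u, hu⟩ := exists_ne (0 : V)
  obtain ⟨w₀, hw₀⟩ : ∃ w, BL u w ≠ 0 := by
    by_contra hcon
    push Not at hcon
    exact hu (hnd u trivial (fun v _ => hcon v))
  let w := (BL u w₀)⁻¹ • w₀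
  have huw : BL u w = 1 := by
    show BL u ((BL u w₀)⁻¹ • w₀) = 1
    rw [map_smul, smul_eq_mul, inv_mul_cancel₀ hw₀]
  have hwu : BL w u = -1 := by rw [halt.skew, huw]
  let c₀ : V →ₗ[L] L := -(BL w)
  let c₁ : V →ₗ[L] L := BL u
  have h0 : ∀ v, c₀ v = -(BL w v) := fun v => rfl
  have h1 : ∀ v, c₁ v = BL u v := fun v => rfl
  have hc1 : c₀ u = 1 := by rw [h0, hwu, neg_neg]
  have hc2 : c₁ u = 0 := halt u
  have hc3 : c₀ w = 0 := by rw [h0, halt w, neg_zero]
  have hc4 : c₁ w = 1 := huw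
  -- spanning
  have hspan : Submodule.span L {u, w} = ⊤ := by
    apply Submodule.eq_top_of_finrank_eq
    rw [h2]
    exact finrank_pair halt (by rw [huw]; exact one_ne_zero)
  have hdec : ∀ v, v = c₀ v • u + c₁ v • w := by
    intro v
    have hv : v ∈ Submodule.span L {u, w} := by rw [hspan]; trivial
    obtain ⟨a, b, rfl⟩ := Submodule.mem_span_pair.1 hv
    simp only [map_add, map_smul, hc1, hc2, hc3, hc4, smul_eq_mul, mul_one, mul_zero, add_zero, zero_add]
  refine ⟨u, w, c₀, c₁, hdec, hc1, hc2, hc3, hc4, ?_⟩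
  intro v v'
  conv_lhs => rw [hdec v, hdec v']
  simp only [map_add, map_smul, LinearMap.add_apply, LinearMap.smul_apply, smul_eq_mul, huw, hwu, halt u, halt w]
  ring

/-- a semilinear involutory isometry -/
theorem exists_semi_invol [Finite F] [Finite L] {B : V →ₗ[F] V →ₗ[F] F} {BL : V →ₗ[L] V →ₗ[L] L} (halt : Alt BL) (hnd : ND (σ := RingHom.id L) BL ⊤)
    (hBL : ∀ (a : L) (u v : V), Algebra.trace F L (a * BL u v) = B (a • u) v)
    [FiniteDimensional L V] (h2 : finrank L V = 2) {σ : L ≃ₐ[F] L} (hσ : σ ^ 2 = 1) (hσ1 : σ ≠ 1) :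
    ∃ S : Module.End F V, (∀ u v, B (S u) (S v) = B u v) ∧ (∀ (a : L) v, S (a • v) = σ a • S v) ∧ S ^ 2 = 1 ∧
      ∀ z : F, S ≠ z • (1 : Module.End F V) := by
  obtain ⟨u, w, c₀, c₁, hdec, hc1, hc2, hc3, hc4, hform⟩ := exists_coords halt hnd h2
  have hσσ : ∀ a, σ (σ a) = a := fun a => by
    have := congrArg (fun f : L ≃ₐ[F] L => f a) hσ
    exact this
  have hs0 : ∀ (a : L) v, c₀ (a • v) = a * c₀ v := fun a v => LinearMap.map_smul c₀ a v
  have hs1 : ∀ (a : L) v, c₁ (a • v) = a * c₁ v := fun a v => LinearMap.map_smul c₁ a v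
  let S : Module.End F V :=
    { toFun := fun v => σ (c₀ v) • u + σ (c₁ v) • w
      map_add' := fun v v' => by
        rw [map_add, map_add, map_add, map_add, add_smul, add_smul]; abel
      map_smul' := fun c v => by
        rw [RingHom.id_apply, ← algebraMap_smul L c v, hs0, hs1, map_mul, map_mul, AlgEquiv.commutes,
          ← smul_smul, ← smul_smul, ← smul_add, algebraMap_smul] }
  have hS : ∀ v, S v = σ (c₀ v) • u + σ (c₁ v) • w := fun v => rfl
  have hS0 : ∀ v, c₀ (S v) = σ (c₀ v) := fun v => by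
    rw [hS, map_add, map_smul, map_smul, hc1, hc3, smul_eq_mul, smul_eq_mul, mul_one, mul_zero, add_zero]
  have hS1 : ∀ v, c₁ (S v) = σ (c₁ v) := fun v => by
    rw [hS, map_add, map_smul, map_smul, hc2, hc4, smul_eq_mul, smul_eq_mul, mul_one, mul_zero, zero_add]
  refine ⟨S, ?_, ?_, ?_, ?_⟩
  · intro v v'
    have h1 := hBL 1 (S v) (S v')
    have h2 := hBL 1 v v'
    rw [one_mul, one_smul] at h1 h2
    rw [← h1, ← h2, hform, hform, hS0, hS1, hS0, hS1, ← map_mul, ← map_mul, ← map_sub]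
    exact Algebra.trace_eq_of_algEquiv σ _
  · intro a v
    rw [hS, hS, hs0, hs1, map_mul, map_mul, ← smul_smul, ← smul_smul, ← smul_add]
  · apply LinearMap.ext
    intro v
    rw [pow_two, Module.End.mul_apply, hS, hS0, hS1, hσσ, hσσ, ← hdec]; rfl
  · intro z hz
    have hSu : S u = u := by rw [hS, hc1, hc2, map_one, map_zero, one_smul, zero_smul, add_zero]
    have hu0 : u ≠ 0 := by
      rintro rfl
      rw [map_zero] at hc1
      exact zero_ne_one hc1
    apply hσ1
    ext a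
    have h3 : S (a • u) = σ a • u := by
      rw [hS, hs0, hs1, hc1, hc2, mul_one, mul_zero, map_zero, zero_smul, add_zero]
    have h4 : S (a • u) = a • u := by
      rw [hz] at hSu ⊢
      have h5 : z • u = u := hSu
      show z • (a • u) = a • u
      rw [smul_comm, h5]
    rw [h3] at h4
    have h5 : (σ a - a) • u = 0 := by rw [sub_smul, h4, sub_self]
    exact sub_eq_zero.1 ((smul_eq_zero.1 h5).resolve_right hu0)

/-- an `L`-linear isometry with square `-1` -/
theorem exists_lin_neg [Finite F] [Finite L] {B : V →ₗ[F] V →ₗ[F] F} {BL : V →ₗ[L] V →ₗ[L] L} (halt : Alt BL) (hnd : ND (σ := RingHom.id L) BL ⊤)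
    (hBL : ∀ (a : L) (u v : V), Algebra.trace F L (a * BL u v) = B (a • u) v)
    [FiniteDimensional L V] (h2 : finrank L V = 2) :
    ∃ S : Module.End F V, (∀ u v, B (S u) (S v) = B u v) ∧ (∀ (a : L) v, S (a • v) = a • S v) ∧ S ^ 2 = (-1 : F) • (1 : Module.End F V) := by
  obtain ⟨u, w, c₀, c₁, hdec, hc1, hc2, hc3, hc4, hform⟩ := exists_coords halt hnd h2
  let S : Module.End F V :=
    { toFun := fun v => (-(c₁ v)) • u + (c₀ v) • w
      map_add' := fun v v' => by
        rw [map_add, map_add, neg_add, add_smul, add_smul]; abel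
      map_smul' := fun c v => by
        rw [RingHom.id_apply, ← algebraMap_smul L c v, map_smul, map_smul, smul_eq_mul, smul_eq_mul, ← mul_neg,
          ← smul_smul, ← smul_smul, ← smul_add, algebraMap_smul] }
  have hS : ∀ v, S v = (-(c₁ v)) • u + (c₀ v) • w := fun v => rfl
  have hS0 : ∀ v, c₀ (S v) = -(c₁ v) := fun v => by
    rw [hS, map_add, map_smul, map_smul, hc1, hc3, smul_eq_mul, smul_eq_mul, mul_one, mul_zero, add_zero]
  have hS1 : ∀ v, c₁ (S v) = c₀ v := fun v => by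
    rw [hS, map_add, map_smul, map_smul, hc2, hc4, smul_eq_mul, smul_eq_mul, mul_one, mul_zero, zero_add]
  refine ⟨S, ?_, ?_, ?_⟩
  · intro v v'
    have h1 := hBL 1 (S v) (S v')
    have h2 := hBL 1 v v'
    rw [one_mul, one_smul] at h1 h2
    rw [← h1, ← h2, hform, hform, hS0, hS1, hS0, hS1]
    congr 1
    ring
  · intro a v
    rw [hS, hS, map_smul, map_smul, smul_eq_mul, smul_eq_mul, ← mul_neg, ← smul_smul, ← smul_smul, ← smul_add]
  · apply LinearMap.ext
    intro v
    rw [pow_two, Module.End.mul_apply, hS, hS0, hS1]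
    show (-(c₀ v)) • u + (-(c₁ v)) • w = (-1 : F) • v
    rw [neg_smul, neg_smul, ← neg_add, ← hdec, neg_smul, one_smul]

end Cfsg.Agent.Lib.TrForm
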