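import Cfsg.Agent.Lib.TrForm5

/-! # Index of the unitary subgroups of symplectic groups -/

set_option autoImplicit false

namespace Cfsg.Agent.Lib.TrForm

open Cfsg.Agent.Lib.InvSub Cfsg.Agent.Lib.PrimeOrd Cfsg.Agent.Lib.Sesq Cfsg.Agent.Lib.SpConj Module Matrix
open Cfsg.Agent.Lib.AltSim (JB)

section card

variable {F L V : Type*} [Field F] [Finite F] [Field L] [Fintype L] [Algebra F L] [AddCommGroup V] [Module F V] [Module L V]
  [IsScalarTower F L V] {σ : L →ₐ[F] L} {B : V →ₗ[F] V →ₗ[F] F} {BL : V →ₗ[L] V →ₛₗ[(σ : L →+* L)] L}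

theorem card_iso_herm {q : ℕ} (hL : Fintype.card L = q ^ 2) (hσq : ∀ a, σ a = a ^ q) {κ : L} (hκ0 : κ ≠ 0) {n : ℕ}
    (c : V ≃ₗ[L] (Fin n → L)) (hc : ∀ u v, κ * BL u v = ∑ i, c u i * σ (c v i)) :
    Nat.card (ClIso.isoGrp L (fun u v => BL u v)) =
      q ^ (n * (n - 1) / 2) * ∏ i ∈ Finset.range n, if Even i then q ^ (i + 1) + 1 else q ^ (i + 1) - 1 := by
  rw [← ClUnitary.card_iso hL n]
  have h1 : ClIso.isoGrp L (fun u v => BL u v) = ClIso.isoGrp L (fun u v => κ * BL u v) := by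
    ext g
    rw [ClIso.mem_isoGrp, ClIso.mem_isoGrp]
    constructor
    · intro h u v; rw [h]
    · intro h u v; exact mul_left_cancel₀ hκ0 (h u v)
  rw [h1]
  apply Nat.card_congr
  apply (ClIso.isoGrpCongr (f' := hermForm n L q) c _).toEquiv
  intro u v
  show _ = κ * BL u v
  rw [hc]
  unfold hermForm
  simp only [hσq, dotProduct]

/-- the cofactor -/
theorem spc_herm (q d : ℕ) : spc q d = (q ^ (d * (d - 1) / 2) * ∏ i ∈ Finset.range d, if Even i then q ^ (i + 1) + 1 else q ^ (i + 1) - 1) *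
    (q ^ (d ^ 2 - d * (d - 1) / 2) * ∏ i ∈ Finset.range d, if Even i then q ^ (i + 1) - 1 else q ^ (i + 1) + 1) := by
  have h1 : ∀ i, q ^ (2 * (i + 1)) - 1 = (if Even i then q ^ (i + 1) + 1 else q ^ (i + 1) - 1) *
      (if Even i then q ^ (i + 1) - 1 else q ^ (i + 1) + 1) := by
    intro i
    have h2 : q ^ (2 * (i + 1)) - 1 = (q ^ (i + 1) + 1) * (q ^ (i + 1) - 1) := by
      rw [mul_comm 2, pow_mul, ← Nat.sq_sub_sq, one_pow]
    split_ifs
    · exact h2
    · rw [h2, mul_comm]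
  have h3 : q ^ (d ^ 2) = q ^ (d * (d - 1) / 2) * q ^ (d ^ 2 - d * (d - 1) / 2) := by
    rw [← pow_add]
    congr 1
    have h4 : d * (d - 1) / 2 ≤ d ^ 2 := by
      have h5 : d * (d - 1) ≤ d ^ 2 := by rw [pow_two]; exact Nat.mul_le_mul_left _ (by omega)
      omega
    omega
  rw [spc, h3, Finset.prod_congr rfl (fun i _ => h1 i), Finset.prod_mul_distrib]
  ring

lemma herm_arith {q r d j : ℕ} (hr : r.Prime) (hodd : Odd r) (hq : 0 < q) (hj : ((q : ℕ) : ZMod r) ^ (2 * j + 1) = -1) :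
    ¬ r ∣ (q ^ (d ^ 2 - d * (d - 1) / 2) * ∏ i ∈ Finset.range d, if Even i then q ^ (i + 1) - 1 else q ^ (i + 1) + 1) := by
  haveI : Fact r.Prime := ⟨hr⟩
  have hr2 : 2 < r := by
    rcases hodd with ⟨k, hk⟩
    have := hr.two_le
    omega
  haveI : Fact (2 < r) := ⟨hr2⟩
  have h11 : (-1 : ZMod r) ≠ 1 := ZMod.neg_one_ne_one
  have hq0 : ((q : ℕ) : ZMod r) ≠ 0 := by
    intro h
    rw [h, zero_pow (by omega)] at hj
    exact (neg_ne_zero.2 one_ne_zero) hj.symm
  intro h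
  rcases hr.dvd_mul.1 h with h | h
  · apply hq0
    rw [ZMod.natCast_eq_zero_iff]
    exact hr.dvd_of_dvd_pow h
  · rw [hr.prime.dvd_finset_prod_iff] at h
    obtain ⟨i, -, h⟩ := h
    have hcomm : (((q : ℕ) : ZMod r) ^ (i + 1)) ^ (2 * j + 1) = (((q : ℕ) : ZMod r) ^ (2 * j + 1)) ^ (i + 1) := by
      rw [← pow_mul, ← pow_mul, mul_comm]
    rw [hj] at hcomm
    split_ifs at h with hi
    · have h1 : ((q : ℕ) : ZMod r) ^ (i + 1) = 1 := by
        rw [← ZMod.natCast_eq_zero_iff, Nat.cast_sub (Nat.one_le_pow _ _ hq)] at h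
        push_cast at h
        exact sub_eq_zero.1 h
      rw [h1, one_pow, (Even.add_one hi).neg_one_pow] at hcomm
      exact h11 hcomm.symm
    · have h1 : ((q : ℕ) : ZMod r) ^ (i + 1) = -1 := by
        rw [← ZMod.natCast_eq_zero_iff] at h
        push_cast at h
        exact eq_neg_of_add_eq_zero_left h
      have hi' : Even (i + 1) := (Nat.not_even_iff_odd.1 hi).add_one
      rw [h1, hi'.neg_one_pow, Odd.neg_one_pow ⟨j, rfl⟩] at hcomm
      exact h11 hcomm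

end card

section mats

variable {F : Type*} [Field F] [Fintype F] {d : ℕ} {K : Subalgebra F (Matrix (Fin d ⊕ Fin d) (Fin d ⊕ Fin d) F)}
  {L : Type*} [Field L] [Fintype L] [Algebra F L] [Module L (Fin d ⊕ Fin d → F)] [IsScalarTower F L (Fin d ⊕ Fin d → F)]

theorem index_prime_herm (hKL : KL K L) {σ : L →ₐ[F] L} {BL : (Fin d ⊕ Fin d → F) →ₗ[L] (Fin d ⊕ Fin d → F) →ₛₗ[(σ : L →+* L)] L}
    (h : ∀ (a : L) (u v : Fin d ⊕ Fin d → F), Algebra.trace F L (a * BL u v) = JB (F := F) d (a • u) v)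
    (hL : Fintype.card L = Fintype.card F ^ 2) (hσq : ∀ a, σ a = a ^ Fintype.card F) {κ : L} (hκ0 : κ ≠ 0)
    (c : (Fin d ⊕ Fin d → F) ≃ₗ[L] (Fin d → L)) (hc : ∀ u v, κ * BL u v = ∑ i, c u i * σ (c v i))
    {r : ℕ} (hr : r.Prime) (hodd : Odd r)
    (hΩ : r ∣ (Cfsg.Geo.subalgebraNormalizer K).relIndex (Cfsg.spGL d F)) (j : ℕ) :
    ((Fintype.card F : ℕ) : ZMod r) ^ (2 * j + 1) ≠ -1 := by
  intro hj
  have hcard := card_iso_herm (BL := BL) hL hσq hκ0 c hc
  have hCK : Nat.card (CK K) = Nat.card (ClIso.isoGrp L (fun u v => BL u v)) := card_CK hKL h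
  obtain ⟨t, ht⟩ := index_rel K
  have h1 : Nat.card (CK K) ≠ 0 := by
    intro h0
    rw [h0, zero_mul, mul_zero] at ht
    have h2 : Nat.card (Cfsg.spGL d F) ≠ 0 := by
      haveI : Finite (Cfsg.spGL d F) := Subtype.finite
      exact Nat.card_pos.ne'
    exact h2 ht.symm
  rw [hCK, hcard] at ht h1
  rw [card_spGL, spc_herm] at ht
  apply herm_arith hr hodd Fintype.card_pos hj (d := d)
  have h5 : (Cfsg.Geo.subalgebraNormalizer K).relIndex (Cfsg.spGL d F) * t =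
      (Fintype.card F ^ (d ^ 2 - d * (d - 1) / 2) * ∏ i ∈ Finset.range d, if Even i then Fintype.card F ^ (i + 1) - 1 else Fintype.card F ^ (i + 1) + 1) := by
    apply Nat.eq_of_mul_eq_mul_left (Nat.pos_of_ne_zero h1)
    rw [← ht]; ring
  rw [← h5]
  exact Dvd.dvd.mul_right hΩ t

end mats

section gen

variable {F L V : Type*} [Field F] [Fintype F] [Field L] [Fintype L] [Algebra F L] [AddCommGroup V] [Module F V] [Module L V]
  [IsScalarTower F L V] [FiniteDimensional L V] {σ : L →ₐ[F] L} {BL : V →ₗ[L] V →ₛₗ[(σ : L →+* L)] L}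

/-- one-atom isometries commuting with `L` -/
theorem herm_atom {p r : ℕ} [hp : Fact p.Prime] [CharP F p] [hr : Fact r.Prime] (hrp : r ≠ p)
    (hL : Fintype.card L = Fintype.card F ^ 2) (hσq : ∀ a, σ a = a ^ Fintype.card F) (hσ : ∀ a, σ (σ a) = a)
    (hrefl : Refl (σ := (σ : L →+* L)) BL) (hnd : ND (σ := (σ : L →+* L)) BL ⊤) {T : Module.End L V}
    (hT : Iso (σ := (σ : L →+* L)) BL T) (hTr : T ^ r = 1) (hE : 2 * finrank L (E T 1) + csz F r = 2 * finrank L V) :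
    ∃ j : ℕ, ((Fintype.card F : ℕ) : ZMod r) ^ (2 * j + 1) = -1 := by
  have hLp : CharP L p := charP_of_injective_algebraMap (algebraMap F L).injective p
  have hr0 : (r : L) ≠ 0 := PrimeOrd.cast_ne_zero hrp
  have hEnd : ND (σ := (σ : L →+* L)) BL (E T 1) := by
    have := nd_inf_E hT hr0 hTr inv_top hnd
    rwa [top_inf_eq] at this
  have hM : Inv T (perp (σ := (σ : L →+* L)) BL (E T 1)) := hT.inv_perp hnd (inv_of_le_E le_rfl)
  have hMnd := nd_perp hrefl hnd hEnd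
  have hc := isCompl_perp hrefl hEnd
  have hfr := Submodule.finrank_add_eq_of_isCompl hc
  have hcsz : csz F r = 2 * orderOf ((Fintype.card L : ℕ) : ZMod r) := by
    have hpos : 0 < orderOf ((Fintype.card F : ℕ) : ZMod r) := order_pos hrp
    rw [hL]
    push_cast
    rw [orderOf_pow' _ (by norm_num : (2 : ℕ) ≠ 0)]
    unfold csz csize
    split_ifs with he
    · have : Nat.gcd (orderOf ((Fintype.card F : ℕ) : ZMod r)) 2 = 2 := by
        rw [Nat.gcd_comm]; exact Nat.gcd_eq_left he.two_dvd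
      rw [this]
      exact (Nat.mul_div_cancel' he.two_dvd).symm
    · have : Nat.gcd (orderOf ((Fintype.card F : ℕ) : ZMod r)) 2 = 1 :=
        (Nat.coprime_two_right).2 (Nat.not_even_iff_odd.1 he)
      rw [this, Nat.div_one]
  have hMf : finrank L (perp (σ := (σ : L →+* L)) BL (E T 1)) = orderOf ((Fintype.card L : ℕ) : ZMod r) := by
    omega
  have hpos : 0 < orderOf ((Fintype.card L : ℕ) : ZMod r) := order_pos hrp
  obtain ⟨n, -, hn⟩ := FiniteField.card F p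
  obtain ⟨i, hi⟩ := herm_irr (q := Fintype.card F) hrp (fun a => hσq a) ⟨n, hn⟩ (fun a => hσ a) hT hTr hM hMnd
    (by intro h; rw [h, finrank_bot] at hMf; omega) hMf (by rw [inf_comm]; exact hc.inf_eq_bot)
  refine ⟨i, ?_⟩
  rw [← hi, hL]
  push_cast
  ring

end gen

end Cfsg.Agent.Lib.TrForm
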