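import Cfsg.Agent.Lib.TrForm6

/-! # Involutions in unitary subgroups of symplectic groups -/

set_option autoImplicit false

namespace Cfsg.Agent.Lib.TrForm

open Cfsg.Agent.Lib.InvSub Cfsg.Agent.Lib.PrimeOrd Cfsg.Agent.Lib.Sesq Cfsg.Agent.Lib.SpConj Module Matrix

variable {F L V : Type*} [Field F] [Finite F] [Field L] [Finite L] [Algebra F L] [AddCommGroup V] [Module F V] [Module L V]
  [IsScalarTower F L V] {σ : L →ₐ[F] L} {B : V →ₗ[F] V →ₗ[F] F} {BL : V →ₗ[L] V →ₛₗ[(σ : L →+* L)] L} {n : ℕ}

/-- diagonal isometries in hermitian coordinates -/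
theorem exists_herm_diag (h2 : (2 : F) ≠ 0) (h : ∀ (a : L) (u v : V), Algebra.trace F L (a * BL u v) = B (a • u) v) {κ : L} (hκ0 : κ ≠ 0)
    (c : V ≃ₗ[L] (Fin n → L)) (hc : ∀ u v, κ * BL u v = ∑ i, c u i * σ (c v i)) {j : ℕ} (hj : j ≤ n) :
    ∃ S : Module.End F V, (∀ u v, B (S u) (S v) = B u v) ∧ (∀ (a : L) v, S (a • v) = a • S v) ∧ S ^ 2 = 1 ∧
      finrank F (E S (-1)) = finrank F L * j := by
  classical
  let ε : Fin n → L := fun i => if i.1 < j then -1 else 1
  have hε : ∀ i, ε i * ε i = 1 := by
    intro i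
    show (if i.1 < j then (-1 : L) else 1) * (if i.1 < j then (-1 : L) else 1) = 1
    split_ifs <;> norm_num
  have hσε : ∀ i, σ (ε i) = ε i := by
    intro i
    show σ (if i.1 < j then (-1 : L) else 1) = (if i.1 < j then (-1 : L) else 1)
    split_ifs <;> simp
  let D : Module.End L (Fin n → L) := Matrix.toLin' (Matrix.diagonal ε)
  have hD : ∀ x i, D x i = ε i * x i := by
    intro x i
    rw [Matrix.toLin'_apply, Matrix.mulVec_diagonal]
  let SL : Module.End L V := (c.symm : (Fin n → L) →ₗ[L] V) ∘ₗ D ∘ₗ (c : V →ₗ[L] (Fin n → L))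
  have hSL : ∀ v, c (SL v) = D (c v) := fun v => c.apply_symm_apply _
  let S : Module.End F V := SL.restrictScalars F
  have hS : ∀ v, S v = SL v := fun v => rfl
  have hlin : ∀ (a : L) v, S (a • v) = a • S v := fun a v => by rw [hS, hS, map_smul]
  refine ⟨S, ?_, hlin, ?_, ?_⟩
  · apply iso_of' (F := F) h (T := SL)
    intro u v
    apply mul_left_cancel₀ hκ0
    rw [hc, hc]
    apply Finset.sum_congr rfl
    intro i _
    rw [hSL, hSL, hD, hD, map_mul, hσε, mul_mul_mul_comm, hε, one_mul]
  · apply LinearMap.ext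
    intro v
    rw [pow_two, Module.End.mul_apply, hS, hS]
    apply c.injective
    rw [hSL, hSL]
    funext i
    rw [hD, hD, ← mul_assoc, hε, one_mul]; rfl
  · rw [finrank_E_toL (L := L) S hlin (-1), map_neg, map_one]
    congr 1
    have h3 : toL (L := L) S hlin = SL := LinearMap.ext (fun v => rfl)
    rw [h3, finrank_E_conj (S := D) c hSL (-1), ElusiveTool.finrank_E_diag]
    have h4 : (Finset.univ.filter fun i : Fin n => ε i = -1) = Finset.univ.filter (fun i : Fin n => i.1 < j) := by
      apply Finset.filter_congr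
      intro i _
      show ((if i.1 < j then (-1 : L) else 1) = -1) ↔ _
      have hne : (1 : L) ≠ -1 := by
        intro h
        apply h2
        apply (algebraMap F L).injective
        rw [map_ofNat, map_zero]
        linear_combination h
      split_ifs with hij <;> simp [hij, hne]
    rw [h4, Fin.card_filter_val_lt]
    omega

/-- a semilinear isometry with square `-1` -/
theorem exists_herm_neg (h : ∀ (a : L) (u v : V), Algebra.trace F L (a * BL u v) = B (a • u) v) {κ : L} (hκ0 : κ ≠ 0)
    (hκ : σ κ = -κ) (hσ : ∀ a, σ (σ a) = a)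
    (c : V ≃ₗ[L] (Fin n → L)) (hc : ∀ u v, κ * BL u v = ∑ i, c u i * σ (c v i)) {y : L} (hy : y * σ y = -1) :
    ∃ S : Module.End F V, (∀ u v, B (S u) (S v) = B u v) ∧ (∀ (a : L) v, S (a • v) = σ a • S v) ∧
      S ^ 2 = (-1 : F) • (1 : Module.End F V) := by
  have hcF : ∀ (a : F) v i, c (a • v) i = algebraMap F L a * c v i := by
    intro a v i
    rw [← algebraMap_smul L a v, map_smul, Pi.smul_apply, smul_eq_mul]
  let S : Module.End F V :=
    { toFun := fun v => c.symm (fun i => y * σ (c v i))
      map_add' := fun u v => by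
        rw [← map_add]
        congr 1
        funext i
        rw [map_add, Pi.add_apply, Pi.add_apply, map_add, mul_add]
      map_smul' := fun a v => by
        rw [RingHom.id_apply, ← algebraMap_smul L a (c.symm _), ← map_smul]
        congr 1
        funext i
        rw [hcF, map_mul, AlgHom.commutes, Pi.smul_apply, smul_eq_mul]
        ring }
  have hS : ∀ v i, c (S v) i = y * σ (c v i) := fun v i => by
    show c (c.symm (fun i => y * σ (c v i))) i = _
    rw [LinearEquiv.apply_symm_apply]
  refine ⟨S, ?_, ?_, ?_⟩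
  · intro u v
    have h1 := h 1 (S u) (S v)
    have h2 := h 1 u v
    rw [one_mul, one_smul] at h1 h2
    rw [← h1, ← h2, ← trace_sigma hσ (BL u v)]
    congr 1
    apply mul_left_cancel₀ hκ0
    have h3 : κ * σ (BL u v) = -σ (κ * BL u v) := by rw [map_mul, hκ]; ring
    rw [h3, hc, hc, map_sum, ← Finset.sum_neg_distrib]
    apply Finset.sum_congr rfl
    intro i _
    rw [hS, hS, map_mul, map_mul, hσ]
    linear_combination (σ (c u i) * c v i) * hy
  · intro a v
    apply c.injective
    funext i
    rw [hS, map_smul, map_smul, Pi.smul_apply, Pi.smul_apply, smul_eq_mul, smul_eq_mul, map_mul, hS]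
    ring
  · apply LinearMap.ext
    intro v
    apply c.injective
    funext i
    rw [pow_two, Module.End.mul_apply, hS, hS, map_mul, hσ]
    have h3 : ((-1 : F) • (1 : Module.End F V)) v = (-1 : F) • v := rfl
    rw [h3, hcF, map_neg, map_one]
    linear_combination (c v i) * hy

end Cfsg.Agent.Lib.TrForm
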