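import Cfsg.Agent.Lib.SigTrans
import Cfsg.Agent.Lib.BaerTrick
import Cfsg.Agent.Lib.CriticalOdd
import Cfsg.Agent.Lib.H31Gen
import Cfsg.Agent.Lib.H34Basic

/-!
# The Thompson transitivity theorem for groups with `p`-constrained `p`-local subgroups (helper81)
-/
set_option autoImplicit false

namespace Cfsg.Agent.Lib.TransConstr

open Subgroup Cfsg Cfsg.Agent.Lib.LocBase Cfsg.Agent.Lib.ConstrainedLocal Cfsg.Agent.Lib.PConstraint
  Cfsg.Agent.Lib.SigCon Cfsg.Agent.Lib.SubgroupTools
open scoped commutatorElement Pointwise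

universe u

variable {G : Type u} [Group G] [Finite G] {p : ℕ} [hp : Fact p.Prime]

/-- `p` odd: every `p'`-subgroup invariant under a self-centralizing `p`-subgroup of a `p`-constrained
group lies in `O_{p'}`. -/
theorem le_core_odd (hp2 : p ≠ 2) (h : IsPConstrained p G) {A Q : Subgroup G} (hA : IsPGroup p A)
    (hAs : SelfCent p A) (hQ : (Nat.card Q).Coprime p) (hAQ : A ≤ normalizer (Q : Set G)) :
    Q ≤ pPrimeCore p G := by
  classical
  set π := QuotientGroup.mk' (pPrimeCore p G) with hπ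
  have hX : centralizer (pCore p (G ⧸ pPrimeCore p G) : Set (G ⧸ pPrimeCore p G)) ≤
    pCore p (G ⧸ pPrimeCore p G) := (isPConstrained_iff p G).1 h
  have hQ' : (Nat.card (Q.map π)).Coprime p := Nat.Coprime.coprime_dvd_left (PConstrained.card_map_dvd π Q) hQ
  have hAQ' : A.map π ≤ normalizer ((Q.map π : Subgroup _) : Set (G ⧸ pPrimeCore p G)) :=
    (Subgroup.map_mono hAQ).trans (le_normalizer_map _)
  have hAp : IsPGroup p (A.map π) := hA.map _
  have hcent : pCore p (G ⧸ pPrimeCore p G) ⊓ centralizer ((A.map π : Subgroup _) : Set (G ⧸ pPrimeCore p G)) ≤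
      centralizer ((Q.map π : Subgroup _) : Set (G ⧸ pPrimeCore p G)) := by
    have h1 := inf_centralizer_map_le A hA hAs
    have h2 := inf_pCore_le_centralizer hQ' hAQ'
    exact (le_inf h1 inf_le_left).trans h2
  have hRp : IsPGroup p (pCore p (G ⧸ pPrimeCore p G)) := Cores.isPGroup_pCore p _
  obtain ⟨H, hHR, ⟨K, hKc, hHK⟩, hexp, hcl, hact, -⟩ := CriticalOdd.exists_critExp hp2 hRp
  have hHn : H.Normal := by
    rw [hHK]
    exact Cores.normal_map_subtype_of_characteristic K
  have hHp : IsPGroup p H := hRp.to_le hHR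
  have hQH : Q.map π ≤ centralizer (H : Set (G ⧸ pPrimeCore p G)) := by
    by_contra hcon
    have hcomm : ∀ x y : H, ⁅x, y⁆ ∈ center H := by
      intro x y
      rw [mem_center_iff]
      intro g
      have h1 : ⁅⁅(x : G ⧸ pPrimeCore p G), (y : G ⧸ pPrimeCore p G)⁆, (g : G ⧸ pPrimeCore p G)⁆ ∈ ⁅⁅H, pCore p (G ⧸ pPrimeCore p G)⁆, H⁆ :=
        commutator_mem_commutator (commutator_mem_commutator x.2 (hHR y.2)) g.2
      rw [hcl, mem_bot, commutatorElement_eq_one_iff_mul_comm] at h1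
      exact Subtype.ext h1.symm
    obtain ⟨x, hx, a, ha, hax⟩ := BaerTrick.main (K := H) hp2 hHp hcomm
      (fun x => Subtype.ext (hexp x x.2)) ((A.map π).map (MulAut.conjNormal (H := H)))
      ((Q.map π).map (MulAut.conjNormal (H := H))) (hAp.map _)
      (Nat.Coprime.coprime_dvd_left (PConstrained.card_map_dvd _ _) hQ')
      ((Subgroup.map_mono hAQ').trans (le_normalizer_map _)) (by
        by_contra hall
        push Not at hall
        apply hcon
        intro q hq
        rw [mem_centralizer_iff]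
        intro y hy
        have h1 := hall (MulAut.conjNormal q) ⟨q, hq, rfl⟩ ⟨y, hy⟩
        have h2 := congrArg Subtype.val h1
        rw [MulAut.conjNormal_apply] at h2
        have h3 : q * y = y * q := by
          have : q * y * q⁻¹ = y := h2
          calc q * y = q * y * q⁻¹ * q := by group
            _ = y * q := by rw [this]
        exact h3.symm)
    apply hax
    obtain ⟨q, hq, rfl⟩ := ha
    have hxc : (x : G ⧸ pPrimeCore p G) ∈ centralizer ((Q.map π : Subgroup _) : Set (G ⧸ pPrimeCore p G)) := by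
      apply hcent
      refine ⟨hHR x.2, mem_centralizer_iff.mpr ?_⟩
      intro e he
      have h1 := hx (MulAut.conjNormal e) ⟨e, he, rfl⟩
      have h2 := congrArg Subtype.val h1
      rw [MulAut.conjNormal_apply] at h2
      have : e * x * e⁻¹ = x := h2
      calc e * x = e * x * e⁻¹ * e := by group
        _ = x * e := by rw [this]
    have h3 := mem_centralizer_iff.mp hxc q hq
    apply Subtype.ext
    rw [MulAut.conjNormal_apply]
    have : q * x * q⁻¹ = x := by rw [h3]; group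
    exact this
  have hQR := hact (Q.map π) (by rw [normalizer_eq_top]; exact le_top) hQ' hQH
  have hQR' : Q.map π ≤ pCore p (G ⧸ pPrimeCore p G) := hQR.trans hX
  have h5 : Q.map π = ⊥ := by
    have h6 := disj_of_coprime hRp hQ'
    rw [← h6]
    exact le_antisymm (le_inf le_rfl hQR') inf_le_left
  rwa [Subgroup.map_eq_bot_iff, QuotientGroup.ker_mk'] at h5

theorem le_oOf_odd (hp2 : p ≠ 2) {A Q H : Subgroup G} (hH : IsPConstrained p H) (hAH : A ≤ H) (hQH : Q ≤ H)
    (hA : IsPGroup p A) (hAs : SelfCent p A) (hQ : (Nat.card Q).Coprime p) (hAQ : A ≤ normalizer (Q : Set G)) :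
    Q ≤ oOf p H := by
  have h1 := le_core_odd hp2 hH (A := A.subgroupOf H) (Q := Q.subgroupOf H)
    (hA.comap_of_injective _ H.subtype_injective) (hAs.subgroupOf hAH) (by rwa [SigCon.card_subgroupOf_of_le hQH]) (by
      rw [← subgroupOf_normalizer_eq hQH]
      exact Subgroup.comap_mono hAQ)
  have h2 := Subgroup.map_mono (f := H.subtype) h1
  rwa [Subgroup.map_subgroupOf_eq_of_le hQH] at h2

/-- `p` arbitrary, Sylow `p`-subgroups of class at most two. -/
theorem le_oOf_class_two (hcl : ∀ T : Subgroup G, IsPGroup p T → ⁅⁅T, T⁆, T⁆ = ⊥) {A Q H : Subgroup G}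
    (hH : IsPConstrained p H) (hAH : A ≤ H) (hQH : Q ≤ H)
    (hA : IsPGroup p A) (hAs : SelfCent p A) (hQ : (Nat.card Q).Coprime p) (hAQ : A ≤ normalizer (Q : Set G)) :
    Q ≤ oOf p H := by
  obtain ⟨T, hT, hAT⟩ := exists_isSyl_ge hA hAH
  apply le_oOf_of_commutator_le hH hAH hQH hA hAs hQ
  have h1 : ∀ x ∈ A, ⁅Q, zpowers x⁆ ≤ oOf p H := by
    intro x hx
    apply commutator_le_oOf hH hT hAH hQH hQ hAQ hx
    have h2 : ⁅T, T⁆ ≤ A := by
      intro y hy
      apply hAs
      · rw [mem_centralizer_iff]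
        intro a ha
        have h3 : ⁅y, a⁆ ∈ ⁅⁅T, T⁆, T⁆ := commutator_mem_commutator hy (hAT ha)
        rw [hcl T hT.pgroup, mem_bot, commutatorElement_eq_one_iff_mul_comm] at h3
        exact h3.symm
      · have hyT : y ∈ T := (commutator_le_left_of_le le_normalizer) hy
        obtain ⟨k, hk⟩ := hT.pgroup ⟨y, hyT⟩
        exact ⟨k, congrArg Subtype.val hk⟩
    exact (commutator_mono le_rfl (zpowers_le.mpr (hAT hx))).trans h2
  rw [commutator_le]
  intro q hq x hx
  exact h1 x hx (commutator_mem_commutator hq (mem_zpowers x))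

/-- A hyperplane of an elementary abelian group whose centralizer in `Y` is not contained in `Q0`. -/
theorem exists_hyperplane {B Y Q0 : Subgroup G} (hB : IsElementaryAbelian p B) 
    (hBY : B ≤ normalizer (Y : Set G)) (hY : (Nat.card B).Coprime (Nat.card Y)) (hY0 : ¬ Y ≤ Q0) :
    ∃ F : Subgroup G, F ≤ B ∧ Nat.card B ≤ p * Nat.card F ∧ ¬ Y ⊓ centralizer (F : Set G) ≤ Q0 := by
  by_contra hcon
  push Not at hcon
  apply hY0
  refine (H31Gen.le_iSup_hyperplane (Nat.card B) B Y rfl hB hBY hY).trans ?_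
  exact iSup_le fun F => hcon F.1 F.2.1 F.2.2

theorem exists_common {B Y1 Y2 Q0 : Subgroup G} (hB : IsElementaryAbelian p B) (hr : p ^ 2 < Nat.card B)
    (hBY1 : B ≤ normalizer (Y1 : Set G)) (hY1 : (Nat.card B).Coprime (Nat.card Y1)) (hY10 : ¬ Y1 ≤ Q0)
    (hBY2 : B ≤ normalizer (Y2 : Set G)) (hY2 : (Nat.card B).Coprime (Nat.card Y2)) (hY20 : ¬ Y2 ≤ Q0) :
    ∃ e ∈ B, e ≠ 1 ∧ ¬ Y1 ⊓ centralizer ({e} : Set G) ≤ Q0 ∧ ¬ Y2 ⊓ centralizer ({e} : Set G) ≤ Q0 := by
  obtain ⟨F1, hF1, hc1, h1⟩ := exists_hyperplane hB hBY1 hY1 hY10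
  obtain ⟨F2, hF2, hc2, h2⟩ := exists_hyperplane hB hBY2 hY2 hY20
  have hne : F1 ⊓ F2 ≠ ⊥ := by
    intro hbot
    have hpos : 0 < Nat.card F1 := Nat.card_pos
    have e1 : Nat.card F1 * F1.relIndex B = Nat.card B := Cores.card_mul_relIndex hF1
    have e2 : F1.relIndex F2 ≤ F1.relIndex B := by
      apply Subgroup.relIndex_le_of_le_right hF2
      intro h0
      rw [h0, mul_zero] at e1
      exact Nat.card_pos.ne' e1.symm
    have e3 : F1.relIndex B ≤ p := by
      by_contra hlt
      rw [not_le] at hlt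
      have : Nat.card F1 * p < Nat.card F1 * F1.relIndex B := Nat.mul_lt_mul_of_pos_left hlt hpos
      rw [e1] at this
      nlinarith
    have e4 : Nat.card F2 = F1.relIndex F2 := by
      rw [← Subgroup.inf_relIndex_right, hbot, Subgroup.relIndex_bot_left]
    have e5 : Nat.card F2 ≤ p := by
      rw [e4]
      exact e2.trans e3
    nlinarith [hp.out.two_le]
  obtain ⟨⟨e, he⟩, he0⟩ := Subgroup.ne_bot_iff_exists_ne_one.mp hne
  have he1 : e ≠ 1 := fun h => he0 (Subtype.ext h)
  refine ⟨e, hF1 he.1, he1, fun h => h1 (le_trans ?_ h), fun h => h2 (le_trans ?_ h)⟩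
  · exact inf_le_inf le_rfl (centralizer_le (Set.singleton_subset_iff.mpr he.1))
  · exact inf_le_inf le_rfl (centralizer_le (Set.singleton_subset_iff.mpr he.2))

/-- `p'`-elements of `C_G(E)` lie in `O_{p'}(C_G(E))`. -/
theorem mem_core_centralizer {E : Subgroup G} (hE : IsPGroup p E) (hEc : E ≤ centralizer (E : Set G))
    (hs : SelfCent p E) {c : G} (hc : c ∈ centralizer (E : Set G)) (ho : (orderOf c).Coprime p) :
    c ∈ oOf p (centralizer (E : Set G)) := by
  set X := centralizer (E : Set G) with hX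
  have h1 : IsPGroup p (E.subgroupOf X) := hE.comap_of_injective _ X.subtype_injective
  obtain ⟨S, hS⟩ := h1.exists_le_sylow
  have hSE : (S : Subgroup X) = E.subgroupOf X := by
    apply le_antisymm _ hS
    intro x hx
    rw [mem_subgroupOf]
    obtain ⟨k, hk⟩ := S.2 ⟨x, hx⟩
    exact hs x x.2 ⟨k, congrArg (fun y : (S : Subgroup X) => ((y : X) : G)) hk⟩
  have hScen : (S : Subgroup X) ≤ center X := by
    rw [hSE]
    intro x hx
    rw [mem_center_iff]
    intro y
    apply Subtype.ext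
    exact (mem_centralizer_iff.mp y.2 x hx).symm
  obtain ⟨K, hKn, -, hKc, hK⟩ := H34Basic.exists_compl_of_central_sylow S hScen
  have h2 : (⟨c, hc⟩ : X) ∈ K := by
    rw [hK]
    rwa [Subgroup.orderOf_mk]
  exact ⟨⟨c, hc⟩, Cores.le_pPrimeCore hKn hKc h2, rfl⟩

/-- Thompson transitivity. -/
theorem transitive {q : ℕ} (hq : q.Prime) (hqp : q ≠ p) {E B : Subgroup G} (hE : IsPGroup p E)
    (hEc : E ≤ centralizer (E : Set G)) (hs : SelfCent p E) (hBE : B ≤ E) (hB : IsElementaryAbelian p B)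
    (hr : p ^ 2 < Nat.card B)
    (hinv : ∀ e ∈ E, e ≠ 1 → ∀ Q : Subgroup G, IsPGroup q Q → Q ≤ normalizer (zpowers e : Set G) →
      E ≤ normalizer (Q : Set G) → Q ≤ oOf p (normalizer (zpowers e : Set G))) (n : ℕ) :
    ∀ Q1 Q2 : Subgroup G, SigTrans.IsMax q E Q1 → SigTrans.IsMax q E Q2 →
      Nat.card G - Nat.card (Q1 ⊓ Q2 : Subgroup G) = n →
      ∃ c ∈ oOf p (centralizer (E : Set G)), MulAut.conj c • Q1 = Q2 := by
  haveI : Fact (Nat.Prime q) := ⟨hq⟩
  have hcop : ∀ Q : Subgroup G, IsPGroup q Q → (Nat.card Q).Coprime p := by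
    intro Q hQ
    obtain ⟨k, hk⟩ := hQ.exists_card_eq
    rw [hk]
    exact Nat.Coprime.pow_left k ((Nat.coprime_primes hq hp.out).2 hqp)
  have hBp : IsPGroup p B := hE.to_le hBE
  induction n using Nat.strong_induction_on with
  | _ n ih =>
    intro Q1 Q2 h1 h2 hn
    set Q0 := Q1 ⊓ Q2 with hQ0
    by_cases hle1 : Q1 ≤ Q2
    · refine ⟨1, one_mem _, ?_⟩
      rw [conj_smul_one]
      exact le_antisymm hle1 (h1.2.2 Q2 h2.1 h2.2.1 hle1)
    by_cases hle2 : Q2 ≤ Q1
    · refine ⟨1, one_mem _, ?_⟩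
      rw [conj_smul_one]
      exact le_antisymm (h2.2.2 Q1 h1.1 h1.2.1 hle2) hle2
    have hlt1 : Q0 < Q1 := lt_of_le_of_ne inf_le_left (fun h => hle1 (h ▸ inf_le_right))
    have hlt2 : Q0 < Q2 := lt_of_le_of_ne inf_le_right (fun h => hle2 (h ▸ inf_le_left))
    set N := normalizer (Q0 : Set G) with hN
    have hg1 : Q0 < Q1 ⊓ N := Alperin.lt_inf_normalizer Q1 Q0 h1.1 hlt1
    have hg2 : Q0 < Q2 ⊓ N := Alperin.lt_inf_normalizer Q2 Q0 h2.1 hlt2
    have hAQ0 : E ≤ N := le_normalizer_inf h1.2.1 h2.2.1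
    have hAN1 : E ≤ normalizer ((Q1 ⊓ N : Subgroup G) : Set G) := le_normalizer_inf h1.2.1 (hAQ0.trans le_normalizer)
    have hAN2 : E ≤ normalizer ((Q2 ⊓ N : Subgroup G) : Set G) := le_normalizer_inf h2.2.1 (hAQ0.trans le_normalizer)
    obtain ⟨a, haB, ha0, ha1, ha2⟩ := exists_common hB hr (hBE.trans hAN1)
      (coprime_of_pgroup hBp (hcop _ (h1.1.to_le inf_le_left))).symm
      (not_le_of_gt hg1) (hBE.trans hAN2) (coprime_of_pgroup hBp (hcop _ (h2.1.to_le inf_le_left))).symm
      (not_le_of_gt hg2)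
    have haA : a ∈ E := hBE haB
    set X1 := Q1 ⊓ N ⊓ centralizer ({a} : Set G) with hX1
    set X2 := Q2 ⊓ N ⊓ centralizer ({a} : Set G) with hX2
    have hAa : E ≤ centralizer ({a} : Set G) := by
      intro x hx
      rw [mem_centralizer_singleton_iff]
      exact (mem_centralizer_iff.mp (hEc hx) a haA).symm
    have hCN : centralizer ({a} : Set G) ≤ normalizer (zpowers a : Set G) := by
      intro x hx
      rw [mem_centralizer_singleton_iff] at hx
      refine centralizer_le_normalizer _ ?_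
      rw [mem_centralizer_iff]
      rintro y ⟨k, rfl⟩
      exact ((Commute.zpow_right (show Commute x a from hx) k).eq).symm
    have hAX1 : E ≤ normalizer (X1 : Set G) := le_normalizer_inf hAN1 (hAa.trans le_normalizer)
    have hAX2 : E ≤ normalizer (X2 : Set G) := le_normalizer_inf hAN2 (hAa.trans le_normalizer)
    have hX1p : IsPGroup q X1 := h1.1.to_le (inf_le_left.trans inf_le_left)
    have hX2p : IsPGroup q X2 := h2.1.to_le (inf_le_left.trans inf_le_left)
    set O := oOf p (normalizer (zpowers a : Set G)) with hO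
    have hX1O : X1 ≤ O := hinv a haA ha0 X1 hX1p (inf_le_right.trans hCN) hAX1
    have hX2O : X2 ≤ O := hinv a haA ha0 X2 hX2p (inf_le_right.trans hCN) hAX2
    set K := O ⊓ N with hK
    have hX1K : X1 ≤ K := le_inf hX1O (inf_le_left.trans inf_le_right)
    have hX2K : X2 ≤ K := le_inf hX2O (inf_le_left.trans inf_le_right)
    have hAK : E ≤ normalizer (K : Set G) :=
      le_normalizer_inf ((hAa.trans hCN).trans (le_normalizer_oOf _)) (hAQ0.trans le_normalizer)
    have hKc : (Nat.card K).Coprime p :=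
      Nat.Coprime.coprime_dvd_left (Subgroup.card_dvd_of_le inf_le_left) (coprime_card_oOf _)
    have hAKc : (Nat.card E).Coprime (Nat.card K) := (coprime_of_pgroup hE hKc).symm
    have hsolv : Group.IsSolvable E ∨ Group.IsSolvable K := by
      left
      have : Group.IsNilpotent E := hE.isNilpotent
      infer_instance
    obtain ⟨Y1, hXY1, hY1K, hY1p, hY1i, hAY1⟩ := CoprimeAction.exists_invariant_sylow_ge hAK hAKc hsolv hX1K hX1p hAX1
    obtain ⟨Y2, hXY2, hY2K, hY2p, hY2i, hAY2⟩ := CoprimeAction.exists_invariant_sylow_ge hAK hAKc hsolv hX2K hX2p hAX2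
    obtain ⟨c, ⟨hcK, hcA⟩, hcY⟩ := CoprimeAction.invariant_sylow_conj hAK hAKc hsolv hY1K hY2K hY1p hY2p hY1i hY2i hAY1 hAY2
    have hcKK : c ∈ oOf p (centralizer (E : Set G)) := by
      apply mem_core_centralizer hE hEc hs hcA
      refine Nat.Coprime.coprime_dvd_left ?_ hKc
      rw [← Subgroup.orderOf_mk _ hcK]
      exact orderOf_dvd_natCard _
    have hY2N : Y2 ≤ N := hY2K.trans inf_le_right
    have hcN : c ∈ N := hcK.2
    -- the `q`-group `Q0 Y2`
    have hQ0p : IsPGroup q Q0 := h1.1.to_le inf_le_left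
    have hYp : IsPGroup q (Q0 ⊔ Y2 : Subgroup G) := isPGroup_sup hQ0p hY2p hY2N
    have hYA : E ≤ normalizer ((Q0 ⊔ Y2 : Subgroup G) : Set G) := le_normalizer_sup hAQ0 hAY2
    obtain ⟨Q3, hQ3, hYQ3⟩ := SigTrans.exists_isMax hYp hYA
    have hQ03 : Q0 ≤ Q3 := le_sup_left.trans hYQ3
    have hY23 : Y2 ≤ Q3 := le_sup_right.trans hYQ3
    -- cardinalities
    have hcardlt : ∀ Z : Subgroup G, Q0 ≤ Z → ¬ Z ≤ Q0 → Nat.card G - Nat.card Z < n := by
      intro Z hZ1 hZ2
      have hlt : Nat.card Q0 < Nat.card Z := by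
        by_contra hge
        rw [not_lt] at hge
        exact hZ2 (Subgroup.eq_of_le_of_card_ge hZ1 hge).ge
      have hle : Nat.card Z ≤ Nat.card G := Subgroup.card_le_card_group Z
      omega
    -- `Q3` and `Q2`
    obtain ⟨c2, hc2, hc2'⟩ := ih _ (hcardlt (Q3 ⊓ Q2) (le_inf hQ03 inf_le_right)
      (fun hle => ha2 (le_trans (le_inf (hXY2.trans hY23) (inf_le_left.trans inf_le_left)) hle))) Q3 Q2 hQ3 h2 rfl
    -- `Q1^c` and `Q3`
    have hcn : c ∈ normalizer (E : Set G) := centralizer_le_normalizer _ hcA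
    have hQ0c : MulAut.conj c • Q0 = Q0 := conj_smul_of_mem_normalizer hcN
    have hX1c : MulAut.conj c • X1 ≤ Q3 := by
      refine (conj_smul_mono c hXY1).trans ?_
      rw [hcY]; exact hY23
    obtain ⟨c1, hc1, hc1'⟩ := ih _ (hcardlt (MulAut.conj c • Q1 ⊓ Q3) (by
        refine le_inf ?_ hQ03
        rw [← hQ0c]
        exact conj_smul_mono c inf_le_left) (fun hle => by
        apply ha1
        have h5 : MulAut.conj c • X1 ≤ Q0 :=
          le_trans (le_inf (conj_smul_mono c (inf_le_left.trans inf_le_left)) hX1c) hle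
        rw [conj_smul_le_iff, conj_smul_of_mem_normalizer (inv_mem hcN)] at h5
        exact h5)) (MulAut.conj c • Q1) Q3 (h1.conj hcn) hQ3 rfl
    refine ⟨c2 * (c1 * c), mul_mem hc2 (mul_mem hc1 hcKK), ?_⟩
    rw [conj_smul_mul, conj_smul_mul, hc1', hc2']

end Cfsg.Agent.Lib.TransConstr
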