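import Mathlib
import Cfsg.Agent.Lib.CoopW
import Cfsg.Agent.Lib.ChevOrth
import Cfsg.Agent.Lib.ChevGraph

set_option autoImplicit false
set_option linter.unusedSectionVars false

/-!
The graph automorphism of order three of `PΩ₈⁺(F)`.
-/

namespace Cfsg.Agent.Lib.Coop

open QuadraticMap Module Cfsg.Lie Cfsg.Agent.Lib.Quad Cfsg.Agent.Lib.ClOrthSiegel Cfsg.Agent.Lib.OrthNd
  Cfsg.Agent.Lib.OrthMax Cfsg.Agent.Lib.ClOmega Cfsg.Agent.Lib.ChevX Cfsg.Agent.Lib.ChevGood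
  Cfsg.Agent.Lib.SparseRep Cfsg.Agent.Lib.SparseRepData Cfsg.Agent.Lib.HypSys Cfsg.Agent.Lib.ChevOrth
open scoped Pointwise

theorem iso_of' {St G Om : Type*} [Group St] [Group G] [Group Om] [IsSimpleGroup G] (θ : St →* G)
    (hθ : Function.Surjective θ) (hk : θ.ker = Subgroup.center St) (ψ : St →* Om) (hψ : Function.Surjective ψ)
    (hnc : ∃ x y : Om, x * y ≠ y * x) :
    ∃ e : G ≃* Om ⧸ Subgroup.center Om, ∀ x, e (θ x) = QuotientGroup.mk (ψ x) := by
  set Ψ := (QuotientGroup.mk' (Subgroup.center Om)).comp ψ with hΨd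
  have hΨ : Function.Surjective Ψ := (QuotientGroup.mk'_surjective _).comp hψ
  have h1 : Subgroup.center St ≤ Ψ.ker := by
    intro z hz
    rw [MonoidHom.mem_ker, hΨd, MonoidHom.comp_apply]
    show (QuotientGroup.mk (ψ z) : Om ⧸ Subgroup.center Om) = 1
    rw [QuotientGroup.eq_one_iff, Subgroup.mem_center_iff]
    intro y
    obtain ⟨x, rfl⟩ := hψ y
    rw [← map_mul, ← map_mul, Subgroup.mem_center_iff.1 hz x]
  have h2 : Ψ.ker ≤ θ.ker := by
    have hn : (Ψ.ker.map θ).Normal := Subgroup.Normal.map inferInstance θ hθ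
    rcases hn.eq_bot_or_eq_top with h | h
    · rwa [Subgroup.map_eq_bot_iff] at h
    · exfalso
      have h3 : Ψ.ker = ⊤ := by
        have h4 : (Ψ.ker.map θ).comap θ = ⊤ := by rw [h, Subgroup.comap_top]
        rw [Subgroup.comap_map_eq, hk, sup_eq_left.2 h1] at h4
        exact h4
      obtain ⟨x, y, hxy⟩ := hnc
      apply hxy
      obtain ⟨x, rfl⟩ := hψ x
      have h5 : x ∈ Ψ.ker := by rw [h3]; exact Subgroup.mem_top x
      rw [MonoidHom.mem_ker, hΨd, MonoidHom.comp_apply] at h5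
      have h6 : ψ x ∈ Subgroup.center Om := by
        rw [← QuotientGroup.eq_one_iff]; exact h5
      exact (Subgroup.mem_center_iff.1 h6 y).symm
  have h3 : θ.ker = Ψ.ker := le_antisymm (hk ▸ h1) h2
  refine ⟨(QuotientGroup.quotientKerEquivOfSurjective θ hθ).symm.trans
    ((QuotientGroup.quotientMulEquivOfEq h3).trans (QuotientGroup.quotientKerEquivOfSurjective Ψ hΨ)), fun x => ?_⟩
  have e1 : (QuotientGroup.quotientKerEquivOfSurjective θ hθ).symm (θ x) = QuotientGroup.mk x := by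
    rw [MulEquiv.symm_apply_eq]
    rfl
  rw [MulEquiv.trans_apply, e1]
  rfl

/-- the projection onto `PΩ` -/
noncomputable def pOm {F : Type*} [Field F] {ι : Type} [Fintype ι] [DecidableEq ι] (Q : QuadraticForm F (ι → F)) :
    ↥(Om Q) →* Cfsg.POmega F ⇑Q :=
  (QuotientGroup.mk' (Subgroup.center (Cfsg.Omega F ⇑Q))).comp (omEquiv Q).symm.toMonoidHom

theorem pOm_surjective {F : Type*} [Field F] {ι : Type} [Fintype ι] [DecidableEq ι] (Q : QuadraticForm F (ι → F)) :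
    Function.Surjective (pOm Q) := (QuotientGroup.mk'_surjective _).comp (omEquiv Q).symm.surjective

section

variable {F : Type*} [Field F]

theorem exists_psi' {ι : Type} [Fintype ι] [DecidableEq ι] {Q : QuadraticForm F (ι → F)} {St : Type*} [Group St]
    (φ : St →* Matrix.GeneralLinearGroup ι F) (h : φ.range.map (toLE (ι := ι) (F := F)).toMonoidHom = Om Q) :
    ∃ ψ : St →* ↥(Cfsg.Omega F ⇑Q), Function.Surjective ψ ∧
      ∀ x, ((omEquiv Q (ψ x) : ↥(Om Q)) : (ι → F) ≃ₗ[F] (ι → F)) = toLE (φ x) := by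
  have h1 : ∀ x, toLE (φ x) ∈ Om Q := by
    intro x
    rw [← h]
    exact ⟨φ x, ⟨x, rfl⟩, rfl⟩
  have h2 : ∀ x, φ x ∈ Cfsg.isometryGroup F ⇑Q := by
    intro x
    rw [mem_isometryGroup_iff_toLE]
    exact Om_le (h1 x)
  refine ⟨(φ.codRestrict _ h2).codRestrict _ (fun x => ?_), ?_, fun x => rfl⟩
  · rw [mem_Omega_iff]
    exact h1 x
  · rintro ⟨g, hg⟩
    have h3 := (mem_Omega_iff g).1 hg
    rw [← h] at h3
    obtain ⟨_, ⟨x, rfl⟩, hx⟩ := h3
    refine ⟨x, Subtype.ext (Subtype.ext ?_)⟩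
    exact toLE.injective hx

theorem sg_eq_E {V : Type*} [AddCommGroup V] [Module F V] [FiniteDimensional F V] {Q : QuadraticForm F V}
    (hQ : Nd Q) (z y : V) : sg Q z y = E hQ z y := by
  by_cases h : Q z = 0 ∧ polar Q z y = 0
  · ext x
    rw [sg_apply h.1 h.2, E_apply hQ h.1 h.2]
  · rw [sg, dif_neg h, E_of_ne hQ h]

/-- root elements of `Ω₈⁺` -/
noncomputable def XR [Finite F] (hQ : Nd (quadPlus 4 F)) (hgen : GenHyp (quadPlus 4 F)) (r : ℕ) (t : F) :
    ↥(Om (quadPlus 4 F)) :=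
  EG hQ hgen (bP 4 F (PD r)) (((sD r : F) * t) • bP 4 F (QD r))

/-- `D₄(F) ≅ PΩ₈⁺(F)` -/
theorem d4' [Finite F] (hQ : Nd (quadPlus 4 F)) (hgen : GenHyp (quadPlus 4 F)) :
    ∃ e : ↥(chevD4.group F) ≃* Cfsg.POmega F ⇑(quadPlus 4 F), ∀ r < 24, ∀ (t : F) (g : ↥(chevD4.group F)),
      (((g : Matrix.GeneralLinearGroup chevD4.Idx F)) : Matrix chevD4.Idx chevD4.Idx F) = chevD4.x F r t →
      e g = pOm _ (XR hQ hgen r t) := by
  have hD : chevD4 ∈ [chevG2, chevB2, chevD4, chevF4, chevE6, chevE7, chevE8] := by simp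
  obtain ⟨hs, -⟩ := ChevSimple.simple (F := F) hD (by
    intro h
    rcases h with h | h
    · exact absurd (congrArg ChevalleyDatum.nroots h) (by decide)
    · exact absurd (congrArg ChevalleyDatum.nroots h) (by decide))
  obtain ⟨θ, h1, h2, h3⟩ := Cfsg.Agent.Lib.StPres.ker_eq_center (K := F) hD
  obtain ⟨ψ, h4, h5⟩ := exists_psi' (Q := quadPlus 4 F) (repD4.hom encD4 F) closure_D4
  have H := hs_plus 4 F
  obtain ⟨e, he⟩ := iso_of' θ h1 h2 ψ h4 (noncomm_Omega (noncomm3 H (H.R_le_of_three rfl (by decide)) (p := (0, false))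
    (q := (1, false)) (s := (2, false)) (by decide) (by decide) (by decide)))
  refine ⟨e, fun r hr t g hg => ?_⟩
  have h6 : g = θ (chevD4.stGen F r t) := by
    apply Subtype.ext
    apply Units.ext
    rw [hg, h3 r t hr]
  rw [h6, he]
  show QuotientGroup.mk (ψ (chevD4.stGen F r t)) = QuotientGroup.mk ((omEquiv (quadPlus 4 F)).symm (XR hQ hgen r t))
  congr 1
  rw [MulEquiv.eq_symm_apply]
  apply Subtype.ext
  rw [h5, SRep.hom_stGen, X_D4 hr, XR, coe_EG, sg_eq_E hQ]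

/-- the permutation of the roots -/
def rt (r : ℕ) : ℕ := ChevGraph.gr ChevGraph.WD4a r

theorem rt_lt : ∀ r < 24, rt r < 24 := by decide +kernel

/-- triality -/
theorem exists_triality [Finite F] (hQ : Nd (quadPlus 4 F)) (hgen : GenHyp (quadPlus 4 F)) :
    ∃ σ : Cfsg.POmega F ⇑(quadPlus 4 F) ≃* Cfsg.POmega F ⇑(quadPlus 4 F), ∀ r < 24, ∃ ε : F, ε * ε = 1 ∧ ∀ (t : F),
      σ (pOm _ (XR hQ hgen r t)) = pOm _ (XR hQ hgen (rt r) (ε * t)) := by
  have hD : chevD4 ∈ [chevG2, chevB2, chevD4, chevF4, chevE6, chevE7, chevE8] := by simp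
  have hG : Good chevD4 := ChevOkD4.good
  obtain ⟨e, he⟩ := d4' hQ hgen
  obtain ⟨α, hα⟩ := ChevAuto.graph_aut (F := F) ChevGraph.graphD4a hG
  have hn : chevD4.nroots = 24 := by decide
  refine ⟨e.symm.trans (α.trans e), fun r hr => ⟨((ChevGraph.graphD4a.e r : ℤ) : F), ?_, fun t => ?_⟩⟩
  · have hr' : r < chevD4.nroots := by rw [hn]; exact hr
    rcases ChevGraph.graphD4a.esq r hr' with h5 | h5 <;> rw [h5] <;> simp
  have hr' : r < chevD4.nroots := by rw [hn]; exact hr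
  have hg := ChevAuto.xg_mem (D := chevD4) hG r t
  obtain ⟨g, hgd⟩ : ∃ g : ↥(chevD4.group F), g = ⟨ChevRel.xg chevD4 F r t, hg⟩ := ⟨_, rfl⟩
  have h1 : (((g : Matrix.GeneralLinearGroup chevD4.Idx F)) : Matrix chevD4.Idx chevD4.Idx F) = chevD4.x F r t := by
    rw [hgd]; exact ChevRel.coe_xg hG r t
  have h2 := he r hr t g h1
  have h3 := he _ (rt_lt r hr) _ _ (hα g r t hr' h1)
  have h4 : e.symm (pOm _ (XR hQ hgen r t)) = g := by rw [← h2, MulEquiv.symm_apply_apply]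
  rw [MulEquiv.trans_apply, MulEquiv.trans_apply, h4, h3]

end

end Cfsg.Agent.Lib.Coop
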