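import Mathlib
import Cfsg.Agent.Lib.TriA

set_option autoImplicit false
set_option linter.unusedSectionVars false

/-!
Twisting of actions by triality; the standard line of `Ω₈⁺`.
-/

namespace Cfsg.Agent.Lib.Coop

open QuadraticMap Module Cfsg.Lie Cfsg.Agent.Lib.Quad Cfsg.Agent.Lib.ClOrthSiegel Cfsg.Agent.Lib.OrthNd
  Cfsg.Agent.Lib.OrthMax Cfsg.Agent.Lib.ClOmega
  Cfsg.Agent.Lib.HypSys Cfsg.Agent.Lib.ChevOrth
open scoped Pointwise

section Twist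

variable {G G₀ W X : Type*} [Group G] [Group G₀] [AddCommGroup W] [MulAction G₀ X]

/-- elements of `N` stabilising the `M`-orbit of `x` -/
def Sx (N M : Subgroup G₀) (x : X) : Set G₀ := {h | h ∈ N ∧ ∃ m ∈ M, h • x = m • x}

theorem bar_comp_iff (D : HD G W) (φ : G →* G₀) (x y : X) :
    (letI := MulAction.compHom X φ; D.bar x = D.bar y) ↔
      Sx (D.Qg.map φ) (D.Z.map φ) x = Sx (D.Qg.map φ) (D.Z.map φ) y := by
  letI := MulAction.compHom X φ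
  have hsm : ∀ (g : G) (x : X), g • x = φ g • x := fun _ _ => rfl
  have one : ∀ x y : X, D.bar x ≤ D.bar y → Sx (D.Qg.map φ) (D.Z.map φ) x ⊆ Sx (D.Qg.map φ) (D.Z.map φ) y := by
    rintro x y hxy _ ⟨⟨g, ⟨u, z, hz, rfl⟩, rfl⟩, _, ⟨z', hz', rfl⟩, h⟩
    rw [← hsm, ← hsm] at h
    have h1 : u ∈ D.bar x := by
      refine ⟨z⁻¹ * z', mul_mem (inv_mem hz) hz', ?_⟩
      rw [mul_smul, ← h, D.comm u z hz, mul_smul, inv_smul_smul]
    obtain ⟨z₂, hz₂, h2⟩ := hxy h1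
    refine ⟨⟨_, ⟨u, z, hz, rfl⟩, rfl⟩, _, ⟨z * z₂, mul_mem hz hz₂, rfl⟩, ?_⟩
    rw [← hsm, ← hsm, D.comm u z hz, mul_smul, h2, mul_smul]
  have two : ∀ x y : X, Sx (D.Qg.map φ) (D.Z.map φ) x ⊆ Sx (D.Qg.map φ) (D.Z.map φ) y → D.bar x ≤ D.bar y := by
    rintro x y hxy u ⟨z, hz, h⟩
    have h1 : φ (D.e u) ∈ Sx (D.Qg.map φ) (D.Z.map φ) x :=
      ⟨⟨D.e u, ⟨u, 1, one_mem _, by rw [mul_one]⟩, rfl⟩, φ z, ⟨z, hz, rfl⟩, h⟩
    obtain ⟨-, _, ⟨z', hz', rfl⟩, h2⟩ := hxy h1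
    exact ⟨z', hz', h2⟩
  constructor
  · intro h
    exact Set.Subset.antisymm (one x y (le_of_eq h)) (one y x (le_of_eq h.symm))
  · intro h
    exact le_antisymm (two x y (le_of_eq h)) (two y x (le_of_eq h.symm))

end Twist

section Std

variable (F : Type*) [Field F]

theorem fr8 : Fr (quadPlus 4 F) (bP 4 F (0, false)) (bP 4 F (1, false)) (bP 4 F (0, true)) (bP 4 F (1, true)) := by
  have H := hs_plus 4 F
  have h01 : (1 : Fin 4) ≠ 0 := by decide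
  exact {
    hz := H.qb _
    hb := H.qb _
    hzb := H.pbne h01
    hz' := H.qb _
    hb' := H.qb _
    hzz' := by rw [H.pb]; rfl
    hbb' := by rw [H.pb]; rfl
    hbz' := H.pbne h01.symm
    hzb' := H.pbne h01
    hz'b' := H.pbne h01 }

/-- the complement of the standard pair of hyperbolic planes -/
def U8 : Submodule F (Fin 4 ⊕ Fin 4 → F) where
  carrier := {x | polar (quadPlus 4 F) (bP 4 F (0, false)) x = 0 ∧ polar (quadPlus 4 F) (bP 4 F (1, false)) x = 0 ∧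
    polar (quadPlus 4 F) (bP 4 F (0, true)) x = 0 ∧ polar (quadPlus 4 F) (bP 4 F (1, true)) x = 0}
  zero_mem' := by simp
  add_mem' := by
    rintro x y ⟨h1, h2, h3, h4⟩ ⟨k1, k2, k3, k4⟩
    refine ⟨?_, ?_, ?_, ?_⟩ <;> rw [polar_add_right]
    · rw [h1, k1, add_zero]
    · rw [h2, k2, add_zero]
    · rw [h3, k3, add_zero]
    · rw [h4, k4, add_zero]
  smul_mem' := by
    rintro c x ⟨h1, h2, h3, h4⟩
    refine ⟨?_, ?_, ?_, ?_⟩ <;> rw [polar_smul_right]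
    · rw [h1, smul_zero]
    · rw [h2, smul_zero]
    · rw [h3, smul_zero]
    · rw [h4, smul_zero]

theorem mem_U8 {x : Fin 4 ⊕ Fin 4 → F} : x ∈ U8 F ↔ polar (quadPlus 4 F) (bP 4 F (0, false)) x = 0 ∧
    polar (quadPlus 4 F) (bP 4 F (1, false)) x = 0 ∧
    polar (quadPlus 4 F) (bP 4 F (0, true)) x = 0 ∧ polar (quadPlus 4 F) (bP 4 F (1, true)) x = 0 := Iff.rfl

theorem hU8 : ∀ u ∈ U8 F, polar (quadPlus 4 F) (bP 4 F (0, false)) u = 0 ∧
    polar (quadPlus 4 F) (bP 4 F (1, false)) u = 0 := fun _ hu => ⟨hu.1, hu.2.1⟩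

variable {F}

theorem bP_mem_U8 {p : Fin 4 × Bool} (h0 : p.1 ≠ 0) (h1 : p.1 ≠ 1) : bP 4 F p ∈ U8 F := by
  have H := hs_plus 4 F
  exact ⟨H.pbne h0, H.pbne h1, H.pbne h0, H.pbne h1⟩

theorem finrank_V8 : finrank F (Fin 4 ⊕ Fin 4 → F) = 8 := by simp

theorem U8_decomp {x : Fin 4 ⊕ Fin 4 → F} (hx : x ∈ U8 F) :
    x = x (.inl 2) • bP 4 F (2, false) + x (.inl 3) • bP 4 F (3, false) + x (.inr 2) • bP 4 F (2, true) +
      x (.inr 3) • bP 4 F (3, true) := by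
  rw [mem_U8, polar_bP, polar_bP, polar_bP, polar_bP] at hx
  have h0 : x (.inr 0) = 0 := hx.1
  have h1 : x (.inr 1) = 0 := hx.2.1
  have h2 : x (.inl 0) = 0 := hx.2.2.1
  have h3 : x (.inl 1) = 0 := hx.2.2.2
  funext j
  rcases j with j | j <;> fin_cases j <;> simp [bP, idx, Pi.single_apply, h0, h1, h2, h3]

variable [Finite F] (hQ : Nd (quadPlus 4 F)) (hgen : GenHyp (quadPlus 4 F))

include hQ in
theorem nds_U8 : NDs (quadPlus 4 F) (U8 F) := by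
  have h := fr8 F
  obtain ⟨U, h1, -, h3⟩ := frame_U hQ h.hz h.hb h.hzb h.hz' h.hb' h.hzz' h.hbb' h.hbz' h.hzb' h.hz'b'
  have : U = U8 F := by
    ext x
    rw [h3, mem_U8]
  rw [← this]; exact h1

include hQ in
theorem finrank_U8 : finrank F (U8 F) = 4 := by
  have h := (fr8 F).finrank_U hQ (U := U8 F) (fun x => Iff.rfl)
  rw [finrank_V8] at h
  omega

/-- the Heisenberg group of the standard line -/
noncomputable abbrev D8 : HD ↥(Om (quadPlus 4 F)) (↥(U8 F) × ↥(U8 F)) :=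
  hd hQ hgen (fr8 F).hz (fr8 F).hb (fr8 F).hzb (U8 F) (hU8 F)

/-- its roots -/
def rL : List ℕ := [14, 15, 16, 17, 19, 20, 21, 22, 23]

theorem rL_lt : ∀ r ∈ rL, r < 24 := by decide

theorem rL_rt : ∀ r ∈ rL, rt r ∈ rL := by decide +kernel

theorem rL_rt' : ∀ r ∈ rL, ∃ s ∈ rL, rt s = r := by decide +kernel

theorem tab_rL : ∀ r ∈ rL, r ≠ 23 → (PD r).1 ≠ 0 ∧ (PD r).1 ≠ 1 ∧ (QD r = (0, false) ∨ QD r = (1, false)) := by
  decide +kernel

theorem tab_rL' : ∀ p : Fin 4 × Bool, p.1 ≠ 0 → p.1 ≠ 1 → ∀ i : Bool, ∃ r ∈ rL, PD r = p ∧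
    QD r = (if i then ((1 : Fin 4), false) else (0, false)) := by
  decide +kernel

theorem sD_sq : ∀ r < 24, sD r * sD r = 1 := by decide +kernel

theorem XR_eq_swap {r : ℕ} (hr : r < 24) (t : F) :
    XR hQ hgen r t = EG hQ hgen (bP 4 F (QD r)) ((-((sD r : F) * t)) • bP 4 F (PD r)) := by
  have H := hs_plus 4 F
  apply Subtype.ext
  rw [XR, coe_EG, coe_EG]
  exact E_smul_swap hQ (H.qb _) (H.qb _) (H.pbne (tabD1 r hr)) _

theorem sD_cast_sq {r : ℕ} (hr : r < 24) : (sD r : F) * (sD r : F) = 1 := by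
  have := sD_sq r hr
  exact_mod_cast congrArg (Int.cast : ℤ → F) this

theorem mem_Z8 {g : ↥(Om (quadPlus 4 F))} : g ∈ (D8 hQ hgen).Z ↔ ∃ t : F, g = XR hQ hgen 23 t := by
  have hz : g ∈ (D8 hQ hgen).Z ↔ ∃ c : F, g = EG hQ hgen (bP 4 F (0, false)) (c • bP 4 F (1, false)) :=
    mem_zhom hQ hgen (fr8 F).hzb
  rw [hz]
  have h1 := sD_cast_sq (F := F) (r := 23) (by norm_num)
  constructor
  · rintro ⟨c, rfl⟩
    refine ⟨-((sD 23 : F) * c), ?_⟩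
    rw [XR_eq_swap hQ hgen (by norm_num)]
    show EG hQ hgen (bP 4 F (0, false)) (c • bP 4 F (1, false)) = EG hQ hgen (bP 4 F (0, false)) (_ • bP 4 F (1, false))
    congr 2
    linear_combination (-c) * h1
  · rintro ⟨t, rfl⟩
    exact ⟨_, XR_eq_swap hQ hgen (by norm_num) t⟩

theorem EG_mem_closure {i : Bool} {x : Fin 4 ⊕ Fin 4 → F} (hx : x ∈ U8 F) :
    EG hQ hgen (bP 4 F (if i then ((1 : Fin 4), false) else (0, false))) x ∈
      Subgroup.closure {g | ∃ r ∈ rL, ∃ t : F, g = XR hQ hgen r t} := by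
  have H := hs_plus 4 F
  have one : ∀ p : Fin 4 × Bool, p.1 ≠ 0 → p.1 ≠ 1 → ∀ c : F,
      EG hQ hgen (bP 4 F (if i then ((1 : Fin 4), false) else (0, false))) (c • bP 4 F p) ∈
      Subgroup.closure {g | ∃ r ∈ rL, ∃ t : F, g = XR hQ hgen r t} := by
    intro p h0 h1 c
    obtain ⟨r, hr, h2, h3⟩ := tab_rL' p h0 h1 i
    have hr' := rL_lt r hr
    refine Subgroup.subset_closure ⟨r, hr, -((sD r : F) * c), ?_⟩
    rw [XR_eq_swap hQ hgen hr', h2, h3]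
    congr 2
    have h4 := sD_cast_sq (F := F) hr'
    linear_combination (-c) * h4
  have hp : ∀ p : Fin 4 × Bool, p.1 ≠ 0 → p.1 ≠ 1 → ∀ c : F,
      polar (quadPlus 4 F) (bP 4 F (if i then ((1 : Fin 4), false) else (0, false))) (c • bP 4 F p) = 0 := by
    intro p h0 h1 c
    rw [polar_smul_right]
    cases i
    · rw [show polar (quadPlus 4 F) (bP 4 F (if (false : Bool) then ((1 : Fin 4), false) else (0, false))) (bP 4 F p) = 0
        from H.pbne h0, smul_zero]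
    · rw [show polar (quadPlus 4 F) (bP 4 F (if (true : Bool) then ((1 : Fin 4), false) else (0, false))) (bP 4 F p) = 0
        from H.pbne h1, smul_zero]
  rw [U8_decomp hx]
  have a1 := hp (2, false) (by decide) (by decide) (x (.inl 2))
  have a2 := hp (3, false) (by decide) (by decide) (x (.inl 3))
  have a3 := hp (2, true) (by decide) (by decide) (x (.inr 2))
  have a4 := hp (3, true) (by decide) (by decide) (x (.inr 3))
  have b1 := one (2, false) (by decide) (by decide) (x (.inl 2))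
  have b2 := one (3, false) (by decide) (by decide) (x (.inl 3))
  have b3 := one (2, true) (by decide) (by decide) (x (.inr 2))
  have b4 := one (3, true) (by decide) (by decide) (x (.inr 3))
  rw [← EG_add hQ hgen (by rw [polar_add_right, polar_add_right, a1, a2, a3]; simp) a4,
    ← EG_add hQ hgen (by rw [polar_add_right, a1, a2]; simp) a3, ← EG_add hQ hgen a1 a2]
  exact mul_mem (mul_mem (mul_mem b1 b2) b3) b4

theorem Qg8 : (D8 hQ hgen).Qg = Subgroup.closure {g | ∃ r ∈ rL, ∃ t : F, g = XR hQ hgen r t} := by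
  apply le_antisymm
  · rintro _ ⟨u, z, hz, rfl⟩
    obtain ⟨t, rfl⟩ := (mem_Z8 hQ hgen).1 hz
    have h1 := EG_mem_closure hQ hgen (i := false) u.1.2
    have h2 := EG_mem_closure hQ hgen (i := true) u.2.2
    exact mul_mem (mul_mem h1 h2) (Subgroup.subset_closure ⟨23, by decide, t, rfl⟩)
  · rw [Subgroup.closure_le]
    rintro _ ⟨r, hr, t, rfl⟩
    by_cases h23 : r = 23
    · subst h23
      exact ⟨0, _, (mem_Z8 hQ hgen).2 ⟨t, rfl⟩, by rw [(D8 hQ hgen).e_zero, one_mul]⟩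
    · have hr' := rL_lt r hr
      obtain ⟨h0, h1, h2⟩ := tab_rL r hr h23
      have hm : (-((sD r : F) * t)) • bP 4 F (PD r) ∈ U8 F := Submodule.smul_mem _ _ (bP_mem_U8 h0 h1)
      rcases h2 with h2 | h2
      · refine ⟨(⟨_, hm⟩, 0), 1, one_mem _, ?_⟩
        rw [XR_eq_swap hQ hgen hr', h2, mul_one]
        show _ = EG hQ hgen _ _ * EG hQ hgen _ ((0 : ↥(U8 F)) : Fin 4 ⊕ Fin 4 → F)
        rw [Submodule.coe_zero, EG_zero, mul_one]
      · refine ⟨(0, ⟨_, hm⟩), 1, one_mem _, ?_⟩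
        rw [XR_eq_swap hQ hgen hr', h2, mul_one]
        show _ = EG hQ hgen _ ((0 : ↥(U8 F)) : Fin 4 ⊕ Fin 4 → F) * EG hQ hgen _ _
        rw [Submodule.coe_zero, EG_zero, one_mul]

variable {σ : Cfsg.POmega F ⇑(quadPlus 4 F) ≃* Cfsg.POmega F ⇑(quadPlus 4 F)}

theorem sigma_Qg (hσ : ∀ r < 24, ∃ ε : F, ε * ε = 1 ∧ ∀ (t : F),
      σ (pOm _ (XR hQ hgen r t)) = pOm _ (XR hQ hgen (rt r) (ε * t))) :
    ((D8 hQ hgen).Qg.map (pOm _)).map σ.toMonoidHom = (D8 hQ hgen).Qg.map (pOm _) := by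
  rw [Qg8, MonoidHom.map_closure, MonoidHom.map_closure]
  congr 1
  ext g
  constructor
  · rintro ⟨_, ⟨_, ⟨r, hr, t, rfl⟩, rfl⟩, rfl⟩
    obtain ⟨ε, hε, h⟩ := hσ r (rL_lt r hr)
    exact ⟨_, ⟨rt r, rL_rt r hr, ε * t, rfl⟩, (h t).symm⟩
  · rintro ⟨_, ⟨r, hr, t, rfl⟩, rfl⟩
    obtain ⟨s, hs, rfl⟩ := rL_rt' r hr
    obtain ⟨ε, hε, h⟩ := hσ s (rL_lt s hs)
    refine ⟨_, ⟨_, ⟨s, hs, ε * t, rfl⟩, rfl⟩, ?_⟩
    show σ (pOm _ (XR hQ hgen s (ε * t))) = _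
    rw [h, ← mul_assoc, hε, one_mul]

theorem sigma_Z (hσ : ∀ r < 24, ∃ ε : F, ε * ε = 1 ∧ ∀ (t : F),
      σ (pOm _ (XR hQ hgen r t)) = pOm _ (XR hQ hgen (rt r) (ε * t))) :
    ((D8 hQ hgen).Z.map (pOm _)).map σ.toMonoidHom = (D8 hQ hgen).Z.map (pOm _) := by
  have h23 : rt 23 = 23 := by decide +kernel
  obtain ⟨ε, hε, h⟩ := hσ 23 (by norm_num)
  rw [h23] at h
  ext g
  constructor
  · rintro ⟨_, ⟨_, hz, rfl⟩, rfl⟩
    obtain ⟨t, rfl⟩ := (mem_Z8 hQ hgen).1 hz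
    exact ⟨_, (mem_Z8 hQ hgen).2 ⟨ε * t, rfl⟩, (h t).symm⟩
  · rintro ⟨_, hz, rfl⟩
    obtain ⟨t, rfl⟩ := (mem_Z8 hQ hgen).1 hz
    refine ⟨_, ⟨_, (mem_Z8 hQ hgen).2 ⟨ε * t, rfl⟩, rfl⟩, ?_⟩
    show σ (pOm _ (XR hQ hgen 23 (ε * t))) = _
    rw [h, ← mul_assoc, hε, one_mul]

end Std

end Cfsg.Agent.Lib.Coop
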