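import Mathlib
import Cfsg.Agent.Lib.CoopW

set_option autoImplicit false
set_option linter.unusedSectionVars false

/-!
A refined counting of the point stabilisers in the Heisenberg group of a line.
-/

namespace Cfsg.Agent.Lib.Coop

open QuadraticMap Module Cfsg.Agent.Lib.Quad Cfsg.Agent.Lib.ClOrthSiegel Cfsg.Agent.Lib.OrthNd
  Cfsg.Agent.Lib.OrthMax
open scoped Pointwise

/-- variant of the main counting lemma -/
theorem HD.card_ge' {G W X : Type*} [Group G] [AddCommGroup W] [MulAction G X] (D : HD G W) [Finite X]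
    {ι : Type*} (s : Finset ι) (f : ι → X) (m : ℕ)
    (hfib : ∀ j ∈ s, ∀ t ⊆ s, (∀ i ∈ t, f i ∈ MulAction.orbit D.Qg (f j)) →
      t.card * m ≤ Nat.card (W ⧸ D.bar (f j)) * Nat.card (MulAction.orbit D.Z (f j))) :
    m * s.card ≤ Nat.card X := by
  classical
  haveI := Fintype.ofFinite X
  let Ω := MulAction.orbitRel.Quotient D.Qg X
  haveI : Finite Ω := Quotient.finite _
  haveI := Fintype.ofFinite Ω
  have h1 : Nat.card X = ∑ ω : Ω, Nat.card ω.orbit := by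
    rw [Nat.card_congr (MulAction.selfEquivSigmaOrbits' D.Qg X), Nat.card_sigma]
  have h2 : s.card = ∑ ω : Ω, (s.filter fun i => (Quotient.mk _ (f i) : Ω) = ω).card :=
    Finset.card_eq_sum_card_fiberwise fun i _ => Finset.mem_coe.2 (Finset.mem_univ _)
  rw [h1, h2, Finset.mul_sum]
  apply Finset.sum_le_sum
  intro ω _
  rcases Finset.eq_empty_or_nonempty (s.filter fun i => (Quotient.mk _ (f i) : Ω) = ω) with h0 | ⟨j, hj⟩
  · rw [h0, Finset.card_empty, mul_zero]; exact Nat.zero_le _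
  · obtain ⟨hjs, hjω⟩ := Finset.mem_filter.1 hj
    have h3 := hfib j hjs (s.filter fun i => (Quotient.mk _ (f i) : Ω) = ω) (Finset.filter_subset _ _) (by
      intro i hi
      obtain ⟨_, hi⟩ := Finset.mem_filter.1 hi
      rw [← hjω] at hi
      exact MulAction.orbitRel_apply.1 (Quotient.exact hi))
    have h4 : ω.orbit = MulAction.orbit D.Qg (f j) := by
      rw [← hjω]
      exact MulAction.orbitRel.Quotient.orbit_mk _
    rw [h4, mul_comm]
    exact h3.trans (D.card_orbit_ge (f j))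

variable {F V : Type*} [Field F] [AddCommGroup V] [Module F V] [FiniteDimensional F V]
  {Q : QuadraticForm F V} [Finite F] (hQ : Nd Q) (hgen : GenHyp Q) {X : Type*} [MulAction ↥(Om Q) X]

theorem Cx_smul_iff {z b : V} (hz : Q z = 0) (hb : Q b = 0) (hzb : polar Q z b = 0) (x : X)
    (g : ↥(Om Q)) {α β γ δ : F} (hgz : (g : V ≃ₗ[F] V) z = α • z + γ • b)
    (hgb : (g : V ≃ₗ[F] V) b = β • z + δ • b) (c : F) :
    c * (α * δ - β * γ) ∈ Cx hQ hgen hzb (g • x) ↔ c ∈ Cx hQ hgen hzb x := by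
  rw [mem_Cx, ← mul_smul, ← conj_Z hQ hgen hz hb hzb g hgz hgb c, mul_smul, mem_Cx]
  exact ⟨fun h => MulAction.injective _ h, fun h => by rw [h]⟩

theorem Cx_Qg {z b : V} (hz : Q z = 0) (hb : Q b = 0) (hzb : polar Q z b = 0)
    (U : Submodule F V) (hU : ∀ u ∈ U, polar Q z u = 0 ∧ polar Q b u = 0) {x y : X}
    (h : y ∈ MulAction.orbit (hd hQ hgen hz hb hzb U hU).Qg x) : Cx hQ hgen hzb y = Cx hQ hgen hzb x := by
  obtain ⟨⟨g, u, s, hs, hg⟩, rfl⟩ := h
  ext c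
  rw [mem_Cx, mem_Cx]
  have h1 : EG hQ hgen z (c • b) ∈ (hd hQ hgen hz hb hzb U hU).Z := (mem_zhom hQ hgen hzb).2 ⟨c, rfl⟩
  have h2 : EG hQ hgen z (c • b) * g = g * EG hQ hgen z (c • b) := by
    rw [hg, ← mul_assoc, ← (hd hQ hgen hz hb hzb U hU).comm u _ h1, mul_assoc, mul_assoc,
      (hd hQ hgen hz hb hzb U hU).zcomm _ h1 _ hs]
  show EG hQ hgen z (c • b) • g • x = g • x ↔ _
  rw [← mul_smul, h2, mul_smul]
  exact ⟨fun h => MulAction.injective _ h, fun h => by rw [h]⟩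

theorem card_Cx_le [Finite X] {z b : V} (hz : Q z = 0) (hb : Q b = 0) (hzb : polar Q z b = 0)
    (U : Submodule F V) (hU : ∀ u ∈ U, polar Q z u = 0 ∧ polar Q b u = 0) (x : X) :
    Nat.card (F ⧸ Cx hQ hgen hzb x) ≤ Nat.card (MulAction.orbit (hd hQ hgen hz hb hzb U hU).Z x) := by
  let f : F ⧸ Cx hQ hgen hzb x → MulAction.orbit (hd hQ hgen hz hb hzb U hU).Z x := fun c =>
    ⟨EG hQ hgen z (c.out • b) • x,
      ⟨⟨EG hQ hgen z (c.out • b), (mem_zhom hQ hgen hzb).2 ⟨_, rfl⟩⟩, rfl⟩⟩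
  refine Nat.card_le_card_of_injective f fun c d h => ?_
  have h1 : EG hQ hgen z (c.out • b) • x = EG hQ hgen z (d.out • b) • x := congrArg Subtype.val h
  rw [← QuotientAddGroup.out_eq' c, ← QuotientAddGroup.out_eq' d, QuotientAddGroup.eq, mem_Cx]
  have h2 : ∀ s : F, polar Q z (s • b) = 0 := fun s => by rw [polar_smul_right, hzb, smul_zero]
  rw [add_smul, ← EG_add hQ hgen (h2 _) (h2 _), mul_smul, ← h1, ← mul_smul, EG_add hQ hgen (h2 _) (h2 _),
    ← add_smul, neg_add_cancel, zero_smul, EG_zero, one_smul]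

theorem psi_mul_inj {ψ : AddChar F ℂ} {a : F} (hψ : ψ a ≠ 1) {s t : F} (h : ∀ c, ψ (s * c) = ψ (t * c)) : s = t := by
  have h1 := chi_injective (F := F) (W := F) (LinearMap.mul F F) (fun w hw => by
    have := LinearMap.congr_fun hw 1
    simpa using this) hψ
  exact h1 (DFunLike.ext _ _ h)

/-- the refined counting -/
theorem card_psi [Finite X] {z b z' b' : V} (h : Fr Q z b z' b') (U : Submodule F V)
    (hU : ∀ u ∈ U, polar Q z u = 0 ∧ polar Q b u = 0) (hUn : NDs Q U)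
    (hμ : ∀ μ : F, μ ≠ 0 → ∃ g ∈ Gl Q z b z' b' U, (g : V ≃ₗ[F] V) z = μ • z ∧ (g : V ≃ₗ[F] V) b = b)
    {ψ : AddChar F ℂ} {a : F} (hψ : ψ a ≠ 1) (s : Finset (AddSubgroup (↥U × ↥U)))
    (hs : ∀ B ∈ s, ∃ x : X, Cx hQ hgen h.hzb x ≠ ⊤ ∧ (∀ c ∈ Cx hQ hgen h.hzb x, ψ c = 1) ∧
      (hd hQ hgen h.hz h.hb h.hzb U hU).bar x = B) :
    Nat.card F ^ finrank F U * (Nat.card F * s.card) ≤ Nat.card X := by
  classical
  letI := glDist h U
  have := Fintype.ofFinite F
  have : Finite V := Module.finite_of_finite F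
  rcases isEmpty_or_nonempty X with hX | ⟨⟨x₀⟩⟩
  · have : s = ∅ := Finset.eq_empty_of_forall_notMem fun χ hχ => hX.elim (hs χ hχ).choose
    rw [this]; simp
  have key : ∀ μ : F, ∃ g : ↥(Gl Q z b z' b' U), ((g : ↥(Om Q)) : V ≃ₗ[F] V) z = (if μ = 0 then 1 else μ) • z ∧
      ((g : ↥(Om Q)) : V ≃ₗ[F] V) b = b := by
    intro μ
    obtain ⟨g, hg, h1, h2⟩ := hμ (if μ = 0 then 1 else μ) (by split_ifs with h; exacts [one_ne_zero, h])
    exact ⟨⟨g, hg⟩, h1, h2⟩
  choose γ hγz hγb using key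
  let x' : AddSubgroup (↥U × ↥U) → X := fun B => if hB : B ∈ s then (hs B hB).choose else x₀
  have hx' : ∀ B (hB : B ∈ s), Cx hQ hgen h.hzb (x' B) ≠ ⊤ ∧ (∀ c ∈ Cx hQ hgen h.hzb (x' B), ψ c = 1) ∧
      (hd hQ hgen h.hz h.hb h.hzb U hU).bar (x' B) = B := by
    intro B hB
    simp only [x', dif_pos hB]
    exact (hs B hB).choose_spec
  let f : F × AddSubgroup (↥U × ↥U) → X := fun i => ((γ i.1 : ↥(Gl Q z b z' b' U)) : ↥(Om Q)) • x' i.2
  have hbar : ∀ i : F × AddSubgroup (↥U × ↥U), i.2 ∈ s →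
      (hd hQ hgen h.hz h.hb h.hzb U hU).bar (f i) = γ i.1 • i.2 := by
    intro i hi
    have h1 := bar_Gl hQ hgen h U hU (x' i.2) (γ i.1)
    rw [(hx' i.2 hi).2.2] at h1
    exact h1
  have hdet : ∀ μ : F, (if μ = 0 then 1 else μ) * 1 - (0 : F) * 0 ≠ 0 := by
    intro μ
    rw [mul_one, mul_zero, sub_zero]
    split_ifs with h
    exacts [one_ne_zero, h]
  have hγz' : ∀ μ : F, (((γ μ : ↥(Gl Q z b z' b' U)) : ↥(Om Q)) : V ≃ₗ[F] V) z =
      (if μ = 0 then 1 else μ) • z + (0 : F) • b := by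
    intro μ; rw [hγz, zero_smul, add_zero]
  have hγb' : ∀ μ : F, (((γ μ : ↥(Gl Q z b z' b' U)) : ↥(Om Q)) : V ≃ₗ[F] V) b = (0 : F) • z + (1 : F) • b := by
    intro μ; rw [hγb, zero_smul, one_smul, zero_add]
  have hC : ∀ i : F × AddSubgroup (↥U × ↥U), i.2 ∈ s → Cx hQ hgen h.hzb (f i) ≠ ⊤ := by
    intro i hi
    exact Cx_actM hQ hgen h.hz h.hb h.hzb (x' i.2) _ (hγz' i.1) (hγb' i.1) (hdet i.1) (hx' i.2 hi).1
  have hCc : ∀ i : F × AddSubgroup (↥U × ↥U), i.2 ∈ s → ∀ c ∈ Cx hQ hgen h.hzb (f i), ψ (i.1⁻¹ * c) = 1 := by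
    intro i hi c hc
    by_cases h0 : i.1 = 0
    · rw [h0, inv_zero, zero_mul, AddChar.map_zero_eq_one]
    · apply (hx' i.2 hi).2.1
      rw [← Cx_smul_iff hQ hgen h.hz h.hb h.hzb (x' i.2) _ (hγz' i.1) (hγb' i.1), if_neg h0]
      have : i.1⁻¹ * c * (i.1 * 1 - 0 * 0) = c := by field_simp; ring
      rw [this]
      exact hc
  have hmain := (hd hQ hgen h.hz h.hb h.hzb U hU).card_ge' (X := X) (Finset.univ ×ˢ s) f (Nat.card F ^ finrank F U) (by
    intro j hj t hts ht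
    have hj2 : j.2 ∈ s := (Finset.mem_product.1 hj).2
    have ht2 : ∀ i ∈ t, i.2 ∈ s := fun i hi => (Finset.mem_product.1 (hts hi)).2
    have h1 := le_card_quot hQ hgen h.hz h.hb h.hzb U hU hUn (f j) (hC j hj2)
    have h2 : t.card ≤ Nat.card (F ⧸ Cx hQ hgen h.hzb (f j)) := by
      have h3 : (t.image fun i => ψ.compAddMonoidHom (AddMonoidHom.mulLeft i.1⁻¹)).card = t.card := by
        apply Finset.card_image_of_injOn
        intro i hi k hk hik
        have e1 : i.1⁻¹ = k.1⁻¹ := psi_mul_inj hψ (fun c => DFunLike.congr_fun hik c)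
        have e2 : i.1 = k.1 := inv_injective e1
        have b1 : (hd hQ hgen h.hz h.hb h.hzb U hU).bar (f i) = (hd hQ hgen h.hz h.hb h.hzb U hU).bar (f j) := by
          obtain ⟨⟨g, hg⟩, hgx⟩ := ht i hi
          have : f i = g • f j := hgx.symm
          rw [this, HD.bar_smul _ hg]
        have b2 : (hd hQ hgen h.hz h.hb h.hzb U hU).bar (f k) = (hd hQ hgen h.hz h.hb h.hzb U hU).bar (f j) := by
          obtain ⟨⟨g, hg⟩, hgx⟩ := ht k hk
          have : f k = g • f j := hgx.symm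
          rw [this, HD.bar_smul _ hg]
        rw [hbar i (ht2 i hi)] at b1
        rw [hbar k (ht2 k hk), ← b1, e2] at b2
        refine Prod.ext e2 ?_
        exact (MulAction.injective _ b2).symm
      rw [← h3]
      apply card_char_le
      intro χ hχ c hc
      obtain ⟨i, hi, rfl⟩ := Finset.mem_image.1 hχ
      show ψ (i.1⁻¹ * c) = 1
      apply hCc i (ht2 i hi)
      rw [Cx_Qg hQ hgen h.hz h.hb h.hzb U hU (ht i hi)]
      exact hc
    calc t.card * Nat.card F ^ finrank F U ≤ Nat.card (MulAction.orbit (hd hQ hgen h.hz h.hb h.hzb U hU).Z (f j)) *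
          Nat.card ((↥U × ↥U) ⧸ (hd hQ hgen h.hz h.hb h.hzb U hU).bar (f j)) :=
        Nat.mul_le_mul (h2.trans (card_Cx_le hQ hgen h.hz h.hb h.hzb U hU (f j))) h1
      _ = _ := mul_comm _ _)
  rw [Finset.card_product, Finset.card_univ, ← Nat.card_eq_fintype_card] at hmain
  exact hmain

end Cfsg.Agent.Lib.Coop
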