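import Mathlib
import Cfsg.Agent.Lib.CoopW

set_option autoImplicit false
set_option linter.unusedSectionVars false

/-!
Two commuting root groups acting on a small set.
-/

namespace Cfsg.Agent.Lib.Coop

open scoped Pointwise

section TwoFix

variable {F Ω G : Type*} [Field F] [Finite F] [Finite Ω] [Group G] [MulAction G Ω]

/-- the standard form on pairs -/
def dotF (F : Type*) [Field F] : (F × F) →ₗ[F] (F × F) →ₗ[F] F :=
  LinearMap.mk₂ F (fun u v => u.1 * v.1 + u.2 * v.2)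
    (by intro u u' v; simp only [Prod.fst_add, Prod.snd_add]; ring)
    (by intro c u v; simp only [Prod.smul_fst, Prod.smul_snd, smul_eq_mul]; ring)
    (by intro u v v'; simp only [Prod.fst_add, Prod.snd_add]; ring)
    (by intro c u v; simp only [Prod.smul_fst, Prod.smul_snd, smul_eq_mul]; ring)

theorem dotF_apply (u v : F × F) : dotF F u v = u.1 * v.1 + u.2 * v.2 := rfl

theorem dotF_nd (u : F × F) (h : dotF F u = 0) : u = 0 := by
  have h1 := LinearMap.congr_fun h (1, 0)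
  have h2 := LinearMap.congr_fun h (0, 1)
  rw [dotF_apply] at h1 h2
  simp at h1 h2
  exact Prod.ext h1 h2

/-- the Heisenberg datum with trivial centre -/
def hd2 (r1 r2 : F → G) (h1 : ∀ a b, r1 (a + b) = r1 a * r1 b) (h2 : ∀ a b, r2 (a + b) = r2 a * r2 b)
    (hc : ∀ a b, r1 a * r2 b = r2 b * r1 a) : HD G (F × F) where
  e u := r1 u.1 * r2 u.2
  Z := ⊥
  e_zero := by
    have e1 : r1 0 = 1 := by
      have := h1 0 0
      rw [add_zero] at this
      exact mul_eq_left.1 this.symm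
    have e2 : r2 0 = 1 := by
      have := h2 0 0
      rw [add_zero] at this
      exact mul_eq_left.1 this.symm
    show r1 0 * r2 0 = 1
    rw [e1, e2, mul_one]
  comm u z hz := by rw [Subgroup.mem_bot.1 hz, mul_one, one_mul]
  zcomm z hz z' hz' := by rw [Subgroup.mem_bot.1 hz, Subgroup.mem_bot.1 hz']
  mul u v := ⟨1, Subgroup.mem_bot.2 rfl, by
    rw [mul_one]
    show r1 u.1 * r2 u.2 * (r1 v.1 * r2 v.2) = r1 (u.1 + v.1) * r2 (u.2 + v.2)
    rw [h1, h2, mul_assoc, mul_assoc, ← mul_assoc (r2 u.2), ← hc, mul_assoc]⟩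

theorem mem_bar_hd2 {r1 r2 : F → G} {h1 : ∀ a b, r1 (a + b) = r1 a * r1 b} {h2 : ∀ a b, r2 (a + b) = r2 a * r2 b}
    {hc : ∀ a b, r1 a * r2 b = r2 b * r1 a} {ω : Ω} {u : F × F} :
    u ∈ (hd2 r1 r2 h1 h2 hc).bar ω ↔ (r1 u.1 * r2 u.2) • ω = ω := by
  rw [HD.mem_bar]
  constructor
  · rintro ⟨z, hz, h⟩
    rw [Subgroup.mem_bot.1 hz, one_smul] at h
    exact h
  · intro h
    exact ⟨1, Subgroup.mem_bot.2 rfl, by rw [one_smul]; exact h⟩

/-- the number of pairs of parameters of characters is at most the number of points -/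
theorem card_params_le {r1 r2 : F → G} (h1 : ∀ a b, r1 (a + b) = r1 a * r1 b) (h2 : ∀ a b, r2 (a + b) = r2 a * r2 b)
    (hc : ∀ a b, r1 a * r2 b = r2 b * r1 a) {ψ : AddChar F ℂ} {a₀ : F} (hψ : ψ a₀ ≠ 1) (S : Finset (F × F))
    (hS : ∀ w ∈ S, ∃ ω : Ω, w ∈ Ann (dotF F) ψ ((hd2 r1 r2 h1 h2 hc).bar ω)) : S.card ≤ Nat.card Ω := by
  classical
  have h3 := (hd2 r1 r2 h1 h2 hc).card_char_ge (X := Ω)
    (S.image fun w => ψ.compAddMonoidHom (dotF F w).toAddMonoidHom) 1 (by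
      intro χ hχ
      obtain ⟨w, hw, rfl⟩ := Finset.mem_image.1 hχ
      obtain ⟨ω, hω⟩ := hS w hw
      refine ⟨ω, ?_, fun u hu => hω u hu⟩
      have : Nonempty (MulAction.orbit (hd2 r1 r2 h1 h2 hc).Z ω) := ⟨⟨ω, MulAction.mem_orbit_self _⟩⟩
      exact Nat.card_pos)
  rw [Finset.card_image_of_injective _ (chi_injective (dotF F) dotF_nd hψ), one_mul] at h3
  exact h3

theorem ann_scale1 {r1 r2 : F → G} {h1 : ∀ a b, r1 (a + b) = r1 a * r1 b} {h2 : ∀ a b, r2 (a + b) = r2 a * r2 b}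
    {hc : ∀ a b, r1 a * r2 b = r2 b * r1 a} {ψ : AddChar F ℂ}
    (ht1 : ∀ c : F, c ≠ 0 → ∃ g : G, (∀ a, g * r1 a = r1 (c * c * a) * g) ∧ ∀ b, g * r2 b = r2 b * g)
    {w : F × F} {ω : Ω} (hw : w ∈ Ann (dotF F) ψ ((hd2 r1 r2 h1 h2 hc).bar ω)) {s : F} (hs0 : s ≠ 0)
    (hs : IsSquare s) : ∃ ω' : Ω, (s * w.1, w.2) ∈ Ann (dotF F) ψ ((hd2 r1 r2 h1 h2 hc).bar ω') := by
  obtain ⟨c, rfl⟩ := hs
  have hc0 : c ≠ 0 := fun h => hs0 (by rw [h, mul_zero])
  obtain ⟨g, hg1, hg2⟩ := ht1 c hc0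
  refine ⟨g⁻¹ • ω, fun u hu => ?_⟩
  rw [mem_bar_hd2, ← mul_smul, eq_inv_smul_iff, ← mul_smul] at hu
  have e1 : g * (r1 u.1 * r2 u.2 * g⁻¹) = r1 (c * c * u.1) * r2 u.2 := by
    calc g * (r1 u.1 * r2 u.2 * g⁻¹) = g * r1 u.1 * (r2 u.2 * g⁻¹) := by group
      _ = r1 (c * c * u.1) * (g * r2 u.2) * g⁻¹ := by rw [hg1]; group
      _ = r1 (c * c * u.1) * r2 u.2 := by rw [hg2]; group
  rw [e1] at hu
  have h3 := hw (c * c * u.1, u.2) (mem_bar_hd2.2 hu)
  rw [dotF_apply] at h3 ⊢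
  rw [← h3]
  congr 1
  ring

theorem ann_scale2 {r1 r2 : F → G} {h1 : ∀ a b, r1 (a + b) = r1 a * r1 b} {h2 : ∀ a b, r2 (a + b) = r2 a * r2 b}
    {hc : ∀ a b, r1 a * r2 b = r2 b * r1 a} {ψ : AddChar F ℂ}
    (ht2 : ∀ c : F, c ≠ 0 → ∃ g : G, (∀ a, g * r1 a = r1 a * g) ∧ ∀ b, g * r2 b = r2 (c * c * b) * g)
    {w : F × F} {ω : Ω} (hw : w ∈ Ann (dotF F) ψ ((hd2 r1 r2 h1 h2 hc).bar ω)) {s : F} (hs0 : s ≠ 0)
    (hs : IsSquare s) : ∃ ω' : Ω, (w.1, s * w.2) ∈ Ann (dotF F) ψ ((hd2 r1 r2 h1 h2 hc).bar ω') := by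
  obtain ⟨c, rfl⟩ := hs
  have hc0 : c ≠ 0 := fun h => hs0 (by rw [h, mul_zero])
  obtain ⟨g, hg1, hg2⟩ := ht2 c hc0
  refine ⟨g⁻¹ • ω, fun u hu => ?_⟩
  rw [mem_bar_hd2, ← mul_smul, eq_inv_smul_iff, ← mul_smul] at hu
  have e1 : g * (r1 u.1 * r2 u.2 * g⁻¹) = r1 u.1 * r2 (c * c * u.2) := by
    calc g * (r1 u.1 * r2 u.2 * g⁻¹) = g * r1 u.1 * (r2 u.2 * g⁻¹) := by group
      _ = r1 u.1 * (g * r2 u.2) * g⁻¹ := by rw [hg1]; group
      _ = r1 u.1 * r2 (c * c * u.2) := by rw [hg2]; group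
  rw [e1] at hu
  have h3 := hw (u.1, c * c * u.2) (mem_bar_hd2.2 hu)
  rw [dotF_apply] at h3 ⊢
  rw [← h3]
  congr 1
  ring

theorem two_fix {r1 r2 : F → G} (h1 : ∀ a b, r1 (a + b) = r1 a * r1 b) (h2 : ∀ a b, r2 (a + b) = r2 a * r2 b)
    (hc : ∀ a b, r1 a * r2 b = r2 b * r1 a)
    (ht1 : ∀ c : F, c ≠ 0 → ∃ g : G, (∀ a, g * r1 a = r1 (c * c * a) * g) ∧ ∀ b, g * r2 b = r2 b * g)
    (ht2 : ∀ c : F, c ≠ 0 → ∃ g : G, (∀ a, g * r1 a = r1 a * g) ∧ ∀ b, g * r2 b = r2 (c * c * b) * g)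
    (hq : 4 ≤ Nat.card F) (hΩ : Nat.card Ω ≤ Nat.card F + 1) (ω : Ω) :
    (∀ a, r1 a • ω = ω) ∨ (∀ b, r2 b • ω = ω) := by
  classical
  have := Fintype.ofFinite F
  by_contra hcon
  push Not at hcon
  obtain ⟨⟨a, ha⟩, ⟨b, hb⟩⟩ := hcon
  obtain ⟨ψ, -, hψ⟩ := exists_char (A := F) (C := ⊥) (a := 1) (fun h => one_ne_zero (AddSubgroup.mem_bot.1 h))
  have e1 : r1 0 = 1 := by
    have := h1 0 0
    rw [add_zero] at this
    exact mul_eq_left.1 this.symm
  have e2 : r2 0 = 1 := by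
    have := h2 0 0
    rw [add_zero] at this
    exact mul_eq_left.1 this.symm
  obtain ⟨T, hT⟩ : ∃ T, T = Ann (dotF F) ψ ((hd2 r1 r2 h1 h2 hc).bar ω) := ⟨_, rfl⟩
  -- parameters
  obtain ⟨w1, hw1, hw1'⟩ : ∃ w ∈ T, w.1 ≠ 0 := by
    have h3 : (a, (0 : F)) ∉ (hd2 r1 r2 h1 h2 hc).bar ω := by
      rw [mem_bar_hd2, e2, mul_one]; exact ha
    obtain ⟨χ, hχ, hχ'⟩ := exists_char h3
    obtain ⟨w, hw⟩ := chi_surjective (dotF F) dotF_nd hψ χ
    refine ⟨w, ?_, fun h0 => hχ' ?_⟩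
    · rw [hT]; intro u hu; rw [← hw, hχ u hu]
    · rw [hw, dotF_apply, h0]; simp
  obtain ⟨w2, hw2, hw2'⟩ : ∃ w ∈ T, w.2 ≠ 0 := by
    have h3 : ((0 : F), b) ∉ (hd2 r1 r2 h1 h2 hc).bar ω := by
      rw [mem_bar_hd2, e1, one_mul]; exact hb
    obtain ⟨χ, hχ, hχ'⟩ := exists_char h3
    obtain ⟨w, hw⟩ := chi_surjective (dotF F) dotF_nd hψ χ
    refine ⟨w, ?_, fun h0 => hχ' ?_⟩
    · rw [hT]; intro u hu; rw [← hw, hχ u hu]
    · rw [hw, dotF_apply, h0]; simp
  obtain ⟨w, hw, hwa, hwb⟩ : ∃ w ∈ T, w.1 ≠ 0 ∧ w.2 ≠ 0 := by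
    by_cases h3 : w1.2 = 0
    · by_cases h4 : w2.1 = 0
      · refine ⟨w1 + w2, T.add_mem hw1 hw2, ?_, ?_⟩
        · rw [Prod.fst_add, h4, add_zero]; exact hw1'
        · rw [Prod.snd_add, h3, zero_add]; exact hw2'
      · exact ⟨w2, hw2, h4, hw2'⟩
    · exact ⟨w1, hw1, hw1', h3⟩
  -- scaling
  have hsc : ∀ v ∈ T, ∀ s t : F, s ≠ 0 → t ≠ 0 → IsSquare s → IsSquare t →
      ∃ ω' : Ω, (s * v.1, t * v.2) ∈ Ann (dotF F) ψ ((hd2 r1 r2 h1 h2 hc).bar ω') := by
    intro v hv s t hs0 ht0 hs ht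
    rw [hT] at hv
    obtain ⟨ω₁, h3⟩ := ann_scale1 ht1 hv hs0 hs
    exact ann_scale2 ht2 h3 ht0 ht
  have hsq : nsq F * nsq F ≤ Nat.card Ω := by
    have h3 := card_params_le (Ω := Ω) h1 h2 hc hψ
      ((Finset.univ : Finset ({s : F // s ≠ 0 ∧ IsSquare s} × {s : F // s ≠ 0 ∧ IsSquare s})).image
        fun p => ((p.1 : F) * w.1, (p.2 : F) * w.2)) (by
      intro v hv
      obtain ⟨p, -, rfl⟩ := Finset.mem_image.1 hv
      exact hsc w hw _ _ p.1.2.1 p.2.2.1 p.1.2.2 p.2.2.2)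
    rw [Finset.card_image_of_injective, Finset.card_univ, Fintype.card_prod, ← Nat.card_eq_fintype_card] at h3
    · exact h3
    · rintro ⟨s, t⟩ ⟨s', t'⟩ h
      have h4 := congrArg Prod.fst h
      have h5 := congrArg Prod.snd h
      exact Prod.ext (Subtype.ext (mul_right_cancel₀ hwa h4)) (Subtype.ext (mul_right_cancel₀ hwb h5))
  by_cases h20 : (2 : F) = 0
  · have h3 := nsq_even h20
    rw [h3] at hsq
    obtain ⟨k, hk⟩ : ∃ k, Nat.card F = k + 4 := ⟨Nat.card F - 4, by omega⟩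
    rw [hk] at hsq hΩ
    have : (k + 4 - 1) * (k + 4 - 1) = (k + 3) * (k + 3) := by rfl
    nlinarith
  · have h3 := nsq_odd (F := F)
    have hodd : Odd (Nat.card F) := by
      rw [Nat.card_eq_fintype_card]
      exact Cfsg.Agent.Lib.ClUtil.odd_card_iff_two_ne_zero.2 h20
    rcases Nat.lt_or_ge (Nat.card F) 7 with h7 | h7
    · have h5 : Nat.card F = 5 := by
        obtain ⟨k, hk⟩ := hodd
        omega
      -- the field with five elements
      have hnat : ∀ x : F, ∃ n : ℕ, x = n := by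
        intro x
        have h6 : Fintype.card F = 5 := by rw [← Nat.card_eq_fintype_card]; exact h5
        let e := ZMod.ringEquivOfPrime F (by norm_num : Nat.Prime 5) h6
        refine ⟨(e.symm x).val, ?_⟩
        have h7 : (((e.symm x).val : ℕ) : ZMod 5) = e.symm x := ZMod.natCast_zmod_val _
        have h8 := congrArg e h7
        rw [RingEquiv.apply_symm_apply, map_natCast] at h8
        exact h8.symm
      have hm1 : IsSquare (-1 : F) := by
        refine ⟨2, ?_⟩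
        have : (5 : F) = 0 := by
          have h6 : Fintype.card F = 5 := by rw [← Nat.card_eq_fintype_card]; exact h5
          have h7 := FiniteField.cast_card_eq_zero F
          rw [h6] at h7
          exact_mod_cast h7
        linear_combination (-1 : F) * this
      have h8 := card_params_le (Ω := Ω) h1 h2 hc hψ
        ((Finset.univ : Finset ({s : F // s ≠ 0} × Bool)).image
          fun p => ((p.1 : F) * w.1, (if p.2 then (p.1 : F) else -(p.1 : F)) * w.2)) (by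
        intro v hv
        obtain ⟨⟨s, i⟩, -, rfl⟩ := Finset.mem_image.1 hv
        obtain ⟨n, hn⟩ := hnat s
        have h9 := T.nsmul_mem hw n
        have h10 : n • w = ((s : F) * w.1, (s : F) * w.2) := by
          rw [hn]
          refine Prod.ext ?_ ?_
          · rw [Prod.smul_fst, nsmul_eq_mul]
          · rw [Prod.smul_snd, nsmul_eq_mul]
        rw [h10] at h9
        cases i
        · obtain ⟨ω', h11⟩ := hsc _ h9 1 (-1) one_ne_zero (neg_ne_zero.2 one_ne_zero) ⟨1, by rw [one_mul]⟩ hm1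
          refine ⟨ω', ?_⟩
          have : ((s : F) * w.1, (if false = true then (s : F) else -(s : F)) * w.2) =
            ((1 : F) * ((s : F) * w.1), (-1 : F) * ((s : F) * w.2)) := by
            refine Prod.ext ?_ ?_
            · show _ = _; ring
            · show (if false = true then (s : F) else -(s : F)) * w.2 = _
              rw [if_neg (by simp)]; ring
          rw [this]
          exact h11
        · obtain ⟨ω', h11⟩ := hsc _ h9 1 1 one_ne_zero one_ne_zero ⟨1, by rw [one_mul]⟩ ⟨1, by rw [one_mul]⟩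
          refine ⟨ω', ?_⟩
          have : ((s : F) * w.1, (if true = true then (s : F) else -(s : F)) * w.2) =
            ((1 : F) * ((s : F) * w.1), (1 : F) * ((s : F) * w.2)) := by
            refine Prod.ext ?_ ?_
            · show _ = _; ring
            · show (if true = true then (s : F) else -(s : F)) * w.2 = _
              rw [if_pos rfl]; ring
          rw [this]
          exact h11)
      rw [Finset.card_image_of_injective, Finset.card_univ, Fintype.card_prod, Fintype.card_bool] at h8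
      · have h9 : Fintype.card {s : F // s ≠ 0} = 4 := by
          rw [Fintype.card_subtype_compl, ← Nat.card_eq_fintype_card, h5]
          simp
        rw [h9] at h8
        omega
      · rintro ⟨s, i⟩ ⟨s', i'⟩ h
        have h10 := congrArg Prod.fst h
        have h11 := congrArg Prod.snd h
        have h12 : s = s' := Subtype.ext (mul_right_cancel₀ hwa h10)
        subst h12
        have h13 : (if i = true then (s : F) else -(s : F)) = (if i' = true then (s : F) else -(s : F)) :=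
          mul_right_cancel₀ hwb h11
        have h14 : (s : F) ≠ -(s : F) := by
          intro h
          have : (2 : F) * s = 0 := by linear_combination h
          rcases mul_eq_zero.1 this with h | h
          · exact h20 h
          · exact s.2 h
        refine Prod.ext rfl ?_
        cases i <;> cases i'
        · rfl
        · rw [if_neg (by simp), if_pos rfl] at h13
          exact absurd h13.symm h14
        · rw [if_pos rfl, if_neg (by simp)] at h13
          exact absurd h13 h14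
        · rfl
    · obtain ⟨k, hk⟩ := hodd
      have h4 : k ≤ nsq F := by omega
      have h5 : k * k ≤ nsq F * nsq F := Nat.mul_le_mul h4 h4
      have h6 : 3 ≤ k := by omega
      nlinarith

end TwoFix

end Cfsg.Agent.Lib.Coop
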