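import Mathlib
import Cfsg.Agent.Lib.TriB
import Cfsg.Agent.Lib.TriC
import Cfsg.Agent.Lib.TriD

set_option autoImplicit false
set_option linter.unusedSectionVars false

/-!
The Levi complement of the standard line of `Ω₈⁺`.
-/

namespace Cfsg.Agent.Lib.Coop

open QuadraticMap Module Cfsg.Agent.Lib.Quad Cfsg.Agent.Lib.ClOrthSiegel Cfsg.Agent.Lib.OrthNd
  Cfsg.Agent.Lib.OrthMax Cfsg.Agent.Lib.ClOmega
  Cfsg.Agent.Lib.HypSys Cfsg.Agent.Lib.ChevOrth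
open scoped Pointwise

section General

variable {F V : Type*} [Field F] [AddCommGroup V] [Module F V] [FiniteDimensional F V]
  {Q : QuadraticForm F V} [Finite F] (hQ : Nd Q) (hgen : GenHyp Q)

include hQ hgen in
/-- diagonal elements -/
theorem exists_torus2 {z b z' b' : V} (h : Fr Q z b z' b') {s s' : F} (hs0 : s ≠ 0) (hs0' : s' ≠ 0)
    (hs : IsSquare (s * s')) :
    ∃ t : ↥(Om Q), (t : V ≃ₗ[F] V) z = s • z ∧ (t : V ≃ₗ[F] V) z' = s⁻¹ • z' ∧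
      (t : V ≃ₗ[F] V) b = s' • b ∧ (t : V ≃ₗ[F] V) b' = s'⁻¹ • b' ∧
      ∀ x, polar Q z x = 0 → polar Q z' x = 0 → polar Q b x = 0 → polar Q b' x = 0 → (t : V ≃ₗ[F] V) x = x := by
  have key : ∀ (y y' : V), Q y = 0 → Q y' = 0 → polar Q y y' = 1 → ∀ s : F, s ≠ 0 →
      Q (y + (1 : F) • y') = 1 ∧ Q (y + s • y') = s ∧
      (refl Q (y + (1 : F) • y') * refl Q (y + s • y')) y = s • y ∧
      (refl Q (y + (1 : F) • y') * refl Q (y + s • y')) y' = s⁻¹ • y' ∧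
      ∀ x, polar Q y x = 0 → polar Q y' x = 0 → (refl Q (y + (1 : F) • y') * refl Q (y + s • y')) x = x := by
    intro y y' hy hy' hyy' s hs0
    have hyy : polar Q y y = 0 := by rw [polar_self', hy, mul_zero]
    have hy'y' : polar Q y' y' = 0 := by rw [polar_self', hy', mul_zero]
    have hy'y : polar Q y' y = 1 := by rw [polar_comm]; exact hyy'
    have hQc : ∀ c : F, Q (y + c • y') = c := by
      intro c
      rw [Q_add, Q_smul, hy, hy', polar_smul_right, hyy']; simp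
    have hry : ∀ c : F, c ≠ 0 → refl Q (y + c • y') y = -(c • y') := by
      intro c hc
      rw [refl_apply (by rw [hQc]; exact hc), hQc, polar_add_left, polar_smul_left, hyy, hy'y, smul_eq_mul, mul_one,
        zero_add, inv_mul_cancel₀ hc, one_smul]
      abel
    have hry' : ∀ c : F, c ≠ 0 → refl Q (y + c • y') y' = -(c⁻¹ • y) := by
      intro c hc
      rw [refl_apply (by rw [hQc]; exact hc), hQc, polar_add_left, polar_smul_left, hy'y', hyy', smul_eq_mul,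
        mul_zero, add_zero, mul_one, smul_add, smul_smul, inv_mul_cancel₀ hc, one_smul]
      abel
    have hrx : ∀ c : F, ∀ x, polar Q y x = 0 → polar Q y' x = 0 → refl Q (y + c • y') x = x := by
      intro c x h1 h2
      exact refl_of_perp (by rw [polar_add_left, polar_smul_left, h1, h2]; simp)
    refine ⟨hQc 1, hQc s, ?_, ?_, fun x h1 h2 => ?_⟩
    · rw [LinearEquiv.mul_apply, hry s hs0, map_neg, map_smul, hry' 1 one_ne_zero]
      simp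
    · rw [LinearEquiv.mul_apply, hry' s hs0, map_neg, map_smul, hry 1 one_ne_zero]
      simp
    · rw [LinearEquiv.mul_apply, hrx s x h1 h2, hrx 1 x h1 h2]
  obtain ⟨a1, a2, a3, a4, a5⟩ := key z z' h.hz h.hz' h.hzz' s hs0
  obtain ⟨b1, b2, b3, b4, b5⟩ := key b b' h.hb h.hb' h.hbb' s' hs0'
  have hm := (hQ.list_mem_Om_iff hgen [z + (1 : F) • z', z + s • z', b + (1 : F) • b', b + s' • b'] (by
      intro v hv
      simp only [List.mem_cons, List.not_mem_nil, or_false] at hv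
      rcases hv with rfl | rfl | rfl | rfl
      · rw [a1]; exact one_ne_zero
      · rw [a2]; exact hs0
      · rw [b1]; exact one_ne_zero
      · rw [b2]; exact hs0')).2 ⟨by simp; decide, by
        simp only [List.map_cons, List.map_nil, List.prod_cons, List.prod_nil, mul_one]
        rw [a1, a2, b1, b2, one_mul, one_mul]; exact hs⟩
  simp only [List.map_cons, List.map_nil, List.prod_cons, List.prod_nil, mul_one] at hm
  have hzb : polar Q b z = 0 := by rw [polar_comm]; exact h.hzb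
  have hb'z : polar Q b' z = 0 := by rw [polar_comm]; exact h.hzb'
  have hb'z' : polar Q b' z' = 0 := by rw [polar_comm]; exact h.hz'b'
  have hz'b : polar Q z' b = 0 := by rw [polar_comm]; exact h.hbz'
  refine ⟨⟨_, hm⟩, ?_, ?_, ?_, ?_, fun x h1 h2 h3 h4 => ?_⟩
  · show (refl Q (z + (1 : F) • z') * refl Q (z + s • z')) ((refl Q (b + (1 : F) • b') * refl Q (b + s' • b')) z) = _
    rw [b5 z hzb hb'z, a3]
  · show (refl Q (z + (1 : F) • z') * refl Q (z + s • z')) ((refl Q (b + (1 : F) • b') * refl Q (b + s' • b')) z') = _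
    rw [b5 z' h.hbz' hb'z', a4]
  · show (refl Q (z + (1 : F) • z') * refl Q (z + s • z')) ((refl Q (b + (1 : F) • b') * refl Q (b + s' • b')) b) = _
    rw [b3, map_smul, a5 b h.hzb hz'b]
  · show (refl Q (z + (1 : F) • z') * refl Q (z + s • z')) ((refl Q (b + (1 : F) • b') * refl Q (b + s' • b')) b') = _
    rw [b4, map_smul, a5 b' h.hzb' h.hz'b']
  · show (refl Q (z + (1 : F) • z') * refl Q (z + s • z')) ((refl Q (b + (1 : F) • b') * refl Q (b + s' • b')) x) = _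
    rw [b5 x h3 h4, a5 x h1 h2]

end General

section Std

variable {F : Type*} [Field F]

theorem frP {p q : Fin 4 × Bool} (hpq : q.1 ≠ p.1) :
    Fr (quadPlus 4 F) (bP 4 F p) (bP 4 F q) (bP 4 F (op p)) (bP 4 F (op q)) := by
  have H := hs_plus 4 F
  exact {
    hz := H.qb _
    hb := H.qb _
    hzb := H.pbne hpq
    hz' := H.qb _
    hb' := H.qb _
    hzz' := H.pbo _
    hbb' := H.pbo _
    hbz' := H.pbne (q := op p) hpq.symm
    hzb' := H.pbne (q := op q) hpq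
    hz'b' := H.pbne (p := op p) (q := op q) hpq }

variable [Finite F] (hQ : Nd (quadPlus 4 F)) (hgen : GenHyp (quadPlus 4 F))

theorem XR_apply {r : ℕ} (hr : r < 24) (t : F) (x : Fin 4 ⊕ Fin 4 → F) :
    ((XR hQ hgen r t : ↥(Om (quadPlus 4 F))) : (Fin 4 ⊕ Fin 4 → F) ≃ₗ[F] _) x =
      x + ((sD r : F) * t * polar (quadPlus 4 F) (bP 4 F (PD r)) x) • bP 4 F (QD r) -
        ((sD r : F) * t * polar (quadPlus 4 F) (bP 4 F (QD r)) x) • bP 4 F (PD r) := by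
  have H := hs_plus 4 F
  have h1 : polar (quadPlus 4 F) (bP 4 F (PD r)) (bP 4 F (QD r)) = 0 := H.pbne (tabD1 r hr)
  rw [XR, coe_EG, E_apply hQ (H.qb _) (by rw [polar_smul_right, h1, smul_zero]), polar_smul_left, Q_smul, H.qb]
  simp only [smul_eq_mul, mul_zero, zero_mul, zero_smul, sub_zero]
  module

theorem XR_add {r : ℕ} (hr : r < 24) (a b : F) : XR hQ hgen r (a + b) = XR hQ hgen r a * XR hQ hgen r b := by
  have H := hs_plus 4 F
  have h1 : ∀ c : F, polar (quadPlus 4 F) (bP 4 F (PD r)) (c • bP 4 F (QD r)) = 0 := fun c => by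
    rw [polar_smul_right, H.pbne (tabD1 r hr), smul_zero]
  rw [XR, XR, XR, EG_add hQ hgen (h1 _) (h1 _), ← add_smul, mul_add]

theorem XR_zero {r : ℕ} : XR hQ hgen r 0 = 1 := by
  rw [XR, mul_zero, zero_smul, EG_zero]

theorem XR_inv {r : ℕ} (hr : r < 24) (a : F) : (XR hQ hgen r a)⁻¹ = XR hQ hgen r (-a) := by
  rw [inv_eq_iff_mul_eq_one, ← XR_add hQ hgen hr, add_neg_cancel, XR_zero]

/-- the group acting -/
abbrev G8 (F : Type*) [Field F] : Subgroup ↥(Om (quadPlus 4 F)) :=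
  Gl (quadPlus 4 F) (bP 4 F (0, false)) (bP 4 F (1, false)) (bP 4 F (0, true)) (bP 4 F (1, true)) (U8 F)

theorem op_tab (p : Fin 4 × Bool) (h : ((p.1 : Fin 4)) = p.1) : op p = (p.1, !p.2) := rfl

/-- membership criterion -/
theorem mem_G8 {g : ↥(Om (quadPlus 4 F))}
    (h1 : ∃ α γ : F, (g : (Fin 4 ⊕ Fin 4 → F) ≃ₗ[F] _) (bP 4 F (0, false)) = α • bP 4 F (0, false) + γ • bP 4 F (1, false))
    (h2 : ∃ β δ : F, (g : (Fin 4 ⊕ Fin 4 → F) ≃ₗ[F] _) (bP 4 F (1, false)) = β • bP 4 F (0, false) + δ • bP 4 F (1, false))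
    (h3 : ∃ α γ : F, ((g⁻¹ : ↥(Om (quadPlus 4 F))) : (Fin 4 ⊕ Fin 4 → F) ≃ₗ[F] _) (bP 4 F (0, false)) =
      α • bP 4 F (0, false) + γ • bP 4 F (1, false))
    (h4 : ∃ β δ : F, ((g⁻¹ : ↥(Om (quadPlus 4 F))) : (Fin 4 ⊕ Fin 4 → F) ≃ₗ[F] _) (bP 4 F (1, false)) =
      β • bP 4 F (0, false) + δ • bP 4 F (1, false))
    (h5 : ∀ x ∈ U8 F, (g : (Fin 4 ⊕ Fin 4 → F) ≃ₗ[F] _) x ∈ U8 F)
    (h6 : ∀ x ∈ U8 F, ((g⁻¹ : ↥(Om (quadPlus 4 F))) : (Fin 4 ⊕ Fin 4 → F) ≃ₗ[F] _) x ∈ U8 F) : g ∈ G8 F := by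
  refine ⟨h1, h2, h3, h4, fun u => ⟨fun h => ?_, h5 u⟩⟩
  have := h6 _ h
  have e : ((g⁻¹ : ↥(Om (quadPlus 4 F))) : (Fin 4 ⊕ Fin 4 → F) ≃ₗ[F] (Fin 4 ⊕ Fin 4 → F))
      ((g : (Fin 4 ⊕ Fin 4 → F) ≃ₗ[F] (Fin 4 ⊕ Fin 4 → F)) u) = u :=
    LinearEquiv.symm_apply_apply (g : (Fin 4 ⊕ Fin 4 → F) ≃ₗ[F] (Fin 4 ⊕ Fin 4 → F)) u
  rwa [e] at this

/-- the part commuting with the centre of the Heisenberg group -/
noncomputable def L8 : Subgroup ↥(G8 F) where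
  carrier := {g | ∀ c : F, (g : ↥(Om (quadPlus 4 F))) * EG hQ hgen (bP 4 F (0, false)) (c • bP 4 F (1, false)) =
    EG hQ hgen (bP 4 F (0, false)) (c • bP 4 F (1, false)) * (g : ↥(Om (quadPlus 4 F)))}
  one_mem' c := by rw [Subgroup.coe_one, one_mul, mul_one]
  mul_mem' := by
    intro g h hg hh c
    rw [Subgroup.coe_mul, mul_assoc, hh c, ← mul_assoc, hg c, mul_assoc]
  inv_mem' := by
    intro g hg c
    rw [Subgroup.coe_inv, inv_mul_eq_iff_eq_mul, ← mul_assoc, hg c, mul_inv_cancel_right]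

theorem mem_L8_of {g : ↥(G8 F)} {α β γ δ : F}
    (h1 : ((g : ↥(Om (quadPlus 4 F))) : (Fin 4 ⊕ Fin 4 → F) ≃ₗ[F] _) (bP 4 F (0, false)) =
      α • bP 4 F (0, false) + γ • bP 4 F (1, false))
    (h2 : ((g : ↥(Om (quadPlus 4 F))) : (Fin 4 ⊕ Fin 4 → F) ≃ₗ[F] _) (bP 4 F (1, false)) =
      β • bP 4 F (0, false) + δ • bP 4 F (1, false)) (hd : α * δ - β * γ = 1) : g ∈ L8 hQ hgen := by
  intro c
  have := conj_Z hQ hgen (fr8 F).hz (fr8 F).hb (fr8 F).hzb (g : ↥(Om (quadPlus 4 F))) h1 h2 c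
  rw [hd, mul_one] at this
  exact this

/-- roots of the Levi complement -/
def rM : List ℕ := [18, 5, 13, 10, 12, 11]

theorem rM_lt : ∀ r ∈ rM, r < 24 := by decide

theorem XR18 (t : F) (x : Fin 4 ⊕ Fin 4 → F) : ((XR hQ hgen 18 t : ↥(Om (quadPlus 4 F))) :
    (Fin 4 ⊕ Fin 4 → F) ≃ₗ[F] (Fin 4 ⊕ Fin 4 → F)) x =
      x + (t * x (.inl 1)) • bP 4 F (0, false) - (t * x (.inr 0)) • bP 4 F (1, true) := by
  rw [XR_apply hQ hgen (by norm_num), polar_bP, polar_bP]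
  simp [sD, PD, QD, idx, op]

theorem XR5 (t : F) (x : Fin 4 ⊕ Fin 4 → F) : ((XR hQ hgen 5 t : ↥(Om (quadPlus 4 F))) :
    (Fin 4 ⊕ Fin 4 → F) ≃ₗ[F] (Fin 4 ⊕ Fin 4 → F)) x =
      x + (t * x (.inl 0)) • bP 4 F (1, false) - (t * x (.inr 1)) • bP 4 F (0, true) := by
  rw [XR_apply hQ hgen (by norm_num), polar_bP, polar_bP]
  simp [sD, PD, QD, idx, op]

theorem XR13 (t : F) (x : Fin 4 ⊕ Fin 4 → F) : ((XR hQ hgen 13 t : ↥(Om (quadPlus 4 F))) :
    (Fin 4 ⊕ Fin 4 → F) ≃ₗ[F] (Fin 4 ⊕ Fin 4 → F)) x =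
      x + (t * x (.inl 3)) • bP 4 F (2, false) - (t * x (.inr 2)) • bP 4 F (3, true) := by
  rw [XR_apply hQ hgen (by norm_num), polar_bP, polar_bP]
  simp [sD, PD, QD, idx, op]

theorem XR10 (t : F) (x : Fin 4 ⊕ Fin 4 → F) : ((XR hQ hgen 10 t : ↥(Om (quadPlus 4 F))) :
    (Fin 4 ⊕ Fin 4 → F) ≃ₗ[F] (Fin 4 ⊕ Fin 4 → F)) x =
      x + (t * x (.inl 2)) • bP 4 F (3, false) - (t * x (.inr 3)) • bP 4 F (2, true) := by
  rw [XR_apply hQ hgen (by norm_num), polar_bP, polar_bP]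
  simp [sD, PD, QD, idx, op]

theorem XR12 (t : F) (x : Fin 4 ⊕ Fin 4 → F) : ((XR hQ hgen 12 t : ↥(Om (quadPlus 4 F))) :
    (Fin 4 ⊕ Fin 4 → F) ≃ₗ[F] (Fin 4 ⊕ Fin 4 → F)) x =
      x + (t * x (.inr 3)) • bP 4 F (2, false) - (t * x (.inr 2)) • bP 4 F (3, false) := by
  rw [XR_apply hQ hgen (by norm_num), polar_bP, polar_bP]
  simp [sD, PD, QD, idx, op]

theorem XR11 (t : F) (x : Fin 4 ⊕ Fin 4 → F) : ((XR hQ hgen 11 t : ↥(Om (quadPlus 4 F))) :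
    (Fin 4 ⊕ Fin 4 → F) ≃ₗ[F] (Fin 4 ⊕ Fin 4 → F)) x =
      x - (t * x (.inl 3)) • bP 4 F (2, true) + (t * x (.inl 2)) • bP 4 F (3, true) := by
  rw [XR_apply hQ hgen (by norm_num), polar_bP, polar_bP]
  simp [sD, PD, QD, idx, op]
  module

/-- matrix entries of the Levi root elements on the line -/
def mB (F : Type*) [Field F] (r : ℕ) (a : F) : F := if r = 18 then a else 0

/-- matrix entries of the Levi root elements on the line -/
def mC (F : Type*) [Field F] (r : ℕ) (a : F) : F := if r = 5 then a else 0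

theorem XR_line {r : ℕ} (hr : r ∈ rM) (a : F) :
    ((XR hQ hgen r a : ↥(Om (quadPlus 4 F))) : (Fin 4 ⊕ Fin 4 → F) ≃ₗ[F] (Fin 4 ⊕ Fin 4 → F)) (bP 4 F (0, false)) =
      (1 : F) • bP 4 F (0, false) + mC F r a • bP 4 F (1, false) ∧
    ((XR hQ hgen r a : ↥(Om (quadPlus 4 F))) : (Fin 4 ⊕ Fin 4 → F) ≃ₗ[F] (Fin 4 ⊕ Fin 4 → F)) (bP 4 F (1, false)) =
      mB F r a • bP 4 F (0, false) + (1 : F) • bP 4 F (1, false) := by
  simp only [rM, List.mem_cons, List.not_mem_nil, or_false] at hr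
  rcases hr with rfl | rfl | rfl | rfl | rfl | rfl
  · rw [XR18, XR18]
    constructor
    · simp [bP, idx, mC, mB]
    · simp [bP, idx, mC, mB, add_comm]
  · rw [XR5, XR5]
    constructor <;> simp [bP, idx, mC, mB]
  · rw [XR13, XR13]
    constructor <;> simp [bP, idx, mC, mB]
  · rw [XR10, XR10]
    constructor <;> simp [bP, idx, mC, mB]
  · rw [XR12, XR12]
    constructor <;> simp [bP, idx, mC, mB]
  · rw [XR11, XR11]
    constructor <;> simp [bP, idx, mC, mB]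

theorem XR_U8 {r : ℕ} (hr : r ∈ rM) (a : F) {x : Fin 4 ⊕ Fin 4 → F} (hx : x ∈ U8 F) :
    ((XR hQ hgen r a : ↥(Om (quadPlus 4 F))) : (Fin 4 ⊕ Fin 4 → F) ≃ₗ[F] (Fin 4 ⊕ Fin 4 → F)) x ∈ U8 F := by
  have hx' := hx
  rw [mem_U8, polar_bP, polar_bP, polar_bP, polar_bP] at hx'
  have h0 : x (.inr 0) = 0 := hx'.1
  have h1 : x (.inr 1) = 0 := hx'.2.1
  have h2 : x (.inl 0) = 0 := hx'.2.2.1
  have h3 : x (.inl 1) = 0 := hx'.2.2.2
  have hb : ∀ (i : Bool) (c : F), c • bP 4 F (2, i) ∈ U8 F ∧ c • bP 4 F (3, i) ∈ U8 F := fun i c =>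
    ⟨Submodule.smul_mem _ _ (bP_mem_U8 (by simp) (by simp)), Submodule.smul_mem _ _ (bP_mem_U8 (by simp) (by simp))⟩
  simp only [rM, List.mem_cons, List.not_mem_nil, or_false] at hr
  rcases hr with rfl | rfl | rfl | rfl | rfl | rfl
  · rw [XR18, h0, h3]; simpa using hx
  · rw [XR5, h1, h2]; simpa using hx
  · rw [XR13]; exact Submodule.sub_mem _ (Submodule.add_mem _ hx (hb _ _).1) (hb _ _).2
  · rw [XR10]; exact Submodule.sub_mem _ (Submodule.add_mem _ hx (hb _ _).2) (hb _ _).1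
  · rw [XR12]; exact Submodule.sub_mem _ (Submodule.add_mem _ hx (hb _ _).1) (hb _ _).2
  · rw [XR11]; exact Submodule.add_mem _ (Submodule.sub_mem _ hx (hb _ _).1) (hb _ _).2

theorem XR_mem_G8 {r : ℕ} (hr : r ∈ rM) (a : F) : XR hQ hgen r a ∈ G8 F := by
  have hr' := rM_lt r hr
  have k1 := XR_line hQ hgen hr a
  have k2 := XR_line hQ hgen hr (-a)
  have k3 := fun x hx => XR_U8 hQ hgen hr (-a) (x := x) hx
  rw [← XR_inv hQ hgen hr'] at k2 k3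
  exact mem_G8 ⟨_, _, k1.1⟩ ⟨_, _, k1.2⟩ ⟨_, _, k2.1⟩ ⟨_, _, k2.2⟩ (fun x hx => XR_U8 hQ hgen hr a hx) k3

/-- root elements as elements of the Levi complement -/
noncomputable def xL {r : ℕ} (hr : r ∈ rM) (a : F) : ↥(L8 hQ hgen) :=
  ⟨⟨XR hQ hgen r a, XR_mem_G8 hQ hgen hr a⟩, by
    have k1 := XR_line hQ hgen hr a
    refine mem_L8_of hQ hgen (g := ⟨XR hQ hgen r a, XR_mem_G8 hQ hgen hr a⟩) k1.1 k1.2 ?_
    simp only [rM, List.mem_cons, List.not_mem_nil, or_false] at hr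
    rcases hr with rfl | rfl | rfl | rfl | rfl | rfl <;> simp [mB, mC]⟩

theorem XR_comm_aux {r s : ℕ} (hr : r < 24) (hs : s < 24)
    (h : ∀ x y : F, ∀ v, ((XR hQ hgen r x : ↥(Om (quadPlus 4 F))) : (Fin 4 ⊕ Fin 4 → F) ≃ₗ[F] (Fin 4 ⊕ Fin 4 → F))
      (((XR hQ hgen s y : ↥(Om (quadPlus 4 F))) : (Fin 4 ⊕ Fin 4 → F) ≃ₗ[F] (Fin 4 ⊕ Fin 4 → F)) v) =
      ((XR hQ hgen s y : ↥(Om (quadPlus 4 F))) : (Fin 4 ⊕ Fin 4 → F) ≃ₗ[F] (Fin 4 ⊕ Fin 4 → F))
      (((XR hQ hgen r x : ↥(Om (quadPlus 4 F))) : (Fin 4 ⊕ Fin 4 → F) ≃ₗ[F] (Fin 4 ⊕ Fin 4 → F)) v)) (x y : F) :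
    XR hQ hgen r x * XR hQ hgen s y = XR hQ hgen s y * XR hQ hgen r x :=
  Subtype.ext (LinearEquiv.ext fun v => h x y v)

theorem XR_comm12 {r s : ℕ} (hr : r = 18 ∨ r = 5) (hs : s = 13 ∨ s = 10 ∨ s = 12 ∨ s = 11) (x y : F) :
    XR hQ hgen r x * XR hQ hgen s y = XR hQ hgen s y * XR hQ hgen r x := by
  apply Subtype.ext
  apply LinearEquiv.ext
  intro v
  show ((XR hQ hgen r x : ↥(Om (quadPlus 4 F))) : (Fin 4 ⊕ Fin 4 → F) ≃ₗ[F] (Fin 4 ⊕ Fin 4 → F))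
      (((XR hQ hgen s y : ↥(Om (quadPlus 4 F))) : (Fin 4 ⊕ Fin 4 → F) ≃ₗ[F] (Fin 4 ⊕ Fin 4 → F)) v) =
      ((XR hQ hgen s y : ↥(Om (quadPlus 4 F))) : (Fin 4 ⊕ Fin 4 → F) ≃ₗ[F] (Fin 4 ⊕ Fin 4 → F))
      (((XR hQ hgen r x : ↥(Om (quadPlus 4 F))) : (Fin 4 ⊕ Fin 4 → F) ≃ₗ[F] (Fin 4 ⊕ Fin 4 → F)) v)
  rcases hr with rfl | rfl <;> rcases hs with rfl | rfl | rfl | rfl <;>
    simp only [XR18, XR5, XR13, XR10, XR12, XR11] <;> simp [bP, idx] <;> module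

theorem XR_comm23 {r s : ℕ} (hr : r = 13 ∨ r = 10) (hs : s = 12 ∨ s = 11) (x y : F) :
    XR hQ hgen r x * XR hQ hgen s y = XR hQ hgen s y * XR hQ hgen r x := by
  apply Subtype.ext
  apply LinearEquiv.ext
  intro v
  show ((XR hQ hgen r x : ↥(Om (quadPlus 4 F))) : (Fin 4 ⊕ Fin 4 → F) ≃ₗ[F] (Fin 4 ⊕ Fin 4 → F))
      (((XR hQ hgen s y : ↥(Om (quadPlus 4 F))) : (Fin 4 ⊕ Fin 4 → F) ≃ₗ[F] (Fin 4 ⊕ Fin 4 → F)) v) =
      ((XR hQ hgen s y : ↥(Om (quadPlus 4 F))) : (Fin 4 ⊕ Fin 4 → F) ≃ₗ[F] (Fin 4 ⊕ Fin 4 → F))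
      (((XR hQ hgen r x : ↥(Om (quadPlus 4 F))) : (Fin 4 ⊕ Fin 4 → F) ≃ₗ[F] (Fin 4 ⊕ Fin 4 → F)) v)
  rcases hr with rfl | rfl <;> rcases hs with rfl | rfl <;>
    simp only [XR18, XR5, XR13, XR10, XR12, XR11] <;> simp [bP, idx] <;> module

/-- weight of a diagonal element on a basis vector -/
def wt (w : Fin 4 → F) (p : Fin 4 × Bool) : F := if p.2 then (w p.1)⁻¹ else w p.1

include hQ hgen in
theorem exists_T {i j : Fin 4} (hij : j ≠ i) {s s' : F} (h0 : s ≠ 0) (h0' : s' ≠ 0) (hsq : IsSquare (s * s')) :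
    ∃ t : ↥(Om (quadPlus 4 F)), ∀ p, (t : (Fin 4 ⊕ Fin 4 → F) ≃ₗ[F] (Fin 4 ⊕ Fin 4 → F)) (bP 4 F p) =
      wt (fun k => if k = i then s else if k = j then s' else 1) p • bP 4 F p := by
  have H := hs_plus 4 F
  obtain ⟨t, h1, h2, h3, h4, h5⟩ := exists_torus2 hQ hgen (frP (F := F) (p := (i, false)) (q := (j, false)) hij) h0 h0' hsq
  refine ⟨t, fun p => ?_⟩
  obtain ⟨k, b⟩ := p
  by_cases hk : k = i
  · subst hk
    cases b
    · rw [h1]; simp [wt]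
    · have : (k, true) = op (k, false) := rfl
      rw [this, h2]; simp [wt, op]
  · by_cases hk' : k = j
    · subst hk'
      cases b
      · rw [h3]; simp [wt, hij]
      · have : (k, true) = op (k, false) := rfl
        rw [this, h4]; simp [wt, op, hij]
    · rw [h5 _ (H.pbne hk) (H.pbne hk) (H.pbne hk') (H.pbne hk')]
      cases b <;> simp [wt, hk, hk']

theorem wt_ne {w : Fin 4 → F} (hw : ∀ k, w k ≠ 0) (p : Fin 4 × Bool) : wt w p ≠ 0 := by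
  unfold wt
  split_ifs
  · exact inv_ne_zero (hw _)
  · exact hw _

theorem T_conj {t : ↥(Om (quadPlus 4 F))} {w : Fin 4 → F} (hw : ∀ k, w k ≠ 0)
    (ht : ∀ p, (t : (Fin 4 ⊕ Fin 4 → F) ≃ₗ[F] (Fin 4 ⊕ Fin 4 → F)) (bP 4 F p) = wt w p • bP 4 F p) (r : ℕ) (a : F) :
    t * XR hQ hgen r a = XR hQ hgen r (wt w (PD r) * wt w (QD r) * a) * t := by
  rw [← mul_inv_eq_iff_eq_mul, XR, EG_conj, ht, map_smul, ht, XR]
  apply Subtype.ext
  rw [coe_EG, coe_EG, E_smul hQ (wt_ne hw _)]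
  congr 1
  module

theorem T_inv {t : ↥(Om (quadPlus 4 F))} {w : Fin 4 → F} (hw : ∀ k, w k ≠ 0)
    (ht : ∀ p, (t : (Fin 4 ⊕ Fin 4 → F) ≃ₗ[F] (Fin 4 ⊕ Fin 4 → F)) (bP 4 F p) = wt w p • bP 4 F p) (p : Fin 4 × Bool) :
    ((t⁻¹ : ↥(Om (quadPlus 4 F))) : (Fin 4 ⊕ Fin 4 → F) ≃ₗ[F] (Fin 4 ⊕ Fin 4 → F)) (bP 4 F p) =
      (wt w p)⁻¹ • bP 4 F p := by
  have e : ((t⁻¹ : ↥(Om (quadPlus 4 F))) : (Fin 4 ⊕ Fin 4 → F) ≃ₗ[F] (Fin 4 ⊕ Fin 4 → F))
      ((t : (Fin 4 ⊕ Fin 4 → F) ≃ₗ[F] (Fin 4 ⊕ Fin 4 → F)) (bP 4 F p)) = bP 4 F p :=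
    LinearEquiv.symm_apply_apply (t : (Fin 4 ⊕ Fin 4 → F) ≃ₗ[F] (Fin 4 ⊕ Fin 4 → F)) (bP 4 F p)
  rw [ht, map_smul] at e
  rw [eq_inv_smul_iff₀ (wt_ne hw p)]
  exact e

theorem diag_U8 {g : (Fin 4 ⊕ Fin 4 → F) ≃ₗ[F] (Fin 4 ⊕ Fin 4 → F)} {v : Fin 4 × Bool → F}
    (hg : ∀ p, g (bP 4 F p) = v p • bP 4 F p) {x : Fin 4 ⊕ Fin 4 → F} (hx : x ∈ U8 F) : g x ∈ U8 F := by
  have hb : ∀ (p : Fin 4 × Bool) (c : F), p.1 ≠ 0 → p.1 ≠ 1 → c • v p • bP 4 F p ∈ U8 F := fun p c h0 h1 =>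
    Submodule.smul_mem _ _ (Submodule.smul_mem _ _ (bP_mem_U8 h0 h1))
  rw [U8_decomp hx, map_add, map_add, map_add, map_smul, map_smul, map_smul, map_smul, hg, hg, hg, hg]
  exact Submodule.add_mem _ (Submodule.add_mem _ (Submodule.add_mem _ (hb _ _ (by simp) (by simp))
    (hb _ _ (by simp) (by simp))) (hb _ _ (by simp) (by simp))) (hb _ _ (by simp) (by simp))

theorem T_mem_G8 {t : ↥(Om (quadPlus 4 F))} {w : Fin 4 → F} (hw : ∀ k, w k ≠ 0)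
    (ht : ∀ p, (t : (Fin 4 ⊕ Fin 4 → F) ≃ₗ[F] (Fin 4 ⊕ Fin 4 → F)) (bP 4 F p) = wt w p • bP 4 F p) : t ∈ G8 F := by
  have ht' := T_inv hw ht
  exact mem_G8 ⟨wt w (0, false), 0, by rw [ht, zero_smul, add_zero]⟩ ⟨0, wt w (1, false), by rw [ht, zero_smul, zero_add]⟩
    ⟨(wt w (0, false))⁻¹, 0, by rw [ht', zero_smul, add_zero]⟩ ⟨0, (wt w (1, false))⁻¹, by rw [ht', zero_smul, zero_add]⟩
    (fun x hx => diag_U8 ht hx) (fun x hx => diag_U8 ht' hx)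

theorem exists_torL {w : Fin 4 → F} (hw : ∀ k, w k ≠ 0) (h01 : w 0 * w 1 = 1)
    (hex : ∃ t : ↥(Om (quadPlus 4 F)), ∀ p, (t : (Fin 4 ⊕ Fin 4 → F) ≃ₗ[F] (Fin 4 ⊕ Fin 4 → F)) (bP 4 F p) =
      wt w p • bP 4 F p) :
    ∃ g : ↥(L8 hQ hgen), ∀ r (hr : r ∈ rM) (a : F), g * xL hQ hgen hr a =
      xL hQ hgen hr (wt w (PD r) * wt w (QD r) * a) * g := by
  obtain ⟨t, ht⟩ := hex
  have h1 := T_mem_G8 hw ht
  have h2 : (⟨t, h1⟩ : ↥(G8 F)) ∈ L8 hQ hgen := by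
    refine mem_L8_of hQ hgen (α := w 0) (β := 0) (γ := 0) (δ := w 1) ?_ ?_ (by rw [zero_mul, sub_zero, h01])
    · rw [zero_smul, add_zero]; exact ht (0, false)
    · rw [zero_smul, zero_add]; exact ht (1, false)
  exact ⟨⟨⟨t, h1⟩, h2⟩, fun r hr a => Subtype.ext (Subtype.ext (T_conj hQ hgen hw ht r a))⟩

/-- the factor of a root -/
def ty (r : ℕ) : ℕ := if r = 18 ∨ r = 5 then 1 else if r = 13 ∨ r = 10 then 2 else 3

theorem xL_comm {r s : ℕ} (hr : r ∈ rM) (hs : s ∈ rM) (h : ty r ≠ ty s) (a b : F) :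
    xL hQ hgen hr a * xL hQ hgen hs b = xL hQ hgen hs b * xL hQ hgen hr a := by
  apply Subtype.ext
  apply Subtype.ext
  show XR hQ hgen r a * XR hQ hgen s b = XR hQ hgen s b * XR hQ hgen r a
  simp only [rM, List.mem_cons, List.not_mem_nil, or_false] at hr hs
  by_cases h1 : r = 18 ∨ r = 5
  · by_cases h2 : s = 18 ∨ s = 5
    · exact absurd (by rw [ty, ty, if_pos h1, if_pos h2]) h
    · exact XR_comm12 hQ hgen h1 (by tauto) a b
  · by_cases h2 : s = 18 ∨ s = 5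
    · exact (XR_comm12 hQ hgen h2 (by tauto) b a).symm
    · by_cases h3 : r = 13 ∨ r = 10
      · by_cases h4 : s = 13 ∨ s = 10
        · exact absurd (by rw [ty, ty, if_neg h1, if_neg h2, if_pos h3, if_pos h4]) h
        · exact XR_comm23 hQ hgen h3 (by tauto) a b
      · by_cases h4 : s = 13 ∨ s = 10
        · exact (XR_comm23 hQ hgen h4 (by tauto) b a).symm
        · exact absurd (by rw [ty, ty, if_neg h1, if_neg h2, if_neg h3, if_neg h4]) h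

theorem exists_tor {r : ℕ} (hr : r ∈ rM) {c : F} (hc : c ≠ 0) :
    ∃ g : ↥(L8 hQ hgen), (∀ a, g * xL hQ hgen hr a = xL hQ hgen hr (c * c * a) * g) ∧
      ∀ s (hs : s ∈ rM), ty s ≠ ty r → ∀ b, g * xL hQ hgen hs b = xL hQ hgen hs b * g := by
  have hci := inv_ne_zero hc
  have sq1 : IsSquare (c * c⁻¹) := ⟨1, by rw [mul_inv_cancel₀ hc, one_mul]⟩
  have sq2 : IsSquare (c⁻¹ * c) := ⟨1, by rw [inv_mul_cancel₀ hc, one_mul]⟩
  have hw : ∀ (i j : Fin 4) (s s' : F), s ≠ 0 → s' ≠ 0 → ∀ k, (if k = i then s else if k = j then s' else 1) ≠ 0 := by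
    intro i j s s' h h' k
    split_ifs
    exacts [h, h', one_ne_zero]
  have key : ∀ (i j : Fin 4) (s s' : F), j ≠ i → s ≠ 0 → s' ≠ 0 → IsSquare (s * s') →
      (if (0 : Fin 4) = i then s else if (0 : Fin 4) = j then s' else 1) *
        (if (1 : Fin 4) = i then s else if (1 : Fin 4) = j then s' else 1) = 1 →
      ((wt (fun k => if k = i then s else if k = j then s' else 1) (PD r)) *
        (wt (fun k => if k = i then s else if k = j then s' else 1) (QD r)) = c * c) →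
      (∀ u ∈ rM, ty u ≠ ty r → (wt (fun k => if k = i then s else if k = j then s' else 1) (PD u)) *
        (wt (fun k => if k = i then s else if k = j then s' else 1) (QD u)) = 1) →
      ∃ g : ↥(L8 hQ hgen), (∀ a, g * xL hQ hgen hr a = xL hQ hgen hr (c * c * a) * g) ∧
      ∀ s (hs : s ∈ rM), ty s ≠ ty r → ∀ b, g * xL hQ hgen hs b = xL hQ hgen hs b * g := by
    intro i j s s' hij h0 h0' hsq h01 hrr huu
    obtain ⟨g, hg⟩ := exists_torL hQ hgen (w := fun k => if k = i then s else if k = j then s' else 1)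
      (hw i j s s' h0 h0') h01 (exists_T hQ hgen hij h0 h0' hsq)
    refine ⟨g, fun a => ?_, fun u hu hty b => ?_⟩
    · rw [hg r hr a, hrr]
    · rw [hg u hu b, huu u hu hty, one_mul]
  have hr2 := hr
  simp only [rM, List.mem_cons, List.not_mem_nil, or_false] at hr2
  rcases hr2 with rfl | rfl | rfl | rfl | rfl | rfl
  · refine key 0 1 c c⁻¹ (by decide) hc hci sq1 (by simp [hc]) (by simp [wt, PD, QD]) ?_
    intro u hu
    simp only [rM, List.mem_cons, List.not_mem_nil, or_false] at hu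
    rcases hu with rfl | rfl | rfl | rfl | rfl | rfl <;> simp [wt, PD, QD, ty]
  · refine key 0 1 c⁻¹ c (by decide) hci hc sq2 (by simp [hc]) (by simp [wt, PD, QD]) ?_
    intro u hu
    simp only [rM, List.mem_cons, List.not_mem_nil, or_false] at hu
    rcases hu with rfl | rfl | rfl | rfl | rfl | rfl <;> simp [wt, PD, QD, ty]
  · refine key 2 3 c c⁻¹ (by decide) hc hci sq1 (by simp) (by simp [wt, PD, QD]) ?_
    intro u hu
    simp only [rM, List.mem_cons, List.not_mem_nil, or_false] at hu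
    rcases hu with rfl | rfl | rfl | rfl | rfl | rfl <;> simp [wt, PD, QD, ty, hc]
  · refine key 2 3 c⁻¹ c (by decide) hci hc sq2 (by simp) (by simp [wt, PD, QD]) ?_
    intro u hu
    simp only [rM, List.mem_cons, List.not_mem_nil, or_false] at hu
    rcases hu with rfl | rfl | rfl | rfl | rfl | rfl <;> simp [wt, PD, QD, ty, hc]
  · refine key 2 3 c c (by decide) hc hc ⟨c, rfl⟩ (by simp) (by simp [wt, PD, QD]) ?_
    intro u hu
    simp only [rM, List.mem_cons, List.not_mem_nil, or_false] at hu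
    rcases hu with rfl | rfl | rfl | rfl | rfl | rfl <;> simp [wt, PD, QD, ty, hc]
  · refine key 2 3 c⁻¹ c⁻¹ (by decide) hci hci ⟨c⁻¹, rfl⟩ (by simp) (by simp [wt, PD, QD]) ?_
    intro u hu
    simp only [rM, List.mem_cons, List.not_mem_nil, or_false] at hu
    rcases hu with rfl | rfl | rfl | rfl | rfl | rfl <;> simp [wt, PD, QD, ty, hc]

end Std

end Cfsg.Agent.Lib.Coop
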