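import Mathlib
import Cfsg.Agent.Lib.TriE

set_option autoImplicit false
set_option linter.unusedSectionVars false

/-!
Two of the three factors of the Levi complement fix the point stabiliser.
-/

namespace Cfsg.Agent.Lib.Coop

open QuadraticMap Module Cfsg.Agent.Lib.Quad Cfsg.Agent.Lib.ClOrthSiegel Cfsg.Agent.Lib.OrthNd
  Cfsg.Agent.Lib.OrthMax Cfsg.Agent.Lib.ClOmega
  Cfsg.Agent.Lib.HypSys Cfsg.Agent.Lib.ChevOrth
open scoped Pointwise

variable {F : Type*} [Field F]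

noncomputable instance inst8 : DistribMulAction ↥(G8 F) (↥(U8 F) × ↥(U8 F)) := glDist (fr8 F) (U8 F)

variable [Finite F] (hQ : Nd (quadPlus 4 F)) (hgen : GenHyp (quadPlus 4 F)) {X : Type*}
  [MulAction ↥(Om (quadPlus 4 F)) X]

theorem bar_G8 (x : X) (g : ↥(G8 F)) :
    (D8 hQ hgen).bar ((g : ↥(Om (quadPlus 4 F))) • x) = g • (D8 hQ hgen).bar x :=
  bar_Gl hQ hgen (fr8 F) (U8 F) (hU8 F) x g

include hQ hgen in
theorem mu8 (μ : F) (hμ : μ ≠ 0) : ∃ g ∈ G8 F, (g : (Fin 4 ⊕ Fin 4 → F) ≃ₗ[F] (Fin 4 ⊕ Fin 4 → F))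
    (bP 4 F (0, false)) = μ • bP 4 F (0, false) ∧
    (g : (Fin 4 ⊕ Fin 4 → F) ≃ₗ[F] (Fin 4 ⊕ Fin 4 → F)) (bP 4 F (1, false)) = bP 4 F (1, false) := by
  obtain ⟨t, ht⟩ := exists_T hQ hgen (i := 0) (j := 2) (by decide) hμ hμ ⟨μ, rfl⟩
  refine ⟨t, T_mem_G8 (fun k => ?_) ht, ?_, ?_⟩
  · split_ifs
    exacts [hμ, hμ, one_ne_zero]
  · rw [ht]; simp [wt]
  · rw [ht]; simp [wt]

theorem card_psi8 [Finite X] {ψ : AddChar F ℂ} {a : F} (hψ : ψ a ≠ 1)
    (s : Finset (AddSubgroup (↥(U8 F) × ↥(U8 F))))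
    (hs : ∀ B ∈ s, ∃ x : X, Cx hQ hgen (fr8 F).hzb x ≠ ⊤ ∧ (∀ c ∈ Cx hQ hgen (fr8 F).hzb x, ψ c = 1) ∧
      (D8 hQ hgen).bar x = B) : Nat.card F ^ 5 * s.card ≤ Nat.card X := by
  have h := card_psi hQ hgen (fr8 F) (U8 F) (hU8 F) (nds_U8 hQ) (mu8 hQ hgen) hψ s hs
  rw [finrank_U8 hQ] at h
  calc Nat.card F ^ 5 * s.card = Nat.card F ^ 4 * (Nat.card F * s.card) := by ring
    _ ≤ _ := h

theorem L8_Cx (g : ↥(L8 hQ hgen)) (x : X) :
    Cx hQ hgen (fr8 F).hzb (((g : ↥(G8 F)) : ↥(Om (quadPlus 4 F))) • x) = Cx hQ hgen (fr8 F).hzb x := by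
  ext c
  rw [mem_Cx, mem_Cx, ← mul_smul, ← g.2 c, mul_smul]
  exact ⟨fun h => MulAction.injective _ h, fun h => by rw [h]⟩

/-- the orbit of the Levi complement -/
theorem card_orbit8 [Finite X] (x : X) (hx : Cx hQ hgen (fr8 F).hzb x ≠ ⊤) :
    Nat.card F ^ 5 * Nat.card (MulAction.orbit ↥(L8 hQ hgen) ((D8 hQ hgen).bar x)) ≤ Nat.card X := by
  classical
  have : Finite (Fin 4 ⊕ Fin 4 → F) := inferInstance
  have : Finite (Set (↥(U8 F) × ↥(U8 F))) := inferInstance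
  have : Finite (AddSubgroup (↥(U8 F) × ↥(U8 F))) :=
    Finite.of_injective (fun B => (B : Set (↥(U8 F) × ↥(U8 F)))) SetLike.coe_injective
  have := Fintype.ofFinite (MulAction.orbit ↥(L8 hQ hgen) ((D8 hQ hgen).bar x))
  obtain ⟨a, ha⟩ : ∃ a, a ∉ Cx hQ hgen (fr8 F).hzb x := by
    by_contra hcon
    push Not at hcon
    exact hx (eq_top_iff.2 fun c _ => hcon c)
  obtain ⟨ψ, hψ1, hψ2⟩ := exists_char ha
  have h := card_psi8 (X := X) hQ hgen hψ2 (Set.toFinset (MulAction.orbit ↥(L8 hQ hgen) ((D8 hQ hgen).bar x))) (by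
    intro B hB
    rw [Set.mem_toFinset] at hB
    obtain ⟨g, rfl⟩ := hB
    refine ⟨((g : ↥(G8 F)) : ↥(Om (quadPlus 4 F))) • x, ?_, ?_, ?_⟩
    · rw [L8_Cx]; exact hx
    · rw [L8_Cx]; exact hψ1
    · exact bar_G8 hQ hgen x g)
  rw [Set.toFinset_card, ← Nat.card_eq_fintype_card] at h
  exact h

/-- the root group of `r` fixes the point stabiliser of `x` -/
def FX (r : ℕ) (x : X) : Prop := ∀ a : F, (D8 hQ hgen).bar (XR hQ hgen r a • x) = (D8 hQ hgen).bar x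

theorem fix_or [Finite X] (x : X) (hx : Cx hQ hgen (fr8 F).hzb x ≠ ⊤) (hq : 4 ≤ Nat.card F)
    (hX : Nat.card X < Nat.card F ^ 5 * (Nat.card F + 2)) {r s : ℕ} (hr : r ∈ rM) (hs : s ∈ rM) (hrs : ty r ≠ ty s) :
    FX hQ hgen r x ∨ FX hQ hgen s x := by
  have : Finite (Set (↥(U8 F) × ↥(U8 F))) := inferInstance
  have : Finite (AddSubgroup (↥(U8 F) × ↥(U8 F))) :=
    Finite.of_injective (fun B => (B : Set (↥(U8 F) × ↥(U8 F)))) SetLike.coe_injective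
  have h1 := card_orbit8 hQ hgen x hx
  have h2 : Nat.card (MulAction.orbit ↥(L8 hQ hgen) ((D8 hQ hgen).bar x)) ≤ Nat.card F + 1 := by
    have h3 := lt_of_mul_lt_mul_left (lt_of_le_of_lt h1 hX) (Nat.zero_le _)
    omega
  obtain ⟨ω, hω⟩ : ∃ ω : MulAction.orbit ↥(L8 hQ hgen) ((D8 hQ hgen).bar x), ω = ⟨_, MulAction.mem_orbit_self _⟩ :=
    ⟨_, rfl⟩
  have hr' := rM_lt r hr
  have hs' := rM_lt s hs
  have key : ∀ (u : ℕ) (hu : u ∈ rM) (a : F), xL hQ hgen hu a • ω = ω →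
      (D8 hQ hgen).bar (XR hQ hgen u a • x) = (D8 hQ hgen).bar x := by
    intro u hu a h
    have h3 := congrArg Subtype.val h
    rw [hω] at h3
    have h4 := bar_G8 hQ hgen x ((xL hQ hgen hu a : ↥(L8 hQ hgen)) : ↥(G8 F))
    exact h4.trans h3
  rcases two_fix (Ω := MulAction.orbit ↥(L8 hQ hgen) ((D8 hQ hgen).bar x)) (r1 := fun a => xL hQ hgen hr a)
    (r2 := fun a => xL hQ hgen hs a)
    (fun a b => Subtype.ext (Subtype.ext (XR_add hQ hgen hr' a b)))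
    (fun a b => Subtype.ext (Subtype.ext (XR_add hQ hgen hs' a b)))
    (fun a b => xL_comm hQ hgen hr hs hrs a b)
    (fun c hc => by
      obtain ⟨g, hg1, hg2⟩ := exists_tor hQ hgen hr hc
      exact ⟨g, hg1, hg2 s hs hrs.symm⟩)
    (fun c hc => by
      obtain ⟨g, hg1, hg2⟩ := exists_tor hQ hgen hs hc
      exact ⟨g, hg2 r hr hrs, hg1⟩) hq h2 ω with h | h
  · left; intro a; exact key r hr a (h a)
  · right; intro a; exact key s hs a (h a)

theorem prop8 {a b c d e f : Prop} (ac : a ∨ c) (ad : a ∨ d) (ae : a ∨ e) (af : a ∨ f) (bc : b ∨ c) (bd : b ∨ d)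
    (be : b ∨ e) (bf : b ∨ f) (ce : c ∨ e) (cf : c ∨ f) (de : d ∨ e) (df : d ∨ f) :
    (a ∧ b ∧ c ∧ d) ∨ (a ∧ b ∧ e ∧ f) ∨ (c ∧ d ∧ e ∧ f) := by
  by_cases hcd : c ∧ d
  · by_cases hef : e ∧ f
    · exact Or.inr (Or.inr ⟨hcd.1, hcd.2, hef.1, hef.2⟩)
    · rw [not_and_or] at hef
      rcases hef with h | h
      · exact Or.inl ⟨ae.resolve_right h, be.resolve_right h, hcd.1, hcd.2⟩
      · exact Or.inl ⟨af.resolve_right h, bf.resolve_right h, hcd.1, hcd.2⟩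
  · rw [not_and_or] at hcd
    rcases hcd with h | h
    · exact Or.inr (Or.inl ⟨ac.resolve_right h, bc.resolve_right h, ce.resolve_left h, cf.resolve_left h⟩)
    · exact Or.inr (Or.inl ⟨ad.resolve_right h, bd.resolve_right h, de.resolve_left h, df.resolve_left h⟩)

/-- two of the three factors fix the stabiliser -/
def TwoT (x : X) : Prop :=
  (FX hQ hgen 18 x ∧ FX hQ hgen 5 x ∧ FX hQ hgen 13 x ∧ FX hQ hgen 10 x) ∨
  (FX hQ hgen 18 x ∧ FX hQ hgen 5 x ∧ FX hQ hgen 12 x ∧ FX hQ hgen 11 x) ∨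
  (FX hQ hgen 13 x ∧ FX hQ hgen 10 x ∧ FX hQ hgen 12 x ∧ FX hQ hgen 11 x)

theorem twoT_of_four_le [Finite X] (x : X) (hx : Cx hQ hgen (fr8 F).hzb x ≠ ⊤) (hq : 4 ≤ Nat.card F)
    (hX : Nat.card X < Nat.card F ^ 5 * (Nat.card F + 2)) : TwoT hQ hgen x := by
  have key : ∀ r ∈ rM, ∀ s ∈ rM, ty r ≠ ty s → FX hQ hgen r x ∨ FX hQ hgen s x := fun r hr s hs h =>
    fix_or hQ hgen x hx hq hX hr hs h
  have a1 := key 18 (by decide) 13 (by decide) (by decide)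
  have a2 := key 18 (by decide) 10 (by decide) (by decide)
  have a3 := key 18 (by decide) 12 (by decide) (by decide)
  have a4 := key 18 (by decide) 11 (by decide) (by decide)
  have b1 := key 5 (by decide) 13 (by decide) (by decide)
  have b2 := key 5 (by decide) 10 (by decide) (by decide)
  have b3 := key 5 (by decide) 12 (by decide) (by decide)
  have b4 := key 5 (by decide) 11 (by decide) (by decide)
  have c1 := key 13 (by decide) 12 (by decide) (by decide)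
  have c2 := key 13 (by decide) 11 (by decide) (by decide)
  have c3 := key 10 (by decide) 12 (by decide) (by decide)
  have c4 := key 10 (by decide) 11 (by decide) (by decide)
  exact prop8 a1 a2 a3 a4 b1 b2 b3 b4 c1 c2 c3 c4

end Cfsg.Agent.Lib.Coop
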