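import Mathlib
import Cfsg.Agent.Lib.TriF

set_option autoImplicit false
set_option linter.unusedSectionVars false

/-!
The field with two elements.
-/

namespace Cfsg.Agent.Lib.Coop

open QuadraticMap Module Cfsg.Agent.Lib.Quad Cfsg.Agent.Lib.ClOrthSiegel Cfsg.Agent.Lib.OrthNd
  Cfsg.Agent.Lib.OrthMax Cfsg.Agent.Lib.ClOmega
  Cfsg.Agent.Lib.HypSys Cfsg.Agent.Lib.ChevOrth
open scoped Pointwise

theorem small_act {G Ω : Type*} [Group G] [MulAction G Ω] [Finite Ω] (hΩ : Nat.card Ω ≤ 3) (s : Fin 3 → Bool → G)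
    (hinv : ∀ i b, s i b * s i b = 1) (hcomm : ∀ i j, i ≠ j → ∀ b b', s i b * s j b' = s j b' * s i b)
    (h3 : ∀ i, (s i true * s i false) ^ 3 = 1) (ω : Ω) :
    (∃ i j, i ≠ j ∧ (∀ b, s i b • ω = ω) ∧ (∀ b, s j b • ω = ω)) ∨ ∀ i, (s i true * s i false) • ω = ω := by
  classical
  by_cases hcon : ∃ i j, i ≠ j ∧ (∀ b, s i b • ω = ω) ∧ (∀ b, s j b • ω = ω)
  · exact Or.inl hcon
  right
  intro i
  -- an element of another factor moving `ω`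
  obtain ⟨j, hji, b, hb⟩ : ∃ j, j ≠ i ∧ ∃ b, s j b • ω ≠ ω := by
    by_contra h
    push Not at h
    apply hcon
    have h4 : ∃ j k : Fin 3, j ≠ i ∧ k ≠ i ∧ j ≠ k := by
      fin_cases i
      · exact ⟨1, 2, by decide, by decide, by decide⟩
      · exact ⟨0, 2, by decide, by decide, by decide⟩
      · exact ⟨0, 1, by decide, by decide, by decide⟩
    obtain ⟨j, k, hj, hk, hjk⟩ := h4
    exact ⟨j, k, hjk, h j hj, h k hk⟩
  obtain ⟨t, ht⟩ : ∃ t, t = s j b := ⟨_, rfl⟩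
  obtain ⟨ω₁, h₁⟩ : ∃ ω₁, ω₁ = t • ω := ⟨_, rfl⟩
  have hne : ω₁ ≠ ω := by rw [h₁, ht]; exact hb
  have htt : ∀ y : Ω, t • t • y = y := fun y => by rw [← mul_smul, ht, hinv, one_smul]
  have ht1 : t • ω₁ = ω := by rw [h₁, htt]
  have hu : ∀ b', (s i b' • ω = ω ∧ s i b' • ω₁ = ω₁) ∨ (s i b' • ω = ω₁ ∧ s i b' • ω₁ = ω) := by
    intro b'
    have hc : ∀ y : Ω, t • s i b' • y = s i b' • t • y := fun y => by
      rw [← mul_smul, ← mul_smul, ht, hcomm j i hji]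
    have huu : ∀ y : Ω, s i b' • s i b' • y = y := fun y => by rw [← mul_smul, hinv, one_smul]
    by_cases h4 : s i b' • ω = ω
    · left
      refine ⟨h4, ?_⟩
      rw [h₁, ← hc, h4]
    · right
      have h5 : s i b' • ω = ω₁ := by
        by_contra h6
        have h7 : Nat.card Ω = Nat.card Ω := rfl
        haveI := Fintype.ofFinite Ω
        rw [Nat.card_eq_fintype_card] at hΩ
        have h8 : ∀ y : Ω, y = ω ∨ y = ω₁ ∨ y = s i b' • ω := by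
          intro y
          by_contra h9
          push Not at h9
          have h10 : ({y, ω, ω₁, s i b' • ω} : Finset Ω).card = 4 := by
            rw [Finset.card_insert_of_notMem, Finset.card_insert_of_notMem, Finset.card_insert_of_notMem,
              Finset.card_singleton]
            · simpa using fun h => h6 h.symm
            · simp only [Finset.mem_insert, Finset.mem_singleton, not_or]
              exact ⟨hne.symm, fun h => h4 h.symm⟩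
            · simp only [Finset.mem_insert, Finset.mem_singleton, not_or]
              exact ⟨h9.1, h9.2.1, h9.2.2⟩
          have h11 := Finset.card_le_univ ({y, ω, ω₁, s i b' • ω} : Finset Ω)
          omega
        rcases h8 (t • s i b' • ω) with h9 | h9 | h9
        · apply h6
          have := congrArg (fun y => t • y) h9
          simp only [htt] at this
          rw [this, h₁]
        · apply h4
          have := congrArg (fun y => t • y) h9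
          simp only [htt] at this
          rw [this, ht1]
        · rw [hc, ← h₁] at h9
          exact hne (MulAction.injective _ h9)
      refine ⟨h5, ?_⟩
      rw [← h5, huu]
  rw [mul_smul]
  have h5 := h3 i
  have h6 : ∀ y : Ω, s i true • s i false • s i true • s i false • s i true • s i false • y = y := by
    intro y
    have := congrArg (fun g => g • y) h5
    simp only [pow_succ, pow_zero, one_mul, mul_smul, one_smul] at this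
    exact this
  rcases hu true with ⟨u1, u2⟩ | ⟨u1, u2⟩ <;> rcases hu false with ⟨v1, v2⟩ | ⟨v1, v2⟩
  · rw [v1, u1]
  · exfalso
    have := h6 ω
    rw [v1, u2, v2, u1, v1, u2] at this
    exact hne this
  · exfalso
    have := h6 ω
    rw [v1, u1, v2, u2, v1, u1] at this
    exact hne this
  · rw [v1, u2]

/-! ### coordinates -/

section Coord

variable {R : Type*} [CommRing R]

def s18 (v : Fin 8 → R) : Fin 8 → R := ![v 0 + v 4, v 1 + v 5, v 2 + v 6, v 3 + v 7, v 4, v 5, v 6, v 7]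
def s5 (v : Fin 8 → R) : Fin 8 → R := ![v 0, v 1, v 2, v 3, v 0 + v 4, v 1 + v 5, v 2 + v 6, v 3 + v 7]
def s13 (v : Fin 8 → R) : Fin 8 → R := ![v 0 + v 1, v 1, v 2, v 3 - v 2, v 4 + v 5, v 5, v 6, v 7 - v 6]
def s10 (v : Fin 8 → R) : Fin 8 → R := ![v 0, v 1 + v 0, v 2 - v 3, v 3, v 4, v 5 + v 4, v 6 - v 7, v 7]
def s12 (v : Fin 8 → R) : Fin 8 → R := ![v 0 + v 3, v 1 - v 2, v 2, v 3, v 4 + v 7, v 5 - v 6, v 6, v 7]
def s11 (v : Fin 8 → R) : Fin 8 → R := ![v 0, v 1, v 2 - v 1, v 3 + v 0, v 4, v 5, v 6 - v 5, v 7 + v 4]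

/-- the form in coordinates -/
def be (v w : Fin 8 → R) : R :=
  (v 0 * w 6 + v 1 * w 7 + v 2 * w 4 + v 3 * w 5) - (v 4 * w 2 + v 5 * w 3 + v 6 * w 0 + v 7 * w 1)

end Coord

def aa1 (v : Fin 8 → ZMod 2) : Fin 8 → ZMod 2 := s18 (s5 v)
def aa2 (v : Fin 8 → ZMod 2) : Fin 8 → ZMod 2 := s13 (s10 v)
def aa3 (v : Fin 8 → ZMod 2) : Fin 8 → ZMod 2 := s12 (s11 v)

theorem key_two : ∀ v : Fin 8 → ZMod 2,
    (∀ i j k : Fin 3, be v (aa1^[i] (aa2^[j] (aa3^[k] v))) = 0) → v = 0 := by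
  decide +kernel

section Two

variable {F : Type*} [Field F] [Finite F] (hQ : Nd (quadPlus 4 F)) (hgen : GenHyp (quadPlus 4 F))

theorem braid_aux (h2 : (2 : F) = 0) {r s : ℕ} (hrs : (r = 18 ∧ s = 5) ∨ (r = 13 ∧ s = 10) ∨ (r = 12 ∧ s = 11)) :
    XR hQ hgen r 1 * XR hQ hgen s 1 * XR hQ hgen r 1 = XR hQ hgen s 1 * XR hQ hgen r 1 * XR hQ hgen s 1 := by
  apply Subtype.ext
  apply LinearEquiv.ext
  intro v
  show ((XR hQ hgen r 1 : ↥(Om (quadPlus 4 F))) : (Fin 4 ⊕ Fin 4 → F) ≃ₗ[F] (Fin 4 ⊕ Fin 4 → F))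
      (((XR hQ hgen s 1 : ↥(Om (quadPlus 4 F))) : (Fin 4 ⊕ Fin 4 → F) ≃ₗ[F] (Fin 4 ⊕ Fin 4 → F))
      (((XR hQ hgen r 1 : ↥(Om (quadPlus 4 F))) : (Fin 4 ⊕ Fin 4 → F) ≃ₗ[F] (Fin 4 ⊕ Fin 4 → F)) v)) =
      ((XR hQ hgen s 1 : ↥(Om (quadPlus 4 F))) : (Fin 4 ⊕ Fin 4 → F) ≃ₗ[F] (Fin 4 ⊕ Fin 4 → F))
      (((XR hQ hgen r 1 : ↥(Om (quadPlus 4 F))) : (Fin 4 ⊕ Fin 4 → F) ≃ₗ[F] (Fin 4 ⊕ Fin 4 → F))
      (((XR hQ hgen s 1 : ↥(Om (quadPlus 4 F))) : (Fin 4 ⊕ Fin 4 → F) ≃ₗ[F] (Fin 4 ⊕ Fin 4 → F)) v))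
  have e : (-1 : F) = 1 := by linear_combination -h2
  rcases hrs with ⟨rfl, rfl⟩ | ⟨rfl, rfl⟩ | ⟨rfl, rfl⟩
  · simp only [XR18, XR5, XR13, XR10, XR12, XR11]
    funext j
    rcases j with j | j <;> fin_cases j <;> simp [bP, idx, Pi.single_apply] <;> grind
  · simp only [XR18, XR5, XR13, XR10, XR12, XR11]
    funext j
    rcases j with j | j <;> fin_cases j <;> simp [bP, idx, Pi.single_apply] <;> grind
  · simp only [XR18, XR5, XR13, XR10, XR12, XR11]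
    funext j
    rcases j with j | j <;> fin_cases j <;> simp [bP, idx, Pi.single_apply] <;> grind

theorem smul_XR {r : ℕ} (hr : r ∈ rM) (a : F) (u : ↥(U8 F) × ↥(U8 F)) :
    ((((⟨XR hQ hgen r a, XR_mem_G8 hQ hgen hr a⟩ : ↥(G8 F)) • u).1 : ↥(U8 F)) : Fin 4 ⊕ Fin 4 → F) =
      ((XR hQ hgen r a : ↥(Om (quadPlus 4 F))) : (Fin 4 ⊕ Fin 4 → F) ≃ₗ[F] (Fin 4 ⊕ Fin 4 → F)) u.1 +
      mB F r a • ((XR hQ hgen r a : ↥(Om (quadPlus 4 F))) : (Fin 4 ⊕ Fin 4 → F) ≃ₗ[F] (Fin 4 ⊕ Fin 4 → F)) u.2 ∧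
    ((((⟨XR hQ hgen r a, XR_mem_G8 hQ hgen hr a⟩ : ↥(G8 F)) • u).2 : ↥(U8 F)) : Fin 4 ⊕ Fin 4 → F) =
      mC F r a • ((XR hQ hgen r a : ↥(Om (quadPlus 4 F))) : (Fin 4 ⊕ Fin 4 → F) ≃ₗ[F] (Fin 4 ⊕ Fin 4 → F)) u.1 +
      ((XR hQ hgen r a : ↥(Om (quadPlus 4 F))) : (Fin 4 ⊕ Fin 4 → F) ≃ₗ[F] (Fin 4 ⊕ Fin 4 → F)) u.2 := by
  have H := hs_plus 4 F
  have hl := XR_line hQ hgen hr a
  have h00 : polar (quadPlus 4 F) (bP 4 F (0, true)) (bP 4 F (0, false)) = 1 := H.pob (0, false)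
  have h01 : polar (quadPlus 4 F) (bP 4 F (0, true)) (bP 4 F (1, false)) = 0 := H.pbne (by decide)
  have h10 : polar (quadPlus 4 F) (bP 4 F (1, true)) (bP 4 F (0, false)) = 0 := H.pbne (by decide)
  have h11 : polar (quadPlus 4 F) (bP 4 F (1, true)) (bP 4 F (1, false)) = 1 := H.pob (1, false)
  constructor
  · show polar (quadPlus 4 F) (bP 4 F (0, true)) (((XR hQ hgen r a : ↥(Om (quadPlus 4 F))) :
      (Fin 4 ⊕ Fin 4 → F) ≃ₗ[F] (Fin 4 ⊕ Fin 4 → F)) (bP 4 F (0, false))) • _ +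
      polar (quadPlus 4 F) (bP 4 F (0, true)) (((XR hQ hgen r a : ↥(Om (quadPlus 4 F))) :
      (Fin 4 ⊕ Fin 4 → F) ≃ₗ[F] (Fin 4 ⊕ Fin 4 → F)) (bP 4 F (1, false))) • _ = _
    rw [hl.1, hl.2, polar_add_right, polar_add_right, polar_smul_right, polar_smul_right, polar_smul_right,
      polar_smul_right, h00, h01]
    simp
  · show polar (quadPlus 4 F) (bP 4 F (1, true)) (((XR hQ hgen r a : ↥(Om (quadPlus 4 F))) :
      (Fin 4 ⊕ Fin 4 → F) ≃ₗ[F] (Fin 4 ⊕ Fin 4 → F)) (bP 4 F (0, false))) • _ +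
      polar (quadPlus 4 F) (bP 4 F (1, true)) (((XR hQ hgen r a : ↥(Om (quadPlus 4 F))) :
      (Fin 4 ⊕ Fin 4 → F) ≃ₗ[F] (Fin 4 ⊕ Fin 4 → F)) (bP 4 F (1, false))) • _ = _
    rw [hl.1, hl.2, polar_add_right, polar_add_right, polar_smul_right, polar_smul_right, polar_smul_right,
      polar_smul_right, h10, h11]
    simp

/-- coordinates of pairs -/
def co (u : ↥(U8 F) × ↥(U8 F)) : Fin 8 → F :=
  ![(u.1 : Fin 4 ⊕ Fin 4 → F) (.inl 2), (u.1 : Fin 4 ⊕ Fin 4 → F) (.inl 3), (u.1 : Fin 4 ⊕ Fin 4 → F) (.inr 2),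
    (u.1 : Fin 4 ⊕ Fin 4 → F) (.inr 3), (u.2 : Fin 4 ⊕ Fin 4 → F) (.inl 2), (u.2 : Fin 4 ⊕ Fin 4 → F) (.inl 3),
    (u.2 : Fin 4 ⊕ Fin 4 → F) (.inr 2), (u.2 : Fin 4 ⊕ Fin 4 → F) (.inr 3)]

theorem U8_zero {x : Fin 4 ⊕ Fin 4 → F} (hx : x ∈ U8 F) :
    x (.inr 0) = 0 ∧ x (.inr 1) = 0 ∧ x (.inl 0) = 0 ∧ x (.inl 1) = 0 := by
  rw [mem_U8, polar_bP, polar_bP, polar_bP, polar_bP] at hx
  exact hx

theorem co_zero {u : ↥(U8 F) × ↥(U8 F)} (h : co u = 0) : u = 0 := by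
  have h1 : ∀ i, co u i = 0 := fun i => congrFun h i
  have e1 := U8_decomp u.1.2
  have e2 := U8_decomp u.2.2
  have a0 : (u.1 : Fin 4 ⊕ Fin 4 → F) (.inl 2) = 0 := h1 0
  have a1 : (u.1 : Fin 4 ⊕ Fin 4 → F) (.inl 3) = 0 := h1 1
  have a2 : (u.1 : Fin 4 ⊕ Fin 4 → F) (.inr 2) = 0 := h1 2
  have a3 : (u.1 : Fin 4 ⊕ Fin 4 → F) (.inr 3) = 0 := h1 3
  have a4 : (u.2 : Fin 4 ⊕ Fin 4 → F) (.inl 2) = 0 := h1 4
  have a5 : (u.2 : Fin 4 ⊕ Fin 4 → F) (.inl 3) = 0 := h1 5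
  have a6 : (u.2 : Fin 4 ⊕ Fin 4 → F) (.inr 2) = 0 := h1 6
  have a7 : (u.2 : Fin 4 ⊕ Fin 4 → F) (.inr 3) = 0 := h1 7
  refine Prod.ext (Subtype.ext ?_) (Subtype.ext ?_)
  · rw [e1, a0, a1, a2, a3]; simp
  · rw [e2, a4, a5, a6, a7]; simp

theorem co_XR18 (u : ↥(U8 F) × ↥(U8 F)) :
    co ((⟨XR hQ hgen 18 1, XR_mem_G8 hQ hgen (by decide) 1⟩ : ↥(G8 F)) • u) = s18 (co u) := by
  obtain ⟨h1, h2⟩ := smul_XR hQ hgen (r := 18) (by decide) 1 u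
  obtain ⟨a1, a2, a3, a4⟩ := U8_zero u.1.2
  obtain ⟨b1, b2, b3, b4⟩ := U8_zero u.2.2
  rw [XR18, XR18] at h1 h2
  unfold co s18
  rw [h1, h2]
  simp [bP, idx, Pi.single_apply, mB, mC, a1, a2, a3, a4, b1, b2, b3, b4]

theorem co_XR5 (u : ↥(U8 F) × ↥(U8 F)) :
    co ((⟨XR hQ hgen 5 1, XR_mem_G8 hQ hgen (by decide) 1⟩ : ↥(G8 F)) • u) = s5 (co u) := by
  obtain ⟨h1, h2⟩ := smul_XR hQ hgen (r := 5) (by decide) 1 u
  obtain ⟨a1, a2, a3, a4⟩ := U8_zero u.1.2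
  obtain ⟨b1, b2, b3, b4⟩ := U8_zero u.2.2
  rw [XR5, XR5] at h1 h2
  unfold co s5
  rw [h1, h2]
  simp [bP, idx, Pi.single_apply, mB, mC, a1, a2, a3, a4, b1, b2, b3, b4]

theorem co_XR13 (u : ↥(U8 F) × ↥(U8 F)) :
    co ((⟨XR hQ hgen 13 1, XR_mem_G8 hQ hgen (by decide) 1⟩ : ↥(G8 F)) • u) = s13 (co u) := by
  obtain ⟨h1, h2⟩ := smul_XR hQ hgen (r := 13) (by decide) 1 u
  rw [XR13, XR13] at h1 h2
  unfold co s13
  rw [h1, h2]
  simp [bP, idx, Pi.single_apply, mB, mC]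

theorem co_XR10 (u : ↥(U8 F) × ↥(U8 F)) :
    co ((⟨XR hQ hgen 10 1, XR_mem_G8 hQ hgen (by decide) 1⟩ : ↥(G8 F)) • u) = s10 (co u) := by
  obtain ⟨h1, h2⟩ := smul_XR hQ hgen (r := 10) (by decide) 1 u
  rw [XR10, XR10] at h1 h2
  unfold co s10
  rw [h1, h2]
  simp [bP, idx, Pi.single_apply, mB, mC]

theorem co_XR12 (u : ↥(U8 F) × ↥(U8 F)) :
    co ((⟨XR hQ hgen 12 1, XR_mem_G8 hQ hgen (by decide) 1⟩ : ↥(G8 F)) • u) = s12 (co u) := by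
  obtain ⟨h1, h2⟩ := smul_XR hQ hgen (r := 12) (by decide) 1 u
  rw [XR12, XR12] at h1 h2
  unfold co s12
  rw [h1, h2]
  simp [bP, idx, Pi.single_apply, mB, mC]

theorem co_XR11 (u : ↥(U8 F) × ↥(U8 F)) :
    co ((⟨XR hQ hgen 11 1, XR_mem_G8 hQ hgen (by decide) 1⟩ : ↥(G8 F)) • u) = s11 (co u) := by
  obtain ⟨h1, h2⟩ := smul_XR hQ hgen (r := 11) (by decide) 1 u
  rw [XR11, XR11] at h1 h2
  unfold co s11
  rw [h1, h2]
  simp [bP, idx, Pi.single_apply, mB, mC]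

theorem beta_co (u w : ↥(U8 F) × ↥(U8 F)) : beta (quadPlus 4 F) (U8 F) u w = be (co u) (co w) := by
  obtain ⟨a1, a2, a3, a4⟩ := U8_zero u.1.2
  obtain ⟨b1, b2, b3, b4⟩ := U8_zero u.2.2
  rw [beta_apply, coe_quadPlus, polar_quadPlus, polar_quadPlus]
  simp only [Fin.sum_univ_four, a1, a2, a3, a4, b1, b2, b3, b4]
  simp [be, co]
  ring

end Two

end Cfsg.Agent.Lib.Coop
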