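import Mathlib
import Cfsg.Agent.Lib.TriG

set_option autoImplicit false
set_option linter.unusedSectionVars false

/-!
The field with two elements: two of the three factors fix the stabiliser.
-/

namespace Cfsg.Agent.Lib.Coop

open QuadraticMap Module Cfsg.Agent.Lib.Quad Cfsg.Agent.Lib.ClOrthSiegel Cfsg.Agent.Lib.OrthNd
  Cfsg.Agent.Lib.OrthMax Cfsg.Agent.Lib.ClOmega
  Cfsg.Agent.Lib.HypSys Cfsg.Agent.Lib.ChevOrth
open scoped Pointwise

section Ring

variable {R S : Type*} [CommRing R] [CommRing S] (e : R →+* S) (v w : Fin 8 → R)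

theorem map_s18 : s18 (fun i => e (v i)) = fun i => e (s18 v i) := by
  funext i; fin_cases i <;> simp [s18]
theorem map_s5 : s5 (fun i => e (v i)) = fun i => e (s5 v i) := by
  funext i; fin_cases i <;> simp [s5]
theorem map_s13 : s13 (fun i => e (v i)) = fun i => e (s13 v i) := by
  funext i; fin_cases i <;> simp [s13]
theorem map_s10 : s10 (fun i => e (v i)) = fun i => e (s10 v i) := by
  funext i; fin_cases i <;> simp [s10]
theorem map_s12 : s12 (fun i => e (v i)) = fun i => e (s12 v i) := by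
  funext i; fin_cases i <;> simp [s12]
theorem map_s11 : s11 (fun i => e (v i)) = fun i => e (s11 v i) := by
  funext i; fin_cases i <;> simp [s11]
theorem map_be : be (fun i => e (v i)) (fun i => e (w i)) = e (be v w) := by
  simp [be]

end Ring

variable {F : Type*} [Field F] [Finite F] (hQ : Nd (quadPlus 4 F)) (hgen : GenHyp (quadPlus 4 F))

theorem bar_zero_of_inv (hF : Nat.card F = 2) (B : AddSubgroup (↥(U8 F) × ↥(U8 F)))
    (h1 : (xL hQ hgen (r := 18) (by decide) 1 * xL hQ hgen (r := 5) (by decide) 1) • B = B)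
    (h2 : (xL hQ hgen (r := 13) (by decide) 1 * xL hQ hgen (r := 10) (by decide) 1) • B = B)
    (h3 : (xL hQ hgen (r := 12) (by decide) 1 * xL hQ hgen (r := 11) (by decide) 1) • B = B)
    (hB : ∀ u ∈ B, ∀ w ∈ B, beta (quadPlus 4 F) (U8 F) u w = 0) : B = ⊥ := by
  have := Fintype.ofFinite F
  have hF' : Fintype.card F = 2 := by rw [← Nat.card_eq_fintype_card]; exact hF
  let e := ZMod.ringEquivOfPrime F Nat.prime_two hF'
  rw [eq_bot_iff]
  intro u hu
  rw [AddSubgroup.mem_bot]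
  obtain ⟨v, hv⟩ : ∃ v : Fin 8 → ZMod 2, co u = fun i => e (v i) :=
    ⟨fun i => e.symm (co u i), by funext i; rw [RingEquiv.apply_symm_apply]⟩
  have st1 : ∀ w ∈ B, ∀ v : Fin 8 → ZMod 2, (co w = fun i => e (v i)) → ∃ w' ∈ B, co w' = fun i => e (aa1 v i) := by
    intro w hw v hv
    have h4 := AddSubgroup.smul_mem_pointwise_smul w
      (xL hQ hgen (r := 18) (by decide) 1 * xL hQ hgen (r := 5) (by decide) 1) B hw
    refine ⟨_, (SetLike.ext_iff.1 h1 _).1 h4, ?_⟩
    rw [mul_smul]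
    refine (co_XR18 hQ hgen _).trans ?_
    rw [show co (xL hQ hgen (r := 5) (by decide) 1 • w) = s5 (co w) from co_XR5 hQ hgen w, hv]
    have a1 := map_s5 (e : ZMod 2 →+* F) v
    have a2 := map_s18 (e : ZMod 2 →+* F) (s5 v)
    exact (congrArg s18 a1).trans a2
  have st2 : ∀ w ∈ B, ∀ v : Fin 8 → ZMod 2, (co w = fun i => e (v i)) → ∃ w' ∈ B, co w' = fun i => e (aa2 v i) := by
    intro w hw v hv
    have h4 := AddSubgroup.smul_mem_pointwise_smul w
      (xL hQ hgen (r := 13) (by decide) 1 * xL hQ hgen (r := 10) (by decide) 1) B hw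
    refine ⟨_, (SetLike.ext_iff.1 h2 _).1 h4, ?_⟩
    rw [mul_smul]
    refine (co_XR13 hQ hgen _).trans ?_
    rw [show co (xL hQ hgen (r := 10) (by decide) 1 • w) = s10 (co w) from co_XR10 hQ hgen w, hv]
    have a1 := map_s10 (e : ZMod 2 →+* F) v
    have a2 := map_s13 (e : ZMod 2 →+* F) (s10 v)
    exact (congrArg s13 a1).trans a2
  have st3 : ∀ w ∈ B, ∀ v : Fin 8 → ZMod 2, (co w = fun i => e (v i)) → ∃ w' ∈ B, co w' = fun i => e (aa3 v i) := by
    intro w hw v hv
    have h4 := AddSubgroup.smul_mem_pointwise_smul w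
      (xL hQ hgen (r := 12) (by decide) 1 * xL hQ hgen (r := 11) (by decide) 1) B hw
    refine ⟨_, (SetLike.ext_iff.1 h3 _).1 h4, ?_⟩
    rw [mul_smul]
    refine (co_XR12 hQ hgen _).trans ?_
    rw [show co (xL hQ hgen (r := 11) (by decide) 1 • w) = s11 (co w) from co_XR11 hQ hgen w, hv]
    have a1 := map_s11 (e : ZMod 2 →+* F) v
    have a2 := map_s12 (e : ZMod 2 →+* F) (s11 v)
    exact (congrArg s12 a1).trans a2
  have it : ∀ (f : (Fin 8 → ZMod 2) → (Fin 8 → ZMod 2)),
      (∀ w ∈ B, ∀ v : Fin 8 → ZMod 2, (co w = fun i => e (v i)) → ∃ w' ∈ B, co w' = fun i => e (f v i)) →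
      ∀ n : ℕ, ∀ w ∈ B, ∀ v : Fin 8 → ZMod 2, (co w = fun i => e (v i)) → ∃ w' ∈ B, co w' = fun i => e (f^[n] v i) := by
    intro f hf n
    induction n with
    | zero => intro w hw v hv; exact ⟨w, hw, hv⟩
    | succ n ih =>
      intro w hw v hv
      obtain ⟨w', hw', h4⟩ := ih w hw v hv
      obtain ⟨w'', hw'', h5⟩ := hf w' hw' _ h4
      refine ⟨w'', hw'', ?_⟩
      rw [Function.iterate_succ_apply']
      exact h5
  have hv0 : v = 0 := by
    apply key_two
    intro i j k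
    obtain ⟨w1, hw1, e1⟩ := it aa3 st3 k u hu v hv
    obtain ⟨w2, hw2, e2⟩ := it aa2 st2 j w1 hw1 _ e1
    obtain ⟨w3, hw3, e3⟩ := it aa1 st1 i w2 hw2 _ e2
    have h4 := hB u hu w3 hw3
    rw [beta_co, hv, e3] at h4
    have h5 := map_be (e : ZMod 2 →+* F) v (aa1^[i] (aa2^[j] (aa3^[k] v)))
    have h6 : e (be v (aa1^[i] (aa2^[j] (aa3^[k] v)))) = 0 := by rw [← h4]; exact h5.symm
    exact (map_eq_zero_iff e e.injective).1 h6
  apply co_zero
  rw [hv, hv0]
  funext i
  show e 0 = 0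
  rw [map_zero]

theorem twoT_of_two {X : Type*} [MulAction ↥(Om (quadPlus 4 F)) X] [Finite X] (x : X)
    (hx : Cx hQ hgen (fr8 F).hzb x ≠ ⊤) (hF : Nat.card F = 2) (hX : Nat.card X < 120) : TwoT hQ hgen x := by
  classical
  have := Fintype.ofFinite F
  have hF' : Fintype.card F = 2 := by rw [← Nat.card_eq_fintype_card]; exact hF
  have h20 : (2 : F) = 0 := by
    have h7 := FiniteField.cast_card_eq_zero F
    rw [hF'] at h7
    exact_mod_cast h7
  have h11 : (1 : F) + 1 = 0 := by rw [one_add_one_eq_two, h20]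
  have h01 : ∀ c : F, c = 0 ∨ c = 1 := by
    intro c
    by_contra hcon
    push Not at hcon
    have h1 : ({c, 0, 1} : Finset F).card = 3 := by
      rw [Finset.card_insert_of_notMem, Finset.card_insert_of_notMem, Finset.card_singleton]
      · simp
      · simp only [Finset.mem_insert, Finset.mem_singleton, not_or]; exact hcon
    have h2 := Finset.card_le_univ ({c, 0, 1} : Finset F)
    omega
  have : Finite (Set (↥(U8 F) × ↥(U8 F))) := inferInstance
  have : Finite (AddSubgroup (↥(U8 F) × ↥(U8 F))) :=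
    Finite.of_injective (fun B => (B : Set (↥(U8 F) × ↥(U8 F)))) SetLike.coe_injective
  have h1 := card_orbit8 hQ hgen x hx
  rw [hF] at h1
  have h2 : Nat.card (MulAction.orbit ↥(L8 hQ hgen) ((D8 hQ hgen).bar x)) ≤ 3 := by omega
  obtain ⟨ω, hω⟩ : ∃ ω : MulAction.orbit ↥(L8 hQ hgen) ((D8 hQ hgen).bar x), ω = ⟨_, MulAction.mem_orbit_self _⟩ :=
    ⟨_, rfl⟩
  have fx : ∀ (u : ℕ) (hu : u ∈ rM), xL hQ hgen hu 1 • ω = ω → FX hQ hgen u x := by
    intro u hu h a
    rcases h01 a with rfl | rfl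
    · rw [XR_zero, one_smul]
    · have h3 := congrArg Subtype.val h
      rw [hω] at h3
      have h4 := bar_G8 hQ hgen x ((xL hQ hgen hu 1 : ↥(L8 hQ hgen)) : ↥(G8 F))
      exact h4.trans h3
  have inv : ∀ (u : ℕ) (hu : u ∈ rM), xL hQ hgen hu 1 * xL hQ hgen hu 1 = 1 := by
    intro u hu
    apply Subtype.ext
    apply Subtype.ext
    show XR hQ hgen u 1 * XR hQ hgen u 1 = 1
    rw [← XR_add hQ hgen (rM_lt u hu), h11, XR_zero]
  have cube : ∀ (r s : ℕ) (hr : r ∈ rM) (hs : s ∈ rM), ((r = 18 ∧ s = 5) ∨ (r = 13 ∧ s = 10) ∨ (r = 12 ∧ s = 11)) →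
      (xL hQ hgen hr 1 * xL hQ hgen hs 1) ^ 3 = 1 := by
    intro r s hr hs hrs
    have hb : xL hQ hgen hr 1 * xL hQ hgen hs 1 * xL hQ hgen hr 1 = xL hQ hgen hs 1 * xL hQ hgen hr 1 * xL hQ hgen hs 1 :=
      Subtype.ext (Subtype.ext (braid_aux hQ hgen h20 hrs))
    obtain ⟨p, hp⟩ : ∃ p, p = xL hQ hgen hr 1 := ⟨_, rfl⟩
    obtain ⟨q, hq⟩ : ∃ q, q = xL hQ hgen hs 1 := ⟨_, rfl⟩
    have ip := inv r hr
    have iq := inv s hs
    rw [← hp] at ip hb ⊢
    rw [← hq] at iq hb ⊢
    calc (p * q) ^ 3 = (p * q * p) * (q * p * q) := by rw [pow_succ, pow_succ, pow_one]; group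
      _ = (p * q * p) * (p * q * p) := by rw [← hb]
      _ = p * q * (p * p) * q * p := by group
      _ = 1 := by rw [ip, mul_one, mul_assoc p q q, iq, mul_one, ip]
  let s : Fin 3 → Bool → ↥(L8 hQ hgen) := fun i b => match i, b with
    | 0, true => xL hQ hgen (r := 18) (by decide) 1
    | 0, false => xL hQ hgen (r := 5) (by decide) 1
    | 1, true => xL hQ hgen (r := 13) (by decide) 1
    | 1, false => xL hQ hgen (r := 10) (by decide) 1
    | 2, true => xL hQ hgen (r := 12) (by decide) 1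
    | 2, false => xL hQ hgen (r := 11) (by decide) 1
  rcases small_act h2 s (by
      intro i b
      fin_cases i <;> cases b <;> exact inv _ _) (by
      intro i j hij b b'
      fin_cases i <;> fin_cases j <;> cases b <;> cases b' <;>
        first
          | exact absurd rfl hij
          | exact xL_comm hQ hgen _ _ (by decide) 1 1) (by
      intro i
      fin_cases i
      · exact cube 18 5 _ _ (by decide)
      · exact cube 13 10 _ _ (by decide)
      · exact cube 12 11 _ _ (by decide)) ω with ⟨i, j, hij, hi, hj⟩ | h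
  · have k0 : ∀ (i : Fin 3), (∀ b, s i b • ω = ω) → i = 0 → FX hQ hgen 18 x ∧ FX hQ hgen 5 x := by
      rintro i h rfl
      exact ⟨fx 18 _ (h true), fx 5 _ (h false)⟩
    have k1 : ∀ (i : Fin 3), (∀ b, s i b • ω = ω) → i = 1 → FX hQ hgen 13 x ∧ FX hQ hgen 10 x := by
      rintro i h rfl
      exact ⟨fx 13 _ (h true), fx 10 _ (h false)⟩
    have k2 : ∀ (i : Fin 3), (∀ b, s i b • ω = ω) → i = 2 → FX hQ hgen 12 x ∧ FX hQ hgen 11 x := by
      rintro i h rfl
      exact ⟨fx 12 _ (h true), fx 11 _ (h false)⟩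
    have three : ∀ i : Fin 3, i = 0 ∨ i = 1 ∨ i = 2 := by decide
    rcases three i with h0 | h0 | h0 <;> rcases three j with h0' | h0' | h0'
    · exact absurd (h0.trans h0'.symm) hij
    · exact Or.inl ⟨(k0 i hi h0).1, (k0 i hi h0).2, (k1 j hj h0').1, (k1 j hj h0').2⟩
    · exact Or.inr (Or.inl ⟨(k0 i hi h0).1, (k0 i hi h0).2, (k2 j hj h0').1, (k2 j hj h0').2⟩)
    · exact Or.inl ⟨(k0 j hj h0').1, (k0 j hj h0').2, (k1 i hi h0).1, (k1 i hi h0).2⟩
    · exact absurd (h0.trans h0'.symm) hij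
    · exact Or.inr (Or.inr ⟨(k1 i hi h0).1, (k1 i hi h0).2, (k2 j hj h0').1, (k2 j hj h0').2⟩)
    · exact Or.inr (Or.inl ⟨(k0 j hj h0').1, (k0 j hj h0').2, (k2 i hi h0).1, (k2 i hi h0).2⟩)
    · exact Or.inr (Or.inr ⟨(k1 j hj h0').1, (k1 j hj h0').2, (k2 i hi h0).1, (k2 i hi h0).2⟩)
    · exact absurd (h0.trans h0'.symm) hij
  · exfalso
    have a1 := congrArg Subtype.val (h 0)
    have a2 := congrArg Subtype.val (h 1)
    have a3 := congrArg Subtype.val (h 2)
    rw [hω] at a1 a2 a3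
    have hC : ∀ c ∈ Cx hQ hgen (fr8 F).hzb x, c = 0 := by
      intro c hc
      rcases h01 c with h | h
      · exact h
      · exfalso
        apply hx
        rw [eq_top_iff]
        intro d _
        rcases h01 d with h' | h'
        · rw [h']; exact zero_mem _
        · rw [h', ← h]; exact hc
    have h0 := bar_zero_of_inv hQ hgen hF ((D8 hQ hgen).bar x) a1 a2 a3 (fun u hu w hw =>
      hC _ (beta_mem hQ hgen (fr8 F).hz (fr8 F).hb (fr8 F).hzb (U8 F) (hU8 F) x hu hw))
    have h4 := (D8 hQ hgen).card_orbit_ge x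
    have h5 : Nat.card (MulAction.orbit (D8 hQ hgen).Qg x) ≤ Nat.card X :=
      Nat.card_le_card_of_injective Subtype.val Subtype.val_injective
    have h6 : 0 < Nat.card (MulAction.orbit (D8 hQ hgen).Z x) := by
      have : Nonempty (MulAction.orbit (D8 hQ hgen).Z x) := ⟨⟨x, MulAction.mem_orbit_self _⟩⟩
      exact Nat.card_pos
    have h7 : Nat.card ((↥(U8 F) × ↥(U8 F)) ⧸ (D8 hQ hgen).bar x) = 256 := by
      rw [h0]
      have e1 : Nat.card (↥(U8 F) × ↥(U8 F)) = 256 := by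
        rw [Nat.card_prod, Module.natCard_eq_pow_finrank (K := F), finrank_U8 hQ, hF]
        norm_num
      rw [← e1]
      exact Nat.card_congr (QuotientAddGroup.quotientBot (G := ↥(U8 F) × ↥(U8 F))).toEquiv
    rw [h7] at h4
    nlinarith

end Cfsg.Agent.Lib.Coop
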