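import Mathlib
import Cfsg.Agent.Lib.TriG

set_option autoImplicit false
set_option linter.unusedSectionVars false

/-!
The stabiliser of a point in the Heisenberg group is standard if it is invariant under the second and third factor.
-/

namespace Cfsg.Agent.Lib.Coop

open QuadraticMap Module Cfsg.Agent.Lib.Quad Cfsg.Agent.Lib.ClOrthSiegel Cfsg.Agent.Lib.OrthNd
  Cfsg.Agent.Lib.OrthMax Cfsg.Agent.Lib.ClOmega
  Cfsg.Agent.Lib.HypSys Cfsg.Agent.Lib.ChevOrth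
open scoped Pointwise

section HS8

variable (F : Type*) [Field F]

/-- the form restricted to `U8` -/
def Q8 : QuadraticForm F ↥(U8 F) := (quadPlus 4 F).comp (U8 F).subtype

theorem polar_Q8 (x y : ↥(U8 F)) : polar (Q8 F) x y = polar (quadPlus 4 F) (x : Fin 4 ⊕ Fin 4 → F) y := rfl

/-- index shift -/
def sh (i : Fin 2) : Fin 4 := if i = 0 then 2 else 3

theorem sh_ne (i : Fin 2) : sh i ≠ 0 ∧ sh i ≠ 1 := by revert i; decide

theorem sh_inj {i j : Fin 2} (h : sh i = sh j) : i = j := by revert i j; decide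

/-- the hyperbolic system of `U8` -/
def b8 (p : Fin 2 × Bool) : ↥(U8 F) := ⟨bP 4 F (sh p.1, p.2), bP_mem_U8 (sh_ne p.1).1 (sh_ne p.1).2⟩

theorem hs8 : HS (Q8 F) (b8 F) 0 where
  pb p q := by
    have H := hs_plus 4 F
    rw [polar_Q8]
    show polar (quadPlus 4 F) (bP 4 F (sh p.1, p.2)) (bP 4 F (sh q.1, q.2)) = _
    rw [H.pb]
    by_cases h : q = op p
    · rw [if_pos h, if_pos (by rw [h]; rfl)]
    · rw [if_neg h, if_neg]
      intro h'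
      apply h
      have h1 := congrArg Prod.fst h'
      have h2 := congrArg Prod.snd h'
      exact Prod.ext (sh_inj h1) h2
  qb p := (hs_plus 4 F).qb _
  ba p := by rw [polar_zero_right]
  aniso c h := by rw [smul_zero]
  compl x hx := by
    refine ⟨0, ?_⟩
    rw [smul_zero]
    apply Subtype.ext
    have h := fun p => (polar_Q8 F (b8 F p) x).symm.trans (hx p)
    have h0 := h (0, true)
    have h1 := h (1, true)
    have h2 := h (0, false)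
    have h3 := h (1, false)
    change polar (quadPlus 4 F) (bP 4 F _) _ = 0 at h0 h1 h2 h3
    rw [polar_bP] at h0 h1 h2 h3
    have e0 : (x : Fin 4 ⊕ Fin 4 → F) (.inl 2) = 0 := h0
    have e1 : (x : Fin 4 ⊕ Fin 4 → F) (.inl 3) = 0 := h1
    have e2 : (x : Fin 4 ⊕ Fin 4 → F) (.inr 2) = 0 := h2
    have e3 : (x : Fin 4 ⊕ Fin 4 → F) (.inr 3) = 0 := h3
    rw [U8_decomp x.2, e0, e1, e2, e3]
    simp

theorem tab8 : ∀ p q : Fin 2 × Bool, q.1 ≠ p.1 → ∃ r ∈ [13, 10, 12, 11], (PD r = (sh p.1, p.2) ∧ QD r = (sh q.1, q.2)) ∨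
    (PD r = (sh q.1, q.2) ∧ QD r = (sh p.1, p.2)) := by decide +kernel

end HS8

variable {F : Type*} [Field F] [Finite F] (hQ : Nd (quadPlus 4 F)) (hgen : GenHyp (quadPlus 4 F))

/-- invariance under the second and third factor -/
def Inv23 (B : AddSubgroup (↥(U8 F) × ↥(U8 F))) : Prop :=
  ∀ r ∈ [13, 10, 12, 11], ∀ a : F, ∀ u ∈ B, ∃ u' ∈ B,
    (u'.1 : Fin 4 ⊕ Fin 4 → F) = (XR hQ hgen r a : (Fin 4 ⊕ Fin 4 → F) ≃ₗ[F] (Fin 4 ⊕ Fin 4 → F)) u.1 ∧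
    (u'.2 : Fin 4 ⊕ Fin 4 → F) = (XR hQ hgen r a : (Fin 4 ⊕ Fin 4 → F) ≃ₗ[F] (Fin 4 ⊕ Fin 4 → F)) u.2

theorem inv_R0 {B : AddSubgroup (↥(U8 F) × ↥(U8 F))} (hB : Inv23 hQ hgen B) {g : ↥(U8 F) ≃ₗ[F] ↥(U8 F)}
    (hg : g ∈ HS.R0 (Q8 F) (b8 F) 0) : (∀ u ∈ B, (g u.1, g u.2) ∈ B) ∧ ∀ u ∈ B, (g⁻¹ u.1, g⁻¹ u.2) ∈ B := by
  have H := hs8 F
  have H' := hs_plus 4 F
  have one : ∀ (p q : Fin 2 × Bool) (c : F), q.1 ≠ p.1 → ∀ u ∈ B,
      (sg (Q8 F) (b8 F p) (c • b8 F q) u.1, sg (Q8 F) (b8 F p) (c • b8 F q) u.2) ∈ B := by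
    intro p q c hqp u hu
    have hp : polar (Q8 F) (b8 F p) (c • b8 F q) = 0 := by rw [polar_smul_right, H.pbne hqp, smul_zero]
    have hsh : sh q.1 ≠ sh p.1 := fun h => hqp (sh_inj h)
    have hp' : polar (quadPlus 4 F) (bP 4 F (sh p.1, p.2)) (c • bP 4 F (sh q.1, q.2)) = 0 := by
      rw [polar_smul_right, H'.pbne hsh, smul_zero]
    have e1 : ∀ x : ↥(U8 F), ((sg (Q8 F) (b8 F p) (c • b8 F q) x : ↥(U8 F)) : Fin 4 ⊕ Fin 4 → F) =
        E hQ (bP 4 F (sh p.1, p.2)) (c • bP 4 F (sh q.1, q.2)) x := by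
      intro x
      rw [sg_apply (H.qb p) hp, E_apply hQ (H'.qb _) hp']
      rfl
    obtain ⟨r, hr, hr2⟩ := tab8 p q hqp
    have hr24 : r < 24 := by
      simp only [List.mem_cons, List.not_mem_nil, or_false] at hr
      omega
    have hsq := sD_cast_sq (F := F) hr24
    have e2 : ∃ a : F, ((XR hQ hgen r a : ↥(Om (quadPlus 4 F))) : (Fin 4 ⊕ Fin 4 → F) ≃ₗ[F] (Fin 4 ⊕ Fin 4 → F)) =
        E hQ (bP 4 F (sh p.1, p.2)) (c • bP 4 F (sh q.1, q.2)) := by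
      rcases hr2 with ⟨h1, h2⟩ | ⟨h1, h2⟩
      · refine ⟨(sD r : F) * c, ?_⟩
        rw [XR, coe_EG, h1, h2]
        congr 2
        rw [← mul_assoc, hsq, one_mul]
      · refine ⟨-((sD r : F) * c), ?_⟩
        rw [XR_eq_swap hQ hgen hr24, coe_EG, h1, h2]
        congr 2
        linear_combination c * hsq
    obtain ⟨a, ha⟩ := e2
    obtain ⟨u', hu', h1, h2⟩ := hB r hr a u hu
    rw [ha, ← e1] at h1 h2
    have : u' = (sg (Q8 F) (b8 F p) (c • b8 F q) u.1, sg (Q8 F) (b8 F p) (c • b8 F q) u.2) :=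
      Prod.ext (Subtype.ext h1) (Subtype.ext h2)
    rw [← this]; exact hu'
  unfold HS.R0 at hg
  induction hg using Subgroup.closure_induction with
  | mem x hx =>
    rcases hx with ⟨p, q, c, hqp, rfl⟩ | ⟨p, c, rfl⟩
    · refine ⟨one p q c hqp, ?_⟩
      rw [← sg_neg (H.qb p) (by rw [polar_smul_right, H.pbne hqp, smul_zero]), ← neg_smul]
      exact one p q (-c) hqp
    · rw [smul_zero, sg_zero]
      exact ⟨fun u hu => hu, fun u hu => by rw [inv_one]; exact hu⟩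
  | one => exact ⟨fun u hu => hu, fun u hu => by rw [inv_one]; exact hu⟩
  | mul x y _ _ hx hy =>
    refine ⟨fun u hu => hx.1 _ (hy.1 _ hu), fun u hu => ?_⟩
    rw [mul_inv_rev]
    exact hy.2 _ (hx.2 _ hu)
  | inv x _ hx =>
    refine ⟨hx.2, ?_⟩
    rw [inv_inv]
    exact hx.1

theorem inv2_of_inv23 {B : AddSubgroup (↥(U8 F) × ↥(U8 F))} (hB : Inv23 hQ hgen B) :
    Inv2 (quadPlus 4 F) hQ (U8 F) B := by
  have H := hs8 F
  intro y hy y' hy' hQy hQy' hyy' w hw hyw hy'w u hu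
  have h1 : sg (Q8 F) ⟨y, hy⟩ ⟨w, hw⟩ ∈ HS.R0 (Q8 F) (b8 F) 0 := by
    rw [H.R0_eq]
    exact H.sg_mem_R (k := 0) (l := 1) (by decide) hQy hyw
  have h2 := (inv_R0 hQ hgen hB h1).1 u hu
  refine ⟨_, h2, ?_, ?_⟩
  · show ((sg (Q8 F) ⟨y, hy⟩ ⟨w, hw⟩ u.1 : ↥(U8 F)) : Fin 4 ⊕ Fin 4 → F) = _
    rw [sg_apply (Q := Q8 F) (z := ⟨y, hy⟩) (y := ⟨w, hw⟩) hQy hyw, E_apply hQ hQy hyw]
    rfl
  · show ((sg (Q8 F) ⟨y, hy⟩ ⟨w, hw⟩ u.2 : ↥(U8 F)) : Fin 4 ⊕ Fin 4 → F) = _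
    rw [sg_apply (Q := Q8 F) (z := ⟨y, hy⟩) (y := ⟨w, hw⟩) hQy hyw, E_apply hQ hQy hyw]
    rfl

variable {X : Type*} [MulAction ↥(Om (quadPlus 4 F)) X]

theorem inv23_of_FX {x : X} (h13 : FX hQ hgen 13 x) (h10 : FX hQ hgen 10 x) (h12 : FX hQ hgen 12 x)
    (h11 : FX hQ hgen 11 x) : Inv23 hQ hgen ((D8 hQ hgen).bar x) := by
  have key : ∀ r (hr : r ∈ rM), r ≠ 18 → r ≠ 5 → FX hQ hgen r x → ∀ a : F, ∀ u ∈ (D8 hQ hgen).bar x,
      ∃ u' ∈ (D8 hQ hgen).bar x,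
      (u'.1 : Fin 4 ⊕ Fin 4 → F) = (XR hQ hgen r a : (Fin 4 ⊕ Fin 4 → F) ≃ₗ[F] (Fin 4 ⊕ Fin 4 → F)) u.1 ∧
      (u'.2 : Fin 4 ⊕ Fin 4 → F) = (XR hQ hgen r a : (Fin 4 ⊕ Fin 4 → F) ≃ₗ[F] (Fin 4 ⊕ Fin 4 → F)) u.2 := by
    intro r hr h1 h2 h a u hu
    have h3 := bar_G8 hQ hgen x ⟨XR hQ hgen r a, XR_mem_G8 hQ hgen hr a⟩
    have h4 := AddSubgroup.smul_mem_pointwise_smul u (⟨XR hQ hgen r a, XR_mem_G8 hQ hgen hr a⟩ : ↥(G8 F)) _ hu
    rw [← h3] at h4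
    have h5 := h a
    have h6 : ((⟨XR hQ hgen r a, XR_mem_G8 hQ hgen hr a⟩ : ↥(G8 F)) • u) ∈ (D8 hQ hgen).bar x := by
      rw [← h5]; exact h4
    refine ⟨_, h6, ?_, ?_⟩
    · rw [(smul_XR hQ hgen hr a u).1, mB, if_neg h1, zero_smul, add_zero]
    · rw [(smul_XR hQ hgen hr a u).2, mC, if_neg h2, zero_smul, zero_add]
  intro r hr
  simp only [List.mem_cons, List.not_mem_nil, or_false] at hr
  rcases hr with rfl | rfl | rfl | rfl
  · exact key 13 (by decide) (by decide) (by decide) h13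
  · exact key 10 (by decide) (by decide) (by decide) h10
  · exact key 12 (by decide) (by decide) (by decide) h12
  · exact key 11 (by decide) (by decide) (by decide) h11

/-- standard shape -/
theorem std_of_FX [Finite X] {x : X} (hx : Cx hQ hgen (fr8 F).hzb x ≠ ⊤) (hX : Nat.card X < Nat.card F ^ 8)
    (h13 : FX hQ hgen 13 x) (h10 : FX hQ hgen 10 x) (h12 : FX hQ hgen 12 x) (h11 : FX hQ hgen 11 x) :
    ∃ α β : F, (α ≠ 0 ∨ β ≠ 0) ∧
      ∀ u : ↥(U8 F) × ↥(U8 F), u ∈ (D8 hQ hgen).bar x ↔ ∃ v : ↥(U8 F), u = (α • v, β • v) := by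
  have hcard : Nat.card (↥(U8 F) × ↥(U8 F)) = Nat.card F ^ 8 := by
    rw [Nat.card_prod, Module.natCard_eq_pow_finrank (K := F), finrank_U8 hQ]
    ring
  have hq : 1 < Nat.card F := Finite.one_lt_card
  rcases inv2_cases hQ (nds_U8 hQ) (by rw [finrank_U8 hQ]; norm_num)
    (inv2_of_inv23 hQ hgen (inv23_of_FX hQ hgen h13 h10 h12 h11)) with h | h | h
  · exfalso
    have h4 := (D8 hQ hgen).card_orbit_ge x
    have h5 : Nat.card (MulAction.orbit (D8 hQ hgen).Qg x) ≤ Nat.card X :=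
      Nat.card_le_card_of_injective Subtype.val Subtype.val_injective
    have h6 : 0 < Nat.card (MulAction.orbit (D8 hQ hgen).Z x) := by
      have : Nonempty (MulAction.orbit (D8 hQ hgen).Z x) := ⟨⟨x, MulAction.mem_orbit_self _⟩⟩
      exact Nat.card_pos
    have h7 : Nat.card ((↥(U8 F) × ↥(U8 F)) ⧸ (D8 hQ hgen).bar x) = Nat.card F ^ 8 := by
      rw [h, ← hcard]
      exact Nat.card_congr (QuotientAddGroup.quotientBot (G := ↥(U8 F) × ↥(U8 F))).toEquiv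
    rw [h7] at h4
    have h8 : Nat.card F ^ 8 * 1 ≤ Nat.card F ^ 8 * Nat.card (MulAction.orbit (D8 hQ hgen).Z x) :=
      Nat.mul_le_mul_left _ h6
    omega
  · exfalso
    have h1 := card_bar_le hQ hgen (fr8 F).hz (fr8 F).hb (fr8 F).hzb (U8 F) (hU8 F) (nds_U8 hQ) x hx
    rw [show (hd hQ hgen (fr8 F).hz (fr8 F).hb (fr8 F).hzb (U8 F) (hU8 F)).bar x = ⊤ from h, finrank_U8 hQ,
      Nat.card_congr (AddSubgroup.topEquiv (G := ↥(U8 F) × ↥(U8 F))).toEquiv, hcard] at h1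
    have := Nat.pow_lt_pow_right hq (show 4 < 8 by norm_num)
    omega
  · exact h

end Cfsg.Agent.Lib.Coop
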