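import Mathlib
import Cfsg.Agent.Lib.TriI

set_option autoImplicit false
set_option linter.unusedSectionVars false

/-!
One standard stabiliser makes all of them standard.
-/

namespace Cfsg.Agent.Lib.Coop

open QuadraticMap Module Cfsg.Agent.Lib.Quad Cfsg.Agent.Lib.ClOrthSiegel Cfsg.Agent.Lib.OrthNd
  Cfsg.Agent.Lib.OrthMax Cfsg.Agent.Lib.ClOmega
  Cfsg.Agent.Lib.HypSys Cfsg.Agent.Lib.ChevOrth
open scoped Pointwise

variable {F : Type*} [Field F] [Finite F] (hQ : Nd (quadPlus 4 F)) (hgen : GenHyp (quadPlus 4 F))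

theorem smul_G8 {g : ↥(G8 F)} {α β γ δ : F}
    (h1 : ((g : ↥(Om (quadPlus 4 F))) : (Fin 4 ⊕ Fin 4 → F) ≃ₗ[F] (Fin 4 ⊕ Fin 4 → F)) (bP 4 F (0, false)) =
      α • bP 4 F (0, false) + γ • bP 4 F (1, false))
    (h2 : ((g : ↥(Om (quadPlus 4 F))) : (Fin 4 ⊕ Fin 4 → F) ≃ₗ[F] (Fin 4 ⊕ Fin 4 → F)) (bP 4 F (1, false)) =
      β • bP 4 F (0, false) + δ • bP 4 F (1, false)) (u : ↥(U8 F) × ↥(U8 F)) :
    (((g • u).1 : ↥(U8 F)) : Fin 4 ⊕ Fin 4 → F) =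
      α • ((g : ↥(Om (quadPlus 4 F))) : (Fin 4 ⊕ Fin 4 → F) ≃ₗ[F] (Fin 4 ⊕ Fin 4 → F)) u.1 +
      β • ((g : ↥(Om (quadPlus 4 F))) : (Fin 4 ⊕ Fin 4 → F) ≃ₗ[F] (Fin 4 ⊕ Fin 4 → F)) u.2 ∧
    (((g • u).2 : ↥(U8 F)) : Fin 4 ⊕ Fin 4 → F) =
      γ • ((g : ↥(Om (quadPlus 4 F))) : (Fin 4 ⊕ Fin 4 → F) ≃ₗ[F] (Fin 4 ⊕ Fin 4 → F)) u.1 +
      δ • ((g : ↥(Om (quadPlus 4 F))) : (Fin 4 ⊕ Fin 4 → F) ≃ₗ[F] (Fin 4 ⊕ Fin 4 → F)) u.2 := by
  have H := hs_plus 4 F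
  have h00 : polar (quadPlus 4 F) (bP 4 F (0, true)) (bP 4 F (0, false)) = 1 := H.pob (0, false)
  have h01 : polar (quadPlus 4 F) (bP 4 F (0, true)) (bP 4 F (1, false)) = 0 := H.pbne (by decide)
  have h10 : polar (quadPlus 4 F) (bP 4 F (1, true)) (bP 4 F (0, false)) = 0 := H.pbne (by decide)
  have h11 : polar (quadPlus 4 F) (bP 4 F (1, true)) (bP 4 F (1, false)) = 1 := H.pob (1, false)
  constructor
  · show polar (quadPlus 4 F) (bP 4 F (0, true)) (((g : ↥(Om (quadPlus 4 F))) :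
      (Fin 4 ⊕ Fin 4 → F) ≃ₗ[F] (Fin 4 ⊕ Fin 4 → F)) (bP 4 F (0, false))) • _ +
      polar (quadPlus 4 F) (bP 4 F (0, true)) (((g : ↥(Om (quadPlus 4 F))) :
      (Fin 4 ⊕ Fin 4 → F) ≃ₗ[F] (Fin 4 ⊕ Fin 4 → F)) (bP 4 F (1, false))) • _ = _
    rw [h1, h2, polar_add_right, polar_add_right, polar_smul_right, polar_smul_right, polar_smul_right,
      polar_smul_right, h00, h01]
    simp
  · show polar (quadPlus 4 F) (bP 4 F (1, true)) (((g : ↥(Om (quadPlus 4 F))) :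
      (Fin 4 ⊕ Fin 4 → F) ≃ₗ[F] (Fin 4 ⊕ Fin 4 → F)) (bP 4 F (0, false))) • _ +
      polar (quadPlus 4 F) (bP 4 F (1, true)) (((g : ↥(Om (quadPlus 4 F))) :
      (Fin 4 ⊕ Fin 4 → F) ≃ₗ[F] (Fin 4 ⊕ Fin 4 → F)) (bP 4 F (1, false))) • _ = _
    rw [h1, h2, polar_add_right, polar_add_right, polar_smul_right, polar_smul_right, polar_smul_right,
      polar_smul_right, h10, h11]
    simp

/-- the standard group of a point of the line -/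
def sB (a : F × F) : AddSubgroup (↥(U8 F) × ↥(U8 F)) where
  carrier := {u | ∃ v : ↥(U8 F), u = (a.1 • v, a.2 • v)}
  zero_mem' := ⟨0, by rw [smul_zero, smul_zero]; rfl⟩
  add_mem' := by
    rintro _ _ ⟨v, rfl⟩ ⟨w, rfl⟩
    exact ⟨v + w, by rw [smul_add, smul_add]; rfl⟩
  neg_mem' := by
    rintro _ ⟨v, rfl⟩
    exact ⟨-v, by rw [smul_neg, smul_neg]; rfl⟩

theorem mem_sB {a : F × F} {u : ↥(U8 F) × ↥(U8 F)} : u ∈ sB a ↔ ∃ v : ↥(U8 F), u = (a.1 • v, a.2 • v) := Iff.rfl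

/-- elements of the line stabiliser permute the standard groups -/
theorem smul_sB (g : ↥(G8 F)) {a : F × F} (ha : a ≠ 0) : ∃ a' : F × F, a' ≠ 0 ∧ g • sB a = sB a' ∧
    (∀ α β γ δ : F, ((g : ↥(Om (quadPlus 4 F))) : (Fin 4 ⊕ Fin 4 → F) ≃ₗ[F] (Fin 4 ⊕ Fin 4 → F)) (bP 4 F (0, false)) =
      α • bP 4 F (0, false) + γ • bP 4 F (1, false) →
      ((g : ↥(Om (quadPlus 4 F))) : (Fin 4 ⊕ Fin 4 → F) ≃ₗ[F] (Fin 4 ⊕ Fin 4 → F)) (bP 4 F (1, false)) =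
      β • bP 4 F (0, false) + δ • bP 4 F (1, false) → a' = (α * a.1 + β * a.2, γ * a.1 + δ * a.2)) := by
  have H := hs_plus 4 F
  have h00 : polar (quadPlus 4 F) (bP 4 F (0, true)) (bP 4 F (0, false)) = 1 := H.pob (0, false)
  have h01 : polar (quadPlus 4 F) (bP 4 F (0, true)) (bP 4 F (1, false)) = 0 := H.pbne (by decide)
  have h10 : polar (quadPlus 4 F) (bP 4 F (1, true)) (bP 4 F (0, false)) = 0 := H.pbne (by decide)
  have h11 : polar (quadPlus 4 F) (bP 4 F (1, true)) (bP 4 F (1, false)) = 1 := H.pob (1, false)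
  have key : ∀ s t s' t' : F, s • bP 4 F (0, false) + t • bP 4 F (1, false) =
      s' • bP 4 F (0, false) + t' • bP 4 F (1, false) → s = s' ∧ t = t' := by
    intro s t s' t' h
    have e1 := congrArg (fun x => polar (quadPlus 4 F) (bP 4 F (0, true)) x) h
    have e2 := congrArg (fun x => polar (quadPlus 4 F) (bP 4 F (1, true)) x) h
    simp only [polar_add_right, polar_smul_right, h00, h01, h10, h11] at e1 e2
    simp only [smul_eq_mul, mul_one, mul_zero, add_zero, zero_add] at e1 e2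
    exact ⟨e1, e2⟩
  obtain ⟨⟨α, γ, h1⟩, ⟨β, δ, h2⟩, ⟨α', γ', h3⟩, ⟨β', δ', h4⟩, h5⟩ := g.2
  have hgi : ∀ x, ((g : ↥(Om (quadPlus 4 F))) : (Fin 4 ⊕ Fin 4 → F) ≃ₗ[F] (Fin 4 ⊕ Fin 4 → F))
      (((g : ↥(Om (quadPlus 4 F)))⁻¹ : ↥(Om (quadPlus 4 F))).1 x) = x := fun x =>
    LinearEquiv.apply_symm_apply ((g : ↥(Om (quadPlus 4 F))) : (Fin 4 ⊕ Fin 4 → F) ≃ₗ[F] (Fin 4 ⊕ Fin 4 → F)) x
  refine ⟨(α * a.1 + β * a.2, γ * a.1 + δ * a.2), ?_, ?_, ?_⟩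
  · intro h0
    have e1 := congrArg Prod.fst h0
    have e2 := congrArg Prod.snd h0
    have e3 : ((g : ↥(Om (quadPlus 4 F))) : (Fin 4 ⊕ Fin 4 → F) ≃ₗ[F] (Fin 4 ⊕ Fin 4 → F))
      (a.1 • bP 4 F (0, false) + a.2 • bP 4 F (1, false)) = 0 := by
      rw [map_add, map_smul, map_smul, h1, h2]
      have : a.1 • (α • bP 4 F (0, false) + γ • bP 4 F (1, false)) + a.2 • (β • bP 4 F (0, false) + δ • bP 4 F (1, false)) =
        (α * a.1 + β * a.2) • bP 4 F (0, false) + (γ * a.1 + δ * a.2) • bP 4 F (1, false) := by module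
      rw [this]
      change α * a.1 + β * a.2 = 0 at e1
      change γ * a.1 + δ * a.2 = 0 at e2
      rw [e1, e2, zero_smul, zero_smul, add_zero]
    have e4 := (LinearEquiv.map_eq_zero_iff _).1 e3
    have e5 := key a.1 a.2 0 0 (by rw [e4]; simp)
    exact ha (Prod.ext e5.1 e5.2)
  · ext u
    constructor
    · rintro ⟨w, ⟨v, rfl⟩, rfl⟩
      have hg := smul_G8 h1 h2 (a.1 • v, a.2 • v)
      have hv : ((g : ↥(Om (quadPlus 4 F))) : (Fin 4 ⊕ Fin 4 → F) ≃ₗ[F] (Fin 4 ⊕ Fin 4 → F)) v ∈ U8 F := (h5 _).2 v.2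
      refine ⟨⟨_, hv⟩, Prod.ext (Subtype.ext ?_) (Subtype.ext ?_)⟩
      · refine hg.1.trans ?_
        show α • ((g : ↥(Om (quadPlus 4 F))) : (Fin 4 ⊕ Fin 4 → F) ≃ₗ[F] (Fin 4 ⊕ Fin 4 → F)) (a.1 • (v : Fin 4 ⊕ Fin 4 → F)) +
          β • ((g : ↥(Om (quadPlus 4 F))) : (Fin 4 ⊕ Fin 4 → F) ≃ₗ[F] (Fin 4 ⊕ Fin 4 → F)) (a.2 • (v : Fin 4 ⊕ Fin 4 → F)) =
          (α * a.1 + β * a.2) • ((g : ↥(Om (quadPlus 4 F))) : (Fin 4 ⊕ Fin 4 → F) ≃ₗ[F] (Fin 4 ⊕ Fin 4 → F)) v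
        rw [map_smul, map_smul]; module
      · refine hg.2.trans ?_
        show γ • ((g : ↥(Om (quadPlus 4 F))) : (Fin 4 ⊕ Fin 4 → F) ≃ₗ[F] (Fin 4 ⊕ Fin 4 → F)) (a.1 • (v : Fin 4 ⊕ Fin 4 → F)) +
          δ • ((g : ↥(Om (quadPlus 4 F))) : (Fin 4 ⊕ Fin 4 → F) ≃ₗ[F] (Fin 4 ⊕ Fin 4 → F)) (a.2 • (v : Fin 4 ⊕ Fin 4 → F)) =
          (γ * a.1 + δ * a.2) • ((g : ↥(Om (quadPlus 4 F))) : (Fin 4 ⊕ Fin 4 → F) ≃ₗ[F] (Fin 4 ⊕ Fin 4 → F)) v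
        rw [map_smul, map_smul]; module
    · rintro ⟨v, rfl⟩
      obtain ⟨w, hw⟩ : ∃ w, w = ((g : ↥(Om (quadPlus 4 F)))⁻¹ : ↥(Om (quadPlus 4 F))).1 v := ⟨_, rfl⟩
      have hgw : ((g : ↥(Om (quadPlus 4 F))) : (Fin 4 ⊕ Fin 4 → F) ≃ₗ[F] (Fin 4 ⊕ Fin 4 → F)) w = v := by rw [hw, hgi]
      have hwU : w ∈ U8 F := by rw [← h5, hgw]; exact v.2
      refine ⟨(a.1 • ⟨w, hwU⟩, a.2 • ⟨w, hwU⟩), ⟨_, rfl⟩, ?_⟩
      have hg := smul_G8 h1 h2 (a.1 • (⟨w, hwU⟩ : ↥(U8 F)), a.2 • (⟨w, hwU⟩ : ↥(U8 F)))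
      refine Prod.ext (Subtype.ext ?_) (Subtype.ext ?_)
      · refine hg.1.trans ?_
        show α • ((g : ↥(Om (quadPlus 4 F))) : (Fin 4 ⊕ Fin 4 → F) ≃ₗ[F] (Fin 4 ⊕ Fin 4 → F)) (a.1 • w) +
          β • ((g : ↥(Om (quadPlus 4 F))) : (Fin 4 ⊕ Fin 4 → F) ≃ₗ[F] (Fin 4 ⊕ Fin 4 → F)) (a.2 • w) =
          (α * a.1 + β * a.2) • (v : Fin 4 ⊕ Fin 4 → F)
        rw [map_smul, map_smul, hgw]; module
      · refine hg.2.trans ?_
        show γ • ((g : ↥(Om (quadPlus 4 F))) : (Fin 4 ⊕ Fin 4 → F) ≃ₗ[F] (Fin 4 ⊕ Fin 4 → F)) (a.1 • w) +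
          δ • ((g : ↥(Om (quadPlus 4 F))) : (Fin 4 ⊕ Fin 4 → F) ≃ₗ[F] (Fin 4 ⊕ Fin 4 → F)) (a.2 • w) =
          (γ * a.1 + δ * a.2) • (v : Fin 4 ⊕ Fin 4 → F)
        rw [map_smul, map_smul, hgw]; module
  · intro α₁ β₁ γ₁ δ₁ k1 k2
    obtain ⟨e1, e2⟩ := key _ _ _ _ (h1.symm.trans k1)
    obtain ⟨e3, e4⟩ := key _ _ _ _ (h2.symm.trans k2)
    rw [e1, e2, e3, e4]

include hQ hgen in
/-- transitivity -/
theorem exists_move {a a' : F × F} (ha : a ≠ 0) (ha' : a' ≠ 0) : ∃ g : ↥(L8 hQ hgen), g • sB a = sB a' := by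
  -- moving the first vector
  have one : ∀ a : F × F, a ≠ 0 → ∃ g : ↥(L8 hQ hgen), g • sB (1, 0) = sB a := by
    intro a ha
    obtain ⟨β, δ, hd⟩ : ∃ β δ : F, a.1 * δ - β * a.2 = 1 := by
      by_cases h0 : a.1 = 0
      · have h1 : a.2 ≠ 0 := fun h1 => ha (Prod.ext h0 h1)
        exact ⟨-a.2⁻¹, 0, by rw [h0]; field_simp; ring⟩
      · exact ⟨0, a.1⁻¹, by field_simp; ring⟩
    obtain ⟨g, h1, h2, h3⟩ := exists_SL hQ hgen (fr8 F) hd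
    have hi : ∀ x, ((g⁻¹ : ↥(Om (quadPlus 4 F))) : (Fin 4 ⊕ Fin 4 → F) ≃ₗ[F] (Fin 4 ⊕ Fin 4 → F))
        ((g : (Fin 4 ⊕ Fin 4 → F) ≃ₗ[F] (Fin 4 ⊕ Fin 4 → F)) x) = x := fun x =>
      LinearEquiv.symm_apply_apply (g : (Fin 4 ⊕ Fin 4 → F) ≃ₗ[F] (Fin 4 ⊕ Fin 4 → F)) x
    have hfU : ∀ x ∈ U8 F, (g : (Fin 4 ⊕ Fin 4 → F) ≃ₗ[F] (Fin 4 ⊕ Fin 4 → F)) x = x := fun x hx =>
      h3 x hx.1 hx.2.1 hx.2.2.1 hx.2.2.2
    have hG : g ∈ G8 F := by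
      refine mem_G8 ⟨_, _, h1⟩ ⟨_, _, h2⟩ ⟨δ, -a.2, ?_⟩ ⟨-β, a.1, ?_⟩ (fun x hx => by rw [hfU x hx]; exact hx)
        (fun x hx => ?_)
      · have := hi (δ • bP 4 F (0, false) + (-a.2) • bP 4 F (1, false))
        rw [map_add, map_smul, map_smul, h1, h2] at this
        rw [← this]
        congr 1
        have e : δ • (a.1 • bP 4 F (0, false) + a.2 • bP 4 F (1, false)) +
          (-a.2) • (β • bP 4 F (0, false) + δ • bP 4 F (1, false)) =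
          (a.1 * δ - β * a.2) • bP 4 F (0, false) := by module
        rw [e, hd, one_smul]
      · have := hi ((-β) • bP 4 F (0, false) + a.1 • bP 4 F (1, false))
        rw [map_add, map_smul, map_smul, h1, h2] at this
        rw [← this]
        congr 1
        have e : (-β) • (a.1 • bP 4 F (0, false) + a.2 • bP 4 F (1, false)) +
          a.1 • (β • bP 4 F (0, false) + δ • bP 4 F (1, false)) =
          (a.1 * δ - β * a.2) • bP 4 F (1, false) := by module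
        rw [e, hd, one_smul]
      · have := hi x
        rw [hfU x hx] at this
        rw [this]; exact hx
    have hL : (⟨g, hG⟩ : ↥(G8 F)) ∈ L8 hQ hgen := mem_L8_of hQ hgen h1 h2 hd
    obtain ⟨a', -, h4, h5⟩ := smul_sB (⟨g, hG⟩ : ↥(G8 F)) (a := ((1 : F), (0 : F))) (by simp)
    refine ⟨⟨⟨g, hG⟩, hL⟩, ?_⟩
    rw [h5 _ _ _ _ h1 h2] at h4
    refine Eq.trans h4 ?_
    congr 1
    refine Prod.ext ?_ ?_
    · show a.1 * 1 + β * 0 = a.1; ring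
    · show a.2 * 1 + δ * 0 = a.2; ring
  obtain ⟨g, hg⟩ := one a ha
  obtain ⟨g', hg'⟩ := one a' ha'
  refine ⟨g' * g⁻¹, ?_⟩
  rw [← hg, ← hg', mul_smul, inv_smul_smul]

theorem sB_inj {a a' : F × F} (h : sB a = sB a') : a.1 * a'.2 = a.2 * a'.1 := by
  have H := hs_plus 4 F
  have hm : bP 4 F (2, false) ∈ U8 F := bP_mem_U8 (by decide) (by decide)
  have h1 : ((a.1 • (⟨_, hm⟩ : ↥(U8 F)), a.2 • (⟨_, hm⟩ : ↥(U8 F))) : ↥(U8 F) × ↥(U8 F)) ∈ sB a' := by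
    rw [← h]; exact ⟨_, rfl⟩
  obtain ⟨v, hv⟩ := h1
  have e1 := congrFun (congrArg Subtype.val (congrArg Prod.fst hv)) (.inl 2)
  have e2 := congrFun (congrArg Subtype.val (congrArg Prod.snd hv)) (.inl 2)
  change a.1 * bP 4 F (2, false) (.inl 2) = a'.1 * (v : Fin 4 ⊕ Fin 4 → F) (.inl 2) at e1
  change a.2 * bP 4 F (2, false) (.inl 2) = a'.2 * (v : Fin 4 ⊕ Fin 4 → F) (.inl 2) at e2
  have e3 : bP 4 F (2, false) (.inl 2) = 1 := by simp [bP, idx]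
  rw [e3, mul_one] at e1 e2
  rw [e1, e2]; ring

variable {X : Type*} [MulAction ↥(Om (quadPlus 4 F)) X]

/-- if one stabiliser is standard, all of them are -/
theorem std_all [Finite X] {x₀ : X} (hx₀ : Cx hQ hgen (fr8 F).hzb x₀ ≠ ⊤)
    (hX : Nat.card X < Nat.card F ^ 5 * (Nat.card F + 2)) {a₀ : F × F} (ha₀ : a₀ ≠ 0)
    (h₀ : (D8 hQ hgen).bar x₀ = sB a₀) (x : X) (hx : Cx hQ hgen (fr8 F).hzb x ≠ ⊤) :
    ∃ a : F × F, a ≠ 0 ∧ (D8 hQ hgen).bar x = sB a := by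
  classical
  have := Fintype.ofFinite F
  have hnt : ∀ y : X, Cx hQ hgen (fr8 F).hzb y ≠ ⊤ → ∃ c, c ∉ Cx hQ hgen (fr8 F).hzb y := by
    intro y hy
    by_contra hcon
    push Not at hcon
    exact hy (eq_top_iff.2 fun c _ => hcon c)
  obtain ⟨c₀, hc₀⟩ := hnt x₀ hx₀
  obtain ⟨ψ, hψ1, hψ2⟩ := exists_char hc₀
  obtain ⟨c₁, hc₁⟩ := hnt x hx
  obtain ⟨χ, hχ1, hχ2⟩ := exists_char hc₁
  obtain ⟨ν, hν⟩ := chi_surjective (F := F) (W := F) (LinearMap.mul F F) (fun w hw => by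
    have := LinearMap.congr_fun hw 1
    simpa using this) hψ2 χ
  have hν' : ∀ c, χ c = ψ (ν * c) := hν
  have hν0 : ν ≠ 0 := by
    rintro rfl
    apply hχ2
    rw [hν', zero_mul, AddChar.map_zero_eq_one]
  obtain ⟨g, hg, hgz, hgb⟩ := mu8 hQ hgen ν hν0
  have hgz' : (g : (Fin 4 ⊕ Fin 4 → F) ≃ₗ[F] (Fin 4 ⊕ Fin 4 → F)) (bP 4 F (0, false)) =
    ν • bP 4 F (0, false) + (0 : F) • bP 4 F (1, false) := by rw [hgz, zero_smul, add_zero]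
  have hgb' : (g : (Fin 4 ⊕ Fin 4 → F) ≃ₗ[F] (Fin 4 ⊕ Fin 4 → F)) (bP 4 F (1, false)) =
    (0 : F) • bP 4 F (0, false) + (1 : F) • bP 4 F (1, false) := by rw [hgb, zero_smul, one_smul, zero_add]
  -- the point moved
  have hy : Cx hQ hgen (fr8 F).hzb (g • x) ≠ ⊤ :=
    Cx_actM hQ hgen (fr8 F).hz (fr8 F).hb (fr8 F).hzb x g hgz' hgb' (by rw [mul_one, mul_zero, sub_zero]; exact hν0) hx
  have hψy : ∀ c ∈ Cx hQ hgen (fr8 F).hzb (g • x), ψ c = 1 := by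
    intro c hc
    have h1 : ν⁻¹ * c ∈ Cx hQ hgen (fr8 F).hzb x := by
      rw [← Cx_smul_iff hQ hgen (fr8 F).hz (fr8 F).hb (fr8 F).hzb x g hgz' hgb']
      have : ν⁻¹ * c * (ν * 1 - 0 * 0) = c := by field_simp; ring
      rw [this]; exact hc
    have h2 := hχ1 _ h1
    rw [hν', ← mul_assoc, mul_inv_cancel₀ hν0, one_mul] at h2
    exact h2
  -- the standard groups
  have hst : ∀ a : F × F, a ≠ 0 → ∃ y : X, Cx hQ hgen (fr8 F).hzb y ≠ ⊤ ∧ (∀ c ∈ Cx hQ hgen (fr8 F).hzb y, ψ c = 1) ∧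
      (D8 hQ hgen).bar y = sB a := by
    intro a ha
    obtain ⟨k, hk⟩ := exists_move hQ hgen ha₀ ha
    refine ⟨((k : ↥(G8 F)) : ↥(Om (quadPlus 4 F))) • x₀, ?_, ?_, ?_⟩
    · rw [L8_Cx]; exact hx₀
    · rw [L8_Cx]; exact hψ1
    · rw [bar_G8, h₀]; exact hk
  -- the moved point is standard
  have hgx : ∃ a : F × F, a ≠ 0 ∧ (D8 hQ hgen).bar (g • x) = sB a := by
    by_contra hcon
    push Not at hcon
    let fs : Option F → F × F := fun o => o.elim (0, 1) (fun t => (1, t))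
    have hfs : ∀ o, fs o ≠ 0 := by
      intro o
      cases o <;> simp [fs]
    have hinj : Function.Injective (fun o : Option F => sB (fs o)) := by
      intro o o' h
      have h1 := sB_inj h
      cases o <;> cases o' <;> simp_all [fs]
    have h1 := card_psi8 (X := X) hQ hgen hψ2
      (insert ((D8 hQ hgen).bar (g • x)) ((Finset.univ : Finset (Option F)).image fun o => sB (fs o))) (by
        intro B hB
        rw [Finset.mem_insert] at hB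
        rcases hB with rfl | hB
        · exact ⟨g • x, hy, hψy, rfl⟩
        · obtain ⟨o, -, rfl⟩ := Finset.mem_image.1 hB
          exact hst _ (hfs o))
    rw [Finset.card_insert_of_notMem, Finset.card_image_of_injective _ hinj, Finset.card_univ, Fintype.card_option,
      ← Nat.card_eq_fintype_card] at h1
    · have h2 : Nat.card F + 1 + 1 = Nat.card F + 2 := by ring
      rw [h2] at h1
      omega
    · intro h2
      obtain ⟨o, -, h3⟩ := Finset.mem_image.1 h2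
      exact hcon _ (hfs o) h3.symm
  obtain ⟨a, ha, h1⟩ := hgx
  have h2 := bar_G8 hQ hgen x ⟨g, hg⟩
  obtain ⟨a', ha', h3, -⟩ := smul_sB (⟨g, hg⟩ : ↥(G8 F))⁻¹ ha
  refine ⟨a', ha', ?_⟩
  rw [← h3, ← h1]
  change (D8 hQ hgen).bar (g • x) = _ at h2
  rw [h2, inv_smul_smul]

end Cfsg.Agent.Lib.Coop
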