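import Mathlib
import Cfsg.Agent.Lib.TriJ
import Cfsg.Agent.Lib.TriH

set_option autoImplicit false
set_option linter.unusedSectionVars false

/-!
The minimal index for `Ω₈⁺`.
-/

namespace Cfsg.Agent.Lib.Coop

open QuadraticMap Module Cfsg.Agent.Lib.Quad Cfsg.Agent.Lib.ClOrthSiegel Cfsg.Agent.Lib.OrthNd
  Cfsg.Agent.Lib.OrthMax Cfsg.Agent.Lib.ClOmega Cfsg.Agent.Lib.ClOrthOrd
  Cfsg.Agent.Lib.HypSys Cfsg.Agent.Lib.ChevOrth
open scoped Pointwise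

universe u

theorem conj_smul_iff {G X : Type*} [Group G] [MulAction G X] (g P S : G) (x : X) :
    (g * P * g⁻¹) • g • x = (g * S * g⁻¹) • g • x ↔ P • x = S • x := by
  rw [mul_smul, mul_smul, inv_smul_smul, mul_smul, mul_smul, inv_smul_smul]
  exact ⟨fun h => MulAction.injective g h, fun h => by rw [h]⟩

section Dich8

variable {F : Type*} [Field F]

theorem frame8 : Frame (quadPlus 4 F) 4 (fun i => bP 4 F (i, false)) (fun i => bP 4 F (i, true)) := by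
  have H := hs_plus 4 F
  exact {
    e0 := fun i => H.qb _
    f0 := fun i => H.qb _
    ee := fun i j => by
      rw [H.pb, if_neg]
      intro h
      exact absurd (congrArg Prod.snd h) (by simp [op])
    ff := fun i j => by
      rw [H.pb, if_neg]
      intro h
      exact absurd (congrArg Prod.snd h) (by simp [op])
    ef := fun i j => by
      rw [H.pb]
      by_cases h : i = j
      · rw [if_pos h, if_pos (by rw [h]; rfl)]
      · rw [if_neg h, if_neg]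
        intro h'
        exact h (congrArg Prod.fst h').symm }

variable [Finite F] (hQ : Nd (quadPlus 4 F)) (hgen : GenHyp (quadPlus 4 F)) {X : Type*}
  [MulAction ↥(Om (quadPlus 4 F)) X]

include hQ hgen in
theorem exists_to_std {z b z' b' : Fin 4 ⊕ Fin 4 → F} (h : Fr (quadPlus 4 F) z b z' b') :
    ∃ g : ↥(Om (quadPlus 4 F)),
      (g : (Fin 4 ⊕ Fin 4 → F) ≃ₗ[F] (Fin 4 ⊕ Fin 4 → F)) z = bP 4 F (0, false) ∧
      (g : (Fin 4 ⊕ Fin 4 → F) ≃ₗ[F] (Fin 4 ⊕ Fin 4 → F)) b = bP 4 F (1, false) ∧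
      (g : (Fin 4 ⊕ Fin 4 → F) ≃ₗ[F] (Fin 4 ⊕ Fin 4 → F)) z' = bP 4 F (0, true) ∧
      (g : (Fin 4 ⊕ Fin 4 → F) ≃ₗ[F] (Fin 4 ⊕ Fin 4 → F)) b' = bP 4 F (1, true) := by
  have H := hs_plus 4 F
  have h8 := fr8 F
  have gram : ∀ {z b z' b' : Fin 4 ⊕ Fin 4 → F}, Fr (quadPlus 4 F) z b z' b' →
      (∀ i, quadPlus 4 F (![z, b, z', b'] i) = 0) ∧ ∀ i j, polar (quadPlus 4 F) (![z, b, z', b'] i) (![z, b, z', b'] j) =
        if (i = 0 ∧ j = 2) ∨ (i = 2 ∧ j = 0) ∨ (i = 1 ∧ j = 3) ∨ (i = 3 ∧ j = 1) then 1 else 0 := by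
    intro z b z' b' h
    have e1 : polar (quadPlus 4 F) z z = 0 := by rw [polar_self', h.hz, mul_zero]
    have e2 : polar (quadPlus 4 F) b b = 0 := by rw [polar_self', h.hb, mul_zero]
    have e3 : polar (quadPlus 4 F) z' z' = 0 := by rw [polar_self', h.hz', mul_zero]
    have e4 : polar (quadPlus 4 F) b' b' = 0 := by rw [polar_self', h.hb', mul_zero]
    have e5 : polar (quadPlus 4 F) b z = 0 := by rw [polar_comm]; exact h.hzb
    have e6 : polar (quadPlus 4 F) z' z = 1 := by rw [polar_comm]; exact h.hzz'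
    have e7 : polar (quadPlus 4 F) b' z = 0 := by rw [polar_comm]; exact h.hzb'
    have e8 : polar (quadPlus 4 F) z' b = 0 := by rw [polar_comm]; exact h.hbz'
    have e9 : polar (quadPlus 4 F) b' b = 1 := by rw [polar_comm]; exact h.hbb'
    have e10 : polar (quadPlus 4 F) b' z' = 0 := by rw [polar_comm]; exact h.hz'b'
    constructor
    · intro i
      fin_cases i
      exacts [h.hz, h.hb, h.hz', h.hb']
    · intro i j
      fin_cases i <;> fin_cases j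
      · exact e1
      · exact h.hzb
      · exact h.hzz'
      · exact h.hzb'
      · exact e5
      · exact e2
      · exact h.hbz'
      · exact h.hbb'
      · exact e6
      · exact e8
      · exact e3
      · exact h.hz'b'
      · exact e7
      · exact e9
      · exact e10
      · exact e4
  obtain ⟨g0, hg0, hge⟩ := hQ.witt_family _ _ h8.li h.li (fun i => by rw [(gram h8).1, (gram h).1])
    (fun i j => by rw [(gram h8).2, (gram h).2])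
  obtain ⟨t, ht, htv⟩ := Om_of_O hQ (hQ.R_eq_O hgen) (frame8 (F := F)) (i := 0) (j := 1) (l := 3)
    (by decide) (by decide) (by decide) hg0
  have hp : ∀ (i : Fin 4) (s : Bool), i ≠ 3 → t (bP 4 F (i, s)) = g0 (bP 4 F (i, s)) := fun i s hi =>
    htv _ (H.pbne hi) (H.pbne hi)
  have hi : ∀ x y, t x = y → ((⟨t, ht⟩⁻¹ : ↥(Om (quadPlus 4 F))) : (Fin 4 ⊕ Fin 4 → F) ≃ₗ[F] (Fin 4 ⊕ Fin 4 → F)) y = x := by
    rintro x y rfl
    exact t.symm_apply_apply x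
  refine ⟨⟨t, ht⟩⁻¹, hi _ _ ?_, hi _ _ ?_, hi _ _ ?_, hi _ _ ?_⟩
  · rw [hp 0 false (by decide)]; exact hge 0
  · rw [hp 1 false (by decide)]; exact hge 1
  · rw [hp 0 true (by decide)]; exact hge 2
  · rw [hp 1 true (by decide)]; exact hge 3

theorem dich8 (hstd : ∀ x : X, Cx hQ hgen (fr8 F).hzb x ≠ ⊤ → ∃ a : F × F, a ≠ 0 ∧ (D8 hQ hgen).bar x = sB a) (x : X) :
    Dich (quadPlus 4 F) (St (quadPlus 4 F) x) := by
  apply dich_of_bar hQ hgen
  intro z b hz hb hzb hz0 hbz hC z' b' hz' hb' hzz' hbb' hbz' hzb' hz'b' U hU hUn hUd hUm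
  have h : Fr (quadPlus 4 F) z b z' b' := ⟨hz, hb, hzb, hz', hb', hzz', hbb', hbz', hzb', hz'b'⟩
  obtain ⟨g, hgz, hgb, hgz', hgb'⟩ := exists_to_std hQ hgen h
  obtain ⟨G, hG⟩ : ∃ G, G = (g : (Fin 4 ⊕ Fin 4 → F) ≃ₗ[F] (Fin 4 ⊕ Fin 4 → F)) := ⟨_, rfl⟩
  have hGO : G ∈ O (quadPlus 4 F) := by rw [hG]; exact Om_le g.2
  rw [← hG] at hgz hgb hgz' hgb'
  have hGU : ∀ u, G u ∈ U8 F ↔ u ∈ U := by
    intro u
    rw [mem_U8, hUm, ← hgz, ← hgb, ← hgz', ← hgb', O_polar hGO, O_polar hGO, O_polar hGO, O_polar hGO]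
  -- transport
  have hCx : ∀ c, c ∈ Cx hQ hgen hzb x ↔ c ∈ Cx hQ hgen (fr8 F).hzb (g • x) := by
    intro c
    have e1 : g * EG hQ hgen z (c • b) * g⁻¹ = EG hQ hgen (bP 4 F (0, false)) (c • bP 4 F (1, false)) := by
      rw [EG_conj, ← hG, map_smul, hgz, hgb]
    rw [mem_Cx, mem_Cx, ← e1, mul_smul, mul_smul, inv_smul_smul]
    exact ⟨fun h => by rw [h], fun h => MulAction.injective _ h⟩
  have hC8 : Cx hQ hgen (fr8 F).hzb (g • x) ≠ ⊤ := by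
    intro h1
    apply hC
    rw [eq_top_iff]
    intro c _
    rw [hCx, h1]; exact AddSubgroup.mem_top _
  obtain ⟨a, ha, hbar⟩ := hstd (g • x) hC8
  have hbx : ∀ u : ↥U × ↥U, u ∈ (hd hQ hgen hz hb hzb U hU).bar x ↔
      ((⟨G u.1, (hGU _).2 u.1.2⟩, ⟨G u.2, (hGU _).2 u.2.2⟩) : ↥(U8 F) × ↥(U8 F)) ∈ (D8 hQ hgen).bar (g • x) := by
    intro u
    have e1 : g * (EG hQ hgen z (u.1 : Fin 4 ⊕ Fin 4 → F) * EG hQ hgen b (u.2 : Fin 4 ⊕ Fin 4 → F)) * g⁻¹ =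
        EG hQ hgen (bP 4 F (0, false)) (G u.1) * EG hQ hgen (bP 4 F (1, false)) (G u.2) := by
      rw [← hgz, ← hgb, hG, ← EG_conj, ← EG_conj]; group
    have e2 : ∀ c : F, g * EG hQ hgen z (c • b) * g⁻¹ = EG hQ hgen (bP 4 F (0, false)) (c • bP 4 F (1, false)) := by
      intro c
      rw [EG_conj, ← hG, map_smul, hgz, hgb]
    constructor
    · rintro ⟨s, hs, h1⟩
      obtain ⟨c, rfl⟩ := (mem_zhom hQ hgen hzb).1 hs
      refine ⟨_, (mem_zhom hQ hgen (fr8 F).hzb).2 ⟨c, rfl⟩, ?_⟩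
      show (EG hQ hgen (bP 4 F (0, false)) (G u.1) * EG hQ hgen (bP 4 F (1, false)) (G u.2)) • g • x = _
      change (EG hQ hgen z (u.1 : Fin 4 ⊕ Fin 4 → F) * EG hQ hgen b (u.2 : Fin 4 ⊕ Fin 4 → F)) • x = _ at h1
      rw [← e1, ← e2, conj_smul_iff]
      exact h1
    · rintro ⟨s, hs, h1⟩
      obtain ⟨c, rfl⟩ := (mem_zhom hQ hgen (fr8 F).hzb).1 hs
      refine ⟨_, (mem_zhom hQ hgen hzb).2 ⟨c, rfl⟩, ?_⟩
      show (EG hQ hgen z (u.1 : Fin 4 ⊕ Fin 4 → F) * EG hQ hgen b (u.2 : Fin 4 ⊕ Fin 4 → F)) • x = _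
      change (EG hQ hgen (bP 4 F (0, false)) (G u.1) * EG hQ hgen (bP 4 F (1, false)) (G u.2)) • g • x = _ at h1
      rw [← e1, ← e2, conj_smul_iff] at h1
      exact h1
  refine ⟨a.1, a.2, ?_, fun u => ?_⟩
  · by_contra hcon
    push Not at hcon
    exact ha (Prod.ext hcon.1 hcon.2)
  · rw [hbx, hbar, mem_sB]
    constructor
    · rintro ⟨v, hv⟩
      obtain ⟨w, hw⟩ : ∃ w, G w = v := ⟨G.symm v, G.apply_symm_apply _⟩
      have hwU : w ∈ U := by rw [← hGU, hw]; exact v.2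
      have e1 : G (u.1 : Fin 4 ⊕ Fin 4 → F) = a.1 • (v : Fin 4 ⊕ Fin 4 → F) := congrArg Subtype.val (congrArg Prod.fst hv)
      have e2 : G (u.2 : Fin 4 ⊕ Fin 4 → F) = a.2 • (v : Fin 4 ⊕ Fin 4 → F) := congrArg Subtype.val (congrArg Prod.snd hv)
      refine ⟨⟨w, hwU⟩, Prod.ext (Subtype.ext ?_) (Subtype.ext ?_)⟩
      · apply G.injective
        show G (u.1 : Fin 4 ⊕ Fin 4 → F) = G (a.1 • w)
        rw [e1, map_smul, hw]
      · apply G.injective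
        show G (u.2 : Fin 4 ⊕ Fin 4 → F) = G (a.2 • w)
        rw [e2, map_smul, hw]
    · rintro ⟨v, rfl⟩
      refine ⟨⟨G v, (hGU _).2 v.2⟩, Prod.ext (Subtype.ext ?_) (Subtype.ext ?_)⟩
      · show G (a.1 • (v : Fin 4 ⊕ Fin 4 → F)) = a.1 • G v
        rw [map_smul]
      · show G (a.2 • (v : Fin 4 ⊕ Fin 4 → F)) = a.2 • G v
        rw [map_smul]

end Dich8

section Twisted

/-- a set with the action twisted by a homomorphism -/
def TX {G P : Type*} [Group G] [Group P] (_φ : G →* P) (X : Type*) : Type _ := X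

instance {G P : Type*} [Group G] [Group P] (φ : G →* P) (X : Type*) [MulAction P X] : MulAction G (TX φ X) :=
  MulAction.compHom X φ

variable {F : Type u} [Field F] [Finite F] (hQ : Nd (quadPlus 4 F)) (hgen : GenHyp (quadPlus 4 F))
  {P : Type u} [Group P] {X : Type u} [MulAction P X]

theorem FX_TX (φ : ↥(Om (quadPlus 4 F)) →* P) (r : ℕ) (x : X) :
    FX hQ hgen (X := TX φ X) r x ↔ ∀ a : F, Sx ((D8 hQ hgen).Qg.map φ) ((D8 hQ hgen).Z.map φ)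
      (φ (XR hQ hgen r a) • x) = Sx ((D8 hQ hgen).Qg.map φ) ((D8 hQ hgen).Z.map φ) x :=
  forall_congr' fun a => bar_comp_iff (D8 hQ hgen) φ (φ (XR hQ hgen r a) • x) x

theorem Cx_TX (φ : ↥(Om (quadPlus 4 F)) →* P) (x : X) :
    Cx hQ hgen (fr8 F).hzb (X := TX φ X) x = ⊤ ↔ ∀ m ∈ (D8 hQ hgen).Z.map φ, m • x = x := by
  constructor
  · rintro h _ ⟨z, hz, rfl⟩
    obtain ⟨c, rfl⟩ := (mem_zhom hQ hgen (fr8 F).hzb).1 hz
    have : c ∈ Cx hQ hgen (fr8 F).hzb (X := TX φ X) x := by rw [h]; exact AddSubgroup.mem_top _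
    exact (mem_Cx hQ hgen (fr8 F).hzb).1 this
  · intro h
    rw [eq_top_iff]
    intro c _
    refine (mem_Cx hQ hgen (fr8 F).hzb (X := TX φ X) (x := x)).2 ?_
    exact h _ ⟨_, (mem_zhom hQ hgen (fr8 F).hzb).2 ⟨c, rfl⟩, rfl⟩

/-- numerical hypotheses -/
structure Num8 (F : Type u) [Field F] (B : ℕ) : Prop where
  h5 : B ≤ Nat.card F ^ 5 * (Nat.card F + 2)
  h8 : B ≤ Nat.card F ^ 8
  hs : B * (Nat.card F - 1) ≤ Nat.card {u : Fin 4 ⊕ Fin 4 → F // u ≠ 0 ∧ quadPlus 4 F u = 0}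
  hns : ∀ c : F, c ≠ 0 → (2 : F) ≠ 0 → B * 2 ≤ Nat.card {u : Fin 4 ⊕ Fin 4 → F // quadPlus 4 F u = c}
  hns' : ∀ c : F, c ≠ 0 → (2 : F) = 0 → B ≤ Nat.card {u : Fin 4 ⊕ Fin 4 → F // quadPlus 4 F u = c}

theorem no_std {B : ℕ} (hN : Num8 F B) (φ : ↥(Om (quadPlus 4 F)) →* P) (hφ : Function.Surjective φ)
    (H : Subgroup P) (hH : H ≠ ⊤)
    (hstd : ∀ x : TX φ (P ⧸ H), Cx hQ hgen (fr8 F).hzb x ≠ ⊤ → ∃ a : F × F, a ≠ 0 ∧ (D8 hQ hgen).bar x = sB a) :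
    B ≤ H.index := by
  have h1 := dich8 hQ hgen hstd (QuotientGroup.mk 1 : P ⧸ H)
  have h2 : St (quadPlus 4 F) (X := TX φ (P ⧸ H)) (QuotientGroup.mk 1 : P ⧸ H) =
      (H.comap φ).map (Om (quadPlus 4 F)).subtype := by
    have e : MulAction.stabilizer ↥(Om (quadPlus 4 F)) (α := TX φ (P ⧸ H)) (QuotientGroup.mk 1 : P ⧸ H) = H.comap φ := by
      ext g
      refine MulAction.mem_stabilizer_iff.trans ?_
      show ((QuotientGroup.mk (φ g * 1) : P ⧸ H) = QuotientGroup.mk 1) ↔ _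
      rw [mul_one, eq_comm, QuotientGroup.eq, inv_one, one_mul]
      rfl
    exact congrArg (fun K => Subgroup.map (Om (quadPlus 4 F)).subtype K) e
  rw [h2] at h1
  have h3 := index_ge_of_dich hQ hgen (frame8 (F := F)) (by norm_num) (by rw [finrank_V8]; norm_num) hN.hs hN.hns hN.hns'
    (H.comap φ) (fun h => hH (by
      rw [eq_top_iff]
      intro x _
      obtain ⟨y, rfl⟩ := hφ x
      have : y ∈ H.comap φ := by rw [h]; exact Subgroup.mem_top y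
      exact this)) h1
  rwa [Subgroup.index_comap_of_surjective _ hφ] at h3

theorem of_FX {B : ℕ} (hN : Num8 F B) (φ : ↥(Om (quadPlus 4 F)) →* P) (hφ : Function.Surjective φ)
    (H : Subgroup P) [Finite (P ⧸ H)] (hH : H ≠ ⊤) (hlt : H.index < B) (x : P ⧸ H)
    (hx : Cx hQ hgen (fr8 F).hzb (X := TX φ (P ⧸ H)) x ≠ ⊤)
    (h13 : FX hQ hgen (X := TX φ (P ⧸ H)) 13 x) (h10 : FX hQ hgen (X := TX φ (P ⧸ H)) 10 x)
    (h12 : FX hQ hgen (X := TX φ (P ⧸ H)) 12 x) (h11 : FX hQ hgen (X := TX φ (P ⧸ H)) 11 x) : False := by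
  have : Finite (TX φ (P ⧸ H)) := inferInstanceAs (Finite (P ⧸ H))
  have hc : Nat.card (TX φ (P ⧸ H)) = H.index := rfl
  obtain ⟨α, β, hab, hB⟩ := std_of_FX hQ hgen (X := TX φ (P ⧸ H)) hx (by rw [hc]; exact lt_of_lt_of_le hlt hN.h8)
    h13 h10 h12 h11
  have h1 : (D8 hQ hgen).bar (X := TX φ (P ⧸ H)) x = sB (α, β) := by
    ext u
    rw [hB, mem_sB]
  have h2 := no_std hQ hgen hN φ hφ H hH (fun y hy => std_all hQ hgen (X := TX φ (P ⧸ H)) hx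
    (by rw [hc]; exact lt_of_lt_of_le hlt hN.h5) (a₀ := (α, β)) (by
      intro h
      rcases hab with h3 | h3
      · exact h3 (congrArg Prod.fst h)
      · exact h3 (congrArg Prod.snd h)) h1 y hy)
  omega

theorem rt_tab : rt 13 = 12 ∧ rt 10 = 11 ∧ rt 12 = 18 ∧ rt 11 = 5 ∧ rt 18 = 13 ∧ rt 5 = 10 := by decide +kernel

theorem index8 {B : ℕ} (hN : Num8 F B)
    (hT : ∀ (X : Type u) [MulAction ↥(Om (quadPlus 4 F)) X] [Finite X] (x : X), Cx hQ hgen (fr8 F).hzb x ≠ ⊤ →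
      Nat.card X < B → TwoT hQ hgen x)
    (H : Subgroup (Cfsg.POmega F ⇑(quadPlus 4 F))) (hH : H ≠ ⊤) (hfin : H.index ≠ 0) : B ≤ H.index := by
  by_contra hcon
  push Not at hcon
  have : H.FiniteIndex := ⟨hfin⟩
  have : Finite (Cfsg.POmega F ⇑(quadPlus 4 F) ⧸ H) := inferInstance
  obtain ⟨σ, hσ⟩ := exists_triality hQ hgen
  have hφ0 := pOm_surjective (quadPlus 4 F)
  let φ1 : ↥(Om (quadPlus 4 F)) →* Cfsg.POmega F ⇑(quadPlus 4 F) := σ.toMonoidHom.comp (pOm (quadPlus 4 F))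
  let φ2 : ↥(Om (quadPlus 4 F)) →* Cfsg.POmega F ⇑(quadPlus 4 F) := σ.toMonoidHom.comp φ1
  have hφ1 : Function.Surjective φ1 := σ.surjective.comp hφ0
  have hφ2 : Function.Surjective φ2 := σ.surjective.comp hφ1
  have hsQ := sigma_Qg hQ hgen hσ
  have hsZ := sigma_Z hQ hgen hσ
  have hQ1 : (D8 hQ hgen).Qg.map φ1 = (D8 hQ hgen).Qg.map (pOm _) := by
    rw [← Subgroup.map_map]; exact hsQ
  have hZ1 : (D8 hQ hgen).Z.map φ1 = (D8 hQ hgen).Z.map (pOm _) := by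
    rw [← Subgroup.map_map]; exact hsZ
  have hQ2 : (D8 hQ hgen).Qg.map φ2 = (D8 hQ hgen).Qg.map (pOm _) := by
    rw [← Subgroup.map_map, hQ1]; exact hsQ
  have hZ2 : (D8 hQ hgen).Z.map φ2 = (D8 hQ hgen).Z.map (pOm _) := by
    rw [← Subgroup.map_map, hZ1]; exact hsZ
  by_cases hall : ∀ x : Cfsg.POmega F ⇑(quadPlus 4 F) ⧸ H,
      Cx hQ hgen (fr8 F).hzb (X := TX (pOm (quadPlus 4 F)) (Cfsg.POmega F ⇑(quadPlus 4 F) ⧸ H)) x = ⊤
  · have := no_std hQ hgen hN _ hφ0 H hH (fun x hx => absurd (hall x) hx)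
    omega
  · push Not at hall
    obtain ⟨x, hx⟩ := hall
    have : Finite (TX (pOm (quadPlus 4 F)) (Cfsg.POmega F ⇑(quadPlus 4 F) ⧸ H)) :=
      inferInstanceAs (Finite (Cfsg.POmega F ⇑(quadPlus 4 F) ⧸ H))
    have hx1 : Cx hQ hgen (fr8 F).hzb (X := TX φ1 (Cfsg.POmega F ⇑(quadPlus 4 F) ⧸ H)) x ≠ ⊤ := by
      rw [ne_eq, Cx_TX] at hx ⊢
      rwa [hZ1]
    have hx2 : Cx hQ hgen (fr8 F).hzb (X := TX φ2 (Cfsg.POmega F ⇑(quadPlus 4 F) ⧸ H)) x ≠ ⊤ := by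
      rw [ne_eq, Cx_TX] at hx ⊢
      rwa [hZ2]
    have t1 : ∀ r < 24, FX hQ hgen (X := TX (pOm (quadPlus 4 F)) (Cfsg.POmega F ⇑(quadPlus 4 F) ⧸ H)) (rt r) x →
        FX hQ hgen (X := TX φ1 (Cfsg.POmega F ⇑(quadPlus 4 F) ⧸ H)) r x := by
      intro r hr h
      rw [FX_TX] at h ⊢
      intro a
      obtain ⟨ε, -, he⟩ := hσ r hr
      have h1 := h (ε * a)
      rw [hQ1, hZ1]
      show Sx _ _ (σ (pOm _ (XR hQ hgen r a)) • x) = _
      rw [he]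
      exact h1
    have t2 : ∀ r < 24, FX hQ hgen (X := TX (pOm (quadPlus 4 F)) (Cfsg.POmega F ⇑(quadPlus 4 F) ⧸ H)) (rt (rt r)) x →
        FX hQ hgen (X := TX φ2 (Cfsg.POmega F ⇑(quadPlus 4 F) ⧸ H)) r x := by
      intro r hr h
      rw [FX_TX] at h ⊢
      intro a
      obtain ⟨ε, -, he⟩ := hσ r hr
      obtain ⟨ε', -, he'⟩ := hσ (rt r) (rt_lt r hr)
      have h1 := h (ε' * (ε * a))
      rw [hQ2, hZ2]
      show Sx _ _ (σ (σ (pOm _ (XR hQ hgen r a))) • x) = _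
      rw [he, he']
      exact h1
    obtain ⟨r13, r10, r12, r11, r18, r5⟩ := rt_tab
    rcases hT (TX (pOm (quadPlus 4 F)) (Cfsg.POmega F ⇑(quadPlus 4 F) ⧸ H)) x hx hcon with
      ⟨k18, k5, k13, k10⟩ | ⟨k18, k5, k12, k11⟩ | ⟨k13, k10, k12, k11⟩
    · exact of_FX hQ hgen hN φ2 hφ2 H hH hcon x hx2
        (t2 13 (by norm_num) (by rw [r13, r12]; exact k18)) (t2 10 (by norm_num) (by rw [r10, r11]; exact k5))
        (t2 12 (by norm_num) (by rw [r12, r18]; exact k13)) (t2 11 (by norm_num) (by rw [r11, r5]; exact k10))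
    · exact of_FX hQ hgen hN φ1 hφ1 H hH hcon x hx1
        (t1 13 (by norm_num) (by rw [r13]; exact k12)) (t1 10 (by norm_num) (by rw [r10]; exact k11))
        (t1 12 (by norm_num) (by rw [r12]; exact k18)) (t1 11 (by norm_num) (by rw [r11]; exact k5))
    · exact of_FX hQ hgen hN _ hφ0 H hH hcon x hx k13 k10 k12 k11

end Twisted

end Cfsg.Agent.Lib.Coop
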