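import Mathlib
import Cfsg.Agent.Lib.TriK

set_option autoImplicit false
set_option linter.unusedSectionVars false

/-!
The minimal index for the orthogonal groups of plus type.
-/

namespace Cfsg.Agent.Lib.Coop

open QuadraticMap Module Cfsg.Agent.Lib.Quad Cfsg.Agent.Lib.ClOrthSiegel Cfsg.Agent.Lib.OrthNd
  Cfsg.Agent.Lib.OrthMax Cfsg.Agent.Lib.ClOmega Cfsg.Agent.Lib.ClOrthOrd
  Cfsg.Agent.Lib.HypSys Cfsg.Agent.Lib.ChevOrth
open scoped Pointwise

universe u

theorem num_plus {q p s m : ℕ} (hq : 4 ≤ q) (hm : 5 ≤ m) (hc : (p = 2 ∧ s = q - 1) ∨ (3 ≤ p ∧ q - 1 ≤ 2 * s)) :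
    (q ^ m - 1) * (q ^ (m - 1) + 1) ≤ (q - 1) * (p * q ^ (2 * m - 4) * (s * q ^ (2 * m - 8) + 1)) := by
  obtain ⟨k, rfl⟩ : ∃ k, m = k + 5 := ⟨m - 5, by omega⟩
  obtain ⟨r, rfl⟩ : ∃ r, q = r + 4 := ⟨q - 4, by omega⟩
  have e1 : 2 * (k + 5) - 4 = 2 * k + 6 := by omega
  have e2 : 2 * (k + 5) - 8 = 2 * k + 2 := by omega
  have e3 : k + 5 - 1 = k + 4 := by omega
  have e4 : r + 4 - 1 = r + 3 := by omega
  rw [e1, e2, e3, e4]
  rw [e4] at hc
  have hps : r + 4 ≤ p * s := by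
    rcases hc with ⟨rfl, rfl⟩ | ⟨h1, h2⟩
    · omega
    · nlinarith
  obtain ⟨a, ha⟩ : ∃ a, a = (r + 4) ^ (k + 4) := ⟨_, rfl⟩
  have ha1 : 1 ≤ a := by rw [ha]; exact Nat.one_le_pow _ _ (by omega)
  have e5 : (r + 4) ^ (k + 5) = (r + 4) * a := by rw [ha, pow_succ]; ring
  have e6 : a * a ≤ (r + 4) ^ (2 * k + 6) * (r + 4) ^ (2 * k + 2) := by
    rw [ha, ← pow_add, ← pow_add]
    exact Nat.pow_le_pow_right (by omega) (by omega)
  rw [e5, ← ha]
  have h1 : ((r + 4) * a - 1) * (a + 1) ≤ (r + 4) * a * (a + 1) := Nat.mul_le_mul_right _ (Nat.sub_le _ _)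
  refine h1.trans ?_
  have h2 : (r + 4) * a * (a + 1) ≤ 2 * ((r + 4) * (a * a)) := by
    have h0 : a * (a + 1) ≤ 2 * (a * a) := by nlinarith
    calc (r + 4) * a * (a + 1) = (r + 4) * (a * (a + 1)) := by ring
      _ ≤ (r + 4) * (2 * (a * a)) := Nat.mul_le_mul_left _ h0
      _ = _ := by ring
  have h3 : (r + 4) * (a * a) ≤ (p * s) * ((r + 4) ^ (2 * k + 6) * (r + 4) ^ (2 * k + 2)) := Nat.mul_le_mul hps e6
  have h4 : (p * s) * ((r + 4) ^ (2 * k + 6) * (r + 4) ^ (2 * k + 2)) ≤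
      p * (r + 4) ^ (2 * k + 6) * (s * (r + 4) ^ (2 * k + 2) + 1) := by
    have : p * (r + 4) ^ (2 * k + 6) * (s * (r + 4) ^ (2 * k + 2) + 1) =
      (p * s) * ((r + 4) ^ (2 * k + 6) * (r + 4) ^ (2 * k + 2)) + p * (r + 4) ^ (2 * k + 6) := by ring
    rw [this]; exact Nat.le_add_right _ _
  calc (r + 4) * a * (a + 1) ≤ 2 * ((r + 4) * (a * a)) := h2
    _ ≤ (r + 3) * ((r + 4) * (a * a)) := Nat.mul_le_mul_right _ (by omega)
    _ ≤ _ := Nat.mul_le_mul_left _ (h3.trans h4)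

theorem num_plus8 {q B : ℕ} (hq : 4 ≤ q) (hB : (q ^ 4 - 1) * (q ^ 3 + 1) = (q - 1) * B) : B ≤ q ^ 5 * (q + 2) := by
  obtain ⟨r, rfl⟩ : ∃ r, q = r + 4 := ⟨q - 4, by omega⟩
  have e4 : r + 4 - 1 = r + 3 := by omega
  rw [e4] at hB
  refine Nat.le_of_mul_le_mul_left (c := r + 3) ?_ (by omega)
  rw [← hB]
  have h1 : ((r + 4) ^ 4 - 1) * ((r + 4) ^ 3 + 1) ≤ (r + 4) ^ 4 * ((r + 4) ^ 3 + 1) :=
    Nat.mul_le_mul_right _ (Nat.sub_le _ _)
  refine h1.trans ?_
  have e5 : (r + 3) * ((r + 4) ^ 5 * (r + 4 + 2)) = (r + 4) ^ 4 * ((r + 4) ^ 3 + 1) +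
    (r + 4) ^ 4 * ((r + 3) * ((r + 4) * (r + 6)) - ((r + 4) ^ 3 + 1)) := by
    rw [← Nat.mul_add, Nat.add_sub_cancel']
    · ring
    · nlinarith [sq_nonneg (r : ℤ)]
  rw [e5]; exact Nat.le_add_right _ _

/-- **Minimal index**, plus type, at least four elements -/
theorem plus_main {F : Type u} [Field F] [Fintype F] {q m : ℕ} (hF : Fintype.card F = q) (hq : 4 ≤ q) (hm : 4 ≤ m) :
    (∀ H : Subgroup (Cfsg.POmega F ⇑(quadPlus m F)), H ≠ ⊤ → (q ^ m - 1) * (q ^ (m - 1) + 1) / (q - 1) ≤ H.index) ∧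
    ∃ H : Subgroup (Cfsg.POmega F ⇑(quadPlus m F)), H.index = (q ^ m - 1) * (q ^ (m - 1) + 1) / (q - 1) := by
  have hQ : Nd (quadPlus m F) := nd_quadPlus
  have hgen : GenHyp (quadPlus m F) := genHyp_plus m (by omega)
  have hfr := frame_of_HP (hpPlus (F := F) m)
  have hk : 3 ≤ m := by omega
  have hn : finrank F (Fin m ⊕ Fin m → F) = 2 * m := by rw [finrank_plus]
  have hFn : Nat.card F = q := by rw [Nat.card_eq_fintype_card, hF]
  obtain ⟨B, hB⟩ : ∃ B, (q ^ m - 1) * (q ^ (m - 1) + 1) = (q - 1) * B := by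
    have h1 := Nat.sub_dvd_pow_sub_pow q 1 m
    rw [one_pow] at h1
    obtain ⟨c, hc⟩ := h1
    exact ⟨c * (q ^ (m - 1) + 1), by rw [hc]; ring⟩
  have hq1 : 0 < q - 1 := by omega
  have hBd : (q ^ m - 1) * (q ^ (m - 1) + 1) / (q - 1) = B := by
    rw [hB]; exact Nat.mul_div_cancel_left _ hq1
  rw [hBd]
  have hmm : m - 1 + 1 = m := by omega
  have hsing : Nat.card {u : Fin m ⊕ Fin m → F // u ≠ 0 ∧ quadPlus m F u = 0} = (q - 1) * B := by
    have h1 := Z_plus_sub (F := F) (m - 1)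
    rw [hmm, hF] at h1
    rw [card_ne_zero_sing, h1, ← hB]
  have hpw : 4 ≤ q ^ (m - 1) := by
    calc 4 ≤ q := hq
      _ ≤ q ^ (m - 1) := Nat.le_self_pow (by omega) q
  have hqm : q ^ m = q * q ^ (m - 1) := by
    conv_lhs => rw [← hmm, pow_succ]
    ring
  -- the number of vectors of given norm
  have hNc : ∀ c : F, c ≠ 0 → B * 2 ≤ Nat.card {u : Fin m ⊕ Fin m → F // quadPlus m F u = c} := by
    intro c hc
    have h1 := Nc_plus hc (m - 1)
    rw [hF, hmm] at h1
    change _ ≤ Nc (quadPlus m F) c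
    rw [h1]
    refine Nat.le_of_mul_le_mul_left (c := q - 1) ?_ hq1
    calc (q - 1) * (B * 2) = ((q - 1) * B) * 2 := by ring
      _ = (q ^ m - 1) * ((q ^ (m - 1) + 1) * 2) := by rw [← hB]; ring
      _ ≤ (q ^ m - 1) * ((q - 1) * q ^ (m - 1)) := by
          apply Nat.mul_le_mul_left
          have : 3 * q ^ (m - 1) ≤ (q - 1) * q ^ (m - 1) := Nat.mul_le_mul_right _ (by omega)
          omega
      _ = (q - 1) * (q ^ (m - 1) * (q ^ m - 1)) := by ring
  obtain ⟨p, hpF, hpC, hp2, hp3⟩ := exists_char_prime F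
  have hBle : B ≤ (q - 1) * B := Nat.le_mul_of_pos_left _ hq1
  constructor
  · rcases Nat.lt_or_ge m 5 with h5 | h5
    · have hm4 : m = 4 := by omega
      subst hm4
      intro H hH
      have : Finite (Cfsg.POmega F ⇑(quadPlus 4 F)) := Quotient.finite _
      have h5 := num_plus8 hq hB
      have hN : Num8 F B := by
        refine ⟨by rw [hFn]; exact h5, ?_, by rw [hFn, hsing, mul_comm], fun c hc _ => hNc c hc,
          fun c hc _ => le_trans (by omega) (hNc c hc)⟩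
        rw [hFn]
        refine h5.trans ?_
        have e1 : q ^ 8 = q ^ 5 * q ^ 3 := by ring
        rw [e1]
        apply Nat.mul_le_mul_left
        have e2 : q ^ 3 = q * (q * q) := by ring
        rw [e2]
        nlinarith
      refine index8 hQ hgen hN (fun X _ _ x hx hX => twoT_of_four_le hQ hgen x hx (by rw [hFn]; exact hq) ?_) H hH
        (Subgroup.index_ne_zero_of_finite)
      rw [hFn]
      exact lt_of_lt_of_le hX h5
    · apply bridge_ge
      intro K hK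
      have h6 := orbN_big hQ hgen (by rw [hn]; omega)
      rw [hn, hFn] at h6
      refine min_index (p := p) hQ hgen hfr hk (by rw [hn]; omega) h6 ?_ ?_ (by rw [hFn, hsing, mul_comm])
        (fun c hc _ => hNc c hc) (fun c hc _ => le_trans (by omega) (hNc c hc)) K hK
      · rw [hn, hFn]
        have h7 := num_plus (q := q) (p := p) (s := nsq F) (m := m) hq h5 (by
          by_cases h2 : (2 : F) = 0
          · left
            have h3 : p ∣ 2 := (CharP.cast_eq_zero_iff F p 2).1 (by exact_mod_cast h2)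
            exact ⟨(Nat.prime_dvd_prime_iff_eq hpF.out Nat.prime_two).1 h3, by rw [nsq_even h2, hFn]⟩
          · right
            refine ⟨hp3 h2, ?_⟩
            have := nsq_odd (F := F)
            rwa [hFn] at this)
        rw [hB] at h7
        exact Nat.le_of_mul_le_mul_left h7 hq1
      · rw [hn, hFn]
        refine hBle.trans (hB ▸ ?_)
        have h8 : (q ^ m - 1) * (q ^ (m - 1) + 1) ≤ q ^ m * q ^ m := by
          apply Nat.mul_le_mul (Nat.sub_le _ _)
          rw [hqm]; nlinarith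
        refine h8.trans ?_
        rw [← pow_add]
        calc q ^ (m + m) ≤ q ^ (2 * (2 * m - 4)) := Nat.pow_le_pow_right (by omega) (by omega)
          _ ≤ _ := Nat.le_mul_of_pos_left _ (by omega)
  · set v := (hpPlus (F := F) m).e ⟨0, by omega⟩ with hv
    have hQv : quadPlus m F v = 0 := hfr.e0 _
    have hv0 : v ≠ 0 := by
      intro h0
      have h1 := hfr.ef ⟨0, by omega⟩ ⟨0, by omega⟩
      rw [← hv, h0, polar_zero_left, if_pos rfl] at h1
      exact zero_ne_one h1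
    refine bridge_eq (LS _ v) (center_le_LS hQ (hQ.R_eq_O hgen) hfr hk v) ?_
    have h1 := index_LS_sing hQ hgen hfr hk hv0 hQv
    rw [hsing, hFn] at h1
    exact (Nat.eq_of_mul_eq_mul_left hq1 h1).symm

/-- **Minimal index**, plus type, two elements -/
theorem plus2_main {F : Type u} [Field F] [Fintype F] {m : ℕ} (hF : Fintype.card F = 2) (hm : 4 ≤ m) :
    (∀ H : Subgroup (Cfsg.POmega F ⇑(quadPlus m F)), H ≠ ⊤ → 2 ^ (m - 1) * (2 ^ m - 1) ≤ H.index) ∧
    ∃ H : Subgroup (Cfsg.POmega F ⇑(quadPlus m F)), H.index = 2 ^ (m - 1) * (2 ^ m - 1) := by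
  have hQ : Nd (quadPlus m F) := nd_quadPlus
  have hgen : GenHyp (quadPlus m F) := genHyp_plus m (by omega)
  have hfr := frame_of_HP (hpPlus (F := F) m)
  have hk : 3 ≤ m := by omega
  have hn : finrank F (Fin m ⊕ Fin m → F) = 2 * m := by rw [finrank_plus]
  have hFn : Nat.card F = 2 := by rw [Nat.card_eq_fintype_card, hF]
  have h20 : (2 : F) = 0 := by
    have h7 := FiniteField.cast_card_eq_zero F
    rw [hF] at h7
    exact_mod_cast h7
  have hmm : m - 1 + 1 = m := by omega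
  obtain ⟨a, ha⟩ : ∃ a, a = 2 ^ (m - 1) := ⟨_, rfl⟩
  have ha8 : 8 ≤ a := by
    rw [ha]
    calc 8 = 2 ^ 3 := by norm_num
      _ ≤ 2 ^ (m - 1) := Nat.pow_le_pow_right (by norm_num) (by omega)
  have hqm : 2 ^ m = 2 * a := by
    rw [ha]
    conv_lhs => rw [← hmm, pow_succ]
    ring
  obtain ⟨B, hB⟩ : ∃ B, 2 ^ (m - 1) * (2 ^ m - 1) = B := ⟨_, rfl⟩
  rw [hB]
  have hsing : Nat.card {u : Fin m ⊕ Fin m → F // u ≠ 0 ∧ quadPlus m F u = 0} = (2 ^ m - 1) * (2 ^ (m - 1) + 1) := by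
    have h1 := Z_plus_sub (F := F) (m - 1)
    rw [hmm, hF] at h1
    rw [card_ne_zero_sing, h1]
  have hs : B * (Nat.card F - 1) ≤ Nat.card {u : Fin m ⊕ Fin m → F // u ≠ 0 ∧ quadPlus m F u = 0} := by
    rw [hFn, hsing, ← hB]
    norm_num
    rw [mul_comm]
    exact Nat.mul_le_mul_left _ (Nat.le_succ _)
  have hNc : ∀ c : F, c ≠ 0 → Nat.card {u : Fin m ⊕ Fin m → F // quadPlus m F u = c} = B := by
    intro c hc
    have h1 := Nc_plus hc (m - 1)
    rw [hF, hmm, hB] at h1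
    exact h1
  have hB1 : B ≤ 2 * a * a := by
    rw [← hB, ← ha, hqm, mul_comm]
    calc (2 * a - 1) * a ≤ (2 * a) * a := Nat.mul_le_mul_right _ (Nat.sub_le _ _)
      _ = _ := rfl
  constructor
  · rcases Nat.lt_or_ge m 5 with h5 | h5
    · have hm4 : m = 4 := by omega
      subst hm4
      intro H hH
      have : Finite (Cfsg.POmega F ⇑(quadPlus 4 F)) := Quotient.finite _
      have hB120 : B = 120 := by rw [← hB]; norm_num
      have hN : Num8 F B := by
        refine ⟨by rw [hFn, hB120]; norm_num, by rw [hFn, hB120]; norm_num, hs, fun c hc h => absurd h20 h,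
          fun c hc _ => (hNc c hc).ge⟩
      refine index8 hQ hgen hN (fun X _ _ x hx hX => twoT_of_two hQ hgen x hx hFn (hB120 ▸ hX)) H hH
        (Subgroup.index_ne_zero_of_finite)
    · apply bridge_ge
      intro K hK
      have h6 := orbN_big hQ hgen (by rw [hn]; omega)
      rw [hn, hFn, nsq_even h20, hFn] at h6
      obtain ⟨p, hpF, hpC, hp2, hp3⟩ := exists_char_prime F
      have hp : p = 2 := by
        have h3 : p ∣ 2 := (CharP.cast_eq_zero_iff F p 2).1 (by exact_mod_cast h20)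
        exact (Nat.prime_dvd_prime_iff_eq hpF.out Nat.prime_two).1 h3
      refine min_index (p := p) hQ hgen hfr hk (by rw [hn]; omega) h6 ?_ ?_ hs (fun c hc h => absurd h20 h)
        (fun c hc _ => (hNc c hc).ge) K hK
      · rw [hn, hFn, hp]
        refine hB1.trans ?_
        have e1 : 2 * a * a ≤ 2 * 2 ^ (2 * m - 4) * ((2 - 1) * 2 ^ (2 * m - 8)) := by
          rw [ha, mul_assoc, ← pow_add, mul_assoc, Nat.one_mul, ← pow_add]
          exact Nat.mul_le_mul_left _ (Nat.pow_le_pow_right (by norm_num) (by omega))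
        exact e1.trans (Nat.mul_le_mul_left _ (Nat.le_succ _))
      · rw [hn, hFn, hp]
        refine hB1.trans ?_
        rw [ha, mul_assoc, ← pow_add]
        exact Nat.mul_le_mul_left _ (Nat.pow_le_pow_right (by norm_num) (by omega))
  · have hpos : 0 < B := by
      rw [← hB, hqm, ← ha]
      apply Nat.mul_pos <;> omega
    have hne : Nonempty {v : Fin m ⊕ Fin m → F // quadPlus m F v = 1} := by
      by_contra hcon
      rw [not_nonempty_iff] at hcon
      have : Nat.card {v : Fin m ⊕ Fin m → F // quadPlus m F v = 1} = 0 := Nat.card_of_isEmpty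
      rw [hNc 1 one_ne_zero] at this
      omega
    obtain ⟨v, hv⟩ := hne
    have hQv : quadPlus m F v ≠ 0 := by rw [hv]; exact one_ne_zero
    refine bridge_eq (LS _ v) (center_le_LS hQ (hQ.R_eq_O hgen) hfr hk v) ?_
    have h1 := index_LS_nonsing hQ hgen hfr hk (v := v) hQv (d := 1) (fun _ => rfl) (fun h => absurd h20 h)
    rw [hv, hNc 1 one_ne_zero, one_mul] at h1
    exact h1.symm

end Cfsg.Agent.Lib.Coop
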