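import Cfsg.Agent.Lib.TwPar
import Cfsg.Agent.Lib.TwF4End
import Cfsg.Agent.Lib.TwInvJ
set_option autoImplicit false
set_option linter.unusedSectionVars false
set_option linter.unusedVariables false
set_option linter.unusedSimpArgs false

/-!
Centralizers of involutions in 2F4(q) lie in minimal parabolic subgroups.
-/

namespace Cfsg.Agent.Lib.TwF4
open Cfsg.Lie Cfsg.Agent.Lib.ChevX Cfsg.Agent.Lib.ChevGood Cfsg.Agent.Lib.ChevRel Cfsg.Agent.Lib.ChevNPerm
  Cfsg.Agent.Lib.ChevClosed Cfsg.Agent.Lib.ChevBruhat Cfsg.Agent.Lib.TwFix Cfsg.Agent.Lib.TwFix.TwRk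
  Cfsg.Agent.Lib.TwTab Cfsg.Agent.Lib.TwField Cfsg.Agent.Lib.TwSpec Cfsg.Agent.Lib.TwModp
  Cfsg.Agent.Lib.ChevInv
open scoped MatrixGroups Matrix

/-- one step -/
def fv (j s : ℕ) : ℕ := tabF4.wlN (tabF4.jwN j) s
def alt : ℕ → ℕ → List ℕ
  | _, 0 => []
  | j, n + 1 => j :: alt (1 - j) n
def wv (L : List ℕ) (s : ℕ) : ℕ := L.foldr fv s
def rep (k : ℕ) : List ℕ := if k ≤ 8 then alt 0 k else alt 1 (k - 8)
def nx (k j : ℕ) : ℕ := if j = 0 then (if k = 0 then 1 else if k = 1 then 0 else if k ≤ 8 then k + 7 else k - 7)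
  else (if k = 0 then 9 else if k ≤ 6 then k + 9 else if k = 7 then 8 else if k = 8 then 7 else k - 9)

theorem chkNx : ((List.range 16).all fun k => (List.range 2).all fun j => decide (nx k j < 16) &&
    (List.range 48).all fun s => fv j (wv (rep k) s) == wv (rep (nx k j)) s) = true := by decide +kernel

def S9 : List ℕ := [39, 45, 40, 46, 44, 47]

theorem chkA : ((List.range 16).all fun k => !(S9.any fun r => decide (wv (rep k) r ∈ [39, 45])) ||
    decide (k = 0) || decide (k = 1)) = true := by decide +kernel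
theorem chkB : ((List.range 16).all fun k => !([44, 47].any fun r => decide (wv (rep k) r ∈ [44, 47])) ||
    decide (k = 0) || decide (k = 9)) = true := by decide +kernel
theorem chkC : ((List.range 16).all fun k => S9.all fun r => S9.all fun s => decide (r = s) ||
    decide (wv (rep k) r < 24) || decide (wv (rep k) s < 24) ||
    (chevF4.commTerms (wv (rep k) r) (wv (rep k) s)).all fun c => decide (c.2.1.natAbs % 2 = 0)) = true := by
  decide +kernel
theorem chkRk : ((List.range 48).all fun r => decide (r < 24) || decide (tabF4.rkN r < 9) || decide (r ∈ S9)) = true := by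
  decide +kernel
theorem chkRk2 : ((List.range 48).all fun r => decide (r < 24) || decide (tabF4.rkN r < 11) || decide (r ∈ [44, 47])) = true := by
  decide +kernel
theorem chkRk3 : ((List.range 48).all fun r => decide (r < 24) || decide (tabF4.rkN r < 9) || decide (10 ≤ tabF4.rkN r) ||
    decide (r ∈ [39, 45])) = true := by
  decide +kernel

section
variable {K : Type*} [Field K] [Fintype K] {m : ℕ} (hK : Fintype.card K = 2 ^ (2 * m + 1))
include hK

noncomputable abbrev WG : TwGen (T hK) tabF4.nz :=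
  gen (sig hK) chk1F4 chk2F4 chk3F4 listed fun j hj => (le_fix hK) (n_mem' hK j hj)

theorem wj_val (j : Fin tabF4.nz) (s : Fin chevF4.nroots) : (((WG hK).wj j s : Fin chevF4.nroots) : ℕ) = fv j s :=
  wlj_eq (G := G) chk1F4 chk3F4 j.2 s

theorem prod_val (L : List (Fin tabF4.nz)) (s : Fin chevF4.nroots) :
    (((L.map (WG hK).wj).prod s : Fin chevF4.nroots) : ℕ) = wv (L.map Fin.val) s := by
  induction L with
  | nil => rfl
  | cons j L ih =>
    rw [List.map_cons, List.prod_cons, Equiv.Perm.mul_apply, wj_val hK, ih]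
    rfl

omit hK in
theorem wv_idx (L : List (Fin tabF4.nz)) : ∃ k < 16, ∀ s < 48, wv (L.map Fin.val) s = wv (rep k) s := by
  induction L with
  | nil => exact ⟨0, by norm_num, fun s _ => rfl⟩
  | cons j L ih =>
    obtain ⟨k, hk, h⟩ := ih
    have h1 := List.all_eq_true.mp (List.all_eq_true.mp chkNx k (List.mem_range.mpr hk)) (j : ℕ)
      (List.mem_range.mpr (show (j : ℕ) < 2 from j.2))
    rw [Bool.and_eq_true, decide_eq_true_eq] at h1
    refine ⟨nx k j, h1.1, fun s hs => ?_⟩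
    have h2 := List.all_eq_true.mp h1.2 s (List.mem_range.mpr hs)
    rw [beq_iff_eq] at h2
    rw [← h2, ← h s hs]
    rfl

/-- the index of the permutation of an element of `N` -/
theorem exists_idx {n : GL chevF4.Idx K} (hn : n ∈ chevF4.monomialSubgroup K ⊓ twistedF4 K (2 ^ m))
    {w : Equiv.Perm (Fin chevF4.nroots)} (hw : Mono G n w) :
    ∃ k < 16, ∀ s : Fin chevF4.nroots, ((w s : Fin chevF4.nroots) : ℕ) = wv (rep k) s := by
  obtain ⟨L, rfl⟩ := (all hK).exists_word_perm hn hw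
  obtain ⟨k, hk, h⟩ := wv_idx L
  exact ⟨k, hk, fun s => by rw [← h s s.2]; exact prod_val hK L s⟩

theorem eq_of_idx {w : Equiv.Perm (Fin chevF4.nroots)} {k : ℕ}
    (h : ∀ s : Fin chevF4.nroots, ((w s : Fin chevF4.nroots) : ℕ) = wv (rep k) s) :
    (k = 0 → w = 1) ∧ (k = 1 → w = (WG hK).wj ⟨0, by decide⟩) ∧ (k = 9 → w = (WG hK).wj ⟨1, by decide⟩) := by
  refine ⟨?_, ?_, ?_⟩
  · rintro rfl
    ext s
    rw [h s]; rfl
  · rintro rfl
    ext s
    rw [h s, wj_val hK]; rfl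
  · rintro rfl
    ext s
    rw [h s, wj_val hK]; rfl

noncomputable abbrev RK : TwRk (T hK) := rkS (sig hK) chk1F4 chk2F4 listed chk4F4 (hp2 hK)

theorem mem_up {k : ℕ} {r : Fin chevF4.nroots} : r ∈ (RK hK).up (posS chevF4) k ↔ 24 ≤ (r : ℕ) ∧ k ≤ tabF4.rkN r := Iff.rfl

theorem up9 {r : Fin chevF4.nroots} (h : r ∈ (RK hK).up (posS chevF4) 9) : (r : ℕ) ∈ S9 := by
  have h1 := List.all_eq_true.mp chkRk r (List.mem_range.mpr r.2)
  rw [mem_up hK] at h
  simp only [Bool.or_eq_true, decide_eq_true_eq] at h1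
  rcases h1 with (h1 | h1) | h1
  · omega
  · omega
  · exact h1

theorem up11 {r : Fin chevF4.nroots} (h : r ∈ (RK hK).up (posS chevF4) 11) : (r : ℕ) ∈ [44, 47] := by
  have h1 := List.all_eq_true.mp chkRk2 r (List.mem_range.mpr r.2)
  rw [mem_up hK] at h
  simp only [Bool.or_eq_true, decide_eq_true_eq] at h1
  rcases h1 with (h1 | h1) | h1
  · omega
  · omega
  · exact h1

theorem up910 {r : Fin chevF4.nroots} (h : r ∈ (RK hK).up (posS chevF4) 9) (h' : r ∉ (RK hK).up (posS chevF4) 10) :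
    (r : ℕ) ∈ [39, 45] := by
  have h1 := List.all_eq_true.mp chkRk3 r (List.mem_range.mpr r.2)
  rw [mem_up hK] at h h'
  simp only [Bool.or_eq_true, decide_eq_true_eq] at h1
  rcases h1 with ((h1 | h1) | h1) | h1
  · omega
  · omega
  · exact absurd ⟨h.1, h1⟩ h'
  · exact h1

theorem closed_img {k : ℕ} (hk : k < 16) {w : Equiv.Perm (Fin chevF4.nroots)}
    (h : ∀ s : Fin chevF4.nroots, ((w s : Fin chevF4.nroots) : ℕ) = wv (rep k) s) {a : ℕ} (ha : 9 ≤ a) :
    Closed K (w '' ((RK hK).up (posS chevF4) a ∩ {r | Pos chevF4 (w r)})) := by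
  have h2 : CharP K 2 := char2 hK
  constructor
  · rintro _ ⟨r, hr, rfl⟩
    exact hr.2
  · rintro _ ⟨r, hr, rfl⟩ _ ⟨s, hs, rfl⟩ hne c hc hc0 q hq
    exfalso
    apply hc0
    have hr9 := up9 hK (r := r) ⟨hr.1.1, ha.trans hr.1.2⟩
    have hs9 := up9 hK (r := s) ⟨hs.1.1, ha.trans hs.1.2⟩
    have h1 := List.all_eq_true.mp (List.all_eq_true.mp (List.all_eq_true.mp chkC k (List.mem_range.mpr hk)) r hr9) s hs9
    rw [← h r, ← h s] at h1
    simp only [Bool.or_eq_true, decide_eq_true_eq] at h1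
    have e1 : 24 ≤ ((w r : Fin chevF4.nroots) : ℕ) := hr.2
    have e2 : 24 ≤ ((w s : Fin chevF4.nroots) : ℕ) := hs.2
    rcases h1 with ((h1 | h1) | h1) | h1
    · exact absurd (congrArg w (Fin.ext h1)).symm hne
    · omega
    · omega
    · have h3 := List.all_eq_true.mp h1 c hc
      rw [decide_eq_true_eq] at h3
      exact hp2 hK _ (by norm_num) h3

theorem exists_par {x0 : GL chevF4.Idx K} {a b : ℕ} (ha : 9 ≤ a) (j : Fin tabF4.nz)
    (h1 : x0 ∈ XS chevF4 K ((RK hK).up (posS chevF4) a)) (h2 : x0 ∉ XS chevF4 K ((RK hK).up (posS chevF4) b))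
    (hw : ∀ (w : Equiv.Perm (Fin chevF4.nroots)) (k : ℕ), k < 16 →
      (∀ s : Fin chevF4.nroots, ((w s : Fin chevF4.nroots) : ℕ) = wv (rep k) s) →
      (∃ r, r ∈ (RK hK).up (posS chevF4) a ∧ w r ∈ (RK hK).up (posS chevF4) a ∧ w r ∉ (RK hK).up (posS chevF4) b) →
      w = 1 ∨ w = (WG hK).wj j)
    (g : ↥(twistedF4 K (2 ^ m))) (hg : (g : GL chevF4.Idx K) * x0 = x0 * g) : g ∈ (all hK).par j := by
  obtain ⟨g, hgm⟩ := g
  obtain ⟨u, hu, n, hn, w, hwn, u', hu', rfl⟩ := (all hK).grp.bruhat hgm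
  have hu2 : u' ∈ chevF4.posUnipotent K := (all hK).grp.U_of hu'.1
  obtain ⟨k, hk, hkv⟩ := exists_idx hK hn hwn
  have h3 := (all hK).comm_perm h1 h2 hu.1 hu2 hwn (closed_img hK hk hkv ha) hg
  exact (all hK).mem_par j hu hn ⟨hu2, hu'.2⟩ hwn (hw w k hk hkv h3)

theorem par_A (g : ↥(twistedF4 K (2 ^ m))) (hg : (g : GL chevF4.Idx K) * p1 chevF4 K [47, 44] = p1 chevF4 K [47, 44] * g) :
    g ∈ (all hK).par ⟨1, by decide⟩ := by
  have h47 : (⟨47, by decide⟩ : Fin chevF4.nroots) ∈ (RK hK).up (posS chevF4) 11 := (mem_up hK).mpr (by decide)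
  have h44 : (⟨44, by decide⟩ : Fin chevF4.nroots) ∈ (RK hK).up (posS chevF4) 11 := (mem_up hK).mpr (by decide)
  refine exists_par hK (a := 11) (b := 12) (by norm_num) _ ?_ ?_ ?_ g hg
  · rw [p1_cons, p1_cons, p1_nil, mul_one]
    exact mul_mem (xg_mem_XS h47 1) (xg_mem_XS h44 1)
  · intro h
    have h1 : (RK hK).up (posS chevF4) 12 = ∅ := by
      ext r
      simp only [Set.mem_empty_iff_false, iff_false]
      intro hr
      have h2 := up11 hK (r := r) ⟨hr.1, le_trans (by norm_num) hr.2⟩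
      have h3 := ((mem_up hK).mp hr).2
      simp only [List.mem_cons, List.not_mem_nil, or_false] at h2
      rcases h2 with h2 | h2 <;> rw [h2] at h3 <;> revert h3 <;> decide
    have h4 : XS chevF4 K (∅ : Set (Fin chevF4.nroots)) = ⊥ := by unfold XS; simp
    rw [h1, h4, Subgroup.mem_bot, p1_cons, p1_cons, p1_nil, mul_one] at h
    have hrk : (RK hK).rk (⟨47, by decide⟩ : Fin chevF4.nroots) = 11 := by show tabF4.rkN 47 = 11; decide
    have h5 : Co ((RK hK).up (posS chevF4) ((RK hK).rk (⟨47, by decide⟩ : Fin chevF4.nroots)) \ {⟨47, by decide⟩})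
        (⟨47, by decide⟩ : Fin chevF4.nroots) 1 (1 : GL chevF4.Idx K) := by
      unfold Co
      rw [← h, hrk]
      show (xg chevF4 K 47 1)⁻¹ * (xg chevF4 K 47 1 * xg chevF4 K 44 1) ∈ _
      rw [inv_mul_cancel_left]
      have hm : (⟨44, by decide⟩ : Fin chevF4.nroots) ∈ (RK hK).up (posS chevF4) 11 \ {⟨47, by decide⟩} :=
        ⟨h44, fun h => absurd (congrArg Fin.val h) (by decide)⟩
      exact xg_mem_XS hm 1
    have h6 : Co ((RK hK).up (posS chevF4) ((RK hK).rk (⟨47, by decide⟩ : Fin chevF4.nroots)) \ {⟨47, by decide⟩})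
        (⟨47, by decide⟩ : Fin chevF4.nroots) 0 (1 : GL chevF4.Idx K) := by
      unfold Co
      rw [xg_zero G, inv_one, one_mul]
      exact one_mem _
    exact one_ne_zero (co_unique (closed_posS G) (show Pos chevF4 (⟨47, by decide⟩ : Fin chevF4.nroots) from h47.1) h5 h6)
  · rintro w k hk hkv ⟨r, hr, hr2, -⟩
    have h1 := up11 hK hr
    have h2 := up11 hK hr2
    rw [hkv r] at h2
    have h3 := List.all_eq_true.mp chkB k (List.mem_range.mpr hk)
    have h4 : ([44, 47].any fun r => decide (wv (rep k) r ∈ [44, 47])) = true :=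
      List.any_eq_true.mpr ⟨r, h1, decide_eq_true h2⟩
    rw [h4] at h3
    simp only [Bool.not_true, Bool.false_or, Bool.or_eq_true, decide_eq_true_eq] at h3
    have h5 := eq_of_idx hK hkv
    rcases h3 with h3 | h3
    · exact Or.inl (h5.1 h3)
    · exact Or.inr (h5.2.2 h3)

theorem par_B (g : ↥(twistedF4 K (2 ^ m))) (hg : (g : GL chevF4.Idx K) * p1 chevF4 K [39, 45] = p1 chevF4 K [39, 45] * g) :
    g ∈ (all hK).par ⟨0, by decide⟩ := by
  have h39 : (⟨39, by decide⟩ : Fin chevF4.nroots) ∈ (RK hK).up (posS chevF4) 9 := (mem_up hK).mpr (by decide)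
  have h45 : (⟨45, by decide⟩ : Fin chevF4.nroots) ∈ (RK hK).up (posS chevF4) 9 := (mem_up hK).mpr (by decide)
  refine exists_par hK (a := 9) (b := 10) (by norm_num) _ ?_ ?_ ?_ g hg
  · rw [p1_cons, p1_cons, p1_nil, mul_one]
    exact mul_mem (xg_mem_XS h39 1) (xg_mem_XS h45 1)
  · intro h
    have hrk : (RK hK).rk (⟨39, by decide⟩ : Fin chevF4.nroots) = 9 := by show tabF4.rkN 39 = 9; decide
    have h1 : Co ((RK hK).up (posS chevF4) ((RK hK).rk (⟨39, by decide⟩ : Fin chevF4.nroots)) \ {⟨39, by decide⟩})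
        (⟨39, by decide⟩ : Fin chevF4.nroots) 1 (p1 chevF4 K [39, 45]) := by
      unfold Co
      rw [p1_cons, p1_cons, p1_nil, mul_one]
      show (xg chevF4 K 39 1)⁻¹ * (xg chevF4 K 39 1 * xg chevF4 K 45 1) ∈ _
      rw [inv_mul_cancel_left, hrk]
      have hm : (⟨45, by decide⟩ : Fin chevF4.nroots) ∈ (RK hK).up (posS chevF4) 9 \ {⟨39, by decide⟩} :=
        ⟨h45, fun h => absurd (congrArg Fin.val h) (by decide)⟩
      exact xg_mem_XS hm 1
    have h2 : Co ((RK hK).up (posS chevF4) ((RK hK).rk (⟨39, by decide⟩ : Fin chevF4.nroots)) \ {⟨39, by decide⟩})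
        (⟨39, by decide⟩ : Fin chevF4.nroots) 0 (p1 chevF4 K [39, 45]) := by
      unfold Co
      rw [xg_zero G, inv_one, one_mul, hrk]
      refine XS_mono ?_ h
      rintro r ⟨hr, hr2⟩
      refine ⟨⟨hr, le_trans (by norm_num) hr2⟩, ?_⟩
      rintro rfl
      rw [hrk] at hr2
      omega
    exact one_ne_zero (co_unique (closed_posS G) (show Pos chevF4 (⟨39, by decide⟩ : Fin chevF4.nroots) from h39.1) h1 h2)
  · rintro w k hk hkv ⟨r, hr, hr2, hr3⟩
    have h1 := up9 hK hr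
    have h2 := up910 hK hr2 hr3
    rw [hkv r] at h2
    have h3 := List.all_eq_true.mp chkA k (List.mem_range.mpr hk)
    have h4 : (S9.any fun r => decide (wv (rep k) r ∈ [39, 45])) = true :=
      List.any_eq_true.mpr ⟨r, h1, decide_eq_true h2⟩
    rw [h4] at h3
    simp only [Bool.not_true, Bool.false_or, Bool.or_eq_true, decide_eq_true_eq] at h3
    have h5 := eq_of_idx hK hkv
    rcases h3 with h3 | h3
    · exact Or.inl (h5.1 h3)
    · exact Or.inr (h5.2.1 h3)

theorem card_Inv (j : Fin tabF4.nz) :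
    Nat.card ↥(XS chevF4 K (ChevBruhat.Inv ((WG hK).wj j)) ⊓ twistedF4 K (2 ^ m)) =
      (2 ^ (2 * m + 1)) ^ (wtabF4.bs.map fun b => if tabF4.pos (fv j b) then 0 else wtabF4.erN b).sum := by
  have hn : (WG hK).nj j ∈ chevF4.monomialSubgroup K ⊓ twistedF4 K (2 ^ m) := ⟨(WG hK).nj_mem_N j, (all hK).n_mem j⟩
  have hw : Mono G ((WG hK).nj j) ((WG hK).wj j) := (WG hK).mono_nj j
  have h1 := card_Inv_tab (sig hK) chk1F4 chk2F4 chk3F4 listed chk4F4 chk5F4 (hp2 hK) (le_fix hK) (n_mem' hK) (all hK) chk7F4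
    bsF4 (card_T hK) hn hw
  refine h1.trans (congrArg _ (congrArg List.sum ?_))
  apply List.map_congr_left
  intro b hb
  have hb2 : b < chevF4.nroots := by
    have : ∀ b ∈ wtabF4.bs, b < chevF4.nroots := by decide +kernel
    exact this b hb
  rw [dif_pos hb2, wj_val hK]

theorem card_par0 : Nat.card ↥((all hK).par ⟨0, by decide⟩) =
    (2 ^ (2 * m + 1)) ^ 12 * (2 ^ (2 * m + 1) - 1) ^ 2 * (1 + 2 ^ (2 * m + 1)) := by
  rw [(all hK).card_par ⟨0, by decide⟩ ?_, card_U hK, card_H hK, card_Inv hK]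
  · have : (wtabF4.bs.map fun b => if tabF4.pos (fv 0 b) then 0 else wtabF4.erN b).sum = 1 := by decide +kernel
    rw [this, pow_one]
  · intro h
    have h1 := wj_val hK ⟨0, by decide⟩ ⟨33, by decide⟩
    rw [h] at h1
    revert h1
    decide +kernel

theorem card_par1 : Nat.card ↥((all hK).par ⟨1, by decide⟩) =
    (2 ^ (2 * m + 1)) ^ 12 * (2 ^ (2 * m + 1) - 1) ^ 2 * (1 + (2 ^ (2 * m + 1)) ^ 2) := by
  rw [(all hK).card_par ⟨1, by decide⟩ ?_, card_U hK, card_H hK, card_Inv hK]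
  · have : (wtabF4.bs.map fun b => if tabF4.pos (fv 1 b) then 0 else wtabF4.erN b).sum = 2 := by decide +kernel
    rw [this]
  · intro h
    have h1 := wj_val hK ⟨1, by decide⟩ ⟨27, by decide⟩
    rw [h] at h1
    revert h1
    decide +kernel

theorem primes (a b : ↥(twistedF4 K (2 ^ m))) (ha : orderOf a = 2) (hab : Commute a b) :
    (orderOf b).primeFactors ⊆ (2 ^ (2 * m + 1) * ((2 ^ (2 * m + 1)) ^ 4 - 1)).primeFactors := by
  set q := 2 ^ (2 * m + 1) with hq
  have hq2 : 2 ≤ q := by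
    rw [hq, pow_succ]
    have := Nat.one_le_two_pow (n := 2 * m)
    omega
  obtain ⟨k, hk⟩ : ∃ k, q = k + 2 := ⟨q - 2, by omega⟩
  have hq4 : q ^ 4 - 1 = (q - 1) * ((1 + q) * (1 + q ^ 2)) := by
    rw [hk, show k + 2 - 1 = k + 1 by omega]
    have : (k + 2) ^ 4 = (k + 1) * ((1 + (k + 2)) * (1 + (k + 2) ^ 2)) + 1 := by ring
    omega
  have hne : q * (q ^ 4 - 1) ≠ 0 := by
    rw [hq4]
    have : 0 < q - 1 := by omega
    positivity
  have hΓ := (all hK).eq_fix
  have haf : (a : GL chevF4.Idx K) ∈ (T hK).fix := hΓ ▸ a.2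
  have ha2 : orderOf (a : GL chevF4.Idx K) = 2 := by rw [Subgroup.orderOf_coe]; exact ha
  obtain ⟨A, hA, g, hg, he⟩ := Cfsg.Agent.Lib.TwInv.F4_all hK haf ha2
  rw [← hΓ] at hg
  set b' : ↥(twistedF4 K (2 ^ m)) := ⟨g, hg⟩ * b * ⟨g, hg⟩⁻¹ with hb'
  have ho : orderOf b' = orderOf b := by
    rw [hb']
    exact (orderOf_injective (MulAut.conj (⟨g, hg⟩ : ↥(twistedF4 K (2 ^ m)))).toMonoidHom (MulAut.conj _).injective b)
  have hc : (b' : GL chevF4.Idx K) * p1 chevF4 K A = p1 chevF4 K A * b' := by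
    rw [← he, hb']
    have h1 : (a : GL chevF4.Idx K) * b = b * a := congrArg Subtype.val hab.eq
    show g * (b : GL chevF4.Idx K) * g⁻¹ * (g * a * g⁻¹) = g * a * g⁻¹ * (g * (b : GL chevF4.Idx K) * g⁻¹)
    calc g * (b : GL chevF4.Idx K) * g⁻¹ * (g * a * g⁻¹) = g * ((b : GL chevF4.Idx K) * a) * g⁻¹ := by group
      _ = g * ((a : GL chevF4.Idx K) * b) * g⁻¹ := by rw [h1]
      _ = _ := by group
  have hdvd : ∃ e, (e = 1 ∨ e = 2) ∧ orderOf b ∣ q ^ 12 * (q - 1) ^ 2 * (1 + q ^ e) := by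
    simp only [List.mem_cons, List.not_mem_nil, or_false] at hA
    rcases hA with rfl | rfl
    · refine ⟨2, Or.inr rfl, ?_⟩
      have h1 := par_A hK b' hc
      rw [← ho, ← card_par1 hK, ← Subgroup.orderOf_mk b' h1]
      exact orderOf_dvd_natCard _
    · refine ⟨1, Or.inl rfl, ?_⟩
      have h1 := par_B hK b' hc
      rw [← ho, pow_one, ← card_par0 hK, ← Subgroup.orderOf_mk b' h1]
      exact orderOf_dvd_natCard _
  obtain ⟨e, he, hdvd⟩ := hdvd
  intro p hp
  obtain ⟨hp1, hp2, hp3⟩ := Nat.mem_primeFactors.mp hp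
  refine Nat.mem_primeFactors.mpr ⟨hp1, ?_, hne⟩
  have h1 := hp2.trans hdvd
  rw [hq4]
  rcases (Nat.Prime.dvd_mul hp1).mp h1 with h1 | h1
  · rcases (Nat.Prime.dvd_mul hp1).mp h1 with h1 | h1
    · exact (hp1.dvd_of_dvd_pow h1).mul_right _
    · exact ((hp1.dvd_of_dvd_pow h1).mul_right _).mul_left _
  · rcases he with rfl | rfl
    · rw [pow_one] at h1
      exact ((h1.mul_right _).mul_left _).mul_left _
    · exact ((h1.mul_left _).mul_left _).mul_left _

end

end Cfsg.Agent.Lib.TwF4
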