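import Cfsg.Agent.Lib.TwD4
import Cfsg.Agent.Lib.ChevTorus3
import Cfsg.Agent.Lib.ChevGraph

set_option autoImplicit false

/-!
# The Steinberg endomorphism of type `3D4` over an algebraically closed field (helper40)

`Psi Γ f` : conjugation by the graph matrix composed with the entrywise map `f`.
-/

namespace Cfsg.Agent.Lib.TwLang
open Cfsg.Lie Cfsg.Agent.Lib.ChevX Cfsg.Agent.Lib.ChevGood Cfsg.Agent.Lib.ChevRel Cfsg.Agent.Lib.ChevNPerm
  Cfsg.Agent.Lib.ChevClosed Cfsg.Agent.Lib.ChevBruhat Cfsg.Agent.Lib.ChevFix Cfsg.Agent.Lib.ChevHOrder Cfsg.Agent.Lib.ChevAuto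
  Cfsg.Agent.Lib.TwFix Cfsg.Agent.Lib.TwTab Cfsg.Agent.Lib.ChevTorus
open scoped MatrixGroups Matrix

section gen
variable {D : ChevalleyDatum} (G : Good D) (Γ : GraphData D) {F K : Type*} [Field F] [Field K]

/-- graph times field -/
noncomputable def Psi (f : F →+* F) : GL D.Idx F →* GL D.Idx F :=
  (MulAut.conj (gG F Γ)).toMonoidHom.comp (em D f)

theorem Psi_apply (f : F →+* F) (g : GL D.Idx F) : Psi Γ f g = gG F Γ * em D f g * (gG F Γ)⁻¹ := rfl

theorem em_gG (φ : F →+* K) : em D φ (gG F Γ) = gG K Γ := by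
  apply Units.ext
  rw [coe_em]
  ext row col
  rcases row with a | a <;> rcases col with b | b
  · show φ (if a.val = Γ.σ b.val then (1 : F) else 0) = if a.val = Γ.σ b.val then (1 : K) else 0
    split_ifs <;> simp
  · show φ 0 = 0
    simp
  · show φ 0 = 0
    simp
  · show φ (if a.val = Γ.ρ b.val then ((Γ.e b.val : ℤ) : F) else 0) = if a.val = Γ.ρ b.val then ((Γ.e b.val : ℤ) : K) else 0
    split_ifs <;> simp

include G in
theorem Psi_xg (f : F →+* F) {s : ℕ} (hs : s < D.nroots) (t : F) :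
    Psi Γ f (xg D F s t) = xg D F (Γ.ρ s) ((Γ.e s : F) * f t) := by
  rw [Psi_apply, em_xg G, gG_conj Γ G hs]

include G in
theorem em_Psi {ι : F →+* K} {f : F →+* F} {f' : K →+* K} (h : ι.comp f = f'.comp ι) (g : GL D.Idx F) :
    em D ι (Psi Γ f g) = Psi Γ f' (em D ι g) := by
  rw [Psi_apply, Psi_apply, map_mul, map_mul, map_inv, em_gG, em_comp G, em_comp G, h]

include G in
theorem Psi_group (f : F →+* F) {g : GL D.Idx F} (hg : g ∈ D.group F) : Psi Γ f g ∈ D.group F := by
  have : D.group F ≤ (D.group F).comap (Psi Γ f) := by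
    rw [ChevAuto.group_eq G, Subgroup.closure_le]
    rintro _ ⟨r, hr, t, rfl⟩
    rw [SetLike.mem_coe, Subgroup.mem_comap, Psi_xg G Γ f hr]
    exact Subgroup.subset_closure ⟨_, Γ.lt r hr, _, rfl⟩
  exact this hg

theorem Psi_inj (f : F →+* F) : Function.Injective (Psi Γ f) := by
  intro a b h
  rw [Psi_apply, Psi_apply] at h
  exact em_injective f (mul_left_cancel (mul_right_cancel h))

end gen

section D4

open Cfsg.Agent.Lib.ChevGraph Cfsg.Agent.Lib.TwD4

variable {F : Type*} [Field F]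

theorem simpg : ∀ i < 4, graphD4a.ρ (chevD4.simple i) = chevD4.simple (tabD4.pi.getD i 0) ∧ graphD4a.e (chevD4.simple i) = 1 ∧
    graphD4a.ρ (chevD4.neg (chevD4.simple i)) = chevD4.neg (chevD4.simple (tabD4.pi.getD i 0)) ∧
    graphD4a.e (chevD4.neg (chevD4.simple i)) = 1 := by
  decide +kernel

theorem agree (q : ℕ) (f : F ≃+* F) (hf : ∀ t, f t = t ^ q)
    (α β : chevD4.group F ≃* chevD4.group F) (hα : IsGraph chevD4 F tabD4.pi α) (hβ : IsFieldAut chevD4 F f β)
    {g : GL chevD4.Idx F} (hg : g ∈ chevD4.group F) :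
    ((gfSig TwD4.G tabD4 q f hf α β hα hβ).sys chk1D4 chk2D4 listed).s g = Psi graphD4a (f : F →+* F) g := by
  set T := (gfSig TwD4.G tabD4 q f hf α β hα hβ).sys chk1D4 chk2D4 listed with hT
  have key : ∀ x ∈ Subgroup.closure {g | ∃ i < chevD4.rank, ∃ t : F, g = xg chevD4 F (chevD4.simple i) t ∨
      g = xg chevD4 F (chevD4.neg (chevD4.simple i)) t}, x ∈ chevD4.group F ∧ T.s x = Psi graphD4a (f : F →+* F) x := by
    intro x hx
    refine ⟨by rw [group_eq_simple TwD4.G]; exact hx, ?_⟩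
    induction hx using Subgroup.closure_induction with
    | mem x hx =>
      obtain ⟨i, hi, t, h⟩ := hx
      obtain ⟨s1, s2, s3, s4⟩ := simpg i hi
      have hsi := TwD4.G.simple_lt i hi
      rcases h with rfl | rfl
      · rw [Psi_xg TwD4.G _ _ hsi, s1, s2, T.s_eq (xg_mem_group TwD4.G _ _)]
        have := (gfSig TwD4.G tabD4 q f hf α β hα hβ).σp i hi t
        have h2 := congrArg Subtype.val this
        rw [Int.cast_one, one_mul]
        refine Eq.trans ?_ (h2.trans ?_)
        · rfl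
        · show xg chevD4 F _ (t ^ q) = _
          rw [← hf]; rfl
      · rw [Psi_xg TwD4.G _ _ (neg_lt TwD4.G hsi), s3, s4, T.s_eq (xg_mem_group TwD4.G _ _)]
        have := (gfSig TwD4.G tabD4 q f hf α β hα hβ).σm i hi t
        have h2 := congrArg Subtype.val this
        rw [Int.cast_one, one_mul]
        refine Eq.trans ?_ (h2.trans ?_)
        · rfl
        · show xg chevD4 F _ (t ^ q) = _
          rw [← hf]; rfl
    | one => rw [T.s_one, map_one]
    | mul x y hx hy h1 h2 =>
      rw [← group_eq_simple TwD4.G] at hx hy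
      rw [T.s_mul hx hy, h1, h2, map_mul]
    | inv x hx h1 =>
      rw [← group_eq_simple TwD4.G] at hx
      rw [T.s_inv hx, h1, map_inv]
  rw [group_eq_simple TwD4.G] at hg
  exact (key g hg).2

theorem cube_fix : ∀ s < 24, graphD4a.ρ (graphD4a.ρ (graphD4a.ρ s)) = s ∧
    graphD4a.e (graphD4a.ρ (graphD4a.ρ s)) * (graphD4a.e (graphD4a.ρ s) * graphD4a.e s) = 1 := by
  decide +kernel

/-- the third power of the endomorphism is the field map -/
theorem Psi_cube (f : F →+* F) {g : GL chevD4.Idx F} (hg : g ∈ chevD4.group F) :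
    Psi graphD4a f (Psi graphD4a f (Psi graphD4a f g)) = em chevD4 (f.comp (f.comp f)) g := by
  have key : ∀ x ∈ Subgroup.closure {g | ∃ r < chevD4.nroots, ∃ t : F, g = xg chevD4 F r t},
      Psi graphD4a f (Psi graphD4a f (Psi graphD4a f x)) = em chevD4 (f.comp (f.comp f)) x := by
    intro x hx
    induction hx using Subgroup.closure_induction with
    | mem x hx =>
      obtain ⟨r, hr, t, rfl⟩ := hx
      obtain ⟨c1, c2⟩ := cube_fix r hr
      rw [Psi_xg TwD4.G _ _ hr, Psi_xg TwD4.G _ _ (graphD4a.lt _ hr), Psi_xg TwD4.G _ _ (graphD4a.lt _ (graphD4a.lt _ hr)), c1,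
        em_xg TwD4.G]
      congr 1
      simp only [map_mul, map_intCast, RingHom.comp_apply]
      rw [← mul_assoc, ← mul_assoc, ← Int.cast_mul, ← Int.cast_mul, mul_assoc, c2, Int.cast_one, one_mul]
    | one => simp
    | mul x y hx hy h1 h2 => rw [map_mul, map_mul, map_mul, h1, h2, map_mul]
    | inv x hx h1 => rw [map_inv, map_inv, map_inv, h1, map_inv]
  rw [ChevAuto.group_eq TwD4.G] at hg
  exact key g hg

end D4

end Cfsg.Agent.Lib.TwLang
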