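import Cfsg.Agent.Lib.TwLang2

set_option autoImplicit false

/-!
# The twisted Coxeter-like torus of `3D4(q)`: exponents (helper40)
-/

namespace Cfsg.Agent.Lib.TwLang
open Cfsg.Lie Cfsg.Agent.Lib.ChevX Cfsg.Agent.Lib.ChevGood Cfsg.Agent.Lib.ChevRel Cfsg.Agent.Lib.ChevNPerm
  Cfsg.Agent.Lib.ChevClosed Cfsg.Agent.Lib.ChevBruhat Cfsg.Agent.Lib.ChevFix Cfsg.Agent.Lib.ChevHOrder Cfsg.Agent.Lib.ChevAuto
  Cfsg.Agent.Lib.TwFix Cfsg.Agent.Lib.TwTab Cfsg.Agent.Lib.ChevTorus Cfsg.Agent.Lib.ChevGraph Cfsg.Agent.Lib.ChevTab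
open scoped MatrixGroups Matrix

/-- coordinates of roots -/
abbrev R4 (s k : ℕ) : ℤ := rvT ChevDataD4.A s k

/-- reflection in the central root times triality -/
def th4 (s : ℕ) : ℕ := chevD4.reflectRoot 1 (graphD4a.ρ s)

theorem chk_th : ∀ s < 24, R4 (th4 s) 0 = R4 s 3 ∧ R4 (th4 s) 1 = R4 s 0 - R4 s 1 + R4 s 2 + R4 s 3 ∧
    R4 (th4 s) 2 = R4 s 0 ∧ R4 (th4 s) 3 = R4 s 2 := by decide +kernel

def vecs : List (ℤ × ℤ × ℤ × ℤ) :=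
  [(1,0,0,0),(0,1,0,0),(0,0,1,0),(0,0,0,1),(1,1,0,0),(0,1,1,0),(0,1,0,1),(1,1,1,0),(1,1,0,1),(0,1,1,1),(1,1,1,1),(1,2,1,1),
   (-1,0,0,0),(0,-1,0,0),(0,0,-1,0),(0,0,0,-1),(-1,-1,0,0),(0,-1,-1,0),(0,-1,0,-1),(-1,-1,-1,0),(-1,-1,0,-1),(0,-1,-1,-1),
   (-1,-1,-1,-1),(-1,-2,-1,-1)]

theorem chk_vec : ∀ s < 24, (R4 s 0, R4 s 1, R4 s 2, R4 s 3) ∈ vecs := by decide +kernel

theorem chk_P0 : ∀ s < 24, R4 s 0 = 1 → R4 s 1 = 0 → R4 s 2 = 0 → R4 s 3 = 0 → s = chevD4.simple 0 := by decide +kernel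

/-- the exponent of a vector -/
def Mvec (a b c : ℤ) (v : ℤ × ℤ × ℤ × ℤ) : ℤ := v.1 + (c - 1) * v.2.1 + (1 + a - c) * v.2.2.1 + b * v.2.2.2

theorem Mvec_ok {a b c N : ℤ} (h1 : 2 ≤ a) (h2 : 2 * a ≤ b) (h3 : 2 * b ≤ c) (h4 : 3 * c - a - 1 ≤ N) :
    ∀ v ∈ vecs, Mvec a b c v ≠ 0 ∧ |Mvec a b c v| < N ∧ (v = (1, 0, 0, 0) ∨ (Mvec a b c v ≠ 1 ∧ |Mvec a b c v - 1| < N)) := by
  intro v hv
  simp only [vecs, List.mem_cons, List.not_mem_nil, or_false] at hv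
  rcases hv with rfl | rfl | rfl | rfl | rfl | rfl | rfl | rfl | rfl | rfl | rfl | rfl | rfl | rfl | rfl | rfl | rfl | rfl | rfl |
    rfl | rfl | rfl | rfl | rfl
  · refine ⟨?_, ?_, Or.inl rfl⟩ <;> simp only [Mvec, abs_lt] <;> omega
  all_goals
    refine ⟨?_, ?_, Or.inr ⟨?_, ?_⟩⟩ <;> simp only [Mvec, abs_lt] <;> omega

/-- the exponent of a root -/
noncomputable def M4 (q : ℕ) (s : ℕ) : ℤ := Mvec q (q ^ 2) (q ^ 3) (R4 s 0, R4 s 1, R4 s 2, R4 s 3)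

theorem M4_th (q : ℕ) {s : ℕ} (hs : s < 24) : (((q : ℤ) ^ 3 - 1) * (q + 1)) ∣ M4 q (th4 s) - q * M4 q s := by
  obtain ⟨e0, e1, e2, e3⟩ := chk_th s hs
  refine ⟨R4 s 2 - R4 s 1, ?_⟩
  simp only [M4, Mvec]
  rw [e0, e1, e2, e3]
  ring

theorem M4_ok {q : ℕ} (hq : 2 ≤ q) {s : ℕ} (hs : s < 24) : ¬ (((q : ℤ) ^ 3 - 1) * (q + 1)) ∣ M4 q s ∧
    ((((q : ℤ) ^ 3 - 1) * (q + 1)) ∣ M4 q s - 1 → s = chevD4.simple 0) := by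
  have hq' : (2 : ℤ) ≤ q := by exact_mod_cast hq
  obtain ⟨h1, h2, h3⟩ := Mvec_ok (a := q) (b := (q : ℤ) ^ 2) (c := (q : ℤ) ^ 3) (N := ((q : ℤ) ^ 3 - 1) * (q + 1)) hq' (by nlinarith)
    (by nlinarith [sq_nonneg (q : ℤ)]) (by nlinarith [mul_le_mul_of_nonneg_right hq' (show (0 : ℤ) ≤ (q : ℤ) ^ 3 by positivity)])
    _ (chk_vec s hs)
  constructor
  · intro h
    exact h1 (Int.eq_zero_of_abs_lt_dvd h h2)
  · intro h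
    rcases h3 with h3 | ⟨h3, h4⟩
    · rw [Prod.mk.injEq, Prod.mk.injEq, Prod.mk.injEq] at h3
      exact chk_P0 s hs h3.1 h3.2.1 h3.2.2.1 h3.2.2.2
    · exact absurd (sub_eq_zero.mp (Int.eq_zero_of_abs_lt_dvd h h4)) h3

/-- characters of the twisted torus -/
theorem gen_char4 {A : Type*} [CommGroup A] {q : ℕ} {v0 v1 v2 v3 : A} (h0 : v1 * v2 = v0 ^ q) (h1 : v1⁻¹ = v1 ^ q)
    (h2 : v1 * v3 = v2 ^ q) (h3 : v0 * v1 = v3 ^ q) (hq : 1 ≤ q) :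
    v0 ^ ((q ^ 3 - 1) * (q + 1)) = 1 ∧ v1 = v0 ^ ((q : ℤ) ^ 3 - 1) ∧ v2 = v0 ^ (1 + (q : ℤ) - (q : ℤ) ^ 3) ∧
      v3 = v0 ^ ((q : ℤ) ^ 2) := by
  have h1' : v1 ^ (q + 1) = 1 := by rw [pow_succ, ← h1, inv_mul_cancel]
  have e2 : v2 = v1⁻¹ * v0 ^ q := by rw [← h0, inv_mul_cancel_left]
  have e3 : v3 = v0 ^ (q * q) := by
    have : v3 = v1⁻¹ * v2 ^ q := by rw [← h2, inv_mul_cancel_left]
    rw [this, e2, mul_pow, ← mul_assoc, inv_pow, ← h1, inv_inv, inv_mul_cancel, one_mul, ← pow_mul]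
  have e1 : v1 = v0 ^ ((q : ℤ) ^ 3 - 1) := by
    have : v1 = v0⁻¹ * v3 ^ q := by rw [← h3, inv_mul_cancel_left]
    rw [this, e3, zpow_sub, zpow_one, mul_comm, ← pow_mul]
    congr 1
    rw [← zpow_natCast]
    congr 1
    push_cast; ring
  refine ⟨?_, e1, ?_, ?_⟩
  · rw [← zpow_natCast]
    have h4 := h1'
    rw [e1, ← zpow_natCast, ← zpow_mul] at h4
    rw [← h4]
    congr 1
    rw [Nat.cast_mul, Nat.cast_sub (Nat.one_le_pow _ _ hq)]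
    push_cast; ring
  · rw [e2, e1, ← zpow_neg, ← zpow_natCast, ← zpow_add]
    congr 1
    ring
  · rw [e3, ← zpow_natCast]
    congr 1
    push_cast; ring

end Cfsg.Agent.Lib.TwLang
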