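import Cfsg.Agent.Lib.TwLang3

set_option autoImplicit false

/-!
# The cyclic torus of order `(q^3 - 1)(q + 1)` of `3D4(q)` (helper40)
-/

namespace Cfsg.Agent.Lib.TwLang
open Cfsg.Lie Cfsg.Agent.Lib.ChevX Cfsg.Agent.Lib.ChevGood Cfsg.Agent.Lib.ChevRel Cfsg.Agent.Lib.ChevNPerm
  Cfsg.Agent.Lib.ChevClosed Cfsg.Agent.Lib.ChevBruhat Cfsg.Agent.Lib.ChevFix Cfsg.Agent.Lib.ChevHOrder Cfsg.Agent.Lib.ChevAuto
  Cfsg.Agent.Lib.TwFix Cfsg.Agent.Lib.TwTab Cfsg.Agent.Lib.ChevTorus Cfsg.Agent.Lib.ChevGraph Cfsg.Agent.Lib.ChevTab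
open scoped MatrixGroups Matrix

/-- linear permutations fixing the fundamental roots are trivial -/
theorem lin_fix {D : ChevalleyDatum} (G : Good D) {w : Equiv.Perm (Fin D.nroots)} (hlin : Lin G w)
    (h : ∀ j k : Fin D.rank, G.rv (w (simpF G j)) k = if j = k then 1 else 0) : w = 1 := by
  have h2 : ∀ j, w (simpF G j) = simpF G j := by
    intro j
    apply rvF_inj G
    intro k
    rw [h, rv_simpF]
    congr 1
    exact propext ⟨fun h => by rw [h], fun h => Fin.ext h.symm⟩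
  ext s
  congr 1
  apply rvF_inj G
  intro k
  rw [hlin s k, Equiv.Perm.one_apply]
  have := lin_one G s k
  rw [Equiv.Perm.one_apply] at this
  rw [this]
  exact Finset.sum_congr rfl fun j _ => by rw [h2, Equiv.Perm.one_apply]

theorem rv_eq : TwD4.G.rv = R4 := rfl

/-- exponents are linear -/
theorem M4_lin (q : ℕ) (s : Fin chevD4.nroots) : M4 q s = R4 s 0 * 1 + R4 s 1 * ((q : ℤ) ^ 3 - 1) +
    R4 s 2 * (1 + (q : ℤ) - (q : ℤ) ^ 3) + R4 s 3 * (q : ℤ) ^ 2 := by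
  simp only [M4, Mvec]
  ring

theorem rval_prod4 {F : Type*} [Field F] {a : GL chevD4.Idx F} (ha : a ∈ chevD4.diagonalSubgroup F) (s : Fin chevD4.nroots) :
    rval a s = rval a (P 0) ^ R4 s 0 * rval a (P 1) ^ R4 s 1 * rval a (P 2) ^ R4 s 2 * rval a (P 3) ^ R4 s 3 := by
  rw [rval_prod TwD4.G ha s]
  exact Fin.prod_univ_four (fun j : Fin 4 => rval a (simpF TwD4.G j) ^ TwD4.G.rv s j)

theorem lin4 {w : Equiv.Perm (Fin chevD4.nroots)} (hlin : Lin TwD4.G w) (s : Fin chevD4.nroots) (k : ℕ) :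
    R4 (w s) k = R4 s 0 * R4 (w (P 0)) k + R4 s 1 * R4 (w (P 1)) k + R4 s 2 * R4 (w (P 2)) k + R4 s 3 * R4 (w (P 3)) k := by
  rw [← rv_eq, hlin s k]
  exact Fin.sum_univ_four (fun j : Fin 4 => TwD4.G.rv s j * TwD4.G.rv (w (simpF TwD4.G j)) k)

theorem R4P : ∀ i < 4, ∀ k < 4, R4 (chevD4.simple i) k = if i = k then 1 else 0 := by decide +kernel

theorem th4_vals : (∀ k < 4, R4 (th4 (chevD4.simple 0)) k = [0, 1, 1, 0].getD k 0) ∧
    (∀ k < 4, R4 (th4 (chevD4.simple 1)) k = [0, -1, 0, 0].getD k 0) ∧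
    (∀ k < 4, R4 (th4 (chevD4.simple 2)) k = [0, 1, 0, 1].getD k 0) ∧
    (∀ k < 4, R4 (th4 (chevD4.simple 3)) k = [1, 1, 0, 0].getD k 0) ∧
    (∀ k < 4, R4 (th4 (th4 (chevD4.simple 0))) k = [0, 0, 0, 1].getD k 0) ∧
    (∀ k < 4, R4 (th4 (th4 (th4 (chevD4.simple 0)))) k = [1, 1, 0, 0].getD k 0) := by decide +kernel

/-- **the torus** -/
theorem tri_torus {K : Type*} [Field K] [Fintype K] {q : ℕ} (hq : IsPrimePow q) (hK : Fintype.card K = q ^ 3) :
    ∃ H : Subgroup ↥(TwD4.T hq hK).fix, IsCyclic ↥H ∧ Nat.card ↥H = (q ^ 3 - 1) * (q + 1) ∧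
      Subgroup.centralizer (H : Set ↥(TwD4.T hq hK).fix) = H := by
  classical
  have hq2 : 2 ≤ q := hq.two_le
  have hq' := hq
  obtain ⟨p, k, hp0, hk, hpk⟩ := hq'
  have hp : Fact p.Prime := ⟨hp0.nat_prime⟩
  have hpK : CharP K p := charP_of_card_eq_prime_pow (f := k * 3) (by rw [hK, ← hpk, ← pow_mul])
  set L := AlgebraicClosure K with hL
  set ι : K →+* L := algebraMap K L with hιd
  have hcL : CharP L p := charP_of_injective_algebraMap ι.injective p
  have : ExpChar L p := ExpChar.prime hp.out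
  -- the Frobenius maps
  obtain ⟨e3, σ3, he3, hqe3, hσ3, hfix3⟩ := exists_frob K p
  rw [← hqe3, hK] at hσ3
  have hι : ∀ x : L, x ^ q ^ 3 = x → ∃ y, ι y = x := fun x hx => (hfix3 x).mp (by rw [hσ3, hx])
  have hι' : ∀ y : K, (ι y) ^ q ^ 3 = ι y := fun y => by rw [← hσ3]; exact (hfix3 _).mpr ⟨y, rfl⟩
  let f : L ≃+* L := iterateFrobeniusEquiv L p k
  have hf' : ∀ x, f x = x ^ (p ^ k) := fun x => rfl
  have hf : ∀ x, f x = x ^ q := fun x => by rw [hf', hpk]
  set Ψ := Psi graphD4a (f : L →+* L) with hΨ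
  obtain ⟨TL, hTL, hρ, hTm⟩ := exists_sys q f hf
  -- Lang
  set l : List (Fin chevD4.rank) := [ix 1] with hl
  set n0 := nl chevD4 L l with hn0
  have hnN : n0 ∈ chevD4.monomialSubgroup L := nl_mem TwD4.G l
  have hnG : n0 ∈ chevD4.group L := ChevBN.N_le_group TwD4.G hnN
  have hmono0 : Mono TwD4.G n0 (wl TwD4.G l) := mono_nl TwD4.G l
  have : Infinite L := IsAlgClosed.instInfinite
  obtain ⟨g, hg, hgl⟩ := LangGen.lang p k hk.ne' (f : L →+* L) (fun a => hf' a) (chevD4.group L) (ChevLang.zclosed TwD4.G p)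
    (ChevLang.irr TwD4.G) (fun g hg => ChevLang.det_eq_one TwD4.G p hg) (gG L graphD4a)
    (fun g hg => Psi_group TwD4.G graphD4a (f : L →+* L) hg) hnG
  have hgΨ : Ψ g = g * n0 := by
    rw [← hgl, mul_inv_cancel_left]
    rfl
  -- the permutation `θ`
  set θp : Equiv.Perm (Fin chevD4.nroots) := wl TwD4.G l * TL.ρ with hθp
  have hθ : ∀ s : Fin chevD4.nroots, ((θp s : Fin chevD4.nroots) : ℕ) = th4 s := by
    intro s
    show chevD4.reflectRoot 1 ((TL.ρ s : Fin chevD4.nroots) : ℕ) = chevD4.reflectRoot 1 (graphD4a.ρ s)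
    rw [hρ]
  have hrΨ : ∀ a ∈ chevD4.diagonalSubgroup L, ∀ s, rval (n0 * Ψ a * n0⁻¹) (θp s) = rval a s ^ q := by
    intro a ha s
    have hΨa : Ψ a ∈ chevD4.diagonalSubgroup L := Psi_H q f hf ha
    rw [hθp, Equiv.Perm.mul_apply, rval_conj TwD4.G hnN hmono0 hΨa]
    have h1 := rval_Psi TwD4.G graphD4a (f : L →+* L) ha hΨa s
    have h2 : (⟨graphD4a.ρ s, graphD4a.lt _ s.2⟩ : Fin chevD4.nroots) = TL.ρ s := Fin.ext (hρ s).symm
    rw [h2] at h1
    rw [h1]
    exact hf _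
  -- a root of unity
  set N := (q ^ 3 - 1) * (q + 1) with hNd
  have hq3 : 1 ≤ q ^ 3 := Nat.one_le_pow _ _ (by omega)
  have hN0 : 0 < N := by
    rw [hNd]
    have : 1 < q ^ 3 := Nat.one_lt_pow (by norm_num) (by omega)
    exact Nat.mul_pos (by omega) (by omega)
  have hNz : (N : ℤ) = ((q : ℤ) ^ 3 - 1) * (q + 1) := by
    rw [hNd, Nat.cast_mul, Nat.cast_sub hq3]
    push_cast; ring
  have hNK : NeZero (N : L) := ⟨by
    have h1 : (q : L) = 0 := by rw [← hpk, Nat.cast_pow, CharP.cast_eq_zero, zero_pow hk.ne']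
    rw [hNd, Nat.cast_mul, Nat.cast_sub hq3, Nat.cast_pow, Nat.cast_add, h1]
    simp⟩
  have hNN : NeZero N := ⟨hN0.ne'⟩
  obtain ⟨ζ, hζ⟩ := HasEnoughRootsOfUnity.exists_primitiveRoot L N
  obtain ⟨a0, rfl⟩ : ∃ a0 : Lˣ, (a0 : L) = ζ := ⟨Units.mk0 ζ (hζ.ne_zero hN0.ne'), rfl⟩
  have ha0 : orderOf a0 = N := by
    rw [← orderOf_units]
    exact hζ.eq_orderOf.symm
  have hz : ∀ k : ℤ, a0 ^ k = 1 ↔ (N : ℤ) ∣ k := fun k => by rw [← ha0, orderOf_dvd_iff_zpow_eq_one]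
  obtain ⟨t0, ht0, ht0v⟩ := exists_torus TwD4.G (F := L) two_ne_zero cdD4
    (fun j => a0 ^ (([1, (q : ℤ) ^ 3 - 1, 1 + (q : ℤ) - (q : ℤ) ^ 3, (q : ℤ) ^ 2] : List ℤ).getD j 0))
  have hval : ∀ s : Fin chevD4.nroots, rval t0 s = ((a0 ^ M4 q s : Lˣ) : L) := by
    intro s
    rw [rval_prod4 ht0 s]
    unfold P
    rw [ht0v, ht0v, ht0v, ht0v]
    show ((a0 ^ (1 : ℤ) : Lˣ) : L) ^ R4 s 0 * ((a0 ^ ((q : ℤ) ^ 3 - 1) : Lˣ) : L) ^ R4 s 1 *
      ((a0 ^ (1 + (q : ℤ) - (q : ℤ) ^ 3) : Lˣ) : L) ^ R4 s 2 * ((a0 ^ ((q : ℤ) ^ 2) : Lˣ) : L) ^ R4 s 3 = _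
    rw [← Units.val_zpow_eq_zpow_val, ← Units.val_zpow_eq_zpow_val, ← Units.val_zpow_eq_zpow_val, ← Units.val_zpow_eq_zpow_val,
      ← Units.val_mul, ← Units.val_mul, ← Units.val_mul, ← zpow_mul, ← zpow_mul, ← zpow_mul, ← zpow_mul, ← zpow_add, ← zpow_add,
      ← zpow_add, M4_lin]
    congr 2
    ring
  have hn0t0 : n0 * Ψ t0 * n0⁻¹ = t0 := by
    apply ext_rval TwD4.G (conj_mem_diag TwD4.G hnN (Psi_H q f hf ht0)) ht0
    intro s
    obtain ⟨s', rfl⟩ := θp.surjective s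
    rw [hrΨ _ ht0, hval, hval, ← Units.val_pow_eq_pow_val, ← zpow_natCast, ← zpow_mul]
    congr 1
    rw [← mul_inv_eq_one, ← zpow_neg, ← zpow_add, hz, hθ]
    have := M4_th q s'.2
    rw [← hNz, ← dvd_neg] at this
    have h3 : M4 q s' * (q : ℤ) + -M4 q (th4 s') = -(M4 q (th4 s') - q * M4 q s') := by ring
    rw [h3]
    exact this
  have hfixt0 : Ψ (g * t0 * g⁻¹) = g * t0 * g⁻¹ := by
    rw [map_mul, map_mul, map_inv, hgΨ, mul_inv_rev]
    calc g * n0 * Ψ t0 * (n0⁻¹ * g⁻¹) = g * (n0 * Ψ t0 * n0⁻¹) * g⁻¹ := by group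
      _ = _ := by rw [hn0t0]
  have hT0G : t0 ∈ chevD4.group L := ChevBN.H_le_group TwD4.G ht0
  obtain ⟨h0, hh0, hh0e⟩ := fixed_tri q f hf ι hι hq hK (mul_mem (mul_mem hg hT0G) (inv_mem hg)) hfixt0
  -- the order of `t0`
  have hpow : ∀ (k : ℕ) (s : Fin chevD4.nroots), rval (t0 ^ k) s = ((a0 ^ (k * M4 q s) : Lˣ) : L) := by
    intro k s
    rw [rval_pow TwD4.G ht0, hval, ← Units.val_pow_eq_pow_val, ← zpow_natCast, ← zpow_mul, mul_comm]
  have hMP0 : M4 q (P 0) = 1 := by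
    have h1 := fun k (hk : k < 4) => R4P 0 (by norm_num) k hk
    show M4 q (chevD4.simple 0) = 1
    unfold M4 Mvec
    simp only
    rw [h1 0 (by norm_num), h1 1 (by norm_num), h1 2 (by norm_num), h1 3 (by norm_num)]
    simp
  have hordt : orderOf t0 = N := by
    apply Nat.dvd_antisymm
    · rw [orderOf_dvd_iff_pow_eq_one]
      apply ext_rval TwD4.G (pow_mem ht0 N) (one_mem _)
      intro s
      rw [hpow, rval_one TwD4.G, Units.val_eq_one, hz]
      exact dvd_mul_right _ _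
    · have h3 : t0 ^ orderOf t0 = 1 := pow_orderOf_eq_one t0
      have h4 := congrArg (fun a => rval a (P 0)) h3
      simp only [hpow, rval_one TwD4.G, hMP0, mul_one, Units.val_eq_one, hz] at h4
      exact_mod_cast h4
  have hordh : orderOf h0 = N := by
    rw [← orderOf_injective (em chevD4 ι) (em_injective ι) h0, hh0e, ← hordt]
    have : g * t0 * g⁻¹ = MulAut.conj g t0 := rfl
    rw [this]
    exact orderOf_injective (MulAut.conj g).toMonoidHom (MulAut.conj g).injective t0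
  refine ⟨Subgroup.zpowers ⟨h0, hh0⟩, inferInstance, ?_, ?_⟩
  · rw [Nat.card_zpowers, ← hordh]
    exact (orderOf_injective (TwD4.T hq hK).fix.subtype (TwD4.T hq hK).fix.subtype_injective ⟨h0, hh0⟩).symm
  apply le_antisymm
  · intro x hx
    have hcomm : h0 * (x : GL chevD4.Idx K) = x * h0 := by
      have := hx ⟨h0, hh0⟩ (Subgroup.mem_zpowers _)
      exact congrArg Subtype.val this
    have hxf : (x : GL chevD4.Idx K) ∈ (TwD4.T hq hK).fix := x.2
    set y := g⁻¹ * em chevD4 ι (x : GL chevD4.Idx K) * g with hy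
    have hyG : y ∈ chevD4.group L := mul_mem (mul_mem (inv_mem hg) (em_group TwD4.G ι hxf.1)) hg
    have hycomm : t0 * y = y * t0 := by
      have h3 := congrArg (em chevD4 ι) hcomm
      rw [map_mul, map_mul, hh0e] at h3
      calc t0 * y = g⁻¹ * (g * t0 * g⁻¹ * em chevD4 ι (x : GL chevD4.Idx K)) * g := by rw [hy]; group
        _ = g⁻¹ * (em chevD4 ι (x : GL chevD4.Idx K) * (g * t0 * g⁻¹)) * g := by rw [h3]
        _ = y * t0 := by rw [hy]; group
    obtain ⟨w, hw, hyN, hwv⟩ := mem_T_of_commute TwD4.G TwD4.listed ht0 (fun s => by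
      rw [hval, Ne, Units.val_eq_one, hz, hNz]; exact (M4_ok hq2 s.2).1) hyG hycomm
    have hΨx : Ψ (em chevD4 ι (x : GL chevD4.Idx K)) = em chevD4 ι (x : GL chevD4.Idx K) := by
      have hcomp : ι.comp (TwD4.frob hq hK : K →+* K) = (f : L →+* L).comp ι := by
        ext t
        show ι (TwD4.frob hq hK t) = f (ι t)
        rw [TwD4.frob_eq, map_pow, hf]
      have h1 := agree q (TwD4.frob hq hK) (TwD4.frob_eq hq hK) _ _ TwD4.gr_spec (TwD4.fl_spec hq hK) hxf.1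
      have h2 : Psi graphD4a (TwD4.frob hq hK : K →+* K) (x : GL chevD4.Idx K) = (x : GL chevD4.Idx K) := by
        rw [← h1]
        exact hxf.2
      have h3 := em_Psi TwD4.G graphD4a hcomp (x : GL chevD4.Idx K)
      rw [h2] at h3
      exact h3.symm
    have hyσ : n0 * Ψ y * n0⁻¹ = y := by
      rw [hy, map_mul, map_mul, map_inv, hΨx, hgΨ]
      group
    -- the permutation commutes with `θ`
    have hmonoΨ : Mono TwD4.G (Ψ y) (TL.ρ * w * TL.ρ⁻¹) := hTm y w hyN hw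
    have hwc : w * θp = θp * w := by
      have h3 : Mono TwD4.G (n0 * Ψ y * n0⁻¹) (wl TwD4.G l * (TL.ρ * w * TL.ρ⁻¹) * (wl TwD4.G l)⁻¹) :=
        mono_mul TwD4.G (mono_mul TwD4.G hmono0 hmonoΨ) (mono_inv TwD4.G hmono0)
      rw [hyσ] at h3
      have h4 := mono_unique TwD4.G hw h3
      nth_rw 1 [h4]
      rw [hθp]
      group
    have hw0 : w (P 0) = P 0 := by
      have h3 := hwv (P 0)
      rw [hval, hval, hMP0] at h3
      have h4 := Units.ext h3
      apply Fin.ext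
      apply (M4_ok hq2 (w (P 0)).2).2
      rw [← hNz, ← hz, zpow_sub, h4, mul_inv_cancel]
    have hwθ : ∀ s, w s = s → w (θp s) = θp s := by
      intro s hs
      rw [← Equiv.Perm.mul_apply, hwc, Equiv.Perm.mul_apply, hs]
    have hw1' := hwθ _ hw0
    have hw2' := hwθ _ hw1'
    have hw3' := hwθ _ hw2'
    have hw1 : w = 1 := by
      obtain ⟨v0, -, -, -, v1, v2⟩ := th4_vals
      have c0 : ((θp (P 0) : Fin chevD4.nroots) : ℕ) = th4 (chevD4.simple 0) := hθ _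
      have c1 : ((θp (θp (P 0)) : Fin chevD4.nroots) : ℕ) = th4 (th4 (chevD4.simple 0)) := by rw [hθ, c0]
      have c2 : ((θp (θp (θp (P 0))) : Fin chevD4.nroots) : ℕ) = th4 (th4 (th4 (chevD4.simple 0))) := by rw [hθ, c1]
      have l1 := lin4 hw.1 (θp (P 0))
      have l2 := lin4 hw.1 (θp (θp (P 0)))
      have l3 := lin4 hw.1 (θp (θp (θp (P 0))))
      rw [hw1', c0, v0 0 (by norm_num), v0 1 (by norm_num), v0 2 (by norm_num), v0 3 (by norm_num)] at l1
      rw [hw2', c1, v1 0 (by norm_num), v1 1 (by norm_num), v1 2 (by norm_num), v1 3 (by norm_num)] at l2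
      rw [hw3', c2, v2 0 (by norm_num), v2 1 (by norm_num), v2 2 (by norm_num), v2 3 (by norm_num)] at l3
      simp only [List.getD_cons_zero, List.getD_cons_succ, zero_mul, one_mul, zero_add, add_zero] at l1 l2 l3
      have s0 : ∀ k < 4, R4 (w (P 0)) k = if 0 = k then 1 else 0 := fun k hk => by
        rw [hw0]; exact R4P 0 (by norm_num) k hk
      have s3 : ∀ k < 4, R4 (w (P 3)) k = if 3 = k then 1 else 0 := by
        intro k hk
        rw [← l2, v1 k hk]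
        interval_cases k <;> rfl
      have s1 : ∀ k < 4, R4 (w (P 1)) k = if 1 = k then 1 else 0 := by
        intro k hk
        have e1 := l3 k
        rw [v2 k hk, s0 k hk] at e1
        interval_cases k <;> simp at e1 ⊢ <;> omega
      have s2 : ∀ k < 4, R4 (w (P 2)) k = if 2 = k then 1 else 0 := by
        intro k hk
        have e1 := l1 k
        rw [v0 k hk, s1 k hk] at e1
        interval_cases k <;> simp at e1 ⊢ <;> omega
      apply lin_fix TwD4.G hw.1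
      intro j k
      have hk : (k : ℕ) < 4 := k.2
      obtain ⟨j, hj⟩ := j
      have hj4 : j < 4 := hj
      have e : (if (⟨j, hj⟩ : Fin chevD4.rank) = k then (1 : ℤ) else 0) = if j = (k : ℕ) then 1 else 0 := by
        congr 1
        exact propext ⟨fun h => by rw [← h], fun h => Fin.ext h⟩
      rw [e]
      interval_cases j
      · exact s0 k hk
      · exact s1 k hk
      · exact s2 k hk
      · exact s3 k hk
    rw [hw1] at hw
    have hyT : y ∈ chevD4.diagonalSubgroup L := mem_diag_of_one TwD4.G hyN hw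
    -- root values of `y`
    let v : Fin chevD4.nroots → Lˣ := fun s => Units.mk0 (rval y s) (rval_ne_zero TwD4.G hyT s)
    have hv1 : ∀ s : Fin chevD4.nroots, v s = v (P 0) ^ R4 s 0 * v (P 1) ^ R4 s 1 * v (P 2) ^ R4 s 2 * v (P 3) ^ R4 s 3 := by
      intro s
      apply Units.ext
      simp only [Units.val_mul, v, Units.val_mk0, Units.val_zpow_eq_zpow_val]
      exact rval_prod4 hyT s
    have hv2 : ∀ s, v (θp s) = v s ^ q := by
      intro s
      apply Units.ext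
      have h3 := hrΨ y hyT s
      rw [hyσ] at h3
      rw [Units.val_pow_eq_pow_val]
      exact h3
    obtain ⟨u0, u1, u2, u3, -, -⟩ := th4_vals
    have g0 := hv2 (P 0)
    have g1 := hv2 (P 1)
    have g2 := hv2 (P 2)
    have g3 := hv2 (P 3)
    have hθ0 : ((θp (P 0) : Fin chevD4.nroots) : ℕ) = th4 (chevD4.simple 0) := hθ _
    have hθ1 : ((θp (P 1) : Fin chevD4.nroots) : ℕ) = th4 (chevD4.simple 1) := hθ _
    have hθ2 : ((θp (P 2) : Fin chevD4.nroots) : ℕ) = th4 (chevD4.simple 2) := hθ _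
    have hθ3 : ((θp (P 3) : Fin chevD4.nroots) : ℕ) = th4 (chevD4.simple 3) := hθ _
    rw [hv1 (θp (P 0)), hθ0, u0 0 (by norm_num), u0 1 (by norm_num), u0 2 (by norm_num), u0 3 (by norm_num)] at g0
    rw [hv1 (θp (P 1)), hθ1, u1 0 (by norm_num), u1 1 (by norm_num), u1 2 (by norm_num), u1 3 (by norm_num)] at g1
    rw [hv1 (θp (P 2)), hθ2, u2 0 (by norm_num), u2 1 (by norm_num), u2 2 (by norm_num), u2 3 (by norm_num)] at g2
    rw [hv1 (θp (P 3)), hθ3, u3 0 (by norm_num), u3 1 (by norm_num), u3 2 (by norm_num), u3 3 (by norm_num)] at g3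
    simp only [List.getD_cons_zero, List.getD_cons_succ, zpow_zero, zpow_one, one_mul, mul_one, zpow_neg_one] at g0 g1 g2 g3
    obtain ⟨k0, k1, k2, k3⟩ := gen_char4 g0 g1 g2 g3 (by omega)
    rw [← hNd] at k0
    obtain ⟨m, hm⟩ : ∃ m : ℕ, a0 ^ m = v (P 0) := by
      obtain ⟨m, _, hm⟩ := hζ.eq_pow_of_pow_eq_one (ξ := ((v (P 0) : Lˣ) : L)) (by
        rw [← Units.val_pow_eq_pow_val, k0, Units.val_one])
      exact ⟨m, Units.ext (by rw [Units.val_pow_eq_pow_val, hm])⟩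
    have hyt : y = t0 ^ m := by
      apply ext_rval TwD4.G hyT (pow_mem ht0 m)
      intro s
      rw [hpow]
      have h5 : rval y s = ((v s : Lˣ) : L) := rfl
      rw [h5, hv1 s, k1, k2, k3, ← hm, M4_lin]
      congr 1
      simp only [← zpow_natCast, ← zpow_mul, ← zpow_add]
      congr 1
      ring
    rw [Subgroup.mem_zpowers_iff]
    refine ⟨m, ?_⟩
    apply Subtype.ext
    rw [zpow_natCast, Subgroup.coe_pow]
    apply em_injective ι
    rw [map_pow, hh0e]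
    have h5 : em chevD4 ι (x : GL chevD4.Idx K) = g * y * g⁻¹ := by rw [hy]; group
    rw [h5, hyt, conj_pow]
  · intro x hx
    rw [Subgroup.mem_centralizer_iff]
    intro y hy
    obtain ⟨i, rfl⟩ := Subgroup.mem_zpowers_iff.mp hx
    obtain ⟨j, rfl⟩ := Subgroup.mem_zpowers_iff.mp hy
    rw [← zpow_add, ← zpow_add, add_comm]

end Cfsg.Agent.Lib.TwLang
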