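import Cfsg.Agent.Lib.SplitOut
import Cfsg.Agent.Lib.TwPerf
set_option autoImplicit false
set_option linter.unusedSectionVars false
set_option linter.unusedVariables false

/-!
The split BN-pair of a twisted group.
-/

namespace Cfsg.Agent.Lib.TwOut
open Cfsg.Lie Cfsg.Agent.Lib.ChevX Cfsg.Agent.Lib.ChevGood Cfsg.Agent.Lib.ChevRel Cfsg.Agent.Lib.ChevNPerm
  Cfsg.Agent.Lib.ChevClosed Cfsg.Agent.Lib.ChevBruhat Cfsg.Agent.Lib.TwFix Cfsg.Agent.Lib.TwFix.TwRk
open Cfsg.Agent.Lib.SplitOut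
open scoped MatrixGroups Matrix

variable {D : ChevalleyDatum} {F : Type*} [Field F]

section gen
variable (T : TwSys D F)

theorem mono_conj_XS_iff {g : GL D.Idx F} {w : Equiv.Perm (Fin D.nroots)} (h : Mono T.G g w)
    {A : Set (Fin D.nroots)} {a : GL D.Idx F} : g * a * g⁻¹ ∈ XS D F (w '' A) ↔ a ∈ XS D F A := by
  refine ⟨fun h1 => ?_, mono_conj_XS T.G h⟩
  have h2 := mono_conj_XS T.G (mono_inv T.G h) h1
  have e : g⁻¹ * (g * a * g⁻¹) * g⁻¹⁻¹ = a := by group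
  rw [e] at h2
  refine XS_mono ?_ h2
  rintro _ ⟨_, ⟨r, hr, rfl⟩, rfl⟩
  simpa using hr

theorem long_iff {n : GL D.Idx F} {w : Equiv.Perm (Fin D.nroots)} (hw : Mono T.G n w)
    (hl : ∀ r, Pos D r → ¬ Pos D (w r)) (g : GL D.Idx F) :
    (n * g * n⁻¹ ∈ D.negUnipotent F ↔ g ∈ D.posUnipotent F) ∧
    (n * g * n⁻¹ ∈ D.posUnipotent F ↔ g ∈ D.negUnipotent F) := by
  have hl' : ∀ r, ¬ Pos D r → Pos D (w r) := by
    intro r hr
    have h1 := hl _ ((pos_negF T.G).mpr hr)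
    rw [lin_neg T.G hw.1, pos_negF, not_not] at h1
    exact h1
  have e1 : w '' posS D = {r | ¬ Pos D r} := by
    ext r
    constructor
    · rintro ⟨s, hs, rfl⟩; exact hl s hs
    · intro hr
      refine ⟨w⁻¹ r, ?_, by simp⟩
      by_contra hcon
      have := hl' _ hcon
      rw [show w (w⁻¹ r) = r from w.apply_symm_apply r] at this
      exact hr this
  have e2 : w '' {r | ¬ Pos D r} = posS D := by
    ext r
    constructor
    · rintro ⟨s, hs, rfl⟩; exact hl' s hs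
    · intro hr
      refine ⟨w⁻¹ r, ?_, by simp⟩
      intro hcon
      have := hl _ hcon
      rw [show w (w⁻¹ r) = r from w.apply_symm_apply r] at this
      exact this hr
  constructor
  · rw [← XS_posS T.G, ← XS_negS T.G, ← e1]
    exact mono_conj_XS_iff T hw
  · have := mono_conj_XS_iff T hw (A := {r | ¬ Pos D r}) (a := g)
    rw [e2, XS_posS T.G, XS_negS T.G] at this
    exact this

end gen

variable {T : TwSys D F} {R : TwRk T} {k : ℕ} {W : TwGen T k} {B : TwBlk R W} {Γ : Subgroup (GL D.Idx F)}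
  (K : TwAll B Γ) (L : List (Fin k)) (hL : ∀ i, ¬ Pos D ((L.map W.wj).prod (simpF T.G i)))

include K in
theorem exists_ne_one {A : Set (Fin D.nroots)} (hA : Closed F A) (hU : B.Union A) {r : Fin D.nroots} (hr : r ∈ A) :
    ∃ y ∈ XS D F A ⊓ Γ, y ≠ 1 := by
  obtain ⟨t, ht0, y, hy, hco⟩ := K.XS_fix_lift hA hU hr
  refine ⟨y, hy, ?_⟩
  rintro rfl
  apply ht0
  apply co_unique hA hr hco
  unfold Co
  rw [xg_zero T.G]; simp

/-- the split BN-pair -/
noncomputable def sp : Sp ↥Γ (Fin k) where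
  P := K.grp.bn
  U := (D.posUnipotent F).subgroupOf Γ
  V := (D.negUnipotent F).subgroupOf Γ
  H := (D.diagonalSubgroup F).subgroupOf Γ
  n0 := ⟨(L.map W.nj).prod, (K.word_mem L).2⟩
  n j := ⟨W.nj j, K.n_mem j⟩
  S_eq := by
    ext x
    constructor
    · rintro ⟨j, hj⟩; exact ⟨j, Subtype.ext hj.symm⟩
    · rintro ⟨j, rfl⟩; exact ⟨j, rfl⟩
  U_le := by
    intro u hu
    exact ⟨borel_U T.G hu, u.2⟩
  B_eq := by
    intro b hb
    obtain ⟨u, hu, h, hh, e⟩ := K.mem_B (Subgroup.mem_subgroupOf.mp hb)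
    exact ⟨⟨u, hu.2⟩, hu.1, ⟨h, hh.2⟩, hh.1, Subtype.ext e⟩
  H_le := by
    intro h hh
    exact ⟨⟨borel_H T.G hh, h.2⟩, ⟨H_le_N hh, h.2⟩⟩
  BN_le := by
    rintro h ⟨h1, h2⟩
    exact TwGrp.borel_inf_monomial T (Subgroup.mem_subgroupOf.mp h1).1 (Subgroup.mem_subgroupOf.mp h2).1
  norm_U := by
    intro b hb u hu
    obtain ⟨v, hv, h, hh, e⟩ := K.mem_B (Subgroup.mem_subgroupOf.mp hb)
    show (b : GL D.Idx F) * u * (b : GL D.Idx F)⁻¹ ∈ D.posUnipotent F
    have hu' : (u : GL D.Idx F) ∈ D.posUnipotent F := hu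
    have h1 : h * (u : GL D.Idx F) * h⁻¹ ∈ D.posUnipotent F := by
      rw [← XS_posS T.G] at hu' ⊢
      exact diag_conj_XS T.G hh.1 hu'
    have e2 : (b : GL D.Idx F) * u * (b : GL D.Idx F)⁻¹ = v * (h * (u : GL D.Idx F) * h⁻¹) * v⁻¹ := by rw [e]; group
    rw [e2]
    exact mul_mem (mul_mem hv.1 h1) (inv_mem hv.1)
  n0_N := ⟨(K.word_mem L).1, (K.word_mem L).2⟩
  n0_U := fun g => (long_iff T (TwAll.mono_word (W := W) (T := T) L) (TwAll.long_neg (F := F) (T := T) (W := W) hL) g).1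
  n0_V := fun g => (long_iff T (TwAll.mono_word (W := W) (T := T) L) (TwAll.long_neg (F := F) (T := T) (W := W) hL) g).2
  BV := by
    intro g hg hv
    exact Subtype.ext (inf_BV T.G T.hD (Subgroup.mem_subgroupOf.mp hg).1 hv)
  sep := by
    intro m hm hmB
    have hm' := Subgroup.mem_subgroupOf.mp hm
    obtain ⟨w, hw⟩ := exists_mono T.G hm'.1
    have hex : ∃ i, ¬ Pos D (w (simpF T.G i)) := by
      by_contra hcon
      push Not at hcon
      exact hmB ⟨borel_H T.G (mem_diag_of_pos T.G hm'.1 hw hcon), m.2⟩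
    obtain ⟨i, hi⟩ := hex
    obtain ⟨y, hy, hy1⟩ := exists_ne_one K (closed_Inv T hw.1) (union_Inv B (K.resp hm' hw)) (r := simpF T.G i)
      ⟨pos_simpF T.G i, hi⟩
    refine ⟨⟨y, hy.2⟩, TwGrp.U_of K.grp hy.1, fun h => hy1 (congrArg Subtype.val h), ?_⟩
    exact conj_neg_mem T.G hw (XS_mono (fun r hr => hr.2) hy.1)
  opp := by
    intro m hm h
    have hm' := Subgroup.mem_subgroupOf.mp hm
    obtain ⟨w, hw⟩ := exists_mono T.G hm'.1
    have hl : ∀ r, Pos D r → ¬ Pos D (w r) := by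
      intro r hr hwr
      have hw0 := TwAll.mono_word (W := W) (T := T) L
      have hl0 := TwAll.long_neg (F := F) (T := T) (W := W) hL
      have hw2 := mono_mul T.G hw0 hw
      have hm2 : (L.map W.nj).prod * (m : GL D.Idx F) ∈ D.monomialSubgroup F ⊓ Γ := mul_mem (K.word_mem L) hm'
      obtain ⟨y, hy, hy1⟩ := exists_ne_one K (closed_Inv T hw2.1) (union_Inv B (K.resp hm2 hw2)) (r := r)
        ⟨hr, hl0 _ hwr⟩
      have hyU : (⟨y, hy.2⟩ : ↥Γ) ∈ (D.posUnipotent F).subgroupOf Γ := TwGrp.U_of K.grp hy.1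
      have h1 := h ⟨y, hy.2⟩ hyU (by
        show (m : GL D.Idx F) * y * (m : GL D.Idx F)⁻¹ ∈ D.posUnipotent F
        refine conj_pos_mem T.G hw (XS_mono (fun s hs => ?_) hy.1)
        by_contra hcon
        refine hs.2 ?_
        have h2 := hl0 _ ((pos_negF T.G).mpr hcon)
        rw [lin_neg T.G hw0.1, pos_negF, not_not] at h2
        exact h2)
      exact hy1 (congrArg Subtype.val h1)
    exact fun g => (long_iff T hw hl g).1
  cen := by
    intro h hh hc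
    refine Subtype.ext (K.diag_centralizes hh fun y hy => ?_)
    exact congrArg Subtype.val (hc ⟨y, hy.2⟩ hy.1)

/-- the rank one subgroups -/
noncomputable def rk
    (hstar : ∀ j, (L.map W.wj).prod '' Inv (W.wj j) = W.wj j '' Inv (W.wj j))
    (hcomm : ∀ i j, i ≠ j → ∀ r ∈ Inv (W.wj i), ∀ s ∈ W.wj j '' Inv (W.wj j), ∀ t u : F,
      Commute (xg D F r t) (xg D F s u))
    (hn : ∀ j, ∃ x ∈ XS D F (Inv (W.wj j)) ⊓ Γ, ∃ y ∈ XS D F (W.wj j '' Inv (W.wj j)) ⊓ Γ,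
      ∃ x' ∈ XS D F (Inv (W.wj j)) ⊓ Γ, W.nj j = x * y * x') : Rk (sp K L hL) where
  X j := (XS D F (Inv (W.wj j))).subgroupOf Γ
  Y j := (XS D F (W.wj j '' Inv (W.wj j))).subgroupOf Γ
  X_le j := fun x hx => TwGrp.U_of K.grp hx
  Y_le j := by
    intro y hy
    show (y : GL D.Idx F) ∈ D.negUnipotent F
    rw [← XS_negS T.G]
    refine XS_mono ?_ (show (y : GL D.Idx F) ∈ XS D F (W.wj j '' Inv (W.wj j)) from hy)
    rintro _ ⟨r, hr, rfl⟩
    exact hr.2
  nX j g := mono_conj_XS_iff T (W.mono_nj j)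
  cell := by
    intro j b hb
    have hb' := Subgroup.mem_subgroupOf.mp hb
    have hg : (b : GL D.Idx F) * W.nj j ∈ Γ := mul_mem b.2 (K.n_mem j)
    obtain ⟨u, hu, m, hm, w, hw, u', hu', e⟩ := K.grp.bruhat (inv_mem hg)
    have e1 : (b : GL D.Idx F) * W.nj j = u'⁻¹ * m⁻¹ * u⁻¹ := by
      rw [← inv_inv ((b : GL D.Idx F) * W.nj j), e]; group
    have h1 : m * W.nj j ∈ D.diagonalSubgroup F := by
      have := dc_unique T.G T.hD (n := m⁻¹) (n' := W.nj j) (b := (b : GL D.Idx F)⁻¹ * u'⁻¹) (b' := u⁻¹)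
        (inv_mem hm.1) (W.nj_mem_N j)
        (mul_mem (inv_mem hb'.1) (inv_mem (borel_U T.G (TwGrp.U_of K.grp hu'.1)))) (inv_mem (borel_U T.G hu.1)) (by
          calc W.nj j = (b : GL D.Idx F)⁻¹ * ((b : GL D.Idx F) * W.nj j) := by group
            _ = _ := by rw [e1]; group)
      rwa [inv_inv] at this
    have hwj : w = W.wj j := by
      have h2 := mono_mul T.G (mono_diag T.G h1) (mono_inv T.G (W.mono_nj j))
      rw [mul_inv_cancel_right, one_mul] at h2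
      rw [mono_unique T.G hw h2]
      exact inv_eq_of_mul_eq_one_left (W.sq j)
    subst hwj
    have hmem : (m * W.nj j)⁻¹ * u⁻¹ ∈ Γ := Γ.mul_mem (Γ.inv_mem (Γ.mul_mem hm.2 (K.n_mem j))) (Γ.inv_mem hu.2)
    have hmemB : (m * W.nj j)⁻¹ * u⁻¹ ∈ D.borelSubgroup F :=
      Subgroup.mul_mem _ (Subgroup.inv_mem _ (borel_H T.G h1)) (Subgroup.inv_mem _ (borel_U T.G hu.1))
    refine ⟨⟨u'⁻¹, Γ.inv_mem hu'.2⟩, Subgroup.inv_mem _ hu'.1, ⟨(m * W.nj j)⁻¹ * u⁻¹, hmem⟩, ⟨hmemB, hmem⟩, Subtype.ext ?_⟩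
    show (b : GL D.Idx F) * W.nj j = u'⁻¹ * W.nj j * ((m * W.nj j)⁻¹ * u⁻¹)
    rw [e1]; group
  star := by
    intro j g
    show (L.map W.nj).prod⁻¹ * (g : GL D.Idx F) * (L.map W.nj).prod ∈ XS D F (Inv (W.wj j)) ↔
      (g : GL D.Idx F) ∈ XS D F (W.wj j '' Inv (W.wj j))
    rw [← mono_conj_XS_iff T (TwAll.mono_word (W := W) (T := T) L), hstar]
    have e : (L.map W.nj).prod * ((L.map W.nj).prod⁻¹ * (g : GL D.Idx F) * (L.map W.nj).prod) * (L.map W.nj).prod⁻¹ = g := by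
      group
    rw [e]
  comm := by
    intro i j hij x hx y hy
    apply Subtype.ext
    have h1 : ∀ r ∈ Inv (W.wj i), ∀ t : F, XS D F (W.wj j '' Inv (W.wj j)) ≤ Subgroup.centralizer {xg D F r t} := by
      intro r hr t
      refine XS_le fun s hs u => ?_
      rw [Subgroup.mem_centralizer_singleton_iff]
      exact (hcomm i j hij r hr s hs t u).eq.symm
    have h2 : XS D F (Inv (W.wj i)) ≤ Subgroup.centralizer {(y : GL D.Idx F)} := by
      refine XS_le fun r hr t => ?_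
      rw [Subgroup.mem_centralizer_singleton_iff]
      have := h1 r hr t hy
      rw [Subgroup.mem_centralizer_singleton_iff] at this
      exact this.symm
    have h3 := h2 hx
    rw [Subgroup.mem_centralizer_singleton_iff] at h3
    exact h3
  ncomm := by
    intro j
    obtain ⟨x, hx, y, hy, x', hx', e⟩ := hn j
    refine ⟨⟨x, hx.2⟩, hx.1, ⟨y, hy.2⟩, hy.1, fun hc => ?_⟩
    have hc' : x * y = y * x := congrArg Subtype.val hc
    have hyV : (⟨y, hy.2⟩ : ↥Γ) ∈ (sp K L hL).V := by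
      show y ∈ D.negUnipotent F
      rw [← XS_negS T.G]
      refine XS_mono ?_ hy.1
      rintro _ ⟨r, hr, rfl⟩
      exact hr.2
    have hxB : (⟨x * x', mul_mem hx.2 hx'.2⟩ : ↥Γ) ∈ (sp K L hL).P.B :=
      ⟨borel_U T.G (mul_mem (TwGrp.U_of K.grp hx.1) (TwGrp.U_of K.grp hx'.1)), mul_mem hx.2 hx'.2⟩
    have hne := Rk.n_not_VB (A := sp K L hL) (j := j) hyV hxB
    apply hne
    apply Subtype.ext
    show W.nj j = y * (x * x')
    rw [e, hc', mul_assoc]

end Cfsg.Agent.Lib.TwOut
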