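import Cfsg.Agent.Lib.TwOutA
import Cfsg.Agent.Lib.RankOneMul
import Cfsg.Agent.Lib.ChevOut
import Cfsg.Agent.Lib.TwGF2
set_option autoImplicit false
set_option linter.unusedSectionVars false
set_option linter.unusedVariables false

/-!
Graph-field families: the rank one subgroups.
-/

namespace Cfsg.Agent.Lib.TwTab
/-- the action of a word in the blocks -/
def Tab.w0N (C : Tab) (L : List ℕ) (s : ℕ) : ℕ := L.foldr (fun j a => C.wlN (C.jwN j) a) s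

/-- the checks on the rank one subgroups; `L` is a word of the longest element -/
def Tab.chkO (C : Tab) (L : List ℕ) : Bool :=
  (L.all fun j => Nat.blt j C.nz) &&
  Tab.ball C.rank (fun i => !C.pos (C.w0N L (C.sim i))) &&
  Tab.ball C.nz fun j =>
    (Tab.ball C.n fun s => (C.pos s && !C.pos (C.wlN (C.jwN j) s)) == ((C.jwN j).map C.sim).contains s) &&
    ((C.jwN j).all fun i => (C.wlN (C.jwN j) (C.sim i) == C.n - 1 - C.sim i) && (C.rkN (C.sim i) == C.rkN (C.hd j)) &&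
      ((C.jwN j).any fun i' => C.w0N L (C.sim i) == C.n - 1 - C.sim i') &&
      ((C.jwN j).any fun i' => C.w0N L (C.sim i') == C.n - 1 - C.sim i))

theorem Tab.cO {C : Tab} {L : List ℕ} (h : C.chkO L = true) : (∀ j ∈ L, j < C.nz) ∧
    (∀ i < C.rank, ¬ C.n / 2 ≤ C.w0N L (C.sim i)) ∧
    ∀ j < C.nz, (∀ s < C.n, (C.n / 2 ≤ s ∧ ¬ C.n / 2 ≤ C.wlN (C.jwN j) s) ↔ s ∈ (C.jwN j).map C.sim) ∧
      ∀ i ∈ C.jwN j, C.wlN (C.jwN j) (C.sim i) = C.n - 1 - C.sim i ∧ C.rkN (C.sim i) = C.rkN (C.hd j) ∧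
        (∃ i' ∈ C.jwN j, C.w0N L (C.sim i) = C.n - 1 - C.sim i') ∧
        (∃ i' ∈ C.jwN j, C.w0N L (C.sim i') = C.n - 1 - C.sim i) := by
  unfold Tab.chkO at h
  rw [Bool.and_eq_true, Bool.and_eq_true, Tab.ball_iff, Tab.ball_iff] at h
  obtain ⟨⟨h1, h2⟩, h3⟩ := h
  refine ⟨fun j hj => by simpa using List.all_eq_true.mp h1 j hj, fun i hi => ?_, fun j hj => ?_⟩
  · have h9 := h2 i hi
    intro hcon
    rw [show C.pos (C.w0N L (C.sim i)) = true from Nat.ble_eq.mpr hcon] at h9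
    exact absurd h9 (by decide)
  · have h4 := h3 j hj
    rw [Bool.and_eq_true, Tab.ball_iff] at h4
    obtain ⟨h5, h6⟩ := h4
    refine ⟨fun s hs => ?_, fun i hi => ?_⟩
    · have h7 := h5 s hs
      rw [beq_iff_eq, Bool.eq_iff_iff] at h7
      simp only [Tab.pos, Bool.and_eq_true, Nat.ble_eq, Bool.not_eq_true', List.contains_iff_mem] at h7
      rw [← h7]
      refine and_congr_right fun _ => ?_
      rw [← Bool.not_eq_true, Nat.ble_eq]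
    · have h7 := List.all_eq_true.mp h6 i hi
      simp only [Bool.and_eq_true, beq_iff_eq, List.any_eq_true] at h7
      exact ⟨h7.1.1.1, h7.1.1.2, h7.1.2, h7.2⟩

end Cfsg.Agent.Lib.TwTab

namespace Cfsg.Agent.Lib.TwOut
open Cfsg.Lie Cfsg.Agent.Lib.ChevX Cfsg.Agent.Lib.ChevGood Cfsg.Agent.Lib.ChevRel Cfsg.Agent.Lib.ChevNPerm
  Cfsg.Agent.Lib.ChevClosed Cfsg.Agent.Lib.ChevBruhat Cfsg.Agent.Lib.TwFix Cfsg.Agent.Lib.TwFix.TwRk
open Cfsg.Agent.Lib.TwTab Cfsg.Agent.Lib.SplitOut Cfsg.Agent.Lib.RankOneAut Cfsg.Agent.Lib.RankOneMul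
open Cfsg.Agent.Lib.SL2Pres (IsR1 hh)
open scoped MatrixGroups Matrix

variable {D : ChevalleyDatum} {F : Type*} [Field F]

/-- a graph-field family -/
structure GFH {G : Good D} {C : Tab} (S : SigData G C F) (q : ℕ) (L : List ℕ) : Prop where
  h1 : C.chk1 D = true
  h2 : C.chk2 = true
  h3 : C.chk3 D = true
  hD : Listed D
  he : ∀ r, S.e r = q
  hJ : C.chkJ D = true
  h4 : C.chk4 D 0 = true
  h5 : C.chk5 = true
  K : TwAll (blkG S h1 h2 h3 hD he hJ h4 h5) (Γ0 D F C q)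
  hone : ∀ j < C.nz, (C.jwN j).length = 1 ∨ ∀ t : F, t ^ q ^ (C.jwN j).length = t
  hO : C.chkO L = true

namespace GFH
variable {G : Good D} {C : Tab} {S : SigData G C F} {q : ℕ} {L : List ℕ} (Z : GFH S q L)
include Z

/-- the word of the longest element -/
def LF (L : List ℕ) (h : ∀ j ∈ L, j < C.nz) : List (Fin C.nz) := L.pmap (fun j hj => ⟨j, hj⟩) h

theorem add_pow (t u : F) : (t + u) ^ q = t ^ q + u ^ q := by
  have := S.e_add _ (G.simple_lt 0 G.rank_pos) t u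
  rwa [Z.he] at this

theorem neg_pow' (t : F) : (-t) ^ q = - t ^ q := q_neg S Z.h1 Z.h2 Z.he G t

theorem add_pow_pow (m : ℕ) (t u : F) : (t + u) ^ q ^ m = t ^ q ^ m + u ^ q ^ m := by
  induction m with
  | zero => simp
  | succ m ih => rw [pow_succ, pow_mul, pow_mul, pow_mul, ih, Z.add_pow]

theorem neg_pow_pow (m : ℕ) (t : F) : (-t) ^ q ^ m = - t ^ q ^ m := by
  induction m with
  | zero => simp
  | succ m ih => rw [pow_succ, pow_mul, pow_mul, ih, Z.neg_pow']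

theorem zero_pow' : (0 : F) ^ q = 0 := by
  have h := Z.add_pow 0 0
  rw [add_zero] at h
  exact left_eq_add.mp h

/-- the `q`-th power map -/
def φ : F →+* F where
  toFun t := t ^ q
  map_one' := one_pow q
  map_mul' := fun t u => mul_pow t u q
  map_zero' := Z.zero_pow'
  map_add' := Z.add_pow

/-- the field of the block `j` -/
def E (j : ℕ) : Subfield F where
  carrier := {t | t ^ q ^ (C.jwN j).length = t}
  mul_mem' := fun {a b} ha hb => by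
    show (a * b) ^ q ^ (C.jwN j).length = a * b
    rw [mul_pow]; exact congrArg₂ _ ha hb
  one_mem' := one_pow _
  add_mem' := fun {a b} ha hb => by
    show (a + b) ^ q ^ (C.jwN j).length = a + b
    rw [Z.add_pow_pow]; exact congrArg₂ _ ha hb
  zero_mem' := by
    show (0 : F) ^ q ^ (C.jwN j).length = 0
    have h := Z.add_pow_pow (C.jwN j).length 0 0
    rw [add_zero] at h
    exact left_eq_add.mp h
  neg_mem' := fun {a} ha => by
    show (-a) ^ q ^ (C.jwN j).length = -a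
    rw [Z.neg_pow_pow]; exact congrArg _ ha
  inv_mem' := fun a ha => by
    show a⁻¹ ^ q ^ (C.jwN j).length = a⁻¹
    rw [inv_pow]; exact congrArg _ ha

theorem mem_E {j : ℕ} {t : F} : t ∈ Z.E j ↔ t ^ q ^ (C.jwN j).length = t := Iff.rfl

/-- rank one relations of the block words -/
theorem isR1_BX {A : List ℕ} (hA : CList D C.n A = true) : IsR1 (BX D F q A) (BX D F q (A.map D.neg)) := by
  induction A with
  | nil => exact isR1_one
  | cons r A ih =>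
    have hA' := hA
    simp only [CList, Bool.and_eq_true, Nat.blt_eq] at hA'
    obtain ⟨⟨h1, h2⟩, h3⟩ := hA'
    have hr : r < D.nroots := by rw [← (Tab.c1 Z.h1).1]; exact h1
    have R1 := ChevSL2.isR1 G (F := F) hr
    have R2 := isR1_comp (ih h3) Z.φ
    have c := fun a b => BX_commute (q := q) (F := F) G (Tab.c1 Z.h1).1 hr h3 h2 a b
    exact isR1_mul R1 R2 (fun s t => (c s (t ^ q)).1) (fun s t => (c s (t ^ q)).2.2.1)
      (fun s t => (c s (t ^ q)).2.1) (fun s t => (c s (t ^ q)).2.2.2)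

/-- the roots of a block -/
def J (C : Tab) (j : ℕ) : List ℕ := (C.jwN j).map C.sim

theorem hCL {j : ℕ} (hj : j < C.nz) : CList D C.n (J C j) = true := (cJ Z.hJ hj).1

/-- the group -/
abbrev Gm (D : ChevalleyDatum) (F : Type*) [Field F] (C : Tab) (q : ℕ) : Subgroup (GL D.Idx F) := Γ0 D F C q

/-- the root elements of the twisted group -/
noncomputable def XX (j : Fin C.nz) (t : Z.E j) : ↥(Γ0 D F C q) := ⟨BX D F q (J C j) t, (BX_mem_Γ0 j.2 t.2).1⟩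

noncomputable def YY (j : Fin C.nz) (t : Z.E j) : ↥(Γ0 D F C q) := ⟨BX D F q ((J C j).map D.neg) t, (BX_mem_Γ0 j.2 t.2).2⟩

theorem isR1_XX (j : Fin C.nz) : IsR1 (Z.XX j) (Z.YY j) := by
  have R := isR1_comp (Z.isR1_BX (Z.hCL j.2)) (Z.E j).subtype
  exact
    { X_add := fun s t => Subtype.ext (R.X_add s t)
      Y_add := fun s t => Subtype.ext (R.Y_add s t)
      n_X := fun u => Subtype.ext (R.n_X u)
      n_Y := fun u => Subtype.ext (R.n_Y u)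
      h_X := fun c u hc => Subtype.ext (R.h_X c u hc)
      h_Y := fun c u hc => Subtype.ext (R.h_Y c u hc)
      h_mul := fun c d hc hd => Subtype.ext (R.h_mul c d hc hd) }

/-- the generation data -/
noncomputable abbrev W : TwGen (S.sys Z.h1 Z.h2 Z.hD) C.nz := gen S Z.h1 Z.h2 Z.h3 Z.hD fun j hj =>
    (Γ0_le S Z.h1 Z.h2 Z.h3 Z.hD Z.he Z.hJ) (nl_mem_Γ0 S Z.h1 Z.h2 Z.he Z.hJ Z.h3 hj)

theorem wj_val (j : Fin C.nz) (s : Fin D.nroots) : ((Z.W.wj j s : Fin D.nroots) : ℕ) = C.wlN (C.jwN j) s :=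
  wlj_eq (G := G) Z.h1 Z.h3 j.2 s

theorem sim_lt {j i : ℕ} (hj : j < C.nz) (hi : i ∈ C.jwN j) : i < D.rank ∧ C.sim i < D.nroots ∧ D.simple i = C.sim i := by
  have h7 := (((Tab.c3 Z.h3).2 j hj).1 i hi).1
  rw [(Tab.c1 Z.h1).2.1] at h7
  have h8 := ((Tab.c1 Z.h1).2.2.1 i h7)
  rw [(Tab.c1 Z.h1).1] at h8
  exact ⟨h7, h8.2.2, h8.1⟩

theorem mem_Inv (j : Fin C.nz) (s : Fin D.nroots) : s ∈ Inv (Z.W.wj j) ↔ (s : ℕ) ∈ J C j := by
  have h := ((Tab.cO Z.hO).2.2 j j.2).1 s (by rw [(Tab.c1 Z.h1).1]; exact s.2)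
  show _ ↔ (s : ℕ) ∈ (C.jwN j).map C.sim
  rw [← h, (Tab.c1 Z.h1).1, ← Z.wj_val]
  exact Iff.rfl

theorem wj_sim (j : Fin C.nz) {i : ℕ} (hi : i ∈ C.jwN j) (s : Fin D.nroots) (hs : (s : ℕ) = C.sim i) :
    ((Z.W.wj j s : Fin D.nroots) : ℕ) = D.neg (C.sim i) := by
  rw [Z.wj_val, hs, (((Tab.cO Z.hO).2.2 j j.2).2 i hi).1, (Tab.c1 Z.h1).1, G.neg_eq _ (Z.sim_lt j.2 hi).2.1]

theorem mem_neg_Inv (j : Fin C.nz) (s : Fin D.nroots) : s ∈ Z.W.wj j '' Inv (Z.W.wj j) ↔ (s : ℕ) ∈ (J C j).map D.neg := by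
  constructor
  · rintro ⟨r, hr, rfl⟩
    rw [Z.mem_Inv, J, List.mem_map] at hr
    obtain ⟨i, hi, hir⟩ := hr
    rw [Z.wj_sim j hi r hir.symm, List.mem_map]
    exact ⟨_, List.mem_map.mpr ⟨i, hi, rfl⟩, rfl⟩
  · intro hs
    obtain ⟨r, hr, hrs⟩ := List.mem_map.mp hs
    have hr' := hr
    obtain ⟨i, hi, rfl⟩ := List.mem_map.mp hr
    refine ⟨⟨C.sim i, (Z.sim_lt j.2 hi).2.1⟩, (Z.mem_Inv j _).mpr hr', ?_⟩
    apply Fin.ext
    rw [Z.wj_sim j hi _ rfl, hrs]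

theorem XX_mem (j : Fin C.nz) (t : Z.E j) : (Z.XX j t : GL D.Idx F) ∈ XS D F (Inv (Z.W.wj j)) := by
  apply BX_mem_XS
  intro r hr
  have hr' := hr
  obtain ⟨i, hi, rfl⟩ := List.mem_map.mp hr
  exact ⟨(Z.sim_lt j.2 hi).2.1, (Z.mem_Inv j _).mpr hr'⟩

theorem YY_mem (j : Fin C.nz) (t : Z.E j) : (Z.YY j t : GL D.Idx F) ∈ XS D F (Z.W.wj j '' Inv (Z.W.wj j)) := by
  apply BX_mem_XS
  intro r hr
  obtain ⟨r', hr', e⟩ := List.mem_map.mp hr
  obtain ⟨i, hi, e2⟩ := List.mem_map.mp hr'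
  have h1 : r < D.nroots := by
    rw [← e, ← e2]; exact neg_lt G (Z.sim_lt j.2 hi).2.1
  exact ⟨h1, (Z.mem_neg_Inv j _).mpr hr⟩

/-- the head of the block -/
def hd (j : Fin C.nz) : Fin D.nroots := ⟨C.hd j, hd_lt Z.h1 Z.h3 j.2⟩

theorem head_mem (j : Fin C.nz) : (C.jwN j).headD 0 ∈ C.jwN j := by
  have h := jw_ne Z.h3 j.2
  have h2 : (C.jwN j).headD 0 ∈ (C.jwN j).headD 0 :: (C.jwN j).tail := List.mem_cons_self
  rwa [← h] at h2

theorem hd_mem (j : Fin C.nz) : Z.hd j ∈ Inv (Z.W.wj j) := by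
  rw [Z.mem_Inv]
  exact List.mem_map.mpr ⟨_, Z.head_mem j, rfl⟩

/-- the ranks -/
noncomputable abbrev R : TwRk (S.sys Z.h1 Z.h2 Z.hD) := rkS S Z.h1 Z.h2 Z.hD Z.h4 hp0

theorem closed (j : Fin C.nz) : Closed F (Inv (Z.W.wj j)) := closed_Inv (S.sys Z.h1 Z.h2 Z.hD) (Z.W.mono_nj j).1

theorem co_XX (j : Fin C.nz) (t : Z.E j) :
    Co (Z.R.up (Inv (Z.W.wj j)) (Z.R.rk (Z.hd j)) \ {Z.hd j}) (Z.hd j) (t : F) (Z.XX j t : GL D.Idx F) := by
  have h6 := jw_ne Z.h3 j.2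
  have e1 : (Z.XX j t : GL D.Idx F) = xg D F (C.hd j) t * BX D F q ((C.jwN j).tail.map C.sim) ((t : F) ^ q) := by
    show BX D F q ((C.jwN j).map C.sim) t = _
    rw [h6, List.map_cons]; rfl
  unfold Co
  rw [e1]
  show (xg D F (C.hd j) t)⁻¹ * (xg D F (C.hd j) t * BX D F q ((C.jwN j).tail.map C.sim) ((t : F) ^ q)) ∈ _
  rw [inv_mul_cancel_left]
  apply BX_mem_XS
  intro r hr
  obtain ⟨i, hi, rfl⟩ := List.mem_map.mp hr
  have hi' := List.mem_of_mem_tail hi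
  refine ⟨(Z.sim_lt j.2 hi').2.1, ⟨(Z.mem_Inv j _).mpr (List.mem_map.mpr ⟨i, hi', rfl⟩), ?_⟩, ?_⟩
  · show C.rkN (C.hd j) ≤ C.rkN (C.sim i)
    exact ((((Tab.cO Z.hO).2.2 j j.2).2 i hi').2.1).symm.le
  · intro h
    exact ((cJ Z.hJ j.2).2.2 i hi).2.2 (congrArg Fin.val h)

theorem XX_inj (j : Fin C.nz) : Function.Injective (Z.XX j) := by
  intro t t' h
  apply Subtype.ext
  have h1 := Z.co_XX j t
  rw [h] at h1
  exact co_unique (Z.closed j) (Z.hd_mem j) h1 (Z.co_XX j t')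

/-- the fixed elements of the block are the `X_j(t)` -/
theorem exists_XX (j : Fin C.nz) {g : GL D.Idx F} (hg : g ∈ XS D F (Inv (Z.W.wj j))) (hΓ : g ∈ Γ0 D F C q) :
    ∃ t : Z.E j, g = Z.XX j t := by
  have hf := Γ0_le S Z.h1 Z.h2 Z.h3 Z.hD Z.he Z.hJ hΓ
  have hrk : ∀ s ∈ Inv (Z.W.wj j), Z.R.rk s = Z.R.rk (Z.hd j) := by
    intro s hs
    rw [Z.mem_Inv] at hs
    obtain ⟨i, hi, his⟩ := List.mem_map.mp hs
    show C.rkN s = C.rkN (C.hd j)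
    rw [← his]
    exact (((Tab.cO Z.hO).2.2 j j.2).2 i hi).2.1
  have hup : Z.R.up (Inv (Z.W.wj j)) (Z.R.rk (Z.hd j)) = Inv (Z.W.wj j) := by
    ext s
    exact ⟨fun h => h.1, fun h => ⟨h, (hrk s h).symm.le⟩⟩
  have hup1 : Z.R.up (Inv (Z.W.wj j)) (Z.R.rk (Z.hd j) + 1) = ∅ := by
    ext s
    simp only [Set.mem_empty_iff_false, iff_false]
    rintro ⟨h1, h2⟩
    have := hrk s h1
    omega
  have hc : (Z.W.wj j) * (S.sys Z.h1 Z.h2 Z.hD).ρ = (S.sys Z.h1 Z.h2 Z.hD).ρ * (Z.W.wj j) :=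
    (S.sys Z.h1 Z.h2 Z.hD).comm_of_fix (Z.W.nj_mem_N j) (Z.W.mono_nj j) (Z.W.nj_mem_fix j)
  have hs := stab_Inv (S.sys Z.h1 Z.h2 Z.hD) hc
  obtain ⟨t, ht⟩ := exists_co (R := Z.R) (Z.closed j) (Z.hd_mem j) (g := g) (by rw [hup]; exact hg)
  have h1 := co_mem_Tset (Z.closed j) hs (Z.hd_mem j) hf ht
  have h2 := Tset_hd S Z.h1 Z.h2 Z.h3 Z.hD Z.hJ j.2 Z.he (Z.hone j j.2) h1
  let t' : Z.E j := ⟨t, h2⟩
  refine ⟨t', ?_⟩
  have h3 := co_mul (Z.closed j) (Z.hd_mem j) (co_inv (Z.closed j) (Z.hd_mem j) (Z.co_XX j t')) ht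
  rw [show -((t' : F)) + t = 0 from neg_add_cancel t] at h3
  have hf2 := Γ0_le S Z.h1 Z.h2 Z.h3 Z.hD Z.he Z.hJ (mul_mem (inv_mem (Z.XX j t').2) hΓ)
  have h4 := mem_up_succ (Z.closed j) hs (Z.hd_mem j) hf2 h3
  rw [hup1] at h4
  have h5 : (Z.XX j t' : GL D.Idx F)⁻¹ * g = 1 := by
    have h6 : XS D F (∅ : Set (Fin D.nroots)) ≤ ⊥ := XS_le fun r hr => absurd hr (Set.notMem_empty r)
    exact Subgroup.mem_bot.mp (h6 h4)
  exact (inv_mul_eq_one.mp h5).symm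

theorem nj_eq (j : Fin C.nz) :
    Z.W.nj j = ((SL2Pres.nn (Z.XX j) (Z.YY j) (1 : Z.E j) : ↥(Γ0 D F C q)) : GL D.Idx F) := by
  have hneg := q_neg S Z.h1 Z.h2 Z.he G
  have e1 : Z.W.nj j = BN D F q ((C.jwN j).map C.sim) 1 := nl_eq_BN Z.h1 Z.h3 j.2 q
  rw [e1, BN_eq G hneg (Tab.c1 Z.h1).1 (cJ Z.hJ j.2).1]
  rfl

theorem exists_YY (j : Fin C.nz) {g : GL D.Idx F} (hg : g ∈ XS D F (Z.W.wj j '' Inv (Z.W.wj j))) (hΓ : g ∈ Γ0 D F C q) :
    ∃ t : Z.E j, g = Z.YY j t := by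
  have hn : Z.W.nj j ∈ Γ0 D F C q := Z.K.n_mem j
  have h1 : (Z.W.nj j)⁻¹ * g * Z.W.nj j ∈ XS D F (Inv (Z.W.wj j)) := by
    rw [← mono_conj_XS_iff (S.sys Z.h1 Z.h2 Z.hD) (Z.W.mono_nj j)]
    have e : Z.W.nj j * ((Z.W.nj j)⁻¹ * g * Z.W.nj j) * (Z.W.nj j)⁻¹ = g := by group
    rw [e]; exact hg
  obtain ⟨t, ht⟩ := Z.exists_XX j h1 (mul_mem (mul_mem (inv_mem hn) hΓ) hn)
  refine ⟨-t, ?_⟩
  have h2 := congrArg Subtype.val ((Z.isR1_XX j).n_X t)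
  have e : g = Z.W.nj j * ((Z.W.nj j)⁻¹ * g * Z.W.nj j) * (Z.W.nj j)⁻¹ := by group
  rw [e, ht, ← h2, Z.nj_eq]
  rfl

end GFH

end Cfsg.Agent.Lib.TwOut
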