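import Cfsg.Agent.Lib.TwOutB
set_option autoImplicit false
set_option linter.unusedSectionVars false
set_option linter.unusedVariables false

/-!
Graph-field families: the group of standard automorphisms.
-/

namespace Cfsg.Agent.Lib.TwOut
open Cfsg.Lie Cfsg.Agent.Lib.ChevX Cfsg.Agent.Lib.ChevGood Cfsg.Agent.Lib.ChevRel Cfsg.Agent.Lib.ChevNPerm
  Cfsg.Agent.Lib.ChevClosed Cfsg.Agent.Lib.ChevBruhat Cfsg.Agent.Lib.TwFix Cfsg.Agent.Lib.TwFix.TwRk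
open Cfsg.Agent.Lib.TwTab Cfsg.Agent.Lib.SplitOut Cfsg.Agent.Lib.RankOneAut Cfsg.Agent.Lib.RankOneMul
open Cfsg.Agent.Lib.SL2Pres (IsR1 hh)
open scoped MatrixGroups Matrix

variable {D : ChevalleyDatum} {F : Type*} [Field F]

namespace GFH
variable {G : Good D} {C : Tab} {S : SigData G C F} {q : ℕ} {L : List ℕ} (Z : GFH S q L)
include Z

/-- the word of the longest element -/
def Lf : List (Fin C.nz) := L.pmap (fun j hj => ⟨j, hj⟩) (Tab.cO Z.hO).1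

theorem Lf_val : Z.Lf.map Fin.val = L := by
  unfold Lf
  rw [List.map_pmap]
  simp

theorem w0_val (M : List (Fin C.nz)) (s : Fin D.nroots) :
    (((M.map Z.W.wj).prod s : Fin D.nroots) : ℕ) = C.w0N (M.map Fin.val) s := by
  induction M with
  | nil => rfl
  | cons j M ih =>
    rw [List.map_cons, List.prod_cons, Equiv.Perm.mul_apply, Z.wj_val, ih]
    rfl

theorem w0_val' (s : Fin D.nroots) : (((Z.Lf.map Z.W.wj).prod s : Fin D.nroots) : ℕ) = C.w0N L s := by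
  rw [Z.w0_val, Z.Lf_val]

theorem hLong (i : Fin D.rank) : ¬ Pos D ((Z.Lf.map Z.W.wj).prod (simpF G i)) := by
  have h := (Tab.cO Z.hO).2.1 i (by rw [(Tab.c1 Z.h1).2.1]; exact i.2)
  have hn := (Tab.c1 Z.h1).1
  have e : (((Z.Lf.map Z.W.wj).prod (simpF G i) : Fin D.nroots) : ℕ) = C.w0N L (C.sim i) := by
    rw [Z.w0_val', ← ((Tab.c1 Z.h1).2.2.1 i i.2).1]; rfl
  intro hcon
  have hcon' : D.nroots / 2 ≤ (((Z.Lf.map Z.W.wj).prod (simpF G i) : Fin D.nroots) : ℕ) := hcon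
  rw [e] at hcon'
  exact h (by rw [hn]; exact hcon')

theorem hstar (j : Fin C.nz) : (Z.Lf.map Z.W.wj).prod '' Inv (Z.W.wj j) = Z.W.wj j '' Inv (Z.W.wj j) := by
  have hO := ((Tab.cO Z.hO).2.2 j j.2).2
  ext s
  rw [Z.mem_neg_Inv]
  constructor
  · rintro ⟨r, hr, rfl⟩
    rw [Z.mem_Inv, J, List.mem_map] at hr
    obtain ⟨i, hi, hir⟩ := hr
    obtain ⟨i', hi', e⟩ := (hO i hi).2.2.1
    rw [Z.w0_val', ← hir, e, (Tab.c1 Z.h1).1, ← G.neg_eq _ (Z.sim_lt j.2 hi').2.1]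
    exact List.mem_map.mpr ⟨_, List.mem_map.mpr ⟨i', hi', rfl⟩, rfl⟩
  · intro hs
    obtain ⟨r, hr, hrs⟩ := List.mem_map.mp hs
    obtain ⟨i, hi, rfl⟩ := List.mem_map.mp hr
    obtain ⟨i', hi', e⟩ := (hO i hi).2.2.2
    refine ⟨⟨C.sim i', (Z.sim_lt j.2 hi').2.1⟩, (Z.mem_Inv j _).mpr (List.mem_map.mpr ⟨i', hi', rfl⟩), ?_⟩
    apply Fin.ext
    rw [Z.w0_val', ← hrs]
    show C.w0N L (C.sim i') = _
    rw [e, (Tab.c1 Z.h1).1, ← G.neg_eq _ (Z.sim_lt j.2 hi).2.1]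

theorem hcomm (i j : Fin C.nz) (hij : i ≠ j) (r : Fin D.nroots) (hr : r ∈ Inv (Z.W.wj i)) (s : Fin D.nroots)
    (hs : s ∈ Z.W.wj j '' Inv (Z.W.wj j)) (t u : F) : Commute (xg D F r t) (xg D F s u) := by
  rw [Z.mem_Inv, J, List.mem_map] at hr
  rw [Z.mem_neg_Inv, List.mem_map] at hs
  obtain ⟨a, ha, har⟩ := hr
  obtain ⟨r', hr', hrs⟩ := hs
  obtain ⟨b, hb, rfl⟩ := List.mem_map.mp hr'
  have h1 := Z.sim_lt i.2 ha
  have h2 := Z.sim_lt j.2 hb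
  rw [← har, ← hrs, ← h1.2.2, ← h2.2.2]
  refine ChevStd.comm_simple_neg G h1.1 h2.1 ?_ t u
  rintro rfl
  have h3 := (((Tab.c3 Z.h3).2 i i.2).1 a ha).2
  have h4 := (((Tab.c3 Z.h3).2 j j.2).1 a hb).2
  exact hij (Fin.ext (h3.symm.trans h4))

/-- the split BN-pair -/
noncomputable abbrev SP : Sp ↥(Γ0 D F C q) (Fin C.nz) := sp Z.K Z.Lf Z.hLong

/-- the rank one subgroups -/
noncomputable abbrev RK : Rk Z.SP := rk Z.K Z.Lf Z.hLong Z.hstar Z.hcomm fun j =>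
  ⟨Z.XX j 1, ⟨Z.XX_mem j 1, (Z.XX j 1).2⟩, Z.YY j (-1⁻¹), ⟨Z.YY_mem j _, (Z.YY j _).2⟩, Z.XX j 1,
    ⟨Z.XX_mem j 1, (Z.XX j 1).2⟩, Z.nj_eq j⟩

theorem mem_X (j : Fin C.nz) (g : ↥(Γ0 D F C q)) : g ∈ Z.RK.X j ↔ ∃ t, g = Z.XX j t := by
  constructor
  · intro h
    obtain ⟨t, ht⟩ := Z.exists_XX j (show (g : GL D.Idx F) ∈ XS D F (Inv (Z.W.wj j)) from h) g.2
    exact ⟨t, Subtype.ext ht⟩
  · rintro ⟨t, rfl⟩
    exact Z.XX_mem j t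

theorem mem_Y (j : Fin C.nz) (g : ↥(Γ0 D F C q)) : g ∈ Z.RK.Y j ↔ ∃ t, g = Z.YY j t := by
  constructor
  · intro h
    obtain ⟨t, ht⟩ := Z.exists_YY j (show (g : GL D.Idx F) ∈ XS D F (Z.W.wj j '' Inv (Z.W.wj j)) from h) g.2
    exact ⟨t, Subtype.ext ht⟩
  · rintro ⟨t, rfl⟩
    exact Z.YY_mem j t

theorem XX_eq_one (j : Fin C.nz) {t : Z.E j} (h : Z.XX j t = 1) : t = 0 :=
  Z.XX_inj j (h.trans (Z.isR1_XX j).X_zero.symm)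

theorem disj (j : Fin C.nz) (a b : Z.E j) (h : Z.XX j a = Z.YY j b) : a = 0 := by
  apply Z.XX_eq_one j
  refine Z.SP.BV _ (Z.SP.U_le (Z.RK.X_le j ((Z.mem_X j _).mpr ⟨a, rfl⟩))) ?_
  rw [h]
  exact Z.RK.Y_le j ((Z.mem_Y j _).mpr ⟨b, rfl⟩)

theorem uniqXX (j : Fin C.nz) : Uniq (Z.XX j) (Z.YY j) := uniq_of_disj (Z.isR1_XX j) (Z.disj j)

theorem YY_inj (j : Fin C.nz) : Function.Injective (Z.YY j) := by
  intro a b h
  have e : ∀ t, Z.YY j t = SL2Pres.nn (Z.XX j) (Z.YY j) 1 * Z.XX j (-t) * (SL2Pres.nn (Z.XX j) (Z.YY j) 1)⁻¹ := by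
    intro t
    rw [(Z.isR1_XX j).n_X, _root_.neg_neg]
  rw [e, e] at h
  have h1 := Z.XX_inj j (mul_left_cancel (mul_right_cancel h))
  exact neg_injective h1

/-- automorphisms are determined on the root elements -/
theorem aut_ext {θ θ' : MulAut ↥(Γ0 D F C q)} (hX : ∀ j t, θ (Z.XX j t) = θ' (Z.XX j t))
    (hY : ∀ j t, θ (Z.YY j t) = θ' (Z.YY j t)) : θ = θ' := by
  have key : Γ0 D F C q ≤ ((θ : ↥(Γ0 D F C q) →* ↥(Γ0 D F C q)).eqLocus (θ' : ↥(Γ0 D F C q) →* ↥(Γ0 D F C q))).map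
      (Γ0 D F C q).subtype := by
    refine (Subgroup.closure_le _).mpr ?_
    rintro g ⟨j, hj, t, ht, rfl | rfl⟩
    · exact ⟨Z.XX ⟨j, hj⟩ ⟨t, ht⟩, hX _ _, rfl⟩
    · exact ⟨Z.YY ⟨j, hj⟩ ⟨t, ht⟩, hY _ _, rfl⟩
  apply MulEquiv.ext
  intro g
  obtain ⟨x, hx, hxg⟩ := key g.2
  have : x = g := Subtype.ext hxg
  rw [← this]
  exact hx

/-! ### the explicit automorphisms -/

theorem Γ_le : Γ0 D F C q ≤ D.group F := fun g hg => (Γ0_le S Z.h1 Z.h2 Z.h3 Z.hD Z.he Z.hJ hg).1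

/-- the property of an automorphism of the ambient group: on block `j` it is `X_j(t) ↦ X_j(u_j f(t))` -/
def IsP (φ : MulAut ↥(D.group F)) (u : ∀ j : Fin C.nz, (Z.E j)ˣ) (f : F ≃+* F) : Prop :=
  ∀ (j : Fin C.nz) (t : Z.E j), (φ ⟨Z.XX j t, Z.Γ_le (Z.XX j t).2⟩ : GL D.Idx F) = BX D F q (J C j) (((u j : Z.E j) : F) * f t) ∧
    (φ ⟨Z.YY j t, Z.Γ_le (Z.YY j t).2⟩ : GL D.Idx F) =
      BX D F q ((J C j).map D.neg) ((((u j)⁻¹ : (Z.E j)ˣ) : Z.E j) * f t)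

theorem E_map (f : F ≃+* F) (j : ℕ) {t : F} (ht : t ∈ Z.E j) : f t ∈ Z.E j := by
  rw [mem_E] at ht ⊢
  rw [← map_pow, ht]

theorem IsP.maps {φ : MulAut ↥(D.group F)} {u : ∀ j : Fin C.nz, (Z.E j)ˣ} {f : F ≃+* F} (h : Z.IsP φ u f)
    (g : GL D.Idx F) (hg : g ∈ Γ0 D F C q) : (φ ⟨g, Z.Γ_le hg⟩ : GL D.Idx F) ∈ Γ0 D F C q := by
  have key : Γ0 D F C q ≤ (((Γ0 D F C q).subgroupOf (D.group F)).comap φ.toMonoidHom).map (D.group F).subtype := by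
    refine (Subgroup.closure_le _).mpr ?_
    rintro g ⟨j, hj, t, ht, rfl | rfl⟩
    · refine ⟨⟨Z.XX ⟨j, hj⟩ ⟨t, ht⟩, Z.Γ_le (Z.XX ⟨j, hj⟩ ⟨t, ht⟩).2⟩, ?_, rfl⟩
      show (φ _ : GL D.Idx F) ∈ Γ0 D F C q
      rw [(h ⟨j, hj⟩ ⟨t, ht⟩).1]
      exact (BX_mem_Γ0 hj (mul_mem (u ⟨j, hj⟩ : Z.E j).2 (Z.E_map f j ht))).1
    · refine ⟨⟨Z.YY ⟨j, hj⟩ ⟨t, ht⟩, Z.Γ_le (Z.YY ⟨j, hj⟩ ⟨t, ht⟩).2⟩, ?_, rfl⟩
      show (φ _ : GL D.Idx F) ∈ Γ0 D F C q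
      rw [(h ⟨j, hj⟩ ⟨t, ht⟩).2]
      exact (BX_mem_Γ0 hj (mul_mem (((u ⟨j, hj⟩)⁻¹ : (Z.E j)ˣ) : Z.E j).2 (Z.E_map f j ht))).2
  obtain ⟨x, hx, hxg⟩ := key hg
  have : x = ⟨g, Z.Γ_le hg⟩ := Subtype.ext hxg
  rw [← this]
  exact hx

theorem IsP.maps' [Finite F] {φ : MulAut ↥(D.group F)} {u : ∀ j : Fin C.nz, (Z.E j)ˣ} {f : F ≃+* F} (h : Z.IsP φ u f)
    (g : GL D.Idx F) (hg : g ∈ Γ0 D F C q) : (φ⁻¹ ⟨g, Z.Γ_le hg⟩ : GL D.Idx F) ∈ Γ0 D F C q := by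
  let e : ↥(Γ0 D F C q) → ↥(Γ0 D F C q) := fun g => ⟨φ ⟨g, Z.Γ_le g.2⟩, h.maps Z g g.2⟩
  have he : Function.Injective e := by
    intro a b hab
    have h1 := congrArg (fun z : ↥(Γ0 D F C q) => (z : GL D.Idx F)) hab
    have h2 : (⟨a, Z.Γ_le a.2⟩ : ↥(D.group F)) = ⟨b, Z.Γ_le b.2⟩ := φ.injective (Subtype.ext h1)
    exact Subtype.ext (congrArg (fun z : ↥(D.group F) => (z : GL D.Idx F)) h2)
  obtain ⟨x, hx⟩ := Finite.surjective_of_injective he ⟨g, hg⟩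
  have h0 := congrArg (fun z : ↥(Γ0 D F C q) => (z : GL D.Idx F)) hx
  have h1 : φ ⟨x, Z.Γ_le x.2⟩ = ⟨g, Z.Γ_le hg⟩ := Subtype.ext h0
  rw [← h1, MulAut.inv_apply_self]
  exact x.2

/-- the restriction -/
noncomputable def res [Finite F] {φ : MulAut ↥(D.group F)} {u : ∀ j : Fin C.nz, (Z.E j)ˣ} {f : F ≃+* F} (h : Z.IsP φ u f) :
    MulAut ↥(Γ0 D F C q) where
  toFun g := ⟨φ ⟨g, Z.Γ_le g.2⟩, h.maps Z g g.2⟩
  invFun g := ⟨φ⁻¹ ⟨g, Z.Γ_le g.2⟩, h.maps' Z g g.2⟩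
  left_inv g := by
    apply Subtype.ext
    show (φ⁻¹ ⟨(φ ⟨g, Z.Γ_le g.2⟩ : GL D.Idx F), _⟩ : GL D.Idx F) = g
    have : (⟨(φ ⟨g, Z.Γ_le g.2⟩ : GL D.Idx F), Z.Γ_le (h.maps Z g g.2)⟩ : ↥(D.group F)) = φ ⟨g, Z.Γ_le g.2⟩ := Subtype.ext rfl
    rw [this, MulAut.inv_apply_self]
  right_inv g := by
    apply Subtype.ext
    show (φ ⟨(φ⁻¹ ⟨g, Z.Γ_le g.2⟩ : GL D.Idx F), _⟩ : GL D.Idx F) = g
    have : (⟨(φ⁻¹ ⟨g, Z.Γ_le g.2⟩ : GL D.Idx F), Z.Γ_le (h.maps' Z g g.2)⟩ : ↥(D.group F)) = φ⁻¹ ⟨g, Z.Γ_le g.2⟩ := Subtype.ext rfl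
    rw [this, MulAut.apply_inv_self]
  map_mul' a b := by
    apply Subtype.ext
    show (φ ⟨(a : GL D.Idx F) * b, _⟩ : GL D.Idx F) = (φ ⟨a, Z.Γ_le a.2⟩ : GL D.Idx F) * φ ⟨b, Z.Γ_le b.2⟩
    have : (⟨(a : GL D.Idx F) * b, Z.Γ_le (mul_mem a.2 b.2)⟩ : ↥(D.group F)) = ⟨a, Z.Γ_le a.2⟩ * ⟨b, Z.Γ_le b.2⟩ := rfl
    rw [this, map_mul]; rfl

theorem res_XX [Finite F] {φ : MulAut ↥(D.group F)} {u : ∀ j : Fin C.nz, (Z.E j)ˣ} {f : F ≃+* F} (h : Z.IsP φ u f)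
    (j : Fin C.nz) (t : Z.E j) : Z.res h (Z.XX j t) = Z.XX j ((u j : Z.E j) * ⟨f t, Z.E_map f j t.2⟩) := by
  apply Subtype.ext
  exact (h j t).1

theorem res_YY [Finite F] {φ : MulAut ↥(D.group F)} {u : ∀ j : Fin C.nz, (Z.E j)ˣ} {f : F ≃+* F} (h : Z.IsP φ u f)
    (j : Fin C.nz) (t : Z.E j) : Z.res h (Z.YY j t) = Z.YY j (((u j)⁻¹ : (Z.E j)ˣ) * ⟨f t, Z.E_map f j t.2⟩) := by
  apply Subtype.ext
  exact (h j t).2

/-! ### existence of the explicit automorphisms -/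

/-- the units on the nodes -/
noncomputable def cc (u : ∀ j : Fin C.nz, (Z.E j)ˣ) (i : Fin D.rank) : Fˣ :=
  Units.map (Z.E (C.blkN i)).subtype.toMonoidHom
    (u ⟨C.blkN i, ((Tab.c3 Z.h3).1 i (by rw [(Tab.c1 Z.h1).2.1]; exact i.2)).1⟩) ^ q ^ (C.jwN (C.blkN i)).idxOf (i : ℕ)

/-- an automorphism acting on the nodes of a list -/
theorem BX_act {φ : MulAut ↥(D.group F)} {f : F ≃+* F} {ψ : ℕ → ℕ} (cf : ℕ → F) (A : List ℕ)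
    (hφ : ∀ i ∈ A, ∀ t, φ (ChevStd.X G (ψ i) t) = ChevStd.X G (ψ i) (cf i * f t)) :
    ∀ (u t : F), (∀ a (ha : a < A.length), cf (A[a]) = u ^ q ^ a) → ∀ h : BX D F q (A.map ψ) t ∈ D.group F,
      (φ ⟨BX D F q (A.map ψ) t, h⟩ : GL D.Idx F) = BX D F q (A.map ψ) (u * f t) := by
  induction A with
  | nil =>
    intro u t _ h
    have : (⟨BX D F q (([] : List ℕ).map ψ) t, h⟩ : ↥(D.group F)) = 1 := rfl
    rw [this, map_one]; rfl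
  | cons i A ih =>
    intro u t hu h
    have h0 := hu 0 (by simp)
    have h2 : BX D F q (A.map ψ) (t ^ q) ∈ D.group F := BX_mem_group _ _ _ G
    have e : (⟨BX D F q ((i :: A).map ψ) t, h⟩ : ↥(D.group F)) = ChevStd.X G (ψ i) t * ⟨BX D F q (A.map ψ) (t ^ q), h2⟩ := rfl
    rw [e, map_mul, hφ i (by simp), Subgroup.coe_mul, ih (fun i hi => hφ i (by simp [hi])) (u ^ q) (t ^ q) (fun a ha => by
      have := hu (a + 1) (by simp; omega)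
      rw [List.getElem_cons_succ] at this
      rw [this, ← pow_mul, pow_succ']) h2]
    have h0' : cf i = u := by simpa using h0
    rw [h0', map_pow, ← mul_pow]
    rfl

/-- the nodes of a block are distinct -/
def ND (C : Tab) : Prop := ∀ j < C.nz, (C.jwN j).Nodup

theorem cc_get (hN : ND C) (u : ∀ j : Fin C.nz, (Z.E j)ˣ) (j : Fin C.nz) (a : ℕ) (ha : a < (C.jwN j).length)
    (hi : (C.jwN j)[a] < D.rank) : (Z.cc u ⟨(C.jwN j)[a], hi⟩ : F) = (((u j : Z.E j) : F)) ^ q ^ a := by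
  have h1 := (((Tab.c3 Z.h3).2 j j.2).1 _ (List.getElem_mem ha)).2
  have h2 : ∀ (k : ℕ) (hk : k < C.nz), k = j →
      ((Units.map (Z.E k).subtype.toMonoidHom (u ⟨k, hk⟩) ^ q ^ (C.jwN k).idxOf ((C.jwN j)[a]) : Fˣ) : F) =
      (((u j : Z.E j) : F)) ^ q ^ a := by
    rintro k hk rfl
    rw [Units.val_pow_eq_pow_val, Units.coe_map, (hN _ hk).idxOf_getElem a ha]
    rfl
  exact h2 _ _ h1

theorem isP (hN : ND C) (u : ∀ j : Fin C.nz, (Z.E j)ˣ) (f : F ≃+* F) :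
    Z.IsP (ChevStd.dA G (Z.cc u) * ChevStd.fA G f) u f := by
  intro j t
  have hsim : ∀ i ∈ C.jwN j, ∀ h : i < D.rank, C.sim i = D.simple i := fun i hi _ => (Z.sim_lt j.2 hi).2.2.symm
  have e1 : (C.jwN j).map C.sim = (C.jwN j).map D.simple := List.map_congr_left fun i hi => (Z.sim_lt j.2 hi).2.2.symm
  have e2 : ((C.jwN j).map C.sim).map D.neg = (C.jwN j).map (fun i => D.neg (D.simple i)) := by
    rw [List.map_map]
    exact List.map_congr_left fun i hi => congrArg D.neg (Z.sim_lt j.2 hi).2.2.symm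
  constructor
  · have h := BX_act Z (φ := ChevStd.dA G (Z.cc u) * ChevStd.fA G f) (f := f) (ψ := D.simple)
      (fun i => if h : i < D.rank then (Z.cc u ⟨i, h⟩ : F) else 1) (C.jwN j) (fun i hi t => by
        have hi' := (Z.sim_lt j.2 hi).1
        rw [MulAut.mul_apply, ChevStd.fA_apply G f (G.simple_lt i hi'), dif_pos hi']
        exact ChevStd.dA_pos G (Z.cc u) ⟨i, hi'⟩ (f t)) ((u j : Z.E j) : F) t (fun a ha => by
        have hi' := (Z.sim_lt j.2 (List.getElem_mem ha)).1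
        rw [dif_pos hi']
        exact Z.cc_get hN u j a ha hi')
    unfold J
    rw [← e1] at h
    exact h _
  · have h := BX_act Z (φ := ChevStd.dA G (Z.cc u) * ChevStd.fA G f) (f := f) (ψ := fun i => D.neg (D.simple i))
      (fun i => if h : i < D.rank then (((Z.cc u ⟨i, h⟩)⁻¹ : Fˣ) : F) else 1) (C.jwN j) (fun i hi t => by
        have hi' := (Z.sim_lt j.2 hi).1
        rw [MulAut.mul_apply, ChevStd.fA_apply G f (neg_lt G (G.simple_lt i hi')), dif_pos hi']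
        exact ChevStd.dA_neg G (Z.cc u) ⟨i, hi'⟩ (f t)) ((((u j)⁻¹ : (Z.E j)ˣ) : Z.E j) : F) t (fun a ha => by
        have hi' := (Z.sim_lt j.2 (List.getElem_mem ha)).1
        rw [dif_pos hi', Units.val_inv_eq_inv_val, Z.cc_get hN u j a ha hi', Units.val_inv_eq_inv_val, Subfield.coe_inv,
          inv_pow])
    unfold J
    rw [← e2] at h
    exact h _

/-- the explicit automorphisms -/
noncomputable def θA [Finite F] (hN : ND C) (u : ∀ j : Fin C.nz, (Z.E j)ˣ) (f : F ≃+* F) : MulAut ↥(Γ0 D F C q) :=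
  Z.res (Z.isP hN u f)

theorem θA_XX [Finite F] (hN : ND C) (u : ∀ j : Fin C.nz, (Z.E j)ˣ) (f : F ≃+* F) (j : Fin C.nz) (t : Z.E j) :
    Z.θA hN u f (Z.XX j t) = Z.XX j ((u j : Z.E j) * ⟨f t, Z.E_map f j t.2⟩) := Z.res_XX _ j t

theorem θA_YY [Finite F] (hN : ND C) (u : ∀ j : Fin C.nz, (Z.E j)ˣ) (f : F ≃+* F) (j : Fin C.nz) (t : Z.E j) :
    Z.θA hN u f (Z.YY j t) = Z.YY j (((u j)⁻¹ : (Z.E j)ˣ) * ⟨f t, Z.E_map f j t.2⟩) := Z.res_YY _ j t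

theorem θA_std [Finite F] (hN : ND C) (u : ∀ j : Fin C.nz, (Z.E j)ˣ) (f : F ≃+* F) : Z.SP.Std (Z.θA hN u f) := by
  have h := (ChevStd.dA_fA_mem G (Z.cc u) f).1
  constructor
  · intro g
    exact h.U ⟨g, Z.Γ_le g.2⟩
  · intro g
    exact h.V ⟨g, Z.Γ_le g.2⟩

end GFH

end Cfsg.Agent.Lib.TwOut
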