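import Cfsg.Agent.Lib.TwOutC
set_option autoImplicit false
set_option linter.unusedSectionVars false
set_option linter.unusedVariables false

/-!
Graph-field families: the order of the group of standard automorphisms and of `Out`.
-/

namespace Cfsg.Agent.Lib.TwOut
open Cfsg.Lie Cfsg.Agent.Lib.ChevX Cfsg.Agent.Lib.ChevGood Cfsg.Agent.Lib.ChevRel Cfsg.Agent.Lib.ChevNPerm
  Cfsg.Agent.Lib.ChevClosed Cfsg.Agent.Lib.ChevBruhat Cfsg.Agent.Lib.TwFix Cfsg.Agent.Lib.TwFix.TwRk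
open Cfsg.Agent.Lib.TwTab Cfsg.Agent.Lib.SplitOut Cfsg.Agent.Lib.RankOneAut Cfsg.Agent.Lib.RankOneMul
open Cfsg.Agent.Lib.SL2Pres (IsR1 hh)
open scoped MatrixGroups Matrix

variable {D : ChevalleyDatum} {F : Type*} [Field F]

namespace GFH
variable {G : Good D} {C : Tab} {S : SigData G C F} {q : ℕ} {L : List ℕ} (Z : GFH S q L)

/-- the permutation of the blocks is trivial -/
def HPerm : Prop := ∀ (ρ : Equiv.Perm (Fin C.nz)) (θ : MulAut ↥(Γ0 D F C q)), Z.SP.Std θ →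
  (∀ i, (∀ g, θ g ∈ Z.RK.X (ρ i) ↔ g ∈ Z.RK.X i) ∧ (∀ g, θ g ∈ Z.RK.Y (ρ i) ↔ g ∈ Z.RK.Y i)) → ρ = 1

/-- the field automorphisms of the blocks are compatible -/
def HCompat : Prop := ∀ (θ : MulAut ↥(Γ0 D F C q)) (f : ∀ j : Fin C.nz, Z.E j ≃+* Z.E j),
  (∀ j t, θ (Z.XX j t) = Z.XX j (f j t)) → (∀ j t, θ (Z.YY j t) = Z.YY j (f j t)) →
  (∀ j c, c ≠ 0 → θ (hh (Z.XX j) (Z.YY j) c) = hh (Z.XX j) (Z.YY j) (f j c)) →
  ∃ g : F ≃+* F, ∀ j t, (f j t : F) = g t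

include Z

theorem θA_mul [Finite F] (hN : ND C) (u : ∀ j : Fin C.nz, (Z.E j)ˣ) (f : F ≃+* F) :
    Z.θA hN u (RingEquiv.refl F) * Z.θA hN 1 f = Z.θA hN u f := by
  apply Z.aut_ext
  · intro j t
    rw [MulAut.mul_apply, Z.θA_XX, Z.θA_XX, Z.θA_XX]
    congr 1
    apply Subtype.ext
    simp
  · intro j t
    rw [MulAut.mul_apply, Z.θA_YY, Z.θA_YY, Z.θA_YY]
    congr 1
    apply Subtype.ext
    simp

theorem exists_θA [Finite F] (hN : ND C) (hP : Z.HPerm) (hC : Z.HCompat) {θ : MulAut ↥(Γ0 D F C q)} (h : Z.SP.Std θ) :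
    ∃ u f, θ = Z.θA hN u f := by
  obtain ⟨ρ, hρ⟩ := Z.RK.exists_perm h
  have hρ1 := hP ρ θ h hρ
  subst hρ1
  have kX : ∀ (j : Fin C.nz) (t : Z.E j), ∃ t', θ (Z.XX j t) = Z.XX j t' := by
    intro j t
    exact (Z.mem_X j _).mp (((hρ j).1 _).mpr ((Z.mem_X j _).mpr ⟨t, rfl⟩))
  have kY : ∀ (j : Fin C.nz) (t : Z.E j), ∃ t', θ (Z.YY j t) = Z.YY j t' := by
    intro j t
    exact (Z.mem_Y j _).mp (((hρ j).2 _).mpr ((Z.mem_Y j _).mpr ⟨t, rfl⟩))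
  choose σ hσ using kX
  choose τ hτ using kY
  have hσ1 : ∀ j : Fin C.nz, σ j 1 ≠ 0 := by
    intro j h0
    have h1 := hσ j 1
    rw [h0, (Z.isR1_XX j).X_zero, map_eq_one_iff θ θ.injective] at h1
    exact one_ne_zero (Z.XX_eq_one j h1)
  let u : ∀ j : Fin C.nz, (Z.E j)ˣ := fun j => Units.mk0 (σ j 1) (hσ1 j)
  have hu : ∀ j : Fin C.nz, ((u j : (Z.E j)ˣ) : Z.E j) = σ j 1 := fun j => rfl
  set θ0 := Z.θA hN u (RingEquiv.refl F) with hθ0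
  have h0X : ∀ (j : Fin C.nz) (s : Z.E j), θ0⁻¹ (Z.XX j s) = Z.XX j (((u j)⁻¹ : (Z.E j)ˣ) * s) := by
    intro j s
    have h1 := Z.θA_XX hN u (RingEquiv.refl F) j (((u j)⁻¹ : (Z.E j)ˣ) * s)
    have h2 : (u j : Z.E j) * (⟨(RingEquiv.refl F) (((((u j)⁻¹ : (Z.E j)ˣ) : Z.E j) * s : Z.E j) : F),
        Z.E_map (RingEquiv.refl F) j ((((u j)⁻¹ : (Z.E j)ˣ) : Z.E j) * s : Z.E j).2⟩ : Z.E j) = s := by
      have : (⟨(RingEquiv.refl F) (((((u j)⁻¹ : (Z.E j)ˣ) : Z.E j) * s : Z.E j) : F),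
        Z.E_map (RingEquiv.refl F) j ((((u j)⁻¹ : (Z.E j)ˣ) : Z.E j) * s : Z.E j).2⟩ : Z.E j) =
          (((u j)⁻¹ : (Z.E j)ˣ) : Z.E j) * s := Subtype.ext rfl
      rw [this, Units.mul_inv_cancel_left]
    rw [h2, ← hθ0] at h1
    rw [← h1, MulAut.inv_apply_self]
  have h0Y : ∀ (j : Fin C.nz) (s : Z.E j), θ0⁻¹ (Z.YY j s) = Z.YY j ((u j : Z.E j) * s) := by
    intro j s
    have h1 := Z.θA_YY hN u (RingEquiv.refl F) j ((u j : Z.E j) * s)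
    have h2 : ((((u j)⁻¹ : (Z.E j)ˣ) : Z.E j)) * (⟨(RingEquiv.refl F) ((((u j : (Z.E j)ˣ) : Z.E j) * s : Z.E j) : F),
        Z.E_map (RingEquiv.refl F) j (((u j : (Z.E j)ˣ) : Z.E j) * s : Z.E j).2⟩ : Z.E j) = s := by
      have : (⟨(RingEquiv.refl F) ((((u j : (Z.E j)ˣ) : Z.E j) * s : Z.E j) : F),
        Z.E_map (RingEquiv.refl F) j (((u j : (Z.E j)ˣ) : Z.E j) * s : Z.E j).2⟩ : Z.E j) =
          ((u j : (Z.E j)ˣ) : Z.E j) * s := Subtype.ext rfl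
      rw [this, Units.inv_mul_cancel_left]
    rw [h2, ← hθ0] at h1
    rw [← h1, MulAut.inv_apply_self]
  let σ' : ∀ j : Fin C.nz, Z.E j → Z.E j := fun j t => (((u j)⁻¹ : (Z.E j)ˣ) : Z.E j) * σ j t
  let τ' : ∀ j : Fin C.nz, Z.E j → Z.E j := fun j t => (u j : Z.E j) * τ j t
  set θ1 : MulAut ↥(Γ0 D F C q) := θ0⁻¹ * θ with hθ1
  have h1X : ∀ (j : Fin C.nz) t, θ1 (Z.XX j t) = Z.XX j (σ' j t) := fun j t => by
    rw [hθ1, MulAut.mul_apply, hσ, h0X]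
  have h1Y : ∀ (j : Fin C.nz) t, θ1 (Z.YY j t) = Z.YY j (τ' j t) := fun j t => by
    rw [hθ1, MulAut.mul_apply, hτ, h0Y]
  have h11 : ∀ j : Fin C.nz, σ' j 1 = 1 := fun j => by
    show (((u j)⁻¹ : (Z.E j)ˣ) : Z.E j) * σ j 1 = 1
    rw [← hu, Units.inv_mul]
  have kf : ∀ j : Fin C.nz, ∃ f : Z.E j ≃+* Z.E j, ∀ t, σ' j t = f t := fun j =>
    exists_ringEquiv (Z.isR1_XX j) (Z.isR1_XX j) (Z.XX_inj j) (Z.YY_inj j) (θ := (θ1 : ↥(Γ0 D F C q) →* ↥(Γ0 D F C q)))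
      (h1X j) (h1Y j) (Z.XX_inj j) θ1.injective (Z.uniqXX j) (h11 j)
  have kt : ∀ (j : Fin C.nz) t, τ' j t = σ' j t := fun j =>
    tau_eq (Z.isR1_XX j) (Z.isR1_XX j) (Z.XX_inj j) (Z.YY_inj j) (θ := (θ1 : ↥(Γ0 D F C q) →* ↥(Γ0 D F C q)))
      (h1X j) (h1Y j) (Z.uniqXX j) (h11 j)
  choose f hf using kf
  obtain ⟨g, hg⟩ := hC θ1 f (fun j t => by rw [h1X, hf]) (fun j t => by rw [h1Y, kt, hf]) (fun j c hc => by
    have := map_hh (Z.isR1_XX j) (Z.isR1_XX j) (Z.XX_inj j) (Z.YY_inj j) (θ := (θ1 : ↥(Γ0 D F C q) →* ↥(Γ0 D F C q)))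
      (h1X j) (h1Y j) (Z.uniqXX j) (h11 j) hc
    rw [hf] at this
    exact this)
  refine ⟨u, g, ?_⟩
  rw [← Z.θA_mul, ← hθ0]
  have h3 : θ1 = Z.θA hN 1 g := by
    apply Z.aut_ext
    · intro j t
      rw [h1X, Z.θA_XX, hf]
      congr 1
      apply Subtype.ext
      rw [hg]
      simp
    · intro j t
      rw [h1Y, Z.θA_YY, kt, hf]
      congr 1
      apply Subtype.ext
      rw [hg]
      simp
  rw [← h3, hθ1, mul_inv_cancel_left]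

theorem θA_inj [Finite F] (hN : ND C) {j0 : Fin C.nz} (hj0 : ∀ t : F, t ∈ Z.E j0) {u u' : ∀ j : Fin C.nz, (Z.E j)ˣ}
    {f f' : F ≃+* F} (h : Z.θA hN u f = Z.θA hN u' f') : u = u' ∧ f = f' := by
  have h1 : ∀ (j : Fin C.nz) (t : Z.E j), (u j : Z.E j) * (⟨f t, Z.E_map f j t.2⟩ : Z.E j) =
      (u' j : Z.E j) * ⟨f' t, Z.E_map f' j t.2⟩ := by
    intro j t
    apply Z.XX_inj j
    rw [← Z.θA_XX hN, ← Z.θA_XX hN, h]
  have h2 : u = u' := by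
    funext j
    have h3 := h1 j 1
    apply Units.ext
    have e1 : (⟨f ((1 : Z.E j) : F), Z.E_map f j (1 : Z.E j).2⟩ : Z.E j) = 1 := Subtype.ext (by simp)
    have e2 : (⟨f' ((1 : Z.E j) : F), Z.E_map f' j (1 : Z.E j).2⟩ : Z.E j) = 1 := Subtype.ext (by simp)
    rw [e1, e2, mul_one, mul_one] at h3
    exact h3
  refine ⟨h2, RingEquiv.ext fun t => ?_⟩
  subst h2
  have h3 := h1 j0 ⟨t, hj0 t⟩
  have h4 := (Units.mul_right_inj _).mp h3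
  exact congrArg Subtype.val h4

theorem card_S0 [Finite F] (hN : ND C) (hP : Z.HPerm) (hC : Z.HCompat) {j0 : Fin C.nz} (hj0 : ∀ t : F, t ∈ Z.E j0) :
    Nat.card Z.SP.S0 = (∏ j : Fin C.nz, Nat.card (Z.E j)ˣ) * Nat.card (F ≃+* F) := by
  have e : Nat.card ((∀ j : Fin C.nz, (Z.E j)ˣ) × (F ≃+* F)) = Nat.card Z.SP.S0 := by
    apply Nat.card_eq_of_bijective (fun x : (∀ j : Fin C.nz, (Z.E j)ˣ) × (F ≃+* F) =>
      (⟨Z.θA hN x.1 x.2, Z.θA_std hN x.1 x.2⟩ : Z.SP.S0))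
    constructor
    · intro x y hxy
      obtain ⟨h1, h2⟩ := Z.θA_inj hN hj0 (congrArg Subtype.val hxy)
      exact Prod.ext h1 h2
    · rintro ⟨θ, hθ⟩
      obtain ⟨c, s, h⟩ := Z.exists_θA hN hP hC hθ
      exact ⟨(c, s), Subtype.ext h.symm⟩
  rw [← e, Nat.card_prod, Nat.card_pi]

theorem card_out [Finite F] (hN : ND C) (hP : Z.HPerm) (hC : Z.HCompat) {j0 : Fin C.nz} (hj0 : ∀ t : F, t ∈ Z.E j0) :
    Nat.card (Cfsg.Out ↥(Γ0 D F C q)) * Nat.card ↥(D.diagonalSubgroup F ⊓ Γ0 D F C q) =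
      (∏ j : Fin C.nz, Nat.card (Z.E j)ˣ) * Nat.card (F ≃+* F) := by
  obtain ⟨p, hp⟩ := CharP.exists F
  have hpp : Fact p.Prime := ⟨CharP.char_is_prime F p⟩
  have := Fintype.ofFinite F
  have hcH : Nat.card Z.SP.H = Nat.card ↥(D.diagonalSubgroup F ⊓ Γ0 D F C q) := by
    have h1 : Z.SP.H = (D.diagonalSubgroup F ⊓ Γ0 D F C q).subgroupOf (Γ0 D F C q) := by
      rw [Subgroup.inf_subgroupOf_right]; rfl
    rw [h1]
    exact Nat.card_congr (Subgroup.subgroupOfEquivOfLe inf_le_right).toEquiv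
  have hU : IsPGroup p Z.SP.U := by
    obtain ⟨n, -, hn⟩ := FiniteField.card F p
    have hUG : IsPGroup p (D.posUnipotent F) := by
      apply IsPGroup.of_card (n := n * (D.nroots / 2))
      rw [ChevU.card_posUnipotent G, hn, pow_mul]
    have h1 : IsPGroup p ↥((D.posUnipotent F).comap (Γ0 D F C q).subtype) :=
      hUG.comap_of_injective (Γ0 D F C q).subtype Subtype.val_injective
    exact h1
  have hH : ¬ p ∣ Nat.card Z.SP.H := by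
    intro h
    rw [hcH] at h
    exact ChevStd.not_dvd_card_H G (F := F) p (h.trans (Subgroup.card_dvd_of_le inf_le_left))
  rw [← hcH, Z.SP.card_out hU hH, Z.card_S0 hN hP hC hj0]

end GFH

end Cfsg.Agent.Lib.TwOut
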