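import Cfsg.Agent.Lib.TwOutE
import Cfsg.Agent.Lib.TwD4End
set_option autoImplicit false
set_option linter.unusedSectionVars false
set_option linter.unusedVariables false

/-!
The outer automorphism group of 3D4(q).
-/

namespace Cfsg.Agent.Lib.TwOut
open Cfsg.Lie Cfsg.Agent.Lib.ChevX Cfsg.Agent.Lib.ChevGood Cfsg.Agent.Lib.ChevRel Cfsg.Agent.Lib.ChevNPerm
  Cfsg.Agent.Lib.ChevClosed Cfsg.Agent.Lib.ChevBruhat Cfsg.Agent.Lib.TwFix Cfsg.Agent.Lib.TwFix.TwRk
open Cfsg.Agent.Lib.TwTab Cfsg.Agent.Lib.SplitOut Cfsg.Agent.Lib.TwField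
open scoped MatrixGroups Matrix

variable {K : Type*} [Field K] [Fintype K] {q : ℕ} (hq : IsPrimePow q) (hK : Fintype.card K = q ^ 3)

theorem chkOD4 : tabD4.chkO lwD4 = true := by decide +kernel

theorem gD4 : GFH (TwD4.sig hq hK) q lwD4 where
  h1 := chk1D4
  h2 := chk2D4
  h3 := chk3D4
  hD := TwD4.listed
  he := TwD4.sig_e hq hK
  hJ := TwD4.chkJ
  h4 := chk4D4
  h5 := chk5D4
  K := TwD4.all hq hK
  hone := TwD4.hone hK
  hO := chkOD4

theorem ndD4 : GFH.ND tabD4 := by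
  unfold GFH.ND
  decide +kernel

theorem topD4 (t : K) : t ∈ (gD4 hq hK).E 0 := TwD4.hT hK t

theorem permD4 : (gD4 hq hK).HPerm := by
  intro ρ θ _ h
  have h2 : (2 : ℕ) ≤ q := hq.two_le
  have c0 : Nat.card ((gD4 hq hK).E 0) = q ^ 3 := by
    rw [(gD4 hq hK).card_E_top (topD4 hq hK), hK]
  have c1 : Nat.card ((gD4 hq hK).E 1) = q := (gD4 hq hK).card_E_one (by omega) (by norm_num) hK rfl
  have hlt : q < q ^ 3 := by
    calc q = q ^ 1 := (pow_one q).symm
      _ < q ^ 3 := Nat.pow_lt_pow_right h2 (by norm_num)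
  have key : ∀ i : Fin 2, ρ i = i := by
    intro i
    have h3 := (gD4 hq hK).card_perm h i
    have h4 : ρ i = (0 : Fin 2) ∨ ρ i = (1 : Fin 2) := by
      have : ∀ x : Fin 2, x = 0 ∨ x = 1 := by decide
      exact this (ρ i)
    have h5 : i = 0 ∨ i = 1 := by
      have : ∀ x : Fin 2, x = 0 ∨ x = 1 := by decide
      exact this i
    rcases h5 with rfl | rfl <;> rcases h4 with h4 | h4
    · exact h4
    · exfalso
      rw [h4] at h3
      have h3' : Nat.card ((gD4 hq hK).E 0) = Nat.card ((gD4 hq hK).E 1) := h3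
      rw [c0, c1] at h3'
      omega
    · exfalso
      rw [h4] at h3
      have h3' : Nat.card ((gD4 hq hK).E 1) = Nat.card ((gD4 hq hK).E 0) := h3
      rw [c0, c1] at h3'
      omega
    · exact h4
  exact Equiv.ext key

theorem caD4 : ∀ b < 3, ca chevD4 ((GFH.J tabD4 1).getD 0 0) ((GFH.J tabD4 0).getD b 0) = -1 := by
  decide +kernel

theorem compatD4 : (gD4 hq hK).HCompat := by
  intro θ f hX hY hH
  refine ⟨(gD4 hq hK).toF (j := (0 : Fin 2)) (topD4 hq hK) (f (0 : Fin 2)), fun j t => ?_⟩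
  have h5 : j = (0 : Fin 2) ∨ j = (1 : Fin 2) := by
    have : ∀ x : Fin 2, x = 0 ∨ x = 1 := by decide
    exact this j
  rcases h5 with rfl | rfl
  · rfl
  · refine (gD4 hq hK).compat (1 : Fin 2) (0 : Fin 2) hX hH (fun c _ => topD4 hq hK c) ?_ t
    intro c hc hcE b hb
    have hb3 : b < 3 := hb
    have hcq : c ^ q = c := by
      have : c ^ q ^ 1 = c := hcE
      rwa [pow_one] at this
    have e1 : bc chevD4 q (GFH.J tabD4 1) (GFH.J tabD4 0)[b] c = c ^ ca chevD4 ((GFH.J tabD4 1).getD 0 0) ((GFH.J tabD4 0).getD b 0) := by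
      have hb' : b < (GFH.J tabD4 0).length := hb
      have e2 : (GFH.J tabD4 0).getD b 0 = (GFH.J tabD4 0)[b] := List.getD_eq_getElem _ _ hb'
      rw [e2]
      show c ^ ca chevD4 _ _ * 1 = _
      rw [mul_one]; rfl
    have e3 : ∀ b : ℕ, (c⁻¹) ^ q ^ b = c⁻¹ := by
      intro b
      induction b with
      | zero => simp
      | succ b ih => rw [pow_succ, pow_mul, ih, inv_pow, hcq]
    show bc chevD4 q (GFH.J tabD4 1) (GFH.J tabD4 0)[b] c = c⁻¹ ^ q ^ b
    rw [e1, caD4 b hb3, e3, zpow_neg_one]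

include hq hK in
theorem out_D4 {p f : ℕ} [Fact p.Prime] (hqp : q = p ^ f) : Nat.card (Cfsg.Out ↥(twistedD4 K q)) = 3 * f := by
  have h := (gD4 hq hK).card_out ndD4 (permD4 hq hK) (compatD4 hq hK) (j0 := (0 : Fin 2)) (topD4 hq hK)
  have hcard : Fintype.card K = p ^ (3 * f) := by rw [hK, hqp, ← pow_mul, mul_comm]
  rw [TwD4.card_H hq hK, FFAut.card_aut hcard] at h
  have e : (∏ j : Fin tabD4.nz, Nat.card ((gD4 hq hK).E j)ˣ) = (q ^ 3 - 1) * (q - 1) := by
    have e1 : (∏ j : Fin 2, Nat.card ((gD4 hq hK).E j)ˣ) = (q ^ 3 - 1) * (q - 1) := by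
      rw [Fin.prod_univ_two, Nat.card_units, Nat.card_units]
      have c0 : Nat.card ((gD4 hq hK).E 0) = q ^ 3 := by
        rw [(gD4 hq hK).card_E_top (topD4 hq hK), hK]
      have c1 : Nat.card ((gD4 hq hK).E 1) = q := (gD4 hq hK).card_E_one hq.pos (by norm_num) hK rfl
      exact congrArg₂ (fun a b => (a - 1) * (b - 1)) c0 c1
    exact e1
  rw [e, mul_comm] at h
  have h2 : (2 : ℕ) ≤ q := hq.two_le
  have hpos : 0 < (q ^ 3 - 1) * (q - 1) := by
    have : 2 ^ 3 ≤ q ^ 3 := Nat.pow_le_pow_left h2 3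
    exact Nat.mul_pos (by omega) (by omega)
  have h3 := Nat.eq_of_mul_eq_mul_left hpos h
  rw [TwD4.twisted_eq (TwD4.hT hK)]
  exact h3

end Cfsg.Agent.Lib.TwOut
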