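import Cfsg.Agent.Lib.TwOutD
import Cfsg.Agent.Lib.TwField
set_option autoImplicit false
set_option linter.unusedSectionVars false
set_option linter.unusedVariables false

/-!
Graph-field families: tools for the verification of the hypotheses.
-/

namespace Cfsg.Agent.Lib.TwOut
open Cfsg.Lie Cfsg.Agent.Lib.ChevX Cfsg.Agent.Lib.ChevGood Cfsg.Agent.Lib.ChevRel Cfsg.Agent.Lib.ChevNPerm
  Cfsg.Agent.Lib.ChevClosed Cfsg.Agent.Lib.ChevBruhat Cfsg.Agent.Lib.TwFix Cfsg.Agent.Lib.TwFix.TwRk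
open Cfsg.Agent.Lib.TwTab Cfsg.Agent.Lib.SplitOut Cfsg.Agent.Lib.RankOneAut Cfsg.Agent.Lib.RankOneMul
open Cfsg.Agent.Lib.SL2Pres (IsR1 hh)
open scoped MatrixGroups Matrix

variable {D : ChevalleyDatum} {F : Type*} [Field F]

/-- the value of the character of the root `r` on the coroot of `a` -/
def ca (D : ChevalleyDatum) (a r : ℕ) : ℤ := ∑ j ∈ Finset.range D.rank, co D a j * D.cartan j r

/-- the action of a block torus element -/
noncomputable def bc (D : ChevalleyDatum) {F : Type*} [Field F] (q : ℕ) : List ℕ → ℕ → F → F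
  | [], _, _ => 1
  | a :: A, r, c => c ^ ca D a r * bc D q A r (c ^ q)

theorem BH_conj_xg (G : Good D) (q : ℕ) {A : List ℕ} (hA : ∀ a ∈ A, a < D.nroots) {r : ℕ} (hr : r < D.nroots) {c : F}
    (hc : c ≠ 0) (t : F) : BH D F q A c * xg D F r t * (BH D F q A c)⁻¹ = xg D F r (bc D q A r c * t) := by
  induction A generalizing c t with
  | nil => simp [BH, bc]
  | cons a A ih =>
    have h1 := ih (fun a ha => hA a (by simp [ha])) (pow_ne_zero q hc) t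
    show hg D F a c * BH D F q A (c ^ q) * xg D F r t * (hg D F a c * BH D F q A (c ^ q))⁻¹ = _
    have e : hg D F a c * BH D F q A (c ^ q) * xg D F r t * (hg D F a c * BH D F q A (c ^ q))⁻¹ =
        hg D F a c * (BH D F q A (c ^ q) * xg D F r t * (BH D F q A (c ^ q))⁻¹) * (hg D F a c)⁻¹ := by group
    rw [e, h1, hg_conj G (hA a (by simp)) hr c hc]
    show _ = xg D F r (c ^ ca D a r * bc D q A r (c ^ q) * t)
    rw [mul_assoc]; rfl

theorem BH_conj_BX (G : Good D) (q : ℕ) {A : List ℕ} (hA : ∀ a ∈ A, a < D.nroots) {c : F} (hc : c ≠ 0) {A' : List ℕ}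
    (hA' : ∀ a ∈ A', a < D.nroots) {z : F} (hz : ∀ b (hb : b < A'.length), bc D q A A'[b] c = z ^ q ^ b) (t : F) :
    BH D F q A c * BX D F q A' t * (BH D F q A c)⁻¹ = BX D F q A' (z * t) := by
  induction A' generalizing z t with
  | nil => simp [BX]
  | cons r A' ih =>
    have h1 := ih (fun a ha => hA' a (by simp [ha])) (z := z ^ q) (fun b hb => by
      have := hz (b + 1) (by simp; omega)
      rw [List.getElem_cons_succ] at this
      rw [this, ← pow_mul, pow_succ']) (t ^ q)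
    have h0 := hz 0 (by simp)
    simp only [List.getElem_cons_zero, pow_zero, pow_one] at h0
    show BH D F q A c * (xg D F r t * BX D F q A' (t ^ q)) * (BH D F q A c)⁻¹ = xg D F r (z * t) * BX D F q A' ((z * t) ^ q)
    have e : BH D F q A c * (xg D F r t * BX D F q A' (t ^ q)) * (BH D F q A c)⁻¹ =
        (BH D F q A c * xg D F r t * (BH D F q A c)⁻¹) * (BH D F q A c * BX D F q A' (t ^ q) * (BH D F q A c)⁻¹) := by group
    rw [e, h1, BH_conj_xg G q hA (hA' r (by simp)) hc, h0, mul_pow]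

namespace GFH
variable {G : Good D} {C : Tab} {S : SigData G C F} {q : ℕ} {L : List ℕ} (Z : GFH S q L)
include Z

theorem coe_hh (i : Fin C.nz) (c : Z.E i) :
    ((hh (Z.XX i) (Z.YY i) c : ↥(Γ0 D F C q)) : GL D.Idx F) = BH D F q (J C i) (c : F) := by
  have hneg := q_neg S Z.h1 Z.h2 Z.he G
  have h1 := BH_eq G hneg (one_pow q) (Tab.c1 Z.h1).1 (Z.hCL i.2) (c : F)
  rw [h1, BN_eq G hneg (Tab.c1 Z.h1).1 (Z.hCL i.2), BN_eq G hneg (Tab.c1 Z.h1).1 (Z.hCL i.2)]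
  rfl

theorem J_lt (i : Fin C.nz) : ∀ a ∈ J C i, a < D.nroots := by
  intro a ha
  obtain ⟨k, hk, rfl⟩ := List.mem_map.mp ha
  exact (Z.sim_lt i.2 hk).2.1

theorem hh_conj (i j : Fin C.nz) {c : Z.E i} (hc : c ≠ 0) {z : Z.E j}
    (hz : ∀ b (hb : b < (J C j).length), bc D q (J C i) (J C j)[b] (c : F) = (z : F) ^ q ^ b) (t : Z.E j) :
    hh (Z.XX i) (Z.YY i) c * Z.XX j t * (hh (Z.XX i) (Z.YY i) c)⁻¹ = Z.XX j (z * t) := by
  apply Subtype.ext
  have hc' : (c : F) ≠ 0 := fun h => hc (Subtype.ext h)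
  have h := BH_conj_BX G q (Z.J_lt i) hc' (Z.J_lt j) hz (t : F)
  rw [← Z.coe_hh] at h
  exact h

/-- compatibility of the field automorphisms of adjacent blocks -/
theorem compat (i j : Fin C.nz) {θ : MulAut ↥(Γ0 D F C q)} {f : ∀ j : Fin C.nz, Z.E j ≃+* Z.E j}
    (hX : ∀ (j : Fin C.nz) t, θ (Z.XX j t) = Z.XX j (f j t))
    (hH : ∀ (j : Fin C.nz) c, c ≠ 0 → θ (hh (Z.XX j) (Z.YY j) c) = hh (Z.XX j) (Z.YY j) (f j c))
    (hsub : ∀ c ∈ Z.E i, c ∈ Z.E j)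
    (hz : ∀ c : F, c ≠ 0 → c ∈ Z.E i → ∀ b (hb : b < (J C j).length), bc D q (J C i) (J C j)[b] c = (c⁻¹) ^ q ^ b)
    (c : Z.E i) : (f i c : F) = f j ⟨c, hsub c c.2⟩ := by
  by_cases hc : c = 0
  · subst hc
    have e : (⟨((0 : Z.E i) : F), hsub _ (0 : Z.E i).2⟩ : Z.E j) = 0 := Subtype.ext rfl
    rw [e, map_zero, map_zero]; rfl
  have hc' : (c : F) ≠ 0 := fun h => hc (Subtype.ext h)
  let c' : Z.E j := ⟨c, hsub c c.2⟩
  have hfc : f i c ≠ 0 := by rwa [Ne, map_eq_zero_iff (f i) (f i).injective]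
  have hfc' : ((f i c : Z.E i) : F) ≠ 0 := fun h => hfc (Subtype.ext h)
  let d' : Z.E j := ⟨f i c, hsub _ (f i c).2⟩
  have h1 := Z.hh_conj i j hc (z := c'⁻¹) (fun b hb => by rw [hz c hc' c.2 b hb]; rfl) 1
  have h2 := congrArg θ h1
  rw [map_mul, map_mul, map_inv, hH i c hc, hX, hX, Z.hh_conj i j hfc (z := d'⁻¹) (fun b hb => by
    rw [hz _ hfc' (f i c).2 b hb]; rfl)] at h2
  have h3 := Z.XX_inj j h2
  rw [map_one, mul_one, mul_one, map_inv₀] at h3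
  have h4 := inv_injective h3
  exact congrArg Subtype.val h4

theorem card_perm {ρ : Equiv.Perm (Fin C.nz)} {θ : MulAut ↥(Γ0 D F C q)}
    (h : ∀ i, (∀ g, θ g ∈ Z.RK.X (ρ i) ↔ g ∈ Z.RK.X i) ∧ (∀ g, θ g ∈ Z.RK.Y (ρ i) ↔ g ∈ Z.RK.Y i)) (i : Fin C.nz) :
    Nat.card (Z.E i) = Nat.card (Z.E (ρ i)) := by
  have h1 : ∀ j : Fin C.nz, Nat.card (Z.E j) = Nat.card ↥(Z.RK.X j) := by
    intro j
    refine Nat.card_eq_of_bijective (fun t : Z.E j => (⟨Z.XX j t, (Z.mem_X j _).mpr ⟨t, rfl⟩⟩ : ↥(Z.RK.X j))) ⟨?_, ?_⟩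
    · intro a b hab
      exact Z.XX_inj j (congrArg Subtype.val hab)
    · rintro ⟨g, hg⟩
      obtain ⟨t, rfl⟩ := (Z.mem_X j _).mp hg
      exact ⟨t, rfl⟩
  rw [h1, h1]
  exact Nat.card_congr (Equiv.subtypeEquiv θ.toEquiv fun g => ((h i).1 g).symm)

theorem comm_perm {ρ : Equiv.Perm (Fin C.nz)} {θ : MulAut ↥(Γ0 D F C q)}
    (h : ∀ i, (∀ g, θ g ∈ Z.RK.X (ρ i) ↔ g ∈ Z.RK.X i) ∧ (∀ g, θ g ∈ Z.RK.Y (ρ i) ↔ g ∈ Z.RK.Y i)) {i j : Fin C.nz}
    (hc : ∀ s t, Commute (Z.XX i s) (Z.XX j t)) : ∀ s t, Commute (Z.XX (ρ i) s) (Z.XX (ρ j) t) := by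
  have key : ∀ (k : Fin C.nz) (s : Z.E (ρ k)), ∃ s', θ (Z.XX k s') = Z.XX (ρ k) s := by
    intro k s
    have h1 := ((h k).1 (θ⁻¹ (Z.XX (ρ k) s))).mp (by rw [MulAut.apply_inv_self]; exact (Z.mem_X _ _).mpr ⟨s, rfl⟩)
    obtain ⟨s', hs'⟩ := (Z.mem_X k _).mp h1
    exact ⟨s', by rw [← hs', MulAut.apply_inv_self]⟩
  intro s t
  obtain ⟨s', hs'⟩ := key i s
  obtain ⟨t', ht'⟩ := key j t
  rw [← hs', ← ht']
  exact (hc s' t').map θ

/-- commuting blocks -/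
theorem comm_of_table {i j : Fin C.nz} (h : ((J C i).all fun a => (J C j).all fun b =>
    (D.commTerms a b).isEmpty && (b != a) && (b != C.n - 1 - a)) = true) (s : Z.E i) (t : Z.E j) :
    Commute (Z.XX i s) (Z.XX j t) := by
  have h1 : ∀ a ∈ J C i, ∀ b ∈ J C j, ∀ x y : F, Commute (xg D F a x) (xg D F b y) := by
    intro a ha b hb x y
    have h2 := List.all_eq_true.mp (List.all_eq_true.mp h a ha) b hb
    simp only [Bool.and_eq_true, List.isEmpty_iff, bne_iff_ne] at h2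
    refine xg_commute G (Z.J_lt i a ha) (Z.J_lt j b hb) h2.1.2 ?_ h2.1.1 x y
    rw [G.neg_eq _ (Z.J_lt i a ha), ← (Tab.c1 Z.h1).1]
    exact h2.2
  have h2 : ∀ (A : List ℕ) (g : GL D.Idx F), (∀ a ∈ A, ∀ x : F, Commute (xg D F a x) g) → ∀ x : F, Commute (BX D F q A x) g := by
    intro A g hA
    induction A with
    | nil => intro x; exact Commute.one_left _
    | cons a A ih =>
      intro x
      exact (hA a (by simp) x).mul_left (ih (fun a ha => hA a (by simp [ha])) _)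
  have h3 : Commute (BX D F q (J C i) s) (BX D F q (J C j) t) :=
    h2 _ _ (fun a ha x => (h2 _ _ (fun b hb y => (h1 a ha b hb x y).symm) _).symm) _
  exact Subtype.ext h3

/-- non-commuting blocks: `w_i` moves a root of the block `j` -/
theorem ncomm_of_table {i j : Fin C.nz} (hij : i ≠ j) (hw : C.wlN (C.jwN i) (C.hd j) ≠ C.hd j)
    (hlen : (C.jwN j).length = 1) (h : ∀ s t, Commute (Z.XX i s) (Z.XX j t)) : False := by
  -- `n_i` commutes with `X_j`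
  have h1 : Commute (SL2Pres.nn (Z.XX i) (Z.YY i) 1) (Z.XX j 1) := by
    unfold SL2Pres.nn
    have h2 : Commute (Z.YY i (-1⁻¹)) (Z.XX j 1) :=
      (Z.RK.comm j i (Ne.symm hij) _ ((Z.mem_X j _).mpr ⟨1, rfl⟩) _ ((Z.mem_Y i _).mpr ⟨_, rfl⟩)).symm
    exact ((h 1 1).mul_left h2).mul_left (h 1 1)
  have h3 := congrArg (fun z : ↥(Γ0 D F C q) => (z : GL D.Idx F)) h1.eq
  simp only [Subgroup.coe_mul] at h3
  rw [← Z.nj_eq] at h3
  have h4 : (Z.XX j 1 : GL D.Idx F) = xg D F (C.hd j) 1 := by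
    show BX D F q ((C.jwN j).map C.sim) ((1 : Z.E j) : F) = _
    have h6 := jw_ne Z.h3 j.2
    have h8 : (C.jwN j).tail = [] := by
      have : (C.jwN j).tail.length = 0 := by rw [List.length_tail, hlen]
      exact List.length_eq_zero_iff.mp this
    rw [h6, h8]
    show xg D F (C.hd j) 1 * 1 = _
    rw [mul_one]
  rw [h4] at h3
  obtain ⟨-, c, hc0, hc1, hc2⟩ := Z.W.mono_nj i
  have h5 := hc2 (Z.hd j) 1
  have h6 : Z.W.nj i * xg D F (Z.hd j) 1 * (Z.W.nj i)⁻¹ = xg D F (Z.hd j) 1 := by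
    rw [show Z.W.nj i * xg D F (Z.hd j) 1 = xg D F (Z.hd j) 1 * Z.W.nj i from h3]; group
  rw [h6] at h5
  have h7 := xg_root_inj G (Z.hd j).2 (Z.W.wj i (Z.hd j)).2 one_ne_zero h5
  apply hw
  have h8 := Z.wj_val i (Z.hd j)
  exact h8.symm.trans h7.symm

/-- the ring automorphism of the whole field -/
def toF {j : Fin C.nz} (hj : ∀ t : F, t ∈ Z.E j) (f : Z.E j ≃+* Z.E j) : F ≃+* F where
  toFun t := f ⟨t, hj t⟩
  invFun t := f.symm ⟨t, hj t⟩
  left_inv t := by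
    have : (⟨(f ⟨t, hj t⟩ : F), hj _⟩ : Z.E j) = f ⟨t, hj t⟩ := Subtype.ext rfl
    show (f.symm ⟨(f ⟨t, hj t⟩ : F), hj _⟩ : F) = t
    rw [this, f.symm_apply_apply]
  right_inv t := by
    have : (⟨(f.symm ⟨t, hj t⟩ : F), hj _⟩ : Z.E j) = f.symm ⟨t, hj t⟩ := Subtype.ext rfl
    show (f ⟨(f.symm ⟨t, hj t⟩ : F), hj _⟩ : F) = t
    rw [this, f.apply_symm_apply]
  map_mul' a b := by
    show (f ⟨a * b, hj _⟩ : F) = f ⟨a, hj a⟩ * f ⟨b, hj b⟩
    have : (⟨a * b, hj _⟩ : Z.E j) = ⟨a, hj a⟩ * ⟨b, hj b⟩ := Subtype.ext rfl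
    rw [this, map_mul]; rfl
  map_add' a b := by
    show (f ⟨a + b, hj _⟩ : F) = f ⟨a, hj a⟩ + f ⟨b, hj b⟩
    have : (⟨a + b, hj _⟩ : Z.E j) = ⟨a, hj a⟩ + ⟨b, hj b⟩ := Subtype.ext rfl
    rw [this, map_add]; rfl

theorem card_E_one [Fintype F] {n : ℕ} (hq : 0 < q) (hn : n ≠ 0) (hK : Fintype.card F = q ^ n) {j : ℕ}
    (hj : (C.jwN j).length = 1) : Nat.card (Z.E j) = q := by
  have h := TwField.card_fix (K := F) hq hn hK
  have e : {t : F | t ^ q = t} = {t : F | t ^ q ^ (C.jwN j).length = t} := by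
    rw [hj, pow_one]
  rw [e] at h
  exact h

theorem card_E_top [Fintype F] {j : ℕ} (hj : ∀ t : F, t ∈ Z.E j) : Nat.card (Z.E j) = Fintype.card F := by
  rw [← Nat.card_eq_fintype_card]
  exact Nat.card_congr ⟨fun x => x, fun t => ⟨t, hj t⟩, fun x => rfl, fun t => rfl⟩

end GFH

end Cfsg.Agent.Lib.TwOut
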