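import Cfsg.Agent.Lib.TwOutE
import Cfsg.Agent.Lib.TwE6End
set_option autoImplicit false
set_option linter.unusedSectionVars false
set_option linter.unusedVariables false

/-!
The outer automorphism group of 2E6(q).
-/

namespace Cfsg.Agent.Lib.TwOut
open Cfsg.Lie Cfsg.Agent.Lib.ChevX Cfsg.Agent.Lib.ChevGood Cfsg.Agent.Lib.ChevRel Cfsg.Agent.Lib.ChevNPerm
  Cfsg.Agent.Lib.ChevClosed Cfsg.Agent.Lib.ChevBruhat Cfsg.Agent.Lib.TwFix Cfsg.Agent.Lib.TwFix.TwRk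
open Cfsg.Agent.Lib.TwTab Cfsg.Agent.Lib.SplitOut Cfsg.Agent.Lib.TwField
open scoped MatrixGroups Matrix

variable {K : Type*} [Field K] [Fintype K] {q : ℕ} (hq : IsPrimePow q) (hK : Fintype.card K = q ^ 2)

theorem chkOE6 : tabE6.chkO lwE6 = true := by decide +kernel

theorem gE6 : GFH (TwE6.sig hq hK) q lwE6 where
  h1 := chk1E6
  h2 := chk2E6
  h3 := chk3E6
  hD := TwE6.listed
  he := TwE6.sig_e hq hK
  hJ := TwE6.chkJ
  h4 := chk4E6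
  h5 := chk5E6
  K := TwE6.all hq hK
  hone := TwE6.hone hK
  hO := chkOE6

theorem ndE6 : GFH.ND tabE6 := by
  unfold GFH.ND
  decide +kernel

theorem topE6 {j : ℕ} (hj : j < 2) (t : K) : t ∈ (gE6 hq hK).E j := by
  interval_cases j <;> exact TwE6.hT hK t

/-- commuting blocks -/
def cmmE6 (i j : ℕ) : Bool := (GFH.J tabE6 i).all fun a => (GFH.J tabE6 j).all fun b =>
    (chevE6.commTerms a b).isEmpty && (b != a) && (b != tabE6.n - 1 - a)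

theorem cmmE6_ok : cmmE6 0 2 = true ∧ cmmE6 1 3 = true ∧ cmmE6 0 3 = true := by decide +kernel

theorem wlE6 : tabE6.wlN (tabE6.jwN 1) (tabE6.hd 2) ≠ tabE6.hd 2 := by decide +kernel

theorem permE6' : (gE6 hq hK).HPerm := by
  intro ρ θ _ h
  have h2 : (2 : ℕ) ≤ q := hq.two_le
  have c0 : ∀ j : ℕ, j < 2 → Nat.card ((gE6 hq hK).E j) = q ^ 2 := fun j hj => by
    rw [(gE6 hq hK).card_E_top (topE6 hq hK hj), hK]
  have c1 : ∀ j : ℕ, (j = 2 ∨ j = 3) → Nat.card ((gE6 hq hK).E j) = q := by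
    rintro j (rfl | rfl)
    · exact (gE6 hq hK).card_E_one (by omega) (by norm_num) hK rfl
    · exact (gE6 hq hK).card_E_one (by omega) (by norm_num) hK rfl
  have hlt : q < q ^ 2 := by
    calc q = q ^ 1 := (pow_one q).symm
      _ < q ^ 2 := Nat.pow_lt_pow_right h2 (by norm_num)
  let ρ' : Equiv.Perm (Fin 4) := ρ
  have hsz : ∀ i : Fin 4, ((i : ℕ) < 2 ↔ ((ρ' i : Fin 4) : ℕ) < 2) := by
    intro i
    have h3 : Nat.card ((gE6 hq hK).E (i : ℕ)) = Nat.card ((gE6 hq hK).E ((ρ' i : Fin 4) : ℕ)) := (gE6 hq hK).card_perm h i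
    by_cases a1 : (i : ℕ) < 2 <;> by_cases a2 : ((ρ' i : Fin 4) : ℕ) < 2
    · simp [a1, a2]
    · exfalso
      rw [c0 _ a1, c1 _ (by omega)] at h3
      omega
    · exfalso
      rw [c0 _ a2, c1 _ (by omega)] at h3
      omega
    · simp [a1, a2]
  -- the non-commuting pair
  have hnc : ¬ ∀ s t, Commute ((gE6 hq hK).XX (1 : Fin 4) s) ((gE6 hq hK).XX (2 : Fin 4) t) := by
    intro hc
    exact (gE6 hq hK).ncomm_of_table (i := (1 : Fin 4)) (j := (2 : Fin 4))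
      (fun h => absurd (congrArg Fin.val h) (by decide)) wlE6 rfl hc
  have h02 : ∀ s t, Commute ((gE6 hq hK).XX (0 : Fin 4) s) ((gE6 hq hK).XX (2 : Fin 4) t) :=
    (gE6 hq hK).comm_of_table cmmE6_ok.1
  have h13 : ∀ s t, Commute ((gE6 hq hK).XX (1 : Fin 4) s) ((gE6 hq hK).XX (3 : Fin 4) t) :=
    (gE6 hq hK).comm_of_table cmmE6_ok.2.1
  have h03 : ∀ s t, Commute ((gE6 hq hK).XX (0 : Fin 4) s) ((gE6 hq hK).XX (3 : Fin 4) t) :=
    (gE6 hq hK).comm_of_table cmmE6_ok.2.2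
  have p02 : ∀ s t, Commute ((gE6 hq hK).XX (ρ' 0) s) ((gE6 hq hK).XX (ρ' 2) t) := (gE6 hq hK).comm_perm h h02
  have p13 : ∀ s t, Commute ((gE6 hq hK).XX (ρ' 1) s) ((gE6 hq hK).XX (ρ' 3) t) := (gE6 hq hK).comm_perm h h13
  have p03 : ∀ s t, Commute ((gE6 hq hK).XX (ρ' 0) s) ((gE6 hq hK).XX (ρ' 3) t) := (gE6 hq hK).comm_perm h h03
  have n02 : ¬ (ρ' 0 = 1 ∧ ρ' 2 = 2) := fun hh => by
    rw [hh.1, hh.2] at p02; exact hnc p02
  have n13 : ¬ (ρ' 1 = 1 ∧ ρ' 3 = 2) := fun hh => by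
    rw [hh.1, hh.2] at p13; exact hnc p13
  have n03 : ¬ (ρ' 0 = 1 ∧ ρ' 3 = 2) := fun hh => by
    rw [hh.1, hh.2] at p03; exact hnc p03
  have key : ∀ ρ : Equiv.Perm (Fin 4), (∀ i : Fin 4, ((i : ℕ) < 2 ↔ ((ρ i : Fin 4) : ℕ) < 2)) →
      ¬ (ρ 0 = 1 ∧ ρ 2 = 2) → ¬ (ρ 1 = 1 ∧ ρ 3 = 2) → ¬ (ρ 0 = 1 ∧ ρ 3 = 2) → ρ = 1 := by decide +kernel
  exact key ρ' hsz n02 n13 n03

theorem JE6 : GFH.J tabE6 0 = [56, 36] ∧ GFH.J tabE6 1 = [42, 37] ∧ GFH.J tabE6 2 = [39] ∧ GFH.J tabE6 3 = [46] := by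
  decide +kernel

theorem caE6 : ca chevE6 56 42 = -1 ∧ ca chevE6 36 42 = 0 ∧ ca chevE6 56 37 = 0 ∧ ca chevE6 36 37 = -1 ∧
    ca chevE6 39 42 = -1 ∧ ca chevE6 39 37 = -1 ∧ ca chevE6 46 39 = -1 := by
  decide +kernel

theorem inv_qpow {c : K} (h : c ^ q = c) (b : ℕ) : (c⁻¹) ^ q ^ b = c⁻¹ := by
  induction b with
  | zero => simp
  | succ b ih => rw [pow_succ, pow_mul, ih, inv_pow, h]

theorem bcE6_01 (c : K) : ∀ b (hb : b < (GFH.J tabE6 1).length),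
    bc chevE6 q (GFH.J tabE6 0) (GFH.J tabE6 1)[b] c = (c⁻¹) ^ q ^ b := by
  obtain ⟨e0, e1, -, -⟩ := JE6
  obtain ⟨a1, a2, a3, a4, -⟩ := caE6
  rw [e0, e1]
  intro b hb
  have hb2 : b < 2 := hb
  interval_cases b
  · show c ^ ca chevE6 56 42 * ((c ^ q) ^ ca chevE6 36 42 * 1) = _
    rw [a1, a2]; simp
  · show c ^ ca chevE6 56 37 * ((c ^ q) ^ ca chevE6 36 37 * 1) = _
    rw [a3, a4]; simp

theorem bcE6_21 {c : K} (h : c ^ q = c) : ∀ b (hb : b < (GFH.J tabE6 1).length),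
    bc chevE6 q (GFH.J tabE6 2) (GFH.J tabE6 1)[b] c = (c⁻¹) ^ q ^ b := by
  obtain ⟨-, e1, e2, -⟩ := JE6
  obtain ⟨-, -, -, -, a5, a6, -⟩ := caE6
  rw [e1, e2]
  intro b hb
  have hb2 : b < 2 := hb
  rw [inv_qpow h]
  interval_cases b
  · show c ^ ca chevE6 39 42 * 1 = _
    rw [a5]; simp
  · show c ^ ca chevE6 39 37 * 1 = _
    rw [a6]; simp

theorem bcE6_32 {c : K} (h : c ^ q = c) : ∀ b (hb : b < (GFH.J tabE6 2).length),
    bc chevE6 q (GFH.J tabE6 3) (GFH.J tabE6 2)[b] c = (c⁻¹) ^ q ^ b := by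
  obtain ⟨-, -, e2, e3⟩ := JE6
  obtain ⟨-, -, -, -, -, -, a7⟩ := caE6
  rw [e2, e3]
  intro b hb
  have hb2 : b < 1 := hb
  rw [inv_qpow h]
  interval_cases b
  show c ^ ca chevE6 46 39 * 1 = _
  rw [a7]; simp

theorem compatE6 : (gE6 hq hK).HCompat := by
  intro θ f hX hY hH
  refine ⟨(gE6 hq hK).toF (j := (1 : Fin 4)) (topE6 hq hK (j := 1) (by norm_num)) (f (1 : Fin 4)), fun j t => ?_⟩
  have t0 : ∀ t : K, t ∈ (gE6 hq hK).E 0 := topE6 hq hK (j := 0) (by norm_num)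
  have t1 : ∀ t : K, t ∈ (gE6 hq hK).E 1 := topE6 hq hK (j := 1) (by norm_num)
  have q2 : ∀ c ∈ (gE6 hq hK).E 2, c ^ q = c := fun c hc => by
    have : c ^ q ^ 1 = c := hc
    rwa [pow_one] at this
  have q3 : ∀ c ∈ (gE6 hq hK).E 3, c ^ q = c := fun c hc => by
    have : c ^ q ^ 1 = c := hc
    rwa [pow_one] at this
  have s32 : ∀ c ∈ (gE6 hq hK).E 3, c ∈ (gE6 hq hK).E 2 := fun c hc => hc
  have c01 : ∀ t : (gE6 hq hK).E 0, (f (0 : Fin 4) t : K) = f (1 : Fin 4) ⟨t, t1 t⟩ := fun t =>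
    (gE6 hq hK).compat (0 : Fin 4) (1 : Fin 4) hX hH (fun c _ => t1 c) (fun c _ _ => bcE6_01 c) t
  have c21 : ∀ t : (gE6 hq hK).E 2, (f (2 : Fin 4) t : K) = f (1 : Fin 4) ⟨t, t1 t⟩ := fun t =>
    (gE6 hq hK).compat (2 : Fin 4) (1 : Fin 4) hX hH (fun c _ => t1 c) (fun c _ hc => bcE6_21 (q2 c hc)) t
  have c32 : ∀ t : (gE6 hq hK).E 3, (f (3 : Fin 4) t : K) = f (2 : Fin 4) ⟨t, s32 t t.2⟩ := fun t =>
    (gE6 hq hK).compat (3 : Fin 4) (2 : Fin 4) hX hH s32 (fun c _ hc => bcE6_32 (q3 c hc)) t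
  have h5 : j = (0 : Fin 4) ∨ j = (1 : Fin 4) ∨ j = (2 : Fin 4) ∨ j = (3 : Fin 4) := by
    have : ∀ x : Fin 4, x = 0 ∨ x = 1 ∨ x = 2 ∨ x = 3 := by decide
    exact this j
  rcases h5 with rfl | rfl | rfl | rfl
  · exact c01 t
  · rfl
  · exact c21 t
  · exact (c32 t).trans (c21 _)

include hq hK in
theorem out_E6 {p f : ℕ} [Fact p.Prime] (hqp : q = p ^ f) :
    Nat.card (Cfsg.Out ↥(twistedE6 K q)) = 2 * Nat.gcd 3 (q + 1) * f := by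
  have h := (gE6 hq hK).card_out ndE6 (permE6' hq hK) (compatE6 hq hK) (j0 := (0 : Fin 4))
    (topE6 hq hK (j := 0) (by norm_num))
  have hcard : Fintype.card K = p ^ (2 * f) := by rw [hK, hqp, ← pow_mul, mul_comm]
  have hH := TwE6.card_H hq hK
  rw [FFAut.card_aut hcard] at h
  have e : (∏ j : Fin tabE6.nz, Nat.card ((gE6 hq hK).E j)ˣ) = (q ^ 2 - 1) * (q ^ 2 - 1) * ((q - 1) * (q - 1)) := by
    have e1 : (∏ j : Fin 4, Nat.card ((gE6 hq hK).E j)ˣ) = (q ^ 2 - 1) * (q ^ 2 - 1) * ((q - 1) * (q - 1)) := by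
      rw [Fin.prod_univ_four, Nat.card_units, Nat.card_units, Nat.card_units, Nat.card_units]
      have c0 : Nat.card ((gE6 hq hK).E 0) = q ^ 2 := by
        rw [(gE6 hq hK).card_E_top (topE6 hq hK (by norm_num)), hK]
      have c1 : Nat.card ((gE6 hq hK).E 1) = q ^ 2 := by
        rw [(gE6 hq hK).card_E_top (topE6 hq hK (by norm_num)), hK]
      have c2 : Nat.card ((gE6 hq hK).E 2) = q := (gE6 hq hK).card_E_one hq.pos (by norm_num) hK rfl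
      have c3 : Nat.card ((gE6 hq hK).E 3) = q := (gE6 hq hK).card_E_one hq.pos (by norm_num) hK rfl
      show (Nat.card ((gE6 hq hK).E 0) - 1) * (Nat.card ((gE6 hq hK).E 1) - 1) * (Nat.card ((gE6 hq hK).E 2) - 1) *
        (Nat.card ((gE6 hq hK).E 3) - 1) = _
      rw [c0, c1, c2, c3, mul_assoc]
    exact e1
  have h2 : (2 : ℕ) ≤ q := hq.two_le
  have e3 : (q ^ 2 - 1) * (q ^ 2 - 1) * ((q - 1) * (q - 1)) = (q - 1) ^ 4 * (q + 1) ^ 2 := by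
    have : q ^ 2 - 1 = (q - 1) * (q + 1) := by
      obtain ⟨m, rfl⟩ : ∃ m, q = m + 1 := ⟨q - 1, by omega⟩
      rw [Nat.add_sub_cancel]
      have : (m + 1) ^ 2 = m * (m + 1 + 1) + 1 := by ring
      omega
    rw [this]; ring
  rw [e, e3, ← hH] at h
  have hpos : 0 < Nat.card ↥(chevE6.diagonalSubgroup K ⊓ Γ0 chevE6 K tabE6 q) := Nat.card_pos
  have h3 : Nat.card (Cfsg.Out ↥(Γ0 chevE6 K tabE6 q)) = 2 * Nat.gcd 3 (q + 1) * f := by
    apply Nat.eq_of_mul_eq_mul_right hpos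
    rw [h]; ring
  rw [TwE6.twisted_eq (TwE6.hT hK)]
  exact h3

end Cfsg.Agent.Lib.TwOut
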