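import Cfsg.Agent.Lib.SplitOutB
import Cfsg.Agent.Lib.TwOutA
import Cfsg.Agent.Lib.TwF4End
set_option autoImplicit false
set_option linter.unusedSectionVars false
set_option linter.unusedVariables false
set_option linter.unusedSimpArgs false

/-!
The groups 2F4(q): the rank one subgroups.
-/

namespace Cfsg.Agent.Lib.TwOutF
open Cfsg.Lie Cfsg.Agent.Lib.ChevX Cfsg.Agent.Lib.ChevGood Cfsg.Agent.Lib.ChevRel Cfsg.Agent.Lib.ChevNPerm
  Cfsg.Agent.Lib.ChevClosed Cfsg.Agent.Lib.ChevBruhat Cfsg.Agent.Lib.TwFix Cfsg.Agent.Lib.TwFix.TwRk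
  Cfsg.Agent.Lib.TwTab Cfsg.Agent.Lib.TwField Cfsg.Agent.Lib.TwSpec Cfsg.Agent.Lib.TwModp
open Cfsg.Agent.Lib.TwF4 Cfsg.Agent.Lib.TwOut Cfsg.Agent.Lib.SplitOut
open scoped MatrixGroups Matrix

universe u

/-- the roots of the blocks -/
def JJ (j : ℕ) : List ℕ := [[33, 24], [27, 25, 28, 30]].getD j []
def NJ (j : ℕ) : List ℕ := [[14, 23], [20, 22, 19, 17]].getD j []

theorem chkInv : ∀ j < 2, ∀ s < 48, (24 ≤ s ∧ ¬ 24 ≤ tabF4.wlN (tabF4.jwN j) s) ↔ s ∈ JJ j := by decide +kernel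
theorem chkImg : ∀ j < 2, ∀ s < 48, s ∈ JJ j → tabF4.wlN (tabF4.jwN j) s ∈ NJ j := by decide +kernel
theorem chkImg' : ∀ j < 2, ∀ s < 48, s ∈ NJ j → ∃ r < 48, r ∈ JJ j ∧ tabF4.wlN (tabF4.jwN j) r = s := by decide +kernel
def w0N (L : List ℕ) (s : ℕ) : ℕ := L.foldr (fun j a => tabF4.wlN (tabF4.jwN j) a) s
theorem chkStar : ∀ j < 2, ∀ s < 48, s ∈ JJ j → w0N lwF4 s ∈ NJ j := by decide +kernel
theorem chkStar0 : ∀ j < 2, ∀ s ∈ NJ j, ∃ r ∈ JJ j, r < 48 ∧ w0N lwF4 r = s := by decide +kernel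
theorem chkStar' : ∀ j < 2, ∀ s < 48, s ∈ NJ j → ∃ r < 48, r ∈ JJ j ∧ w0N lwF4 r = s := by
  intro j hj s _ hs
  obtain ⟨r, h1, h2, h3⟩ := chkStar0 j hj s hs
  exact ⟨r, h2, h1, h3⟩
theorem chkLong : ∀ i < 4, ¬ 24 ≤ w0N lwF4 (chevF4.simple i) := by decide +kernel
def okC (r s : ℕ) : Bool := Nat.blt r 48 && Nat.blt s 48 && !(s == r) && !(s == chevF4.neg r) && (chevF4.commTerms r s).isEmpty
theorem okC_iff {r s : ℕ} (h : okC r s = true) :
    r < chevF4.nroots ∧ s < chevF4.nroots ∧ s ≠ r ∧ s ≠ chevF4.neg r ∧ chevF4.commTerms r s = [] := by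
  simp only [okC, Bool.and_eq_true, Nat.blt_eq, Bool.not_eq_true', beq_eq_false_iff_ne, List.isEmpty_iff] at h
  obtain ⟨⟨⟨⟨h1, h2⟩, h3⟩, h4⟩, h5⟩ := h
  exact ⟨h1, h2, h3, h4, h5⟩
theorem chkCm0 : ∀ i < 2, ∀ j < 2, i ≠ j → ∀ r ∈ JJ i, ∀ s ∈ NJ j, okC r s = true := by decide +kernel
theorem chkCm : ∀ i < 2, ∀ j < 2, i ≠ j → ∀ r ∈ JJ i, ∀ s ∈ NJ j,
    r < chevF4.nroots ∧ s < chevF4.nroots ∧ s ≠ r ∧ s ≠ chevF4.neg r ∧ chevF4.commTerms r s = [] :=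
  fun i hi j hj hij r hr s hs => okC_iff (chkCm0 i hi j hj hij r hr s hs)

def wU : List (ℕ × ℤ) := [(27, 1), (25, 1), (28, 1)]
def wU' : List (ℕ × ℤ) := [(28, -1), (25, -1), (27, -1)]
def wV : List (ℕ × ℤ) := [(20, 1), (22, 1), (19, 1)]

theorem chkN1' : chkEqp chevF4 2 G.ce (cst wN1) (cst (wU' ++ (wV ++ wZ))) = true := by decide +kernel

variable {K : Type u} [Field K]

theorem BP_one_zero {e : ℕ} (he : e ≠ 0) : BP e (1 : K) 0 = wg chevF4 K (wU.map fun x => (x.1, (x.2 : K))) := by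
  rw [BP_eq, zero_pow (by omega : 2 * e ≠ 0), xg_zero G]
  simp only [wU, wg, List.map_cons, List.map_nil, List.prod_cons, List.prod_nil, mul_one, one_mul, one_pow, Int.cast_one,
    add_zero, mul_assoc]

theorem BP_one_zero_inv {e : ℕ} (he : e ≠ 0) : (BP e (1 : K) 0)⁻¹ = wg chevF4 K (wU'.map fun x => (x.1, (x.2 : K))) := by
  rw [BP_eq, zero_pow (by omega : 2 * e ≠ 0), xg_zero G]
  simp only [wU', wg, List.map_cons, List.map_nil, List.prod_cons, List.prod_nil, mul_one, one_mul, one_pow, Int.cast_one,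
    add_zero, mul_assoc, Int.cast_neg, xg_neg G, mul_inv_rev]

theorem BM_one_zero {e : ℕ} (he : e ≠ 0) : BM e (1 : K) 0 = wg chevF4 K (wV.map fun x => (x.1, (x.2 : K))) := by
  rw [BM_eq, zero_pow (by omega : 2 * e ≠ 0), xg_zero G]
  simp only [wV, wg, List.map_cons, List.map_nil, List.prod_cons, List.prod_nil, mul_one, one_mul, one_pow, Int.cast_one,
    add_zero, mul_assoc]

section
variable [Fintype K] {m : ℕ} (hK : Fintype.card K = 2 ^ (2 * m + 1))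

/-- the generation data -/
noncomputable abbrev W : TwGen (T hK) tabF4.nz := gen (sig hK) chk1F4 chk2F4 chk3F4 listed fun j hj => (le_fix hK) (n_mem' hK j hj)

theorem wj_val (j : Fin tabF4.nz) (s : Fin chevF4.nroots) :
    (((W hK).wj j s : Fin chevF4.nroots) : ℕ) = tabF4.wlN (tabF4.jwN j) s :=
  wlj_eq (G := G) chk1F4 chk3F4 j.2 s

theorem mem_Inv (j : Fin tabF4.nz) (s : Fin chevF4.nroots) : s ∈ Inv ((W hK).wj j) ↔ (s : ℕ) ∈ JJ j := by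
  rw [← chkInv j j.2 s s.2, ← wj_val hK]
  exact Iff.rfl

theorem mem_img (j : Fin tabF4.nz) (s : Fin chevF4.nroots) : s ∈ (W hK).wj j '' Inv ((W hK).wj j) ↔ (s : ℕ) ∈ NJ j := by
  constructor
  · rintro ⟨r, hr, rfl⟩
    rw [wj_val]
    exact chkImg j j.2 r r.2 ((mem_Inv hK j r).mp hr)
  · intro hs
    obtain ⟨r, hr, hr', e⟩ := chkImg' j j.2 s s.2 hs
    refine ⟨⟨r, hr⟩, (mem_Inv hK j _).mpr hr', Fin.ext ?_⟩
    rw [wj_val]
    exact e

/-- the word of the longest element -/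
def Lf : List (Fin tabF4.nz) := lwF4.pmap (fun j hj => ⟨j, hj⟩) (by decide)

theorem Lf_val : Lf.map Fin.val = lwF4 := by decide

theorem w0_val (M : List (Fin tabF4.nz)) (s : Fin chevF4.nroots) :
    (((M.map (W hK).wj).prod s : Fin chevF4.nroots) : ℕ) = w0N (M.map Fin.val) s := by
  induction M with
  | nil => rfl
  | cons j M ih =>
    rw [List.map_cons, List.prod_cons, Equiv.Perm.mul_apply, wj_val, ih]
    rfl

theorem hLong (i : Fin chevF4.rank) : ¬ Pos chevF4 ((Lf.map (W hK).wj).prod (simpF G i)) := by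
  intro hcon
  have hcon' : 24 ≤ (((Lf.map (W hK).wj).prod (simpF G i) : Fin chevF4.nroots) : ℕ) := hcon
  rw [w0_val, Lf_val] at hcon'
  exact chkLong i i.2 hcon'

theorem hstar (j : Fin tabF4.nz) : (Lf.map (W hK).wj).prod '' Inv ((W hK).wj j) = (W hK).wj j '' Inv ((W hK).wj j) := by
  ext s
  rw [mem_img]
  constructor
  · rintro ⟨r, hr, rfl⟩
    rw [w0_val, Lf_val]
    exact chkStar j j.2 r r.2 ((mem_Inv hK j r).mp hr)
  · intro hs
    obtain ⟨r, hr, hr', e⟩ := chkStar' j j.2 s s.2 hs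
    refine ⟨⟨r, hr⟩, (mem_Inv hK j _).mpr hr', Fin.ext ?_⟩
    rw [w0_val, Lf_val]
    exact e

theorem hcomm (i j : Fin tabF4.nz) (hij : i ≠ j) (r : Fin chevF4.nroots) (hr : r ∈ Inv ((W hK).wj i))
    (s : Fin chevF4.nroots) (hs : s ∈ (W hK).wj j '' Inv ((W hK).wj j)) (t u : K) :
    Commute (xg chevF4 K r t) (xg chevF4 K s u) :=
  cm (chkCm i i.2 j j.2 (fun h => hij (Fin.ext h)) r ((mem_Inv hK i r).mp hr) s ((mem_img hK j s).mp hs)) t u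

theorem wg_mem_X {j : ℕ} (hj : j < tabF4.nz) {w : List (ℕ × K)} (hw : ∀ x ∈ w, x.1 < 48 ∧ x.1 ∈ JJ j) :
    wg chevF4 K w ∈ XS chevF4 K (Inv ((W hK).wj ⟨j, hj⟩)) := by
  unfold wg
  apply Subgroup.list_prod_mem
  intro y hy
  obtain ⟨x, hx, rfl⟩ := List.mem_map.mp hy
  obtain ⟨h, h'⟩ := hw x hx
  exact xg_mem_XS' h ((mem_Inv hK _ _).mpr h') _

theorem wg_mem_Y {j : ℕ} (hj : j < tabF4.nz) {w : List (ℕ × K)} (hw : ∀ x ∈ w, x.1 < 48 ∧ x.1 ∈ NJ j) :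
    wg chevF4 K w ∈ XS chevF4 K ((W hK).wj ⟨j, hj⟩ '' Inv ((W hK).wj ⟨j, hj⟩)) := by
  unfold wg
  apply Subgroup.list_prod_mem
  intro y hy
  obtain ⟨x, hx, rfl⟩ := List.mem_map.mp hy
  obtain ⟨h, h'⟩ := hw x hx
  exact xg_mem_XS' h ((mem_img hK _ _).mpr h') _

theorem nz0 : 0 < tabF4.nz := by decide
theorem nz1 : 1 < tabF4.nz := by decide

/-- the indices -/
abbrev j0 : Fin tabF4.nz := ⟨0, nz0⟩
abbrev j1 : Fin tabF4.nz := ⟨1, nz1⟩

theorem j_cases (j : Fin tabF4.nz) : j = j0 ∨ j = j1 := by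
  have h : (j : ℕ) < 2 := j.2
  rcases (by omega : (j : ℕ) = 0 ∨ (j : ℕ) = 1) with h | h
  · left; exact Fin.ext h
  · right; exact Fin.ext h

theorem PP_X (t : K) : PP (2 ^ m) t ∈ XS chevF4 K (Inv ((W hK).wj j0)) ⊓ twistedF4 K (2 ^ m) := by
  refine ⟨?_, mem_PP _ _⟩
  apply wg_mem_X hK nz0
  intro x hx
  simp only [f4PairWord, f4p1, f4p4, List.mem_cons, List.not_mem_nil, or_false] at hx
  rcases hx with rfl | rfl <;> exact ⟨by norm_num, by simp [JJ, NJ]⟩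

theorem PM_Y (t : K) : PM (2 ^ m) t ∈ XS chevF4 K ((W hK).wj j0 '' Inv ((W hK).wj j0)) ⊓ twistedF4 K (2 ^ m) := by
  refine ⟨?_, mem_PM _ _⟩
  apply wg_mem_Y hK nz0
  intro x hx
  simp only [f4PairWord, f4m1, f4m4, List.mem_cons, List.not_mem_nil, or_false] at hx
  rcases hx with rfl | rfl <;> exact ⟨by norm_num, by simp [JJ, NJ]⟩

theorem BP_X (t u : K) : BP (2 ^ m) t u ∈ XS chevF4 K (Inv ((W hK).wj j1)) ⊓ twistedF4 K (2 ^ m) := by
  refine ⟨?_, mem_BP _ _ _⟩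
  apply wg_mem_X hK nz1
  intro x hx
  simp only [b2ClassWord, f4a, f4b, f4ab, f4aab, List.mem_cons, List.not_mem_nil, or_false] at hx
  rcases hx with rfl | rfl | rfl | rfl <;> exact ⟨by norm_num, by simp [JJ, NJ]⟩

theorem BM_Y (t u : K) : BM (2 ^ m) t u ∈ XS chevF4 K ((W hK).wj j1 '' Inv ((W hK).wj j1)) ⊓ twistedF4 K (2 ^ m) := by
  refine ⟨?_, mem_BM _ _ _⟩
  apply wg_mem_Y hK nz1
  intro x hx
  simp only [b2ClassWord, f4ma, f4mb, f4mab, f4maab, List.mem_cons, List.not_mem_nil, or_false] at hx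
  rcases hx with rfl | rfl | rfl | rfl <;> exact ⟨by norm_num, by simp [JJ, NJ]⟩

include hK in
theorem n0_eq : nl chevF4 K (jwF chk1F4 0) = PP (2 ^ m) (1 : K) * PM (2 ^ m) (1 : K) * PP (2 ^ m) (1 : K) := by
  have := char2 hK
  rw [TwG2.nl_nlW, nlW0, wg_eq_of_chk G chkN0, List.map_append, List.map_append, wg_append, wg_append,
    ← PP_one (2 ^ m), ← PM_one (2 ^ m), mul_assoc]

include hK in
theorem n1_eq' : nl chevF4 K (jwF chk1F4 1) = (BP (2 ^ m) (1 : K) 0)⁻¹ * BM (2 ^ m) (1 : K) 0 *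
    BP (2 ^ m) (0 : K) 1 := by
  have := char2 hK
  have he : 2 ^ m ≠ 0 := by positivity
  rw [TwG2.nl_nlW, nlW1, wg_eq_of_chk G chkN1', List.map_append, List.map_append, wg_append, wg_append,
    ← BP_one_zero_inv he, ← BM_one_zero he, ← BP_zero_one he, mul_assoc]

theorem hn (j : Fin tabF4.nz) : ∃ x ∈ XS chevF4 K (Inv ((W hK).wj j)) ⊓ twistedF4 K (2 ^ m),
      ∃ y ∈ XS chevF4 K ((W hK).wj j '' Inv ((W hK).wj j)) ⊓ twistedF4 K (2 ^ m),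
      ∃ x' ∈ XS chevF4 K (Inv ((W hK).wj j)) ⊓ twistedF4 K (2 ^ m), (W hK).nj j = x * y * x' := by
  rcases j_cases j with rfl | rfl
  · exact ⟨_, PP_X hK 1, _, PM_Y hK 1, _, PP_X hK 1, n0_eq hK⟩
  · exact ⟨_, inv_mem (BP_X hK 1 0), _, BM_Y hK 1 0, _, BP_X hK 0 1, n1_eq' hK⟩

/-- the split BN-pair -/
noncomputable abbrev SP : Sp ↥(twistedF4 K (2 ^ m)) (Fin tabF4.nz) := sp (all hK) Lf (hLong hK)

/-- the rank one subgroups -/
noncomputable abbrev RK : Rk (SP hK) := rk (all hK) Lf (hLong hK) (hstar hK) (hcomm hK) (hn hK)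

end

end Cfsg.Agent.Lib.TwOutF
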