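import Cfsg.Agent.Lib.TwOutF
import Cfsg.Agent.Lib.RankOneMul
import Cfsg.Agent.Lib.ChevOut
set_option autoImplicit false
set_option linter.unusedSectionVars false
set_option linter.unusedVariables false
set_option linter.unusedSimpArgs false

/-!
The groups 2F4(q): the root elements in the group.
-/

namespace Cfsg.Agent.Lib.TwOutF
open Cfsg.Lie Cfsg.Agent.Lib.ChevX Cfsg.Agent.Lib.ChevGood Cfsg.Agent.Lib.ChevRel Cfsg.Agent.Lib.ChevNPerm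
  Cfsg.Agent.Lib.ChevClosed Cfsg.Agent.Lib.ChevBruhat Cfsg.Agent.Lib.TwFix Cfsg.Agent.Lib.TwFix.TwRk
  Cfsg.Agent.Lib.TwTab Cfsg.Agent.Lib.TwField Cfsg.Agent.Lib.TwSpec Cfsg.Agent.Lib.TwModp
open Cfsg.Agent.Lib.TwF4 Cfsg.Agent.Lib.TwOut Cfsg.Agent.Lib.SplitOut Cfsg.Agent.Lib.RankOneAut Cfsg.Agent.Lib.RankOneMul
open Cfsg.Agent.Lib.SL2Pres (IsR1 hh nn)
open scoped MatrixGroups Matrix

universe u
variable {K : Type u} [Field K]

section
variable [Fintype K] {m : ℕ} (hK : Fintype.card K = 2 ^ (2 * m + 1))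

/-! ### the group laws -/

include hK in
theorem cm' {r s : ℕ} (h : (r < chevF4.nroots ∧ s < chevF4.nroots ∧ s ≠ r ∧ s ≠ chevF4.neg r ∧
    ∀ c ∈ chevF4.commTerms r s, c.2.1 % 2 = 0)) (a b : K) : Commute (xg chevF4 K r a) (xg chevF4 K s b) := by
  have := char2 hK
  obtain ⟨h1, h2, h3, h4, h5⟩ := h
  exact xg_commute_p G h1 h2 h3 h4 (fun c hc => c2 (h5 c hc)) a b

include hK in
theorem cm_28_27 (a b : K) : Commute (xg chevF4 K 28 a) (xg chevF4 K 27 b) := cm' hK (by decide +kernel) a b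
include hK in
theorem cm_28_25 (a b : K) : Commute (xg chevF4 K 28 a) (xg chevF4 K 25 b) := cm' hK (by decide +kernel) a b
include hK in
theorem cm_30_27 (a b : K) : Commute (xg chevF4 K 30 a) (xg chevF4 K 27 b) := cm' hK (by decide +kernel) a b
include hK in
theorem cm_30_25 (a b : K) : Commute (xg chevF4 K 30 a) (xg chevF4 K 25 b) := cm' hK (by decide +kernel) a b

include hK in
theorem PP_add (t u : K) : PP (2 ^ m) (t + u) = PP (2 ^ m) t * PP (2 ^ m) u := by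
  rw [PP_eq, PP_eq, PP_eq, add_e hK, ← xg_add G, ← xg_add G]
  have h := (cm_33_24 (K := K) (u ^ 2 ^ m) t).eq
  calc xg chevF4 K 33 (t ^ 2 ^ m) * xg chevF4 K 33 (u ^ 2 ^ m) * (xg chevF4 K 24 t * xg chevF4 K 24 u)
      = xg chevF4 K 33 (t ^ 2 ^ m) * (xg chevF4 K 33 (u ^ 2 ^ m) * xg chevF4 K 24 t) * xg chevF4 K 24 u := by group
    _ = _ := by rw [h]; group

/-- the central part -/
noncomputable def CD (x y : K) : GL chevF4.Idx K := xg chevF4 K 28 x * xg chevF4 K 30 y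

theorem CD_mul (x y x' y' : K) : CD x y * CD x' y' = CD (x + x') (y + y') := by
  unfold CD
  rw [← xg_add G, ← xg_add G]
  have h := (cm_28_30 (K := K) x' y).eq
  calc xg chevF4 K 28 x * xg chevF4 K 30 y * (xg chevF4 K 28 x' * xg chevF4 K 30 y')
      = xg chevF4 K 28 x * (xg chevF4 K 30 y * xg chevF4 K 28 x') * xg chevF4 K 30 y' := by group
    _ = _ := by rw [← h]; group

include hK in
theorem CD_27 (x y z : K) : CD x y * xg chevF4 K 27 z = xg chevF4 K 27 z * CD x y :=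
  ((cm_28_27 hK x z).mul_left (cm_30_27 hK y z)).eq

include hK in
theorem CD_25 (x y z : K) : CD x y * xg chevF4 K 25 z = xg chevF4 K 25 z * CD x y :=
  ((cm_28_25 hK x z).mul_left (cm_30_25 hK y z)).eq

theorem BP_CD (t u : K) : BP (2 ^ m) t u = xg chevF4 K 27 (t ^ 2 ^ m) * xg chevF4 K 25 t *
    CD (t ^ (2 ^ m + 1) + u) (u ^ (2 * 2 ^ m)) := BP_eq _ _ _

include hK in
theorem BP_mul (t u t' u' : K) : BP (2 ^ m) t u * BP (2 ^ m) t' u' =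
    BP (2 ^ m) (t + t') (u + u' + t ^ 2 ^ m * t') := by
  rw [BP_CD, BP_CD, BP_CD]
  have e1 : (t + t') ^ (2 ^ m + 1) + (u + u' + t ^ 2 ^ m * t') =
      t' ^ 2 ^ m * t + ((t ^ (2 ^ m + 1) + u) + (t' ^ (2 ^ m + 1) + u')) := by
    rw [pow_succ, add_e hK]
    linear_combination (t ^ 2 ^ m * t') * two hK
  have e2 : (u + u' + t ^ 2 ^ m * t') ^ (2 * 2 ^ m) = (t' ^ 2 ^ m) ^ 2 * t + (u ^ (2 * 2 ^ m) + u' ^ (2 * 2 ^ m)) := by
    rw [mul_comm 2, add_2e hK, add_2e hK, mul_pow, hT2 hK, pow_mul t']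
    ring
  have k5 := comm_27_25 (K := K) (t' ^ 2 ^ m) t
  rw [neg_eq hK] at k5
  have k5' : xg chevF4 K 25 t * xg chevF4 K 27 (t' ^ 2 ^ m) = xg chevF4 K 27 (t' ^ 2 ^ m) * xg chevF4 K 25 t *
    CD (t' ^ 2 ^ m * t) ((t' ^ 2 ^ m) ^ 2 * t) := k5
  rw [e1, e2, add_e hK, ← CD_mul, ← CD_mul, ← xg_add G, ← xg_add G]
  set z := CD (t ^ (2 ^ m + 1) + u) (u ^ (2 * 2 ^ m)) with hz
  set z' := CD (t' ^ (2 ^ m + 1) + u') (u' ^ (2 * 2 ^ m))
  set w := CD (t' ^ 2 ^ m * t) ((t' ^ 2 ^ m) ^ 2 * t) with hw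
  have k1 : z * xg chevF4 K 27 (t' ^ 2 ^ m) = xg chevF4 K 27 (t' ^ 2 ^ m) * z := CD_27 hK _ _ _
  have k2 : z * xg chevF4 K 25 t' = xg chevF4 K 25 t' * z := CD_25 hK _ _ _
  have k3 : w * xg chevF4 K 25 t' = xg chevF4 K 25 t' * w := CD_25 hK _ _ _
  set a := xg chevF4 K 27 (t ^ 2 ^ m)
  set a' := xg chevF4 K 27 (t' ^ 2 ^ m)
  set b := xg chevF4 K 25 t
  set b' := xg chevF4 K 25 t'
  calc a * b * z * (a' * b' * z') = a * b * (z * a') * b' * z' := by group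
    _ = a * b * a' * (z * b') * z' := by rw [k1]; group
    _ = a * (b * a') * b' * (z * z') := by rw [k2]; group
    _ = a * a' * b * (w * b') * (z * z') := by rw [k5']; group
    _ = _ := by rw [k3]; group

/-! ### the torus action -/

include hK in
theorem tP_PP {s : K} (hs : s ≠ 0) (t : K) : tP (2 ^ m) s * PP (2 ^ m) t * (tP (2 ^ m) s)⁻¹ = PP (2 ^ m) (s ^ 2 * t) := by
  have k : (chevF4.cartan 0 33, chevF4.cartan 3 33, chevF4.cartan 0 24, chevF4.cartan 3 24) =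
    ((2 : ℤ), (0 : ℤ), (0 : ℤ), (2 : ℤ)) := by decide +kernel
  simp only [Prod.mk.injEq] at k
  obtain ⟨k1, k2, k3, k4⟩ := k
  have z2 : ∀ x : K, x ^ (2 : ℤ) = x ^ 2 := fun x => zpow_ofNat x 2
  rw [PP_eq, PP_eq]
  have e1 : tP (2 ^ m) s * (xg chevF4 K 33 (t ^ 2 ^ m) * xg chevF4 K 24 t) * (tP (2 ^ m) s)⁻¹ =
      (tP (2 ^ m) s * xg chevF4 K 33 (t ^ 2 ^ m) * (tP (2 ^ m) s)⁻¹) * (tP (2 ^ m) s * xg chevF4 K 24 t * (tP (2 ^ m) s)⁻¹) := by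
    group
  rw [e1, tP_conj hK hs (by decide), tP_conj hK hs (by decide), k1, k2, k3, k4, z2, z2, zpow_zero, zpow_zero, one_mul, mul_one,
    mul_pow, ← pow_mul, ← pow_mul, mul_comm (2 ^ m) 2]

include hK in
theorem tB_PP {s : K} (hs : s ≠ 0) (t : K) : tB (2 ^ m) s * PP (2 ^ m) t * (tB (2 ^ m) s)⁻¹ = PP (2 ^ m) (s⁻¹ * t) := by
  have k : (chevF4.cartan 1 33, chevF4.cartan 2 33, chevF4.cartan 1 24, chevF4.cartan 2 24) =
    ((-1 : ℤ), (0 : ℤ), (0 : ℤ), (-1 : ℤ)) := by decide +kernel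
  simp only [Prod.mk.injEq] at k
  obtain ⟨k1, k2, k3, k4⟩ := k
  rw [PP_eq, PP_eq]
  have e1 : tB (2 ^ m) s * (xg chevF4 K 33 (t ^ 2 ^ m) * xg chevF4 K 24 t) * (tB (2 ^ m) s)⁻¹ =
      (tB (2 ^ m) s * xg chevF4 K 33 (t ^ 2 ^ m) * (tB (2 ^ m) s)⁻¹) * (tB (2 ^ m) s * xg chevF4 K 24 t * (tB (2 ^ m) s)⁻¹) := by
    group
  rw [e1, tB_conj hK hs (by decide), tB_conj hK hs (by decide), k1, k2, k3, k4, zpow_neg_one, zpow_neg_one, zpow_zero, zpow_zero,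
    one_mul, mul_one, mul_pow, inv_pow]

/-- conjugation of the block words -/
theorem conj_BP {g : GL chevF4.Idx K} {x : ℕ → K} (hg : ∀ s ∈ [27, 25, 28, 30], ∀ t : K,
    g * xg chevF4 K s t * g⁻¹ = xg chevF4 K s (x s * t)) {a b : K} (h1 : x 27 = a ^ 2 ^ m) (h2 : x 25 = a)
    (h3 : x 28 = a ^ (2 ^ m + 1)) (h4 : x 28 = b) (h5 : x 30 = b ^ (2 * 2 ^ m)) (t u : K) :
    g * BP (2 ^ m) t u * g⁻¹ = BP (2 ^ m) (a * t) (b * u) := by
  rw [BP_eq, BP_eq]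
  have e1 : g * (xg chevF4 K 27 (t ^ 2 ^ m) * xg chevF4 K 25 t * (xg chevF4 K 28 (t ^ (2 ^ m + 1) + u) *
      xg chevF4 K 30 (u ^ (2 * 2 ^ m)))) * g⁻¹ = (g * xg chevF4 K 27 (t ^ 2 ^ m) * g⁻¹) * (g * xg chevF4 K 25 t * g⁻¹) *
      ((g * xg chevF4 K 28 (t ^ (2 ^ m + 1) + u) * g⁻¹) * (g * xg chevF4 K 30 (u ^ (2 * 2 ^ m)) * g⁻¹)) := by group
  rw [e1, hg 27 (by simp), hg 25 (by simp), hg 28 (by simp), hg 30 (by simp), h1, h2, h5, mul_add]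
  have e2 : x 28 * t ^ (2 ^ m + 1) = (a * t) ^ (2 ^ m + 1) := by rw [h3, mul_pow]
  have e3 : x 28 * u = b * u := by rw [h4]
  rw [e2, e3, mul_pow b, mul_pow a t (2 ^ m)]

include hK in
theorem tP_BP {s : K} (hs : s ≠ 0) (t u : K) : tP (2 ^ m) s * BP (2 ^ m) t u * (tP (2 ^ m) s)⁻¹ =
    BP (2 ^ m) (s⁻¹ * t) (s⁻¹ ^ (2 ^ m + 1) * u) := by
  have k : (chevF4.cartan 0 27, chevF4.cartan 3 27, chevF4.cartan 0 25, chevF4.cartan 3 25) =
    ((-1 : ℤ), (0 : ℤ), (0 : ℤ), (-1 : ℤ)) ∧ (chevF4.cartan 0 28, chevF4.cartan 3 28, chevF4.cartan 0 30, chevF4.cartan 3 30) =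
    ((-1 : ℤ), (-1 : ℤ), (-2 : ℤ), (-1 : ℤ)) := by decide +kernel
  simp only [Prod.mk.injEq] at k
  obtain ⟨⟨k1, k2, k3, k4⟩, k5, k6, k7, k8⟩ := k
  have zm2 : ∀ x : K, x ^ (-2 : ℤ) = (x ^ 2)⁻¹ := fun x => by rw [zpow_neg]; norm_cast
  refine conj_BP (x := fun r => (s ^ 2 ^ m) ^ chevF4.cartan 0 r * s ^ chevF4.cartan 3 r) ?_ ?_ ?_ ?_ ?_ ?_ t u
  · intro r hr x
    simp only [List.mem_cons, List.not_mem_nil, or_false] at hr
    exact tP_conj hK hs (by rw [show chevF4.nroots = 48 from rfl]; omega) x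
  · show (s ^ 2 ^ m) ^ chevF4.cartan 0 27 * s ^ chevF4.cartan 3 27 = _
    rw [k1, k2, zpow_zero, mul_one, zpow_neg_one, inv_pow]
  · show (s ^ 2 ^ m) ^ chevF4.cartan 0 25 * s ^ chevF4.cartan 3 25 = _
    rw [k3, k4, zpow_zero, one_mul, zpow_neg_one]
  · show (s ^ 2 ^ m) ^ chevF4.cartan 0 28 * s ^ chevF4.cartan 3 28 = _
    rw [k5, k6, zpow_neg_one, zpow_neg_one, pow_succ, inv_pow]
  · show (s ^ 2 ^ m) ^ chevF4.cartan 0 28 * s ^ chevF4.cartan 3 28 = _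
    rw [k5, k6, zpow_neg_one, zpow_neg_one, pow_succ, inv_pow]
  · show (s ^ 2 ^ m) ^ chevF4.cartan 0 30 * s ^ chevF4.cartan 3 30 = _
    have e1 : (s⁻¹ ^ (2 ^ m + 1)) ^ (2 * 2 ^ m) = s⁻¹ * (s⁻¹ ^ 2 ^ m) ^ 2 := by
      rw [mul_comm 2, pow_succ (s⁻¹) (2 ^ m), mul_pow, hT2 hK, pow_mul s⁻¹]
    rw [k7, k8, zpow_neg_one, zm2, e1, inv_pow s]
    ring

include hK in
theorem tB_BP' {s : K} (hs : s ≠ 0) (t u : K) : tB (2 ^ m) s * BP (2 ^ m) t u * (tB (2 ^ m) s)⁻¹ =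
    BP (2 ^ m) (((s ^ 2 ^ m) ^ 2)⁻¹ * s ^ 2 * t) (s * u) := by
  have k : (chevF4.cartan 1 27, chevF4.cartan 2 27, chevF4.cartan 1 25, chevF4.cartan 2 25) =
    ((2 : ℤ), (-1 : ℤ), (-2 : ℤ), (2 : ℤ)) := by decide +kernel
  have hc := cart2 hK
  simp only [Prod.mk.injEq] at k hc
  obtain ⟨⟨k5, k6, k7, k8⟩, -⟩ := hc
  obtain ⟨k1, k2, k3, k4⟩ := k
  have z2 : ∀ x : K, x ^ (2 : ℤ) = x ^ 2 := fun x => zpow_ofNat x 2
  have zm2 : ∀ x : K, x ^ (-2 : ℤ) = (x ^ 2)⁻¹ := fun x => by rw [zpow_neg]; norm_cast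
  have hT : ((s ^ 2 ^ m) ^ 2 ^ m) ^ 2 = s := by rw [← pow_mul, hT2 hK]
  have hB27 : (((s ^ 2 ^ m) ^ 2)⁻¹ * s ^ 2) ^ 2 ^ m = (s ^ 2 ^ m) ^ 2 * s⁻¹ := by
    have e1 : ((s ^ 2 ^ m) ^ 2) ^ 2 ^ m = s := by rw [pow_right_comm, hT]
    rw [mul_pow, inv_pow, e1, pow_right_comm s 2]
    ring
  refine conj_BP (x := fun r => (s ^ 2 ^ m) ^ chevF4.cartan 1 r * s ^ chevF4.cartan 2 r) ?_ ?_ ?_ ?_ ?_ ?_ t u
  · intro r hr x
    simp only [List.mem_cons, List.not_mem_nil, or_false] at hr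
    exact tB_conj hK hs (by rw [show chevF4.nroots = 48 from rfl]; omega) x
  · show (s ^ 2 ^ m) ^ chevF4.cartan 1 27 * s ^ chevF4.cartan 2 27 = _
    rw [k1, k2, z2, zpow_neg_one, hB27]
  · show (s ^ 2 ^ m) ^ chevF4.cartan 1 25 * s ^ chevF4.cartan 2 25 = _
    rw [k3, k4, zm2, z2]
  · show (s ^ 2 ^ m) ^ chevF4.cartan 1 28 * s ^ chevF4.cartan 2 28 = _
    have hne := pow_ne_zero (2 ^ m) hs
    rw [k5, k6, zpow_zero, zpow_one, one_mul, pow_succ, hB27]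
    field_simp
  · show (s ^ 2 ^ m) ^ chevF4.cartan 1 28 * s ^ chevF4.cartan 2 28 = _
    rw [k5, k6, zpow_zero, zpow_one, one_mul]
  · show (s ^ 2 ^ m) ^ chevF4.cartan 1 30 * s ^ chevF4.cartan 2 30 = _
    rw [k7, k8, z2, zpow_zero, mul_one, ← pow_mul, mul_comm]

/-! ### the elements of the group -/

noncomputable def XX (m : ℕ) (t : K) : ↥(twistedF4 K (2 ^ m)) := ⟨PP (2 ^ m) t, mem_PP _ _⟩
noncomputable def YY (m : ℕ) (t : K) : ↥(twistedF4 K (2 ^ m)) := ⟨PM (2 ^ m) t, mem_PM _ _⟩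
noncomputable def ZZ (m : ℕ) (t u : K) : ↥(twistedF4 K (2 ^ m)) := ⟨BP (2 ^ m) t u, mem_BP _ _ _⟩
noncomputable def ZM (m : ℕ) (t u : K) : ↥(twistedF4 K (2 ^ m)) := ⟨BM (2 ^ m) t u, mem_BM _ _ _⟩

include hK in
theorem ZZ_mul (t u t' u' : K) : ZZ m t u * ZZ m t' u' = ZZ m (t + t') (u + u' + t ^ 2 ^ m * t') :=
  Subtype.ext (BP_mul hK t u t' u')

theorem ZZ_zero : ZZ m (0 : K) 0 = 1 := by
  apply Subtype.ext
  show BP (2 ^ m) (0 : K) 0 = 1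
  have he : 2 ^ m ≠ 0 := by positivity
  have he2 : 2 * 2 ^ m ≠ 0 := by positivity
  rw [BP_eq, zero_pow he, zero_pow (Nat.succ_ne_zero _), zero_pow he2, add_zero, xg_zero G, xg_zero G, xg_zero G, xg_zero G]
  simp

include hK in
theorem ZZ_sq (t u : K) : ZZ m t u * ZZ m t u = ZZ m 0 (t ^ (2 ^ m + 1)) := by
  rw [ZZ_mul hK]
  congr 1
  · linear_combination t * two hK
  · rw [pow_succ]; linear_combination u * two hK

include hK in
/-- rank one relations -/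
theorem isR1 : IsR1 (XX m : K → ↥(twistedF4 K (2 ^ m))) (YY m) := by
  have R1 := isR1_comp (ChevSL2.isR1 G (F := K) (r := 33) (by decide)) (fr hK).toRingHom
  have R2 := ChevSL2.isR1 G (F := K) (r := 24) (by decide)
  have n33 : chevF4.neg 33 = 14 := by decide +kernel
  have n24 : chevF4.neg 24 = 23 := by decide +kernel
  rw [n33] at R1
  rw [n24] at R2
  have R := isR1_mul R1 R2 (fun s t => cm_33_24 _ _) (fun s t => cm_33_23 _ _) (fun s t => cm_14_24 _ _)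
    (fun s t => cm_14_23 _ _)
  have eX : (fun t : K => xg chevF4 K 33 ((fr hK).toRingHom t) * xg chevF4 K 24 t) = fun t => PP (2 ^ m) t := by
    funext t
    rw [PP_eq]
    show xg chevF4 K 33 (fr hK t) * _ = _
    rw [fr_eq]
  have eY : (fun t : K => xg chevF4 K 14 ((fr hK).toRingHom t) * xg chevF4 K 23 t) = fun t => PM (2 ^ m) t := by
    funext t
    rw [PM_eq]
    show xg chevF4 K 14 (fr hK t) * _ = _
    rw [fr_eq]
  rw [eX, eY] at R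
  exact
    { X_add := fun s t => Subtype.ext (R.X_add s t)
      Y_add := fun s t => Subtype.ext (R.Y_add s t)
      n_X := fun u => Subtype.ext (R.n_X u)
      n_Y := fun u => Subtype.ext (R.n_Y u)
      h_X := fun c u hc => Subtype.ext (R.h_X c u hc)
      h_Y := fun c u hc => Subtype.ext (R.h_Y c u hc)
      h_mul := fun c d hc hd => Subtype.ext (R.h_mul c d hc hd) }

/-- the torus elements -/
noncomputable def hP (s : Kˣ) : ↥(twistedF4 K (2 ^ m)) := ⟨tP (2 ^ m) (s : K), tP_mem hK s.ne_zero⟩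
noncomputable def hB (s : Kˣ) : ↥(twistedF4 K (2 ^ m)) := ⟨tB (2 ^ m) (s : K), tB_mem hK s.ne_zero⟩

theorem hP_H (s : Kˣ) : hP hK s ∈ (SP hK).H := (tP_memH hK s.ne_zero).1
theorem hB_H (s : Kˣ) : hB hK s ∈ (SP hK).H := (tB_memH hK s.ne_zero).1

theorem hP_eq (s : Kˣ) : hP hK s = hh (XX m) (YY m) (s : K) := by
  apply Subtype.ext
  show tP (2 ^ m) (s : K) = _
  rw [tP_eq hK s.ne_zero]
  have hn := neg_eq hK
  unfold hh SL2Pres.nn
  rw [hn, hn, hn]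
  rfl

theorem hP_XX (s : Kˣ) (t : K) : hP hK s * XX m t * (hP hK s)⁻¹ = XX m ((s : K) ^ 2 * t) :=
  Subtype.ext (tP_PP hK s.ne_zero t)
theorem hB_XX (s : Kˣ) (t : K) : hB hK s * XX m t * (hB hK s)⁻¹ = XX m ((s : K)⁻¹ * t) :=
  Subtype.ext (tB_PP hK s.ne_zero t)
theorem hP_ZZ (s : Kˣ) (t u : K) : hP hK s * ZZ m t u * (hP hK s)⁻¹ =
    ZZ m ((s : K)⁻¹ * t) ((s : K)⁻¹ ^ (2 ^ m + 1) * u) := Subtype.ext (tP_BP hK s.ne_zero t u)
theorem hB_ZZ (s : Kˣ) (t u : K) : hB hK s * ZZ m t u * (hB hK s)⁻¹ =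
    ZZ m ((((s : K) ^ 2 ^ m) ^ 2)⁻¹ * (s : K) ^ 2 * t) ((s : K) * u) := Subtype.ext (tB_BP' hK s.ne_zero t u)

/-! ### coordinates -/

/-- the ranks -/
noncomputable abbrev RR : TwRk (T hK) := rkS (sig hK) chk1F4 chk2F4 listed chk4F4 (hp2 hK)

theorem closed (j : Fin tabF4.nz) : Closed K (Inv ((W hK).wj j)) := closed_Inv (T hK) ((W hK).mono_nj j).1

theorem stab (j : Fin tabF4.nz) : TwRk.Stab (T hK) (Inv ((W hK).wj j)) :=
  stab_Inv (T hK) ((T hK).comm_of_fix ((W hK).nj_mem_N j) ((W hK).mono_nj j) ((W hK).nj_mem_fix j))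

/-- the fundamental roots -/
def r33 : Fin chevF4.nroots := ⟨33, by decide⟩
/-- the fundamental roots -/
def r27 : Fin chevF4.nroots := ⟨27, by decide⟩
/-- the fundamental roots -/
def r28 : Fin chevF4.nroots := ⟨28, by decide⟩

theorem m33 : r33 ∈ Inv ((W hK).wj j0) := (mem_Inv hK j0 r33).mpr (by decide)
theorem m27 : r27 ∈ Inv ((W hK).wj j1) := (mem_Inv hK j1 r27).mpr (by decide)
theorem m28 : r28 ∈ Inv ((W hK).wj j1) := (mem_Inv hK j1 r28).mpr (by decide)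

theorem mem_upd {j : Fin tabF4.nz} {r : Fin chevF4.nroots} {s : ℕ} (hs : s < 48) (h1 : s ∈ JJ j)
    (h2 : tabF4.rkN r ≤ tabF4.rkN s) (h3 : s ≠ r) (t : K) :
    xg chevF4 K s t ∈ XS chevF4 K ((RR hK).up (Inv ((W hK).wj j)) ((RR hK).rk r) \ {r}) :=
  xg_mem_XS' hs (show (⟨s, hs⟩ : Fin chevF4.nroots) ∈ (RR hK).up (Inv ((W hK).wj j)) ((RR hK).rk r) \ {r} from
    ⟨⟨(mem_Inv hK j _).mpr h1, h2⟩, fun h => h3 (congrArg Fin.val h)⟩) t

theorem co_PP (t : K) : Co ((RR hK).up (Inv ((W hK).wj j0)) ((RR hK).rk r33) \ {r33}) r33 (t ^ 2 ^ m) (PP (2 ^ m) t) := by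
  unfold Co
  rw [PP_eq]
  show (xg chevF4 K 33 (t ^ 2 ^ m))⁻¹ * _ ∈ _
  rw [inv_mul_cancel_left]
  exact mem_upd hK (by norm_num) (by decide) (by decide) (by decide) _

theorem co_BP (t u : K) : Co ((RR hK).up (Inv ((W hK).wj j1)) ((RR hK).rk r27) \ {r27}) r27 (t ^ 2 ^ m) (BP (2 ^ m) t u) := by
  unfold Co
  rw [BP_eq]
  show (xg chevF4 K 27 (t ^ 2 ^ m))⁻¹ * (xg chevF4 K 27 (t ^ 2 ^ m) * _ * _) ∈ _
  rw [mul_assoc, inv_mul_cancel_left]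
  exact mul_mem (mem_upd hK (by norm_num) (by decide) (by decide) (by decide) _)
    (mul_mem (mem_upd hK (by norm_num) (by decide) (by decide) (by decide) _)
      (mem_upd hK (by norm_num) (by decide) (by decide) (by decide) _))

theorem co_BP0 (u : K) : Co ((RR hK).up (Inv ((W hK).wj j1)) ((RR hK).rk r28) \ {r28}) r28 u (BP (2 ^ m) 0 u) := by
  have he : 2 ^ m ≠ 0 := by positivity
  unfold Co
  rw [BP_eq, zero_pow he, zero_pow (Nat.succ_ne_zero _), xg_zero G, xg_zero G, one_mul, one_mul, zero_add]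
  show (xg chevF4 K 28 u)⁻¹ * _ ∈ _
  rw [inv_mul_cancel_left]
  exact mem_upd hK (by norm_num) (by decide) (by decide) (by decide) _

include hK in
theorem pow_inj {t t' : K} (h : t ^ 2 ^ m = t' ^ 2 ^ m) : t = t' := by
  rw [← hT2 hK t, h, hT2 hK]

include hK in
theorem XX_inj : Function.Injective (XX m : K → ↥(twistedF4 K (2 ^ m))) := by
  intro t t' h
  have h1 := co_PP hK t
  rw [show PP (2 ^ m) t = PP (2 ^ m) t' from congrArg Subtype.val h] at h1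
  exact pow_inj hK (co_unique (closed hK j0) (m33 hK) h1 (co_PP hK t'))

include hK in
theorem ZZ_inj {t u t' u' : K} (h : ZZ m t u = ZZ m t' u') : t = t' ∧ u = u' := by
  have ht : t = t' := by
    have h1 := co_BP hK t u
    rw [show BP (2 ^ m) t u = BP (2 ^ m) t' u' from congrArg Subtype.val h] at h1
    exact pow_inj hK (co_unique (closed hK j1) (m27 hK) h1 (co_BP hK t' u'))
  subst ht
  have e : ∀ u, ZZ m t u = ZZ m t 0 * ZZ m 0 u := by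
    intro u
    rw [ZZ_mul hK]
    congr 1 <;> ring
  rw [e, e u', mul_right_inj] at h
  have h1 := co_BP0 hK u
  rw [show BP (2 ^ m) 0 u = BP (2 ^ m) 0 u' from congrArg Subtype.val h] at h1
  exact ⟨rfl, co_unique (closed hK j1) (m28 hK) h1 (co_BP0 hK u')⟩

theorem XS_empty {A : Set (Fin chevF4.nroots)} (hA : ∀ s, s ∉ A) {g : GL chevF4.Idx K} (hg : g ∈ XS chevF4 K A) : g = 1 := by
  have h6 : XS chevF4 K A ≤ ⊥ := XS_le fun r hr => absurd hr (hA r)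
  exact Subgroup.mem_bot.mp (h6 hg)

theorem chkRk : ∀ s < 48, (s ∈ JJ 0 → tabF4.rkN s = 0) ∧ (s ∈ JJ 1 → tabF4.rkN s = 1 ∨ tabF4.rkN s = 3) := by decide +kernel

theorem mem_X0 (g : ↥(twistedF4 K (2 ^ m))) : g ∈ (RK hK).X j0 ↔ ∃ t, g = XX m t := by
  constructor
  · intro h
    have hg : (g : GL chevF4.Idx K) ∈ XS chevF4 K (Inv ((W hK).wj j0)) := h
    have hf := le_fix hK g.2
    have hup : (RR hK).up (Inv ((W hK).wj j0)) ((RR hK).rk r33) = Inv ((W hK).wj j0) := by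
      ext s
      exact ⟨fun h => h.1, fun h => ⟨h, Nat.zero_le _⟩⟩
    obtain ⟨t0, ht0⟩ := exists_co (R := RR hK) (closed hK j0) (m33 hK) (g := g) (by rw [hup]; exact hg)
    obtain ⟨t, rfl⟩ : ∃ t, t ^ 2 ^ m = t0 := ⟨_, hT1 hK t0⟩
    have h3 := co_mul (closed hK j0) (m33 hK) (co_inv (closed hK j0) (m33 hK) (co_PP hK t)) ht0
    rw [neg_add_cancel] at h3
    have hf2 : (PP (2 ^ m) t)⁻¹ * (g : GL chevF4.Idx K) ∈ (T hK).fix := mul_mem (inv_mem (PP_fix hK t)) hf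
    have h4 := mem_up_succ (closed hK j0) (stab hK j0) (m33 hK) hf2 h3
    have h5 := XS_empty (fun s hs => by
      have h6 := (chkRk s s.2).1 ((mem_Inv hK j0 s).mp hs.1)
      have h7 : tabF4.rkN 33 + 1 ≤ tabF4.rkN s := hs.2
      omega) h4
    exact ⟨t, Subtype.ext (inv_mul_eq_one.mp h5).symm⟩
  · rintro ⟨t, rfl⟩
    exact (PP_X hK t).1

theorem mem_X1 (g : ↥(twistedF4 K (2 ^ m))) : g ∈ (RK hK).X j1 ↔ ∃ t u, g = ZZ m t u := by
  constructor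
  · intro h
    have hg : (g : GL chevF4.Idx K) ∈ XS chevF4 K (Inv ((W hK).wj j1)) := h
    have hf := le_fix hK g.2
    have r27' : tabF4.rkN 27 = 1 := rfl
    have r28' : tabF4.rkN 28 = 3 := rfl
    have hup : (RR hK).up (Inv ((W hK).wj j1)) ((RR hK).rk r27) = Inv ((W hK).wj j1) := by
      ext s
      refine ⟨fun h => h.1, fun h => ⟨h, ?_⟩⟩
      show tabF4.rkN 27 ≤ tabF4.rkN s
      have h6 := (chkRk s s.2).2 ((mem_Inv hK j1 s).mp h)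
      omega
    obtain ⟨t0, ht0⟩ := exists_co (R := RR hK) (closed hK j1) (m27 hK) (g := g) (by rw [hup]; exact hg)
    obtain ⟨t, rfl⟩ : ∃ t, t ^ 2 ^ m = t0 := ⟨_, hT1 hK t0⟩
    have h3 := co_mul (closed hK j1) (m27 hK) (co_inv (closed hK j1) (m27 hK) (co_BP hK t 0)) ht0
    rw [neg_add_cancel] at h3
    have hf2 : (BP (2 ^ m) t 0)⁻¹ * (g : GL chevF4.Idx K) ∈ (T hK).fix := mul_mem (inv_mem (BP_fix hK t 0)) hf
    have h4 := mem_up_succ (closed hK j1) (stab hK j1) (m27 hK) hf2 h3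
    have hup2 : (RR hK).up (Inv ((W hK).wj j1)) ((RR hK).rk r27 + 1) =
        (RR hK).up (Inv ((W hK).wj j1)) ((RR hK).rk r28) := by
      ext s
      refine and_congr_right fun hs => ?_
      show tabF4.rkN 27 + 1 ≤ tabF4.rkN s ↔ tabF4.rkN 28 ≤ tabF4.rkN s
      have h6 := (chkRk s s.2).2 ((mem_Inv hK j1 s).mp hs)
      omega
    rw [hup2] at h4
    obtain ⟨u, hu⟩ := exists_co (R := RR hK) (closed hK j1) (m28 hK) h4
    have h5 := co_mul (closed hK j1) (m28 hK) (co_inv (closed hK j1) (m28 hK) (co_BP0 hK u)) hu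
    rw [neg_add_cancel] at h5
    have hf3 : (BP (2 ^ m) 0 u)⁻¹ * ((BP (2 ^ m) t 0)⁻¹ * (g : GL chevF4.Idx K)) ∈ (T hK).fix :=
      mul_mem (inv_mem (BP_fix hK 0 u)) hf2
    have h7 := mem_up_succ (closed hK j1) (stab hK j1) (m28 hK) hf3 h5
    have h8 := XS_empty (fun s hs => by
      have h6 := (chkRk s s.2).2 ((mem_Inv hK j1 s).mp hs.1)
      have h7 : tabF4.rkN 28 + 1 ≤ tabF4.rkN s := hs.2
      omega) h7
    refine ⟨t, u, Subtype.ext ?_⟩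
    have e : ZZ m t u = ZZ m t 0 * ZZ m 0 u := by
      rw [ZZ_mul hK]
      congr 1 <;> ring
    rw [e]
    show (g : GL chevF4.Idx K) = BP (2 ^ m) t 0 * BP (2 ^ m) 0 u
    calc (g : GL chevF4.Idx K) = BP (2 ^ m) t 0 * BP (2 ^ m) 0 u * ((BP (2 ^ m) 0 u)⁻¹ * ((BP (2 ^ m) t 0)⁻¹ * g)) := by group
      _ = _ := by rw [h8, mul_one]
  · rintro ⟨t, u, rfl⟩
    exact (BP_X hK t u).1

theorem mem_Y0 (g : ↥(twistedF4 K (2 ^ m))) : g ∈ (RK hK).Y j0 ↔ ∃ t, g = YY m t := by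
  constructor
  · intro h
    have hn : (SP hK).n j0 = SL2Pres.nn (XX m) (YY m) (1 : K) := by
      apply Subtype.ext
      show nl chevF4 K (jwF chk1F4 0) = _
      rw [n0_eq hK]
      have hn := neg_eq hK
      unfold SL2Pres.nn
      rw [hn, inv_one]
      rfl
    have h1 : ((SP hK).n j0)⁻¹ * g * (SP hK).n j0 ∈ (RK hK).X j0 := by
      rw [← (RK hK).nX]
      have e : (SP hK).n j0 * (((SP hK).n j0)⁻¹ * g * (SP hK).n j0) * ((SP hK).n j0)⁻¹ = g := by group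
      rw [e]; exact h
    obtain ⟨t, ht⟩ := (mem_X0 hK _).mp h1
    refine ⟨-t, ?_⟩
    rw [← (isR1 hK).n_X t, ← ht, ← hn]
    group
  · rintro ⟨t, rfl⟩
    exact (PM_Y hK t).1

end

end Cfsg.Agent.Lib.TwOutF
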