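import Cfsg.Agent.Lib.TwOutG
import Cfsg.Agent.Lib.FFAut
import Cfsg.Agent.Lib.ChevU
set_option autoImplicit false
set_option linter.unusedSectionVars false
set_option linter.unusedVariables false
set_option linter.unusedSimpArgs false

/-!
The groups 2F4(q): outer automorphisms.
-/

namespace Cfsg.Agent.Lib.TwOutF
open Cfsg.Lie Cfsg.Agent.Lib.ChevX Cfsg.Agent.Lib.ChevGood Cfsg.Agent.Lib.ChevRel Cfsg.Agent.Lib.ChevNPerm
  Cfsg.Agent.Lib.ChevClosed Cfsg.Agent.Lib.ChevBruhat Cfsg.Agent.Lib.TwFix Cfsg.Agent.Lib.TwFix.TwRk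
  Cfsg.Agent.Lib.TwTab Cfsg.Agent.Lib.TwField Cfsg.Agent.Lib.TwSpec Cfsg.Agent.Lib.TwModp
open Cfsg.Agent.Lib.TwF4 Cfsg.Agent.Lib.TwOut Cfsg.Agent.Lib.SplitOut Cfsg.Agent.Lib.RankOneAut Cfsg.Agent.Lib.RankOneMul
open Cfsg.Agent.Lib.SL2Pres (IsR1 hh)
open scoped MatrixGroups Matrix

universe u
variable {K : Type u} [Field K]

section
variable [Fintype K] {m : ℕ} (hK : Fintype.card K = 2 ^ (2 * m + 1))

/-! ### field automorphisms -/

theorem fA_wg (f : K ≃+* K) : ∀ (w : List (ℕ × K)) (hw : ∀ x ∈ w, x.1 < chevF4.nroots) (h : wg chevF4 K w ∈ chevF4.group K),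
    (ChevStd.fA G f ⟨wg chevF4 K w, h⟩ : GL chevF4.Idx K) = wg chevF4 K (w.map fun x => (x.1, f x.2)) := by
  intro w
  induction w with
  | nil =>
    intro _ h
    have : (⟨wg chevF4 K [], h⟩ : ↥(chevF4.group K)) = 1 := Subtype.ext (by simp [wg])
    rw [this, map_one]
    simp [wg]
  | cons x w ih =>
    intro hw h
    have h2 : wg chevF4 K w ∈ chevF4.group K := wg_mem_group G w
    have e : (⟨wg chevF4 K (x :: w), h⟩ : ↥(chevF4.group K)) = ChevStd.X G x.1 x.2 * ⟨wg chevF4 K w, h2⟩ :=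
      Subtype.ext (by simp [wg, ChevStd.X])
    rw [e, map_mul, ChevStd.fA_apply G f (hw x (by simp)), Subgroup.coe_mul, ih (fun y hy => hw y (by simp [hy])) h2]
    simp [wg, ChevStd.X]

theorem fA_PP (f : K ≃+* K) (e : ℕ) (t : K) (h : PP e t ∈ chevF4.group K) :
    (ChevStd.fA G f ⟨PP e t, h⟩ : GL chevF4.Idx K) = PP e (f t) := by
  have h1 := fA_wg f (f4PairWord e f4p1 f4p4 t) (by
    intro x hx
    have : chevF4.nroots = 48 := rfl
    rw [this]
    simp only [f4PairWord, f4p1, f4p4, List.mem_cons, List.not_mem_nil, or_false] at hx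
    rcases hx with rfl | rfl <;> simp) h
  refine h1.trans ?_
  simp [PP, f4PairWord]

theorem fA_PM (f : K ≃+* K) (e : ℕ) (t : K) (h : PM e t ∈ chevF4.group K) :
    (ChevStd.fA G f ⟨PM e t, h⟩ : GL chevF4.Idx K) = PM e (f t) := by
  have h1 := fA_wg f (f4PairWord e f4m1 f4m4 t) (by
    intro x hx
    have : chevF4.nroots = 48 := rfl
    rw [this]
    simp only [f4PairWord, f4m1, f4m4, List.mem_cons, List.not_mem_nil, or_false] at hx
    rcases hx with rfl | rfl <;> simp) h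
  refine h1.trans ?_
  simp [PM, f4PairWord]

theorem fA_BP (f : K ≃+* K) (e : ℕ) (t u : K) (h : BP e t u ∈ chevF4.group K) :
    (ChevStd.fA G f ⟨BP e t u, h⟩ : GL chevF4.Idx K) = BP e (f t) (f u) := by
  have h1 := fA_wg f (b2ClassWord e f4a f4b f4ab f4aab t u) (by
    intro x hx
    have : chevF4.nroots = 48 := rfl
    rw [this]
    simp only [b2ClassWord, f4a, f4b, f4ab, f4aab, List.mem_cons, List.not_mem_nil, or_false] at hx
    rcases hx with rfl | rfl | rfl | rfl <;> simp) h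
  refine h1.trans ?_
  simp [BP, b2ClassWord]

theorem fA_BM (f : K ≃+* K) (e : ℕ) (t u : K) (h : BM e t u ∈ chevF4.group K) :
    (ChevStd.fA G f ⟨BM e t u, h⟩ : GL chevF4.Idx K) = BM e (f t) (f u) := by
  have h1 := fA_wg f (b2ClassWord e f4ma f4mb f4mab f4maab t u) (by
    intro x hx
    have : chevF4.nroots = 48 := rfl
    rw [this]
    simp only [b2ClassWord, f4ma, f4mb, f4mab, f4maab, List.mem_cons, List.not_mem_nil, or_false] at hx
    rcases hx with rfl | rfl | rfl | rfl <;> simp) h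
  refine h1.trans ?_
  simp [BM, b2ClassWord]

include hK in
theorem Γ_le : twistedF4 K (2 ^ m) ≤ chevF4.group K := fun g hg => (le_fix hK hg).1

/-- generation -/
theorem gen_le {S : Subgroup (GL chevF4.Idx K)} (e : ℕ) (h1 : ∀ t, PP e t ∈ S) (h2 : ∀ t, PM e t ∈ S)
    (h3 : ∀ t u, BP e t u ∈ S) (h4 : ∀ t u, BM e t u ∈ S) : twistedF4 K e ≤ S := by
  apply (Subgroup.closure_le _).mpr
  rintro g ⟨w, hw, hg⟩
  rw [eq_wg G hg]
  rcases hw with ⟨t, rfl | rfl⟩ | ⟨t, u, rfl | rfl⟩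
  · exact h1 t
  · exact h2 t
  · exact h3 t u
  · exact h4 t u

theorem fA_maps (f : K ≃+* K) (g : GL chevF4.Idx K) (hg : g ∈ twistedF4 K (2 ^ m)) :
    (ChevStd.fA G f ⟨g, Γ_le hK hg⟩ : GL chevF4.Idx K) ∈ twistedF4 K (2 ^ m) := by
  have key : twistedF4 K (2 ^ m) ≤ (((twistedF4 K (2 ^ m)).subgroupOf (chevF4.group K)).comap
      (ChevStd.fA G f).toMonoidHom).map (chevF4.group K).subtype := by
    apply gen_le
    · intro t
      refine ⟨⟨PP (2 ^ m) t, Γ_le hK (mem_PP _ _)⟩, ?_, rfl⟩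
      show (ChevStd.fA G f _ : GL chevF4.Idx K) ∈ twistedF4 K (2 ^ m)
      rw [fA_PP]
      exact mem_PP _ _
    · intro t
      refine ⟨⟨PM (2 ^ m) t, Γ_le hK (mem_PM _ _)⟩, ?_, rfl⟩
      show (ChevStd.fA G f _ : GL chevF4.Idx K) ∈ twistedF4 K (2 ^ m)
      rw [fA_PM]
      exact mem_PM _ _
    · intro t u
      refine ⟨⟨BP (2 ^ m) t u, Γ_le hK (mem_BP _ _ _)⟩, ?_, rfl⟩
      show (ChevStd.fA G f _ : GL chevF4.Idx K) ∈ twistedF4 K (2 ^ m)
      rw [fA_BP]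
      exact mem_BP _ _ _
    · intro t u
      refine ⟨⟨BM (2 ^ m) t u, Γ_le hK (mem_BM _ _ _)⟩, ?_, rfl⟩
      show (ChevStd.fA G f _ : GL chevF4.Idx K) ∈ twistedF4 K (2 ^ m)
      rw [fA_BM]
      exact mem_BM _ _ _
  obtain ⟨x, hx, hxg⟩ := key hg
  have : x = ⟨g, Γ_le hK hg⟩ := Subtype.ext hxg
  rw [← this]
  exact hx

/-- the field automorphism of the twisted group as an endomorphism -/
noncomputable def fΓ0 (f : K ≃+* K) : ↥(twistedF4 K (2 ^ m)) →* ↥(twistedF4 K (2 ^ m)) :=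
  MonoidHom.mk' (fun g => ⟨ChevStd.fA G f ⟨g, Γ_le hK g.2⟩, fA_maps hK f g g.2⟩) fun a b => by
    apply Subtype.ext
    show (ChevStd.fA G f ⟨(a : GL chevF4.Idx K) * b, _⟩ : GL chevF4.Idx K) =
      (ChevStd.fA G f ⟨a, Γ_le hK a.2⟩ : GL chevF4.Idx K) * ChevStd.fA G f ⟨b, Γ_le hK b.2⟩
    have : (⟨(a : GL chevF4.Idx K) * b, Γ_le hK (mul_mem a.2 b.2)⟩ : ↥(chevF4.group K)) =
      ⟨a, Γ_le hK a.2⟩ * ⟨b, Γ_le hK b.2⟩ := rfl
    rw [this, map_mul]; rfl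

theorem fΓ0_inj (f : K ≃+* K) : Function.Injective (fΓ0 hK f) := by
  intro a b hab
  have h1 := congrArg (fun z : ↥(twistedF4 K (2 ^ m)) => (z : GL chevF4.Idx K)) hab
  have h2 : (⟨a, Γ_le hK a.2⟩ : ↥(chevF4.group K)) = ⟨b, Γ_le hK b.2⟩ := (ChevStd.fA G f).injective (Subtype.ext h1)
  exact Subtype.ext (congrArg (fun z : ↥(chevF4.group K) => (z : GL chevF4.Idx K)) h2)

/-- the field automorphism of the twisted group -/
noncomputable def fΓ (f : K ≃+* K) : MulAut ↥(twistedF4 K (2 ^ m)) :=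
  MulEquiv.ofBijective (fΓ0 hK f) (Finite.injective_iff_bijective.mp (fΓ0_inj hK f))

theorem fΓ_XX (f : K ≃+* K) (t : K) : fΓ hK f (XX m t) = XX m (f t) := Subtype.ext (fA_PP f _ t _)
theorem fΓ_YY (f : K ≃+* K) (t : K) : fΓ hK f (YY m t) = YY m (f t) := Subtype.ext (fA_PM f _ t _)
theorem fΓ_ZZ (f : K ≃+* K) (t u : K) : fΓ hK f (ZZ m t u) = ZZ m (f t) (f u) := Subtype.ext (fA_BP f _ t u _)
theorem fΓ_ZM (f : K ≃+* K) (t u : K) : fΓ hK f (ZM m t u) = ZM m (f t) (f u) := Subtype.ext (fA_BM f _ t u _)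

theorem fΓ_std (f : K ≃+* K) : (SP hK).Std (fΓ hK f) := by
  have h := (ChevStd.Nrm.std G (ChevStd.nrm_fA G f))
  constructor
  · intro g
    exact h.U ⟨g, Γ_le hK g.2⟩
  · intro g
    exact h.V ⟨g, Γ_le hK g.2⟩

/-- automorphisms are determined on the root elements -/
theorem aut_ext {θ θ' : MulAut ↥(twistedF4 K (2 ^ m))} (h1 : ∀ t, θ (XX m t) = θ' (XX m t))
    (h2 : ∀ t, θ (YY m t) = θ' (YY m t)) (h3 : ∀ t u, θ (ZZ m t u) = θ' (ZZ m t u))
    (h4 : ∀ t u, θ (ZM m t u) = θ' (ZM m t u)) : θ = θ' := by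
  have key : twistedF4 K (2 ^ m) ≤ ((θ : ↥(twistedF4 K (2 ^ m)) →* ↥(twistedF4 K (2 ^ m))).eqLocus
      (θ' : ↥(twistedF4 K (2 ^ m)) →* ↥(twistedF4 K (2 ^ m)))).map (twistedF4 K (2 ^ m)).subtype := by
    apply gen_le
    · exact fun t => ⟨XX m t, h1 t, rfl⟩
    · exact fun t => ⟨YY m t, h2 t, rfl⟩
    · exact fun t u => ⟨ZZ m t u, h3 t u, rfl⟩
    · exact fun t u => ⟨ZM m t u, h4 t u, rfl⟩
  apply MulEquiv.ext
  intro g
  obtain ⟨x, hx, hxg⟩ := key g.2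
  have : x = g := Subtype.ext hxg
  rw [← this]
  exact hx

/-! ### standard automorphisms -/

theorem perm_one {θ : MulAut ↥(twistedF4 K (2 ^ m))} (h : (SP hK).Std θ) (j : Fin tabF4.nz) :
    (∀ g, θ g ∈ (RK hK).X j ↔ g ∈ (RK hK).X j) ∧ (∀ g, θ g ∈ (RK hK).Y j ↔ g ∈ (RK hK).Y j) := by
  obtain ⟨ρ, hρ⟩ := (RK hK).exists_perm h
  have h1 : ρ j1 = j1 := by
    by_contra hne
    have h2 : ρ j1 = j0 := (j_cases (ρ j1)).resolve_right hne
    have h3 := ((hρ j1).1 (ZZ m 1 0)).mpr ((mem_X1 hK _).mpr ⟨1, 0, rfl⟩)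
    rw [h2, mem_X0] at h3
    obtain ⟨t, ht⟩ := h3
    have h4 : θ (ZZ m 1 0 * ZZ m 1 0) = 1 := by
      rw [map_mul, ht, ← (isR1 hK).X_add]
      have : t + t = 0 := by linear_combination t * two hK
      rw [this, (isR1 hK).X_zero]
    rw [map_eq_one_iff θ θ.injective, ZZ_sq hK, ← ZZ_zero, one_pow] at h4
    exact one_ne_zero (ZZ_inj hK h4).2
  have h0 : ρ j0 = j0 := by
    rcases j_cases (ρ j0) with h2 | h2
    · exact h2
    · exfalso
      have := ρ.injective (h2.trans h1.symm)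
      exact absurd (congrArg Fin.val this) (by decide)
  rcases j_cases j with rfl | rfl
  · have := hρ j0
    rwa [h0] at this
  · have := hρ j1
    rwa [h1] at this

include hK in
theorem uniqXX : Uniq (XX m : K → ↥(twistedF4 K (2 ^ m))) (YY m) := by
  refine uniq_of_disj (isR1 hK) fun a b h => ?_
  apply XX_inj hK
  rw [(isR1 hK).X_zero]
  refine (SP hK).BV _ ((SP hK).U_le ((RK hK).X_le j0 ((mem_X0 hK _).mpr ⟨a, rfl⟩))) ?_
  rw [h]
  exact (RK hK).Y_le j0 ((mem_Y0 hK _).mpr ⟨b, rfl⟩)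

include hK in
theorem YY_inj : Function.Injective (YY m : K → ↥(twistedF4 K (2 ^ m))) := by
  intro a b h
  have e : ∀ t : K, YY m t = SL2Pres.nn (XX m) (YY m) (1 : K) * XX m (-t) * (SL2Pres.nn (XX m) (YY m) (1 : K))⁻¹ := by
    intro t
    rw [(isR1 hK).n_X, _root_.neg_neg]
  rw [e, e] at h
  exact neg_injective (XX_inj hK (mul_left_cancel (mul_right_cancel h)))

/-- the action on the first block -/
theorem exists_f {θ : MulAut ↥(twistedF4 K (2 ^ m))} (h : (SP hK).Std θ) (h1 : θ (XX m 1) = XX m 1) :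
    ∃ f : K ≃+* K, ∀ t, θ (XX m t) = XX m (f t) := by
  have kX : ∀ t : K, ∃ t', θ (XX m t) = XX m t' := fun t =>
    (mem_X0 hK _).mp (((perm_one hK h j0).1 _).mpr ((mem_X0 hK _).mpr ⟨t, rfl⟩))
  have kY : ∀ t : K, ∃ t', θ (YY m t) = YY m t' := fun t =>
    (mem_Y0 hK _).mp (((perm_one hK h j0).2 _).mpr ((mem_Y0 hK _).mpr ⟨t, rfl⟩))
  choose σ hσ using kX
  choose τ hτ using kY
  have h11 : σ 1 = 1 := XX_inj hK ((hσ 1).symm.trans h1)
  obtain ⟨f, hf⟩ := exists_ringEquiv (isR1 hK) (isR1 hK) (XX_inj hK) (YY_inj hK)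
    (θ := (θ : ↥(twistedF4 K (2 ^ m)) →* ↥(twistedF4 K (2 ^ m)))) hσ hτ (XX_inj hK) θ.injective (uniqXX hK) h11
  exact ⟨f, fun t => by rw [hσ, hf]⟩

/-- the automorphisms trivial on the first block -/
theorem exists_d {θ : MulAut ↥(twistedF4 K (2 ^ m))} (h : (SP hK).Std θ) (hX : ∀ t, θ (XX m t) = XX m t) :
    ∃ d : Kˣ, ∀ t u, ∃ v, θ (ZZ m t u) = ZZ m ((d : K) * t) v := by
  have hX' : ∀ g ∈ (RK hK).X j0, θ g = g := by
    intro g hg
    obtain ⟨t, rfl⟩ := (mem_X0 hK g).mp hg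
    exact hX t
  have hY : ∀ t, θ (YY m t) = YY m t := fun t =>
    (RK hK).fix_Y h hX' (perm_one hK h j0).2 ((mem_Y0 hK _).mpr ⟨t, rfl⟩)
  have hP' : ∀ s : Kˣ, θ (hP hK s) = hP hK s := by
    intro s
    rw [hP_eq]
    unfold hh SL2Pres.nn
    simp only [map_mul, hX, hY]
  have k1 : ∀ t u : K, ∃ p : K × K, θ (ZZ m t u) = ZZ m p.1 p.2 := by
    intro t u
    obtain ⟨a, b, e⟩ := (mem_X1 hK _).mp (((perm_one hK h j1).1 _).mpr ((mem_X1 hK _).mpr ⟨t, u, rfl⟩))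
    exact ⟨(a, b), e⟩
  choose p hp using k1
  have pz : ∀ u, (p 0 u).1 = 0 := by
    intro u
    have h1 : ZZ m (0 : K) u * ZZ m 0 u = 1 := by
      rw [ZZ_sq hK, zero_pow (Nat.succ_ne_zero _), ZZ_zero]
    have h2 := congrArg θ h1
    rw [map_mul, map_one, hp, ZZ_sq hK, ← ZZ_zero] at h2
    exact eq_zero_of_pow_eq_zero (ZZ_inj hK h2).2
  have ps : ∀ t u, (p t u).1 = (p t 0).1 := by
    intro t u
    have h1 : ZZ m t u = ZZ m t 0 * ZZ m 0 u := by
      rw [ZZ_mul hK]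
      congr 1 <;> ring
    have h2 := congrArg θ h1
    rw [map_mul, hp, hp, hp, ZZ_mul hK] at h2
    have h3 := (ZZ_inj hK h2).1
    rw [h3, pz, add_zero]
  have pt : ∀ (s : Kˣ) (t : K), (p ((s : K)⁻¹ * t) 0).1 = (s : K)⁻¹ * (p t 0).1 := by
    intro s t
    have h1 := congrArg θ (hP_ZZ hK s t 0)
    rw [map_mul, map_mul, map_inv, hP', hp, hp, hP_ZZ, mul_zero] at h1
    exact (ZZ_inj hK h1).1.symm
  have hd : (p 1 0).1 ≠ 0 := by
    intro h0
    have h2 := congrArg θ (ZZ_sq hK (1 : K) 0)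
    rw [map_mul, hp, h0, ZZ_sq hK, zero_pow (Nat.succ_ne_zero _), ZZ_zero, one_pow] at h2
    have h3 := (map_eq_one_iff θ θ.injective).mp h2.symm
    rw [← ZZ_zero] at h3
    exact one_ne_zero (ZZ_inj hK h3).2
  refine ⟨Units.mk0 _ hd, fun t u => ⟨(p t u).2, ?_⟩⟩
  rw [hp t u, ps t u]
  congr 1
  by_cases ht : t = 0
  · rw [ht, pz, mul_zero]
  · have h1 := pt (Units.mk0 t ht)⁻¹ 1
    rw [Units.val_inv_eq_inv_val, Units.val_mk0, inv_inv, mul_one] at h1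
    rw [h1, mul_comm]
    rfl

/-- the automorphisms trivial modulo the centre of the second block are trivial -/
theorem eq_one_of (hm : 1 ≤ m) {θ : MulAut ↥(twistedF4 K (2 ^ m))} (h : (SP hK).Std θ) (hX : ∀ t, θ (XX m t) = XX m t)
    (hZ : ∀ t u, ∃ v, θ (ZZ m t u) = ZZ m t v) : θ = 1 := by
  have hX' : ∀ g ∈ (RK hK).X j0, θ g = g := by
    intro g hg
    obtain ⟨t, rfl⟩ := (mem_X0 hK g).mp hg
    exact hX t
  have hY : ∀ t, θ (YY m t) = YY m t := fun t =>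
    (RK hK).fix_Y h hX' (perm_one hK h j0).2 ((mem_Y0 hK _).mpr ⟨t, rfl⟩)
  have hP' : ∀ s : Kˣ, θ (hP hK s) = hP hK s := by
    intro s
    rw [hP_eq]
    unfold hh SL2Pres.nn
    simp only [map_mul, hX, hY]
  have hZ0 : ∀ u, θ (ZZ m 0 u) = ZZ m 0 u := by
    intro u
    obtain ⟨t, rfl⟩ : ∃ t : K, t ^ (2 ^ m + 1) = u := by
      by_cases hu : u = 0
      · exact ⟨0, by rw [hu, zero_pow (Nat.succ_ne_zero _)]⟩
      refine ⟨((u ^ 2 ^ m) ^ 2)⁻¹ * u ^ 2, ?_⟩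
      have hT : ((u ^ 2 ^ m) ^ 2 ^ m) ^ 2 = u := by rw [← pow_mul, hT2 hK]
      have e1 : ((u ^ 2 ^ m) ^ 2) ^ 2 ^ m = u := by rw [pow_right_comm, hT]
      have e2 : (((u ^ 2 ^ m) ^ 2)⁻¹ * u ^ 2) ^ 2 ^ m = (u ^ 2 ^ m) ^ 2 * u⁻¹ := by
        rw [mul_pow, inv_pow, e1, pow_right_comm u 2]
        ring
      have hne := pow_ne_zero (2 ^ m) hu
      rw [pow_succ, e2]
      field_simp
    obtain ⟨v, hv⟩ := hZ t 0
    rw [← ZZ_sq hK t 0, map_mul, hv, ZZ_sq hK, ZZ_sq hK]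
  have k1 : ∀ t : K, ∃ v, θ (ZZ m t 0) = ZZ m t v := fun t => hZ t 0
  choose γ hγ using k1
  have key : ∀ t u, θ (ZZ m t u) = ZZ m t (γ t + u) := by
    intro t u
    have h1 : ZZ m t u = ZZ m t 0 * ZZ m 0 u := by
      rw [ZZ_mul hK]
      congr 1 <;> ring
    rw [h1, map_mul, hγ, hZ0, ZZ_mul hK]
    congr 1 <;> ring
  have g1 : ∀ t t', γ (t + t') = γ t + γ t' := by
    intro t t'
    have h1 := congrArg θ (ZZ_mul hK t 0 t' 0)
    rw [map_mul, hγ, hγ, key, ZZ_mul hK] at h1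
    have h2 := (ZZ_inj hK h1).2
    linear_combination -h2
  have g2 : ∀ (s : Kˣ), γ (s : K) = (s : K) ^ (2 ^ m + 1) * γ 1 := by
    intro s
    have h1 := congrArg θ (hP_ZZ hK s⁻¹ 1 0)
    rw [map_mul, map_mul, map_inv, hP', hγ, hP_ZZ, mul_zero, hγ, mul_one, Units.val_inv_eq_inv_val, inv_inv] at h1
    exact (ZZ_inj hK h1).2.symm
  have g0 : γ 1 = 0 := by
    obtain ⟨t, ht0, ht1, -, -⟩ := exists_gen hK hm
    have hex : ∃ t : K, t ^ 2 ^ m ≠ t := by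
      by_contra hcon
      push Not at hcon
      have h1 := hT2 hK t
      rw [hcon, pow_mul, hcon] at h1
      have h2 : t * (t - 1) = 0 := by linear_combination h1
      rcases mul_eq_zero.mp h2 with h3 | h3
      · exact ht0 h3
      · exact ht1 (sub_eq_zero.mp h3)
    obtain ⟨t, ht⟩ := hex
    have h0 : t ≠ 0 := by
      rintro rfl
      exact ht (zero_pow (by positivity))
    have h1 : t + 1 ≠ 0 := by
      intro h
      have h2 : t = 1 := by linear_combination h - two hK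
      rw [h2, one_pow] at ht
      exact ht rfl
    have h2 := g1 t 1
    have h3 := g2 (Units.mk0 _ h1)
    have h4 := g2 (Units.mk0 _ h0)
    rw [Units.val_mk0] at h3 h4
    rw [h3, h4, pow_succ, pow_succ, add_e hK, one_pow] at h2
    have h5 : (t ^ 2 ^ m - t) * γ 1 = 0 := by linear_combination h2 - t * γ 1 * two hK
    rcases mul_eq_zero.mp h5 with h6 | h6
    · exact absurd (sub_eq_zero.mp h6) ht
    · exact h6
  have gz : ∀ t, γ t = 0 := by
    intro t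
    by_cases ht : t = 0
    · rw [ht]
      have := g1 0 0
      rw [add_zero] at this
      linear_combination -this
    · have := g2 (Units.mk0 t ht)
      rw [Units.val_mk0] at this
      rw [this, g0, mul_zero]
  have hZZ : ∀ t u, θ (ZZ m t u) = ZZ m t u := fun t u => by rw [key, gz, zero_add]
  have hZ' : ∀ g ∈ (RK hK).X j1, θ g = g := by
    intro g hg
    obtain ⟨t, u, rfl⟩ := (mem_X1 hK g).mp hg
    exact hZZ t u
  have hZM : ∀ t u, θ (ZM m t u) = ZM m t u := fun t u =>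
    (RK hK).fix_Y h hZ' (perm_one hK h j1).2 (BM_Y hK t u).1
  exact aut_ext hX hY hZZ hZM

/-- the standard automorphisms -/
theorem exists_std (hm : 1 ≤ m) {θ : MulAut ↥(twistedF4 K (2 ^ m))} (h : (SP hK).Std θ) :
    ∃ x ∈ (SP hK).H, ∃ f : K ≃+* K, θ = MulAut.conj x * fΓ hK f := by
  -- normalization on `X_0(1)`
  obtain ⟨c, hc⟩ : ∃ c, θ (XX m 1) = XX m c :=
    (mem_X0 hK _).mp (((perm_one hK h j0).1 _).mpr ((mem_X0 hK _).mpr ⟨1, rfl⟩))
  have hc0 : c ≠ 0 := by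
    rintro rfl
    rw [(isR1 hK).X_zero, map_eq_one_iff θ θ.injective, ← (isR1 hK).X_zero] at hc
    exact one_ne_zero (XX_inj hK hc)
  set s1 : Kˣ := Units.mk0 c hc0 with hs1
  have hθ1 : (SP hK).Std (MulAut.conj (hB hK s1) * θ) := ((SP hK).std_of_mem_H (hB_H hK s1)).mul h
  obtain ⟨f, hf⟩ := exists_f hK hθ1 (by
    rw [MulAut.mul_apply, hc, MulAut.conj_apply, hB_XX, hs1, Units.val_mk0, inv_mul_cancel₀ hc0])
  have hθ2 : (SP hK).Std ((fΓ hK f)⁻¹ * (MulAut.conj (hB hK s1) * θ)) := (fΓ_std hK f).inv.mul hθ1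
  set θ2 := (fΓ hK f)⁻¹ * (MulAut.conj (hB hK s1) * θ) with hθ2'
  have h2 : ∀ t, θ2 (XX m t) = XX m t := by
    intro t
    rw [hθ2', MulAut.mul_apply, hf, ← fΓ_XX hK f t, MulAut.inv_apply_self]
  obtain ⟨d, hd⟩ := exists_d hK hθ2 h2
  -- normalization on the second block
  have hd0 := d.ne_zero
  set x := (d : K) ^ 2 ^ m with hx
  have hx0 : x ≠ 0 := pow_ne_zero _ hd0
  have hy : (x ^ 2 ^ m) ^ 2 = d := by rw [← pow_mul, hx, hT2 hK]
  set s2 : Kˣ := Units.mk0 ((x ^ 4 * (d : K) ^ 3)⁻¹) (inv_ne_zero (mul_ne_zero (pow_ne_zero _ hx0) (pow_ne_zero _ hd0))) with hs2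
  have hs2v : (s2 : K) = (x ^ 4 * (d : K) ^ 3)⁻¹ := rfl
  have hs2e : (s2 : K) ^ 2 ^ m = ((d : K) ^ 2 * x ^ 3)⁻¹ := by
    rw [hs2v, inv_pow, mul_pow, pow_right_comm x 4, pow_right_comm (d : K) 3, ← hx]
    congr 2
    rw [← hy]; ring
  have hθ3 : (SP hK).Std (MulAut.conj (hP hK s2 * hB hK (s2 ^ 2)) * θ2) :=
    ((SP hK).std_of_mem_H (mul_mem (hP_H hK s2) (hB_H hK _))).mul hθ2
  have h3 : MulAut.conj (hP hK s2 * hB hK (s2 ^ 2)) * θ2 = 1 := by
    refine eq_one_of hK hm hθ3 (fun t => ?_) (fun t u => ?_)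
    · rw [MulAut.mul_apply, h2, map_mul, MulAut.mul_apply, MulAut.conj_apply, MulAut.conj_apply, hB_XX, hP_XX,
        Units.val_pow_eq_pow_val]
      congr 1
      have := s2.ne_zero
      field_simp
    · obtain ⟨v, hv⟩ := hd t u
      rw [MulAut.mul_apply, hv, map_mul, MulAut.mul_apply, MulAut.conj_apply, MulAut.conj_apply, hB_ZZ, hP_ZZ,
        Units.val_pow_eq_pow_val]
      refine ⟨(s2 : K)⁻¹ ^ (2 ^ m + 1) * ((s2 : K) ^ 2 * v), congrArg (fun y => ZZ m y _) ?_⟩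
      rw [pow_right_comm (s2 : K) 2, hs2e, hs2v]
      field_simp
  refine ⟨(hB hK s1)⁻¹ * fΓ hK f ((hP hK s2 * hB hK (s2 ^ 2))⁻¹), ?_, f, ?_⟩
  · refine mul_mem (inv_mem (hB_H hK s1)) (((fΓ_std hK f).H _).mpr (inv_mem (mul_mem (hP_H hK s2) (hB_H hK _))))
  · have h4 : θ2 = MulAut.conj (hP hK s2 * hB hK (s2 ^ 2))⁻¹ := by
      rw [map_inv, eq_inv_iff_mul_eq_one]
      rw [mul_eq_one_iff_inv_eq] at h3
      rw [← h3, inv_mul_cancel]
    have h5 : θ = (MulAut.conj (hB hK s1))⁻¹ * (fΓ hK f * θ2) := by rw [hθ2']; group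
    rw [h5, h4, map_mul, ← map_inv, mul_assoc]
    congr 1
    apply MulEquiv.ext
    intro g
    rw [MulAut.mul_apply, MulAut.mul_apply, MulAut.conj_apply, MulAut.conj_apply, map_mul, map_mul, ← map_inv (fΓ hK f)]

theorem conj_inj (hm : 1 ≤ m) {x x' : ↥(twistedF4 K (2 ^ m))} (hx : x ∈ (SP hK).H) (hx' : x' ∈ (SP hK).H)
    {f f' : K ≃+* K} (h : MulAut.conj x * fΓ hK f = MulAut.conj x' * fΓ hK f') : x = x' ∧ f = f' := by
  have key : ∀ x ∈ (SP hK).H, ∃ c : Kˣ, ∀ t : K, x * XX m t * x⁻¹ = XX m ((c : K) * t) := by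
    intro x hx
    obtain ⟨s, t, hs, ht, e⟩ := exists_tPB hK (g := (x : GL chevF4.Idx K)) ⟨hx, le_fix hK x.2⟩
    have e' : x = hP hK (Units.mk0 s hs) * hB hK (Units.mk0 t ht) := Subtype.ext e
    refine ⟨(Units.mk0 s hs) ^ 2 * (Units.mk0 t ht)⁻¹, fun u => ?_⟩
    rw [e']
    have e2 : hP hK (Units.mk0 s hs) * hB hK (Units.mk0 t ht) * XX m u * (hP hK (Units.mk0 s hs) * hB hK (Units.mk0 t ht))⁻¹ =
      hP hK (Units.mk0 s hs) * (hB hK (Units.mk0 t ht) * XX m u * (hB hK (Units.mk0 t ht))⁻¹) * (hP hK (Units.mk0 s hs))⁻¹ := by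
      group
    rw [e2, hB_XX, hP_XX]
    congr 1
    rw [Units.val_mul, Units.val_pow_eq_pow_val, Units.val_inv_eq_inv_val, mul_assoc]
  obtain ⟨c, hc⟩ := key x hx
  obtain ⟨c', hc'⟩ := key x' hx'
  have h1 : ∀ t : K, (c : K) * f t = (c' : K) * f' t := by
    intro t
    apply XX_inj hK
    have h2 : (MulAut.conj x * fΓ hK f) (XX m t) = (MulAut.conj x' * fΓ hK f') (XX m t) := by rw [h]
    rw [MulAut.mul_apply, MulAut.mul_apply, fΓ_XX, fΓ_XX, MulAut.conj_apply, MulAut.conj_apply, hc, hc'] at h2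
    exact h2
  have h2 : c = c' := by
    have := h1 1
    rw [map_one, map_one, mul_one, mul_one] at this
    exact Units.ext this
  subst h2
  have h3 : f = f' := by
    apply RingEquiv.ext
    intro t
    exact mul_left_cancel₀ c.ne_zero (h1 t)
  subst h3
  refine ⟨?_, rfl⟩
  have h4 := mul_right_cancel h
  have h5 : x⁻¹ * x' = 1 := by
    refine (SP hK).cen _ (mul_mem (inv_mem hx) hx') fun u _ => ?_
    have h6 : MulAut.conj x u = MulAut.conj x' u := by rw [h4]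
    rw [MulAut.conj_apply, MulAut.conj_apply] at h6
    calc x⁻¹ * x' * u * (x⁻¹ * x')⁻¹ = x⁻¹ * (x' * u * x'⁻¹) * x := by group
      _ = u := by rw [← h6]; group
  exact inv_mul_eq_one.mp h5

theorem card_S0 (hm : 1 ≤ m) : Nat.card (SP hK).S0 = Nat.card (SP hK).H * Nat.card (K ≃+* K) := by
  rw [← Nat.card_prod]
  symm
  apply Nat.card_eq_of_bijective (fun x : ↥(SP hK).H × (K ≃+* K) =>
    (⟨MulAut.conj (x.1 : ↥(twistedF4 K (2 ^ m))) * fΓ hK x.2,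
      ((SP hK).std_of_mem_H x.1.2).mul (fΓ_std hK x.2)⟩ : (SP hK).S0))
  constructor
  · intro x y hxy
    obtain ⟨h1, h2⟩ := conj_inj hK hm x.1.2 y.1.2 (congrArg Subtype.val hxy)
    exact Prod.ext (Subtype.ext h1) h2
  · rintro ⟨θ, hθ⟩
    obtain ⟨x, hx, f, h⟩ := exists_std hK hm hθ
    exact ⟨(⟨x, hx⟩, f), Subtype.ext h.symm⟩

include hK in
/-- the order of the outer automorphism group -/
theorem card_out (hm : 1 ≤ m) : Nat.card (Cfsg.Out ↥(twistedF4 K (2 ^ m))) = 2 * m + 1 := by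
  have : Fact (Nat.Prime 2) := ⟨Nat.prime_two⟩
  have hcH : Nat.card (SP hK).H = (2 ^ (2 * m + 1) - 1) ^ 2 := by
    rw [← card_H hK]
    have h1 : (SP hK).H = (chevF4.diagonalSubgroup K ⊓ twistedF4 K (2 ^ m)).subgroupOf (twistedF4 K (2 ^ m)) := by
      rw [Subgroup.inf_subgroupOf_right]; rfl
    rw [h1]
    exact Nat.card_congr (Subgroup.subgroupOfEquivOfLe inf_le_right).toEquiv
  have hU : IsPGroup 2 (SP hK).U := by
    have hUG : IsPGroup 2 (chevF4.posUnipotent K) := by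
      apply IsPGroup.of_card (n := (2 * m + 1) * (chevF4.nroots / 2))
      rw [ChevU.card_posUnipotent G, hK, pow_mul]
    have h1 : IsPGroup 2 ↥((chevF4.posUnipotent K).comap (twistedF4 K (2 ^ m)).subtype) :=
      hUG.comap_of_injective (twistedF4 K (2 ^ m)).subtype Subtype.val_injective
    exact h1
  have hH : ¬ 2 ∣ Nat.card (SP hK).H := by
    rw [hcH]
    intro h
    have h1 := Nat.Prime.dvd_of_dvd_pow Nat.prime_two h
    have h2 : 2 ∣ 2 ^ (2 * m + 1) := dvd_pow_self 2 (Nat.succ_ne_zero _)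
    have h3 : 1 ≤ 2 ^ (2 * m + 1) := Nat.one_le_two_pow
    omega
  have h := (SP hK).card_out hU hH
  rw [card_S0 hK hm, FFAut.card_aut hK, mul_comm] at h
  exact Nat.eq_of_mul_eq_mul_left Nat.card_pos h

end

end Cfsg.Agent.Lib.TwOutF
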