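import Cfsg.Agent.Lib.TwRee3a
set_option autoImplicit false
set_option linter.unusedSectionVars false
set_option linter.unusedVariables false
set_option linter.unusedSimpArgs false

/-!
The group 2G2(3): the derived subgroup has index 3 and is simple.
-/

namespace Cfsg.Agent.Lib.TwRee3
open Cfsg.Lie Cfsg.Agent.Lib.ChevX Cfsg.Agent.Lib.ChevGood Cfsg.Agent.Lib.ChevRel Cfsg.Agent.Lib.ChevNPerm
  Cfsg.Agent.Lib.ChevClosed Cfsg.Agent.Lib.ChevBruhat Cfsg.Agent.Lib.TwFix Cfsg.Agent.Lib.TwFix.TwRk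
  Cfsg.Agent.Lib.TwTab Cfsg.Agent.Lib.TwField Cfsg.Agent.Lib.TwSpec Cfsg.Agent.Lib.TwModp Cfsg.Agent.Lib.TwG2
open scoped MatrixGroups Matrix commutatorElement

abbrev A := Multiplicative F3

theorem mul_a (t u v : F3) : UU' t u v * UU' 1 0 0 = UU' (t + 1) (u - t) (v - u + t - t ^ 2) := by
  have h := UU_mul' chkTab1 t u v
  push_cast at h
  rw [h]
  congr 1 <;> ring

theorem mul_b (t u v : F3) : UU' t u v * UU' 0 1 0 = UU' t (u + 1) v := by
  have h := UU_mul' chkTab2 t u v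
  push_cast at h
  rw [h]
  congr 1 <;> ring

theorem mul_c (t u v : F3) : UU' t u v * UU' 0 0 1 = UU' t u (v + 1) := by
  have h := UU_mul' chkTab3 t u v
  push_cast at h
  rw [h]
  congr 1 <;> ring

theorem memU (t u v : F3) : UU' t u v ∈ U := ⟨UU_memU _ _ _ _, mem_UU _ _ _ _⟩

theorem UU_z : UU' 0 0 0 = 1 := UU_zero (K := F3) (m := 0) hF

theorem tri : ∀ t : F3, t = 0 ∨ t = 1 ∨ t = 2 := by decide
theorem chi_a : ∀ t u : F3, u - t - (t + 1) ^ 2 = u - t ^ 2 + -1 := by decide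
theorem pm : ∀ s : F3, s ≠ 0 → s = 1 ∨ s = -1 := by decide

/-- the three generators generate `U` (as a monoid) -/
theorem U_ind (P : GL chevG2.Idx F3 → Prop) (h1 : P 1)
    (ha : ∀ y ∈ U, P y → P (y * UU' 1 0 0)) (hb : ∀ y ∈ U, P y → P (y * UU' 0 1 0))
    (hc : ∀ y ∈ U, P y → P (y * UU' 0 0 1)) {y : GL chevG2.Idx F3} (hy : y ∈ U) : P y := by
  obtain ⟨t, u, v, rfl⟩ := (mem_U_iff (K := F3) (m := 0) hF).mp hy
  change P (UU' t u v)
  have e0 : P (UU' 0 0 0) := by rw [UU_z]; exact h1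
  have e1 : P (UU' t 0 0) ∨ ∃ u v, P (UU' t u v) := by
    right
    have h01 : ∃ u v, P (UU' 1 u v) := by
      have := ha _ (memU 0 0 0) e0
      rw [mul_a] at this
      exact ⟨_, _, by simpa using this⟩
    have h02 : ∃ u v, P (UU' 2 u v) := by
      obtain ⟨u, v, h⟩ := h01
      have := ha _ (memU 1 u v) h
      rw [mul_a] at this
      exact ⟨_, _, this⟩
    have : t = 0 ∨ t = 1 ∨ t = 2 := tri t
    rcases this with rfl | rfl | rfl
    · exact ⟨_, _, e0⟩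
    · exact h01
    · exact h02
  have e2 : ∃ u v, P (UU' t u v) := by
    rcases e1 with h | h
    · exact ⟨_, _, h⟩
    · exact h
  obtain ⟨u0, v0, h0⟩ := e2
  have e3 : ∀ n : ℕ, P (UU' t (u0 + n) v0) := by
    intro n
    induction n with
    | zero => simpa using h0
    | succ n ih =>
      have := hb _ (memU _ _ _) ih
      rw [mul_b] at this
      rw [Nat.cast_succ, ← add_assoc]
      exact this
  have e4 : P (UU' t u v0) := by
    have := e3 (u - u0).val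
    rw [ZMod.natCast_zmod_val] at this
    rwa [add_sub_cancel] at this
  have e5 : ∀ n : ℕ, P (UU' t u (v0 + n)) := by
    intro n
    induction n with
    | zero => simpa using e4
    | succ n ih =>
      have := hc _ (memU _ _ _) ih
      rw [mul_c] at this
      rw [Nat.cast_succ, ← add_assoc]
      exact this
  have := e5 (v - v0).val
  rw [ZMod.natCast_zmod_val] at this
  rwa [add_sub_cancel] at this

/-- the character on coordinates -/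
noncomputable def χf (x : U) : A :=
  Multiplicative.ofAdd (((Equiv.ofBijective _ (UF_bij (K := F3) (m := 0) hF)).symm x).2.1 -
    ((Equiv.ofBijective _ (UF_bij (K := F3) (m := 0) hF)).symm x).1 ^ 2)

theorem χf_UU {t u v : F3} (h : UU' t u v ∈ U) : χf ⟨UU' t u v, h⟩ = Multiplicative.ofAdd (u - t ^ 2) := by
  have h1 : (⟨UU' t u v, h⟩ : U) = Equiv.ofBijective _ (UF_bij (K := F3) (m := 0) hF) (t, u, v) := rfl
  unfold χf
  rw [h1, Equiv.symm_apply_apply]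

theorem χf_mul (x y : U) : χf (x * y) = χf x * χf y := by
  obtain ⟨y, hy⟩ := y
  refine U_ind (fun y => ∀ (hy : y ∈ U) (x : U), χf (x * ⟨y, hy⟩) = χf x * χf ⟨y, hy⟩) ?_ ?_ ?_ ?_ hy hy x
  · intro h x
    have e1 : (⟨1, h⟩ : U) = 1 := rfl
    have e2 : (⟨1, h⟩ : U) = ⟨UU' 0 0 0, memU 0 0 0⟩ := Subtype.ext UU_z.symm
    have e3 : χf ⟨1, h⟩ = 1 := by rw [e2, χf_UU]; rfl
    rw [e3, e1, mul_one, mul_one]
  all_goals
    intro y hy ih h x
    obtain ⟨t, u, v, rfl⟩ := (mem_U_iff (K := F3) (m := 0) hF).mp hy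
  · have key : ∀ (z : U), χf (z * ⟨UU' 1 0 0, memU 1 0 0⟩) = χf z * Multiplicative.ofAdd (-1) := by
      rintro ⟨z, hz⟩
      obtain ⟨t, u, v, rfl⟩ := (mem_U_iff (K := F3) (m := 0) hF).mp hz
      have : (⟨UU' t u v, hz⟩ : U) * ⟨UU' 1 0 0, memU 1 0 0⟩ = ⟨_, memU (t + 1) (u - t) (v - u + t - t ^ 2)⟩ :=
        Subtype.ext (mul_a t u v)
      change χf ((⟨UU' t u v, hz⟩ : U) * ⟨UU' 1 0 0, memU 1 0 0⟩) = χf ⟨UU' t u v, hz⟩ * _
      rw [this, χf_UU, χf_UU, ← ofAdd_add]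
      exact congrArg _ (chi_a t u)
    have e1 : (⟨UU (3 ^ 0) t u v * UU' 1 0 0, h⟩ : U) = ⟨_, hy⟩ * ⟨UU' 1 0 0, memU 1 0 0⟩ := rfl
    rw [e1, ← mul_assoc, key, key, ih hy, mul_assoc]
  · have key : ∀ (z : U), χf (z * ⟨UU' 0 1 0, memU 0 1 0⟩) = χf z * Multiplicative.ofAdd (1) := by
      rintro ⟨z, hz⟩
      obtain ⟨t, u, v, rfl⟩ := (mem_U_iff (K := F3) (m := 0) hF).mp hz
      have : (⟨UU' t u v, hz⟩ : U) * ⟨UU' 0 1 0, memU 0 1 0⟩ = ⟨_, memU t (u + 1) v⟩ :=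
        Subtype.ext (mul_b t u v)
      change χf ((⟨UU' t u v, hz⟩ : U) * ⟨UU' 0 1 0, memU 0 1 0⟩) = χf ⟨UU' t u v, hz⟩ * _
      rw [this, χf_UU, χf_UU, ← ofAdd_add]
      congr 1
      ring
    have e1 : (⟨UU (3 ^ 0) t u v * UU' 0 1 0, h⟩ : U) = ⟨_, hy⟩ * ⟨UU' 0 1 0, memU 0 1 0⟩ := rfl
    rw [e1, ← mul_assoc, key, key, ih hy, mul_assoc]
  · have key : ∀ (z : U), χf (z * ⟨UU' 0 0 1, memU 0 0 1⟩) = χf z := by
      rintro ⟨z, hz⟩
      obtain ⟨t, u, v, rfl⟩ := (mem_U_iff (K := F3) (m := 0) hF).mp hz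
      have : (⟨UU' t u v, hz⟩ : U) * ⟨UU' 0 0 1, memU 0 0 1⟩ = ⟨_, memU t u (v + 1)⟩ :=
        Subtype.ext (mul_c t u v)
      change χf ((⟨UU' t u v, hz⟩ : U) * ⟨UU' 0 0 1, memU 0 0 1⟩) = χf ⟨UU' t u v, hz⟩
      rw [this, χf_UU, χf_UU]
    have e1 : (⟨UU (3 ^ 0) t u v * UU' 0 0 1, h⟩ : U) = ⟨_, hy⟩ * ⟨UU' 0 0 1, memU 0 0 1⟩ := rfl
    rw [e1, ← mul_assoc, key, key, ih hy]

noncomputable def χ : U →* A where
  toFun := χf
  map_one' := by
    have e2 : (1 : U) = ⟨UU' 0 0 0, memU 0 0 0⟩ := Subtype.ext UU_z.symm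
    rw [e2, χf_UU]; rfl
  map_mul' := χf_mul

theorem χ_UU {t u v : F3} (h : UU' t u v ∈ U) : χ ⟨UU' t u v, h⟩ = Multiplicative.ofAdd (u - t ^ 2) := χf_UU h

/-! ### fusion -/

theorem conj_th {s : F3} (hs : s ≠ 0) {x : GL chevG2.Idx F3} (hx : x ∈ U) :
    ∃ h : th (3 ^ 0) s * x * (th (3 ^ 0) s)⁻¹ ∈ U, χ ⟨_, h⟩ = χ ⟨x, hx⟩ := by
  obtain ⟨t, u, v, rfl⟩ := (mem_U_iff (K := F3) (m := 0) hF).mp hx
  rcases pm s hs with rfl | rfl
  · have e : th (3 ^ 0) (1 : F3) = 1 := th_one (K := F3) (m := 0) hF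
    have e2 : th (3 ^ 0) (1 : F3) * UU (3 ^ 0) t u v * (th (3 ^ 0) (1 : F3))⁻¹ = UU (3 ^ 0) t u v := by
      rw [e]; group
    have e3 : th (3 ^ 0) (1 : F3) * UU (3 ^ 0) t u v * (th (3 ^ 0) (1 : F3))⁻¹ ∈ U := by rw [e2]; exact hx
    exact ⟨e3, congrArg χ (Subtype.ext e2)⟩
  · have e2 := a_UU (K := F3) (m := 0) hF t u v
    have e3 : th (3 ^ 0) (-1 : F3) * UU (3 ^ 0) t u v * (th (3 ^ 0) (-1 : F3))⁻¹ ∈ U := by rw [e2]; exact memU _ _ _
    refine ⟨e3, ?_⟩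
    have e4 : (⟨_, e3⟩ : U) = (⟨UU' (-t) u (-v), memU (-t) u (-v)⟩ : U) := Subtype.ext e2
    rw [e4, χ_UU]
    change _ = χ ⟨UU' t u v, hx⟩
    rw [χ_UU, neg_sq]

theorem nJ_conj {x : GL chevG2.Idx F3} (hx : x ∈ chevG2.posUnipotent F3)
    (h : nJ F3 * x * (nJ F3)⁻¹ ∈ chevG2.posUnipotent F3) : x = 1 := by
  have h1 : nJ F3 * x * (nJ F3)⁻¹ ∈ chevG2.negUnipotent F3 := by
    rw [← XS_posS G] at hx
    rw [← XS_negS G]
    refine XS_mono ?_ (mono_conj_XS G mono_nJ hx)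
    rintro _ ⟨s, hs, rfl⟩
    rw [wJ_neg]
    exact fun h' => (pos_negF G).mp h' hs
  have h2 := inf_UV (TwG2.T (K := F3) (m := 0) hF) h h1
  have : x = (nJ F3)⁻¹ * (nJ F3 * x * (nJ F3)⁻¹) * nJ F3 := by group
  rw [this, h2]; group

theorem χ_fus {x : GL chevG2.Idx F3} (hx : x ∈ U) {γ : GL chevG2.Idx F3} (hγ : γ ∈ Γ) (h : γ * x * γ⁻¹ ∈ U) :
    χ ⟨γ * x * γ⁻¹, h⟩ = χ ⟨x, hx⟩ := by
  have hc : ∀ (p q : U), χ (p * q * p⁻¹) = χ q := by
    intro p q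
    rw [map_mul, map_mul, map_inv, mul_comm (χ p), mul_inv_cancel_right]
  rcases normal_form (K := F3) (m := 0) hF hγ with ⟨t, u, v, s, hs, rfl⟩ | ⟨t, u, v, s, t', u', v', hs, rfl⟩
  · obtain ⟨h1, h2⟩ := conj_th hs hx
    have e1 : (⟨UU (3 ^ 0) t u v * th (3 ^ 0) s * x * (UU (3 ^ 0) t u v * th (3 ^ 0) s)⁻¹, h⟩ : U) =
        ⟨UU' t u v, memU t u v⟩ * ⟨_, h1⟩ * ⟨UU' t u v, memU t u v⟩⁻¹ := by
      apply Subtype.ext
      show _ = UU' t u v * (th (3 ^ 0) s * x * (th (3 ^ 0) s)⁻¹) * (UU' t u v)⁻¹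
      group
    rw [e1, hc, h2]
  · have hx' : UU' t' u' v' * x * (UU' t' u' v')⁻¹ ∈ U := mul_mem (mul_mem (memU _ _ _) hx) (inv_mem (memU _ _ _))
    obtain ⟨h1, h2⟩ := conj_th hs hx'
    have h3 : nJ F3 * (th (3 ^ 0) s * (UU' t' u' v' * x * (UU' t' u' v')⁻¹) * (th (3 ^ 0) s)⁻¹) * (nJ F3)⁻¹ ∈ U := by
      have : nJ F3 * (th (3 ^ 0) s * (UU' t' u' v' * x * (UU' t' u' v')⁻¹) * (th (3 ^ 0) s)⁻¹) * (nJ F3)⁻¹ =
          (UU' t u v)⁻¹ * (UU' t u v * (nJ F3 * th (3 ^ 0) s) * UU' t' u' v' * x *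
            (UU' t u v * (nJ F3 * th (3 ^ 0) s) * UU' t' u' v')⁻¹) * UU' t u v := by group
      rw [this]
      exact mul_mem (mul_mem (inv_mem (memU _ _ _)) h) (memU _ _ _)
    have h4 := nJ_conj h1.1 h3.1
    have h5 : x = 1 := by
      have : x = (UU' t' u' v')⁻¹ * (th (3 ^ 0) s)⁻¹ * (th (3 ^ 0) s * (UU' t' u' v' * x * (UU' t' u' v')⁻¹) *
        (th (3 ^ 0) s)⁻¹) * th (3 ^ 0) s * UU' t' u' v' := by group
      rw [this, h4]; group
    subst h5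
    exact congrArg χ (Subtype.ext (by group))

/-! ### the index -/

theorem card_eq : Nat.card ↥Γ = 1512 := by rw [card_Γ (K := F3) (m := 0) hF]; norm_num
theorem card_U' : Nat.card ↥U = 27 := by rw [card_U (K := F3) (m := 0) hF]; norm_num

/-- `U` in `Γ` -/
noncomputable abbrev P : Subgroup ↥Γ := U.subgroupOf Γ

noncomputable def PE : ↥P ≃* ↥U := Subgroup.subgroupOfEquivOfLe inf_le_right

theorem card_P : Nat.card ↥P = 3 ^ 3 := by
  rw [Nat.card_congr PE.toEquiv, card_U']; norm_num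

theorem index_P : ¬ 3 ∣ P.index := by
  have h := Subgroup.card_mul_index P
  rw [card_P, card_eq] at h
  have : P.index = 56 := by omega
  rw [this]; norm_num

theorem P_three : IsPGroup 3 P := IsPGroup.of_card card_P

theorem χ_comm : ∀ x (hx : x ∈ P), x ∈ commutator ↥Γ → χ (PE ⟨x, hx⟩) = 1 := by
  refine char_comm 3 P P_three index_P (χ.comp PE.toMonoidHom) ?_
  intro x hx γ hγ
  have h1 : (x : GL chevG2.Idx F3) ∈ U := hx
  have h2 : (γ : GL chevG2.Idx F3) * x * (γ : GL chevG2.Idx F3)⁻¹ ∈ U := hγ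
  exact χ_fus h1 γ.2 h2

/-- the element outside the derived group -/
noncomputable def b : ↥Γ := ⟨UU' 0 1 0, (memU 0 1 0).2⟩

theorem b_not : b ∉ commutator ↥Γ := by
  intro h
  have h1 : b ∈ P := memU 0 1 0
  have h2 := χ_comm b h1 h
  have h3 : PE ⟨b, h1⟩ = ⟨UU' 0 1 0, memU 0 1 0⟩ := rfl
  rw [h3, χ_UU] at h2
  exact absurd h2 (by decide)

/-! ### upper bound -/

theorem comm_mem {x y : GL chevG2.Idx F3} (hx : x ∈ Γ) (hy : y ∈ Γ) : x * y * x⁻¹ * y⁻¹ ∈ ⁅Γ, Γ⁆ :=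
  Subgroup.commutator_mem_commutator hx hy

theorem mulU (t u v t' u' v' : F3) : ∃ x, UU' t u v * UU' t' u' v' = x := ⟨_, rfl⟩

/-- `(1,0,0)` and the powers of `b` -/
theorem c_comm : UU' 0 0 1 ∈ ⁅Γ, Γ⁆ := by
  -- conjugation by `h(-1)` inverts `(0,0,1)`
  have h := comm_mem (th_mem (K := F3) (m := 0) hF (t := -1) (by decide)) (memU 0 0 1).2
  have e2 := a_UU (K := F3) (m := 0) hF 0 0 1
  change th (3 ^ 0) (-1 : F3) * UU' 0 0 1 * (th (3 ^ 0) (-1 : F3))⁻¹ = UU' (-0) 0 (-1) at e2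
  rw [e2, neg_zero] at h
  have e3 : UU' 0 0 1 * UU' 0 0 1 = UU' 0 0 (-1) := by rw [mul_c]; rfl
  rw [← e3, mul_inv_cancel_right] at h
  exact h

theorem b_cube : UU' 0 1 0 * UU' 0 1 0 * UU' 0 1 0 = 1 := by
  rw [mul_b, mul_b, ← UU_z]; rfl

/-- the subgroup generated by `b` and the derived subgroup -/
noncomputable def M : Subgroup (GL chevG2.Idx F3) := Subgroup.zpowers (UU' 0 1 0) ⊔ ⁅Γ, Γ⁆

theorem comm_le' : ⁅Γ, Γ⁆ ≤ Γ := by
  rw [Subgroup.commutator_le]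
  intro x hx y hy
  exact Γ.mul_mem (Γ.mul_mem (Γ.mul_mem hx hy) (Γ.inv_mem hx)) (Γ.inv_mem hy)

theorem M_le : M ≤ Γ := sup_le (by rw [Subgroup.zpowers_le]; exact (memU 0 1 0).2) comm_le'

theorem M_conj : ∀ γ ∈ Γ, ∀ d ∈ M, γ * d * γ⁻¹ ∈ M := by
  intro γ hγ d hd
  have h1 : γ * d * γ⁻¹ = (γ * d * γ⁻¹ * d⁻¹) * d := by group
  rw [h1]
  exact mul_mem ((le_sup_right : ⁅Γ, Γ⁆ ≤ M) (comm_mem hγ (M_le hd))) hd

theorem b_M : UU' 0 1 0 ∈ M := (le_sup_left : Subgroup.zpowers _ ≤ M) (Subgroup.mem_zpowers _)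

theorem a_M : UU' 1 0 0 ∈ M := by
  -- `h(-1)` maps `a = (1,0,0)` to `(-1,0,0)`, and `a * a = (-1,-1,0)`
  have h := comm_mem (th_mem (K := F3) (m := 0) hF (t := -1) (by decide)) (memU 1 0 0).2
  have e2 := a_UU (K := F3) (m := 0) hF 1 0 0
  change th (3 ^ 0) (-1 : F3) * UU' 1 0 0 * (th (3 ^ 0) (-1 : F3))⁻¹ = UU' (-1) 0 (-0) at e2
  rw [e2, neg_zero] at h
  have e3 : UU' 1 0 0 * UU' 1 0 0 = UU' (-1) (-1) 0 := by rw [mul_a]; rfl
  have e4 : UU' (-1) (-1) 0 * UU' 0 1 0 = UU' (-1) 0 0 := by rw [mul_b]; rfl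
  rw [← e4, ← e3] at h
  -- `a a b a⁻¹ ∈ Γ'`
  have h1 : UU' 1 0 0 * (UU' 1 0 0 * UU' 0 1 0 * (UU' 1 0 0)⁻¹) ∈ M := by
    have : UU' 1 0 0 * (UU' 1 0 0 * UU' 0 1 0 * (UU' 1 0 0)⁻¹) =
      UU' 1 0 0 * UU' 1 0 0 * UU' 0 1 0 * (UU' 1 0 0)⁻¹ := by group
    rw [this]
    exact (le_sup_right : ⁅Γ, Γ⁆ ≤ M) h
  have h2 := M_conj _ (memU 1 0 0).2 _ b_M
  have := mul_mem h1 (inv_mem h2)
  rwa [mul_inv_cancel_right] at this

theorem U_M : ∀ y ∈ U, y ∈ M := by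
  intro y hy
  refine U_ind (fun y => y ∈ M) (one_mem _) ?_ ?_ ?_ hy
  · exact fun y _ h => mul_mem h a_M
  · exact fun y _ h => mul_mem h b_M
  · exact fun y _ h => mul_mem h ((le_sup_right : ⁅Γ, Γ⁆ ≤ M) c_comm)

theorem Γ_le_M : Γ ≤ M := by
  refine (all (K := F3) (m := 0) hF).le_of_lift M_le M_conj (fun r hr t ht => ?_)
    (longest (sig (K := F3) (m := 0) hF) chk1G2 chk2G2 chk3G2 listed (le_fix (K := F3) (m := 0) hF) (nJ_mem' (K := F3) (m := 0) hF) chkL) (hgen _)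
  obtain ⟨y, hy, hco⟩ := (all (K := F3) (m := 0) hF).lift r hr t ht
  refine ⟨y, U_M y ⟨?_, hy⟩, hco⟩
  have h1 : y = xg chevG2 F3 r t * ((xg chevG2 F3 r t)⁻¹ * y) := by group
  rw [h1, ← XS_posS G]
  exact mul_mem (xg_mem_XS hr t) (XS_mono (fun s hs => union_pos (blk (K := F3) (m := 0) hF) r hr s hs.1) hco)

theorem map_comm : (commutator ↥Γ).map Γ.subtype = ⁅Γ, Γ⁆ := by
  rw [commutator_def, Subgroup.map_commutator, ← MonoidHom.range_eq_map, Subgroup.range_subtype]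

theorem b_sup : Subgroup.zpowers b ⊔ commutator ↥Γ = ⊤ := by
  rw [eq_top_iff]
  intro x _
  have h1 := Γ_le_M x.2
  have h2 : (Subgroup.zpowers b ⊔ commutator ↥Γ).map Γ.subtype = M := by
    rw [Subgroup.map_sup, map_comm, MonoidHom.map_zpowers]
    rfl
  rw [← h2] at h1
  obtain ⟨y, hy, hxy⟩ := h1
  have : y = x := Subtype.ext hxy
  rwa [← this]

theorem b_pow : b ^ 3 = 1 := by
  apply Subtype.ext
  have : (b ^ 3 : ↥Γ) = b * b * b := by rw [pow_succ, pow_two]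
  rw [this]
  exact b_cube

theorem index_comm : (commutator ↥Γ).index = 3 := by
  have h2 : (commutator ↥Γ).index ≠ 1 := by
    rw [Ne, Subgroup.index_eq_one]
    intro h
    exact b_not (by rw [h]; trivial)
  have h1 : (commutator ↥Γ).index ∣ 3 := by
    have e1 : (commutator ↥Γ).index = (commutator ↥Γ).relIndex (Subgroup.zpowers b ⊔ commutator ↥Γ) := by
      rw [b_sup, Subgroup.relIndex_top_right]
    rw [e1, sup_comm, Subgroup.relIndex_sup_left]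
    refine (Subgroup.relIndex_dvd_card _ _).trans ?_
    rw [Nat.card_zpowers]
    exact orderOf_dvd_of_pow_eq_one b_pow
  rcases (Nat.dvd_prime Nat.prime_three).mp h1 with h | h
  · exact absurd h h2
  · exact h

theorem card_comm : Nat.card ↥(commutator ↥Γ) = 504 := by
  have h := Subgroup.card_mul_index (commutator ↥Γ)
  rw [index_comm, card_eq] at h
  omega

/-! ### simplicity -/

theorem comm_le_normal (K : Subgroup ↥Γ) [hK : K.Normal] (hne : K ≠ ⊥) : commutator ↥Γ ≤ K := by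
  have h1 := sup_eq_top (all (K := F3) (m := 0) hF).grp.bn
    ((all (K := F3) (m := 0) hF).irreducible (irr (sig (K := F3) (m := 0) hF) chk1G2 chk2G2 chk3G2 listed (le_fix (K := F3) (m := 0) hF)
      (nJ_mem' (K := F3) (m := 0) hF) chkI)) (core (K := F3) (m := 0) hF) K hne
  have h3 : (P ⊔ K).index ≤ 2 := by
    rw [Subgroup.index_eq_card]
    obtain ⟨hm, hmv⟩ : ∃ hm : ↥Γ, (hm : GL chevG2.Idx F3) = th (3 ^ 0) (-1 : F3) :=
      ⟨⟨_, th_mem (K := F3) (m := 0) hF (by decide)⟩, rfl⟩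
    have hs : Function.Surjective (fun p : Bool => (QuotientGroup.mk (bif p then hm else 1) : ↥Γ ⧸ (P ⊔ K))) := by
      intro x
      obtain ⟨γ, rfl⟩ := QuotientGroup.mk_surjective x
      have h2 : γ⁻¹ ∈ (all (K := F3) (m := 0) hF).grp.bn.B ⊔ K := by rw [h1]; trivial
      obtain ⟨c, hc, z, hz, hcz⟩ := Subgroup.mem_sup_of_normal_left.1 (by rwa [sup_comm] at h2 : γ⁻¹ ∈ K ⊔ _)
      obtain ⟨u, hu, h, hh, he⟩ := (all (K := F3) (m := 0) hF).mem_B (Subgroup.mem_subgroupOf.mp hz)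
      have hh1 : h ∈ chevG2.diagonalSubgroup F3 ⊓ (TwG2.T (K := F3) (m := 0) hF).fix := ⟨hh.1, le_fix (K := F3) (m := 0) hF hh.2⟩
      obtain ⟨s, hs, rfl⟩ := exists_th (K := F3) (m := 0) hF hh1
      have hp : ∃ p : Bool, ((bif p then hm else 1 : ↥Γ) : GL chevG2.Idx F3) = (th (3 ^ 0) s)⁻¹ := by
        rcases pm s hs with rfl | rfl
        · refine ⟨false, ?_⟩
          rw [th_one (K := F3) (m := 0) hF, inv_one, cond_false, Subgroup.coe_one]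
        · refine ⟨true, ?_⟩
          rw [th_inv (K := F3) (m := 0) hF hs, cond_true, hmv, inv_neg_one]
      obtain ⟨p, hp⟩ := hp
      refine ⟨p, ?_⟩
      show (QuotientGroup.mk _ : ↥Γ ⧸ (P ⊔ K)) = QuotientGroup.mk γ
      rw [QuotientGroup.eq]
      have e1 : (bif p then hm else 1)⁻¹ * γ = ⟨u, hu.2⟩⁻¹ * c⁻¹ := by
        apply Subtype.ext
        have e2 : γ = (z : ↥Γ)⁻¹ * c⁻¹ := by rw [← mul_inv_rev, hcz, inv_inv]
        rw [e2]
        show ((bif p then hm else 1 : ↥Γ) : GL chevG2.Idx F3)⁻¹ * ((z : GL chevG2.Idx F3)⁻¹ * (c : GL chevG2.Idx F3)⁻¹) =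
          u⁻¹ * (c : GL chevG2.Idx F3)⁻¹
        rw [hp, he]; group
      rw [e1]
      exact mul_mem (inv_mem ((le_sup_left : P ≤ P ⊔ K) hu)) (inv_mem ((le_sup_right : K ≤ P ⊔ K) hc))
    have := Nat.card_le_card_of_surjective _ hs
    simpa using this
  -- `P K` is everything
  have h2 : P ⊔ K = ⊤ := by
    rw [← Subgroup.index_eq_one]
    by_contra h4
    have h5 : (P ⊔ K).index ≠ 0 := Subgroup.index_ne_zero_of_finite
    have h6 : (P ⊔ K).index = 2 := by omega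
    have h7 : (P ⊔ K).Normal := Subgroup.normal_of_index_eq_two h6
    have h8 : commutator ↥Γ ≤ P ⊔ K := by
      have hc : Nat.card (↥Γ ⧸ (P ⊔ K)) = 2 := h6
      have : Fact (Nat.Prime 2) := ⟨Nat.prime_two⟩
      have := isCyclic_of_prime_card hc
      have h9 : commutator ↥Γ ≤ (QuotientGroup.mk' (P ⊔ K)).ker := by
        rw [commutator_def, Subgroup.commutator_le]
        intro x _ y _
        rw [MonoidHom.mem_ker, map_commutatorElement, commutatorElement_eq_one_iff_mul_comm]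
        let _ := IsCyclic.commGroup (α := ↥Γ ⧸ (P ⊔ K))
        exact mul_comm _ _
      rwa [QuotientGroup.ker_mk'] at h9
    have h10 := Subgroup.index_dvd_of_le h8
    rw [h6, index_comm] at h10
    omega
  exact comm_le_of_cyclic P K P_three h2 b b_sup

theorem simple_comm : IsSimpleGroup ↥(commutator ↥Γ) := by
  refine simple_of_min (commutator ↥Γ) 7 (by norm_num) ?_ ?_ (fun K hK hne => ?_)
  · rw [card_comm]; norm_num
  · rw [card_comm]; norm_num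
  · exact comm_le_normal K hne

end Cfsg.Agent.Lib.TwRee3
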