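import Cfsg.Agent.Lib.TwG2Inv2
import Cfsg.Agent.Lib.TwFus
set_option autoImplicit false
set_option linter.unusedSectionVars false
set_option linter.unusedVariables false
set_option linter.unusedSimpArgs false

/-!
The group 2G2(3): the derived subgroup has index 3 and is simple.
-/

namespace Cfsg.Agent.Lib.TwRee3
open Cfsg.Lie Cfsg.Agent.Lib.ChevX Cfsg.Agent.Lib.ChevGood Cfsg.Agent.Lib.ChevRel Cfsg.Agent.Lib.ChevNPerm
  Cfsg.Agent.Lib.ChevClosed Cfsg.Agent.Lib.ChevBruhat Cfsg.Agent.Lib.TwFix Cfsg.Agent.Lib.TwFix.TwRk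
  Cfsg.Agent.Lib.TwTab Cfsg.Agent.Lib.TwField Cfsg.Agent.Lib.TwSpec Cfsg.Agent.Lib.TwModp Cfsg.Agent.Lib.TwG2
open scoped MatrixGroups Matrix commutatorElement

instance f3 : Fact (Nat.Prime 3) := ⟨Nat.prime_three⟩

abbrev F3 := ZMod 3

theorem hF : Fintype.card F3 = 3 ^ (2 * 0 + 1) := by rw [ZMod.card]; norm_num

/-- the table of products -/
noncomputable def chkTab (t' u' v' : ℤ) : Bool :=
  [0, 1, 2].all fun t : ℤ => [0, 1, 2].all fun u : ℤ => [0, 1, 2].all fun v : ℤ =>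
    chkEqp chevG2 3 G.ce (cst (wU t u v ++ wU t' u' v'))
      (cst (wU (t + t') (u + u' - t * t') (v + v' - u * t' + t * t' ^ 2 - t ^ 2 * t')))

theorem chkTab1 : chkTab 1 0 0 = true := by decide +kernel
theorem chkTab2 : chkTab 0 1 0 = true := by decide +kernel
theorem chkTab3 : chkTab 0 0 1 = true := by decide +kernel

noncomputable abbrev Γ : Subgroup (GL chevG2.Idx F3) := twistedG2 F3 (3 ^ 0)
noncomputable abbrev U : Subgroup (GL chevG2.Idx F3) := chevG2.posUnipotent F3 ⊓ Γ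
noncomputable abbrev UU' (t u v : F3) : GL chevG2.Idx F3 := UU (3 ^ 0) t u v

theorem rep (t : F3) : ∃ z : ℤ, z ∈ [(0 : ℤ), 1, 2] ∧ (z : F3) = t := by
  revert t; decide

theorem UU_mul' {t' u' v' : ℤ} (h : chkTab t' u' v' = true) (t u v : F3) : UU' t u v * UU' t' u' v' =
    UU' (t + t') (u + u' - t * t') (v + v' - u * t' + t * t' ^ 2 - t ^ 2 * t') := by
  obtain ⟨t, ht, rfl⟩ := rep t
  obtain ⟨u, hu, rfl⟩ := rep u
  obtain ⟨v, hv, rfl⟩ := rep v
  unfold chkTab at h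
  rw [List.all_eq_true] at h
  have h := h t ht
  rw [List.all_eq_true] at h
  have h := h u hu
  rw [List.all_eq_true] at h
  have h := h v hv
  have h1 := wg_eq_of_chk (F := F3) G h
  have h2 := UU_int (K := F3) (m := 0) hF
  have e : UU' ((t : F3) + t') ((u : F3) + u' - t * t') ((v : F3) + v' - u * t' + t * t' ^ 2 - t ^ 2 * t') =
      UU (3 ^ 0) ((t + t' : ℤ) : F3) ((u + u' - t * t' : ℤ) : F3) ((v + v' - u * t' + t * t' ^ 2 - t ^ 2 * t' : ℤ) : F3) := by
    push_cast; rfl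
  rw [e, h2, ← h1]
  show UU (3 ^ 0) (t : F3) u v * UU (3 ^ 0) (t' : F3) u' v' = _
  rw [h2, h2]
  rw [List.map_append]
  unfold ChevRel.wg
  rw [List.map_append, List.prod_append]

end Cfsg.Agent.Lib.TwRee3
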