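import Mathlib
import Cfsg.Agent.Lib.TwoEFus1

/-!
# 2-groups whose involutions are permuted transitively (helper29)
-/

set_option autoImplicit false

open Cfsg

namespace Cfsg.Agent.Lib.TwoE

theorem IsE.cycle {P : Type*} [Group P] {E : Subgroup P} (hE : IsE E) (b : MulAut P)
    (hbm : ∀ e ∈ E, e ≠ 1 → b e ≠ e) {e : P} (he : e ∈ E) : b (b (b e)) = e ∧ (e ≠ 1 → b (b e) ≠ e) := by
  have hmap : ∀ x ∈ E, b x ∈ E := fun x hx => by
    rw [← hE.sq_iff, ← map_pow, (hE.sq_iff x).2 hx, map_one]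
  have hsq : ∀ x ∈ E, x * x = 1 := fun x hx => by rw [← pow_two]; exact (hE.sq_iff x).2 hx
  by_cases he1 : e = 1
  · subst he1
    refine ⟨?_, fun h => absurd rfl h⟩
    rw [map_one, map_one, map_one]
  have hbe := hmap e he
  have hbe1 : b e ≠ 1 := fun h' => he1 ((map_eq_one_iff b b.injective).1 h')
  have hne := hbm e he he1
  have hee := hsq e he
  have hbb := hsq _ hbe
  have hne2 : e * b e ≠ 1 := fun h' => hne (by
    have h6 : e⁻¹ = b e := inv_eq_of_mul_eq_one_right h'
    have h7 : e⁻¹ = e := inv_eq_of_mul_eq_one_left hee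
    rw [← h6, h7])
  have hmul : b (e * b e) = b e * b (b e) := map_mul b _ _
  have h2 : b (b e) ≠ e := by
    intro h'
    rw [h', hE.central _ hbe e] at hmul
    exact hbm _ (E.mul_mem he hbe) hne2 hmul
  have h3 := four_cases hE.card he hbe (hmap _ hbe) he1 hbe1 hne.symm hee
  have h4 : b (b e) ≠ 1 := fun h' => hbe1 ((map_eq_one_iff b b.injective).1 h')
  have h5 : b (b e) = e * b e := by
    rcases h3 with h3 | h3 | h3 | h3
    · exact absurd h3 h4
    · exact absurd h3 h2
    · exact absurd h3 (hbm _ hbe hbe1)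
    · exact h3
  refine ⟨?_, fun _ => h2⟩
  rw [h5, hmul, h5, ← hE.central (e * b e) (E.mul_mem he hbe) (b e), mul_assoc, hbb, mul_one]

theorem IsE.exists_tri {P : Type*} [Group P] [Finite P] (hP : IsPGroup 2 P) {E : Subgroup P} (hE : IsE E)
    (β : MulAut P) (hbm : ∀ e ∈ E, e ≠ 1 → β e ≠ e) : ∃ m : ℕ, Tri E (β ^ m) := by
  have hpos : orderOf β ≠ 0 := (orderOf_pos β).ne'
  obtain ⟨k, m, hm, hkm⟩ := Nat.exists_eq_pow_mul_and_not_dvd hpos 3 (by norm_num)
  have hα : (β ^ m) ^ 3 ^ k = 1 := by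
    rw [← pow_mul, mul_comm, ← hkm]; exact pow_orderOf_eq_one β
  refine ⟨m, hP, hE, IsE.cube_eq_one hP hE _ hα, ?_⟩
  obtain ⟨e, he, he1⟩ : ∃ e ∈ E, e ≠ 1 := by
    by_contra hcon
    push Not at hcon
    have h1 : E = ⊥ := (Subgroup.eq_bot_iff_forall _).mpr hcon
    have h2 := hE.card
    rw [h1, Subgroup.card_bot] at h2
    omega
  have hfix : ∀ q : ℕ, ((β ^ 3) ^ q) e = e := by
    intro q
    induction q with
    | zero => rfl
    | succ q ih =>
      rw [pow_succ', MulAut.mul_apply, ih]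
      exact (hE.cycle β hbm he).1
  refine ⟨e, he, ?_⟩
  have h3 : m % 3 = 1 ∨ m % 3 = 2 := by
    have : m % 3 ≠ 0 := fun h0 => hm (Nat.dvd_of_mod_eq_zero h0)
    omega
  rcases h3 with h3 | h3
  · have h4 : m = 1 + 3 * (m / 3) := by omega
    rw [h4, pow_add, pow_mul, MulAut.mul_apply, hfix, pow_one]
    exact hbm e he he1
  · have h4 : m = 2 + 3 * (m / 3) := by omega
    rw [h4, pow_add, pow_mul, MulAut.mul_apply, hfix, pow_two, MulAut.mul_apply]
    exact (hE.cycle β hbm he).2 he1

theorem exists_tri_of_trans {T : Type*} [Group T] [Finite T] (hT : IsPGroup 2 T) (h2 : PRankLE 2 2 T)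
    (h1 : ¬ PRankLE 2 1 T) (φ : MulAut T)
    (htrans : ∀ s t : T, orderOf s = 2 → orderOf t = 2 → ∃ k : ℕ, (φ ^ k) s = t) :
    ∃ (E : Subgroup T) (m : ℕ), Tri E (φ ^ m) := by
  have hp : Fact (Nat.Prime 2) := ⟨Nat.prime_two⟩
  have hT1 : (⊤ : Subgroup T) ≠ ⊥ := by
    intro h
    apply h1
    intro A _ _
    have h3 : A = ⊥ := by rw [eq_bot_iff, ← h]; exact le_top
    rw [h3, Subgroup.card_bot]
    norm_num
  have hTp : IsPGroup 2 (⊤ : Subgroup T) := hT.to_subgroup _
  obtain ⟨z, -, hzz, hz1, hzc⟩ := exists_central_involution hTp hT1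
  have hord : ∀ x : T, x * x = 1 → x ≠ 1 → orderOf x = 2 := fun x hx hx1 =>
    orderOf_eq_prime (by rw [pow_two]; exact hx) hx1
  have hcen : ∀ x : T, x * x = 1 → ∀ y, x * y = y * x := by
    intro x hx y
    by_cases hx1 : x = 1
    · rw [hx1, one_mul, mul_one]
    obtain ⟨k, hk⟩ := htrans z x (hord z hzz hz1) (hord x hx hx1)
    obtain ⟨w, rfl⟩ := (φ ^ k).surjective y
    rw [← hk, ← map_mul, ← map_mul, hzc w (Subgroup.mem_top _)]
  let E : Subgroup T :=
    { carrier := {x | x * x = 1}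
      one_mem' := mul_one 1
      mul_mem' := by
        intro x y hx hy
        have hx' : x * x = 1 := hx
        have hy' : y * y = 1 := hy
        show x * y * (x * y) = 1
        calc x * y * (x * y) = x * (y * x) * y := by group
          _ = x * (x * y) * y := by rw [hcen y hy' x]
          _ = (x * x) * (y * y) := by group
          _ = 1 := by rw [hx', hy', one_mul]
      inv_mem' := by
        intro x hx
        have hx' : x * x = 1 := hx
        have h3 : x⁻¹ = x := inv_eq_of_mul_eq_one_left hx'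
        show x⁻¹ * x⁻¹ = 1
        rw [h3, hx'] }
  have hEmem : ∀ x : T, x ∈ E ↔ x * x = 1 := fun x => Iff.rfl
  have hEcard : Nat.card E = 4 := by
    have h3 : Nat.card E ≤ 2 ^ 2 := h2 E ⟨⟨fun x y => Subtype.ext (hcen x x.2 y)⟩⟩
      (fun x hx => by rw [pow_two]; exact hx)
    have h4 : 2 < Nat.card E := by
      unfold PRankLE at h1
      push Not at h1
      obtain ⟨A, _, hA, hAc⟩ := h1
      have hAE : A ≤ E := fun x hx => by
        rw [hEmem, ← pow_two]; exact hA x hx
      have h5 : Nat.card A ≤ Nat.card E := Nat.card_le_card_of_injective _ (Subgroup.inclusion_injective hAE)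
      omega
    obtain ⟨k, hk⟩ := IsPGroup.iff_card.mp (hT.to_subgroup E)
    rw [hk] at h3 h4 ⊢
    have h5 : k ≤ 2 := (Nat.pow_le_pow_iff_right (by norm_num)).1 h3
    have h6 : 1 < k := by
      by_contra hlt
      have h7 : 2 ^ k ≤ 2 ^ 1 := Nat.pow_le_pow_right (by norm_num) (by omega)
      omega
    obtain rfl : k = 2 := by omega
    norm_num
  have hE : IsE E :=
    { card := hEcard
      central := fun e he x => hcen e he x
      sq_iff := fun x => by rw [pow_two, hEmem] }
  have hmove : ∀ e ∈ E, e ≠ 1 → φ e ≠ e := by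
    intro e he he1 hfix
    have hall : ∀ k : ℕ, (φ ^ k) e = e := by
      intro k
      induction k with
      | zero => rfl
      | succ k ih => rw [pow_succ, MulAut.mul_apply, hfix, ih]
    have hbot : ∀ x ∈ E, x = 1 ∨ x = e := by
      intro x hx
      by_cases hx1 : x = 1
      · exact Or.inl hx1
      · obtain ⟨k, hk⟩ := htrans e x (hord e he he1) (hord x hx hx1)
        rw [hall] at hk
        exact Or.inr hk.symm
    have h3 : Nat.card E ≤ 2 := by
      have h4 : (E : Set T) ⊆ {1, e} := fun x hx => hbot x hx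
      have h5 := Set.ncard_le_ncard h4 (Set.toFinite _)
      have h6 : ({1, e} : Set T).ncard ≤ 2 := Set.ncard_insert_le _ _ |>.trans (by rw [Set.ncard_singleton])
      exact (h5.trans h6 : (E : Set T).ncard ≤ 2)
    omega
  obtain ⟨m, hm⟩ := hE.exists_tri hT φ hmove
  exact ⟨E, m, hm⟩

end Cfsg.Agent.Lib.TwoE
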