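import Mathlib
import Cfsg.Agent.Lib.TwoEGrp
import Cfsg.Agent.Lib.ZStarU
import Cfsg.Agent.Lib.BlockHomo5

/-!
# Simple groups of 2-rank two (helper29)
-/

set_option autoImplicit false

open Cfsg

namespace Cfsg.Agent.Lib.TwoE

universe u

theorem no_isolated_of_simple {G : Type u} [Group G] [Finite G] [IsSimpleGroup G] (hG : ¬ IsMulCommutative G)
    (heven : ¬ Odd (Nat.card G)) (z : G) : ¬ IsIsolatedInvolution z := by
  intro hz
  have h1 := Cfsg.Agent.Lib.ZStarU.inZStar_of_isolated hz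
  have hn : (pPrimeCore 2 G).Normal := Subgroup.sSup_normal _ (fun _ h => h.1)
  rcases hn.eq_bot_or_eq_top with h2 | h2
  · have h3 : z ∈ Subgroup.center G := by
      rw [Subgroup.mem_center_iff]
      intro g
      have h4 : g * z * g⁻¹ * z⁻¹ ∈ pPrimeCore 2 G := h1 g
      rw [h2, Subgroup.mem_bot, mul_inv_eq_one, mul_inv_eq_iff_eq_mul] at h4
      exact h4
    have hcn : (Subgroup.center G).Normal := inferInstance
    rcases hcn.eq_bot_or_eq_top with h4 | h4
    · rw [h4, Subgroup.mem_bot] at h3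
      have h5 := hz.1
      rw [h3, orderOf_one] at h5
      omega
    · apply hG
      refine ⟨⟨fun x y => ?_⟩⟩
      have h5 : y ∈ Subgroup.center G := by rw [h4]; exact Subgroup.mem_top _
      exact Subgroup.mem_center_iff.1 h5 x
  · have h3 := (Cfsg.Agent.Lib.Cores.pPrimeCore_eq_top_iff (p := 2)).1 h2
    exact heven (Nat.coprime_two_right.1 h3)

/-- Sylow 2-subgroups of a non-abelian simple group of even order and 2-rank at most two -/
theorem simple_main {G : Type u} [Group G] [Finite G] [IsSimpleGroup G] (hG : ¬ IsMulCommutative G)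
    (heven : ¬ Odd (Nat.card G)) (h2 : PRankLE 2 2 G) (S : Sylow 2 G) {F : Type*} [Field F] [Fintype F]
    (hF : Fintype.card F = 16) (P : Sylow 2 (PSU 3 F 4)) :
    (∃ n : ℕ, 2 ≤ n ∧ Nonempty ((S : Subgroup G) ≃* DihedralGroup n)) ∨ IsQuasiDihedral (S : Subgroup G) ∨
      IsWreathed (S : Subgroup G) ∨ Nonempty ((S : Subgroup G) ≃* (P : Subgroup (PSU 3 F 4))) := by
  have hp : Fact (Nat.Prime 2) := ⟨Nat.prime_two⟩
  have hS1 : (S : Subgroup G) ≠ ⊥ := by
    intro h
    apply heven
    have h3 := S.card_mul_index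
    rw [h, Subgroup.card_bot, one_mul] at h3
    have h4 := S.not_dvd_index
    rw [h] at h4
    rw [← h3, ← Nat.not_even_iff_odd, even_iff_two_dvd]
    exact h4
  rcases group_main h2 (no_isolated_of_simple hG heven) S hS1 hF P with h | h | h | ⟨n, hn, ⟨e⟩⟩ | h
  · exact Or.inl h
  · exact Or.inr (Or.inl h)
  · exact Or.inr (Or.inr (Or.inl h))
  · exfalso
    have hO : ∀ N : Subgroup G, N.Normal → Odd (Nat.card N) → N = ⊥ := by
      intro N hN hodd
      rcases hN.eq_bot_or_eq_top with h3 | h3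
      · exact h3
      · exfalso
        rw [h3, Subgroup.card_top] at hodd
        exact heven hodd
    obtain ⟨h3, h4, h5⟩ := Cfsg.Agent.Lib.BlockHomo.main S n hn e hO
    rcases h3.eq_bot_or_eq_top with h6 | h6
    · exact hS1 h6
    · apply hG
      refine ⟨⟨fun x y => ?_⟩⟩
      have hx : x ∈ (S : Subgroup G) := by rw [h6]; exact Subgroup.mem_top _
      have hy : y ∈ (S : Subgroup G) := by rw [h6]; exact Subgroup.mem_top _
      have h7 : e ⟨x, hx⟩ * e ⟨y, hy⟩ = e ⟨y, hy⟩ * e ⟨x, hx⟩ := mul_comm _ _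
      rw [← map_mul, ← map_mul] at h7
      exact congrArg Subtype.val (e.injective h7)
  · exact Or.inr (Or.inr (Or.inr h))

end Cfsg.Agent.Lib.TwoE
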