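import Cfsg.Agent.Lib.SU6K4

set_option autoImplicit false
set_option linter.style.haveILetI false
set_option linter.unusedVariables false
set_option linter.unusedSectionVars false

/-! # Monomial subgroups of `SU₆(2)` -/

namespace Cfsg.Agent.Lib.U43

open Matrix Cfsg Cfsg.Agent.Lib.K4 Cfsg.Agent.Lib.HermMat Cfsg.Agent.Lib.ClThreeTransU Cfsg.Agent.Lib.SU6K4

/-- the group -/
abbrev G := SU 6 K4 2
/-- permutations -/
abbrev Pm := Equiv.Perm (Fin 6)

/-- cube roots of unity -/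
def e (a : ZMod 3) : K4 := if a = 0 then 1 else if a = 1 then om else om'

theorem e_zero : e 0 = 1 := rfl
theorem e_add : ∀ a b, e (a + b) = e a * e b := by decide
theorem e_ne : ∀ a, e a ≠ 0 := by decide
theorem e_inj : ∀ a b, e a = e b → a = b := by decide
theorem e_surj : ∀ x : K4, x ≠ 0 → ∃ a, e a = x := by decide
theorem e_norm : ∀ a, e a * e a ^ 2 = 1 := by decide

theorem e_sum {ι : Type*} (s : Finset ι) (f : ι → ZMod 3) : e (∑ i ∈ s, f i) = ∏ i ∈ s, e (f i) := by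
  classical
  induction s using Finset.induction_on with
  | empty => simp [e_zero]
  | insert a s ha ih => rw [Finset.sum_insert ha, Finset.prod_insert ha, e_add, ih]

/-- exponents -/
def A0 : AddSubgroup (Fin 6 → ZMod 3) where
  carrier := {a | ∑ i, a i = 0}
  zero_mem' := by simp
  add_mem' := by
    intro a b ha hb
    simp only [Set.mem_ofPred_eq, Pi.add_apply, Finset.sum_add_distrib] at *
    rw [ha, hb, add_zero]
  neg_mem' := by
    intro a ha
    simp only [Set.mem_ofPred_eq, Pi.neg_apply, Finset.sum_neg_distrib] at *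
    rw [ha, neg_zero]

theorem mem_A0 {a : Fin 6 → ZMod 3} : a ∈ A0 ↔ ∑ i, a i = 0 := Iff.rfl

instance : DecidablePred (· ∈ A0) := fun a => inferInstanceAs (Decidable (∑ i, a i = 0))

/-- permuting exponents -/
def act (σ : Pm) (a : A0) : A0 := ⟨fun i => a.1 (σ⁻¹ i), by
  rw [mem_A0, Equiv.sum_comp σ⁻¹ a.1]; exact a.2⟩

theorem app_inv (σ : Pm) (i : Fin 6) : σ (σ⁻¹ i) = i := σ.apply_symm_apply i
theorem inv_app (σ : Pm) (i : Fin 6) : σ⁻¹ (σ i) = i := σ.symm_apply_apply i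

/-- monomial matrices -/
def monM (a : Fin 6 → ZMod 3) (σ : Pm) : Matrix (Fin 6) (Fin 6) K4 := (Matrix.diagonal fun i => e (a i)).submatrix id σ

theorem monM_apply (a : Fin 6 → ZMod 3) (σ : Pm) (i j : Fin 6) : monM a σ i j = if i = σ j then e (a i) else 0 := by
  simp [monM, Matrix.diagonal_apply]

theorem monM_mulVec (a : Fin 6 → ZMod 3) (σ : Pm) (x : Fin 6 → K4) (i : Fin 6) :
    (monM a σ *ᵥ x) i = e (a i) * x (σ⁻¹ i) := by
  rw [monM, Matrix.submatrix_mulVec_equiv]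
  simp [Matrix.mulVec_diagonal]

theorem one_neg : (-1 : K4) = 1 := rfl

theorem sign_one (σ : Pm) : (((Equiv.Perm.sign σ : ℤˣ) : ℤ) : K4) = 1 := by
  rcases Int.units_eq_one_or (Equiv.Perm.sign σ) with h | h <;> rw [h] <;> simp [one_neg]

theorem det_monM (a : Fin 6 → ZMod 3) (σ : Pm) : (monM a σ).det = e (∑ i, a i) := by
  rw [monM, Matrix.det_permute', Matrix.det_diagonal, ← e_sum, sign_one, one_mul]

/-- monomial elements -/
def mo (a : A0) (σ : Pm) : G := ⟨⟨monM a.1 σ, by rw [det_monM, a.2, e_zero]⟩, by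
  intro u v
  change hermForm 6 K4 2 (monM a.1 σ *ᵥ u) (monM a.1 σ *ᵥ v) = _
  rw [hermForm_def, hermForm_def]
  simp only [monM_mulVec]
  rw [← Equiv.sum_comp σ⁻¹ (fun i => u i * v i ^ 2)]
  apply Finset.sum_congr rfl
  intro i _
  have h := e_norm (a.1 i)
  linear_combination (u (σ⁻¹ i) * v (σ⁻¹ i) ^ 2) * h⟩

theorem mt_mo (a : A0) (σ : Pm) : mt (mo a σ) = monM a.1 σ := rfl

theorem mo_mulVec (a : A0) (σ : Pm) (x : Fin 6 → K4) (i : Fin 6) : (mt (mo a σ) *ᵥ x) i = e (a.1 i) * x (σ⁻¹ i) :=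
  monM_mulVec a.1 σ x i

theorem ext_mt {A B : G} (h : mt A = mt B) : A = B := Subtype.ext (Subtype.ext h)

theorem mo_inj {a b : A0} {σ τ : Pm} (h : mo a σ = mo b τ) : a = b ∧ σ = τ := by
  have h1 : monM a.1 σ = monM b.1 τ := congrArg ClThreeTransU.mt h
  have h2 : ∀ i j, monM a.1 σ i j = monM b.1 τ i j := fun i j => by rw [h1]
  have h3 : σ = τ := by
    ext j
    have := h2 (σ j) j
    rw [monM_apply, monM_apply, if_pos rfl] at this
    by_contra hc
    rw [if_neg (fun h => hc (by rw [h]))] at this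
    exact e_ne _ this
  refine ⟨?_, h3⟩
  subst h3
  apply Subtype.ext
  ext i
  have := h2 i (σ⁻¹ i)
  rw [monM_apply, monM_apply, if_pos (by simp), if_pos (by simp)] at this
  exact e_inj _ _ this

theorem mo_mul (a b : A0) (σ τ : Pm) : mo a σ * mo b τ = mo (a + act σ b) (σ * τ) := by
  apply SU_ext
  intro x
  rw [mt_mul, ← Matrix.mulVec_mulVec]
  ext i
  rw [mo_mulVec, mo_mulVec, mo_mulVec]
  change e (a.1 i) * (e (b.1 (σ⁻¹ i)) * x (τ⁻¹ (σ⁻¹ i))) = e (a.1 i + b.1 (σ⁻¹ i)) * x ((σ * τ)⁻¹ i)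
  rw [e_add, mul_assoc, _root_.mul_inv_rev]
  rfl

theorem mo_one : mo 0 1 = 1 := by
  apply SU_ext
  intro x
  ext i
  rw [mo_mulVec, mt_one, Matrix.one_mulVec]
  simp [e_zero]

theorem act_one (a : A0) : act 1 a = a := by
  apply Subtype.ext; ext i; simp [act]

theorem act_zero (σ : Pm) : act σ 0 = 0 := by
  apply Subtype.ext; ext i; simp [act]

theorem act_neg (σ : Pm) (a : A0) : act σ (-a) = -act σ a := by
  apply Subtype.ext; ext i; simp [act]

theorem act_act (σ τ : Pm) (a : A0) : act σ (act τ a) = act (σ * τ) a := by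
  apply Subtype.ext; ext i; simp [act]

theorem mo_inv (a : A0) (σ : Pm) : (mo a σ)⁻¹ = mo (-act σ⁻¹ a) σ⁻¹ := by
  apply inv_eq_of_mul_eq_one_left
  rw [mo_mul, inv_mul_cancel, neg_add_cancel, mo_one]

theorem mo_conj (a b : A0) (σ τ : Pm) :
    mo a σ * mo b τ * (mo a σ)⁻¹ = mo (a + act σ b - act (σ * τ * σ⁻¹) a) (σ * τ * σ⁻¹) := by
  rw [mo_inv, mo_mul, mo_mul, act_neg, act_act, sub_eq_add_neg]

/-- monomial subgroups -/
def Mn (H : Subgroup Pm) : Subgroup G where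
  carrier := {g | ∃ a σ, σ ∈ H ∧ g = mo a σ}
  one_mem' := ⟨0, 1, H.one_mem, mo_one.symm⟩
  mul_mem' := by
    rintro _ _ ⟨a, σ, hσ, rfl⟩ ⟨b, τ, hτ, rfl⟩
    exact ⟨_, _, H.mul_mem hσ hτ, mo_mul a b σ τ⟩
  inv_mem' := by
    rintro _ ⟨a, σ, hσ, rfl⟩
    exact ⟨_, _, H.inv_mem hσ, mo_inv a σ⟩

theorem mem_Mn {H : Subgroup Pm} {g : G} : g ∈ Mn H ↔ ∃ a σ, σ ∈ H ∧ g = mo a σ := Iff.rfl

theorem mo_mem {H : Subgroup Pm} {a : A0} {σ : Pm} : mo a σ ∈ Mn H ↔ σ ∈ H := by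
  constructor
  · rintro ⟨b, τ, hτ, h⟩
    rw [(mo_inj h).2]; exact hτ
  · intro h; exact ⟨a, σ, h, rfl⟩

theorem Mn_mono {H H' : Subgroup Pm} (h : H ≤ H') : Mn H ≤ Mn H' := by
  rintro _ ⟨a, σ, hσ, rfl⟩
  exact mo_mem.2 (h hσ)

theorem card_A0 : Nat.card A0 = 243 := by
  have h : A0 = (⟨⟨fun a : Fin 6 → ZMod 3 => ∑ i, a i, by simp⟩, fun a b => by simp [Finset.sum_add_distrib]⟩ :
      (Fin 6 → ZMod 3) →+ ZMod 3).ker := by
    ext a; rfl
  have h1 := AddSubgroup.card_mul_index A0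
  have h2 : A0.index = 3 := by
    rw [h, AddSubgroup.index_ker]
    have : (⟨⟨fun a : Fin 6 → ZMod 3 => ∑ i, a i, by simp⟩, fun a b => by simp [Finset.sum_add_distrib]⟩ :
      (Fin 6 → ZMod 3) →+ ZMod 3).range = ⊤ := by
      rw [AddMonoidHom.range_eq_top]
      intro x
      exact ⟨Pi.single 0 x, by simp⟩
    rw [this]
    simp
  rw [h2] at h1
  rw [Nat.card_eq_fintype_card (α := Fin 6 → ZMod 3), Fintype.card_fun, ZMod.card, Fintype.card_fin] at h1
  omega

theorem card_Mn (H : Subgroup Pm) : Nat.card (Mn H) = 243 * Nat.card H := by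
  rw [← card_A0, ← Nat.card_prod]
  apply Nat.card_congr
  exact (Equiv.ofBijective (fun p : A0 × H => (⟨mo p.1 p.2, mo_mem.2 p.2.2⟩ : Mn H)) ⟨by
    rintro ⟨a, σ⟩ ⟨b, τ⟩ h
    have := mo_inj (Subtype.ext_iff.1 h)
    exact Prod.ext this.1 (Subtype.ext this.2), by
    rintro ⟨_, a, σ, hσ, rfl⟩
    exact ⟨⟨a, σ, hσ⟩, rfl⟩⟩).symm

/-- diagonal elements -/
abbrev T : Subgroup G := Mn ⊥

theorem mem_T {g : G} : g ∈ T ↔ ∃ a, g = mo a 1 := by
  constructor
  · rintro ⟨a, σ, hσ, rfl⟩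
    rw [Subgroup.mem_bot] at hσ
    exact ⟨a, by rw [hσ]⟩
  · rintro ⟨a, rfl⟩
    exact mo_mem.2 (Subgroup.one_mem _)

theorem card_T : Nat.card T = 243 := by rw [card_Mn]; simp

theorem diag_mul (a : A0) (g : G) (i j : Fin 6) : mt (mo a 1 * g) i j = e (a.1 i) * mt g i j := by
  rw [mt_mul, mt_mo, monM]
  simp [Matrix.diagonal_mul]

theorem mul_diag (a : A0) (g : G) (i j : Fin 6) : mt (g * mo a 1) i j = mt g i j * e (a.1 j) := by
  rw [mt_mul, mt_mo, monM]
  simp [Matrix.mul_diagonal]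

theorem det_ne (g : G) : (mt g).det ≠ 0 := by
  rw [show (mt g).det = 1 from (g : SpecialLinearGroup (Fin 6) K4).2]; decide

theorem col_ne (g : G) (j : Fin 6) : ∃ i, mt g i j ≠ 0 := by
  by_contra hc
  push Not at hc
  exact det_ne g (Matrix.det_eq_zero_of_column_eq_zero j hc)

/-- separating exponents -/
theorem sep : ∀ i j : Fin 6, i ≠ j → ∃ a : A0, a.1 i ≠ a.1 j := by
  intro i j h
  refine ⟨⟨Pi.single i 1 + Pi.single j 2, ?_⟩, ?_⟩
  · rw [mem_A0]; simp [Finset.sum_add_distrib]; decide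
  · simp [h, Ne.symm h]
    decide

/-- the normaliser of the diagonal subgroup -/
theorem norm_T {g : G} (h : ∀ t ∈ T, g * t * g⁻¹ ∈ T) : g ∈ Mn ⊤ := by
  have h1 : ∀ a : A0, ∃ b : A0, g * mo a 1 = mo b 1 * g := by
    intro a
    obtain ⟨b, hb⟩ := mem_T.1 (h _ (mem_T.2 ⟨a, rfl⟩))
    exact ⟨b, by rw [← hb]; group⟩
  have hrow : ∀ i j k, mt g i j ≠ 0 → mt g i k ≠ 0 → j = k := by
    intro i j k hj hk
    by_contra hjk
    obtain ⟨a, ha⟩ := sep j k hjk
    obtain ⟨b, hb⟩ := h1 a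
    have e1 : mt g i j * e (a.1 j) = e (b.1 i) * mt g i j := by rw [← mul_diag, ← diag_mul, hb]
    have e2 : mt g i k * e (a.1 k) = e (b.1 i) * mt g i k := by rw [← mul_diag, ← diag_mul, hb]
    rw [mul_comm] at e1 e2
    exact ha (e_inj _ _ ((mul_right_cancel₀ hj e1).trans (mul_right_cancel₀ hk e2).symm))
  choose σ hσ using col_ne g
  have hinj : Function.Injective σ := by
    intro j k hjk
    exact hrow (σ j) j k (hσ j) (by rw [hjk]; exact hσ k)
  let τ : Pm := Equiv.ofBijective σ (Finite.injective_iff_bijective.1 hinj)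
  have hτ : ∀ j, τ j = σ j := fun j => rfl
  have h2 : ∀ i, mt g i (τ⁻¹ i) ≠ 0 := by
    intro i
    have := hσ (τ⁻¹ i)
    rwa [← hτ, app_inv] at this
  choose a ha using fun i => e_surj _ (h2 i)
  have h3 : mt g = monM a τ := by
    ext i j
    rw [monM_apply]
    split_ifs with hij
    · rw [ha, hij, inv_app]
    · by_contra hc
      have := hrow i j (τ⁻¹ i) hc (h2 i)
      exact hij (by rw [this, app_inv])
  have h4 : ∑ i, a i = 0 := by
    apply e_inj
    rw [← det_monM a τ, ← h3, e_zero]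
    exact (g : SpecialLinearGroup (Fin 6) K4).2
  exact ⟨⟨a, h4⟩, τ, Subgroup.mem_top _, ext_mt h3⟩

/-- the centraliser of the diagonal subgroup -/
theorem cent_T {g : G} (h : ∀ t ∈ T, g * t = t * g) : g ∈ T := by
  obtain ⟨a, σ, -, rfl⟩ := norm_T (g := g) (fun t ht => by rw [h t ht, mul_inv_cancel_right]; exact ht)
  have : σ = 1 := by
    ext i
    by_contra hc
    obtain ⟨b, hb⟩ := sep (σ i) i (fun h => hc (by rw [h]; rfl))
    have h1 := h _ (mem_T.2 ⟨b, rfl⟩)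
    rw [mo_mul, mo_mul] at h1
    have h2 := congrArg (fun x : A0 => x.1 (σ i)) (mo_inj h1).1
    simp only [act, AddSubgroup.coe_add, Pi.add_apply, inv_app, inv_one, Equiv.Perm.one_apply] at h2
    apply hb
    have h3 : b.1 i = b.1 (σ i) := by
      have := h2
      rw [add_comm] at this
      exact add_right_cancel this
    exact h3.symm
  rw [this]
  exact mem_T.2 ⟨a, rfl⟩

end Cfsg.Agent.Lib.U43
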