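import Cfsg.Agent.Lib.U43A

set_option autoImplicit false
set_option linter.style.haveILetI false
set_option linter.unusedVariables false
set_option linter.unusedSectionVars false

/-! # The Sylow 3-subgroup of `SU₆(2)` -/

namespace Cfsg.Agent.Lib.U43

open Matrix Cfsg Cfsg.Agent.Lib.K4 Cfsg.Agent.Lib.HermMat Cfsg.Agent.Lib.ClThreeTransU Cfsg.Agent.Lib.SU6K4

def σ1 : Pm := ⟨![1,2,0,3,4,5], ![2,0,1,3,4,5], by decide, by decide⟩
def σ2 : Pm := ⟨![0,1,2,4,5,3], ![0,1,2,5,3,4], by decide, by decide⟩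
def LC : List Pm := [1, σ1, σ1⁻¹, σ2, σ1 * σ2, σ1⁻¹ * σ2, σ2⁻¹, σ1 * σ2⁻¹, σ1⁻¹ * σ2⁻¹]

/-- the elementary abelian group of order nine -/
def C : Subgroup Pm where
  carrier := {σ | σ ∈ LC}
  mul_mem' := by
    have h : ∀ a ∈ LC, ∀ b ∈ LC, a * b ∈ LC := by decide +kernel
    intro a b ha hb; exact h a ha b hb
  one_mem' := by
    have h : (1 : Pm) ∈ LC := by decide +kernel
    exact h
  inv_mem' := by
    have h : ∀ a ∈ LC, a⁻¹ ∈ LC := by decide +kernel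
    intro a ha; exact h a ha

theorem mem_C {σ : Pm} : σ ∈ C ↔ σ ∈ LC := Iff.rfl
theorem σ1_mem : σ1 ∈ C := by rw [mem_C]; decide +kernel
theorem σ2_mem : σ2 ∈ C := by rw [mem_C]; decide +kernel

theorem card_C : Nat.card C = 9 := by
  have h : Nat.card {σ : Pm // σ ∈ LC} = LC.toFinset.card := Nat.subtype_card LC.toFinset (by simp)
  change Nat.card {σ : Pm // σ ∈ LC} = 9
  rw [h]
  decide +kernel

theorem C_comm {σ τ : Pm} (hσ : σ ∈ C) (hτ : τ ∈ C) : σ * τ = τ * σ := by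
  have h : ∀ a ∈ LC, ∀ b ∈ LC, a * b = b * a := by decide +kernel
  exact h σ hσ τ hτ

/-- the Sylow subgroup -/
abbrev S : Subgroup G := Mn C

theorem card_S : Nat.card S = 3 ^ 7 := by rw [card_Mn, card_C]; norm_num

theorem T_le_S : T ≤ S := Mn_mono bot_le

/-- scalars -/
def zc (c : ZMod 3) : A0 := ⟨fun _ => c, by rw [mem_A0]; revert c; decide⟩

theorem zc_add (c d : ZMod 3) : zc (c + d) = zc c + zc d := rfl
theorem act_zc (σ : Pm) (c : ZMod 3) : act σ (zc c) = zc c := rfl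

/-- the scalar subgroup -/
def Z0 : Subgroup G where
  carrier := {g | ∃ c, g = mo (zc c) 1}
  one_mem' := ⟨0, by rw [← mo_one]; rfl⟩
  mul_mem' := by
    rintro _ _ ⟨c, rfl⟩ ⟨d, rfl⟩
    exact ⟨c + d, by rw [mo_mul, act_zc, zc_add, one_mul]⟩
  inv_mem' := by
    rintro _ ⟨c, rfl⟩
    exact ⟨-c, by rw [mo_inv, act_zc, inv_one]; rfl⟩

theorem mem_Z0 {g : G} : g ∈ Z0 ↔ ∃ c, g = mo (zc c) 1 := Iff.rfl

theorem mo_mem_Z0 {a : A0} {σ : Pm} : mo a σ ∈ Z0 ↔ σ = 1 ∧ ∃ c, a = zc c := by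
  constructor
  · rintro ⟨c, h⟩
    exact ⟨(mo_inj h).2, c, (mo_inj h).1⟩
  · rintro ⟨rfl, c, rfl⟩
    exact ⟨c, rfl⟩

theorem Z0_le_T : Z0 ≤ T := by
  rintro _ ⟨c, rfl⟩
  exact mem_T.2 ⟨_, rfl⟩

theorem card_Z0 : Nat.card Z0 = 3 := by
  have : Nat.card Z0 = Nat.card (ZMod 3) := by
    apply Nat.card_congr
    exact (Equiv.ofBijective (fun c : ZMod 3 => (⟨mo (zc c) 1, c, rfl⟩ : Z0)) ⟨by
      intro c d h
      have := (mo_inj (Subtype.ext_iff.1 h)).1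
      exact congrFun (Subtype.ext_iff.1 this) 0, by
      rintro ⟨_, c, rfl⟩
      exact ⟨c, rfl⟩⟩).symm
  rw [this, Nat.card_zmod]

theorem center_G : Subgroup.center (SU 6 K4 2) = Z0 := by
  ext g
  rw [ClUnitary.center_SU (F := K4) (q := 2) (n := 6) SU6K4.hF (by norm_num)]
  constructor
  · rintro ⟨c, hc⟩
    have hc0 : c ≠ 0 := by
      rintro rfl
      apply det_ne g
      change (g.1.1).det = 0
      rw [hc]; simp
    obtain ⟨a, rfl⟩ := e_surj c hc0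
    refine ⟨a, ext_mt ?_⟩
    change g.1.1 = monM (zc a).1 1
    rw [hc]
    ext i j
    rw [monM_apply]
    simp [Matrix.diagonal_apply, zc]
    rfl
  · rintro ⟨c, rfl⟩
    refine ⟨e c, ?_⟩
    change monM (zc c).1 1 = _
    ext i j
    rw [monM_apply]
    simp [Matrix.diagonal_apply, zc]
    rfl

/-- half-scalars -/
def yv (c d : ZMod 3) : A0 := ⟨![c, c, c, d, d, d], by rw [mem_A0]; revert c d; decide⟩

/-- the centre of the Sylow subgroup -/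
def Y : Subgroup G where
  carrier := {g | ∃ c d, g = mo (yv c d) 1}
  one_mem' := ⟨0, 0, by rw [← mo_one]; congr 1; decide⟩
  mul_mem' := by
    rintro _ _ ⟨c, d, rfl⟩ ⟨c', d', rfl⟩
    refine ⟨c + c', d + d', ?_⟩
    rw [mo_mul, act_one, one_mul]
    congr 1
    revert c d c' d'; decide
  inv_mem' := by
    rintro _ ⟨c, d, rfl⟩
    refine ⟨-c, -d, ?_⟩
    rw [mo_inv, inv_one, act_one]
    congr 1
    revert c d; decide

theorem mem_Y {g : G} : g ∈ Y ↔ ∃ c d, g = mo (yv c d) 1 := Iff.rfl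

theorem card_Y : Nat.card Y = 9 := by
  have : Nat.card Y = Nat.card (ZMod 3 × ZMod 3) := by
    apply Nat.card_congr
    exact (Equiv.ofBijective (fun c : ZMod 3 × ZMod 3 => (⟨mo (yv c.1 c.2) 1, c.1, c.2, rfl⟩ : Y)) ⟨by
      intro c d h
      have := (mo_inj (Subtype.ext_iff.1 h)).1
      exact Prod.ext (congrFun (Subtype.ext_iff.1 this) 0) (congrFun (Subtype.ext_iff.1 this) 3), by
      rintro ⟨_, c, d, rfl⟩
      exact ⟨(c, d), rfl⟩⟩).symm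
  rw [this, Nat.card_prod, Nat.card_zmod]

theorem Z0_le_Y : Z0 ≤ Y := by
  rintro _ ⟨c, rfl⟩
  refine ⟨c, c, ?_⟩
  congr 1
  revert c; decide

theorem Y_le_T : Y ≤ T := by
  rintro _ ⟨c, d, rfl⟩
  exact mem_T.2 ⟨_, rfl⟩

/-- commutators -/
theorem mo_comm {a b : A0} {σ τ : Pm} (h : σ * τ = τ * σ) :
    mo a σ * mo b τ * (mo a σ)⁻¹ * (mo b τ)⁻¹ = mo (a + act σ b - act τ a - b) 1 := by
  rw [mo_conj, mo_inv b τ, mo_mul]
  have h1 : σ * τ * σ⁻¹ = τ := by rw [h, mul_inv_cancel_right]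
  rw [h1, act_neg, act_act, mul_inv_cancel, act_one, sub_eq_add_neg, sub_eq_add_neg]

theorem comm_S {a b : A0} {σ τ : Pm} (hσ : σ ∈ C) (hτ : τ ∈ C) :
    mo a σ * mo b τ * (mo a σ)⁻¹ * (mo b τ)⁻¹ ∈ Z0 ↔ ∃ c, a + act σ b - act τ a - b = zc c := by
  rw [mo_comm (C_comm hσ hτ), mo_mem_Z0]
  simp

/-- the centre of `S` modulo scalars -/
theorem centre_mod {x : G} (hx : x ∈ S) (h : ∀ s ∈ S, x * s * x⁻¹ * s⁻¹ ∈ Z0) : x ∈ Y := by
  obtain ⟨a, σ, hσ, rfl⟩ := hx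
  have h1 : σ = 1 := by
    by_contra hne
    have key : ∀ σ ∈ LC, σ ≠ 1 → ∃ b ∈ [(![1, 2, 0, 0, 0, 0] : Fin 6 → ZMod 3), ![0, 0, 0, 1, 2, 0]], ∑ i, b i = 0 ∧
        ∀ c : ZMod 3, ¬ ∀ i, b (σ⁻¹ i) - b i = c := by decide +kernel
    obtain ⟨b, -, hb, hc⟩ := key σ hσ hne
    obtain ⟨c, h2⟩ := (comm_S hσ C.one_mem).1 (h (mo ⟨b, hb⟩ 1) (mo_mem.2 C.one_mem))
    apply hc c
    intro i
    have h3 := congrArg (fun x : A0 => x.1 i) h2
    simp only [act_one] at h3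
    have h4 : a.1 i + b (σ⁻¹ i) - a.1 i - b i = c := h3
    rw [← h4]; ring
  subst h1
  obtain ⟨c, h2⟩ := (comm_S C.one_mem σ1_mem).1 (h (mo 0 σ1) (mo_mem.2 σ1_mem))
  obtain ⟨d, h3⟩ := (comm_S C.one_mem σ2_mem).1 (h (mo 0 σ2) (mo_mem.2 σ2_mem))
  refine ⟨a.1 0, a.1 3, ?_⟩
  congr 1
  have h4 : ∀ i, a.1 i + 0 - a.1 (σ1⁻¹ i) - 0 = c := fun i => congrArg (fun x : A0 => x.1 i) h2
  have h5 : ∀ i, a.1 i + 0 - a.1 (σ2⁻¹ i) - 0 = d := fun i => congrArg (fun x : A0 => x.1 i) h3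
  have e0 : a.1 0 + 0 - a.1 2 - 0 = c := h4 0
  have e1 : a.1 1 + 0 - a.1 0 - 0 = c := h4 1
  have e3 : a.1 3 + 0 - a.1 3 - 0 = c := h4 3
  have f0 : a.1 0 + 0 - a.1 0 - 0 = d := h5 0
  have f3 : a.1 3 + 0 - a.1 5 - 0 = d := h5 3
  have f4 : a.1 4 + 0 - a.1 3 - 0 = d := h5 4
  have hc : c = 0 := by rw [← e3]; ring
  have hd : d = 0 := by rw [← f0]; ring
  apply Subtype.ext
  ext i
  fin_cases i
  · rfl
  · change a.1 1 = a.1 0; linear_combination e1 + hc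
  · change a.1 2 = a.1 0; linear_combination -e0 - hc
  · rfl
  · change a.1 4 = a.1 3; linear_combination f4 + hd
  · change a.1 5 = a.1 3; linear_combination -f3 - hd

/-- the permutation of a monomial element -/
noncomputable def ρM : ↥(Mn ⊤) →* Pm where
  toFun g := g.2.choose_spec.choose
  map_one' := by
    have h := (1 : ↥(Mn ⊤)).2.choose_spec.choose_spec.2
    exact (mo_inj (h.symm.trans (show ((1 : ↥(Mn ⊤)) : G) = mo 0 1 from mo_one.symm))).2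
  map_mul' g g' := by
    have h := (g * g').2.choose_spec.choose_spec.2
    have h1 := g.2.choose_spec.choose_spec.2
    have h2 := g'.2.choose_spec.choose_spec.2
    have h3 : ((g * g' : ↥(Mn ⊤)) : G) = _ := (congrArg₂ (· * ·) h1 h2).trans (mo_mul _ _ _ _)
    exact (mo_inj (h.symm.trans h3)).2

theorem ρM_mo {a : A0} {σ : Pm} (h : mo a σ ∈ Mn ⊤) : ρM ⟨mo a σ, h⟩ = σ := by
  have h1 := (⟨mo a σ, h⟩ : ↥(Mn ⊤)).2.choose_spec.choose_spec.2
  exact (mo_inj h1).2.symm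

/-- uniqueness of the abelian subgroup of order 243 -/
theorem uniq_T {A : Subgroup G} (hA : A ≤ S) (hc : Nat.card A = 243)
    (h : ∀ x ∈ A, ∀ y ∈ A, x * y * x⁻¹ * y⁻¹ ∈ Z0) : A = T := by
  have hAM : A ≤ Mn ⊤ := hA.trans (Mn_mono le_top)
  have hfin : Finite G := inferInstance
  let f : A →* Pm := ρM.comp (Subgroup.inclusion hAM)
  have hf : ∀ (a : A0) (σ : Pm) (h : mo a σ ∈ A), f ⟨mo a σ, h⟩ = σ := fun a σ h => ρM_mo _
  have hr : f.range ≤ C := by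
    rintro _ ⟨⟨x, hx⟩, rfl⟩
    obtain ⟨a, σ, hσ, rfl⟩ := hA hx
    rw [hf]; exact hσ
  have hcard : Nat.card f.ker * Nat.card f.range = 243 := by
    rw [← hc, ← Subgroup.index_ker, Subgroup.card_mul_index]
  have hdvd : Nat.card f.range ∣ 9 := by rw [← card_C]; exact Subgroup.card_dvd_of_le hr
  have hker : ∀ (p : (Fin 6 → ZMod 3) → Prop), (∀ a : A0, mo a 1 ∈ A → p a.1) →
      Nat.card f.ker ≤ Nat.card {a : Fin 6 → ZMod 3 // ∑ i, a i = 0 ∧ p a} := by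
    intro p hp
    have hm : ∀ x : f.ker, ∃ a : A0, (x : A).1 = mo a 1 := by
      rintro ⟨⟨x, hx⟩, hk⟩
      obtain ⟨a, σ, hσ, rfl⟩ := hA hx
      rw [MonoidHom.mem_ker, hf] at hk
      subst hk
      exact ⟨a, rfl⟩
    choose a ha using hm
    refine Nat.card_le_card_of_injective (fun x => ⟨(a x).1, (a x).2, hp _ (by rw [← ha]; exact (x : A).2)⟩) ?_
    intro x y hxy
    have : a x = a y := Subtype.ext (congrArg (fun z => z.1) hxy)
    apply Subtype.ext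
    apply Subtype.ext
    rw [ha, ha, this]
  have hcm : ∀ (a : A0) (_ : mo a 1 ∈ A) (b : A0) (σ : Pm) (_ : mo b σ ∈ A), σ ∈ C → ∃ c, ∀ i, a.1 (σ⁻¹ i) - a.1 i = c := by
    intro a ha b σ hb hσ
    obtain ⟨c, h2⟩ := (comm_S hσ C.one_mem).1 (h _ hb _ ha)
    refine ⟨c, fun i => ?_⟩
    have h3 := congrArg (fun x : A0 => x.1 i) h2
    simp only [act_one] at h3
    have h4 : b.1 i + a.1 (σ⁻¹ i) - b.1 i - a.1 i = c := h3
    rw [← h4]; ring
  have k1 : ∀ σ ∈ LC, σ ≠ 1 → Fintype.card {a : Fin 6 → ZMod 3 // ∑ i, a i = 0 ∧ ∃ c, ∀ i, a (σ⁻¹ i) - a i = c} ≤ 27 := by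
    decide +kernel
  have k2 : Fintype.card {a : Fin 6 → ZMod 3 // ∑ i, a i = 0 ∧ ((∃ c, ∀ i, a (σ1⁻¹ i) - a i = c) ∧
      ∃ c, ∀ i, a (σ2⁻¹ i) - a i = c)} ≤ 9 := by
    decide +kernel
  have hAT : A ≤ T := by
    rintro x hx
    obtain ⟨b, σ, hσ, rfl⟩ := hA hx
    have h1 : σ = 1 := by
      by_contra hne
      have e1 : Nat.card f.ker ≤ 27 := by
        refine (hker (fun a => ∃ c, ∀ i, a (σ⁻¹ i) - a i = c) (fun a ha => hcm a ha b σ hx hσ)).trans ?_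
        rw [Nat.card_eq_fintype_card]
        exact k1 σ hσ hne
      have e2 : Nat.card f.range = 9 := by
        have : Nat.card f.range ≤ 9 := Nat.le_of_dvd (by norm_num) hdvd
        have h3 : 243 ≤ 27 * Nat.card f.range := by rw [← hcard]; exact Nat.mul_le_mul_right _ e1
        omega
      have e3 : f.range = C := by
        apply Subgroup.eq_of_le_of_card_ge hr
        rw [card_C, e2]
      obtain ⟨⟨x1, hx1⟩, hs1⟩ : σ1 ∈ f.range := by rw [e3]; exact σ1_mem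
      obtain ⟨⟨x2, hx2⟩, hs2⟩ : σ2 ∈ f.range := by rw [e3]; exact σ2_mem
      obtain ⟨b1, τ1, hτ1, rfl⟩ := hA hx1
      obtain ⟨b2, τ2, hτ2, rfl⟩ := hA hx2
      rw [hf] at hs1 hs2
      subst hs1 hs2
      have e4 : Nat.card f.ker ≤ 9 := by
        refine (hker (fun a => (∃ c, ∀ i, a (σ1⁻¹ i) - a i = c) ∧ ∃ c, ∀ i, a (σ2⁻¹ i) - a i = c)
          (fun a ha => ⟨hcm a ha b1 _ hx1 hτ1, hcm a ha b2 _ hx2 hτ2⟩)).trans ?_
        rw [Nat.card_eq_fintype_card]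
        exact k2
      have : Nat.card f.ker * Nat.card f.range ≤ 9 * 9 := Nat.mul_le_mul e4 e2.le
      omega
    rw [h1]
    exact mem_T.2 ⟨b, rfl⟩
  exact Subgroup.eq_of_le_of_card_ge hAT (by rw [hc, card_T])

end Cfsg.Agent.Lib.U43
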