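import Cfsg.Agent.Lib.U43B

set_option autoImplicit false
set_option linter.style.haveILetI false
set_option linter.unusedVariables false
set_option linter.unusedSectionVars false

/-! # Block diagonal elements of `SU₆(2)` -/

namespace Cfsg.Agent.Lib.U43

open Matrix Cfsg Cfsg.Agent.Lib.K4 Cfsg.Agent.Lib.HermMat Cfsg.Agent.Lib.ClThreeTransU Cfsg.Agent.Lib.SU6K4

/-- unitary matrices -/
def Uni {n : ℕ} (M : Matrix (Fin n) (Fin n) K4) : Prop := (M.map (fun x => x ^ 2))ᵀ * M = 1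

instance {n : ℕ} (M : Matrix (Fin n) (Fin n) K4) : Decidable (Uni M) := inferInstanceAs (Decidable (_ = _))

theorem Uni.herm {n : ℕ} {M : Matrix (Fin n) (Fin n) K4} (h : Uni M) (u v : Fin n → K4) :
    hermForm n K4 2 (M *ᵥ u) (M *ᵥ v) = hermForm n K4 2 u v := by
  have h2 : (fun i => ((M *ᵥ v) i) ^ 2) = (M.map (fun x => x ^ 2)) *ᵥ (fun i => v i ^ 2) := by
    ext i
    simp only [Matrix.mulVec, dotProduct]
    rw [sum_pow_q SU6K4.hF]
    apply Finset.sum_congr rfl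
    intro j _
    rw [mul_pow, Matrix.map_apply]
  have h3 : ∀ u v : Fin n → K4, hermForm n K4 2 u v = (fun i => (v i) ^ 2) ⬝ᵥ u := by
    intro u v
    rw [hermForm_def, dotProduct]
    apply Finset.sum_congr rfl
    intro i _
    ring
  rw [h3, h3, h2, ← Matrix.vecMul_transpose, ← Matrix.dotProduct_mulVec, Matrix.mulVec_mulVec, show _ = _ from h,
    Matrix.one_mulVec]

theorem uni_mt (g : G) : Uni (mt g) := by
  unfold Uni
  ext k j
  have h := g.2 (Pi.single j 1) (Pi.single k 1)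
  change hermForm 6 K4 2 (mt g *ᵥ Pi.single j 1) (mt g *ᵥ Pi.single k 1) = hermForm 6 K4 2 (Pi.single j 1) (Pi.single k 1) at h
  rw [hermForm_single _ (by norm_num), Matrix.mulVec_single_one, Matrix.mulVec_single_one, hermForm_def] at h
  rw [Matrix.mul_apply, Matrix.one_apply]
  simp only [Matrix.transpose_apply, Matrix.map_apply]
  rw [Pi.single_apply] at h
  rw [← h]
  apply Finset.sum_congr rfl
  intro i _
  change mt g i k ^ 2 * mt g i j = mt g i j * mt g i k ^ 2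
  ring

/-- an element from a matrix -/
def mkG (M : Matrix (Fin 6) (Fin 6) K4) (h : Uni M) (hd : M.det = 1) : G := ⟨⟨M, hd⟩, fun u v => h.herm u v⟩

theorem mt_mkG (M : Matrix (Fin 6) (Fin 6) K4) (h : Uni M) (hd : M.det = 1) : mt (mkG M h hd) = M := rfl

/-- block matrices -/
def bd (A B : Matrix (Fin 3) (Fin 3) K4) : Matrix (Fin 6) (Fin 6) K4 :=
  (Matrix.fromBlocks A 0 0 B).submatrix (finSumFinEquiv (m := 3) (n := 3)).symm (finSumFinEquiv (m := 3) (n := 3)).symm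

theorem bd_mul (A B A' B' : Matrix (Fin 3) (Fin 3) K4) : bd A B * bd A' B' = bd (A * A') (B * B') := by
  unfold bd
  rw [Matrix.submatrix_mul_equiv, Matrix.fromBlocks_multiply]
  simp

theorem bd_one : bd 1 1 = 1 := by
  unfold bd
  rw [Matrix.fromBlocks_one, Matrix.submatrix_one_equiv]

theorem det_bd (A B : Matrix (Fin 3) (Fin 3) K4) : (bd A B).det = A.det * B.det := by
  unfold bd
  rw [Matrix.det_submatrix_equiv_self, Matrix.det_fromBlocks_zero₂₁]

theorem uni_bd {A B : Matrix (Fin 3) (Fin 3) K4} (hA : Uni A) (hB : Uni B) : Uni (bd A B) := by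
  unfold Uni
  have h : ((bd A B).map (fun x => x ^ 2))ᵀ = bd (A.map (fun x => x ^ 2))ᵀ (B.map (fun x => x ^ 2))ᵀ := by
    unfold bd
    rw [← Matrix.submatrix_map, Matrix.transpose_submatrix, Matrix.fromBlocks_map, Matrix.fromBlocks_transpose]
    congr 2 <;> ext i j <;> simp
  rw [h, bd_mul, show _ = _ from hA, show _ = _ from hB, bd_one]

/-- first half -/
def lo (i : Fin 3) : Fin 6 := Fin.castAdd 3 i
/-- second half -/
def hi (i : Fin 3) : Fin 6 := Fin.natAdd 3 i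

theorem sy_lo (i : Fin 3) : (finSumFinEquiv (m := 3) (n := 3)).symm (lo i) = Sum.inl i := finSumFinEquiv_symm_apply_castAdd i
theorem sy_hi (i : Fin 3) : (finSumFinEquiv (m := 3) (n := 3)).symm (hi i) = Sum.inr i := finSumFinEquiv_symm_apply_natAdd i

theorem bd_lo (A B : Matrix (Fin 3) (Fin 3) K4) (i j : Fin 3) : bd A B (lo i) (lo j) = A i j := by
  unfold bd; rw [Matrix.submatrix_apply, sy_lo, sy_lo]; rfl
theorem bd_hi (A B : Matrix (Fin 3) (Fin 3) K4) (i j : Fin 3) : bd A B (hi i) (hi j) = B i j := by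
  unfold bd; rw [Matrix.submatrix_apply, sy_hi, sy_hi]; rfl
theorem bd_lh (A B : Matrix (Fin 3) (Fin 3) K4) (i j : Fin 3) : bd A B (lo i) (hi j) = 0 := by
  unfold bd; rw [Matrix.submatrix_apply, sy_lo, sy_hi]; rfl
theorem bd_hl (A B : Matrix (Fin 3) (Fin 3) K4) (i j : Fin 3) : bd A B (hi i) (lo j) = 0 := by
  unfold bd; rw [Matrix.submatrix_apply, sy_lo, sy_hi]; rfl

theorem six (i : Fin 6) : (∃ k, i = lo k) ∨ ∃ k, i = hi k := by
  revert i; decide

/-- the quaternion group in `SU₃(2)` -/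
def q : Fin 8 → Matrix (Fin 3) (Fin 3) K4 := ![
  !![1, 0, 0; 0, 1, 0; 0, 0, 1], !![1, 0, 0; 0, 0, 1; 0, 1, 0],
  !![1, 1, 1; 1, om, om'; 1, om', om], !![1, 1, 1; 1, om', om; 1, om, om'],
  !![1, om, om; om', om, om'; om', om', om], !![1, om, om; om', om', om; om', om, om'],
  !![1, om', om'; om, om, om'; om, om', om], !![1, om', om'; om, om', om; om, om, om']]

def qm (a b : Fin 8) : Fin 8 := (![![0, 1, 2, 3, 4, 5, 6, 7], ![1, 0, 3, 2, 5, 4, 7, 6], ![2, 3, 1, 0, 7, 6, 4, 5], ![3, 2, 0, 1, 6, 7, 5, 4],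
  ![4, 5, 6, 7, 1, 0, 3, 2], ![5, 4, 7, 6, 0, 1, 2, 3], ![6, 7, 5, 4, 2, 3, 1, 0], ![7, 6, 4, 5, 3, 2, 0, 1]] : Fin 8 → Fin 8 → Fin 8) a b

def rt : Fin 8 → Fin 8 := ![0, 1, 4, 5, 6, 7, 2, 3]

theorem q_mul : ∀ a b, q a * q b = q (qm a b) := by decide +kernel
theorem q_zero : q 0 = 1 := by decide +kernel
theorem q_uni : ∀ a, Uni (q a) := by decide +kernel
theorem q_det : ∀ a, (q a).det = 1 := by
  intro a
  rw [Matrix.det_fin_three]
  revert a
  decide +kernel

/-- pairs -/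
def Q (a b : Fin 8) : G := mkG (bd (q a) (q b)) (uni_bd (q_uni a) (q_uni b)) (by rw [det_bd, q_det, q_det, mul_one])

theorem Q_mul (a b c d : Fin 8) : Q a b * Q c d = Q (qm a c) (qm b d) := by
  apply ext_mt
  rw [mt_mul]
  change bd _ _ * bd _ _ = bd _ _
  rw [bd_mul, q_mul, q_mul]

theorem Q_one : Q 0 0 = 1 := by
  apply ext_mt
  change bd _ _ = _
  rw [q_zero, bd_one]; rfl

/-- the rotation -/
def tt : A0 := ⟨![1, 0, 0, 2, 0, 0], by rw [mem_A0]; decide⟩

theorem tt_conj : ∀ a b, mo tt 1 * Q a b = Q (rt a) (rt (rt b)) * mo tt 1 := by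
  intro a b
  apply ext_mt
  ext i j
  rw [diag_mul, mul_diag]
  change e _ * bd (q a) (q b) i j = bd (q (rt a)) (q (rt (rt b))) i j * e _
  have h1 : ∀ (a : Fin 8) (i j : Fin 3), e (tt.1 (lo i)) * q a i j = q (rt a) i j * e (tt.1 (lo j)) := by decide +kernel
  have h2 : ∀ (a : Fin 8) (i j : Fin 3), e (tt.1 (hi i)) * q a i j = q (rt (rt a)) i j * e (tt.1 (hi j)) := by decide +kernel
  rcases six i with ⟨i, rfl⟩ | ⟨i, rfl⟩ <;> rcases six j with ⟨j, rfl⟩ | ⟨j, rfl⟩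
  · rw [bd_lo, bd_lo, h1]
  · rw [bd_lh, bd_lh, mul_zero, zero_mul]
  · rw [bd_hl, bd_hl, mul_zero, zero_mul]
  · rw [bd_hi, bd_hi, h2]

/-- elements with monomial pattern -/
theorem mono_of {g : G} {σ : Pm} (h : ∀ i j, i ≠ σ j → mt g i j = 0) : ∃ a, g = mo a σ := by
  have h2 : ∀ i, mt g i (σ⁻¹ i) ≠ 0 := by
    intro i
    obtain ⟨k, hk⟩ := col_ne g (σ⁻¹ i)
    by_cases hki : k = σ (σ⁻¹ i)
    · rw [app_inv] at hki
      subst hki
      exact hk
    · exact absurd (h _ _ hki) hk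
  choose a ha using fun i => e_surj _ (h2 i)
  have h3 : mt g = monM a σ := by
    ext i j
    rw [monM_apply]
    split_ifs with hij
    · rw [ha, hij, inv_app]
    · exact h i j hij
  have h4 : ∑ i, a i = 0 := by
    apply e_inj
    rw [← det_monM a σ, ← h3, e_zero]
    exact (g : SpecialLinearGroup (Fin 6) K4).2
  exact ⟨⟨a, h4⟩, ext_mt h3⟩

end Cfsg.Agent.Lib.U43
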