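import Cfsg.Agent.Lib.U43C

set_option autoImplicit false
set_option linter.style.haveILetI false
set_option linter.unusedVariables false
set_option linter.unusedSectionVars false

/-! # The second parabolic: elements normalising the centre of the Sylow 3-subgroup -/

namespace Cfsg.Agent.Lib.U43

open Matrix Cfsg Cfsg.Agent.Lib.K4 Cfsg.Agent.Lib.HermMat Cfsg.Agent.Lib.ClThreeTransU Cfsg.Agent.Lib.SU6K4

/-- vectors of length three -/
abbrev V3 := K4 × K4 × K4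
/-- hermitian product -/
def h3 (u v : V3) : K4 := u.1 * (v.1 * v.1) + (u.2.1 * (v.2.1 * v.2.1) + u.2.2 * (v.2.2 * v.2.2))
/-- matrix with given columns -/
def cm (x y z : V3) : Matrix (Fin 3) (Fin 3) K4 := !![x.1, y.1, z.1; x.2.1, y.2.1, z.2.1; x.2.2, y.2.2, z.2.2]

/-- even permutations of three letters -/
def L3 : List (Fin 3 → Fin 3) := [![0, 1, 2], ![1, 2, 0], ![2, 0, 1]]

def pat (τ : Fin 3 → Fin 3) (M : Matrix (Fin 3) (Fin 3) K4) : Bool :=
  decide (∀ j : Fin 3, ∀ i : Fin 3, i = τ j ∨ M i j = 0)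

def good (x y z : V3) : Bool := (List.finRange 8).any fun a => L3.any fun τ => pat τ (q a * cm x y z)

theorem enum3 : ∀ x : V3, h3 x x = 1 → ∀ y : V3, h3 y y = 1 → h3 x y = 0 → ∀ z : V3, h3 z z = 1 → h3 x z = 0 → h3 y z = 0 →
    good x y z = true := by decide +kernel

theorem uni_entry {n : ℕ} {M : Matrix (Fin n) (Fin n) K4} (h : Uni M) (k j : Fin n) :
    ∑ i, M i k ^ 2 * M i j = if k = j then 1 else 0 := by
  have h1 := congrFun (congrFun (show _ = _ from h) k) j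
  rw [Matrix.mul_apply, Matrix.one_apply] at h1
  exact h1

theorem uni_good {A : Matrix (Fin 3) (Fin 3) K4} (hA : Uni A) :
    ∃ a : Fin 8, ∃ τ ∈ L3, ∀ i j, i ≠ τ j → (q a * A) i j = 0 := by
  have h : ∀ k j, h3 (A 0 j, A 1 j, A 2 j) (A 0 k, A 1 k, A 2 k) = if k = j then 1 else 0 := by
    intro k j
    rw [← uni_entry hA k j, Fin.sum_univ_three]
    simp only [h3]
    ring
  have hc : cm (A 0 0, A 1 0, A 2 0) (A 0 1, A 1 1, A 2 1) (A 0 2, A 1 2, A 2 2) = A := by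
    ext i j
    fin_cases i <;> fin_cases j <;> rfl
  have h4 := enum3 _ (h 0 0) _ (h 1 1) (h 1 0) _ (h 2 2) (h 2 0) (h 2 1)
  rw [good, hc, List.any_eq_true] at h4
  obtain ⟨a, -, h5⟩ := h4
  rw [List.any_eq_true] at h5
  obtain ⟨τ, hτ, h6⟩ := h5
  have h7 := of_decide_eq_true h6
  exact ⟨a, τ, hτ, fun i j hij => (h7 j i).resolve_left hij⟩

/-- block diagonal elements -/
def IsBd (g : G) : Prop := ∀ i j, mt g (lo i) (hi j) = 0 ∧ mt g (hi i) (lo j) = 0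

theorem bd_coset {g : G} (h : IsBd g) : ∃ a b : Fin 8, Q a b * g ∈ S := by
  set A : Matrix (Fin 3) (Fin 3) K4 := Matrix.of fun i j => mt g (lo i) (lo j) with hA
  set B : Matrix (Fin 3) (Fin 3) K4 := Matrix.of fun i j => mt g (hi i) (hi j) with hB
  have hg : mt g = bd A B := by
    ext i j
    rcases six i with ⟨i, rfl⟩ | ⟨i, rfl⟩ <;> rcases six j with ⟨j, rfl⟩ | ⟨j, rfl⟩
    · rw [bd_lo]; rfl
    · rw [bd_lh, (h i j).1]
    · rw [bd_hl, (h i j).2]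
    · rw [bd_hi]; rfl
  have hU : Uni (bd A B) := by rw [← hg]; exact uni_mt g
  have hs : ∀ f : Fin 6 → K4, ∑ i, f i = ∑ i, f (lo i) + ∑ i, f (hi i) := fun f => Fin.sum_univ_add (a := 3) (b := 3) f
  have hUA : Uni A := by
    unfold Uni
    ext k j
    have h1 := uni_entry hU (lo k) (lo j)
    rw [hs] at h1
    simp only [bd_lo, bd_hl, mul_zero, Finset.sum_const_zero, add_zero] at h1
    rw [Matrix.mul_apply, Matrix.one_apply]
    refine Eq.trans h1 ?_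
    have : ∀ k j : Fin 3, (lo k = lo j) ↔ k = j := by decide
    simp only [this]
  have hUB : Uni B := by
    unfold Uni
    ext k j
    have h1 := uni_entry hU (hi k) (hi j)
    rw [hs] at h1
    simp only [bd_hi, bd_lh, mul_zero, Finset.sum_const_zero, zero_add] at h1
    rw [Matrix.mul_apply, Matrix.one_apply]
    refine Eq.trans h1 ?_
    have : ∀ k j : Fin 3, (hi k = hi j) ↔ k = j := by decide
    simp only [this]
  obtain ⟨a, τ, hτ, h1⟩ := uni_good hUA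
  obtain ⟨b, τ', hτ', h2⟩ := uni_good hUB
  obtain ⟨σ, hσ, h3⟩ : ∃ σ ∈ LC, ∀ j, σ (lo j) = lo (τ j) ∧ σ (hi j) = hi (τ' j) := by
    have : ∀ τ ∈ L3, ∀ τ' ∈ L3, ∃ σ ∈ LC, ∀ j, σ (lo j) = lo (τ j) ∧ σ (hi j) = hi (τ' j) := by decide +kernel
    exact this τ hτ τ' hτ'
  refine ⟨a, b, ?_⟩
  have hm : mt (Q a b * g) = bd (q a * A) (q b * B) := by
    rw [mt_mul, hg]
    exact bd_mul _ _ _ _
  obtain ⟨α, hα⟩ := mono_of (g := Q a b * g) (σ := σ) (by
    intro i j hij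
    rw [hm]
    rcases six i with ⟨i, rfl⟩ | ⟨i, rfl⟩ <;> rcases six j with ⟨j, rfl⟩ | ⟨j, rfl⟩
    · rw [bd_lo]
      exact h1 i j (fun h => hij (by rw [(h3 j).1, h]))
    · rw [bd_lh]
    · rw [bd_hl]
    · rw [bd_hi]
      exact h2 i j (fun h => hij (by rw [(h3 j).2, h])))
  rw [hα]
  exact mo_mem.2 hσ

/-- the swap of the halves, an even permutation -/
def sw : Pm := ⟨![3, 4, 5, 0, 2, 1], ![3, 5, 4, 0, 1, 2], by decide, by decide⟩

theorem sw_even : Equiv.Perm.sign sw = 1 := by decide +kernel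

/-- elements normalising `Y` -/
theorem norm_Y {g : G} (h : ∀ y ∈ Y, g * y * g⁻¹ ∈ Y) : IsBd g ∨ IsBd (mo 0 sw * g) := by
  obtain ⟨c, d, hcd⟩ := h _ ⟨1, 0, rfl⟩
  have h1 : g * mo (yv 1 0) 1 = mo (yv c d) 1 * g := by rw [← hcd]; group
  have h2 : ∀ i j, mt g i j ≠ 0 → (yv 1 0).1 j = (yv c d).1 i := by
    intro i j hij
    have e1 : mt g i j * e ((yv 1 0).1 j) = e ((yv c d).1 i) * mt g i j := by rw [← mul_diag, ← diag_mul, h1]
    rw [mul_comm] at e1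
    exact e_inj _ _ (mul_right_cancel₀ hij e1)
  have hlo : ∀ (c d : ZMod 3) (k : Fin 3), (yv c d).1 (lo k) = c := by decide
  have hhi : ∀ (c d : ZMod 3) (k : Fin 3), (yv c d).1 (hi k) = d := by decide
  obtain ⟨i, hi0⟩ := col_ne g (lo 0)
  obtain ⟨j, hj0⟩ := col_ne g (hi 0)
  have e1 := h2 _ _ hi0
  have e2 := h2 _ _ hj0
  rw [hlo] at e1
  rw [hhi] at e2
  have hcases : (c = 1 ∧ d = 0) ∨ (c = 0 ∧ d = 1) := by
    rcases six i with ⟨i, rfl⟩ | ⟨i, rfl⟩ <;> rcases six j with ⟨j, rfl⟩ | ⟨j, rfl⟩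
    · rw [hlo] at e1 e2
      rw [← e1] at e2; exact absurd e2 (by decide)
    · rw [hlo] at e1; rw [hhi] at e2; exact Or.inl ⟨e1.symm, e2.symm⟩
    · rw [hhi] at e1; rw [hlo] at e2; exact Or.inr ⟨e2.symm, e1.symm⟩
    · rw [hhi] at e1 e2
      rw [← e1] at e2; exact absurd e2 (by decide)
  rcases hcases with ⟨rfl, rfl⟩ | ⟨rfl, rfl⟩
  · left
    intro i j
    constructor
    · by_contra hc
      have := h2 _ _ hc
      rw [hlo, hhi] at this
      exact absurd this (by decide)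
    · by_contra hc
      have := h2 _ _ hc
      rw [hlo, hhi] at this
      exact absurd this (by decide)
  · right
    have hz1 : ∀ i j, mt g (lo i) (lo j) = 0 := by
      intro i j
      by_contra hc
      have := h2 _ _ hc
      rw [hlo, hlo] at this
      exact absurd this (by decide)
    have hz2 : ∀ i j, mt g (hi i) (hi j) = 0 := by
      intro i j
      by_contra hc
      have := h2 _ _ hc
      rw [hhi, hhi] at this
      exact absurd this (by decide)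
    have hm : ∀ i j, mt (mo 0 sw * g) i j = mt g (sw⁻¹ i) j := by
      intro i j
      have := congrFun (Matrix.mulVec_mulVec (Pi.single j 1) (mt (mo 0 sw)) (mt g)) i
      rw [Matrix.mulVec_single_one, mo_mulVec] at this
      rw [Matrix.mulVec_single_one] at this
      rw [mt_mul]
      refine this.symm.trans ?_
      change e 0 * mt g (sw⁻¹ i) j = _
      rw [e_zero, one_mul]
    intro i j
    constructor
    · rw [hm]
      obtain ⟨k, hk⟩ : ∃ k, sw⁻¹ (lo i) = hi k := by revert i; decide +kernel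
      rw [hk]; exact hz2 _ _
    · rw [hm]
      obtain ⟨k, hk⟩ : ∃ k, sw⁻¹ (hi i) = lo k := by revert i; decide +kernel
      rw [hk]; exact hz1 _ _

/-- a transposition in the first half -/
def p1 : Pm := Equiv.swap 1 2
/-- a transposition in the second half -/
def p2 : Pm := Equiv.swap 4 5

theorem q_one : q 1 = !![1, 0, 0; 0, 0, 1; 0, 1, 0] := rfl

theorem Q10 : Q 1 0 = mo 0 p1 := by
  apply ext_mt
  ext i j
  rw [mt_mo, monM_apply]
  change bd (q 1) (q 0) i j = _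
  rcases six i with ⟨i, rfl⟩ | ⟨i, rfl⟩ <;> rcases six j with ⟨j, rfl⟩ | ⟨j, rfl⟩
  · rw [bd_lo]
    have h : ∀ i j : Fin 3, (1 : K4) * q 1 i j = if lo i = p1 (lo j) then (1 : K4) else 0 := by decide +kernel
    rw [← one_mul (q 1 i j)]; exact h i j
  · rw [bd_lh]; revert i j; decide +kernel
  · rw [bd_hl]; revert i j; decide +kernel
  · rw [bd_hi]
    have h : ∀ i j : Fin 3, (1 : K4) * q 0 i j = if hi i = p1 (hi j) then (1 : K4) else 0 := by decide +kernel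
    rw [← one_mul (q 0 i j)]; exact h i j

theorem Q01 : Q 0 1 = mo 0 p2 := by
  apply ext_mt
  ext i j
  rw [mt_mo, monM_apply]
  change bd (q 0) (q 1) i j = _
  rcases six i with ⟨i, rfl⟩ | ⟨i, rfl⟩ <;> rcases six j with ⟨j, rfl⟩ | ⟨j, rfl⟩
  · rw [bd_lo]
    have h : ∀ i j : Fin 3, (1 : K4) * q 0 i j = if lo i = p2 (lo j) then (1 : K4) else 0 := by decide +kernel
    rw [← one_mul (q 0 i j)]; exact h i j
  · rw [bd_lh]; revert i j; decide +kernel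
  · rw [bd_hl]; revert i j; decide +kernel
  · rw [bd_hi]
    have h : ∀ i j : Fin 3, (1 : K4) * q 1 i j = if hi i = p2 (hi j) then (1 : K4) else 0 := by decide +kernel
    rw [← one_mul (q 1 i j)]; exact h i j

/-- the monomial group with even permutations -/
abbrev M0 : Subgroup G := Mn (alternatingGroup (Fin 6))

theorem mo_mem_M0 {a : A0} {σ : Pm} : mo a σ ∈ M0 ↔ Equiv.Perm.sign σ = 1 := by
  rw [mo_mem, Equiv.Perm.mem_alternatingGroup]

theorem C_le : C ≤ alternatingGroup (Fin 6) := by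
  intro σ hσ
  rw [Equiv.Perm.mem_alternatingGroup]
  have : ∀ σ ∈ LC, Equiv.Perm.sign σ = 1 := by decide +kernel
  exact this σ hσ

theorem S_le_M0 : S ≤ M0 := Mn_mono C_le

theorem Q11 : Q 1 1 ∈ M0 := by
  have : Q 1 1 = Q 1 0 * Q 0 1 := by rw [Q_mul]; rfl
  rw [this, Q10, Q01, mo_mul, mo_mem_M0]
  decide +kernel

/-- the main step -/
theorem find_h {K : Subgroup G} (hM : M0 ≤ K) (ho1 : mo 0 p1 ∉ K) (ho2 : mo 0 p2 ∉ K) {g : G} (hg : g ∈ K)
    (hY : ∀ y ∈ Y, g * y * g⁻¹ ∈ Y) (hn : g ∉ M0) : Q 2 3 ∈ K ∨ Q 2 5 ∈ K ∨ Q 2 7 ∈ K := by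
  obtain ⟨g', hg', hb, hn'⟩ : ∃ g' ∈ K, IsBd g' ∧ g' ∉ M0 := by
    have hs : mo 0 sw ∈ M0 := mo_mem_M0.2 sw_even
    rcases norm_Y hY with h | h
    · exact ⟨g, hg, h, hn⟩
    · refine ⟨_, K.mul_mem (hM hs) hg, h, fun hc => hn ?_⟩
      exact (Subgroup.mul_mem_cancel_left _ hs).1 hc
  obtain ⟨a, b, hab⟩ := bd_coset hb
  have hQ : Q a b ∈ K := (Subgroup.mul_mem_cancel_right _ hg').1 (hM (S_le_M0 hab))
  have hne : Q a b ∉ M0 := fun hc => hn' ((Subgroup.mul_mem_cancel_left _ hc).1 (S_le_M0 hab))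
  have hne0 : ¬ (a = 0 ∧ b = 0) := by
    rintro ⟨rfl, rfl⟩
    apply hne; rw [Q_one]; exact one_mem _
  have hne1 : ¬ (a = 1 ∧ b = 1) := by
    rintro ⟨rfl, rfl⟩
    exact hne Q11
  rw [← Q10] at ho1
  rw [← Q01] at ho2
  have hmul : ∀ {a b c d}, Q a b ∈ K → Q c d ∈ K → Q (qm a c) (qm b d) ∈ K := by
    intro a b c d h1 h2
    rw [← Q_mul]; exact K.mul_mem h1 h2
  have htt : mo tt 1 ∈ K := hM (mo_mem_M0.2 (by simp))
  have hrt : ∀ {a b}, Q a b ∈ K → Q (rt a) (rt (rt b)) ∈ K := by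
    intro a b h
    have : Q (rt a) (rt (rt b)) = mo tt 1 * Q a b * (mo tt 1)⁻¹ := by rw [tt_conj]; group
    rw [this]
    exact K.mul_mem (K.mul_mem htt h) (K.inv_mem htt)
  have h11 : Q 1 1 ∈ K := hM Q11
  have d1 := hmul hQ hQ
  have r1 := hrt hQ
  have r2 := hrt r1
  have d2 := hmul (hmul hQ r1) r2
  have key : ∀ a b : Fin 8, ¬ (a = 0 ∧ b = 0) → ¬ (a = 1 ∧ b = 1) →
      ((a = 1 ∧ b = 0) ∨ (a = 0 ∧ b = 1)) ∨
      ((qm a a = 1 ∧ qm b b = 0) ∨ (qm a a = 0 ∧ qm b b = 1)) ∨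
      ((qm (qm a (rt a)) (rt (rt a)) = 1 ∧ qm (qm b (rt (rt b))) (rt (rt (rt (rt b)))) = 0) ∨
       (qm (qm a (rt a)) (rt (rt a)) = 0 ∧ qm (qm b (rt (rt b))) (rt (rt (rt (rt b)))) = 1)) ∨
      (a = 2 ∧ (b = 3 ∨ b = 5 ∨ b = 7)) ∨ (rt a = 2 ∧ (rt (rt b) = 3 ∨ rt (rt b) = 5 ∨ rt (rt b) = 7)) ∨
      (rt (rt a) = 2 ∧ (rt (rt (rt (rt b))) = 3 ∨ rt (rt (rt (rt b))) = 5 ∨ rt (rt (rt (rt b))) = 7)) ∨
      (qm a 1 = 2 ∧ (qm b 1 = 3 ∨ qm b 1 = 5 ∨ qm b 1 = 7)) ∨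
      (qm (rt a) 1 = 2 ∧ (qm (rt (rt b)) 1 = 3 ∨ qm (rt (rt b)) 1 = 5 ∨ qm (rt (rt b)) 1 = 7)) ∨
      (qm (rt (rt a)) 1 = 2 ∧ (qm (rt (rt (rt (rt b)))) 1 = 3 ∨ qm (rt (rt (rt (rt b)))) 1 = 5 ∨ qm (rt (rt (rt (rt b)))) 1 = 7)) := by
    decide +kernel
  have fin : ∀ {a b}, Q a b ∈ K → (a = 2 ∧ (b = 3 ∨ b = 5 ∨ b = 7)) → Q 2 3 ∈ K ∨ Q 2 5 ∈ K ∨ Q 2 7 ∈ K := by
    rintro a b h ⟨rfl, rfl | rfl | rfl⟩
    · exact Or.inl h
    · exact Or.inr (Or.inl h)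
    · exact Or.inr (Or.inr h)
  have bad : ∀ {a b}, Q a b ∈ K → ((a = 1 ∧ b = 0) ∨ (a = 0 ∧ b = 1)) → False := by
    rintro a b h (⟨rfl, rfl⟩ | ⟨rfl, rfl⟩)
    · exact ho1 h
    · exact ho2 h
  rcases key a b hne0 hne1 with h | h | h | h | h | h | h | h | h
  · exact (bad hQ h).elim
  · exact (bad d1 h).elim
  · exact (bad d2 h).elim
  · exact fin hQ h
  · exact fin r1 h
  · exact fin r2 h
  · exact fin (hmul hQ h11) h
  · exact fin (hmul r1 h11) h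
  · exact fin (hmul r2 h11) h

end Cfsg.Agent.Lib.U43
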