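import Cfsg.Agent.Lib.U43E
import Cfsg.Agent.Lib.ClOmega
import Cfsg.Agent.Lib.SUTransport
import Cfsg.Agent.S0303
import Cfsg.Agent.S0283

set_option autoImplicit false
set_option linter.style.haveILetI false
set_option linter.unusedVariables false
set_option linter.unusedSectionVars false

/-! # The reflections of `O₆⁻(3)` -/

namespace Cfsg.Agent.Lib.U43

open Cfsg.Agent.Lib.Quad QuadraticMap Module Cfsg.Agent.Lib.ClOrthSiegel Cfsg.Agent.Lib.ClOmega

/-- coordinates -/
abbrev I3 := (Fin 2 ⊕ Fin 2) ⊕ Fin 2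
/-- the space -/
abbrev W := I3 → ZMod 3
/-- the form -/
noncomputable abbrev Qf : QuadraticForm (ZMod 3) W := quadMinus 2 (ZMod 3) 0 1

theorem hQf : Nd Qf := nd_quadMinus (by decide)
theorem hRf : R Qf = O Qf := hQf.R_eq_O (genHyp_minus 2 le_rfl 0 1)
theorem hgenf : GenHyp Qf := genHyp_minus 2 le_rfl 0 1
theorem h2f : (2 : ZMod 3) ≠ 0 := by decide

/-- position of a coordinate -/
def pos : I3 → ℕ
  | .inl (.inl k) => k.val
  | .inl (.inr k) => 2 + k.val
  | .inr k => 4 + k.val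

/-- digit -/
def dg (n k : ℕ) : ℕ := (n >>> (2 * k)) % 4

/-- vector of a code -/
def vb (n : ℕ) : W := fun x => (dg n (pos x) : ZMod 3)

def qN (n : ℕ) : ℕ := (dg n 0 * dg n 2 + dg n 1 * dg n 3 + dg n 4 * dg n 4 + dg n 5 * dg n 5) % 3
def bN (u x : ℕ) : ℕ := (dg u 0 * dg x 2 + dg u 2 * dg x 0 + dg u 1 * dg x 3 + dg u 3 * dg x 1 + 2 * (dg u 4 * dg x 4) + 2 * (dg u 5 * dg x 5)) % 3

theorem Q_vb (n : ℕ) : Qf (vb n) = (qN n : ZMod 3) := by
  change Cfsg.quadFormMinus 2 (ZMod 3) 0 1 _ = _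
  unfold Cfsg.quadFormMinus qN
  rw [Fin.sum_univ_two, ZMod.natCast_mod]
  push_cast
  change (dg n 0 : ZMod 3) * (dg n 2 : ZMod 3) + (dg n 1 : ZMod 3) * (dg n 3 : ZMod 3) + ((dg n 4 : ZMod 3) ^ 2 + 0 * (dg n 4 : ZMod 3) * (dg n 5 : ZMod 3) +
    1 * (dg n 5 : ZMod 3) ^ 2) = _
  ring

theorem polar_vb (u x : ℕ) : polar Qf (vb u) (vb x) = (bN u x : ZMod 3) := by
  change polar (Cfsg.quadFormMinus 2 (ZMod 3) 0 1) _ _ = _
  rw [polar_quadMinus, Fin.sum_univ_two]
  unfold bN
  rw [ZMod.natCast_mod]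
  push_cast
  change (dg u 0 : ZMod 3) * (dg x 2 : ZMod 3) + (dg u 2 : ZMod 3) * (dg x 0 : ZMod 3) + ((dg u 1 : ZMod 3) * (dg x 3 : ZMod 3) +
    (dg u 3 : ZMod 3) * (dg x 1 : ZMod 3)) + (2 * (dg u 4 : ZMod 3) * (dg x 4 : ZMod 3) + 0 * ((dg u 4 : ZMod 3) * (dg x 5 : ZMod 3) + (dg u 5 : ZMod 3) * (dg x 4 : ZMod 3)) +
    2 * 1 * (dg u 5 : ZMod 3) * (dg x 5 : ZMod 3)) = _
  ring

/-- check of one reflection -/
def chkB1 (u x w : ℕ) : Bool :=
  ((List.range 6).all fun k => Nat.beq ((dg x k + (3 - bN u x) * dg u k) % 3) (dg w k)) ||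
  ((List.range 6).all fun k => Nat.beq ((dg x k + (3 - bN u x) * dg u k) % 3) ((2 * dg w k) % 3))

def chkB : Bool := (List.range 126).all fun i => (List.range 126).all fun j => chkB1 (cb i) (cb j) (cb (mm i j))

theorem chkB_true : chkB = true := by decide +kernel

theorem q_cb : ∀ i < 126, qN (cb i) = 1 := by decide +kernel

theorem bN_lt (u x : ℕ) : bN u x < 3 := Nat.mod_lt _ (by norm_num)

theorem chkB1_spec {u x w : ℕ} (h : chkB1 u x w = true) :
    ∃ s : ZMod 3, s ≠ 0 ∧ vb x - (bN u x : ZMod 3) • vb u = s • vb w := by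
  have hp : ∀ x : I3, pos x ∈ List.range 6 := by decide
  have e1 : ∀ k, (((dg x k + (3 - bN u x) * dg u k) % 3 : ℕ) : ZMod 3) = (dg x k : ZMod 3) - (bN u x : ZMod 3) * (dg u k : ZMod 3) := by
    intro k
    rw [ZMod.natCast_mod]
    have h1 : ((3 - bN u x : ℕ) : ZMod 3) = -(bN u x : ZMod 3) := by
      rw [Nat.cast_sub (bN_lt u x).le]
      have : ((3 : ℕ) : ZMod 3) = 0 := by decide
      rw [this, zero_sub]
    push_cast
    rw [h1]; ring
  unfold chkB1 at h
  rw [Bool.or_eq_true, List.all_eq_true, List.all_eq_true] at h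
  rcases h with h | h
  · refine ⟨1, by decide, ?_⟩
    ext y
    have h2 := Nat.eq_of_beq_eq_true (h _ (hp y))
    have h3 := congrArg (Nat.cast : ℕ → ZMod 3) h2
    rw [e1] at h3
    simp only [Pi.sub_apply, Pi.smul_apply, smul_eq_mul, vb, one_mul]
    exact h3
  · refine ⟨2, by decide, ?_⟩
    ext y
    have h2 := Nat.eq_of_beq_eq_true (h _ (hp y))
    have h3 := congrArg (Nat.cast : ℕ → ZMod 3) h2
    rw [e1, ZMod.natCast_mod] at h3
    simp only [Pi.sub_apply, Pi.smul_apply, smul_eq_mul, vb]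
    rw [h3]; push_cast; rfl

/-- the vectors of norm one -/
def ub (i : Fin 126) : W := vb (cb i)

theorem Q_ub (i : Fin 126) : Qf (ub i) = 1 := by
  unfold ub
  rw [Q_vb, q_cb i i.2]; rfl

theorem refl_ub (i j : Fin 126) : ∃ s : ZMod 3, s ≠ 0 ∧ refl Qf (ub i) (ub j) = s • ub (mF i j) := by
  have h1 := chkB_true
  unfold chkB at h1
  rw [List.all_eq_true] at h1
  have h2 := h1 i (List.mem_range.2 i.2)
  rw [List.all_eq_true] at h2
  obtain ⟨s, hs, h3⟩ := chkB1_spec (h2 j (List.mem_range.2 j.2))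
  refine ⟨s, hs, ?_⟩
  rw [refl_apply (by rw [Q_ub]; decide), Q_ub]
  unfold ub
  rw [polar_vb, inv_one, one_mul]
  exact h3

/-- the reflections -/
noncomputable def rg (i : Fin 126) : W ≃ₗ[ZMod 3] W := refl Qf (ub i)

theorem rg_conj (i j : Fin 126) : rg i * rg j * (rg i)⁻¹ = rg (mF i j) := by
  unfold rg
  rw [refl_conj (refl_mem _)]
  obtain ⟨s, hs, h⟩ := refl_ub i j
  rw [h, refl_smul hs]

theorem refl_mul_mem {u w : W} (h : Qf u ≠ 0) (h' : Qf u = Qf w) : refl Qf u * refl Qf w ∈ Om Qf := by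
  obtain ⟨z, hz, hz2⟩ := refl_mul_refl_eq_sq h2f h (by rw [← h']; exact h) (by rw [h']; exact ⟨_, rfl⟩)
  rw [hz2]
  have h1 := Subgroup.commutator_mem_commutator (refl_mem (Q := Qf) u) (refl_mem (Q := Qf) z)
  rw [commutatorElement_def, refl_inv, refl_inv] at h1
  rw [← mul_assoc] 
  exact h1

theorem rg_mul_mem (i j : Fin 126) : rg i * rg j ∈ Om Qf :=
  refl_mul_mem (by rw [Q_ub]; decide) (by rw [Q_ub, Q_ub])

theorem eq_of_refl {u w : W} (hu : Qf u ≠ 0) (hw : Qf w ≠ 0) (h : refl Qf u = refl Qf w) : ∃ s : ZMod 3, u = s • w := by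
  have h1 : refl Qf w u = -u := by rw [← h, refl_self hu]
  rw [refl_apply hw] at h1
  refine ⟨2 * ((Qf w)⁻¹ * polar Qf w u), ?_⟩
  set c := (Qf w)⁻¹ * polar Qf w u
  have h3 : (3 : ZMod 3) = 0 := by decide
  have h2 : c • w = (2 : ZMod 3) • u := by
    have : c • w = u + u := by
      rw [sub_eq_iff_eq_add] at h1
      nth_rewrite 2 [h1]
      abel
    rw [this, two_smul]
  rw [mul_smul, h2, smul_smul]
  have : (2 : ZMod 3) * 2 = 1 := by decide
  rw [this, one_smul]

def ne3 (u w : ℕ) : Bool := !((List.range 6).all fun k => Nat.beq (dg u k % 3) (dg w k % 3)) &&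
  !((List.range 6).all fun k => Nat.beq (dg u k % 3) ((2 * dg w k) % 3))

theorem pos_surj : ∀ k < 6, ∃ y : I3, pos y = k := by decide

theorem vb_digits {u w s : ℕ} (h : vb u = (s : ZMod 3) • vb w) : ∀ k < 6, dg u k % 3 = (s * dg w k) % 3 := by
  intro k hk
  obtain ⟨y, rfl⟩ := pos_surj k hk
  have h1 := congrFun h y
  simp only [vb, Pi.smul_apply, smul_eq_mul] at h1
  rw [← Nat.cast_mul] at h1
  exact (ZMod.natCast_eq_natCast_iff' _ _ 3).1 h1

theorem ub_ne {i j : Fin 126} (h : i ≠ j) (s : ZMod 3) : ub i ≠ s • ub j := by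
  intro hs
  have k1 : ∀ i < 126, ∀ j < 126, i ≠ j → ne3 (cb i) (cb j) = true := by decide +kernel
  have h1 := k1 i i.2 j j.2 (fun h' => h (Fin.ext h'))
  unfold ne3 at h1
  rw [Bool.and_eq_true, Bool.not_eq_true', Bool.not_eq_true'] at h1
  have hc : ∀ s : ZMod 3, s = 0 ∨ s = ((1 : ℕ) : ZMod 3) ∨ s = ((2 : ℕ) : ZMod 3) := by decide
  rcases hc s with rfl | rfl | rfl
  · have h2 := Q_ub i
    rw [hs, zero_smul, QuadraticMap.map_zero] at h2
    exact absurd h2 (by decide)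
  · have h2 := vb_digits hs
    have : ((List.range 6).all fun k => Nat.beq (dg (cb i) k % 3) (dg (cb j) k % 3)) = true := by
      rw [List.all_eq_true]
      intro k hk
      have h3 := h2 k (List.mem_range.1 hk)
      rw [one_mul] at h3
      rw [h3]; exact Nat.beq_refl _
    rw [this] at h1
    exact absurd h1.1 (by simp)
  · have h2 := vb_digits hs
    have : ((List.range 6).all fun k => Nat.beq (dg (cb i) k % 3) ((2 * dg (cb j) k) % 3)) = true := by
      rw [List.all_eq_true]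
      intro k hk
      rw [h2 k (List.mem_range.1 hk)]; exact Nat.beq_refl _
    rw [this] at h1
    exact absurd h1.2 (by simp)

theorem rg_inj : Function.Injective rg := by
  intro i j hij
  by_contra hne
  obtain ⟨s, hs⟩ := eq_of_refl (by rw [Q_ub]; decide) (by rw [Q_ub]; decide) hij
  exact ub_ne hne s hs

/-- completeness check -/
def chkC : Bool := (List.range 3).all fun a => (List.range 3).all fun b => (List.range 3).all fun c => (List.range 3).all fun d =>
  (List.range 3).all fun e => (List.range 3).all fun f =>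
    !(Nat.beq ((a * c + b * d + e * e + f * f) % 3) 1) || (List.range 126).any fun i =>
      Nat.beq (cb i) (a + 4 * b + 16 * c + 64 * d + 256 * e + 1024 * f) ||
      Nat.beq (cb i) ((2 * a) % 3 + 4 * ((2 * b) % 3) + 16 * ((2 * c) % 3) + 64 * ((2 * d) % 3) + 256 * ((2 * e) % 3) + 1024 * ((2 * f) % 3))

theorem chkC_true : chkC = true := by decide +kernel

theorem vb_code {a b c d e f : ℕ} (ha : a < 3) (hb : b < 3) (hc : c < 3) (hd : d < 3) (he : e < 3) (hf : f < 3) :
    ∀ x : I3, vb (a + 4 * b + 16 * c + 64 * d + 256 * e + 1024 * f) x = ((([a, b, c, d, e, f] : List ℕ).getD (pos x) 0 : ℕ) : ZMod 3) := by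
  have h : ∀ k < 6, dg (a + 4 * b + 16 * c + 64 * d + 256 * e + 1024 * f) k = ([a, b, c, d, e, f] : List ℕ).getD k 0 := by
    intro k hk
    unfold dg
    rw [Nat.shiftRight_eq_div_pow]
    interval_cases k <;> simp <;> omega
  have hp : ∀ x : I3, pos x < 6 := by decide
  intro x
  unfold vb
  rw [h _ (hp x)]

theorem complete (v : W) (hv : Qf v = 1) : ∃ (i : Fin 126) (s : ZMod 3), s ≠ 0 ∧ v = s • ub i := by
  have hval : ∀ x : ZMod 3, x.val < 3 := fun x => x.val_lt
  have hcast : ∀ x : ZMod 3, ((x.val : ℕ) : ZMod 3) = x := fun x => ZMod.natCast_zmod_val x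
  set a := (v (.inl (.inl 0))).val with ha
  set b := (v (.inl (.inl 1))).val with hb
  set c := (v (.inl (.inr 0))).val with hc
  set d := (v (.inl (.inr 1))).val with hd
  set e := (v (.inr 0)).val with he
  set f := (v (.inr 1)).val with hf
  have hq : (a * c + b * d + e * e + f * f) % 3 = 1 := by
    have h1 : Cfsg.quadFormMinus 2 (ZMod 3) 0 1 v = 1 := hv
    unfold Cfsg.quadFormMinus at h1
    rw [Fin.sum_univ_two] at h1
    have h2 : ((a * c + b * d + e * e + f * f : ℕ) : ZMod 3) = ((1 : ℕ) : ZMod 3) := by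
      push_cast
      rw [ha, hb, hc, hd, he, hf, hcast, hcast, hcast, hcast, hcast, hcast, ← h1]
      ring
    exact (ZMod.natCast_eq_natCast_iff' _ _ 3).1 h2
  have h1 := chkC_true
  unfold chkC at h1
  simp only [List.all_eq_true, List.mem_range] at h1
  have h2 := h1 a (hval _) b (hval _) c (hval _) d (hval _) e (hval _) f (hval _)
  rw [hq] at h2
  simp only [Nat.beq_refl, Bool.not_true, Bool.false_or, List.any_eq_true, List.mem_range, Bool.or_eq_true] at h2
  obtain ⟨i, hi, h3 | h3⟩ := h2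
  · refine ⟨⟨i, hi⟩, 1, by decide, ?_⟩
    rw [one_smul]
    ext x
    unfold ub
    rw [Nat.eq_of_beq_eq_true h3, vb_code (hval _) (hval _) (hval _) (hval _) (hval _) (hval _)]
    rcases x with (x | x) | x <;> fin_cases x <;> exact (hcast _).symm
  · refine ⟨⟨i, hi⟩, 2, by decide, ?_⟩
    have h4 : ub ⟨i, hi⟩ = (2 : ZMod 3) • v := by
      ext x
      unfold ub
      have l : ∀ n, n % 3 < 3 := fun n => Nat.mod_lt _ (by norm_num)
      rw [Nat.eq_of_beq_eq_true h3, vb_code (l _) (l _) (l _) (l _) (l _) (l _)]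
      have key : ∀ y : ZMod 3, (((2 * y.val) % 3 : ℕ) : ZMod 3) = 2 * y := by decide
      rcases x with (x | x) | x <;> fin_cases x <;> exact key _
    rw [h4, smul_smul]
    have : (2 : ZMod 3) * 2 = 1 := by decide
    rw [this, one_smul]

end Cfsg.Agent.Lib.U43
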