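import Cfsg.Agent.Lib.U43E

set_option autoImplicit false
set_option linter.style.haveILetI false
set_option linter.unusedVariables false
set_option linter.unusedSectionVars false

/-! # Generation of the triple cover of `U₄(3)` -/

namespace Cfsg.Agent.Lib.U43

open Matrix Cfsg Cfsg.Agent.Lib.K4 Cfsg.Agent.Lib.HermMat Cfsg.Agent.Lib.ClThreeTransU Cfsg.Agent.Lib.SU6K4

/-- the even subgroup -/
def K0 : Subgroup G := Subgroup.closure {g | ∃ i j, g = tg i * tg j}

theorem tg_mul_mem (i j : Fin 126) : tg i * tg j ∈ K0 := Subgroup.subset_closure ⟨i, j, rfl⟩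

/-- logarithms -/
def lg (x : K4) : ZMod 3 := if x = om then 1 else if x = om' then 2 else 0

theorem e_lg : ∀ x : K4, x ≠ 0 → e (lg x) = x := by decide

/-- elementary exponents -/
def dd (i j : Fin 6) (α : ZMod 3) : A0 := ⟨Pi.single j α - Pi.single i α, by
  rw [mem_A0]; simp⟩

theorem dd_zero (i j : Fin 6) : dd i j 0 = 0 := by
  apply Subtype.ext; simp [dd]

/-- monomial transvections -/
theorem TR_mono {i j : Fin 6} (hij : i ≠ j) (α : ZMod 3) :
    TR (mo (dd i j α) (Equiv.swap i j)) (Pi.single i 1 + Pi.single j (e α)) := by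
  intro x
  ext k
  rw [mo_mulVec]
  have h1 : hermForm 6 K4 2 x (Pi.single i 1 + Pi.single j (e α)) = x i + x j * e α ^ 2 := by
    rw [hermForm_add_right SU6K4.hF, hermForm_single _ (by norm_num)]
    congr 1
    rw [hermForm_def, Finset.sum_eq_single j]
    · rw [Pi.single_eq_same]
    · intro b _ hb
      rw [Pi.single_eq_of_ne hb]; ring
    · intro h; exact absurd (Finset.mem_univ _) h
  rw [h1]
  simp only [Pi.add_apply, Pi.smul_apply, smul_eq_mul, Equiv.swap_inv]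
  have key : ∀ (α : ZMod 3) (x y : K4), e (-α) * y = x + (x + y * e α ^ 2) * 1 ∧ e α * x = y + (x + y * e α ^ 2) * e α := by decide +kernel
  by_cases hki : k = i
  · subst hki
    rw [Equiv.swap_apply_left, Pi.single_eq_same, Pi.single_eq_of_ne hij]
    have : (dd k j α).1 k = -α := by
      simp [dd, hij]
    rw [this, (key α (x k) (x j)).1]; ring
  · by_cases hkj : k = j
    · subst hkj
      rw [Equiv.swap_apply_right, Pi.single_eq_of_ne hij.symm, Pi.single_eq_same]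
      have : (dd i k α).1 k = α := by
        simp [dd, hij]
      rw [this, (key α (x i) (x k)).2]; ring
    · rw [Equiv.swap_apply_of_ne_of_ne hki hkj, Pi.single_eq_of_ne hki, Pi.single_eq_of_ne hkj]
      have : (dd i j α).1 k = 0 := by
        simp [dd, hki, hkj]
      rw [this, e_zero]; ring

/-- the vectors of weight two occur -/
theorem w2 : ∀ i j : Fin 6, i < j → ∀ α : ZMod 3, ∃ k : Fin 126, ∀ l : Fin 6,
    va k l = (if l = i then (1 : K4) else 0) + (if l = j then e α else 0) := by decide +kernel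

theorem w2' {i j : Fin 6} (h : i < j) (α : ZMod 3) : ∃ k : Fin 126, tg k = mo (dd i j α) (Equiv.swap i j) := by
  obtain ⟨k, hk⟩ := w2 i j h α
  refine ⟨k, ?_⟩
  have h1 : va k = Pi.single i 1 + Pi.single j (e α) := by
    ext l
    rw [hk l, Pi.add_apply, Pi.single_apply, Pi.single_apply]
  have h2 := tg_TR k
  rw [h1] at h2
  exact h2.unique (TR_mono h.ne α)

theorem swap_mem (i j : Fin 6) (h : i ≠ j) : ∃ k : Fin 126, tg k = mo 0 (Equiv.swap i j) := by
  rcases lt_or_gt_of_ne h with h | h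
  · obtain ⟨k, hk⟩ := w2' h 0
    exact ⟨k, by rw [hk, dd_zero]⟩
  · obtain ⟨k, hk⟩ := w2' h 0
    exact ⟨k, by rw [hk, dd_zero, Equiv.swap_comm]⟩

theorem swap_swap_mem {i j k l : Fin 6} (h : i ≠ j) (h' : k ≠ l) : mo 0 (Equiv.swap i j * Equiv.swap k l) ∈ K0 := by
  obtain ⟨a, ha⟩ := swap_mem i j h
  obtain ⟨b, hb⟩ := swap_mem k l h'
  have := tg_mul_mem a b
  rw [ha, hb, mo_mul, act_zero, add_zero] at this
  exact this

theorem alt_mem {σ : Pm} (h : Equiv.Perm.sign σ = 1) : mo 0 σ ∈ K0 := by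
  have hm : ∀ {σ τ : Pm}, mo 0 σ ∈ K0 → mo 0 τ ∈ K0 → mo 0 (σ * τ) ∈ K0 := by
    intro σ τ h1 h2
    have := K0.mul_mem h1 h2
    rwa [mo_mul, act_zero, add_zero] at this
  have key : ∀ σ : Pm, (Equiv.Perm.sign σ = 1 → mo 0 σ ∈ K0) ∧ (Equiv.Perm.sign σ = -1 → mo 0 (Equiv.swap 0 1 * σ) ∈ K0) := by
    intro σ
    induction σ using Equiv.Perm.swap_induction_on with
    | one => 
      refine ⟨fun _ => by rw [mo_one]; exact K0.one_mem, fun h => ?_⟩
      rw [Equiv.Perm.sign_one] at h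
      exact absurd h (by decide)
    | swap_mul σ x y hxy ih =>
      rw [Equiv.Perm.sign_mul, Equiv.Perm.sign_swap hxy]
      constructor
      · intro h1
        have h2 : Equiv.Perm.sign σ = -1 := by
          rcases Int.units_eq_one_or (Equiv.Perm.sign σ) with h | h
          · rw [h] at h1; exact absurd h1 (by decide)
          · exact h
        have h3 : Equiv.swap x y * σ = (Equiv.swap x y * Equiv.swap 0 1) * (Equiv.swap 0 1 * σ) := by
          rw [mul_assoc, ← mul_assoc (Equiv.swap 0 1), Equiv.swap_mul_self, one_mul]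
        rw [h3]
        exact hm (swap_swap_mem hxy (by decide)) (ih.2 h2)
      · intro h1
        have h2 : Equiv.Perm.sign σ = 1 := by
          rcases Int.units_eq_one_or (Equiv.Perm.sign σ) with h | h
          · exact h
          · rw [h] at h1; exact absurd h1 (by decide)
        rw [← mul_assoc]
        exact hm (swap_swap_mem (by decide) hxy) (ih.1 h2)
  exact (key σ).1 h

theorem dd_mem {i j : Fin 6} (h : i < j) (α : ZMod 3) : mo (dd i j α) 1 ∈ K0 := by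
  obtain ⟨a, ha⟩ := w2' h α
  obtain ⟨b, hb⟩ := w2' h 0
  have := tg_mul_mem a b
  rwa [ha, hb, mo_mul, dd_zero, act_zero, add_zero, Equiv.swap_mul_self] at this

theorem T_le_K0 : T ≤ K0 := by
  intro g hg
  obtain ⟨a, rfl⟩ := mem_T.1 hg
  have hadd : ∀ {a b : A0}, mo a 1 ∈ K0 → mo b 1 ∈ K0 → mo (a + b) 1 ∈ K0 := by
    intro a b h1 h2
    have := K0.mul_mem h1 h2
    rwa [mo_mul, act_one, one_mul] at this
  have h1 : a = dd 0 1 (a.1 1) + dd 0 2 (a.1 2) + dd 0 3 (a.1 3) + dd 0 4 (a.1 4) + dd 0 5 (a.1 5) := by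
    have h2 := a.2
    rw [mem_A0, Fin.sum_univ_six] at h2
    apply Subtype.ext
    ext i
    simp only [dd, AddSubgroup.coe_add, Pi.add_apply, Pi.sub_apply]
    fin_cases i
    · simp
      linear_combination h2
    all_goals simp
  rw [h1]
  exact hadd (hadd (hadd (hadd (dd_mem (by decide) _) (dd_mem (by decide) _)) (dd_mem (by decide) _)) (dd_mem (by decide) _)) (dd_mem (by decide) _)

theorem M0_le_K0 : M0 ≤ K0 := by
  rintro _ ⟨a, σ, hσ, rfl⟩
  have : mo a σ = mo a 1 * mo 0 σ := by rw [mo_mul, act_zero, add_zero, one_mul]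
  rw [this]
  exact K0.mul_mem (T_le_K0 (mem_T.2 ⟨a, rfl⟩)) (alt_mem (Equiv.Perm.mem_alternatingGroup.1 hσ))

/-- the matrix of a transvection -/
def tM (i : ℕ) : Matrix (Fin 6) (Fin 6) K4 := Matrix.of fun k l => (if k = l then 1 else 0) + va i k * va i l ^ 2

theorem mt_tg (i : Fin 126) : mt (tg i) = tM i := by
  change (RootSU.uT SU6K4.hF (va_iso i i.2) one_tz).1.1 = _
  rw [RootSU.uT_val]
  ext k l
  simp [tM, Matrix.one_apply, Matrix.vecMulVec_apply, RootSU.wv]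

theorem Q23_eq : Q 2 3 = tg 6 * tg 8 * (tg 88 * tg 83) := by
  apply ext_mt
  rw [mt_mul, mt_mul, mt_mul, mt_tg, mt_tg, mt_tg, mt_tg]
  change bd (q 2) (q 3) = _
  have h : ∀ i j : Fin 6, (1 : K4) * bd (q 2) (q 3) i j = (tM 6 * tM 8 * (tM 88 * tM 83)) i j := by decide +kernel
  ext i j
  rw [← one_mul (bd (q 2) (q 3) i j)]
  exact h i j

theorem Q23_mem : Q 2 3 ∈ K0 := by
  rw [Q23_eq]
  exact K0.mul_mem (tg_mul_mem _ _) (tg_mul_mem _ _)

/-- the group generated by the monomial subgroup and the extra element -/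
def N0 : Subgroup G := M0 ⊔ Subgroup.zpowers (Q 2 3)

theorem M0_le_N0 : M0 ≤ N0 := le_sup_left
theorem Q23_mem_N0 : Q 2 3 ∈ N0 := Subgroup.mem_sup_right (Subgroup.mem_zpowers _)

theorem p2_sq : mo 0 p2 * mo 0 p2 = 1 := by
  rw [mo_mul, act_zero, add_zero]
  have : p2 * p2 = 1 := Equiv.swap_mul_self _ _
  rw [this, mo_one]

theorem p2_inv : (mo 0 p2)⁻¹ = mo 0 p2 := inv_eq_of_mul_eq_one_left p2_sq

theorem sign_p2 : Equiv.Perm.sign p2 = -1 := Equiv.Perm.sign_swap (by decide)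

theorem p2_norm {n : G} (h : n ∈ N0) : mo 0 p2 * n * mo 0 p2 ∈ N0 := by
  have h1 : N0 ≤ N0.comap (MulAut.conj (mo 0 p2)).toMonoidHom := by
    apply sup_le
    · intro x hx
      rw [Subgroup.mem_comap]
      change mo 0 p2 * x * (mo 0 p2)⁻¹ ∈ N0
      obtain ⟨a, σ, hσ, rfl⟩ := hx
      apply M0_le_N0
      rw [mo_conj, mo_mem_M0, Equiv.Perm.sign_mul, Equiv.Perm.sign_mul, Equiv.Perm.mem_alternatingGroup.1 hσ, mul_one,
        ← Equiv.Perm.sign_mul, mul_inv_cancel, Equiv.Perm.sign_one]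
    · rw [Subgroup.zpowers_le, Subgroup.mem_comap]
      change mo 0 p2 * Q 2 3 * (mo 0 p2)⁻¹ ∈ N0
      rw [p2_inv, ← Q01, Q_mul, Q_mul]
      exact Q23_mem_N0
  have h2 := h1 h
  rw [Subgroup.mem_comap] at h2
  change mo 0 p2 * n * (mo 0 p2)⁻¹ ∈ N0 at h2
  rwa [p2_inv] at h2

theorem Q23_vec : ∀ k : Fin 6, (mt (Q 2 3) *ᵥ va 6) k = 1 := by
  have h : ∀ k : Fin 6, (bd (q 2) (q 3) *ᵥ va 6) k = 1 * (1 : K4) := by decide +kernel
  intro k
  rw [← mul_one (1 : K4)]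
  exact h k

theorem va_types : ∀ i : Fin 126, ((∀ k : Fin 6, va i k * 1 ≠ 0) ∧ ∑ k : Fin 6, lg (va i k) = 0) ∨
    (∃ k l : Fin 6, k < l ∧ ∃ α : ZMod 3, ∀ m : Fin 6, va i m * 1 = (if m = k then (1 : K4) else 0) + (if m = l then e α else 0)) := by
  decide +kernel

theorem tg_p2 (i : Fin 126) : tg i * mo 0 p2 ∈ N0 := by
  have hmono : ∀ {k l : Fin 6} (h : k < l) (α : ZMod 3), mo (dd k l α) (Equiv.swap k l) * mo 0 p2 ∈ N0 := by
    intro k l h α
    apply M0_le_N0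
    rw [mo_mul, mo_mem_M0, Equiv.Perm.sign_mul, Equiv.Perm.sign_swap h.ne, sign_p2]
    decide
  rcases va_types i with ⟨h1, h2⟩ | ⟨k, l, hkl, α, h⟩
  · let a : A0 := ⟨fun k => lg (va i k), h2⟩
    have ha : ∀ k, e (a.1 k) = va i k := fun k => e_lg _ (fun hc => h1 k (by rw [hc, zero_mul]))
    set n := mo a 1 * Q 2 3 with hn
    have hnN : n ∈ N0 := N0.mul_mem (M0_le_N0 (mo_mem_M0.2 (by simp))) Q23_mem_N0
    have h3 : mt n *ᵥ va 6 = va i := by
      ext k
      rw [hn, mt_mul, ← Matrix.mulVec_mulVec, mo_mulVec, ha]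
      simp only [inv_one, Equiv.Perm.one_apply]
      rw [Q23_vec, mul_one]
    have h4 : TR (n * tg 6 * n⁻¹) (va i) := by
      have := TR.conj card_K4 (g := n) (tg_TR 6)
      rw [show ((6 : Fin 126) : ℕ) = 6 from rfl, h3] at this
      exact this
    have h5 : tg i = n * tg 6 * n⁻¹ := (tg_TR i).unique h4
    have h6 : tg 6 * mo 0 p2 ∈ N0 := by
      have h7 : TR (tg 6) (Pi.single 0 1 + Pi.single 3 (e 0)) := by
        have h8 : va 6 = Pi.single 0 1 + Pi.single 3 (e 0) := by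
          have h9 : ∀ m : Fin 6, va 6 m * 1 = (if m = 0 then (1 : K4) else 0) + (if m = 3 then e 0 else 0) := by decide +kernel
          ext m
          rw [← mul_one (va 6 m), h9 m, Pi.add_apply, Pi.single_apply, Pi.single_apply]
        rw [← h8]; exact tg_TR 6
      rw [h7.unique (TR_mono (by decide) 0)]
      exact hmono (by decide) 0
    rw [h5]
    have h7 : n * tg 6 * n⁻¹ * mo 0 p2 = n * (tg 6 * mo 0 p2) * (mo 0 p2 * n⁻¹ * mo 0 p2) := by
      have : mo 0 p2 * (mo 0 p2 * n⁻¹ * mo 0 p2) = n⁻¹ * mo 0 p2 := by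
        rw [← mul_assoc, ← mul_assoc, p2_sq, one_mul]
      calc n * tg 6 * n⁻¹ * mo 0 p2 = n * tg 6 * (n⁻¹ * mo 0 p2) := by rw [mul_assoc]
        _ = n * tg 6 * (mo 0 p2 * (mo 0 p2 * n⁻¹ * mo 0 p2)) := by rw [this]
        _ = _ := by simp only [mul_assoc]
    rw [h7]
    exact N0.mul_mem (N0.mul_mem hnN h6) (p2_norm (N0.inv_mem hnN))
  · have h1 : va i = Pi.single k 1 + Pi.single l (e α) := by
      ext m
      rw [← mul_one (va i m), h m, Pi.add_apply, Pi.single_apply, Pi.single_apply]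
    have h2 := tg_TR i
    rw [h1] at h2
    rw [h2.unique (TR_mono hkl.ne α)]
    exact hmono hkl α

theorem K0_le_N0 : K0 ≤ N0 := by
  rw [K0, Subgroup.closure_le]
  rintro _ ⟨i, j, rfl⟩
  have h1 := N0.mul_mem (tg_p2 i) (N0.inv_mem (tg_p2 j))
  rw [_root_.mul_inv_rev] at h1
  have h2 : tg i * mo 0 p2 * ((mo 0 p2)⁻¹ * (tg j)⁻¹) = tg i * tg j := by
    have : (tg j)⁻¹ = tg j := inv_eq_of_mul_eq_one_left (tg_sq j)
    rw [this]; group
  rwa [h2] at h1

theorem le_of_gen {K : Subgroup G} (h1 : M0 ≤ K) (h2 : Q 2 3 ∈ K) : K0 ≤ K := by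
  refine K0_le_N0.trans (sup_le h1 ?_)
  rw [Subgroup.zpowers_le]; exact h2

/-- elements centralising the monomial group modulo scalars -/
theorem cent_mod {x : G} (h : ∀ s ∈ M0, x * s * x⁻¹ * s⁻¹ ∈ Z0) : x ∈ Z0 := by
  have hT : ∀ t ∈ T, x * t * x⁻¹ ∈ T := by
    intro t ht
    have := Z0_le_T (h t (S_le_M0 (T_le_S ht)))
    have h2 := T.mul_mem this ht
    rwa [inv_mul_cancel_right] at h2
  obtain ⟨a, σ, -, rfl⟩ := norm_T hT
  have h1 : ∀ b : A0, ∃ c, ∀ i, b.1 (σ⁻¹ i) - b.1 i = c := by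
    intro b
    have h2 := h (mo b 1) (mo_mem_M0.2 (by simp))
    rw [mo_comm (by rw [mul_one, one_mul]), mo_mem_Z0, act_one] at h2
    obtain ⟨-, c, hc⟩ := h2
    refine ⟨c, fun i => ?_⟩
    have h3 := congrArg (fun x : A0 => x.1 i) hc
    have h4 : a.1 i + b.1 (σ⁻¹ i) - a.1 i - b.1 i = c := h3
    rw [← h4]; ring
  have hσ : σ = 1 := by
    by_contra hne
    have h2 : ∃ i, σ⁻¹ i ≠ i := by
      by_contra hc
      push Not at hc
      apply hne
      rw [← inv_eq_one]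
      ext i
      rw [hc i]; rfl
    obtain ⟨i, hi⟩ := h2
    have k1 : ∀ i s : Fin 6, ∃ k, k ≠ i ∧ k ≠ s := by decide
    have k2 : ∀ i j k m : Fin 6, ∃ l, l ≠ i ∧ l ≠ j ∧ l ≠ k ∧ l ≠ m := by decide
    obtain ⟨k, hk1, hk2⟩ := k1 i (σ i)
    obtain ⟨l, hl1, hl2, hl3, hl4⟩ := k2 i (σ⁻¹ i) k (σ⁻¹ k)
    have hk3 : σ⁻¹ k ≠ i := fun hc => hk2 (by rw [← hc, app_inv])
    obtain ⟨c, hc⟩ := h1 (dd l i 1)
    have e1 := hc i
    have e2 := hc k
    simp only [dd, Pi.sub_apply] at e1 e2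
    rw [Pi.single_eq_of_ne hi, Pi.single_eq_of_ne hl2.symm, Pi.single_eq_same, Pi.single_eq_of_ne hl1.symm] at e1
    rw [Pi.single_eq_of_ne hk3, Pi.single_eq_of_ne hl4.symm, Pi.single_eq_of_ne hk1, Pi.single_eq_of_ne hl3.symm] at e2
    rw [← e1] at e2
    revert e2; decide
  subst hσ
  have h3 : ∀ τ : Pm, Equiv.Perm.sign τ = 1 → ∃ c, ∀ i, a.1 i - a.1 (τ⁻¹ i) = c := by
    intro τ hτ
    have h2 := h (mo 0 τ) (mo_mem_M0.2 hτ)
    rw [mo_comm (by rw [mul_one, one_mul]), mo_mem_Z0, act_one] at h2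
    obtain ⟨-, c, hc⟩ := h2
    refine ⟨c, fun i => ?_⟩
    have h3 := congrArg (fun x : A0 => x.1 i) hc
    have h4 : a.1 i + 0 - a.1 (τ⁻¹ i) - 0 = c := h3
    rw [← h4]; ring
  have h4 : ∀ i j : Fin 6, i ≠ j → a.1 i = a.1 j := by
    intro i j hij
    have k2 : ∀ i j : Fin 6, ∃ l m, l ≠ i ∧ l ≠ j ∧ m ≠ i ∧ m ≠ j ∧ m ≠ l := by decide
    obtain ⟨l, m, h1, h2, h5, h6, h7⟩ := k2 i j
    obtain ⟨c, hc⟩ := h3 (Equiv.swap i j * Equiv.swap i l) (by
      rw [Equiv.Perm.sign_mul, Equiv.Perm.sign_swap hij, Equiv.Perm.sign_swap h1.symm]; decide)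
    have e1 := hc m
    have e2 := hc j
    rw [_root_.mul_inv_rev, Equiv.swap_inv, Equiv.swap_inv, Equiv.Perm.mul_apply, Equiv.swap_apply_of_ne_of_ne h5 h6,
      Equiv.swap_apply_of_ne_of_ne h5 h7, sub_self] at e1
    rw [_root_.mul_inv_rev, Equiv.swap_inv, Equiv.swap_inv, Equiv.Perm.mul_apply, Equiv.swap_apply_right,
      Equiv.swap_apply_left, ← e1, sub_eq_zero] at e2
    obtain ⟨c', hc'⟩ := h3 (Equiv.swap i l * Equiv.swap i j) (by
      rw [Equiv.Perm.sign_mul, Equiv.Perm.sign_swap hij, Equiv.Perm.sign_swap h1.symm]; decide)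
    have e3 := hc' m
    have e4 := hc' l
    rw [_root_.mul_inv_rev, Equiv.swap_inv, Equiv.swap_inv, Equiv.Perm.mul_apply, Equiv.swap_apply_of_ne_of_ne h5 h7,
      Equiv.swap_apply_of_ne_of_ne h5 h6, sub_self] at e3
    rw [_root_.mul_inv_rev, Equiv.swap_inv, Equiv.swap_inv, Equiv.Perm.mul_apply, Equiv.swap_apply_right,
      Equiv.swap_apply_left, ← e3, sub_eq_zero] at e4
    have e5 := hc i
    rw [_root_.mul_inv_rev, Equiv.swap_inv, Equiv.swap_inv, Equiv.Perm.mul_apply, Equiv.swap_apply_left,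
      Equiv.swap_apply_of_ne_of_ne hij.symm h2.symm, ← e1, sub_eq_zero] at e5
    exact e5
  refine ⟨a.1 0, ?_⟩
  congr 1
  apply Subtype.ext
  ext i
  by_cases hi : i = 0
  · rw [hi]; rfl
  · exact h4 i 0 hi

end Cfsg.Agent.Lib.U43
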