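import Cfsg.Agent.Lib.U43F
import Cfsg.Agent.Lib.U43H
import Cfsg.Agent.Lib.GoursatHom

set_option autoImplicit false
set_option linter.style.haveILetI false
set_option linter.unusedVariables false
set_option linter.unusedSectionVars false

/-! # Matching transvections of `SU₆(2)` with reflections of `O₆⁻(3)` -/

namespace Cfsg.Agent.Lib.U43

open Cfsg.Agent.Lib.Quad QuadraticMap Module Cfsg.Agent.Lib.ClOrthSiegel Cfsg.Agent.Lib.ClOmega

/-- eigenvectors of an isometry that are not perpendicular -/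
theorem eig {g : W ≃ₗ[ZMod 3] W} (hg : g ∈ O Qf) {u v : W} {c d : ZMod 3} (hu : g u = c • u) (hv : g v = d • v)
    (hd : d ≠ 0) (h : polar Qf u v ≠ 0) : d = c := by
  have h1 := O_polar hg u v
  rw [hu, hv, polar_smul_left, polar_smul_right, smul_eq_mul, smul_eq_mul] at h1
  generalize polar Qf u v = t at h h1
  have key : ∀ c d t : ZMod 3, d ≠ 0 → t ≠ 0 → c * (d * t) = t → d = c := by decide
  exact key c d t hd h h1

theorem ub_val (i : Fin 126) {n : ℕ} (h : cb i = n) (x : I3) : ub i x = (dg n (pos x) : ZMod 3) := by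
  unfold ub; rw [h]; rfl

theorem eigen_of_comm {g : W ≃ₗ[ZMod 3] W} (hg : g ∈ O Qf) {i : Fin 126} (h : g * rg i * g⁻¹ = rg i) :
    ∃ c : ZMod 3, c ≠ 0 ∧ g (ub i) = c • ub i := by
  unfold rg at h
  rw [refl_conj hg] at h
  obtain ⟨s, hs⟩ := eq_of_refl (by rw [hg, Q_ub]; decide) (by rw [Q_ub]; decide) h
  refine ⟨s, ?_, hs⟩
  rintro rfl
  rw [zero_smul] at hs
  have h1 := hg (ub i)
  rw [hs, QuadraticMap.map_zero, Q_ub] at h1
  exact absurd h1 (by decide)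

theorem scalar_of {g : W ≃ₗ[ZMod 3] W} (hg : g ∈ O Qf) (h : ∀ i, g * rg i * g⁻¹ = rg i) :
    ∃ c : ZMod 3, c ≠ 0 ∧ ∀ v, g v = c • v := by
  obtain ⟨c0, n0, e0⟩ := eigen_of_comm hg (h 0)
  obtain ⟨c1, n1, e1⟩ := eigen_of_comm hg (h 1)
  obtain ⟨c2, n2, e2⟩ := eigen_of_comm hg (h 3)
  obtain ⟨c3, n3, e3⟩ := eigen_of_comm hg (h 6)
  obtain ⟨c4, n4, e4⟩ := eigen_of_comm hg (h 9)
  obtain ⟨c5, n5, e5⟩ := eigen_of_comm hg (h 46)
  have q1 : c1 = c0 := eig hg e0 e1 n1 (by unfold ub; rw [polar_vb]; decide +kernel)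
  have q2 : c2 = c1 := eig hg e1 e2 n2 (by unfold ub; rw [polar_vb]; decide +kernel)
  have q3 : c3 = c2 := eig hg e2 e3 n3 (by unfold ub; rw [polar_vb]; decide +kernel)
  have q4 : c4 = c3 := eig hg e3 e4 n4 (by unfold ub; rw [polar_vb]; decide +kernel)
  have q5 : c5 = c4 := eig hg e4 e5 n5 (by unfold ub; rw [polar_vb]; decide +kernel)
  subst q1 q2 q3 q4 q5
  refine ⟨c5, n5, fun v => ?_⟩
  have h1 : (g : W →ₗ[ZMod 3] W) = c5 • LinearMap.id := by
    apply (Pi.basisFun (ZMod 3) I3).ext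
    intro i
    rw [Pi.basisFun_apply]
    change g (Pi.single i 1) = c5 • Pi.single i 1
    have key : ∀ a0 a1 a2 a3 a4 a5 : ZMod 3, Pi.single i 1 = a0 • ub 0 + a1 • ub 1 + a2 • ub 3 + a3 • ub 6 + a4 • ub 9 + a5 • ub 46 →
        g (Pi.single i 1) = c5 • Pi.single i 1 := by
      intro a0 a1 a2 a3 a4 a5 h
      rw [h]
      simp only [map_add, map_smul, e0, e1, e2, e3, e4, e5, smul_add]
      congr 1
      · congr 1
        · congr 1
          · congr 1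
            · congr 1
              · exact smul_comm _ _ _
              · exact smul_comm _ _ _
            · exact smul_comm _ _ _
          · exact smul_comm _ _ _
        · exact smul_comm _ _ _
      · exact smul_comm _ _ _
    rcases i with (i | i) | i <;> fin_cases i
    · exact key 1 0 0 1 0 0 (by decide +kernel)
    · exact key 1 0 2 1 2 1 (by decide +kernel)
    · exact key 2 0 1 0 0 0 (by decide +kernel)
    · exact key 2 1 0 0 0 0 (by decide +kernel)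
    · exact key 2 0 1 2 1 0 (by decide +kernel)
    · exact key 1 0 0 0 0 0 (by decide +kernel)
  exact LinearMap.congr_fun h1 v

theorem det_Om {g : W ≃ₗ[ZMod 3] W} (hg : g ∈ Om Qf) : LinearEquiv.det g = 1 := by
  have h : Om Qf ≤ (LinearEquiv.det (R := ZMod 3) (M := W)).ker := by
    unfold Om
    rw [Subgroup.commutator_le]
    intro a _ b _
    rw [MonoidHom.mem_ker, map_commutatorElement, commutatorElement_eq_one_iff_mul_comm, mul_comm]
  exact MonoidHom.mem_ker.1 (h hg)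

theorem det_scalar {g : W ≃ₗ[ZMod 3] W} {c : ZMod 3} (hc : c ≠ 0) (h : ∀ v, g v = c • v) : LinearEquiv.det g = 1 := by
  apply Units.ext
  rw [LinearEquiv.coe_det]
  have h1 : (g : W →ₗ[ZMod 3] W) = c • LinearMap.id := LinearMap.ext h
  rw [h1, LinearMap.det_smul, LinearMap.det_id, Module.finrank_fintype_fun_eq_card]
  have key : ∀ c : ZMod 3, c ≠ 0 → c ^ Fintype.card I3 * 1 = 1 := by decide
  exact key c hc

theorem det_rg (i : Fin 126) : (LinearEquiv.det (rg i) : ZMod 3) = -1 := by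
  rw [LinearEquiv.coe_det, ← det_reflectionMatrix (Q := Qf) (v := ub i) (by rw [Q_ub]; decide), ← LinearMap.det_toLin']
  congr 1
  apply LinearMap.ext
  intro x
  rw [Matrix.toLin'_apply, reflectionMatrix_mulVec]
  rfl

/-- matching pairs -/
def Rel (g : G) (x : W ≃ₗ[ZMod 3] W) : Prop :=
  ∃ π : Fin 126 → Fin 126, ∀ i, g * tg i * g⁻¹ = tg (π i) ∧ x * rg i * x⁻¹ = rg (π i)

theorem Rel.one : Rel 1 1 := ⟨id, fun i => ⟨by simp, by simp⟩⟩

theorem Rel.mul {g g' : G} {x x' : W ≃ₗ[ZMod 3] W} (h : Rel g x) (h' : Rel g' x') : Rel (g * g') (x * x') := by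
  obtain ⟨π, hπ⟩ := h
  obtain ⟨τ, hτ⟩ := h'
  refine ⟨fun i => π (τ i), fun i => ⟨?_, ?_⟩⟩
  · rw [← (hπ (τ i)).1, ← (hτ i).1]; group
  · rw [← (hπ (τ i)).2, ← (hτ i).2]; group

theorem Rel.inv {g : G} {x : W ≃ₗ[ZMod 3] W} (h : Rel g x) : Rel g⁻¹ x⁻¹ := by
  obtain ⟨π, hπ⟩ := h
  have hinj : Function.Injective π := by
    intro i j hij
    have h1 : g * tg i * g⁻¹ = g * tg j * g⁻¹ := by rw [(hπ i).1, (hπ j).1, hij]
    exact tg_inj (mul_left_cancel (mul_right_cancel h1))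
  obtain ⟨τ, hτ⟩ := (Finite.injective_iff_bijective.1 hinj).2.hasRightInverse
  refine ⟨τ, fun i => ⟨?_, ?_⟩⟩
  · have := (hπ (τ i)).1
    rw [hτ i] at this
    rw [← this]; group
  · have := (hπ (τ i)).2
    rw [hτ i] at this
    rw [← this]; group

theorem Rel.gen (i : Fin 126) : Rel (tg i) (rg i) := ⟨mF i, fun j => ⟨tg_conj i j, rg_conj i j⟩⟩

/-- the matching relation as a subgroup -/
def Γ : Subgroup (↥K0 × ↥(Om Qf)) where
  carrier := {p | Rel p.1 p.2}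
  one_mem' := Rel.one
  mul_mem' := fun h h' => Rel.mul h h'
  inv_mem' := fun h => Rel.inv h

theorem mem_Γ {p : ↥K0 × ↥(Om Qf)} : p ∈ Γ ↔ Rel p.1 p.2 := Iff.rfl

theorem exists_match (g : K0) : ∃ x : Om Qf, (g, x) ∈ Γ := by
  obtain ⟨g, hg⟩ := g
  induction hg using Subgroup.closure_induction with
  | mem g h =>
    obtain ⟨i, j, rfl⟩ := h
    exact ⟨⟨rg i * rg j, rg_mul_mem i j⟩, (Rel.gen i).mul (Rel.gen j)⟩
  | one => exact ⟨1, Rel.one⟩
  | mul a b _ _ ha hb =>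
    obtain ⟨x, hx⟩ := ha
    obtain ⟨y, hy⟩ := hb
    exact ⟨x * y, Rel.mul hx hy⟩
  | inv a _ ha =>
    obtain ⟨x, hx⟩ := ha
    exact ⟨x⁻¹, Rel.inv hx⟩

theorem central_of_comm {x : Om Qf} (h : ∀ i, (x : W ≃ₗ[ZMod 3] W) * rg i * (x : W ≃ₗ[ZMod 3] W)⁻¹ = rg i) :
    x ∈ Subgroup.center (Om Qf) := by
  obtain ⟨c, hc, h1⟩ := scalar_of (Om_le x.2) h
  rw [Subgroup.mem_center_iff]
  intro y
  apply Subtype.ext
  ext1 v
  change (y : W ≃ₗ[ZMod 3] W) ((x : W ≃ₗ[ZMod 3] W) v) = (x : W ≃ₗ[ZMod 3] W) ((y : W ≃ₗ[ZMod 3] W) v)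
  rw [h1, h1, map_smul]

/-- the projective group -/
abbrev PO := Om Qf ⧸ Subgroup.center (Om Qf)

theorem rel_one {x : W ≃ₗ[ZMod 3] W} (h : Rel 1 x) : ∀ i, x * rg i * x⁻¹ = rg i := by
  obtain ⟨π, hπ⟩ := h
  intro i
  have h1 := (hπ i).1
  rw [one_mul, inv_one, mul_one] at h1
  have h2 := tg_inj h1
  rw [(hπ i).2, ← h2]

theorem exists_θ : ∃ θ : K0 →* PO, ∀ g x, (g, x) ∈ Γ → θ g = (x : PO) :=
  GoursatHom.exists_hom (Subgroup.center (Om Qf)) Γ exists_match (fun x hx => central_of_comm (rel_one hx))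

/-- the simple group -/
theorem PO_equiv (F9 : Type) [Field F9] [Fintype F9] (hF9 : Fintype.card F9 = 9) : Nonempty (PO ≃* Cfsg.PSU 4 F9 3) := by
  have h1 := S0303.result (F := ZMod 3) (K := F9) (q := 3) (by rw [ZMod.card]) (by rw [hF9]; norm_num) 0 1 (by decide)
  obtain ⟨e1⟩ := h1
  have e2 := SUTransport.quotCenterCongr (omEquiv Qf)
  exact ⟨e2.symm.trans e1⟩

theorem simple_PO (F9 : Type) [Field F9] [Fintype F9] (hF9 : Fintype.card F9 = 9) : IsSimpleGroup PO := by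
  obtain ⟨e⟩ := PO_equiv F9 hF9
  have := S0283.result (F := F9) (q := 3) (by rw [hF9]; norm_num) 4 (by norm_num) (by norm_num)
  exact e.isSimpleGroup

/-- the projection to the simple group -/
noncomputable def θ : K0 →* PO := exists_θ.choose

theorem θ_spec {g : K0} {x : Om Qf} (h : Rel g x) : θ g = (x : PO) := exists_θ.choose_spec g x h

theorem comm_of_rel {z : G} (h : ∀ i, z * tg i * z⁻¹ = tg i) {s : G} (hs : s ∈ K0) : z * s * z⁻¹ = s := by
  induction hs using Subgroup.closure_induction with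
  | mem s h' =>
    obtain ⟨i, j, rfl⟩ := h'
    calc z * (tg i * tg j) * z⁻¹ = (z * tg i * z⁻¹) * (z * tg j * z⁻¹) := by group
      _ = _ := by rw [h, h]
  | one => group
  | mul a b _ _ ha hb =>
    calc z * (a * b) * z⁻¹ = (z * a * z⁻¹) * (z * b * z⁻¹) := by group
      _ = _ := by rw [ha, hb]
  | inv a _ ha =>
    calc z * a⁻¹ * z⁻¹ = (z * a * z⁻¹)⁻¹ := by group
      _ = _ := by rw [ha]

theorem Z0_central {g : G} (h : g ∈ Z0) (x : G) : g * x * g⁻¹ = x := by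
  rw [← center_G, Subgroup.mem_center_iff] at h
  rw [← h x]; group

theorem mem_Z0_of_rel {z : G} (h : Rel z 1) : z ∈ Z0 := by
  have h1 : ∀ i, z * tg i * z⁻¹ = tg i := by
    obtain ⟨π, hπ⟩ := h
    intro i
    have h1 := (hπ i).2
    rw [one_mul, inv_one, mul_one] at h1
    have h2 := rg_inj h1
    rw [(hπ i).1, ← h2]
  apply cent_mod
  intro s hs
  rw [comm_of_rel h1 (M0_le_K0 hs), mul_inv_cancel]
  exact Z0.one_mem

theorem θ_eq_one {g : K0} : θ g = 1 ↔ (g : G) ∈ Z0 := by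
  constructor
  · intro h
    obtain ⟨x, hx⟩ := exists_match g
    have hx' : Rel g x := hx
    rw [θ_spec hx', QuotientGroup.eq_one_iff, Subgroup.mem_center_iff] at h
    apply cent_mod
    intro s hs
    obtain ⟨y, hy⟩ := exists_match ⟨s, M0_le_K0 hs⟩
    have hy' : Rel s y := hy
    have h1 := ((hx'.mul hy').mul hx'.inv).mul hy'.inv
    have h2 : (x : W ≃ₗ[ZMod 3] W) * y * (x : W ≃ₗ[ZMod 3] W)⁻¹ * (y : W ≃ₗ[ZMod 3] W)⁻¹ = 1 := by
      have := congrArg Subtype.val (h y)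
      change (y : W ≃ₗ[ZMod 3] W) * x = x * y at this
      rw [← this]; group
    rw [h2] at h1
    exact mem_Z0_of_rel h1
  · intro h
    have : Rel g (1 : Om Qf) := ⟨id, fun i => ⟨Z0_central h _, by simp⟩⟩
    rw [θ_spec this]; rfl

theorem θ_gen (i j : Fin 126) : θ ⟨tg i * tg j, tg_mul_mem i j⟩ = ((⟨rg i * rg j, rg_mul_mem i j⟩ : Om Qf) : PO) :=
  θ_spec ((Rel.gen i).mul (Rel.gen j))

theorem conj_gen (y : Om Qf) (i j : Fin 126) : ∃ k l, (y : PO) * θ ⟨tg i * tg j, tg_mul_mem i j⟩ * (y : PO)⁻¹ =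
    θ ⟨tg k * tg l, tg_mul_mem k l⟩ := by
  obtain ⟨k, s, hs, hk⟩ := complete ((y : W ≃ₗ[ZMod 3] W) (ub i)) (by rw [Om_le y.2, Q_ub])
  obtain ⟨l, t, ht, hl⟩ := complete ((y : W ≃ₗ[ZMod 3] W) (ub j)) (by rw [Om_le y.2, Q_ub])
  refine ⟨k, l, ?_⟩
  rw [θ_gen, θ_gen, ← QuotientGroup.mk_inv, ← QuotientGroup.mk_mul, ← QuotientGroup.mk_mul]
  congr 1
  apply Subtype.ext
  change (y : W ≃ₗ[ZMod 3] W) * (rg i * rg j) * (y : W ≃ₗ[ZMod 3] W)⁻¹ = rg k * rg l
  have e1 : rg k = (y : W ≃ₗ[ZMod 3] W) * rg i * (y : W ≃ₗ[ZMod 3] W)⁻¹ := by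
    unfold rg; rw [refl_conj (Om_le y.2), hk, refl_smul hs]
  have e2 : rg l = (y : W ≃ₗ[ZMod 3] W) * rg j * (y : W ≃ₗ[ZMod 3] W)⁻¹ := by
    unfold rg; rw [refl_conj (Om_le y.2), hl, refl_smul ht]
  rw [e1, e2]; group

theorem range_conj (y : PO) (g : K0) : y * θ g * y⁻¹ ∈ θ.range := by
  obtain ⟨y, rfl⟩ := QuotientGroup.mk_surjective y
  let H := θ.range.comap ((MulAut.conj (y : PO)).toMonoidHom.comp θ)
  have h : K0 ≤ H.map K0.subtype := by
    refine (Subgroup.closure_le _).2 ?_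
    rintro _ ⟨i, j, rfl⟩
    refine ⟨⟨tg i * tg j, tg_mul_mem i j⟩, ?_, rfl⟩
    obtain ⟨k, l, hkl⟩ := conj_gen y i j
    exact ⟨_, hkl.symm⟩
  obtain ⟨g', hg', h1⟩ := h g.2
  have h2 : g' = g := Subtype.ext h1
  subst h2
  exact hg'

theorem θ_ne_one : θ ⟨tg 0 * tg 1, tg_mul_mem 0 1⟩ ≠ 1 := by
  intro h1
  rw [θ_eq_one] at h1
  have h2 := Z0_central h1 (tg 3)
  have h3 : tg 0 * tg 1 * tg 3 * (tg 0 * tg 1)⁻¹ = tg (mF 0 (mF 1 3)) := by
    rw [← tg_conj, ← tg_conj]; group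
  change tg 0 * tg 1 * tg 3 * (tg 0 * tg 1)⁻¹ = tg 3 at h2
  rw [h3] at h2
  have h4 := tg_inj h2
  revert h4
  decide +kernel

theorem θ_surjective (F9 : Type) [Field F9] [Fintype F9] (hF9 : Fintype.card F9 = 9) : Function.Surjective θ := by
  have hs := simple_PO F9 hF9
  have hn : θ.range.Normal := by
    constructor
    rintro _ ⟨g, rfl⟩ y
    exact range_conj y g
  rcases hs.eq_bot_or_eq_top_of_normal _ hn with h | h
  · exact absurd (by rw [← Subgroup.mem_bot, ← h]; exact ⟨_, rfl⟩) θ_ne_one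
  · exact MonoidHom.range_eq_top.1 h

theorem p2_notMem : mo 0 p2 ∉ K0 := by
  intro h
  obtain ⟨k, hk⟩ := swap_mem 4 5 (by decide)
  obtain ⟨x, hx⟩ := exists_match ⟨mo 0 p2, h⟩
  have hx' : Rel (mo 0 p2) x := hx
  have h1 : Rel (mo 0 p2) (rg k) := by
    have := Rel.gen k
    rw [hk] at this; exact this
  have h2 := hx'.inv.mul h1
  rw [inv_mul_cancel] at h2
  have h3 := rel_one h2
  have hO : (x : W ≃ₗ[ZMod 3] W)⁻¹ * rg k ∈ O Qf := mul_mem (inv_mem (Om_le x.2)) (refl_mem _)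
  obtain ⟨c, hc, h4⟩ := scalar_of hO h3
  have h5 := det_scalar hc h4
  rw [map_mul, map_inv, det_Om x.2, inv_one, one_mul] at h5
  have h6 := det_rg k
  rw [h5] at h6
  revert h6; decide

end Cfsg.Agent.Lib.U43
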