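import Cfsg.Agent.Lib.U43G

set_option autoImplicit false
set_option linter.style.haveILetI false
set_option linter.unusedVariables false
set_option linter.unusedSectionVars false

/-! # Recognition of the triple covers of `U₄(3)` inside `SU₆(2)` -/

namespace Cfsg.Agent.Lib.U43

open Cfsg.Agent.Lib.Quad Subgroup

theorem card_comap {A B : Type*} [Group A] [Group B] [Finite A] {f : A →* B} (hf : Function.Surjective f) (H : Subgroup B) :
    Nat.card (H.comap f) = Nat.card f.ker * Nat.card H := by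
  haveI : Finite B := Finite.of_surjective f hf
  have h1 := Subgroup.card_mul_index (H.comap f)
  have h2 := Subgroup.card_mul_index H
  have h3 : Nat.card f.ker * Nat.card B = Nat.card A := by
    have h4 := Subgroup.card_mul_index f.ker
    rw [Subgroup.index_ker, MonoidHom.range_eq_top.2 hf, Subgroup.card_top] at h4
    exact h4
  rw [Subgroup.index_comap_of_surjective H hf, ← h3, ← h2] at h1
  have h5 : 0 < H.index := Nat.pos_of_ne_zero Subgroup.index_ne_zero_of_finite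
  apply Nat.eq_of_mul_eq_mul_right h5
  rw [h1]; ring

/-- image of a subgroup -/
abbrev im {K : Subgroup G} {P : Type*} [Group P] (f : K →* P) (X : Subgroup G) : Subgroup P := (X.subgroupOf K).map f

variable {P : Type*} [Group P]

theorem comap_im {K : Subgroup G} {f : K →* P} {X : Subgroup G} (hk : ∀ g : K, f g = 1 → (g : G) ∈ X) :
    (im f X).comap f = X.subgroupOf K := by
  rw [Subgroup.comap_map_eq, sup_eq_left]
  intro g hg
  exact hk g (MonoidHom.mem_ker.1 hg)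

theorem card_im {K : Subgroup G} {f : K →* P} (hf : Function.Surjective f) {X : Subgroup G} (hX : X ≤ K)
    (hk : ∀ g : K, f g = 1 → (g : G) ∈ X) : Nat.card X = Nat.card f.ker * Nat.card (im f X) := by
  rw [← card_comap hf, comap_im hk]
  exact (Nat.card_congr (Subgroup.subgroupOfEquivOfLe hX).toEquiv).symm

theorem card_nm {K : Subgroup G} {f : K →* P} (hf : Function.Surjective f) {X : Subgroup G} (hX : X ≤ K)
    (hk : ∀ g : K, f g = 1 → (g : G) ∈ X) :
    Nat.card (normalizer (X : Set G) ⊓ K : Subgroup G) = Nat.card f.ker * Nat.card (normalizer (im f X : Set P)) := by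
  have h1 : Nat.card (normalizer (X : Set G) ⊓ K : Subgroup G) = Nat.card ((normalizer (X : Set G)).subgroupOf K) := by
    rw [← Subgroup.inf_subgroupOf_right]
    exact (Nat.card_congr (Subgroup.subgroupOfEquivOfLe inf_le_right).toEquiv).symm
  rw [h1, ← card_comap hf, Subgroup.subgroupOf_normalizer_eq hX, ← comap_im hk, ← Subgroup.comap_normalizer_eq_of_surjective _ hf]

theorem card_ker_θ : Nat.card θ.ker = 3 := by
  refine Eq.trans ?_ card_Z0
  apply Nat.card_congr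
  exact Equiv.ofBijective (fun g : θ.ker => (⟨(g : K0), θ_eq_one.1 g.2⟩ : Z0)) ⟨by
    intro a b h
    exact Subtype.ext (Subtype.ext (congrArg (fun z => z.1) h)), by
    rintro ⟨z, hz⟩
    exact ⟨⟨⟨z, T_le_K0 (Z0_le_T hz)⟩, θ_eq_one.2 hz⟩, rfl⟩⟩

/-- the situation of a triple cover containing the standard Sylow subgroup -/
structure Sit (K : Subgroup G) (f : K →* PO) : Prop where
  surj : Function.Surjective f
  ker : Nat.card f.ker = 3
  cen : ∀ g : K, f g = 1 → ∀ x : K, g * x = x * g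
  sle : S ≤ K
  im_eq : im f S = im θ S

theorem S_le_K0 : S ≤ K0 := S_le_M0.trans M0_le_K0

variable {K : Subgroup G} {f : K →* PO}

theorem Sit.ker_T (h : Sit K f) (g : K) (hg : f g = 1) : (g : G) ∈ T := by
  apply cent_T
  intro t ht
  exact congrArg Subtype.val (h.cen g hg ⟨t, h.sle (T_le_S ht)⟩)

theorem mem_im {K : Subgroup G} {P : Type*} [Group P] {f : K →* P} {X : Subgroup G} {g : G} (hg : g ∈ X) (hK : g ∈ K) :
    f ⟨g, hK⟩ ∈ im f X := ⟨⟨g, hK⟩, Subgroup.mem_subgroupOf.2 hg, rfl⟩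

/-- elements of `K0` with prescribed image -/
theorem mem_S_of {s : K0} (h : θ s ∈ im θ S) : (s : G) ∈ S := by
  obtain ⟨t, ht, h1⟩ := h
  have h2 : θ (s * t⁻¹) = 1 := by rw [map_mul, map_inv, h1, mul_inv_cancel]
  have h3 := θ_eq_one.1 h2
  have h4 : ((s * t⁻¹ : K0) : G) ∈ S := T_le_S (Z0_le_T h3)
  have h5 : (s : G) = ((s * t⁻¹ : K0) : G) * (t : G) := by
    change (s : G) = (s : G) * (t : G)⁻¹ * (t : G)
    group
  rw [h5]
  exact S.mul_mem h4 ht

theorem Sit.im_T (F9 : Type) [Field F9] [Fintype F9] (hF9 : Fintype.card F9 = 9) (h : Sit K f) : im f T = im θ T := by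
  have hθ := θ_surjective F9 hF9
  set A : Subgroup G := ((im f T).comap θ).map K0.subtype with hA
  have hmem : ∀ x ∈ A, ∃ hx : x ∈ K0, θ ⟨x, hx⟩ ∈ im f T := by
    rintro _ ⟨x, hx, rfl⟩
    exact ⟨x.2, hx⟩
  have hAS : A ≤ S := by
    intro x hx
    obtain ⟨hx1, hx2⟩ := hmem x hx
    apply mem_S_of (s := ⟨x, hx1⟩)
    rw [← h.im_eq]
    exact Subgroup.map_mono (Subgroup.comap_mono T_le_S) hx2
  have hcard : Nat.card A = 243 := by
    rw [hA, Subgroup.card_map_of_injective K0.subtype_injective, card_comap hθ, card_ker_θ]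
    have := card_im h.surj (T_le_S.trans h.sle) h.ker_T
    rw [card_T, h.ker] at this
    exact this.symm
  have habel : ∀ a ∈ im f T, ∀ b ∈ im f T, a * b = b * a := by
    rintro _ ⟨x, hx, rfl⟩ _ ⟨y, hy, rfl⟩
    rw [← map_mul, ← map_mul]
    congr 1
    apply Subtype.ext
    obtain ⟨a, ha⟩ := mem_T.1 (Subgroup.mem_subgroupOf.1 hx)
    obtain ⟨b, hb⟩ := mem_T.1 (Subgroup.mem_subgroupOf.1 hy)
    change (x : G) * y = y * x
    rw [ha, hb, mo_mul, mo_mul, act_one, act_one, add_comm]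
  have hAT : A = T := by
    apply uniq_T hAS hcard
    intro x hx y hy
    obtain ⟨hx1, hx2⟩ := hmem x hx
    obtain ⟨hy1, hy2⟩ := hmem y hy
    have h1 : θ (⟨x, hx1⟩ * ⟨y, hy1⟩ * ⟨x, hx1⟩⁻¹ * ⟨y, hy1⟩⁻¹) = 1 := by
      rw [map_mul, map_mul, map_mul, map_inv, map_inv, habel _ hx2 _ hy2]; group
    exact θ_eq_one.1 h1
  have h2 : A.subgroupOf K0 = (im f T).comap θ := by
    ext x
    rw [Subgroup.mem_subgroupOf, hA]
    constructor
    · rintro ⟨y, hy, h3⟩
      rw [← Subtype.ext h3]; exact hy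
    · intro hx; exact ⟨x, hx, rfl⟩
  have h3 : im θ A = im f T := by
    unfold im
    rw [h2, Subgroup.map_comap_eq_self_of_surjective hθ]
  rw [← h3, hAT]

theorem sign_of_mem_K0 {a : A0} {σ : Pm} (h : mo a σ ∈ K0) : Equiv.Perm.sign σ = 1 := by
  rcases Int.units_eq_one_or (Equiv.Perm.sign σ) with h1 | h1
  · exact h1
  · exfalso
    have h2 : mo 0 (σ⁻¹ * p2) ∈ K0 := alt_mem (by rw [Equiv.Perm.sign_mul, Equiv.Perm.sign_inv, h1, sign_p2]; decide)
    have h3 := K0.mul_mem h h2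
    rw [mo_mul, act_zero, add_zero, mul_inv_cancel_left] at h3
    have h4 : mo 0 p2 = mo (-a) 1 * mo a p2 := by rw [mo_mul, act_one, neg_add_cancel, one_mul]
    apply p2_notMem
    rw [h4]
    exact K0.mul_mem (T_le_K0 (mem_T.2 ⟨_, rfl⟩)) h3

theorem mem_normalizer' {X : Subgroup G} {g : G} : g ∈ normalizer (X : Set G) ↔ ∀ x, x ∈ X ↔ g * x * g⁻¹ ∈ X :=
  Subgroup.mem_set_normalizer_iff

theorem mem_norm_of {X : Subgroup G} {g : G} (h : ∀ x ∈ X, g * x * g⁻¹ ∈ X) : g ∈ normalizer (X : Set G) := by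
  haveI : Finite G := inferInstance
  have h1 : X.map (MulAut.conj g).toMonoidHom = X := by
    apply Subgroup.eq_of_le_of_card_ge
    · rintro _ ⟨x, hx, rfl⟩
      exact h x hx
    · rw [Subgroup.card_map_of_injective (MulAut.conj g).injective]
  rw [mem_normalizer']
  intro x
  constructor
  · exact h x
  · intro hx
    rw [← h1] at hx
    obtain ⟨y, hy, h2⟩ := hx
    change g * y * g⁻¹ = g * x * g⁻¹ at h2
    rw [← mul_left_cancel (mul_right_cancel h2)]; exact hy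

theorem mono_norm_T {a : A0} {σ : Pm} : mo a σ ∈ normalizer (T : Set G) := by
  apply mem_norm_of
  intro x hx
  obtain ⟨b, rfl⟩ := mem_T.1 hx
  have h1 : σ * 1 * σ⁻¹ = 1 := by group
  rw [mo_conj, h1]
  exact mem_T.2 ⟨_, rfl⟩

theorem of_norm_T {g : G} (h : g ∈ normalizer (T : Set G)) : ∃ a σ, g = mo a σ := by
  obtain ⟨a, σ, -, h1⟩ := norm_T (g := g) (fun t ht => (mem_normalizer'.1 h t).1 ht)
  exact ⟨a, σ, h1⟩

theorem nm_K0 : (normalizer (T : Set G) ⊓ K0 : Subgroup G) = M0 := by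
  ext g
  rw [Subgroup.mem_inf]
  constructor
  · rintro ⟨h1, h2⟩
    obtain ⟨a, σ, rfl⟩ := of_norm_T h1
    exact mo_mem_M0.2 (sign_of_mem_K0 h2)
  · intro h
    refine ⟨?_, M0_le_K0 h⟩
    obtain ⟨a, σ, -, rfl⟩ := h
    exact mono_norm_T

theorem Sit.nm (F9 : Type) [Field F9] [Fintype F9] (hF9 : Fintype.card F9 = 9) (h : Sit K f) :
    (normalizer (T : Set G) ⊓ K : Subgroup G) = M0 := by
  have hθ := θ_surjective F9 hF9
  have hTK : T ≤ K := T_le_S.trans h.sle
  have c1 := card_nm h.surj hTK h.ker_T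
  have c2 := card_nm hθ T_le_K0 (fun g hg => Z0_le_T (θ_eq_one.1 hg))
  rw [h.ker, h.im_T F9 hF9] at c1
  rw [card_ker_θ, nm_K0] at c2
  have c0 := c1.trans c2.symm
  let H : Subgroup Pm :=
    { carrier := {σ | ∃ a, mo a σ ∈ K}
      one_mem' := ⟨0, by rw [mo_one]; exact K.one_mem⟩
      mul_mem' := by
        rintro σ τ ⟨a, ha⟩ ⟨b, hb⟩
        exact ⟨_, by rw [← mo_mul a b]; exact K.mul_mem ha hb⟩
      inv_mem' := by
        rintro σ ⟨a, ha⟩
        exact ⟨_, by rw [← mo_inv]; exact K.inv_mem ha⟩ }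
  have hH : (normalizer (T : Set G) ⊓ K : Subgroup G) = Mn H := by
    ext g
    rw [Subgroup.mem_inf]
    constructor
    · rintro ⟨h1, h2⟩
      obtain ⟨a, σ, rfl⟩ := of_norm_T h1
      exact mo_mem.2 ⟨a, h2⟩
    · rintro ⟨b, σ, ⟨a, ha⟩, rfl⟩
      refine ⟨mono_norm_T, ?_⟩
      have : mo b σ = mo (b - a) 1 * mo a σ := by rw [mo_mul, act_one, sub_add_cancel, one_mul]
      rw [this]
      exact K.mul_mem (hTK (mem_T.2 ⟨_, rfl⟩)) ha
  rw [hH] at c0
  have c00 : Nat.card (Mn H) = Nat.card (Mn (alternatingGroup (Fin 6))) := c0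
  rw [card_Mn, card_Mn] at c00
  have c3 : Nat.card H = Nat.card (alternatingGroup (Fin 6)) := Nat.eq_of_mul_eq_mul_left (by norm_num) c00
  have c4 : H.index = 2 := by
    have e1 := Subgroup.card_mul_index H
    have e2 := Subgroup.card_mul_index (alternatingGroup (Fin 6))
    rw [alternatingGroup.index_eq_two, ← c3, ← e1] at e2
    exact (Nat.eq_of_mul_eq_mul_left Nat.card_pos e2).symm
  rw [hH, Equiv.Perm.eq_alternatingGroup_of_index_eq_two c4]

theorem Sit.M0_le (F9 : Type) [Field F9] [Fintype F9] (hF9 : Fintype.card F9 = 9) (h : Sit K f) : M0 ≤ K := by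
  rw [← h.nm F9 hF9]; exact inf_le_right

theorem Sit.sign (F9 : Type) [Field F9] [Fintype F9] (hF9 : Fintype.card F9 = 9) (h : Sit K f) {a : A0} {σ : Pm}
    (hm : mo a σ ∈ K) : Equiv.Perm.sign σ = 1 := by
  have : mo a σ ∈ (normalizer (T : Set G) ⊓ K : Subgroup G) := ⟨mono_norm_T, hm⟩
  rw [h.nm F9 hF9] at this
  exact mo_mem_M0.1 this

theorem Sit.ker_Z0 (F9 : Type) [Field F9] [Fintype F9] (hF9 : Fintype.card F9 = 9) (h : Sit K f) (g : K) (hg : f g = 1) :
    (g : G) ∈ Z0 := by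
  apply cent_mod
  intro s hs
  have := congrArg Subtype.val (h.cen g hg ⟨s, h.M0_le F9 hF9 hs⟩)
  change (g : G) * s = s * g at this
  rw [this, mul_inv_cancel_right, mul_inv_cancel]
  exact Z0.one_mem

theorem Y_comm_S {y : G} (hy : y ∈ Y) {s : G} (hs : s ∈ S) : y * s = s * y := by
  obtain ⟨c, d, rfl⟩ := hy
  obtain ⟨a, σ, hσ, rfl⟩ := hs
  rw [mo_mul, mo_mul, act_one, one_mul, mul_one]
  have : act σ (yv c d) = yv c d := by
    have h1 : ∀ σ ∈ LC, ∀ i, (i < 3 ↔ σ⁻¹ i < 3) := by decide +kernel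
    have h2 : ∀ c d : ZMod 3, ∀ i : Fin 6, (yv c d).1 i = if i < 3 then c else d := by decide +kernel
    apply Subtype.ext
    ext i
    change (yv c d).1 (σ⁻¹ i) = _
    rw [h2, h2]
    simp only [h1 σ hσ i]
  rw [this, add_comm]

theorem Sit.im_Y (F9 : Type) [Field F9] [Fintype F9] (hF9 : Fintype.card F9 = 9) (h : Sit K f) : im f Y = im θ Y := by
  have hθ := θ_surjective F9 hF9
  have hYK : Y ≤ K := (Y_le_T.trans T_le_S).trans h.sle
  have hkY : ∀ g : K, f g = 1 → (g : G) ∈ Y := fun g hg => Z0_le_Y (h.ker_Z0 F9 hF9 g hg)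
  set A : Subgroup G := ((im f Y).comap θ).map K0.subtype with hA
  have hmem : ∀ x ∈ A, ∃ hx : x ∈ K0, θ ⟨x, hx⟩ ∈ im f Y := by
    rintro _ ⟨x, hx, rfl⟩
    exact ⟨x.2, hx⟩
  have hAS : A ≤ S := by
    intro x hx
    obtain ⟨hx1, hx2⟩ := hmem x hx
    apply mem_S_of (s := ⟨x, hx1⟩)
    rw [← h.im_eq]
    exact Subgroup.map_mono (Subgroup.comap_mono (Y_le_T.trans T_le_S)) hx2
  have hcard : Nat.card A = Nat.card Y := by
    rw [hA, Subgroup.card_map_of_injective K0.subtype_injective, card_comap hθ, card_ker_θ]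
    have := card_im h.surj hYK hkY
    rw [h.ker] at this
    exact this.symm
  have hAY : A = Y := by
    apply Subgroup.eq_of_le_of_card_ge _ hcard.ge
    intro x hx
    apply centre_mod (hAS hx)
    intro s hs
    obtain ⟨hx1, hx2⟩ := hmem x hx
    have hs1 : θ ⟨s, S_le_K0 hs⟩ ∈ im f S := by rw [h.im_eq]; exact mem_im hs _
    obtain ⟨y, hy, hy1⟩ := hx2
    obtain ⟨t, ht, ht1⟩ := hs1
    have hc : θ ⟨x, hx1⟩ * θ ⟨s, S_le_K0 hs⟩ = θ ⟨s, S_le_K0 hs⟩ * θ ⟨x, hx1⟩ := by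
      rw [← hy1, ← ht1, ← map_mul, ← map_mul]
      congr 1
      exact Subtype.ext (Y_comm_S hy ht)
    have h1 : θ (⟨x, hx1⟩ * ⟨s, S_le_K0 hs⟩ * ⟨x, hx1⟩⁻¹ * ⟨s, S_le_K0 hs⟩⁻¹) = 1 := by
      rw [map_mul, map_mul, map_mul, map_inv, map_inv, hc]; group
    exact θ_eq_one.1 h1
  have h2 : A.subgroupOf K0 = (im f Y).comap θ := by
    ext x
    rw [Subgroup.mem_subgroupOf, hA]
    constructor
    · rintro ⟨y, hy, h3⟩
      rw [← Subtype.ext h3]; exact hy
    · intro hx; exact ⟨x, hx, rfl⟩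
  have h3 : im θ A = im f Y := by
    unfold im
    rw [h2, Subgroup.map_comap_eq_self_of_surjective hθ]
  rw [← h3, hAY]

theorem Q_comm_Y {y : G} (hy : y ∈ Y) (a b : Fin 8) : Q a b * y * (Q a b)⁻¹ = y := by
  obtain ⟨c, d, rfl⟩ := hy
  have : Q a b * mo (yv c d) 1 = mo (yv c d) 1 * Q a b := by
    apply ext_mt
    ext i j
    rw [diag_mul, mul_diag]
    have hlo : ∀ (c d : ZMod 3) (k : Fin 3), (yv c d).1 (lo k) = c := by decide
    have hhi : ∀ (c d : ZMod 3) (k : Fin 3), (yv c d).1 (hi k) = d := by decide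
    change bd (q a) (q b) i j * _ = _ * bd (q a) (q b) i j
    rcases six i with ⟨i, rfl⟩ | ⟨i, rfl⟩ <;> rcases six j with ⟨j, rfl⟩ | ⟨j, rfl⟩
    · rw [hlo, hlo, mul_comm]
    · rw [bd_lh, mul_zero, zero_mul]
    · rw [bd_hl, mul_zero, zero_mul]
    · rw [hhi, hhi, mul_comm]
  rw [this, mul_inv_cancel_right]

theorem Q23_notMem : Q 2 3 ∉ M0 := by
  rintro ⟨a, σ, -, h⟩
  have h1 := congrArg ClThreeTransU.mt h
  have h2 : ∀ i j, ClThreeTransU.mt (Q 2 3) i j = if i = σ j then e (a.1 i) else 0 := by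
    intro i j; rw [h1, mt_mo, monM_apply]
  have h3 : ∀ i : Fin 3, ClThreeTransU.mt (Q 2 3) (lo i) (lo 0) ≠ 0 := by
    intro i
    change bd (q 2) (q 3) (lo i) (lo 0) ≠ 0
    rw [bd_lo]
    have : ∀ i : Fin 3, (1 : K4.K4) * q 2 i 0 ≠ 0 := by decide +kernel
    intro hc
    exact this i (by rw [hc, mul_zero])
  have h4 : ∀ i : Fin 3, lo i = σ (lo 0) := by
    intro i
    by_contra hc
    apply h3 i
    rw [h2, if_neg hc]
  have h5 := (h4 0).trans (h4 1).symm
  revert h5; decide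

/-- the extra element -/
theorem Sit.exists_elt (F9 : Type) [Field F9] [Fintype F9] (hF9 : Fintype.card F9 = 9) (h : Sit K f) :
    Q 2 3 ∈ K ∨ Q 2 5 ∈ K ∨ Q 2 7 ∈ K := by
  have hθ := θ_surjective F9 hF9
  have hM := h.M0_le F9 hF9
  have ho1 : mo 0 p1 ∉ K := by
    intro hc
    have := h.sign F9 hF9 hc
    have h2 : Equiv.Perm.sign p1 = -1 := Equiv.Perm.sign_swap (by decide)
    rw [h2] at this
    exact absurd this (by decide)
  have ho2 : mo 0 p2 ∉ K := by
    intro hc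
    have := h.sign F9 hF9 hc
    rw [sign_p2] at this
    exact absurd this (by decide)
  obtain ⟨g, hg, hY, hn⟩ : ∃ g ∈ K, (∀ y ∈ Y, g * y * g⁻¹ ∈ Y) ∧ g ∉ M0 := by
    by_contra hc
    push Not at hc
    have hYK : Y ≤ K := (Y_le_T.trans T_le_S).trans h.sle
    have hYK0 : Y ≤ K0 := (Y_le_T.trans T_le_S).trans S_le_K0
    have c1 := card_nm h.surj hYK (fun g hg => Z0_le_Y (h.ker_Z0 F9 hF9 g hg))
    have c2 := card_nm hθ hYK0 (fun g hg => Z0_le_Y (θ_eq_one.1 hg))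
    rw [h.ker, h.im_Y F9 hF9] at c1
    rw [card_ker_θ, ← c1] at c2
    have hle : (normalizer (Y : Set G) ⊓ K : Subgroup G) ≤ (normalizer (Y : Set G) ⊓ K0 : Subgroup G) := by
      rintro x ⟨hx1, hx2⟩
      refine ⟨hx1, M0_le_K0 (hc x hx2 (fun y hy => (mem_normalizer'.1 hx1 y).1 hy))⟩
    have heq := Subgroup.eq_of_le_of_card_ge hle c2.le
    have hQ : Q 2 3 ∈ (normalizer (Y : Set G) ⊓ K0 : Subgroup G) := by
      refine ⟨mem_norm_of (fun y hy => by rw [Q_comm_Y hy]; exact hy), Q23_mem⟩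
    rw [← heq] at hQ
    exact Q23_notMem (hc _ hQ.2 (fun y hy => by rw [Q_comm_Y hy]; exact hy))
  exact find_h hM ho1 ho2 hg hY hn

end Cfsg.Agent.Lib.U43
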