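import Cfsg.Agent.Lib.U43I

set_option autoImplicit false
set_option linter.all false

/-! `K0 ≅ 3.U₄(3)` contains no transvection of `SU₆(2)` (helper2). -/

namespace Cfsg.Agent.Lib.U43T2

open Matrix Cfsg Cfsg.Agent.Lib.K4 Cfsg.Agent.Lib.HermMat Cfsg.Agent.Lib.ClThreeTransU Cfsg.Agent.Lib.SU6K4 Cfsg.Agent.Lib.U43

theorem tg_notMem (i : Fin 126) : tg i ∉ K0 := by
  intro h
  obtain ⟨k, hk⟩ := swap_mem 4 5 (by decide)
  have h1 : tg k ∈ K0 := by
    have := K0.mul_mem h (tg_mul_mem i k)
    rwa [← mul_assoc, tg_sq, one_mul] at this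
  rw [hk] at h1
  exact p2_notMem h1

theorem tg_inv (i : Fin 126) : (tg i)⁻¹ = tg i := inv_eq_of_mul_eq_one_right (tg_sq i)

theorem conj_mem (i : Fin 126) {g : G} (hg : g ∈ K0) : tg i * g * tg i ∈ K0 := by
  induction hg using Subgroup.closure_induction with
  | mem x hx =>
    obtain ⟨j, k, rfl⟩ := hx
    have := K0.mul_mem (tg_mul_mem i j) (tg_mul_mem k i)
    have e : tg i * (tg j * tg k) * tg i = tg i * tg j * (tg k * tg i) := by group
    rw [e]; exact this
  | one => rw [mul_one, tg_sq]; exact K0.one_mem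
  | mul x y _ _ hx hy =>
    have e : tg i * (x * y) * tg i = (tg i * x * tg i) * (tg i * y * tg i) := by
      have h2 := tg_sq i
      calc tg i * (x * y) * tg i = tg i * x * 1 * y * tg i := by group
        _ = tg i * x * (tg i * tg i) * y * tg i := by rw [h2]
        _ = _ := by group
    rw [e]; exact K0.mul_mem hx hy
  | inv x _ hx =>
    have e : tg i * x⁻¹ * tg i = (tg i * x * tg i)⁻¹ := by
      rw [_root_.mul_inv_rev, _root_.mul_inv_rev, tg_inv, mul_assoc]
    rw [e]; exact K0.inv_mem hx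

/-- no transvection `t_v` lies in `K0` -/
theorem no_TR {g : G} (hg : g ∈ K0) (h1 : g ≠ 1) {v : Fin 6 → K4} (hv : hermForm 6 K4 2 v v = 0) (hT : TR g v) : False := by
  have hgg : g * g = 1 := hT.sq card_K4 hv
  have hgi : g⁻¹ = g := inv_eq_of_mul_eq_one_right hgg
  have hcomm : ∀ i, g * tg i = tg i * g := by
    intro i
    have hdd := tg_sq i
    rcases hT.three card_K4 hv (tg_TR i) (va_iso i i.2) with h | h
    · have h2 : g * tg i * (g * tg i) = 1 := by rw [← sq]; exact h
      have h3 : g * tg i = (g * tg i)⁻¹ := (inv_eq_of_mul_eq_one_right h2).symm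
      rw [h3, _root_.mul_inv_rev, tg_inv, hgi]
    · exfalso
      have h2 : g * tg i * g * (tg i * g * tg i) = 1 := by
        have : (g * tg i) ^ 3 = g * tg i * g * (tg i * g * tg i) := by
          rw [pow_succ, pow_two]; group
        rw [← this]; exact h
      have h3 : g * tg i * g = tg i * g * tg i := by
        have h4 := eq_inv_of_mul_eq_one_left h2
        rw [h4, _root_.mul_inv_rev, _root_.mul_inv_rev, tg_inv, hgi, mul_assoc]
      have h5 : tg i = (g * (tg i * g * tg i)) * g := by
        calc tg i = (g * g) * tg i * (g * g) := by rw [hgg]; group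
          _ = g * (g * tg i * g) * g := by group
          _ = _ := by rw [h3]
      apply tg_notMem i
      rw [h5]
      exact K0.mul_mem (K0.mul_mem hg (conj_mem i hg)) hg
  have hK : ∀ k ∈ K0, g * k = k * g := by
    intro k hk
    induction hk using Subgroup.closure_induction with
    | mem x hx =>
      obtain ⟨i, j, rfl⟩ := hx
      rw [← mul_assoc, hcomm i, mul_assoc, hcomm j, ← mul_assoc]
    | one => rw [mul_one, one_mul]
    | mul x y _ _ hx hy => rw [← mul_assoc, hx, mul_assoc, hy, ← mul_assoc]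
    | inv x _ hx =>
      have : Commute g x := hx
      exact this.inv_right
  have hgT : g ∈ T := cent_T fun t ht => hK t (T_le_K0 ht)
  obtain ⟨a, ha⟩ := mem_T.1 hgT
  have h3 : g * g * g = 1 := by
    rw [ha, mo_mul, mo_mul, act_one, one_mul, act_one, one_mul, ← mo_one]
    congr 1
    apply Subtype.ext
    ext i
    have : ∀ x : ZMod 3, x + x + x = 0 := by decide
    exact this _
  rw [hgg, one_mul] at h3
  exact h1 h3

/-- elements of `SU₆(2)` which differ from `1` by a map of rank one are transvections -/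
theorem TR_of {g : G} (h1 : g ≠ 1) {f : (Fin 6 → K4) → K4} {w : Fin 6 → K4} (h : ∀ x, mt g *ᵥ x = x + f x • w) :
    ∃ v, hermForm 6 K4 2 v v = 0 ∧ TR g v := by
  have hne : ∃ x, f x • w ≠ 0 := by
    by_contra hcon
    push Not at hcon
    apply h1
    apply SU_ext
    intro x
    rw [h x, hcon x, add_zero, mt_one, one_mulVec]
  obtain ⟨x0, hx0⟩ := hne
  have hw : w ≠ 0 := fun h0 => hx0 (by rw [h0, smul_zero])
  have hfx0 : f x0 ≠ 0 := fun h0 => hx0 (by rw [h0, zero_smul])
  obtain ⟨y, hy⟩ := exists_ne_zero (hF' card_K4) hw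
  have hinv : ∀ x y, f x * hermForm 6 K4 2 w y + f y ^ 2 * hermForm 6 K4 2 x w + f x * f y ^ 2 * hermForm 6 K4 2 w w = 0 := by
    intro x y
    have h2 : hermForm 6 K4 2 (mt g *ᵥ x) (mt g *ᵥ y) = hermForm 6 K4 2 x y := g.2 x y
    rw [h x, h y, hermForm_add_left, hermForm_add_right hF, hermForm_add_right hF, hermForm_smul_left, hermForm_smul_left,
      hermForm_smul_right, hermForm_smul_right] at h2
    linear_combination h2
  have hsw : ∀ x y, hermForm 6 K4 2 x y ^ 2 = hermForm 6 K4 2 y x := fun x y => hermForm_swap (hF' card_K4) x y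
  set γ := hermForm 6 K4 2 w w with hγ
  have hγ2 : γ ^ 2 = γ := hsw w w
  set A := hermForm 6 K4 2 w y + f y ^ 2 * γ with hA
  have hneg : ∀ z : K4, -z = z := by decide
  have e1 : ∀ x, f x * A + f y ^ 2 * hermForm 6 K4 2 x w = 0 := by
    intro x
    have := hinv x y
    rw [hA]
    linear_combination this
  have hA0 : A ≠ 0 := by
    intro h0
    have h2 := e1 y
    rw [h0, mul_zero, zero_add] at h2
    have h3 : f y = 0 := by
      have := (mul_eq_zero.1 h2).resolve_right hy
      exact pow_eq_zero_iff (two_ne_zero) |>.1 this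
    rw [hA, h3] at h0
    have h4 : hermForm 6 K4 2 w y = 0 := by
      have : hermForm 6 K4 2 w y + 0 ^ 2 * γ = 0 := h0
      linear_combination this
    apply hy
    rw [← hsw, h4]; ring
  set c := f y ^ 2 / A with hc
  have hf : ∀ x, f x = c * hermForm 6 K4 2 x w := by
    intro x
    have h2 := e1 x
    have h3 : f x * A = f y ^ 2 * hermForm 6 K4 2 x w := by
      have := eq_neg_of_add_eq_zero_left h2
      rw [this, hneg]
    rw [hc, div_mul_eq_mul_div, ← h3, mul_div_cancel_right₀ _ hA0]
  have hc0 : c ≠ 0 := fun h0 => hfx0 (by rw [hf, h0, zero_mul])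
  have hcub : ∀ z : K4, z ≠ 0 → z ^ 3 = 1 := by decide
  have e2 : 1 + c + c ^ 2 * γ = 0 := by
    have h2 := hinv y y
    rw [hf y, ← hsw y w] at h2
    set t := hermForm 6 K4 2 y w with ht
    have h3 : (c * t ^ 3) * (1 + c + c ^ 2 * γ) = 0 := by linear_combination h2
    rcases mul_eq_zero.1 h3 with h4 | h4
    · exact absurd h4 (mul_ne_zero hc0 (pow_ne_zero _ hy))
    · exact h4
  have key : ∀ c γ : K4, c ≠ 0 → γ ^ 2 = γ → 1 + c + c ^ 2 * γ = 0 → (γ = 0 ∧ c = 1) ∨ (1 + c * γ ≠ 1) := by decide
  rcases key c γ hc0 hγ2 e2 with ⟨h0, h2⟩ | h2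
  · refine ⟨w, h0, fun x => ?_⟩
    rw [h x, hf x, h2, one_mul]
  · exfalso
    apply h2
    have hM : mt g = 1 + replicateCol Unit w * replicateRow Unit (fun j => c * w j ^ 2) := by
      apply Matrix.toLin'.injective
      apply LinearMap.ext
      intro x
      rw [Matrix.toLin'_apply, Matrix.toLin'_apply, h x, hf x, add_mulVec, one_mulVec]
      congr 1
      ext i
      rw [hermForm_def]
      simp only [Pi.smul_apply, smul_eq_mul, mulVec, dotProduct, Matrix.mul_apply, replicateCol_apply, replicateRow_apply,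
        Finset.univ_unique, Finset.sum_singleton, Finset.mul_sum, Finset.sum_mul]
      apply Finset.sum_congr rfl
      intro j _
      ring
    have hdet : (mt g).det = 1 := g.1.2
    rw [hM, det_one_add_replicateCol_mul_replicateRow] at hdet
    rw [← hdet]
    congr 1
    rw [hγ, hermForm_def]
    simp only [dotProduct, Finset.mul_sum]
    apply Finset.sum_congr rfl
    intro j _
    ring

theorem T {g : G} (hg : g ∈ K0) (h1 : g ≠ 1) (f : (Fin 6 → K4) → K4) (w : Fin 6 → K4)
    (h : ∀ x, mt g *ᵥ x = x + f x • w) : False := by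
  obtain ⟨v, hv, hT⟩ := TR_of h1 h
  exact no_TR hg h1 hv hT

end Cfsg.Agent.Lib.U43T2
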