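import Cfsg.Agent.Lib.UCETDP
import Cfsg.Agent.Lib.UCEMain2

set_option autoImplicit false
set_option linter.unusedSectionVars false

/-!
Lifting theorem for `B₂(q)`, `q ≥ 3`.
-/

namespace Cfsg.Agent.Lib.UCEB2
open Cfsg.Lie Cfsg.Agent.Lib.ChevX Cfsg.Agent.Lib.ChevGood Cfsg.Agent.Lib.ChevRel
open Cfsg.Agent.Lib.ChevU Cfsg.Agent.Lib.ChevH Cfsg.Agent.Lib.ChevN Cfsg.Agent.Lib.ChevBN
open Cfsg.Agent.Lib.StBase Cfsg.Agent.Lib.StKer Cfsg.Agent.Lib.UCEBase
open Cfsg.Agent.Lib.UCESys Cfsg.Agent.Lib.UCELift Cfsg.Agent.Lib.UCERank1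
open Cfsg.Agent.Lib.UCETorus

variable {K : Type*} [Field K] {Q Γ : Type*} [Group Q] [Group Γ]

def MB2 : List (List ℤ) := [[1, 1], [1, 2], [0, 1], [1, 0]]

def WB2 : List (List ℕ) := [[], [1], [0]]

set_option maxRecDepth 1000000 in
theorem posB2 : (Cfsg.Agent.Lib.ChevDataB2.B0.all fun x => chkPos chevB2 WB2 x) = true := by decide +kernel

set_option maxRecDepth 1000000 in
theorem killB2 : (Cfsg.Agent.Lib.ChevDataB2.B0.all fun x => chkKill chevB2 MB2 [1, 2] [] x) = true := by
  decide +kernel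

theorem PairB2 : ∀ i < chevB2.rank, StBase.PairOK chevB2 i := Cfsg.Agent.Lib.StPair.pairOK (by simp)

theorem hpos_B2 : ∀ r < chevB2.nroots, ∀ s < chevB2.nroots, s ≠ chevB2.neg r →
    ∃ w, Valid chevB2 w ∧ r ∈ Pw chevB2 w ∧ s ∈ Pw chevB2 w :=
  hpos_of_chk Cfsg.Agent.Lib.ChevOkB2.good WB2 (fun x hx => List.all_eq_true.mp posB2 x hx)

theorem hkill_B2 [Finite K] (hq : 4 ≤ Nat.card K) (S : StG chevB2 K Q) {σ : Γ →* Q} (hσ : CE σ) :
    ∀ r < chevB2.nroots, ∀ s < chevB2.nroots, s ≠ r → s ≠ chevB2.neg r → Kill S r s ∨ LCp S hσ r s := by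
  refine hkill_of_chk Cfsg.Agent.Lib.ChevOkB2.good S PairB2 hσ MB2 [1, 2] [] ?_ ?_
    (fun x hx => List.all_eq_true.mp killB2 x hx)
  · intro e he
    simp only [List.mem_cons, List.not_mem_nil, or_false] at he
    rcases he with rfl | rfl
    · exact exists_pow_one (by omega)
    · exact exists_pow_two hq
  · intro x hx; simp at hx

/-- root elements in terms of a commutator with two terms -/
theorem gen_double {D : ChevalleyDatum} (S : StG D K Q) {a b r1 r2 : ℕ} {C1 C2 : ℤ} (ha : a < D.nroots)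
    (hb : b < D.nroots) (hne : b ≠ a) (hneg : b ≠ D.neg a)
    (h : D.commTerms a b = [(r1, C1, 1, 1), (r2, C2, 1, 2)]) (hC : C2 = 1 ∨ C2 = -1) (t : K) :
    S.X r2 t ∈ XS S {a, b, r1} := by
  have h1 := S.comm a ha b hb hne hneg (-(C2 : K) * t) 1
  have h2 : WX S.X (D.commWord K a b (-(C2 : K) * t) 1) = S.X r1 ((C1 : K) * (C2 * t)) * S.X r2 t := by
    unfold ChevalleyDatum.commWord
    rw [h]
    rw [List.map_cons, List.map_cons, List.map_nil, WX_cons, WX_cons, WX_nil, mul_one]
    simp only [pow_one, one_pow, mul_one]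
    congr 2
    · ring
    · rcases hC with h | h <;> rw [h] <;> simp
  rw [h2] at h1
  have h3 : S.X r2 t = (S.X a (-(C2 : K) * t) * S.X b 1 * S.X r1 ((C1 : K) * (C2 * t)))⁻¹ *
      (S.X b 1 * S.X a (-(C2 : K) * t)) := by rw [h1]; group
  rw [h3]
  have e1 : ∀ v, S.X a v ∈ XS S {a, b, r1} := fun v => StBase.X_mem_XS S (A := {a, b, r1}) (by simp) _
  have e2 : ∀ v, S.X b v ∈ XS S {a, b, r1} := fun v => StBase.X_mem_XS S (A := {a, b, r1}) (by simp) _
  have e3 : ∀ v, S.X r1 v ∈ XS S {a, b, r1} := fun v => StBase.X_mem_XS S (A := {a, b, r1}) (by simp) _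
  exact mul_mem (inv_mem (mul_mem (mul_mem (e1 _) (e2 _)) (e3 _))) (mul_mem (e2 _) (e1 _))

/-- root elements in terms of a commutator with two terms -/
theorem gen_double' {D : ChevalleyDatum} (S : StG D K Q) {a b r1 r2 : ℕ} {C1 C2 : ℤ} (ha : a < D.nroots)
    (hb : b < D.nroots) (hne : b ≠ a) (hneg : b ≠ D.neg a)
    (h : D.commTerms a b = [(r1, C1, 1, 1), (r2, C2, 1, 2)]) (hC : C1 = 1 ∨ C1 = -1) (t : K) :
    S.X r1 t ∈ XS S {a, b, r2} := by
  have h1 := S.comm a ha b hb hne hneg (-(C1 : K) * t) 1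
  have h2 : WX S.X (D.commWord K a b (-(C1 : K) * t) 1) = S.X r1 t * S.X r2 ((C2 : K) * (C1 * t)) := by
    unfold ChevalleyDatum.commWord
    rw [h]
    rw [List.map_cons, List.map_cons, List.map_nil, WX_cons, WX_cons, WX_nil, mul_one]
    simp only [pow_one, one_pow, mul_one]
    congr 2
    · rcases hC with h | h <;> rw [h] <;> simp
    · ring
  rw [h2] at h1
  have h3 : S.X r1 t = (S.X a (-(C1 : K) * t) * S.X b 1)⁻¹ *
      (S.X b 1 * S.X a (-(C1 : K) * t)) * (S.X r2 ((C2 : K) * (C1 * t)))⁻¹ := by rw [h1]; group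
  rw [h3]
  have e1 : ∀ v, S.X a v ∈ XS S {a, b, r2} := fun v => StBase.X_mem_XS S (A := {a, b, r2}) (by simp) _
  have e2 : ∀ v, S.X b v ∈ XS S {a, b, r2} := fun v => StBase.X_mem_XS S (A := {a, b, r2}) (by simp) _
  have e3 : ∀ v, S.X r2 v ∈ XS S {a, b, r2} := fun v => StBase.X_mem_XS S (A := {a, b, r2}) (by simp) _
  exact mul_mem (mul_mem (inv_mem (mul_mem (e1 _) (e2 _))) (mul_mem (e2 _) (e1 _))) (inv_mem (e3 _))

theorem two_zero_of_card_four [Finite K] (hq : Nat.card K = 4) : (2 : K) = 0 := by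
  haveI : Fintype K := Fintype.ofFinite K
  have h4 : (4 : K) = 0 := by
    have := FiniteField.cast_card_eq_zero K
    rw [← Nat.card_eq_fintype_card, hq] at this
    exact_mod_cast this
  have : (2 : K) * 2 = 0 := by rw [← h4]; norm_num
  exact (mul_eq_zero.mp this).elim id id

theorem lift_B2_ge4 [Finite K] (hq : 4 ≤ Nat.card K) (S : StG chevB2 K Q) {σ : Γ →* Q} (hσ : CE σ)
    (h3 : UCELift.R3 (ofSt S)) :
    ∃ R' : RSys chevB2 K Γ, UCELift.R3 R' ∧ ∀ r < chevB2.nroots, ∀ t, σ (R'.x r t) = S.X r t := by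
  have hk := hkill_B2 hq S hσ
  have hself : ∀ i < chevB2.rank, LCp S hσ (chevB2.simple i) (chevB2.simple i) := by
    intro i hi
    change i < 2 at hi
    interval_cases i
    · by_cases hq5 : 5 ≤ Nat.card K
      · exact self_trick Cfsg.Agent.Lib.ChevOkB2.good S PairB2 hσ hq5 (by decide +kernel) [0, -1] (by decide +kernel)
      · have h2 := two_zero_of_card_four (K := K) (by omega)
        rw [show chevB2.simple 0 = 5 by decide +kernel]
        refine cl_self_of_gen hσ S {3, 6, 7} ?_ (gen_double' S (a := 3) (b := 6) (r1 := 5) (r2 := 7) (C1 := 1) (C2 := 1)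
          (by decide +kernel) (by decide +kernel) (by decide) (by decide +kernel) (by decide +kernel) (Or.inl rfl))
        intro k hk'
        rcases hk' with rfl | rfl | hk'
        · exact LCp_of_nil Cfsg.Agent.Lib.ChevOkB2.good S hσ hk (by decide +kernel) (by decide +kernel)
            (by decide) (by decide +kernel) (WX_nil_of (by decide +kernel))
        · refine LCp_of_nil Cfsg.Agent.Lib.ChevOkB2.good S hσ hk (by decide +kernel) (by decide +kernel)
            (by decide) (by decide +kernel) (fun t u => ?_)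
          unfold ChevalleyDatum.commWord
          rw [show chevB2.commTerms 5 6 = [(7, 2, 1, 1)] by decide +kernel]
          rw [List.map_cons, List.map_nil, WX_cons, WX_nil, mul_one]
          have e : (((2 : ℤ) : K) * (-t) ^ 1 * u ^ 1) = 0 := by push_cast; rw [h2]; ring
          change S.X 7 (((2 : ℤ) : K) * (-t) ^ 1 * u ^ 1) = 1
          rw [e, X_zero S (by decide +kernel)]
        · rw [Set.mem_singleton_iff] at hk'
          subst hk'
          exact LCp_of_nil Cfsg.Agent.Lib.ChevOkB2.good S hσ hk (by decide +kernel) (by decide +kernel)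
            (by decide) (by decide +kernel) (WX_nil_of (by decide +kernel))
    · rw [show chevB2.simple 1 = 4 by decide +kernel]
      refine cl_self_of_gen hσ S {0, 6, 2} ?_ (gen_double S (a := 0) (b := 6) (r1 := 2) (r2 := 4)
        (C1 := -1) (C2 := 1)
        (by decide +kernel) (by decide +kernel) (by decide) (by decide +kernel) (by decide +kernel) (Or.inl rfl))
      intro k hk'
      rcases hk' with rfl | rfl | hk'
      · exact LCp_of_nil Cfsg.Agent.Lib.ChevOkB2.good S hσ hk (by decide +kernel) (by decide +kernel)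
          (by decide) (by decide +kernel) (WX_nil_of (by decide +kernel))
      · exact LCp_of_nil Cfsg.Agent.Lib.ChevOkB2.good S hσ hk (by decide +kernel) (by decide +kernel)
          (by decide) (by decide +kernel) (WX_nil_of (by decide +kernel))
      · rw [Set.mem_singleton_iff] at hk'
        subst hk'
        exact LCp_of_nil Cfsg.Agent.Lib.ChevOkB2.good S hσ hk (by decide +kernel) (by decide +kernel)
          (by decide) (by decide +kernel) (WX_nil_of (by decide +kernel))
  have T : TD S hσ :=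
    { comm := hb_comm Cfsg.Agent.Lib.ChevOkB2.good S PairB2 h3
      tor := fun r hr => tor_all Cfsg.Agent.Lib.ChevOkB2.good S PairB2 (fun i hi => by
        obtain ⟨c, hc0, hc1⟩ := exists_pow_neg_one (K := K) (by omega)
        obtain ⟨d, hd0, hd1⟩ := exists_pow_two (K := K) (by omega)
        change i < 2 at hi
        interval_cases i
        · exact ⟨1, by decide +kernel, c, hc0, by rwa [show chevB2.cartan 1 (chevB2.simple 0) = -1 by decide +kernel]⟩
        · exact ⟨1, by decide +kernel, d, hd0, by rwa [show chevB2.cartan 1 (chevB2.simple 1) = 2 by decide +kernel]⟩) hr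
      self := fun r hr t u => LCp_self_all Cfsg.Agent.Lib.ChevOkB2.good S PairB2 hσ hself hr t u }
  exact lift_of_torus Cfsg.Agent.Lib.ChevOkB2.good S PairB2 hσ
    (fun r hr s hs hr0 hs0 hrs => GP_of S hσ (hk r hr s hs hrs (ne_neg Cfsg.Agent.Lib.ChevOkB2.good hr hr0 hs0)))
    hpos_B2 h3 T

end Cfsg.Agent.Lib.UCEB2
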