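import Cfsg.Agent.Lib.UCEB2

set_option autoImplicit false
set_option linter.unusedSectionVars false

/-!
Lifting theorem for `B₂(3)`.
-/

namespace Cfsg.Agent.Lib.UCEB2
open Cfsg.Lie Cfsg.Agent.Lib.ChevX Cfsg.Agent.Lib.ChevGood Cfsg.Agent.Lib.ChevRel
open Cfsg.Agent.Lib.ChevU Cfsg.Agent.Lib.ChevH Cfsg.Agent.Lib.ChevN Cfsg.Agent.Lib.ChevBN
open Cfsg.Agent.Lib.StBase Cfsg.Agent.Lib.StKer Cfsg.Agent.Lib.UCEBase
open Cfsg.Agent.Lib.UCESys Cfsg.Agent.Lib.UCELift Cfsg.Agent.Lib.UCERank1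
open Cfsg.Agent.Lib.UCETorus

variable {K : Type*} [Field K] {Q Γ : Type*} [Group Q] [Group Γ]

/-- short roots -/
def Short (r : ℕ) : Prop := r = 1 ∨ r = 2 ∨ r = 5 ∨ r = 6

instance (r : ℕ) : Decidable (Short r) := by unfold Short; infer_instance

/-- long roots -/
def Long (r : ℕ) : Prop := r = 0 ∨ r = 3 ∨ r = 4 ∨ r = 7

instance (r : ℕ) : Decidable (Long r) := by unfold Long; infer_instance

theorem nroots_eq : chevB2.nroots = 8 := by decide +kernel

theorem short_or_long {r : ℕ} (hr : r < chevB2.nroots) : Short r ∨ Long r := by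
  rw [nroots_eq] at hr
  unfold Short Long
  omega

theorem Long.not_short {r : ℕ} (h : Long r) : ¬ Short r := by
  unfold Short Long at *
  omega

theorem Short.lt {r : ℕ} (h : Short r) : r < chevB2.nroots := by
  rw [nroots_eq]; unfold Short at h; omega

theorem Long.lt {r : ℕ} (h : Long r) : r < chevB2.nroots := by
  rw [nroots_eq]; unfold Long at h; omega

/-- the decomposition of a long root -/
def da (r : ℕ) : ℕ := if r = 7 then 5 else if r = 4 then 2 else 1
/-- the decomposition of a long root -/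
def db (r : ℕ) : ℕ := if r = 0 then 2 else if r = 3 then 5 else 6
/-- the constant of the decomposition of a long root -/
def Cc (r : ℕ) : ℤ := if r = 0 ∨ r = 7 then 2 else -2

theorem cartan_short : ∀ r < 8, Short r → chevB2.cartan 1 r = 1 ∨ chevB2.cartan 1 r = -1 := by decide +kernel
theorem cartan_long : ∀ r < 8, Long r → chevB2.cartan 1 r = 2 ∨ chevB2.cartan 1 r = -2 ∨ chevB2.cartan 1 r = 0 := by
  decide +kernel

theorem refl_short : ∀ i < 2, ∀ r < 8, Short r → Short (chevB2.reflectRoot i r) := by decide +kernel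
theorem refl_long : ∀ i < 2, ∀ r < 8, Long r → Long (chevB2.reflectRoot i r) := by decide +kernel

theorem dab1 : ∀ r < 8, Long r → Short (da r) ∧ Short (db r) ∧ db r ≠ da r ∧ db r ≠ chevB2.neg (da r) := by
  decide +kernel
theorem dab2 (r : ℕ) (h : Long r) : chevB2.commTerms (da r) (db r) = [(r, Cc r, 1, 1)] ∧
    chevB2.commTerms (da r) r = [] ∧ chevB2.commTerms (db r) r = [] := by
  rcases h with rfl | rfl | rfl | rfl
  · exact ⟨by decide +kernel, by decide +kernel, by decide +kernel⟩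
  · exact ⟨by decide +kernel, by decide +kernel, by decide +kernel⟩
  · exact ⟨by decide +kernel, by decide +kernel, by decide +kernel⟩
  · exact ⟨by decide +kernel, by decide +kernel, by decide +kernel⟩
theorem dab3 : ∀ r < 8, Long r → r ≠ da r ∧ r ≠ chevB2.neg (da r) ∧ r ≠ db r ∧ r ≠ chevB2.neg (db r) := by
  decide +kernel

theorem dab (r : ℕ) (hr : r < 8) (h : Long r) : Short (da r) ∧ Short (db r) ∧ db r ≠ da r ∧
    db r ≠ chevB2.neg (da r) ∧
    chevB2.commTerms (da r) (db r) = [(r, Cc r, 1, 1)] ∧ r ≠ da r ∧ r ≠ chevB2.neg (da r) ∧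
    r ≠ db r ∧ r ≠ chevB2.neg (db r) ∧ chevB2.commTerms (da r) r = [] ∧ chevB2.commTerms (db r) r = [] := by
  obtain ⟨h1, h2, h3, h4⟩ := dab1 r hr h
  obtain ⟨h5, h6, h7⟩ := dab2 r h
  obtain ⟨h8, h9, h10, h11⟩ := dab3 r hr h
  exact ⟨h1, h2, h3, h4, h5, h8, h9, h10, h11, h6, h7⟩

theorem refl_dab : ∀ i < 2, ∀ r < 8, Long r →
    (chevB2.reflectRoot i (da r) = da (chevB2.reflectRoot i r) ∧
      chevB2.reflectRoot i (db r) = db (chevB2.reflectRoot i r)) ∨
    (chevB2.reflectRoot i (da r) = db (chevB2.reflectRoot i r) ∧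
      chevB2.reflectRoot i (db r) = da (chevB2.reflectRoot i r)) := by decide +kernel

section
variable (S : StG chevB2 K Q) {σ : Γ →* Q} (hσ : CE σ)

theorem act_short {r : ℕ} (h : Short r) : Act S (hb S 1 (-1)) r (-1) := by
  intro u
  rw [StKer.hb_conj Cfsg.Agent.Lib.ChevOkB2.good S PairB2 (by decide +kernel) h.lt (-1) (by simp)]
  congr 1
  rcases cartan_short r (nroots_eq ▸ h.lt) h with h1 | h1 <;> rw [h1] <;> simp

theorem act_long {r : ℕ} (h : Long r) : Act S (hb S 1 (-1)) r 1 := by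
  intro u
  rw [StKer.hb_conj Cfsg.Agent.Lib.ChevOkB2.good S PairB2 (by decide +kernel) h.lt (-1) (by simp)]
  congr 1
  rcases cartan_long r (nroots_eq ▸ h.lt) h with h1 | h1 | h1 <;> rw [h1] <;> simp

variable (h3K : (3 : K) = 0)
include h3K

theorem two_ne : (2 : K) ≠ 0 := by
  intro h
  have : (1 : K) = 3 - 2 := by norm_num
  rw [h3K, h, sub_zero] at this
  exact one_ne_zero this

theorem neg_one_ne : (-1 : K) ≠ 1 := by
  intro h
  apply two_ne h3K
  linear_combination -h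

theorem kill_sl {r s : ℕ} (hr : Short r) (hs : Long s) : Kill S r s :=
  ⟨hb S 1 (-1), hb_mem Cfsg.Agent.Lib.ChevOkB2.good S (by decide +kernel) (by simp), -1, neg_one_ne h3K,
    act_short S hr, act_long S hs⟩

theorem Cc_sq {r : ℕ} : (Cc r : K) * Cc r = 1 := by
  have h4 : (4 : K) = 1 := by linear_combination h3K
  unfold Cc
  split_ifs
  · push_cast; linear_combination h4
  · push_cast; linear_combination h4

theorem cl_a {r : ℕ} (hr : Long r) (t u : K) : cl hσ (S.X (da r) t) (S.X r u) = 1 := by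
  obtain ⟨h1, h2, h3, h4, h5, h6, h7, h8, h9, h10, h11⟩ := dab r (nroots_eq ▸ hr.lt) hr
  refine cl_of_kill hσ S h1.lt (fun t u => ?_) (kill_sl S h3K h1 hr) t u
  have := S.comm _ h1.lt _ hr.lt h6 h7 t u
  rw [WX_nil_of h10, mul_one] at this
  exact this.symm

theorem cl_b {r : ℕ} (hr : Long r) (t u : K) : cl hσ (S.X (db r) t) (S.X r u) = 1 := by
  obtain ⟨h1, h2, h3, h4, h5, h6, h7, h8, h9, h10, h11⟩ := dab r (nroots_eq ▸ hr.lt) hr
  refine cl_of_kill hσ S h2.lt (fun t u => ?_) (kill_sl S h3K h2 hr) t u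
  have := S.comm _ h2.lt _ hr.lt h8 h9 t u
  rw [WX_nil_of h11, mul_one] at this
  exact this.symm

omit h3K in
/-- the commutator in the group -/
theorem cm_ba {r : ℕ} (hr : Long r) (t u : K) :
    cm (S.X (db r) u) (S.X (da r) t) = S.X r ((Cc r : K) * (-t) * u) := by
  obtain ⟨h1, h2, h3, h4, h5, h6, h7, h8, h9, h10, h11⟩ := dab r (nroots_eq ▸ hr.lt) hr
  have := S.comm _ h1.lt _ h2.lt h3 h4 t u
  unfold ChevalleyDatum.commWord at this
  rw [h5, List.map_cons, List.map_nil, WX_cons, WX_nil, mul_one] at this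
  unfold cm
  have e : (S.X (db r) u)⁻¹ * (S.X (da r) t)⁻¹ * S.X (db r) u * S.X (da r) t =
      (S.X (da r) t * S.X (db r) u)⁻¹ * (S.X (db r) u * S.X (da r) t) := by group
  rw [e, this]
  simp only [pow_one]
  group

theorem clba_add_left {r : ℕ} (hr : Long r) (t u u' : K) : cl hσ (S.X (db r) (u + u')) (S.X (da r) t) =
    cl hσ (S.X (db r) u) (S.X (da r) t) * cl hσ (S.X (db r) u') (S.X (da r) t) := by
  obtain ⟨h1, h2, -⟩ := dab r (nroots_eq ▸ hr.lt) hr
  rw [← S.add _ h2.lt]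
  apply cl_mul_left
  rw [cm_ba S hr]
  exact cl_b S hσ h3K hr _ _

theorem clba_add_right {r : ℕ} (hr : Long r) (t t' u : K) : cl hσ (S.X (db r) u) (S.X (da r) (t + t')) =
    cl hσ (S.X (db r) u) (S.X (da r) t) * cl hσ (S.X (db r) u) (S.X (da r) t') := by
  obtain ⟨h1, h2, -⟩ := dab r (nroots_eq ▸ hr.lt) hr
  rw [add_comm t t', ← S.add _ h1.lt]
  apply cl_mul_right
  rw [cm_ba S hr]
  exact cl_a S hσ h3K hr _ _

theorem clba_eq (hK : ∀ t : K, ∃ n : ℕ, t = n) {r : ℕ} (hr : Long r) (t u : K) :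
    cl hσ (S.X (db r) u) (S.X (da r) t) = cl hσ (S.X (db r) 1) (S.X (da r) (t * u)) := by
  obtain ⟨h1, h2, -⟩ := dab r (nroots_eq ▸ hr.lt) hr
  have e1 : ∀ n : ℕ, cl hσ (S.X (db r) (n : K)) (S.X (da r) t) = cl hσ (S.X (db r) 1) (S.X (da r) t) ^ n := by
    intro n
    induction n with
    | zero => rw [Nat.cast_zero, X_zero S h2.lt, cl_one_left, pow_zero]
    | succ n ih => rw [Nat.cast_succ, clba_add_left S hσ h3K hr, ih, pow_succ]
  have e2 : ∀ n : ℕ, cl hσ (S.X (db r) 1) (S.X (da r) (t * n)) = cl hσ (S.X (db r) 1) (S.X (da r) t) ^ n := by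
    intro n
    induction n with
    | zero => rw [Nat.cast_zero, mul_zero, X_zero S h1.lt, cl_one_right, pow_zero]
    | succ n ih => rw [Nat.cast_succ, mul_add, mul_one, clba_add_right S hσ h3K hr, ih, pow_succ]
  obtain ⟨n, rfl⟩ := hK u
  rw [e1, e2]

end

section lifts

variable (S : StG chevB2 K Q) {σ : Γ →* Q} (hσ : CE σ)

theorem tdp (h3K : (3 : K) = 0) (hK : ∀ t : K, ∃ n : ℕ, t = n) (h3 : UCELift.R3 (ofSt S)) :
    UCETDP.TDP Short S hσ where
  comm := hb_comm Cfsg.Agent.Lib.ChevOkB2.good S PairB2 h3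
  tor r hr := ⟨hb S 1 (-1), hb_mem Cfsg.Agent.Lib.ChevOkB2.good S (by decide +kernel) (by simp), -1, neg_one_ne h3K,
    act_short S hr.2⟩
  self r hr t u := cl_self_of_prime hσ S hr.1 hK t u

variable (T : UCETDP.TDP Short S hσ)

/-- the lifts -/
noncomputable def X3 (r : ℕ) (t : K) : Γ :=
  if Short r then UCETDP.X' S hσ T r t else cl hσ (S.X (db r) 1) (S.X (da r) (-(Cc r : K) * t))

theorem X3_short {r : ℕ} (hr : Short r) (t : K) : X3 S hσ T r t = UCETDP.X' S hσ T r t := by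
  unfold X3; rw [if_pos hr]

theorem X3_long {r : ℕ} (hr : Long r) (t : K) :
    X3 S hσ T r t = cl hσ (S.X (db r) 1) (S.X (da r) (-(Cc r : K) * t)) := by
  unfold X3; rw [if_neg hr.not_short]

variable (h3K : (3 : K) = 0) (hK : ∀ t : K, ∃ n : ℕ, t = n)
include h3K hK

theorem clba_X3 {r : ℕ} (hr : Long r) (t u : K) :
    cl hσ (S.X (db r) u) (S.X (da r) t) = X3 S hσ T r (-(Cc r : K) * (t * u)) := by
  rw [clba_eq S hσ h3K hK hr, X3_long S hσ T hr]
  congr 2
  have := Cc_sq h3K (r := r)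
  linear_combination (-(t * u)) * this

omit hK in
theorem σ_X3 {r : ℕ} (hr : r < chevB2.nroots) (t : K) : σ (X3 S hσ T r t) = S.X r t := by
  rcases short_or_long hr with h | h
  · rw [X3_short S hσ T h, UCETDP.σ_X' S hσ T ⟨hr, h⟩]
  · rw [X3_long S hσ T h, map_cl, cm_ba S h]
    congr 1
    have := Cc_sq h3K (r := r)
    linear_combination t * this

omit hK in
theorem X3_add {r : ℕ} (hr : r < chevB2.nroots) (t u : K) :
    X3 S hσ T r t * X3 S hσ T r u = X3 S hσ T r (t + u) := by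
  rcases short_or_long hr with h | h
  · rw [X3_short S hσ T h, X3_short S hσ T h, X3_short S hσ T h, UCETDP.X'_add S hσ T ⟨hr, h⟩]
  · rw [X3_long S hσ T h, X3_long S hσ T h, X3_long S hσ T h, mul_add, clba_add_right S hσ h3K h]

omit hK in
theorem X3_neg {r : ℕ} (hr : r < chevB2.nroots) (t : K) :
    (X3 S hσ T r t)⁻¹ = X3 S hσ T r (-t) := by
  have h0 : X3 S hσ T r 0 = 1 := by
    have := X3_add S hσ T h3K hr 0 0
    rw [add_zero] at this
    exact mul_eq_left.mp this
  rw [inv_eq_iff_mul_eq_one, X3_add S hσ T h3K hr, add_neg_cancel, h0]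

/-- the lifts are equivariant -/
noncomputable def ld3 : UCELD.LD Cfsg.Agent.Lib.ChevOkB2.good S hσ where
  X' := X3 S hσ T
  add r hr t u := X3_add S hσ T h3K hr t u
  lift r hr t := σ_X3 S hσ T h3K hr t
  conj i hi c hc s hs t b hb := by
    have hn := nb_conj Cfsg.Agent.Lib.ChevOkB2.good S hi (PairB2 i hi) hs c hc t
    have hi2 : i < 2 := hi
    have hs8 : s < 8 := nroots_eq ▸ hs
    have hws := (Cfsg.Agent.Lib.ChevOkB2.good).w_lt i hi s hs
    rcases short_or_long hs with h | h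
    · have h' := refl_short i hi2 s hs8 h
      rw [X3_short S hσ T h, X3_short S hσ T h']
      exact UCETDP.X'_norm S hσ T ⟨hs, h⟩ ⟨hws, h'⟩ (nb_normalizes Cfsg.Agent.Lib.ChevOkB2.good S PairB2 hi hc)
        (mul_ne_zero (by
          rcases (Cfsg.Agent.Lib.ChevOkB2.good).η_sq i hi s hs with h | h <;> rw [h] <;> simp) (zpow_ne_zero _ hc))
        (fun t => nb_conj Cfsg.Agent.Lib.ChevOkB2.good S hi (PairB2 i hi) hs c hc t) t hb
    · have h' := refl_long i hi2 s hs8 h
      -- it is enough to show that the left side is some lift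
      suffices hx : ∃ x, b * X3 S hσ T s t * b⁻¹ = X3 S hσ T (chevB2.reflectRoot i s) x by
        obtain ⟨x, hx⟩ := hx
        rw [hx]
        have e1 := congrArg σ hx
        rw [σ_X3 S hσ T h3K hws, map_mul, map_mul, map_inv, σ_X3 S hσ T h3K hs, hb, hn] at e1
        have e2 := congrArg S.θ e1
        rw [S.θX _ hws, S.θX _ hws] at e2
        rw [xg_inj Cfsg.Agent.Lib.ChevOkB2.good hws e2]
      obtain ⟨ha, hb', -⟩ := dab s hs8 h
      rw [X3_long S hσ T h, ← cl_conj hσ (nb S i c) _ _ hb,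
        nb_conj Cfsg.Agent.Lib.ChevOkB2.good S hi (PairB2 i hi) hb'.lt c hc,
        nb_conj Cfsg.Agent.Lib.ChevOkB2.good S hi (PairB2 i hi) ha.lt c hc]
      rcases refl_dab i hi2 s hs8 h with ⟨e1, e2⟩ | ⟨e1, e2⟩
      · rw [e1, e2, clba_X3 S hσ T h3K hK h']
        exact ⟨_, rfl⟩
      · rw [e1, e2, ← cl_inv hσ (S.X (db _) _), clba_X3 S hσ T h3K hK h', X3_neg S hσ T h3K hws]
        exact ⟨_, rfl⟩

end lifts

theorem lift_B2_three [Finite K] (hq : Nat.card K = 3) (S : StG chevB2 K Q) {σ : Γ →* Q} (hσ : CE σ)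
    (h3 : UCELift.R3 (ofSt S)) :
    ∃ R' : RSys chevB2 K Γ, UCELift.R3 R' ∧ ∀ r < chevB2.nroots, ∀ t, σ (R'.x r t) = S.X r t := by
  obtain ⟨h3K, hK⟩ := field_three hq
  have T := tdp S hσ h3K hK h3
  let L := ld3 S hσ T h3K hK
  refine UCELD.lift_of_LD Cfsg.Agent.Lib.ChevOkB2.good S PairB2 hσ L ?_ hpos_B2 h3
  intro r hr s hs hr0 hs0 hrs
  rw [ord_pos_iff Cfsg.Agent.Lib.ChevOkB2.good hr] at hr0
  rw [ord_pos_iff Cfsg.Agent.Lib.ChevOkB2.good hs] at hs0
  have hswap : ∀ t u : K, cl hσ (S.X 7 t) (S.X 4 u) = 1 := by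
    intro t u
    exact LCp_of_swap Cfsg.Agent.Lib.ChevOkB2.good S PairB2 hσ (r := 7) (s := 4) (by decide +kernel)
      (by decide +kernel) (by decide) (by decide +kernel) (fun t u => WX_nil_of (by decide +kernel) t u) hK h3K
      (w := [0]) (fun i hi => List.all_eq_true.mp
        (show ([0].all fun i => decide (i < chevB2.rank)) = true by decide +kernel) i hi |> of_decide_eq_true)
      (by decide +kernel) (by decide +kernel)
      (show sgnC chevB2 (Cfsg.Agent.Lib.ChevTab.ηT Cfsg.Agent.Lib.ChevDataB2.A) [0] 7 =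
        sgnC chevB2 (Cfsg.Agent.Lib.ChevTab.ηT Cfsg.Agent.Lib.ChevDataB2.A) [0] 4 by decide +kernel) t u
  rcases short_or_long hr with h | h
  · rcases short_or_long hs with h' | h'
    · -- two short roots
      right
      have hcase : (r = 5 ∧ s = 6) ∨ (r = 6 ∧ s = 5) := by
        rw [nroots_eq] at hr0 hs0
        unfold Short at h h'
        omega
      have h7 : Long 7 := by decide
      rcases hcase with ⟨rfl, rfl⟩ | ⟨rfl, rfl⟩
      · intro t u
        have e1 : cm (L.X' 6 u) (L.X' 5 t) = L.X' 7 (-(Cc 7 : K) * (t * u)) := by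
          rw [← cl_eq hσ (L.σ_X' (by decide +kernel) u) (L.σ_X' (by decide +kernel) t)]
          exact clba_X3 S hσ T h3K hK h7 t u
        rw [mul_eq (L.X' 6 u) (L.X' 5 t), e1]
        congr 1
        unfold ChevalleyDatum.commWord
        rw [show chevB2.commTerms 5 6 = [(7, 2, 1, 1)] by decide +kernel]
        rw [List.map_cons, List.map_nil, WX_cons, WX_nil, mul_one]
        change _ = L.X' 7 (((2 : ℤ) : K) * (-t) ^ 1 * u ^ 1)
        congr 1
        rw [show Cc 7 = 2 by decide]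
        push_cast; ring
      · intro t u
        have e1 : cm (L.X' 5 u) (L.X' 6 t) = (L.X' 7 (-(Cc 7 : K) * (u * t)))⁻¹ := by
          rw [← cm_inv, inv_inj, ← cl_eq hσ (L.σ_X' (by decide +kernel) t) (L.σ_X' (by decide +kernel) u)]
          exact clba_X3 S hσ T h3K hK h7 u t
        rw [mul_eq (L.X' 5 u) (L.X' 6 t), e1, ← L.X'_neg (by decide +kernel)]
        congr 1
        unfold ChevalleyDatum.commWord
        rw [show chevB2.commTerms 6 5 = [(7, -2, 1, 1)] by decide +kernel]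
        rw [List.map_cons, List.map_nil, WX_cons, WX_nil, mul_one]
        change _ = L.X' 7 (((-2 : ℤ) : K) * (-t) ^ 1 * u ^ 1)
        congr 1
        rw [show Cc 7 = 2 by decide]
        push_cast; ring
    · exact Or.inl (Or.inl (kill_sl S h3K h h'))
  · rcases short_or_long hs with h' | h'
    · exact Or.inl (Or.inr (Or.inl (kill_sl S h3K h' h)))
    · left; right; right
      have hcase : (r = 7 ∧ s = 4) ∨ (r = 4 ∧ s = 7) := by
        rw [nroots_eq] at hr0 hs0
        unfold Long at h h'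
        omega
      rcases hcase with ⟨rfl, rfl⟩ | ⟨rfl, rfl⟩
      · intro t u
        rw [← cl_inv hσ, hswap, inv_one]
      · intro t u
        exact hswap u t

theorem lift_B2 [Finite K] (hq : 3 ≤ Nat.card K) (S : StG chevB2 K Q) {σ : Γ →* Q} (hσ : CE σ)
    (h3 : UCELift.R3 (ofSt S)) :
    ∃ R' : RSys chevB2 K Γ, UCELift.R3 R' ∧ ∀ r < chevB2.nroots, ∀ t, σ (R'.x r t) = S.X r t := by
  by_cases hq4 : 4 ≤ Nat.card K
  · exact lift_B2_ge4 hq4 S hσ h3
  · exact lift_B2_three (by omega) S hσ h3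

end Cfsg.Agent.Lib.UCEB2
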