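import Cfsg.Agent.Lib.UCETorus5
import Cfsg.Agent.Lib.UCEMain2
import Cfsg.Agent.Lib.UCETrip

set_option autoImplicit false
set_option linter.unusedSectionVars false

/-!
Lifting theorem for `D₄(q)`, `q ≥ 3`.
-/

namespace Cfsg.Agent.Lib.UCETorus
open Cfsg.Lie Cfsg.Agent.Lib.ChevX Cfsg.Agent.Lib.ChevGood Cfsg.Agent.Lib.ChevRel
open Cfsg.Agent.Lib.ChevU Cfsg.Agent.Lib.ChevH Cfsg.Agent.Lib.ChevN Cfsg.Agent.Lib.ChevBN
open Cfsg.Agent.Lib.StBase Cfsg.Agent.Lib.StKer Cfsg.Agent.Lib.UCEBase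
open Cfsg.Agent.Lib.UCESys Cfsg.Agent.Lib.UCELift Cfsg.Agent.Lib.UCERank1

variable {K : Type*} [Field K] {Q Γ : Type*} [Group Q] [Group Γ]

def MD4 : List (List ℤ) := [[2, 1, 0, 0], [0, 2, 0, 1], [0, 2, 1, 0], [1, 2, 0, 0], [1, 1, 0, 0]]

set_option maxRecDepth 1000000 in
theorem killD4 : (Cfsg.Agent.Lib.ChevDataD4.B0.all fun x => chkKill chevD4 MD4 [1, 2] [] x) = true := by decide +kernel

set_option maxRecDepth 1000000 in
theorem killD4' : (Cfsg.Agent.Lib.ChevDataD4.B0.all fun x => chkKill chevD4 MD4 [1]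
    [(23, 12), (23, 13), (23, 18)] x) = true := by decide +kernel

theorem PairD4 : ∀ i < chevD4.rank, StBase.PairOK chevD4 i := Cfsg.Agent.Lib.StPair.pairOK (by simp)

theorem sgnD4a : sgnC chevD4 (Cfsg.Agent.Lib.ChevTab.ηT Cfsg.Agent.Lib.ChevDataD4.A) [1, 0, 2, 1] 23 =
    sgnC chevD4 (Cfsg.Agent.Lib.ChevTab.ηT Cfsg.Agent.Lib.ChevDataD4.A) [1, 0, 2, 1] 12 := by decide +kernel
theorem sgnD4b : sgnC chevD4 (Cfsg.Agent.Lib.ChevTab.ηT Cfsg.Agent.Lib.ChevDataD4.A) [1, 0, 3, 1] 23 =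
    sgnC chevD4 (Cfsg.Agent.Lib.ChevTab.ηT Cfsg.Agent.Lib.ChevDataD4.A) [1, 0, 3, 1] 13 := by decide +kernel
theorem sgnD4c : sgnC chevD4 (Cfsg.Agent.Lib.ChevTab.ηT Cfsg.Agent.Lib.ChevDataD4.A) [1, 2, 3, 1] 23 =
    sgnC chevD4 (Cfsg.Agent.Lib.ChevTab.ηT Cfsg.Agent.Lib.ChevDataD4.A) [1, 2, 3, 1] 18 := by decide +kernel

theorem hkill_D4 [Finite K] (hq : 3 ≤ Nat.card K) (S : StG chevD4 K Q) {σ : Γ →* Q} (hσ : CE σ) :
    ∀ r < chevD4.nroots, ∀ s < chevD4.nroots, s ≠ r → s ≠ chevD4.neg r → Kill S r s ∨ LCp S hσ r s := by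
  by_cases hq4 : 4 ≤ Nat.card K
  · refine hkill_of_chk Cfsg.Agent.Lib.ChevOkD4.good S PairD4 hσ MD4 [1, 2] [] ?_ ?_
      (fun x hx => List.all_eq_true.mp killD4 x hx)
    · intro e he
      simp only [List.mem_cons, List.not_mem_nil, or_false] at he
      rcases he with rfl | rfl
      · exact exists_pow_one hq
      · exact exists_pow_two hq4
    · intro x hx; simp at hx
  · have hq3 : Nat.card K = 3 := by omega
    obtain ⟨h3, hK⟩ := field_three hq3
    refine hkill_of_chk Cfsg.Agent.Lib.ChevOkD4.good S PairD4 hσ MD4 [1] [(23, 12), (23, 13), (23, 18)] ?_ ?_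
      (fun x hx => List.all_eq_true.mp killD4' x hx)
    · intro e he
      simp only [List.mem_cons, List.not_mem_nil, or_false] at he
      rw [he]
      exact exists_pow_one hq
    · intro x hx
      simp only [List.mem_cons, List.not_mem_nil, or_false] at hx
      rcases hx with rfl | rfl | rfl
      · exact LCp_of_swap Cfsg.Agent.Lib.ChevOkD4.good S PairD4 hσ (r := 23) (s := 12) (by decide +kernel)
          (by decide +kernel) (by decide) (by decide +kernel) (fun t u => WX_nil_of (by decide +kernel) t u) hK h3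
          (w := [1, 0, 2, 1]) (fun i hi => List.all_eq_true.mp
            (show ([1, 0, 2, 1].all fun i => decide (i < chevD4.rank)) = true by decide +kernel) i hi |>
              of_decide_eq_true)
          (by decide +kernel) (by decide +kernel) sgnD4a
      · exact LCp_of_swap Cfsg.Agent.Lib.ChevOkD4.good S PairD4 hσ (r := 23) (s := 13) (by decide +kernel)
          (by decide +kernel) (by decide) (by decide +kernel) (fun t u => WX_nil_of (by decide +kernel) t u) hK h3
          (w := [1, 0, 3, 1]) (fun i hi => List.all_eq_true.mp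
            (show ([1, 0, 3, 1].all fun i => decide (i < chevD4.rank)) = true by decide +kernel) i hi |>
              of_decide_eq_true)
          (by decide +kernel) (by decide +kernel) sgnD4b
      · exact LCp_of_swap Cfsg.Agent.Lib.ChevOkD4.good S PairD4 hσ (r := 23) (s := 18) (by decide +kernel)
          (by decide +kernel) (by decide) (by decide +kernel) (fun t u => WX_nil_of (by decide +kernel) t u) hK h3
          (w := [1, 2, 3, 1]) (fun i hi => List.all_eq_true.mp
            (show ([1, 2, 3, 1].all fun i => decide (i < chevD4.rank)) = true by decide +kernel) i hi |>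
              of_decide_eq_true)
          (by decide +kernel) (by decide +kernel) sgnD4c

open Cfsg.Agent.Lib.UCEPair Cfsg.Agent.Lib.UCETrip in
theorem lift_D4 [Finite K] (hq : 3 ≤ Nat.card K) (S : StG chevD4 K Q) {σ : Γ →* Q} (hσ : CE σ)
    (h3 : UCELift.R3 (ofSt S)) :
    ∃ R' : RSys chevD4 K Γ, UCELift.R3 R' ∧ ∀ r < chevD4.nroots, ∀ t, σ (R'.x r t) = S.X r t := by
  have hk := hkill_D4 hq S hσ
  have hL : (toSys Cfsg.Agent.Lib.ChevOkD4.good pairOK_D4 (ofSt S)).LC hσ := by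
    intro r s hrs t u
    by_cases h : 0 < pr chevD4 r s
    · exact LC_of_dec Cfsg.Agent.Lib.ChevOkD4.good pairOK_D4 (ofSt S) hσ hrs (Or.inr h) t u
    · have hrs' : 0 ≤ pr chevD4 r s := hrs
      have h0 : pr chevD4 r s = 0 := by omega
      have hne : s.val ≠ r.val := by
        intro hh
        have h1 : pr chevD4 r r = 2 := pr_self Cfsg.Agent.Lib.ChevOkD4.good r.2
        rw [hh, h1] at h0
        omega
      have hneg : s.val ≠ chevD4.neg r.val := by
        intro hh
        have := (pairOK_D4 r r.2 s s.2).negtwo.mpr hh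
        omega
      have e1 := CC_chain pairOK_D4 hrs
      have e2 := CC_chain pairOK_D4 (CC_symm pairOK_D4 hrs)
      exact LCp_of_nil Cfsg.Agent.Lib.ChevOkD4.good S hσ hk r.2 s.2 hne hneg
        (WX_nil_of (commTerms_nil e1 e2)) t u
  obtain ⟨R', hR'⟩ := UCESys.exists_lift Cfsg.Agent.Lib.ChevOkD4.good pairOK_D4 (ofSt S) hσ hL
  exact ⟨R', R3_lift Cfsg.Agent.Lib.ChevOkD4.good pairOK_D4 trip_D4 (ofSt S) hσ h3 R' hR', hR'⟩

end Cfsg.Agent.Lib.UCETorus
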