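import Cfsg.Agent.Lib.UCEMain2
import Cfsg.Agent.Lib.UCEB2
import Cfsg.Agent.Lib.UCETorusD4

set_option autoImplicit false
set_option linter.unusedSectionVars false
set_option linter.unusedVariables false

/-!
Lifting of the relations (R1), (R2) over arbitrary fields with more than four elements.
-/

namespace Cfsg.Agent.Lib.UCEInf
open Cfsg Cfsg.Lie Cfsg.Agent.Lib.ChevX Cfsg.Agent.Lib.ChevGood Cfsg.Agent.Lib.ChevRel
open Cfsg.Agent.Lib.ChevU Cfsg.Agent.Lib.ChevH Cfsg.Agent.Lib.ChevN Cfsg.Agent.Lib.ChevBN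
open Cfsg.Agent.Lib.StBase Cfsg.Agent.Lib.StKer Cfsg.Agent.Lib.StPres Cfsg.Agent.Lib.UCEBase
open Cfsg.Agent.Lib.UCESys Cfsg.Agent.Lib.UCELift Cfsg.Agent.Lib.UCEFinal Cfsg.Agent.Lib.UCETorus
open Cfsg.Agent.Lib.UCEMain2 Cfsg.Agent.Lib.UCEB2

section field
variable {K : Type*} [Field K]

theorem exists_pow_nat (hK : ∃ s : Finset K, 4 < s.card) {n : ℕ} (h0 : 0 < n) (h3 : n ≤ 3) :
    ∃ c : K, c ≠ 0 ∧ c ^ n ≠ 1 := by
  classical
  obtain ⟨s, hs⟩ := hK
  by_contra hcon
  push Not at hcon
  have h1 : s ⊆ insert 0 (Polynomial.nthRoots n (1 : K)).toFinset := by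
    intro x _
    by_cases hx : x = 0
    · rw [hx]; exact Finset.mem_insert_self _ _
    · exact Finset.mem_insert_of_mem (Multiset.mem_toFinset.mpr ((Polynomial.mem_nthRoots h0).mpr (hcon x hx)))
  have h2 := Finset.card_le_card h1
  have h4 := Finset.card_insert_le (0 : K) (Polynomial.nthRoots n (1 : K)).toFinset
  have h5 := (Polynomial.nthRoots n (1 : K)).toFinset_card_le
  have h6 := Polynomial.card_nthRoots n (1 : K)
  omega

theorem exists_pow_one (hK : ∃ s : Finset K, 4 < s.card) : ∃ c : K, c ≠ 0 ∧ c ^ (1 : ℤ) ≠ 1 := by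
  obtain ⟨c, h0, h1⟩ := exists_pow_nat hK (n := 1) (by norm_num) (by norm_num)
  exact ⟨c, h0, by exact_mod_cast h1⟩

theorem exists_pow_two (hK : ∃ s : Finset K, 4 < s.card) : ∃ c : K, c ≠ 0 ∧ c ^ (2 : ℤ) ≠ 1 := by
  obtain ⟨c, h0, h1⟩ := exists_pow_nat hK (n := 2) (by norm_num) (by norm_num)
  exact ⟨c, h0, by exact_mod_cast h1⟩

theorem exists_pow_three (hK : ∃ s : Finset K, 4 < s.card) : ∃ c : K, c ≠ 0 ∧ c ^ (3 : ℤ) ≠ 1 := by
  obtain ⟨c, h0, h1⟩ := exists_pow_nat hK (n := 3) (by norm_num) (by norm_num)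
  exact ⟨c, h0, by exact_mod_cast h1⟩

theorem exists_trick (hK : ∃ s : Finset K, 4 < s.card) : ∃ d : K, d ≠ 0 ∧ 1 + d ≠ 0 ∧ d * d + d + 1 ≠ 0 := by
  classical
  obtain ⟨s, hs⟩ := hK
  by_contra hcon
  push Not at hcon
  let p : Polynomial K := Polynomial.X * (Polynomial.X + Polynomial.C 1) * (Polynomial.X ^ 2 + Polynomial.X + Polynomial.C 1)
  have hm1 : (Polynomial.X + Polynomial.C (1 : K)).Monic := Polynomial.monic_X_add_C 1
  have hm2 : (Polynomial.X ^ 2 + Polynomial.X + Polynomial.C (1 : K)).Monic := by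
    have : (Polynomial.X ^ 2 + (Polynomial.X + Polynomial.C (1 : K))).Monic := by
      apply Polynomial.monic_X_pow_add
      rw [Polynomial.degree_X_add_C]; norm_num
    rwa [← add_assoc] at this
  have hp : p.Monic := (Polynomial.monic_X.mul hm1).mul hm2
  have hdeg : p.natDegree = 4 := by
    have h1 : p.natDegree = (Polynomial.X * (Polynomial.X + Polynomial.C (1 : K))).natDegree +
        (Polynomial.X ^ 2 + Polynomial.X + Polynomial.C (1 : K)).natDegree :=
      (Polynomial.monic_X.mul hm1).natDegree_mul hm2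
    have h2 : (Polynomial.X * (Polynomial.X + Polynomial.C (1 : K))).natDegree = 2 := by
      rw [Polynomial.monic_X.natDegree_mul hm1, Polynomial.natDegree_X, Polynomial.natDegree_X_add_C]
    have h3 : (Polynomial.X ^ 2 + Polynomial.X + Polynomial.C (1 : K)).natDegree = 2 := by
      have : (Polynomial.X ^ 2 + (Polynomial.X + Polynomial.C (1 : K))).natDegree = 2 := by
        rw [Polynomial.natDegree_add_eq_left_of_natDegree_lt]
        · exact Polynomial.natDegree_X_pow 2
        · rw [Polynomial.natDegree_X_add_C, Polynomial.natDegree_X_pow]; norm_num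
      rwa [← add_assoc] at this
    rw [h1, h2, h3]
  have hroots : ∀ x : K, x ∈ p.roots := by
    intro x
    rw [Polynomial.mem_roots hp.ne_zero, Polynomial.IsRoot]
    simp only [p, Polynomial.eval_mul, Polynomial.eval_add, Polynomial.eval_X, Polynomial.eval_C, Polynomial.eval_pow]
    by_cases h0 : x = 0
    · rw [h0]; ring
    by_cases h1 : 1 + x = 0
    · have : x + 1 = 0 := by rw [add_comm]; exact h1
      rw [this]; ring
    · have h2 := hcon x h0 h1
      have : x ^ 2 + x + 1 = 0 := by rw [← h2]; ring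
      rw [this]; ring
  have h1 : s.card ≤ p.roots.toFinset.card := by
    apply Finset.card_le_card
    intro x _
    exact Multiset.mem_toFinset.mpr (hroots x)
  have h2 := p.roots.toFinset_card_le
  have h3 := Polynomial.card_roots' p
  omega

end field

universe u v w
open scoped commutatorElement
variable {D : ChevalleyDatum} {K : Type u} [Field K] {Q Γ : Type*} [Group Q] [Group Γ]

/-- the system of lifts -/
theorem lift2_of_torus (G : Good D) (S : StG D K Q) (hP : ∀ i < D.rank, StBase.PairOK D i) {σ : Γ →* Q} (hσ : CE σ)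
    (hgp : ∀ r < D.nroots, ∀ s < D.nroots, 0 < G.ord r → 0 < G.ord s → s ≠ r → GP S hσ r s)
    (hpos : ∀ r < D.nroots, ∀ s < D.nroots, s ≠ D.neg r → ∃ w, Valid D w ∧ r ∈ Pw D w ∧ s ∈ Pw D w)
    (T : TD S hσ) :
    ∃ R' : RSys D K Γ, ∀ r < D.nroots, ∀ t, σ (R'.x r t) = S.X r t := by
  let R' : RSys D K Γ :=
    { x := X' S hσ T
      add := fun r hr => X'_add S hσ T hr
      rel := fun r hr s hs h1 h2 t u => by
        have := main_R2 G S hP hσ T hgp hpos hr hs h1 h2 t u
        unfold cm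
        change _ = WX (X' S hσ T) (D.commWord K r s t u)
        calc (X' S hσ T s u)⁻¹ * (X' S hσ T r t)⁻¹ * X' S hσ T s u * X' S hσ T r t =
            (X' S hσ T s u)⁻¹ * (X' S hσ T r t)⁻¹ * (X' S hσ T s u * X' S hσ T r t) := by group
          _ = _ := by rw [this]; group }
  exact ⟨R', fun r hr t => σ_X' S hσ T hr t⟩

/-- torus elements -/
theorem tor_of_card (G : Good D) (hK : ∃ s : Finset K, 4 < s.card) :
    ∀ i < D.rank, ∃ j < D.rank, ∃ c : K, c ≠ 0 ∧ c ^ D.cartan j (D.simple i) ≠ 1 := by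
  intro i hi
  obtain ⟨c, h0, h1⟩ := exists_pow_two hK
  exact ⟨i, hi, c, h0, by rwa [G.ca_simple i hi]⟩

theorem self_trick2 (G : Good D) (S : StG D K Q) (hP : ∀ i < D.rank, StBase.PairOK D i) {σ : Γ →* Q} (hσ : CE σ)
    (hK : ∃ s : Finset K, 4 < s.card) {r : ℕ} (hr : r < D.nroots) (m : List ℤ) (hm : sm D m r = 1) : LCp S hσ r r := by
  refine cl_self_of_trick hσ S hr (fun c hc => ?_) (exists_trick hK)
  obtain ⟨h, -, hact⟩ := exists_tor G S hP m hc
  refine ⟨h, ?_⟩
  have := hact r hr
  rwa [hm, zpow_one] at this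

theorem TD_of (G : Good D) (S : StG D K Q) (hP : ∀ i < D.rank, StBase.PairOK D i) {σ : Γ →* Q} (hσ : CE σ)
    (hK : ∃ s : Finset K, 4 < s.card) (h3 : UCELift.R3 (ofSt S))
    (hself : ∀ i < D.rank, LCp S hσ (D.simple i) (D.simple i)) : TD S hσ :=
  { comm := hb_comm G S hP h3
    tor := fun r hr => tor_all G S hP (tor_of_card G hK) hr
    self := fun r hr t u => LCp_self_all G S hP hσ hself hr t u }

theorem lift_F4 (hK : ∃ s : Finset K, 4 < s.card) (S : StG chevF4 K Q) {σ : Γ →* Q} (hσ : CE σ)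
    (h3 : UCELift.R3 (ofSt S)) :
    ∃ R' : RSys chevF4 K Γ, ∀ r < chevF4.nroots, ∀ t, σ (R'.x r t) = S.X r t := by
  have hk : ∀ r < chevF4.nroots, ∀ s < chevF4.nroots, s ≠ r → s ≠ chevF4.neg r → Kill S r s ∨ LCp S hσ r s := by
    refine hkill_of_chk Cfsg.Agent.Lib.ChevOkF4.good S PairF4 hσ MF4 [1, 2] [] ?_ ?_
      (fun x hx => List.all_eq_true.mp killF4 x hx)
    · intro e he
      simp only [List.mem_cons, List.not_mem_nil, or_false] at he
      rcases he with rfl | rfl
      · exact exists_pow_one hK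
      · exact exists_pow_two hK
    · intro x hx; simp at hx
  have hself : ∀ i < chevF4.rank, LCp S hσ (chevF4.simple i) (chevF4.simple i) := by
    intro i hi
    change i < 4 at hi
    interval_cases i
    · exact self_single Cfsg.Agent.Lib.ChevOkF4.good S hσ hk (a := 7) (b := 44) (r := chevF4.simple 0)
        (C := (((chevF4.commTerms 7 44).getD 0 (0, 0, 0, 0)).2.1)) (by decide +kernel) (by decide +kernel)
        (by decide +kernel) (by decide +kernel) (by decide +kernel) (by decide +kernel) (by decide +kernel)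
        (by decide +kernel) (by decide +kernel)
    · exact self_single Cfsg.Agent.Lib.ChevOkF4.good S hσ hk (a := 8) (b := 40) (r := chevF4.simple 1)
        (C := (((chevF4.commTerms 8 40).getD 0 (0, 0, 0, 0)).2.1)) (by decide +kernel) (by decide +kernel)
        (by decide +kernel) (by decide +kernel) (by decide +kernel) (by decide +kernel) (by decide +kernel)
        (by decide +kernel) (by decide +kernel)
    · exact self_single Cfsg.Agent.Lib.ChevOkF4.good S hσ hk (a := 2) (b := 46) (r := chevF4.simple 2)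
        (C := (((chevF4.commTerms 2 46).getD 0 (0, 0, 0, 0)).2.1)) (by decide +kernel) (by decide +kernel)
        (by decide +kernel) (by decide +kernel) (by decide +kernel) (by decide +kernel) (by decide +kernel)
        (by decide +kernel) (by decide +kernel)
    · exact self_single Cfsg.Agent.Lib.ChevOkF4.good S hσ hk (a := 1) (b := 47) (r := chevF4.simple 3)
        (C := (((chevF4.commTerms 1 47).getD 0 (0, 0, 0, 0)).2.1)) (by decide +kernel) (by decide +kernel)
        (by decide +kernel) (by decide +kernel) (by decide +kernel) (by decide +kernel) (by decide +kernel)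
        (by decide +kernel) (by decide +kernel)
  exact lift2_of_torus Cfsg.Agent.Lib.ChevOkF4.good S PairF4 hσ
    (fun r hr s hs hr0 hs0 hrs => GP_of S hσ (hk r hr s hs hrs (ne_neg Cfsg.Agent.Lib.ChevOkF4.good hr hr0 hs0)))
    hpos_F4 (TD_of Cfsg.Agent.Lib.ChevOkF4.good S PairF4 hσ hK h3 hself)

theorem lift_G2 (hK : ∃ s : Finset K, 4 < s.card) (S : StG chevG2 K Q) {σ : Γ →* Q} (hσ : CE σ)
    (h3 : UCELift.R3 (ofSt S)) :
    ∃ R' : RSys chevG2 K Γ, ∀ r < chevG2.nroots, ∀ t, σ (R'.x r t) = S.X r t := by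
  have hk : ∀ r < chevG2.nroots, ∀ s < chevG2.nroots, s ≠ r → s ≠ chevG2.neg r → Kill S r s ∨ LCp S hσ r s := by
    refine hkill_of_chk Cfsg.Agent.Lib.ChevOkG2.good S PairG2 hσ MG2 [1, 2, 3] [] ?_ ?_
      (fun x hx => List.all_eq_true.mp killG2 x hx)
    · intro e he
      simp only [List.mem_cons, List.not_mem_nil, or_false] at he
      rcases he with rfl | rfl | rfl
      · exact exists_pow_one hK
      · exact exists_pow_two hK
      · exact exists_pow_three hK
    · intro x hx; simp at hx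
  have hself : ∀ i < chevG2.rank, LCp S hσ (chevG2.simple i) (chevG2.simple i) := by
    intro i hi
    change i < 2 at hi
    interval_cases i
    · exact self_trick2 Cfsg.Agent.Lib.ChevOkG2.good S PairG2 hσ hK (by decide +kernel) [0, -1] (by decide +kernel)
    · exact self_trick2 Cfsg.Agent.Lib.ChevOkG2.good S PairG2 hσ hK (by decide +kernel) [-1, -1] (by decide +kernel)
  exact lift2_of_torus Cfsg.Agent.Lib.ChevOkG2.good S PairG2 hσ
    (fun r hr s hs hr0 hs0 hrs => GP_of S hσ (hk r hr s hs hrs (ne_neg Cfsg.Agent.Lib.ChevOkG2.good hr hr0 hs0)))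
    hpos_G2 (TD_of Cfsg.Agent.Lib.ChevOkG2.good S PairG2 hσ hK h3 hself)

theorem lift_B2 (hK : ∃ s : Finset K, 4 < s.card) (S : StG chevB2 K Q) {σ : Γ →* Q} (hσ : CE σ)
    (h3 : UCELift.R3 (ofSt S)) :
    ∃ R' : RSys chevB2 K Γ, ∀ r < chevB2.nroots, ∀ t, σ (R'.x r t) = S.X r t := by
  have hk : ∀ r < chevB2.nroots, ∀ s < chevB2.nroots, s ≠ r → s ≠ chevB2.neg r → Kill S r s ∨ LCp S hσ r s := by
    refine hkill_of_chk Cfsg.Agent.Lib.ChevOkB2.good S PairB2 hσ MB2 [1, 2] [] ?_ ?_
      (fun x hx => List.all_eq_true.mp killB2 x hx)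
    · intro e he
      simp only [List.mem_cons, List.not_mem_nil, or_false] at he
      rcases he with rfl | rfl
      · exact exists_pow_one hK
      · exact exists_pow_two hK
    · intro x hx; simp at hx
  have hself : ∀ i < chevB2.rank, LCp S hσ (chevB2.simple i) (chevB2.simple i) := by
    intro i hi
    change i < 2 at hi
    interval_cases i
    · exact self_trick2 Cfsg.Agent.Lib.ChevOkB2.good S PairB2 hσ hK (by decide +kernel) [0, -1] (by decide +kernel)
    · rw [show chevB2.simple 1 = 4 by decide +kernel]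
      refine cl_self_of_gen hσ S {0, 6, 2} ?_ (gen_double S (a := 0) (b := 6) (r1 := 2) (r2 := 4)
        (C1 := -1) (C2 := 1)
        (by decide +kernel) (by decide +kernel) (by decide) (by decide +kernel) (by decide +kernel) (Or.inl rfl))
      intro k hk'
      rcases hk' with rfl | rfl | hk'
      · exact LCp_of_nil Cfsg.Agent.Lib.ChevOkB2.good S hσ hk (by decide +kernel) (by decide +kernel)
          (by decide) (by decide +kernel) (WX_nil_of (by decide +kernel))
      · exact LCp_of_nil Cfsg.Agent.Lib.ChevOkB2.good S hσ hk (by decide +kernel) (by decide +kernel)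
          (by decide) (by decide +kernel) (WX_nil_of (by decide +kernel))
      · rw [Set.mem_singleton_iff] at hk'
        subst hk'
        exact LCp_of_nil Cfsg.Agent.Lib.ChevOkB2.good S hσ hk (by decide +kernel) (by decide +kernel)
          (by decide) (by decide +kernel) (WX_nil_of (by decide +kernel))
  exact lift2_of_torus Cfsg.Agent.Lib.ChevOkB2.good S PairB2 hσ
    (fun r hr s hs hr0 hs0 hrs => GP_of S hσ (hk r hr s hs hrs (ne_neg Cfsg.Agent.Lib.ChevOkB2.good hr hr0 hs0)))
    hpos_B2 (TD_of Cfsg.Agent.Lib.ChevOkB2.good S PairB2 hσ hK h3 hself)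

open Cfsg.Agent.Lib.UCEPair Cfsg.Agent.Lib.UCETrip in
theorem lift_D4 (hK : ∃ s : Finset K, 4 < s.card) (S : StG chevD4 K Q) {σ : Γ →* Q} (hσ : CE σ) :
    ∃ R' : RSys chevD4 K Γ, ∀ r < chevD4.nroots, ∀ t, σ (R'.x r t) = S.X r t := by
  have hk : ∀ r < chevD4.nroots, ∀ s < chevD4.nroots, s ≠ r → s ≠ chevD4.neg r → Kill S r s ∨ LCp S hσ r s := by
    refine hkill_of_chk Cfsg.Agent.Lib.ChevOkD4.good S PairD4 hσ MD4 [1, 2] [] ?_ ?_
      (fun x hx => List.all_eq_true.mp killD4 x hx)
    · intro e he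
      simp only [List.mem_cons, List.not_mem_nil, or_false] at he
      rcases he with rfl | rfl
      · exact exists_pow_one hK
      · exact exists_pow_two hK
    · intro x hx; simp at hx
  have hL : (toSys Cfsg.Agent.Lib.ChevOkD4.good pairOK_D4 (ofSt S)).LC hσ := by
    intro r s hrs t u
    by_cases h : 0 < pr chevD4 r s
    · exact LC_of_dec Cfsg.Agent.Lib.ChevOkD4.good pairOK_D4 (ofSt S) hσ hrs (Or.inr h) t u
    · have hrs' : 0 ≤ pr chevD4 r s := hrs
      have h0 : pr chevD4 r s = 0 := by omega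
      have hne : s.val ≠ r.val := by
        intro hh
        have h1 : pr chevD4 r r = 2 := pr_self Cfsg.Agent.Lib.ChevOkD4.good r.2
        rw [hh, h1] at h0
        omega
      have hneg : s.val ≠ chevD4.neg r.val := by
        intro hh
        have := (pairOK_D4 r r.2 s s.2).negtwo.mpr hh
        omega
      have e1 := CC_chain pairOK_D4 hrs
      have e2 := CC_chain pairOK_D4 (CC_symm pairOK_D4 hrs)
      exact LCp_of_nil Cfsg.Agent.Lib.ChevOkD4.good S hσ hk r.2 s.2 hne hneg
        (WX_nil_of (commTerms_nil e1 e2)) t u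
  exact UCESys.exists_lift Cfsg.Agent.Lib.ChevOkD4.good pairOK_D4 (ofSt S) hσ hL

open Cfsg.Agent.Lib.UCEPair in
theorem lift_pair (G : Good D) (P : ∀ r < D.nroots, ∀ s < D.nroots, Cfsg.Agent.Lib.UCEPair.PairOK D True r s)
    (S : StG D K Q) {σ : Γ →* Q} (hσ : CE σ) :
    ∃ R' : RSys D K Γ, ∀ r < D.nroots, ∀ t, σ (R'.x r t) = S.X r t := by
  have hL : (toSys G P (ofSt S)).LC hσ := by
    intro r s hrs t u
    exact LC_of_dec G P (ofSt S) hσ hrs (Or.inl trivial) t u
  exact UCESys.exists_lift G P (ofSt S) hσ hL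

/-- **the lifting theorem** over fields with more than four elements -/
theorem lift_all (hK : ∃ s : Finset K, 4 < s.card)
    (hD : D ∈ [chevG2, chevB2, chevD4, chevF4, chevE6, chevE7, chevE8]) (S : StG D K Q) {σ : Γ →* Q} (hσ : CE σ)
    (h3 : UCELift.R3 (ofSt S)) :
    ∃ R' : RSys D K Γ, ∀ r < D.nroots, ∀ t, σ (R'.x r t) = S.X r t := by
  simp only [List.mem_cons, List.not_mem_nil, or_false] at hD
  rcases hD with rfl | rfl | rfl | rfl | rfl | rfl | rfl
  · exact lift_G2 hK S hσ h3
  · exact lift_B2 hK S hσ h3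
  · exact lift_D4 hK S hσ
  · exact lift_F4 hK S hσ h3
  · exact lift_pair Cfsg.Agent.Lib.ChevOkE6.good Cfsg.Agent.Lib.UCEPair.pairOK_E6 S hσ
  · exact lift_pair Cfsg.Agent.Lib.ChevOkE7.good Cfsg.Agent.Lib.UCEPair.pairOK_E7 S hσ
  · exact lift_pair Cfsg.Agent.Lib.ChevOkE8.good Cfsg.Agent.Lib.UCEPair.pairOK_E8 S hσ

/-- a homomorphism with commuting values from a perfect group is trivial -/
theorem eq_one_of_perfect {A B : Type*} [Group A] [Group B] (hA : commutator A = ⊤) (f : A →* B)
    (h : ∀ a b, f a * f b = f b * f a) (a : A) : f a = 1 := by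
  have h1 : commutator A ≤ f.ker := by
    rw [commutator_def, Subgroup.commutator_le]
    intro x _ y _
    rw [MonoidHom.mem_ker, map_commutatorElement, commutatorElement_eq_one_iff_mul_comm]
    exact h x y
  rw [hA] at h1
  exact h1 (Subgroup.mem_top a)

/-- two homomorphisms from a perfect group which differ by central elements are equal -/
theorem eq_of_perfect {A B C : Type*} [Group A] [Group B] [Group C] (hA : commutator A = ⊤) (π : B →* C)
    (hπ : π.ker ≤ Subgroup.center B) (f g : A →* B) (h : ∀ a, π (f a) = π (g a)) : f = g := by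
  have hz : ∀ a, f a * (g a)⁻¹ ∈ Subgroup.center B := fun a => hπ (by
    rw [MonoidHom.mem_ker, map_mul, map_inv, h, mul_inv_cancel])
  have hc : ∀ a b, b * (f a * (g a)⁻¹) = f a * (g a)⁻¹ * b := fun a b => Subgroup.mem_center_iff.mp (hz a) b
  let z : A →* B :=
    { toFun := fun a => f a * (g a)⁻¹
      map_one' := by simp
      map_mul' := fun a b => by
        rw [map_mul, map_mul, mul_inv_rev]
        calc f a * f b * ((g b)⁻¹ * (g a)⁻¹) = f a * (f b * (g b)⁻¹) * (g a)⁻¹ := by group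
          _ = f b * (g b)⁻¹ * f a * (g a)⁻¹ := by rw [hc b (f a)]
          _ = f b * (g b)⁻¹ * (f a * (g a)⁻¹) := by group
          _ = f a * (g a)⁻¹ * (f b * (g b)⁻¹) := by rw [hc a] }
  ext a
  have h1 : z a = 1 := eq_one_of_perfect hA z (fun a b => (hc b _)) a
  exact mul_inv_eq_one.mp h1

/-- the presented group is perfect -/
theorem cover_perfect (G : Good D) (hP : ∀ i < D.rank, StBase.PairOK D i) (hK : ∃ s : Finset K, 4 < s.card) :
    commutator (D.SteinbergCover K) = ⊤ := by
  rw [eq_top_iff, ← (stAB (K := K) G).gen, Subgroup.closure_le]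
  rintro g ⟨r, hr, t, rfl⟩
  let S := stAB (K := K) G
  obtain ⟨h0, -, c, hc1, hact⟩ := tor_all G S hP (tor_of_card G hK) hr
  have e := cm_act S hr hact ((1 - c)⁻¹ * t)
  rw [mul_inv_cancel_left₀ (sub_ne_zero.mpr (Ne.symm hc1))] at e
  change S.X r t ∈ _
  rw [← e]
  have : ∀ a b : D.SteinbergCover K, cm a b ∈ commutator (D.SteinbergCover K) := by
    intro a b
    have : cm a b = ⁅a⁻¹, b⁻¹⁆ := by unfold cm; rw [commutatorElement_def, inv_inv, inv_inv]
    rw [this]
    exact Subgroup.commutator_mem_commutator (Subgroup.mem_top _) (Subgroup.mem_top _)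
  exact this _ _

/-- the homomorphism defined by a system satisfying (R1), (R2) -/
theorem exists_homAB (G : Good D) {Γ : Type*} [Group Γ] (R : RSys D K Γ) :
    ∃ φ : D.SteinbergCover K →* Γ, ∀ r < D.nroots, ∀ t, φ (D.scGen K r t) = R.x r t := by
  let f : Fin D.nroots × K → Γ := fun p => R.x p.1 p.2
  have hf : ∀ r < D.nroots, ∀ t, FreeGroup.lift f (D.stX r t) = R.x r t := by
    intro r hr t
    unfold ChevalleyDatum.stX
    rw [dif_pos hr, FreeGroup.lift_apply_of]
  have hrel : ∀ g ∈ D.steinbergRelsAB K, FreeGroup.lift f g = 1 := by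
    rintro g (⟨r, t, u, hr, rfl⟩ | ⟨r, s, t, u, hr, hs, h1, h2, rfl⟩)
    · rw [map_mul, map_mul, map_inv, hf r hr, hf r hr, hf r hr, R.add r hr, mul_inv_cancel]
    · rw [map_mul, map_mul, map_mul, map_mul, map_inv, map_inv, map_inv, hf r hr, hf s hs]
      have := R.rel r hr s hs h1 h2 t u
      unfold cm at this
      rw [this, mul_inv_eq_one]
      unfold ChevalleyDatum.stWord
      rw [map_list_prod, List.map_map]
      congr 1
      apply List.map_congr_left
      intro p hp
      unfold ChevalleyDatum.commWord at hp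
      rw [List.mem_map] at hp
      obtain ⟨c, hc', rfl⟩ := hp
      exact (hf _ (commTerms_root G hr hs h1 h2 hc').1 _).symm
  refine ⟨PresentedGroup.toGroup hrel, fun r hr t => ?_⟩
  rw [← hf r hr t]
  rfl

/-- perfect central extensions of central extensions -/
theorem central_comp {A B C : Type*} [Group A] [Group B] [Group C] (hA : commutator A = ⊤) (p : A →* B) (θ : B →* C)
    (hp : p.ker ≤ Subgroup.center A) (hps : Function.Surjective p) (hθ : θ.ker ≤ Subgroup.center B) :
    (θ.comp p).ker ≤ Subgroup.center A := by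
  intro x hx
  have hx' : p x ∈ Subgroup.center B := hθ (by rwa [MonoidHom.mem_ker, MonoidHom.comp_apply] at hx)
  have hc : ∀ y, x * y * x⁻¹ * y⁻¹ ∈ Subgroup.center A := by
    intro y
    apply hp
    rw [MonoidHom.mem_ker, map_mul, map_mul, map_mul, map_inv, map_inv,
      ← Subgroup.mem_center_iff.mp hx' (p y)]
    group
  let f : A →* A :=
    { toFun := fun y => x * y * x⁻¹ * y⁻¹
      map_one' := by simp
      map_mul' := fun a b => by
        have h := Subgroup.mem_center_iff.mp (hc b) a⁻¹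
        calc x * (a * b) * x⁻¹ * (a * b)⁻¹ = x * a * x⁻¹ * ((x * b * x⁻¹ * b⁻¹) * a⁻¹) := by group
          _ = x * a * x⁻¹ * (a⁻¹ * (x * b * x⁻¹ * b⁻¹)) := by rw [h]
          _ = x * a * x⁻¹ * a⁻¹ * (x * b * x⁻¹ * b⁻¹) := by group }
  rw [Subgroup.mem_center_iff]
  intro y
  have h1 : f y = 1 := eq_one_of_perfect hA f (fun a b => (Subgroup.mem_center_iff.mp (hc b) _)) y
  have h2 : x * y * x⁻¹ * y⁻¹ = 1 := h1
  have h3 : x * y = y * x := by
    calc x * y = (x * y * x⁻¹ * y⁻¹) * (y * x) := by group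
      _ = y * x := by rw [h2, one_mul]
  exact h3.symm

/-- the derived group of a central extension of a perfect group -/
theorem perfect_commutator {P Δ : Type*} [Group P] [Group Δ] (hΔ : commutator Δ = ⊤) (p : P →* Δ)
    (hps : Function.Surjective p) (hp : p.ker ≤ Subgroup.center P) :
    (∀ d : Δ, ∃ x ∈ commutator P, p x = d) ∧ commutator ↥(commutator P) = ⊤ := by
  have h1 : ∀ d : Δ, ∃ x ∈ commutator P, p x = d := by
    intro d
    have : (commutator P).map p = ⊤ := by
      rw [commutator_def, Subgroup.map_commutator, ← MonoidHom.range_eq_map, MonoidHom.range_eq_top.mpr hps]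
      exact hΔ
    have hd : d ∈ (commutator P).map p := by rw [this]; exact Subgroup.mem_top _
    exact hd
  refine ⟨h1, ?_⟩
  have h2 : commutator P ≤ ⁅commutator P, commutator P⁆ := by
    conv_lhs => rw [commutator_def]
    rw [Subgroup.commutator_le]
    intro x _ y _
    obtain ⟨x', hx', hx⟩ := h1 (p x)
    obtain ⟨y', hy', hy⟩ := h1 (p y)
    have hz : x'⁻¹ * x ∈ Subgroup.center P := hp (by rw [MonoidHom.mem_ker, map_mul, map_inv, hx, inv_mul_cancel])
    have hw : y'⁻¹ * y ∈ Subgroup.center P := hp (by rw [MonoidHom.mem_ker, map_mul, map_inv, hy, inv_mul_cancel])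
    have e : cm x⁻¹ y⁻¹ = cm x'⁻¹ y'⁻¹ := by
      have e1 : x⁻¹ = x'⁻¹ * (x'⁻¹ * x)⁻¹ := by
        rw [Subgroup.mem_center_iff.mp (inv_mem hz) x'⁻¹]
        group
      have e2 : y⁻¹ = y'⁻¹ * (y'⁻¹ * y)⁻¹ := by
        rw [Subgroup.mem_center_iff.mp (inv_mem hw) y'⁻¹]
        group
      rw [e1, e2]
      exact cm_mul_central (inv_mem hz) (inv_mem hw)
    have e3 : ∀ a b : P, ⁅a, b⁆ = cm a⁻¹ b⁻¹ := by
      intro a b
      unfold cm
      rw [commutatorElement_def, inv_inv, inv_inv]
    rw [e3, e, ← e3]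
    exact Subgroup.commutator_mem_commutator hx' hy'
  have h3 : (commutator ↥(commutator P)).map (commutator P).subtype = (⊤ : Subgroup ↥(commutator P)).map (commutator P).subtype := by
    apply le_antisymm
    · exact Subgroup.map_mono le_top
    · rw [Subgroup.map_subtype_commutator]
      rintro x ⟨y, -, rfl⟩
      exact h2 y.2
  exact Subgroup.map_injective (commutator P).subtype_injective h3

/-- **universality**: from lifting `θ` through central extensions of `Q` to lifting through central extensions of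
anything -/
theorem exists_unique_lift {Δ : Type u} {E : Type v} {Q G₁ : Type*} [Group Δ] [Group E] [Group Q] [Group G₁]
    (hΔ : commutator Δ = ⊤) (θ : Δ →* Q) (hθs : Function.Surjective θ) (hθ : θ.ker ≤ Subgroup.center Δ)
    (hlift : ∀ (Γ : Type (max u v)) [Group Γ] (σ' : Γ →* Q), CE σ' → ∃ τ : Δ →* Γ, σ'.comp τ = θ)
    (π₁ : E →* G₁) (hπ : Function.Surjective π₁) (hc : π₁.ker ≤ Subgroup.center E) (σ : Δ →* G₁) :
    ∃! τ : Δ →* E, π₁.comp τ = σ := by
  have huniq : ∀ τ τ' : Δ →* E, π₁.comp τ = σ → π₁.comp τ' = σ → τ = τ' := by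
    intro τ τ' h1 h2
    refine eq_of_perfect hΔ π₁ hc τ τ' fun a => ?_
    rw [← MonoidHom.comp_apply, ← MonoidHom.comp_apply, h1, h2]
  let P : Subgroup (Δ × E) := (σ.comp (MonoidHom.fst Δ E)).eqLocus (π₁.comp (MonoidHom.snd Δ E))
  let p0 : P →* Δ := (MonoidHom.fst Δ E).comp P.subtype
  have hp0s : Function.Surjective p0 := by
    intro d
    obtain ⟨e, he⟩ := hπ (σ d)
    exact ⟨⟨(d, e), he.symm⟩, rfl⟩
  have hp0 : p0.ker ≤ Subgroup.center P := by
    rintro ⟨⟨d, e⟩, hde⟩ hx
    have hd : d = 1 := hx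
    subst hd
    have he : e ∈ Subgroup.center E := by
      apply hc
      have : σ 1 = π₁ e := hde
      rw [MonoidHom.mem_ker, ← this, map_one]
    rw [Subgroup.mem_center_iff]
    rintro ⟨⟨d', e'⟩, h'⟩
    apply Subtype.ext
    refine Prod.ext ?_ ?_
    · change d' * 1 = 1 * d'
      rw [mul_one, one_mul]
    · exact Subgroup.mem_center_iff.mp he e'
  obtain ⟨h1, h2⟩ := perfect_commutator hΔ p0 hp0s hp0
  let p : ↥(commutator P) →* Δ := p0.comp (commutator P).subtype
  have hps : Function.Surjective p := fun d => by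
    obtain ⟨x, hx, hxd⟩ := h1 d
    exact ⟨⟨x, hx⟩, hxd⟩
  have hpk : p.ker ≤ Subgroup.center ↥(commutator P) := by
    intro x hx
    have hx' : (x : P) ∈ Subgroup.center P := hp0 hx
    rw [Subgroup.mem_center_iff] at hx' ⊢
    intro y
    exact Subtype.ext (hx' y)
  obtain ⟨τ₀, hτ₀⟩ := hlift ↥(commutator P) (θ.comp p)
    ⟨hθs.comp hps, central_comp h2 p θ hpk hps hθ⟩
  have hid : p.comp τ₀ = MonoidHom.id Δ := by
    refine eq_of_perfect hΔ θ hθ _ _ fun a => ?_
    have := DFunLike.congr_fun hτ₀ a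
    exact this
  let τ : Δ →* E := (MonoidHom.snd Δ E).comp (P.subtype.comp ((commutator P).subtype.comp τ₀))
  refine ⟨τ, ?_, fun τ' h' => huniq _ _ h' ?_⟩
  all_goals
    ext a
    have h3 : (((τ₀ a : ↥(commutator P)) : P) : Δ × E).1 = a := DFunLike.congr_fun hid a
    have h4 : σ (((τ₀ a : ↥(commutator P)) : P) : Δ × E).1 = π₁ (((τ₀ a : ↥(commutator P)) : P) : Δ × E).2 :=
      ((τ₀ a : ↥(commutator P)) : P).2
    rw [h3] at h4
    exact h4.symm

/-- **S2398** -/
theorem main {K : Type u} [Field K] (hK : ∃ s : Finset K, 4 < s.card) (D : ChevalleyDatum)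
    (hD : D ∈ [chevG2, chevB2, chevD4, chevF4, chevE6, chevE7, chevE8])
    {G₁ : Type v} {E : Type w} [Group G₁] [Group E] (π₁ : E →* G₁) (hπ : Function.Surjective π₁)
    (hc : π₁.ker ≤ Subgroup.center E) (σ : D.SteinbergCover K →* G₁) :
    ∃! τ : D.SteinbergCover K →* E, π₁.comp τ = σ := by
  obtain ⟨G⟩ := good_of_mem hD
  have hP := Cfsg.Agent.Lib.StPair.pairOK hD
  have hs : Function.Surjective (prAB (K := K) G) := surj_of_gen G _ fun r _ t => ⟨D.scGen K r t, prAB_gen G r t⟩
  refine exists_unique_lift (cover_perfect G hP hK) (prAB G) hs ?_ ?_ π₁ hπ hc σ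
  · intro g hg
    refine (ker_le G (stAB G) hP (g := g) ?_).2
    change ((prAB G g : ↥(D.group K)) : GL D.Idx K) = 1
    rw [MonoidHom.mem_ker.mp hg]; rfl
  · intro Γ _ σ' hσ'
    obtain ⟨R', hR'⟩ := lift_all hK hD (stdSt G) hσ' (std_R3 G)
    obtain ⟨τ, hτ⟩ := exists_homAB G R'
    refine ⟨τ, MonoidHom.eq_of_eqOn_dense (stAB (K := K) G).gen ?_⟩
    rintro g ⟨r, hr, t, rfl⟩
    change σ' (τ (D.scGen K r t)) = prAB G (D.scGen K r t)
    rw [hτ r hr t, hR' r hr t]
    apply Subtype.ext
    rw [prAB_gen G]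
    exact stdSys_coe G K hr t

end Cfsg.Agent.Lib.UCEInf
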