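import Cfsg.Agent.Lib.UCETorus5

set_option autoImplicit false
set_option linter.unusedSectionVars false

/-!
Abstract version of the torus method: relations for equivariant lifts.
-/

namespace Cfsg.Agent.Lib.UCELD
open Cfsg.Lie Cfsg.Agent.Lib.ChevX Cfsg.Agent.Lib.ChevGood Cfsg.Agent.Lib.ChevRel
open Cfsg.Agent.Lib.ChevU Cfsg.Agent.Lib.ChevH Cfsg.Agent.Lib.ChevN Cfsg.Agent.Lib.ChevBN
open Cfsg.Agent.Lib.StBase Cfsg.Agent.Lib.StKer Cfsg.Agent.Lib.UCEBase
open Cfsg.Agent.Lib.UCESys Cfsg.Agent.Lib.UCELift Cfsg.Agent.Lib.UCERank1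
open Cfsg.Agent.Lib.UCETorus (Act Kill GP commWord_root ord_root ne_neg ofSt nb_normalizes)

variable {D : ChevalleyDatum} {K : Type*} [Field K] {Q Γ : Type*} [Group Q] [Group Γ]

theorem conj_indep {σ : Γ →* Q} (hσ : CE σ) {b b' : Γ} (h : σ b = σ b') (x : Γ) : b * x * b⁻¹ = b' * x * b'⁻¹ := by
  have hz : b'⁻¹ * b ∈ Subgroup.center Γ := by
    apply hσ.central
    rw [MonoidHom.mem_ker, map_mul, map_inv, h, inv_mul_cancel]
  have h1 := Subgroup.mem_center_iff.mp hz x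
  calc b * x * b⁻¹ = b' * ((b'⁻¹ * b) * x) * b⁻¹ := by group
    _ = b' * (x * (b'⁻¹ * b)) * b⁻¹ := by rw [h1]
    _ = _ := by group

/-- equivariant lifts of the root elements -/
structure LD (G : Good D) (S : StG D K Q) {σ : Γ →* Q} (hσ : CE σ) where
  X' : ℕ → K → Γ
  add : ∀ r < D.nroots, ∀ t u, X' r t * X' r u = X' r (t + u)
  lift : ∀ r < D.nroots, ∀ t, σ (X' r t) = S.X r t
  conj : ∀ i < D.rank, ∀ c : K, c ≠ 0 → ∀ s < D.nroots, ∀ t : K, ∀ b : Γ, σ b = nb S i c →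
    b * X' s t * b⁻¹ = X' (D.reflectRoot i s) ((G.η i s : K) * c ^ (- D.cartan i s) * t)

namespace LD
variable {G : Good D} {S : StG D K Q} (hP : ∀ i < D.rank, PairOK D i) {σ : Γ →* Q} {hσ : CE σ} (L : LD G S hσ)

theorem X'_add {r : ℕ} (hr : r < D.nroots) (t u : K) : L.X' r t * L.X' r u = L.X' r (t + u) := L.add r hr t u
theorem σ_X' {r : ℕ} (hr : r < D.nroots) (t : K) : σ (L.X' r t) = S.X r t := L.lift r hr t

theorem X'_zero {r : ℕ} (hr : r < D.nroots) : L.X' r 0 = 1 := by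
  have := L.X'_add hr 0 0
  rw [add_zero] at this
  exact mul_eq_left.mp this

theorem X'_neg {r : ℕ} (hr : r < D.nroots) (t : K) : L.X' r (-t) = (L.X' r t)⁻¹ := by
  rw [eq_inv_iff_mul_eq_one, L.X'_add hr, neg_add_cancel, L.X'_zero hr]

include hP in
theorem hb_conj' {i : ℕ} (hi : i < D.rank) {c : K} (hc : c ≠ 0) {s : ℕ} (hs : s < D.nroots) (t : K) {b : Γ}
    (hb' : σ b = hb S i c) : b * L.X' s t * b⁻¹ = L.X' s (c ^ D.cartan i s * t) := by
  have hws := G.w_lt i hi s hs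
  obtain ⟨b1, hb1⟩ := hσ.surj (nb S i c)
  obtain ⟨b2, hb2⟩ := hσ.surj (nb S i (-1))
  have e0 : σ b = σ (b1 * b2) := by rw [hb', map_mul, hb1, hb2]; rfl
  rw [conj_indep hσ e0]
  have e1 : b1 * b2 * L.X' s t * (b1 * b2)⁻¹ = b1 * (b2 * L.X' s t * b2⁻¹) * b1⁻¹ := by group
  rw [e1, L.conj i hi (-1) (by simp) s hs t b2 hb2, L.conj i hi c hc _ hws _ b1 hb1, G.w_w i hi s hs]
  congr 1
  have h1 := nb_conj G S hi (hP i hi) hs (-1) (by simp) t
  have h2 := nb_conj G S hi (hP i hi) hws c hc ((G.η i s : K) * (-1) ^ (- D.cartan i s) * t)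
  rw [G.w_w i hi s hs, ← h1] at h2
  have h3 : hb S i c * S.X s t * (hb S i c)⁻¹ =
      nb S i c * (nb S i (-1) * S.X s t * (nb S i (-1))⁻¹) * (nb S i c)⁻¹ := by unfold hb; group
  rw [← h3, StKer.hb_conj G S hP hi hs c hc] at h2
  have h4 := congrArg S.θ h2
  rw [S.θX s hs, S.θX s hs] at h4
  exact (xg_inj G hs h4).symm

include hP in
theorem torus_aux {r : ℕ} (hr : r < D.nroots) {g : Q} (hg : g ∈ Hb S) :
    ∃ χ : K, χ ≠ 0 ∧ Act S g r χ ∧ ∀ b : Γ, σ b = g → ∀ t, b * L.X' r t * b⁻¹ = L.X' r (χ * t) := by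
  unfold Hb at hg
  induction hg using Subgroup.closure_induction with
  | mem x hx =>
    obtain ⟨i, hi, c, hc, rfl⟩ := hx
    exact ⟨_, zpow_ne_zero _ hc, fun u => StKer.hb_conj G S hP hi hr c hc u, fun b hb t => L.hb_conj' hP hi hc hr t hb⟩
  | one =>
    refine ⟨1, one_ne_zero, fun u => by simp, fun b hb t => ?_⟩
    have e0 : σ b = σ 1 := by rw [hb, map_one]
    rw [conj_indep hσ e0]; simp
  | mul x y _ _ hx hy =>
    obtain ⟨χ, hχ, h1, h2⟩ := hx
    obtain ⟨ψ, hψ, h3, h4⟩ := hy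
    obtain ⟨a, ha⟩ := hσ.surj x
    obtain ⟨c, hc⟩ := hσ.surj y
    refine ⟨χ * ψ, mul_ne_zero hχ hψ, fun u => ?_, fun b hb t => ?_⟩
    · have e : x * y * S.X r u * (x * y)⁻¹ = x * (y * S.X r u * y⁻¹) * x⁻¹ := by group
      rw [e, h3, h1, mul_assoc]
    · have e0 : σ b = σ (a * c) := by rw [hb, map_mul, ha, hc]
      rw [conj_indep hσ e0]
      have e : a * c * L.X' r t * (a * c)⁻¹ = a * (c * L.X' r t * c⁻¹) * a⁻¹ := by group
      rw [e, h4 c hc, h2 a ha, mul_assoc]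
  | inv x _ hx =>
    obtain ⟨χ, hχ, h1, h2⟩ := hx
    obtain ⟨a, ha⟩ := hσ.surj x
    refine ⟨χ⁻¹, inv_ne_zero hχ, fun u => ?_, fun b hb t => ?_⟩
    · have := h1 (χ⁻¹ * u)
      rw [mul_inv_cancel_left₀ hχ] at this
      rw [← this]; group
    · have e0 : σ b = σ a⁻¹ := by rw [hb, map_inv, ha]
      rw [conj_indep hσ e0]
      have := h2 a ha (χ⁻¹ * t)
      rw [mul_inv_cancel_left₀ hχ] at this
      rw [← this]; group

include hP in
theorem X'_torus {r : ℕ} (hr : r < D.nroots) {g : Q} (hg : g ∈ Hb S) {d : K} (hd : Act S g r d) (t : K)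
    {b : Γ} (hb : σ b = g) : b * L.X' r t * b⁻¹ = L.X' r (d * t) := by
  obtain ⟨χ, hχ, h1, h2⟩ := L.torus_aux hP hr hg
  have e : χ = d := by
    have h3 := (h1 1).symm.trans (hd 1)
    have h4 := congrArg S.θ h3
    rw [S.θX r hr, S.θX r hr, mul_one, mul_one] at h4
    exact xg_inj G hr h4
  rw [h2 b hb, e]

/-- conjugation of the lifts by a lift of `n_w` -/
theorem nw_conj' {w : List ℕ} (hw : Valid D w) {s : ℕ} (hs : s < D.nroots) {b : Γ} (hb : σ b = nw S w) :
    ∃ ε : K, (ε = 1 ∨ ε = -1) ∧ (∀ t : K, b * L.X' s t * b⁻¹ = L.X' (wr D w s) (ε * t)) ∧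
      (∀ t : K, b * L.X' (D.neg s) t * b⁻¹ = L.X' (D.neg (wr D w s)) (ε * t)) := by
  induction w generalizing b with
  | nil =>
    have e0 : σ b = σ 1 := by rw [hb, map_one]; rfl
    refine ⟨1, Or.inl rfl, fun t => ?_, fun t => ?_⟩ <;> rw [conj_indep hσ e0] <;> simp
  | cons i w ih =>
    have hi := hw.cons.1
    obtain ⟨c, hc⟩ := hσ.surj (nw S w)
    obtain ⟨a, ha⟩ := hσ.surj (nb S i 1)
    obtain ⟨ε, hε, h1, h2⟩ := ih hw.cons.2 hc
    have e0 : σ b = σ (a * c) := by rw [hb, map_mul, ha, hc, nw_cons]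
    have hws := wr_lt G hw.cons.2 hs
    refine ⟨(G.η i (wr D w s) : K) * ε, ?_, fun t => ?_, fun t => ?_⟩
    · rcases G.η_sq i hi _ hws with h | h <;> rcases hε with h' | h' <;> rw [h, h'] <;> simp
    · rw [conj_indep hσ e0]
      have e : a * c * L.X' s t * (a * c)⁻¹ = a * (c * L.X' s t * c⁻¹) * a⁻¹ := by group
      rw [e, h1, L.conj i hi 1 one_ne_zero _ hws _ a ha, wr_cons]
      congr 1
      rw [one_zpow]; ring
    · rw [conj_indep hσ e0]
      have e : a * c * L.X' (D.neg s) t * (a * c)⁻¹ = a * (c * L.X' (D.neg s) t * c⁻¹) * a⁻¹ := by group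
      rw [e, h2, L.conj i hi 1 one_ne_zero _ (ChevU.neg_lt G hws) _ a ha, wr_cons, G.w_neg i hi _ hws,
        G.η_neg i hi _ hws]
      congr 1
      rw [one_zpow]; ring

end LD

variable (G : Good D) (S : StG D K Q) (hP : ∀ i < D.rank, PairOK D i) {σ : Γ →* Q} (hσ : CE σ) (L : LD G S hσ)

/-- the subgroup generated by the canonical lifts for the roots of large order -/
def E (M : ℤ) : Subgroup Γ := Subgroup.closure {g | ∃ k < D.nroots, M ≤ G.ord k ∧ ∃ t : K, g = L.X' k t}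

theorem X'_mem_E {k : ℕ} (hk : k < D.nroots) {M : ℤ} (h : M ≤ G.ord k) (t : K) : L.X' k t ∈ E G S hσ L M :=
  Subgroup.subset_closure ⟨k, hk, h, t, rfl⟩

theorem E_le {M : ℤ} {A : Subgroup Γ} (h : ∀ k < D.nroots, M ≤ G.ord k → ∀ t : K, L.X' k t ∈ A) :
    E G S hσ L M ≤ A := by
  unfold E
  rw [Subgroup.closure_le]
  rintro g ⟨k, hk, hM, t, rfl⟩
  exact h k hk hM t

theorem E_mono {M N : ℤ} (h : M ≤ N) : E G S hσ L N ≤ E G S hσ L M :=
  E_le G S hσ L fun k hk hN t => X'_mem_E G S hσ L hk (h.trans hN) t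

theorem WX_mem_E {w : List (ℕ × K)} {M : ℤ} (h : ∀ p ∈ w, p.1 < D.nroots ∧ M ≤ G.ord p.1) :
    WX (L.X') w ∈ E G S hσ L M := by
  unfold WX
  apply Subgroup.list_prod_mem
  intro g hg
  rw [List.mem_map] at hg
  obtain ⟨p, hp, rfl⟩ := hg
  exact X'_mem_E G S hσ L (h p hp).1 (h p hp).2 _

theorem σ_WX {w : List (ℕ × K)} (h : ∀ p ∈ w, p.1 < D.nroots) : σ (WX (L.X') w) = WX S.X w := by
  unfold WX
  rw [map_list_prod, List.map_map]
  congr 1
  apply List.map_congr_left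
  intro p hp
  exact L.σ_X' (h p hp) _

/-- the commutator relation -/
def R2 (r s : ℕ) : Prop := ∀ t u : K, L.X' s u * L.X' r t =
  L.X' r t * L.X' s u * WX (L.X') (D.commWord K r s t u)

/-- conjugation of `E M` by a root element -/
theorem conj_E {r : ℕ} (hr : r < D.nroots) (hr0 : 0 < G.ord r) {M : ℤ} (hM : 0 < M)
    (h : ∀ k < D.nroots, M ≤ G.ord k → k ≠ r → R2 G S hσ L r k) {x : Γ} (hx : x ∈ E G S hσ L M) (t : K) :
    (L.X' r t)⁻¹ * x * L.X' r t ∈ E G S hσ L M := by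
  have h1 : E G S hσ L M ≤ (E G S hσ L M).comap (MulAut.conj (L.X' r t)⁻¹).toMonoidHom := by
    apply E_le
    intro k hk hkM u
    rw [Subgroup.mem_comap]
    change (L.X' r t)⁻¹ * L.X' k u * (L.X' r t)⁻¹⁻¹ ∈ _
    rw [inv_inv]
    by_cases hkr : k = r
    · subst hkr
      have : (L.X' k t)⁻¹ * L.X' k u * L.X' k t = L.X' k u := by
        rw [mul_assoc, L.X'_add hr, add_comm u t, ← L.X'_add hr]; group
      rw [this]
      exact X'_mem_E G S hσ L hr hkM u
    · have e := h k hk hkM hkr t u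
      have : (L.X' r t)⁻¹ * L.X' k u * L.X' r t =
          L.X' k u * WX (L.X') (D.commWord K r k t u) := by
        rw [mul_assoc, e]; group
      rw [this]
      refine mul_mem (X'_mem_E G S hσ L hk hkM u) (WX_mem_E G S hσ L fun p hp => ?_)
      have hp' := commWord_root G hr hk hkr (ne_neg G hr hr0 (by omega)) hp
      have := ord_root G hp'.1 hr hk hr0 (by omega) hp'.2
      exact ⟨hp'.1, by omega⟩
  have := h1 hx
  rw [Subgroup.mem_comap] at this
  change (L.X' r t)⁻¹ * x * (L.X' r t)⁻¹⁻¹ ∈ _ at this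
  rwa [inv_inv] at this

/-- injectivity of `σ` on `E M`, descending step -/
theorem inj_step {M : ℤ} (hM : 0 < M)
    (hR : ∀ r < D.nroots, ∀ s < D.nroots, 0 < G.ord r → 0 < G.ord s → s ≠ r → M + 1 ≤ G.ord r + G.ord s →
      R2 G S hσ L r s) (hinj : ∀ g ∈ E G S hσ L (M + 1), σ g = 1 → g = 1) :
    ∀ g ∈ E G S hσ L M, σ g = 1 → g = 1 := by
  by_cases hm : ∃ m < D.nroots, G.ord m = M
  · obtain ⟨m, hm, hmM⟩ := hm
    have hconj : ∀ x ∈ E G S hσ L (M + 1), ∀ t, (L.X' m t)⁻¹ * x * L.X' m t ∈ E G S hσ L (M + 1) := by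
      intro x hx t
      refine conj_E G S hσ L hm (by omega) (by omega) (fun k hk hkM hkm => ?_) hx t
      exact hR m hm k hk (by omega) (by omega) hkm (by omega)
    have hdec : ∀ g ∈ E G S hσ L M, ∃ t, ∃ v ∈ E G S hσ L (M + 1), g = L.X' m t * v := by
      intro g hg
      unfold E at hg
      induction hg using Subgroup.closure_induction with
      | mem x hx =>
        obtain ⟨k, hk, hkM, t, rfl⟩ := hx
        by_cases hkm : k = m
        · subst hkm
          exact ⟨t, 1, one_mem _, by rw [mul_one]⟩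
        · refine ⟨0, L.X' k t, X'_mem_E G S hσ L hk ?_ t, by rw [L.X'_zero hm, one_mul]⟩
          have : G.ord k ≠ G.ord m := by
            intro h
            have h1 := G.ord_mono k hk m hm
            have h2 := G.ord_mono m hm k hk
            omega
          omega
      | one => exact ⟨0, 1, one_mem _, by rw [L.X'_zero hm, one_mul]⟩
      | mul x y _ _ hx hy =>
        obtain ⟨t, v, hv, rfl⟩ := hx
        obtain ⟨t', v', hv', rfl⟩ := hy
        refine ⟨t + t', (L.X' m t')⁻¹ * v * L.X' m t' * v', mul_mem (hconj v hv t') hv', ?_⟩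
        rw [← L.X'_add hm]; group
      | inv x _ hx =>
        obtain ⟨t, v, hv, rfl⟩ := hx
        refine ⟨-t, (L.X' m (-t))⁻¹ * v⁻¹ * L.X' m (-t), hconj _ (inv_mem hv) _, ?_⟩
        rw [L.X'_neg hm]; group
    intro g hg h1
    obtain ⟨t, v, hv, rfl⟩ := hdec g hg
    have hv' : σ v ∈ StBase.XS S {r | m < r ∧ r < D.nroots} := by
      have : E G S hσ L (M + 1) ≤ (StBase.XS S {r | m < r ∧ r < D.nroots}).comap σ := by
        apply E_le
        intro k hk hkM u
        rw [Subgroup.mem_comap, L.σ_X' hk]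
        refine StBase.X_mem_XS S (A := {r | m < r ∧ r < D.nroots}) ⟨?_, hk⟩ u
        rw [G.ord_mono m hm k hk]; omega
      exact this hv
    have ht : t = 0 := by
      rw [map_mul, L.σ_X' hm] at h1
      have h2 : S.X m t = (σ v)⁻¹ := eq_inv_of_mul_eq_one_left h1
      have h3 := StBase.θ_XS S (fun r hr => hr.2) (inv_mem hv')
      rw [← h2, S.θX m hm] at h3
      refine xg_mem_XS_tail G ?_ h3
      rw [G.isPos_iff]
      exact ⟨(ord_pos_iff G hm).mp (by omega), hm⟩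
    subst ht
    rw [L.X'_zero hm, one_mul] at h1 ⊢
    exact hinj v hv h1
  · intro g hg h1
    push Not at hm
    refine hinj g (E_le G S hσ L (fun k hk hkM t => X'_mem_E G S hσ L hk ?_ t) hg) h1
    have := hm k hk
    omega

include hP in
/-- the commutator relation, descending step -/
theorem R2_step {M : ℤ} (hM : 0 < M)
    (hR : ∀ r < D.nroots, ∀ s < D.nroots, 0 < G.ord r → 0 < G.ord s → s ≠ r → M + 1 ≤ G.ord r + G.ord s →
      R2 G S hσ L r s) (hinj : ∀ g ∈ E G S hσ L M, σ g = 1 → g = 1)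
    {r s : ℕ} (hr : r < D.nroots) (hs : s < D.nroots) (hr0 : 0 < G.ord r) (hs0 : 0 < G.ord s) (hrs : s ≠ r)
    (hsum : G.ord r + G.ord s = M) (hgp : GP S hσ r s) : R2 G S hσ L r s := by
  have hneg : s ≠ D.neg r := ne_neg G hr hr0 hs0
  set W : K → K → Γ := fun t u => WX (L.X') (D.commWord K r s t u) with hW
  have hWE : ∀ t u, W t u ∈ E G S hσ L M := by
    intro t u
    apply WX_mem_E
    intro p hp
    have hp' := commWord_root G hr hs hrs hneg hp
    have := ord_root G hp'.1 hr hs hr0 hs0 hp'.2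
    exact ⟨hp'.1, by omega⟩
  have hσW : ∀ t u, σ (W t u) = WX S.X (D.commWord K r s t u) := fun t u =>
    σ_WX G S hσ L fun p hp => (commWord_root G hr hs hrs hneg hp).1
  -- the deviation
  set f : K → K → Γ := fun t u => cm (L.X' s u) (L.X' r t) * (W t u)⁻¹ with hf
  have hfW : ∀ t u, cm (L.X' s u) (L.X' r t) = f t u * W t u := fun t u => by
    change _ = _ * _ * _; group
  have hσf : ∀ t u, σ (f t u) = 1 := by
    intro t u
    change σ (cm _ _ * _⁻¹) = 1
    rw [map_mul, map_inv, map_cm, L.σ_X' hr, L.σ_X' hs, hσW, mul_inv_eq_one]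
    unfold cm
    have := S.comm r hr s hs hrs hneg t u
    calc (S.X s u)⁻¹ * (S.X r t)⁻¹ * S.X s u * S.X r t = (S.X s u)⁻¹ * (S.X r t)⁻¹ * (S.X s u * S.X r t) := by group
      _ = _ := by rw [this]; group
  have hfc : ∀ t u, f t u ∈ Subgroup.center Γ := fun t u => hσ.central (MonoidHom.mem_ker.mpr (hσf t u))
  have hfx : ∀ t u x, x * f t u = f t u * x := fun t u x => Subgroup.mem_center_iff.mp (hfc t u) x
  -- it is enough to show that the deviation vanishes
  suffices hone : ∀ t u, f t u = 1 by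
    intro t u
    have h1 := hfW t u
    rw [hone, one_mul] at h1
    have h2 := mul_eq (L.X' s u) (L.X' r t)
    rw [h1] at h2
    exact h2
  have hcE_r : ∀ x ∈ E G S hσ L M, ∀ t, (L.X' r t)⁻¹ * x * L.X' r t ∈ E G S hσ L M := by
    intro x hx t
    exact conj_E G S hσ L hr hr0 hM (fun k hk hkM hkr => hR r hr k hk hr0 (by omega) hkr (by omega)) hx t
  have hcE_s : ∀ x ∈ E G S hσ L M, ∀ t, (L.X' s t)⁻¹ * x * L.X' s t ∈ E G S hσ L M := by
    intro x hx t
    exact conj_E G S hσ L hs hs0 hM (fun k hk hkM hks => hR s hs k hk hs0 (by omega) hks (by omega)) hx t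
  -- additivity
  have hadd_t : ∀ t t' u, f (t + t') u = f t u * f t' u := by
    intro t t' u
    have h1 : f (t + t') u * W (t + t') u = f t' u * W t' u * ((L.X' r t')⁻¹ * (f t u * W t u) * L.X' r t') := by
      rw [← hfW, ← hfW, ← hfW, ← L.X'_add hr, cm_mul_right]
    have h2 : f t' u * W t' u * ((L.X' r t')⁻¹ * (f t u * W t u) * L.X' r t') =
        f t u * f t' u * (W t' u * ((L.X' r t')⁻¹ * W t u * L.X' r t')) := by
      have e1 : (L.X' r t')⁻¹ * (f t u * W t u) * L.X' r t' =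
          f t u * ((L.X' r t')⁻¹ * W t u * L.X' r t') := by
        calc _ = ((L.X' r t')⁻¹ * f t u) * W t u * L.X' r t' := by group
          _ = (f t u * (L.X' r t')⁻¹) * W t u * L.X' r t' := by rw [hfx]
          _ = _ := by group
      rw [e1]
      calc _ = f t' u * (W t' u * f t u) * ((L.X' r t')⁻¹ * W t u * L.X' r t') := by group
        _ = f t' u * (f t u * W t' u) * ((L.X' r t')⁻¹ * W t u * L.X' r t') := by rw [hfx t u (W t' u)]
        _ = (f t' u * f t u) * (W t' u * ((L.X' r t')⁻¹ * W t u * L.X' r t')) := by group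
        _ = _ := by rw [hfx t u (f t' u)]
    rw [h2] at h1
    have h3 : (f t u * f t' u)⁻¹ * f (t + t') u =
        W t' u * ((L.X' r t')⁻¹ * W t u * L.X' r t') * (W (t + t') u)⁻¹ := by
      have := congrArg (fun x => (f t u * f t' u)⁻¹ * x * (W (t + t') u)⁻¹) h1
      simpa [mul_assoc] using this
    have h4 : (f t u * f t' u)⁻¹ * f (t + t') u = 1 := by
      apply hinj
      · rw [h3]
        exact mul_mem (mul_mem (hWE _ _) (hcE_r _ (hWE _ _) _)) (inv_mem (hWE _ _))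
      · rw [map_mul, map_inv, map_mul, hσf, hσf, hσf]; simp
    exact (inv_mul_eq_one.mp h4).symm
  have hadd_u : ∀ t u u', f t (u + u') = f t u * f t u' := by
    intro t u u'
    have h1 : f t (u + u') * W t (u + u') = ((L.X' s u')⁻¹ * (f t u * W t u) * L.X' s u') * (f t u' * W t u') := by
      rw [← hfW, ← hfW, ← hfW, ← L.X'_add hs, cm_mul_left]
    have h2 : ((L.X' s u')⁻¹ * (f t u * W t u) * L.X' s u') * (f t u' * W t u') =
        f t u * f t u' * (((L.X' s u')⁻¹ * W t u * L.X' s u') * W t u') := by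
      have e1 : (L.X' s u')⁻¹ * (f t u * W t u) * L.X' s u' =
          f t u * ((L.X' s u')⁻¹ * W t u * L.X' s u') := by
        calc _ = ((L.X' s u')⁻¹ * f t u) * W t u * L.X' s u' := by group
          _ = (f t u * (L.X' s u')⁻¹) * W t u * L.X' s u' := by rw [hfx]
          _ = _ := by group
      rw [e1]
      calc _ = f t u * (((L.X' s u')⁻¹ * W t u * L.X' s u') * f t u') * W t u' := by group
        _ = f t u * (f t u' * ((L.X' s u')⁻¹ * W t u * L.X' s u')) * W t u' := by rw [hfx t u']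
        _ = _ := by group
    rw [h2] at h1
    have h3 : (f t u * f t u')⁻¹ * f t (u + u') =
        ((L.X' s u')⁻¹ * W t u * L.X' s u') * W t u' * (W t (u + u'))⁻¹ := by
      have := congrArg (fun x => (f t u * f t u')⁻¹ * x * (W t (u + u'))⁻¹) h1
      simpa [mul_assoc] using this
    have h4 : (f t u * f t u')⁻¹ * f t (u + u') = 1 := by
      apply hinj
      · rw [h3]
        exact mul_mem (mul_mem (hcE_s _ (hWE _ _) _) (hWE _ _)) (inv_mem (hWE _ _))
      · rw [map_mul, map_inv, map_mul, hσf, hσf, hσf]; simp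
    exact (inv_mul_eq_one.mp h4).symm
  -- torus invariance
  have htor : ∀ h ∈ Hb S, ∀ c d : K, Act S h r c → Act S h s d → ∀ t u, f (c * t) (d * u) = f t u := by
    intro h hh c d hc hd t u
    obtain ⟨b, hb⟩ := hσ.surj h
    have h1 : b * cm (L.X' s u) (L.X' r t) * b⁻¹ = cm (L.X' s (d * u)) (L.X' r (c * t)) := by
      rw [← L.X'_torus hP hr hh hc t hb, ← L.X'_torus hP hs hh hd u hb]
      unfold cm; group
    rw [hfW, hfW] at h1
    have h2 : b * (f t u * W t u) * b⁻¹ = f t u * (b * W t u * b⁻¹) := by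
      calc _ = (b * f t u) * W t u * b⁻¹ := by group
        _ = (f t u * b) * W t u * b⁻¹ := by rw [hfx]
        _ = _ := by group
    rw [h2] at h1
    have h3 : (f t u)⁻¹ * f (c * t) (d * u) = (b * W t u * b⁻¹) * (W (c * t) (d * u))⁻¹ := by
      have := congrArg (fun x => (f t u)⁻¹ * x * (W (c * t) (d * u))⁻¹) h1.symm
      simpa [mul_assoc] using this
    have hbE : ∀ x ∈ E G S hσ L M, b * x * b⁻¹ ∈ E G S hσ L M := by
      intro x hx
      have h5 : E G S hσ L M ≤ (E G S hσ L M).comap (MulAut.conj b).toMonoidHom := by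
        apply E_le
        intro k hk hkM v
        obtain ⟨χ, -, hχ⟩ := Hb_conj G S hP hh hk
        rw [Subgroup.mem_comap]
        change b * L.X' k v * b⁻¹ ∈ _
        rw [L.X'_torus hP hk hh hχ v hb]
        exact X'_mem_E G S hσ L hk hkM _
      exact h5 hx
    have h4 : (f t u)⁻¹ * f (c * t) (d * u) = 1 := by
      apply hinj
      · rw [h3]
        exact mul_mem (hbE _ (hWE _ _)) (inv_mem (hWE _ _))
      · rw [map_mul, map_inv, hσf, hσf]; simp
    exact (inv_mul_eq_one.mp h4).symm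
  rcases hgp with ⟨h, hh, c, hc1, h1, h2⟩ | ⟨h, hh, c, hc1, h1, h2⟩ | h2
  · intro t u
    have e := htor h hh c 1 h1 h2 ((c - 1)⁻¹ * t) u
    rw [one_mul] at e
    have e2 : c * ((c - 1)⁻¹ * t) = (c - 1) * ((c - 1)⁻¹ * t) + (c - 1)⁻¹ * t := by ring
    rw [e2, hadd_t, mul_inv_cancel_left₀ (sub_ne_zero.mpr hc1)] at e
    exact mul_eq_right.mp e
  · intro t u
    have e := htor h hh 1 c h2 h1 t ((c - 1)⁻¹ * u)
    rw [one_mul] at e
    have e2 : c * ((c - 1)⁻¹ * u) = (c - 1) * ((c - 1)⁻¹ * u) + (c - 1)⁻¹ * u := by ring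
    rw [e2, hadd_u, mul_inv_cancel_left₀ (sub_ne_zero.mpr hc1)] at e
    exact mul_eq_right.mp e
  · intro t u
    have e2 := hfW t u
    rw [← cl_eq hσ (L.σ_X' hs u) (L.σ_X' hr t), h2] at e2
    have e : W t u = 1 := by
      apply hinj _ (hWE t u)
      have e3 := congrArg σ e2
      rwa [map_one, map_mul, hσf, one_mul, eq_comm] at e3
    rw [e, mul_one] at e2
    exact e2.symm

include hP in
/-- the commutator relations for the positive roots, and injectivity -/
theorem main_pos (hgp : ∀ r < D.nroots, ∀ s < D.nroots, 0 < G.ord r → 0 < G.ord s → s ≠ r → GP S hσ r s ∨ R2 G S hσ L r s) :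
    (∀ r < D.nroots, ∀ s < D.nroots, 0 < G.ord r → 0 < G.ord s → s ≠ r → R2 G S hσ L r s) ∧
      ∀ g ∈ E G S hσ L 1, σ g = 1 → g = 1 := by
  obtain ⟨B, hB⟩ : ∃ B : ℤ, ∀ r < D.nroots, G.ord r < B := by
    refine ⟨(∑ r ∈ Finset.range D.nroots, |G.ord r|) + 1, fun r hr => ?_⟩
    have h1 : |G.ord r| ≤ ∑ r ∈ Finset.range D.nroots, |G.ord r| :=
      Finset.single_le_sum (f := fun r => |G.ord r|) (fun _ _ => abs_nonneg _) (Finset.mem_range.mpr hr)
    have h2 := le_abs_self (G.ord r)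
    omega
  have key : ∀ n : ℕ, ∀ M : ℤ, 0 < M → 2 * B ≤ M + n →
      (∀ r < D.nroots, ∀ s < D.nroots, 0 < G.ord r → 0 < G.ord s → s ≠ r → M ≤ G.ord r + G.ord s → R2 G S hσ L r s) ∧
      ∀ g ∈ E G S hσ L M, σ g = 1 → g = 1 := by
    intro n
    induction n with
    | zero =>
      intro M hM h
      refine ⟨fun r hr s hs _ _ _ h1 => ?_, fun g hg _ => ?_⟩
      · have := hB r hr
        have := hB s hs
        push_cast at h
        omega
      · have h2 : g ∈ (⊥ : Subgroup Γ) := by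
          refine E_le G S hσ L (fun k hk hkM t => ?_) hg
          have := hB k hk
          push_cast at h
          by_cases hB0 : 0 ≤ B
          · omega
          · omega
        exact Subgroup.mem_bot.mp h2
    | succ n ih =>
      intro M hM h
      obtain ⟨h1, h2⟩ := ih (M + 1) (by omega) (by push_cast at h ⊢; omega)
      have h3 := inj_step G S hσ L hM h1 h2
      refine ⟨fun r hr s hs hr0 hs0 hrs hsum => ?_, h3⟩
      rcases eq_or_lt_of_le hsum with h4 | h4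
      · rcases hgp r hr s hs hr0 hs0 hrs with hg | hg
        · exact R2_step G S hP hσ L hM h1 h3 hr hs hr0 hs0 hrs h4.symm hg
        · exact hg
      · exact h1 r hr s hs hr0 hs0 hrs (by omega)
  obtain ⟨h1, h2⟩ := key (2 * B).toNat 1 one_pos (by omega)
  exact ⟨fun r hr s hs hr0 hs0 hrs => h1 r hr s hs hr0 hs0 hrs (by omega), h2⟩

include hP in
/-- all commutator relations -/
theorem main_R2 (hgp : ∀ r < D.nroots, ∀ s < D.nroots, 0 < G.ord r → 0 < G.ord s → s ≠ r → GP S hσ r s ∨ R2 G S hσ L r s)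
    (hpos : ∀ r < D.nroots, ∀ s < D.nroots, s ≠ D.neg r → ∃ w, Valid D w ∧ r ∈ Pw D w ∧ s ∈ Pw D w)
    {r s : ℕ} (hr : r < D.nroots) (hs : s < D.nroots) (hrs : s ≠ r) (hneg : s ≠ D.neg r) : R2 G S hσ L r s := by
  obtain ⟨-, hinj⟩ := main_pos G S hP hσ L hgp
  obtain ⟨w, hw, ⟨r0, hr0, hrw⟩, ⟨s0, hs0, hsw⟩⟩ := hpos r hr s hs hneg
  have hr0' := (G.isPos_iff r0).mp hr0
  have hs0' := (G.isPos_iff s0).mp hs0
  obtain ⟨b, hb⟩ := hσ.surj (nw S w)
  have hmem : ∀ k < D.nroots, k ∈ Pw D w → ∀ t, b⁻¹ * L.X' k t * b ∈ E G S hσ L 1 := by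
    rintro k hk ⟨k0, hk0, rfl⟩ t
    have hk0' := (G.isPos_iff k0).mp hk0
    obtain ⟨ε, hε, h1, -⟩ := L.nw_conj' hw hk0'.2 hb
    have hε2 : ε * ε = 1 := by rcases hε with h | h <;> rw [h] <;> simp
    have e : b⁻¹ * L.X' (wr D w k0) t * b = L.X' k0 (ε * t) := by
      have := h1 (ε * t)
      rw [← mul_assoc, hε2, one_mul] at this
      rw [← this]; group
    rw [e]
    have := ord_pos G hk0'.2 hk0'.1
    exact X'_mem_E G S hσ L hk0'.2 (by omega) _
  intro t u
  have hterm : ∀ p ∈ D.commWord K r s t u, p.1 < D.nroots ∧ p.1 ∈ Pw D w := by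
    intro p hp
    obtain ⟨h1, i, j, hi, hj, hrv⟩ := commWord_root G hr hs hrs hneg hp
    refine ⟨h1, wr D w.reverse p.1, ?_, (wr_reverse G hw h1).symm⟩
    have h2 := rv_wr_comb G hw.reverse h1 hr hs (a := i) (b := j) (by exact_mod_cast hrv)
    rw [hrw, hsw, wr_reverse' G hw hr0'.2, wr_reverse' G hw hs0'.2] at h2
    have h3 := ord_root G (wr_lt G hw.reverse h1) hr0'.2 hs0'.2 (ord_pos G hr0'.2 hr0'.1)
      (ord_pos G hs0'.2 hs0'.1) ⟨i, j, hi, hj, h2⟩
    have h4 := ord_pos G hr0'.2 hr0'.1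
    have h5 := ord_pos G hs0'.2 hs0'.1
    rw [G.isPos_iff]
    exact ⟨(ord_pos_iff G (wr_lt G hw.reverse h1)).mp (by omega), wr_lt G hw.reverse h1⟩
  have hW : b⁻¹ * WX (L.X') (D.commWord K r s t u) * b ∈ E G S hσ L 1 := by
    have : ∀ l : List (ℕ × K), (∀ p ∈ l, p.1 < D.nroots ∧ p.1 ∈ Pw D w) →
        b⁻¹ * WX (L.X') l * b ∈ E G S hσ L 1 := by
      intro l
      induction l with
      | nil => intro _; rw [WX_nil, mul_one, inv_mul_cancel]; exact one_mem _
      | cons p l ih =>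
        intro h
        rw [WX_cons]
        have e : b⁻¹ * (L.X' p.1 p.2 * WX (L.X') l) * b =
            (b⁻¹ * L.X' p.1 p.2 * b) * (b⁻¹ * WX (L.X') l * b) := by group
        rw [e]
        exact mul_mem (hmem _ (h p List.mem_cons_self).1 (h p List.mem_cons_self).2 _)
          (ih fun q hq => h q (List.mem_cons_of_mem _ hq))
    exact this _ hterm
  set g := (L.X' r t * L.X' s u * WX (L.X') (D.commWord K r s t u))⁻¹ *
    (L.X' s u * L.X' r t) with hg
  have hgE : b⁻¹ * g * b ∈ E G S hσ L 1 := by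
    have e : b⁻¹ * g * b = ((b⁻¹ * L.X' r t * b) * (b⁻¹ * L.X' s u * b) *
        (b⁻¹ * WX (L.X') (D.commWord K r s t u) * b))⁻¹ *
        ((b⁻¹ * L.X' s u * b) * (b⁻¹ * L.X' r t * b)) := by rw [hg]; group
    rw [e]
    have hmr := hmem r hr ⟨r0, hr0, hrw⟩ t
    have hms := hmem s hs ⟨s0, hs0, hsw⟩ u
    exact mul_mem (inv_mem (mul_mem (mul_mem hmr hms) hW)) (mul_mem hms hmr)
  have hσg : σ (b⁻¹ * g * b) = 1 := by
    have : σ g = 1 := by
      rw [hg, map_mul, map_inv, map_mul, map_mul, map_mul, L.σ_X' hr, L.σ_X' hs,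
        σ_WX G S hσ L fun p hp => (hterm p hp).1, S.comm r hr s hs hrs hneg, inv_mul_cancel]
    rw [map_mul, map_mul, this, map_inv]; group
  have h1 := hinj _ hgE hσg
  have h2 : g = 1 := by
    calc g = b * (b⁻¹ * g * b) * b⁻¹ := by group
      _ = 1 := by rw [h1]; group
  rw [hg, inv_mul_eq_one] at h2
  exact h2.symm


/-- the rank one system of a fundamental root -/
noncomputable def rk1Simple {i : ℕ} (hi : i < D.rank) : Rk1 K Γ where
  x := L.X' (D.simple i)
  y := L.X' (D.neg (D.simple i))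
  addx := L.X'_add (G.simple_lt i hi)
  addy := L.X'_add (ChevU.neg_lt G (G.simple_lt i hi))
  wx u t hu := by
    have hp := G.simple_lt i hi
    have hnp := ChevU.neg_lt G hp
    have hb : σ (L.X' (D.simple i) u * L.X' (D.neg (D.simple i)) (-u⁻¹) * L.X' (D.simple i) u) =
        nb S i u := by
      rw [map_mul, map_mul, L.σ_X' hp, L.σ_X' hnp]; rfl
    rw [L.conj i hi u hu _ hp t _ hb, reflect_simple hi, G.η_simple i hi, G.ca_simple i hi]
    congr 1
    rw [zpow_neg]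
    have : u ^ (2 : ℤ) = u * u := by rw [zpow_two]
    rw [this, mul_inv]; push_cast; ring
  wy u t hu := by
    have hp := G.simple_lt i hi
    have hnp := ChevU.neg_lt G hp
    have hb : σ (L.X' (D.simple i) u * L.X' (D.neg (D.simple i)) (-u⁻¹) * L.X' (D.simple i) u) =
        nb S i u := by
      rw [map_mul, map_mul, L.σ_X' hp, L.σ_X' hnp]; rfl
    rw [L.conj i hi u hu _ hnp t _ hb, G.w_neg i hi _ hp, reflect_simple hi, ChevU.neg_neg G hp,
      G.η_neg i hi _ hp, G.η_simple i hi, G.ca_neg i hi _ hp, G.ca_simple i hi]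
    congr 1
    have : u ^ (-(-2) : ℤ) = u * u := by rw [_root_.neg_neg, zpow_two]
    rw [this]; push_cast; ring

include G in
/-- the rank one relations for all roots -/
theorem exists_rk1 {r : ℕ} (hr : r < D.nroots) : ∃ R : Rk1 K Γ, R.x = L.X' r ∧ R.y = L.X' (D.neg r) := by
  obtain ⟨w, hw, i, hi, hwi⟩ := UCETorus.exists_word G hr
  obtain ⟨b, hb⟩ := hσ.surj (nw S w)
  obtain ⟨ε, hε, h1, h2⟩ := L.nw_conj' hw (G.simple_lt i hi) hb
  rw [hwi] at h1 h2
  have hε2 : ε * ε = 1 := by rcases hε with h | h <;> rw [h] <;> simp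
  have hεi : ε⁻¹ = ε := inv_eq_of_mul_eq_one_right hε2
  let R0 := rk1Simple G S hσ L hi
  have hx : ∀ t, L.X' r t = b * R0.x (ε * t) * b⁻¹ := by
    intro t
    change _ = b * L.X' (D.simple i) (ε * t) * b⁻¹
    rw [h1, ← mul_assoc, hε2, one_mul]
  have hy : ∀ t, L.X' (D.neg r) t = b * R0.y (ε * t) * b⁻¹ := by
    intro t
    change _ = b * L.X' (D.neg (D.simple i)) (ε * t) * b⁻¹
    rw [h2, ← mul_assoc, hε2, one_mul]
  have hw' : ∀ u, L.X' r u * L.X' (D.neg r) (-u⁻¹) * L.X' r u =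
      b * (R0.x (ε * u) * R0.y (-(ε * u)⁻¹) * R0.x (ε * u)) * b⁻¹ := by
    intro u
    rw [hx, hy]
    have : ε * -u⁻¹ = -(ε * u)⁻¹ := by rw [mul_inv, hεi]; ring
    rw [this]; group
  have hε0 : ε ≠ 0 := by rcases hε with h | h <;> rw [h] <;> simp
  refine ⟨⟨L.X' r, L.X' (D.neg r), L.X'_add hr, L.X'_add (ChevU.neg_lt G hr), ?_, ?_⟩, rfl, rfl⟩
  · intro u t hu
    rw [hw', hx t]
    have e : b * (R0.x (ε * u) * R0.y (-(ε * u)⁻¹) * R0.x (ε * u)) * b⁻¹ * (b * R0.x (ε * t) * b⁻¹) *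
        (b * (R0.x (ε * u) * R0.y (-(ε * u)⁻¹) * R0.x (ε * u)) * b⁻¹)⁻¹ =
        b * ((R0.x (ε * u) * R0.y (-(ε * u)⁻¹) * R0.x (ε * u)) * R0.x (ε * t) *
          (R0.x (ε * u) * R0.y (-(ε * u)⁻¹) * R0.x (ε * u))⁻¹) * b⁻¹ := by group
    rw [e, R0.wx _ _ (mul_ne_zero hε0 hu), hy]
    congr 3
    rw [mul_inv, hεi]
    linear_combination (-(u⁻¹ * u⁻¹ * ε * t)) * hε2
  · intro u t hu
    rw [hw', hy t]
    have e : b * (R0.x (ε * u) * R0.y (-(ε * u)⁻¹) * R0.x (ε * u)) * b⁻¹ * (b * R0.y (ε * t) * b⁻¹) *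
        (b * (R0.x (ε * u) * R0.y (-(ε * u)⁻¹) * R0.x (ε * u)) * b⁻¹)⁻¹ =
        b * ((R0.x (ε * u) * R0.y (-(ε * u)⁻¹) * R0.x (ε * u)) * R0.y (ε * t) *
          (R0.x (ε * u) * R0.y (-(ε * u)⁻¹) * R0.x (ε * u))⁻¹) * b⁻¹ := by group
    rw [e, R0.wy _ _ (mul_ne_zero hε0 hu), hx]
    congr 3
    linear_combination (-(u * u * ε * t)) * hε2

include G hP in
/-- **the lifting theorem**, for equivariant lifts -/
theorem lift_of_LD [Finite K] (L : LD G S hσ)
    (hgp : ∀ r < D.nroots, ∀ s < D.nroots, 0 < G.ord r → 0 < G.ord s → s ≠ r → GP S hσ r s ∨ R2 G S hσ L r s)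
    (hpos : ∀ r < D.nroots, ∀ s < D.nroots, s ≠ D.neg r → ∃ w, Valid D w ∧ r ∈ Pw D w ∧ s ∈ Pw D w)
    (h3 : UCELift.R3 (ofSt S)) :
    ∃ R' : RSys D K Γ, UCELift.R3 R' ∧ ∀ r < D.nroots, ∀ t, σ (R'.x r t) = S.X r t := by
  let R' : RSys D K Γ :=
    { x := L.X'
      add := fun r hr => L.X'_add hr
      rel := fun r hr s hs h1 h2 t u => by
        have := main_R2 G S hP hσ L hgp hpos hr hs h1 h2 t u
        unfold cm
        change _ = WX (L.X') (D.commWord K r s t u)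
        calc (L.X' s u)⁻¹ * (L.X' r t)⁻¹ * L.X' s u * L.X' r t =
            (L.X' s u)⁻¹ * (L.X' r t)⁻¹ * (L.X' s u * L.X' r t) := by group
          _ = _ := by rw [this]; group }
  have hR' : ∀ r < D.nroots, ∀ t, σ (R'.x r t) = S.X r t := fun r hr t => L.σ_X' hr t
  refine ⟨R', ?_, hR'⟩
  intro r hr t u ht hu
  obtain ⟨R, hRx, hRy⟩ := exists_rk1 G S hσ L hr
  have hh' : ∀ t, hh R' r t = R.h t := by
    intro t
    unfold hh nn Rk1.h Rk1.w
    rw [hRx, hRy]
  have hmap : ∀ t, σ (R.h t) = hh (ofSt S) r t := by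
    intro t
    rw [← hh']
    unfold hh nn
    simp only [map_mul, hR' r hr, hR' _ (ChevU.neg_lt G hr)]
    rfl
  rw [hh', hh', hh']
  refine R.h_mul ?_ ht hu
  -- the image is cyclic
  obtain ⟨g, hg⟩ := IsCyclic.exists_generator (α := Kˣ)
  have hpow : ∀ n : ℕ, hh (ofSt S) r ((g ^ n : Kˣ) : K) = hh (ofSt S) r (g : K) ^ n := by
    intro n
    induction n with
    | zero =>
      rw [pow_zero, pow_zero, Units.val_one]
      have := h3 r hr 1 1 one_ne_zero one_ne_zero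
      rw [mul_one] at this
      exact mul_eq_left.mp this
    | succ n ih => rw [pow_succ, pow_succ, Units.val_mul, ← h3 r hr _ _ (Units.ne_zero _) (Units.ne_zero _), ih]
  have hex : ∀ u : K, u ≠ 0 → ∃ n : ℕ, u = ((g ^ n : Kˣ) : K) := by
    intro u hu
    have h1 := hg (Units.mk0 u hu)
    rw [← mem_powers_iff_mem_zpowers, Submonoid.mem_powers_iff] at h1
    obtain ⟨n, hn⟩ := h1
    exact ⟨n, by rw [hn]; rfl⟩
  intro u v hu hv
  obtain ⟨m, hm⟩ := hex u hu
  obtain ⟨n, hn⟩ := hex v hv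
  set a := R.h (g : K) with ha
  have h1 : σ (R.h u) = σ (a ^ m) := by rw [hmap, map_pow, hmap, hm, hpow]
  have h2 : σ (R.h v) = σ (a ^ n) := by rw [hmap, map_pow, hmap, hn, hpow]
  obtain ⟨z, hz, e1⟩ := exists_central hσ h1
  obtain ⟨z', hz', e2⟩ := exists_central hσ h2
  rw [e1, e2]
  have hz1 := Subgroup.mem_center_iff.mp hz
  have hz2 := Subgroup.mem_center_iff.mp hz'
  calc a ^ m * z * (a ^ n * z') = a ^ m * (z * (a ^ n * z')) := by group
    _ = a ^ m * ((a ^ n * z') * z) := by rw [← hz1]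
    _ = (a ^ m * a ^ n) * (z' * z) := by group
    _ = (a ^ n * a ^ m) * (z' * z) := by rw [← pow_add, ← pow_add, add_comm]
    _ = a ^ n * (a ^ m * z' * z) := by group
    _ = a ^ n * (z' * a ^ m * z) := by rw [hz2]
    _ = _ := by group


end Cfsg.Agent.Lib.UCELD
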