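import Cfsg.Agent.Lib.UCER3
import Cfsg.Agent.Lib.ChevPerf
import Cfsg.Agent.Lib.ChevLong

set_option autoImplicit false
set_option linter.unusedSectionVars false
set_option linter.unusedVariables false
set_option linter.style.haveILetI false

/-!
Projective representations in natural characteristic.
-/

namespace Cfsg.Agent.Lib.UCENat
open Cfsg Cfsg.Lie Cfsg.Agent.Lib.ChevX Cfsg.Agent.Lib.ChevGood Cfsg.Agent.Lib.ChevRel
open Cfsg.Agent.Lib.ChevU Cfsg.Agent.Lib.ChevH Cfsg.Agent.Lib.ChevN Cfsg.Agent.Lib.ChevBN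
open Cfsg.Agent.Lib.StBase Cfsg.Agent.Lib.StKer Cfsg.Agent.Lib.StPres Cfsg.Agent.Lib.UCEBase
open Cfsg.Agent.Lib.UCESys Cfsg.Agent.Lib.UCELift Cfsg.Agent.Lib.UCEFinal Cfsg.Agent.Lib.UCETorus
open Cfsg.Agent.Lib.UCEMain2 Cfsg.Agent.Lib.UCEB2 Cfsg.Agent.Lib.UCEInf Cfsg.Agent.Lib.UCER3
open scoped MatrixGroups Matrix

universe u v w

section plift
variable {Γ Q : Type*} [Group Γ] [Group Q] {σ : Γ →* Q} {p : ℕ} [hp : Fact p.Prime]

theorem tors (hZ : ∀ z ∈ σ.ker, z ^ p = 1 → z = 1) (n : ℕ) : ∀ z ∈ σ.ker, z ^ p ^ n = 1 → z = 1 := by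
  induction n with
  | zero => intro z _ h; simpa using h
  | succ n ih =>
    intro z hz h
    refine hZ z hz (ih _ (pow_mem hz p) ?_)
    rw [← pow_mul, ← pow_succ']; exact h

/-- uniqueness of `p`-lifts -/
theorem uniq (hσ : CE σ) (hZ : ∀ z ∈ σ.ker, z ^ p = 1 → z = 1) {y y' : Γ} (h : σ y = σ y') {m n : ℕ}
    (hy : y ^ p ^ m = 1) (hy' : y' ^ p ^ n = 1) : y = y' := by
  have hz : y'⁻¹ * y ∈ σ.ker := by rw [MonoidHom.mem_ker, map_mul, map_inv, h, inv_mul_cancel]
  have hzc := hσ.central hz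
  have e : y = y' * (y'⁻¹ * y) := by group
  have h1 : y ^ p ^ (m + n) = 1 := by rw [pow_add, pow_mul, hy, one_pow]
  have h2 : y' ^ p ^ (m + n) = 1 := by rw [pow_add, mul_comm, pow_mul, hy', one_pow]
  have hc : Commute y' (y'⁻¹ * y) := Subgroup.mem_center_iff.mp hzc y'
  rw [e, hc.mul_pow, h2, one_mul] at h1
  have := tors hZ _ _ hz h1
  rw [e, this, mul_one]

theorem exists_T [Finite Γ] (hσ : CE σ) {P : Subgroup Q} (hP : IsPGroup p P) :
    ∃ T : Subgroup Γ, IsPGroup p T ∧ ∀ g ∈ P, ∃ y ∈ T, σ y = g := by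
  obtain ⟨P', hP'⟩ := hP.exists_le_sylow
  obtain ⟨T, hT⟩ := Sylow.mapSurjective_surjective hσ.surj p P'
  refine ⟨T, T.2, fun g hg => ?_⟩
  have h1 : g ∈ (P' : Subgroup Q) := hP' hg
  rw [← hT] at h1
  exact h1

theorem pow_of_mem {T : Subgroup Γ} (hT : IsPGroup p T) {y : Γ} (hy : y ∈ T) : ∃ n, y ^ p ^ n = 1 := by
  obtain ⟨n, hn⟩ := hT ⟨y, hy⟩
  exact ⟨n, congrArg Subtype.val hn⟩

end plift

section lift
variable {D : ChevalleyDatum} {K : Type u} [Field K] [Finite K] {Q Γ : Type*} [Group Q] [Group Γ]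
  (p : ℕ) [hp : Fact p.Prime] [CharP K p]

/-- the lifting theorem for extensions without `p`-torsion -/
theorem lift_nat (G : Good D) (hP : ∀ i < D.rank, StBase.PairOK D i)
    (hpos : ∀ r < D.nroots, ∀ s < D.nroots, s ≠ D.neg r → ∃ w, Valid D w ∧ r ∈ Pw D w ∧ s ∈ Pw D w)
    (S : StG D K Q) (hinj : Function.Injective S.θ) [Finite Γ] {σ : Γ →* Q} (hσ : CE σ)
    (hZ : ∀ z ∈ σ.ker, z ^ p = 1 → z = 1) :
    ∃ R' : RSys D K Γ, ∀ r < D.nroots, ∀ t, σ (R'.x r t) = S.X r t := by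
  classical
  haveI : Fintype K := Fintype.ofFinite K
  have hU : IsPGroup p (Ub S) := by
    intro u
    obtain ⟨k, hk⟩ := Cfsg.Agent.Lib.ChevLong.posUnipotent_isPGroup (F := K) G p ⟨_, θ_Ub G S u.2⟩
    refine ⟨k, Subtype.ext (hinj ?_)⟩
    have := congrArg Subtype.val hk
    change S.θ ((u : Q) ^ p ^ k) = S.θ 1
    rw [map_pow, map_one]
    exact this
  -- the lifted Sylow subgroups
  have hT : ∀ w, Valid D w → ∃ T : Subgroup Γ, IsPGroup p T ∧ ∀ k ∈ Pw D w, ∀ t, ∃ y ∈ T, σ y = S.X k t := by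
    intro w hw
    have hA : IsPGroup p ((Ub S).map (MulAut.conj (nw S w)).toMonoidHom) := hU.map _
    obtain ⟨T, hT, h⟩ := exists_T (σ := σ) hσ hA
    refine ⟨T, hT, ?_⟩
    rintro k ⟨k0, hk0, rfl⟩ t
    apply h
    have hk0' := (G.isPos_iff k0).mp hk0
    obtain ⟨ε, hε, h1, -⟩ := nw_conj G S hP hw hk0'.2
    have hε2 : ε * ε = 1 := by rcases hε with h | h <;> rw [h] <;> simp
    refine ⟨S.X k0 (ε * t), StBase.X_mem_XS S (show k0 ∈ {r | D.IsPosRoot r} from hk0) _, ?_⟩
    change nw S w * S.X k0 (ε * t) * (nw S w)⁻¹ = _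
    rw [h1, ← mul_assoc, hε2, one_mul]
  have hne : ∀ r < D.nroots, r ≠ D.neg r := by
    intro r hr h
    have h1 := G.neg_eq r hr
    have h2 := G.nroots_even
    omega
  have hex : ∀ r < D.nroots, ∀ t, ∃ y : Γ, σ y = S.X r t ∧ ∃ n, y ^ p ^ n = 1 := by
    intro r hr t
    obtain ⟨w, hw, hrw, -⟩ := hpos r hr r hr (hne r hr)
    obtain ⟨T, hT, h⟩ := hT w hw
    obtain ⟨y, hy, hy'⟩ := h r hrw t
    exact ⟨y, hy', pow_of_mem hT hy⟩
  let x' : ℕ → K → Γ := fun r t => if h : r < D.nroots then (hex r h t).choose else 1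
  have hx : ∀ r < D.nroots, ∀ t, σ (x' r t) = S.X r t ∧ ∃ n, (x' r t) ^ p ^ n = 1 := by
    intro r hr t
    have : x' r t = (hex r hr t).choose := by simp only [x']; rw [dif_pos hr]
    rw [this]
    exact (hex r hr t).choose_spec
  have hxT : ∀ w, Valid D w → ∃ T : Subgroup Γ, IsPGroup p T ∧ ∀ k ∈ Pw D w, k < D.nroots → ∀ t, x' k t ∈ T := by
    intro w hw
    obtain ⟨T, hT, h⟩ := hT w hw
    refine ⟨T, hT, fun k hk hk' t => ?_⟩
    obtain ⟨y, hy, hy'⟩ := h k hk t
    obtain ⟨n, hn⟩ := pow_of_mem hT hy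
    obtain ⟨h1, m, hm⟩ := hx k hk' t
    rw [uniq hσ hZ (h1.trans hy'.symm) hm hn]
    exact hy
  refine ⟨⟨x', ?_, ?_⟩, fun r hr t => (hx r hr t).1⟩
  · intro r hr t u
    obtain ⟨w, hw, hrw, -⟩ := hpos r hr r hr (hne r hr)
    obtain ⟨T, hT, h⟩ := hxT w hw
    obtain ⟨m, hm⟩ := pow_of_mem hT (mul_mem (h r hrw hr t) (h r hrw hr u))
    obtain ⟨n, hn⟩ := pow_of_mem hT (h r hrw hr (t + u))
    refine uniq hσ hZ ?_ hm hn
    rw [map_mul, (hx r hr _).1, (hx r hr _).1, (hx r hr _).1, S.add r hr]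
  · intro r hr s hs hrs hneg t u
    obtain ⟨w, hw, ⟨r0, hr0, hrw⟩, ⟨s0, hs0, hsw⟩⟩ := hpos r hr s hs hneg
    have hr0' := (G.isPos_iff r0).mp hr0
    have hs0' := (G.isPos_iff s0).mp hs0
    have hterm : ∀ q ∈ D.commWord K r s t u, q.1 < D.nroots ∧ q.1 ∈ Pw D w := by
      intro q hq
      obtain ⟨h1, i, j, hi, hj, hrv⟩ := commWord_root G hr hs hrs hneg hq
      refine ⟨h1, wr D w.reverse q.1, ?_, (wr_reverse G hw h1).symm⟩
      have h2 := rv_wr_comb G hw.reverse h1 hr hs (a := i) (b := j) (by exact_mod_cast hrv)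
      rw [hrw, hsw, wr_reverse' G hw hr0'.2, wr_reverse' G hw hs0'.2] at h2
      have h3 := ord_root G (wr_lt G hw.reverse h1) hr0'.2 hs0'.2 (ord_pos G hr0'.2 hr0'.1)
        (ord_pos G hs0'.2 hs0'.1) ⟨i, j, hi, hj, h2⟩
      have h4 := ord_pos G hr0'.2 hr0'.1
      have h5 := ord_pos G hs0'.2 hs0'.1
      rw [G.isPos_iff]
      exact ⟨(ord_pos_iff G (wr_lt G hw.reverse h1)).mp (by omega), wr_lt G hw.reverse h1⟩
    obtain ⟨T, hT, h⟩ := hxT w hw
    have hrT := h r ⟨r0, hr0, hrw⟩ hr t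
    have hsT := h s ⟨s0, hs0, hsw⟩ hs u
    have h1 : cm (x' s u) (x' r t) ∈ T := by
      unfold cm
      exact mul_mem (mul_mem (mul_mem (inv_mem hsT) (inv_mem hrT)) hsT) hrT
    have h2 : ((D.commWord K r s t u).map fun q => x' q.1 q.2).prod ∈ T := by
      apply Subgroup.list_prod_mem
      intro y hy
      rw [List.mem_map] at hy
      obtain ⟨q, hq, rfl⟩ := hy
      exact h q.1 (hterm q hq).2 (hterm q hq).1 q.2
    obtain ⟨m, hm⟩ := pow_of_mem hT h1
    obtain ⟨n, hn⟩ := pow_of_mem hT h2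
    refine uniq hσ hZ ?_ hm hn
    rw [map_cm, (hx s hs u).1, (hx r hr t).1, map_list_prod, List.map_map]
    rw [show cm (S.X s u) (S.X r t) = _ from (ofSt S).rel r hr s hs hrs hneg t u]
    congr 1
    apply List.map_congr_left
    intro q hq
    exact ((hx q.1 (hterm q hq).1 q.2).1).symm

end lift

set_option maxRecDepth 1000000 in
theorem posD4 : (Cfsg.Agent.Lib.ChevDataD4.B0.all fun x => chkPos chevD4 [[], [1]] x) = true := by decide +kernel
set_option maxRecDepth 1000000 in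
theorem posE6 : (Cfsg.Agent.Lib.ChevDataE6.B0.all fun x => chkPos chevE6 [[], [1]] x) = true := by decide +kernel
set_option maxRecDepth 1000000 in
theorem posE7 : (Cfsg.Agent.Lib.ChevDataE7.B0.all fun x => chkPos chevE7 [[], [0]] x) = true := by decide +kernel
set_option maxRecDepth 1000000 in
theorem posE8 : (Cfsg.Agent.Lib.ChevDataE8.B0.all fun x => chkPos chevE8 [[], [7]] x) = true := by decide +kernel

theorem hpos_all {D : ChevalleyDatum} (hD : D ∈ [chevG2, chevB2, chevD4, chevF4, chevE6, chevE7, chevE8]) :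
    ∀ r < D.nroots, ∀ s < D.nroots, s ≠ D.neg r → ∃ w, Valid D w ∧ r ∈ Pw D w ∧ s ∈ Pw D w := by
  simp only [List.mem_cons, List.not_mem_nil, or_false] at hD
  rcases hD with rfl | rfl | rfl | rfl | rfl | rfl | rfl
  · exact hpos_G2
  · exact hpos_B2
  · exact hpos_of_chk Cfsg.Agent.Lib.ChevOkD4.good [[], [1]] (fun x hx => List.all_eq_true.mp posD4 x hx)
  · exact hpos_F4
  · exact hpos_of_chk Cfsg.Agent.Lib.ChevOkE6.good [[], [1]] (fun x hx => List.all_eq_true.mp posE6 x hx)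
  · exact hpos_of_chk Cfsg.Agent.Lib.ChevOkE7.good [[], [0]] (fun x hx => List.all_eq_true.mp posE7 x hx)
  · exact hpos_of_chk Cfsg.Agent.Lib.ChevOkE8.good [[], [7]] (fun x hx => List.all_eq_true.mp posE8 x hx)

/-- the centre of the linear group has no `p`-torsion -/
theorem center_torsion {L : Type*} [Field L] (p : ℕ) [hp : Fact p.Prime] [CharP L p] {n : ℕ}
    {z : GL (Fin n) L} (hz : z ∈ Subgroup.center (GL (Fin n) L)) (h : z ^ p = 1) : z = 1 := by
  rw [Matrix.GeneralLinearGroup.mem_center_iff_val_mem_range_scalar] at hz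
  obtain ⟨a, ha⟩ := hz
  rcases isEmpty_or_nonempty (Fin n) with he | ⟨⟨i⟩⟩
  · apply Units.ext
    exact Subsingleton.elim _ _
  · have h1 : (Matrix.scalar (Fin n)) (a ^ p) = Matrix.scalar (Fin n) 1 := by
      rw [map_pow, ha, map_one]
      have := congrArg Units.val h
      rwa [Units.val_pow_eq_pow_val, Units.val_one] at this
    have h2 : a ^ p = 1 := by
      have h3 := congrFun (congrFun h1 i) i
      simpa using h3
    have h3 : (a - 1) ^ p = 0 := by rw [sub_pow_char, h2, one_pow, sub_self]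
    have h4 : a = 1 := by
      have := pow_eq_zero_iff (hp.out.ne_zero) |>.mp h3
      exact sub_eq_zero.mp this
    apply Units.ext
    rw [← ha, h4, map_one]; rfl

/-- pullback of a central extension to a perfect group -/
theorem pullback {A : Type u} {E : Type v} {G₁ : Type*} [Group A] [Group E] [Group G₁] (hA : commutator A = ⊤)
    (π₁ : E →* G₁) (hπ : Function.Surjective π₁) (hc : π₁.ker ≤ Subgroup.center E) (σ : A →* G₁) :
    ∃ (Γ : Type (max u v)) (_ : Group Γ) (q : Γ →* A) (f : Γ →* E), CE q ∧ commutator Γ = ⊤ ∧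
      (∀ x, σ (q x) = π₁ (f x)) ∧ ∀ x, q x = 1 → f x = 1 → x = 1 := by
  let P : Subgroup (A × E) := (σ.comp (MonoidHom.fst A E)).eqLocus (π₁.comp (MonoidHom.snd A E))
  let p0 : P →* A := (MonoidHom.fst A E).comp P.subtype
  have hp0s : Function.Surjective p0 := by
    intro d
    obtain ⟨e, he⟩ := hπ (σ d)
    exact ⟨⟨(d, e), he.symm⟩, rfl⟩
  have hp0 : p0.ker ≤ Subgroup.center P := by
    rintro ⟨⟨d, e⟩, hde⟩ hx
    have hd : d = 1 := hx
    subst hd
    have he : e ∈ Subgroup.center E := by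
      apply hc
      have : σ 1 = π₁ e := hde
      rw [MonoidHom.mem_ker, ← this, map_one]
    rw [Subgroup.mem_center_iff]
    rintro ⟨⟨d', e'⟩, h'⟩
    apply Subtype.ext
    refine Prod.ext ?_ ?_
    · change d' * 1 = 1 * d'
      rw [mul_one, one_mul]
    · exact Subgroup.mem_center_iff.mp he e'
  obtain ⟨h1, h2⟩ := perfect_commutator hA p0 hp0s hp0
  let p : ↥(commutator P) →* A := p0.comp (commutator P).subtype
  have hps : Function.Surjective p := fun d => by
    obtain ⟨x, hx, hxd⟩ := h1 d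
    exact ⟨⟨x, hx⟩, hxd⟩
  have hpk : p.ker ≤ Subgroup.center ↥(commutator P) := by
    intro x hx
    have hx' : (x : P) ∈ Subgroup.center P := hp0 hx
    rw [Subgroup.mem_center_iff] at hx' ⊢
    intro y
    exact Subtype.ext (hx' y)
  refine ⟨↥(commutator P), inferInstance, p, (MonoidHom.snd A E).comp (P.subtype.comp (commutator P).subtype),
    ⟨hps, hpk⟩, h2, fun x => (x : P).2, fun x h3 h4 => ?_⟩
  exact Subtype.ext (Subtype.ext (Prod.ext h3 h4))

/-- perfect central extensions of finite groups are finite -/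
theorem finite_of_perfect {Γ A : Type*} [Group Γ] [Group A] [Finite A] {q : Γ →* A} (hq : CE q)
    (h : commutator Γ = ⊤) : Finite Γ := by
  haveI : Finite (commutatorSet Γ) := by
    apply Set.Finite.to_subtype
    refine Set.Finite.subset (Set.finite_range fun ab : A × A => cl hq ab.1 ab.2) ?_
    rintro g ⟨a, b, rfl⟩
    refine ⟨(q a⁻¹, q b⁻¹), ?_⟩
    change cl hq (q a⁻¹) (q b⁻¹) = _
    rw [cl_eq hq rfl rfl]
    unfold cm
    rw [commutatorElement_def, inv_inv, inv_inv]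
  have h1 : Finite (commutator Γ) := inferInstance
  rw [h] at h1
  exact Finite.of_surjective (fun x : (⊤ : Subgroup Γ) => (x : Γ)) fun x => ⟨⟨x, Subgroup.mem_top x⟩, rfl⟩

/-- **S2399** -/
theorem main {K : Type u} [Field K] (D : ChevalleyDatum)
    (hD : D ∈ [chevG2, chevB2, chevD4, chevF4, chevE6, chevE7, chevE8])
    (hK : D ∈ [chevB2, chevG2] → ∃ x : K, x ≠ 0 ∧ x ≠ 1)
    (θ : D.SteinbergCover K →* ↥(D.group K))
    (hθ : ∀ (r : ℕ) (t : K), r < D.nroots → ((θ (D.scGen K r t) : GL D.Idx K) : Matrix D.Idx D.Idx K) = D.x K r t)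
    {L : Type v} [Field L] (hL : ringChar L = ringChar K) {n : ℕ}
    (φ : ↥(D.group K) →* GL (Fin n) L ⧸ Subgroup.center (GL (Fin n) L)) :
    ∃! ψ : D.SteinbergCover K →* GL (Fin n) L,
      (QuotientGroup.mk' (Subgroup.center (GL (Fin n) L))).comp ψ = φ.comp θ := by
  have hker : (QuotientGroup.mk' (Subgroup.center (GL (Fin n) L))).ker ≤ Subgroup.center (GL (Fin n) L) := by
    rw [QuotientGroup.ker_mk']
  have hsurj := QuotientGroup.mk'_surjective (Subgroup.center (GL (Fin n) L))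
  rcases finite_or_infinite K with hfin | hinf
  swap
  · obtain ⟨s, hs⟩ := Infinite.exists_subset_card_eq K 5
    exact Cfsg.Agent.Lib.UCEInf.main ⟨s, by rw [hs]; norm_num⟩ D hD _ hsurj hker (φ.comp θ)
  obtain ⟨G⟩ := good_of_mem hD
  have hP := Cfsg.Agent.Lib.StPair.pairOK hD
  obtain ⟨p, hpc⟩ := CharP.exists K
  haveI hpp : Fact p.Prime := ⟨CharP.char_is_prime K p⟩
  haveI hpL : CharP L p := by
    have h1 : ringChar K = p := ringChar.eq K p
    have h2 : CharP L (ringChar L) := ringChar.charP L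
    rwa [hL, h1] at h2
  have hperf : commutator ↥(D.group K) = ⊤ := Cfsg.Agent.Lib.ChevPerf.perfect hD (by
    intro h
    apply hK
    rcases h with h | h <;> rw [h] <;> simp)
  have hθ' : θ = prAB G := by
    refine MonoidHom.eq_of_eqOn_dense (stAB (K := K) G).gen ?_
    rintro g ⟨r, hr, t, rfl⟩
    apply Subtype.ext
    change ((θ (D.scGen K r t) : ↥(D.group K)) : GL D.Idx K) = ((prAB G (D.scGen K r t) : ↥(D.group K)) : GL D.Idx K)
    rw [prAB_gen G]
    apply Units.ext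
    rw [hθ r t hr, coe_xg G]
  refine existsUnique_of_exists_of_unique ?_ ?_
  · obtain ⟨Γ, hΓ, q, f, hq, hperf', hqf, hqf1⟩ := pullback hperf _ hsurj hker φ
    haveI : Finite Γ := finite_of_perfect hq hperf'
    have hZ : ∀ z ∈ q.ker, z ^ p = 1 → z = 1 := by
      intro z hz hzp
      refine hqf1 z hz (center_torsion p (hker ?_) ?_)
      · rw [MonoidHom.mem_ker, ← hqf, MonoidHom.mem_ker.mp hz, map_one]
      · rw [← map_pow, hzp, map_one]
    obtain ⟨R', hR'⟩ := lift_nat p G hP (hpos_all hD) (stdSt (K := K) G) (D.group K).subtype_injective hq hZ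
    obtain ⟨τ, hτ⟩ := exists_homAB G R'
    have hτ' : q.comp τ = θ := by
      rw [hθ']
      refine MonoidHom.eq_of_eqOn_dense (stAB (K := K) G).gen ?_
      rintro g ⟨r, hr, t, rfl⟩
      change q (τ (D.scGen K r t)) = prAB G (D.scGen K r t)
      rw [hτ r hr t, hR' r hr t]
      apply Subtype.ext
      rw [prAB_gen G]
      exact stdSys_coe G K hr t
    refine ⟨f.comp τ, MonoidHom.ext fun a => ?_⟩
    have h1 := hqf (τ a)
    have h2 : q (τ a) = θ a := DFunLike.congr_fun hτ' a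
    rw [h2] at h1
    exact h1.symm
  · intro ψ ψ' h1 h2
    refine MonoidHom.eq_of_eqOn_dense (stAB (K := K) G).gen ?_
    rintro g ⟨r, hr, t, rfl⟩
    set g := (stAB (K := K) G).X r t with hg
    have hgp : g ^ p = 1 := by
      have : ∀ m : ℕ, g ^ m = (stAB (K := K) G).X r (m * t) := by
        intro m
        induction m with
        | zero =>
          rw [pow_zero, Nat.cast_zero, zero_mul]
          have := (stAB (K := K) G).add r hr 0 0
          rw [add_zero] at this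
          exact (mul_eq_left.mp this).symm
        | succ m ih =>
          rw [pow_succ, ih, hg, (stAB (K := K) G).add r hr]
          congr 1
          push_cast; ring
      rw [this p, CharP.cast_eq_zero, zero_mul]
      have := (stAB (K := K) G).add r hr 0 0
      rw [add_zero] at this
      exact mul_eq_left.mp this
    have h3 : QuotientGroup.mk' (Subgroup.center (GL (Fin n) L)) (ψ g) =
        QuotientGroup.mk' (Subgroup.center (GL (Fin n) L)) (ψ' g) := by
      rw [← MonoidHom.comp_apply, ← MonoidHom.comp_apply, h1, h2]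
    have hz : (ψ' g)⁻¹ * ψ g ∈ Subgroup.center (GL (Fin n) L) := hker (by
      rw [MonoidHom.mem_ker, map_mul, map_inv, h3, inv_mul_cancel])
    have hc : Commute (ψ' g) ((ψ' g)⁻¹ * ψ g) := Subgroup.mem_center_iff.mp hz (ψ' g)
    have e : ψ g = ψ' g * ((ψ' g)⁻¹ * ψ g) := by group
    have h4 : (ψ g) ^ p = 1 := by rw [← map_pow, hgp, map_one]
    have h5 : (ψ' g) ^ p = 1 := by rw [← map_pow, hgp, map_one]
    rw [e, hc.mul_pow, h5, one_mul] at h4
    have h6 := center_torsion p hz h4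
    rw [e, h6, mul_one]

end Cfsg.Agent.Lib.UCENat
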