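import Cfsg.Agent.Lib.UCEInf

set_option autoImplicit false
set_option linter.unusedSectionVars false
set_option linter.unusedVariables false

/-!
Over a finite field the relations (R3) follow from (R1), (R2).
-/

namespace Cfsg.Agent.Lib.UCER3
open Cfsg Cfsg.Lie Cfsg.Agent.Lib.ChevX Cfsg.Agent.Lib.ChevGood Cfsg.Agent.Lib.ChevRel
open Cfsg.Agent.Lib.ChevU Cfsg.Agent.Lib.ChevH Cfsg.Agent.Lib.ChevN Cfsg.Agent.Lib.ChevBN
open Cfsg.Agent.Lib.StBase Cfsg.Agent.Lib.StKer Cfsg.Agent.Lib.StPres Cfsg.Agent.Lib.UCEBase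
open Cfsg.Agent.Lib.UCESys Cfsg.Agent.Lib.UCELift Cfsg.Agent.Lib.UCEFinal Cfsg.Agent.Lib.UCETorus
open Cfsg.Agent.Lib.UCEMain2 Cfsg.Agent.Lib.UCEB2 Cfsg.Agent.Lib.UCERank1 Cfsg.Agent.Lib.UCEInf

universe u v w
variable {D : ChevalleyDatum} {K : Type u} [Field K] {Q Γ : Type*} [Group Q] [Group Γ]

section
variable (G : Good D) (S : StG D K Q) (hP : ∀ i < D.rank, StBase.PairOK D i)

/-- the rank one system of a fundamental root -/
noncomputable def rk0 {i : ℕ} (hi : i < D.rank) : Rk1 K Q where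
  x := S.X (D.simple i)
  y := S.X (D.neg (D.simple i))
  addx := S.add _ (G.simple_lt i hi)
  addy := S.add _ (ChevU.neg_lt G (G.simple_lt i hi))
  wx u t hu := by
    have hp := G.simple_lt i hi
    change nb S i u * S.X (D.simple i) t * (nb S i u)⁻¹ = _
    rw [nb_conj G S hi (hP i hi) hp u hu, reflect_simple hi, G.η_simple i hi, G.ca_simple i hi]
    congr 1
    rw [zpow_neg]
    have : u ^ (2 : ℤ) = u * u := by rw [zpow_two]
    rw [this, mul_inv]; push_cast; ring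
  wy u t hu := by
    have hp := G.simple_lt i hi
    have hnp := ChevU.neg_lt G hp
    change nb S i u * S.X (D.neg (D.simple i)) t * (nb S i u)⁻¹ = _
    rw [nb_conj G S hi (hP i hi) hnp u hu, G.w_neg i hi _ hp, reflect_simple hi, ChevU.neg_neg G hp,
      G.η_neg i hi _ hp, G.η_simple i hi, G.ca_neg i hi _ hp, G.ca_simple i hi]
    congr 1
    have : u ^ (-(-2) : ℤ) = u * u := by rw [_root_.neg_neg, zpow_two]
    rw [this]; push_cast; ring

include G hP in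
/-- the rank one relations for all roots -/
theorem exists_rk0 {r : ℕ} (hr : r < D.nroots) : ∃ R : Rk1 K Q, R.x = S.X r ∧ R.y = S.X (D.neg r) := by
  obtain ⟨w, hw, i, hi, hwi⟩ := Cfsg.Agent.Lib.UCETorus.exists_word G hr
  set b := nw S w with hb
  obtain ⟨ε, hε, h1, h2⟩ := nw_conj G S hP hw (G.simple_lt i hi)
  rw [hwi] at h1 h2
  rw [← hb] at h1 h2
  have hε2 : ε * ε = 1 := by rcases hε with h | h <;> rw [h] <;> simp
  have hεi : ε⁻¹ = ε := inv_eq_of_mul_eq_one_right hε2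
  let R0 := rk0 G S hP hi
  have hx : ∀ t, S.X r t = b * R0.x (ε * t) * b⁻¹ := by
    intro t
    change _ = b * S.X (D.simple i) (ε * t) * b⁻¹
    rw [h1, ← mul_assoc, hε2, one_mul]
  have hy : ∀ t, S.X (D.neg r) t = b * R0.y (ε * t) * b⁻¹ := by
    intro t
    change _ = b * S.X (D.neg (D.simple i)) (ε * t) * b⁻¹
    rw [h2, ← mul_assoc, hε2, one_mul]
  have hw' : ∀ u, S.X r u * S.X (D.neg r) (-u⁻¹) * S.X r u =
      b * (R0.x (ε * u) * R0.y (-(ε * u)⁻¹) * R0.x (ε * u)) * b⁻¹ := by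
    intro u
    rw [hx, hy]
    have : ε * -u⁻¹ = -(ε * u)⁻¹ := by rw [mul_inv, hεi]; ring
    rw [this]; group
  have hε0 : ε ≠ 0 := by rcases hε with h | h <;> rw [h] <;> simp
  refine ⟨⟨S.X r, S.X (D.neg r), S.add r hr, S.add _ (ChevU.neg_lt G hr), ?_, ?_⟩, rfl, rfl⟩
  · intro u t hu
    rw [hw', hx t]
    have e : b * (R0.x (ε * u) * R0.y (-(ε * u)⁻¹) * R0.x (ε * u)) * b⁻¹ * (b * R0.x (ε * t) * b⁻¹) *
        (b * (R0.x (ε * u) * R0.y (-(ε * u)⁻¹) * R0.x (ε * u)) * b⁻¹)⁻¹ =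
        b * ((R0.x (ε * u) * R0.y (-(ε * u)⁻¹) * R0.x (ε * u)) * R0.x (ε * t) *
          (R0.x (ε * u) * R0.y (-(ε * u)⁻¹) * R0.x (ε * u))⁻¹) * b⁻¹ := by group
    rw [e, R0.wx _ _ (mul_ne_zero hε0 hu), hy]
    congr 3
    rw [mul_inv, hεi]
    linear_combination (-(u⁻¹ * u⁻¹ * ε * t)) * hε2
  · intro u t hu
    rw [hw', hy t]
    have e : b * (R0.x (ε * u) * R0.y (-(ε * u)⁻¹) * R0.x (ε * u)) * b⁻¹ * (b * R0.y (ε * t) * b⁻¹) *
        (b * (R0.x (ε * u) * R0.y (-(ε * u)⁻¹) * R0.x (ε * u)) * b⁻¹)⁻¹ =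
        b * ((R0.x (ε * u) * R0.y (-(ε * u)⁻¹) * R0.x (ε * u)) * R0.y (ε * t) *
          (R0.x (ε * u) * R0.y (-(ε * u)⁻¹) * R0.x (ε * u))⁻¹) * b⁻¹ := by group
    rw [e, R0.wy _ _ (mul_ne_zero hε0 hu), hx]
    congr 3
    linear_combination (-(u * u * ε * t)) * hε2

include G hP in
/-- (R3) in a central extension of a group with (R3) -/
theorem R3_of_map [Finite K] {Q' : Type*} [Group Q'] (R' : RSys D K Q') (h3 : R3 R') {σ : Q →* Q'} (hσ : CE σ)
    (hmap' : ∀ r < D.nroots, ∀ t, σ (S.X r t) = R'.x r t) : R3 (ofSt S) := by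
  intro r hr t u ht hu
  obtain ⟨R, hRx, hRy⟩ := exists_rk0 G S hP hr
  have hh' : ∀ t, hh (ofSt S) r t = R.h t := by
    intro t
    unfold hh nn Rk1.h Rk1.w
    rw [hRx, hRy]
    rfl
  have hmap : ∀ t, σ (R.h t) = hh R' r t := by
    intro t
    rw [← hh']
    unfold hh nn
    simp only [map_mul]
    change σ (S.X _ _) * σ (S.X _ _) * σ (S.X _ _) * (σ (S.X _ _) * σ (S.X _ _) * σ (S.X _ _)) = _
    rw [hmap' r hr, hmap' _ (ChevU.neg_lt G hr), hmap' r hr, hmap' _ (ChevU.neg_lt G hr)]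
  rw [hh', hh', hh']
  refine R.h_mul ?_ ht hu
  obtain ⟨g, hg⟩ := IsCyclic.exists_generator (α := Kˣ)
  have hpow : ∀ n : ℕ, hh R' r ((g ^ n : Kˣ) : K) = hh R' r (g : K) ^ n := by
    intro n
    induction n with
    | zero =>
      rw [pow_zero, pow_zero, Units.val_one]
      have := h3 r hr 1 1 one_ne_zero one_ne_zero
      rw [mul_one] at this
      exact mul_eq_left.mp this
    | succ n ih => rw [pow_succ, pow_succ, Units.val_mul, ← h3 r hr _ _ (Units.ne_zero _) (Units.ne_zero _), ih]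
  have hex : ∀ u : K, u ≠ 0 → ∃ n : ℕ, u = ((g ^ n : Kˣ) : K) := by
    intro u hu
    have h1 := hg (Units.mk0 u hu)
    rw [← mem_powers_iff_mem_zpowers, Submonoid.mem_powers_iff] at h1
    obtain ⟨n, hn⟩ := h1
    exact ⟨n, by rw [hn]; rfl⟩
  intro u v hu hv
  obtain ⟨m, hm⟩ := hex u hu
  obtain ⟨n, hn⟩ := hex v hv
  set a := R.h (g : K) with ha
  have h1 : σ (R.h u) = σ (a ^ m) := by rw [hmap, map_pow, hmap, hm, hpow]
  have h2 : σ (R.h v) = σ (a ^ n) := by rw [hmap, map_pow, hmap, hn, hpow]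
  obtain ⟨z, hz, e1⟩ := exists_central hσ h1
  obtain ⟨z', hz', e2⟩ := exists_central hσ h2
  rw [e1, e2]
  have hz1 := Subgroup.mem_center_iff.mp hz
  have hz2 := Subgroup.mem_center_iff.mp hz'
  calc a ^ m * z * (a ^ n * z') = a ^ m * (z * (a ^ n * z')) := by group
    _ = a ^ m * ((a ^ n * z') * z) := by rw [← hz1]
    _ = (a ^ m * a ^ n) * (z' * z) := by group
    _ = (a ^ n * a ^ m) * (z' * z) := by rw [← pow_add, ← pow_add, add_comm]
    _ = a ^ n * (a ^ m * z' * z) := by group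
    _ = a ^ n * (z' * a ^ m * z) := by rw [hz2]
    _ = _ := by group

end

/-- the projection is a central extension -/
theorem prAB_CE (hD : D ∈ [chevG2, chevB2, chevD4, chevF4, chevE6, chevE7, chevE8]) (G : Good D) :
    CE (prAB (K := K) G) := by
  refine ⟨surj_of_gen G _ fun r _ t => ⟨D.scGen K r t, prAB_gen G r t⟩, ?_⟩
  intro g hg
  refine (ker_le G (stAB G) (Cfsg.Agent.Lib.StPair.pairOK hD) (g := g) ?_).2
  change ((prAB G g : ↥(D.group K)) : GL D.Idx K) = 1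
  rw [MonoidHom.mem_ker.mp hg]; rfl

theorem stAB_R3 [Finite K] (hD : D ∈ [chevG2, chevB2, chevD4, chevF4, chevE6, chevE7, chevE8]) (G : Good D) :
    R3 (ofSt (stAB (K := K) G)) := by
  refine R3_of_map G (stAB G) (Cfsg.Agent.Lib.StPair.pairOK hD) (ofSt (stdSt G)) (std_R3 G) (prAB_CE hD G) ?_
  intro r hr t
  apply Subtype.ext
  change ((prAB G (D.scGen K r t) : ↥(D.group K)) : GL D.Idx K) = _
  rw [prAB_gen G]
  exact (stdSys_coe G K hr t).symm

/-- **S2397** -/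
theorem main [Finite K] (D : ChevalleyDatum) (hD : D ∈ [chevG2, chevB2, chevD4, chevF4, chevE6, chevE7, chevE8]) :
    ∃ e : D.SteinbergCover K ≃* D.SteinbergGroup K, ∀ (r : ℕ) (t : K), e (D.scGen K r t) = D.stGen K r t := by
  obtain ⟨G⟩ := good_of_mem hD
  obtain ⟨ψ, hψ⟩ := exists_hom G (ofSt (stAB (K := K) G)) (stAB_R3 hD G)
  obtain ⟨φ, hφ⟩ := exists_homAB G (ofSt (StCenter.st (K := K) G))
  have hφ' : ∀ r < D.nroots, ∀ t, φ (D.scGen K r t) = D.stGen K r t := hφ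
  have hψ' : ∀ r < D.nroots, ∀ t, ψ (D.stGen K r t) = D.scGen K r t := hψ
  have h1 : ψ.comp φ = MonoidHom.id _ := by
    refine MonoidHom.eq_of_eqOn_dense (stAB (K := K) G).gen ?_
    rintro g ⟨r, hr, t, rfl⟩
    change ψ (φ (D.scGen K r t)) = D.scGen K r t
    rw [hφ' r hr, hψ' r hr]
  have h2 : φ.comp ψ = MonoidHom.id _ := by
    refine MonoidHom.eq_of_eqOn_dense st_gen ?_
    rintro g ⟨r, hr, t, rfl⟩
    change φ (ψ (D.stGen K r t)) = D.stGen K r t
    rw [hψ' r hr, hφ' r hr]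
  refine ⟨MonoidHom.toMulEquiv φ ψ h1 h2, fun r t => ?_⟩
  change φ (D.scGen K r t) = D.stGen K r t
  by_cases hr : r < D.nroots
  · exact hφ' r hr t
  · unfold ChevalleyDatum.scGen ChevalleyDatum.stGen ChevalleyDatum.stX
    rw [dif_neg hr, map_one, map_one, map_one]

end Cfsg.Agent.Lib.UCER3
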