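import Cfsg.Agent.Lib.UCELD

set_option autoImplicit false
set_option linter.unusedSectionVars false

/-!
Canonical lifts of the root elements for a set of roots.
-/

namespace Cfsg.Agent.Lib.UCETDP
open Cfsg.Lie Cfsg.Agent.Lib.ChevX Cfsg.Agent.Lib.ChevGood Cfsg.Agent.Lib.ChevRel
open Cfsg.Agent.Lib.ChevU Cfsg.Agent.Lib.ChevH Cfsg.Agent.Lib.ChevN Cfsg.Agent.Lib.ChevBN
open Cfsg.Agent.Lib.StBase Cfsg.Agent.Lib.StKer Cfsg.Agent.Lib.UCEBase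
open Cfsg.Agent.Lib.UCETorus (Act Kill cm_act cl_zero)

variable {D : ChevalleyDatum} {K : Type*} [Field K] {Q Γ : Type*} [Group Q] [Group Γ]

/-- the hypotheses for the canonical lifts -/
structure TDP (P : ℕ → Prop) (S : StG D K Q) {σ : Γ →* Q} (hσ : CE σ) : Prop where
  comm : ∀ h ∈ Hb S, ∀ h' ∈ Hb S, h * h' = h' * h
  tor : ∀ r, (r < D.nroots ∧ P r) → ∃ h ∈ Hb S, ∃ c : K, c ≠ 1 ∧ Act S h r c
  self : ∀ r, (r < D.nroots ∧ P r) → ∀ t u : K, cl hσ (S.X r t) (S.X r u) = 1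

section canon

variable (G : Good D) (S : StG D K Q) (hP : ∀ i < D.rank, PairOK D i) {σ : Γ →* Q} (hσ : CE σ) {P : ℕ → Prop} (T : TDP P S hσ)

open Classical in
/-- the canonical lift of `x_r(t)` -/
noncomputable def X' (r : ℕ) (t : K) : Γ :=
  if hr : r < D.nroots ∧ P r then
    cl hσ (T.tor r hr).choose⁻¹ (S.X r ((1 - (T.tor r hr).choose_spec.2.choose)⁻¹ * t)) else 1

include T in
theorem add_cl {h : Q} {r : ℕ} (hr : r < D.nroots ∧ P r) {c : K} (hc : Act S h r c) (t u : K) :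
    cl hσ h⁻¹ (S.X r (t + u)) = cl hσ h⁻¹ (S.X r t) * cl hσ h⁻¹ (S.X r u) := by
  rw [add_comm t u, ← S.add r hr.1]
  apply cl_mul_right
  rw [cm_act S hr.1 hc]
  exact T.self r hr _ _

include T in
theorem neg_cl {h : Q} {r : ℕ} (hr : r < D.nroots ∧ P r) {c : K} (hc : Act S h r c) (t : K) :
    cl hσ h⁻¹ (S.X r (-t)) = (cl hσ h⁻¹ (S.X r t))⁻¹ := by
  have := add_cl S hσ T hr hc (-t) t
  rw [neg_add_cancel, cl_zero S hσ hr.1] at this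
  exact eq_inv_of_mul_eq_one_left this.symm

include T in
/-- equivariance -/
theorem conj_cl {h g : Q} (hh : h ∈ Hb S) (hg : g ∈ Hb S) {r : ℕ} {d : K} (hd : Act S g r d) (t : K)
    {c : Γ} (hc : σ c = g) : c * cl hσ h⁻¹ (S.X r t) * c⁻¹ = cl hσ h⁻¹ (S.X r (d * t)) := by
  rw [← cl_conj hσ g _ _ hc, hd]
  congr 1
  have := T.comm g hg h hh
  calc g * h⁻¹ * g⁻¹ = (g * h * g⁻¹)⁻¹ := by group
    _ = (h * g * g⁻¹)⁻¹ := by rw [this]
    _ = h⁻¹ := by group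

include T in
/-- independence of the torus element -/
theorem cl_indep {h g : Q} (hh : h ∈ Hb S) (hg : g ∈ Hb S) {r : ℕ} (hr : r < D.nroots ∧ P r) {c d : K}
    (hc : Act S h r c) (hd : Act S g r d) (hc1 : c ≠ 1) (hd1 : d ≠ 1) (t : K) :
    cl hσ h⁻¹ (S.X r ((1 - c)⁻¹ * t)) = cl hσ g⁻¹ (S.X r ((1 - d)⁻¹ * t)) := by
  have hc' : 1 - c ≠ 0 := sub_ne_zero.mpr (Ne.symm hc1)
  have hd' : 1 - d ≠ 0 := sub_ne_zero.mpr (Ne.symm hd1)
  let z : K → Γ := fun t => cl hσ h⁻¹ (S.X r ((1 - c)⁻¹ * t)) * (cl hσ g⁻¹ (S.X r ((1 - d)⁻¹ * t)))⁻¹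
  have hz : ∀ t, z t ∈ Subgroup.center Γ := by
    intro t
    apply hσ.central
    rw [MonoidHom.mem_ker]
    change σ (cl hσ _ _ * (cl hσ _ _)⁻¹) = 1
    rw [map_mul, map_inv, map_cl, map_cl, cm_act S hr.1 hc, cm_act S hr.1 hd, mul_inv_cancel_left₀ hc',
      mul_inv_cancel_left₀ hd', mul_inv_cancel]
  have hzc : ∀ t x, x * z t = z t * x := fun t x => Subgroup.mem_center_iff.mp (hz t) x
  have e0 : ∀ t, cl hσ h⁻¹ (S.X r ((1 - c)⁻¹ * t)) = z t * cl hσ g⁻¹ (S.X r ((1 - d)⁻¹ * t)) := by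
    intro t; change _ = _ * _ * _; group
  have hadd : ∀ t u, z (t + u) = z t * z u := by
    intro t u
    have h1 := e0 (t + u)
    rw [mul_add, mul_add, add_cl S hσ T hr hc, add_cl S hσ T hr hd, e0 t, e0 u] at h1
    have h2 : z t * cl hσ g⁻¹ (S.X r ((1 - d)⁻¹ * t)) * (z u * cl hσ g⁻¹ (S.X r ((1 - d)⁻¹ * u))) =
        z t * z u * (cl hσ g⁻¹ (S.X r ((1 - d)⁻¹ * t)) * cl hσ g⁻¹ (S.X r ((1 - d)⁻¹ * u))) := by
      calc _ = z t * (cl hσ g⁻¹ (S.X r ((1 - d)⁻¹ * t)) * z u) * cl hσ g⁻¹ (S.X r ((1 - d)⁻¹ * u)) := by group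
        _ = z t * (z u * cl hσ g⁻¹ (S.X r ((1 - d)⁻¹ * t))) * cl hσ g⁻¹ (S.X r ((1 - d)⁻¹ * u)) := by
          rw [hzc u]
        _ = _ := by group
    rw [h2] at h1
    exact (mul_right_cancel h1).symm
  have hequiv : ∀ t, z (c * t) = z t := by
    intro t
    obtain ⟨a, ha⟩ := hσ.surj h
    have h1 := conj_cl S hσ T hh hh hc ((1 - c)⁻¹ * t) ha
    have h2 := conj_cl S hσ T hg hh hc ((1 - d)⁻¹ * t) ha
    change cl hσ h⁻¹ (S.X r ((1 - c)⁻¹ * (c * t))) * (cl hσ g⁻¹ (S.X r ((1 - d)⁻¹ * (c * t))))⁻¹ = z t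
    have e1 : (1 - c)⁻¹ * (c * t) = c * ((1 - c)⁻¹ * t) := by ring
    have e2 : (1 - d)⁻¹ * (c * t) = c * ((1 - d)⁻¹ * t) := by ring
    rw [e1, e2, ← h1, ← h2]
    have h3 : a * cl hσ h⁻¹ (S.X r ((1 - c)⁻¹ * t)) * a⁻¹ * (a * cl hσ g⁻¹ (S.X r ((1 - d)⁻¹ * t)) * a⁻¹)⁻¹ =
        a * z t * a⁻¹ := by change _ = a * (_ * _) * a⁻¹; group
    rw [h3, hzc]
    group
  have hone : ∀ t, z t = 1 := by
    intro t
    have h1 : z ((c - 1) * ((c - 1)⁻¹ * t)) = 1 := by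
      have h2 := hequiv ((c - 1)⁻¹ * t)
      have h3 : c * ((c - 1)⁻¹ * t) = (c - 1) * ((c - 1)⁻¹ * t) + (c - 1)⁻¹ * t := by ring
      rw [h3, hadd] at h2
      exact mul_eq_right.mp h2
    rwa [mul_inv_cancel_left₀ (sub_ne_zero.mpr hc1)] at h1
  rw [e0 t, hone, one_mul]

/-- the canonical lift by an arbitrary torus element -/
theorem X'_eq {r : ℕ} (hr : r < D.nroots ∧ P r) {h : Q} (hh : h ∈ Hb S) {c : K} (hc : Act S h r c) (hc1 : c ≠ 1) (t : K) :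
    X' S hσ T r t = cl hσ h⁻¹ (S.X r ((1 - c)⁻¹ * t)) := by
  unfold X'
  rw [dif_pos hr]
  exact cl_indep S hσ T (T.tor r hr).choose_spec.1 hh hr (T.tor r hr).choose_spec.2.choose_spec.2 hc
    (T.tor r hr).choose_spec.2.choose_spec.1 hc1 t

theorem σ_X' {r : ℕ} (hr : r < D.nroots ∧ P r) (t : K) : σ (X' S hσ T r t) = S.X r t := by
  obtain ⟨h, hh, c, hc1, hc⟩ := T.tor r hr
  rw [X'_eq S hσ T hr hh hc hc1, map_cl, cm_act S hr.1 hc, mul_inv_cancel_left₀ (sub_ne_zero.mpr (Ne.symm hc1))]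

theorem X'_add {r : ℕ} (hr : r < D.nroots ∧ P r) (t u : K) : X' S hσ T r t * X' S hσ T r u = X' S hσ T r (t + u) := by
  obtain ⟨h, hh, c, hc1, hc⟩ := T.tor r hr
  rw [X'_eq S hσ T hr hh hc hc1, X'_eq S hσ T hr hh hc hc1, X'_eq S hσ T hr hh hc hc1, mul_add,
    add_cl S hσ T hr hc]

theorem X'_zero {r : ℕ} (hr : r < D.nroots ∧ P r) : X' S hσ T r 0 = 1 := by
  have := X'_add S hσ T hr 0 0
  rw [add_zero] at this
  exact mul_eq_left.mp this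

theorem X'_neg {r : ℕ} (hr : r < D.nroots ∧ P r) (t : K) : X' S hσ T r (-t) = (X' S hσ T r t)⁻¹ := by
  rw [eq_inv_iff_mul_eq_one, X'_add S hσ T hr, neg_add_cancel, X'_zero S hσ T hr]

/-- torus equivariance -/
theorem X'_torus {r : ℕ} (hr : r < D.nroots ∧ P r) {g : Q} (hg : g ∈ Hb S) {d : K} (hd : Act S g r d) (t : K)
    {b : Γ} (hb : σ b = g) : b * X' S hσ T r t * b⁻¹ = X' S hσ T r (d * t) := by
  obtain ⟨h, hh, c, hc1, hc⟩ := T.tor r hr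
  rw [X'_eq S hσ T hr hh hc hc1, X'_eq S hσ T hr hh hc hc1, conj_cl S hσ T hh hg hd _ hb]
  congr 2; ring

/-- equivariance under an element normalizing the torus -/
theorem X'_norm {r s : ℕ} (hr : r < D.nroots ∧ P r) (hs : s < D.nroots ∧ P s) {n : Q}
    (hn : ∀ h ∈ Hb S, n * h * n⁻¹ ∈ Hb S) {ε : K} (hε : ε ≠ 0) (h1 : ∀ t, n * S.X r t * n⁻¹ = S.X s (ε * t)) (t : K)
    {b : Γ} (hb : σ b = n) : b * X' S hσ T r t * b⁻¹ = X' S hσ T s (ε * t) := by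
  obtain ⟨h, hh, c, hc1, hc⟩ := T.tor r hr
  have hact : Act S (n * h * n⁻¹) s c := by
    intro u
    have e1 : S.X s u = n * S.X r (ε⁻¹ * u) * n⁻¹ := by rw [h1, mul_inv_cancel_left₀ hε]
    rw [e1]
    have e2 : n * h * n⁻¹ * (n * S.X r (ε⁻¹ * u) * n⁻¹) * (n * h * n⁻¹)⁻¹ =
        n * (h * S.X r (ε⁻¹ * u) * h⁻¹) * n⁻¹ := by group
    rw [e2, hc, h1]
    congr 1
    field_simp
  rw [X'_eq S hσ T hr hh hc hc1, X'_eq S hσ T hs (hn h hh) hact hc1, ← cl_conj hσ n _ _ hb, h1]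
  congr 1
  · group
  · congr 1; ring

end canon


end Cfsg.Agent.Lib.UCETDP
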