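import Mathlib

set_option autoImplicit false

/-!
Arithmetic of the norm-one group of `F_{q^2} / F_q`: sums of units, pigeonhole arguments.
-/

namespace Cfsg.Agent.Lib.Uf98

open Finset

variable {F : Type*} [Field F] [Fintype F] [DecidableEq F]

/-- `σ` is the map `x ↦ x ^ q` of a field with `q ^ 2` elements -/
structure Ar (σ : F →+* F) (q : ℕ) : Prop where
  card : Fintype.card F = q ^ 2
  pow : ∀ x, σ x = x ^ q

/-- norm-one elements -/
def U (σ : F →+* F) : Finset F := univ.filter fun z => z * σ z = 1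

/-- fixed elements -/
def Fx (σ : F →+* F) : Finset F := univ.filter fun z => σ z = z

/-- norm -/
def N (σ : F →+* F) (x : F) : F := x * σ x

variable {σ : F →+* F} {q : ℕ}

theorem mem_U {z : F} : z ∈ U σ ↔ z * σ z = 1 := by simp [U]
theorem mem_Fx {z : F} : z ∈ Fx σ ↔ σ z = z := by simp [Fx]

theorem one_mem_U : (1 : F) ∈ U σ := by rw [mem_U]; simp

theorem U_ne {z : F} (hz : z ∈ U σ) : z ≠ 0 := by
  rintro rfl; rw [mem_U, zero_mul] at hz; exact zero_ne_one hz

theorem mul_mem_U {z w : F} (hz : z ∈ U σ) (hw : w ∈ U σ) : z * w ∈ U σ := by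
  rw [mem_U] at *
  rw [map_mul]
  linear_combination (w * σ w) * hz + hw

theorem inv_mem_U {z : F} (hz : z ∈ U σ) : z⁻¹ ∈ U σ := by
  rw [mem_U] at *
  rw [map_inv₀, ← mul_inv, hz, inv_one]

theorem sig_U {z : F} (hz : z ∈ U σ) : σ z = z⁻¹ := by
  have h0 := U_ne hz
  rw [mem_U] at hz
  field_simp
  linear_combination hz

theorem zpow_mem_U {z : F} (hz : z ∈ U σ) (n : ℤ) : z ^ n ∈ U σ := by
  rw [mem_U] at *
  rw [map_zpow₀, ← mul_zpow, hz, one_zpow]

theorem prod_mem_U {ι : Type*} (s : Finset ι) (d : ι → F) (h : ∀ i ∈ s, d i ∈ U σ) : ∏ i ∈ s, d i ∈ U σ := by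
  classical
  induction s using Finset.induction_on with
  | empty => rw [prod_empty]; exact one_mem_U
  | insert a s ha ih =>
    rw [prod_insert ha]
    exact mul_mem_U (h a (mem_insert_self _ _)) (ih fun i hi => h i (mem_insert_of_mem hi))

section
variable (A : Ar σ q)
include A

theorem Ar.inv (x : F) : σ (σ x) = x := by
  rw [A.pow, A.pow, ← pow_mul, ← sq, ← A.card, FiniteField.pow_card]

theorem Ar.two_le : 2 ≤ q := by
  have h1 : 1 < Fintype.card F := Fintype.one_lt_card
  rw [A.card] at h1
  by_contra h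
  have : q ≤ 1 := by omega
  interval_cases q <;> omega

theorem sig_mem_U {z : F} (hz : z ∈ U σ) : σ z ∈ U σ := by
  rw [sig_U hz]; exact inv_mem_U hz

theorem Ar.N_fix (x : F) : σ (N σ x) = N σ x := by
  unfold N; rw [map_mul, A.inv, mul_comm]

theorem Ar.card_Fx : (Fx σ).card ≤ q := by
  have h1 : (Polynomial.X ^ q - Polynomial.X : Polynomial F) ≠ 0 :=
    FiniteField.X_pow_card_sub_X_ne_zero F A.two_le
  have h2 : Fx σ ⊆ (Polynomial.X ^ q - Polynomial.X : Polynomial F).roots.toFinset := by
    intro x hx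
    rw [Multiset.mem_toFinset, Polynomial.mem_roots h1]
    rw [mem_Fx, A.pow] at hx
    simp [hx]
  exact (Finset.card_le_card h2).trans ((Multiset.toFinset_card_le _).trans ((Polynomial.card_roots' _).trans
      (FiniteField.X_pow_card_sub_X_natDegree_eq F A.two_le).le))

theorem Ar.card_U : q + 1 ≤ (U σ).card := by
  have hq := A.two_le
  -- the norm map on units
  let φ : Fˣ →* Fˣ := powMonoidHom (q + 1)
  have hker : Nat.card φ.ker = (U σ).card := by
    rw [Nat.card_eq_fintype_card, ← Fintype.card_coe]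
    refine Fintype.card_congr ⟨fun x => ⟨(x.1 : F), ?_⟩, fun z => ⟨Units.mk0 z.1 (U_ne z.2), ?_⟩, ?_, ?_⟩
    · have := x.2
      rw [MonoidHom.mem_ker] at this
      have h2 := congrArg Units.val this
      rw [mem_U, A.pow]
      simp only [φ, powMonoidHom_apply, Units.val_pow_eq_pow_val, Units.val_one] at h2
      rw [← h2]; ring
    · rw [MonoidHom.mem_ker]
      apply Units.ext
      have := z.2
      rw [mem_U, A.pow] at this
      simp only [φ, powMonoidHom_apply, Units.val_pow_eq_pow_val, Units.val_one, Units.val_mk0]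
      rw [← this]; ring
    · intro x; ext; rfl
    · intro z; ext; rfl
  have hrange : Nat.card φ.range ≤ q - 1 := by
    rw [Nat.card_eq_fintype_card]
    have hP : (Polynomial.X ^ (q - 1) - Polynomial.C (1 : F)) ≠ 0 :=
      Polynomial.X_pow_sub_C_ne_zero (by omega) _
    have h3 : Fintype.card φ.range ≤ (Polynomial.X ^ (q - 1) - Polynomial.C (1 : F)).roots.toFinset.card := by
      rw [← Fintype.card_coe]
      refine Fintype.card_le_of_injective (fun y => ⟨((y : Fˣ) : F), ?_⟩) ?_
      · rw [Multiset.mem_toFinset, Polynomial.mem_roots hP]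
        obtain ⟨y, x, rfl⟩ := y
        have h5 : (q + 1) * (q - 1) = q ^ 2 - 1 := by
          obtain ⟨r, rfl⟩ := Nat.exists_eq_add_of_le hq
          have e1 : 2 + r - 1 = r + 1 := by omega
          have e2 : (2 + r) ^ 2 - 1 = (2 + r + 1) * (r + 1) := by
            have : (2 + r) ^ 2 = (2 + r + 1) * (r + 1) + 1 := by ring
            omega
          rw [e1, e2]
        have h4 : (x : F) ^ ((q + 1) * (q - 1)) = 1 := by
          rw [h5, ← A.card]
          exact FiniteField.pow_card_sub_one_eq_one _ x.ne_zero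
        simp only [φ, powMonoidHom_apply, Units.val_pow_eq_pow_val, Polynomial.IsRoot.def, Polynomial.eval_sub,
          Polynomial.eval_pow, Polynomial.eval_X, Polynomial.eval_C]
        rw [← pow_mul, h4, sub_self]
      · intro a b hab
        exact Subtype.ext (Units.ext (congrArg Subtype.val hab))
    refine h3.trans ((Multiset.toFinset_card_le _).trans ((Polynomial.card_roots' _).trans ?_))
    rw [Polynomial.natDegree_X_pow_sub_C]
  have hmul : Nat.card φ.ker * Nat.card φ.range = q ^ 2 - 1 := by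
    have h1 := Subgroup.card_eq_card_quotient_mul_card_subgroup φ.ker
    rw [Nat.card_congr (QuotientGroup.quotientKerEquivRange φ).toEquiv] at h1
    rw [mul_comm, ← h1, Nat.card_eq_fintype_card, Fintype.card_units, A.card]
  rw [hker] at hmul
  by_contra hcon
  have h6 : (U σ).card ≤ q := by omega
  have h7 : (U σ).card * Nat.card φ.range ≤ q * (q - 1) := Nat.mul_le_mul h6 hrange
  obtain ⟨r, rfl⟩ := Nat.exists_eq_add_of_le hq
  have e1 : 2 + r - 1 = r + 1 := by omega
  rw [hmul, e1] at h7
  have : (2 + r) ^ 2 = (2 + r) * (r + 1) + (r + 2) := by ring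
  omega

end

/-! ### fibres of the trace -/

/-- each trace has at most two preimages -/
theorem tr_fib {c : F} (hc : c ≠ 0) (s : F) (T : Finset F) (hT : T ⊆ U σ) :
    (T.filter fun φ => c * φ + σ (c * φ) = s).card ≤ 2 := by
  set P : Polynomial F := Polynomial.C c * Polynomial.X ^ 2 + Polynomial.C (-s) * Polynomial.X + Polynomial.C (σ c)
    with hP
  have hdeg : P.natDegree = 2 := Polynomial.natDegree_quadratic hc
  have hP0 : P ≠ 0 := by
    intro h; rw [h, Polynomial.natDegree_zero] at hdeg; omega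
  have hsub : (T.filter fun φ => c * φ + σ (c * φ) = s) ⊆ P.roots.toFinset := by
    intro x hx
    rw [mem_filter] at hx
    rw [Multiset.mem_toFinset, Polynomial.mem_roots hP0]
    have h1 := hT hx.1
    rw [mem_U] at h1
    have h2 := hx.2
    rw [map_mul] at h2
    simp only [hP, Polynomial.IsRoot.def, Polynomial.eval_add, Polynomial.eval_mul, Polynomial.eval_C,
      Polynomial.eval_pow, Polynomial.eval_X]
    linear_combination x * h2 - σ c * h1
  calc _ ≤ P.roots.toFinset.card := Finset.card_le_card hsub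
    _ ≤ Multiset.card P.roots := Multiset.toFinset_card_le _
    _ ≤ P.natDegree := Polynomial.card_roots' _
    _ = 2 := hdeg

theorem N_add (A : Ar σ q) {a b φ : F} (hφ : φ ∈ U σ) :
    N σ (a + b * φ) = N σ a + N σ b + (σ a * b * φ + σ (σ a * b * φ)) := by
  rw [mem_U] at hφ
  unfold N
  simp only [map_add, map_mul, A.inv]
  linear_combination (b * σ b) * hφ

/-- the norms `N(a + b φ)` take many values -/
theorem card_reach (A : Ar σ q) {a b : F} (ha : a ≠ 0) (hb : b ≠ 0) :
    q + 1 ≤ 2 * ((U σ).image fun φ => N σ (a + b * φ)).card := by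
  have h1 := Finset.card_le_mul_card_image (s := U σ) (f := fun φ => N σ (a + b * φ)) 2 (by
    intro s _
    have hsa : σ a ≠ 0 := by
      intro h; apply ha; rw [← A.inv a, h, map_zero]
    refine le_trans (Finset.card_le_card ?_) (tr_fib (σ := σ) (mul_ne_zero hsa hb) (s - N σ a - N σ b) (U σ)
      (Finset.Subset.refl _))
    intro φ hφ
    rw [mem_filter] at hφ ⊢
    refine ⟨hφ.1, ?_⟩
    have := hφ.2
    rw [N_add A hφ.1] at this
    linear_combination this)
  exact A.card_U.trans h1

/-- the set of norms `N(ζ - 1)` -/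
theorem card_kappa (A : Ar σ q) :
    q ≤ 2 * (((U σ).erase 1).image fun ζ => N σ (ζ - 1)).card := by
  have h1 := Finset.card_le_mul_card_image (s := (U σ).erase 1) (f := fun ζ => N σ (ζ - 1)) 2 (by
    intro s _
    refine le_trans (Finset.card_le_card ?_) (tr_fib (σ := σ) (one_ne_zero (α := F)) (2 - s) ((U σ).erase 1)
      (Finset.erase_subset _ _))
    intro φ hφ
    rw [mem_filter] at hφ ⊢
    refine ⟨hφ.1, ?_⟩
    have h2 := hφ.2
    have h3 := (mem_erase.1 hφ.1).2
    rw [mem_U] at h3
    unfold N at h2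
    rw [map_sub, map_one] at h2
    simp only [one_mul]
    linear_combination h3 - h2)
  rw [Finset.card_erase_of_mem one_mem_U] at h1
  have := A.card_U
  omega

/-- pigeonhole in the fixed field -/
theorem pig (A : Ar σ q) {S T : Finset F} (hS : S ⊆ Fx σ) (hT : T ⊆ Fx σ) (h : q < S.card + T.card) :
    ∃ x ∈ S, x ∈ T := by
  by_contra hcon
  push Not at hcon
  have hd : Disjoint S T := Finset.disjoint_left.2 hcon
  have h1 := Finset.card_union_of_disjoint hd
  have h2 := Finset.card_le_card (Finset.union_subset hS hT)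
  have := A.card_Fx
  omega

theorem reach_sub (A : Ar σ q) (a b : F) : ((U σ).image fun φ => N σ (a + b * φ)) ⊆ Fx σ := by
  intro x hx
  obtain ⟨φ, -, rfl⟩ := mem_image.1 hx
  rw [mem_Fx]; exact A.N_fix _

theorem N_eq_zero {x : F} : N σ x = 0 ↔ x = 0 := by
  unfold N
  constructor
  · intro h
    rcases mul_eq_zero.1 h with h | h
    · exact h
    · exact (map_eq_zero σ).1 h
  · rintro rfl; rw [zero_mul]

/-- equal norms differ by a unit -/
theorem exists_unit {x y : F} (h : N σ x = N σ y) : ∃ θ ∈ U σ, y = θ * x := by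
  by_cases hx : x = 0
  · have hy : y = 0 := by rw [← N_eq_zero (σ := σ), ← h, hx]; unfold N; rw [zero_mul]
    exact ⟨1, one_mem_U, by rw [hx, hy, mul_zero]⟩
  · refine ⟨y / x, ?_, (div_mul_cancel₀ y hx).symm⟩
    rw [mem_U, map_div₀]
    have hsx : σ x ≠ 0 := (map_ne_zero σ).2 hx
    unfold N at h
    field_simp
    linear_combination -h

/-- **three units**: every nonzero element is a combination of three nonzero elements with
unit coefficients. -/
theorem three_units (A : Ar σ q) {a b c s : F} (ha : a ≠ 0) (hb : b ≠ 0) (hc : c ≠ 0) (hs : s ≠ 0) :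
    ∃ x ∈ U σ, ∃ y ∈ U σ, ∃ z ∈ U σ, x * a + y * b + z * c = s := by
  have h1 := card_reach A ha hb
  have h2 := card_reach A hs (neg_ne_zero.2 hc)
  obtain ⟨v, hv1, hv2⟩ := pig A (reach_sub A a b) (reach_sub A s (-c)) (by omega)
  obtain ⟨φ, hφ, e1⟩ := mem_image.1 hv1
  obtain ⟨ψ, hψ, e2⟩ := mem_image.1 hv2
  obtain ⟨θ, hθ, e3⟩ := exists_unit (σ := σ) (e1.trans e2.symm)
  refine ⟨θ, hθ, θ * φ, mul_mem_U hθ hφ, ψ, hψ, ?_⟩
  linear_combination -e3

theorem exists_unit_ne (A : Ar σ q) (u v : F) : ∃ z ∈ U σ, z ≠ u ∧ z ≠ v := by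
  by_contra hcon
  push Not at hcon
  have h1 : U σ ⊆ {u, v} := by
    intro z hz
    by_cases h : z = u
    · simp [h]
    · simp [hcon z hz h]
  have h2 := Finset.card_le_card h1
  have h3 : ({u, v} : Finset F).card ≤ 2 := Finset.card_le_two
  have := A.card_U
  have := A.two_le
  omega

/-- combinations over a finite set of at least three indices -/
theorem exists_comb (A : Ar σ q) {ι : Type*} [DecidableEq ι] (B : Finset ι) (hB : 3 ≤ B.card) (a : ι → F)
    (ha : ∀ i ∈ B, a i ≠ 0) {s : F} (hs : s ≠ 0) :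
    ∃ d : ι → F, (∀ i, d i ∈ U σ) ∧ ∑ i ∈ B, d i * a i = s := by
  obtain ⟨n, hn⟩ : ∃ n, B.card = n + 3 := ⟨B.card - 3, by omega⟩
  clear hB
  induction n generalizing B s with
  | zero =>
    obtain ⟨i, j, k, hij, hik, hjk, rfl⟩ := Finset.card_eq_three.1 hn
    obtain ⟨x, hx, y, hy, z, hz, e⟩ := three_units A (ha i (by simp)) (ha j (by simp)) (ha k (by simp)) hs
    refine ⟨fun l => if l = i then x else if l = j then y else z, ?_, ?_⟩
    · intro l; dsimp only; split_ifs <;> assumption
    · rw [sum_insert (by simp [hij, hik]), sum_insert (by simp [hjk]), sum_singleton]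
      simp only [if_true, hij.symm, hik.symm, hjk.symm, if_false]
      rw [← e]; ring
  | succ n ih =>
    obtain ⟨i, hi⟩ : B.Nonempty := by rw [← Finset.card_pos]; omega
    obtain ⟨z, hz, hz1, -⟩ := exists_unit_ne A (s / a i) 0
    have hai := ha i hi
    have hne : s - z * a i ≠ 0 := by
      intro h; apply hz1; field_simp; linear_combination -h
    obtain ⟨d, hd, e⟩ := ih (B.erase i) (fun j hj => ha j (mem_of_mem_erase hj)) hne
      (by rw [card_erase_of_mem hi, hn]; rfl)
    refine ⟨Function.update d i z, ?_, ?_⟩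
    · intro l
      by_cases h : l = i
      · rw [h, Function.update_self]; exact hz
      · rw [Function.update_of_ne h]; exact hd l
    · rw [← add_sum_erase B _ hi, Function.update_self]
      rw [sum_congr rfl (g := fun j => d j * a j) (fun j hj => by rw [Function.update_of_ne (ne_of_mem_erase hj)]), e]
      ring

theorem exists_comb_zero (A : Ar σ q) {ι : Type*} [DecidableEq ι] (B : Finset ι) (hB : 4 ≤ B.card) (a : ι → F)
    (ha : ∀ i ∈ B, a i ≠ 0) :
    ∃ d : ι → F, (∀ i, d i ∈ U σ) ∧ ∑ i ∈ B, d i * a i = 0 := by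
  obtain ⟨i, hi⟩ : B.Nonempty := by rw [← Finset.card_pos]; omega
  obtain ⟨d, hd, e⟩ := exists_comb A (B.erase i) (by rw [card_erase_of_mem hi]; omega) a
    (fun j hj => ha j (mem_of_mem_erase hj)) (neg_ne_zero.2 (ha i hi))
  refine ⟨Function.update d i 1, ?_, ?_⟩
  · intro l
    by_cases h : l = i
    · rw [h, Function.update_self]; exact one_mem_U
    · rw [Function.update_of_ne h]; exact hd l
  · rw [← add_sum_erase B _ hi, Function.update_self,
      sum_congr rfl (g := fun j => d j * a j) (fun j hj => by rw [Function.update_of_ne (ne_of_mem_erase hj)]), e]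
    ring

end Cfsg.Agent.Lib.Uf98
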