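import Mathlib
import Cfsg.Agent.Lib.UfA

set_option autoImplicit false

/-!
Balanced unit combinations with prescribed product.
-/

namespace Cfsg.Agent.Lib.Uf98

open Finset

variable {F : Type*} [Field F] [Fintype F] [DecidableEq F] {σ : F →+* F} {q : ℕ}

theorem exists_k (n : ℕ) (hn : 13 ≤ n) : ∃ k, 4 ≤ k ∧ k + 7 ≤ n ∧ Nat.Coprime k n := by
  rcases Nat.even_or_odd n with h | h
  · obtain ⟨m, rfl⟩ := h
    rcases Nat.even_or_odd m with h' | h'
    · -- k = m - 1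
      refine ⟨m - 1, by omega, by omega, ?_⟩
      obtain ⟨r, rfl⟩ := h'
      have h1 : Nat.Coprime (r + r - 1) 2 := by
        rw [Nat.coprime_comm, Nat.coprime_two_left]
        exact ⟨r - 1, by omega⟩
      have h2 : Nat.Coprime (r + r - 1) (r + r) := by
        have : r + r = (r + r - 1) + 1 := by omega
        rw [this]
        simp
      have := Nat.Coprime.mul_right h1 h2
      rwa [two_mul] at this
    · refine ⟨m - 2, by omega, by omega, ?_⟩
      obtain ⟨r, rfl⟩ := h'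
      have h1 : Nat.Coprime (2 * r + 1 - 2) 2 := by
        rw [Nat.coprime_comm, Nat.coprime_two_left]
        exact ⟨r - 1, by omega⟩
      have h2 : Nat.Coprime (2 * r + 1 - 2) (2 * r + 1) := by
        have : 2 * r + 1 = 2 + (2 * r + 1 - 2) := by omega
        rw [this]
        have e : 2 + (2 * r + 1 - 2) - 2 = 2 * r + 1 - 2 := by omega
        rw [e]
        rw [Nat.coprime_add_self_right]
        exact h1
      have := Nat.Coprime.mul_right h1 h2
      have e2 : 2 * r + 1 + (2 * r + 1) = 2 * (2 * r + 1) := by ring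
      rw [e2]; exact this
  · refine ⟨4, le_refl _, by omega, ?_⟩
    have : Nat.Coprime (2 * 2) n := Nat.Coprime.mul_left (Nat.coprime_two_left.2 h) (Nat.coprime_two_left.2 h)
    exact this

/-- **balanced combinations** with product one -/
theorem exists_bal (A : Ar σ q) {ι : Type*} [Fintype ι] [DecidableEq ι] (hn : 13 ≤ Fintype.card ι) (j : ι)
    (a : ι → F) (ha : ∀ i, i ≠ j → a i ≠ 0) :
    ∃ d : ι → F, (∀ i, d i ∈ U σ) ∧ ∑ i, d i * a i = 0 ∧ ∏ i, d i = 1 ∧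
      ∃ i1 i2 i3 : ι, i1 ≠ i2 ∧ i1 ≠ i3 ∧ i2 ≠ i3 ∧ d i1 ≠ d j ∧ d i2 ≠ d j ∧ d i3 ≠ d j := by
  obtain ⟨k, hk4, hk7, hcop⟩ := exists_k _ hn
  obtain ⟨B1, hB1, hB1c⟩ := Finset.exists_subset_card_eq (s := univ.erase j) (n := k) (by
    rw [card_erase_of_mem (mem_univ _), card_univ]; omega)
  have hjB1 : j ∉ B1 := fun h => (mem_erase.1 (hB1 h)).1 rfl
  have hjB2 : j ∈ B1ᶜ := mem_compl.2 hjB1
  have hB2c : B1ᶜ.card = Fintype.card ι - k := by rw [card_compl, hB1c]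
  have hB2e : (B1ᶜ.erase j).card = Fintype.card ι - k - 1 := by rw [card_erase_of_mem hjB2, hB2c]
  obtain ⟨T, hT, hTc⟩ := Finset.exists_subset_card_eq (s := B1ᶜ.erase j) (n := 3) (by omega)
  obtain ⟨i1, i2, i3, h12, h13, h23, rfl⟩ := Finset.card_eq_three.1 hTc
  have m1 := hT (by simp : i1 ∈ ({i1, i2, i3} : Finset ι))
  have m2 := hT (by simp : i2 ∈ ({i1, i2, i3} : Finset ι))
  have m3 := hT (by simp : i3 ∈ ({i1, i2, i3} : Finset ι))
  set R := (B1ᶜ.erase j) \ {i1, i2, i3} with hR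
  have hRc : 3 ≤ R.card := by
    rw [hR, card_sdiff_of_subset hT, hTc, hB2e]; omega
  obtain ⟨w, hw, hw1, -⟩ := exists_unit_ne A 1 1
  obtain ⟨w', hw', hw'1, hw'2⟩ := exists_unit_ne A 1 (-(a j + w * a i1 + w * a i2) / a i3)
  have ha3 := ha i3 (ne_of_mem_erase m3)
  have hs : -(a j + w * a i1 + w * a i2 + w' * a i3) ≠ 0 := by
    intro h
    apply hw'2
    field_simp
    linear_combination -h
  have hRj : ∀ i ∈ R, i ≠ j := fun i hi => ne_of_mem_erase (mem_sdiff.1 hi).1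
  obtain ⟨d2, hd2, e2⟩ := exists_comb A R hRc a (fun i hi => ha i (hRj i hi)) hs
  obtain ⟨d1, hd1, e1⟩ := exists_comb_zero A B1 (by omega) a (fun i hi => ha i (fun h => hjB1 (h ▸ hi)))
  set d0 : ι → F := fun i => if i ∈ B1 then d1 i else if i ∈ R then d2 i else if i = j then 1 else
    if i = i3 then w' else w with hd0
  have hd0U : ∀ i, d0 i ∈ U σ := by
    intro i; simp only [hd0]
    split_ifs
    · exact hd1 i
    · exact hd2 i
    · exact one_mem_U
    · exact hw'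
    · exact hw
  have notR : ∀ i, i ∈ ({i1, i2, i3} : Finset ι) → i ∉ R := fun i hi h => (mem_sdiff.1 h).2 hi
  have hjR : j ∉ R := fun h => hRj j h rfl
  have v1 : d0 i1 = w := by
    simp only [hd0]
    rw [if_neg (mem_compl.1 (mem_of_mem_erase m1)), if_neg (notR i1 (by simp)), if_neg (ne_of_mem_erase m1),
      if_neg h13]
  have v2 : d0 i2 = w := by
    simp only [hd0]
    rw [if_neg (mem_compl.1 (mem_of_mem_erase m2)), if_neg (notR i2 (by simp)), if_neg (ne_of_mem_erase m2),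
      if_neg h23]
  have v3 : d0 i3 = w' := by
    simp only [hd0]
    rw [if_neg (mem_compl.1 (mem_of_mem_erase m3)), if_neg (notR i3 (by simp)), if_neg (ne_of_mem_erase m3),
      if_pos trivial]
  have vj : d0 j = 1 := by
    simp only [hd0]
    rw [if_neg hjB1, if_neg hjR, if_pos trivial]
  have s1 : ∑ i ∈ B1, d0 i * a i = 0 := by
    rw [← e1]
    refine sum_congr rfl fun i hi => ?_
    simp only [hd0]; rw [if_pos hi]
  have s2 : ∑ i ∈ B1ᶜ, d0 i * a i = 0 := by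
    rw [← add_sum_erase _ _ hjB2, ← sum_sdiff hT]
    rw [sum_insert (by simp [h12, h13]), sum_insert (by simp [h23]), sum_singleton, v1, v2, v3, vj]
    have : ∑ i ∈ R, d0 i * a i = ∑ i ∈ R, d2 i * a i := by
      refine sum_congr rfl fun i hi => ?_
      have : i ∉ B1 := mem_compl.1 (mem_of_mem_erase (mem_sdiff.1 hi).1)
      simp only [hd0]; rw [if_neg this, if_pos hi]
    rw [this, e2]; ring
  set p := ∏ i, d0 i with hp
  have hpU : p ∈ U σ := prod_mem_U _ _ fun i _ => hd0U i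
  have hp0 : p ≠ 0 := U_ne hpU
  have hcop2 : Nat.Coprime k (Fintype.card ι - k) := by
    have : Fintype.card ι = (Fintype.card ι - k) + k := by omega
    rw [this, Nat.coprime_add_self_right] at hcop
    exact hcop
  have hbez : (k : ℤ) * Nat.gcdA k (Fintype.card ι - k) +
      ((Fintype.card ι - k : ℕ) : ℤ) * Nat.gcdB k (Fintype.card ι - k) = 1 := by
    rw [← Nat.gcd_eq_gcd_ab, hcop2]; rfl
  set x := Nat.gcdA k (Fintype.card ι - k)
  set y := Nat.gcdB k (Fintype.card ι - k)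
  have hεU : ∀ z : ℤ, (p⁻¹) ^ z ∈ U σ := fun z => zpow_mem_U (inv_mem_U hpU) z
  have hne : ∀ i, i ∉ B1 → d0 i ≠ 1 → (if i ∈ B1 then p⁻¹ ^ x * d0 i else p⁻¹ ^ y * d0 i) ≠
      (if j ∈ B1 then p⁻¹ ^ x * d0 j else p⁻¹ ^ y * d0 j) := by
    intro i hi h1 h
    rw [if_neg hi, if_neg hjB1, vj] at h
    exact h1 (mul_left_cancel₀ (U_ne (hεU y)) h)
  refine ⟨fun i => if i ∈ B1 then p⁻¹ ^ x * d0 i else p⁻¹ ^ y * d0 i, ?_, ?_, ?_, i1, i2, i3, h12, h13, h23,
    hne i1 (mem_compl.1 (mem_of_mem_erase m1)) (by rw [v1]; exact hw1),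
    hne i2 (mem_compl.1 (mem_of_mem_erase m2)) (by rw [v2]; exact hw1),
    hne i3 (mem_compl.1 (mem_of_mem_erase m3)) (by rw [v3]; exact hw'1)⟩
  · intro i
    dsimp only
    split_ifs
    · exact mul_mem_U (hεU x) (hd0U i)
    · exact mul_mem_U (hεU y) (hd0U i)
  · rw [← sum_add_sum_compl B1]
    have t1 : ∑ i ∈ B1, (if i ∈ B1 then p⁻¹ ^ x * d0 i else p⁻¹ ^ y * d0 i) * a i = 0 := by
      calc _ = ∑ i ∈ B1, p⁻¹ ^ x * (d0 i * a i) := sum_congr rfl fun i hi => by rw [if_pos hi]; ring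
        _ = 0 := by rw [← mul_sum, s1, mul_zero]
    have t2 : ∑ i ∈ B1ᶜ, (if i ∈ B1 then p⁻¹ ^ x * d0 i else p⁻¹ ^ y * d0 i) * a i = 0 := by
      calc _ = ∑ i ∈ B1ᶜ, p⁻¹ ^ y * (d0 i * a i) :=
            sum_congr rfl fun i hi => by rw [if_neg (mem_compl.1 hi)]; ring
        _ = 0 := by rw [← mul_sum, s2, mul_zero]
    rw [t1, t2, add_zero]
  · rw [← prod_mul_prod_compl B1]
    have t1 : ∏ i ∈ B1, (if i ∈ B1 then p⁻¹ ^ x * d0 i else p⁻¹ ^ y * d0 i) = (p⁻¹ ^ x) ^ k * ∏ i ∈ B1, d0 i := by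
      rw [← hB1c, ← prod_const, ← prod_mul_distrib]
      exact prod_congr rfl fun i hi => by rw [if_pos hi]
    have t2 : ∏ i ∈ B1ᶜ, (if i ∈ B1 then p⁻¹ ^ x * d0 i else p⁻¹ ^ y * d0 i) =
        (p⁻¹ ^ y) ^ (Fintype.card ι - k) * ∏ i ∈ B1ᶜ, d0 i := by
      rw [← hB2c, ← prod_const, ← prod_mul_distrib]
      exact prod_congr rfl fun i hi => by rw [if_neg (mem_compl.1 hi)]
    rw [t1, t2]
    have e3 : (p⁻¹ ^ x) ^ k * (p⁻¹ ^ y) ^ (Fintype.card ι - k) = p⁻¹ := by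
      rw [← zpow_natCast, ← zpow_natCast, ← zpow_mul, ← zpow_mul, ← zpow_add₀ (inv_ne_zero hp0)]
      have : x * (k : ℤ) + y * ((Fintype.card ι - k : ℕ) : ℤ) = 1 := by linear_combination hbez
      rw [this, zpow_one]
    have e4 : (∏ i ∈ B1, d0 i) * ∏ i ∈ B1ᶜ, d0 i = p := prod_mul_prod_compl B1 d0
    calc _ = ((p⁻¹ ^ x) ^ k * (p⁻¹ ^ y) ^ (Fintype.card ι - k)) * ((∏ i ∈ B1, d0 i) * ∏ i ∈ B1ᶜ, d0 i) := by ring
      _ = 1 := by rw [e3, e4, inv_mul_cancel₀ hp0]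

end Cfsg.Agent.Lib.Uf98
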