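import Mathlib
import Cfsg.Agent.Lib.UfB
import Cfsg.Agent.Lib.UnTrans

set_option autoImplicit false

/-!
The plane lemma: two full quasi-reflection groups in a unitary plane.
-/

namespace Cfsg.Agent.Lib.Uf98

open Finset Cfsg.Agent.Lib.UnTrans

variable {F : Type*} [Field F] [Fintype F] [DecidableEq F] {σ : F →+* F} {q : ℕ}
variable {V : Type*} [AddCommGroup V] [Module F V] {f : V → V → F}

/-- the quasi-reflection as a function -/
def rr (f : V → V → F) (v : V) (z : F) (x : V) : V := x + ((z - 1) * f x v) • v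

omit [Fintype F] [DecidableEq F] in
theorem f_rr (H : HS σ f) {v : V} (hv : f v v = 1) (z : F) (x : V) : f (rr f v z x) v = z * f x v := by
  unfold rr
  rw [H.add_left, H.smul_left, hv]; ring

omit [Fintype F] [DecidableEq F] in
theorem rr_inv (H : HS σ f) {v : V} (hv : f v v = 1) {z : F} (hz : z ≠ 0) (x : V) :
    rr f v z⁻¹ (rr f v z x) = x := by
  have h := f_rr H hv z x
  rw [rr, h, rr]
  match_scalars
  · rfl
  · field_simp; ring

omit [DecidableEq F] [Fintype F] in
theorem rr_norm (H : HS σ f) {v : V} (hv : f v v = 1) {z : F} (hz : z * σ z = 1) (x y : V) :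
    f (rr f v z x) (rr f v z y) = f x y := by
  unfold rr
  rw [H.add_left, H.add_right, H.add_right, H.smul_left, H.smul_left, H.smul_right, H.smul_right, hv,
    map_mul, ← H.herm v y, map_sub, map_one]
  linear_combination (f x v * f v y) * hz

/-- **plane lemma** -/
theorem plane (A : Ar σ q) (H : HS σ f) {e u : V} (he : f e e = 1) (hu : f u u = 1)
    (ht0 : f u e ≠ 0) (ht1 : N σ (f u e) ≠ 1) (Y : Set V) (hY : ∀ v ∈ Y, ∀ z ∈ U σ, z • v ∈ Y)
    (hYe : ∀ v ∈ Y, ∀ z ∈ U σ, rr f e z v ∈ Y) (hYu : ∀ v ∈ Y, ∀ z ∈ U σ, rr f u z v ∈ Y) (heY : e ∈ Y)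
    {v : V} (hv : f v v = 1) (hvs : ∃ a b : F, v = a • e + b • u) : v ∈ Y := by
  set c := f u e with hc
  set t := N σ c with ht
  have hec : f e u = σ c := H.herm e u
  have htt : c * σ c = t := rfl
  have hσt : σ t = t := A.N_fix c
  have ht0' : t ≠ 0 := by rw [ht, Ne, N_eq_zero]; exact ht0
  have h1t : 1 - t ≠ 0 := sub_ne_zero.2 (Ne.symm ht1)
  set e2 := u - c • e with he2
  have h_e_e2 : f e e2 = 0 := by
    rw [he2, H.sub_right, H.smul_right, he, hec]; ring
  have h_e2_e : f e2 e = 0 := H.symm_zero h_e_e2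
  have h_e2_u : f e2 u = 1 - t := by
    rw [he2, H.sub_left, H.smul_left, hu, hec, htt]
  have h_e2_e2 : f e2 e2 = 1 - t := by
    nth_rw 2 [he2]
    rw [H.sub_right, H.smul_right, h_e2_e, h_e2_u]; ring
  set pt : F → F → V := fun x y => x • e + y • e2 with hpt
  have pt_norm : ∀ x y, f (pt x y) (pt x y) = N σ x + N σ y * (1 - t) := by
    intro x y
    simp only [hpt]
    rw [H.add_left, H.add_right, H.add_right, H.smul_left, H.smul_left, H.smul_left, H.smul_left,
      H.smul_right, H.smul_right, H.smul_right, H.smul_right, he, h_e_e2, h_e2_e, h_e2_e2]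
    unfold N; ring
  have pt_e : ∀ x y, f (pt x y) e = x := by
    intro x y
    simp only [hpt]
    rw [H.add_left, H.smul_left, H.smul_left, he, h_e2_e]; ring
  have pt_u : ∀ x y, f (pt x y) u = x * σ c + y * (1 - t) := by
    intro x y
    simp only [hpt]
    rw [H.add_left, H.smul_left, H.smul_left, hec, h_e2_u]
  have hu_pt : u = pt c 1 := by simp only [hpt, he2]; rw [one_smul]; abel
  have rr_e : ∀ z x y, rr f e z (pt x y) = pt (z * x) y := by
    intro z x y
    unfold rr
    rw [pt_e]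
    simp only [hpt]
    match_scalars <;> ring
  have rr_u : ∀ z x y, rr f u z (pt x y) = pt (x + (z - 1) * (x * σ c + y * (1 - t)) * c)
      (y + (z - 1) * (x * σ c + y * (1 - t))) := by
    intro z x y
    have h1 : rr f u z (pt x y) = pt x y + ((z - 1) * (x * σ c + y * (1 - t))) • pt c 1 := by
      rw [← hu_pt, ← pt_u]; rfl
    rw [h1]
    simp only [hpt]
    match_scalars <;> ring
  -- circles
  have circ : ∀ x y x' y', pt x y ∈ Y → f (pt x y) (pt x y) = 1 → f (pt x' y') (pt x' y') = 1 →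
      N σ x = N σ x' → pt x' y' ∈ Y := by
    intro x y x' y' hxy h1 h2 h3
    rw [pt_norm] at h1 h2
    have h4 : N σ y = N σ y' := by
      have : (N σ y - N σ y') * (1 - t) = 0 := by linear_combination h1 - h2 - h3
      rcases mul_eq_zero.1 this with h | h
      · exact sub_eq_zero.1 h
      · exact absurd h h1t
    obtain ⟨θ, hθ, rfl⟩ := exists_unit (σ := σ) h3
    obtain ⟨φ, hφ, rfl⟩ := exists_unit (σ := σ) h4
    have h5 := hYe _ hxy (θ * φ⁻¹) (mul_mem_U hθ (inv_mem_U hφ))
    rw [rr_e] at h5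
    have h6 := hY _ h5 φ hφ
    have : φ • pt (θ * φ⁻¹ * x) y = pt (θ * x) (φ * y) := by
      have h0 := U_ne hφ
      simp only [hpt]
      match_scalars
      · field_simp
      · ring
    rwa [this] at h6
  have e_pt : e = pt 1 0 := by simp [hpt]
  -- the first set
  set K := ((U σ).erase 1).image fun ζ => N σ (ζ - 1) with hK
  have hKc : q ≤ 2 * K.card := card_kappa A
  have hK0 : ∀ k ∈ K, k ≠ 0 := by
    intro k hk
    obtain ⟨z, hz, rfl⟩ := mem_image.1 hk
    rw [Ne, N_eq_zero, sub_eq_zero]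
    exact (mem_erase.1 hz).1
  have htt1 : t * (1 - t) ≠ 0 := mul_ne_zero ht0' h1t
  set S1 := insert (1 : F) (K.image fun k => 1 - k * (t * (1 - t))) with hS1
  have hS1c : S1.card = K.card + 1 := by
    rw [hS1, card_insert_of_notMem, card_image_of_injective]
    · intro a b hab
      simp only at hab
      have : (a - b) * (t * (1 - t)) = 0 := by linear_combination -hab
      rcases mul_eq_zero.1 this with h | h
      · exact sub_eq_zero.1 h
      · exact absurd h htt1
    · intro h
      obtain ⟨k, hk, e1⟩ := mem_image.1 h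
      have : k * (t * (1 - t)) = 0 := by linear_combination -e1
      rcases mul_eq_zero.1 this with h | h
      · exact hK0 k hk h
      · exact htt1 h
  have Nsub : ∀ z ∈ U σ, ∀ x : F, σ x = x → N σ (1 + (z - 1) * x) = 1 - N σ (z - 1) * (x * (1 - x)) := by
    intro z hz x hx
    rw [mem_U] at hz
    unfold N
    simp only [map_add, map_mul, map_sub, map_one, hx]
    linear_combination x * hz
  have hS1Y : ∀ s ∈ S1, ∃ x y, N σ x = s ∧ pt x y ∈ Y ∧ f (pt x y) (pt x y) = 1 := by
    intro s hs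
    rcases mem_insert.1 hs with rfl | hs
    · refine ⟨1, 0, ?_, by rw [← e_pt]; exact heY, by rw [← e_pt]; exact he⟩
      unfold N; rw [map_one, one_mul]
    · obtain ⟨k, hk, rfl⟩ := mem_image.1 hs
      obtain ⟨z, hz, rfl⟩ := mem_image.1 hk
      have hzU := mem_of_mem_erase hz
      have h1 := hYu _ heY z hzU
      have h2 : f (rr f u z e) (rr f u z e) = 1 := by
        rw [rr_norm H hu (mem_U.1 hzU)]; exact he
      rw [e_pt, rr_u] at h1 h2
      refine ⟨_, _, ?_, h1, h2⟩
      rw [← Nsub z hzU t hσt]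
      congr 1
      linear_combination (z - 1) * htt
  have hS1F : S1 ⊆ Fx σ := by
    intro s hs
    obtain ⟨x, y, rfl, -, -⟩ := hS1Y s hs
    rw [mem_Fx]; exact A.N_fix _
  -- back
  have back : ∀ x y z, z ∈ U σ → rr f u z (pt x y) ∈ Y → pt x y ∈ Y := by
    intro x y z hz h
    have := hYu _ h z⁻¹ (inv_mem_U hz)
    rwa [rr_inv H hu (U_ne hz)] at this
  have fin : ∀ x y z, z ∈ U σ → f (pt x y) (pt x y) = 1 →
      N σ (x + (z - 1) * (x * σ c + y * (1 - t)) * c) ∈ S1 → pt x y ∈ Y := by
    intro x y z hz h1 h2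
    obtain ⟨x', y', e1, e2', e3⟩ := hS1Y _ h2
    apply back x y z hz
    rw [rr_u]
    refine circ x' y' _ _ e2' e3 ?_ e1
    rw [← rr_u, rr_norm H hu (mem_U.1 hz)]
    exact h1
  obtain ⟨a, b, rfl⟩ := hvs
  obtain ⟨x, y, hxy⟩ : ∃ x y, a • e + b • u = pt x y := by
    refine ⟨a + b * c, b, ?_⟩
    simp only [hpt, he2]
    match_scalars <;> ring
  rw [hxy] at hv ⊢
  by_cases hx : x = 0
  · subst hx
    have h1 := hv
    rw [pt_norm] at h1
    have hN0 : N σ (0 : F) = 0 := by unfold N; rw [zero_mul]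
    rw [hN0, zero_add] at h1
    set S2 := K.image fun k => k * (t * (1 - t)) with hS2
    have hS2c : S2.card = K.card := by
      rw [hS2, card_image_of_injective]
      intro a b hab
      exact mul_right_cancel₀ htt1 hab
    have hval : ∀ z : F, N σ (0 + (z - 1) * (0 * σ c + y * (1 - t)) * c) = N σ (z - 1) * (t * (1 - t)) := by
      intro z
      have e1 : N σ (0 + (z - 1) * (0 * σ c + y * (1 - t)) * c) = N σ (z - 1) * (N σ y * (1 - t)) * (1 - t) * t := by
        unfold N
        simp only [map_add, map_mul, map_sub, map_one, map_zero, hσt]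
        linear_combination ((z - 1) * (σ z - 1) * y * σ y * (1 - t) * (1 - t)) * htt
      rw [e1, h1]; ring
    have hS2F : S2 ⊆ Fx σ := by
      intro s hs
      obtain ⟨k, hk, rfl⟩ := mem_image.1 hs
      obtain ⟨z, hz, rfl⟩ := mem_image.1 hk
      rw [mem_Fx, ← hval z]; exact A.N_fix _
    obtain ⟨s, hs1, hs2⟩ := pig A hS1F hS2F (by omega)
    obtain ⟨k, hk, rfl⟩ := mem_image.1 hs2
    obtain ⟨z, hz, rfl⟩ := mem_image.1 hk
    exact fin 0 y z (mem_of_mem_erase hz) hv (by rw [hval]; exact hs1)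
  by_cases hy : y = 0
  · subst hy
    refine circ 1 0 x 0 (by rw [← e_pt]; exact heY) (by rw [← e_pt]; exact he) hv ?_
    rw [pt_norm] at hv
    have hN0 : N σ (0 : F) = 0 := by unfold N; rw [zero_mul]
    rw [hN0] at hv
    have hN1 : N σ (1 : F) = 1 := by unfold N; rw [map_one, one_mul]
    rw [hN1]; linear_combination -hv
  · obtain ⟨z, hz, hz1, hz2⟩ := exists_unit_ne A 1 (1 - t⁻¹)
    have ha : x * (1 + (z - 1) * t) ≠ 0 := by
      refine mul_ne_zero hx fun h => hz2 ?_
      field_simp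
      linear_combination h
    have hb : (z - 1) * y * (1 - t) * c ≠ 0 :=
      mul_ne_zero (mul_ne_zero (mul_ne_zero (sub_ne_zero.2 hz1) hy) h1t) ht0
    have h2 := card_reach A ha hb
    obtain ⟨s, hs1, hs2⟩ := pig A hS1F (reach_sub A (x * (1 + (z - 1) * t)) ((z - 1) * y * (1 - t) * c)) (by omega)
    obtain ⟨φ, hφ, rfl⟩ := mem_image.1 hs2
    have h3 : f (pt x (φ * y)) (pt x (φ * y)) = 1 := by
      have hv' := hv
      rw [pt_norm] at hv' ⊢
      have : N σ (φ * y) = N σ y := by
        rw [mem_U] at hφ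
        unfold N
        rw [map_mul]; linear_combination (y * σ y) * hφ
      rw [this]; exact hv'
    have h4 : pt x (φ * y) ∈ Y := by
      refine fin x (φ * y) z hz h3 ?_
      have : x + (z - 1) * (x * σ c + φ * y * (1 - t)) * c =
          x * (1 + (z - 1) * t) + (z - 1) * y * (1 - t) * c * φ := by
        linear_combination ((z - 1) * x) * htt
      rw [this]; exact hs1
    exact circ x (φ * y) x y h4 h3 hv rfl

end Cfsg.Agent.Lib.Uf98
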