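import Mathlib
import Cfsg.Agent.Lib.UfC

set_option autoImplicit false

/-!
Orthonormal frames and groups containing full quasi-reflection groups on a coordinate subspace.
-/

namespace Cfsg.Agent.Lib.Uf98

open Finset Cfsg.Agent.Lib.UnTrans
open Cfsg.Agent.Lib.SpTrans (isom mem_isom)

variable {F : Type*} [Field F] [Fintype F] [DecidableEq F] {σ : F →+* F} {q : ℕ}
variable {V : Type*} [AddCommGroup V] [Module F V] {f : V → V → F}
variable {ι : Type*} [Fintype ι] [DecidableEq ι] {e : ι → V}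

/-- orthonormal frame -/
structure Fr (f : V → V → F) (e : ι → V) : Prop where
  on : ∀ i j, f (e i) (e j) = if i = j then 1 else 0
  span : ∀ x, x = ∑ i, f x (e i) • e i

/-- support -/
def supp (f : V → V → F) (e : ι → V) (v : V) : Finset ι := univ.filter fun i => f v (e i) ≠ 0

omit [Fintype F] in
theorem mem_supp {v : V} {i : ι} : i ∈ supp f e v ↔ f v (e i) ≠ 0 := by simp [supp]

section fr
variable (H : HS σ f) (R : Fr f e)
include H R

omit [Fintype F] [DecidableEq F] in
theorem Fr.self (i : ι) : f (e i) (e i) = 1 := by rw [R.on, if_pos rfl]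

omit [Fintype F] [DecidableEq F] H in
theorem Fr.ne {i j : ι} (h : i ≠ j) : f (e i) (e j) = 0 := by rw [R.on, if_neg h]

omit [Fintype F] [DecidableEq F] H in
theorem Fr.self' (i : ι) : f (e i) (e i) = 1 := by rw [R.on, if_pos rfl]

omit [Fintype F] [DecidableEq F] H in
theorem Fr.ext {v w : V} (h : ∀ i, f v (e i) = f w (e i)) : v = w := by
  rw [R.span v, R.span w]
  exact sum_congr rfl fun i _ => by rw [h i]

omit [Fintype F] [DecidableEq F] [DecidableEq ι] R in
theorem f_sum (s : Finset ι) (a : ι → V) (w : V) : f (∑ i ∈ s, a i) w = ∑ i ∈ s, f (a i) w := by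
  classical
  induction s using Finset.induction_on with
  | empty => rw [sum_empty, sum_empty, H.zero_left]
  | insert i s hi ih => rw [sum_insert hi, sum_insert hi, H.add_left, ih]

omit [Fintype F] [DecidableEq F] in
theorem Fr.inner (v w : V) : f v w = ∑ i, f v (e i) * σ (f w (e i)) := by
  conv_lhs => rw [R.span v]
  rw [f_sum H]
  exact sum_congr rfl fun i _ => by rw [H.smul_left, ← H.herm]

end fr

/-- coordinate subspace -/
def VI (f : V → V → F) (e : ι → V) (I : Finset ι) : Set V := {x | ∀ i, i ∉ I → f x (e i) = 0}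

omit [Fintype F] [Fintype ι] [DecidableEq F] in
theorem Fr.mem_VI {ι : Type*} [Fintype ι] [DecidableEq ι] {e : ι → V} (R : Fr f e) {I : Finset ι} {i : ι}
    (hi : i ∈ I) : e i ∈ VI f e I := fun j hj => R.ne (fun h => hj (h ▸ hi))

omit [Fintype F] [Fintype ι] [DecidableEq F] [DecidableEq ι] in
theorem VI_add (H : HS σ f) {I : Finset ι} {u v : V} (hu : u ∈ VI f e I) (hv : v ∈ VI f e I) :
    u + v ∈ VI f e I := fun i hi => by rw [H.add_left, hu i hi, hv i hi, add_zero]

omit [Fintype F] [Fintype ι] [DecidableEq F] [DecidableEq ι] in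
theorem VI_smul (H : HS σ f) {I : Finset ι} {u : V} (hu : u ∈ VI f e I) (c : F) :
    c • u ∈ VI f e I := fun i hi => by rw [H.smul_left, hu i hi, mul_zero]

omit [Fintype F] [DecidableEq F] [Fintype ι] [DecidableEq ι] in
theorem VI_rr (H : HS σ f) {I : Finset ι} {u v : V} (hu : u ∈ VI f e I) (hv : v ∈ VI f e I) (z : F) :
    rr f v z u ∈ VI f e I := VI_add H hu (VI_smul H hv _)

omit [Fintype F] [DecidableEq F] in
theorem exists_normal (H : HS σ f) {v : V} (hv : f v v ≠ 0) : ∃ s : F, s ≠ 0 ∧ f (s⁻¹ • v) (s⁻¹ • v) = 1 ∧ N σ s = f v v := by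
  obtain ⟨s, hs⟩ := H.norm (f v v) (H.self_fixed v)
  have hs0 : s ≠ 0 := by rintro rfl; rw [zero_mul] at hs; exact hv hs.symm
  refine ⟨s, hs0, ?_, hs⟩
  have : σ s ≠ 0 := H.sigma_ne hs0
  rw [H.smul_left, H.smul_right, map_inv₀]
  field_simp
  linear_combination -hs

/-- groups with all quasi-reflections and swaps of the frame on a coordinate subspace -/
structure Sy (σ : F →+* F) (f : V → V → F) (e : ι → V) (I : Finset ι) (X : Subgroup (V ≃ₗ[F] V)) : Prop where
  isom : X ≤ isom f
  pres : ∀ x ∈ X, ∀ u ∈ VI f e I, x u ∈ VI f e I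
  refl : ∀ i ∈ I, ∀ z ∈ U σ, ∃ x ∈ X, ∀ u ∈ VI f e I, x u = rr f (e i) z u
  swap : ∀ i ∈ I, ∀ j ∈ I, i ≠ j → ∃ x ∈ X, ∀ u ∈ VI f e I, x u = u - f u (e i - e j) • (e i - e j)

/-- orbit of the frame vectors -/
def Ob (e : ι → V) (I : Finset ι) (X : Subgroup (V ≃ₗ[F] V)) : Set V := {v | ∃ x ∈ X, ∃ i ∈ I, x (e i) = v}

variable {I : Finset ι} {X : Subgroup (V ≃ₗ[F] V)}

section sy
variable (H : HS σ f) (R : Fr f e) (S : Sy σ f e I X)
include H R S

theorem ob_VI {v : V} (hv : v ∈ Ob e I X) : v ∈ VI f e I := by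
  obtain ⟨x, hx, i, hi, rfl⟩ := hv
  exact S.pres x hx _ (R.mem_VI hi)

theorem ob_norm {v : V} (hv : v ∈ Ob e I X) : f v v = 1 := by
  obtain ⟨x, hx, i, hi, rfl⟩ := hv
  rw [S.isom hx]; exact R.self' i

omit H R S [Fintype F] [DecidableEq F] [Fintype ι] [DecidableEq ι] in
theorem ob_map {v : V} (hv : v ∈ Ob e I X) {x : V ≃ₗ[F] V} (hx : x ∈ X) : x v ∈ Ob e I X := by
  obtain ⟨y, hy, i, hi, rfl⟩ := hv
  exact ⟨x * y, mul_mem hx hy, i, hi, rfl⟩

theorem pres_inv {x : V ≃ₗ[F] V} (hx : x ∈ X) {u : V} (hu : u ∈ VI f e I) : x⁻¹ u ∈ VI f e I :=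
  S.pres _ (inv_mem hx) _ hu

theorem ob_refl {v : V} (hv : v ∈ Ob e I X) {z : F} (hz : z ∈ U σ) :
    ∃ x ∈ X, ∀ u ∈ VI f e I, x u = rr f v z u := by
  obtain ⟨y, hy, i, hi, rfl⟩ := hv
  obtain ⟨x, hx, h⟩ := S.refl i hi z hz
  refine ⟨y * x * y⁻¹, mul_mem (mul_mem hy hx) (inv_mem hy), fun u hu => ?_⟩
  have h1 : y (y⁻¹ u) = u := by rw [← LinearEquiv.mul_apply, mul_inv_cancel]; rfl
  have h2 : f (y⁻¹ u) (e i) = f u (y (e i)) := by rw [← S.isom hy (y⁻¹ u) (e i), h1]
  rw [LinearEquiv.mul_apply, LinearEquiv.mul_apply, h _ (pres_inv H R S hy hu)]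
  unfold rr
  rw [map_add, LinearEquiv.map_smul y, h1, h2]

theorem ob_smul {v : V} (hv : v ∈ Ob e I X) {z : F} (hz : z ∈ U σ) : z • v ∈ Ob e I X := by
  obtain ⟨x, hx, h⟩ := ob_refl H R S hv hz
  have h1 := ob_map hv hx
  rw [h v (ob_VI H R S hv)] at h1
  unfold rr at h1
  rw [ob_norm H R S hv] at h1
  have : v + ((z - 1) * 1) • v = z • v := by match_scalars; ring
  rwa [this] at h1

theorem ob_rr {v w : V} (hv : v ∈ Ob e I X) (hw : w ∈ Ob e I X) {z : F} (hz : z ∈ U σ) :
    rr f v z w ∈ Ob e I X := by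
  obtain ⟨x, hx, h⟩ := ob_refl H R S hv hz
  rw [← h w (ob_VI H R S hw)]
  exact ob_map hw hx

omit H R S [Fintype F] [DecidableEq F] [Fintype ι] [DecidableEq ι] in
theorem ob_e {i : ι} (hi : i ∈ I) : e i ∈ Ob e I X := ⟨1, one_mem _, i, hi, rfl⟩

/-- plane closure -/
theorem ob_plane (A : Ar σ q) {u : V} (hu : u ∈ Ob e I X) {i : ι} (hi : i ∈ I) (h0 : f u (e i) ≠ 0)
    (h1 : N σ (f u (e i)) ≠ 1) {v : V} (hv : f v v = 1) (hs : ∃ a b : F, v = a • e i + b • u) :
    v ∈ Ob e I X :=
  plane A H (R.self' i) (ob_norm H R S hu) h0 h1 (Ob e I X) (fun v hv z hz => ob_smul H R S hv hz)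
    (fun v hv z hz => ob_rr H R S (ob_e hi) hv hz) (fun v hv z hz => ob_rr H R S hu hv hz) (ob_e hi) hv hs

omit [Fintype F] [DecidableEq F] S in
/-- coordinates of a vector with one coordinate removed -/
theorem drop_coord (v : V) (i k : ι) : f (v - f v (e i) • e i) (e k) = if k = i then 0 else f v (e k) := by
  rw [H.sub_left, H.smul_left]
  split_ifs with h
  · rw [h, R.self' i]; ring
  · rw [R.ne (Ne.symm h)]; ring

omit [Fintype F] [DecidableEq F] S in
theorem drop_norm (v : V) (i : ι) :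
    f (v - f v (e i) • e i) (v - f v (e i) • e i) = f v v - N σ (f v (e i)) := by
  rw [H.sub_left, H.sub_right, H.sub_right, H.smul_left, H.smul_left, H.smul_right, H.smul_right,
    R.self' i, H.herm (e i) v]
  unfold N; ring

/-- reduction of the support -/
theorem exists_two (A : Ar σ q) (hq : 3 ≤ q) (n : ℕ) : ∀ v ∈ Ob e I X, (supp f e v).card = n + 2 →
    ∃ w ∈ Ob e I X, (supp f e w).card = 2 := by
  induction n with
  | zero => intro v hv h; exact ⟨v, hv, h⟩
  | succ n ih =>
    -- the good case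
    have good : ∀ v ∈ Ob e I X, (supp f e v).card = n + 1 + 2 → ∀ i ∈ supp f e v, N σ (f v (e i)) ≠ 1 →
        ∃ w ∈ Ob e I X, (supp f e w).card = 2 := by
      intro v hv hc i hi h1
      have hiI : i ∈ I := by
        by_contra h; exact (mem_supp.1 hi) (ob_VI H R S hv i h)
      have hn1 : f (v - f v (e i) • e i) (v - f v (e i) • e i) ≠ 0 := by
        rw [drop_norm H R, ob_norm H R S hv, sub_ne_zero]; exact Ne.symm h1
      obtain ⟨s, hs0, hs1, -⟩ := exists_normal H hn1
      have hw := ob_plane H R S A hv hiI (mem_supp.1 hi) h1 hs1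
        ⟨-(s⁻¹ * f v (e i)), s⁻¹, by rw [smul_sub, smul_smul]; module⟩
      refine ih _ hw ?_
      have : supp f e (s⁻¹ • (v - f v (e i) • e i)) = (supp f e v).erase i := by
        ext k
        rw [mem_supp, mem_erase, mem_supp, H.smul_left, drop_coord H R]
        split_ifs with h
        · simp [h]
        · simp [h, hs0]
      rw [this, card_erase_of_mem hi, hc]; rfl
    intro v hv hc
    by_cases hex : ∃ i ∈ supp f e v, N σ (f v (e i)) ≠ 1
    · obtain ⟨i, hi, h1⟩ := hex
      exact good v hv hc i hi h1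
    · push Not at hex
      -- a unit with N (z - 1) ≠ 1
      obtain ⟨z, hz, hz1, hk⟩ : ∃ z ∈ U σ, z ≠ 1 ∧ N σ (z - 1) ≠ 1 := by
        by_contra hcon
        push Not at hcon
        have h1 := card_kappa A
        have h2 : (((U σ).erase 1).image fun ζ => N σ (ζ - 1)) ⊆ {1} := by
          intro k hk
          obtain ⟨z, hz, rfl⟩ := mem_image.1 hk
          rw [mem_singleton]
          exact hcon z (mem_of_mem_erase hz) (mem_erase.1 hz).1
        have h3 := card_le_card h2
        rw [card_singleton] at h3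
        omega
      obtain ⟨i, hi⟩ : (supp f e v).Nonempty := by rw [← card_pos, hc]; omega
      obtain ⟨j, hj⟩ : ((supp f e v).erase i).Nonempty := by
        rw [← card_pos, card_erase_of_mem hi, hc]; omega
      have hji := ne_of_mem_erase hj
      have hj' := mem_of_mem_erase hj
      have hiI : i ∈ I := by
        by_contra h; exact (mem_supp.1 hi) (ob_VI H R S hv i h)
      have hv' := ob_rr H R S hv (ob_e hiI) hz
      set v' := rr f v z (e i) with hv'def
      have hco : ∀ k, f v' (e k) = f (e i) (e k) + (z - 1) * σ (f v (e i)) * f v (e k) := by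
        intro k
        rw [hv'def, rr, H.add_left, H.smul_left, ← H.herm]
      have hii : f v' (e i) = z := by
        rw [hco, R.self' i]
        have := hex i hi
        unfold N at this
        linear_combination (z - 1) * this
      have hsup : supp f e v' = supp f e v := by
        ext k
        rw [mem_supp, mem_supp]
        by_cases hk : k = i
        · rw [hk, hii]
          exact ⟨fun _ => mem_supp.1 hi, fun _ => U_ne hz⟩
        · rw [hco, R.ne (Ne.symm hk), zero_add]
          have h1 : (z - 1) * σ (f v (e i)) ≠ 0 :=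
            mul_ne_zero (sub_ne_zero.2 hz1) (H.sigma_ne (mem_supp.1 hi))
          simp [h1]
      refine good v' hv' (by rw [hsup, hc]) j (by rw [hsup]; exact hj') ?_
      rw [hco, R.ne hji.symm, zero_add]
      have e1 : N σ ((z - 1) * σ (f v (e i)) * f v (e j)) = N σ (z - 1) * N σ (f v (e i)) * N σ (f v (e j)) := by
        unfold N
        simp only [map_mul, A.inv]
        ring
      rw [e1, hex i hi, hex j hj', mul_one, mul_one]
      exact hk

end sy

end Cfsg.Agent.Lib.Uf98
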