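import Mathlib
import Cfsg.Agent.Lib.UfD

set_option autoImplicit false

/-!
A nonmonomial group with all frame reflections is transitive on the vectors of norm one.
-/

namespace Cfsg.Agent.Lib.Uf98

open Finset Cfsg.Agent.Lib.UnTrans
open Cfsg.Agent.Lib.SpTrans (isom mem_isom)

variable {F : Type*} [Field F] [Fintype F] [DecidableEq F] {σ : F →+* F} {q : ℕ}
variable {V : Type*} [AddCommGroup V] [Module F V] {f : V → V → F}
variable {ι : Type*} [Fintype ι] [DecidableEq ι] {e : ι → V}
variable {I : Finset ι} {X : Subgroup (V ≃ₗ[F] V)}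

section fr2
variable (H : HS σ f) (R : Fr f e)
include H R

omit [Fintype F] [DecidableEq F] in
theorem pair_vec {v : V} {a b : ι} (hab : a ≠ b) (h : ∀ k, k ≠ a → k ≠ b → f v (e k) = 0) :
    v = f v (e a) • e a + f v (e b) • e b := by
  apply R.ext
  intro k
  rw [H.add_left, H.smul_left, H.smul_left, R.on, R.on]
  by_cases h1 : k = a
  · subst h1; rw [if_pos rfl, if_neg hab.symm]; ring
  · by_cases h2 : k = b
    · subst h2; rw [if_pos rfl, if_neg hab]; ring
    · rw [if_neg (Ne.symm h1), if_neg (Ne.symm h2), h k h1 h2]; ring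

omit [Fintype F] [DecidableEq F] in
theorem pair_norm {v : V} {a b : ι} (hab : a ≠ b) (h : ∀ k, k ≠ a → k ≠ b → f v (e k) = 0) :
    f v v = N σ (f v (e a)) + N σ (f v (e b)) := by
  have h1 := pair_vec H R hab h
  conv_lhs => rw [h1]
  rw [H.add_left, H.add_right, H.add_right, H.smul_left, H.smul_left, H.smul_left, H.smul_left,
    H.smul_right, H.smul_right, H.smul_right, H.smul_right, R.self', R.self', R.ne hab, R.ne hab.symm]
  unfold N; ring

omit [Fintype F] [DecidableEq F] in
theorem swap_coord {i j : ι} (hij : i ≠ j) (u : V) (k : ι) :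
    f (u - f u (e i - e j) • (e i - e j)) (e k) = f u (e (Equiv.swap i j k)) := by
  rw [H.sub_left, H.smul_left, H.sub_right, H.sub_left, R.on, R.on]
  by_cases h1 : k = i
  · subst h1; rw [if_pos rfl, if_neg hij.symm, Equiv.swap_apply_left]; ring
  · by_cases h2 : k = j
    · subst h2; rw [if_pos rfl, if_neg hij, Equiv.swap_apply_right]; ring
    · rw [if_neg (Ne.symm h1), if_neg (Ne.symm h2), Equiv.swap_apply_of_ne_of_ne h1 h2]; ring

omit [Fintype F] in
theorem supp_pair {v : V} {a b : ι} (h : supp f e v = {a, b}) : ∀ k, k ≠ a → k ≠ b → f v (e k) = 0 := by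
  intro k h1 h2
  by_contra h3
  have : k ∈ supp f e v := mem_supp.2 h3
  rw [h] at this
  simp [h1, h2] at this

omit [Fintype F] in
theorem supp_card_le {v w : V} (h : ∀ k, f v (e k) = 0 → f w (e k) = 0) :
    supp f e w ⊆ supp f e v := by
  intro k hk
  rw [mem_supp] at *
  exact fun h1 => hk (h k h1)

end fr2

section sy
variable (H : HS σ f) (R : Fr f e) (S : Sy σ f e I X)
include H R S

theorem ob_swap {v : V} (hv : v ∈ Ob e I X) {i j : ι} (hi : i ∈ I) (hj : j ∈ I) (hij : i ≠ j) :
    ∃ w ∈ Ob e I X, ∀ k, f w (e k) = f v (e (Equiv.swap i j k)) := by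
  obtain ⟨x, hx, h⟩ := S.swap i hi j hj hij
  refine ⟨x v, ob_map hv hx, fun k => ?_⟩
  rw [h v (ob_VI H R S hv), swap_coord H R hij]

theorem two_move {a b c : ι} (hab : a ≠ b) (ha : a ∈ I) (hc : c ∈ I) (hcb : c ≠ b)
    (h : ∃ w ∈ Ob e I X, supp f e w = {a, b}) : ∃ w ∈ Ob e I X, supp f e w = {c, b} := by
  by_cases hca : c = a
  · rw [hca]; exact h
  · obtain ⟨w, hw, hs⟩ := h
    obtain ⟨w', hw', h'⟩ := ob_swap H R S hw ha hc (Ne.symm hca)
    refine ⟨w', hw', ?_⟩
    ext k
    rw [mem_supp, h' k, ← mem_supp, hs]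
    simp only [mem_insert, mem_singleton]
    by_cases h1 : k = a
    · subst h1
      rw [Equiv.swap_apply_left]
      constructor
      · rintro (h | h)
        · exact absurd h hca
        · exact absurd h hcb
      · rintro (h | h)
        · exact absurd h.symm hca
        · exact absurd h hab
    · by_cases h2 : k = c
      · subst h2; rw [Equiv.swap_apply_right]; simp
      · rw [Equiv.swap_apply_of_ne_of_ne h1 h2]; simp [h1, h2]

theorem two_all (h : ∃ w ∈ Ob e I X, (supp f e w).card = 2) {k l : ι} (hk : k ∈ I) (hl : l ∈ I) (hkl : k ≠ l) :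
    ∃ w ∈ Ob e I X, supp f e w = {k, l} := by
  obtain ⟨w, hw, hc⟩ := h
  obtain ⟨a, b, hab, hs⟩ := card_eq_two.1 hc
  have haI : a ∈ I := by
    by_contra h
    have : a ∈ supp f e w := by rw [hs]; simp
    exact (mem_supp.1 this) (ob_VI H R S hw a h)
  have hbI : b ∈ I := by
    by_contra h
    have : b ∈ supp f e w := by rw [hs]; simp
    exact (mem_supp.1 this) (ob_VI H R S hw b h)
  by_cases hkb : k = b
  · subst hkb
    have := two_move H R S hab haI hl hkl.symm ⟨w, hw, hs⟩
    rwa [pair_comm] at this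
  · have h1 := two_move H R S hab haI hk hkb ⟨w, hw, hs⟩
    rw [pair_comm] at h1
    have h2 := two_move H R S (Ne.symm hkb) hbI hl hkl.symm h1
    rwa [pair_comm] at h2

/-- vectors fixed by elements fixing frame vectors -/
theorem fix_rest {x : V ≃ₗ[F] V} {J : Finset ι} (hx : ∀ k ∈ I, k ∉ J → x (e k) = e k) {u : V}
    (hu : u ∈ VI f e I) (huJ : ∀ k ∈ J, f u (e k) = 0) : x u = u := by
  conv_lhs => rw [R.span u]
  conv_rhs => rw [R.span u]
  rw [map_sum]
  refine sum_congr rfl fun k _ => ?_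
  rw [LinearEquiv.map_smul]
  by_cases h1 : k ∈ J
  · rw [huJ k h1, zero_smul, zero_smul]
  · by_cases h2 : k ∈ I
    · rw [hx k h2 h1]
    · rw [hu k h2, zero_smul, zero_smul]

/-- local transitivity -/
theorem locl (A : Ar σ q) {a c : ι} (ha : a ∈ I) (hc : c ∈ I) (hac : a ≠ c)
    (h : ∃ w ∈ Ob e I X, (supp f e w).card = 2) {g : V} (hg : f g g = 1)
    (hgs : ∀ k, k ≠ a → k ≠ c → f g (e k) = 0) :
    ∃ x ∈ X, x (e a) = g ∧ ∀ k ∈ I, k ∉ ({a, c} : Finset ι) → x (e k) = e k := by
  obtain ⟨w, hw, hws⟩ := two_all H R S h ha hc hac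
  have hw0 := supp_pair H R hws
  have hwv := pair_vec H R hac hw0
  have hwn := pair_norm H R hac hw0
  rw [ob_norm H R S hw] at hwn
  have hwa : f w (e a) ≠ 0 := mem_supp.1 (by rw [hws]; simp)
  have hwc : f w (e c) ≠ 0 := mem_supp.1 (by rw [hws]; simp)
  have hNc : N σ (f w (e c)) ≠ 0 := by rw [Ne, N_eq_zero]; exact hwc
  set Y : Set V := {v | ∃ x ∈ X, x (e a) = v ∧ ∀ k ∈ I, k ∉ ({a, c} : Finset ι) → x (e k) = e k} with hY
  have hYV : ∀ v ∈ Y, v ∈ VI f e I := by
    rintro v ⟨x, hx, rfl, -⟩; exact S.pres x hx _ (R.mem_VI ha)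
  have main : g ∈ Y := by
    refine plane A H (R.self' a) (ob_norm H R S hw) hwa ?_ Y ?_ ?_ ?_ ?_ hg ?_
    · intro h1
      apply hNc
      linear_combination -hwn - h1
    · rintro v ⟨x, hx, rfl, h2⟩ z hz
      obtain ⟨y, hy, h3⟩ := S.refl a ha z hz
      refine ⟨x * y, mul_mem hx hy, ?_, fun k hk hka => ?_⟩
      · rw [LinearEquiv.mul_apply, h3 _ (R.mem_VI ha), rr, R.self' a]
        have : e a + ((z - 1) * 1) • e a = z • e a := by module
        rw [this, LinearEquiv.map_smul x]
      · have hka' : k ≠ a := fun h => hka (by rw [h]; simp)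
        rw [LinearEquiv.mul_apply, h3 _ (R.mem_VI hk), rr, R.ne hka', mul_zero, zero_smul, add_zero, h2 k hk hka]
    · rintro v ⟨x, hx, rfl, h2⟩ z hz
      obtain ⟨y, hy, h3⟩ := S.refl a ha z hz
      refine ⟨y * x, mul_mem hy hx, ?_, fun k hk hka => ?_⟩
      · rw [LinearEquiv.mul_apply, h3 _ (S.pres x hx _ (R.mem_VI ha))]
      · have hka' : k ≠ a := fun h => hka (by rw [h]; simp)
        rw [LinearEquiv.mul_apply, h2 k hk hka, h3 _ (R.mem_VI hk), rr, R.ne hka', mul_zero, zero_smul, add_zero]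
    · rintro v ⟨x, hx, rfl, h2⟩ z hz
      obtain ⟨y, hy, h3⟩ := ob_refl H R S hw hz
      refine ⟨y * x, mul_mem hy hx, ?_, fun k hk hka => ?_⟩
      · rw [LinearEquiv.mul_apply, h3 _ (S.pres x hx _ (R.mem_VI ha))]
      · have hka' : k ≠ a := fun h => hka (by rw [h]; simp)
        have hkc' : k ≠ c := fun h => hka (by rw [h]; simp)
        rw [LinearEquiv.mul_apply, h2 k hk hka, h3 _ (R.mem_VI hk), rr,
          H.symm_zero (hw0 k hka' hkc'), mul_zero, zero_smul, add_zero]
    · exact ⟨1, one_mem _, rfl, fun _ _ _ => rfl⟩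
    · have hgv := pair_vec H R hac hgs
      refine ⟨f g (e a) - f g (e c) / f w (e c) * f w (e a), f g (e c) / f w (e c), ?_⟩
      have hec : e c = (f w (e c))⁻¹ • (w - f w (e a) • e a) := by
        have h5 : w - f w (e a) • e a = f w (e c) • e c := by
          nth_rw 1 [hwv]; abel
        rw [h5, smul_smul, inv_mul_cancel₀ hwc, one_smul]
      conv_lhs => rw [hgv]
      nth_rw 2 [hec]
      match_scalars
      · field_simp; ring
      · field_simp
  exact main

/-- reduction step -/
theorem red (A : Ar σ q) (h : ∃ w ∈ Ob e I X, (supp f e w).card = 2) {v : V} (hv : v ∈ VI f e I)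
    (hvv : f v v = 1) {a c : ι} (ha : a ∈ supp f e v) (hc : c ∈ supp f e v) (hac : a ≠ c)
    (hN : N σ (f v (e a)) + N σ (f v (e c)) ≠ 0)
    (ih : ∀ w ∈ VI f e I, f w w = 1 → (supp f e w).card < (supp f e v).card → w ∈ Ob e I X) :
    v ∈ Ob e I X := by
  have inI : ∀ k ∈ supp f e v, k ∈ I := by
    intro k hk; by_contra h; exact (mem_supp.1 hk) (hv k h)
  set p := f v (e a) • e a + f v (e c) • e c with hp
  have hpk : ∀ k, f p (e k) = if k = a then f v (e a) else if k = c then f v (e c) else 0 := by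
    intro k
    rw [hp, H.add_left, H.smul_left, H.smul_left, R.on, R.on]
    by_cases h1 : k = a
    · subst h1; rw [if_pos rfl, if_neg hac.symm, if_pos rfl]; ring
    · by_cases h2 : k = c
      · subst h2; rw [if_pos rfl, if_neg hac, if_neg h1, if_pos rfl]; ring
      · rw [if_neg (Ne.symm h1), if_neg (Ne.symm h2), if_neg h1, if_neg h2]; ring
  have hp0 : ∀ k, k ≠ a → k ≠ c → f p (e k) = 0 := fun k h1 h2 => by rw [hpk, if_neg h1, if_neg h2]
  have hpn : f p p = N σ (f v (e a)) + N σ (f v (e c)) := by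
    rw [pair_norm H R hac hp0, hpk, hpk, if_pos rfl, if_neg hac.symm, if_pos rfl]
  obtain ⟨s, hs0, hs1, -⟩ := exists_normal H (v := p) (by rw [hpn]; exact hN)
  obtain ⟨x, hx, hxa, hxk⟩ := locl H R S A (inI a ha) (inI c hc) hac h hs1 (fun k h1 h2 => by
    rw [H.smul_left, hp0 k h1 h2, mul_zero])
  have hrV : v - p ∈ VI f e I := by
    intro k hk
    have h1 : k ≠ a := fun h => hk (h ▸ inI a ha)
    have h2 : k ≠ c := fun h => hk (h ▸ inI c hc)
    rw [H.sub_left, hv k hk, hp0 k h1 h2, sub_zero]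
  have hr : x (v - p) = v - p := by
    refine fix_rest H R S hxk hrV fun k hk => ?_
    rw [H.sub_left, hpk]
    simp only [mem_insert, mem_singleton] at hk
    rcases hk with rfl | rfl
    · rw [if_pos rfl, sub_self]
    · rw [if_neg hac.symm, if_pos rfl, sub_self]
  have hxv : x (s • e a + (v - p)) = v := by
    rw [map_add, hr, LinearEquiv.map_smul x, hxa, smul_smul, mul_inv_cancel₀ hs0, one_smul]; abel
  have hw : s • e a + (v - p) ∈ Ob e I X := by
    apply ih
    · exact VI_add H (VI_smul H (R.mem_VI (inI a ha)) _) hrV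
    · rw [← S.isom hx, hxv]; exact hvv
    · refine lt_of_le_of_lt (card_le_card (t := (supp f e v).erase c) ?_) (card_erase_lt_of_mem hc)
      intro k hk
      rw [mem_supp, H.add_left, H.smul_left, H.sub_left, hpk, R.on] at hk
      rw [mem_erase, mem_supp]
      by_cases h1 : k = a
      · subst h1; exact ⟨hac, mem_supp.1 ha⟩
      · rw [if_neg (Ne.symm h1), if_neg h1] at hk
        by_cases h2 : k = c
        · subst h2; rw [if_pos rfl] at hk; simp at hk
        · rw [if_neg h2] at hk
          refine ⟨h2, ?_⟩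
          simpa using hk
  rw [← hxv]
  exact ob_map hw hx

theorem ob_all (A : Ar σ q) (hq : 3 ≤ q) (h : ∃ w ∈ Ob e I X, 2 ≤ (supp f e w).card) {v : V}
    (hv : v ∈ VI f e I) (hvv : f v v = 1) : v ∈ Ob e I X := by
  have h2 : ∃ w ∈ Ob e I X, (supp f e w).card = 2 := by
    obtain ⟨w, hw, hc⟩ := h
    exact exists_two H R S A hq ((supp f e w).card - 2) w hw (by omega)
  obtain ⟨n, hn⟩ : ∃ n, (supp f e v).card = n := ⟨_, rfl⟩
  induction n using Nat.strong_induction_on generalizing v with
  | _ n ih =>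
  have ih' : ∀ w ∈ VI f e I, f w w = 1 → (supp f e w).card < n → w ∈ Ob e I X :=
    fun w hw hw1 hlt => ih _ hlt hw hw1 rfl
  have inI : ∀ k ∈ supp f e v, k ∈ I := by
    intro k hk; by_contra h; exact (mem_supp.1 hk) (hv k h)
  rcases Nat.lt_or_ge n 1 with h0 | h1
  · -- empty support
    exfalso
    have : supp f e v = ∅ := by rw [← card_eq_zero]; omega
    have hv0 : v = 0 := R.ext fun i => by
      rw [H.zero_left]
      by_contra h
      have : i ∈ supp f e v := mem_supp.2 h
      simp_all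
    rw [hv0, H.zero_left] at hvv
    exact zero_ne_one hvv
  rcases Nat.lt_or_ge n 2 with h1' | h2'
  · obtain ⟨a, ha⟩ := card_eq_one.1 (show (supp f e v).card = 1 by omega)
    have haI : a ∈ I := inI a (by rw [ha]; simp)
    have hva : v = f v (e a) • e a := by
      apply R.ext
      intro k
      rw [H.smul_left, R.on]
      by_cases h : k = a
      · rw [h, if_pos rfl, mul_one]
      · rw [if_neg (Ne.symm h), mul_zero]
        by_contra h3
        have : k ∈ supp f e v := mem_supp.2 h3
        rw [ha] at this; simp [h] at this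
    rw [hva]
    refine ob_smul H R S (ob_e haI) ?_
    rw [mem_U]
    rw [hva, H.smul_left, H.smul_right, R.self', mul_one] at hvv
    exact hvv
  rcases Nat.lt_or_ge n 3 with h2'' | h3
  · obtain ⟨a, b, hab, hs⟩ := card_eq_two.1 (show (supp f e v).card = 2 by omega)
    obtain ⟨x, hx, hxa, -⟩ := locl H R S A (inI a (by rw [hs]; simp)) (inI b (by rw [hs]; simp)) hab h2 hvv
      (supp_pair H R hs)
    exact ⟨x, hx, a, inI a (by rw [hs]; simp), hxa⟩
  · obtain ⟨T, hT, hTc⟩ := exists_subset_card_eq (s := supp f e v) (n := 3) (by omega)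
    obtain ⟨a, b, c, hab, hac, hbc, rfl⟩ := card_eq_three.1 hTc
    have ha := hT (by simp : a ∈ ({a, b, c} : Finset ι))
    have hb := hT (by simp : b ∈ ({a, b, c} : Finset ι))
    have hc := hT (by simp : c ∈ ({a, b, c} : Finset ι))
    by_cases hN : N σ (f v (e a)) + N σ (f v (e c)) = 0
    swap
    · exact red H R S A h2 hv hvv ha hc hac hN (by rw [hn]; exact ih')
    obtain ⟨w, hw, hws⟩ := two_all H R S h2 (inI a ha) (inI b hb) hab
    have hw0 := supp_pair H R hws
    have hwn := pair_norm H R hab hw0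
    rw [ob_norm H R S hw] at hwn
    have hwa : f w (e a) ≠ 0 := mem_supp.1 (by rw [hws]; simp)
    have hwb : f w (e b) ≠ 0 := mem_supp.1 (by rw [hws]; simp)
    have hNa : N σ (f w (e a)) ≠ 0 := by rw [Ne, N_eq_zero]; exact hwa
    obtain ⟨z, hz, hz1, hz2⟩ := exists_unit_ne A 1 (1 - (N σ (f w (e a)))⁻¹)
    have hA : f v (e a) * (1 + (z - 1) * N σ (f w (e a))) ≠ 0 := by
      refine mul_ne_zero (mem_supp.1 ha) fun h => hz2 ?_
      field_simp
      linear_combination h
    have hB : (z - 1) * f v (e b) * σ (f w (e b)) * f w (e a) ≠ 0 :=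
      mul_ne_zero (mul_ne_zero (mul_ne_zero (sub_ne_zero.2 hz1) (mem_supp.1 hb)) (H.sigma_ne hwb)) hwa
    have hre := card_reach A hA hB
    obtain ⟨ψ, hψ, hψN⟩ : ∃ ψ ∈ U σ, N σ (f v (e a) * (1 + (z - 1) * N σ (f w (e a))) +
        (z - 1) * f v (e b) * σ (f w (e b)) * f w (e a) * ψ) ≠ N σ (f v (e a)) := by
      by_contra hcon
      push Not at hcon
      have : ((U σ).image fun φ => N σ (f v (e a) * (1 + (z - 1) * N σ (f w (e a))) +
        (z - 1) * f v (e b) * σ (f w (e b)) * f w (e a) * φ)) ⊆ {N σ (f v (e a))} := by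
        intro s hs
        obtain ⟨φ, hφ, rfl⟩ := mem_image.1 hs
        rw [mem_singleton]; exact hcon φ hφ
      have h5 := card_le_card this
      rw [card_singleton] at h5
      omega
    -- the rotated vector
    set w' := f w (e a) • e a + (σ ψ * f w (e b)) • e b with hw'
    have hw'a : f w' (e a) = f w (e a) := by
      rw [hw', H.add_left, H.smul_left, H.smul_left, R.self', R.ne hab.symm]; ring
    have hw'b : f w' (e b) = σ ψ * f w (e b) := by
      rw [hw', H.add_left, H.smul_left, H.smul_left, R.self', R.ne hab]; ring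
    have hw'0 : ∀ k, k ≠ a → k ≠ b → f w' (e k) = 0 := by
      intro k h1 h2
      rw [hw', H.add_left, H.smul_left, H.smul_left, R.ne (Ne.symm h1), R.ne (Ne.symm h2)]; ring
    have hw'n : f w' w' = 1 := by
      rw [pair_norm H R hab hw'0, hw'a, hw'b, hwn]
      rw [mem_U] at hψ
      unfold N
      rw [map_mul, A.inv]
      linear_combination (f w (e b) * σ (f w (e b))) * hψ
    have hw'Ob : w' ∈ Ob e I X := by
      obtain ⟨x, hx, hxa, -⟩ := locl H R S A (inI a ha) (inI b hb) hab h2 hw'n hw'0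
      exact ⟨x, hx, a, inI a ha, hxa⟩
    obtain ⟨x, hx, hxu⟩ := ob_refl H R S hw'Ob hz
    have hxv := hxu v hv
    have hfvw : f v w' = f v (e a) * σ (f w (e a)) + f v (e b) * σ (f w (e b)) * ψ := by
      rw [hw', H.add_right, H.smul_right, H.smul_right, map_mul, A.inv]; ring
    have hxk : ∀ k, f (x v) (e k) = f v (e k) + (z - 1) * f v w' * f w' (e k) := by
      intro k; rw [hxv, rr, H.add_left, H.smul_left]
    have hxa' : f (x v) (e a) = f v (e a) * (1 + (z - 1) * N σ (f w (e a))) +
        (z - 1) * f v (e b) * σ (f w (e b)) * f w (e a) * ψ := by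
      rw [hxk, hfvw, hw'a]; unfold N; ring
    have hxc' : f (x v) (e c) = f v (e c) := by
      rw [hxk, hw'0 c hac.symm hbc.symm, mul_zero, add_zero]
    have hsub : supp f e (x v) ⊆ supp f e v := by
      intro k hk
      by_cases h1 : k = a
      · rw [h1]; exact ha
      · by_cases h2 : k = b
        · rw [h2]; exact hb
        · rw [mem_supp, hxk, hw'0 k h1 h2, mul_zero, add_zero] at hk
          exact mem_supp.2 hk
    have hxV : x v ∈ VI f e I := S.pres x hx v hv
    have hxn : f (x v) (x v) = 1 := by rw [S.isom hx]; exact hvv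
    have hOb : x v ∈ Ob e I X := by
      rcases Nat.lt_or_ge (supp f e (x v)).card n with h5 | h5
      · exact ih' _ hxV hxn h5
      · have heq : supp f e (x v) = supp f e v := eq_of_subset_of_card_le hsub (by rw [hn]; exact h5)
        refine red H R S A h2 hxV hxn (a := a) (c := c) (by rw [heq]; exact ha) (by rw [heq]; exact hc) hac ?_
          (by rw [heq, hn]; exact ih')
        rw [hxc']
        intro h6
        apply hψN
        rw [← hxa']
        linear_combination h6 - hN
    have := ob_map hOb (inv_mem hx)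
    have h7 : x⁻¹ (x v) = v := by rw [← LinearEquiv.mul_apply, inv_mul_cancel]; rfl
    rwa [h7] at this

end sy

end Cfsg.Agent.Lib.Uf98
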