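import Mathlib
import Cfsg.Agent.Lib.UfE

set_option autoImplicit false

/-!
Generation: a nonmonomial group with all frame reflections induces the full isometry group.
-/

namespace Cfsg.Agent.Lib.Uf98

open Finset Cfsg.Agent.Lib.UnTrans
open Cfsg.Agent.Lib.SpTrans (isom mem_isom)

variable {F : Type*} [Field F] [Fintype F] [DecidableEq F] {σ : F →+* F} {q : ℕ}
variable {V : Type*} [AddCommGroup V] [Module F V] {f : V → V → F}
variable {ι : Type*} [Fintype ι] [DecidableEq ι] {e : ι → V}

omit [Fintype F] [DecidableEq F] [Fintype ι] [DecidableEq ι] in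
theorem VI_mono {I J : Finset ι} (h : I ⊆ J) {u : V} (hu : u ∈ VI f e I) : u ∈ VI f e J :=
  fun i hi => hu i fun hi' => hi (h hi')

/-- the subgroup fixing a vector -/
def fx (X : Subgroup (V ≃ₗ[F] V)) (v : V) : Subgroup (V ≃ₗ[F] V) := X ⊓ MulAction.stabilizer (V ≃ₗ[F] V) v

omit [Fintype F] [DecidableEq F] in
theorem mem_fx {X : Subgroup (V ≃ₗ[F] V)} {v : V} {x : V ≃ₗ[F] V} : x ∈ fx X v ↔ x ∈ X ∧ x v = v := by
  rw [fx, Subgroup.mem_inf, MulAction.mem_stabilizer_iff, LinearEquiv.smul_def]

omit [Fintype F] [DecidableEq F] in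
theorem inv_apply_self' (x : V ≃ₗ[F] V) (v : V) : x⁻¹ (x v) = v := by
  rw [← LinearEquiv.mul_apply, inv_mul_cancel]; rfl

omit [Fintype F] [DecidableEq F] in
theorem apply_inv_self' (x : V ≃ₗ[F] V) (v : V) : x (x⁻¹ v) = v := by
  rw [← LinearEquiv.mul_apply, mul_inv_cancel]; rfl

variable (H : HS σ f) (R : Fr f e)
include H R

theorem gen (A : Ar σ q) (hq : 3 ≤ q) (n : ℕ) : ∀ (I : Finset ι) (X : Subgroup (V ≃ₗ[F] V)), Sy σ f e I X →
    I.card = n → (2 ≤ n → ∃ w ∈ Ob e I X, 2 ≤ (supp f e w).card) →
    ∀ g ∈ isom f, (∀ u ∈ VI f e I, g u ∈ VI f e I) → ∃ x ∈ X, ∀ u ∈ VI f e I, x u = g u := by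
  induction n with
  | zero =>
    intro I X S hI _ g hg _
    rw [card_eq_zero] at hI
    subst hI
    refine ⟨1, one_mem _, fun u hu => ?_⟩
    have : u = 0 := R.ext fun i => by rw [H.zero_left]; exact hu i (by simp)
    rw [this, map_zero, map_zero]
  | succ n ih =>
    intro I X S hI hnm g hg hgI
    by_cases hn : n = 0
    · subst hn
      obtain ⟨i, rfl⟩ := card_eq_one.1 hI
      have hi : i ∈ ({i} : Finset ι) := by simp
      have single : ∀ u ∈ VI f e {i}, u = f u (e i) • e i := by
        intro u hu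
        apply R.ext
        intro k
        rw [H.smul_left, R.on]
        by_cases h : k = i
        · rw [h, if_pos rfl, mul_one]
        · rw [if_neg (Ne.symm h), mul_zero]; exact hu k (by simpa using h)
      have hge := hgI _ (R.mem_VI hi)
      have h1 := single _ hge
      have h2 : f (g (e i)) (e i) ∈ U σ := by
        have h3 : f (g (e i)) (g (e i)) = 1 := by rw [hg]; exact R.self' i
        rw [h1, H.smul_left, H.smul_right, R.self', mul_one] at h3
        rw [mem_U]; exact h3
      obtain ⟨x, hx, hxu⟩ := S.refl i hi _ h2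
      refine ⟨x, hx, fun u hu => ?_⟩
      have h4 := single u hu
      have h5 : g u = (f u (e i) * f (g (e i)) (e i)) • e i := by
        conv_lhs => rw [h4]
        rw [LinearEquiv.map_smul g, h1, smul_smul]
        congr 2
        rw [H.smul_left, R.self', mul_one]
      rw [hxu u hu, rr, h5]
      nth_rw 1 [h4]
      module
    · obtain ⟨i, hi⟩ : I.Nonempty := by rw [← card_pos]; omega
      have hnm' := hnm (by omega)
      have h2 : ∃ w ∈ Ob e I X, (supp f e w).card = 2 := by
        obtain ⟨w, hw, hc⟩ := hnm'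
        exact exists_two H R S A hq ((supp f e w).card - 2) w hw (by omega)
      have hgOb : g (e i) ∈ Ob e I X :=
        ob_all H R S A hq hnm' (hgI _ (R.mem_VI hi)) (by rw [hg]; exact R.self' i)
      obtain ⟨y, hy, hye⟩ : ∃ y ∈ X, y (e i) = g (e i) := by
        obtain ⟨y, hy, j, hj, hyj⟩ := hgOb
        by_cases hij : i = j
        · exact ⟨y, hy, by rw [hij] at hyj ⊢; exact hyj⟩
        · obtain ⟨s, hs, hsu⟩ := S.swap i hi j hj hij
          refine ⟨y * s, mul_mem hy hs, ?_⟩
          rw [LinearEquiv.mul_apply, hsu _ (R.mem_VI hi), H.sub_right, R.self', R.ne hij, sub_zero, one_smul]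
          have : e i - (e i - e j) = e j := by abel
          rw [this, hyj]
      set g' := y⁻¹ * g with hg'
      have hg'e : g' (e i) = e i := by
        rw [hg', LinearEquiv.mul_apply, ← hye, inv_apply_self']
      have hg'i : g' ∈ isom f := mul_mem (inv_mem (S.isom hy)) hg
      have hg'I : ∀ u ∈ VI f e I, g' u ∈ VI f e I := by
        intro u hu
        rw [hg', LinearEquiv.mul_apply]
        exact S.pres _ (inv_mem hy) _ (hgI u hu)
      have erase_pres : ∀ x : V ≃ₗ[F] V, x ∈ isom f → x (e i) = e i → (∀ u ∈ VI f e I, x u ∈ VI f e I) →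
          ∀ u ∈ VI f e (I.erase i), x u ∈ VI f e (I.erase i) := by
        intro x hx hxe hxI u hu k hk
        by_cases h : k = i
        · rw [h]
          have : f (x u) (x (e i)) = 0 := by rw [hx]; exact hu i (by simp)
          rwa [hxe] at this
        · exact hxI u (VI_mono (erase_subset _ _) hu) k (fun h' => hk (mem_erase.2 ⟨h, h'⟩))
      have S' : Sy σ f e (I.erase i) (fx X (e i)) := by
        refine ⟨fun x hx => S.isom (mem_fx.1 hx).1, fun x hx => ?_, fun j hj z hz => ?_, fun j hj k hk hjk => ?_⟩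
        · exact erase_pres x (S.isom (mem_fx.1 hx).1) (mem_fx.1 hx).2 (S.pres x (mem_fx.1 hx).1)
        · obtain ⟨x, hx, hxu⟩ := S.refl j (mem_of_mem_erase hj) z hz
          refine ⟨x, mem_fx.2 ⟨hx, ?_⟩, fun u hu => hxu u (VI_mono (erase_subset _ _) hu)⟩
          rw [hxu _ (R.mem_VI hi), rr, R.ne (ne_of_mem_erase hj).symm, mul_zero, zero_smul, add_zero]
        · obtain ⟨x, hx, hxu⟩ := S.swap j (mem_of_mem_erase hj) k (mem_of_mem_erase hk) hjk
          refine ⟨x, mem_fx.2 ⟨hx, ?_⟩, fun u hu => hxu u (VI_mono (erase_subset _ _) hu)⟩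
          rw [hxu _ (R.mem_VI hi), H.sub_right, R.ne (ne_of_mem_erase hj).symm, R.ne (ne_of_mem_erase hk).symm,
            sub_zero, zero_smul, sub_zero]
      obtain ⟨x', hx', hx'u⟩ := ih (I.erase i) (fx X (e i)) S' (by rw [card_erase_of_mem hi]; omega) (by
        intro h2n
        obtain ⟨T, hT, hTc⟩ := exists_subset_card_eq (s := I.erase i) (n := 2) (by
          rw [card_erase_of_mem hi]; omega)
        obtain ⟨j, k, hjk, rfl⟩ := card_eq_two.1 hTc
        have hj := hT (by simp : j ∈ ({j, k} : Finset ι))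
        have hk := hT (by simp : k ∈ ({j, k} : Finset ι))
        obtain ⟨w, hw, hws⟩ := two_all H R S h2 (mem_of_mem_erase hj) (mem_of_mem_erase hk) hjk
        have hw0 := supp_pair H R hws
        have hwj : f w (e j) ≠ 0 := mem_supp.1 (by rw [hws]; simp)
        have hwk : f w (e k) ≠ 0 := mem_supp.1 (by rw [hws]; simp)
        have hNa : N σ (f w (e j)) ≠ 0 := by rw [Ne, N_eq_zero]; exact hwj
        obtain ⟨z, hz, hz1, hz2⟩ := exists_unit_ne A 1 (1 - (N σ (f w (e j)))⁻¹)
        obtain ⟨x, hx, hxu⟩ := ob_refl H R S hw hz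
        have hxfx : x ∈ fx X (e i) := by
          refine mem_fx.2 ⟨hx, ?_⟩
          rw [hxu _ (R.mem_VI hi), rr, H.symm_zero (hw0 i (ne_of_mem_erase hj).symm (ne_of_mem_erase hk).symm),
            mul_zero, zero_smul, add_zero]
        refine ⟨x (e j), ⟨x, hxfx, j, hj, rfl⟩, ?_⟩
        have hfj : f (e j) w = σ (f w (e j)) := H.herm _ _
        have c1 : f (x (e j)) (e j) ≠ 0 := by
          rw [hxu _ (R.mem_VI (mem_of_mem_erase hj)), rr, H.add_left, H.smul_left, R.self', hfj]
          intro h; apply hz2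
          have : N σ (f w (e j)) = f w (e j) * σ (f w (e j)) := rfl
          field_simp
          rw [this]
          linear_combination h
        have c2 : f (x (e j)) (e k) ≠ 0 := by
          rw [hxu _ (R.mem_VI (mem_of_mem_erase hj)), rr, H.add_left, H.smul_left, R.ne hjk, hfj, zero_add]
          exact mul_ne_zero (mul_ne_zero (sub_ne_zero.2 hz1) (H.sigma_ne hwj)) hwk
        calc 2 = ({j, k} : Finset ι).card := (card_pair hjk).symm
          _ ≤ _ := card_le_card (by
            intro l hl
            simp only [mem_insert, mem_singleton] at hl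
            rcases hl with rfl | rfl
            · exact mem_supp.2 c1
            · exact mem_supp.2 c2)) g' hg'i (erase_pres g' hg'i hg'e hg'I)
      refine ⟨y * x', mul_mem hy (mem_fx.1 hx').1, fun u hu => ?_⟩
      have hu' : u - f u (e i) • e i ∈ VI f e (I.erase i) := by
        intro k hk
        rw [drop_coord H R]
        split_ifs with h
        · rfl
        · exact hu k fun h' => hk (mem_erase.2 ⟨h, h'⟩)
      have h6 : x' u = g' u := by
        have e1 : u = f u (e i) • e i + (u - f u (e i) • e i) := by abel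
        conv_lhs => rw [e1, map_add, LinearEquiv.map_smul x', (mem_fx.1 hx').2, hx'u _ hu']
        conv_rhs => rw [e1, map_add, LinearEquiv.map_smul g', hg'e]
      rw [LinearEquiv.mul_apply, h6, hg', LinearEquiv.mul_apply, apply_inv_self']

end Cfsg.Agent.Lib.Uf98
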