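import Mathlib
import Cfsg.Agent.Lib.UfF
import Cfsg.Agent.Lib.UnMax

set_option autoImplicit false

/-!
Monomial isometries.
-/

namespace Cfsg.Agent.Lib.Uf98

open Finset Cfsg.Agent.Lib.UnTrans Cfsg.Agent.Lib.UnMax
open Cfsg.Agent.Lib.SpTrans (isom mem_isom)

variable {F : Type*} [Field F] [Fintype F] [DecidableEq F] {σ : F →+* F} {q : ℕ}
variable {V : Type*} [AddCommGroup V] [Module F V] {f : V → V → F}
variable {ι : Type*} [Fintype ι] [DecidableEq ι] {e : ι → V}

/-- the determinant -/
noncomputable def dt (g : V ≃ₗ[F] V) : F := LinearMap.det ((g : V ≃ₗ[F] V) : V →ₗ[F] V)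

omit [Fintype F] [DecidableEq F] in
theorem dt_mul (g h : V ≃ₗ[F] V) : dt (g * h) = dt g * dt h := by
  unfold dt
  rw [← LinearMap.det_comp]; rfl

omit [Fintype F] [DecidableEq F] in
theorem dt_one : dt (1 : V ≃ₗ[F] V) = 1 := by
  unfold dt
  exact LinearMap.det_id

omit [Fintype F] [DecidableEq F] in
theorem dt_inv (g : V ≃ₗ[F] V) : dt g⁻¹ * dt g = 1 := by
  rw [← dt_mul, inv_mul_cancel, dt_one]

/-- monomial maps -/
def Mon (e : ι → V) (g : V ≃ₗ[F] V) : Prop := ∀ i, ∃ j, ∃ c : F, g (e i) = c • e j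

omit [Fintype F] [DecidableEq F] [Fintype ι] [DecidableEq ι] in
theorem Mon.mul {g h : V ≃ₗ[F] V} (hg : Mon e g) (hh : Mon e h) : Mon e (g * h) := by
  intro i
  obtain ⟨j, c, h1⟩ := hh i
  obtain ⟨k, d, h2⟩ := hg j
  exact ⟨k, c * d, by rw [LinearEquiv.mul_apply, h1, LinearEquiv.map_smul g, h2, smul_smul]⟩

omit [Fintype F] [DecidableEq F] [Fintype ι] [DecidableEq ι] in
theorem Mon.one : Mon e (1 : V ≃ₗ[F] V) := fun i => ⟨i, 1, by rw [one_smul]; rfl⟩

section
variable (H : HS σ f) (R : Fr f e)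
include H R

omit [Fintype F] [DecidableEq F] in
theorem e_ne (i : ι) : e i ≠ 0 := by
  intro h
  have := R.self' i
  rw [h, H.zero_left] at this
  exact zero_ne_one this

omit [Fintype F] [DecidableEq F] in
theorem Mon.inv {g : V ≃ₗ[F] V} (hgi : g ∈ isom f) (hg : Mon e g) : Mon e g⁻¹ := by
  choose π c hc using hg
  have c0 : ∀ i, c i ≠ 0 := by
    intro i h
    have := hc i
    rw [h, zero_smul] at this
    exact e_ne H R i ((map_eq_zero_iff g g.injective).1 this)
  have hinj : Function.Injective π := by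
    intro i j hij
    by_contra hne
    have h1 : f (g (e i)) (g (e j)) = 0 := by rw [hgi]; exact R.ne hne
    rw [hc i, hc j, hij, H.smul_left, H.smul_right, R.self', mul_one] at h1
    exact (mul_ne_zero (c0 i) (H.sigma_ne (c0 j))) h1
  intro j
  obtain ⟨i, rfl⟩ := Finite.surjective_of_injective hinj j
  refine ⟨i, (c i)⁻¹, ?_⟩
  have h2 : e (π i) = (c i)⁻¹ • g (e i) := by rw [hc i, smul_smul, inv_mul_cancel₀ (c0 i), one_smul]
  rw [h2, LinearEquiv.map_smul g⁻¹, inv_apply_self']

end

section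
variable (H : HS σ f)

/-- the quasi-reflection as an equivalence -/
noncomputable def rl (v : V) (z : F) (hv : f v v = 1) (hz : z ∈ U σ) : V ≃ₗ[F] V :=
  el H v (z - 1) (by
    rw [mem_U] at hz
    rw [hv, map_sub, map_one]
    linear_combination hz)

theorem rl_apply {v : V} {z : F} (hv : f v v = 1) (hz : z ∈ U σ) (x : V) : rl H v z hv hz x = rr f v z x := by
  rw [rl, el_apply]; rfl

theorem rl_mem {v : V} {z : F} (hv : f v v = 1) (hz : z ∈ U σ) : rl H v z hv hz ∈ isom f := el_mem _ _ _ _

theorem rl_det [FiniteDimensional F V] {v : V} {z : F} (hv : f v v = 1) (hz : z ∈ U σ) :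
    dt (rl H v z hv hz) = z := by
  unfold dt
  rw [rl, el_det, hv]; ring

/-- the reflection with centre of norm two -/
noncomputable def sw (c : V) (hc : f c c = 2) : V ≃ₗ[F] V :=
  el H c (-1) (by rw [hc, map_neg, map_one]; ring)

omit [Fintype F] [DecidableEq F] in
theorem sw_apply {c : V} (hc : f c c = 2) (x : V) : sw H c hc x = x - f x c • c := by
  rw [sw, el_apply]; module

omit [Fintype F] [DecidableEq F] in
theorem sw_mem {c : V} (hc : f c c = 2) : sw H c hc ∈ isom f := el_mem _ _ _ _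

omit [Fintype F] [DecidableEq F] in
theorem sw_det [FiniteDimensional F V] {c : V} (hc : f c c = 2) : dt (sw H c hc) = -1 := by
  unfold dt
  rw [sw, el_det, hc]; ring

end

section
variable (H : HS σ f) (R : Fr f e)
include H R

omit [Fintype F] [DecidableEq F] in
theorem norm_sub {i j : ι} (hij : i ≠ j) {c : F} (hc : c * σ c = 1) : f (e i - c • e j) (e i - c • e j) = 2 := by
  rw [H.sub_left, H.sub_right, H.sub_right, H.smul_left, H.smul_left, H.smul_right, H.smul_right, R.self',
    R.self', R.ne hij, R.ne hij.symm]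
  linear_combination hc

omit [Fintype F] [DecidableEq F] in
theorem norm_sub' {i j : ι} (hij : i ≠ j) : f (e i - e j) (e i - e j) = 2 := by
  have := norm_sub H R hij (c := 1) (by rw [map_one, one_mul])
  rwa [one_smul] at this

theorem rr_e (i k : ι) (z : F) : rr f (e i) z (e k) = (if k = i then z else 1) • e k := by
  unfold rr
  rw [R.on]
  by_cases h : k = i
  · subst h; rw [if_pos rfl, if_pos rfl]; module
  · rw [if_neg h, if_neg h]; module

theorem rr_coord (i k : ι) (z : F) (x : V) : f (rr f (e i) z x) (e k) = (if k = i then z else 1) * f x (e k) := by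
  unfold rr
  rw [H.add_left, H.smul_left, R.on]
  by_cases h : k = i
  · subst h; rw [if_pos rfl, if_pos rfl]; ring
  · rw [if_neg (Ne.symm h), if_neg h]; ring

theorem rl_mon (i : ι) {z : F} (hz : z ∈ U σ) : Mon e (rl H (e i) z (R.self' i) hz) := by
  intro k
  exact ⟨k, _, by rw [rl_apply, rr_e H R]⟩

theorem sw_coord {i j : ι} (hij : i ≠ j) {c : F} (hc : c * σ c = 1) (x : V) :
    sw H (e i - c • e j) (norm_sub H R hij hc) x = x - f x (e i - c • e j) • (e i - c • e j) := sw_apply H _ _

theorem sw_mon {i j : ι} (hij : i ≠ j) {c : F} (hc : c * σ c = 1) :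
    Mon e (sw H (e i - c • e j) (norm_sub H R hij hc)) := by
  intro k
  rw [sw_apply, H.sub_right, H.smul_right, R.on, R.on]
  by_cases h1 : k = i
  · subst h1
    refine ⟨j, c, ?_⟩
    rw [if_pos rfl, if_neg hij]; module
  · by_cases h2 : k = j
    · subst h2
      refine ⟨i, σ c, ?_⟩
      rw [if_neg h1, if_pos rfl]
      match_scalars
      · linear_combination -hc
      · ring
    · refine ⟨k, 1, ?_⟩
      rw [if_neg h1, if_neg h2]; module

/-- diagonal isometries -/
theorem exists_diag [FiniteDimensional F V] (d : ι → F) (hd : ∀ i, d i ∈ U σ) :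
    ∃ g ∈ isom f, dt g = ∏ i, d i ∧ Mon e g ∧ (∀ x k, f (g x) (e k) = d k * f x (e k)) ∧ ∀ k, g (e k) = d k • e k := by
  have key : ∀ s : Finset ι, ∃ g ∈ isom f, dt g = ∏ i ∈ s, d i ∧ Mon e g ∧
      (∀ x k, f (g x) (e k) = (if k ∈ s then d k else 1) * f x (e k)) ∧
      ∀ k, g (e k) = (if k ∈ s then d k else 1) • e k := by
    intro s
    induction s using Finset.induction_on with
    | empty => exact ⟨1, one_mem _, by rw [prod_empty, dt_one], Mon.one, fun x k => by simp, fun k => by simp⟩
    | insert i s hi ih =>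
      obtain ⟨g, hg, h1, h2, h3, h4⟩ := ih
      refine ⟨rl H (e i) (d i) (R.self' i) (hd i) * g, mul_mem (rl_mem H _ _) hg, ?_, (rl_mon H R i _).mul h2,
        fun x k => ?_, fun k => ?_⟩
      · rw [dt_mul, rl_det, h1, prod_insert hi]
      · rw [LinearEquiv.mul_apply, rl_apply, rr_coord H R, h3]
        by_cases hk : k = i
        · subst hk; rw [if_pos rfl, if_neg hi, if_pos (mem_insert_self _ _)]; ring
        · have : (k ∈ insert i s) ↔ k ∈ s := by simp [hk]
          simp only [this, if_neg hk]; ring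
      · rw [LinearEquiv.mul_apply, h4, LinearEquiv.map_smul, rl_apply, rr_e H R, smul_smul]
        by_cases hk : k = i
        · subst hk; rw [if_pos rfl, if_neg hi, if_pos (mem_insert_self _ _), one_mul]
        · have : (k ∈ insert i s) ↔ k ∈ s := by simp [hk]
          simp only [this, if_neg hk, mul_one]
  obtain ⟨g, hg, h1, h2, h3, h4⟩ := key univ
  exact ⟨g, hg, h1, h2, fun x k => by rw [h3, if_pos (mem_univ k)], fun k => by rw [h4, if_pos (mem_univ k)]⟩

omit [Fintype F] in
/-- vectors of small support -/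
theorem single_of_card [Nonempty ι] {v : V} (h : (supp f e v).card < 2) : ∃ j, ∃ c : F, v = c • e j := by
  rcases Nat.lt_or_ge (supp f e v).card 1 with h0 | h1
  · obtain ⟨j⟩ := ‹Nonempty ι›
    refine ⟨j, 0, ?_⟩
    rw [zero_smul]
    have h2 : supp f e v = ∅ := by rw [← card_eq_zero]; omega
    refine R.ext fun i => ?_
    rw [H.zero_left]
    by_contra h3
    have : i ∈ supp f e v := mem_supp.2 h3
    rw [h2] at this
    simp at this
  · obtain ⟨a, ha⟩ := card_eq_one.1 (show (supp f e v).card = 1 by omega)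
    refine ⟨a, f v (e a), ?_⟩
    apply R.ext
    intro k
    rw [H.smul_left, R.on]
    by_cases h : k = a
    · rw [h, if_pos rfl, mul_one]
    · rw [if_neg (Ne.symm h), mul_zero]
      by_contra h3
      have : k ∈ supp f e v := mem_supp.2 h3
      rw [ha] at this; simp [h] at this

omit [Fintype F] in
theorem card_of_not_single [Nonempty ι] {v : V} (h : ∀ j, ∀ c : F, v ≠ c • e j) : 2 ≤ (supp f e v).card := by
  by_contra hcon
  obtain ⟨j, c, h1⟩ := single_of_card H R (v := v) (by omega)
  exact h j c h1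

end

/-- overgroups of the monomial group in the special unitary group -/
structure Hy (f : V → V → F) (e : ι → V) (M : Subgroup (V ≃ₗ[F] V)) : Prop where
  isom : M ≤ isom f
  det : ∀ g ∈ M, dt g = 1
  mon : ∀ g ∈ Cfsg.Agent.Lib.SpTrans.isom f, dt g = 1 → Mon e g → g ∈ M

/-- stabilizer of a coordinate subspace -/
def st (f : V → V → F) (e : ι → V) (M : Subgroup (V ≃ₗ[F] V)) (J : Finset ι) : Subgroup (V ≃ₗ[F] V) where
  carrier := {x | x ∈ M ∧ ∀ u, x u ∈ VI f e J ↔ u ∈ VI f e J}
  mul_mem' {a b} ha hb := ⟨mul_mem ha.1 hb.1, fun u => by rw [LinearEquiv.mul_apply, ha.2, hb.2]⟩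
  one_mem' := ⟨one_mem _, fun u => Iff.rfl⟩
  inv_mem' {a} ha := ⟨inv_mem ha.1, fun u => by
    have := ha.2 (a⁻¹ u)
    rw [apply_inv_self'] at this
    exact this.symm⟩

omit [Fintype F] [DecidableEq F] [Fintype ι] [DecidableEq ι] in
theorem mem_st {M : Subgroup (V ≃ₗ[F] V)} {J : Finset ι} {x : V ≃ₗ[F] V} :
    x ∈ st f e M J ↔ x ∈ M ∧ ∀ u, x u ∈ VI f e J ↔ u ∈ VI f e J := Iff.rfl

section
variable (H : HS σ f) (R : Fr f e) {M : Subgroup (V ≃ₗ[F] V)}
include H R

omit [Fintype F] [DecidableEq F] in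
theorem VI_inner {J : Finset ι} {u : V} : u ∈ VI f e Jᶜ ↔ ∀ w ∈ VI f e J, f u w = 0 := by
  constructor
  · intro hu w hw
    rw [R.inner H]
    refine sum_eq_zero fun i _ => ?_
    by_cases h : i ∈ J
    · rw [hu i (by simpa using h), zero_mul]
    · rw [hw i h, map_zero, mul_zero]
  · intro h i hi
    rw [mem_compl, not_not] at hi
    exact h _ (R.mem_VI hi)

omit [Fintype F] [DecidableEq F] in
theorem st_compl {J : Finset ι} {x : V ≃ₗ[F] V} (hxi : x ∈ isom f) (hx : ∀ u, x u ∈ VI f e J ↔ u ∈ VI f e J)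
    {u : V} (hu : u ∈ VI f e Jᶜ) : x u ∈ VI f e Jᶜ := by
  rw [VI_inner H R] at hu ⊢
  intro w hw
  have h1 : x⁻¹ w ∈ VI f e J := by
    have := hx (x⁻¹ w)
    rw [apply_inv_self'] at this
    exact this.1 hw
  have h2 := hu _ h1
  rw [← hxi u (x⁻¹ w), apply_inv_self'] at h2
  exact h2

theorem neg_one_U : (-1 : F) ∈ U σ := by rw [mem_U]; simp

/-- the system of the stabilizer -/
theorem st_Sy [FiniteDimensional F V] (Y : Hy f e M) {J : Finset ι} (hJ : J.Nonempty) :
    Sy σ f e Jᶜ (st f e M J) := by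
  obtain ⟨j0, hj0⟩ := hJ
  refine ⟨fun x hx => Y.isom hx.1, fun x hx u hu => st_compl H R (Y.isom hx.1) hx.2 hu, ?_, ?_⟩
  · intro i hi z hz
    rw [mem_compl] at hi
    have hij : i ≠ j0 := fun h => hi (h ▸ hj0)
    refine ⟨rl H (e i) z (R.self' i) hz * rl H (e j0) z⁻¹ (R.self' j0) (inv_mem_U hz), ⟨?_, fun u => ?_⟩,
      fun u hu => ?_⟩
    · refine Y.mon _ (mul_mem (rl_mem H _ _) (rl_mem H _ _)) ?_ ((rl_mon H R i _).mul (rl_mon H R j0 _))
      rw [dt_mul, rl_det, rl_det, mul_inv_cancel₀ (U_ne hz)]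
    · constructor
      · intro h k hk
        have := h k hk
        rw [LinearEquiv.mul_apply, rl_apply, rr_coord H R, rl_apply, rr_coord H R,
          if_neg (fun h' => hk (h' ▸ hj0) : ¬ k = j0), one_mul] at this
        refine (mul_eq_zero.1 this).resolve_left ?_
        split_ifs
        · exact U_ne hz
        · exact one_ne_zero
      · intro h k hk
        rw [LinearEquiv.mul_apply, rl_apply, rr_coord H R, rl_apply, rr_coord H R, h k hk]; ring
    · rw [LinearEquiv.mul_apply, rl_apply, rl_apply]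
      congr 1
      rw [rr, hu j0 (by simpa using hj0), mul_zero, zero_smul, add_zero]
  · intro i hi j hj hij
    rw [mem_compl] at hi hj
    have hij0 : i ≠ j0 := fun h => hi (h ▸ hj0)
    refine ⟨sw H (e i - e j) (norm_sub' H R hij) * rl H (e j0) (-1) (R.self' j0) (neg_one_U H R), ⟨?_, fun u => ?_⟩,
      fun u hu => ?_⟩
    · refine Y.mon _ (mul_mem (sw_mem H _) (rl_mem H _ _)) ?_ (Mon.mul ?_ (rl_mon H R j0 _))
      · rw [dt_mul, sw_det, rl_det]; ring
      · have := sw_mon H R hij (c := 1) (by rw [map_one, one_mul])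
        simp only [one_smul] at this
        exact this
    · have hk' : ∀ k, k ∉ J → Equiv.swap i j k ∉ J := by
        intro k hk
        by_cases h1 : k = i
        · rw [h1, Equiv.swap_apply_left]; exact hj
        · by_cases h2 : k = j
          · rw [h2, Equiv.swap_apply_right]; exact hi
          · rw [Equiv.swap_apply_of_ne_of_ne h1 h2]; exact hk
      have hval : ∀ k, k ∉ J → f ((sw H (e i - e j) (norm_sub' H R hij) *
          rl H (e j0) (-1) (R.self' j0) (neg_one_U H R)) u) (e k) = f u (e (Equiv.swap i j k)) := by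
        intro k hk
        rw [LinearEquiv.mul_apply, sw_apply, swap_coord H R hij, rl_apply, rr_coord H R,
          if_neg (fun h' : Equiv.swap i j k = j0 => hk' k hk (by rw [h']; exact hj0)), one_mul]
      constructor
      · intro h k hk
        have := h _ (hk' k hk)
        rw [hval _ (hk' k hk), Equiv.swap_apply_self] at this
        exact this
      · intro h k hk
        rw [hval k hk]; exact h _ (hk' k hk)
    · rw [LinearEquiv.mul_apply, sw_apply, rl_apply]
      have : rr f (e j0) (-1) u = u := by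
        rw [rr, hu j0 (by simpa using hj0), mul_zero, zero_smul, add_zero]
      rw [this]

end

end Cfsg.Agent.Lib.Uf98
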