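import Mathlib
import Cfsg.Agent.Lib.UfG

set_option autoImplicit false

/-!
Stabilizers of coordinate subspaces in overgroups of the monomial group.
-/

namespace Cfsg.Agent.Lib.Uf98

open Finset Cfsg.Agent.Lib.UnTrans Cfsg.Agent.Lib.UnMax
open Cfsg.Agent.Lib.SpTrans (isom mem_isom)

variable {F : Type*} [Field F] [Fintype F] [DecidableEq F] {σ : F →+* F} {q : ℕ}
variable {V : Type*} [AddCommGroup V] [Module F V] {f : V → V → F}
variable {ι : Type*} [Fintype ι] [DecidableEq ι] {e : ι → V}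
variable (H : HS σ f) (R : Fr f e) {M : Subgroup (V ≃ₗ[F] V)}
include H R

omit [Fintype F] [DecidableEq F] in
theorem frame_nd : Nd f (⊤ : Submodule F V) := by
  intro x _ hx
  by_contra hcon
  push Not at hcon
  exact hx (R.ext fun i => by rw [hcon _ trivial, H.zero_left])

omit [Fintype F] [DecidableEq F] in
theorem frame_rank : Module.finrank F V = Fintype.card ι := by
  have hli : LinearIndependent F e := by
    rw [Fintype.linearIndependent_iff]
    intro c hc i
    have h1 : f (∑ j, c j • e j) (e i) = 0 := by rw [hc, H.zero_left]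
    rw [f_sum H] at h1
    rw [← h1, sum_eq_single i]
    · rw [H.smul_left, R.self', mul_one]
    · intro j _ hj; rw [H.smul_left, R.ne hj, mul_zero]
    · intro h; exact absurd (mem_univ i) h
  have hsp : ⊤ ≤ Submodule.span F (Set.range e) := by
    intro x _
    rw [R.span x]
    exact Submodule.sum_mem _ fun i _ => Submodule.smul_mem _ _ (Submodule.subset_span ⟨i, rfl⟩)
  exact Module.finrank_eq_card_basis (Module.Basis.mk hli hsp)

omit [Fintype F] [DecidableEq F] in
theorem mem_VI_single {a : ι} {u : V} : u ∈ VI f e {a} ↔ u = f u (e a) • e a := by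
  constructor
  · intro h
    apply R.ext
    intro k
    rw [H.smul_left, R.on]
    by_cases hk : k = a
    · rw [hk, if_pos rfl, mul_one]
    · rw [if_neg (Ne.symm hk), mul_zero]; exact h k (by simpa using hk)
  · intro h k hk
    rw [h, H.smul_left, R.ne (fun h' => hk (by rw [h']; simp)), mul_zero]

omit [Fintype F] [DecidableEq F] in
theorem line_iff {a : ι} {x : V ≃ₗ[F] V} (hx : ∃ c : F, x (e a) = c • e a) (u : V) :
    x u ∈ VI f e {a} ↔ u ∈ VI f e {a} := by
  obtain ⟨c, hc⟩ := hx
  have hc0 : c ≠ 0 := by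
    rintro rfl
    rw [zero_smul] at hc
    exact e_ne H R a ((map_eq_zero_iff x x.injective).1 hc)
  constructor
  · intro h
    rw [mem_VI_single H R] at h
    have h1 : x u = x ((f (x u) (e a) * c⁻¹) • e a) := by
      rw [LinearEquiv.map_smul x, hc, smul_smul, mul_assoc, inv_mul_cancel₀ hc0, mul_one]; exact h
    have h2 := x.injective h1
    rw [h2]
    exact VI_smul H (R.mem_VI (by simp)) _
  · intro h
    rw [mem_VI_single H R] at h
    rw [h, LinearEquiv.map_smul x, hc]
    exact VI_smul H (VI_smul H (R.mem_VI (by simp)) _) _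

omit [Fintype F] [DecidableEq F] in
theorem line_of_iff {a : ι} {x : V ≃ₗ[F] V} (hx : ∀ u, x u ∈ VI f e {a} ↔ u ∈ VI f e {a}) :
    ∃ c : F, x (e a) = c • e a := by
  have := (hx (e a)).2 (R.mem_VI (by simp))
  rw [mem_VI_single H R] at this
  exact ⟨_, this⟩

/-- a monomial element moving `e a` to `e b` -/
theorem exists_move_e [FiniteDimensional F V] (Y : Hy f e M) (hn : 3 ≤ Fintype.card ι) (a b : ι) :
    ∃ g ∈ M, Mon e g ∧ g (e a) = e b := by
  by_cases hab : a = b
  · exact ⟨1, one_mem _, Mon.one, by rw [hab]; rfl⟩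
  obtain ⟨c, hc⟩ : ∃ c, c ∉ ({a, b} : Finset ι) := by
    by_contra hcon
    push Not at hcon
    have h1 : (univ : Finset ι) ⊆ {a, b} := fun x _ => hcon x
    have h2 := card_le_card h1
    have h3 : ({a, b} : Finset ι).card ≤ 2 := card_le_two
    rw [card_univ] at h2
    omega
  have hca : a ≠ c := fun h => hc (by rw [h]; simp)
  have m1 : Mon e (sw H (e a - e b) (norm_sub' H R hab)) := by
    have := sw_mon H R hab (c := 1) (by rw [map_one, one_mul])
    simp only [one_smul] at this
    exact this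
  have hmon : Mon e (sw H (e a - e b) (norm_sub' H R hab) * rl H (e c) (-1) (R.self' c) (neg_one_U H R)) :=
    m1.mul (rl_mon H R c _)
  refine ⟨sw H (e a - e b) (norm_sub' H R hab) * rl H (e c) (-1) (R.self' c) (neg_one_U H R), ?_, hmon, ?_⟩
  · refine Y.mon _ (mul_mem (sw_mem H _) (rl_mem H _ _)) ?_ hmon
    rw [dt_mul, sw_det, rl_det]; ring
  · rw [LinearEquiv.mul_apply, rl_apply, rr_e H R, if_neg hca, one_smul, sw_apply, H.sub_right, R.self', R.ne hab,
      sub_zero, one_smul]
    abel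

/-- **dichotomy for line stabilizers** -/
theorem stab_one [FiniteDimensional F V] (A : Ar σ q) (hq : 3 ≤ q) (hn : 6 ≤ Fintype.card ι) (Y : Hy f e M)
    {a : ι} {x : V ≃ₗ[F] V} (hx : x ∈ M) (hxa : ∃ c : F, x (e a) = c • e a) (hnm : ¬ Mon e x) :
    ∀ g ∈ isom f, dt g = 1 → g ∈ M := by
  have hne : Nonempty ι := ⟨a⟩
  have S := st_Sy H R Y (J := {a}) (by simp)
  have hxst : x ∈ st f e M {a} := ⟨hx, line_iff H R hxa⟩
  -- nonmonomial
  have hnon : ∃ w ∈ Ob e ({a} : Finset ι)ᶜ (st f e M {a}), 2 ≤ (supp f e w).card := by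
    unfold Mon at hnm
    push Not at hnm
    obtain ⟨i, hi⟩ := hnm
    have hia : i ≠ a := by
      rintro rfl
      obtain ⟨c, hc⟩ := hxa
      exact hi _ c hc
    exact ⟨x (e i), ⟨x, hxst, i, by simpa using hia, rfl⟩, card_of_not_single H R hi⟩
  have hstab : ∀ g ∈ isom f, dt g = 1 → (∃ c : F, g (e a) = c • e a) → g ∈ M := by
    intro g hg hdet hga
    obtain ⟨x', hx', hxu⟩ := gen H R A hq _ _ _ S rfl (fun _ => hnon) g hg
      (fun u hu => st_compl H R hg (line_iff H R hga) hu)
    set y := x'⁻¹ * g with hy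
    have hyi : y ∈ isom f := mul_mem (inv_mem (Y.isom hx'.1)) hg
    have hyd : dt y = 1 := by
      have h1 := dt_inv x'
      rw [Y.det _ hx'.1, mul_one] at h1
      rw [hy, dt_mul, h1, hdet, mul_one]
    have hyu : ∀ u ∈ VI f e ({a} : Finset ι)ᶜ, y u = u := by
      intro u hu
      rw [hy, LinearEquiv.mul_apply, ← hxu u hu, inv_apply_self']
    obtain ⟨c1, hc1⟩ := hga
    obtain ⟨c2, hc2⟩ := line_of_iff H R ((st f e M {a}).inv_mem hx').2
    have hya : y (e a) = (c1 * c2) • e a := by
      rw [hy, LinearEquiv.mul_apply, hc1, LinearEquiv.map_smul x'⁻¹, hc2, smul_smul]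
    have hkU : c1 * c2 ∈ U σ := by
      have h3 : f (y (e a)) (y (e a)) = 1 := by rw [hyi]; exact R.self' a
      rw [hya, H.smul_left, H.smul_right, R.self', mul_one] at h3
      rw [mem_U]; exact h3
    have hyeq : y = rl H (e a) (c1 * c2) (R.self' a) hkU := by
      ext u
      have hu' : u - f u (e a) • e a ∈ VI f e ({a} : Finset ι)ᶜ := by
        intro k hk
        have : k = a := by simpa using hk
        rw [drop_coord H R, if_pos this]
      have e1 : u = f u (e a) • e a + (u - f u (e a) • e a) := by abel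
      rw [rl_apply, rr]
      conv_lhs => rw [e1, map_add, LinearEquiv.map_smul y, hyu _ hu', hya]
      module
    have hk1 : c1 * c2 = 1 := by
      rw [← hyd, hyeq, rl_det]
    have hy1 : y = 1 := by
      rw [hyeq]
      ext u
      rw [rl_apply, rr, hk1]
      simp
    have : g = x' := by
      have h4 : x' * y = g := by rw [hy, mul_inv_cancel_left]
      rw [← h4, hy1, mul_one]
    rw [this]; exact hx'.1
  -- maximality of the stabilizer
  have hnd := frame_nd H R
  have hrk := frame_rank H R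
  set W : Submodule F V := Submodule.span F {e a} with hW
  have hWn : Nd f W := by
    intro u hu hu0
    obtain ⟨c, rfl⟩ := Submodule.mem_span_singleton.1 hu
    refine ⟨e a, Submodule.mem_span_singleton_self _, ?_⟩
    rw [H.smul_left, R.self', mul_one]
    rintro rfl
    exact hu0 (zero_smul _ _)
  have hWr : Module.finrank F W = 1 := finrank_span_singleton (e_ne H R a)
  have hp := finrank_perp H hWn
  have hfin := nd_stab_max H hnd (by omega) hWn (by omega) (by omega) Y.isom
    (fun g hg hd hgW => hstab g hg hd (by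
      have := hgW (e a) (Submodule.mem_span_singleton_self _)
      obtain ⟨c, hc⟩ := Submodule.mem_span_singleton.1 this
      exact ⟨c, hc.symm⟩))
    (by
      obtain ⟨b, hb⟩ : ∃ b, b ≠ a := by
        have : Nontrivial ι := Fintype.one_lt_card_iff_nontrivial.1 (by omega)
        exact exists_ne a
      obtain ⟨g, hg, -, hge⟩ := exists_move_e H R Y (by omega) a b
      refine ⟨g, hg, e a, Submodule.mem_span_singleton_self _, fun h => ?_⟩
      rw [hge] at h
      obtain ⟨c, hc⟩ := Submodule.mem_span_singleton.1 h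
      have h1 : f (e b) (e b) = 1 := R.self' b
      rw [← hc, H.smul_left, hc, R.ne hb.symm, mul_zero] at h1
      exact zero_ne_one h1)
  exact hfin

/-- line stabilizers are monomial -/
def Stt {F V : Type*} [Field F] [AddCommGroup V] [Module F V] {ι : Type*} (e : ι → V)
    (M : Subgroup (V ≃ₗ[F] V)) : Prop :=
  ∀ x ∈ M, ∀ a, (∃ c : F, x (e a) = c • e a) → Mon e x

theorem mon_of_line [FiniteDimensional F V] (hn : 3 ≤ Fintype.card ι) (Y : Hy f e M) (hs : Stt e M)
    {x : V ≃ₗ[F] V} (hx : x ∈ M) {i j : ι} (h : ∃ c : F, x (e i) = c • e j) : Mon e x := by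
  obtain ⟨c, hc⟩ := h
  obtain ⟨g, hg, hgm, hge⟩ := exists_move_e H R Y hn j i
  have h1 : Mon e (g * x) := hs _ (mul_mem hg hx) i ⟨c, by
    rw [LinearEquiv.mul_apply, hc, LinearEquiv.map_smul g, hge]⟩
  have h2 : x = g⁻¹ * (g * x) := by rw [inv_mul_cancel_left]
  rw [h2]
  exact (hgm.inv H R (Y.isom hg)).mul h1

theorem mon_of_st [FiniteDimensional F V] (A : Ar σ q) (hq : 3 ≤ q) (hn : 3 ≤ Fintype.card ι) (Y : Hy f e M)
    (hs : Stt e M) {J : Finset ι} (hJ : J.Nonempty) (hJc : 3 ≤ Jᶜ.card) {x : V ≃ₗ[F] V}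
    (hx : x ∈ st f e M J) : Mon e x := by
  have hne : Nonempty ι := ⟨hJ.choose⟩
  have S := st_Sy H R Y hJ
  by_contra hnm
  obtain ⟨T, hT, hTc⟩ := exists_subset_card_eq (s := Jᶜ) (n := 3) hJc
  obtain ⟨i, j, k, hij, hik, hjk, rfl⟩ := card_eq_three.1 hTc
  have hi := hT (by simp : i ∈ ({i, j, k} : Finset ι))
  have hj := hT (by simp : j ∈ ({i, j, k} : Finset ι))
  have hk := hT (by simp : k ∈ ({i, j, k} : Finset ι))
  have hnon : ∃ w ∈ Ob e Jᶜ (st f e M J), 2 ≤ (supp f e w).card := by
    refine ⟨x (e i), ⟨x, hx, i, hi, rfl⟩, card_of_not_single H R fun l c h => ?_⟩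
    exact hnm (mon_of_line H R hn Y hs hx.1 ⟨c, h⟩)
  have h2 : ∃ w ∈ Ob e Jᶜ (st f e M J), (supp f e w).card = 2 := by
    obtain ⟨w, hw, hc⟩ := hnon
    exact exists_two H R S A hq ((supp f e w).card - 2) w hw (by omega)
  obtain ⟨w, hw, hws⟩ := two_all H R S h2 hj hk hjk
  have hw0 := supp_pair H R hws
  have hwj : f w (e j) ≠ 0 := mem_supp.1 (by rw [hws]; simp)
  have hwk : f w (e k) ≠ 0 := mem_supp.1 (by rw [hws]; simp)
  have hNa : N σ (f w (e j)) ≠ 0 := by rw [Ne, N_eq_zero]; exact hwj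
  obtain ⟨z, hz, hz1, hz2⟩ := exists_unit_ne A 1 (1 - (N σ (f w (e j)))⁻¹)
  obtain ⟨y, hy, hyu⟩ := ob_refl H R S hw hz
  have hyi : y (e i) = e i := by
    rw [hyu _ (R.mem_VI hi), rr, H.symm_zero (hw0 i hij hik), mul_zero, zero_smul, add_zero]
  have hym := hs y hy.1 i ⟨1, by rw [hyi, one_smul]⟩
  have hfj : f (e j) w = σ (f w (e j)) := H.herm _ _
  have c1 : f (y (e j)) (e j) ≠ 0 := by
    rw [hyu _ (R.mem_VI hj), rr, H.add_left, H.smul_left, R.self', hfj]
    intro h; apply hz2
    have : N σ (f w (e j)) = f w (e j) * σ (f w (e j)) := rfl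
    field_simp
    rw [this]
    linear_combination h
  have c2 : f (y (e j)) (e k) ≠ 0 := by
    rw [hyu _ (R.mem_VI hj), rr, H.add_left, H.smul_left, R.ne hjk, hfj, zero_add]
    exact mul_ne_zero (mul_ne_zero (sub_ne_zero.2 hz1) (H.sigma_ne hwj)) hwk
  obtain ⟨l, c, hl⟩ := hym j
  rw [hl, H.smul_left] at c1 c2
  rw [R.on] at c1 c2
  by_cases h1 : l = j
  · rw [if_neg (by rw [h1]; exact hjk), mul_zero] at c2; exact c2 rfl
  · rw [if_neg h1, mul_zero] at c1; exact c1 rfl

end Cfsg.Agent.Lib.Uf98
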