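import Mathlib
import Cfsg.Agent.Lib.UfH

set_option autoImplicit false

/-!
Characteristic two: transvections in overgroups of the monomial group.
-/

namespace Cfsg.Agent.Lib.Uf98

open Finset Cfsg.Agent.Lib.UnTrans Cfsg.Agent.Lib.UnMax
open Cfsg.Agent.Lib.SpTrans (isom mem_isom)

variable {F : Type*} [Field F] [Fintype F] [DecidableEq F] {σ : F →+* F} {q : ℕ}
variable {V : Type*} [AddCommGroup V] [Module F V] {f : V → V → F}
variable {ι : Type*} [Fintype ι] [DecidableEq ι] {e : ι → V}

omit [DecidableEq F] [Fintype F] in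
theorem cond_two (h2 : (2 : F) = 0) {w : V} (hw : f w w = 0) : (1 : F) + σ 1 + 1 * σ 1 * f w w = 0 := by
  rw [map_one, hw]; linear_combination h2

/-- centres of transvections with parameter one -/
def PP (H : HS σ f) (h2 : (2 : F) = 0) (M : Subgroup (V ≃ₗ[F] V)) : Set V :=
  {w | ∃ hw : f w w = 0, el H w 1 (cond_two h2 hw) ∈ M}

variable (H : HS σ f) (h2 : (2 : F) = 0) {M : Subgroup (V ≃ₗ[F] V)}

omit [Fintype F] [DecidableEq F] in
theorem PP_map (hM : M ≤ isom f) {w : V} (hw : w ∈ PP H h2 M) {g : V ≃ₗ[F] V} (hg : g ∈ M) : g w ∈ PP H h2 M := by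
  obtain ⟨hw0, hwM⟩ := hw
  have h0 : f (g w) (g w) = 0 := by rw [hM hg]; exact hw0
  refine ⟨h0, ?_⟩
  rw [← conj_el H (hM hg) w 1 (cond_two h2 hw0)]
  exact mul_mem (mul_mem hg hwM) (inv_mem hg)

omit [Fintype F] [DecidableEq F] in
theorem PP_tr (hM : M ≤ isom f) {v w : V} (hv : v ∈ PP H h2 M) (hw : w ∈ PP H h2 M) :
    v + f v w • w ∈ PP H h2 M := by
  obtain ⟨hw0, hwM⟩ := hw
  have := PP_map H h2 hM hv hwM
  rwa [el_apply, one_mul] at this

variable (R : Fr f e)
include R

theorem PP_mono [FiniteDimensional F V] (Y : Hy f e M) {i j : ι} (hij : i ≠ j) {c : F} (hc : c * σ c = 1) :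
    e i - c • e j ∈ PP H h2 M := by
  have h0 : f (e i - c • e j) (e i - c • e j) = 0 := by rw [norm_sub H R hij hc, h2]
  refine ⟨h0, ?_⟩
  have h1 : el H (e i - c • e j) 1 (cond_two h2 h0) = sw H (e i - c • e j) (norm_sub H R hij hc) := by
    ext x
    rw [el_apply, sw_apply]
    match_scalars
    · ring
    · linear_combination (f x (e i - c • e j)) * h2
    · linear_combination -(f x (e i - c • e j)) * c * h2
  rw [h1]
  refine Y.mon _ (sw_mem H _) ?_ (sw_mon H R hij hc)
  rw [sw_det]; linear_combination -h2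

/-- a nonmonomial transvection -/
theorem exists_PP [FiniteDimensional F V] (A : Ar σ q) (Y : Hy f e M) (hn : 4 ≤ Fintype.card ι)
    (hpar : q = 2 → ∀ v : V, f v v = 1 → 2 ≤ (supp f e v).card → 3 ≤ (supp f e v).card)
    {m : V ≃ₗ[F] V} (hm : m ∈ M) (hnm : ¬ Mon e m) : ∃ w ∈ PP H h2 M, 3 ≤ (supp f e w).card := by
  have hne : Nonempty ι := Fintype.card_pos_iff.1 (by omega)
  by_contra hcon
  push Not at hcon
  have hsmall : ∀ i j, i ≠ j → ∀ c ∈ U σ, (supp f e (m (e i - c • e j))).card ≤ 2 := by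
    intro i j hij c hc
    have := hcon _ (PP_map H h2 Y.isom (PP_mono H h2 R Y hij (mem_U.1 hc)) hm)
    omega
  unfold Mon at hnm
  push Not at hnm
  obtain ⟨i, hi⟩ := hnm
  have hi2 := card_of_not_single H R hi
  -- counting
  have hcount : ∀ j, i ≠ j → (U σ).card * ((supp f e (m (e i)) ∪ supp f e (m (e j))).card - 2) ≤
      (supp f e (m (e i)) ∪ supp f e (m (e j))).card := by
    intro j hij
    set S := supp f e (m (e i)) ∪ supp f e (m (e j)) with hS
    have hval : ∀ (c : F) k, f (m (e i - c • e j)) (e k) = f (m (e i)) (e k) - c * f (m (e j)) (e k) := by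
      intro c k
      rw [map_sub, LinearEquiv.map_smul m, H.sub_left, H.smul_left]
    let r : F → ι → Prop := fun c k => f (m (e i - c • e j)) (e k) = 0
    have hdc := Finset.sum_card_bipartiteAbove_eq_sum_card_bipartiteBelow (s := U σ) (t := S) r
    have h1 : ∀ c ∈ U σ, S.card - 2 ≤ (S.bipartiteAbove r c).card := by
      intro c hc
      have h3 : S \ (supp f e (m (e i - c • e j))) ⊆ S.bipartiteAbove r c := by
        intro k hk
        rw [mem_sdiff, mem_supp, not_not] at hk
        rw [mem_bipartiteAbove]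
        exact hk
      have h4 := card_le_card h3
      have h5 := le_card_sdiff (supp f e (m (e i - c • e j))) S
      have h6 := hsmall i j hij c hc
      omega
    have h3 : ∀ k ∈ S, ((U σ).bipartiteBelow r k).card ≤ 1 := by
      intro k hk
      rw [card_le_one]
      intro c hc d hd
      rw [mem_bipartiteBelow] at hc hd
      have e1 : f (m (e i)) (e k) - c * f (m (e j)) (e k) = 0 := by rw [← hval]; exact hc.2
      have e2 : f (m (e i)) (e k) - d * f (m (e j)) (e k) = 0 := by rw [← hval]; exact hd.2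
      have e3 : f (m (e j)) (e k) ≠ 0 := by
        intro h
        rw [h, mul_zero, sub_zero] at e1
        rw [hS, mem_union, mem_supp, mem_supp] at hk
        rcases hk with hk | hk
        · exact hk e1
        · exact hk h
      have e4 : (c - d) * f (m (e j)) (e k) = 0 := by linear_combination e2 - e1
      rcases mul_eq_zero.1 e4 with h | h
      · exact sub_eq_zero.1 h
      · exact absurd h e3
    calc (U σ).card * (S.card - 2) = ∑ c ∈ U σ, (S.card - 2) := by rw [sum_const, smul_eq_mul]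
      _ ≤ ∑ c ∈ U σ, (S.bipartiteAbove r c).card := sum_le_sum h1
      _ = ∑ k ∈ S, ((U σ).bipartiteBelow r k).card := hdc
      _ ≤ ∑ k ∈ S, 1 := sum_le_sum h3
      _ = S.card := by rw [sum_const, smul_eq_mul, mul_one]
  have hU := A.card_U
  have hq2 := A.two_le
  have hsub : ∀ j, supp f e (m (e j)) ⊆ supp f e (m (e i)) ∧ (supp f e (m (e i))).card ≤ 3 := by
    intro j
    -- first the size bound
    obtain ⟨j0, hj0⟩ : ∃ j0, i ≠ j0 := by
      have : Nontrivial ι := Fintype.one_lt_card_iff_nontrivial.1 (by omega)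
      obtain ⟨j0, h⟩ := exists_ne i
      exact ⟨j0, h.symm⟩
    have gen1 : ∀ j', i ≠ j' → (supp f e (m (e i)) ∪ supp f e (m (e j'))).card ≤ (supp f e (m (e i))).card ∧
        (supp f e (m (e i)) ∪ supp f e (m (e j'))).card ≤ 3 := by
      intro j' hj'
      have h1 := hcount j' hj'
      obtain ⟨s, hs⟩ : ∃ s, (supp f e (m (e i)) ∪ supp f e (m (e j'))).card = s := ⟨_, rfl⟩
      rw [hs] at h1 ⊢
      have h0 : (supp f e (m (e i))).card ≤ s := by rw [← hs]; exact card_le_card subset_union_left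
      by_cases hq : q = 2
      · have h3 := hpar hq (m (e i)) (by rw [Y.isom hm]; exact R.self' i) hi2
        have h4 : 3 * (s - 2) ≤ s := le_trans (Nat.mul_le_mul_right _ (by omega)) h1
        omega
      · have h4 : 4 * (s - 2) ≤ s := le_trans (Nat.mul_le_mul_right _ (by omega)) h1
        omega
    have h3 : (supp f e (m (e i))).card ≤ 3 :=
      le_trans (card_le_card subset_union_left) (gen1 j0 hj0).2
    refine ⟨?_, h3⟩
    by_cases hij : i = j
    · rw [hij]
    · have h5 := (gen1 j hij).1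
      have h6 : supp f e (m (e i)) = supp f e (m (e i)) ∪ supp f e (m (e j)) :=
        eq_of_subset_of_card_le subset_union_left h5
      rw [h6]; exact subset_union_right
  obtain ⟨k, hk⟩ : ∃ k, k ∉ supp f e (m (e i)) := by
    by_contra h
    push Not at h
    have h1 : (univ : Finset ι) ⊆ supp f e (m (e i)) := fun x _ => h x
    have h3 := card_le_card h1
    rw [card_univ] at h3
    have := (hsub i).2
    omega
  have h0 : ∀ j, f (m (e j)) (e k) = 0 := by
    intro j
    by_contra h
    exact hk ((hsub j).1 (mem_supp.2 h))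
  have h1 : m⁻¹ (e k) = 0 := by
    apply R.ext
    intro j
    rw [H.zero_left]
    apply H.symm_zero
    have := h0 j
    rw [← Y.isom hm (e j) (m⁻¹ (e k)), apply_inv_self']
    exact this
  exact e_ne H R k (by rw [← apply_inv_self' m (e k), h1, map_zero])

/-- making a coordinate vanish -/
theorem PP_zero [FiniteDimensional F V] (A : Ar σ q) (Y : Hy f e M) (hn : 13 ≤ Fintype.card ι) {w : V}
    (hw : w ∈ PP H h2 M) (hw0 : ∀ i, f w (e i) ≠ 0) :
    ∃ w' ∈ PP H h2 M, (∃ j, f w' (e j) = 0) ∧ 3 ≤ (supp f e w').card := by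
  obtain ⟨j⟩ : Nonempty ι := Fintype.card_pos_iff.1 (by omega)
  obtain ⟨d, hd, hsum, hprod, i1, i2, i3, h12, h13, h23, n1, n2, n3⟩ := exists_bal A hn j
    (fun i => if i = j then N σ (f w (e j)) - 1 else N σ (f w (e i))) (by
      intro i hi
      rw [if_neg hi, Ne, N_eq_zero]
      exact hw0 i)
  have hsum' : ∑ i, d i * N σ (f w (e i)) = d j := by
    have h1 : ∑ i, d i * N σ (f w (e i)) = ∑ i, (d i * (if i = j then N σ (f w (e j)) - 1 else N σ (f w (e i))) +
        (if i = j then d j else 0)) := by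
      refine sum_congr rfl fun i _ => ?_
      by_cases h : i = j
      · subst h; rw [if_pos rfl, if_pos rfl]; ring
      · rw [if_neg h, if_neg h]; ring
    rw [h1, sum_add_distrib, hsum, sum_ite_eq' univ j, if_pos (mem_univ j), zero_add]
  obtain ⟨g, hg, hgd, hgm, hgc, hge⟩ := exists_diag H R (fun i => (d i)⁻¹) (fun i => inv_mem_U (hd i))
  have hgM : g ∈ M := by
    refine Y.mon g hg ?_ hgm
    rw [hgd, prod_inv_distrib, hprod, inv_one]
  have hfw : f w (g w) = d j := by
    rw [R.inner H, ← hsum']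
    refine sum_congr rfl fun i _ => ?_
    rw [hgc, map_mul, sig_U (inv_mem_U (hd i)), inv_inv]
    unfold N; ring
  have hw' := PP_tr H h2 Y.isom hw (PP_map H h2 Y.isom hw hgM)
  rw [hfw] at hw'
  have hco : ∀ i, f (w + d j • g w) (e i) = f w (e i) * (1 + d j * (d i)⁻¹) := by
    intro i
    rw [H.add_left, H.smul_left, hgc]; ring
  have hnz : ∀ i, d i ≠ d j → f (w + d j • g w) (e i) ≠ 0 := by
    intro i hi
    rw [hco]
    refine mul_ne_zero (hw0 i) fun h => hi ?_
    have h3 := U_ne (hd i)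
    field_simp at h
    linear_combination h - (d j) * h2
  refine ⟨_, hw', ⟨j, ?_⟩, ?_⟩
  · rw [hco, mul_inv_cancel₀ (U_ne (hd j))]
    linear_combination (f w (e j)) * h2
  · calc 3 = ({i1, i2, i3} : Finset ι).card := by
          rw [card_insert_of_notMem (by simp [h12, h13]), card_insert_of_notMem (by simp [h23]), card_singleton]
      _ ≤ _ := card_le_card (by
        intro l hl
        simp only [mem_insert, mem_singleton] at hl
        rcases hl with rfl | rfl | rfl
        · exact mem_supp.2 (hnz _ n1)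
        · exact mem_supp.2 (hnz _ n2)
        · exact mem_supp.2 (hnz _ n3))

include H h2 in
/-- even case, `q > 2` -/
theorem even_main [FiniteDimensional F V] (A : Ar σ q) (hq : 3 ≤ q) (Y : Hy f e M) (hn : 13 ≤ Fintype.card ι)
    {m : V ≃ₗ[F] V} (hm : m ∈ M) (hnm : ¬ Mon e m) : ∀ g ∈ isom f, dt g = 1 → g ∈ M := by
  by_cases hs : Stt e M
  swap
  · unfold Stt at hs
    push Not at hs
    obtain ⟨x, hx, a, hxa, hxm⟩ := hs
    exact stab_one H R A hq (by omega) Y hx hxa hxm
  exfalso
  obtain ⟨w, hw, hw3⟩ := exists_PP H h2 R A Y (by omega) (fun h => by omega) hm hnm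
  obtain ⟨w', hw', ⟨j, hj⟩, hw'3⟩ : ∃ w' ∈ PP H h2 M, (∃ j, f w' (e j) = 0) ∧ 3 ≤ (supp f e w').card := by
    by_cases h : ∃ j, f w (e j) = 0
    · exact ⟨w, hw, h, hw3⟩
    · push Not at h
      exact PP_zero H h2 R A Y hn hw h
  obtain ⟨hw'0, hwM⟩ := hw'
  have hfix : el H w' 1 (cond_two h2 hw'0) (e j) = e j := by
    rw [el_apply, H.symm_zero hj, mul_zero, zero_smul, add_zero]
  have hmon := hs _ hwM j ⟨1, by rw [hfix, one_smul]⟩
  obtain ⟨T, hT, hTc⟩ := exists_subset_card_eq hw'3
  obtain ⟨a, b, c, hab, hac, hbc, rfl⟩ := card_eq_three.1 hTc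
  have ha := mem_supp.1 (hT (by simp : a ∈ ({a, b, c} : Finset ι)))
  have hb := mem_supp.1 (hT (by simp : b ∈ ({a, b, c} : Finset ι)))
  have hc := mem_supp.1 (hT (by simp : c ∈ ({a, b, c} : Finset ι)))
  obtain ⟨l, k, hl⟩ := hmon a
  rw [el_apply, one_mul] at hl
  have e1 : ∀ i, i ≠ a → f (e a) w' * f w' (e i) = k * f (e l) (e i) := by
    intro i hi
    have := congrArg (fun v => f v (e i)) hl
    rw [H.add_left, H.smul_left, H.smul_left, R.ne hi.symm, zero_add] at this
    exact this
  have hfa : f (e a) w' ≠ 0 := H.symm_ne ha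
  have h5 := e1 b hab.symm
  have h6 := e1 c hac.symm
  by_cases h7 : l = b
  · rw [R.ne (by rw [h7]; exact hbc), mul_zero] at h6
    exact (mul_ne_zero hfa hc) h6
  · rw [R.ne h7, mul_zero] at h5
    exact (mul_ne_zero hfa hb) h5

end Cfsg.Agent.Lib.Uf98
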