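import Mathlib
import Cfsg.Agent.Lib.UfI

set_option autoImplicit false

/-!
The field with four elements: overgroups of the monomial group.
-/

namespace Cfsg.Agent.Lib.Uf98

open Finset Cfsg.Agent.Lib.UnTrans Cfsg.Agent.Lib.UnMax
open Cfsg.Agent.Lib.SpTrans (isom mem_isom)

variable {F : Type*} [Field F] [Fintype F] [DecidableEq F] {σ : F →+* F}
variable {V : Type*} [AddCommGroup V] [Module F V] {f : V → V → F}
variable {ι : Type*} [Fintype ι] [DecidableEq ι] {e : ι → V}

omit [DecidableEq F] in
theorem two_zero (A : Ar σ 2) : (2 : F) = 0 := by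
  have h := FiniteField.cast_card_eq_zero F
  rw [A.card] at h
  have h1 : (2 : F) * 2 = 0 := by
    push_cast at h
    linear_combination h
  rcases mul_eq_zero.1 h1 with h | h <;> exact h

omit [DecidableEq F] in
theorem N_one (A : Ar σ 2) {x : F} (hx : x ≠ 0) : N σ x = 1 := by
  have h := FiniteField.pow_card_sub_one_eq_one x hx
  rw [A.card] at h
  unfold N
  rw [A.pow, ← h]; ring

theorem U_of_ne (A : Ar σ 2) {x : F} (hx : x ≠ 0) : x ∈ U σ := by
  rw [mem_U]; exact N_one A hx

omit [Fintype F] [DecidableEq F] in
theorem cast_even (h2 : (2 : F) = 0) {n : ℕ} : (n : F) = 0 ↔ Even n := by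
  constructor
  · intro h
    by_contra hn
    rw [Nat.not_even_iff_odd] at hn
    obtain ⟨k, rfl⟩ := hn
    push_cast at h
    rw [h2, zero_mul, zero_add] at h
    exact one_ne_zero h
  · rintro ⟨k, rfl⟩
    push_cast
    linear_combination (k : F) * h2

/-- a primitive cube root of unity -/
theorem exists_om (A : Ar σ 2) : ∃ w : F, w ∈ U σ ∧ w ≠ 1 ∧ w + σ w = 1 ∧ w * w = σ w ∧ σ w * σ w = w ∧ 1 + w = σ w
    ∧ 1 + σ w = w := by
  have h2 := two_zero A
  obtain ⟨w, hw, hw1, -⟩ := exists_unit_ne A 1 1
  have h0 := U_ne hw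
  have h3 := mem_U.1 hw
  have h4 : σ w = w * w := by rw [A.pow]; ring
  rw [h4] at h3
  have h5 : (w - 1) * (w * w + w + 1) = 0 := by linear_combination h3
  have h6 : w * w + w + 1 = 0 := (mul_eq_zero.1 h5).resolve_left (sub_ne_zero.2 hw1)
  refine ⟨w, hw, hw1, ?_, h4.symm, ?_, ?_, ?_⟩
  · rw [h4]; linear_combination h6 - h2
  · rw [h4]; linear_combination w * h3
  · rw [h4]; linear_combination h6 - (w * w) * h2
  · rw [h4]; linear_combination h6 - w * h2

variable (H : HS σ f) (h2 : (2 : F) = 0) {M : Subgroup (V ≃ₗ[F] V)}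

omit [DecidableEq F] in
theorem PP_cen (A : Ar σ 2) {w : V} (hw : w ∈ PP H h2 M) : w ∈ cen H M := by
  obtain ⟨hw0, hwM⟩ := hw
  refine ⟨hw0, fun hz a ha => ?_⟩
  rw [A.pow] at ha
  have h1 : a * (1 + a) = 0 := by linear_combination ha
  rcases mul_eq_zero.1 h1 with h | h
  · subst h
    have : tv H w hz 0 (by rw [map_zero, add_zero]) = 1 := by
      ext x; rw [tv_apply]; simp
    rw [this]; exact one_mem _
  · have h3 : a = 1 := by linear_combination h - h2
    subst h3
    exact hwM

omit [DecidableEq F] in
theorem PP_smul (A : Ar σ 2) {w : V} (hw : w ∈ PP H h2 M) {c : F} (hc : c ≠ 0) : c • w ∈ PP H h2 M := by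
  obtain ⟨hw0, hwM⟩ := hw
  have h0 : f (c • w) (c • w) = 0 := by rw [H.smul_left, H.smul_right, hw0]; ring
  refine ⟨h0, ?_⟩
  have : el H (c • w) 1 (cond_two h2 h0) = el H w 1 (cond_two h2 hw0) := by
    ext x
    rw [el_apply, el_apply, H.smul_right, smul_smul]
    have := N_one A hc
    unfold N at this
    congr 2
    linear_combination (f x w) * this
  rw [this]; exact hwM

variable (R : Fr f e)
include R

include H in
theorem norm_card (A : Ar σ 2) (v : V) : f v v = ((supp f e v).card : F) := by
  rw [R.inner H, supp, Finset.card_filter, Nat.cast_sum]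
  refine sum_congr rfl fun i _ => ?_
  by_cases h : f v (e i) = 0
  · simp [h]
  · have := N_one A h
    unfold N at this
    rw [this]; simp [h]

include H in
theorem iso_even (A : Ar σ 2) {v : V} : f v v = 0 ↔ Even (supp f e v).card := by
  rw [norm_card H R A, cast_even (two_zero A)]

theorem sw_M [FiniteDimensional F V] (A : Ar σ 2) (Y : Hy f e M) {i j : ι} (hij : i ≠ j) :
    sw H (e i - e j) (norm_sub' H R hij) ∈ M := by
  refine Y.mon _ (sw_mem H _) ?_ ?_
  · rw [sw_det]; linear_combination -(two_zero A)
  · have := sw_mon H R hij (c := 1) (by rw [map_one, one_mul])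
    simp only [one_smul] at this
    exact this

theorem PP_swap [FiniteDimensional F V] (A : Ar σ 2) (Y : Hy f e M) {w : V} (hw : w ∈ PP H h2 M) {i j : ι}
    (hi : i ∈ supp f e w) (hj : j ∉ supp f e w) :
    ∃ w' ∈ PP H h2 M, supp f e w' = insert j ((supp f e w).erase i) := by
  have hij : i ≠ j := fun h => hj (h ▸ hi)
  refine ⟨_, PP_map H h2 Y.isom hw (sw_M H R A Y hij), ?_⟩
  ext k
  rw [mem_supp, sw_apply, swap_coord H R hij, ← mem_supp, mem_insert, mem_erase]
  by_cases h1 : k = i
  · subst h1
    rw [Equiv.swap_apply_left]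
    simp [hj, hij]
  · by_cases h3 : k = j
    · subst h3
      rw [Equiv.swap_apply_right]
      simp [hi]
    · rw [Equiv.swap_apply_of_ne_of_ne h1 h3]
      simp [h1, h3]

theorem PP_supp [FiniteDimensional F V] (A : Ar σ 2) (Y : Hy f e M) {T : Finset ι} {w : V} (hw : w ∈ PP H h2 M)
    (hc : (supp f e w).card = T.card) : ∃ w' ∈ PP H h2 M, supp f e w' = T := by
  obtain ⟨n, hn⟩ : ∃ n, (T \ supp f e w).card = n := ⟨_, rfl⟩
  induction n generalizing w with
  | zero =>
    refine ⟨w, hw, ?_⟩
    rw [card_eq_zero, sdiff_eq_empty_iff_subset] at hn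
    exact (eq_of_subset_of_card_le hn hc.le).symm
  | succ n ih =>
    obtain ⟨j, hj⟩ : (T \ supp f e w).Nonempty := by rw [← card_pos, hn]; omega
    have h1 : (supp f e w \ T).card = n + 1 := by
      have e1 := card_sdiff_add_card_inter T (supp f e w)
      have e2 := card_sdiff_add_card_inter (supp f e w) T
      rw [inter_comm] at e2
      omega
    obtain ⟨i, hi⟩ : (supp f e w \ T).Nonempty := by rw [← card_pos, h1]; omega
    rw [mem_sdiff] at hi hj
    obtain ⟨w', hw', hs⟩ := PP_swap H h2 R A Y hw hi.1 hj.2
    refine ih hw' ?_ ?_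
    · rw [hs, card_insert_of_notMem (fun h => hj.2 (mem_of_mem_erase h)), card_erase_of_mem hi.1, ← hc]
      have : 0 < (supp f e w).card := card_pos.2 ⟨i, hi.1⟩
      omega
    · have : T \ supp f e w' = (T \ supp f e w).erase j := by
        rw [hs]
        ext k
        simp only [mem_sdiff, mem_insert, mem_erase, not_or, not_and]
        constructor
        · rintro ⟨h3, h4, h5⟩
          refine ⟨h4, h3, fun h6 => ?_⟩
          exact h5 (fun h7 => hi.2 (h7 ▸ h3)) h6
        · rintro ⟨h3, h4, h5⟩
          exact ⟨h4, h3, fun _ => h5⟩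
      rw [this, card_erase_of_mem (by rw [mem_sdiff]; exact hj), hn]; rfl

/-- all vectors with the same support, which is not everything -/
theorem PP_same [FiniteDimensional F V] (A : Ar σ 2) (Y : Hy f e M) {v w : V} (hw : w ∈ PP H h2 M)
    (hs : supp f e w = supp f e v) {j : ι} (hj : j ∉ supp f e v) : v ∈ PP H h2 M := by
  set d0 : ι → F := fun i => if i ∈ supp f e v then f v (e i) / f w (e i) else 1 with hd0
  have hd0U : ∀ i, d0 i ∈ U σ := by
    intro i
    simp only [hd0]
    split_ifs with h
    · exact U_of_ne A (div_ne_zero (mem_supp.1 h) (mem_supp.1 (by rw [hs]; exact h)))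
    · exact one_mem_U
  set p := ∏ i, d0 i with hp
  have hpU : p ∈ U σ := prod_mem_U _ _ fun i _ => hd0U i
  have hdj : d0 j = 1 := by simp only [hd0]; rw [if_neg hj]
  obtain ⟨g, hg, hgd, hgm, hgc, hge⟩ := exists_diag H R (Function.update d0 j p⁻¹) (by
    intro i
    by_cases h : i = j
    · rw [h, Function.update_self]; exact inv_mem_U hpU
    · rw [Function.update_of_ne h]; exact hd0U i)
  have hgM : g ∈ M := by
    refine Y.mon g hg ?_ hgm
    rw [hgd, ← mul_prod_erase univ _ (mem_univ j), Function.update_self,
      prod_congr rfl (g := d0) (fun i hi => by rw [Function.update_of_ne (ne_of_mem_erase hi)])]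
    have : p = ∏ i ∈ univ.erase j, d0 i := by
      rw [hp, ← mul_prod_erase univ _ (mem_univ j), hdj, one_mul]
    rw [← this, inv_mul_cancel₀ (U_ne hpU)]
  have : g w = v := by
    apply R.ext
    intro k
    rw [hgc]
    by_cases h : k = j
    · subst h
      have h1 : f v (e k) = 0 := by
        by_contra h'; exact hj (mem_supp.2 h')
      have h3 : f w (e k) = 0 := by
        by_contra h'; exact hj (by rw [← hs]; exact mem_supp.2 h')
      rw [h1, h3, mul_zero]
    · rw [Function.update_of_ne h]
      simp only [hd0]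
      split_ifs with h1
      · rw [div_mul_cancel₀]
        exact mem_supp.1 (by rw [hs]; exact h1)
      · have h4 : f v (e k) = 0 := by
          by_contra h'; exact h1 (mem_supp.2 h')
        have h3 : f w (e k) = 0 := by
          by_contra h'; exact h1 (by rw [← hs]; exact mem_supp.2 h')
        rw [h4, h3, mul_zero]
  rw [← this]
  exact PP_map H h2 Y.isom hw hgM

/-- a vector of weight four -/
theorem PP_four [FiniteDimensional F V] (A : Ar σ 2) (Y : Hy f e M) {w : V} (hw : w ∈ PP H h2 M)
    (h4 : 4 ≤ (supp f e w).card) {j : ι} (hj : j ∉ supp f e w) :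
    ∃ w' ∈ PP H h2 M, (supp f e w').card = 4 := by
  obtain ⟨om, hom, hom1, o1, o2, o3, o4, o5⟩ := exists_om A
  have hsom : σ om ∈ U σ := sig_mem_U A hom
  have hsom1 : σ om ≠ 1 := by
    intro h; apply hom1; rw [← A.inv om, h, map_one]
  obtain ⟨T, hT, hTc⟩ := exists_subset_card_eq h4
  obtain ⟨a, ha⟩ : T.Nonempty := by rw [← card_pos, hTc]; omega
  set d0 : ι → F := fun i => if i = a then om else if i ∈ T then σ om else 1 with hd0
  have hd0U : ∀ i, d0 i ∈ U σ := by
    intro i
    simp only [hd0]
    split_ifs
    · exact hom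
    · exact hsom
    · exact one_mem_U
  have hjT : j ∉ T := fun h => hj (hT h)
  have hja : j ≠ a := fun h => hjT (h ▸ ha)
  set p := ∏ i, d0 i with hp
  have hpU : p ∈ U σ := prod_mem_U _ _ fun i _ => hd0U i
  have hdj : d0 j = 1 := by simp only [hd0]; rw [if_neg hja, if_neg hjT]
  obtain ⟨g, hg, hgd, hgm, hgc, hge⟩ := exists_diag H R (Function.update d0 j p⁻¹) (by
    intro i
    by_cases h : i = j
    · rw [h, Function.update_self]; exact inv_mem_U hpU
    · rw [Function.update_of_ne h]; exact hd0U i)
  have hgM : g ∈ M := by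
    refine Y.mon g hg ?_ hgm
    rw [hgd, ← mul_prod_erase univ _ (mem_univ j), Function.update_self,
      prod_congr rfl (g := d0) (fun i hi => by rw [Function.update_of_ne (ne_of_mem_erase hi)])]
    have : p = ∏ i ∈ univ.erase j, d0 i := by
      rw [hp, ← mul_prod_erase univ _ (mem_univ j), hdj, one_mul]
    rw [← this, inv_mul_cancel₀ (U_ne hpU)]
  have hj0 : f w (e j) = 0 := by
    by_contra h'; exact hj (mem_supp.2 h')
  have hco : ∀ k, f (g w) (e k) = d0 k * f w (e k) := by
    intro k
    rw [hgc]
    by_cases h : k = j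
    · rw [h, hj0, mul_zero, mul_zero]
    · rw [Function.update_of_ne h]
  have hsumT : ∑ i ∈ T, σ (d0 i) = 1 := by
    rw [← add_sum_erase T _ ha]
    have h5 : ∑ i ∈ T.erase a, σ (d0 i) = ∑ i ∈ T.erase a, om := by
      refine sum_congr rfl fun i hi => ?_
      simp only [hd0]
      rw [if_neg (ne_of_mem_erase hi), if_pos (mem_of_mem_erase hi), A.inv]
    rw [h5, sum_const, card_erase_of_mem ha, hTc]
    simp only [hd0]
    rw [if_pos trivial, nsmul_eq_mul]
    push_cast
    linear_combination o1 + om * h2
  have hfw : f w (g w) = 1 := by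
    rw [R.inner H]
    have h5 : ∑ i, f w (e i) * σ (f (g w) (e i)) = ∑ i ∈ supp f e w, σ (d0 i) := by
      rw [← sum_subset (subset_univ (supp f e w))]
      · refine sum_congr rfl fun i hi => ?_
        have h6 := N_one A (mem_supp.1 hi)
        unfold N at h6
        rw [hco, map_mul]
        linear_combination (σ (d0 i)) * h6
      · intro i _ hi
        have : f w (e i) = 0 := by
          by_contra h'; exact hi (mem_supp.2 h')
        rw [this, zero_mul]
    rw [h5, ← sum_sdiff hT, hsumT]
    have h7 : ∑ i ∈ supp f e w \ T, σ (d0 i) = ∑ i ∈ supp f e w \ T, 1 := by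
      refine sum_congr rfl fun i hi => ?_
      rw [mem_sdiff] at hi
      simp only [hd0]
      rw [if_neg (fun h : i = a => hi.2 (by rw [h]; exact ha)), if_neg hi.2, map_one]
    rw [h7, sum_const, card_sdiff_of_subset hT, hTc, nsmul_eq_mul, mul_one]
    have h8 : Even ((supp f e w).card - 4) := by
      have h9 := (iso_even H R A).1 hw.1
      obtain ⟨r, hr⟩ := h9
      exact ⟨r - 2, by omega⟩
    rw [(cast_even h2).2 h8, zero_add]
  have hw' := PP_tr H h2 Y.isom hw (PP_map H h2 Y.isom hw hgM)
  rw [hfw, one_smul] at hw'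
  refine ⟨_, hw', ?_⟩
  have : supp f e (w + g w) = T := by
    ext k
    rw [mem_supp, H.add_left, hco]
    by_cases hk : k ∈ T
    · have h5 := mem_supp.1 (hT hk)
      simp only [hk, iff_true]
      have h6 : f w (e k) + d0 k * f w (e k) = (1 + d0 k) * f w (e k) := by ring
      rw [h6]
      refine mul_ne_zero ?_ h5
      simp only [hd0]
      split_ifs
      · rw [o4]; exact U_ne hsom
      · rw [o5]; exact U_ne hom
    · simp only [hk, iff_false, not_not]
      have h7 : d0 k = 1 := by
        simp only [hd0]
        rw [if_neg (fun h : k = a => hk (by rw [h]; exact ha)), if_neg hk]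
      rw [h7]
      linear_combination (f w (e k)) * h2
  rw [this, hTc]

include H in
/-- the field with four elements -/
theorem two_main [FiniteDimensional F V] (A : Ar σ 2) (Y : Hy f e M) (hn : 13 ≤ Fintype.card ι)
    {m : V ≃ₗ[F] V} (hm : m ∈ M) (hnm : ¬ Mon e m) : ∀ g ∈ isom f, dt g = 1 → g ∈ M := by
  have h2 := two_zero A
  obtain ⟨om, hom, hom1, o1, o2, o3, o4, o5⟩ := exists_om A
  have hom0 := U_ne hom
  have hsom0 : σ om ≠ 0 := H.sigma_ne hom0
  obtain ⟨w, hw, hw3⟩ := exists_PP H h2 R A Y (by omega) (fun _ v hv hc => by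
    by_contra h
    have h3 : (supp f e v).card = 2 := by omega
    have h4 := norm_card H R A v
    rw [hv, h3] at h4
    push_cast at h4
    rw [h2] at h4
    exact one_ne_zero h4) hm hnm
  obtain ⟨w', hw', ⟨j, hj⟩, hw'3⟩ : ∃ w' ∈ PP H h2 M, (∃ j, f w' (e j) = 0) ∧ 3 ≤ (supp f e w').card := by
    by_cases h : ∃ j, f w (e j) = 0
    · exact ⟨w, hw, h, hw3⟩
    · push Not at h
      exact PP_zero H h2 R A Y hn hw h
  have heven := (iso_even H R A).1 hw'.1
  have hw'4 : 4 ≤ (supp f e w').card := by
    obtain ⟨r, hr⟩ := heven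
    omega
  obtain ⟨w4, hw4, hw4c⟩ := PP_four H h2 R A Y hw' hw'4 (j := j) (fun h => mem_supp.1 h hj)
  -- all isotropic vectors
  have hall : ∀ (n : ℕ) (v : V), f v v = 0 → (supp f e v).card = n → v ∈ cen H M := by
    intro n
    induction n using Nat.strong_induction_on with
    | _ n ih =>
    intro v hv hc
    have hev := (iso_even H R A).1 hv
    rw [hc] at hev
    obtain ⟨r, hr⟩ := hev
    rcases Nat.lt_or_ge n 1 with h0 | h1
    · have h3 : supp f e v = ∅ := by rw [← card_eq_zero]; omega
      have : v = 0 := R.ext fun i => by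
        rw [H.zero_left]
        by_contra h
        have : i ∈ supp f e v := mem_supp.2 h
        rw [h3] at this
        simp at this
      rw [this]; exact cen_zero
    rcases Nat.lt_or_ge n 3 with h3 | h3
    · obtain ⟨a, b, hab, hs⟩ := card_eq_two.1 (show (supp f e v).card = 2 by omega)
      have ha0 : f v (e a) ≠ 0 := mem_supp.1 (by rw [hs]; simp)
      have hb0 : f v (e b) ≠ 0 := mem_supp.1 (by rw [hs]; simp)
      have h5 := pair_vec H R hab (supp_pair H R hs)
      have h6 : f v (e b) / f v (e a) ∈ U σ := U_of_ne A (div_ne_zero hb0 ha0)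
      have h7 := PP_smul H h2 A (PP_mono H h2 R Y hab (mem_U.1 h6)) ha0
      have : f v (e a) • (e a - (f v (e b) / f v (e a)) • e b) = v := by
        conv_rhs => rw [h5]
        match_scalars
        · ring
        · field_simp
          linear_combination -h2
      rw [this] at h7
      exact PP_cen H h2 A h7
    rcases Nat.lt_or_ge n 5 with h5 | h5
    · obtain ⟨w5, hw5, hs5⟩ := PP_supp H h2 R A Y (T := supp f e v) hw4 (by rw [hw4c]; omega)
      obtain ⟨j, hj⟩ : ∃ j, j ∉ supp f e v := by
        by_contra h
        push Not at h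
        have h1 : (univ : Finset ι) ⊆ supp f e v := fun x _ => h x
        have h3 := card_le_card h1
        rw [card_univ] at h3
        omega
      exact PP_cen H h2 A (PP_same H h2 R A Y hw5 hs5 hj)
    · -- weight at least six
      obtain ⟨T, hT, hTc⟩ := exists_subset_card_eq (s := supp f e v) (n := 4) (by omega)
      obtain ⟨T2, hT2, hT2c⟩ := exists_subset_card_eq (s := T) (n := 2) (by omega)
      obtain ⟨b, c, hbc, hT2e⟩ := card_eq_two.1 hT2c
      have hb : b ∈ supp f e v := hT (hT2 (by rw [hT2e]; simp))
      have hcc : c ∈ supp f e v := hT (hT2 (by rw [hT2e]; simp))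
      set x := ∑ i ∈ T, ((if i = b then om else if i = c then σ om else 1) * f v (e i)) • e i with hx
      have hxc : ∀ k, f x (e k) = if k ∈ T then (if k = b then om else if k = c then σ om else 1) * f v (e k)
          else 0 := by
        intro k
        rw [hx, f_sum H]
        by_cases hk : k ∈ T
        · rw [if_pos hk, sum_eq_single k]
          · rw [H.smul_left, R.self', mul_one]
          · intro i _ hi
            rw [H.smul_left, R.ne hi, mul_zero]
          · intro h; exact absurd hk h
        · rw [if_neg hk]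
          refine sum_eq_zero fun i hi => ?_
          rw [H.smul_left, R.ne (fun h : i = k => hk (h ▸ hi)), mul_zero]
      have hbT : b ∈ T := hT2 (by rw [hT2e]; simp)
      have hcT : c ∈ T := hT2 (by rw [hT2e]; simp)
      have hsx : supp f e x = T := by
        ext k
        rw [mem_supp, hxc]
        by_cases hk : k ∈ T
        · rw [if_pos hk]
          simp only [hk, iff_true]
          refine mul_ne_zero ?_ (mem_supp.1 (hT hk))
          split_ifs
          · exact hom0
          · exact hsom0
          · exact one_ne_zero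
        · rw [if_neg hk]; simp [hk]
      have hyc : ∀ k, f (v - x) (e k) = if k = b then σ om * f v (e k) else if k = c then om * f v (e k) else
          if k ∈ T then 0 else f v (e k) := by
        intro k
        rw [H.sub_left, hxc]
        by_cases h1 : k = b
        · rw [h1, if_pos hbT, if_pos rfl, if_pos rfl]
          linear_combination (f v (e b)) * (o4 - om * h2)
        · by_cases h6 : k = c
          · rw [h6, if_pos hcT, if_neg (Ne.symm hbc), if_pos rfl, if_neg (Ne.symm hbc), if_pos rfl]
            linear_combination (f v (e c)) * (o5 - σ om * h2)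
          · rw [if_neg h1, if_neg h6, if_neg h1, if_neg h6]
            split_ifs <;> ring
      have hsy : supp f e (v - x) = (supp f e v \ T) ∪ {b, c} := by
        ext k
        rw [mem_supp, hyc, mem_union, mem_sdiff, mem_insert, mem_singleton]
        by_cases h1 : k = b
        · rw [if_pos h1, h1]
          simp [hsom0, mem_supp.1 hb]
        · by_cases h6 : k = c
          · rw [if_neg h1, if_pos h6, h6]
            simp [hom0, mem_supp.1 hcc]
          · rw [if_neg h1, if_neg h6]
            by_cases h7 : k ∈ T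
            · simp [h7, h1, h6]
            · rw [if_neg h7]
              simp [h7, h1, h6, mem_supp]
      have hyn : (supp f e (v - x)).card = n - 2 := by
        rw [hsy, card_union_of_disjoint, card_sdiff_of_subset hT, hTc, hc, card_pair hbc]
        · omega
        · rw [disjoint_left]
          intro k hk1 hk2
          rw [mem_sdiff] at hk1
          simp only [mem_insert, mem_singleton] at hk2
          rcases hk2 with rfl | rfl
          · exact hk1.2 hbT
          · exact hk1.2 hcT
      have hx0 : f x x = 0 := by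
        rw [iso_even H R A, hsx, hTc]; decide
      have hy0 : f (v - x) (v - x) = 0 := by
        rw [iso_even H R A, hyn]; exact ⟨r - 1, by omega⟩
      have hxC := ih 4 (by omega) x hx0 (by rw [hsx, hTc])
      have hyC := ih (n - 2) (by omega) (v - x) hy0 hyn
      have hxy : f x (v - x) = 1 := by
        rw [R.inner H, ← sum_subset (subset_univ ({b, c} : Finset ι))]
        · rw [sum_pair hbc, hxc, hxc, hyc, hyc, if_pos hbT, if_pos hcT, if_pos rfl, if_pos rfl, if_neg (Ne.symm hbc),
            if_neg (Ne.symm hbc), if_pos rfl, if_pos rfl, map_mul, map_mul, A.inv]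
          have e1 := N_one A (mem_supp.1 hb)
          have e2 := N_one A (mem_supp.1 hcc)
          unfold N at e1 e2
          linear_combination (om * om) * e1 + (σ om * σ om) * e2 + o2 + o3 + o1
        · intro k _ hk
          simp only [mem_insert, mem_singleton, not_or] at hk
          rw [hxc, hyc, if_neg hk.1, if_neg hk.2, if_neg hk.1, if_neg hk.2]
          by_cases h7 : k ∈ T
          · rw [if_pos h7, if_pos h7, map_zero, mul_zero]
          · rw [if_neg h7, zero_mul]
      have := cen_add Y.isom hxC hyC (by rw [hxy]; exact one_ne_zero) (c := 1) (by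
        rw [one_smul, sub_add_cancel]; exact hv)
      rw [one_smul, sub_add_cancel] at this
      exact this
  have hnd := frame_nd H R
  have hrk := frame_rank H R
  have hle : tgrp H ⊤ ≤ M := tgrp_le_of_cen fun z _ hz => hall _ z hz rfl
  exact fun g hg hdet => hle (su_le H hnd (by omega) hg hdet)

end Cfsg.Agent.Lib.Uf98
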