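import Mathlib
import Cfsg.Agent.Lib.UfJ

set_option autoImplicit false

/-!
Odd characteristic: two lemmas on overgroups of the monomial group.
-/

namespace Cfsg.Agent.Lib.Uf98

open Finset Cfsg.Agent.Lib.UnTrans Cfsg.Agent.Lib.UnMax
open Cfsg.Agent.Lib.SpTrans (isom mem_isom)

variable {F : Type*} [Field F] [Fintype F] [DecidableEq F] {σ : F →+* F} {q : ℕ}
variable {V : Type*} [AddCommGroup V] [Module F V] {f : V → V → F}
variable {ι : Type*} [Fintype ι] [DecidableEq ι] {e : ι → V}

section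
variable (H : HS σ f) (R : Fr f e)

/-- diagonal elements with two nontrivial entries -/
noncomputable def dd (a b : ι) (z : F) (hz : z ∈ U σ) : V ≃ₗ[F] V :=
  rl H (e a) z (R.self' a) hz * rl H (e b) z⁻¹ (R.self' b) (inv_mem_U hz)

theorem dd_apply {a b : ι} (hab : a ≠ b) {z : F} (hz : z ∈ U σ) (x : V) :
    dd H R a b z hz x = x + ((z⁻¹ - 1) * f x (e b)) • e b + ((z - 1) * f x (e a)) • e a := by
  rw [dd, LinearEquiv.mul_apply, rl_apply, rl_apply, rr, rr, H.add_left, H.smul_left, R.ne hab.symm, mul_zero,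
    add_zero]

theorem dd_coord {a b : ι} (hab : a ≠ b) {z : F} (hz : z ∈ U σ) (x : V) (k : ι) :
    f (dd H R a b z hz x) (e k) = (if k = a then z else if k = b then z⁻¹ else 1) * f x (e k) := by
  rw [dd_apply H R hab, H.add_left, H.add_left, H.smul_left, H.smul_left, R.on, R.on]
  by_cases h1 : k = a
  · subst h1
    rw [if_neg hab.symm, if_pos rfl, if_pos rfl]; ring
  · by_cases h2 : k = b
    · subst h2; rw [if_pos rfl, if_neg hab, if_neg h1, if_pos rfl]; ring
    · rw [if_neg (Ne.symm h1), if_neg (Ne.symm h2), if_neg h1, if_neg h2]; ring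

theorem dd_mem {a b : ι} {z : F} (hz : z ∈ U σ) : dd H R a b z hz ∈ isom f := mul_mem (rl_mem H _ _) (rl_mem H _ _)

theorem dd_M [FiniteDimensional F V] {M : Subgroup (V ≃ₗ[F] V)} (hM : ∀ g ∈ isom f, dt g = 1 → Mon e g → g ∈ M)
    {a b : ι} {z : F} (hz : z ∈ U σ) : dd H R a b z hz ∈ M := by
  refine hM _ (dd_mem H R hz) ?_ ((rl_mon H R a _).mul (rl_mon H R b _))
  rw [dd, dt_mul, rl_det, rl_det, mul_inv_cancel₀ (U_ne hz)]

theorem dd_fix {a b : ι} (hab : a ≠ b) {z : F} (hz : z ∈ U σ) {x : V} (ha : f x (e a) = 0) (hb : f x (e b) = 0) :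
    dd H R a b z hz x = x := by
  rw [dd_apply H R hab, ha, hb, mul_zero, mul_zero, zero_smul, zero_smul, add_zero, add_zero]

theorem dd_inner {a b : ι} (hab : a ≠ b) {z : F} (hz : z ∈ U σ) (x : V) :
    f (dd H R a b z hz x) x = f x x + (z⁻¹ - 1) * N σ (f x (e b)) + (z - 1) * N σ (f x (e a)) := by
  rw [dd_apply H R hab, H.add_left, H.add_left, H.smul_left, H.smul_left, H.herm (e b) x, H.herm (e a) x]
  unfold N; ring

include R in
theorem alt (A : Ar σ q) {m : V ≃ₗ[F] V} (hm : m ∈ isom f) (hnl : ∀ i j (c : F), m (e i) ≠ c • e j) {a b i : ι}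
    (hab : a ≠ b) {z : F} (hz : z ∈ U σ) (hz1 : z ≠ 1) (h : Mon e (m⁻¹ * dd H R a b z hz * m))
    (ha : f (m (e i)) (e a) ≠ 0) :
    1 + (z⁻¹ - 1) * N σ (f (m (e i)) (e b)) + (z - 1) * N σ (f (m (e i)) (e a)) = 0 ∨
      (z = -1 ∧ ∀ k, k ≠ a → k ≠ b → f (m (e i)) (e k) = 0) := by
  obtain ⟨j, κ, hj⟩ := h i
  rw [LinearEquiv.mul_apply, LinearEquiv.mul_apply] at hj
  have hj' : dd H R a b z hz (m (e i)) = κ • m (e j) := by
    rw [← LinearEquiv.map_smul m, ← hj, apply_inv_self']
  by_cases hij : j = i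
  · right
    subst hij
    have hc : ∀ k, (if k = a then z else if k = b then z⁻¹ else 1) * f (m (e j)) (e k) =
        κ * f (m (e j)) (e k) := by
      intro k
      rw [← dd_coord H R hab hz, hj', H.smul_left]
    have hκ : κ = z := by
      have h1 := hc a
      rw [if_pos rfl] at h1
      exact (mul_right_cancel₀ ha h1).symm
    have hrest : ∀ k, k ≠ a → k ≠ b → f (m (e j)) (e k) = 0 := by
      intro k h1 h2
      have h3 := hc k
      rw [if_neg h1, if_neg h2, hκ] at h3
      have h4 : (z - 1) * f (m (e j)) (e k) = 0 := by linear_combination -h3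
      exact (mul_eq_zero.1 h4).resolve_left (sub_ne_zero.2 hz1)
    have hb : f (m (e j)) (e b) ≠ 0 := by
      intro hb
      apply hnl j a (f (m (e j)) (e a))
      apply R.ext
      intro k
      rw [H.smul_left, R.on]
      by_cases h1 : k = a
      · rw [h1, if_pos rfl, mul_one]
      · rw [if_neg (Ne.symm h1), mul_zero]
        by_cases h2 : k = b
        · rw [h2, hb]
        · exact hrest k h1 h2
    refine ⟨?_, hrest⟩
    have h5 := hc b
    rw [if_neg hab.symm, if_pos rfl, hκ] at h5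
    have h6 := mul_right_cancel₀ hb h5
    have h7 := mul_inv_cancel₀ (U_ne hz)
    rw [h6] at h7
    have h8 : (z - 1) * (z + 1) = 0 := by linear_combination h7
    rcases mul_eq_zero.1 h8 with h9 | h9
    · exact absurd (sub_eq_zero.1 h9) hz1
    · linear_combination h9
  · left
    have h1 := dd_inner H R hab hz (m (e i))
    rw [hj', H.smul_left, hm, hm, R.ne hij, mul_zero, R.self'] at h1
    exact h1.symm

include R in
/-- impossible configuration -/
theorem lstar (A : Ar σ q) (hq : 3 ≤ q) (h2 : (2 : F) ≠ 0) {m : V ≃ₗ[F] V} (hm : m ∈ isom f)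
    (hnl : ∀ i j (c : F), m (e i) ≠ c • e j) {a b c : ι} (hab : a ≠ b) (hac : a ≠ c) (hbc : b ≠ c)
    (h1 : ∀ z (hz : z ∈ U σ), Mon e (m⁻¹ * dd H R a b z hz * m))
    (h3 : ∀ z (hz : z ∈ U σ), Mon e (m⁻¹ * dd H R a c z hz * m)) : False := by
  obtain ⟨i, hi⟩ : ∃ i, f (m (e i)) (e a) ≠ 0 := by
    by_contra hcon
    push Not at hcon
    have h4 : m⁻¹ (e a) = 0 := by
      apply R.ext
      intro i
      rw [H.zero_left]
      apply H.symm_zero
      rw [← hm, apply_inv_self']
      exact hcon i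
    exact e_ne H R a (by rw [← apply_inv_self' m (e a), h4, map_zero])
  obtain ⟨z, hz, hz1, hz2⟩ := exists_unit_ne A 1 (-1)
  have hz0 := U_ne hz
  have hsz := sig_U hz
  set x := m (e i) with hx
  have E1 := (alt H R A hm hnl hab hz hz1 (h1 z hz) hi).resolve_right (fun h => hz2 h.1)
  have E2 := (alt H R A hm hnl hac hz hz1 (h3 z hz) hi).resolve_right (fun h => hz2 h.1)
  rw [← hx] at E1 E2
  have key : ∀ s t : F, σ s = s → σ t = t → 1 + (z⁻¹ - 1) * s + (z - 1) * t = 0 → s = t := by
    intro s t hs ht h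
    have h' := congrArg σ h
    rw [map_add, map_add, map_mul, map_mul, map_sub, map_sub, map_inv₀, map_one, map_zero, hs, ht, hsz,
      inv_inv] at h'
    have h4 : (z - z⁻¹) * (s - t) = 0 := by linear_combination h' - h
    rcases mul_eq_zero.1 h4 with h5 | h5
    · exfalso
      have h6 := mul_inv_cancel₀ hz0
      rw [← sub_eq_zero.1 h5] at h6
      have h8 : (z - 1) * (z + 1) = 0 := by linear_combination h6
      rcases mul_eq_zero.1 h8 with h9 | h9
      · exact hz1 (sub_eq_zero.1 h9)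
      · exact hz2 (by linear_combination h9)
    · exact sub_eq_zero.1 h5
  have k1 := key _ _ (A.N_fix _) (A.N_fix _) E1
  have k2 := key _ _ (A.N_fix _) (A.N_fix _) E2
  have hN : N σ (f x (e a)) ≠ 0 := by rw [Ne, N_eq_zero]; exact hi
  have hm1 : (-1 : F) ∈ U σ := neg_one_U H R
  have hm11 : (-1 : F) ≠ 1 := by
    intro h; apply h2; linear_combination -h
  rcases alt H R A hm hnl hab hm1 hm11 (h1 _ hm1) hi with h4 | h4
  · rw [← hx, k1] at h4
    rw [k1] at E1
    have h5 : (-1 : F)⁻¹ = -1 := by norm_num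
    rw [h5] at h4
    have h6 : 4 * N σ (f x (e a)) = 1 := by linear_combination -h4
    have h7 : (z + 1) * (z + 1) = 0 := by
      have h8 : 4 + (z⁻¹ - 1) + (z - 1) = 0 := by linear_combination 4 * E1 - ((z⁻¹ - 1) + (z - 1)) * h6
      have h9 := mul_inv_cancel₀ hz0
      linear_combination z * h8 - h9
    have h8 : z + 1 = 0 := by rcases mul_eq_zero.1 h7 with h | h <;> exact h
    exact hz2 (by linear_combination h8)
  · have h5 := h4.2 c hac.symm hbc.symm
    rw [← hx] at h5
    rw [h5] at k2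
    apply hN
    rw [← k2]
    unfold N; rw [zero_mul]

end

section
variable (H : HS σ f) (R : Fr f e) {M : Subgroup (V ≃ₗ[F] V)}
include H R

theorem rl_neg_apply {v : V} (hv : f v v = 1) (hz : (-1 : F) ∈ U σ) (x : V) :
    rl H v (-1) hv hz x = x - (2 * f x v) • v := by
  rw [rl_apply, rr]; module

/-- groups containing the reflections of the frame -/
theorem noX [FiniteDimensional F V] (A : Ar σ q) (hq : 3 ≤ q) (h2 : (2 : F) ≠ 0) (hn : 13 ≤ Fintype.card ι)
    (Y : Hy f e M) {X : Subgroup (V ≃ₗ[F] V)} (hXi : X ≤ isom f)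
    (hXm : ∀ g ∈ isom f, dt g = 1 → Mon e g → g ∈ X)
    (hXr : ∀ i, rl H (e i) (-1) (R.self' i) (neg_one_U H R) ∈ X) (hs : Stt e X) {m : V ≃ₗ[F] V} (hm : m ∈ X) :
    Mon e m := by
  -- lines
  have hnl : ∀ x ∈ X, ¬ Mon e x → ∀ i j (c : F), x (e i) ≠ c • e j := by
    intro x hx hnm i j c hc
    obtain ⟨g, hg, hgm, hge⟩ := exists_move_e H R Y (by omega) j i
    have hgX := hXm g (Y.isom hg) (Y.det g hg) hgm
    have h1 : Mon e (g * x) := hs _ (mul_mem hgX hx) i ⟨c, by
      rw [LinearEquiv.mul_apply, hc, LinearEquiv.map_smul g, hge]⟩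
    have h3 : x = g⁻¹ * (g * x) := by rw [inv_mul_cancel_left]
    apply hnm
    rw [h3]
    exact (hgm.inv H R (Y.isom hg)).mul h1
  have conj : ∀ x ∈ X, ∀ i, ∃ g ∈ X, ∀ v, g v = v - (2 * f v (x (e i))) • x (e i) := by
    intro x hx i
    refine ⟨x * rl H (e i) (-1) (R.self' i) (neg_one_U H R) * x⁻¹, mul_mem (mul_mem hx (hXr i)) (inv_mem hx),
      fun v => ?_⟩
    rw [LinearEquiv.mul_apply, LinearEquiv.mul_apply, rl_neg_apply H R, map_sub, LinearEquiv.map_smul x,
      apply_inv_self']
    have : f (x⁻¹ v) (e i) = f v (x (e i)) := by rw [← hXi hx (x⁻¹ v) (e i), apply_inv_self']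
    rw [this]
  -- no zero coordinates
  have C1 : ∀ x ∈ X, ¬ Mon e x → ∀ i j, f (x (e i)) (e j) ≠ 0 := by
    intro x hx hnm i j h0
    obtain ⟨g, hg, hgv⟩ := conj x hx i
    have hgm : Mon e g := by
      refine hs g hg j ⟨1, ?_⟩
      rw [hgv, H.symm_zero h0, mul_zero, zero_smul, sub_zero, one_smul]
    have hcard : (supp f e (x (e i))).card ≤ 2 := by
      by_contra hcon
      obtain ⟨T, hT, hTc⟩ := exists_subset_card_eq (s := supp f e (x (e i))) (n := 3) (by omega)
      obtain ⟨a, b, c, hab, hac, hbc, rfl⟩ := card_eq_three.1 hTc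
      have ha := mem_supp.1 (hT (by simp : a ∈ ({a, b, c} : Finset ι)))
      have hb := mem_supp.1 (hT (by simp : b ∈ ({a, b, c} : Finset ι)))
      have hc := mem_supp.1 (hT (by simp : c ∈ ({a, b, c} : Finset ι)))
      obtain ⟨l, κ, hl⟩ := hgm a
      rw [hgv] at hl
      have e1 : ∀ k, k ≠ a → -(2 * f (e a) (x (e i))) * f (x (e i)) (e k) = κ * f (e l) (e k) := by
        intro k hk
        have := congrArg (fun v => f v (e k)) hl
        rw [H.sub_left, H.smul_left, H.smul_left, R.ne hk.symm] at this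
        linear_combination this
      have hfa : -(2 * f (e a) (x (e i))) ≠ 0 := neg_ne_zero.2 (mul_ne_zero h2 (H.symm_ne ha))
      have h5 := e1 b hab.symm
      have h6 := e1 c hac.symm
      by_cases h7 : l = b
      · rw [R.ne (by rw [h7]; exact hbc), mul_zero] at h6
        exact (mul_ne_zero hfa hc) h6
      · rw [R.ne h7, mul_zero] at h5
        exact (mul_ne_zero hfa hb) h5
    obtain ⟨T, hT, hTc⟩ := exists_subset_card_eq (s := (supp f e (x (e i)))ᶜ) (n := 3) (by
      rw [card_compl]; omega)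
    obtain ⟨a, b, c, hab, hac, hbc, rfl⟩ := card_eq_three.1 hTc
    have hz : ∀ k ∈ ({a, b, c} : Finset ι), f (x (e i)) (e k) = 0 := by
      intro k hk
      by_contra h
      exact (mem_compl.1 (hT hk)) (mem_supp.2 h)
    have hmon : ∀ k ∈ ({a, b, c} : Finset ι), ∀ l ∈ ({a, b, c} : Finset ι), k ≠ l → ∀ z (hz : z ∈ U σ),
        Mon e (x⁻¹ * dd H R k l z hz * x) := by
      intro k hk l hl hkl z hzU
      refine hs _ (mul_mem (mul_mem (inv_mem hx) (dd_M H R hXm hzU)) hx) i ⟨1, ?_⟩
      rw [LinearEquiv.mul_apply, LinearEquiv.mul_apply, dd_fix H R hkl hzU (hz k hk) (hz l hl), inv_apply_self',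
        one_smul]
    exact lstar H R A hq h2 (hXi hx) (hnl x hx hnm) hab hac hbc
      (hmon a (by simp) b (by simp) hab) (hmon a (by simp) c (by simp) hac)
  -- contradiction
  by_contra hnm
  obtain ⟨j⟩ : Nonempty ι := Fintype.card_pos_iff.1 (by omega)
  set u := m (e j) with hu
  have hu0 : ∀ i, f u (e i) ≠ 0 := fun i => C1 m hm hnm j i
  obtain ⟨d, hd, hsum, hprod, i1, i2, i3, h12, h13, h23, n1, n2, n3⟩ := exists_bal A hn j
    (fun i => if i = j then 2 * N σ (f u (e j)) - 1 else 2 * N σ (f u (e i))) (by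
      intro i hi
      rw [if_neg hi]
      refine mul_ne_zero h2 ?_
      rw [Ne, N_eq_zero]
      exact hu0 i)
  have hsum' : 2 * ∑ i, d i * N σ (f u (e i)) = d j := by
    have h1 : 2 * ∑ i, d i * N σ (f u (e i)) =
        ∑ i, (d i * (if i = j then 2 * N σ (f u (e j)) - 1 else 2 * N σ (f u (e i))) +
        (if i = j then d j else 0)) := by
      rw [mul_sum]
      refine sum_congr rfl fun i _ => ?_
      by_cases h : i = j
      · subst h; rw [if_pos rfl, if_pos rfl]; ring
      · rw [if_neg h, if_neg h]; ring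
    rw [h1, sum_add_distrib, hsum, sum_ite_eq' univ j, if_pos (mem_univ j), zero_add]
  obtain ⟨g, hg, hgd, hgm, hgc, hge⟩ := exists_diag H R (fun i => (d i)⁻¹) (fun i => inv_mem_U (hd i))
  have hgX : g ∈ X := by
    refine hXm g hg ?_ hgm
    rw [hgd, prod_inv_distrib, hprod, inv_one]
  have hfw : 2 * f u (g u) = d j := by
    rw [R.inner H, ← hsum']
    congr 1
    refine sum_congr rfl fun i _ => ?_
    rw [hgc, map_mul, sig_U (inv_mem_U (hd i)), inv_inv]
    unfold N; ring
  obtain ⟨s, hsX, hsv⟩ := conj (g * m) (mul_mem hgX hm) j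
  rw [LinearEquiv.mul_apply, ← hu] at hsv
  have hsu : s u = u - d j • g u := by rw [hsv, hfw]
  have hco : ∀ i, f (s u) (e i) = f u (e i) * (1 - d j * (d i)⁻¹) := by
    intro i
    rw [hsu, H.sub_left, H.smul_left, hgc]; ring
  have hnz : ∀ i, d i ≠ d j → f (s u) (e i) ≠ 0 := by
    intro i hi
    rw [hco]
    refine mul_ne_zero (hu0 i) fun h => hi ?_
    have h3 := U_ne (hd i)
    field_simp at h
    linear_combination h
  have hsm : s * m ∈ X := mul_mem hsX hm
  by_cases hmon : Mon e (s * m)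
  · obtain ⟨l, κ, hl⟩ := hmon j
    rw [LinearEquiv.mul_apply, ← hu] at hl
    have a1 := hnz i1 n1
    have a2 := hnz i2 n2
    rw [hl, H.smul_left, R.on] at a1 a2
    by_cases h7 : l = i1
    · rw [if_neg (by rw [h7]; exact h12), mul_zero] at a2; exact a2 rfl
    · rw [if_neg h7, mul_zero] at a1; exact a1 rfl
  · have h8 := C1 (s * m) hsm hmon j j
    rw [LinearEquiv.mul_apply, ← hu, hco, mul_inv_cancel₀ (U_ne (hd j)), sub_self, mul_zero] at h8
    exact h8 rfl

/-- elements fixing a line spanned by a difference of frame vectors -/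
theorem starstar [FiniteDimensional F V] (A : Ar σ q) (hq : 3 ≤ q) (h2 : (2 : F) ≠ 0) (hn : 13 ≤ Fintype.card ι)
    (Y : Hy f e M) (hs : Stt e M) {i j : ι} (hij : i ≠ j) {l : F} (hl : l * σ l = 1) {x : V ≃ₗ[F] V} (hx : x ∈ M)
    (hxc : x (e i - l • e j) = e i - l • e j) : Mon e x := by
  set ρ := rl H (e i) (-1) (R.self' i) (neg_one_U H R) with hρ
  have rl_sq : ∀ k, rl H (e k) (-1) (R.self' k) (neg_one_U H R) * rl H (e k) (-1) (R.self' k) (neg_one_U H R) = 1 := by
    intro k
    ext v
    rw [LinearEquiv.mul_apply, rl_neg_apply H R, rl_neg_apply H R, H.sub_left, H.smul_left, R.self']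
    show _ = v
    module
  have hρρ : ρ * ρ = 1 := rl_sq i
  have hρi : ρ ∈ isom f := rl_mem H _ _
  have hρm : Mon e ρ := rl_mon H R i _
  have hρd : dt ρ = -1 := rl_det H _ _
  have hρinv : ρ⁻¹ = ρ := inv_eq_of_mul_eq_one_left hρρ
  let X : Subgroup (V ≃ₗ[F] V) :=
    { carrier := {x | (x ∈ M ∧ ρ * x * ρ ∈ M) ∨ (x * ρ ∈ M ∧ ρ * x ∈ M)}
      mul_mem' := by
        rintro a b (⟨ha, ha'⟩ | ⟨ha, ha'⟩) (⟨hb, hb'⟩ | ⟨hb, hb'⟩)
        · left
          refine ⟨mul_mem ha hb, ?_⟩
          have : ρ * (a * b) * ρ = (ρ * a * ρ) * (ρ * b * ρ) := by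
            calc _ = ρ * a * 1 * b * ρ := by group
              _ = ρ * a * (ρ * ρ) * b * ρ := by rw [hρρ]
              _ = _ := by group
          rw [this]; exact mul_mem ha' hb'
        · right
          refine ⟨?_, ?_⟩
          · have : a * b * ρ = a * (b * ρ) := by group
            rw [this]; exact mul_mem ha hb
          · have : ρ * (a * b) = (ρ * a * ρ) * (ρ * b) := by
              calc _ = ρ * a * 1 * b := by group
                _ = ρ * a * (ρ * ρ) * b := by rw [hρρ]
                _ = _ := by group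
            rw [this]; exact mul_mem ha' hb'
        · right
          refine ⟨?_, ?_⟩
          · have : a * b * ρ = (a * ρ) * (ρ * b * ρ) := by
              calc _ = a * 1 * b * ρ := by group
                _ = a * (ρ * ρ) * b * ρ := by rw [hρρ]
                _ = _ := by group
            rw [this]; exact mul_mem ha hb'
          · have : ρ * (a * b) = (ρ * a) * b := by group
            rw [this]; exact mul_mem ha' hb
        · left
          refine ⟨?_, ?_⟩
          · have : a * b = (a * ρ) * (ρ * b) := by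
              calc _ = a * 1 * b := by group
                _ = a * (ρ * ρ) * b := by rw [hρρ]
                _ = _ := by group
            rw [this]; exact mul_mem ha hb'
          · have : ρ * (a * b) * ρ = (ρ * a) * (b * ρ) := by group
            rw [this]; exact mul_mem ha' hb
      one_mem' := by
        left
        refine ⟨one_mem _, ?_⟩
        rw [mul_one, hρρ]; exact one_mem _
      inv_mem' := by
        rintro a (⟨ha, ha'⟩ | ⟨ha, ha'⟩)
        · left
          refine ⟨inv_mem ha, ?_⟩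
          have : ρ * a⁻¹ * ρ = (ρ * a * ρ)⁻¹ := by
            rw [mul_inv_rev, mul_inv_rev, hρinv]; group
          rw [this]; exact inv_mem ha'
        · right
          refine ⟨?_, ?_⟩
          · have : a⁻¹ * ρ = (ρ * a)⁻¹ := by rw [mul_inv_rev, hρinv]
            rw [this]; exact inv_mem ha'
          · have : ρ * a⁻¹ = (a * ρ)⁻¹ := by rw [mul_inv_rev, hρinv]
            rw [this]; exact inv_mem ha }
  have memX : ∀ y, y ∈ X ↔ (y ∈ M ∧ ρ * y * ρ ∈ M) ∨ (y * ρ ∈ M ∧ ρ * y ∈ M) := fun y => Iff.rfl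
  refine noX H R A hq h2 hn Y (X := X) ?_ ?_ ?_ ?_ ?_
  · intro y hy
    rcases (memX y).1 hy with h | h
    · exact Y.isom h.1
    · have h3 := mul_mem (Y.isom h.1) hρi
      rwa [mul_assoc, hρρ, mul_one] at h3
  · intro g hg hgd hgm
    refine (memX g).2 (Or.inl ⟨Y.mon g hg hgd hgm, Y.mon _ (mul_mem (mul_mem hρi hg) hρi) ?_
      ((hρm.mul hgm).mul hρm)⟩)
    rw [dt_mul, dt_mul, hρd, hgd]; ring
  · intro k
    have hk := rl_mem H (R.self' k) (neg_one_U H R)
    have hkm := rl_mon H R k (neg_one_U H R)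
    refine (memX _).2 (Or.inr ⟨Y.mon _ (mul_mem hk hρi) ?_ (hkm.mul hρm), Y.mon _ (mul_mem hρi hk) ?_
      (hρm.mul hkm)⟩)
    · rw [dt_mul, hρd, rl_det]; ring
    · rw [dt_mul, hρd, rl_det]; ring
  · intro y hy a hya
    rcases (memX y).1 hy with h | h
    · exact hs y h.1 a hya
    · obtain ⟨c, hc⟩ := hya
      set r := rl H (e a) (-1) (R.self' a) (neg_one_U H R) with hr
      have hri : r ∈ isom f := rl_mem H _ _
      have hrm : Mon e r := rl_mon H R a _
      have hrr : r * r = 1 := rl_sq a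
      have hρr : ρ * r ∈ M := by
        refine Y.mon _ (mul_mem hρi hri) ?_ (hρm.mul hrm)
        rw [dt_mul, hρd, hr, rl_det]; ring
      have h3 : y * r ∈ M := by
        have : y * r = (y * ρ) * (ρ * r) := by
          calc _ = y * 1 * r := by group
            _ = y * (ρ * ρ) * r := by rw [hρρ]
            _ = _ := by group
        rw [this]; exact mul_mem h.1 hρr
      have h4 : Mon e (y * r) := hs _ h3 a ⟨-c, by
        rw [LinearEquiv.mul_apply, hr, rl_neg_apply H R, R.self', map_sub, LinearEquiv.map_smul y, hc]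
        module⟩
      have h5 : y = (y * r) * r := by rw [mul_assoc, hrr, mul_one]
      rw [h5]; exact h4.mul hrm
  · refine (memX x).2 (Or.inl ⟨hx, ?_⟩)
    set c := e i - l • e j with hc
    have hcc : f c c = 2 := norm_sub H R hij hl
    set s := sw H c hcc with hsdef
    have hsi : s ∈ isom f := sw_mem H _
    have hsm : Mon e s := sw_mon H R hij hl
    have hsd : dt s = -1 := sw_det H _
    have hss : s * s = 1 := by
      ext v
      rw [LinearEquiv.mul_apply, hsdef, sw_apply, sw_apply, H.sub_left, H.smul_left, hcc]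
      show _ = v
      module
    have hcomm : x * s = s * x := by
      ext v
      rw [LinearEquiv.mul_apply, LinearEquiv.mul_apply, hsdef, sw_apply, sw_apply, map_sub,
        LinearEquiv.map_smul x, hxc]
      have : f (x v) c = f v c := by
        conv_lhs => rw [← hxc]
        exact Y.isom hx v c
      rw [this]
    have hsinv : s⁻¹ = s := inv_eq_of_mul_eq_one_left hss
    have hh : ρ * s ∈ M := by
      refine Y.mon _ (mul_mem hρi hsi) ?_ (hρm.mul hsm)
      rw [dt_mul, hρd, hsd]; ring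
    have : ρ * x * ρ = (ρ * s) * x * (ρ * s)⁻¹ := by
      rw [mul_inv_rev, hρinv, hsinv]
      calc ρ * x * ρ = ρ * x * 1 * ρ := by group
        _ = ρ * x * (s * s) * ρ := by rw [hss]
        _ = ρ * (x * s) * s * ρ := by group
        _ = ρ * (s * x) * s * ρ := by rw [hcomm]
        _ = _ := by group
    rw [this]
    exact mul_mem (mul_mem hh hx) (inv_mem hh)

end

end Cfsg.Agent.Lib.Uf98
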