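import Mathlib
import Cfsg.Agent.Lib.UfL

set_option autoImplicit false

/-!
Overgroups of the stabilizer of an orthogonal decomposition into blocks of dimension at least two.
-/

namespace Cfsg.Agent.Lib.Uf98

open Finset Cfsg.Agent.Lib.UnTrans Cfsg.Agent.Lib.UnMax
open Cfsg.Agent.Lib.SpTrans (isom mem_isom)

variable {F : Type*} [Field F] [Fintype F] [DecidableEq F] {σ : F →+* F} {q : ℕ}
variable {V : Type*} [AddCommGroup V] [Module F V] {f : V → V → F}

omit [Fintype F] [DecidableEq F] in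
/-- vectors with prescribed product and norm -/
theorem exists_pn [FiniteDimensional F V] (H : HS σ f) {U : Submodule F V} (hU : Nd f U) {k : ℕ}
    (hk : Module.finrank F U = k) (hk2 : 2 ≤ k) {w : V} (hw : w ∈ U) (hw0 : w ≠ 0) {s ν : F} (hν : σ ν = ν)
    (hs : s ≠ 0 ∨ (3 ≤ k ∧ ν ≠ 0)) : ∃ d ∈ U, f w d = s ∧ f d d = ν := by
  have h1 := HS.finrank_inf_ker U (H.fl w)
  rw [hk] at h1
  set U' := U ⊓ LinearMap.ker (H.fl w) with hU'
  have memU : ∀ x, x ∈ U' ↔ x ∈ U ∧ f x w = 0 := by intro x; simp [hU']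
  by_cases hs0 : s = 0
  · obtain ⟨h3, hν0⟩ := hs.resolve_left (not_not.2 hs0)
    obtain ⟨a, haU, ha⟩ := H.exists_aniso (U := U') (w := w) (by omega) (by
      intro u hu h
      exact H.mem_span_of_perp hU hw ((memU u).1 hu).1 fun x hx hxw => h x ((memU x).2 ⟨hx, hxw⟩))
    obtain ⟨l, hl⟩ := H.norm (ν / f a a) (by rw [map_div₀, H.self_fixed, hν])
    refine ⟨l • a, U.smul_mem _ ((memU a).1 haU).1, ?_, ?_⟩
    · rw [H.smul_right, H.symm_zero ((memU a).1 haU).2, mul_zero, hs0]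
    · rw [H.smul_left, H.smul_right]
      field_simp at hl
      linear_combination hl
  · by_cases hww : f w w = 0
    · obtain ⟨y, hy, hwy⟩ := hU w hw hw0
      have e1 : f w (σ (s / f w y) • y) = s := by
        rw [H.smul_right, H.inv, div_mul_cancel₀ _ hwy]
      obtain ⟨a, ha⟩ := H.exists_add_norm (z := w) (u := σ (s / f w y) • y) hww (by rw [e1]; exact hs0) hν
      refine ⟨_, U.add_mem (U.smul_mem _ hy) (U.smul_mem a hw), ?_, ha⟩
      rw [H.add_right, H.smul_right a, hww, mul_zero, add_zero, e1]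
    · obtain ⟨b, hb, hbb⟩ : ∃ b ∈ U', f b b ≠ 0 := by
        obtain ⟨b, hb, hb0⟩ := Submodule.exists_mem_ne_zero_of_ne_bot (p := U') (by
          intro h
          rw [h, finrank_bot] at h1
          omega)
        by_cases hbb : f b b = 0
        · obtain ⟨y, hy, hby⟩ := hU b ((memU b).1 hb).1 hb0
          have hbw := ((memU b).1 hb).2
          have e1 : f b (y - (f y w / f w w) • w) = f b y := by
            rw [H.sub_right, H.smul_right, hbw, mul_zero, sub_zero]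
          have e2 : y - (f y w / f w w) • w ∈ U' := by
            refine (memU _).2 ⟨U.sub_mem hy (U.smul_mem _ hw), ?_⟩
            rw [H.sub_left, H.smul_left, div_mul_cancel₀ _ hww, sub_self]
          obtain ⟨a, ha⟩ := H.exists_add_norm (z := b) hbb (by rw [e1]; exact hby) (map_one σ)
          exact ⟨_, U'.add_mem e2 (U'.smul_mem a hb), by rw [ha]; exact one_ne_zero⟩
        · exact ⟨b, hb, hbb⟩
      obtain ⟨hbU, hbw⟩ := (memU b).1 hb
      set c := σ (s / f w w) with hc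
      obtain ⟨l, hl⟩ := H.norm ((ν - c * σ c * f w w) / f b b) (by
        rw [map_div₀, map_sub, map_mul, map_mul, H.inv, H.self_fixed, H.self_fixed, hν]; ring)
      refine ⟨c • w + l • b, U.add_mem (U.smul_mem _ hw) (U.smul_mem _ hbU), ?_, ?_⟩
      · rw [H.add_right, H.smul_right, H.smul_right, H.symm_zero hbw, hc, H.inv, div_mul_cancel₀ _ hww, mul_zero,
          add_zero]
      · rw [H.add_left, H.add_right, H.add_right, H.smul_left, H.smul_left, H.smul_left, H.smul_left, H.smul_right,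
          H.smul_right, H.smul_right, H.smul_right, hbw, H.symm_zero hbw]
        field_simp at hl
        linear_combination hl

omit [Fintype F] [DecidableEq F] in
theorem exists_norm_one (H : HS σ f) {U : Submodule F V} (hU : Nd f U) {x : V} (hx : x ∈ U) (hx0 : x ≠ 0) :
    ∃ b ∈ U, f b b = 1 := by
  by_cases hxx : f x x = 0
  · obtain ⟨y, hy, hxy⟩ := hU x hx hx0
    obtain ⟨a, ha⟩ := H.exists_add_norm hxx hxy (map_one σ)
    exact ⟨_, U.add_mem hy (U.smul_mem _ hx), ha⟩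
  · obtain ⟨l, hl⟩ := H.norm (1 / f x x) (by rw [map_div₀, H.self_fixed, map_one])
    refine ⟨l • x, U.smul_mem _ hx, ?_⟩
    rw [H.smul_left, H.smul_right]
    field_simp at hl
    linear_combination hl

variable {T : Type*} [Fintype T] [DecidableEq T]

/-- blocks -/
structure Bk (f : V → V → F) (D : T → Submodule F V) (k : ℕ) (M : Subgroup (V ≃ₗ[F] V)) : Prop where
  nd : ∀ i, Nd f (D i)
  rk : ∀ i, Module.finrank F (D i) = k
  orth : ∀ i j, i ≠ j → ∀ u ∈ D i, ∀ v ∈ D j, f u v = 0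
  sum : ∀ v, ∃ c : T → V, (∀ i, c i ∈ D i) ∧ v = ∑ i, c i
  isom : M ≤ isom f
  P1 : ∀ g ∈ Cfsg.Agent.Lib.SpTrans.isom f, dt g = 1 → (∀ i, ∀ v ∈ D i, g v ∈ D i) → g ∈ M
  P2 : ∀ i j i' j', i ≠ j → i' ≠ j' → ∃ g ∈ M, (∀ v ∈ D i', g v ∈ D i) ∧ (∀ v ∈ D j', g v ∈ D j)

variable {D : T → Submodule F V} {k : ℕ} {M : Subgroup (V ≃ₗ[F] V)}

section
variable (H : HS σ f) (B : Bk f D k M)
include H B

omit [Fintype F] [DecidableEq F] [DecidableEq T] in
theorem el_pres {i : T} {w : V} (hw : w ∈ D i) (a : F) (h : a + σ a + a * σ a * f w w = 0) (l : T) {v : V}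
    (hv : v ∈ D l) : el H w a h v ∈ D l := by
  rw [el_apply]
  by_cases hli : l = i
  · subst hli; exact (D l).add_mem hv ((D l).smul_mem _ hw)
  · rw [B.orth l i hli v hv w hw, mul_zero, zero_smul, add_zero]; exact hv

omit [Fintype F] [DecidableEq F] [DecidableEq T] in
theorem cen_blk [FiniteDimensional F V] {i : T} {z : V} (hz : z ∈ D i) (hzz : f z z = 0) : z ∈ cen H M :=
  ⟨hzz, fun _ a ha => B.P1 _ (tv_mem H _ _ _ _) (tv_det H _ _ _ _) fun l _ hv => el_pres H B hz a _ l hv⟩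

omit [Fintype F] [DecidableEq F] in
theorem f_comp {c : T → V} (hc : ∀ l, c l ∈ D l) {S : Finset T} {i : T} (hi : i ∈ S) {d : V} (hd : d ∈ D i) :
    f (∑ l ∈ S, c l) d = f (c i) d := by
  rw [f_sum H, sum_eq_single i]
  · intro l _ hl; exact B.orth l i hl _ (hc l) _ hd
  · intro h; exact absurd hi h

omit [Fintype F] [DecidableEq F] [DecidableEq T] in
/-- a centre with two components -/
theorem two_comp [FiniteDimensional F V] (hk : 2 ≤ k) {i j : T} (hij : i ≠ j) {w : V} (hw : w ∈ cen H M)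
    {c : T → V} (hc : ∀ l, c l ∈ D l) (hsum : w = ∑ l, c l) (hi : c i ≠ 0) (hj : c j ≠ 0) {f1 : F}
    (hf1 : σ f1 ≠ f1) :
    ∃ d1 ∈ D i, ∃ d2 ∈ D j, f d1 d1 = -(f1 + σ f1) ∧ f d2 d2 = f1 + σ f1 ∧ d1 + d2 ∈ cen H M := by
  classical
  have hf0 : f1 ≠ 0 := by rintro rfl; exact hf1 (map_zero σ)
  have hsf0 : σ f1 ≠ 0 := H.sigma_ne hf0
  obtain ⟨d1, hd1, h11, h12⟩ := exists_pn H (B.nd i) (B.rk i) hk (hc i) hi (s := f1) (ν := -(f1 + σ f1)) (by
    rw [map_neg, map_add, H.inv]; ring) (Or.inl hf0)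
  obtain ⟨d2, hd2, h21, h22⟩ := exists_pn H (B.nd j) (B.rk j) hk (hc j) hj (s := -σ f1) (ν := f1 + σ f1) (by
    rw [map_add, H.inv]; ring) (Or.inl (neg_ne_zero.2 hsf0))
  have hw1 : f w d1 = f1 := by rw [hsum, f_comp H B hc (mem_univ i) hd1, h11]
  have hw2 : f w d2 = -σ f1 := by rw [hsum, f_comp H B hc (mem_univ j) hd2, h21]
  have c1 : f1⁻¹ + σ f1⁻¹ + f1⁻¹ * σ f1⁻¹ * f d1 d1 = 0 := by
    rw [map_inv₀, h12]; field_simp; ring
  have c2 : (-σ f1)⁻¹ + σ (-σ f1)⁻¹ + (-σ f1)⁻¹ * σ (-σ f1)⁻¹ * f d2 d2 = 0 := by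
    rw [map_inv₀, map_neg, H.inv, h22]; field_simp; ring
  set g := el H d1 f1⁻¹ c1 * el H d2 (-σ f1)⁻¹ c2 with hg
  have hgM : g ∈ M := by
    refine B.P1 g (mul_mem (el_mem H _ _ _) (el_mem H _ _ _)) ?_ ?_
    · have e1 : dt (el H d1 f1⁻¹ c1) = 1 + f1⁻¹ * f d1 d1 := el_det H _ _ _
      have e2 : dt (el H d2 (-σ f1)⁻¹ c2) = 1 + (-σ f1)⁻¹ * f d2 d2 := el_det H _ _ _
      rw [hg, dt_mul, e1, e2, h12, h22]
      field_simp; ring
    · intro l v hv
      rw [hg, LinearEquiv.mul_apply]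
      exact el_pres H B hd1 _ _ l (el_pres H B hd2 _ _ l hv)
  have hgw : g w = w + (d1 + d2) := by
    rw [hg, LinearEquiv.mul_apply, el_apply H d2, el_apply, hw2, H.add_left, H.smul_left,
      B.orth j i hij.symm d2 hd2 d1 hd1, hw1, mul_zero, add_zero, inv_mul_cancel₀ hf0,
      inv_mul_cancel₀ (neg_ne_zero.2 hsf0)]
    module
  have hcen := cen_map B.isom hw hgM
  rw [hgw] at hcen
  have hx0 : f (d1 + d2) (d1 + d2) = 0 := by
    rw [H.add_left, H.add_right, H.add_right, h12, h22, B.orth j i hij.symm d2 hd2 d1 hd1,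
      B.orth i j hij d1 hd1 d2 hd2]; ring
  refine ⟨d1, hd1, d2, hd2, h12, h22, ?_⟩
  have hne : f w (w + (d1 + d2)) ≠ 0 := by
    rw [H.add_right, H.add_right, hw1, hw2, cen_iso hw]
    intro h
    apply hf1
    linear_combination -h
  have h5 : w + (d1 + d2) + (-1 : F) • w = d1 + d2 := by module
  have := cen_add B.isom hw hcen hne (c := -1) (by rw [h5]; exact hx0)
  rwa [h5] at this

/-- transitivity inside a block -/
theorem move_blk [FiniteDimensional F V] (A : Ar σ q) (hk : 2 ≤ k) (hkt : 4 ≤ k ∨ 3 ≤ Fintype.card T) {i j : T}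
    (hij : i ≠ j) {d y : V} (hd : d ∈ D i) (hy : y ∈ D i) (hn : f d d = f y y) (h0 : f d d ≠ 0) :
    ∃ g ∈ M, g d = y ∧ ∀ v ∈ D j, g v = v := by
  have hd0 : d ≠ 0 := by rintro rfl; rw [H.zero_left] at h0; exact h0 rfl
  have hy0 : y ≠ 0 := by rintro rfl; rw [hn, H.zero_left] at h0; exact h0 rfl
  by_cases hk4 : 4 ≤ k
  · obtain ⟨t, ht, hty⟩ := exists_move H (B.nd i) (by rw [B.rk]; exact hk4) hd hy hd0 hy0 hn
    have hle : tgrp H (D i) ≤ M := tgrp_le_of_cen fun z hz hzz => cen_blk H B hz hzz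
    exact ⟨t, hle ht, hty, fun v hv => tgrp_fix H ht fun w hw => B.orth j i hij.symm v hv w hw⟩
  have ht3 := hkt.resolve_left hk4
  obtain ⟨l, hl⟩ : ∃ l, l ∉ ({i, j} : Finset T) := by
    by_contra hcon
    push Not at hcon
    have h1 : (univ : Finset T) ⊆ {i, j} := fun x _ => hcon x
    have h2 := card_le_card h1
    have h3 : ({i, j} : Finset T).card ≤ 2 := card_le_two
    rw [card_univ] at h2
    omega
  have hli : l ≠ i := fun h => hl (by rw [h]; simp)
  have hlj : l ≠ j := fun h => hl (by rw [h]; simp)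
  obtain ⟨b, hb, hbb⟩ : ∃ b ∈ D l, f b b = 1 := by
    obtain ⟨x, hx, hx0⟩ := Submodule.exists_mem_ne_zero_of_ne_bot (p := D l) (by
      intro h
      have := B.rk l
      rw [h, finrank_bot] at this
      omega)
    exact exists_norm_one H (B.nd l) hx hx0
  have step : ∀ d ∈ D i, ∀ y ∈ D i, f d d = f y y → f d (y - d) ≠ 0 → ∃ g ∈ M, g d = y ∧ ∀ v ∈ D j, g v = v := by
    intro d hd y hy hn h
    obtain ⟨a, ha, h1, h2⟩ := exists_el H hn h
    set δ := 1 + a * f (y - d) (y - d) with hδ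
    have hδU : δ ∈ U σ := by
      rw [mem_U, hδ, map_add, map_mul, map_one, H.self_fixed]
      linear_combination (f (y - d) (y - d)) * ha
    refine ⟨rl H b δ⁻¹ hbb (inv_mem_U hδU) * el H (y - d) a ha,
      B.P1 _ (mul_mem (rl_mem H _ _) (el_mem H _ _ _)) ?_ ?_, ?_, ?_⟩
    · have e1 : dt (el H (y - d) a ha) = δ := el_det H _ _ _
      rw [dt_mul, rl_det, e1, inv_mul_cancel₀ (U_ne hδU)]
    · intro m v hv
      rw [LinearEquiv.mul_apply]
      exact el_pres H B hb _ _ m (el_pres H B ((D i).sub_mem hy hd) _ _ m hv)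
    · rw [LinearEquiv.mul_apply, h1, rl_apply, rr, B.orth i l hli.symm y hy b hb, mul_zero, zero_smul, add_zero]
    · intro v hv
      rw [LinearEquiv.mul_apply, h2 v (B.orth j i hij.symm v hv _ ((D i).sub_mem hy hd)), rl_apply, rr,
        B.orth j l hlj.symm v hv b hb, mul_zero, zero_smul, add_zero]
  by_cases h : f d (y - d) = 0
  · obtain ⟨z, hz, hz1, -⟩ := exists_unit_ne A 1 1
    have hz' := mem_U.1 hz
    have hsz1 : σ z ≠ 1 := by
      intro h'; apply hz1; rw [← A.inv z, h', map_one]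
    have hdy : f d y = f d d := by
      rw [H.sub_right] at h; linear_combination h
    have hn1 : f d d = f (z • d) (z • d) := by
      rw [H.smul_left, H.smul_right]; linear_combination -(f d d) * hz'
    obtain ⟨g1, hg1, e1, e2⟩ := step d hd (z • d) ((D i).smul_mem _ hd) hn1 (by
      rw [H.sub_right, H.smul_right]
      have : σ z * f d d - f d d = (σ z - 1) * f d d := by ring
      rw [this]; exact mul_ne_zero (sub_ne_zero.2 hsz1) h0)
    obtain ⟨g2, hg2, e3, e4⟩ := step (z • d) ((D i).smul_mem _ hd) y hy (hn1.symm.trans hn) (by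
      rw [H.sub_right, H.smul_left, H.smul_left, H.smul_right, hdy]
      have : z * f d d - z * (σ z * f d d) = (z - 1) * f d d := by linear_combination -(f d d) * hz'
      rw [this]; exact mul_ne_zero (sub_ne_zero.2 hz1) h0)
    exact ⟨g2 * g1, mul_mem hg2 hg1, by rw [LinearEquiv.mul_apply, e1, e3],
      fun v hv => by rw [LinearEquiv.mul_apply, e2 v hv, e4 v hv]⟩
  · exact step d hd y hy hn h

/-- pairs of anisotropic vectors -/
theorem pair_ne [FiniteDimensional F V] (A : Ar σ q) (hk : 2 ≤ k) (hkt : 4 ≤ k ∨ 3 ≤ Fintype.card T) {i j : T}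
    (hij : i ≠ j) {w : V} (hw : w ∈ cen H M) {c : T → V} (hc : ∀ l, c l ∈ D l) (hsum : w = ∑ l, c l)
    (hi : c i ≠ 0) (hj : c j ≠ 0) {y1 y2 : V} (hy1 : y1 ∈ D i) (hy2 : y2 ∈ D j) (hne : f y1 y1 ≠ 0)
    (hiso : f y1 y1 + f y2 y2 = 0) : y1 + y2 ∈ cen H M := by
  obtain ⟨f1, hf1, htr⟩ : ∃ f1 : F, σ f1 ≠ f1 ∧ f1 + σ f1 = -f y1 y1 := by
    obtain ⟨x, hx⟩ := H.exists_trace (-f y1 y1) (by rw [map_neg, H.self_fixed])
    by_cases hxf : σ x = x
    · obtain ⟨τ, hτ0, hτ⟩ := H.exists_tr0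
      refine ⟨x + τ, fun h => ?_, ?_⟩
      · rw [map_add, hxf] at h
        have h3 : (2 : F) * τ = 0 := by linear_combination hτ - h
        have h4 : (2 : F) = 0 := (mul_eq_zero.1 h3).resolve_right hτ0
        apply hne
        rw [hxf] at hx
        linear_combination hx - x * h4
      · rw [map_add]; linear_combination hx + hτ
    · exact ⟨x, hxf, hx⟩
  obtain ⟨d1, hd1, d2, hd2, e1, e2, hcen⟩ := two_comp H B hk hij hw hc hsum hi hj hf1
  obtain ⟨g1, hg1, a1, a2⟩ := move_blk H B A hk hkt hij hd1 hy1 (by rw [e1, htr, neg_neg]) (by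
    rw [e1, htr, neg_neg]; exact hne)
  obtain ⟨g2, hg2, b1, b2⟩ := move_blk H B A hk hkt hij.symm hd2 hy2 (by rw [e2, htr]; linear_combination -hiso) (by
    rw [e2, htr]; exact neg_ne_zero.2 hne)
  have := cen_map B.isom (cen_map B.isom hcen hg1) hg2
  rwa [map_add, a1, a2 d2 hd2, map_add, b1, b2 y1 hy1] at this

/-- all isotropic vectors of two blocks -/
theorem pair_all [FiniteDimensional F V] (A : Ar σ q) (hk : 2 ≤ k) (hkt : 4 ≤ k ∨ 3 ≤ Fintype.card T)
    (hT : ∀ c : F, ∃ τ : F, τ ≠ 0 ∧ τ + σ τ = 0 ∧ (τ ≠ c ∨ 3 ≤ k)) {i j : T}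
    (hij : i ≠ j) {w : V} (hw : w ∈ cen H M) {c : T → V} (hc : ∀ l, c l ∈ D l) (hsum : w = ∑ l, c l)
    (hi : c i ≠ 0) (hj : c j ≠ 0) {y1 y2 : V} (hy1 : y1 ∈ D i) (hy2 : y2 ∈ D j)
    (hiso : f y1 y1 + f y2 y2 = 0) : y1 + y2 ∈ cen H M := by
  by_cases hne : f y1 y1 = 0
  swap
  · exact pair_ne H B A hk hkt hij hw hc hsum hi hj hy1 hy2 hne hiso
  have hne2 : f y2 y2 = 0 := by rw [hne, zero_add] at hiso; exact hiso
  by_cases h1 : y1 = 0
  · rw [h1, zero_add]; exact cen_blk H B hy2 hne2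
  by_cases h2 : y2 = 0
  · rw [h2, add_zero]; exact cen_blk H B hy1 hne
  obtain ⟨α, hα0, hα, -⟩ := hT 0
  obtain ⟨τ, hτ0, hτ, hτα⟩ := hT α
  obtain ⟨a1, ha1, p1, n1⟩ := exists_pn H (B.nd i) (B.rk i) hk hy1 h1 (s := α) (ν := 1) (map_one σ) (Or.inl hα0)
  obtain ⟨a2, ha2, p2, n2⟩ := exists_pn H (B.nd j) (B.rk j) hk hy2 h2 (s := τ - α) (ν := -1) (by
    rw [map_neg, map_one]) (by
    rcases hτα with h | h
    · exact Or.inl (sub_ne_zero.2 h)
    · exact Or.inr ⟨h, neg_ne_zero.2 one_ne_zero⟩)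
  have hu : a1 + a2 ∈ cen H M := pair_ne H B A hk hkt hij hw hc hsum hi hj ha1 ha2 (by rw [n1]; exact one_ne_zero)
    (by rw [n1, n2]; ring)
  have q1 : f a1 y1 = σ α := by rw [H.herm, p1]
  have q2 : f a2 y2 = σ (τ - α) := by rw [H.herm, p2]
  have m1 : f (y1 - a1) (y1 - a1) = 1 := by
    rw [H.sub_left, H.sub_right, H.sub_right, hne, n1, p1, q1]; linear_combination -hα
  have m2 : f (y2 - a2) (y2 - a2) = -1 := by
    rw [H.sub_left, H.sub_right, H.sub_right, hne2, n2, p2, q2, map_sub]; linear_combination hα - hτ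
  have hv : (y1 - a1) + (y2 - a2) ∈ cen H M := pair_ne H B A hk hkt hij hw hc hsum hi hj ((D i).sub_mem hy1 ha1)
    ((D j).sub_mem hy2 ha2) (by rw [m1]; exact one_ne_zero) (by rw [m1, m2]; ring)
  have huv : f (a1 + a2) ((y1 - a1) + (y2 - a2)) = σ τ := by
    rw [H.add_left, H.add_right, H.add_right, H.sub_right, H.sub_right, H.sub_right, H.sub_right, q1, q2, n1, n2,
      B.orth i j hij a1 ha1 y2 hy2, B.orth i j hij a1 ha1 a2 ha2, B.orth j i hij.symm a2 ha2 y1 hy1,
      B.orth j i hij.symm a2 ha2 a1 ha1, map_sub]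
    ring
  have e5 : (y1 - a1) + (y2 - a2) + (1 : F) • (a1 + a2) = y1 + y2 := by module
  have := cen_add B.isom hu hv (by rw [huv]; exact H.sigma_ne hτ0) (c := 1) (by
    rw [e5, H.add_left, H.add_right, H.add_right, B.orth i j hij y1 hy1 y2 hy2, B.orth j i hij.symm y2 hy2 y1 hy1,
      hne, hne2]; ring)
  rwa [e5] at this

/-- **main theorem for blocks of dimension at least two** -/
theorem blk_main [FiniteDimensional F V] (hnd : Nd f (⊤ : Submodule F V)) (hdim : 4 ≤ Module.finrank F V)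
    (A : Ar σ q) (hk : 2 ≤ k) (hkt : 4 ≤ k ∨ 3 ≤ Fintype.card T)
    (hT : ∀ c : F, ∃ τ : F, τ ≠ 0 ∧ τ + σ τ = 0 ∧ (τ ≠ c ∨ 3 ≤ k))
    (hex : ∃ g ∈ M, ¬ ∀ i, ∃ j, ∀ v ∈ D i, g v ∈ D j) : ∀ g ∈ isom f, dt g = 1 → g ∈ M := by
  -- a centre outside the blocks
  obtain ⟨w, hw, hwD⟩ : ∃ w ∈ cen H M, ∀ i, w ∉ D i := by
    by_contra hcon
    push Not at hcon
    obtain ⟨g, hg, hgn⟩ := hex
    apply hgn
    intro i
    -- an isotropic vector
    obtain ⟨z, hz, hzz, y, hy, hzy⟩ : ∃ z ∈ D i, f z z = 0 ∧ ∃ y ∈ D i, f z y ≠ 0 := by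
      obtain ⟨x, hx, hx0⟩ := Submodule.exists_mem_ne_zero_of_ne_bot (p := D i) (by
        intro h
        have := B.rk i
        rw [h, finrank_bot] at this
        omega)
      obtain ⟨τ, hτ0, -⟩ := H.exists_tr0
      obtain ⟨z, hz, h1, h2⟩ := exists_pn H (B.nd i) (B.rk i) hk hx hx0 (s := τ) (ν := 0) (map_zero σ) (Or.inl hτ0)
      exact ⟨z, hz, h2, x, hx, H.symm_ne (by rw [h1]; exact hτ0)⟩
    have hz0 : z ≠ 0 := by rintro rfl; rw [H.zero_left] at hzy; exact hzy rfl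
    obtain ⟨j, hj⟩ := hcon _ (cen_map B.isom (cen_blk H B hz hzz) hg)
    have adj : ∀ x ∈ D i, f x x = 0 → ∀ x' ∈ D i, f x' x' = 0 → f x x' ≠ 0 → g x ∈ D j → g x' ∈ D j := by
      intro x hx hxx x' hx' hxx' hne hgx
      obtain ⟨j', hj'⟩ := hcon _ (cen_map B.isom (cen_blk H B hx' hxx') hg)
      by_cases hjj : j' = j
      · rw [← hjj]; exact hj'
      · exfalso
        apply hne
        rw [← B.isom hg]
        exact B.orth j j' (Ne.symm hjj) _ hgx _ hj'
    have hiso : ∀ x ∈ D i, f x x = 0 → g x ∈ D j := by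
      intro x hx hxx
      by_cases hx0 : x = 0
      · rw [hx0, map_zero]; exact (D j).zero_mem
      by_cases hzx : f z x = 0
      · obtain ⟨u, hu, hu1, hu2⟩ := H.exists_common (B.nd i) hz hx hz0 hx0
        obtain ⟨a, ha⟩ := H.exists_add_norm hzz hu1 (map_zero σ)
        have hmem := (D i).add_mem hu ((D i).smul_mem a hz)
        have h1 : f z (u + a • z) ≠ 0 := by rw [H.add_right, H.smul_right, hzz, mul_zero, add_zero]; exact hu1
        have h2 : f x (u + a • z) ≠ 0 := by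
          rw [H.add_right, H.smul_right, H.symm_zero hzx, mul_zero, add_zero]; exact hu2
        exact adj _ hmem ha x hx hxx (H.symm_ne h2) (adj z hz hzz _ hmem ha h1 hj)
      · exact adj z hz hzz x hx hxx hzx hj
    refine ⟨j, fun v hv => ?_⟩
    have h1 := H.mem_span_iso hz hzz hy hzy hv
    have h2 : Submodule.span F {x | x ∈ D i ∧ f x x = 0} ≤ (D j).comap ((g : V ≃ₗ[F] V) : V →ₗ[F] V) := by
      rw [Submodule.span_le]
      rintro x ⟨hx, hxx⟩
      exact hiso x hx hxx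
    exact h2 h1
  obtain ⟨c, hc, hsum⟩ := B.sum w
  obtain ⟨i, hi⟩ : ∃ i, c i ≠ 0 := by
    by_contra hcon
    push Not at hcon
    have hne : Nonempty T := by
      by_contra hem
      rw [not_nonempty_iff] at hem
      obtain ⟨g, -, hgn⟩ := hex
      exact hgn fun i => hem.elim i
    obtain ⟨i0⟩ := hne
    apply hwD i0
    rw [hsum, sum_eq_zero fun i _ => hcon i]; exact (D i0).zero_mem
  obtain ⟨j, hij, hj⟩ : ∃ j, i ≠ j ∧ c j ≠ 0 := by
    by_contra hcon
    push Not at hcon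
    apply hwD i
    rw [hsum, sum_eq_single i (fun l _ hl => hcon l (Ne.symm hl)) (fun h => absurd (mem_univ i) h)]
    exact hc i
  -- all pairs
  have hpair : ∀ i' j', i' ≠ j' → ∀ y1 ∈ D i', ∀ y2 ∈ D j', f y1 y1 + f y2 y2 = 0 → y1 + y2 ∈ cen H M := by
    intro i' j' hij' y1 hy1 y2 hy2 hiso
    obtain ⟨g, hg, h1, h2⟩ := B.P2 i j i' j' hij hij'
    have h3 := pair_all H B A hk hkt hT hij hw hc hsum hi hj (h1 y1 hy1) (h2 y2 hy2) (by
      rw [B.isom hg, B.isom hg]; exact hiso)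
    have h4 := cen_map B.isom h3 (inv_mem hg)
    rw [← map_add, inv_apply_self'] at h4
    exact h4
  -- all isotropic vectors
  have hall : ∀ (n : ℕ) (S : Finset T) (c : T → V), S.card = n → (∀ l, c l ∈ D l) →
      f (∑ l ∈ S, c l) (∑ l ∈ S, c l) = 0 → ∑ l ∈ S, c l ∈ cen H M := by
    intro n
    induction n using Nat.strong_induction_on with
    | _ n ih =>
    intro S c hS hc h0
    rcases Nat.lt_or_ge n 1 with hn | hn
    · have : S = ∅ := by rw [← card_eq_zero]; omega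
      rw [this, sum_empty]; exact cen_zero
    rcases Nat.lt_or_ge n 2 with hn1 | hn1
    · obtain ⟨a, ha⟩ := card_eq_one.1 (show S.card = 1 by omega)
      rw [ha, sum_singleton] at h0 ⊢
      exact cen_blk H B (hc a) h0
    rcases Nat.lt_or_ge n 3 with hn2 | hn2
    · obtain ⟨a, b, hab, ha⟩ := card_eq_two.1 (show S.card = 2 by omega)
      rw [ha, sum_pair hab] at h0 ⊢
      refine hpair a b hab _ (hc a) _ (hc b) ?_
      rw [H.add_left, H.add_right, H.add_right, B.orth a b hab _ (hc a) _ (hc b),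
        B.orth b a hab.symm _ (hc b) _ (hc a)] at h0
      linear_combination h0
    obtain ⟨T3, hT3, hT3c⟩ := exists_subset_card_eq (s := S) (n := 2) (by omega)
    obtain ⟨a, b, hab, rfl⟩ := card_eq_two.1 hT3c
    have ha := hT3 (by simp : a ∈ ({a, b} : Finset T))
    have hb := hT3 (by simp : b ∈ ({a, b} : Finset T))
    by_cases hcb : c b = 0
    · have e1 : ∑ l ∈ S, c l = ∑ l ∈ S.erase b, c l := by
        rw [← add_sum_erase S c hb, hcb, zero_add]
      rw [e1] at h0 ⊢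
      exact ih (n - 1) (by omega) (S.erase b) c (by rw [card_erase_of_mem hb, hS]) hc h0
    set c1 := f (c a) (c a) with hc1
    have hc1f : σ c1 = c1 := H.self_fixed _
    obtain ⟨τ, hτ0, hτ, hτc⟩ := hT c1
    obtain ⟨x2, hx2, p2, n2⟩ := exists_pn H (B.nd b) (B.rk b) hk (hc b) hcb (s := σ (τ - c1)) (ν := -c1) (by
      rw [map_neg, hc1f]) (by
      by_cases h : τ = c1
      · rcases hτc with h' | h'
        · exact absurd h h'
        · exact Or.inr ⟨h', neg_ne_zero.2 (h ▸ hτ0)⟩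
      · exact Or.inl (H.sigma_ne (sub_ne_zero.2 h)))
    have q2 : f x2 (c b) = τ - c1 := by rw [H.herm, p2, H.inv]
    -- the two summands
    set w0 := ∑ l ∈ S, c l with hw0
    set c' : T → V := fun l => if l = b then c b - x2 else c l with hc'
    have hc'm : ∀ l, c' l ∈ D l := by
      intro l
      simp only [hc']
      split_ifs with h
      · rw [h]; exact (D b).sub_mem (hc b) hx2
      · exact hc l
    have hba : b ∈ S.erase a := mem_erase.2 ⟨hab.symm, hb⟩
    have hy : ∑ l ∈ S.erase a, c' l = w0 - (c a + x2) := by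
      rw [← add_sum_erase _ _ hba, hw0, ← add_sum_erase S c ha, ← add_sum_erase _ c hba]
      have : ∑ l ∈ (S.erase a).erase b, c' l = ∑ l ∈ (S.erase a).erase b, c l := by
        refine sum_congr rfl fun l hl => ?_
        simp only [hc']
        rw [if_neg (ne_of_mem_erase hl)]
      rw [this]
      simp only [hc', if_true]
      abel
    have hx0 : f (c a) (c a) + f x2 x2 = 0 := by rw [n2]; ring
    have hxC : c a + x2 ∈ cen H M := hpair a b hab _ (hc a) _ hx2 hx0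
    have hxw : f (c a + x2) w0 = τ := by
      have e1 : f (c a) w0 = c1 := by
        rw [H.herm, hw0, f_comp H B hc ha (hc a), ← hc1, hc1f]
      have e2 : f x2 w0 = τ - c1 := by
        rw [H.herm, hw0, f_comp H B hc hb hx2, p2, H.inv]
      rw [H.add_left, e1, e2]; ring
    have hwx : f w0 (c a + x2) = σ τ := by rw [H.herm, hxw]
    have hxx : f (c a + x2) (c a + x2) = 0 := cen_iso hxC
    have hyy : f (w0 - (c a + x2)) (w0 - (c a + x2)) = 0 := by
      rw [H.sub_left, H.sub_right, H.sub_right, h0, hxw, hwx, hxx]; linear_combination -hτ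
    have hyC : w0 - (c a + x2) ∈ cen H M := by
      rw [← hy] at hyy ⊢
      exact ih (n - 1) (by omega) (S.erase a) c' (by rw [card_erase_of_mem ha, hS]) hc'm hyy
    have e5 : w0 - (c a + x2) + (1 : F) • (c a + x2) = w0 := by module
    have := cen_add B.isom hxC hyC (by
      rw [H.sub_right, hxw, hxx, sub_zero]; exact hτ0) (c := 1) (by rw [e5]; exact h0)
    rwa [e5] at this
  have hle : tgrp H ⊤ ≤ M := tgrp_le_of_cen fun z _ hz => by
    obtain ⟨c, hc, hsum⟩ := B.sum z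
    rw [hsum] at hz ⊢
    exact hall _ univ c rfl hc hz
  exact fun g hg hdet => hle (su_le H hnd hdim hg hdet)

end

end Cfsg.Agent.Lib.Uf98
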