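import Mathlib
import Cfsg.Agent.Lib.UfM

set_option autoImplicit false

/-!
Frames adapted to decompositions; the maximality theorem.
-/

namespace Cfsg.Agent.Lib.Uf98

open Finset Cfsg.Agent.Lib.UnTrans Cfsg.Agent.Lib.UnMax
open Cfsg.Agent.Lib.SpTrans (isom mem_isom)

variable {F : Type*} [Field F] [Fintype F] [DecidableEq F] {σ : F →+* F} {q : ℕ}
variable {V : Type*} [AddCommGroup V] [Module F V] {f : V → V → F}

/-- the monomial case -/
theorem mono_main [FiniteDimensional F V] {ι : Type*} [Fintype ι] [DecidableEq ι] {e : ι → V} (H : HS σ f)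
    (R : Fr f e) {M : Subgroup (V ≃ₗ[F] V)} (A : Ar σ q) (Y : Hy f e M) (hn : 13 ≤ Fintype.card ι)
    {m : V ≃ₗ[F] V} (hm : m ∈ M) (hnm : ¬ Mon e m) : ∀ g ∈ isom f, dt g = 1 → g ∈ M := by
  have hq2 := A.two_le
  by_cases hq : q = 2
  · subst hq
    exact two_main H R A Y hn hm hnm
  · by_cases h2 : (2 : F) = 0
    · exact even_main H h2 R A (by omega) Y hn hm hnm
    · exact odd_main H R A (by omega) h2 Y hn hm hnm

theorem exists_T (H : HS σ f) (A : Ar σ q) {k : ℕ} (h : 3 ≤ k ∨ 3 ≤ q) (c : F) :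
    ∃ τ : F, τ ≠ 0 ∧ τ + σ τ = 0 ∧ (τ ≠ c ∨ 3 ≤ k) := by
  obtain ⟨τ, hτ0, hτ⟩ := H.exists_tr0
  by_cases hk : 3 ≤ k
  · exact ⟨τ, hτ0, hτ, Or.inr hk⟩
  have hq := h.resolve_left hk
  by_cases h2 : (2 : F) = 0
  · have hq3 : q ≠ 3 := by
      intro h3
      have h1 := FiniteField.cast_card_eq_zero F
      rw [A.card, h3] at h1
      push_cast at h1
      apply one_ne_zero (α := F)
      linear_combination h1 - 4 * h2
    have h1 := card_reach A (one_ne_zero (α := F)) (one_ne_zero (α := F))
    have h3 := reach_sub A (1 : F) 1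
    obtain ⟨s, hs, hs1⟩ : ∃ s ∈ (U σ).image (fun φ => N σ (1 + 1 * φ)), s ∉ ({0, c} : Finset F) := by
      by_contra hcon
      push Not at hcon
      have h4 : (U σ).image (fun φ => N σ (1 + 1 * φ)) ⊆ {0, c} := fun s hs => hcon s hs
      have h5 := card_le_card h4
      have h6 : ({0, c} : Finset F).card ≤ 2 := card_le_two
      omega
    have h7 := mem_Fx.1 (h3 hs)
    simp only [mem_insert, mem_singleton, not_or] at hs1
    exact ⟨s, hs1.1, by rw [h7]; linear_combination s * h2, Or.inl hs1.2⟩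
  · by_cases hc : τ = c
    · refine ⟨-τ, neg_ne_zero.2 hτ0, by rw [map_neg]; linear_combination -hτ, Or.inl fun h' => ?_⟩
      rw [← hc] at h'
      have h5 : (2 : F) * τ = 0 := by linear_combination -h'
      rcases mul_eq_zero.1 h5 with h6 | h6
      · exact h2 h6
      · exact hτ0 h6
    · exact ⟨τ, hτ0, hτ, Or.inl hc⟩

/-- determinants of isometries -/
theorem dt_unit [FiniteDimensional F V] (H : HS σ f) (hnd : Nd f (⊤ : Submodule F V)) {g : V ≃ₗ[F] V}
    (hg : g ∈ isom f) : dt g ∈ U σ := by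
  let E : Subgroup (V ≃ₗ[F] V) :=
    { carrier := {g | dt g ∈ U σ}
      mul_mem' := by
        intro a b ha hb
        show dt (a * b) ∈ U σ
        rw [dt_mul]; exact mul_mem_U ha hb
      one_mem' := by
        show dt (1 : V ≃ₗ[F] V) ∈ U σ
        rw [dt_one]; exact one_mem_U
      inv_mem' := by
        intro a ha
        show dt a⁻¹ ∈ U σ
        have h1 := dt_inv a
        have h2 : dt a⁻¹ = (dt a)⁻¹ := eq_inv_of_mul_eq_one_left h1
        rw [h2]; exact inv_mem_U ha }
  have := isom_le_of_el H hnd (E := E) (by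
    intro w a ha
    show dt (el H w a ha) ∈ U σ
    have e1 : dt (el H w a ha) = 1 + a * f w w := el_det H _ _ _
    rw [e1, mem_U, map_add, map_mul, map_one, H.self_fixed]
    linear_combination (f w w) * ha)
  exact this hg

section frame
variable {ι : Type*} [Fintype ι] [DecidableEq ι] {e : ι → V}

omit [Fintype F] [DecidableEq F] in
/-- permutation isometries -/
theorem perm_isom (H : HS σ f) (R : Fr f e) (π : Equiv.Perm ι) : ∃ g ∈ isom f, ∀ k, g (e k) = e (π k) := by
  have hli : LinearIndependent F e := by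
    rw [Fintype.linearIndependent_iff]
    intro c hc i
    have h1 : f (∑ j, c j • e j) (e i) = 0 := by rw [hc, H.zero_left]
    rw [f_sum H] at h1
    rw [← h1, sum_eq_single i]
    · rw [H.smul_left, R.self', mul_one]
    · intro j _ hj; rw [H.smul_left, R.ne hj, mul_zero]
    · intro h; exact absurd (mem_univ i) h
  have hsp : ⊤ ≤ Submodule.span F (Set.range e) := by
    intro x _
    rw [R.span x]
    exact Submodule.sum_mem _ fun i _ => Submodule.smul_mem _ _ (Submodule.subset_span ⟨i, rfl⟩)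
  let b := Module.Basis.mk hli hsp
  have hb : ∀ k, b k = e k := fun k => Module.Basis.mk_apply hli hsp k
  let g : V ≃ₗ[F] V := b.equiv b π
  have hg : ∀ k, g (e k) = e (π k) := by
    intro k
    have h1 : g (b k) = b (π k) := Module.Basis.equiv_apply b k b π
    rwa [hb, hb] at h1
  refine ⟨g, ?_, hg⟩
  have hco : ∀ x k, f (g x) (e (π k)) = f x (e k) := by
    intro x k
    have h1 : g x = ∑ i, f x (e i) • e (π i) := by
      conv_lhs => rw [R.span x]
      rw [map_sum]
      exact sum_congr rfl fun i _ => by rw [LinearEquiv.map_smul, hg]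
    rw [h1, f_sum H, sum_eq_single k]
    · rw [H.smul_left, R.self', mul_one]
    · intro i _ hi
      rw [H.smul_left, R.ne (fun h => hi (π.injective h)), mul_zero]
    · intro h; exact absurd (mem_univ k) h
  intro x y
  rw [R.inner H (g x) (g y), R.inner H x y, ← Equiv.sum_comp π]
  exact sum_congr rfl fun i _ => by rw [hco, hco]

end frame

omit [Fintype F] [DecidableEq F] in
/-- orthonormal bases -/
theorem exists_onb [FiniteDimensional F V] (H : HS σ f) (k : ℕ) : ∀ U : Submodule F V, Nd f U →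
    Module.finrank F U = k → ∃ b : Fin k → V, (∀ a, b a ∈ U) ∧ (∀ a a', f (b a) (b a') = if a = a' then 1 else 0) ∧
      ∀ u ∈ U, u = ∑ a, f u (b a) • b a := by
  induction k with
  | zero =>
    intro U hU hk
    refine ⟨fun a => a.elim0, fun a => a.elim0, fun a => a.elim0, fun u hu => ?_⟩
    have : U = ⊥ := Submodule.finrank_eq_zero.1 hk
    rw [this, Submodule.mem_bot] at hu
    rw [hu]; simp
  | succ k ih =>
    intro U hU hk
    obtain ⟨x, hx, hx0⟩ := Submodule.exists_mem_ne_zero_of_ne_bot (p := U) (by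
      intro h; rw [h, finrank_bot] at hk; omega)
    obtain ⟨u0, hu0, hn⟩ := exists_norm_one H hU hx hx0
    set U' := U ⊓ LinearMap.ker (H.fl u0) with hU'
    have memU : ∀ x, x ∈ U' ↔ x ∈ U ∧ f x u0 = 0 := by intro x; simp [hU']
    have hnd' : Nd f U' := by
      intro v hv hv0
      obtain ⟨y, hy, hvy⟩ := hU v ((memU v).1 hv).1 hv0
      refine ⟨y - f y u0 • u0, (memU _).2 ⟨U.sub_mem hy (U.smul_mem _ hu0), ?_⟩, ?_⟩
      · rw [H.sub_left, H.smul_left, hn]; ring
      · rw [H.sub_right, H.smul_right, ((memU v).1 hv).2, mul_zero, sub_zero]; exact hvy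
    have hr : Module.finrank F U' = k := by
      have h1 := HS.finrank_inf_ker U (H.fl u0)
      have h2 : U' < U := by
        refine lt_of_le_of_ne inf_le_left fun h => ?_
        have : u0 ∈ U' := by rw [h]; exact hu0
        have h3 := ((memU u0).1 this).2
        rw [hn] at h3
        exact one_ne_zero h3
      have h3 := Submodule.finrank_lt_finrank_of_lt h2
      rw [← hU'] at h1
      omega
    obtain ⟨b, hb1, hb2, hb3⟩ := ih U' hnd' hr
    refine ⟨Fin.cons u0 b, ?_, ?_, ?_⟩
    · intro a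
      refine Fin.cases ?_ (fun a => ?_) a
      · rw [Fin.cons_zero]; exact hu0
      · rw [Fin.cons_succ]; exact ((memU _).1 (hb1 a)).1
    · intro a a'
      refine Fin.cases ?_ (fun a => ?_) a
      · refine Fin.cases ?_ (fun a' => ?_) a'
        · rw [Fin.cons_zero, hn, if_pos rfl]
        · rw [Fin.cons_zero, Fin.cons_succ, if_neg (Fin.succ_ne_zero a').symm]
          exact H.symm_zero ((memU _).1 (hb1 a')).2
      · refine Fin.cases ?_ (fun a' => ?_) a'
        · rw [Fin.cons_zero, Fin.cons_succ, if_neg (Fin.succ_ne_zero a)]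
          exact ((memU _).1 (hb1 a)).2
        · rw [Fin.cons_succ, Fin.cons_succ, hb2]
          simp [Fin.succ_inj]
    · intro u hu
      rw [Fin.sum_univ_succ, Fin.cons_zero]
      simp only [Fin.cons_succ]
      have h1 : u - f u u0 • u0 ∈ U' := by
        refine (memU _).2 ⟨U.sub_mem hu (U.smul_mem _ hu0), ?_⟩
        rw [H.sub_left, H.smul_left, hn]; ring
      have h2 := hb3 _ h1
      have h3 : ∀ a, f (u - f u u0 • u0) (b a) = f u (b a) := by
        intro a
        rw [H.sub_left, H.smul_left, H.symm_zero ((memU _).1 (hb1 a)).2, mul_zero, sub_zero]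
      simp only [h3] at h2
      rw [← h2]; abel

section dec
variable {T : Type*} [Fintype T] [DecidableEq T] {D : T → Submodule F V} {k : ℕ}

/-- orthogonal decompositions -/
structure Dc (f : V → V → F) (D : T → Submodule F V) (k : ℕ) : Prop where
  nd : ∀ i, Nd f (D i)
  rk : ∀ i, Module.finrank F (D i) = k
  orth : ∀ i j, i ≠ j → ∀ u ∈ D i, ∀ v ∈ D j, f u v = 0
  sum : ∀ v, ∃ c : T → V, (∀ i, c i ∈ D i) ∧ v = ∑ i, c i

omit [Fintype F] [DecidableEq F] in
/-- adapted frames -/
theorem exists_frame [FiniteDimensional F V] (H : HS σ f) (Z : Dc f D k) :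
    ∃ e : T × Fin k → V, Fr f e ∧ ∀ x, e x ∈ D x.1 := by
  choose b hb1 hb2 hb3 using fun i => exists_onb H k (D i) (Z.nd i) (Z.rk i)
  refine ⟨fun x => b x.1 x.2, ⟨?_, ?_⟩, fun x => hb1 _ _⟩
  · rintro ⟨i, a⟩ ⟨j, a'⟩
    by_cases h : i = j
    · subst h
      show f (b i a) (b i a') = _
      rw [hb2]; simp
    · show f (b i a) (b j a') = _
      rw [Z.orth i j h _ (hb1 _ _) _ (hb1 _ _), if_neg]
      intro h'; exact h (Prod.ext_iff.1 h').1
  · intro v
    obtain ⟨c, hc, hsum⟩ := Z.sum v
    rw [Fintype.sum_prod_type]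
    show v = ∑ i, ∑ a, f v (b i a) • b i a
    conv_lhs => rw [hsum]
    refine sum_congr rfl fun i _ => ?_
    conv_lhs => rw [hb3 i (c i) (hc i)]
    refine sum_congr rfl fun a _ => ?_
    congr 1
    rw [hsum, f_sum H, sum_eq_single i]
    · intro l _ hl; exact (Z.orth l i hl _ (hc l) _ (hb1 i a)).symm ▸ rfl
    · intro h; exact absurd (mem_univ i) h

omit [Fintype F] [DecidableEq F] in
theorem mem_D_iff (H : HS σ f) (Z : Dc f D k) {e : T × Fin k → V} (R : Fr f e) (he : ∀ x, e x ∈ D x.1) {i : T}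
    {v : V} (hv : v ∈ D i) : v = ∑ a, f v (e (i, a)) • e (i, a) := by
  conv_lhs => rw [R.span v, Fintype.sum_prod_type]
  rw [sum_eq_single i]
  · intro l _ hl
    refine sum_eq_zero fun a _ => ?_
    rw [Z.orth i l (Ne.symm hl) v hv _ (he (l, a)), zero_smul]
  · intro h; exact absurd (mem_univ i) h

omit [Fintype F] [DecidableEq F] [DecidableEq T] in
/-- block maps are permutations of the blocks -/
theorem perm_of_blk [FiniteDimensional F V] (Z : Dc f D k) (hk : 0 < k) {g : V ≃ₗ[F] V}
    (h : ∀ i, ∃ j, ∀ v ∈ D i, g v ∈ D j) : ∃ π : Equiv.Perm T, ∀ i, (D i).map g.toLinearMap = D (π i) := by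
  choose p hp using h
  have h1 : ∀ i, (D i).map g.toLinearMap = D (p i) := by
    intro i
    apply Submodule.eq_of_le_of_finrank_eq
    · rintro _ ⟨v, hv, rfl⟩; exact hp i v hv
    · have e1 := LinearEquiv.finrank_map_eq g (D i)
      rw [Z.rk, ← Z.rk i]; exact e1
  have hinj : Function.Injective p := by
    intro i j hij
    by_contra hne
    have h2 : D i = D j := by
      have h3 : (D i).map g.toLinearMap = (D j).map g.toLinearMap := by rw [h1, h1, hij]
      exact Submodule.map_injective_of_injective g.injective h3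
    obtain ⟨x, hx, hx0⟩ := Submodule.exists_mem_ne_zero_of_ne_bot (p := D i) (by
      intro h; have := Z.rk i; rw [h, finrank_bot] at this; omega)
    obtain ⟨y, hy, hxy⟩ := Z.nd i x hx hx0
    exact hxy (Z.orth i j hne x hx y (h2 ▸ hy))
  exact ⟨Equiv.ofBijective p (Finite.injective_iff_bijective.1 hinj), h1⟩

/-- a special isometry not permuting the blocks -/
theorem exists_nonpres [FiniteDimensional F V] (H : HS σ f) (hnd : Nd f (⊤ : Submodule F V))
    (hdim : 4 ≤ Module.finrank F V) (Z : Dc f D k) (hk : 0 < k) (hT : 2 ≤ Fintype.card T) :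
    ∃ g ∈ isom f, dt g = 1 ∧ ¬ ∃ π : Equiv.Perm T, ∀ i, (D i).map g.toLinearMap = D (π i) := by
  obtain ⟨e, R, he⟩ := exists_frame H Z
  have hrk := frame_rank H R
  obtain ⟨i, j, hij⟩ : ∃ i j : T, i ≠ j := by
    have : Nontrivial T := Fintype.one_lt_card_iff_nontrivial.1 (by omega)
    exact exists_pair_ne T
  set x : T × Fin k := (i, ⟨0, hk⟩) with hx
  set y : T × Fin k := (j, ⟨0, hk⟩) with hy
  have hxy : x ≠ y := fun h => hij (Prod.ext_iff.1 h).1
  obtain ⟨z, hz⟩ : ∃ z, z ∉ ({x, y} : Finset (T × Fin k)) := by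
    by_contra hcon
    push Not at hcon
    have h1 : (univ : Finset (T × Fin k)) ⊆ {x, y} := fun a _ => hcon a
    have h2 := card_le_card h1
    have h3 : ({x, y} : Finset (T × Fin k)).card ≤ 2 := card_le_two
    rw [card_univ] at h2
    omega
  have hzx : z ≠ x := fun h => hz (by rw [h]; simp)
  have hzy : z ≠ y := fun h => hz (by rw [h]; simp)
  obtain ⟨s, hs⟩ := H.norm (-1) (by rw [map_neg, map_one])
  have hs0 : s ≠ 0 := by rintro rfl; rw [zero_mul] at hs; exact one_ne_zero (neg_eq_zero.1 hs.symm)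
  set u := e x + s • e y + e z with hu
  have hux : f u (e x) = 1 := by
    rw [hu, H.add_left, H.add_left, H.smul_left, R.self', R.ne hxy.symm, R.ne hzx]; ring
  have huy : f u (e y) = s := by
    rw [hu, H.add_left, H.add_left, H.smul_left, R.self', R.ne hxy, R.ne hzy]; ring
  have huz : f u (e z) = 1 := by
    rw [hu, H.add_left, H.add_left, H.smul_left, R.self', R.ne hzx.symm, R.ne hzy.symm]; ring
  have huu : f u u = 1 := by
    conv_lhs => rw [hu]
    rw [← hu, H.add_left, H.add_left, H.smul_left, H.herm (e x), H.herm (e y), H.herm (e z), hux, huy, huz, hs,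
      map_one]
    ring
  have hu0 : u ≠ 0 := by
    intro h; rw [h, H.zero_left] at huu; exact zero_ne_one huu
  obtain ⟨t, ht, htu⟩ := exists_move H hnd (by rwa [finrank_top]) (x := e x) (y := u) trivial trivial
    (e_ne H R x) hu0 (by rw [R.self', huu])
  refine ⟨t, tgrp_le_isom H _ ht, tgrp_det H ht, ?_⟩
  rintro ⟨π, hπ⟩
  have h1 : u ∈ D (π i) := by
    rw [← hπ i, ← htu]; exact ⟨e x, he x, rfl⟩
  by_cases h2 : π i = i
  · rw [h2] at h1
    have := Z.orth i j hij u h1 _ (he y)
    rw [huy] at this; exact hs0 this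
  · have := Z.orth (π i) i h2 u h1 _ (he x)
    rw [hux] at this; exact one_ne_zero this

/-- **maximality** of the stabilizer of a nondegenerate decomposition in the special unitary group -/
theorem dec_max [FiniteDimensional F V] (H : HS σ f) (hnd : Nd f (⊤ : Submodule F V))
    (hdim : 13 ≤ Module.finrank F V) (A : Ar σ q) (Z : Dc f D k) (hk : 0 < k) (hkq : ¬ (k = 2 ∧ q = 2))
    {M : Subgroup (V ≃ₗ[F] V)} (hM : M ≤ isom f) (hMd : ∀ g ∈ M, dt g = 1)
    (hP : ∀ g ∈ isom f, dt g = 1 → (∃ π : Equiv.Perm T, ∀ i, (D i).map g.toLinearMap = D (π i)) → g ∈ M)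
    (hex : ∃ g ∈ M, ¬ ∃ π : Equiv.Perm T, ∀ i, (D i).map g.toLinearMap = D (π i)) :
    ∀ g ∈ isom f, dt g = 1 → g ∈ M := by
  obtain ⟨e, R, he⟩ := exists_frame H Z
  have hrk := frame_rank H R
  rw [Fintype.card_prod, Fintype.card_fin] at hrk
  have hq2 := A.two_le
  by_cases hk1 : k = 1
  · subst hk1
    -- monomial case
    have hmp : ∀ g : V ≃ₗ[F] V, Mon e g → ∃ π : Equiv.Perm T, ∀ i, (D i).map g.toLinearMap = D (π i) := by
      intro g hg
      apply perm_of_blk Z one_pos
      intro i
      obtain ⟨j, c, hj⟩ := hg (i, 0)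
      refine ⟨j.1, fun v hv => ?_⟩
      have h1 := mem_D_iff H Z R he hv
      rw [Fin.sum_univ_one] at h1
      rw [h1, LinearEquiv.map_smul, hj]
      exact (D j.1).smul_mem _ ((D j.1).smul_mem _ (he j))
    obtain ⟨m, hm, hmn⟩ := hex
    exact mono_main H R A ⟨hM, hMd, fun g hg hd hgm => hP g hg hd (hmp g hgm)⟩ (by
      rw [Fintype.card_prod, Fintype.card_fin]; omega) hm (fun h => hmn (hmp m h))
  · have hkt : 4 ≤ k ∨ 3 ≤ Fintype.card T := by
      by_contra hcon
      push Not at hcon
      have h1 : Fintype.card T * k ≤ 2 * 3 := Nat.mul_le_mul (by omega) (by omega)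
      omega
    have hT := exists_T (k := k) H A (by
      by_contra hcon
      push Not at hcon
      exact hkq ⟨by omega, by omega⟩)
    have hB : Bk f D k M := by
      refine ⟨Z.nd, Z.rk, Z.orth, Z.sum, hM, ?_, ?_⟩
      · intro g hg hd hgD
        exact hP g hg hd (perm_of_blk Z hk fun i => ⟨i, hgD i⟩)
      · intro i j i' j' hij hij'
        -- a permutation
        obtain ⟨π, hπi, hπj⟩ : ∃ π : Equiv.Perm T, π i' = i ∧ π j' = j := by
          refine ⟨Equiv.swap (Equiv.swap i' i j') j * Equiv.swap i' i, ?_, ?_⟩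
          · rw [Equiv.Perm.mul_apply, Equiv.swap_apply_left]
            apply Equiv.swap_apply_of_ne_of_ne
            · intro h
              apply hij'
              have h1 := congrArg (Equiv.swap i' i) h
              rw [Equiv.swap_apply_self, Equiv.swap_apply_right] at h1
              exact h1
            · exact hij
          · rw [Equiv.Perm.mul_apply, Equiv.swap_apply_left]
        obtain ⟨g, hg, hge⟩ := perm_isom H R (π.prodCongr (Equiv.refl (Fin k)))
        have hgD : ∀ l, ∀ v ∈ D l, g v ∈ D (π l) := by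
          intro l v hv
          rw [mem_D_iff H Z R he hv, map_sum]
          refine Submodule.sum_mem _ fun a _ => ?_
          rw [LinearEquiv.map_smul, hge]
          exact Submodule.smul_mem _ _ (he (π l, a))
        have hδ := dt_unit H hnd hg
        set x : T × Fin k := (i, ⟨0, hk⟩) with hx
        have hrl : ∀ l, ∀ v ∈ D l, rl H (e x) (dt g)⁻¹ (R.self' x) (inv_mem_U hδ) v ∈ D l := by
          intro l v hv
          rw [rl_apply, rr]
          by_cases h : l = i
          · subst h; exact Submodule.add_mem _ hv (Submodule.smul_mem _ _ (he x))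
          · rw [Z.orth l i h v hv _ (he x), mul_zero, zero_smul, add_zero]; exact hv
        have hg' : ∀ l, ∀ v ∈ D l, (rl H (e x) (dt g)⁻¹ (R.self' x) (inv_mem_U hδ) * g) v ∈ D (π l) :=
          fun l v hv => by rw [LinearEquiv.mul_apply]; exact hrl _ _ (hgD l v hv)
        refine ⟨rl H (e x) (dt g)⁻¹ (R.self' x) (inv_mem_U hδ) * g, hP _ (mul_mem (rl_mem H _ _) hg) ?_ ?_,
          fun v hv => ?_, fun v hv => ?_⟩
        · rw [dt_mul, rl_det, inv_mul_cancel₀ (U_ne hδ)]
        · exact perm_of_blk Z hk fun l => ⟨π l, hg' l⟩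
        · have := hg' i' v hv
          rwa [hπi] at this
        · have := hg' j' v hv
          rwa [hπj] at this
    exact blk_main H hB hnd (by omega) A (by omega) hkt hT (by
      obtain ⟨g, hg, hgn⟩ := hex
      exact ⟨g, hg, fun h => hgn (perm_of_blk Z hk h)⟩)

end dec

end Cfsg.Agent.Lib.Uf98
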