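import Mathlib
import Cfsg.Agent.Lib.UfB

set_option autoImplicit false

/-!
Balanced unit combinations with prescribed product: index sets with ten or twelve elements.
-/

namespace Cfsg.Agent.Lib.Uf98

open Finset

variable {F : Type*} [Field F] [Fintype F] [DecidableEq F] {σ : F →+* F} {q : ℕ}

/-- balanced combinations with three exceptional indices -/
def BalE (σ : F →+* F) (ι : Type*) [Fintype ι] : Prop :=
  ∀ (j : ι) (a : ι → F), (∀ i, i ≠ j → a i ≠ 0) →
    ∃ d : ι → F, (∀ i, d i ∈ U σ) ∧ ∑ i, d i * a i = 0 ∧ ∏ i, d i = 1 ∧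
      ∃ i1 i2 i3 : ι, i1 ≠ i2 ∧ i1 ≠ i3 ∧ i2 ≠ i3 ∧ d i1 ≠ d j ∧ d i2 ≠ d j ∧ d i3 ≠ d j

/-- balanced combinations of fixed elements with two exceptional indices -/
def BalO (σ : F →+* F) (ι : Type*) [Fintype ι] : Prop :=
  ∀ (j : ι) (a : ι → F), (∀ i, σ (a i) = a i) → (∀ i, i ≠ j → a i ≠ 0) →
    ∃ d : ι → F, (∀ i, d i ∈ U σ) ∧ ∑ i, d i * a i = 0 ∧ ∏ i, d i = 1 ∧
      ∃ i1 i2 : ι, i1 ≠ i2 ∧ d i1 ≠ d j ∧ d i2 ≠ d j

theorem BalE.toO {ι : Type*} [Fintype ι] (h : BalE σ ι) : BalO σ ι := by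
  intro j a _ ha
  obtain ⟨d, h1, h2, h3, i1, i2, i3, h12, h13, h23, n1, n2, n3⟩ := h j a ha
  exact ⟨d, h1, h2, h3, i1, i2, h12, n1, n2⟩

/-- **balanced combinations** with product one -/
theorem bal_k (A : Ar σ q) {ι : Type*} [Fintype ι] [DecidableEq ι] (hn : ∃ k, 4 ≤ k ∧ k + 7 ≤ Fintype.card ι ∧
    Nat.Coprime k (Fintype.card ι)) : BalE σ ι := by
  intro j a ha
  obtain ⟨k, hk4, hk7, hcop⟩ := hn
  obtain ⟨B1, hB1, hB1c⟩ := Finset.exists_subset_card_eq (s := univ.erase j) (n := k) (by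
    rw [card_erase_of_mem (mem_univ _), card_univ]; omega)
  have hjB1 : j ∉ B1 := fun h => (mem_erase.1 (hB1 h)).1 rfl
  have hjB2 : j ∈ B1ᶜ := mem_compl.2 hjB1
  have hB2c : B1ᶜ.card = Fintype.card ι - k := by rw [card_compl, hB1c]
  have hB2e : (B1ᶜ.erase j).card = Fintype.card ι - k - 1 := by rw [card_erase_of_mem hjB2, hB2c]
  obtain ⟨T, hT, hTc⟩ := Finset.exists_subset_card_eq (s := B1ᶜ.erase j) (n := 3) (by omega)
  obtain ⟨i1, i2, i3, h12, h13, h23, rfl⟩ := Finset.card_eq_three.1 hTc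
  have m1 := hT (by simp : i1 ∈ ({i1, i2, i3} : Finset ι))
  have m2 := hT (by simp : i2 ∈ ({i1, i2, i3} : Finset ι))
  have m3 := hT (by simp : i3 ∈ ({i1, i2, i3} : Finset ι))
  set R := (B1ᶜ.erase j) \ {i1, i2, i3} with hR
  have hRc : 3 ≤ R.card := by
    rw [hR, card_sdiff_of_subset hT, hTc, hB2e]; omega
  obtain ⟨w, hw, hw1, -⟩ := exists_unit_ne A 1 1
  obtain ⟨w', hw', hw'1, hw'2⟩ := exists_unit_ne A 1 (-(a j + w * a i1 + w * a i2) / a i3)
  have ha3 := ha i3 (ne_of_mem_erase m3)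
  have hs : -(a j + w * a i1 + w * a i2 + w' * a i3) ≠ 0 := by
    intro h
    apply hw'2
    field_simp
    linear_combination -h
  have hRj : ∀ i ∈ R, i ≠ j := fun i hi => ne_of_mem_erase (mem_sdiff.1 hi).1
  obtain ⟨d2, hd2, e2⟩ := exists_comb A R hRc a (fun i hi => ha i (hRj i hi)) hs
  obtain ⟨d1, hd1, e1⟩ := exists_comb_zero A B1 (by omega) a (fun i hi => ha i (fun h => hjB1 (h ▸ hi)))
  set d0 : ι → F := fun i => if i ∈ B1 then d1 i else if i ∈ R then d2 i else if i = j then 1 else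
    if i = i3 then w' else w with hd0
  have hd0U : ∀ i, d0 i ∈ U σ := by
    intro i; simp only [hd0]
    split_ifs
    · exact hd1 i
    · exact hd2 i
    · exact one_mem_U
    · exact hw'
    · exact hw
  have notR : ∀ i, i ∈ ({i1, i2, i3} : Finset ι) → i ∉ R := fun i hi h => (mem_sdiff.1 h).2 hi
  have hjR : j ∉ R := fun h => hRj j h rfl
  have v1 : d0 i1 = w := by
    simp only [hd0]
    rw [if_neg (mem_compl.1 (mem_of_mem_erase m1)), if_neg (notR i1 (by simp)), if_neg (ne_of_mem_erase m1),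
      if_neg h13]
  have v2 : d0 i2 = w := by
    simp only [hd0]
    rw [if_neg (mem_compl.1 (mem_of_mem_erase m2)), if_neg (notR i2 (by simp)), if_neg (ne_of_mem_erase m2),
      if_neg h23]
  have v3 : d0 i3 = w' := by
    simp only [hd0]
    rw [if_neg (mem_compl.1 (mem_of_mem_erase m3)), if_neg (notR i3 (by simp)), if_neg (ne_of_mem_erase m3),
      if_pos trivial]
  have vj : d0 j = 1 := by
    simp only [hd0]
    rw [if_neg hjB1, if_neg hjR, if_pos trivial]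
  have s1 : ∑ i ∈ B1, d0 i * a i = 0 := by
    rw [← e1]
    refine sum_congr rfl fun i hi => ?_
    simp only [hd0]; rw [if_pos hi]
  have s2 : ∑ i ∈ B1ᶜ, d0 i * a i = 0 := by
    rw [← add_sum_erase _ _ hjB2, ← sum_sdiff hT]
    rw [sum_insert (by simp [h12, h13]), sum_insert (by simp [h23]), sum_singleton, v1, v2, v3, vj]
    have : ∑ i ∈ R, d0 i * a i = ∑ i ∈ R, d2 i * a i := by
      refine sum_congr rfl fun i hi => ?_
      have : i ∉ B1 := mem_compl.1 (mem_of_mem_erase (mem_sdiff.1 hi).1)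
      simp only [hd0]; rw [if_neg this, if_pos hi]
    rw [this, e2]; ring
  set p := ∏ i, d0 i with hp
  have hpU : p ∈ U σ := prod_mem_U _ _ fun i _ => hd0U i
  have hp0 : p ≠ 0 := U_ne hpU
  have hcop2 : Nat.Coprime k (Fintype.card ι - k) := by
    have : Fintype.card ι = (Fintype.card ι - k) + k := by omega
    rw [this, Nat.coprime_add_self_right] at hcop
    exact hcop
  have hbez : (k : ℤ) * Nat.gcdA k (Fintype.card ι - k) +
      ((Fintype.card ι - k : ℕ) : ℤ) * Nat.gcdB k (Fintype.card ι - k) = 1 := by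
    rw [← Nat.gcd_eq_gcd_ab, hcop2]; rfl
  set x := Nat.gcdA k (Fintype.card ι - k)
  set y := Nat.gcdB k (Fintype.card ι - k)
  have hεU : ∀ z : ℤ, (p⁻¹) ^ z ∈ U σ := fun z => zpow_mem_U (inv_mem_U hpU) z
  have hne : ∀ i, i ∉ B1 → d0 i ≠ 1 → (if i ∈ B1 then p⁻¹ ^ x * d0 i else p⁻¹ ^ y * d0 i) ≠
      (if j ∈ B1 then p⁻¹ ^ x * d0 j else p⁻¹ ^ y * d0 j) := by
    intro i hi h1 h
    rw [if_neg hi, if_neg hjB1, vj] at h
    exact h1 (mul_left_cancel₀ (U_ne (hεU y)) h)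
  refine ⟨fun i => if i ∈ B1 then p⁻¹ ^ x * d0 i else p⁻¹ ^ y * d0 i, ?_, ?_, ?_, i1, i2, i3, h12, h13, h23,
    hne i1 (mem_compl.1 (mem_of_mem_erase m1)) (by rw [v1]; exact hw1),
    hne i2 (mem_compl.1 (mem_of_mem_erase m2)) (by rw [v2]; exact hw1),
    hne i3 (mem_compl.1 (mem_of_mem_erase m3)) (by rw [v3]; exact hw'1)⟩
  · intro i
    dsimp only
    split_ifs
    · exact mul_mem_U (hεU x) (hd0U i)
    · exact mul_mem_U (hεU y) (hd0U i)
  · rw [← sum_add_sum_compl B1]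
    have t1 : ∑ i ∈ B1, (if i ∈ B1 then p⁻¹ ^ x * d0 i else p⁻¹ ^ y * d0 i) * a i = 0 := by
      calc _ = ∑ i ∈ B1, p⁻¹ ^ x * (d0 i * a i) := sum_congr rfl fun i hi => by rw [if_pos hi]; ring
        _ = 0 := by rw [← mul_sum, s1, mul_zero]
    have t2 : ∑ i ∈ B1ᶜ, (if i ∈ B1 then p⁻¹ ^ x * d0 i else p⁻¹ ^ y * d0 i) * a i = 0 := by
      calc _ = ∑ i ∈ B1ᶜ, p⁻¹ ^ y * (d0 i * a i) :=
            sum_congr rfl fun i hi => by rw [if_neg (mem_compl.1 hi)]; ring
        _ = 0 := by rw [← mul_sum, s2, mul_zero]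
    rw [t1, t2, add_zero]
  · rw [← prod_mul_prod_compl B1]
    have t1 : ∏ i ∈ B1, (if i ∈ B1 then p⁻¹ ^ x * d0 i else p⁻¹ ^ y * d0 i) = (p⁻¹ ^ x) ^ k * ∏ i ∈ B1, d0 i := by
      rw [← hB1c, ← prod_const, ← prod_mul_distrib]
      exact prod_congr rfl fun i hi => by rw [if_pos hi]
    have t2 : ∏ i ∈ B1ᶜ, (if i ∈ B1 then p⁻¹ ^ x * d0 i else p⁻¹ ^ y * d0 i) =
        (p⁻¹ ^ y) ^ (Fintype.card ι - k) * ∏ i ∈ B1ᶜ, d0 i := by
      rw [← hB2c, ← prod_const, ← prod_mul_distrib]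
      exact prod_congr rfl fun i hi => by rw [if_neg (mem_compl.1 hi)]
    rw [t1, t2]
    have e3 : (p⁻¹ ^ x) ^ k * (p⁻¹ ^ y) ^ (Fintype.card ι - k) = p⁻¹ := by
      rw [← zpow_natCast, ← zpow_natCast, ← zpow_mul, ← zpow_mul, ← zpow_add₀ (inv_ne_zero hp0)]
      have : x * (k : ℤ) + y * ((Fintype.card ι - k : ℕ) : ℤ) = 1 := by linear_combination hbez
      rw [this, zpow_one]
    have e4 : (∏ i ∈ B1, d0 i) * ∏ i ∈ B1ᶜ, d0 i = p := prod_mul_prod_compl B1 d0
    calc _ = ((p⁻¹ ^ x) ^ k * (p⁻¹ ^ y) ^ (Fintype.card ι - k)) * ((∏ i ∈ B1, d0 i) * ∏ i ∈ B1ᶜ, d0 i) := by ring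
      _ = 1 := by rw [e3, e4, inv_mul_cancel₀ hp0]

/-- the case of ten indices, even characteristic -/
theorem bal_even (A : Ar σ q) (h2 : (2 : F) = 0) {ι : Type*} [Fintype ι] [DecidableEq ι] (hn : Fintype.card ι = 10) :
    BalE σ ι := by
  intro j a ha
  have huc : (univ.erase j).card = 9 := by rw [card_erase_of_mem (mem_univ _), card_univ, hn]
  obtain ⟨w, hw, hw1, -⟩ := exists_unit_ne A 1 1
  -- the first block
  obtain ⟨B1, hB1, hB1c, d1, hd1, e1, hnc⟩ : ∃ B1 ⊆ univ.erase j, B1.card = 4 ∧ ∃ d1 : ι → F, (∀ i, d1 i ∈ U σ) ∧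
      ∑ i ∈ B1, d1 i * a i = 0 ∧ ∀ c : F, ∃ i ∈ B1, d1 i ≠ c := by
    by_cases hall : ∀ B ⊆ univ.erase j, B.card = 4 → ∑ i ∈ B, a i = 0
    · have heq : ∀ x ∈ univ.erase j, ∀ y ∈ univ.erase j, a x = a y := by
        intro x hx y hy
        by_cases hxy : x = y
        · rw [hxy]
        obtain ⟨C, hC, hCc⟩ := Finset.exists_subset_card_eq (s := ((univ.erase j).erase x).erase y) (n := 3) (by
          rw [card_erase_of_mem (mem_erase.2 ⟨Ne.symm hxy, hy⟩), card_erase_of_mem hx, huc]; omega)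
        have hxC : x ∉ C := fun h => (mem_erase.1 (mem_erase.1 (hC h)).2).1 rfl
        have hyC : y ∉ C := fun h => (mem_erase.1 (hC h)).1 rfl
        have hCs : C ⊆ univ.erase j := fun z hz => (mem_erase.1 (mem_erase.1 (hC hz)).2).2
        have k1 := hall (insert x C) (insert_subset hx hCs) (by rw [card_insert_of_notMem hxC, hCc])
        have k2 := hall (insert y C) (insert_subset hy hCs) (by rw [card_insert_of_notMem hyC, hCc])
        rw [sum_insert hxC] at k1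
        rw [sum_insert hyC] at k2
        linear_combination k1 - k2
      obtain ⟨B, hB, hBc⟩ := Finset.exists_subset_card_eq (s := univ.erase j) (n := 4) (by rw [huc]; omega)
      obtain ⟨C, hC, hCc⟩ := Finset.exists_subset_card_eq (s := B) (n := 2) (by rw [hBc]; omega)
      obtain ⟨x, hx⟩ : C.Nonempty := by rw [← card_pos, hCc]; omega
      obtain ⟨y, hy⟩ : (B \ C).Nonempty := by rw [← card_pos, card_sdiff_of_subset hC, hBc, hCc]; omega
      refine ⟨B, hB, hBc, fun i => if i ∈ C then w else 1, ?_, ?_, ?_⟩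
      · intro i; dsimp only; split_ifs
        · exact hw
        · exact one_mem_U
      · rw [← sum_sdiff hC]
        have t1 : ∑ i ∈ B \ C, (if i ∈ C then w else 1) * a i = ∑ i ∈ B \ C, a x := by
          refine sum_congr rfl fun i hi => ?_
          rw [if_neg (mem_sdiff.1 hi).2, one_mul]
          exact heq i (hB (mem_sdiff.1 hi).1) x (hB (hC hx))
        have t2 : ∑ i ∈ C, (if i ∈ C then w else 1) * a i = ∑ i ∈ C, w * a x := by
          refine sum_congr rfl fun i hi => ?_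
          rw [if_pos hi, heq i (hB (hC hi)) x (hB (hC hx))]
        rw [t1, t2, sum_const, sum_const, card_sdiff_of_subset hC, hBc, hCc, nsmul_eq_mul, nsmul_eq_mul]
        push_cast
        linear_combination (a x + w * a x) * h2
      · intro c
        by_cases hc : c = w
        · refine ⟨y, (mem_sdiff.1 hy).1, ?_⟩
          dsimp only
          rw [if_neg (mem_sdiff.1 hy).2, hc]; exact hw1.symm
        · refine ⟨x, hC hx, ?_⟩
          dsimp only
          rw [if_pos hx]; exact Ne.symm hc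
    · push Not at hall
      obtain ⟨B, hB, hBc, hsum⟩ := hall
      obtain ⟨d1, hd1, e1⟩ := exists_comb_zero A B (by omega) a (fun i hi => ha i (mem_erase.1 (hB hi)).1)
      refine ⟨B, hB, hBc, d1, hd1, e1, fun c => ?_⟩
      by_contra hcon
      push Not at hcon
      have hc0 : c ≠ 0 := by
        obtain ⟨z, hz⟩ : B.Nonempty := by rw [← card_pos, hBc]; omega
        rw [← hcon z hz]; exact U_ne (hd1 z)
      rw [sum_congr rfl (g := fun i => c * a i) (fun i hi => by rw [hcon i hi]), ← mul_sum] at e1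
      rcases mul_eq_zero.1 e1 with h | h
      · exact hc0 h
      · exact hsum h
  have hjB1 : j ∉ B1 := fun h => (mem_erase.1 (hB1 h)).1 rfl
  have hjB2 : j ∈ B1ᶜ := mem_compl.2 hjB1
  have hB2c : B1ᶜ.card = 6 := by rw [card_compl, hB1c, hn]
  have hB2e : (B1ᶜ.erase j).card = 5 := by rw [card_erase_of_mem hjB2, hB2c]
  obtain ⟨T, hT, hTc⟩ := Finset.exists_subset_card_eq (s := B1ᶜ.erase j) (n := 2) (by omega)
  obtain ⟨i1, i2, h12, rfl⟩ := Finset.card_eq_two.1 hTc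
  have m1 := hT (by simp : i1 ∈ ({i1, i2} : Finset ι))
  have m2 := hT (by simp : i2 ∈ ({i1, i2} : Finset ι))
  set R := (B1ᶜ.erase j) \ {i1, i2} with hR
  have hRc : 3 ≤ R.card := by
    rw [hR, card_sdiff_of_subset hT, hTc, hB2e]
  obtain ⟨w', hw', hw'1, hw'2⟩ := exists_unit_ne A 1 (-(a j + w * a i1) / a i2)
  have ha2 := ha i2 (ne_of_mem_erase m2)
  have hs : -(a j + w * a i1 + w' * a i2) ≠ 0 := by
    intro h
    apply hw'2
    field_simp
    linear_combination -h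
  have hRj : ∀ i ∈ R, i ≠ j := fun i hi => ne_of_mem_erase (mem_sdiff.1 hi).1
  obtain ⟨d2, hd2, e2⟩ := exists_comb A R hRc a (fun i hi => ha i (hRj i hi)) hs
  set d0 : ι → F := fun i => if i ∈ B1 then d1 i else if i ∈ R then d2 i else if i = j then 1 else
    if i = i2 then w' else w with hd0
  have hd0U : ∀ i, d0 i ∈ U σ := by
    intro i; simp only [hd0]
    split_ifs
    · exact hd1 i
    · exact hd2 i
    · exact one_mem_U
    · exact hw'
    · exact hw
  have notR : ∀ i, i ∈ ({i1, i2} : Finset ι) → i ∉ R := fun i hi h => (mem_sdiff.1 h).2 hi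
  have hjR : j ∉ R := fun h => hRj j h rfl
  have v1 : d0 i1 = w := by
    simp only [hd0]
    rw [if_neg (mem_compl.1 (mem_of_mem_erase m1)), if_neg (notR i1 (by simp)), if_neg (ne_of_mem_erase m1),
      if_neg h12]
  have v2 : d0 i2 = w' := by
    simp only [hd0]
    rw [if_neg (mem_compl.1 (mem_of_mem_erase m2)), if_neg (notR i2 (by simp)), if_neg (ne_of_mem_erase m2),
      if_pos trivial]
  have vj : d0 j = 1 := by
    simp only [hd0]
    rw [if_neg hjB1, if_neg hjR, if_pos trivial]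
  have vB : ∀ i ∈ B1, d0 i = d1 i := by
    intro i hi
    simp only [hd0]; rw [if_pos hi]
  have s1 : ∑ i ∈ B1, d0 i * a i = 0 := by
    rw [← e1]
    exact sum_congr rfl fun i hi => by rw [vB i hi]
  have s2 : ∑ i ∈ B1ᶜ, d0 i * a i = 0 := by
    rw [← add_sum_erase _ _ hjB2, ← sum_sdiff hT]
    rw [sum_insert (by simp [h12]), sum_singleton, v1, v2, vj]
    have : ∑ i ∈ R, d0 i * a i = ∑ i ∈ R, d2 i * a i := by
      refine sum_congr rfl fun i hi => ?_
      have : i ∉ B1 := mem_compl.1 (mem_of_mem_erase (mem_sdiff.1 hi).1)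
      simp only [hd0]; rw [if_neg this, if_pos hi]
    rw [this, e2]; ring
  set p := ∏ i, d0 i with hp
  have hpU : p ∈ U σ := prod_mem_U _ _ fun i _ => hd0U i
  have hp0 : p ≠ 0 := U_ne hpU
  obtain ⟨s, hsU, hss⟩ : ∃ s ∈ U σ, s * s = p⁻¹ := by
    have hch : ringChar F = 2 := CharP.ringChar_of_prime_eq_zero Nat.prime_two (by exact_mod_cast h2)
    obtain ⟨y, hy⟩ := FiniteField.isSquare_of_char_two hch p⁻¹
    refine ⟨y, ?_, hy.symm⟩
    have h5 := inv_mem_U hpU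
    rw [mem_U, hy, map_mul] at h5
    rw [mem_U]
    have h6 : (y * σ y - 1) * (y * σ y - 1) = 0 := by linear_combination h5 + (1 - y * σ y) * h2
    have h7 : y * σ y - 1 = 0 := by rcases mul_eq_zero.1 h6 with h | h <;> exact h
    linear_combination h7
  have hs0 := U_ne hsU
  obtain ⟨i3, hi3, hi3n⟩ := hnc (s * s)
  refine ⟨fun i => if i ∈ B1 then s⁻¹ * d0 i else s * d0 i, ?_, ?_, ?_, i1, i2, i3, h12, ?_, ?_, ?_, ?_, ?_⟩
  · intro i
    dsimp only
    split_ifs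
    · exact mul_mem_U (inv_mem_U hsU) (hd0U i)
    · exact mul_mem_U hsU (hd0U i)
  · rw [← sum_add_sum_compl B1]
    have t1 : ∑ i ∈ B1, (if i ∈ B1 then s⁻¹ * d0 i else s * d0 i) * a i = 0 := by
      calc _ = ∑ i ∈ B1, s⁻¹ * (d0 i * a i) := sum_congr rfl fun i hi => by rw [if_pos hi]; ring
        _ = 0 := by rw [← mul_sum, s1, mul_zero]
    have t2 : ∑ i ∈ B1ᶜ, (if i ∈ B1 then s⁻¹ * d0 i else s * d0 i) * a i = 0 := by
      calc _ = ∑ i ∈ B1ᶜ, s * (d0 i * a i) :=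
            sum_congr rfl fun i hi => by rw [if_neg (mem_compl.1 hi)]; ring
        _ = 0 := by rw [← mul_sum, s2, mul_zero]
    rw [t1, t2, add_zero]
  · rw [← prod_mul_prod_compl B1]
    have t1 : ∏ i ∈ B1, (if i ∈ B1 then s⁻¹ * d0 i else s * d0 i) = s⁻¹ ^ 4 * ∏ i ∈ B1, d0 i := by
      rw [← hB1c, ← prod_const, ← prod_mul_distrib]
      exact prod_congr rfl fun i hi => by rw [if_pos hi]
    have t2 : ∏ i ∈ B1ᶜ, (if i ∈ B1 then s⁻¹ * d0 i else s * d0 i) = s ^ 6 * ∏ i ∈ B1ᶜ, d0 i := by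
      rw [← hB2c, ← prod_const, ← prod_mul_distrib]
      exact prod_congr rfl fun i hi => by rw [if_neg (mem_compl.1 hi)]
    rw [t1, t2]
    have e4 : (∏ i ∈ B1, d0 i) * ∏ i ∈ B1ᶜ, d0 i = p := prod_mul_prod_compl B1 d0
    have e5 : s⁻¹ ^ 4 * s ^ 6 = p⁻¹ := by
      rw [← hss]; field_simp
    calc _ = (s⁻¹ ^ 4 * s ^ 6) * ((∏ i ∈ B1, d0 i) * ∏ i ∈ B1ᶜ, d0 i) := by ring
      _ = 1 := by rw [e4, e5, inv_mul_cancel₀ hp0]
  · intro h; rw [← h] at hi3; exact (mem_compl.1 (mem_of_mem_erase m1)) hi3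
  · intro h; rw [← h] at hi3; exact (mem_compl.1 (mem_of_mem_erase m2)) hi3
  · dsimp only
    rw [if_neg (mem_compl.1 (mem_of_mem_erase m1)), if_neg hjB1, v1, vj]
    intro h
    exact hw1 (mul_left_cancel₀ hs0 h)
  · dsimp only
    rw [if_neg (mem_compl.1 (mem_of_mem_erase m2)), if_neg hjB1, v2, vj]
    intro h
    exact hw'1 (mul_left_cancel₀ hs0 h)
  · dsimp only
    rw [if_pos hi3, if_neg hjB1, vj, vB i3 hi3]
    intro h
    apply hi3n
    field_simp at h
    linear_combination h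

end Cfsg.Agent.Lib.Uf98
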