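import Mathlib
import Cfsg.Agent.Lib.UfO

set_option autoImplicit false

/-!
Balanced unit combinations with prescribed product: ten indices, odd characteristic.
-/

namespace Cfsg.Agent.Lib.Uf98

open Finset

variable {F : Type*} [Field F] [Fintype F] [DecidableEq F] {σ : F →+* F} {q : ℕ}

/-- sums of nonsquare norm -/
theorem nonsq (A : Ar σ q) (h2 : (2 : F) ≠ 0) {x a : F} (hx : σ x = x) (hx0 : x ≠ 0) (ha : σ a = a) (ha0 : a ≠ 0) :
    ∃ w ∈ U σ, ∀ r, σ r = r → N σ (x + a * w) ≠ r * r := by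
  by_contra hcon
  push Not at hcon
  have hq2 := A.two_le
  set U' := (U σ).erase (-x / a) with hU'
  have hU'c : q ≤ U'.card := by
    have h1 := A.card_U
    have h3 := Finset.pred_card_le_card_erase (s := U σ) (a := -x / a)
    rw [← hU'] at h3
    omega
  set X := (Fx σ).erase 0 with hX
  have hXc : X.card ≤ q - 1 := by
    have h1 := A.card_Fx
    have h0 : (0 : F) ∈ Fx σ := mem_Fx.2 (map_zero σ)
    rw [hX, card_erase_of_mem h0]
    omega
  have key := Finset.card_mul_le_card_mul (s := U') (t := X) (fun w r => N σ (x + a * w) = r * r) (m := 2) (n := 2)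
    (by
      intro w hw
      have hwU := mem_of_mem_erase hw
      obtain ⟨r, hr, hrr⟩ := hcon w hwU
      have hr0 : r ≠ 0 := by
        rintro rfl
        rw [mul_zero, N_eq_zero] at hrr
        apply ne_of_mem_erase hw
        field_simp
        linear_combination hrr
      have hne : r ≠ -r := by
        intro h
        have : 2 * r = 0 := by linear_combination h
        rcases mul_eq_zero.1 this with h | h
        · exact h2 h
        · exact hr0 h
      have hsub : ({r, -r} : Finset F) ⊆ X.bipartiteAbove (fun w r => N σ (x + a * w) = r * r) w := by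
        intro t ht
        rw [mem_bipartiteAbove]
        simp only [mem_insert, mem_singleton] at ht
        rcases ht with rfl | rfl
        · exact ⟨mem_erase.2 ⟨hr0, mem_Fx.2 hr⟩, hrr⟩
        · exact ⟨mem_erase.2 ⟨neg_ne_zero.2 hr0, mem_Fx.2 (by rw [map_neg, hr])⟩, by rw [hrr]; ring⟩
      have := card_le_card hsub
      rwa [card_pair hne] at this)
    (by
      intro r hr
      refine le_trans (card_le_card ?_) (tr_fib (σ := σ) (c := x * a) (mul_ne_zero hx0 ha0) (r * r - x * x - a * a)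
        (U σ) (Finset.Subset.refl _))
      intro w hw
      rw [mem_bipartiteBelow] at hw
      have hwU := mem_of_mem_erase hw.1
      rw [mem_filter]
      refine ⟨hwU, ?_⟩
      have h5 := hw.2
      rw [N_add A hwU, hx] at h5
      unfold N at h5
      rw [hx, ha] at h5
      linear_combination h5)
  omega

/-- squares of units -/
theorem sq_or (A : Ar σ q) (h2 : (2 : F) ≠ 0) {z z' : F} (hz : z ∈ U σ) (hz' : z' ∈ U σ) :
    (∃ ε ∈ U σ, ε * ε = z) ∨ (∃ ε ∈ U σ, ε * ε = z') ∨ ∃ ε ∈ U σ, ε * ε = z * z' := by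
  have hch : ringChar F ≠ 2 := by
    intro h
    apply h2
    have : ((2 : ℕ) : F) = 0 := by rw [← h]; exact CharP.cast_eq_zero F (ringChar F)
    exact_mod_cast this
  have hroot : ∀ z ∈ U σ, ∃ y : F, z = y * y ∧ (y * σ y = 1 ∨ y * σ y = -1) := by
    intro z hz
    have hz0 := U_ne hz
    have hqodd : q % 2 = 1 := by
      have h3 := FiniteField.odd_card_of_char_ne_two hch
      rw [A.card] at h3
      by_contra h
      have h4 : q % 2 = 0 := by omega
      have : q ^ 2 % 2 = 0 := by rw [Nat.pow_mod, h4]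
      omega
    have hsq : IsSquare z := by
      rw [FiniteField.isSquare_iff hch hz0]
      rw [A.card]
      obtain ⟨m, rfl⟩ : ∃ m, q = 2 * m + 1 := ⟨q / 2, by omega⟩
      have e1 : (2 * m + 1) ^ 2 / 2 = ((2 * m + 1) + 1) * m := by
        have : (2 * m + 1) ^ 2 = 2 * (((2 * m + 1) + 1) * m) + 1 := by ring
        rw [this]; omega
      rw [e1, pow_mul]
      have e2 : z ^ (2 * m + 1 + 1) = 1 := by
        rw [pow_succ, ← A.pow, mul_comm]; exact mem_U.1 hz
      rw [e2, one_pow]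
    obtain ⟨y, hy⟩ := hsq
    refine ⟨y, hy, ?_⟩
    rw [mem_U, hy, map_mul] at hz
    have h3 : (y * σ y - 1) * (y * σ y + 1) = 0 := by linear_combination hz
    rcases mul_eq_zero.1 h3 with h | h
    · left; linear_combination h
    · right; linear_combination h
  obtain ⟨y, hy, h3 | h3⟩ := hroot z hz
  · exact Or.inl ⟨y, mem_U.2 h3, hy.symm⟩
  obtain ⟨y', hy', h4 | h4⟩ := hroot z' hz'
  · exact Or.inr (Or.inl ⟨y', mem_U.2 h4, hy'.symm⟩)
  refine Or.inr (Or.inr ⟨y * y', ?_, by rw [hy, hy']; ring⟩)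
  rw [mem_U, map_mul]
  linear_combination (y' * σ y') * h3 - h4

/-- the case of ten indices, odd characteristic -/
theorem bal_odd (A : Ar σ q) (h2 : (2 : F) ≠ 0) {ι : Type*} [Fintype ι] [DecidableEq ι] (hn : Fintype.card ι = 10) :
    BalO σ ι := by
  intro j a hfix ha
  have huc : (univ.erase j).card = 9 := by rw [card_erase_of_mem (mem_univ _), card_univ, hn]
  obtain ⟨B1, hB1, hB1c⟩ := Finset.exists_subset_card_eq (s := univ.erase j) (n := 4) (by rw [huc]; omega)
  obtain ⟨d1, hd1, e1⟩ := exists_comb_zero A B1 (by omega) a (fun i hi => ha i (mem_erase.1 (hB1 hi)).1)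
  have hjB1 : j ∉ B1 := fun h => (mem_erase.1 (hB1 h)).1 rfl
  have hjB2 : j ∈ B1ᶜ := mem_compl.2 hjB1
  have hB2c : B1ᶜ.card = 6 := by rw [card_compl, hB1c, hn]
  have hB2e : (B1ᶜ.erase j).card = 5 := by rw [card_erase_of_mem hjB2, hB2c]
  obtain ⟨T, hT, hTc⟩ := Finset.exists_subset_card_eq (s := B1ᶜ.erase j) (n := 2) (by omega)
  obtain ⟨i1, i2, h12, rfl⟩ := Finset.card_eq_two.1 hTc
  have m1 := hT (by simp : i1 ∈ ({i1, i2} : Finset ι))
  have m2 := hT (by simp : i2 ∈ ({i1, i2} : Finset ι))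
  have ha1 := ha i1 (ne_of_mem_erase m1)
  have ha2 := ha i2 (ne_of_mem_erase m2)
  have hm1 : (-1 : F) ∈ U σ := by rw [mem_U, map_neg, map_one]; ring
  obtain ⟨w, hw, hwf, hx0⟩ : ∃ w ∈ U σ, σ w = w ∧ a j + w * a i1 ≠ 0 := by
    by_cases h : a j + 1 * a i1 = 0
    · refine ⟨-1, hm1, by rw [map_neg, map_one], fun h' => ?_⟩
      have : 2 * a i1 = 0 := by linear_combination h - h'
      rcases mul_eq_zero.1 this with h3 | h3
      · exact h2 h3
      · exact ha1 h3
    · exact ⟨1, one_mem_U, map_one σ, h⟩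
  obtain ⟨w', hw', hns⟩ := nonsq A h2 (x := a j + w * a i1) (a := a i2)
    (by rw [map_add, map_mul, hfix, hfix, hwf]) hx0 (hfix i2) ha2
  set s := -(a j + w * a i1 + a i2 * w') with hsdef
  have hNs : ∀ r, σ r = r → s * σ s ≠ r * r := by
    intro r hr h
    apply hns r hr
    rw [← h, hsdef]
    unfold N
    rw [map_neg]; ring
  have hs : s ≠ 0 := by
    intro h
    exact hNs 0 (map_zero σ) (by rw [h]; ring)
  have hσs : σ s ≠ 0 := (map_ne_zero σ).2 hs
  set R := (B1ᶜ.erase j) \ {i1, i2} with hR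
  have hRc : R.card = 3 := by
    rw [hR, card_sdiff_of_subset hT, hTc, hB2e]
  have hRj : ∀ i ∈ R, i ≠ j := fun i hi => ne_of_mem_erase (mem_sdiff.1 hi).1
  obtain ⟨d2, hd2, e2⟩ := exists_comb A R (by omega) a (fun i hi => ha i (hRj i hi)) hs
  set θ := σ s / s with hθ
  have hθU : θ ∈ U σ := by
    rw [mem_U, hθ, map_div₀, A.inv]; field_simp
  have hθ0 := U_ne hθU
  have notR : ∀ i, i ∈ ({i1, i2} : Finset ι) → i ∉ R := fun i hi h => (mem_sdiff.1 h).2 hi
  have hjR : j ∉ R := fun h => hRj j h rfl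
  -- the combination
  let D : (ι → F) → ι → F := fun d i => if i ∈ B1 then d1 i else if i ∈ R then d i else if i = j then 1 else
    if i = i2 then w' else w
  have hDU : ∀ d : ι → F, (∀ i, d i ∈ U σ) → ∀ i, D d i ∈ U σ := by
    intro d hd i; simp only [D]
    split_ifs
    · exact hd1 i
    · exact hd i
    · exact one_mem_U
    · exact hw'
    · exact hw
  have v1 : ∀ d, D d i1 = w := by
    intro d
    simp only [D]
    rw [if_neg (mem_compl.1 (mem_of_mem_erase m1)), if_neg (notR i1 (by simp)), if_neg (ne_of_mem_erase m1),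
      if_neg h12]
  have v2 : ∀ d, D d i2 = w' := by
    intro d
    simp only [D]
    rw [if_neg (mem_compl.1 (mem_of_mem_erase m2)), if_neg (notR i2 (by simp)), if_neg (ne_of_mem_erase m2),
      if_pos trivial]
  have vj : ∀ d, D d j = 1 := by
    intro d
    simp only [D]
    rw [if_neg hjB1, if_neg hjR, if_pos trivial]
  have vB : ∀ d, ∀ i ∈ B1, D d i = d1 i := by
    intro d i hi
    simp only [D]; rw [if_pos hi]
  have vR : ∀ d, ∀ i ∈ R, D d i = d i := by
    intro d i hi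
    have : i ∉ B1 := mem_compl.1 (mem_of_mem_erase (mem_sdiff.1 hi).1)
    simp only [D]; rw [if_neg this, if_pos hi]
  have s1 : ∀ d, ∑ i ∈ B1, D d i * a i = 0 := by
    intro d
    rw [← e1]
    exact sum_congr rfl fun i hi => by rw [vB d i hi]
  have s2 : ∀ d : ι → F, ∑ i ∈ R, d i * a i = s → ∑ i ∈ B1ᶜ, D d i * a i = 0 := by
    intro d hd
    rw [← add_sum_erase _ _ hjB2, ← sum_sdiff hT]
    rw [sum_insert (by simp [h12]), sum_singleton, v1, v2, vj]
    have : ∑ i ∈ R, D d i * a i = ∑ i ∈ R, d i * a i := sum_congr rfl fun i hi => by rw [vR d i hi]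
    rw [this, hd, hsdef]; ring
  have hprod : ∀ d : ι → F, ∏ i, D d i = (∏ i ∈ Rᶜ, D 1 i) * ∏ i ∈ R, d i := by
    intro d
    rw [← prod_mul_prod_compl R, mul_comm]
    congr 1
    · refine prod_congr rfl fun i hi => ?_
      simp only [D]
      rw [if_neg (mem_compl.1 hi), if_neg (mem_compl.1 hi)]
    · exact prod_congr rfl fun i hi => vR d i hi
  -- the second candidate
  have e3 : ∑ i ∈ R, (θ⁻¹ * (d2 i)⁻¹) * a i = s := by
    have h5 := congrArg σ e2
    rw [map_sum] at h5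
    have h6 : ∑ i ∈ R, (θ⁻¹ * (d2 i)⁻¹) * a i = θ⁻¹ * ∑ i ∈ R, σ (d2 i * a i) := by
      rw [mul_sum]
      refine sum_congr rfl fun i _ => ?_
      rw [map_mul, hfix, sig_U (hd2 i)]; ring
    rw [h6, h5, hθ]; field_simp
  obtain ⟨d, hd, hds, ε, hε, hεε⟩ : ∃ d : ι → F, (∀ i, d i ∈ U σ) ∧ ∑ i ∈ R, d i * a i = s ∧
      ∃ ε ∈ U σ, ε * ε = ∏ i, D d i := by
    have hd3 : ∀ i, θ⁻¹ * (d2 i)⁻¹ ∈ U σ := fun i => mul_mem_U (inv_mem_U hθU) (inv_mem_U (hd2 i))
    rcases sq_or A h2 (prod_mem_U univ _ fun i _ => hDU d2 hd2 i)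
      (prod_mem_U univ _ fun i _ => hDU (fun i => θ⁻¹ * (d2 i)⁻¹) hd3 i) with ⟨ε, h5, h6⟩ | ⟨ε, h5, h6⟩ | ⟨ε, h5, h6⟩
    · exact ⟨d2, hd2, e2, ε, h5, h6⟩
    · exact ⟨_, hd3, e3, ε, h5, h6⟩
    · exfalso
      rw [hprod, hprod, prod_mul_distrib, prod_const, hRc, prod_inv_distrib] at h6
      have hQ : ∏ i ∈ Rᶜ, D 1 i ∈ U σ := prod_mem_U _ _ fun i _ => hDU 1 (fun i => one_mem_U) i
      have hP : ∏ i ∈ R, d2 i ≠ 0 := prod_ne_zero_iff.2 fun i _ => U_ne (hd2 i)
      set Q := ∏ i ∈ Rᶜ, D 1 i with hQdef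
      have hQ0 := U_ne hQ
      have hε0 := U_ne h5
      have h7 : ε * ε = Q * Q * θ⁻¹ ^ 3 := by
        rw [h6]
        calc _ = Q * Q * θ⁻¹ ^ 3 * ((∏ i ∈ R, d2 i) * (∏ i ∈ R, d2 i)⁻¹) := by ring
          _ = _ := by rw [mul_inv_cancel₀ hP, mul_one]
      -- a square root of `θ`
      set η := Q * ε⁻¹ * θ⁻¹ with hη
      have hηU : η ∈ U σ := mul_mem_U (mul_mem_U hQ (inv_mem_U h5)) (inv_mem_U hθU)
      have hη0 := U_ne hηU
      have hηη : η * η = θ := by
        rw [hη]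
        field_simp
        field_simp at h7
        linear_combination -h7
      refine hNs (η * s) ?_ ?_
      · rw [map_mul, sig_U hηU]
        have : σ s = θ * s := by rw [hθ]; field_simp
        rw [this, ← hηη]; field_simp
      · have : σ s = θ * s := by rw [hθ]; field_simp
        rw [this, ← hηη]; ring
  have hε0 := U_ne hε
  have hneg : ∀ δ : F, δ ∈ U σ → δ ^ 4 = 1 →
      (∀ i, (if i ∈ B1 then δ * ε * D d i else ε⁻¹ * D d i) ∈ U σ) ∧
      ∑ i, (if i ∈ B1 then δ * ε * D d i else ε⁻¹ * D d i) * a i = 0 ∧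
      ∏ i, (if i ∈ B1 then δ * ε * D d i else ε⁻¹ * D d i) = 1 := by
    intro δ hδ hδ4
    refine ⟨?_, ?_, ?_⟩
    · intro i
      split_ifs
      · exact mul_mem_U (mul_mem_U hδ hε) (hDU d hd i)
      · exact mul_mem_U (inv_mem_U hε) (hDU d hd i)
    · rw [← sum_add_sum_compl B1]
      have t1 : ∑ i ∈ B1, (if i ∈ B1 then δ * ε * D d i else ε⁻¹ * D d i) * a i = 0 := by
        calc _ = ∑ i ∈ B1, (δ * ε) * (D d i * a i) := sum_congr rfl fun i hi => by rw [if_pos hi]; ring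
          _ = 0 := by rw [← mul_sum, s1, mul_zero]
      have t2 : ∑ i ∈ B1ᶜ, (if i ∈ B1 then δ * ε * D d i else ε⁻¹ * D d i) * a i = 0 := by
        calc _ = ∑ i ∈ B1ᶜ, ε⁻¹ * (D d i * a i) :=
              sum_congr rfl fun i hi => by rw [if_neg (mem_compl.1 hi)]; ring
          _ = 0 := by rw [← mul_sum, s2 d hds, mul_zero]
      rw [t1, t2, add_zero]
    · rw [← prod_mul_prod_compl B1]
      have t1 : ∏ i ∈ B1, (if i ∈ B1 then δ * ε * D d i else ε⁻¹ * D d i) = (δ * ε) ^ 4 * ∏ i ∈ B1, D d i := by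
        rw [← hB1c, ← prod_const, ← prod_mul_distrib]
        exact prod_congr rfl fun i hi => by rw [if_pos hi]
      have t2 : ∏ i ∈ B1ᶜ, (if i ∈ B1 then δ * ε * D d i else ε⁻¹ * D d i) = ε⁻¹ ^ 6 * ∏ i ∈ B1ᶜ, D d i := by
        rw [← hB2c, ← prod_const, ← prod_mul_distrib]
        exact prod_congr rfl fun i hi => by rw [if_neg (mem_compl.1 hi)]
      rw [t1, t2]
      have e4 : (∏ i ∈ B1, D d i) * ∏ i ∈ B1ᶜ, D d i = ε * ε := by
        rw [hεε]; exact prod_mul_prod_compl B1 _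
      calc _ = δ ^ 4 * (ε ^ 4 * ε⁻¹ ^ 6) * ((∏ i ∈ B1, D d i) * ∏ i ∈ B1ᶜ, D d i) := by ring
        _ = 1 := by rw [e4, hδ4]; field_simp
  -- the exceptional indices
  by_cases hcase : (B1.filter fun i => ε * d1 i = ε⁻¹).card ≤ 2
  · obtain ⟨g1, g2, g3⟩ := hneg 1 one_mem_U (one_pow 4)
    have h5 := Finset.card_filter_add_card_filter_not (s := B1) (fun i => ε * d1 i = ε⁻¹)
    obtain ⟨C, hC, hCc⟩ := Finset.exists_subset_card_eq (s := B1.filter fun i => ¬ ε * d1 i = ε⁻¹) (n := 2) (by omega)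
    obtain ⟨k1, k2, hk, rfl⟩ := card_eq_two.1 hCc
    have hk1 := mem_filter.1 (hC (by simp : k1 ∈ ({k1, k2} : Finset ι)))
    have hk2 := mem_filter.1 (hC (by simp : k2 ∈ ({k1, k2} : Finset ι)))
    refine ⟨_, g1, g2, g3, k1, k2, hk, ?_, ?_⟩
    · rw [if_pos hk1.1, if_neg hjB1, vj, vB d k1 hk1.1, one_mul, mul_one]; exact hk1.2
    · rw [if_pos hk2.1, if_neg hjB1, vj, vB d k2 hk2.1, one_mul, mul_one]; exact hk2.2
  · obtain ⟨g1, g2, g3⟩ := hneg (-1) hm1 (by norm_num)
    obtain ⟨C, hC, hCc⟩ := Finset.exists_subset_card_eq (s := B1.filter fun i => ε * d1 i = ε⁻¹) (n := 2) (by omega)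
    obtain ⟨k1, k2, hk, rfl⟩ := card_eq_two.1 hCc
    have hk1 := mem_filter.1 (hC (by simp : k1 ∈ ({k1, k2} : Finset ι)))
    have hk2 := mem_filter.1 (hC (by simp : k2 ∈ ({k1, k2} : Finset ι)))
    have hne : -ε⁻¹ ≠ ε⁻¹ := by
      intro h
      have : 2 * ε⁻¹ = 0 := by linear_combination -h
      rcases mul_eq_zero.1 this with h | h
      · exact h2 h
      · exact inv_ne_zero hε0 h
    refine ⟨_, g1, g2, g3, k1, k2, hk, ?_, ?_⟩
    · rw [if_pos hk1.1, if_neg hjB1, vj, vB d k1 hk1.1, mul_one]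
      have : -1 * ε * d1 k1 = -(ε * d1 k1) := by ring
      rw [this, hk1.2]; exact hne
    · rw [if_pos hk2.1, if_neg hjB1, vj, vB d k2 hk2.1, mul_one]
      have : -1 * ε * d1 k2 = -(ε * d1 k2) := by ring
      rw [this, hk2.2]; exact hne

end Cfsg.Agent.Lib.Uf98
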