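import Mathlib
import Cfsg.Agent.Lib.UfL
import Cfsg.Agent.Lib.UfP

set_option autoImplicit false

/-!
Even characteristic, ten or twelve dimensions.
-/

namespace Cfsg.Agent.Lib.Uf98

open Finset Cfsg.Agent.Lib.UnTrans Cfsg.Agent.Lib.UnMax
open Cfsg.Agent.Lib.SpTrans (isom mem_isom)

variable {F : Type*} [Field F] [Fintype F] [DecidableEq F] {σ : F →+* F} {q : ℕ}
variable {V : Type*} [AddCommGroup V] [Module F V] {f : V → V → F}
variable {ι : Type*} [Fintype ι] [DecidableEq ι] {e : ι → V}

section
variable (H : HS σ f) (h2 : (2 : F) = 0) {M : Subgroup (V ≃ₗ[F] V)}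
variable (R : Fr f e)
include R

/-- making a coordinate vanish -/
theorem PP_zero' [FiniteDimensional F V] (A : Ar σ q) (Y : Hy f e M) (hB : BalE σ ι) (hn : 10 ≤ Fintype.card ι) {w : V}
    (hw : w ∈ PP H h2 M) (hw0 : ∀ i, f w (e i) ≠ 0) :
    ∃ w' ∈ PP H h2 M, (∃ j, f w' (e j) = 0) ∧ 3 ≤ (supp f e w').card := by
  obtain ⟨j⟩ : Nonempty ι := Fintype.card_pos_iff.1 (by omega)
  obtain ⟨d, hd, hsum, hprod, i1, i2, i3, h12, h13, h23, n1, n2, n3⟩ := hB j
    (fun i => if i = j then N σ (f w (e j)) - 1 else N σ (f w (e i))) (by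
      intro i hi
      rw [if_neg hi, Ne, N_eq_zero]
      exact hw0 i)
  have hsum' : ∑ i, d i * N σ (f w (e i)) = d j := by
    have h1 : ∑ i, d i * N σ (f w (e i)) = ∑ i, (d i * (if i = j then N σ (f w (e j)) - 1 else N σ (f w (e i))) +
        (if i = j then d j else 0)) := by
      refine sum_congr rfl fun i _ => ?_
      by_cases h : i = j
      · subst h; rw [if_pos rfl, if_pos rfl]; ring
      · rw [if_neg h, if_neg h]; ring
    rw [h1, sum_add_distrib, hsum, sum_ite_eq' univ j, if_pos (mem_univ j), zero_add]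
  obtain ⟨g, hg, hgd, hgm, hgc, hge⟩ := exists_diag H R (fun i => (d i)⁻¹) (fun i => inv_mem_U (hd i))
  have hgM : g ∈ M := by
    refine Y.mon g hg ?_ hgm
    rw [hgd, prod_inv_distrib, hprod, inv_one]
  have hfw : f w (g w) = d j := by
    rw [R.inner H, ← hsum']
    refine sum_congr rfl fun i _ => ?_
    rw [hgc, map_mul, sig_U (inv_mem_U (hd i)), inv_inv]
    unfold N; ring
  have hw' := PP_tr H h2 Y.isom hw (PP_map H h2 Y.isom hw hgM)
  rw [hfw] at hw'
  have hco : ∀ i, f (w + d j • g w) (e i) = f w (e i) * (1 + d j * (d i)⁻¹) := by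
    intro i
    rw [H.add_left, H.smul_left, hgc]; ring
  have hnz : ∀ i, d i ≠ d j → f (w + d j • g w) (e i) ≠ 0 := by
    intro i hi
    rw [hco]
    refine mul_ne_zero (hw0 i) fun h => hi ?_
    have h3 := U_ne (hd i)
    field_simp at h
    linear_combination h - (d j) * h2
  refine ⟨_, hw', ⟨j, ?_⟩, ?_⟩
  · rw [hco, mul_inv_cancel₀ (U_ne (hd j))]
    linear_combination (f w (e j)) * h2
  · calc 3 = ({i1, i2, i3} : Finset ι).card := by
          rw [card_insert_of_notMem (by simp [h12, h13]), card_insert_of_notMem (by simp [h23]), card_singleton]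
      _ ≤ _ := card_le_card (by
        intro l hl
        simp only [mem_insert, mem_singleton] at hl
        rcases hl with rfl | rfl | rfl
        · exact mem_supp.2 (hnz _ n1)
        · exact mem_supp.2 (hnz _ n2)
        · exact mem_supp.2 (hnz _ n3))

include H h2 in
/-- even case, `q > 2` -/
theorem even_main' [FiniteDimensional F V] (A : Ar σ q) (hq : 3 ≤ q) (Y : Hy f e M) (hB : BalE σ ι) (hn : 10 ≤ Fintype.card ι)
    {m : V ≃ₗ[F] V} (hm : m ∈ M) (hnm : ¬ Mon e m) : ∀ g ∈ isom f, dt g = 1 → g ∈ M := by
  by_cases hs : Stt e M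
  swap
  · unfold Stt at hs
    push Not at hs
    obtain ⟨x, hx, a, hxa, hxm⟩ := hs
    exact stab_one H R A hq (by omega) Y hx hxa hxm
  exfalso
  obtain ⟨w, hw, hw3⟩ := exists_PP H h2 R A Y (by omega) (fun h => by omega) hm hnm
  obtain ⟨w', hw', ⟨j, hj⟩, hw'3⟩ : ∃ w' ∈ PP H h2 M, (∃ j, f w' (e j) = 0) ∧ 3 ≤ (supp f e w').card := by
    by_cases h : ∃ j, f w (e j) = 0
    · exact ⟨w, hw, h, hw3⟩
    · push Not at h
      exact PP_zero' H h2 R A Y hB hn hw h
  obtain ⟨hw'0, hwM⟩ := hw'
  have hfix : el H w' 1 (cond_two h2 hw'0) (e j) = e j := by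
    rw [el_apply, H.symm_zero hj, mul_zero, zero_smul, add_zero]
  have hmon := hs _ hwM j ⟨1, by rw [hfix, one_smul]⟩
  obtain ⟨T, hT, hTc⟩ := exists_subset_card_eq hw'3
  obtain ⟨a, b, c, hab, hac, hbc, rfl⟩ := card_eq_three.1 hTc
  have ha := mem_supp.1 (hT (by simp : a ∈ ({a, b, c} : Finset ι)))
  have hb := mem_supp.1 (hT (by simp : b ∈ ({a, b, c} : Finset ι)))
  have hc := mem_supp.1 (hT (by simp : c ∈ ({a, b, c} : Finset ι)))
  obtain ⟨l, k, hl⟩ := hmon a
  rw [el_apply, one_mul] at hl
  have e1 : ∀ i, i ≠ a → f (e a) w' * f w' (e i) = k * f (e l) (e i) := by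
    intro i hi
    have := congrArg (fun v => f v (e i)) hl
    rw [H.add_left, H.smul_left, H.smul_left, R.ne hi.symm, zero_add] at this
    exact this
  have hfa : f (e a) w' ≠ 0 := H.symm_ne ha
  have h5 := e1 b hab.symm
  have h6 := e1 c hac.symm
  by_cases h7 : l = b
  · rw [R.ne (by rw [h7]; exact hbc), mul_zero] at h6
    exact (mul_ne_zero hfa hc) h6
  · rw [R.ne h7, mul_zero] at h5
    exact (mul_ne_zero hfa hb) h5

include H in
/-- the field with four elements -/
theorem two_main' [FiniteDimensional F V] (A : Ar σ 2) (Y : Hy f e M) (hB : BalE σ ι) (hn : 10 ≤ Fintype.card ι)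
    {m : V ≃ₗ[F] V} (hm : m ∈ M) (hnm : ¬ Mon e m) : ∀ g ∈ isom f, dt g = 1 → g ∈ M := by
  have h2 := two_zero A
  obtain ⟨om, hom, hom1, o1, o2, o3, o4, o5⟩ := exists_om A
  have hom0 := U_ne hom
  have hsom0 : σ om ≠ 0 := H.sigma_ne hom0
  obtain ⟨w, hw, hw3⟩ := exists_PP H h2 R A Y (by omega) (fun _ v hv hc => by
    by_contra h
    have h3 : (supp f e v).card = 2 := by omega
    have h4 := norm_card H R A v
    rw [hv, h3] at h4
    push_cast at h4
    rw [h2] at h4
    exact one_ne_zero h4) hm hnm
  obtain ⟨w', hw', ⟨j, hj⟩, hw'3⟩ : ∃ w' ∈ PP H h2 M, (∃ j, f w' (e j) = 0) ∧ 3 ≤ (supp f e w').card := by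
    by_cases h : ∃ j, f w (e j) = 0
    · exact ⟨w, hw, h, hw3⟩
    · push Not at h
      exact PP_zero' H h2 R A Y hB hn hw h
  have heven := (iso_even H R A).1 hw'.1
  have hw'4 : 4 ≤ (supp f e w').card := by
    obtain ⟨r, hr⟩ := heven
    omega
  obtain ⟨w4, hw4, hw4c⟩ := PP_four H h2 R A Y hw' hw'4 (j := j) (fun h => mem_supp.1 h hj)
  -- all isotropic vectors
  have hall : ∀ (n : ℕ) (v : V), f v v = 0 → (supp f e v).card = n → v ∈ cen H M := by
    intro n
    induction n using Nat.strong_induction_on with
    | _ n ih =>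
    intro v hv hc
    have hev := (iso_even H R A).1 hv
    rw [hc] at hev
    obtain ⟨r, hr⟩ := hev
    rcases Nat.lt_or_ge n 1 with h0 | h1
    · have h3 : supp f e v = ∅ := by rw [← card_eq_zero]; omega
      have : v = 0 := R.ext fun i => by
        rw [H.zero_left]
        by_contra h
        have : i ∈ supp f e v := mem_supp.2 h
        rw [h3] at this
        simp at this
      rw [this]; exact cen_zero
    rcases Nat.lt_or_ge n 3 with h3 | h3
    · obtain ⟨a, b, hab, hs⟩ := card_eq_two.1 (show (supp f e v).card = 2 by omega)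
      have ha0 : f v (e a) ≠ 0 := mem_supp.1 (by rw [hs]; simp)
      have hb0 : f v (e b) ≠ 0 := mem_supp.1 (by rw [hs]; simp)
      have h5 := pair_vec H R hab (supp_pair H R hs)
      have h6 : f v (e b) / f v (e a) ∈ U σ := U_of_ne A (div_ne_zero hb0 ha0)
      have h7 := PP_smul H h2 A (PP_mono H h2 R Y hab (mem_U.1 h6)) ha0
      have : f v (e a) • (e a - (f v (e b) / f v (e a)) • e b) = v := by
        conv_rhs => rw [h5]
        match_scalars
        · ring
        · field_simp
          linear_combination -h2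
      rw [this] at h7
      exact PP_cen H h2 A h7
    rcases Nat.lt_or_ge n 5 with h5 | h5
    · obtain ⟨w5, hw5, hs5⟩ := PP_supp H h2 R A Y (T := supp f e v) hw4 (by rw [hw4c]; omega)
      obtain ⟨j, hj⟩ : ∃ j, j ∉ supp f e v := by
        by_contra h
        push Not at h
        have h1 : (univ : Finset ι) ⊆ supp f e v := fun x _ => h x
        have h3 := card_le_card h1
        rw [card_univ] at h3
        omega
      exact PP_cen H h2 A (PP_same H h2 R A Y hw5 hs5 hj)
    · -- weight at least six
      obtain ⟨T, hT, hTc⟩ := exists_subset_card_eq (s := supp f e v) (n := 4) (by omega)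
      obtain ⟨T2, hT2, hT2c⟩ := exists_subset_card_eq (s := T) (n := 2) (by omega)
      obtain ⟨b, c, hbc, hT2e⟩ := card_eq_two.1 hT2c
      have hb : b ∈ supp f e v := hT (hT2 (by rw [hT2e]; simp))
      have hcc : c ∈ supp f e v := hT (hT2 (by rw [hT2e]; simp))
      set x := ∑ i ∈ T, ((if i = b then om else if i = c then σ om else 1) * f v (e i)) • e i with hx
      have hxc : ∀ k, f x (e k) = if k ∈ T then (if k = b then om else if k = c then σ om else 1) * f v (e k)
          else 0 := by
        intro k
        rw [hx, f_sum H]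
        by_cases hk : k ∈ T
        · rw [if_pos hk, sum_eq_single k]
          · rw [H.smul_left, R.self', mul_one]
          · intro i _ hi
            rw [H.smul_left, R.ne hi, mul_zero]
          · intro h; exact absurd hk h
        · rw [if_neg hk]
          refine sum_eq_zero fun i hi => ?_
          rw [H.smul_left, R.ne (fun h : i = k => hk (h ▸ hi)), mul_zero]
      have hbT : b ∈ T := hT2 (by rw [hT2e]; simp)
      have hcT : c ∈ T := hT2 (by rw [hT2e]; simp)
      have hsx : supp f e x = T := by
        ext k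
        rw [mem_supp, hxc]
        by_cases hk : k ∈ T
        · rw [if_pos hk]
          simp only [hk, iff_true]
          refine mul_ne_zero ?_ (mem_supp.1 (hT hk))
          split_ifs
          · exact hom0
          · exact hsom0
          · exact one_ne_zero
        · rw [if_neg hk]; simp [hk]
      have hyc : ∀ k, f (v - x) (e k) = if k = b then σ om * f v (e k) else if k = c then om * f v (e k) else
          if k ∈ T then 0 else f v (e k) := by
        intro k
        rw [H.sub_left, hxc]
        by_cases h1 : k = b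
        · rw [h1, if_pos hbT, if_pos rfl, if_pos rfl]
          linear_combination (f v (e b)) * (o4 - om * h2)
        · by_cases h6 : k = c
          · rw [h6, if_pos hcT, if_neg (Ne.symm hbc), if_pos rfl, if_neg (Ne.symm hbc), if_pos rfl]
            linear_combination (f v (e c)) * (o5 - σ om * h2)
          · rw [if_neg h1, if_neg h6, if_neg h1, if_neg h6]
            split_ifs <;> ring
      have hsy : supp f e (v - x) = (supp f e v \ T) ∪ {b, c} := by
        ext k
        rw [mem_supp, hyc, mem_union, mem_sdiff, mem_insert, mem_singleton]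
        by_cases h1 : k = b
        · rw [if_pos h1, h1]
          simp [hsom0, mem_supp.1 hb]
        · by_cases h6 : k = c
          · rw [if_neg h1, if_pos h6, h6]
            simp [hom0, mem_supp.1 hcc]
          · rw [if_neg h1, if_neg h6]
            by_cases h7 : k ∈ T
            · simp [h7, h1, h6]
            · rw [if_neg h7]
              simp [h7, h1, h6, mem_supp]
      have hyn : (supp f e (v - x)).card = n - 2 := by
        rw [hsy, card_union_of_disjoint, card_sdiff_of_subset hT, hTc, hc, card_pair hbc]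
        · omega
        · rw [disjoint_left]
          intro k hk1 hk2
          rw [mem_sdiff] at hk1
          simp only [mem_insert, mem_singleton] at hk2
          rcases hk2 with rfl | rfl
          · exact hk1.2 hbT
          · exact hk1.2 hcT
      have hx0 : f x x = 0 := by
        rw [iso_even H R A, hsx, hTc]; decide
      have hy0 : f (v - x) (v - x) = 0 := by
        rw [iso_even H R A, hyn]; exact ⟨r - 1, by omega⟩
      have hxC := ih 4 (by omega) x hx0 (by rw [hsx, hTc])
      have hyC := ih (n - 2) (by omega) (v - x) hy0 hyn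
      have hxy : f x (v - x) = 1 := by
        rw [R.inner H, ← sum_subset (subset_univ ({b, c} : Finset ι))]
        · rw [sum_pair hbc, hxc, hxc, hyc, hyc, if_pos hbT, if_pos hcT, if_pos rfl, if_pos rfl, if_neg (Ne.symm hbc),
            if_neg (Ne.symm hbc), if_pos rfl, if_pos rfl, map_mul, map_mul, A.inv]
          have e1 := N_one A (mem_supp.1 hb)
          have e2 := N_one A (mem_supp.1 hcc)
          unfold N at e1 e2
          linear_combination (om * om) * e1 + (σ om * σ om) * e2 + o2 + o3 + o1
        · intro k _ hk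
          simp only [mem_insert, mem_singleton, not_or] at hk
          rw [hxc, hyc, if_neg hk.1, if_neg hk.2, if_neg hk.1, if_neg hk.2]
          by_cases h7 : k ∈ T
          · rw [if_pos h7, if_pos h7, map_zero, mul_zero]
          · rw [if_neg h7, zero_mul]
      have := cen_add Y.isom hxC hyC (by rw [hxy]; exact one_ne_zero) (c := 1) (by
        rw [one_smul, sub_add_cancel]; exact hv)
      rw [one_smul, sub_add_cancel] at this
      exact this
  have hnd := frame_nd H R
  have hrk := frame_rank H R
  have hle : tgrp H ⊤ ≤ M := tgrp_le_of_cen fun z _ hz => hall _ z hz rfl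
  exact fun g hg hdet => hle (su_le H hnd (by omega) hg hdet)

end

end Cfsg.Agent.Lib.Uf98
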