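import Mathlib
import Cfsg.Agent.Lib.UfR

set_option autoImplicit false

/-!
Odd characteristic, the dihedral argument in ten or twelve dimensions.
-/

namespace Cfsg.Agent.Lib.Uf98

open Finset Cfsg.Agent.Lib.UnTrans Cfsg.Agent.Lib.UnMax
open Cfsg.Agent.Lib.SpTrans (isom mem_isom)

variable {F : Type*} [Field F] [Fintype F] [DecidableEq F] {σ : F →+* F} {q : ℕ}
variable {V : Type*} [AddCommGroup V] [Module F V] {f : V → V → F}
variable {ι : Type*} [Fintype ι] [DecidableEq ι] {e : ι → V}

section
variable (H : HS σ f) (R : Fr f e)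
include R in
/-- impossible configuration, fields with at least 25 elements -/
theorem lstar2 (A : Ar σ q) (hq : 5 ≤ q) (h2 : (2 : F) ≠ 0) {m : V ≃ₗ[F] V} (hm : m ∈ isom f)
    (hnl : ∀ i j (c : F), m (e i) ≠ c • e j) {a b : ι} (hab : a ≠ b)
    (h1 : ∀ z (hz : z ∈ U σ), Mon e (m⁻¹ * dd H R a b z hz * m)) : False := by
  obtain ⟨i, hi⟩ : ∃ i, f (m (e i)) (e a) ≠ 0 := by
    by_contra hcon
    push Not at hcon
    have h4 : m⁻¹ (e a) = 0 := by
      apply R.ext
      intro i
      rw [H.zero_left]
      apply H.symm_zero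
      rw [← hm, apply_inv_self']
      exact hcon i
    exact e_ne H R a (by rw [← apply_inv_self' m (e a), h4, map_zero])
  have key : ∀ z : F, ∀ hz : z ∈ U σ, z ≠ 1 → z ≠ -1 → (2 - z - z⁻¹) * N σ (f (m (e i)) (e a)) = 1 := by
    intro z hz hz1 hz2
    have hz0 := U_ne hz
    have hsz := sig_U hz
    have h := (alt H R A hm hnl hab hz hz1 (h1 z hz) hi).resolve_right (fun h => hz2 h.1)
    set s := N σ (f (m (e i)) (e b)) with hs
    set t := N σ (f (m (e i)) (e a)) with ht
    have hss : σ s = s := A.N_fix _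
    have hst : σ t = t := A.N_fix _
    have h' := congrArg σ h
    rw [map_add, map_add, map_mul, map_mul, map_sub, map_sub, map_inv₀, map_one, map_zero, hss, hst, hsz,
      inv_inv] at h'
    have h4 : (z - z⁻¹) * (s - t) = 0 := by linear_combination h' - h
    have h5 : s = t := by
      rcases mul_eq_zero.1 h4 with h5 | h5
      · exfalso
        have h6 := mul_inv_cancel₀ hz0
        rw [← sub_eq_zero.1 h5] at h6
        have h8 : (z - 1) * (z + 1) = 0 := by linear_combination h6
        rcases mul_eq_zero.1 h8 with h9 | h9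
        · exact hz1 (sub_eq_zero.1 h9)
        · exact hz2 (by linear_combination h9)
      · exact sub_eq_zero.1 h5
    rw [h5] at h
    linear_combination -h
  obtain ⟨z, hz, hz1, hz2⟩ := exists_unit_ne A 1 (-1)
  obtain ⟨w, hw, hwn⟩ : ∃ w ∈ U σ, w ∉ ({1, -1, z, z⁻¹} : Finset F) := by
    by_contra hcon
    push Not at hcon
    have h3 := card_le_card (show U σ ⊆ ({1, -1, z, z⁻¹} : Finset F) from hcon)
    have h4 : ({1, -1, z, z⁻¹} : Finset F).card ≤ 4 := Finset.card_le_four
    have := A.card_U
    omega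
  simp only [mem_insert, mem_singleton, not_or] at hwn
  have k1 := key z hz hz1 hz2
  have k2 := key w hw hwn.1 hwn.2.1
  have hz0 := U_ne hz
  have hw0 := U_ne hw
  have hN : N σ (f (m (e i)) (e a)) ≠ 0 := by rw [Ne, N_eq_zero]; exact hi
  have h3 : (z + z⁻¹ - w - w⁻¹) * N σ (f (m (e i)) (e a)) = 0 := by linear_combination k2 - k1
  have h4 := (mul_eq_zero.1 h3).resolve_right hN
  have h5 : (z - w) * (z * w - 1) = 0 := by
    field_simp at h4
    linear_combination h4
  rcases mul_eq_zero.1 h5 with h | h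
  · exact hwn.2.2.1 (by linear_combination -h)
  · apply hwn.2.2.2
    field_simp
    linear_combination h

end

section
variable (H : HS σ f) (R : Fr f e) {M : Subgroup (V ≃ₗ[F] V)}
include H R

/-- odd case -/
theorem odd_main' [FiniteDimensional F V] (A : Ar σ q) (hq : 3 ≤ q) (h2 : (2 : F) ≠ 0) (Y : Hy f e M)
    (hB : BalO σ ι) (hn : 10 ≤ Fintype.card ι) (hc : 5 ≤ q ∨ 11 ≤ Fintype.card ι) {m : V ≃ₗ[F] V} (hm : m ∈ M) (hnm : ¬ Mon e m) :
    ∀ g ∈ isom f, dt g = 1 → g ∈ M := by
  classical
  by_cases hs : Stt e M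
  swap
  · unfold Stt at hs
    push Not at hs
    obtain ⟨x, hx, a, hxa, hxm⟩ := hs
    exact stab_one H R A hq (by omega) Y hx hxa hxm
  exfalso
  have hnl : ∀ i j (c : F), m (e i) ≠ c • e j :=
    fun i j c h => hnm (mon_of_line H R (by omega) Y hs hm ⟨c, h⟩)
  obtain ⟨J4, -, hJ4c⟩ := exists_subset_card_eq (s := (univ : Finset ι)) (n := 4) (by rw [card_univ]; omega)
  obtain ⟨J2, -, hJ2c⟩ := exists_subset_card_eq (s := (univ : Finset ι)) (n := 2) (by rw [card_univ]; omega)
  obtain ⟨t, htM, htt, htneg, htfix, htsub⟩ := exists_neg H R h2 Y J4 (by rw [hJ4c]; decide)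
  obtain ⟨r, hrM, hrr, hrneg, hrfix, hrsub⟩ := exists_neg H R h2 Y J2 (by rw [hJ2c]; decide)
  have htinv : t⁻¹ = t := inv_eq_of_mul_eq_one_left htt
  set t' := m * r * m⁻¹ with ht'
  have ht'M : t' ∈ M := mul_mem (mul_mem hm hrM) (inv_mem hm)
  have ht't' : t' * t' = 1 := by
    rw [ht']
    calc _ = m * (r * r) * m⁻¹ := by group
      _ = 1 := by rw [hrr]; group
  have ht'inv : t'⁻¹ = t' := inv_eq_of_mul_eq_one_left ht't'
  -- the common eigenvector
  obtain ⟨v0, hv0, hv0ne, hv0p⟩ : ∃ v ∈ VI f e J4, v ≠ 0 ∧ m⁻¹ v ∈ VI f e J2ᶜ := by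
    obtain ⟨i1, i2, hi12, rfl⟩ := card_eq_two.1 hJ2c
    have h1 := HS.finrank_inf_ker (EJ F e J4) (H.fl (m (e i1)))
    have h3 := HS.finrank_inf_ker (EJ F e J4 ⊓ LinearMap.ker (H.fl (m (e i1)))) (H.fl (m (e i2)))
    have h4 := E_rank_ge H R J4
    rw [hJ4c] at h4
    obtain ⟨v, hv, hv0⟩ := Submodule.exists_mem_ne_zero_of_ne_bot
      (p := EJ F e J4 ⊓ LinearMap.ker (H.fl (m (e i1))) ⊓ LinearMap.ker (H.fl (m (e i2)))) (by
        intro h
        rw [h, finrank_bot] at h3
        omega)
    have hv1 : (v ∈ EJ F e J4 ∧ f v (m (e i1)) = 0) ∧ f v (m (e i2)) = 0 := by simpa using hv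
    refine ⟨v, E_VI H R hv1.1.1, hv0, ?_⟩
    intro k hk
    have hk' : k = i1 ∨ k = i2 := by rw [mem_compl, not_not] at hk; simpa using hk
    have h5 : f (m⁻¹ v) (e k) = f v (m (e k)) := by
      rw [← Y.isom hm (m⁻¹ v) (e k), apply_inv_self']
    rcases hk' with rfl | rfl
    · rw [h5]; exact hv1.1.2
    · rw [h5]; exact hv1.2
  set p := t * t' with hp
  have hpM : p ∈ M := mul_mem htM ht'M
  have hp0 : p v0 = -v0 := by
    have e1 : t' v0 = v0 := by
      rw [ht', LinearEquiv.mul_apply, LinearEquiv.mul_apply, hrfix _ hv0p, apply_inv_self']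
    rw [hp, LinearEquiv.mul_apply, e1, (htneg v0).2 hv0]
  have hpk : ∀ k : ℕ, (p ^ k) v0 = (-1 : F) ^ k • v0 := by
    intro k
    induction k with
    | zero => rw [pow_zero, pow_zero, one_smul]; rfl
    | succ k ih =>
      rw [pow_succ, LinearEquiv.mul_apply, hp0, map_neg, ih, pow_succ]
      module
  haveI : Finite V := Module.finite_of_finite F
  haveI : Finite (V ≃ₗ[F] V) := DFunLike.finite _
  have hopos : 0 < orderOf p := orderOf_pos p
  have hoeven : Even (orderOf p) := by
    by_contra hodd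
    rw [Nat.not_even_iff_odd] at hodd
    have h1 := hpk (orderOf p)
    rw [pow_orderOf_eq_one, hodd.neg_one_pow] at h1
    have h3 : v0 = (-1 : F) • v0 := h1
    have h4 : (2 : F) • v0 = 0 := by
      have : (2 : F) • v0 = v0 - (-1 : F) • v0 := by module
      rw [this, ← h3, sub_self]
    rcases smul_eq_zero.1 h4 with h | h
    · exact h2 h
    · exact hv0ne h
  obtain ⟨k, hk⟩ := hoeven
  set z := p ^ k with hz
  have hzM : z ∈ M := pow_mem hpM k
  have hzz : z * z = 1 := by rw [hz, ← pow_add, ← hk, pow_orderOf_eq_one]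
  have hz1 : z ≠ 1 := pow_ne_one_of_lt_orderOf (by omega) (by omega)
  have hzinv : z⁻¹ = z := inv_eq_of_mul_eq_one_left hzz
  have hpinv : p⁻¹ = t' * t := by rw [hp, mul_inv_rev, htinv, ht'inv]
  have htz : t * z = z * t := by
    have h1 : t * p * t⁻¹ = p⁻¹ := by
      rw [hpinv, hp, htinv]
      calc t * (t * t') * t = (t * t) * t' * t := by group
        _ = t' * t := by rw [htt, one_mul]
    have h3 : t * z * t⁻¹ = z := by
      rw [hz, ← conj_pow, h1, inv_pow, ← hz, hzinv]
    calc t * z = t * z * t⁻¹ * t := by group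
      _ = z * t := by rw [h3]
  have ht'z : t' * z = z * t' := by
    have h1 : t' * p * t'⁻¹ = p⁻¹ := by
      rw [hpinv, hp, ht'inv]
      calc t' * (t * t') * t' = t' * t * (t' * t') := by group
        _ = t' * t := by rw [ht't', mul_one]
    have h3 : t' * z * t'⁻¹ = z := by
      rw [hz, ← conj_pow, h1, inv_pow, ← hz, hzinv]
    calc t' * z = t' * z * t'⁻¹ * t' := by group
      _ = z * t' := by rw [h3]
  set z' := m⁻¹ * z * m with hz'
  have hz'M : z' ∈ M := mul_mem (mul_mem (inv_mem hm) hzM) hm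
  have hrz' : r * z' = z' * r := by
    have e1 : r = m⁻¹ * t' * m := by rw [ht']; group
    rw [e1, hz']
    calc _ = m⁻¹ * (t' * z) * m := by group
      _ = m⁻¹ * (z * t') * m := by rw [ht'z]
      _ = _ := by group
  have comm_st : ∀ (J : Finset ι) (s x : V ≃ₗ[F] V), x ∈ M → (∀ v, s v = -v ↔ v ∈ VI f e J) → s * x = x * s →
      x ∈ st f e M J := by
    intro J s x hx hs hc
    refine ⟨hx, fun u => ?_⟩
    rw [← hs, ← hs, ← LinearEquiv.mul_apply, hc, LinearEquiv.mul_apply, ← map_neg]
    exact x.injective.eq_iff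
  have hzst := comm_st J4 t z hzM htneg htz
  have hz'st := comm_st J2 r z' hz'M hrneg hrz'
  have hzm : Mon e z := mon_of_st H R A hq (by omega) Y hs (card_pos.1 (by rw [hJ4c]; omega))
    (by rw [card_compl, hJ4c]; omega) hzst
  have hz'm : Mon e z' := mon_of_st H R A hq (by omega) Y hs (card_pos.1 (by rw [hJ2c]; omega))
    (by rw [card_compl, hJ2c]; omega) hz'st
  -- the commutator space
  set W := EJ F e J4 ⊔ (EJ F e J2).map ((m : V ≃ₗ[F] V) : V →ₗ[F] V) with hW
  have hWr : Module.finrank F W ≤ 6 := by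
    have h1 := Submodule.finrank_add_le_finrank_add_finrank (EJ F e J4)
      ((EJ F e J2).map ((m : V ≃ₗ[F] V) : V →ₗ[F] V))
    have h3 := E_rank_le (F := F) (e := e) J4
    have h4 := E_rank_le (F := F) (e := e) J2
    rw [LinearEquiv.finrank_map_eq] at h1
    rw [hJ4c] at h3
    rw [hJ2c] at h4
    rw [← hW] at h1
    omega
  have htW : ∀ v, t v - v ∈ W := fun v => Submodule.mem_sup_left (mem_E H R (htsub v))
  have ht'W : ∀ v, t' v - v ∈ W := by
    intro v
    refine Submodule.mem_sup_right ⟨r (m⁻¹ v) - m⁻¹ v, mem_E H R (hrsub _), ?_⟩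
    show m (r (m⁻¹ v) - m⁻¹ v) = _
    rw [map_sub, apply_inv_self', ht', LinearEquiv.mul_apply, LinearEquiv.mul_apply]
  have hpW : ∀ v, p v - v ∈ W := by
    intro v
    have h1 := W.add_mem (htW (t' v)) (ht'W v)
    rw [sub_add_sub_cancel] at h1
    exact h1
  have hpkW : ∀ (k : ℕ) v, (p ^ k) v - v ∈ W := by
    intro k
    induction k with
    | zero => intro v; rw [pow_zero]; show v - v ∈ W; rw [sub_self]; exact W.zero_mem
    | succ k ih =>
      intro v
      have h1 := W.add_mem (ih (p v)) (hpW v)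
      rw [sub_add_sub_cancel] at h1
      rw [pow_succ]
      exact h1
  have hzW : ∀ v, z v - v ∈ W := hpkW k
  -- the permutation
  choose π l hl using hzm
  have hzzv : ∀ v, z (z v) = v := by
    intro v; rw [← LinearEquiv.mul_apply, hzz]; rfl
  have hl2 : ∀ a, l a * l (π a) * f (e (π (π a))) (e a) = 1 := by
    intro a
    have h1 := hzzv (e a)
    rw [hl a, LinearEquiv.map_smul z, hl, smul_smul] at h1
    have h3 := congrArg (fun v => f v (e a)) h1
    have h4 : f ((l a * l (π a)) • e (π (π a))) (e a) = f (e a) (e a) := h3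
    rw [H.smul_left, R.self' a] at h4
    exact h4
  have hππ : ∀ a, π (π a) = a := by
    intro a
    by_contra h
    have := hl2 a
    rw [R.ne h, mul_zero] at this
    exact zero_ne_one this
  have hl0 : ∀ a, l a ≠ 0 := by
    intro a h
    have := hl2 a
    rw [h, zero_mul, zero_mul] at this
    exact zero_ne_one this
  have hπJ : ∀ a, a ∉ J4 → π a ∉ J4 := by
    intro a ha h
    have h1 : z (e a) ∈ VI f e J4 := by rw [hl]; exact VI_smul H (R.mem_VI h) _
    have h3 := (hzst.2 (e a)).1 h1 a ha
    rw [R.self' a] at h3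
    exact one_ne_zero h3
  let o : ι → ℕ := fun a => (Fintype.equivFin ι a : ℕ)
  have ho : ∀ a b, o a = o b → a = b := by
    intro a b h
    exact (Fintype.equivFin ι).injective (Fin.ext h)
  set Rp := (J4ᶜ).filter (fun a => z (e a) ≠ e a ∧ o a ≤ o (π a)) with hRp
  set Mv := (J4ᶜ).filter (fun a => ¬ z (e a) = e a) with hMv
  set F3 := (J4ᶜ).filter (fun a => z (e a) = e a) with hF3
  have hRpc : Rp.card ≤ 2 := by
    have hdis : Disjoint J4 Rp := by
      rw [disjoint_left]
      intro a ha hb
      exact (mem_compl.1 (mem_filter.1 hb).1) ha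
    have h1 := count_le H R (J4 ∪ Rp) (fun b => if b ∈ J4 then e b else z (e b) - e b) W (by
        intro b hb
        by_cases h : b ∈ J4
        · rw [if_pos h]; exact Submodule.mem_sup_left (mem_E H R (R.mem_VI h))
        · rw [if_neg h]; exact hzW _) (by
        intro a ha
        by_cases h : a ∈ J4
        · rw [if_pos h, R.self' a]; exact one_ne_zero
        · rw [if_neg h, H.sub_left, hl, H.smul_left, R.self' a]
          have h3 := (mem_filter.1 ((mem_union.1 ha).resolve_left h)).2.1
          rw [hl] at h3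
          by_cases h4 : π a = a
          · rw [h4, R.self' a]
            rw [h4] at h3
            intro h5
            apply h3
            have : l a = 1 := by linear_combination h5
            rw [this, one_smul]
          · rw [R.ne h4]
            intro h5
            apply one_ne_zero (α := F)
            linear_combination -h5) (by
        intro a ha b hb hab
        by_cases h : b ∈ J4
        · rw [if_pos h]; exact R.ne hab.symm
        · rw [if_neg h, H.sub_left, hl, H.smul_left, R.ne hab.symm, sub_zero]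
          have hbR := mem_filter.1 ((mem_union.1 hb).resolve_left h)
          by_cases h4 : π b = a
          · exfalso
            have haJ : a ∉ J4 := by rw [← h4]; exact hπJ b h
            have haR := mem_filter.1 ((mem_union.1 ha).resolve_left haJ)
            have h5 : π a = b := by rw [← h4, hππ]
            have h6 := haR.2.2
            have h7 := hbR.2.2
            rw [h5] at h6
            rw [h4] at h7
            exact hab (ho _ _ (le_antisymm h6 h7))
          · rw [R.ne h4, mul_zero])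
    rw [card_union_of_disjoint hdis, hJ4c] at h1
    omega
  have hMvc : Mv.card ≤ 4 := by
    have hsub : Mv ⊆ Rp ∪ Rp.image π := by
      intro a ha
      have ha' := mem_filter.1 ha
      rw [mem_union, mem_image]
      by_cases h : o a ≤ o (π a)
      · left; exact mem_filter.2 ⟨ha'.1, ha'.2, h⟩
      · right
        refine ⟨π a, mem_filter.2 ⟨mem_compl.2 (hπJ a (mem_compl.1 ha'.1)), fun h3 => ?_, ?_⟩, hππ a⟩
        · have h4 := hzzv (e a)
          rw [hl a, LinearEquiv.map_smul z, h3] at h4
          -- l a • e (π a) = e a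
          exact ha'.2 (by rw [hl a]; exact h4)
        · rw [hππ]; omega
    have h1 := card_le_card hsub
    have h3 := card_union_le Rp (Rp.image π)
    have h4 : (Rp.image π).card ≤ Rp.card := card_image_le
    omega
  have hF3c : Fintype.card ι ≤ F3.card + 8 := by
    have h1 := Finset.card_filter_add_card_filter_not (s := J4ᶜ) (fun a => z (e a) = e a)
    rw [← hF3, ← hMv, card_compl, hJ4c] at h1
    omega
  -- the vector
  obtain ⟨i, hi⟩ : ∃ i, z (m (e i)) ≠ m (e i) := by
    by_contra hcon
    push Not at hcon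
    apply hz1
    ext v
    show z v = v
    have h1 : v = m (m⁻¹ v) := (apply_inv_self' m v).symm
    have h3 : ∀ w, z (m w) = m w := by
      intro w
      rw [R.span w, map_sum, map_sum]
      refine sum_congr rfl fun i _ => ?_
      rw [LinearEquiv.map_smul m, LinearEquiv.map_smul z, hcon i]
    rw [h1]; exact h3 _
  obtain ⟨j, lam, hlam⟩ := hz'm i
  have hz'e : m (z' (e i)) = z (m (e i)) := by
    rw [hz', LinearEquiv.mul_apply, LinearEquiv.mul_apply, apply_inv_self']
  have hlamU : lam * σ lam = 1 := by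
    have h1 : f (z' (e i)) (z' (e i)) = 1 := by rw [Y.isom hz'M]; exact R.self' i
    rw [hlam, H.smul_left, H.smul_right, R.self' j, mul_one] at h1
    exact h1
  have hc0 : ∀ a ∈ F3, f (m (e i - lam • e j)) (e a) = 0 := by
    intro a ha
    have ha' := (mem_filter.1 ha).2
    rw [← hlam, map_sub, hz'e, H.sub_left]
    have : f (z (m (e i))) (e a) = f (m (e i)) (e a) := by
      conv_lhs => rw [← ha']
      exact Y.isom hzM _ _
    rw [this, sub_self]
  have hfix : ∀ a ∈ F3, ∀ b ∈ F3, a ≠ b → ∀ w (hw : w ∈ U σ), Mon e (m⁻¹ * dd H R a b w hw * m) := by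
    intro a ha b hb hab w hw
    have hxM : m⁻¹ * dd H R a b w hw * m ∈ M := mul_mem (mul_mem (inv_mem hm) (dd_M H R Y.mon hw)) hm
    have hxc : (m⁻¹ * dd H R a b w hw * m) (e i - lam • e j) = e i - lam • e j := by
      rw [LinearEquiv.mul_apply, LinearEquiv.mul_apply, dd_fix H R hab hw (hc0 a ha) (hc0 b hb), inv_apply_self']
    by_cases hij : i = j
    · have hl1 : 1 - lam ≠ 0 := by
        intro h
        apply hi
        rw [← hz'e, hlam, ← hij]
        have : lam = 1 := by linear_combination -h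
        rw [this, one_smul]
      refine hs _ hxM i ⟨1, ?_⟩
      rw [← hij] at hxc
      have e1 : e i - lam • e i = (1 - lam) • e i := by module
      rw [e1, LinearEquiv.map_smul] at hxc
      rw [one_smul]
      have h5 := congrArg (fun v => (1 - lam)⁻¹ • v) hxc
      have h6 : (1 - lam)⁻¹ • (1 - lam) • (m⁻¹ * dd H R a b w hw * m) (e i) =
          (1 - lam)⁻¹ • (1 - lam) • e i := h5
      rwa [smul_smul, smul_smul, inv_mul_cancel₀ hl1, one_smul, one_smul] at h6
    · exact starstar' H R A hq h2 hB hn Y hs hij hlamU hxM hxc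
  rcases hc with hc | hc
  · obtain ⟨T, hT, hTc⟩ := exists_subset_card_eq (s := F3) (n := 2) (by omega)
    obtain ⟨a, b, hab, rfl⟩ := card_eq_two.1 hTc
    have ha := hT (by simp : a ∈ ({a, b} : Finset ι))
    have hb := hT (by simp : b ∈ ({a, b} : Finset ι))
    exact lstar2 H R A hc h2 (Y.isom hm) hnl hab (hfix a ha b hb hab)
  · obtain ⟨T, hT, hTc⟩ := exists_subset_card_eq (s := F3) (n := 3) (by omega)
    obtain ⟨a, b, c, hab, hac, hbc, rfl⟩ := card_eq_three.1 hTc
    have ha := hT (by simp : a ∈ ({a, b, c} : Finset ι))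
    have hb := hT (by simp : b ∈ ({a, b, c} : Finset ι))
    have hc := hT (by simp : c ∈ ({a, b, c} : Finset ι))
    exact lstar H R A hq h2 (Y.isom hm) hnl hab hac hbc (hfix a ha b hb hab) (hfix a ha c hc hac)

end

end Cfsg.Agent.Lib.Uf98
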