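import Mathlib
import Cfsg.Agent.Lib.UfT

set_option autoImplicit false

/-!
The field with nine elements, ten dimensions.
-/

namespace Cfsg.Agent.Lib.Uf98

open Finset Cfsg.Agent.Lib.UnTrans Cfsg.Agent.Lib.UnMax
open Cfsg.Agent.Lib.SpTrans (isom mem_isom)

variable {F : Type*} [Field F] [Fintype F] [DecidableEq F] {σ : F →+* F} {q : ℕ}
variable {V : Type*} [AddCommGroup V] [Module F V] {f : V → V → F}
variable {ι : Type*} [Fintype ι] [DecidableEq ι] {e : ι → V}

section
variable (H : HS σ f) (R : Fr f e) {M : Subgroup (V ≃ₗ[F] V)}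
include H R

/-- the dihedral argument with two planes -/
theorem dih22 [FiniteDimensional F V] (A : Ar σ q) (hq : 3 ≤ q) (h2 : (2 : F) ≠ 0) (Y : Hy f e M) (hB : BalO σ ι)
    (hn : 10 ≤ Fintype.card ι) (hs : Stt e M) {m : V ≃ₗ[F] V} (hm : m ∈ M) (hnm : ¬ Mon e m) {J2 J4 : Finset ι}
    (hJ2c : J2.card = 2) (hJ4c : J4.card = 2) {v0 : V} (hv0 : v0 ∈ VI f e J4) (hv0ne : v0 ≠ 0)
    (hv0p : m v0 ∈ VI f e J2ᶜ) : False := by
  classical
  have hnl : ∀ i j (c : F), m (e i) ≠ c • e j :=
    fun i j c h => hnm (mon_of_line H R (by omega) Y hs hm ⟨c, h⟩)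
  obtain ⟨t, htM, htt, htneg, htfix, htsub⟩ := exists_neg H R h2 Y J2 (by rw [hJ2c]; decide)
  obtain ⟨r, hrM, hrr, hrneg, hrfix, hrsub⟩ := exists_neg H R h2 Y J4 (by rw [hJ4c]; decide)
  have htinv : t⁻¹ = t := inv_eq_of_mul_eq_one_left htt
  set t' := m * r * m⁻¹ with ht'
  have ht'M : t' ∈ M := mul_mem (mul_mem hm hrM) (inv_mem hm)
  have ht't' : t' * t' = 1 := by
    rw [ht']
    calc _ = m * (r * r) * m⁻¹ := by group
      _ = 1 := by rw [hrr]; group
  have ht'inv : t'⁻¹ = t' := inv_eq_of_mul_eq_one_left ht't'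
  set p := t * t' with hp
  have hpM : p ∈ M := mul_mem htM ht'M
  have hp0 : p (m v0) = -(m v0) := by
    have e1 : t' (m v0) = -(m v0) := by
      rw [ht', LinearEquiv.mul_apply, LinearEquiv.mul_apply, inv_apply_self', (hrneg v0).2 hv0, map_neg]
    rw [hp, LinearEquiv.mul_apply, e1, map_neg, htfix _ hv0p]
  have hpk : ∀ k : ℕ, (p ^ k) (m v0) = (-1 : F) ^ k • m v0 := by
    intro k
    induction k with
    | zero => rw [pow_zero, pow_zero, one_smul]; rfl
    | succ k ih =>
      rw [pow_succ, LinearEquiv.mul_apply, hp0, map_neg, ih, pow_succ]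
      module
  have hmv0 : m v0 ≠ 0 := by
    intro h; exact hv0ne ((map_eq_zero_iff m m.injective).1 h)
  haveI : Finite V := Module.finite_of_finite F
  haveI : Finite (V ≃ₗ[F] V) := DFunLike.finite _
  have hopos : 0 < orderOf p := orderOf_pos p
  have hoeven : Even (orderOf p) := by
    by_contra hodd
    rw [Nat.not_even_iff_odd] at hodd
    have h1 := hpk (orderOf p)
    rw [pow_orderOf_eq_one, hodd.neg_one_pow] at h1
    have h3 : m v0 = (-1 : F) • m v0 := h1
    have h4 : (2 : F) • m v0 = 0 := by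
      have : (2 : F) • m v0 = m v0 - (-1 : F) • m v0 := by module
      rw [this, ← h3, sub_self]
    rcases smul_eq_zero.1 h4 with h | h
    · exact h2 h
    · exact hmv0 h
  obtain ⟨k, hk⟩ := hoeven
  set z := p ^ k with hz
  have hzM : z ∈ M := pow_mem hpM k
  have hzz : z * z = 1 := by rw [hz, ← pow_add, ← hk, pow_orderOf_eq_one]
  have hz1 : z ≠ 1 := pow_ne_one_of_lt_orderOf (by omega) (by omega)
  have hzinv : z⁻¹ = z := inv_eq_of_mul_eq_one_left hzz
  have hpinv : p⁻¹ = t' * t := by rw [hp, mul_inv_rev, htinv, ht'inv]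
  have htz : t * z = z * t := by
    have h1 : t * p * t⁻¹ = p⁻¹ := by
      rw [hpinv, hp, htinv]
      calc t * (t * t') * t = (t * t) * t' * t := by group
        _ = t' * t := by rw [htt, one_mul]
    have h3 : t * z * t⁻¹ = z := by
      rw [hz, ← conj_pow, h1, inv_pow, ← hz, hzinv]
    calc t * z = t * z * t⁻¹ * t := by group
      _ = z * t := by rw [h3]
  have ht'z : t' * z = z * t' := by
    have h1 : t' * p * t'⁻¹ = p⁻¹ := by
      rw [hpinv, hp, ht'inv]
      calc t' * (t * t') * t' = t' * t * (t' * t') := by group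
        _ = t' * t := by rw [ht't', mul_one]
    have h3 : t' * z * t'⁻¹ = z := by
      rw [hz, ← conj_pow, h1, inv_pow, ← hz, hzinv]
    calc t' * z = t' * z * t'⁻¹ * t' := by group
      _ = z * t' := by rw [h3]
  set z' := m⁻¹ * z * m with hz'
  have hz'M : z' ∈ M := mul_mem (mul_mem (inv_mem hm) hzM) hm
  have hrz' : r * z' = z' * r := by
    have e1 : r = m⁻¹ * t' * m := by rw [ht']; group
    rw [e1, hz']
    calc _ = m⁻¹ * (t' * z) * m := by group
      _ = m⁻¹ * (z * t') * m := by rw [ht'z]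
      _ = _ := by group
  have comm_st : ∀ (J : Finset ι) (s x : V ≃ₗ[F] V), x ∈ M → (∀ v, s v = -v ↔ v ∈ VI f e J) → s * x = x * s →
      x ∈ st f e M J := by
    intro J s x hx hs hc
    refine ⟨hx, fun u => ?_⟩
    rw [← hs, ← hs, ← LinearEquiv.mul_apply, hc, LinearEquiv.mul_apply, ← map_neg]
    exact x.injective.eq_iff
  have hzst := comm_st J2 t z hzM htneg htz
  have hz'st := comm_st J4 r z' hz'M hrneg hrz'
  have hzm : Mon e z := mon_of_st H R A hq (by omega) Y hs (card_pos.1 (by rw [hJ2c]; omega))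
    (by rw [card_compl, hJ2c]; omega) hzst
  have hz'm : Mon e z' := mon_of_st H R A hq (by omega) Y hs (card_pos.1 (by rw [hJ4c]; omega))
    (by rw [card_compl, hJ4c]; omega) hz'st
  -- the commutator space
  set W := EJ F e J2 ⊔ (EJ F e J4).map ((m : V ≃ₗ[F] V) : V →ₗ[F] V) with hW
  have hWr : Module.finrank F W ≤ 4 := by
    have h1 := Submodule.finrank_add_le_finrank_add_finrank (EJ F e J2)
      ((EJ F e J4).map ((m : V ≃ₗ[F] V) : V →ₗ[F] V))
    have h3 := E_rank_le (F := F) (e := e) J2
    have h4 := E_rank_le (F := F) (e := e) J4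
    rw [LinearEquiv.finrank_map_eq] at h1
    rw [hJ2c] at h3
    rw [hJ4c] at h4
    rw [← hW] at h1
    omega
  have htW : ∀ v, t v - v ∈ W := fun v => Submodule.mem_sup_left (mem_E H R (htsub v))
  have ht'W : ∀ v, t' v - v ∈ W := by
    intro v
    refine Submodule.mem_sup_right ⟨r (m⁻¹ v) - m⁻¹ v, mem_E H R (hrsub _), ?_⟩
    show m (r (m⁻¹ v) - m⁻¹ v) = _
    rw [map_sub, apply_inv_self', ht', LinearEquiv.mul_apply, LinearEquiv.mul_apply]
  have hpW : ∀ v, p v - v ∈ W := by
    intro v
    have h1 := W.add_mem (htW (t' v)) (ht'W v)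
    rw [sub_add_sub_cancel] at h1
    exact h1
  have hpkW : ∀ (k : ℕ) v, (p ^ k) v - v ∈ W := by
    intro k
    induction k with
    | zero => intro v; rw [pow_zero]; show v - v ∈ W; rw [sub_self]; exact W.zero_mem
    | succ k ih =>
      intro v
      have h1 := W.add_mem (ih (p v)) (hpW v)
      rw [sub_add_sub_cancel] at h1
      rw [pow_succ]
      exact h1
  have hzW : ∀ v, z v - v ∈ W := hpkW k
  -- the permutation
  choose π l hl using hzm
  have hzzv : ∀ v, z (z v) = v := by
    intro v; rw [← LinearEquiv.mul_apply, hzz]; rfl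
  have hl2 : ∀ a, l a * l (π a) * f (e (π (π a))) (e a) = 1 := by
    intro a
    have h1 := hzzv (e a)
    rw [hl a, LinearEquiv.map_smul z, hl, smul_smul] at h1
    have h3 := congrArg (fun v => f v (e a)) h1
    have h4 : f ((l a * l (π a)) • e (π (π a))) (e a) = f (e a) (e a) := h3
    rw [H.smul_left, R.self' a] at h4
    exact h4
  have hππ : ∀ a, π (π a) = a := by
    intro a
    by_contra h
    have := hl2 a
    rw [R.ne h, mul_zero] at this
    exact zero_ne_one this
  have hl0 : ∀ a, l a ≠ 0 := by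
    intro a h
    have := hl2 a
    rw [h, zero_mul, zero_mul] at this
    exact zero_ne_one this
  have hπJ : ∀ a, a ∉ J2 → π a ∉ J2 := by
    intro a ha h
    have h1 : z (e a) ∈ VI f e J2 := by rw [hl]; exact VI_smul H (R.mem_VI h) _
    have h3 := (hzst.2 (e a)).1 h1 a ha
    rw [R.self' a] at h3
    exact one_ne_zero h3
  let o : ι → ℕ := fun a => (Fintype.equivFin ι a : ℕ)
  have ho : ∀ a b, o a = o b → a = b := by
    intro a b h
    exact (Fintype.equivFin ι).injective (Fin.ext h)
  set Rp := (J2ᶜ).filter (fun a => z (e a) ≠ e a ∧ o a ≤ o (π a)) with hRp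
  set Mv := (J2ᶜ).filter (fun a => ¬ z (e a) = e a) with hMv
  set F3 := (J2ᶜ).filter (fun a => z (e a) = e a) with hF3
  have hRpc : Rp.card ≤ 2 := by
    have hdis : Disjoint J2 Rp := by
      rw [disjoint_left]
      intro a ha hb
      exact (mem_compl.1 (mem_filter.1 hb).1) ha
    have h1 := count_le H R (J2 ∪ Rp) (fun b => if b ∈ J2 then e b else z (e b) - e b) W (by
        intro b hb
        by_cases h : b ∈ J2
        · rw [if_pos h]; exact Submodule.mem_sup_left (mem_E H R (R.mem_VI h))
        · rw [if_neg h]; exact hzW _) (by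
        intro a ha
        by_cases h : a ∈ J2
        · rw [if_pos h, R.self' a]; exact one_ne_zero
        · rw [if_neg h, H.sub_left, hl, H.smul_left, R.self' a]
          have h3 := (mem_filter.1 ((mem_union.1 ha).resolve_left h)).2.1
          rw [hl] at h3
          by_cases h4 : π a = a
          · rw [h4, R.self' a]
            rw [h4] at h3
            intro h5
            apply h3
            have : l a = 1 := by linear_combination h5
            rw [this, one_smul]
          · rw [R.ne h4]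
            intro h5
            apply one_ne_zero (α := F)
            linear_combination -h5) (by
        intro a ha b hb hab
        by_cases h : b ∈ J2
        · rw [if_pos h]; exact R.ne hab.symm
        · rw [if_neg h, H.sub_left, hl, H.smul_left, R.ne hab.symm, sub_zero]
          have hbR := mem_filter.1 ((mem_union.1 hb).resolve_left h)
          by_cases h4 : π b = a
          · exfalso
            have haJ : a ∉ J2 := by rw [← h4]; exact hπJ b h
            have haR := mem_filter.1 ((mem_union.1 ha).resolve_left haJ)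
            have h5 : π a = b := by rw [← h4, hππ]
            have h6 := haR.2.2
            have h7 := hbR.2.2
            rw [h5] at h6
            rw [h4] at h7
            exact hab (ho _ _ (le_antisymm h6 h7))
          · rw [R.ne h4, mul_zero])
    rw [card_union_of_disjoint hdis, hJ2c] at h1
    omega
  have hMvc : Mv.card ≤ 4 := by
    have hsub : Mv ⊆ Rp ∪ Rp.image π := by
      intro a ha
      have ha' := mem_filter.1 ha
      rw [mem_union, mem_image]
      by_cases h : o a ≤ o (π a)
      · left; exact mem_filter.2 ⟨ha'.1, ha'.2, h⟩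
      · right
        refine ⟨π a, mem_filter.2 ⟨mem_compl.2 (hπJ a (mem_compl.1 ha'.1)), fun h3 => ?_, ?_⟩, hππ a⟩
        · have h4 := hzzv (e a)
          rw [hl a, LinearEquiv.map_smul z, h3] at h4
          -- l a • e (π a) = e a
          exact ha'.2 (by rw [hl a]; exact h4)
        · rw [hππ]; omega
    have h1 := card_le_card hsub
    have h3 := card_union_le Rp (Rp.image π)
    have h4 : (Rp.image π).card ≤ Rp.card := card_image_le
    omega
  have hF3c : 3 ≤ F3.card := by
    have h1 := Finset.card_filter_add_card_filter_not (s := J2ᶜ) (fun a => z (e a) = e a)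
    rw [← hF3, ← hMv, card_compl, hJ2c] at h1
    omega
  -- the vector
  obtain ⟨i, hi⟩ : ∃ i, z (m (e i)) ≠ m (e i) := by
    by_contra hcon
    push Not at hcon
    apply hz1
    ext v
    show z v = v
    have h1 : v = m (m⁻¹ v) := (apply_inv_self' m v).symm
    have h3 : ∀ w, z (m w) = m w := by
      intro w
      rw [R.span w, map_sum, map_sum]
      refine sum_congr rfl fun i _ => ?_
      rw [LinearEquiv.map_smul m, LinearEquiv.map_smul z, hcon i]
    rw [h1]; exact h3 _
  obtain ⟨j, lam, hlam⟩ := hz'm i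
  have hz'e : m (z' (e i)) = z (m (e i)) := by
    rw [hz', LinearEquiv.mul_apply, LinearEquiv.mul_apply, apply_inv_self']
  have hlamU : lam * σ lam = 1 := by
    have h1 : f (z' (e i)) (z' (e i)) = 1 := by rw [Y.isom hz'M]; exact R.self' i
    rw [hlam, H.smul_left, H.smul_right, R.self' j, mul_one] at h1
    exact h1
  have hc0 : ∀ a ∈ F3, f (m (e i - lam • e j)) (e a) = 0 := by
    intro a ha
    have ha' := (mem_filter.1 ha).2
    rw [← hlam, map_sub, hz'e, H.sub_left]
    have : f (z (m (e i))) (e a) = f (m (e i)) (e a) := by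
      conv_lhs => rw [← ha']
      exact Y.isom hzM _ _
    rw [this, sub_self]
  have hfix : ∀ a ∈ F3, ∀ b ∈ F3, a ≠ b → ∀ w (hw : w ∈ U σ), Mon e (m⁻¹ * dd H R a b w hw * m) := by
    intro a ha b hb hab w hw
    have hxM : m⁻¹ * dd H R a b w hw * m ∈ M := mul_mem (mul_mem (inv_mem hm) (dd_M H R Y.mon hw)) hm
    have hxc : (m⁻¹ * dd H R a b w hw * m) (e i - lam • e j) = e i - lam • e j := by
      rw [LinearEquiv.mul_apply, LinearEquiv.mul_apply, dd_fix H R hab hw (hc0 a ha) (hc0 b hb), inv_apply_self']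
    by_cases hij : i = j
    · have hl1 : 1 - lam ≠ 0 := by
        intro h
        apply hi
        rw [← hz'e, hlam, ← hij]
        have : lam = 1 := by linear_combination -h
        rw [this, one_smul]
      refine hs _ hxM i ⟨1, ?_⟩
      rw [← hij] at hxc
      have e1 : e i - lam • e i = (1 - lam) • e i := by module
      rw [e1, LinearEquiv.map_smul] at hxc
      rw [one_smul]
      have h5 := congrArg (fun v => (1 - lam)⁻¹ • v) hxc
      have h6 : (1 - lam)⁻¹ • (1 - lam) • (m⁻¹ * dd H R a b w hw * m) (e i) =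
          (1 - lam)⁻¹ • (1 - lam) • e i := h5
      rwa [smul_smul, smul_smul, inv_mul_cancel₀ hl1, one_smul, one_smul] at h6
    · exact starstar' H R A hq h2 hB hn Y hs hij hlamU hxM hxc
  obtain ⟨T, hT, hTc⟩ := exists_subset_card_eq hF3c
  obtain ⟨a, b, c, hab, hac, hbc, rfl⟩ := card_eq_three.1 hTc
  have ha := hT (by simp : a ∈ ({a, b, c} : Finset ι))
  have hb := hT (by simp : b ∈ ({a, b, c} : Finset ι))
  have hc := hT (by simp : c ∈ ({a, b, c} : Finset ι))
  exact lstar H R A hq h2 (Y.isom hm) hnl hab hac hbc (hfix a ha b hb hab) (hfix a ha c hc hac)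


omit [DecidableEq F] H R in
/-- ten columns over the field with nine elements -/
theorem minor1 (hF : Fintype.card F = 9) (hn : Fintype.card ι = 10) (c : ι → ι → F)
    (hns : ∀ i j k l, i ≠ j → k ≠ l → c i k * c j l ≠ c i l * c j k) {i j : ι} (hij : i ≠ j) :
    (∀ r : F, ∃ k, c j k ≠ 0 ∧ c i k = r * c j k) ∧ ∃ k, c j k = 0 := by
  classical
  let φ : ι → Option F := fun k => if c j k = 0 then none else some (c i k / c j k)
  have hinj : Function.Injective φ := by
    intro k l hkl
    by_contra hne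
    apply hns i j k l hij hne
    simp only [φ] at hkl
    by_cases h1 : c j k = 0
    · rw [if_pos h1] at hkl
      by_cases h2 : c j l = 0
      · rw [h1, h2, mul_zero, mul_zero]
      · rw [if_neg h2] at hkl; cases hkl
    · rw [if_neg h1] at hkl
      by_cases h2 : c j l = 0
      · rw [if_pos h2] at hkl; cases hkl
      · rw [if_neg h2] at hkl
        have h3 := Option.some.inj hkl
        field_simp at h3
        linear_combination h3
  have hcard : Fintype.card ι = Fintype.card (Option F) := by rw [Fintype.card_option, hF, hn]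
  have hbij := (Fintype.bijective_iff_injective_and_card φ).2 ⟨hinj, hcard⟩
  refine ⟨fun r => ?_, ?_⟩
  · obtain ⟨k, hk⟩ := hbij.2 (some r)
    refine ⟨k, ?_⟩
    simp only [φ] at hk
    by_cases h1 : c j k = 0
    · rw [if_pos h1] at hk; cases hk
    · rw [if_neg h1] at hk
      have h3 := Option.some.inj hk
      refine ⟨h1, ?_⟩
      rw [← h3, div_mul_cancel₀ _ h1]
  · obtain ⟨k, hk⟩ := hbij.2 none
    refine ⟨k, ?_⟩
    by_contra h1
    simp only [φ] at hk
    rw [if_neg h1] at hk
    cases hk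

/-- a nonmonomial element with a singular minor -/
theorem exists_minor [FiniteDimensional F V] (A : Ar σ 3) (h2 : (2 : F) ≠ 0) (Y : Hy f e M)
    (hn : Fintype.card ι = 10) {m : V ≃ₗ[F] V} (hm : m ∈ M) (hnm : ¬ Mon e m) :
    ∃ m' ∈ M, ¬ Mon e m' ∧ ∃ i j k l : ι, i ≠ j ∧ k ≠ l ∧
      f (m' (e i)) (e k) * f (m' (e j)) (e l) = f (m' (e i)) (e l) * f (m' (e j)) (e k) := by
  by_contra hcon
  push Not at hcon
  have hF : Fintype.card F = 9 := by rw [A.card]; norm_num
  have h3 : (3 : F) = 0 := by
    have h6 := Nat.cast_card_eq_zero F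
    rw [hF] at h6
    push_cast at h6
    have h7 : (3 : F) * 3 = 0 := by linear_combination h6
    rcases mul_eq_zero.1 h7 with h | h <;> exact h
  obtain ⟨i1, i2, h12⟩ : ∃ i1 i2 : ι, i1 ≠ i2 := by
    have : 1 < Fintype.card ι := by omega
    exact Fintype.one_lt_card_iff.1 this
  have hns := hcon m hm hnm
  obtain ⟨k1, k2⟩ := minor1 hF hn (fun i k => f (m (e i)) (e k)) hns h12
  obtain ⟨ρ, hρ⟩ := H.norm (-1) (by rw [map_neg, map_one])
  obtain ⟨l, hl0, hl⟩ := k1 ρ
  have hρ0 : ρ ≠ 0 := by
    rintro rfl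
    rw [zero_mul] at hρ
    exact one_ne_zero (α := F) (by linear_combination hρ)
  obtain ⟨r, hrM, hrr, hrneg, hrfix, hrsub⟩ := exists_neg H R h2 Y ({i1, i2} : Finset ι) (by rw [card_pair h12]; decide)
  have hr : ∀ v, r v = v - (2 * f v (e i1)) • e i1 - (2 * f v (e i2)) • e i2 := by
    intro v
    set w := f v (e i1) • e i1 + f v (e i2) • e i2 with hw
    have hwV : w ∈ VI f e ({i1, i2} : Finset ι) := by
      intro k hk
      simp only [mem_insert, mem_singleton, not_or] at hk
      rw [hw, H.add_left, H.smul_left, H.smul_left, R.ne (Ne.symm hk.1), R.ne (Ne.symm hk.2)]; ring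
    have hvw : v - w ∈ VI f e ({i1, i2} : Finset ι)ᶜ := by
      intro k hk
      rw [mem_compl, not_not] at hk
      simp only [mem_insert, mem_singleton] at hk
      rw [hw, H.sub_left, H.add_left, H.smul_left, H.smul_left]
      rcases hk with rfl | rfl
      · rw [R.self', R.ne h12.symm]; ring
      · rw [R.self', R.ne h12]; ring
    have e1 : r v = r (v - w) + r w := by rw [← map_add, sub_add_cancel]
    rw [e1, hrfix _ hvw, (hrneg w).2 hwV, hw]
    module
  have hvinv : ∀ i, f (m⁻¹ (e l)) (e i) = σ (f (m (e i)) (e l)) := by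
    intro i
    rw [← H.herm, ← Y.isom hm (m⁻¹ (e l)) (e i), apply_inv_self']
  set t' := m * r * m⁻¹ with ht'
  have ht'M : t' ∈ M := mul_mem (mul_mem hm hrM) (inv_mem hm)
  have ht'l : ∀ k, f (t' (e l)) (e k) = f (e l) (e k) - 2 * σ (f (m (e i1)) (e l)) * f (m (e i1)) (e k) -
      2 * σ (f (m (e i2)) (e l)) * f (m (e i2)) (e k) := by
    intro k
    rw [ht', LinearEquiv.mul_apply, LinearEquiv.mul_apply, hr, map_sub, map_sub, LinearEquiv.map_smul m,
      LinearEquiv.map_smul m, apply_inv_self', H.sub_left, H.sub_left, H.smul_left, H.smul_left, hvinv, hvinv]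
  have hl' : f (m (e i1)) (e l) = ρ * f (m (e i2)) (e l) := hl
  have hl0' : f (m (e i2)) (e l) ≠ 0 := hl0
  have hnz : ∀ k, f (t' (e l)) (e k) ≠ 0 := by
    intro k hk
    rw [ht'l] at hk
    by_cases hkl : k = l
    · subst hkl
      rw [R.self', hl', map_mul] at hk
      apply one_ne_zero (α := F)
      linear_combination hk + 2 * (f (m (e i2)) (e k) * σ (f (m (e i2)) (e k))) * hρ
    · rw [R.ne (Ne.symm hkl), hl', map_mul] at hk
      have h5 : σ (f (m (e i2)) (e l)) * (σ ρ * f (m (e i1)) (e k) + f (m (e i2)) (e k)) = 0 := by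
        linear_combination hk + (σ (f (m (e i2)) (e l)) * (σ ρ * f (m (e i1)) (e k) + f (m (e i2)) (e k))) * h3
      have h6 := (mul_eq_zero.1 h5).resolve_left (H.sigma_ne hl0')
      apply hns i1 i2 k l h12 hkl
      show f (m (e i1)) (e k) * f (m (e i2)) (e l) = f (m (e i1)) (e l) * f (m (e i2)) (e k)
      rw [hl']
      linear_combination (-(ρ * f (m (e i2)) (e l))) * h6 + (f (m (e i1)) (e k) * f (m (e i2)) (e l)) * hρ
  have hnm' : ¬ Mon e t' := by
    intro h
    obtain ⟨a, c, hc⟩ := h l
    obtain ⟨b, hb⟩ : ∃ b, b ≠ a := by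
      by_cases h : i1 = a
      · exact ⟨i2, by rw [← h]; exact h12.symm⟩
      · exact ⟨i1, h⟩
    apply hnz b
    rw [hc, H.smul_left, R.ne (Ne.symm hb), mul_zero]
  -- the row `l` of `t'` has no zero
  obtain ⟨i3, hi3⟩ : ∃ i3, i3 ≠ l := by
    by_cases h : i1 = l
    · exact ⟨i2, by rw [← h]; exact h12.symm⟩
    · exact ⟨i1, h⟩
  obtain ⟨-, k, hk⟩ := minor1 hF hn (fun i k => f (t' (e i)) (e k)) (hcon t' ht'M hnm') hi3
  exact hnz k hk

/-- ten dimensions over the field with nine elements -/
theorem nine_main [FiniteDimensional F V] (A : Ar σ 3) (h2 : (2 : F) ≠ 0) (Y : Hy f e M) (hB : BalO σ ι)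
    (hn : Fintype.card ι = 10) {m : V ≃ₗ[F] V} (hm : m ∈ M) (hnm : ¬ Mon e m) :
    ∀ g ∈ isom f, dt g = 1 → g ∈ M := by
  by_cases hs : Stt e M
  swap
  · unfold Stt at hs
    push Not at hs
    obtain ⟨x, hx, a, hxa, hxm⟩ := hs
    exact stab_one H R A le_rfl (by omega) Y hx hxa hxm
  exfalso
  obtain ⟨m', hm', hnm', i, j, k, l, hij, hkl, hmin⟩ := exists_minor H R A h2 Y hn hm hnm
  obtain ⟨α, β, hαβ, h5, h6⟩ : ∃ α β : F, ¬ (α = 0 ∧ β = 0) ∧ α * f (m' (e i)) (e k) + β * f (m' (e j)) (e k) = 0 ∧
      α * f (m' (e i)) (e l) + β * f (m' (e j)) (e l) = 0 := by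
    by_cases h7 : f (m' (e j)) (e k) = 0 ∧ f (m' (e i)) (e k) = 0
    · by_cases h8 : f (m' (e j)) (e l) = 0 ∧ f (m' (e i)) (e l) = 0
      · exact ⟨1, 0, fun h => one_ne_zero h.1, by rw [h7.2]; ring, by rw [h8.2]; ring⟩
      · refine ⟨f (m' (e j)) (e l), - f (m' (e i)) (e l), fun h => h8 ⟨h.1, by linear_combination -h.2⟩, ?_, by ring⟩
        rw [h7.1, h7.2]; ring
    · refine ⟨f (m' (e j)) (e k), - f (m' (e i)) (e k), fun h => h7 ⟨h.1, by linear_combination -h.2⟩, by ring, ?_⟩
      linear_combination -hmin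
  have hc : ∀ a, f (α • e i + β • e j) (e a) = α * (if i = a then 1 else 0) + β * (if j = a then 1 else 0) := by
    intro a
    rw [H.add_left, H.smul_left, H.smul_left, R.on, R.on]
  refine dih22 H R A le_rfl h2 Y hB (by omega) hs hm' hnm' (J2 := {k, l}) (J4 := {i, j}) (card_pair hkl)
    (card_pair hij) (v0 := α • e i + β • e j) ?_ ?_ ?_
  · intro a ha
    simp only [mem_insert, mem_singleton, not_or] at ha
    rw [hc, if_neg (Ne.symm ha.1), if_neg (Ne.symm ha.2)]; ring
  · intro h0
    apply hαβ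
    have h7 := hc i
    have h8 := hc j
    rw [h0, H.zero_left, if_pos rfl, if_neg (Ne.symm hij)] at h7
    rw [h0, H.zero_left, if_neg hij, if_pos rfl] at h8
    exact ⟨by linear_combination -h7, by linear_combination -h8⟩
  · intro a ha
    rw [mem_compl, not_not] at ha
    simp only [mem_insert, mem_singleton] at ha
    rw [map_add, LinearEquiv.map_smul m', LinearEquiv.map_smul m', H.add_left, H.smul_left, H.smul_left]
    rcases ha with rfl | rfl
    · exact h5
    · exact h6

end

end Cfsg.Agent.Lib.Uf98
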