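import Cfsg.Prelude.Def_GeometricClasses
import Cfsg.Agent.Lib.UnBridge
import Cfsg.Agent.Lib.GeoBridge
import Cfsg.Agent.Lib.UfN
import Cfsg.Agent.Lib.UfQ
import Cfsg.Agent.Lib.UfV

set_option autoImplicit false

/-!
Nondegenerate decompositions in dimension at least ten: maximality in the special unitary group.
-/

namespace Cfsg.Agent.Lib.Uf98

open Finset Cfsg.Agent.Lib.UnTrans Cfsg.Agent.Lib.UnMax
open Cfsg.Agent.Lib.SpTrans (isom mem_isom)

variable {F : Type*} [Field F] [Fintype F] [DecidableEq F] {σ : F →+* F} {q : ℕ}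
variable {V : Type*} [AddCommGroup V] [Module F V] {f : V → V → F}

/-- the monomial case, dimension at least ten -/
theorem mono_main10 [FiniteDimensional F V] {ι : Type*} [Fintype ι] [DecidableEq ι] {e : ι → V} (H : HS σ f)
    (R : Fr f e) {M : Subgroup (V ≃ₗ[F] V)} (A : Ar σ q) (Y : Hy f e M) (hn : 10 ≤ Fintype.card ι)
    {m : V ≃ₗ[F] V} (hm : m ∈ M) (hnm : ¬ Mon e m) : ∀ g ∈ isom f, dt g = 1 → g ∈ M := by
  have hq2 := A.two_le
  by_cases h10 : Fintype.card ι = 10
  · by_cases h2 : (2 : F) = 0
    · have hB : BalE σ ι := bal_even A h2 h10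
      by_cases hq : q = 2
      · subst hq
        exact two_main' H R A Y hB hn hm hnm
      · exact even_main' H h2 R A (by omega) Y hB hn hm hnm
    · have hB : BalO σ ι := bal_odd A h2 h10
      by_cases hq3 : q = 3
      · subst hq3
        exact nine_main H R A h2 Y hB h10 hm hnm
      · have hz : ((Fintype.card F : ℕ) : F) = 0 := Nat.cast_card_eq_zero F
        rw [A.card] at hz
        push_cast at hz
        have hqF : (q : F) = 0 := (pow_eq_zero_iff two_ne_zero).1 hz
        have h4 : 5 ≤ q := by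
          by_contra hlt
          have : q = 2 ∨ q = 4 := by omega
          rcases this with rfl | rfl
          · exact h2 (by exact_mod_cast hqF)
          · have h5 : (2 : F) * 2 = 0 := by push_cast at hqF; linear_combination hqF
            rcases mul_eq_zero.1 h5 with h | h <;> exact h2 h
        exact odd_main' H R A (by omega) h2 Y hB hn (Or.inl h4) hm hnm
  · have hB : BalE σ ι := by
      apply bal_k A
      by_cases h11 : Fintype.card ι = 11
      · exact ⟨4, le_rfl, by omega, by rw [h11]; decide⟩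
      · by_cases h12 : Fintype.card ι = 12
        · exact ⟨5, by omega, by omega, by rw [h12]; decide⟩
        · exact exists_k _ (by omega)
    by_cases hq : q = 2
    · subst hq
      exact two_main' H R A Y hB hn hm hnm
    · by_cases h2 : (2 : F) = 0
      · exact even_main' H h2 R A (by omega) Y hB hn hm hnm
      · exact odd_main' H R A (by omega) h2 Y hB.toO hn (Or.inr (by omega)) hm hnm

section dec
variable {T : Type*} [Fintype T] [DecidableEq T] {D : T → Submodule F V} {k : ℕ}

/-- **maximality** of the stabilizer of a nondegenerate decomposition in the special unitary group -/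
theorem dec_max10 [FiniteDimensional F V] (H : HS σ f) (hnd : Nd f (⊤ : Submodule F V))
    (hdim : 10 ≤ Module.finrank F V) (A : Ar σ q) (Z : Dc f D k) (hk : 0 < k) (hkq : ¬ (k = 2 ∧ q = 2))
    {M : Subgroup (V ≃ₗ[F] V)} (hM : M ≤ isom f) (hMd : ∀ g ∈ M, dt g = 1)
    (hP : ∀ g ∈ isom f, dt g = 1 → (∃ π : Equiv.Perm T, ∀ i, (D i).map g.toLinearMap = D (π i)) → g ∈ M)
    (hex : ∃ g ∈ M, ¬ ∃ π : Equiv.Perm T, ∀ i, (D i).map g.toLinearMap = D (π i)) :
    ∀ g ∈ isom f, dt g = 1 → g ∈ M := by
  obtain ⟨e, R, he⟩ := exists_frame H Z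
  have hrk := frame_rank H R
  rw [Fintype.card_prod, Fintype.card_fin] at hrk
  have hq2 := A.two_le
  by_cases hk1 : k = 1
  · subst hk1
    -- monomial case
    have hmp : ∀ g : V ≃ₗ[F] V, Mon e g → ∃ π : Equiv.Perm T, ∀ i, (D i).map g.toLinearMap = D (π i) := by
      intro g hg
      apply perm_of_blk Z one_pos
      intro i
      obtain ⟨j, c, hj⟩ := hg (i, 0)
      refine ⟨j.1, fun v hv => ?_⟩
      have h1 := mem_D_iff H Z R he hv
      rw [Fin.sum_univ_one] at h1
      rw [h1, LinearEquiv.map_smul, hj]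
      exact (D j.1).smul_mem _ ((D j.1).smul_mem _ (he j))
    obtain ⟨m, hm, hmn⟩ := hex
    exact mono_main10 H R A ⟨hM, hMd, fun g hg hd hgm => hP g hg hd (hmp g hgm)⟩ (by
      rw [Fintype.card_prod, Fintype.card_fin]; omega) hm (fun h => hmn (hmp m h))
  · have hkt : 4 ≤ k ∨ 3 ≤ Fintype.card T := by
      by_contra hcon
      push Not at hcon
      have h1 : Fintype.card T * k ≤ 2 * 3 := Nat.mul_le_mul (by omega) (by omega)
      omega
    have hT := exists_T (k := k) H A (by
      by_contra hcon
      push Not at hcon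
      exact hkq ⟨by omega, by omega⟩)
    have hB : Bk f D k M := by
      refine ⟨Z.nd, Z.rk, Z.orth, Z.sum, hM, ?_, ?_⟩
      · intro g hg hd hgD
        exact hP g hg hd (perm_of_blk Z hk fun i => ⟨i, hgD i⟩)
      · intro i j i' j' hij hij'
        -- a permutation
        obtain ⟨π, hπi, hπj⟩ : ∃ π : Equiv.Perm T, π i' = i ∧ π j' = j := by
          refine ⟨Equiv.swap (Equiv.swap i' i j') j * Equiv.swap i' i, ?_, ?_⟩
          · rw [Equiv.Perm.mul_apply, Equiv.swap_apply_left]
            apply Equiv.swap_apply_of_ne_of_ne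
            · intro h
              apply hij'
              have h1 := congrArg (Equiv.swap i' i) h
              rw [Equiv.swap_apply_self, Equiv.swap_apply_right] at h1
              exact h1
            · exact hij
          · rw [Equiv.Perm.mul_apply, Equiv.swap_apply_left]
        obtain ⟨g, hg, hge⟩ := perm_isom H R (π.prodCongr (Equiv.refl (Fin k)))
        have hgD : ∀ l, ∀ v ∈ D l, g v ∈ D (π l) := by
          intro l v hv
          rw [mem_D_iff H Z R he hv, map_sum]
          refine Submodule.sum_mem _ fun a _ => ?_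
          rw [LinearEquiv.map_smul, hge]
          exact Submodule.smul_mem _ _ (he (π l, a))
        have hδ := dt_unit H hnd hg
        set x : T × Fin k := (i, ⟨0, hk⟩) with hx
        have hrl : ∀ l, ∀ v ∈ D l, rl H (e x) (dt g)⁻¹ (R.self' x) (inv_mem_U hδ) v ∈ D l := by
          intro l v hv
          rw [rl_apply, rr]
          by_cases h : l = i
          · subst h; exact Submodule.add_mem _ hv (Submodule.smul_mem _ _ (he x))
          · rw [Z.orth l i h v hv _ (he x), mul_zero, zero_smul, add_zero]; exact hv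
        have hg' : ∀ l, ∀ v ∈ D l, (rl H (e x) (dt g)⁻¹ (R.self' x) (inv_mem_U hδ) * g) v ∈ D (π l) :=
          fun l v hv => by rw [LinearEquiv.mul_apply]; exact hrl _ _ (hgD l v hv)
        refine ⟨rl H (e x) (dt g)⁻¹ (R.self' x) (inv_mem_U hδ) * g, hP _ (mul_mem (rl_mem H _ _) hg) ?_ ?_,
          fun v hv => ?_, fun v hv => ?_⟩
        · rw [dt_mul, rl_det, inv_mul_cancel₀ (U_ne hδ)]
        · exact perm_of_blk Z hk fun l => ⟨π l, hg' l⟩
        · have := hg' i' v hv
          rwa [hπi] at this
        · have := hg' j' v hv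
          rwa [hπj] at this
    exact blk_main H hB hnd (by omega) A (by omega) hkt hT (by
      obtain ⟨g, hg, hgn⟩ := hex
      exact ⟨g, hg, fun h => hgn (perm_of_blk Z hk h)⟩)

end dec

end Cfsg.Agent.Lib.Uf98

namespace Cfsg.Agent.Lib.Uf98

open Cfsg.Agent.Lib.UnTrans
open Cfsg.Agent.Lib.SpTrans (isom mem_isom)
open Cfsg.Agent.Lib.UnBridge Cfsg.Agent.Lib.GeoBridge

/-- The elements of `SU_n(q)`, `n ≥ 10`, permuting the members of an orthogonal decomposition into nondegenerate
`k`-spaces form a maximal subgroup of `SU_n(q)` unless `k = q = 2`. -/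
theorem nondeg_decomp_max10 {F : Type*} [Field F] [Fintype F] (n q : ℕ) (hF : Fintype.card F = q ^ 2) (hn : 10 ≤ n) {t : ℕ} (k : ℕ) (D : Fin t → Submodule F (Fin n → F)) (hD : Cfsg.Geo.IsNondegenerateMDecomposition (Cfsg.hermForm n F q) k D) (hex : ¬ (k = 2 ∧ q = 2)) : Cfsg.Geo.IsMaximalIn (Cfsg.GU n F q ⊓ Cfsg.Geo.specialLinear (Fin n) F) (Cfsg.Geo.decompositionStabilizer D ⊓ (Cfsg.GU n F q ⊓ Cfsg.Geo.specialLinear (Fin n) F)) := by
  classical
  have H := herm_HS n hF
  have hnd := herm_nd n hF
  have hfr : Module.finrank F (Fin n → F) = n := Module.finrank_fin_fun F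
  have A : Ar (sig hF) q := ⟨hF, sig_apply hF⟩
  have Z : Dc (Cfsg.hermForm n F q) D k := by
    refine ⟨fun i x hx hx0 => ?_, hD.decomp.finrank_eq, fun i j hij => hD.orthogonal i j hij, fun v => ?_⟩
    · obtain ⟨y, hy, hxy⟩ := (hD.nondegenerate i x hx hx0).2
      exact ⟨y, hy, hxy⟩
    · have hv : v ∈ iSup D := by rw [hD.decomp.iSup_eq_top]; trivial
      obtain ⟨c, hc, hsum⟩ := (Submodule.mem_iSup_iff_exists_finsupp D v).1 hv
      refine ⟨c, hc, ?_⟩
      rw [← hsum, Finsupp.sum_fintype]
      intro i; rfl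
  refine SU_max_of n (P := fun g => ∃ σ : Equiv.Perm (Fin t), ∀ i, (D i).map g.toLinearMap = D (σ i))
    (mem_decompositionStabilizer_iff D) ?_ ?_
  · exact exists_nonpres H hnd (by omega) Z hD.decomp.pos (by rw [Fintype.card_fin]; exact hD.decomp.two_le)
  · intro M hM hH hdet hx g hg hgd
    exact dec_max10 H hnd (by omega) A Z hD.decomp.pos hex hM hdet hH hx g hg hgd


end Cfsg.Agent.Lib.Uf98
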