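import Cfsg.Agent.Lib.UnMaxi
import Cfsg.Agent.Lib.AschSmall
set_option autoImplicit false
set_option linter.style.haveILetI false
set_option linter.unusedVariables false
set_option linter.unusedSectionVars false

/-!
Arithmetic of the sixth class, unitary case.
-/

namespace Cfsg.Agent.Lib.UnNot

open Cfsg Cfsg.Geo

variable {F : Type*} [Field F] [Fintype F] {q : ℕ}

theorem field_data {z p e : ℕ} (hF : Fintype.card F = q ^ 2) (hmin : IsMinimalFieldFor z p e F) :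
    ∃ f, 0 < f ∧ e = 2 * f ∧ q = p ^ f := by
  obtain ⟨hp, hch, hcard, hz, hm⟩ := hmin
  have h1 : q ∣ p ^ e := by
    rw [← hcard, hF]
    exact Dvd.intro_left (q ^ 1) (by ring)
  obtain ⟨f, -, hf⟩ := (Nat.dvd_prime_pow hp).1 h1
  have h2 : p ^ e = p ^ (2 * f) := by
    rw [← hcard, hF, hf]; ring
  have h3 := Nat.pow_right_injective hp.two_le h2
  refine ⟨f, ?_, h3, hf⟩
  by_contra h
  have hf0 : f = 0 := by omega
  have h4 : 1 < Fintype.card F := Fintype.one_lt_card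
  rw [hF, hf, hf0] at h4
  simp at h4

theorem odd_udata {r p e : ℕ} (hF : Fintype.card F = q ^ 2) (hr : r.Prime) (hrp : r ≠ p) (hmin : IsMinimalFieldFor r p e F) :
    ∃ f, 0 < f ∧ q = p ^ f ∧ 2 * f ∣ r - 1 ∧ r ∣ p ^ (2 * f) - 1 ∧ ∀ d : ℕ, 0 < d → d < 2 * f → ¬ r ∣ p ^ d - 1 := by
  obtain ⟨f, hf0, rfl, hq⟩ := field_data hF hmin
  obtain ⟨hp, hch, hcard, hz, hm⟩ := hmin
  refine ⟨f, hf0, hq, ?_, hz, hm⟩
  have h1 : r ∣ p ^ (r - 1) - 1 := by
    have hcop : Nat.Coprime p r := (Nat.coprime_primes hp hr).2 (Ne.symm hrp)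
    have h2 := Nat.ModEq.pow_totient hcop
    rw [Nat.totient_prime hr] at h2
    exact (Nat.modEq_iff_dvd' (Nat.one_le_pow _ _ hp.pos)).1 h2.symm
  have h2 : r ∣ p ^ Nat.gcd (2 * f) (r - 1) - 1 := by
    rw [← Nat.pow_sub_one_gcd_pow_sub_one]
    exact Nat.dvd_gcd hz h1
  have h3 : 0 < Nat.gcd (2 * f) (r - 1) := Nat.gcd_pos_of_pos_left _ (by omega)
  rcases Nat.lt_or_ge (Nat.gcd (2 * f) (r - 1)) (2 * f) with h4 | h4
  · exact absurd h2 (hm _ h3 h4)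
  · have h5 : Nat.gcd (2 * f) (r - 1) = 2 * f := le_antisymm (Nat.gcd_le_left _ (by omega)) h4
    rw [← h5]; exact Nat.gcd_dvd_right _ _

theorem two_udata {p e : ℕ} (hF : Fintype.card F = q ^ 2) (he : e = 2) (hmin : IsMinimalFieldFor 4 p e F) : q = p ∧ p % 4 = 3 := by
  obtain ⟨f, hf0, he', hq⟩ := field_data hF hmin
  obtain rfl : f = 1 := by omega
  subst he
  obtain ⟨hp, hch, hcard, hz, hm⟩ := hmin
  rw [pow_one] at hq
  refine ⟨hq, ?_⟩
  have h1 := hm 1 one_pos (by norm_num)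
  rw [pow_one] at h1
  have h2 : 1 ≤ p ^ 2 := Nat.one_le_pow _ _ hp.pos
  have h3 : p ^ 2 % 4 = 1 := by omega
  rw [Nat.pow_mod] at h3
  have h4 : p % 4 < 4 := Nat.mod_lt _ (by norm_num)
  generalize hs : p % 4 = s at h3 h4 ⊢
  interval_cases s <;> simp at h3 ⊢
  have := hp.two_le
  omega

theorem uarith3 {p e : ℕ} (hF : Fintype.card F = q ^ 2) (hrp : 3 ≠ p) (hmin : IsMinimalFieldFor 3 p e F) : q = p ∧ p % 3 = 2 := by
  have hp := hmin.1
  obtain ⟨f, hf0, hq, hdvd, hz, hm⟩ := odd_udata hF (by norm_num) hrp hmin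
  have hle : 2 * f ≤ 2 := Nat.le_of_dvd (by norm_num) hdvd
  obtain rfl : f = 1 := by omega
  rw [pow_one] at hq
  refine ⟨hq, ?_⟩
  have h1 := hm 1 one_pos (by norm_num)
  rw [pow_one] at h1
  have h2 : 1 ≤ p ^ 2 := Nat.one_le_pow _ _ hp.pos
  rw [mul_one] at hz
  have h3 : p ^ 2 % 3 = 1 := by omega
  rw [Nat.pow_mod] at h3
  have h4 : p % 3 < 3 := Nat.mod_lt _ (by norm_num)
  generalize hs : p % 3 = s at h3 h4 ⊢
  interval_cases s <;> simp at h3 ⊢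
  have := hp.two_le
  omega

theorem uarith5 {p e : ℕ} (hF : Fintype.card F = q ^ 2) (hrp : 5 ≠ p) (hmin : IsMinimalFieldFor 5 p e F) :
    (q = p ∧ p % 5 = 4) ∨ (q = p ^ 2 ∧ (p % 5 = 2 ∨ p % 5 = 3)) := by
  have hp := hmin.1
  have hp2 := hp.two_le
  obtain ⟨f, hf0, hq, hdvd, hz, hm⟩ := odd_udata hF (by norm_num) hrp hmin
  have hle : 2 * f ≤ 4 := Nat.le_of_dvd (by norm_num) hdvd
  have hf2 : f ≤ 2 := by omega
  have h4 : p % 5 < 5 := Nat.mod_lt _ (by norm_num)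
  have h1 := hm 1 one_pos (by omega)
  rw [pow_one] at h1
  have h2 : 1 ≤ p ^ 2 := Nat.one_le_pow _ _ hp.pos
  interval_cases f
  · left
    rw [pow_one] at hq
    refine ⟨hq, ?_⟩
    rw [mul_one] at hz
    have h3 : p ^ 2 % 5 = 1 := by omega
    rw [Nat.pow_mod] at h3
    generalize hs : p % 5 = s at h3 h4 ⊢
    interval_cases s <;> simp at h3 ⊢
    omega
  · right
    refine ⟨hq, ?_⟩
    have h5 := hm 2 (by norm_num) (by norm_num)
    have h6 : ¬ p ^ 2 % 5 = 1 := by omega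
    have h7 : 1 ≤ p ^ 4 := Nat.one_le_pow _ _ hp.pos
    have h8 : p ^ 4 % 5 = 1 := by
      norm_num at hz
      omega
    rw [Nat.pow_mod] at h6 h8
    generalize hs : p % 5 = s at h6 h8 h4 ⊢
    interval_cases s <;> simp at h6 h8 ⊢

theorem uarith7 {p e : ℕ} (hF : Fintype.card F = q ^ 2) (hrp : 7 ≠ p) (hmin : IsMinimalFieldFor 7 p e F) :
    (q = p ∧ p % 7 = 6) ∨ (q = p ^ 3 ∧ (p % 7 = 3 ∨ p % 7 = 5)) := by
  have hp := hmin.1
  have hp2 := hp.two_le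
  obtain ⟨f, hf0, hq, hdvd, hz, hm⟩ := odd_udata hF (by norm_num) hrp hmin
  have hle : 2 * f ≤ 6 := Nat.le_of_dvd (by norm_num) hdvd
  have hf2 : f ≤ 3 := by omega
  have h4 : p % 7 < 7 := Nat.mod_lt _ (by norm_num)
  have h1 := hm 1 one_pos (by omega)
  rw [pow_one] at h1
  have h2 : 1 ≤ p ^ 2 := Nat.one_le_pow _ _ hp.pos
  interval_cases f
  · left
    rw [pow_one] at hq
    refine ⟨hq, ?_⟩
    rw [mul_one] at hz
    have h3 : p ^ 2 % 7 = 1 := by omega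
    rw [Nat.pow_mod] at h3
    generalize hs : p % 7 = s at h3 h4 ⊢
    interval_cases s <;> simp at h3 ⊢
    omega
  · norm_num at hdvd
  · right
    refine ⟨hq, ?_⟩
    have h5 := hm 2 (by norm_num) (by norm_num)
    have h5' := hm 3 (by norm_num) (by norm_num)
    have h6 : ¬ p ^ 2 % 7 = 1 := by omega
    have h7 : 1 ≤ p ^ 6 := Nat.one_le_pow _ _ hp.pos
    have h7' : 1 ≤ p ^ 3 := Nat.one_le_pow _ _ hp.pos
    have h6' : ¬ p ^ 3 % 7 = 1 := by omega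
    have h8 : p ^ 6 % 7 = 1 := by
      norm_num at hz
      omega
    rw [Nat.pow_mod] at h6 h8 h6'
    generalize hs : p % 7 = s at h6 h8 h4 h6' ⊢
    interval_cases s <;> simp at h6 h8 h6' ⊢

theorem uarith11 {p e : ℕ} (hF : Fintype.card F = q ^ 2) (hrp : 11 ≠ p) (hmin : IsMinimalFieldFor 11 p e F) :
    (q = p ∧ p % 11 = 10) ∨ (q = p ^ 5 ∧ (p % 11 = 2 ∨ p % 11 = 6 ∨ p % 11 = 7 ∨ p % 11 = 8)) := by
  have hp := hmin.1
  have hp2 := hp.two_le
  obtain ⟨f, hf0, hq, hdvd, hz, hm⟩ := odd_udata hF (by norm_num) hrp hmin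
  have hle : 2 * f ≤ 10 := Nat.le_of_dvd (by norm_num) hdvd
  have hf2 : f ≤ 5 := by omega
  have h4 : p % 11 < 11 := Nat.mod_lt _ (by norm_num)
  have h1 := hm 1 one_pos (by omega)
  rw [pow_one] at h1
  have h2 : 1 ≤ p ^ 2 := Nat.one_le_pow _ _ hp.pos
  interval_cases f
  · left
    rw [pow_one] at hq
    refine ⟨hq, ?_⟩
    rw [mul_one] at hz
    have h3 : p ^ 2 % 11 = 1 := by omega
    rw [Nat.pow_mod] at h3
    generalize hs : p % 11 = s at h3 h4 ⊢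
    interval_cases s <;> simp at h3 ⊢
    omega
  · norm_num at hdvd
  · norm_num at hdvd
  · norm_num at hdvd
  · right
    refine ⟨hq, ?_⟩
    have h5 := hm 2 (by norm_num) (by norm_num)
    have h5' := hm 5 (by norm_num) (by norm_num)
    have h6 : ¬ p ^ 2 % 11 = 1 := by omega
    have h7 : 1 ≤ p ^ 10 := Nat.one_le_pow _ _ hp.pos
    have h7' : 1 ≤ p ^ 5 := Nat.one_le_pow _ _ hp.pos
    have h6' : ¬ p ^ 5 % 11 = 1 := by omega
    have h8 : p ^ 10 % 11 = 1 := by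
      norm_num at hz
      omega
    rw [Nat.pow_mod] at h6 h8 h6'
    generalize hs : p % 11 = s at h6 h8 h4 h6' ⊢
    interval_cases s <;> simp at h6 h8 h6' ⊢

end Cfsg.Agent.Lib.UnNot
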