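import Cfsg.Agent.Lib.FlagSylow
import Cfsg.Agent.Lib.PSUSylow

/-! A hyperbolic basis of the standard hermitian space and the upper unitriangular Sylow subgroup of `SU_n(q)`. -/

set_option autoImplicit false

namespace Cfsg.Agent.Lib.UnCrit

open Matrix
open Cfsg Cfsg.Agent.Lib.ClUnitary Cfsg.Agent.Lib.HermMat Cfsg.Agent.Lib.UnTrans Cfsg.Agent.Lib.UnBridge
open Cfsg.Agent.Lib.PSUAut Cfsg.Agent.Lib.FlagSylow

variable {n : ℕ} {F : Type*} [Field F] {q : ℕ}

/-- the Gram matrix of `b` is antidiagonal -/
def Gram (q : ℕ) (b : Fin n → Fin n → F) : Prop :=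
  ∀ i j : Fin n, hermForm n F q (b i) (b j) = if j = i.rev then 1 else 0

/-- the `i`-th coordinate with respect to `b` -/
def co (q : ℕ) (b : Fin n → Fin n → F) (i : Fin n) (x : Fin n → F) : F := hermForm n F q x (b i.rev)

/-- the matrix with respect to `b` -/
def rm (b : Fin n → Fin n → F) (g : SU n F q) : Matrix (Fin n) (Fin n) F := fun i j => co q b i (g.1.1 *ᵥ b j)

section fin

variable [Fintype F] (hF : Fintype.card F = q ^ 2)

include hF in
theorem exists_gram : ∃ b : Fin n → Fin n → F, Gram q b := by
  classical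
  have hq := two_le_q hF
  have H := herm_HS n hF
  obtain ⟨a, ha⟩ := H.norm (-1) (by rw [map_neg, map_one])
  obtain ⟨t, ht⟩ := H.exists_trace (-1) (by rw [map_neg, map_one])
  have hs : ∀ i j : Fin n, hermForm n F q (Pi.single i 1) (Pi.single j 1) = if i = j then 1 else 0 := by
    intro i j
    rw [hermForm_single _ (by omega)]
    by_cases h : i = j
    · subst h; simp
    · simp [h]
  let v : Fin n → Fin n → F := fun i => Pi.single i 1 + a • Pi.single i.rev 1
  let b : Fin n → Fin n → F := fun i => if i < i.rev then v i else if i = i.rev then Pi.single i 1 else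
    Pi.single i.rev 1 + t • v i.rev
  have hlt : ∀ i : Fin n, i < i.rev → ¬ i.rev < i.rev.rev := fun i hi => by rw [Fin.rev_rev]; exact not_lt.2 hi.le
  have hne : ∀ i : Fin n, i < i.rev → i ≠ i.rev := fun i hi => hi.ne
  have b1 : ∀ i : Fin n, i < i.rev → b i = Pi.single i 1 + a • Pi.single i.rev 1 := fun i hi => if_pos hi
  have b2 : ∀ i : Fin n, i = i.rev → b i = Pi.single i 1 := fun i hi => by
    show (if i < i.rev then v i else if i = i.rev then Pi.single i 1 else Pi.single i.rev 1 + t • v i.rev) = _
    rw [if_neg (by rw [← hi]; exact lt_irrefl i), if_pos hi]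
  have b3 : ∀ i : Fin n, i.rev < i → b i = Pi.single i.rev 1 + t • (Pi.single i.rev 1 + a • Pi.single i 1) := fun i hi => by
    show (if i < i.rev then v i else if i = i.rev then Pi.single i 1 else Pi.single i.rev 1 + t • v i.rev) = _
    rw [if_neg (not_lt.2 hi.le), if_neg hi.ne']
    show _ + t • (_ + a • Pi.single i.rev.rev 1) = _
    rw [Fin.rev_rev]
  refine ⟨b, fun i j => ?_⟩
  -- symmetric treatment
  rcases lt_trichotomy i i.rev with hi | hi | hi
  · rw [b1 i hi]
    rcases lt_trichotomy j j.rev with hj | hj | hj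
    · rw [b1 j hj]
      have n1 : j ≠ i.rev := by
        rintro rfl; rw [Fin.rev_rev] at hj; exact absurd hj (not_lt.2 hi.le)
      have n2 : i ≠ j.rev := fun h => n1 (by rw [h, Fin.rev_rev])
      simp only [H.add_left, H.add_right, H.smul_left, H.smul_right, hs, Fin.rev_inj, if_neg n1, if_neg n2,
        if_neg (Ne.symm n1), if_neg (Ne.symm n2)]
      split_ifs
      · linear_combination ha
      · ring
    · rw [b2 j hj]
      have n1 : i ≠ j := by rintro rfl; exact hi.ne hj
      have n2 : i.rev ≠ j := by rintro h; rw [hj, Fin.rev_inj] at h; exact n1 h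
      simp only [H.add_left, H.smul_left, hs, if_neg n1, if_neg n2, if_neg (Ne.symm n2)]
      ring
    · rw [b3 j hj]
      have n1 : i ≠ j := by rintro rfl; exact absurd hj (not_lt.2 hi.le)
      have n2 : i.rev ≠ j.rev := fun h => n1 (Fin.rev_injective h)
      simp only [H.add_left, H.add_right, H.smul_left, H.smul_right, hs, if_neg n1, if_neg n2]
      by_cases h : j = i.rev
      · subst h
        simp only [Fin.rev_rev, if_pos]
        linear_combination (sig hF t) * ha
      · have h1 : i ≠ j.rev := fun h' => h (by rw [h', Fin.rev_rev])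
        simp only [if_neg h, if_neg h1, if_neg (Ne.symm h)]
        ring
  · rw [b2 i hi]
    rcases lt_trichotomy j j.rev with hj | hj | hj
    · rw [b1 j hj]
      have n1 : i ≠ j := by rintro rfl; exact hj.ne hi
      have n2 : i ≠ j.rev := by rintro h; rw [hi, Fin.rev_inj] at h; exact n1 h
      have n3 : j ≠ i.rev := by rw [← hi]; exact n1.symm
      simp only [H.add_right, H.smul_right, hs, if_neg n1, if_neg n2, if_neg n3]
      ring
    · rw [b2 j hj, hs, ← hi]
      by_cases h : i = j
      · rw [if_pos h, if_pos h.symm]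
      · rw [if_neg h, if_neg (Ne.symm h)]
    · rw [b3 j hj]
      have n1 : i ≠ j := by rintro rfl; exact hj.ne' hi
      have n2 : i ≠ j.rev := by rintro h; rw [hi, Fin.rev_inj] at h; exact n1 h
      have n3 : j ≠ i.rev := by rw [← hi]; exact n1.symm
      simp only [H.add_right, H.smul_right, hs, if_neg n1, if_neg n2, if_neg n3]
      ring
  · rw [b3 i hi]
    rcases lt_trichotomy j j.rev with hj | hj | hj
    · rw [b1 j hj]
      have n1 : i ≠ j := by rintro rfl; exact absurd hi (not_lt.2 hj.le)
      have n2 : i.rev ≠ j.rev := fun h => n1 (Fin.rev_injective h)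
      simp only [H.add_left, H.add_right, H.smul_left, H.smul_right, hs, if_neg n1, if_neg n2]
      by_cases h : j = i.rev
      · subst h
        simp only [Fin.rev_rev, if_pos]
        linear_combination t * ha
      · have h1 : i ≠ j.rev := fun h' => h (by rw [h', Fin.rev_rev])
        simp only [if_neg h, if_neg h1, if_neg (Ne.symm h)]
        ring
    · rw [b2 j hj]
      have n1 : i ≠ j := by rintro rfl; exact hi.ne' hj
      have n2 : i.rev ≠ j := by rintro h; rw [hj, Fin.rev_inj] at h; exact n1 h
      simp only [H.add_left, H.smul_left, hs, if_neg n1, if_neg n2, if_neg (Ne.symm n2)]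
      ring
    · rw [b3 j hj]
      have n1 : j ≠ i.rev := by
        rintro rfl; rw [Fin.rev_rev] at hj; exact absurd hj (not_lt.2 hi.le)
      have n2 : i ≠ j.rev := fun h => n1 (by rw [h, Fin.rev_rev])
      simp only [H.add_left, H.add_right, H.smul_left, H.smul_right, hs, Fin.rev_inj, if_neg n1, if_neg n2,
        if_neg (Ne.symm n1), if_neg (Ne.symm n2), map_add, map_one, mul_one]
      split_ifs
      · linear_combination (t * sig hF t) * ha + ht
      · ring

variable {b : Fin n → Fin n → F} (hb : Gram q b)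
include hF hb

theorem co_b (i j : Fin n) : co q b i (b j) = if i = j then 1 else 0 := by
  unfold co
  rw [hb]
  by_cases h : i = j
  · rw [h, if_pos rfl, if_pos rfl]
  · rw [if_neg h, if_neg (fun h' => h (Fin.rev_injective h'))]

omit hb in
theorem co_add (i : Fin n) (x y : Fin n → F) : co q b i (x + y) = co q b i x + co q b i y := (herm_HS n hF).add_left _ _ _

omit hb in
theorem co_sub (i : Fin n) (x y : Fin n → F) : co q b i (x - y) = co q b i x - co q b i y := (herm_HS n hF).sub_left _ _ _

omit hb in
theorem co_neg (i : Fin n) (x : Fin n → F) : co q b i (-x) = - co q b i x := (herm_HS n hF).neg_left _ _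

omit hb in
theorem co_smul (i : Fin n) (c : F) (x : Fin n → F) : co q b i (c • x) = c * co q b i x := (herm_HS n hF).smul_left _ _ _

omit hb in
theorem co_zero (i : Fin n) : co q b i 0 = 0 := (herm_HS n hF).zero_left _

omit hb in
theorem co_sum (i : Fin n) {ι : Type*} (s : Finset ι) (x : ι → Fin n → F) :
    co q b i (∑ k ∈ s, x k) = ∑ k ∈ s, co q b i (x k) := by
  classical
  induction s using Finset.induction_on with
  | empty => rw [Finset.sum_empty, Finset.sum_empty, co_zero hF]
  | insert a s ha ih => rw [Finset.sum_insert ha, Finset.sum_insert ha, co_add hF, ih]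

omit [Fintype F] hF hb in
theorem form_b (i : Fin n) (x : Fin n → F) : hermForm n F q x (b i) = co q b i.rev x := by
  unfold co; rw [Fin.rev_rev]

omit hb in
theorem form_b' (i : Fin n) (x : Fin n → F) : hermForm n F q (b i) x = sig hF (co q b i.rev x) := by
  unfold co; rw [Fin.rev_rev, ← (herm_HS n hF).herm]

theorem co_lincomb (w : Fin n → F) (i : Fin n) : co q b i (∑ j, w j • b j) = w i := by
  rw [co_sum hF, Finset.sum_eq_single i]
  · rw [co_smul hF, co_b hF hb, if_pos rfl, mul_one]
  · intro j _ hj
    rw [co_smul hF, co_b hF hb, if_neg hj.symm, mul_zero]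
  · intro h; exact absurd (Finset.mem_univ i) h

theorem linInd : LinearIndependent F b := by
  rw [Fintype.linearIndependent_iff]
  intro g hg i
  rw [← co_lincomb hF hb g i, hg, co_zero hF]

theorem expand (x : Fin n → F) : x = ∑ i, co q b i x • b i := by
  rcases isEmpty_or_nonempty (Fin n) with hemp | hne
  · exact Subsingleton.elim _ _
  have h1 : Submodule.span F (Set.range b) = ⊤ :=
    (linInd hF hb).span_eq_top_of_card_eq_finrank (by rw [Module.finrank_fin_fun, Fintype.card_fin])
  have h2 : x ∈ Submodule.span F (Set.range b) := by rw [h1]; trivial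
  obtain ⟨c, hc⟩ := (Submodule.mem_span_range_iff_exists_fun F).1 h2
  rw [← hc]
  refine Finset.sum_congr rfl fun i _ => ?_
  rw [co_lincomb hF hb]

theorem ext_co {x y : Fin n → F} (h : ∀ i, co q b i x = co q b i y) : x = y := by
  rw [expand hF hb x, expand hF hb y]
  exact Finset.sum_congr rfl fun i _ => by rw [h]

theorem U_ext_b {s t : SU n F q} (h : ∀ i, s.1.1 *ᵥ b i = t.1.1 *ᵥ b i) : s = t := by
  apply U_ext
  intro x
  rw [expand hF hb x, Matrix.mulVec_sum, Matrix.mulVec_sum]
  refine Finset.sum_congr rfl fun i _ => ?_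
  rw [Matrix.mulVec_smul, Matrix.mulVec_smul, h]

theorem form_expand (x y : Fin n → F) : hermForm n F q x y = ∑ i, co q b i x * sig hF (co q b i.rev y) := by
  have H := herm_HS n hF
  have h1 : ∀ (s : Finset (Fin n)) (c : Fin n → F), hermForm n F q (∑ i ∈ s, c i • b i) y =
      ∑ i ∈ s, c i * hermForm n F q (b i) y := by
    classical
    intro s c
    induction s using Finset.induction_on with
    | empty => rw [Finset.sum_empty, Finset.sum_empty, H.zero_left]
    | insert a s ha ih => rw [Finset.sum_insert ha, Finset.sum_insert ha, H.add_left, H.smul_left, ih]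
  conv_lhs => rw [expand hF hb x]
  rw [h1]
  exact Finset.sum_congr rfl fun i _ => by rw [form_b' hF]

/-- `rm` as a homomorphism -/
noncomputable def rho : SU n F q →* Matrix (Fin n) (Fin n) F where
  toFun := rm b
  map_one' := by
    ext i j
    show co q b i ((1 : SU n F q).1.1 *ᵥ b j) = _
    rw [U_one_mulVec, co_b hF hb, Matrix.one_apply]
  map_mul' g h := by
    ext i j
    show co q b i ((g * h).1.1 *ᵥ b j) = _
    rw [U_mul_mulVec, Matrix.mul_apply]
    conv_lhs => rw [expand hF hb (h.1.1 *ᵥ b j), Matrix.mulVec_sum, co_sum hF]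
    refine Finset.sum_congr rfl fun k _ => ?_
    rw [Matrix.mulVec_smul, co_smul hF, mul_comm]
    rfl

theorem rho_apply (g : SU n F q) (i j : Fin n) : rho hF hb g i j = co q b i (g.1.1 *ᵥ b j) := rfl

theorem rho_injective : Function.Injective (rho hF hb) := by
  intro g h hgh
  apply U_ext_b hF hb
  intro j
  apply ext_co hF hb
  intro i
  rw [← rho_apply hF hb, ← rho_apply hF hb, hgh]

theorem rho_mulVec (g : SU n F q) (w : Fin n → F) (i : Fin n) :
    (rho hF hb g *ᵥ w) i = co q b i (g.1.1 *ᵥ (∑ j, w j • b j)) := by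
  rw [Matrix.mulVec_sum, co_sum hF]
  show ∑ j, rho hF hb g i j * w j = _
  refine Finset.sum_congr rfl fun j _ => ?_
  rw [Matrix.mulVec_smul, co_smul hF, mul_comm, rho_apply]

/-- the upper unitriangular subgroup -/
def U : Subgroup (SU n F q) where
  carrier := {g | UniTri (rho hF hb g)}
  mul_mem' := fun {a c} ha hc => by
    show UniTri (rho hF hb (a * c))
    rw [map_mul]; exact UniTri.mul ha hc
  one_mem' := by
    show UniTri (rho hF hb 1)
    rw [map_one]; exact uniTri_one
  inv_mem' := fun {a} ha => by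
    have h1 : a⁻¹ = a ^ (orderOf a - 1) := by
      rw [inv_eq_iff_mul_eq_one, ← pow_succ', Nat.sub_add_cancel (orderOf_pos a), pow_orderOf_eq_one]
    show UniTri (rho hF hb a⁻¹)
    rw [h1, map_pow]; exact UniTri.pow ha _

theorem mem_U {g : SU n F q} : g ∈ U hF hb ↔ UniTri (rho hF hb g) := Iff.rfl

omit [Fintype F] hF hb in
/-- `x` is in the span of the first `i` basis vectors -/
def Lt (q : ℕ) (b : Fin n → Fin n → F) (i : ℕ) (x : Fin n → F) : Prop := ∀ l : Fin n, i ≤ l.val → co q b l x = 0

/-- membership in terms of the images of the basis vectors -/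
theorem mem_U_iff {g : SU n F q} : g ∈ U hF hb ↔ ∀ j : Fin n, Lt q b j.val (g.1.1 *ᵥ b j - b j) := by
  rw [mem_U]
  constructor
  · intro h j l hl
    rw [co_sub hF, ← rho_apply hF hb, h l j hl, co_b hF hb, sub_self]
  · intro h i j hij
    have h1 := h j i hij
    rw [co_sub hF, co_b hF hb, sub_eq_zero] at h1
    rw [rho_apply, h1]

omit hb in
theorem Lt.add {i : ℕ} {x y : Fin n → F} (hx : Lt q b i x) (hy : Lt q b i y) : Lt q b i (x + y) := fun l hl => by
  rw [co_add hF, hx l hl, hy l hl, add_zero]

omit hb in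
theorem Lt.sub {i : ℕ} {x y : Fin n → F} (hx : Lt q b i x) (hy : Lt q b i y) : Lt q b i (x - y) := fun l hl => by
  rw [co_sub hF, hx l hl, hy l hl, sub_zero]

omit hb in
theorem Lt.smul {i : ℕ} {x : Fin n → F} (c : F) (hx : Lt q b i x) : Lt q b i (c • x) := fun l hl => by
  rw [co_smul hF, hx l hl, mul_zero]

omit hb in
theorem Lt.neg {i : ℕ} {x : Fin n → F} (hx : Lt q b i x) : Lt q b i (-x) := fun l hl => by
  rw [co_neg hF, hx l hl, neg_zero]

omit hb in
theorem lt_zero (i : ℕ) : Lt q b i 0 := fun l _ => co_zero hF l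

omit [Fintype F] hF hb in
theorem Lt.mono {i j : ℕ} {x : Fin n → F} (hx : Lt q b i x) (hij : i ≤ j) : Lt q b j x := fun l hl => hx l (hij.trans hl)

theorem lt_b {i : Fin n} {j : ℕ} (h : i.val < j) : Lt q b j (b i) := fun l hl => by
  rw [co_b hF hb, if_neg]
  intro h'
  rw [h'] at hl
  omega

/-- vectors in complementary positions are perpendicular -/
theorem Lt.form {i j : ℕ} {x y : Fin n → F} (hx : Lt q b i x) (hy : Lt q b j y) (hij : i + j ≤ n) :
    hermForm n F q x y = 0 := by
  rw [form_expand hF hb]
  refine Finset.sum_eq_zero fun l _ => ?_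
  by_cases h : i ≤ l.val
  · rw [hx l h, zero_mul]
  · rw [hy l.rev (by rw [Fin.val_rev]; omega), map_zero, mul_zero]

theorem rE_mem_U {i j : ℕ} {y u : Fin n → F} {c : F} (hy : Lt q b i y) (hu : Lt q b j u) (hij : i + j ≤ n)
    (hc : c = 0 ∨ 2 * i ≤ n) (hC : Cond hF y u c) : rE hF y u c ∈ U hF hb := by
  rw [mem_U_iff]
  intro l
  have h1 : (rE hF y u c).1.1 *ᵥ b l - b l = hermForm n F q (b l) y • u - hermForm n F q (b l) u • y +
      (c * hermForm n F q (b l) y) • y := by
    rw [rE_mulVec hF hC]; abel
  rw [h1]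
  have e1 : ∀ {i j : ℕ} {y u : Fin n → F} (c : F), Lt q b i y → Lt q b j u → i + j ≤ n →
      Lt q b l.val ((c * hermForm n F q (b l) y) • u) := by
    intro i j y u c hy hu hij
    by_cases h : j ≤ l.val
    · exact (hu.mono h).smul hF _
    · rw [form_b' hF, hy l.rev (by rw [Fin.val_rev]; omega), map_zero, mul_zero, zero_smul]
      exact lt_zero hF _
  have e2 := e1 1 hy hu hij
  have e3 := e1 1 hu hy (by omega)
  rw [one_mul] at e2 e3
  refine (e2.sub hF e3).add hF ?_
  rcases hc with rfl | hc
  · rw [zero_mul, zero_smul]; exact lt_zero hF _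
  · exact e1 c hy hy (by omega)

theorem tU_mem_U {i : ℕ} {y : Fin n → F} {a : F} (hy : Lt q b i y) (hi : 2 * i ≤ n) (ha : a + sig hF a = 0) :
    tU hF a y ∈ U hF hb :=
  rE_mem_U hF hb (i := i) (j := i) hy (lt_zero hF _) (by omega) (Or.inr hi) (cond_zero hF (hy.form hF hb hy (by omega)) ha)

theorem flagFix : FlagFix (rho hF hb) (U hF hb) := by
  have H := herm_HS n hF
  intro i w _ hfix
  set x := ∑ j, w j • b j with hx
  have hw : ∀ j, co q b j x = w j := fun j => co_lincomb hF hb w j
  -- the condition on `x`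
  have hfix' : ∀ u ∈ U hF hb, ∀ j, i ≤ j → co q b j (u.1.1 *ᵥ x - x) = 0 := by
    intro u hu j hj
    have := hfix u hu j hj
    rw [rho_mulVec hF hb, ← hx, ← hw j] at this
    rw [co_sub hF, this, sub_self]
  -- the case of a position after the middle one
  have hmid : ∀ j k : Fin n, i < j → k.val + 1 = j.val → k = k.rev → w j = 0 := by
    intro j k hij hkj hk
    have hk' : k.val = n - 1 - k.val := by
      have := congrArg Fin.val hk
      rw [Fin.val_rev] at this; omega
    have hjr : j.rev.val = n - 1 - j.val := by rw [Fin.val_rev]; omega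
    have hj1 := j.2
    have h0 : hermForm n F q (b j.rev) (b j.rev) = 0 := by
      rw [hb, if_neg]; intro h; have := congrArg Fin.val h; rw [Fin.rev_rev] at this; omega
    have h1 : hermForm n F q (b k) (b j.rev) = 0 := by
      rw [hb, if_neg]; intro h; have := congrArg Fin.val h; rw [← hk] at this; omega
    obtain ⟨c, hc⟩ := cond_exists hF h0 h1
    have hU : rE hF (b j.rev) (b k) c ∈ U hF hb := by
      refine rE_mem_U hF hb (i := j.rev.val + 1) (j := k.val + 1) (lt_b hF hb (by omega)) (lt_b hF hb (by omega))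
        (by omega) (Or.inr (by omega)) hc
    have h2 := hfix' _ hU k (by show i.val ≤ k.val; have : i.val < j.val := hij; omega)
    have h3 : (rE hF (b j.rev) (b k) c).1.1 *ᵥ x - x = co q b j x • b k - co q b k x • b j.rev + (c * co q b j x) • b j.rev := by
      rw [rE_mulVec hF hc, form_b, form_b, Fin.rev_rev, ← hk]; abel
    have hkj' : k ≠ j.rev := by intro h; have := congrArg Fin.val h; omega
    rw [h3, co_add hF, co_sub hF, co_smul hF, co_smul hF, co_smul hF, co_b hF hb, co_b hF hb, if_pos rfl, if_neg hkj', hw] at h2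
    linear_combination h2
  intro j hij
  have hj0 : 0 < j.val := lt_of_le_of_lt (Nat.zero_le _) hij
  let k : Fin n := ⟨j.val - 1, by have := j.2; omega⟩
  have hk : k.val = j.val - 1 := rfl
  have hik : i ≤ k := by show i.val ≤ k.val; have : i.val < j.val := hij; omega
  have hj1 := j.2
  have hjr : j.rev.val = n - 1 - j.val := by rw [Fin.val_rev]; omega
  have hkr : k.rev.val = n - 1 - k.val := by rw [Fin.val_rev]; omega
  by_cases c1 : k = k.rev
  · exact hmid j k hij (by omega) c1
  by_cases c2 : j = j.rev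
  · -- the middle position
    have c2' := congrArg Fin.val c2
    have h0 : hermForm n F q (b k) (b k) = 0 := by
      rw [hb, if_neg c1]
    have h1 : hermForm n F q (b j) (b k) = 0 := by
      rw [hb, if_neg]; intro h; have := congrArg Fin.val h; omega
    obtain ⟨c, hc⟩ := cond_exists hF h0 h1
    have hU : rE hF (b k) (b j) c ∈ U hF hb :=
      rE_mem_U hF hb (i := k.val + 1) (j := j.val + 1) (lt_b hF hb (by omega)) (lt_b hF hb (by omega))
        (by omega) (Or.inr (by omega)) hc
    have h2 := hfix' _ hU k hik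
    have h3 : (rE hF (b k) (b j) c).1.1 *ᵥ x - x = co q b k.rev x • b j - co q b j x • b k + (c * co q b k.rev x) • b k := by
      rw [rE_mulVec hF hc, form_b, form_b, ← c2]; abel
    have h4 : w k.rev = 0 := by
      refine hmid k.rev j ?_ (by omega) c2
      show i.val < k.rev.val
      have : i.val ≤ k.val := hik
      omega
    have hkj' : k ≠ j := by intro h; have := congrArg Fin.val h; omega
    rw [h3, co_add hF, co_sub hF, co_smul hF, co_smul hF, co_smul hF, co_b hF hb, co_b hF hb, if_pos rfl, if_neg hkj', hw,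
      hw, h4] at h2
    linear_combination -h2
  by_cases c3 : j = k.rev
  · have c3' := congrArg Fin.val c3
    obtain ⟨a, ha0, ha⟩ := H.exists_tr0
    have hU : tU hF a (b k) ∈ U hF hb := tU_mem_U hF hb (i := k.val + 1) (lt_b hF hb (by omega)) (by omega) ha
    have h0 : hermForm n F q (b k) (b k) = 0 := by rw [hb, if_neg c1]
    have h2 := hfix' _ hU k hik
    have h3 : (tU hF a (b k)).1.1 *ᵥ x - x = (a * co q b k.rev x) • b k := by
      rw [tU_mulVec hF h0 ha, form_b]; abel
    rw [h3, co_smul hF, co_b hF hb, if_pos rfl, mul_one, ← c3, hw] at h2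
    exact (mul_eq_zero.1 h2).resolve_left ha0
  · have h0 : hermForm n F q (b k) (b k) = 0 := by rw [hb, if_neg c1]
    have h1 : hermForm n F q (b j.rev) (b j.rev) = 0 := by
      rw [hb, if_neg]; intro h; rw [Fin.rev_rev] at h; exact c2 h.symm
    have h2 : hermForm n F q (b j.rev) (b k) = 0 := by
      rw [hb, if_neg]; intro h; rw [Fin.rev_rev] at h; have := congrArg Fin.val h; omega
    have hc : Cond hF (b k) (b j.rev) 0 := ⟨h0, h2, by rw [map_zero, h1, add_zero, add_zero]⟩
    have hU : rE hF (b k) (b j.rev) 0 ∈ U hF hb :=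
      rE_mem_U hF hb (i := k.val + 1) (j := j.rev.val + 1) (lt_b hF hb (by omega)) (lt_b hF hb (by omega))
        (by omega) (Or.inl rfl) hc
    have h3 := hfix' _ hU k hik
    have h4 : (rE hF (b k) (b j.rev) 0).1.1 *ᵥ x - x = co q b k.rev x • b j.rev - co q b j x • b k := by
      rw [rE_mulVec hF hc, form_b, form_b, Fin.rev_rev, zero_mul, zero_smul]; abel
    have hkj' : k ≠ j.rev := by intro h; exact c3 (by rw [h, Fin.rev_rev])
    rw [h4, co_sub hF, co_smul hF, co_smul hF, co_b hF hb, co_b hF hb, if_pos rfl, if_neg hkj', hw, hw] at h3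
    linear_combination -h3

theorem exists_sylow_U {p : ℕ} [Fact p.Prime] [CharP F p] : ∃ P : Sylow p (SU n F q), (P : Subgroup (SU n F q)) = U hF hb :=
  exists_sylow (p := p) (rho hF hb) (rho_injective hF hb) (U hF hb) (fun _ => Iff.rfl) (flagFix hF hb)

end fin

end Cfsg.Agent.Lib.UnCrit
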