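import Cfsg.Agent.Lib.UnCrit

/-! Strongly closed subgroups of the Sylow subgroup of `SU_n(q)` in the natural characteristic. -/

set_option autoImplicit false

namespace Cfsg.Agent.Lib.UnCrit

open Matrix
open Cfsg Cfsg.Agent.Lib.ClUnitary Cfsg.Agent.Lib.HermMat Cfsg.Agent.Lib.UnTrans Cfsg.Agent.Lib.UnBridge
open Cfsg.Agent.Lib.PSUAut Cfsg.Agent.Lib.FlagSylow
open Cfsg.Agent.Lib.ClUnSimple (suIso correct)

variable {n : ℕ} {F : Type*} [Field F] {q : ℕ}

section fin

variable [Fintype F] (hF : Fintype.card F = q ^ 2)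
include hF

theorem tU_zero_right {a : F} (ha : a + sig hF a = 0) : tU hF a (0 : Fin n → F) = 1 := by
  have H := herm_HS n hF
  apply U_ext
  intro x
  rw [tU_mulVec hF (H.zero_left _) ha, smul_zero, add_zero, U_one_mulVec]

theorem rE_zero_left {u : Fin n → F} {c : F} (hC : Cond hF 0 u c) : rE hF 0 u c = 1 := by
  apply U_ext
  intro x
  rw [rE_mulVec hF hC, (herm_HS n hF).zero_right, smul_zero, smul_zero, zero_smul, add_zero, sub_zero, add_zero, U_one_mulVec]

/-- the element interchanging `e` and `f` up to scalars -/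
noncomputable def nn (hF : Fintype.card F = q ^ 2) (a : F) (e f : Fin n → F) : SU n F q :=
  tU hF a e * tU hF (-a⁻¹) f * tU hF a e

theorem tr_neg_inv {a : F} (ha : a + sig hF a = 0) : -a⁻¹ + sig hF (-a⁻¹) = 0 := by
  have h2 : sig hF a = -a := by linear_combination ha
  rw [map_neg, map_inv₀, h2, inv_neg, neg_neg, neg_add_cancel]

variable {e f : Fin n → F} (he : hermForm n F q e e = 0) (hf : hermForm n F q f f = 0) (hef : hermForm n F q e f = 1)

include he hf hef

theorem nn_e {a : F} (ha : a + sig hF a = 0) (ha0 : a ≠ 0) : (nn hF a e f).1.1 *ᵥ e = (-a⁻¹) • f := by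
  have hfe : hermForm n F q f e = 1 := by rw [(herm_HS n hF).herm, hef, map_one]
  have e1 : (tU hF a e).1.1 *ᵥ e = e := by rw [tU_mulVec hF he ha, he]; simp
  have e2 : (tU hF (-a⁻¹) f).1.1 *ᵥ e = e + (-a⁻¹) • f := by rw [tU_mulVec hF hf (tr_neg_inv hF ha), hef, mul_one]
  have e3 : (tU hF a e).1.1 *ᵥ f = f + a • e := by rw [tU_mulVec hF he ha, hfe, mul_one]
  unfold nn
  rw [U_mul_mulVec, U_mul_mulVec, e1, e2, Matrix.mulVec_add, Matrix.mulVec_smul, e1, e3, smul_add, smul_smul,
    neg_mul, inv_mul_cancel₀ ha0]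
  module

theorem nn_f {a : F} (ha : a + sig hF a = 0) (ha0 : a ≠ 0) : (nn hF a e f).1.1 *ᵥ f = a • e := by
  have hfe : hermForm n F q f e = 1 := by rw [(herm_HS n hF).herm, hef, map_one]
  have e1 : (tU hF a e).1.1 *ᵥ e = e := by rw [tU_mulVec hF he ha, he]; simp
  have e2 : (tU hF (-a⁻¹) f).1.1 *ᵥ e = e + (-a⁻¹) • f := by rw [tU_mulVec hF hf (tr_neg_inv hF ha), hef, mul_one]
  have e3 : (tU hF a e).1.1 *ᵥ f = f + a • e := by rw [tU_mulVec hF he ha, hfe, mul_one]
  have e4 : (tU hF (-a⁻¹) f).1.1 *ᵥ f = f := by rw [tU_mulVec hF hf (tr_neg_inv hF ha), hf]; simp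
  have e5 : f + a • (e + (-a⁻¹) • f) = a • e := by
    rw [smul_add, smul_smul, mul_neg, mul_inv_cancel₀ ha0]; module
  unfold nn
  rw [U_mul_mulVec, U_mul_mulVec, e3, Matrix.mulVec_add, Matrix.mulVec_smul, e4, e2, e5, Matrix.mulVec_smul, e1]

omit hef in
theorem nn_w {a : F} (ha : a + sig hF a = 0) {w : Fin n → F}
    (h1 : hermForm n F q w e = 0) (h2 : hermForm n F q w f = 0) : (nn hF a e f).1.1 *ᵥ w = w := by
  have e1 : (tU hF a e).1.1 *ᵥ w = w := by rw [tU_mulVec hF he ha, h1]; simp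
  have e2 : (tU hF (-a⁻¹) f).1.1 *ᵥ w = w := by rw [tU_mulVec hF hf (tr_neg_inv hF ha), h2]; simp
  unfold nn
  rw [U_mul_mulVec, U_mul_mulVec, e1, e2, e1]

end fin

section fin

variable [Fintype F] (hF : Fintype.card F = q ^ 2) {b : Fin n → Fin n → F} (hb : Gram q b)
include hF hb

theorem b_ne (i : Fin n) : b i ≠ 0 := by
  intro h
  have := co_b hF hb i i
  rw [h, co_zero hF, if_pos rfl] at this
  exact zero_ne_one this

/-- `SU` is transitive on nonzero isotropic vectors -/
theorem trans_b0 (hn : 4 ≤ n) {z : Fin n → F} (hz0 : z ≠ 0) (hz : hermForm n F q z z = 0) :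
    ∃ g : SU n F q, g.1.1 *ᵥ z = b ⟨0, by omega⟩ := by
  have hne : ∀ i j : Fin n, i.val + j.val ≠ n - 1 → hermForm n F q (b i) (b j) = 0 := by
    intro i j h
    rw [hb, if_neg]
    rintro rfl
    rw [Fin.val_rev] at h
    have := i.2
    omega
  obtain ⟨g, hg⟩ := exists_map hF hz0 (b_ne hF hb ⟨0, by omega⟩)
    (hz.trans (hne ⟨0, by omega⟩ ⟨0, by omega⟩ (by show 0 + 0 ≠ n - 1; omega)).symm)
  obtain ⟨g', hg', -, -, hfix⟩ := correct hF g.2 (z := b ⟨1, by omega⟩) (z' := b (Fin.rev ⟨1, by omega⟩))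
    (hne _ _ (by show 1 + 1 ≠ n - 1; omega)) (hne _ _ (by rw [Fin.val_rev]; show n - (1 + 1) + (n - (1 + 1)) ≠ n - 1; omega))
    (by rw [hb, if_pos rfl])
  refine ⟨(suIso n F q).symm ⟨g' * g, hg'⟩, ?_⟩
  rw [← Cfsg.Agent.Lib.ClUnSimple.suIso_apply, MulEquiv.apply_symm_apply]
  show g' ((g : (Fin n → F) ≃ₗ[F] (Fin n → F)) z) = _
  rw [hg]
  exact hfix _ (hne _ _ (by show 0 + 1 ≠ n - 1; omega)) (hne _ _ (by rw [Fin.val_rev]; show 0 + (n - (1 + 1)) ≠ n - 1; omega))

theorem QU_le_U (hn : 2 ≤ n) : QU q (b ⟨0, by omega⟩) ≤ U hF hb := by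
  intro s hs
  have h00 : hermForm n F q (b ⟨0, by omega⟩) (b ⟨0, by omega⟩) = 0 := by
    rw [hb, if_neg]
    intro h
    have := congrArg Fin.val h
    rw [Fin.val_rev] at this
    simp only at this
    omega
  have hrr : hermForm n F q (b (Fin.rev ⟨0, by omega⟩)) (b (Fin.rev ⟨0, by omega⟩)) = 0 := by
    rw [hb, if_neg]
    intro h
    have := congrArg Fin.val h
    rw [Fin.rev_rev, Fin.val_rev] at this
    simp only at this
    omega
  obtain ⟨u, a, hC, rfl, -⟩ := exists_rE_of_mem_QU hF h00 hrr (by rw [hb, if_pos rfl]) hs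
  refine rE_mem_U hF hb (i := 1) (j := n - 1) (lt_b hF hb (by show 0 < 1; omega)) ?_ (by omega) (Or.inr (by omega)) hC
  intro l hl
  have h1 : l = Fin.rev ⟨0, by omega⟩ := by
    apply Fin.ext
    rw [Fin.val_rev]
    show l.val = n - (0 + 1)
    have := l.2
    omega
  rw [h1, ← form_b]
  exact hC.2.1

theorem U_fix_zero (hn : 0 < n) {g : SU n F q} (hg : g ∈ U hF hb) : g.1.1 *ᵥ b ⟨0, hn⟩ = b ⟨0, hn⟩ := by
  apply ext_co hF hb
  intro i
  have := (mem_U_iff hF hb).1 hg ⟨0, hn⟩ i (Nat.zero_le _)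
  rw [co_sub hF] at this
  exact sub_eq_zero.1 this

variable {T : Subgroup (SU n F q)} (hT : T ≤ U hF hb)
  (hc : ∀ x ∈ T, ∀ g : SU n F q, g * x * g⁻¹ ∈ U hF hb → g * x * g⁻¹ ∈ T)

include hc in
/-- elements of the unipotent radicals -/
theorem mem_of_QU (hn : 4 ≤ n) (hQ : QU q (b ⟨0, by omega⟩) ≤ T) {y : Fin n → F} (hy0 : y ≠ 0)
    (hy : hermForm n F q y y = 0) {s : SU n F q} (hs : s ∈ QU q y) (hsU : s ∈ U hF hb) : s ∈ T := by
  obtain ⟨g, hg⟩ := trans_b0 hF hb hn hy0 hy
  have h1 : g * s * g⁻¹ ∈ T := by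
    apply hQ
    rw [← hg]
    have hginv : (g⁻¹).1.1 *ᵥ (g.1.1 *ᵥ y) = y := U_inv_mulVec g y
    refine ⟨?_, fun x hx => ?_⟩
    · rw [U_mul_mulVec, U_mul_mulVec, hginv, hs.1]
    · have h2 : hermForm n F q ((g⁻¹).1.1 *ᵥ x) y = 0 := by
        rw [← U_form g, U_mulVec_inv, hx]
      obtain ⟨c, hc'⟩ := hs.2 _ h2
      exact ⟨c, by rw [U_mul_mulVec, U_mul_mulVec, hc', Matrix.mulVec_add, Matrix.mulVec_smul, U_mulVec_inv]⟩
  have h2 := hc _ h1 g⁻¹
  have h3 : g⁻¹ * (g * s * g⁻¹) * g⁻¹⁻¹ = s := by group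
  rw [h3] at h2
  exact h2 hsU

include hc in
/-- `U` is generated by such elements -/
theorem U_le_of_QU (hn : 4 ≤ n) (hQ : QU q (b ⟨0, by omega⟩) ≤ T) : U hF hb ≤ T := by
  have H := herm_HS n hF
  have key : ∀ k : ℕ, k ≤ n → ∀ g ∈ U hF hb, (∀ l : Fin n, l.val + k < n → g.1.1 *ᵥ b l = b l) → g ∈ T := by
    intro k
    induction k with
    | zero =>
      intro _ g _ hg
      have : g = 1 := U_ext_b hF hb fun i => by rw [hg i (by have := i.2; omega), U_one_mulVec]
      rw [this]; exact T.one_mem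
    | succ k ih =>
      intro hk g hg hfix
      let j : Fin n := ⟨n - (k + 1), by omega⟩
      have hj : j.val = n - (k + 1) := rfl
      have hjr : j.rev.val = k := by rw [Fin.val_rev, hj]; omega
      set y := g.1.1 *ᵥ b j - b j with hy
      have hgj : g.1.1 *ᵥ b j = b j + y := by rw [hy]; abel
      have hyL : Lt q b j.val y := (mem_U_iff hF hb).1 hg j
      -- it suffices to find `x`
      suffices hx : ∃ x : SU n F q, x ∈ U hF hb ∧ x ∈ T ∧ x.1.1 *ᵥ b j = b j + y ∧ ∀ l : Fin n, l < j → x.1.1 *ᵥ b l = b l by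
        obtain ⟨x, hxU, hxT, hxj, hxl⟩ := hx
        have hinv : ∀ z, x.1.1 *ᵥ z = z → (x⁻¹).1.1 *ᵥ z = z := by
          intro z hz
          conv_lhs => rw [← hz]
          exact U_inv_mulVec x z
        have h1 : x⁻¹ * g ∈ T := by
          refine ih (by omega) _ ((U hF hb).mul_mem ((U hF hb).inv_mem hxU) hg) (fun l hl => ?_)
          rw [U_mul_mulVec]
          by_cases hlj : l = j
          · rw [hlj, hgj, ← hxj, U_inv_mulVec]
          · have h2 : l.val ≠ j.val := fun h => hlj (Fin.ext h)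
            rw [hfix l (by omega)]
            exact hinv _ (hxl l (by show l.val < j.val; omega))
        have h2 : g = x * (x⁻¹ * g) := by group
        rw [h2]; exact T.mul_mem hxT h1
      have hperp : ∀ l : Fin n, l < j → hermForm n F q (b l) y = 0 := by
        intro l hl
        rw [hy, H.sub_right]
        have h1 : hermForm n F q (b l) (g.1.1 *ᵥ b j) = hermForm n F q (b l) (b j) := by
          conv_lhs => rw [← hfix l (by have : l.val < j.val := hl; omega)]
          rw [U_form]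
        rw [h1, sub_self]
      have hjj : hermForm n F q (b j) y + hermForm n F q y (b j) + hermForm n F q y y = 0 := by
        have h1 := U_form g (b j) (b j)
        rw [hgj] at h1
        simp only [H.add_left, H.add_right] at h1
        linear_combination h1
      by_cases hmid : j = j.rev
      · -- the middle position
        have hmid' := congrArg Fin.val hmid
        have hyy : hermForm n F q y y = 0 := hyL.form hF hb hyL (by omega)
        have hjy : hermForm n F q (b j) y = 0 := by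
          rw [form_b' hF, ← hmid, hyL j le_rfl, map_zero]
        have hjj1 : hermForm n F q (b j) (b j) = 1 := by rw [hb, if_pos hmid]
        obtain ⟨c, hC⟩ := cond_exists hF (e := -y) (u := b j) (by rw [H.neg_left, H.neg_right, hyy, neg_zero, neg_zero])
          (by rw [H.neg_right, hjy, neg_zero])
        have hxU : rE hF (-y) (b j) c ∈ U hF hb :=
          rE_mem_U hF hb (i := j.val) (j := j.val + 1) (hyL.neg hF) (lt_b hF hb (by omega)) (by omega) (Or.inr (by omega)) hC
        refine ⟨rE hF (-y) (b j) c, hxU, ?_, ?_, ?_⟩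
        · by_cases hy0 : -y = 0
          · rw [hy0] at hC ⊢
            rw [rE_zero_left hF hC]; exact T.one_mem
          · exact mem_of_QU hF hb hc hn hQ hy0 hC.1 (rE_mem_QU hF hC) hxU
        · rw [rE_mulVec hF hC, H.neg_right, hjy, hjj1]; module
        · intro l hl
          rw [rE_mulVec hF hC, H.neg_right, hperp l hl, form_b, co_b hF hb, if_neg]
          · simp
          · rw [← hmid]; exact hl.ne'
      · -- the other positions
        have hbb : hermForm n F q (b j.rev) (b j.rev) = 0 := by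
          rw [hb, if_neg]; rw [Fin.rev_rev]; intro h; exact hmid h.symm
        have hC : Cond hF (b j.rev) y (hermForm n F q (b j) y) := by
          refine ⟨hbb, ?_, ?_⟩
          · rw [form_b, Fin.rev_rev]; exact hyL j le_rfl
          · rw [← H.herm]; exact hjj
        have hxU : rE hF (b j.rev) y (hermForm n F q (b j) y) ∈ U hF hb := by
          refine rE_mem_U hF hb (i := j.rev.val + 1) (j := j.val) (lt_b hF hb (by omega)) hyL (by omega) ?_ hC
          by_cases hlt : j.val ≤ j.rev.val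
          · left
            rw [form_b' hF, hyL _ hlt, map_zero]
          · right; omega
        refine ⟨_, hxU, ?_, ?_, ?_⟩
        · exact mem_of_QU hF hb hc hn hQ (b_ne hF hb _) hbb (rE_mem_QU hF hC) hxU
        · have h1 : hermForm n F q (b j) (b j.rev) = 1 := by rw [hb, if_pos rfl]
          rw [rE_mulVec hF hC, h1]; module
        · intro l hl
          have h1 : hermForm n F q (b l) (b j.rev) = 0 := by
            rw [hb, if_neg]; intro h; exact hl.ne' (Fin.rev_injective h)
          rw [rE_mulVec hF hC, h1, hperp l hl]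
          simp
  intro g hg
  exact key n le_rfl g hg (fun l hl => absurd hl (by omega))

include hT hc in
theorem QU_le_of_tU (hn : 4 ≤ n) {a : F} (ha0 : a ≠ 0) (ha : a + sig hF a = 0) {v : Fin n → F} (hv0 : v ≠ 0)
    (hv : hermForm n F q v v = 0) (h : tU hF a v ∈ T) : QU q (b ⟨0, by omega⟩) ≤ T := by
  have H := herm_HS n hF
  set m := n / 2 with hm
  have h2m : 2 * m ≤ n := by omega
  have hm2 : 2 ≤ m := by omega
  let z : Fin n := ⟨0, by omega⟩
  let o : Fin n := ⟨1, by omega⟩
  have hz : z.val = 0 := rfl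
  have ho : o.val = 1 := rfl
  have hne : ∀ i j : Fin n, i.val + j.val ≠ n - 1 → hermForm n F q (b i) (b j) = 0 := by
    intro i j h
    rw [hb, if_neg]
    rintro rfl
    rw [Fin.val_rev] at h
    have := i.2
    omega
  have hform : ∀ {x y : Fin n → F}, Lt q b m x → Lt q b m y → hermForm n F q x y = 0 := fun hx hy =>
    hx.form hF hb hy (by omega)
  -- transvections
  have hA : ∀ {w : Fin n → F}, Lt q b m w → tU hF a w ∈ T := by
    intro w hw
    by_cases hw0 : w = 0
    · rw [hw0, tU_zero_right hF ha]; exact T.one_mem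
    obtain ⟨g, hg⟩ := trans_b0 hF hb hn hv0 hv
    obtain ⟨g', hg'⟩ := trans_b0 hF hb hn hw0 (hform hw hw)
    have h1 := hc _ h (g'⁻¹ * g)
    rw [tU_conj hF _ hv ha, U_mul_mulVec, hg, ← hg', U_inv_mulVec] at h1
    exact h1 (tU_mem_U hF hb hw h2m ha)
  have hA' : ∀ {w : Fin n → F}, Lt q b m w → ∀ c : F, c + sig hF c = 0 → tU hF c w ∈ T := by
    intro w hw c hc0
    have h1 : sig hF a = -a := by linear_combination ha
    have h2 : sig hF c = -c := by linear_combination hc0
    obtain ⟨t, ht⟩ := H.norm (c / a) (by rw [map_div₀, h1, h2, neg_div_neg_eq])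
    have h3 := hA (hw.smul hF t)
    rw [tU_smul hF (hform hw hw) ha, ht, div_mul_cancel₀ _ ha0] at h3
    exact h3
  -- short root elements
  have hB : ∀ {v u : Fin n → F}, Lt q b m v → Lt q b m u → rE hF v u 0 ∈ T := by
    intro v u hv hu
    have hCg : ∀ {x y : Fin n → F}, Lt q b m x → Lt q b m y → Cond hF x y 0 := fun hx hy =>
      ⟨hform hx hx, hform hy hx, by rw [map_zero, hform hy hy, add_zero, add_zero]⟩
    have h1 : sig hF a = -a := by linear_combination ha
    have hu' : Lt q b m (a⁻¹ • u) := hu.smul hF _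
    have h3 : rE hF v u 0 = tU hF a (a⁻¹ • u + v) * (tU hF a (a⁻¹ • u))⁻¹ * (tU hF a v)⁻¹ := by
      have e1 := hform hu hv
      have e2 := hform hv hu
      have e3 := hform hu hu
      have e4 := hform hv hv
      have hna : -a + sig hF (-a) = 0 := by rw [map_neg]; linear_combination -ha
      apply U_ext
      intro x
      rw [tU_inv hF (hform hu' hu') ha, tU_inv hF (hform hv hv) ha, rE_mulVec hF (hCg hv hu)]
      simp only [U_mul_mulVec]
      rw [tU_mulVec hF (hform hv hv) hna, tU_mulVec hF (hform hu' hu') hna,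
        tU_mulVec hF (hform (hu'.add hF hv) (hu'.add hF hv)) ha]
      simp only [H.add_left, H.smul_left, H.add_right, H.smul_right, e1, e2, e3, e4, map_inv₀, h1]
      match_scalars <;> field_simp <;> ring
    rw [h3]
    exact T.mul_mem (T.mul_mem (hA (hu'.add hF hv)) (T.inv_mem (hA hu'))) (T.inv_mem (hA hv))
  -- the additive group of vectors `u`
  have hzz : hermForm n F q (b z) (b z) = 0 := hne _ _ (by omega)
  have hQU := QU_le_U hF hb (by omega : 2 ≤ n)
  let X : AddSubmonoid (Fin n → F) :=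
    { carrier := {u | ∃ c, Cond hF (b z) u c ∧ rE hF (b z) u c ∈ T}
      add_mem' := by
        rintro u u' ⟨c, h1, h2⟩ ⟨c', h3, h4⟩
        exact ⟨_, h1.mul hF h3, by rw [← rE_mul hF h1 h3]; exact T.mul_mem h2 h4⟩
      zero_mem' := ⟨0, cond_zero hF hzz (by rw [map_zero, add_zero]), by rw [rE_zero hF hzz]; exact T.one_mem⟩ }
  have memX : ∀ u, u ∈ X ↔ ∃ c, Cond hF (b z) u c ∧ rE hF (b z) u c ∈ T := fun _ => Iff.rfl
  have hX1 : ∀ u, Lt q b m u → u ∈ X := by
    intro u hu
    have hz' : Lt q b m (b z) := lt_b hF hb (by omega)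
    exact ⟨0, ⟨hzz, hform hu hz', by rw [map_zero, hform hu hu, add_zero, add_zero]⟩, hB hz' hu⟩
  have hX2 : ∀ k : Fin n, 1 ≤ k.val → k.val < m → ∀ t : F, t • b k.rev ∈ X := by
    intro k hk1 hkm t
    have hkr : k.rev.val = n - 1 - k.val := by rw [Fin.val_rev]; have := k.2; omega
    have e1 : hermForm n F q (b k) (b k) = 0 := hne _ _ (by omega)
    have e2 : hermForm n F q (b k.rev) (b k.rev) = 0 := hne _ _ (by omega)
    have e3 : hermForm n F q (b k) (b k.rev) = 1 := by rw [hb, if_pos rfl]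
    have e4 : hermForm n F q (b z) (b k) = 0 := hne _ _ (by omega)
    have e5 : hermForm n F q (b z) (b k.rev) = 0 := hne _ _ (by omega)
    obtain ⟨c, hC, hT'⟩ := hX1 ((-(a * t)) • b k) ((lt_b hF hb hkm).smul hF _)
    have h1 := hc _ hT' (nn hF a (b k) (b k.rev))
    have h2 := hC.map hF (nn hF a (b k) (b k.rev))
    rw [rE_conj hF _ hC] at h1
    have h3 : (nn hF a (b k) (b k.rev)).1.1 *ᵥ ((-(a * t)) • b k) = t • b k.rev := by
      rw [Matrix.mulVec_smul, nn_e hF e1 e2 e3 ha ha0, smul_smul]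
      congr 1
      field_simp
    rw [nn_w hF e1 e2 ha e4 e5, h3] at h1 h2
    exact ⟨c, h2, h1 (hQU (rE_mem_QU hF h2))⟩
  have hX3 : ∀ k : Fin n, k = k.rev → ∀ t : F, t • b k ∈ X := by
    intro k hk t
    have hk' := congrArg Fin.val hk
    rw [Fin.val_rev] at hk'
    have hor : o.rev.val = n - 2 := by rw [Fin.val_rev]
    have hko := k.2
    have e1 : hermForm n F q (b o) (b o) = 0 := hne _ _ (by omega)
    have e2 : hermForm n F q (b k) (b o) = 0 := hne _ _ (by omega)
    have e3 : hermForm n F q (b z) (b o) = 0 := hne _ _ (by omega)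
    have e4 : hermForm n F q (b z) (b k) = 0 := hne _ _ (by omega)
    have e5 : hermForm n F q (b o.rev) (b o) = 1 := by rw [hb, Fin.rev_rev, if_pos rfl]
    have e6 : hermForm n F q (b o.rev) (b k) = 0 := hne _ _ (by omega)
    obtain ⟨d, hD⟩ := cond_exists hF e1 e2
    have hxU : rE hF (b o) (b k) d ∈ U hF hb :=
      rE_mem_U hF hb (i := 2) (j := k.val + 1) (lt_b hF hb (by omega)) (lt_b hF hb (by omega)) (by omega) (Or.inr (by omega)) hD
    obtain ⟨c, hC, hT'⟩ := hX2 o (by omega) (by omega) t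
    have h1 := hc _ hT' (rE hF (b o) (b k) d)
      ((U hF hb).mul_mem ((U hF hb).mul_mem hxU (hT hT')) ((U hF hb).inv_mem hxU))
    have h2 := hC.map hF (rE hF (b o) (b k) d)
    rw [rE_conj hF _ hC] at h1
    have h3 : (rE hF (b o) (b k) d).1.1 *ᵥ b z = b z := by
      rw [rE_mulVec hF hD, e3, e4]; module
    have h4 : (rE hF (b o) (b k) d).1.1 *ᵥ (t • b o.rev) = t • b o.rev + t • b k + (t * d) • b o := by
      rw [Matrix.mulVec_smul, rE_mulVec hF hD, e5, e6]; module
    rw [h3, h4] at h1 h2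
    have h5 : t • b k = (t • b o.rev + t • b k + (t * d) • b o) + ((-t) • b o.rev + (-(t * d)) • b o) := by module
    rw [h5]
    exact X.add_mem ⟨c, h2, h1⟩ (X.add_mem (hX2 o (by omega) (by omega) _) (hX1 _ ((lt_b hF hb (by omega)).smul hF _)))
  have hX : ∀ u, hermForm n F q u (b z) = 0 → u ∈ X := by
    intro u hu
    rw [expand hF hb u]
    refine X.sum_mem fun l _ => ?_
    have hl := l.2
    have hlr : l.rev.val = n - 1 - l.val := by rw [Fin.val_rev]; omega
    by_cases c1 : l.val < m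
    · exact hX1 _ ((lt_b hF hb c1).smul hF _)
    by_cases c2 : l = l.rev
    · exact hX3 l c2 _
    by_cases c3 : l = z.rev
    · have h1 : co q b l u = 0 := by rw [c3, ← form_b]; exact hu
      rw [h1, zero_smul]; exact X.zero_mem
    · have h1 : l.val ≠ l.rev.val := fun h => c2 (Fin.ext h)
      have h2 : l.rev ≠ z := fun h => c3 (by rw [← h, Fin.rev_rev])
      have h3 : l.rev.val ≠ z.val := fun h => h2 (Fin.ext h)
      have h4 := hX2 l.rev (by omega) (by omega) (co q b l u)
      rw [Fin.rev_rev] at h4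
      exact h4
  intro s hs
  have hzr : z.rev.val = n - 1 := by rw [Fin.val_rev]
  have hrr : hermForm n F q (b z.rev) (b z.rev) = 0 := hne _ _ (by omega)
  obtain ⟨u, d, hC, rfl, -⟩ := exists_rE_of_mem_QU hF hzz hrr (by rw [hb, if_pos rfl]) hs
  obtain ⟨c, hC', hT'⟩ := hX u hC.2.1
  have htr : (d - c) + sig hF (d - c) = 0 := by
    rw [map_sub]
    linear_combination hC.2.2 - hC'.2.2
  have h1 : rE hF (b z) u d = rE hF (b z) u c * tU hF (d - c) (b z) := by
    unfold tU
    rw [rE_mul hF hC' (cond_zero hF hzz htr), add_zero, H.zero_left]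
    congr 1
    ring
  rw [h1]
  exact T.mul_mem hT' (hA' (lt_b hF hb (by omega)) _ htr)

end fin

section

variable [Fintype F] (hF : Fintype.card F = q ^ 2) {b : Fin n → Fin n → F} (hb : Gram q b)

/-- strongly closed subgroups -/
theorem strongly_closed (p : ℕ) [Fact p.Prime] [CharP F p] (hn : 4 ≤ n)
    (T : Subgroup (SU n F q)) (hT : T ≤ U hF hb)
    (hc : ∀ x ∈ T, ∀ g : SU n F q, g * x * g⁻¹ ∈ U hF hb → g * x * g⁻¹ ∈ T) : T = ⊥ ∨ T = U hF hb := by
  by_cases hT1 : T = ⊥
  · exact Or.inl hT1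
  right
  obtain ⟨P, hP⟩ := exists_sylow_U hF hb (p := p)
  have hUp : IsPGroup p (U hF hb) := hP ▸ P.isPGroup'
  obtain ⟨t, htT, ht1, htU⟩ := exists_central hUp hT hT1 fun u hu t ht =>
    hc t ht u ((U hF hb).mul_mem ((U hF hb).mul_mem hu (hT ht)) ((U hF hb).inv_mem hu))
  have hQ := QU_le_U hF hb (by omega : 2 ≤ n)
  have hzz : hermForm n F q (b ⟨0, by omega⟩) (b ⟨0, by omega⟩) = 0 := by
    rw [hb, if_neg]
    intro h
    have := congrArg Fin.val h
    rw [Fin.val_rev] at this
    simp only at this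
    omega
  have hz : ∀ s ∈ QU q (b ⟨0, by omega⟩), (QuotientGroup.mk t * QuotientGroup.mk s : PSU n F q) =
      QuotientGroup.mk s * QuotientGroup.mk t := by
    intro s hs
    rw [← QuotientGroup.mk_mul, ← QuotientGroup.mk_mul, htU s (hQ hs)]
  obtain ⟨a, ha, rfl⟩ := tU_of_commute hF (by omega) (b_ne hF hb _) hzz hz (U_fix_zero hF hb (by omega) (hT htT))
  have ha0 : a ≠ 0 := by
    rintro rfl
    apply ht1
    unfold tU
    exact rE_zero hF hzz
  exact le_antisymm hT (U_le_of_QU hF hb hc hn (QU_le_of_tU hF hb hT hc hn ha0 ha (b_ne hF hb _) hzz htT))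

end

end Cfsg.Agent.Lib.UnCrit
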