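import Cfsg.Agent.Lib.UnCrit2
import Cfsg.Agent.Lib.FusionSimpleGroup

/-! Generation of the normalizer of the Sylow subgroup of `SU_n(q)` in the natural characteristic: preparations. -/

set_option autoImplicit false

namespace Cfsg.Agent.Lib.UnCrit

open Matrix
open Cfsg Cfsg.Agent.Lib.ClUnitary Cfsg.Agent.Lib.HermMat Cfsg.Agent.Lib.UnTrans Cfsg.Agent.Lib.UnBridge
open Cfsg.Agent.Lib.PSUAut Cfsg.Agent.Lib.FlagSylow
open Cfsg.Agent.Lib.ClUnSimple (suIso correct)

variable {n : ℕ} {F : Type*} [Field F] {q : ℕ}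

section fin

variable [Fintype F] (hF : Fintype.card F = q ^ 2) {b : Fin n → Fin n → F} (hb : Gram q b)
include hF hb

theorem hne_form {i j : Fin n} (h : i.val + j.val ≠ n - 1) : hermForm n F q (b i) (b j) = 0 := by
  rw [hb, if_neg]
  rintro rfl
  rw [Fin.val_rev] at h
  have := i.2
  omega

/-! ### determinants -/

theorem rho_det (g : SU n F q) : (rho hF hb g).det = 1 := by
  classical
  let P : Matrix (Fin n) (Fin n) F := Matrix.of fun i j => b j i
  have h1 : P * rho hF hb g = g.1.1 * P := by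
    ext i j
    rw [Matrix.mul_apply]
    have h2 : (g.1.1 * P) i j = (g.1.1 *ᵥ b j) i := rfl
    rw [h2]
    conv_rhs => rw [expand hF hb (g.1.1 *ᵥ b j)]
    rw [Finset.sum_apply]
    refine Finset.sum_congr rfl fun k _ => ?_
    rw [Pi.smul_apply, smul_eq_mul, mul_comm]
    rfl
  have h2 : IsUnit P := by
    rw [← Matrix.linearIndependent_cols_iff_isUnit]
    exact linInd hF hb
  have h3 := congrArg Matrix.det h1
  rw [Matrix.det_mul, Matrix.det_mul, g.1.2, one_mul] at h3
  have h4 : P.det ≠ 0 := ((Matrix.isUnit_iff_isUnit_det _).1 h2).ne_zero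
  exact mul_left_cancel₀ h4 (by rw [h3, mul_one])

theorem prod_diag {g : SU n F q} (hg : UppTri (rho hF hb g)) : ∏ i, rho hF hb g i i = 1 := by
  rw [← rho_det hF hb g, Matrix.det_of_isUpperTriangular]
  intro i j hij
  exact hg i j hij

/-- the diagonal entries of an upper triangular unitary matrix -/
theorem diag_rev {g : SU n F q} (hg : UppTri (rho hF hb g)) (i : Fin n) :
    rho hF hb g i i * sig hF (rho hF hb g i.rev i.rev) = 1 := by
  have h1 := U_form g (b i) (b i.rev)
  rw [hb, if_pos rfl, form_expand hF hb, Finset.sum_eq_single i] at h1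
  · exact h1
  · intro l _ hl
    rcases lt_or_gt_of_ne hl with h | h
    · have h2 : co q b l.rev (g.1.1 *ᵥ b i.rev) = 0 := hg l.rev i.rev (Fin.rev_lt_rev.2 h)
      rw [h2, map_zero, mul_zero]
    · have h2 : co q b l (g.1.1 *ᵥ b i) = 0 := hg l i h
      rw [h2, zero_mul]
  · intro h; exact absurd (Finset.mem_univ i) h

theorem pow_mem_Upp {g : SU n F q} (hg : UppTri (rho hF hb g)) (k : ℕ) : UppTri (rho hF hb (g ^ k)) := by
  induction k with
  | zero => rw [pow_zero, map_one]; exact uniTri_one.uppTri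
  | succ k ih => rw [pow_succ, map_mul]; exact ih.mul hg

omit hF hb in
theorem inv_eq_pow [Finite (SU n F q)] (g : SU n F q) : g⁻¹ = g ^ (orderOf g - 1) := by
  rw [inv_eq_iff_mul_eq_one, ← pow_succ', Nat.sub_add_cancel (orderOf_pos g), pow_orderOf_eq_one]

theorem inv_mem_Upp {g : SU n F q} (hg : UppTri (rho hF hb g)) : UppTri (rho hF hb g⁻¹) := by
  rw [inv_eq_pow]; exact pow_mem_Upp hF hb hg _

/-- upper triangular elements normalize `U` -/
theorem mem_normalizer_U {g : SU n F q} (hg : UppTri (rho hF hb g)) :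
    g ∈ Subgroup.normalizer ((U hF hb : Subgroup (SU n F q)) : Set (SU n F q)) := by
  have key : ∀ g : SU n F q, UppTri (rho hF hb g) → ∀ u ∈ U hF hb, g * u * g⁻¹ ∈ U hF hb := by
    intro g hg u hu
    rw [mem_U] at hu ⊢
    have hi := inv_mem_Upp hF hb hg
    rw [map_mul, map_mul, uniTri_iff]
    refine ⟨(hg.mul hu.uppTri).mul hi, fun i => ?_⟩
    rw [(hg.mul hu.uppTri).mul_diag hi, hg.mul_diag hu.uppTri, hu.diag, mul_one, ← hg.mul_diag hi, ← map_mul,
      mul_inv_cancel, map_one, Matrix.one_apply_eq]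
  rw [Subgroup.mem_normalizer_iff]
  intro u
  refine ⟨key g hg u, fun hu => ?_⟩
  have h1 := key g⁻¹ (inv_mem_Upp hF hb hg) _ hu
  have h2 : g⁻¹ * (g * u * g⁻¹) * g⁻¹⁻¹ = u := by group
  rwa [h2] at h1

/-- linear combinations of the first vectors -/
theorem Lt.mulVec {i j : ℕ} {g : SU n F q} (hg : ∀ l : Fin n, l.val < i → Lt q b j (g.1.1 *ᵥ b l)) {x : Fin n → F}
    (hx : Lt q b i x) : Lt q b j (g.1.1 *ᵥ x) := by
  intro k hk
  rw [expand hF hb x, Matrix.mulVec_sum, co_sum hF]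
  refine Finset.sum_eq_zero fun l _ => ?_
  rw [Matrix.mulVec_smul, co_smul hF]
  by_cases hl : l.val < i
  · rw [hg l hl k hk, mul_zero]
  · rw [hx l (by omega), zero_mul]

theorem Lt.inv {i : ℕ} {g : SU n F q} (hg : ∀ x, Lt q b i x → Lt q b i (g.1.1 *ᵥ x)) {x : Fin n → F}
    (hx : Lt q b i x) : Lt q b i ((g⁻¹).1.1 *ᵥ x) := by
  rw [inv_eq_pow]
  generalize orderOf g - 1 = k
  induction k with
  | zero => rw [pow_zero, U_one_mulVec]; exact hx
  | succ k ih => rw [pow_succ', U_mul_mulVec]; exact hg _ ih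

/-- it suffices to be upper triangular on the first half -/
theorem uppTri_of_half {g : SU n F q} (hg : ∀ j : Fin n, j.val < n / 2 → Lt q b (j.val + 1) (g.1.1 *ᵥ b j)) :
    UppTri (rho hF hb g) := by
  have hst : ∀ k ≤ n / 2, ∀ x, Lt q b k x → Lt q b k (g.1.1 *ᵥ x) := by
    intro k hk x hx
    exact Lt.mulVec hF hb (fun l hl => (hg l (by omega)).mono (by omega)) hx
  intro i j hij
  have hij' : j.val < i.val := hij
  rw [rho_apply]
  by_cases hj : j.val < n / 2
  · exact hg j hj i hij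
  · have hir : i.rev.val = n - 1 - i.val := by rw [Fin.val_rev]; omega
    have hi := i.2
    unfold co
    have h1 : Lt q b (i.rev.val + 1) ((g⁻¹).1.1 *ᵥ b i.rev) :=
      Lt.inv hF hb (hst _ (by omega)) (lt_b hF hb (by omega))
    rw [← U_mulVec_inv g (b i.rev), U_form]
    exact (lt_b hF hb (show j.val < j.val + 1 by omega)).form hF hb h1 (by omega)

/-! ### the center -/

theorem exists_scalar' (hn : 2 ≤ n) {k : F} (hk : k * sig hF k = 1) (hkn : k ^ n = 1) :
    ∃ z ∈ Subgroup.center (SU n F q), ∀ v, z.1.1 *ᵥ v = k • v := by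
  have H := herm_HS n hF
  have h2 : ∀ w : Fin n → F, Matrix.scalar (Fin n) k *ᵥ w = k • w := by
    intro w
    rw [Matrix.scalar_apply]
    ext a
    rw [Matrix.mulVec_diagonal]; rfl
  have h1 : (Matrix.scalar (Fin n) k).det = 1 := by
    rw [Matrix.scalar_apply, Matrix.det_diagonal, Finset.prod_const, Finset.card_univ, Fintype.card_fin, hkn]
  refine ⟨⟨⟨Matrix.scalar (Fin n) k, h1⟩, fun u v => ?_⟩, (mem_center_iff' hF hn _).2 ⟨k, h2⟩, h2⟩
  show hermForm n F q (Matrix.scalar (Fin n) k *ᵥ u) (Matrix.scalar (Fin n) k *ᵥ v) = _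
  rw [h2, h2, H.smul_left, H.smul_right, ← mul_assoc, hk, one_mul]

/-- upper triangular elements with constant diagonal -/
theorem pow_of_diag {c : SU n F q} {k : F} (h : ∀ i j : Fin n, j ≤ i → rho hF hb c i j = if i = j then k else 0) :
    k ^ n = 1 := by
  have h1 := prod_diag hF hb (g := c) (fun i j hij => by rw [h i j hij.le, if_neg hij.ne'])
  rw [Finset.prod_congr rfl (fun i _ => by rw [h i i le_rfl, if_pos rfl]), Finset.prod_const, Finset.card_univ,
    Fintype.card_fin] at h1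
  exact h1

omit hb in
/-- an element commuting with a transvection -/
theorem eigen_of_commute {c : SU n F q} {a : F} (ha0 : a ≠ 0) (ha : a + sig hF a = 0) {w : Fin n → F} (hw0 : w ≠ 0)
    (hw : hermForm n F q w w = 0) (h : c * tU hF a w = tU hF a w * c) :
    ∃ k : F, k * sig hF k = 1 ∧ c.1.1 *ᵥ w = k • w := by
  have h1 : c * tU hF a w * c⁻¹ = tU hF a w := by rw [h, mul_inv_cancel_right]
  rw [tU_conj hF c hw ha] at h1
  obtain ⟨k, hk⟩ := tU_inj hF (U_mulVec_ne hw0) (by rw [U_form, hw]) hw ha ha ha0 h1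
  refine ⟨k, ?_, hk⟩
  rw [hk, tU_smul hF hw ha] at h1
  have hH := (herm_HS n hF).inv k
  have h2 := tU_inj' hF hw0 hw (by rw [map_mul, map_mul, hH]; linear_combination (k * sig hF k) * ha) ha h1
  exact mul_right_cancel₀ ha0 (by rw [h2, one_mul])

omit hb in
theorem eigen_of_rE {c : SU n F q} {e f u : Fin n → F} {d k : F} (hC : Cond hF e u d) (hef : hermForm n F q f e = 1)
    (hk : k * sig hF k = 1) (hce : c.1.1 *ᵥ e = k • e) (h : c * rE hF e u d = rE hF e u d * c) :
    ∃ t : F, c.1.1 *ᵥ u = k • u + t • e := by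
  have H := herm_HS n hF
  have h1 : c * rE hF e u d * c⁻¹ = rE hF e u d := by rw [h, mul_inv_cancel_right]
  have hk0 : k ≠ 0 := by rintro rfl; rw [zero_mul] at hk; exact zero_ne_one hk
  have hC' := hC.map hF c
  rw [rE_conj hF c hC, hce] at h1
  rw [hce] at hC'
  have h2 := congrArg (fun s : SU n F q => s.1.1 *ᵥ f) h1
  simp only [rE_mulVec hF hC', rE_mulVec hF hC] at h2
  rw [H.smul_right, hef, mul_one] at h2
  refine ⟨k * (hermForm n F q f (c.1.1 *ᵥ u) * k - d * (sig hF k) * k - hermForm n F q f u + d), ?_⟩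
  have h3 : sig hF k • c.1.1 *ᵥ u = u + (hermForm n F q f (c.1.1 *ᵥ u) * k - d * (sig hF k) * k - hermForm n F q f u + d) • e := by
    have h4 : sig hF k • c.1.1 *ᵥ u = (f + sig hF k • c.1.1 *ᵥ u - hermForm n F q f (c.1.1 *ᵥ u) • k • e + (d * sig hF k) • k • e) -
        f + (hermForm n F q f (c.1.1 *ᵥ u) * k) • e - (d * sig hF k * k) • e := by module
    rw [h4, h2]
    module
  calc c.1.1 *ᵥ u = k • (sig hF k • c.1.1 *ᵥ u) := by rw [smul_smul, hk, one_smul]
    _ = k • (u + (hermForm n F q f (c.1.1 *ᵥ u) * k - d * (sig hF k) * k - hermForm n F q f u + d) • e) := by rw [h3]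
    _ = _ := by rw [smul_add, smul_smul]

omit hF hb [Fintype F] in
theorem mem_sup_center {c z : SU n F q} {R : Subgroup (SU n F q)} (hz : z ∈ Subgroup.center (SU n F q)) (h : c * z ∈ R) :
    c ∈ R ⊔ Subgroup.center (SU n F q) := by
  have h1 : c = (c * z) * z⁻¹ := by group
  rw [h1]
  exact Subgroup.mul_mem _ (Subgroup.mem_sup_left h) (Subgroup.mem_sup_right ((Subgroup.center _).inv_mem hz))

omit hb in
theorem sig_inv_self {k : F} (hk : k * sig hF k = 1) : sig hF k⁻¹ = k := by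
  rw [map_inv₀]
  exact inv_eq_of_mul_eq_one_left hk

theorem centralizer_QU (hn : 2 ≤ n) {c : SU n F q} (hc : ∀ r ∈ QU q (b ⟨0, by omega⟩), c * r = r * c) :
    c ∈ QU q (b ⟨0, by omega⟩) ⊔ Subgroup.center (SU n F q) := by
  have H := herm_HS n hF
  let z : Fin n := ⟨0, by omega⟩
  have hz : z.val = 0 := rfl
  have hzr : z.rev.val = n - 1 := by rw [Fin.val_rev]
  have hzz : hermForm n F q (b z) (b z) = 0 := hne_form hF hb (by omega)
  have hrz : hermForm n F q (b z.rev) (b z) = 1 := by rw [hb, Fin.rev_rev, if_pos rfl]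
  obtain ⟨a, ha0, ha⟩ := H.exists_tr0
  obtain ⟨k, hk, hkv⟩ := eigen_of_commute hF ha0 ha (b_ne hF hb z) hzz (hc _ (rE_mem_QU hF (cond_zero hF hzz ha)))
  have hk0 : k ≠ 0 := by rintro rfl; rw [zero_mul] at hk; exact zero_ne_one hk
  have h1 : ∀ u, hermForm n F q u (b z) = 0 → ∃ t : F, c.1.1 *ᵥ u = k • u + t • b z := by
    intro u hu
    obtain ⟨d, hC⟩ := cond_exists hF hzz hu
    exact eigen_of_rE hF hC hrz hk hkv (hc _ (rE_mem_QU hF hC))
  have h2 : ∀ i j : Fin n, j ≤ i → rho hF hb c i j = if i = j then k else 0 := by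
    intro i j hij
    rw [rho_apply]
    by_cases hj : j = z.rev
    · have hi : i = z.rev := by
        apply Fin.ext
        have h3 : j.val ≤ i.val := hij
        have h4 := i.2
        rw [hj] at h3
        omega
      rw [hj, hi, if_pos rfl]
      unfold co
      rw [Fin.rev_rev]
      have h3 : b z = k⁻¹ • (c.1.1 *ᵥ b z) := by rw [hkv, smul_smul, inv_mul_cancel₀ hk0, one_smul]
      rw [h3, H.smul_right, U_form, hrz, mul_one, sig_inv_self hF hk]
    · obtain ⟨t, ht⟩ := h1 (b j) (by rw [hb, if_neg]; intro h; exact hj (by rw [h, Fin.rev_rev]))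
      by_cases hjz : j = z
      · rw [hjz, hkv, co_smul hF, co_b hF hb]
        split_ifs <;> simp
      · have hiz : i ≠ z := by
          rintro rfl
          apply hjz
          apply Fin.ext
          have : j.val ≤ z.val := hij
          omega
        rw [ht, co_add hF, co_smul hF, co_smul hF, co_b hF hb, co_b hF hb, if_neg hiz, mul_zero, add_zero]
        split_ifs <;> simp
  have hkn := pow_of_diag hF hb h2
  obtain ⟨ζ, hζ, hζv⟩ := exists_scalar' hF hb hn (k := k⁻¹) (by rw [sig_inv_self hF hk, inv_mul_cancel₀ hk0])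
    (by rw [inv_pow, hkn, inv_one])
  apply mem_sup_center hζ
  have h3 : (c * ζ).1.1 *ᵥ b z = b z := by
    rw [U_mul_mulVec, hζv, Matrix.mulVec_smul, hkv, smul_smul, inv_mul_cancel₀ hk0, one_smul]
  have h4 : ∀ s ∈ QU q (b z), (QuotientGroup.mk (c * ζ) * QuotientGroup.mk s : PSU n F q) =
      QuotientGroup.mk s * QuotientGroup.mk (c * ζ) := by
    intro s hs
    rw [← QuotientGroup.mk_mul, ← QuotientGroup.mk_mul]
    congr 1
    have h3 := hc s hs
    have h4 := Subgroup.mem_center_iff.1 hζ s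
    calc c * ζ * s = c * (ζ * s) := by group
      _ = c * (s * ζ) := by rw [h4]
      _ = (c * s) * ζ := by group
      _ = s * c * ζ := by rw [h3]
      _ = s * (c * ζ) := by group
  obtain ⟨a', ha', h5⟩ := tU_of_commute hF hn (b_ne hF hb z) hzz h4 h3
  rw [h5]
  exact rE_mem_QU hF (cond_zero hF hzz ha')

/-! ### the stabilizer of a maximal totally isotropic subspace -/

variable (b) in
/-- the unipotent radical of the stabilizer of the span of the first half of the basis -/
def RW : Subgroup (SU n F q) where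
  carrier := {g | (∀ w, Lt q b (n / 2) w → g.1.1 *ᵥ w = w) ∧ ∀ w, Lt q b (n - n / 2) w → Lt q b (n / 2) (g.1.1 *ᵥ w - w)}
  mul_mem' := by
    rintro g h ⟨g1, g2⟩ ⟨h1, h2⟩
    refine ⟨fun w hw => by rw [U_mul_mulVec, h1 w hw, g1 w hw], fun w hw => ?_⟩
    have e1 : (g * h).1.1 *ᵥ w - w = (h.1.1 *ᵥ w - w) + (g.1.1 *ᵥ w - w) := by
      have e2 := g1 _ (h2 w hw)
      rw [Matrix.mulVec_sub] at e2
      rw [U_mul_mulVec, ← e2]; abel
    rw [e1]
    exact (h2 w hw).add hF (g2 w hw)
  one_mem' := ⟨fun w _ => U_one_mulVec w, fun w _ => by rw [U_one_mulVec, sub_self]; exact lt_zero hF _⟩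
  inv_mem' := by
    rintro g ⟨g1, g2⟩
    have h1 : ∀ w, Lt q b (n / 2) w → (g⁻¹).1.1 *ᵥ w = w := by
      intro w hw
      conv_lhs => rw [← g1 w hw]
      exact U_inv_mulVec g w
    refine ⟨h1, fun w hw => ?_⟩
    have e1 : (g⁻¹).1.1 *ᵥ w - w = - (g.1.1 *ᵥ w - w) := by
      have e2 := h1 _ (g2 w hw)
      rw [Matrix.mulVec_sub, U_inv_mulVec] at e2
      rw [← e2]; abel
    rw [e1]
    exact (g2 w hw).neg hF

theorem mem_RW {g : SU n F q} : g ∈ RW hF b ↔ (∀ w, Lt q b (n / 2) w → g.1.1 *ᵥ w = w) ∧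
    ∀ w, Lt q b (n - n / 2) w → Lt q b (n / 2) (g.1.1 *ᵥ w - w) := Iff.rfl

theorem RW_le_U : RW hF b ≤ U hF hb := by
  have H := herm_HS n hF
  intro g hg
  rw [mem_U_iff]
  intro j
  by_cases h1 : j.val < n / 2
  · rw [hg.1 (b j) (lt_b hF hb h1), sub_self]
    exact lt_zero hF _
  by_cases h2 : j.val < n - n / 2
  · exact (hg.2 (b j) (lt_b hF hb h2)).mono (by omega)
  · intro l hl
    have hlr : l.rev.val = n - 1 - l.val := by rw [Fin.val_rev]; omega
    have hl2 := l.2
    unfold co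
    rw [H.sub_left]
    have h3 : hermForm n F q (g.1.1 *ᵥ b j) (b l.rev) = hermForm n F q (b j) (b l.rev) := by
      conv_lhs => rw [← hg.1 (b l.rev) (lt_b hF hb (by omega))]
      rw [U_form]
    rw [h3, sub_self]

/-- stability of the perpendicular space -/
theorem stable_perp {x : SU n F q} (hx : ∀ w, Lt q b (n / 2) w → Lt q b (n / 2) ((x⁻¹).1.1 *ᵥ w)) {w : Fin n → F}
    (hw : Lt q b (n - n / 2) w) : Lt q b (n - n / 2) (x.1.1 *ᵥ w) := by
  intro l hl
  have hlr : l.rev.val = n - 1 - l.val := by rw [Fin.val_rev]; omega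
  have hl2 := l.2
  unfold co
  rw [← U_mulVec_inv x (b l.rev), U_form]
  exact hw.form hF hb (hx _ (lt_b hF hb (by omega))) (by omega)

theorem mem_normalizer_RW {x : SU n F q} (hx : ∀ w, Lt q b (n / 2) w → Lt q b (n / 2) (x.1.1 *ᵥ w)) :
    x ∈ Subgroup.normalizer ((RW hF b : Subgroup (SU n F q)) : Set (SU n F q)) := by
  have key : ∀ y : SU n F q, (∀ w, Lt q b (n / 2) w → Lt q b (n / 2) (y.1.1 *ᵥ w)) → ∀ g ∈ RW hF b,
      y * g * y⁻¹ ∈ RW hF b := by
    intro y hy g hg
    have hy' : ∀ w, Lt q b (n / 2) w → Lt q b (n / 2) ((y⁻¹).1.1 *ᵥ w) := fun w hw => Lt.inv hF hb hy hw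
    refine ⟨fun w hw => ?_, fun w hw => ?_⟩
    · rw [U_mul_mulVec, U_mul_mulVec, hg.1 _ (hy' w hw), U_mulVec_inv]
    · have h1 := hg.2 _ (stable_perp hF hb (x := y⁻¹) (by rw [inv_inv]; exact hy) hw)
      have h2 := hy _ h1
      rw [Matrix.mulVec_sub, U_mulVec_inv] at h2
      rw [U_mul_mulVec, U_mul_mulVec]
      exact h2
  rw [Subgroup.mem_normalizer_iff]
  intro g
  refine ⟨key x hx g, fun h => ?_⟩
  have h1 := key x⁻¹ (fun w hw => Lt.inv hF hb hx hw) _ h
  have h2 : x⁻¹ * (x * g * x⁻¹) * x⁻¹⁻¹ = g := by group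
  rwa [h2] at h1

theorem rE_mem_RW {e u : Fin n → F} {d : F} (he : Lt q b (n / 2) e) (hu : Lt q b (n - n / 2) u) (hC : Cond hF e u d) :
    rE hF e u d ∈ RW hF b := by
  refine ⟨fun w hw => ?_, fun w hw => ?_⟩
  · rw [rE_mulVec hF hC, hw.form hF hb he (by omega), hw.form hF hb hu (by omega)]
    simp
  · have h1 : (rE hF e u d).1.1 *ᵥ w - w = (- hermForm n F q w u) • e := by
      rw [rE_mulVec hF hC, hw.form hF hb he (by omega)]
      module
    rw [h1]
    exact he.smul hF _

theorem centralizer_RW (hn : 2 ≤ n) {c : SU n F q} (hc : ∀ r ∈ RW hF b, c * r = r * c) :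
    c ∈ RW hF b ⊔ Subgroup.center (SU n F q) := by
  have H := herm_HS n hF
  let z : Fin n := ⟨0, by omega⟩
  have hz : z.val = 0 := rfl
  have hzr : z.rev.val = n - 1 := by rw [Fin.val_rev]
  have hzz : hermForm n F q (b z) (b z) = 0 := hne_form hF hb (by omega)
  have hrz : hermForm n F q (b z.rev) (b z) = 1 := by rw [hb, Fin.rev_rev, if_pos rfl]
  have hzL : Lt q b (n / 2) (b z) := lt_b hF hb (by omega)
  obtain ⟨a, ha0, ha⟩ := H.exists_tr0
  have hform : ∀ {x y : Fin n → F}, Lt q b (n / 2) x → Lt q b (n / 2) y → hermForm n F q x y = 0 := fun hx hy =>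
    hx.form hF hb hy (by omega)
  have heig : ∀ w, Lt q b (n / 2) w → w ≠ 0 → ∃ k : F, k * sig hF k = 1 ∧ c.1.1 *ᵥ w = k • w := fun w hw hw0 =>
    eigen_of_commute hF ha0 ha hw0 (hform hw hw)
      (hc _ (rE_mem_RW hF hb hw (lt_zero hF _) (cond_zero hF (hform hw hw) ha)))
  obtain ⟨k, hk, hkv⟩ := heig (b z) hzL (b_ne hF hb z)
  have hk0 : k ≠ 0 := by rintro rfl; rw [zero_mul] at hk; exact zero_ne_one hk
  have hbi : ∀ i : Fin n, i.val < n / 2 → c.1.1 *ᵥ b i = k • b i := by
    intro i hi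
    by_cases hiz : i = z
    · rw [hiz]; exact hkv
    obtain ⟨k1, hk1, e1⟩ := heig (b i) (lt_b hF hb hi) (b_ne hF hb i)
    obtain ⟨k2, hk2, e2⟩ := heig (b i + b z) ((lt_b hF hb hi).add hF hzL) (by
      intro h
      have := congrArg (co q b i) h
      rw [co_add hF, co_b hF hb, co_b hF hb, if_pos rfl, if_neg hiz, co_zero hF, add_zero] at this
      exact one_ne_zero this)
    rw [Matrix.mulVec_add, e1, hkv] at e2
    have h3 := congrArg (co q b i) e2
    have h4 := congrArg (co q b z) e2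
    simp only [co_add hF, co_smul hF, co_b hF hb, if_pos, if_neg hiz, if_neg (Ne.symm hiz), mul_one, mul_zero, add_zero,
      zero_add] at h3 h4
    rw [e1, h3, ← h4]
  have hW : ∀ w, Lt q b (n / 2) w → c.1.1 *ᵥ w = k • w := by
    intro w hw
    apply ext_co hF hb
    intro i
    conv_lhs => rw [expand hF hb w]
    rw [Matrix.mulVec_sum, co_sum hF, co_smul hF, Finset.sum_eq_single i]
    · rw [Matrix.mulVec_smul, co_smul hF]
      by_cases hi : i.val < n / 2
      · rw [hbi i hi, co_smul hF, co_b hF hb, if_pos rfl]; ring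
      · rw [hw i (by omega)]; ring
    · intro j _ hji
      rw [Matrix.mulVec_smul, co_smul hF]
      by_cases hj : j.val < n / 2
      · rw [hbi j hj, co_smul hF, co_b hF hb, if_neg hji.symm]; ring
      · rw [hw j (by omega)]; ring
    · intro h; exact absurd (Finset.mem_univ i) h
  have h1 : ∀ u, Lt q b (n - n / 2) u → ∃ t : F, c.1.1 *ᵥ u = k • u + t • b z := by
    intro u hu
    obtain ⟨d, hC⟩ := cond_exists hF hzz (hu.form hF hb hzL (by omega))
    exact eigen_of_rE hF hC hrz hk hkv (hc _ (rE_mem_RW hF hb hzL hu hC))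
  have h2 : ∀ i j : Fin n, j ≤ i → rho hF hb c i j = if i = j then k else 0 := by
    intro i j hij
    have hij' : j.val ≤ i.val := hij
    rw [rho_apply]
    by_cases hj1 : j.val < n / 2
    · rw [hbi j hj1, co_smul hF, co_b hF hb]
      split_ifs <;> simp
    by_cases hj2 : j.val < n - n / 2
    · obtain ⟨t, ht⟩ := h1 (b j) (lt_b hF hb hj2)
      have hiz : i ≠ z := by rintro rfl; omega
      rw [ht, co_add hF, co_smul hF, co_smul hF, co_b hF hb, co_b hF hb, if_neg hiz, mul_zero, add_zero]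
      split_ifs <;> simp
    · have hir : i.rev.val = n - 1 - i.val := by rw [Fin.val_rev]; omega
      have hi2 := i.2
      unfold co
      have h3 : b i.rev = k⁻¹ • (c.1.1 *ᵥ b i.rev) := by
        rw [hbi i.rev (by omega), smul_smul, inv_mul_cancel₀ hk0, one_smul]
      rw [h3, H.smul_right, U_form, hb, sig_inv_self hF hk]
      by_cases hij2 : i = j
      · rw [if_pos hij2, if_pos (by rw [hij2]), mul_one]
      · rw [if_neg hij2, if_neg (fun h => hij2 (Fin.rev_injective h)), mul_zero]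
  have hkn := pow_of_diag hF hb h2
  obtain ⟨ζ, hζ, hζv⟩ := exists_scalar' hF hb hn (k := k⁻¹) (by rw [sig_inv_self hF hk, inv_mul_cancel₀ hk0])
    (by rw [inv_pow, hkn, inv_one])
  apply mem_sup_center hζ
  refine ⟨fun w hw => ?_, fun w hw => ?_⟩
  · rw [U_mul_mulVec, hζv, Matrix.mulVec_smul, hW w hw, smul_smul, inv_mul_cancel₀ hk0, one_smul]
  · obtain ⟨t, ht⟩ := h1 w hw
    rw [U_mul_mulVec, hζv, Matrix.mulVec_smul, ht, smul_add, smul_smul, inv_mul_cancel₀ hk0, one_smul, add_sub_cancel_left,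
      smul_smul]
    exact hzL.smul hF _

end fin

end Cfsg.Agent.Lib.UnCrit
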