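import Cfsg.Agent.Lib.UnCrit3

/-! Generation of the normalizer of the Sylow subgroup of `SU_n(q)` in the natural characteristic. -/

set_option autoImplicit false

namespace Cfsg.Agent.Lib.UnCrit

open Matrix
open Cfsg Cfsg.Agent.Lib.ClUnitary Cfsg.Agent.Lib.HermMat Cfsg.Agent.Lib.UnTrans Cfsg.Agent.Lib.UnBridge
open Cfsg.Agent.Lib.PSUAut Cfsg.Agent.Lib.FlagSylow

variable {n : ℕ} {F : Type*} [Field F] {q : ℕ}

section fin

variable [Fintype F] (hF : Fintype.card F = q ^ 2)

/-- the unipotent element of the unitary group of dimension three -/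
theorem swap3 {e f w : Fin n → F} (he : hermForm n F q e e = 0) (hf : hermForm n F q f f = 0)
    (hef : hermForm n F q e f = 1) (hw : hermForm n F q w w = 1) (hwe : hermForm n F q w e = 0)
    (hwf : hermForm n F q w f = 0) {H : Subgroup (SU n F q)}
    (hH1 : ∀ u c : F, Cond hF e (u • w) c → rE hF e (u • w) c ∈ H) (hH2 : ∀ u c : F, Cond hF f (u • w) c → rE hF f (u • w) c ∈ H)
    {c : F} (hc : c ≠ 0) : ∃ s ∈ H, s.1.1 *ᵥ f = c • e ∧ s.1.1 *ᵥ e = (sig hF c)⁻¹ • f ∧
      ∀ x, hermForm n F q x e = 0 → hermForm n F q x f = 0 → hermForm n F q x w = 0 → s.1.1 *ᵥ x = x := by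
  have K := herm_HS n hF
  have hfe : hermForm n F q f e = 1 := by rw [K.herm, hef, map_one]
  have hew : hermForm n F q e w = 0 := K.symm_zero hwe
  have hfw : hermForm n F q f w = 0 := K.symm_zero hwf
  have hσc : sig hF c ≠ 0 := K.sigma_ne hc
  obtain ⟨u, hu⟩ := K.norm (-(c + sig hF c)) (by rw [map_neg, map_add, K.inv, add_comm])
  have C1 : Cond hF e (u • w) c := by
    refine ⟨he, by rw [K.smul_left, hwe, mul_zero], ?_⟩
    rw [K.smul_left, K.smul_right, hw]; linear_combination hu
  have C2 : Cond hF f ((-u / c) • w) (sig hF c)⁻¹ := by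
    refine ⟨hf, by rw [K.smul_left, hwf, mul_zero], ?_⟩
    rw [K.smul_left, K.smul_right, hw, map_inv₀, K.inv, map_div₀, map_neg]
    field_simp
    linear_combination hu
  have C3 : Cond hF f ((-u / sig hF c) • w) (sig hF c)⁻¹ := by
    refine ⟨hf, by rw [K.smul_left, hwf, mul_zero], ?_⟩
    rw [K.smul_left, K.smul_right, hw, map_inv₀, K.inv, map_div₀, map_neg, K.inv]
    field_simp
    linear_combination hu
  refine ⟨_, H.mul_mem (H.mul_mem (hH2 _ _ C2) (hH1 _ _ C1)) (hH2 _ _ C3), ?_, ?_, ?_⟩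
  · simp only [U_mul_mulVec]
    rw [rE_mulVec hF C3, hf]
    simp only [K.smul_right, hfw, mul_zero, zero_smul, add_zero, sub_zero]
    rw [rE_mulVec hF C1, hfe]
    simp only [K.smul_right, hfw, mul_zero, zero_smul, sub_zero]
    rw [rE_mulVec hF C2]
    simp only [K.add_left, K.smul_left, K.smul_right, hf, hfw, hwf, hef, hew, hw, mul_zero, zero_add, add_zero, mul_one,
      map_div₀, map_neg]
    match_scalars
    · field_simp
      linear_combination hu
    · field_simp
      ring
    · ring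
  · simp only [U_mul_mulVec]
    rw [rE_mulVec hF C3, hef]
    simp only [K.smul_right, hew, mul_zero, zero_smul, sub_zero]
    rw [rE_mulVec hF C1]
    simp only [K.add_left, K.smul_left, K.smul_right, he, hew, hwe, hfe, hfw, hw, mul_zero, zero_add, add_zero, mul_one,
      map_div₀, map_neg]
    rw [rE_mulVec hF C2]
    simp only [K.add_left, K.sub_left, K.smul_left, K.smul_right, he, hf, hfw, hwf, hef, hew, hw, mul_zero, zero_add,
      add_zero, mul_one, map_div₀, map_neg, sub_zero]
    match_scalars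
    · field_simp
      linear_combination hu
    · field_simp
      linear_combination (-u) * hu
    · field_simp
      linear_combination hu
  · intro x h1 h2 h3
    simp only [U_mul_mulVec]
    rw [rE_mulVec hF C3, rE_mulVec hF C1, rE_mulVec hF C2]
    simp only [K.add_left, K.sub_left, K.smul_left, K.smul_right, h1, h2, h3, mul_zero, zero_smul, add_zero, sub_zero]

omit [Fintype F] in
theorem conj_closure_mem {G : Type*} [Group G] {R : Subgroup G} {p : ℕ} {x : G}
    (hx : x ∈ Subgroup.normalizer (R : Set G)) (hp : ∃ k : ℕ, orderOf x = p ^ k) :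
    x ∈ Subgroup.closure {x : G | x ∈ Subgroup.normalizer (R : Set G) ∧ ∃ k : ℕ, orderOf x = p ^ k} :=
  Subgroup.subset_closure ⟨hx, hp⟩

variable {b : Fin n → Fin n → F} (hb : Gram q b) (p : ℕ) [Fact p.Prime] [CharP F p]

include hF in
theorem rE_orderOf (hn : 1 ≤ n) {e u : Fin n → F} {c : F} (hC : Cond hF e u c) : ∃ k : ℕ, orderOf (rE hF e u c) = p ^ k := by
  obtain ⟨k, -, hk⟩ := (Nat.dvd_prime_pow (Fact.out : p.Prime)).mp
    (orderOf_dvd_of_pow_eq_one (QU_pow hF hn (p := p) (rE_mem_QU hF hC)))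
  exact ⟨k, hk⟩

include hF hb in
/-- the relevant generation statement -/
theorem normalizer_gen (hn : 4 ≤ n) {g : SU n F q}
    (hg : g ∈ Subgroup.normalizer ((U hF hb : Subgroup (SU n F q)) : Set (SU n F q))) :
    g ∈ Subgroup.closure {h : SU n F q | h ∈ Subgroup.normalizer ((U hF hb : Subgroup (SU n F q)) : Set (SU n F q)) ∧
    ∃ Q : Subgroup (SU n F q), Q ≤ U hF hb ∧ U hF hb ≤ Subgroup.normalizer (Q : Set (SU n F q)) ∧
      (∀ c : SU n F q, (∀ r ∈ Q, c * r = r * c) → c ∈ Q ⊔ Subgroup.center (SU n F q)) ∧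
      h ∈ Subgroup.closure {x : SU n F q | x ∈ Subgroup.normalizer (Q : Set (SU n F q)) ∧ ∃ k : ℕ, orderOf x = p ^ k}} := by
  set A := {h : SU n F q | h ∈ Subgroup.normalizer ((U hF hb : Subgroup (SU n F q)) : Set (SU n F q)) ∧
    ∃ Q : Subgroup (SU n F q), Q ≤ U hF hb ∧ U hF hb ≤ Subgroup.normalizer (Q : Set (SU n F q)) ∧
      (∀ c : SU n F q, (∀ r ∈ Q, c * r = r * c) → c ∈ Q ⊔ Subgroup.center (SU n F q)) ∧
      h ∈ Subgroup.closure {x : SU n F q | x ∈ Subgroup.normalizer (Q : Set (SU n F q)) ∧ ∃ k : ℕ, orderOf x = p ^ k}} with hA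
  have H := herm_HS n hF
  set m := n / 2 with hm
  let z : Fin n := ⟨0, by omega⟩
  let o : Fin n := ⟨1, by omega⟩
  have hz : z.val = 0 := rfl
  have ho : o.val = 1 := rfl
  have hzo : o ≠ z := fun h => by have := congrArg Fin.val h; omega
  have hform : ∀ {x y : Fin n → F}, Lt q b m x → Lt q b m y → hermForm n F q x y = 0 := fun hx hy =>
    hx.form hF hb hy (by omega)
  -- the two parabolic radicals
  have hnormQ : ∀ x : SU n F q, x.1.1 *ᵥ b z = b z → x ∈ Subgroup.normalizer ((QU q (b z) : Subgroup (SU n F q)) : Set (SU n F q)) := by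
    intro x hx
    rw [Subgroup.mem_normalizer_iff]
    intro y
    refine ⟨fun hy => QU_normalized hx hy, fun hy => ?_⟩
    have hx' : (x⁻¹).1.1 *ᵥ b z = b z := by
      nth_rewrite 1 [← hx]; exact U_inv_mulVec x _
    have h1 := QU_normalized hx' hy
    have h2 : x⁻¹ * (x * y * x⁻¹) * x⁻¹⁻¹ = y := by group
    rwa [h2] at h1
  have hQ1 : ∀ h : SU n F q, h ∈ Subgroup.normalizer ((U hF hb : Subgroup (SU n F q)) : Set (SU n F q)) →
      h ∈ Subgroup.closure {x : SU n F q | x ∈ Subgroup.normalizer ((QU q (b z) : Subgroup (SU n F q)) : Set (SU n F q)) ∧ ∃ k : ℕ, orderOf x = p ^ k} →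
      h ∈ Subgroup.closure A := by
    intro h h1 h2
    exact Subgroup.subset_closure ⟨h1, QU q (b z), QU_le_U hF hb (by omega), fun u hu => hnormQ u (U_fix_zero hF hb (by omega) hu),
      fun c hc => centralizer_QU hF hb (by omega) hc, h2⟩
  have hQ2 : ∀ h : SU n F q, h ∈ Subgroup.normalizer ((U hF hb : Subgroup (SU n F q)) : Set (SU n F q)) →
      h ∈ Subgroup.closure {x : SU n F q | x ∈ Subgroup.normalizer ((RW hF b : Subgroup (SU n F q)) : Set (SU n F q)) ∧ ∃ k : ℕ, orderOf x = p ^ k} →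
      h ∈ Subgroup.closure A := by
    intro h h1 h2
    refine Subgroup.subset_closure ⟨h1, RW hF b, RW_le_U hF hb, fun u hu => mem_normalizer_RW hF hb fun w hw => ?_,
      fun c hc => centralizer_RW hF hb (by omega) hc, h2⟩
    refine Lt.mulVec hF hb (fun l hl => ?_) hw
    have h3 := (mem_U_iff hF hb).1 hu l
    have h4 : u.1.1 *ᵥ b l = (u.1.1 *ᵥ b l - b l) + b l := by abel
    rw [h4]
    exact (h3.mono (by omega)).add hF (lt_b hF hb hl)
  -- elements of U
  have hUA : ∀ u ∈ U hF hb, u ∈ Subgroup.closure A := by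
    intro u hu
    refine hQ1 u (Subgroup.le_normalizer hu) (Subgroup.subset_closure ⟨hnormQ u (U_fix_zero hF hb (by omega) hu), ?_⟩)
    obtain ⟨P, hP⟩ := exists_sylow_U hF hb (p := p)
    have hUp : IsPGroup p (U hF hb) := hP ▸ P.isPGroup'
    obtain ⟨k, hk⟩ := (IsPGroup.iff_orderOf.mp hUp) ⟨_, hu⟩
    exact ⟨k, by rw [← hk]; exact (Subgroup.orderOf_mk u hu).symm⟩
  -- the torus of the Levi factor of the stabilizer of `W`
  set KW := Subgroup.closure {x : SU n F q | x ∈ Subgroup.normalizer ((RW hF b : Subgroup (SU n F q)) : Set (SU n F q)) ∧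
      ∃ k : ℕ, orderOf x = p ^ k} with hKW
  have hsh : ∀ i j : Fin n, i.val < m → j.val < m → i ≠ j → ∀ t : F, ∃ s ∈ KW, ∀ w, Lt q b m w →
      s.1.1 *ᵥ w = w + (t * co q b j w) • b i := by
    intro i j hi hj hij t
    have hjr : j.rev.val = n - 1 - j.val := by rw [Fin.val_rev]; omega
    have hjn := j.2
    have e1 : hermForm n F q (b i) (b i) = 0 := hform (lt_b hF hb hi) (lt_b hF hb hi)
    have e2 : hermForm n F q (b j.rev) (b i) = 0 := by
      rw [hb, Fin.rev_rev, if_neg hij]
    have e3 : hermForm n F q (b j.rev) (b j.rev) = 0 := hne_form hF hb (by omega)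
    have hC : Cond hF (b i) ((-sig hF t) • b j.rev) 0 :=
      ⟨e1, by rw [H.smul_left, e2, mul_zero], by rw [H.smul_left, H.smul_right, e3, map_zero]; ring⟩
    have hact : ∀ w, Lt q b m w → (rE hF (b i) ((-sig hF t) • b j.rev) 0).1.1 *ᵥ w = w + (t * co q b j w) • b i := by
      intro w hw
      rw [rE_mulVec hF hC, hform hw (lt_b hF hb hi), H.smul_right, form_b, Fin.rev_rev, map_neg, H.inv]
      module
    refine ⟨_, Subgroup.subset_closure ⟨mem_normalizer_RW hF hb fun w hw => ?_, rE_orderOf hF p (by omega) hC⟩, hact⟩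
    rw [hact w hw]
    exact hw.add hF ((lt_b hF hb hi).smul hF _)
  have hn' : ∀ k : Fin n, k.val < m → k ≠ z → ∀ t : F, t ≠ 0 → ∃ s ∈ KW, s.1.1 *ᵥ b z = (-t⁻¹) • b k ∧ s.1.1 *ᵥ b k = t • b z ∧
      ∀ i : Fin n, i.val < m → i ≠ z → i ≠ k → s.1.1 *ᵥ b i = b i := by
    intro k hk hkz t ht
    obtain ⟨x, hx, hx'⟩ := hsh z k (by omega) hk hkz.symm t
    obtain ⟨y, hy, hy'⟩ := hsh k z hk (by omega) hkz (-t⁻¹)
    have x1 : x.1.1 *ᵥ b z = b z := by
      rw [hx' _ (lt_b hF hb (by omega)), co_b hF hb, if_neg hkz, mul_zero, zero_smul, add_zero]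
    have x2 : x.1.1 *ᵥ b k = b k + t • b z := by
      rw [hx' _ (lt_b hF hb hk), co_b hF hb, if_pos rfl, mul_one]
    have y1 : y.1.1 *ᵥ b z = b z + (-t⁻¹) • b k := by
      rw [hy' _ (lt_b hF hb (by omega)), co_b hF hb, if_pos rfl, mul_one]
    have y2 : y.1.1 *ᵥ b k = b k := by
      rw [hy' _ (lt_b hF hb hk), co_b hF hb, if_neg hkz.symm, mul_zero, zero_smul, add_zero]
    refine ⟨x * y * x, KW.mul_mem (KW.mul_mem hx hy) hx, ?_, ?_, ?_⟩
    · simp only [U_mul_mulVec, Matrix.mulVec_add, Matrix.mulVec_smul, x1, x2, y1]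
      match_scalars <;> field_simp <;> ring
    · simp only [U_mul_mulVec, Matrix.mulVec_add, Matrix.mulVec_smul, x1, x2, y1, y2]
      match_scalars <;> field_simp <;> ring
    · intro i hi hiz hik
      have x3 : x.1.1 *ᵥ b i = b i := by
        rw [hx' _ (lt_b hF hb hi), co_b hF hb, if_neg (Ne.symm hik), mul_zero, zero_smul, add_zero]
      have y3 : y.1.1 *ᵥ b i = b i := by
        rw [hy' _ (lt_b hF hb hi), co_b hF hb, if_neg (Ne.symm hiz), mul_zero, zero_smul, add_zero]
      simp only [U_mul_mulVec, x3, y3]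
  have hdiag : ∀ (s : SU n F q) (d : Fin n → F), (∀ i : Fin n, i.val < m → s.1.1 *ᵥ b i = d i • b i) →
      UppTri (rho hF hb s) ∧ ∀ i : Fin n, i.val < m → rho hF hb s i i = d i := by
    intro s d hs
    refine ⟨uppTri_of_half hF hb fun j hj => ?_, fun i hi => ?_⟩
    · rw [hs j hj]; exact (lt_b hF hb (by omega)).smul hF _
    · rw [rho_apply, hs i hi, co_smul hF, co_b hF hb, if_pos rfl, mul_one]
  have hAk : ∀ k : Fin n, k.val < m → k ≠ z → ∀ t : F, t ≠ 0 → ∃ s ∈ Subgroup.closure A, UppTri (rho hF hb s) ∧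
      rho hF hb s z z = t⁻¹ ∧ rho hF hb s k k = t ∧ ∀ i : Fin n, i.val < m → i ≠ z → i ≠ k → rho hF hb s i i = 1 := by
    intro k hk hkz t ht
    obtain ⟨x, hx, x1, x2, x3⟩ := hn' k hk hkz t⁻¹ (inv_ne_zero ht)
    obtain ⟨y, hy, y1, y2, y3⟩ := hn' k hk hkz (-1) (neg_ne_zero.2 one_ne_zero)
    have h1 : ∀ i : Fin n, i.val < m → (x * y).1.1 *ᵥ b i = (if i = z then t⁻¹ else if i = k then t else 1 : F) • b i := by
      intro i hi
      rw [U_mul_mulVec]
      by_cases hiz : i = z
      · subst hiz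
        rw [if_pos rfl, y1, Matrix.mulVec_smul, x2]
        match_scalars; ring
      by_cases hik : i = k
      · subst hik
        rw [if_neg hiz, if_pos rfl, y2, Matrix.mulVec_smul, x1, inv_inv]
        match_scalars; ring
      · rw [if_neg hiz, if_neg hik, y3 i hi hiz hik, x3 i hi hiz hik, one_smul]
    obtain ⟨h2, h3⟩ := hdiag _ _ h1
    refine ⟨x * y, hQ2 _ (mem_normalizer_U hF hb h2) (KW.mul_mem hx hy), h2, ?_, ?_, ?_⟩
    · rw [h3 z (by omega), if_pos rfl]
    · rw [h3 k hk, if_neg hkz, if_pos rfl]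
    · intro i hi hiz hik
      rw [h3 i hi, if_neg hiz, if_neg hik]
  -- the torus at the position `1`
  set K1 := Subgroup.closure {x : SU n F q | x ∈ Subgroup.normalizer ((QU q (b z) : Subgroup (SU n F q)) : Set (SU n F q)) ∧
      ∃ k : ℕ, orderOf x = p ^ k} with hK1
  have hor : o.rev.val = n - 2 := by rw [Fin.val_rev]
  have eoo : hermForm n F q (b o) (b o) = 0 := hne_form hF hb (by omega)
  have err : hermForm n F q (b o.rev) (b o.rev) = 0 := hne_form hF hb (by omega)
  have eor : hermForm n F q (b o) (b o.rev) = 1 := by rw [hb, if_pos rfl]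
  have ezo : hermForm n F q (b z) (b o) = 0 := hne_form hF hb (by omega)
  have ezr : hermForm n F q (b z) (b o.rev) = 0 := hne_form hF hb (by omega)
  have ero : hermForm n F q (b o.rev) (b o) = 1 := by rw [hb, Fin.rev_rev, if_pos rfl]
  have hh : ∀ t : F, t ≠ 0 → (2 * m = n → sig hF t = t) → ∃ s ∈ K1, s.1.1 *ᵥ b o = t • b o ∧
      ∀ i : Fin n, i.val < m → i ≠ o → s.1.1 *ᵥ b i = b i := by
    intro t ht ht'
    have hio : ∀ i : Fin n, i.val < m → i ≠ o → hermForm n F q (b i) (b o) = 0 ∧ hermForm n F q (b i) (b o.rev) = 0 := by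
      intro i hi hio
      have h2 : i.val ≠ o.val := fun h => hio (Fin.ext h)
      exact ⟨hne_form hF hb (by omega), hne_form hF hb (by omega)⟩
    by_cases hpar : 2 * m = n
    · obtain ⟨a, ha0, ha⟩ := H.exists_tr0
      have ha' : (-t * a) + sig hF (-t * a) = 0 := by
        rw [map_mul, map_neg, ht' hpar]; linear_combination (-t) * ha
      have hta : -t * a ≠ 0 := mul_ne_zero (neg_ne_zero.2 ht) ha0
      have hmem : ∀ c, c + sig hF c = 0 → nn hF c (b o) (b o.rev) ∈ K1 := by
        intro c hc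
        have k1 : ∀ d, d + sig hF d = 0 → tU hF d (b o) ∈ K1 := fun d hd => Subgroup.subset_closure
          ⟨hnormQ _ (by rw [tU_mulVec hF eoo hd, ezo, mul_zero, zero_smul, add_zero]),
            rE_orderOf hF p (by omega) (cond_zero hF eoo hd)⟩
        have k2 : ∀ d, d + sig hF d = 0 → tU hF d (b o.rev) ∈ K1 := fun d hd => Subgroup.subset_closure
          ⟨hnormQ _ (by rw [tU_mulVec hF err hd, ezr, mul_zero, zero_smul, add_zero]),
            rE_orderOf hF p (by omega) (cond_zero hF err hd)⟩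
        exact K1.mul_mem (K1.mul_mem (k1 _ hc) (k2 _ (tr_neg_inv hF hc))) (k1 _ hc)
      refine ⟨nn hF (-t * a) (b o) (b o.rev) * nn hF a (b o) (b o.rev), K1.mul_mem (hmem _ ha') (hmem _ ha), ?_, ?_⟩
      · rw [U_mul_mulVec, nn_e hF eoo err eor ha ha0, Matrix.mulVec_smul, nn_f hF eoo err eor ha' hta, smul_smul]
        congr 1
        field_simp
      · intro i hi hio'
        obtain ⟨i1, i2⟩ := hio i hi hio'
        rw [U_mul_mulVec, nn_w hF eoo err ha i1 i2, nn_w hF eoo err ha' i1 i2]
    · -- the odd case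
      let c : Fin n := ⟨m, by omega⟩
      have hcv : c.val = m := rfl
      have hcr : c = c.rev := by apply Fin.ext; rw [Fin.val_rev]; omega
      have ecc : hermForm n F q (b c) (b c) = 1 := by rw [hb, if_pos hcr]
      have eco : hermForm n F q (b c) (b o) = 0 := hne_form hF hb (by omega)
      have ecr : hermForm n F q (b c) (b o.rev) = 0 := hne_form hF hb (by omega)
      have ezc : hermForm n F q (b z) (b c) = 0 := hne_form hF hb (by omega)
      have k1 : ∀ u d : F, Cond hF (b o) (u • b c) d → rE hF (b o) (u • b c) d ∈ K1 := fun u d hC => Subgroup.subset_closure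
          ⟨hnormQ _ (by rw [rE_mulVec hF hC, ezo, H.smul_right, ezc]; simp), rE_orderOf hF p (by omega) hC⟩
      have k2 : ∀ u d : F, Cond hF (b o.rev) (u • b c) d → rE hF (b o.rev) (u • b c) d ∈ K1 := fun u d hC => Subgroup.subset_closure
          ⟨hnormQ _ (by rw [rE_mulVec hF hC, ezr, H.smul_right, ezc]; simp), rE_orderOf hF p (by omega) hC⟩
      obtain ⟨x, hx, x1, x2, x3⟩ := swap3 hF eoo err eor ecc eco ecr k1 k2 ht
      obtain ⟨y, hy, y1, y2, y3⟩ := swap3 hF eoo err eor ecc eco ecr k1 k2 (one_ne_zero (α := F))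
      refine ⟨x * y, K1.mul_mem hx hy, ?_, ?_⟩
      · rw [U_mul_mulVec, y2, map_one, inv_one, one_smul, x1]
      · intro i hi hio'
        obtain ⟨i1, i2⟩ := hio i hi hio'
        have i3 : hermForm n F q (b i) (b c) = 0 := hne_form hF hb (by omega)
        rw [U_mul_mulVec, y3 _ i1 i2 i3, x3 _ i1 i2 i3]
  have hh1 : ∀ t : F, t ≠ 0 → (2 * m = n → sig hF t = t) → ∃ s ∈ Subgroup.closure A, UppTri (rho hF hb s) ∧
      rho hF hb s o o = t ∧ ∀ i : Fin n, i.val < m → i ≠ o → rho hF hb s i i = 1 := by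
    intro t ht ht'
    obtain ⟨s, hs, s1, s2⟩ := hh t ht ht'
    obtain ⟨h2, h3⟩ := hdiag s (fun i => if i = o then t else 1) (by
      intro i hi
      by_cases hio : i = o
      · rw [if_pos hio, hio, s1]
      · rw [if_neg hio, s2 i hi hio, one_smul])
    refine ⟨s, hQ1 _ (mem_normalizer_U hF hb h2) hs, h2, ?_, ?_⟩
    · rw [h3 o (by omega), if_pos rfl]
    · intro i hi hio
      rw [h3 i hi, if_neg hio]
  -- induction
  have hP0 : ∀ g : SU n F q, UppTri (rho hF hb g) → (∀ i : Fin n, i.val < m → rho hF hb g i i = 1) → g ∈ U hF hb := by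
    intro g hg hd
    have h1 : ∀ i : Fin n, i ≠ i.rev → rho hF hb g i i = 1 := by
      intro i hi
      have hi' : i.val ≠ i.rev.val := fun h => hi (Fin.ext h)
      have hir : i.rev.val = n - 1 - i.val := by rw [Fin.val_rev]; omega
      have hi2 := i.2
      by_cases c1 : i.val < m
      · exact hd i c1
      · have h2 := diag_rev hF hb hg i
        rw [hd i.rev (by omega), map_one, mul_one] at h2
        exact h2
    rw [mem_U, uniTri_iff]
    refine ⟨hg, fun i => ?_⟩
    by_cases hi : i = i.rev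
    · have h2 := prod_diag hF hb hg
      rw [Fintype.prod_eq_single i] at h2
      · exact h2
      · intro j hj
        apply h1
        intro hj'
        apply hj
        have e1 := congrArg Fin.val hi
        have e2 := congrArg Fin.val hj'
        rw [Fin.val_rev] at e1 e2
        apply Fin.ext
        omega
    · exact h1 i hi
  have hP1 : ∀ g : SU n F q, UppTri (rho hF hb g) → (∀ i : Fin n, i.val < m → i ≠ z → rho hF hb g i i = 1) →
      g ∈ Subgroup.closure A := by
    intro g hg hd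
    set y := rho hF hb g z z with hy
    have hy0 : y ≠ 0 := by
      intro h
      have := diag_rev hF hb hg z
      rw [← hy, h, zero_mul] at this
      exact zero_ne_one this
    have hys : 2 * m = n → sig hF y = y := by
      intro hpar
      have h1 : ∀ i : Fin n, i ≠ z ∧ i ≠ z.rev → rho hF hb g i i = 1 := by
        rintro i ⟨hi1, hi2⟩
        have hir : i.rev.val = n - 1 - i.val := by rw [Fin.val_rev]; omega
        have hi3 := i.2
        by_cases c1 : i.val < m
        · exact hd i c1 hi1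
        · have h2 := diag_rev hF hb hg i
          rw [hd i.rev (by omega) (fun h => hi2 (by rw [← h, Fin.rev_rev])), map_one, mul_one] at h2
          exact h2
      have h2 := prod_diag hF hb hg
      have hzr : z.rev.val = n - 1 := by rw [Fin.val_rev]
      rw [Fintype.prod_eq_mul z z.rev (fun h => by have := congrArg Fin.val h; omega) h1, ← hy] at h2
      have h3 := diag_rev hF hb hg z
      rw [← hy] at h3
      have h4 := congrArg (sig hF) h3
      rw [map_mul, H.inv, map_one] at h4
      -- σ(y) d = 1, y d = 1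
      have h5 : rho hF hb g z.rev z.rev ≠ 0 := by
        intro h; rw [h, mul_zero] at h2; exact zero_ne_one h2
      exact mul_right_cancel₀ h5 (by rw [h4, h2])
    obtain ⟨a, ha, a1, a2, a3, a4⟩ := hAk o (by omega) hzo y hy0
    obtain ⟨h, hhm, h1, h2, h3⟩ := hh1 y⁻¹ (inv_ne_zero hy0) (fun e => by rw [map_inv₀, hys e])
    have hU : g * a * h ∈ U hF hb := by
      refine hP0 _ ?_ fun i hi => ?_
      · rw [map_mul, map_mul]; exact (hg.mul a1).mul h1
      · rw [map_mul, map_mul, (hg.mul a1).mul_diag h1, hg.mul_diag a1]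
        by_cases hiz : i = z
        · rw [hiz, ← hy, a2, h3 z (by omega) hzo.symm, mul_one, mul_inv_cancel₀ hy0]
        by_cases hio : i = o
        · rw [hio, hd o (by omega) hzo, a3, h2, one_mul, mul_inv_cancel₀ hy0]
        · rw [hd i hi hiz, a4 i hi hiz hio, h3 i hi hio, mul_one, mul_one]
    have h4 : g = g * a * h * h⁻¹ * a⁻¹ := by group
    rw [h4]
    exact Subgroup.mul_mem _ (Subgroup.mul_mem _ (hUA _ hU) (Subgroup.inv_mem _ hhm)) (Subgroup.inv_mem _ ha)
  have hP : ∀ k : ℕ, k < m → ∀ g : SU n F q, UppTri (rho hF hb g) →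
      (∀ i : Fin n, i.val < m → k < i.val → rho hF hb g i i = 1) → g ∈ Subgroup.closure A := by
    intro k
    induction k with
    | zero =>
      intro _ g hg hd
      refine hP1 g hg fun i hi hiz => hd i hi ?_
      have : i.val ≠ z.val := fun h => hiz (Fin.ext h)
      omega
    | succ k ih =>
      intro hk g hg hd
      let j : Fin n := ⟨k + 1, by omega⟩
      have hj : j.val = k + 1 := rfl
      have hjz : j ≠ z := fun h => by have := congrArg Fin.val h; omega
      set y := rho hF hb g j j with hy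
      have hy0 : y ≠ 0 := by
        intro h
        have := diag_rev hF hb hg j
        rw [← hy, h, zero_mul] at this
        exact zero_ne_one this
      obtain ⟨a, ha, a1, a2, a3, a4⟩ := hAk j (by omega) hjz y⁻¹ (inv_ne_zero hy0)
      have h1 : g * a ∈ Subgroup.closure A := by
        refine ih (by omega) _ (by rw [map_mul]; exact hg.mul a1) fun i hi hki => ?_
        rw [map_mul, hg.mul_diag a1]
        by_cases hij : i = j
        · rw [hij, a3, ← hy, mul_inv_cancel₀ hy0]
        · have h2 : i.val ≠ j.val := fun h => hij (Fin.ext h)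
          rw [hd i hi (by omega), a4 i hi (fun h => by have := congrArg Fin.val h; omega) hij, mul_one]
      have h2 : g = g * a * a⁻¹ := by group
      rw [h2]
      exact Subgroup.mul_mem _ h1 (Subgroup.inv_mem _ ha)
  have hupp : UppTri (rho hF hb g) := uppTri_of_normalizes (rho hF hb) (U := U hF hb) (fun u hu => hu) (flagFix hF hb) (g := g) (by
    intro u hu
    apply (Subgroup.mem_normalizer_iff.mp hg _).mpr
    have : g * (g⁻¹ * u * g) * g⁻¹ = u := by group
    rw [this]; exact hu)
  exact hP (m - 1) (by omega) g hupp (fun i hi hi' => absurd hi' (by omega))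

include hF in
/-- the center has order prime to `p` -/
theorem center_coprime (hn : 2 ≤ n) : (Nat.card (Subgroup.center (SU n F q))).Coprime p := by
  rw [Nat.coprime_comm, Nat.Prime.coprime_iff_not_dvd Fact.out]
  intro hdvd
  obtain ⟨z, hz⟩ := exists_prime_orderOf_dvd_card' p hdvd
  obtain ⟨c, hc⟩ := (mem_center_iff' hF hn _).1 z.2
  have h1 : (z : SU n F q) ^ p = 1 := by
    have := pow_orderOf_eq_one z
    rw [hz] at this
    exact congrArg Subtype.val this
  have h2 : ∀ k : ℕ, ∀ v, ((z : SU n F q) ^ k).1.1 *ᵥ v = c ^ k • v := by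
    intro k
    induction k with
    | zero => intro v; rw [pow_zero, pow_zero, one_smul]; exact Matrix.one_mulVec v
    | succ k ih => intro v; rw [pow_succ', U_mul_mulVec, ih, Matrix.mulVec_smul, hc, smul_smul, pow_succ]
  have h3 := h2 p (Pi.single ⟨0, by omega⟩ 1)
  rw [h1, U_one_mulVec] at h3
  have h5 := congrFun h3 ⟨0, by omega⟩
  rw [Pi.smul_apply, Pi.single_eq_same, smul_eq_mul, mul_one] at h5
  have h6 : (c - 1) ^ p = 0 := by rw [sub_pow_char, ← h5, one_pow, sub_self]
  have h7 : c = 1 := sub_eq_zero.mp (pow_eq_zero_iff (Fact.out : p.Prime).ne_zero |>.mp h6)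
  have hz1 : z = 1 := by
    apply Subtype.ext
    apply U_ext
    intro x
    rw [hc, h7, one_smul]; exact (Matrix.one_mulVec x).symm
  rw [hz1, orderOf_one] at hz
  exact (Fact.out : p.Prime).one_lt.ne hz

end fin

end Cfsg.Agent.Lib.UnCrit
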