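import Cfsg.Agent.Lib.UnMaxi
set_option autoImplicit false
set_option linter.style.haveILetI false
set_option linter.unusedVariables false
set_option linter.unusedSectionVars false

/-!
The special unitary groups over the field with four elements: decompositions into planes and tensor decompositions with a factor
of dimension two.
-/

namespace Cfsg.Agent.Lib.UnNot

open Cfsg Cfsg.Geo Cfsg.Agent.Lib.AschMU Cfsg.Agent.Lib.AschCore Cfsg.Agent.Lib.AschField Cfsg.Agent.Lib.AschAlg
  Cfsg.Agent.Lib.AschGroup Cfsg.Agent.Lib.AschGood Cfsg.Agent.Lib.AschNonab Cfsg.Agent.Lib.AschTensor Cfsg.Agent.Lib.AschComp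
  Cfsg.Agent.Lib.AschAdj Cfsg.Agent.Lib.SLGeom Cfsg.Agent.Lib.HermMat Cfsg.Agent.Lib.UnBridge Cfsg.Agent.Lib.UnTrans
open scoped Matrix MatrixGroups Kronecker commutatorElement
open Matrix (vecMulVec)

section four
variable {F : Type*} [Field F] [Fintype F]

lemma two_eq_zero (hF : Fintype.card F = 2 ^ 2) : (2 : F) = 0 := by
  have h1 := Nat.cast_card_eq_zero F
  rw [hF] at h1
  push_cast at h1
  have h2 : (2 : F) ^ 2 = 0 := by
    rw [show (2 : F) ^ 2 = 4 by norm_num]; exact h1
  exact pow_eq_zero_iff (two_ne_zero) |>.1 h2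

lemma cube_eq_one (hF : Fintype.card F = 2 ^ 2) {x : F} (hx : x ≠ 0) : x ^ 3 = 1 := by
  have := FiniteField.pow_card_sub_one_eq_one x hx
  rwa [hF] at this

variable {V : Type*} [AddCommGroup V] [Module F V] [FiniteDimensional F V]

/-- A nondegenerate hermitian plane over the field with four elements has exactly two nonsingular points. -/
theorem onb2 (hF : Fintype.card F = 2 ^ 2) {f : V → V → F} (H : HS (sig hF) f) {W : Submodule F V} (hW : Module.finrank F W = 2)
    (hnd : Nd f W) : ∃ e₁ ∈ W, ∃ e₂ ∈ W, f e₁ e₁ = 1 ∧ f e₂ e₂ = 1 ∧ f e₁ e₂ = 0 ∧ f e₂ e₁ = 0 ∧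
      (∀ x ∈ W, ∃ a b : F, x = a • e₁ + b • e₂) ∧
      ∀ x ∈ W, f x x ≠ 0 → (∃ c : F, c ≠ 0 ∧ x = c • e₁) ∨ (∃ c : F, c ≠ 0 ∧ x = c • e₂) := by
  have hone : ∀ x : V, f x x ≠ 0 → f x x = 1 := by
    intro x hx
    have h1 := H.self_fixed x
    rw [sig_apply, sq] at h1
    exact mul_right_cancel₀ hx (by rw [h1, one_mul])
  have hW0 : W ≠ ⊥ := by
    rintro rfl
    rw [finrank_bot] at hW
    omega
  obtain ⟨e₁, he₁, h11⟩ : ∃ x ∈ W, f x x ≠ 0 := by
    by_contra hcon
    push Not at hcon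
    obtain ⟨x, hx, hx0⟩ := (Submodule.ne_bot_iff W).1 hW0
    obtain ⟨y, hy, hxy⟩ := hnd x hx hx0
    exact hxy (H.eq_zero_of_iso hcon hx hy)
  have h11' := hone e₁ h11
  have hfr := HS.finrank_inf_ker W (H.fl e₁)
  set U : Submodule F V := W ⊓ LinearMap.ker (H.fl e₁) with hU
  have hUW : U < W := by
    refine lt_of_le_of_ne inf_le_left ?_
    intro h
    have : e₁ ∈ U := by rw [h]; exact he₁
    exact h11 this.2
  have hU1 : Module.finrank F U = 1 := by
    have := Submodule.finrank_lt_finrank_of_lt hUW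
    omega
  obtain ⟨⟨e₂, he₂⟩, he20, hspan⟩ := finrank_eq_one_iff'.1 hU1
  have he20' : e₂ ≠ 0 := fun h => he20 (Subtype.ext h)
  have hspan' : ∀ y ∈ U, ∃ c : F, y = c • e₂ := by
    intro y hy
    obtain ⟨c, hc⟩ := hspan ⟨y, hy⟩
    exact ⟨c, (congrArg Subtype.val hc).symm⟩
  have h21 : f e₂ e₁ = 0 := he₂.2
  have h12 : f e₁ e₂ = 0 := H.symm_zero h21
  have hall : ∀ x ∈ W, ∃ a b : F, x = a • e₁ + b • e₂ := by
    intro x hx
    have h1 : x - f x e₁ • e₁ ∈ U := by
      refine ⟨W.sub_mem hx (W.smul_mem _ he₁), ?_⟩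
      show f (x - f x e₁ • e₁) e₁ = 0
      rw [H.sub_left, H.smul_left, h11', mul_one, sub_self]
    obtain ⟨b, hb⟩ := hspan' _ h1
    exact ⟨f x e₁, b, by rw [← hb]; abel⟩
  have h22 : f e₂ e₂ ≠ 0 := by
    intro h0
    obtain ⟨y, hy, hxy⟩ := hnd e₂ he₂.1 he20'
    obtain ⟨a, b, hab⟩ := hall y hy
    apply hxy
    rw [hab, H.add_right, H.smul_right, H.smul_right, h21, h0]
    ring
  have h22' := hone e₂ h22
  refine ⟨e₁, he₁, e₂, he₂.1, h11', h22', h12, h21, hall, ?_⟩
  intro x hx hxx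
  obtain ⟨a, b, rfl⟩ := hall x hx
  have h1 : f (a • e₁ + b • e₂) (a • e₁ + b • e₂) = a ^ 3 + b ^ 3 := by
    rw [H.add_left, H.add_right, H.add_right, H.smul_left, H.smul_left, H.smul_right, H.smul_right, H.smul_left, H.smul_left,
      H.smul_right, H.smul_right, h11', h22', h12, h21, sig_apply, sig_apply]
    ring
  rw [h1] at hxx
  by_cases ha : a = 0
  · right
    refine ⟨b, ?_, by rw [ha, zero_smul, zero_add]⟩
    rintro rfl
    apply hxx
    rw [ha]; ring
  · by_cases hb : b = 0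
    · left
      exact ⟨a, ha, by rw [hb, zero_smul, add_zero]⟩
    · exfalso
      apply hxx
      rw [cube_eq_one hF ha, cube_eq_one hF hb, one_add_one_eq_two, two_eq_zero hF]

end four

section general
variable {F : Type*} [Field F] [Fintype F] {n q : ℕ}

/-- The decomposition into the lines of an orthonormal basis. -/
theorem decomp_of_orthonormal (hF : Fintype.card F = q ^ 2) (hn : 2 ≤ n) (b : Fin n → (Fin n → F))
    (h : ∀ i j, hermForm n F q (b i) (b j) = if i = j then 1 else 0) :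
    IsNondegenerateMDecomposition (hermForm n F q) 1 (fun i => F ∙ b i) := by
  have H := herm_HS n hF
  have hb0 : ∀ i, b i ≠ 0 := by
    intro i h0
    have := h i i
    rw [h0, if_pos rfl, hermForm_zero_left] at this
    exact zero_ne_one this
  have hli : LinearIndependent F b := by
    rw [Fintype.linearIndependent_iff]
    intro g hg j
    have h1 := congrArg (fun z => hermForm n F q z (b j)) hg
    simp only [hermForm_zero_left] at h1
    have h2 := map_sum (H.fl (b j)) (fun l => g l • b l) Finset.univ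
    have h3 : ∀ z, H.fl (b j) z = hermForm n F q z (b j) := fun z => rfl
    simp only [h3, hermForm_smul_left, h] at h2
    rw [h1] at h2
    simpa using h2.symm
  refine ⟨⟨hn, one_pos, fun i => finrank_span_singleton (hb0 i), ?_, ?_⟩, ?_, ?_⟩
  · exact hli.iSupIndep_span_singleton
  · rw [Submodule.iSup_span, Set.iUnion_singleton_eq_range]
    exact hli.span_eq_top_of_card_eq_finrank' (by rw [Module.finrank_fintype_fun_eq_card])
  · intro i w hw hw0
    obtain ⟨c, rfl⟩ := Submodule.mem_span_singleton.1 hw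
    have hc : c ≠ 0 := by rintro rfl; simp at hw0
    refine ⟨⟨b i, Submodule.mem_span_singleton_self _, ?_⟩, ⟨b i, Submodule.mem_span_singleton_self _, ?_⟩⟩
    · rw [hermForm_smul_right, h, if_pos rfl, mul_one]
      exact pow_ne_zero _ hc
    · rw [hermForm_smul_left, h, if_pos rfl, mul_one]
      exact hc
  · intro i j hij u hu v hv
    obtain ⟨c, rfl⟩ := Submodule.mem_span_singleton.1 hu
    obtain ⟨d, rfl⟩ := Submodule.mem_span_singleton.1 hv
    rw [hermForm_smul_left, hermForm_smul_right, h, if_neg hij, mul_zero, mul_zero]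

/-- Criterion for an element to stabilise a decomposition. -/
theorem mem_decomposition_of {t m : ℕ} {D : Fin t → Submodule F (Fin n → F)} (hD : IsMDecomposition m D) {g : GL (Fin n) F}
    (h : ∀ i, ∃ j, (D i).map (Matrix.toLin' (g : Matrix (Fin n) (Fin n) F)) ≤ D j) : g ∈ decompositionStabilizer D := by
  have hinj : Function.Injective (Matrix.toLin' (g : Matrix (Fin n) (Fin n) F)) := by
    intro x y hxy
    rw [Matrix.toLin'_apply, Matrix.toLin'_apply] at hxy
    have := congrArg (fun z => ((g⁻¹ : GL (Fin n) F) : Matrix (Fin n) (Fin n) F) *ᵥ z) hxy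
    simpa only [gl_inv_mulVec] using this
  have heq : ∀ i, ∃ j, (D i).map (Matrix.toLin' (g : Matrix (Fin n) (Fin n) F)) = D j := by
    intro i
    obtain ⟨j, hj⟩ := h i
    refine ⟨j, Submodule.eq_of_le_of_finrank_eq hj ?_⟩
    rw [← LinearEquiv.finrank_eq (Submodule.equivMapOfInjective _ hinj (D i)), hD.finrank_eq, hD.finrank_eq]
  choose τ hτ using heq
  have hτi : Function.Injective τ := by
    intro i j hij
    by_contra hne
    have h1 : (D i).map (Matrix.toLin' (g : Matrix (Fin n) (Fin n) F)) = (D j).map (Matrix.toLin' (g : Matrix (Fin n) (Fin n) F)) := by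
      rw [hτ, hτ, hij]
    have h2 := Submodule.map_injective_of_injective hinj h1
    have h3 := (hD.indep.pairwiseDisjoint hne).eq_bot
    rw [show (D i) = D j from h2, inf_idem] at h3
    have h4 := hD.finrank_eq j
    rw [h3, finrank_bot] at h4
    exact hD.pos.ne h4
  exact ⟨Equiv.ofBijective τ (Finite.injective_iff_bijective.1 hτi), hτ⟩

/-- For `q = 2` the stabiliser of a decomposition into nondegenerate planes stabilises a decomposition into lines. -/
theorem two_spaces_le (hF : Fintype.card F = 2 ^ 2) (hn : 2 ≤ n) {t : ℕ} (htn : t * 2 = n) {D : Fin t → Submodule F (Fin n → F)}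
    (hD : IsNondegenerateMDecomposition (hermForm n F 2) 2 D) :
    ∃ E : Fin n → Submodule F (Fin n → F), IsNondegenerateMDecomposition (hermForm n F 2) 1 E ∧
      ∀ g ∈ GU n F 2, g ∈ decompositionStabilizer D → g ∈ decompositionStabilizer E := by
  have H := herm_HS n hF
  have hex := fun i => onb2 hF H (hD.decomp.finrank_eq i) (fun x hx hx0 => (hD.nondegenerate i x hx hx0).2)
  choose e₁ he₁ e₂ he₂ h11 h22 h12 h21 hall hns using hex
  let ε : Fin n ≃ Fin t × Fin 2 := (finCongr htn.symm).trans finProdFinEquiv.symm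
  let b' : Fin t × Fin 2 → (Fin n → F) := fun x => if x.2 = 0 then e₁ x.1 else e₂ x.1
  let b : Fin n → (Fin n → F) := fun i => b' (ε i)
  have hb'D : ∀ x, b' x ∈ D x.1 := by
    intro x
    simp only [b']
    split_ifs
    · exact he₁ _
    · exact he₂ _
  have hb' : ∀ x y, hermForm n F 2 (b' x) (b' y) = if x = y then 1 else 0 := by
    rintro ⟨i, k⟩ ⟨j, l⟩
    by_cases hij : i = j
    · subst hij
      fin_cases k <;> fin_cases l <;> simp [b', h11, h22, h12, h21]
    · rw [if_neg (fun h => hij (congrArg Prod.fst h))]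
      exact hD.orthogonal i j hij _ (hb'D (i, k)) _ (hb'D (j, l))
  have hb : ∀ i j, hermForm n F 2 (b i) (b j) = if i = j then 1 else 0 := by
    intro i j
    rw [hb']
    simp only [EmbeddingLike.apply_eq_iff_eq]
  have hE := decomp_of_orthonormal hF hn b hb
  refine ⟨_, hE, ?_⟩
  intro g hg hgD
  obtain ⟨σ, hσ⟩ := hgD
  apply mem_decomposition_of hE.decomp
  intro i
  have h1 : (g : Matrix (Fin n) (Fin n) F) *ᵥ b i ∈ D (σ (ε i).1) := by
    rw [← hσ]
    exact Submodule.mem_map.2 ⟨b i, hb'D (ε i), rfl⟩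
  have h2 : hermForm n F 2 ((g : Matrix (Fin n) (Fin n) F) *ᵥ b i) ((g : Matrix (Fin n) (Fin n) F) *ᵥ b i) ≠ 0 := by
    have h3 : hermForm n F 2 ((g : Matrix (Fin n) (Fin n) F) *ᵥ b i) ((g : Matrix (Fin n) (Fin n) F) *ᵥ b i) = hermForm n F 2 (b i) (b i) := hg _ _
    rw [h3, hb, if_pos rfl]
    exact one_ne_zero
  have h3 : ∃ j, ∃ c : F, (g : Matrix (Fin n) (Fin n) F) *ᵥ b i = c • b j := by
    rcases hns _ _ h1 h2 with ⟨c, -, hc⟩ | ⟨c, -, hc⟩
    · exact ⟨ε.symm (σ (ε i).1, 0), c, by rw [hc]; simp [b, b']⟩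
    · exact ⟨ε.symm (σ (ε i).1, 1), c, by rw [hc]; simp [b, b']⟩
  obtain ⟨j, c, hc⟩ := h3
  refine ⟨j, ?_⟩
  rw [Submodule.map_le_iff_le_comap, Submodule.span_singleton_le_iff_mem, Submodule.mem_comap, Matrix.toLin'_apply, hc]
  exact Submodule.smul_mem _ _ (Submodule.mem_span_singleton_self _)

theorem two_spaces_two (hF : Fintype.card F = 2 ^ 2) (hn : 4 ≤ n) {t : ℕ} (htn : t * 2 = n) {H : Subgroup (GL (Fin n) F)}
    (hH : IsMaximalIn (GU n F 2 ⊓ specialLinear (Fin n) F) H) {D : Fin t → Submodule F (Fin n → F)}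
    (hD : IsNondegenerateMDecomposition (hermForm n F 2) 2 D)
    (h : H = decompositionStabilizer D ⊓ (GU n F 2 ⊓ specialLinear (Fin n) F)) :
    ∃ E : Fin n → Submodule F (Fin n → F), IsNondegenerateMDecomposition (hermForm n F 2) 1 E ∧
      H = decompositionStabilizer E ⊓ (GU n F 2 ⊓ specialLinear (Fin n) F) := by
  obtain ⟨E, hE, hle⟩ := two_spaces_le hF (by omega) htn hD
  refine ⟨E, hE, SLNot.eq_inf_of_maximal hH ?_ (su_not_one_decomposition hF (Or.inl hn) hE)⟩
  rw [h]
  rintro g ⟨hg, hgG, -⟩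
  exact hle g hgG hg

end general

end Cfsg.Agent.Lib.UnNot
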