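import Cfsg.Agent.Lib.AschESysI
import Cfsg.Agent.Lib.AschSp14
import Cfsg.Agent.Lib.UnTwo
set_option autoImplicit false
set_option linter.style.haveILetI false
set_option linter.unusedVariables false
set_option linter.unusedSectionVars false

/-!
The frame system of dimension four, and the stabiliser of an orthonormal frame of the unitary space of dimension four over the
field with nine elements.
-/

namespace Cfsg.Agent.Lib.UnEx

open Cfsg Cfsg.Geo Cfsg.Agent.Lib.AschMU Cfsg.Agent.Lib.AschCore Cfsg.Agent.Lib.AschField Cfsg.Agent.Lib.AschAlg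
  Cfsg.Agent.Lib.AschGroup Cfsg.Agent.Lib.AschGood Cfsg.Agent.Lib.AschAdj Cfsg.Agent.Lib.AschNonab Cfsg.Agent.Lib.AschTensor
  Cfsg.Agent.Lib.AschComp Cfsg.Agent.Lib.AschSp Cfsg.Agent.Lib.AschESys
open scoped Matrix MatrixGroups Kronecker

/-- The group table of the four-group. -/
def ad : Fin 4 → Fin 4 → Fin 4 := ![![0, 1, 2, 3], ![1, 0, 3, 2], ![2, 3, 0, 1], ![3, 2, 1, 0]]

/-- The character table of the four-group. -/
def chi : Fin 4 → Fin 4 → ℤ := ![![1, 1, 1, 1], ![1, -1, 1, -1], ![1, 1, -1, -1], ![1, -1, -1, 1]]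

lemma ad_assoc : ∀ j b c, ad (ad j b) c = ad j (ad b c) := by decide
lemma ad_comm : ∀ a b, ad a b = ad b a := by decide
lemma ad_zero : ∀ a, ad a 0 = a := by decide
lemma ad_self : ∀ a, ad a a = 0 := by decide
lemma chi_ad_right : ∀ a j b, chi a (ad j b) = chi a j * chi a b := by decide
lemma chi_ad_left : ∀ a b j, chi (ad a b) j = chi a j * chi b j := by decide
lemma chi_zero_left : ∀ j, chi 0 j = 1 := by decide
lemma chi_sign : ∀ a b, chi a b = 1 ∨ chi a b = -1 := by decide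
lemma chi_sq (a b : Fin 4) : chi a b * chi a b = 1 := by
  rcases chi_sign a b with h | h <;> rw [h] <;> norm_num

lemma sep_dec : ∀ x y : Fin 4 × Fin 4, x ≠ y → ∃ z : Fin 4 × Fin 4,
    (chi z.1 x.2 * chi x.1 z.2 = 1 ∧ chi z.1 y.2 * chi y.1 z.2 = -1) ∨ (chi z.1 x.2 * chi x.1 z.2 = -1 ∧ chi z.1 y.2 * chi y.1 z.2 = 1) := by
  decide

lemma wit_dec : ∀ x : Fin 4 × Fin 4, x ≠ (0, 0) → ∃ w : Fin 4 × Fin 4,
    chi w.1 w.2 = -1 ∧ chi x.1 w.2 * chi w.1 x.2 = -1 := by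
  decide

lemma perm_ad : ∀ (π : Equiv.Perm (Fin 4)) (b : Fin 4), ∃ b' : Fin 4, ∀ j, π (ad j b) = ad (π j) b' := by
  decide

lemma perm_chi : ∀ (π : Equiv.Perm (Fin 4)) (a : Fin 4), ∃ a' : Fin 4, (∀ j, chi a j = chi a' (π j)) ∨ (∀ j, chi a j = -chi a' (π j)) := by
  decide

section sys
variable {F : Type*} [Field F]

/-- The frame system. -/
def fB (x : Fin 4 × Fin 4) : Matrix (Fin 4) (Fin 4) F := Matrix.of fun j k => if k = ad j x.2 then ((chi x.1 j : ℤ) : F) else 0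

lemma fB_apply (x : Fin 4 × Fin 4) (j k : Fin 4) : (fB x : Matrix (Fin 4) (Fin 4) F) j k = if k = ad j x.2 then ((chi x.1 j : ℤ) : F) else 0 := rfl

lemma fB_mul (x y : Fin 4 × Fin 4) : (fB x : Matrix (Fin 4) (Fin 4) F) * fB y = ((chi y.1 x.2 : ℤ) : F) • fB (ad x.1 y.1, ad x.2 y.2) := by
  ext j l
  rw [Matrix.mul_apply, Finset.sum_eq_single (ad j x.2)]
  · rw [Matrix.smul_apply, fB_apply, fB_apply, fB_apply, if_pos rfl, ad_assoc]
    by_cases h : l = ad j (ad x.2 y.2)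
    · simp only [h, if_true]
      rw [chi_ad_right, chi_ad_left, smul_eq_mul]
      push_cast
      ring
    · simp only [h, if_false]
      simp
  · intro k _ hk
    rw [fB_apply, if_neg hk, zero_mul]
  · intro h; exact absurd (Finset.mem_univ _) h

lemma fB_one : (fB (0, 0) : Matrix (Fin 4) (Fin 4) F) = 1 := by
  ext j k
  rw [fB_apply, ad_zero, chi_zero_left, Matrix.one_apply]
  by_cases h : j = k
  · subst h; simp
  · rw [if_neg h, if_neg (Ne.symm h)]

lemma fB_comm (x y : Fin 4 × Fin 4) : (fB x : Matrix (Fin 4) (Fin 4) F) * fB y = ((chi y.1 x.2 * chi x.1 y.2 : ℤ) : F) • (fB y * fB x) := by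
  rw [fB_mul, fB_mul, smul_smul, ad_comm y.1, ad_comm y.2, ← Int.cast_mul, mul_assoc, chi_sq, mul_one]

lemma smul_cases {s : ℤ} (hs : s = 1 ∨ s = -1) (M : Matrix (Fin 4) (Fin 4) F) : ((s : ℤ) : F) • M = M ∨ ((s : ℤ) : F) • M = -M := by
  rcases hs with h | h <;> rw [h] <;> simp

lemma mul_sign {s t : ℤ} (hs : s = 1 ∨ s = -1) (ht : t = 1 ∨ t = -1) : s * t = 1 ∨ s * t = -1 := by
  rcases hs with rfl | rfl <;> rcases ht with rfl | rfl <;> norm_num

theorem fB_sys : Sys (fB : Fin 4 × Fin 4 → Matrix (Fin 4) (Fin 4) F) (0, 0) where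
  one := fB_one
  mul x y := ⟨_, by rw [fB_mul]; exact smul_cases (chi_sign _ _) _⟩
  sq x := by
    rw [fB_mul, ad_self, ad_self, fB_one]
    exact smul_cases (chi_sign _ _) _
  comm x y := by
    rw [fB_comm]
    exact smul_cases (mul_sign (chi_sign _ _) (chi_sign _ _)) _
  sep x y hxy := by
    obtain ⟨z, hz⟩ := sep_dec x y hxy
    refine ⟨z, ?_⟩
    rw [fB_comm x z, fB_comm y z]
    rcases hz with ⟨h1, h2⟩ | ⟨h1, h2⟩
    · left; rw [h1, h2]; simp
    · right; rw [h1, h2]; simp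
  wit x hx := by
    obtain ⟨w, h1, h2⟩ := wit_dec x hx
    refine ⟨w, ?_, ?_⟩
    · rw [fB_mul, ad_self, ad_self, fB_one, h1]; simp
    · rw [fB_comm w x, h2]; simp

/-- The signs. -/
lemma exists_chi {α β : F} (hα : α = 1 ∨ α = -1) (hβ : β = 1 ∨ β = -1) : ∃ a : Fin 4, ((chi a 0 : ℤ) : F) = 1 ∧ ((chi a 1 : ℤ) : F) = α ∧
    ((chi a 2 : ℤ) : F) = β ∧ ((chi a 3 : ℤ) : F) = α * β := by
  rcases hα with rfl | rfl <;> rcases hβ with rfl | rfl
  · exact ⟨0, by simp [chi], by simp [chi], by simp [chi], by simp [chi]⟩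
  · exact ⟨2, by simp [chi], by simp [chi], by simp [chi], by simp [chi]⟩
  · exact ⟨1, by simp [chi], by simp [chi], by simp [chi], by simp [chi]⟩
  · exact ⟨3, by simp [chi], by simp [chi], by simp [chi], by simp [chi]⟩

lemma sq_cases {x : F} (h : x * x = 1) : x = 1 ∨ x = -1 := by
  have : (x - 1) * (x + 1) = 0 := by linear_combination h
  rcases mul_eq_zero.1 this with h | h
  · left; linear_combination h
  · right; linear_combination h

lemma mul_cases {α β : F} (hα : α = 1 ∨ α = -1) (hβ : β = 1 ∨ β = -1) : α * β = 1 ∨ α * β = -1 := by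
  rcases hα with rfl | rfl <;> rcases hβ with rfl | rfl <;> simp

lemma diag_case {d : Fin 4 → F} (hd : ∀ j, d j ^ 4 = 1) (hp : (d 0 * d 1 * d 2 * d 3) ^ 2 = 1) (b : Fin 4) :
    ∃ (c : F) (a : Fin 4), c ^ 4 = 1 ∧ ∀ j, d j = c * ((chi a j : ℤ) : F) * d (ad j b) := by
  have h0 := hd 0
  have h1 := hd 1
  have h2 := hd 2
  have h3 := hd 3
  have key : ∀ x y z w : F, x ^ 4 = 1 → y ^ 4 = 1 → z ^ 4 = 1 → w ^ 4 = 1 → (x * y * z * w) ^ 2 = 1 →
      ∃ c α β : F, c ^ 4 = 1 ∧ (α = 1 ∨ α = -1) ∧ (β = 1 ∨ β = -1) ∧ x = c * y ∧ y = c * α * x ∧ z = c * β * w ∧ w = c * (α * β) * z := by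
    intro x y z w hx hy hz hw hxy
    have e1 : (x * y ^ 3) ^ 4 = 1 := by
      calc (x * y ^ 3) ^ 4 = x ^ 4 * (y ^ 4) ^ 3 := by ring
        _ = 1 := by rw [hx, hy]; norm_num
    refine ⟨x * y ^ 3, (x * y ^ 3) ^ 2, z * w ^ 3 * (x * y ^ 3) ^ 3, e1, ?_, ?_, ?_, ?_, ?_, ?_⟩
    · apply sq_cases
      rw [← pow_add]; exact e1
    · apply sq_cases
      calc z * w ^ 3 * (x * y ^ 3) ^ 3 * (z * w ^ 3 * (x * y ^ 3) ^ 3)
          = (x * y * z * w) ^ 2 * (x ^ 4) * (y ^ 4) ^ 4 * w ^ 4 := by ring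
        _ = 1 := by rw [hxy, hx, hy, hw]; norm_num
    · calc x = x * 1 := by ring
        _ = x * y ^ 3 * y := by rw [← hy]; ring
    · calc y = y * 1 := by ring
        _ = (x * y ^ 3) ^ 3 * x := by
          have : (x * y ^ 3) ^ 3 * x = x ^ 4 * (y ^ 4) ^ 2 * y := by ring
          rw [this, hx, hy]; ring
        _ = _ := by ring
    · have : x * y ^ 3 * (z * w ^ 3 * (x * y ^ 3) ^ 3) * w = x ^ 4 * (y ^ 4) ^ 3 * w ^ 4 * z := by ring
      rw [this, hx, hy, hw]; ring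
    · have : x * y ^ 3 * ((x * y ^ 3) ^ 2 * (z * w ^ 3 * (x * y ^ 3) ^ 3)) * z = (x ^ 4) * (y ^ 4) ^ 4 * (x * y * z * w) ^ 2 * w := by ring
      rw [this, hx, hy, hxy]; ring
  fin_cases b
  · refine ⟨1, 0, one_pow _, fun j => ?_⟩
    have : ad j ((fun i => i) ⟨0, by norm_num⟩) = j := ad_zero j
    rw [this, chi_zero_left]; simp
  · obtain ⟨c, α, β, hc, hα, hβ, e0, e1, e2, e3⟩ := key (d 0) (d 1) (d 2) (d 3) h0 h1 h2 h3 hp
    obtain ⟨a, a0, a1, a2, a3⟩ := exists_chi hα hβ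
    refine ⟨c, a, hc, fun j => ?_⟩
    fin_cases j
    · show d 0 = c * ((chi a 0 : ℤ) : F) * d 1
      rw [a0, mul_one]; exact e0
    · show d 1 = c * ((chi a 1 : ℤ) : F) * d 0
      rw [a1]; exact e1
    · show d 2 = c * ((chi a 2 : ℤ) : F) * d 3
      rw [a2]; exact e2
    · show d 3 = c * ((chi a 3 : ℤ) : F) * d 2
      rw [a3]; exact e3
  · obtain ⟨c, α, β, hc, hα, hβ, e0, e1, e2, e3⟩ := key (d 0) (d 2) (d 1) (d 3) h0 h2 h1 h3 (by rw [← hp]; ring)
    obtain ⟨a, a0, a1, a2, a3⟩ := exists_chi hβ hα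
    refine ⟨c, a, hc, fun j => ?_⟩
    fin_cases j
    · show d 0 = c * ((chi a 0 : ℤ) : F) * d 2
      rw [a0, mul_one]; exact e0
    · show d 1 = c * ((chi a 1 : ℤ) : F) * d 3
      rw [a1]; exact e2
    · show d 2 = c * ((chi a 2 : ℤ) : F) * d 0
      rw [a2]; exact e1
    · show d 3 = c * ((chi a 3 : ℤ) : F) * d 1
      rw [a3, mul_comm β]; exact e3
  · obtain ⟨c, α, β, hc, hα, hβ, e0, e1, e2, e3⟩ := key (d 0) (d 3) (d 1) (d 2) h0 h3 h1 h2 (by rw [← hp]; ring)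
    obtain ⟨a, a0, a1, a2, a3⟩ := exists_chi hβ (mul_cases hα hβ)
    refine ⟨c, a, hc, fun j => ?_⟩
    fin_cases j
    · show d 0 = c * ((chi a 0 : ℤ) : F) * d 3
      rw [a0, mul_one]; exact e0
    · show d 1 = c * ((chi a 1 : ℤ) : F) * d 2
      rw [a1]; exact e2
    · show d 2 = c * ((chi a 2 : ℤ) : F) * d 1
      rw [a2]; exact e3
    · show d 3 = c * ((chi a 3 : ℤ) : F) * d 0
      rw [a3]
      have : β * (α * β) = α := by rcases hβ with rfl | rfl <;> ring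
      rw [this]; exact e1

/-- Monomial matrices with fourth roots of unity normalise the group of the frame system. -/
theorem mono_norm {g : Matrix (Fin 4) (Fin 4) F} {π : Equiv.Perm (Fin 4)} {d : Fin 4 → F} (hg : ∀ i j, g i j = if i = π j then d j else 0)
    (hd : ∀ j, d j ^ 4 = 1) (hp : (d 0 * d 1 * d 2 * d 3) ^ 2 = 1) (x : Fin 4 × Fin 4) :
    ∃ (y : Fin 4 × Fin 4) (c : F), c ^ 4 = 1 ∧ g * fB x = c • (fB y * g) := by
  obtain ⟨b', hb'⟩ := perm_ad π x.2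
  obtain ⟨c, a₁, hc, h1⟩ := diag_case hd hp x.2
  obtain ⟨a', ha'⟩ := perm_chi π (ad a₁ x.1)
  obtain ⟨s, hs, ha''⟩ : ∃ s : F, (s = 1 ∨ s = -1) ∧ ∀ j, ((chi (ad a₁ x.1) j : ℤ) : F) = s * ((chi a' (π j) : ℤ) : F) := by
    rcases ha' with h | h
    · exact ⟨1, Or.inl rfl, fun j => by rw [h j, one_mul]⟩
    · exact ⟨-1, Or.inr rfl, fun j => by rw [h j]; push_cast; ring⟩
  have hs4 : s ^ 4 = 1 := by rcases hs with rfl | rfl <;> norm_num
  refine ⟨(a', b'), c * s, by rw [mul_pow, hc, hs4, one_mul], ?_⟩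
  ext i l
  obtain ⟨j, rfl⟩ := π.surjective i
  rw [Matrix.smul_apply, smul_eq_mul, Matrix.mul_apply, Matrix.mul_apply, Finset.sum_eq_single j, Finset.sum_eq_single (ad (π j) b')]
  · rw [hg, if_pos rfl, fB_apply, fB_apply, if_pos rfl, hg]
    have hiff : (ad (π j) b' = π l) ↔ (l = ad j x.2) := by
      rw [← hb', π.injective.eq_iff, eq_comm]
    by_cases hl : l = ad j x.2
    · rw [if_pos hl, if_pos (hiff.2 hl)]
      have h2 := h1 j
      have h3 := ha'' j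
      rw [chi_ad_left] at h3
      push_cast at h3
      have h4 : ((chi x.1 j : ℤ) : F) * ((chi x.1 j : ℤ) : F) = 1 := by
        rw [← Int.cast_mul, chi_sq, Int.cast_one]
      rw [hl]
      conv_lhs => rw [h2]
      linear_combination (c * d (ad j x.2)) * h3
    · rw [if_neg hl, if_neg (fun h => hl (hiff.1 h))]; ring
  · intro k _ hk
    rw [fB_apply, if_neg hk, zero_mul]
  · intro h; exact absurd (Finset.mem_univ _) h
  · intro k _ hk
    rw [hg, if_neg (fun h => hk (π.injective h).symm), zero_mul]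
  · intro h; exact absurd (Finset.mem_univ _) h

end sys

end Cfsg.Agent.Lib.UnEx
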