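import Cfsg.Agent.Lib.UnExA
set_option autoImplicit false
set_option linter.style.haveILetI false
set_option linter.unusedVariables false
set_option linter.unusedSectionVars false

/-!
Orthonormal frames of unitary spaces and monomial matrices.
-/

namespace Cfsg.Agent.Lib.UnEx

open Cfsg Cfsg.Geo Cfsg.Agent.Lib.AschMU Cfsg.Agent.Lib.AschCore Cfsg.Agent.Lib.AschField Cfsg.Agent.Lib.AschAlg
  Cfsg.Agent.Lib.AschGroup Cfsg.Agent.Lib.AschGood Cfsg.Agent.Lib.AschAdj Cfsg.Agent.Lib.AschNonab Cfsg.Agent.Lib.AschTensor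
  Cfsg.Agent.Lib.AschComp Cfsg.Agent.Lib.AschSp Cfsg.Agent.Lib.AschESys Cfsg.Agent.Lib.UnBridge Cfsg.Agent.Lib.HermMat
open scoped Matrix MatrixGroups Kronecker

section
variable {F : Type*} [Field F] [Fintype F] {n q : ℕ}

lemma adj_one_form (σ : F ≃+* F) (x : Matrix (Fin n) (Fin n) F) : adj σ 1 x = xᵀ.map σ := by
  unfold adj
  rw [inv_one, one_mul, mul_one]

lemma mem_GU_iff (hF : Fintype.card F = q ^ 2) {g : GL (Fin n) F} :
    g ∈ GU n F q ↔ (g : Matrix (Fin n) (Fin n) F)ᵀ.map (sg hF) * (g : Matrix (Fin n) (Fin n) F) = 1 := by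
  rw [mem_GU hF, IsIso, adj_one_form]
  constructor
  · intro h
    rw [h, gl_inv_mul]
  · intro h
    calc (g : Matrix (Fin n) (Fin n) F)ᵀ.map (sg hF) = (g : Matrix (Fin n) (Fin n) F)ᵀ.map (sg hF) * ((g : Matrix (Fin n) (Fin n) F) * ((g⁻¹ : GL (Fin n) F) : Matrix (Fin n) (Fin n) F)) := by
          rw [← Units.val_mul, mul_inv_cancel, Units.val_one, mul_one]
      _ = _ := by rw [← mul_assoc, h, one_mul]

/-- An invertible matrix with orthonormal columns. -/
lemma exists_gl_of_orthonormal (hF : Fintype.card F = q ^ 2) (b : Fin n → (Fin n → F))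
    (h : ∀ i j, hermForm n F q (b i) (b j) = if i = j then 1 else 0) :
    ∃ T : GL (Fin n) F, T ∈ GU n F q ∧ ∀ i, (T : Matrix (Fin n) (Fin n) F) *ᵥ Pi.single i 1 = b i := by
  have h1 : (Matrix.of fun i j => b j i : Matrix (Fin n) (Fin n) F)ᵀ.map (sg hF) * (Matrix.of fun i j => b j i : Matrix (Fin n) (Fin n) F) = 1 := by
    ext i j
    rw [Matrix.mul_apply, Matrix.one_apply]
    have := h j i
    rw [hermForm] at this
    rw [show (if i = j then (1 : F) else 0) = if j = i then 1 else 0 by simp [eq_comm], ← this]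
    refine Finset.sum_congr rfl fun k _ => ?_
    rw [Matrix.map_apply, Matrix.transpose_apply, Matrix.of_apply, Matrix.of_apply, sg_apply, mul_comm]
  refine ⟨⟨_, _, mul_eq_one_comm.1 h1, h1⟩, (mem_GU_iff hF).2 h1, ?_⟩
  intro i
  show (Matrix.of fun i j => b j i : Matrix (Fin n) (Fin n) F) *ᵥ Pi.single i 1 = b i
  rw [Matrix.mulVec_single_one]
  rfl

/-- Orthonormal bases from frames. -/
lemma exists_orthonormal (hF : Fintype.card F = q ^ 2) {D : Fin n → Submodule F (Fin n → F)}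
    (hD : IsNondegenerateMDecomposition (hermForm n F q) 1 D) :
    ∃ b : Fin n → (Fin n → F), (∀ i j, hermForm n F q (b i) (b j) = if i = j then 1 else 0) ∧ ∀ i, D i = F ∙ b i := by
  have H := herm_HS n hF
  have key : ∀ i, ∃ v : Fin n → F, hermForm n F q v v = 1 ∧ D i = F ∙ v := by
    intro i
    obtain ⟨⟨v, hv⟩, hv0, hspan⟩ := finrank_eq_one_iff'.1 (hD.decomp.finrank_eq i)
    have hv0' : v ≠ 0 := fun h => hv0 (Subtype.ext h)
    have hspan' : ∀ y ∈ D i, ∃ c : F, y = c • v := by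
      intro y hy
      obtain ⟨c, hc⟩ := hspan ⟨y, hy⟩
      exact ⟨c, (congrArg Subtype.val hc).symm⟩
    have hvv : hermForm n F q v v ≠ 0 := by
      obtain ⟨-, ⟨y, hy, hyv⟩⟩ := hD.nondegenerate i v hv hv0'
      obtain ⟨c, rfl⟩ := hspan' y hy
      intro h0
      apply hyv
      first
      | rw [hermForm_smul_right, h0, mul_zero]
      | rw [hermForm_smul_left, h0, mul_zero]
    have hfix : sg hF (hermForm n F q v v)⁻¹ = (hermForm n F q v v)⁻¹ := by
      rw [map_inv₀, sg_apply]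
      congr 1
      first
      | exact hermForm_swap hF v v
      | exact (hermForm_swap hF v v).symm
    obtain ⟨m, hm0, hm⟩ := AschAdj.norm_surj' (sg_inv hF) (sg_ne hF) hfix (inv_ne_zero hvv)
    refine ⟨m • v, ?_, ?_⟩
    · rw [hermForm_smul_left, hermForm_smul_right, ← sg_apply hF, ← mul_assoc, hm, inv_mul_cancel₀ hvv]
    · apply le_antisymm
      · intro y hy
        obtain ⟨c, rfl⟩ := hspan' y hy
        rw [Submodule.mem_span_singleton]
        exact ⟨c * m⁻¹, by rw [smul_smul, mul_assoc, inv_mul_cancel₀ hm0, mul_one]⟩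
      · rw [Submodule.span_singleton_le_iff_mem]
        exact (D i).smul_mem _ hv
  choose b hb hbD using key
  refine ⟨b, fun i j => ?_, hbD⟩
  by_cases hij : i = j
  · subst hij; rw [if_pos rfl, hb]
  · rw [if_neg hij]
    exact hD.orthogonal i j hij _ (by rw [hbD]; exact Submodule.mem_span_singleton_self _) _
      (by rw [hbD]; exact Submodule.mem_span_singleton_self _)

/-- The matrix of an element of the frame stabiliser is monomial. -/
lemma stab_mono (hF : Fintype.card F = q ^ 2) {D : Fin n → Submodule F (Fin n → F)} {T : GL (Fin n) F} (hT : T ∈ GU n F q)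
    (hTD : ∀ i, D i = F ∙ ((T : Matrix (Fin n) (Fin n) F) *ᵥ Pi.single i 1)) {g : GL (Fin n) F} (hg : g ∈ GU n F q)
    (hgD : g ∈ decompositionStabilizer D) :
    ∃ (π : Equiv.Perm (Fin n)) (d : Fin n → F), (∀ j, d j ^ (q + 1) = 1) ∧
      ∀ i j, ((T⁻¹ * g * T : GL (Fin n) F) : Matrix (Fin n) (Fin n) F) i j = if i = π j then d j else 0 := by
  obtain ⟨π, hπ⟩ := hgD
  have h1 : ∀ j, ∃ c : F, (g : Matrix (Fin n) (Fin n) F) *ᵥ ((T : Matrix (Fin n) (Fin n) F) *ᵥ Pi.single j 1) =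
      c • ((T : Matrix (Fin n) (Fin n) F) *ᵥ Pi.single (π j) 1) := by
    intro j
    have h2 : (g : Matrix (Fin n) (Fin n) F) *ᵥ ((T : Matrix (Fin n) (Fin n) F) *ᵥ Pi.single j 1) ∈ D (π j) := by
      rw [← hπ]
      refine Submodule.mem_map.2 ⟨_, ?_, rfl⟩
      rw [hTD]; exact Submodule.mem_span_singleton_self _
    rw [hTD] at h2
    obtain ⟨c, hc⟩ := Submodule.mem_span_singleton.1 h2
    exact ⟨c, hc.symm⟩
  choose d hd using h1
  have h3 : ∀ j, ((T⁻¹ * g * T : GL (Fin n) F) : Matrix (Fin n) (Fin n) F) *ᵥ Pi.single j 1 = d j • Pi.single (π j) 1 := by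
    intro j
    rw [Units.val_mul, Units.val_mul, ← Matrix.mulVec_mulVec, ← Matrix.mulVec_mulVec, hd, Matrix.mulVec_smul, gl_inv_mulVec]
  have h4 : ∀ i j, ((T⁻¹ * g * T : GL (Fin n) F) : Matrix (Fin n) (Fin n) F) i j = if i = π j then d j else 0 := by
    intro i j
    have h5 := congrFun (h3 j) i
    rw [Matrix.mulVec_single_one] at h5
    rw [show ((T⁻¹ * g * T : GL (Fin n) F) : Matrix (Fin n) (Fin n) F) i j = (((T⁻¹ * g * T : GL (Fin n) F) : Matrix (Fin n) (Fin n) F).col j) i from rfl, h5]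
    simp [Pi.single_apply]
  refine ⟨π, d, ?_, h4⟩
  have h5 : (T⁻¹ * g * T : GL (Fin n) F) ∈ GU n F q := mul_mem (mul_mem (inv_mem hT) hg) hT
  intro j
  have h6 := congrFun (congrFun ((mem_GU_iff hF).1 h5) j) j
  rw [Matrix.mul_apply, Matrix.one_apply_eq, Finset.sum_eq_single (π j)] at h6
  · rw [Matrix.map_apply, Matrix.transpose_apply, h4, if_pos rfl, sg_apply] at h6
    rw [pow_succ]; exact h6
  · intro k _ hk
    rw [h4 k j, if_neg hk, mul_zero]
  · intro h; exact absurd (Finset.mem_univ _) h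

end

end Cfsg.Agent.Lib.UnEx
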