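import Cfsg.Agent.Lib.UnExB
set_option autoImplicit false
set_option linter.style.haveILetI false
set_option linter.unusedVariables false
set_option linter.unusedSectionVars false

/-!
The stabiliser of an orthonormal frame of the unitary space of dimension four over the field with nine elements normalises a
group of symplectic type of order sixty-four.
-/

namespace Cfsg.Agent.Lib.UnEx

open Cfsg Cfsg.Geo Cfsg.Agent.Lib.AschMU Cfsg.Agent.Lib.AschCore Cfsg.Agent.Lib.AschField Cfsg.Agent.Lib.AschAlg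
  Cfsg.Agent.Lib.AschGroup Cfsg.Agent.Lib.AschGood Cfsg.Agent.Lib.AschAdj Cfsg.Agent.Lib.AschNonab Cfsg.Agent.Lib.AschTensor
  Cfsg.Agent.Lib.AschComp Cfsg.Agent.Lib.AschSp Cfsg.Agent.Lib.AschESys Cfsg.Agent.Lib.UnBridge Cfsg.Agent.Lib.HermMat
open scoped Matrix MatrixGroups Kronecker

section norm
variable {ι : Type} [Fintype ι] [DecidableEq ι] [Nonempty ι] {F : Type*} [Field F] {Λ : Type} {B : Λ → Matrix ι ι F} {o : Λ}

/-- The normaliser of the large group of a system. -/
theorem le_normalizerI (hB : Sys B o) {H : Subgroup (GL ι F)}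
    (h : ∀ g ∈ H, ∀ z, ∃ z', ∃ c : F, c ^ 4 = 1 ∧ cj g (B z) = c • B z') :
    H ≤ subgroupNormalizer hB.grpI := by
  have key : ∀ g ∈ H, ∀ x ∈ hB.grpI, g * x * g⁻¹ ∈ hB.grpI := by
    rintro g hg x ⟨z, c, hc, hz⟩
    obtain ⟨z', c', hc', hz'⟩ := h g hg z
    refine ⟨z', c * c', by rw [mul_pow, hc, hc', one_mul], ?_⟩
    rw [← cj_coe, hz, map_smul, hz', smul_smul]
  intro g hg
  rw [subgroupNormalizer, Subgroup.mem_normalizer_iff]
  intro x
  constructor
  · exact key g hg x
  · intro hx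
    have := key g⁻¹ (H.inv_mem hg) _ hx
    have e : g⁻¹ * (g * x * g⁻¹) * g⁻¹⁻¹ = x := by group
    rwa [e] at this

end norm

section three
variable {F : Type*} [Field F]

lemma fB_transpose (x : Fin 4 × Fin 4) : (fB x : Matrix (Fin 4) (Fin 4) F)ᵀ = ((chi x.1 x.2 : ℤ) : F) • fB x := by
  ext j k
  rw [Matrix.transpose_apply, Matrix.smul_apply, fB_apply, fB_apply, smul_eq_mul]
  have hiff : (j = ad k x.2) ↔ (k = ad j x.2) := by
    constructor
    · rintro rfl; rw [ad_assoc, ad_self, ad_zero]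
    · rintro rfl; rw [ad_assoc, ad_self, ad_zero]
  by_cases h : k = ad j x.2
  · rw [if_pos (hiff.2 h), if_pos h, h, chi_ad_right]
    push_cast
    ring
  · rw [if_neg (fun h' => h (hiff.1 h')), if_neg h, mul_zero]

lemma fB_map (σ : F ≃+* F) (x : Fin 4 × Fin 4) : (fB x : Matrix (Fin 4) (Fin 4) F).map σ = fB x := by
  ext j k
  rw [Matrix.map_apply, fB_apply]
  split_ifs
  · rw [map_intCast]
  · rw [map_zero]

lemma fB_unitary (σ : F ≃+* F) (x : Fin 4 × Fin 4) : (fB x : Matrix (Fin 4) (Fin 4) F)ᵀ.map σ * fB x = 1 := by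
  rw [fB_transpose, map_smul'', fB_map, Matrix.smul_mul, fB_mul, ad_self, ad_self, fB_one, smul_smul, map_intCast, ← Int.cast_mul, chi_sq,
    Int.cast_one, one_smul]

variable [Fintype F]

lemma exists_i (hF : Fintype.card F = 3 ^ 2) : ∃ i : F, i * i = -1 := by
  have h : ringChar F ≠ 2 := by
    intro h
    have h1 : (Fintype.card F : F) = 0 := Nat.cast_card_eq_zero F
    rw [hF] at h1
    have h2 : (2 : F) = 0 := by
      have := ringChar.Nat.cast_ringChar (R := F)
      rw [h] at this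
      exact_mod_cast this
    have h3 : (1 : F) = 0 := by
      have : (3 ^ 2 : F) = 0 := by exact_mod_cast h1
      linear_combination this - 4 * h2
    exact one_ne_zero h3
  have h1 : IsSquare (-1 : F) := by
    rw [FiniteField.isSquare_neg_one_iff, hF]
    norm_num
  obtain ⟨i, hi⟩ := h1
  exact ⟨i, hi.symm⟩

lemma two_ne (hF : Fintype.card F = 3 ^ 2) : (2 : F) ≠ 0 := by
  intro h2
  have h1 : (Fintype.card F : F) = 0 := Nat.cast_card_eq_zero F
  rw [hF] at h1
  have h3 : (1 : F) = 0 := by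
    have : (3 ^ 2 : F) = 0 := by exact_mod_cast h1
    linear_combination this - 4 * h2
  exact one_ne_zero h3

lemma charP_three (hF : Fintype.card F = 3 ^ 2) : CharP F 3 := by
  obtain ⟨p, hchar⟩ := CharP.exists F
  have h1 : (Fintype.card F : F) = 0 := Nat.cast_card_eq_zero F
  rw [hF] at h1
  have h3 : p ∣ 3 ^ 2 := (CharP.cast_eq_zero_iff F p _).1 h1
  obtain ⟨e, hp, hcard⟩ := FiniteField.card F p
  have : p = 3 := (Nat.prime_dvd_prime_iff_eq hp Nat.prime_three).1 (hp.dvd_of_dvd_pow h3)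
  subst this
  exact hchar

theorem frame_three (hF : Fintype.card F = 3 ^ 2) {D : Fin 4 → Submodule F (Fin 4 → F)}
    (hD : IsNondegenerateMDecomposition (hermForm 4 F 3) 1 D) {H : Subgroup (GL (Fin 4) F)}
    (hH : IsMaximalIn (GU 4 F 3 ⊓ specialLinear (Fin 4) F) H)
    (h : H = decompositionStabilizer D ⊓ (GU 4 F 3 ⊓ specialLinear (Fin 4) F)) :
    ∃ R : Subgroup (GL (Fin 4) F), IsSymplecticTypeGroup 2 R ∧ ActsAbsolutelyIrreducibly (matrixSet R) ∧
      R ≤ similarityGroup (hermForm 4 F 3) ∧ Nat.card R = 64 ∧ Nat.card (Subgroup.center R) = 4 ∧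
      H = subgroupNormalizer R ⊓ (GU 4 F 3 ⊓ specialLinear (Fin 4) F) := by
  obtain ⟨b, hb, hbD⟩ := exists_orthonormal hF hD
  obtain ⟨T, hT, hTb⟩ := exists_gl_of_orthonormal hF b hb
  have hTD : ∀ i, D i = F ∙ ((T : Matrix (Fin 4) (Fin 4) F) *ᵥ Pi.single i 1) := by
    intro i; rw [hTb, hbD]
  obtain ⟨i, hi⟩ := exists_i hF
  have h2 := two_ne hF
  haveI := charP_three hF
  have h4 : (Fintype.card (Fin 4) : F) ≠ 0 := by
    rw [Fintype.card_fin]
    have : ((4 : ℕ) : F) = 2 * 2 := by norm_num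
    rw [this]
    exact mul_ne_zero h2 h2
  have hcard : Fintype.card (Fin 4 × Fin 4) = 2 ^ (2 * 2) := by simp
  have hcard' : Fintype.card (Fin 4 × Fin 4) = Fintype.card (Fin 4) ^ 2 := by simp
  have hB := (fB_sys (F := F)).conj T
  have hRG : hB.grpI ≤ GU 4 F 3 := by
    rintro x ⟨z, c, hc, hx⟩
    have hx : (x : Matrix (Fin 4) (Fin 4) F) = c • cj T (fB z) := hx
    have h1 : (T⁻¹ * x * T : GL (Fin 4) F) ∈ GU 4 F 3 := by
      rw [mem_GU_iff hF]
      have e : ((T⁻¹ * x * T : GL (Fin 4) F) : Matrix (Fin 4) (Fin 4) F) = c • fB z := by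
        rw [Units.val_mul, Units.val_mul, hx, cj_apply, Matrix.mul_smul, Matrix.smul_mul]
        congr 1
        rw [← mul_assoc, ← mul_assoc, gl_inv_mul, one_mul, mul_assoc, gl_inv_mul, mul_one]
      rw [e, Matrix.transpose_smul, map_smul'', Matrix.smul_mul, Matrix.mul_smul, fB_unitary, smul_smul, sg_apply, ← pow_succ, hc, one_smul]
    have h2 := mul_mem (mul_mem hT h1) (inv_mem hT)
    have e : T * (T⁻¹ * x * T) * T⁻¹ = x := by group
    rwa [e] at h2
  have hsy := hB.symplecticTypeI h2 hi hcard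
  have hirr := hB.absIrrI h2 h4 hcard'
  refine ⟨hB.grpI, hsy, hirr, ?_, ?_, hB.card_centerI h2 hi, ?_⟩
  · intro x hx
    refine ⟨1, fun u v => ?_⟩
    rw [Units.val_one, one_mul]
    exact hRG hx u v
  · rw [hB.card_grpI h2 hi]; simp
  · refine SLNot.eq_inf_of_maximal hH ?_ (UnNot.su_not_normalizer hF (by norm_num) (by norm_num) hRG hirr.1 Nat.prime_two Nat.prime_three
      (by norm_num) hsy.pGroup)
    apply le_normalizerI
    intro g hg z
    rw [h] at hg
    obtain ⟨hgD, hgU, hgS⟩ := hg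
    obtain ⟨π, d, hd, hm⟩ := stab_mono hF hT hTD hgU hgD
    set g' : GL (Fin 4) F := T⁻¹ * g * T with hg'
    have hdet : (g' : Matrix (Fin 4) (Fin 4) F).det = 1 := by
      rw [hg', Units.val_mul, Units.val_mul, Matrix.det_mul, Matrix.det_mul]
      have h1 : (g : Matrix (Fin 4) (Fin 4) F).det = 1 := by
        first
        | exact hgS
        | exact congrArg Units.val hgS
      rw [h1, mul_one, ← Matrix.det_mul, gl_inv_mul, Matrix.det_one]
    have hp : (d 0 * d 1 * d 2 * d 3) ^ 2 = 1 := by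
      have h1 : (g' : Matrix (Fin 4) (Fin 4) F)ᵀ * (g' : Matrix (Fin 4) (Fin 4) F) = Matrix.diagonal fun j => d j ^ 2 := by
        ext i j
        rw [Matrix.mul_apply, Finset.sum_eq_single (π j), Matrix.transpose_apply, hm, hm, if_pos rfl, Matrix.diagonal_apply]
        · by_cases hij : i = j
          · subst hij; rw [if_pos rfl, if_pos rfl, sq]
          · rw [if_neg (fun h => hij (π.injective h).symm), if_neg hij, zero_mul]
        · intro k _ hk
          rw [hm k j, if_neg hk, mul_zero]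
        · intro h; exact absurd (Finset.mem_univ _) h
      have h3 := congrArg Matrix.det h1
      rw [Matrix.det_mul, Matrix.det_transpose, hdet, Matrix.det_diagonal, Fin.prod_univ_four] at h3
      rw [mul_pow, mul_pow, mul_pow, ← h3, mul_one]
    obtain ⟨y, c, hc, hy⟩ := mono_norm hm hd hp z
    refine ⟨y, c, hc, ?_⟩
    have e : g * T = T * g' := by rw [hg']; group
    rw [← cj_mul_apply, e, cj_mul_apply, ← map_smul]
    congr 1
    rw [cj_apply, hy, Matrix.smul_mul, mul_assoc, gl_mul_inv, mul_one]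

end three

end Cfsg.Agent.Lib.UnEx
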