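import Cfsg.Agent.Lib.UnExB
set_option autoImplicit false
set_option linter.style.haveILetI false
set_option linter.unusedVariables false
set_option linter.unusedSectionVars false

/-!
Pairs of totally isotropic planes in the unitary space of dimension four, for `q ≤ 3`.
-/

namespace Cfsg.Agent.Lib.UnEx

open Cfsg Cfsg.Geo Cfsg.Agent.Lib.AschMU Cfsg.Agent.Lib.AschCore Cfsg.Agent.Lib.AschField Cfsg.Agent.Lib.AschAlg
  Cfsg.Agent.Lib.AschGroup Cfsg.Agent.Lib.AschGood Cfsg.Agent.Lib.AschAdj Cfsg.Agent.Lib.AschNonab Cfsg.Agent.Lib.AschTensor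
  Cfsg.Agent.Lib.AschComp Cfsg.Agent.Lib.AschSp Cfsg.Agent.Lib.AschESys Cfsg.Agent.Lib.UnBridge Cfsg.Agent.Lib.HermMat
open scoped Matrix MatrixGroups Kronecker

section
variable {F : Type*} [Field F]

/-- The Gram matrix of a hyperbolic basis. -/
def J4 (F : Type*) [Field F] : Matrix (Fin 4) (Fin 4) F := !![0, 0, 1, 0; 0, 0, 0, 1; 1, 0, 0, 0; 0, 1, 0, 0]

/-- The alternating form. -/
def B4 (F : Type*) [Field F] : Matrix (Fin 4) (Fin 4) F := !![0, -1, 0, 0; 1, 0, 0, 0; 0, 0, 0, 1; 0, 0, -1, 0]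

lemma J4_sq : J4 F * J4 F = 1 := by
  ext i j
  fin_cases i <;> fin_cases j <;> simp [J4, Matrix.mul_apply, Fin.sum_univ_succ]

lemma J4_t : (J4 F)ᵀ = J4 F := by
  ext i j
  fin_cases i <;> fin_cases j <;> rfl

lemma J4_map (σ : F ≃+* F) : (J4 F).map σ = J4 F := by
  ext i j
  fin_cases i <;> fin_cases j <;> simp [J4]

lemma B4_map (σ : F ≃+* F) : (B4 F).map σ = B4 F := by
  ext i j
  fin_cases i <;> fin_cases j <;> simp [B4]

lemma B4_t : (B4 F)ᵀ = -B4 F := by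
  ext i j
  fin_cases i <;> fin_cases j <;> simp [B4]

lemma B4_sq : B4 F * B4 F = -1 := by
  ext i j
  fin_cases i <;> fin_cases j <;> simp [B4, Matrix.mul_apply, Fin.sum_univ_succ]

lemma JB_sq : J4 F * B4 F * (J4 F * B4 F) = 1 := by
  ext i j
  fin_cases i <;> fin_cases j <;> simp [B4, J4, Matrix.mul_apply, Fin.sum_univ_succ]

lemma B4_alt (v : Fin 4 → F) : v ⬝ᵥ (B4 F *ᵥ v) = 0 := by
  simp [B4, dotProduct, Matrix.mulVec, Fin.sum_univ_succ]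
  ring

lemma det_diag (a b c d a' b' c' d' : F) :
    (!![a, b, 0, 0; c, d, 0, 0; 0, 0, a', b'; 0, 0, c', d'] : Matrix (Fin 4) (Fin 4) F).det = (a * d - b * c) * (a' * d' - b' * c') := by
  simp [Matrix.det_succ_row_zero, Fin.sum_univ_succ, Fin.succAbove]
  ring

lemma det_anti (a b c d a' b' c' d' : F) :
    (!![0, 0, a, b; 0, 0, c, d; a', b', 0, 0; c', d', 0, 0] : Matrix (Fin 4) (Fin 4) F).det = (a * d - b * c) * (a' * d' - b' * c') := by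
  simp [Matrix.det_succ_row_zero, Fin.sum_univ_succ, Fin.succAbove]
  ring

lemma B4_diag (a b c d a' b' c' d' : F) :
    (!![a, b, 0, 0; c, d, 0, 0; 0, 0, a', b'; 0, 0, c', d'] : Matrix (Fin 4) (Fin 4) F)ᵀ * B4 F * !![a, b, 0, 0; c, d, 0, 0; 0, 0, a', b'; 0, 0, c', d'] =
      !![0, -(a * d - b * c), 0, 0; a * d - b * c, 0, 0, 0; 0, 0, 0, a' * d' - b' * c'; 0, 0, -(a' * d' - b' * c'), 0] := by
  ext i j
  fin_cases i <;> fin_cases j <;> simp [B4, Matrix.mul_apply, Fin.sum_univ_succ] <;> ring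

lemma B4_anti (a b c d a' b' c' d' : F) :
    (!![0, 0, a, b; 0, 0, c, d; a', b', 0, 0; c', d', 0, 0] : Matrix (Fin 4) (Fin 4) F)ᵀ * B4 F * !![0, 0, a, b; 0, 0, c, d; a', b', 0, 0; c', d', 0, 0] =
      !![0, a' * d' - b' * c', 0, 0; -(a' * d' - b' * c'), 0, 0, 0; 0, 0, 0, -(a * d - b * c); 0, 0, a * d - b * c, 0] := by
  ext i j
  fin_cases i <;> fin_cases j <;> simp [B4, Matrix.mul_apply, Fin.sum_univ_succ] <;> ring

lemma det_unit {σ : F ≃+* F} (hσ : ∀ x : F, σ x = x → x ≠ 0 → x * x = 1) {x y : F} (h1 : x * y = 1) (h2 : x * σ y = 1) : x * x = 1 ∧ y = x := by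
  have hx : x ≠ 0 := left_ne_zero_of_mul_eq_one h1
  have hy : σ y = y := by
    apply mul_left_cancel₀ hx
    rw [h1, h2]
  have hy0 : y ≠ 0 := right_ne_zero_of_mul_eq_one h1
  have h3 := hσ y hy hy0
  have h4 : y = x := by
    apply mul_right_cancel₀ hy0
    rw [h3, h1]
  exact ⟨by rw [← h4]; exact h3, h4⟩

/-- The similarity factor of block matrices. -/
lemma block_case {σ : F ≃+* F} (hσ : ∀ x : F, σ x = x → x ≠ 0 → x * x = 1) {g : Matrix (Fin 4) (Fin 4) F} (hdet : g.det = 1)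
    (hU : gᵀ * J4 F * g.map σ = J4 F)
    (hb : (g 2 0 = 0 ∧ g 3 0 = 0 ∧ g 2 1 = 0 ∧ g 3 1 = 0 ∧ g 0 2 = 0 ∧ g 1 2 = 0 ∧ g 0 3 = 0 ∧ g 1 3 = 0) ∨
      (g 0 0 = 0 ∧ g 1 0 = 0 ∧ g 0 1 = 0 ∧ g 1 1 = 0 ∧ g 2 2 = 0 ∧ g 3 2 = 0 ∧ g 2 3 = 0 ∧ g 3 3 = 0)) :
    ∃ b : F, gᵀ * B4 F * g = b • B4 F := by
  rcases hb with ⟨h1, h2, h3, h4, h5, h6, h7, h8⟩ | ⟨h1, h2, h3, h4, h5, h6, h7, h8⟩
  · have hg : g = !![g 0 0, g 0 1, 0, 0; g 1 0, g 1 1, 0, 0; 0, 0, g 2 2, g 2 3; 0, 0, g 3 2, g 3 3] := by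
      ext i j
      fin_cases i <;> fin_cases j <;> simp [h1, h2, h3, h4, h5, h6, h7, h8]
    have e1 : (g 0 0 * g 1 1 - g 0 1 * g 1 0) * (g 2 2 * g 3 3 - g 2 3 * g 3 2) = 1 := by
      rw [← det_diag, ← hg, hdet]
    have k1 := congrFun (congrFun hU 0) 2
    have k2 := congrFun (congrFun hU 0) 3
    have k3 := congrFun (congrFun hU 1) 2
    have k4 := congrFun (congrFun hU 1) 3
    simp [J4, Matrix.mul_apply, Fin.sum_univ_succ, h1, h2, h3, h4, h5, h6, h7, h8] at k1 k2 k3 k4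
    have e2 : (g 0 0 * g 1 1 - g 0 1 * g 1 0) * σ (g 2 2 * g 3 3 - g 2 3 * g 3 2) = 1 := by
      rw [map_sub, map_mul, map_mul]
      have : (g 0 0 * g 1 1 - g 0 1 * g 1 0) * (σ (g 2 2) * σ (g 3 3) - σ (g 2 3) * σ (g 3 2)) =
        (g 0 0 * σ (g 2 2) + g 1 0 * σ (g 3 2)) * (g 0 1 * σ (g 2 3) + g 1 1 * σ (g 3 3)) -
        (g 0 0 * σ (g 2 3) + g 1 0 * σ (g 3 3)) * (g 0 1 * σ (g 2 2) + g 1 1 * σ (g 3 2)) := by ring
      rw [this, k1, k2, k3, k4]; ring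
    obtain ⟨e3, e4⟩ := det_unit hσ e1 e2
    refine ⟨g 0 0 * g 1 1 - g 0 1 * g 1 0, ?_⟩
    rw [hg, B4_diag]
    ext i j
    fin_cases i <;> fin_cases j <;> simp [B4, e4]
  · have hg : g = !![0, 0, g 0 2, g 0 3; 0, 0, g 1 2, g 1 3; g 2 0, g 2 1, 0, 0; g 3 0, g 3 1, 0, 0] := by
      ext i j
      fin_cases i <;> fin_cases j <;> simp [h1, h2, h3, h4, h5, h6, h7, h8]
    have e1 : (g 0 2 * g 1 3 - g 0 3 * g 1 2) * (g 2 0 * g 3 1 - g 2 1 * g 3 0) = 1 := by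
      rw [← det_anti, ← hg, hdet]
    have k1 := congrFun (congrFun hU 2) 0
    have k2 := congrFun (congrFun hU 2) 1
    have k3 := congrFun (congrFun hU 3) 0
    have k4 := congrFun (congrFun hU 3) 1
    simp [J4, Matrix.mul_apply, Fin.sum_univ_succ, h1, h2, h3, h4, h5, h6, h7, h8] at k1 k2 k3 k4
    have e2 : (g 0 2 * g 1 3 - g 0 3 * g 1 2) * σ (g 2 0 * g 3 1 - g 2 1 * g 3 0) = 1 := by
      rw [map_sub, map_mul, map_mul]
      have : (g 0 2 * g 1 3 - g 0 3 * g 1 2) * (σ (g 2 0) * σ (g 3 1) - σ (g 2 1) * σ (g 3 0)) =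
        (g 0 2 * σ (g 2 0) + g 1 2 * σ (g 3 0)) * (g 0 3 * σ (g 2 1) + g 1 3 * σ (g 3 1)) -
        (g 0 2 * σ (g 2 1) + g 1 2 * σ (g 3 1)) * (g 0 3 * σ (g 2 0) + g 1 3 * σ (g 3 0)) := by ring
      rw [this, k1, k2, k3, k4]; ring
    obtain ⟨e3, e4⟩ := det_unit hσ e1 e2
    refine ⟨-(g 0 2 * g 1 3 - g 0 3 * g 1 2), ?_⟩
    rw [hg, B4_anti]
    ext i j
    fin_cases i <;> fin_cases j <;> simp [B4, e4]

end

end Cfsg.Agent.Lib.UnEx
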