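import Cfsg.Agent.Lib.UnExD
set_option autoImplicit false
set_option linter.style.haveILetI false
set_option linter.unusedVariables false
set_option linter.unusedSectionVars false

/-!
Pairs of totally isotropic planes in the unitary space of dimension four, for `q ≤ 3`.
-/

namespace Cfsg.Agent.Lib.UnEx

open Cfsg Cfsg.Geo Cfsg.Agent.Lib.AschMU Cfsg.Agent.Lib.AschCore Cfsg.Agent.Lib.AschField Cfsg.Agent.Lib.AschAlg
  Cfsg.Agent.Lib.AschGroup Cfsg.Agent.Lib.AschGood Cfsg.Agent.Lib.AschAdj Cfsg.Agent.Lib.AschNonab Cfsg.Agent.Lib.AschTensor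
  Cfsg.Agent.Lib.AschComp Cfsg.Agent.Lib.AschSp Cfsg.Agent.Lib.AschESys Cfsg.Agent.Lib.UnBridge Cfsg.Agent.Lib.HermMat
open scoped Matrix MatrixGroups Kronecker

section
variable {F : Type*} [Field F] [Fintype F] {q : ℕ}

/-- Hyperbolic bases adapted to a pair of complementary totally isotropic planes. -/
lemma exists_hyp (hF : Fintype.card F = q ^ 2) {D : Fin 2 → Submodule F (Fin 4 → F)} (hD : IsMDecomposition 2 D)
    (hs : ∀ i, IsTotallySingularFor (hermForm 4 F q) (D i)) :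
    ∃ T : GL (Fin 4) F, (T : Matrix (Fin 4) (Fin 4) F)ᵀ * (T : Matrix (Fin 4) (Fin 4) F).map (sg hF) = J4 F ∧
      ((T : Matrix (Fin 4) (Fin 4) F) *ᵥ Pi.single 0 1 ∈ D 0 ∧ (T : Matrix (Fin 4) (Fin 4) F) *ᵥ Pi.single 1 1 ∈ D 0) ∧
      ((T : Matrix (Fin 4) (Fin 4) F) *ᵥ Pi.single 2 1 ∈ D 1 ∧ (T : Matrix (Fin 4) (Fin 4) F) *ᵥ Pi.single 3 1 ∈ D 1) ∧
      (∀ w ∈ D 0, (((T⁻¹ : GL (Fin 4) F) : Matrix (Fin 4) (Fin 4) F) *ᵥ w) 2 = 0 ∧
        (((T⁻¹ : GL (Fin 4) F) : Matrix (Fin 4) (Fin 4) F) *ᵥ w) 3 = 0) ∧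
      (∀ w ∈ D 1, (((T⁻¹ : GL (Fin 4) F) : Matrix (Fin 4) (Fin 4) F) *ᵥ w) 0 = 0 ∧
        (((T⁻¹ : GL (Fin 4) F) : Matrix (Fin 4) (Fin 4) F) *ᵥ w) 1 = 0) := by
  have H := herm_HS 4 hF
  let u : Module.Basis (Fin 2) F (D 0) := Module.finBasisOfFinrankEq F (D 0) (hD.finrank_eq 0)
  let φ : D 1 →ₗ[F] (Fin 2 → F) :=
    { toFun := fun y i => hermForm 4 F q (y : Fin 4 → F) (u i : Fin 4 → F)
      map_add' := by intro a b; funext i; exact hermForm_add_left _ _ _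
      map_smul' := by intro c a; funext i; exact hermForm_smul_left _ _ _ }
  have htop : D 0 ⊔ D 1 = ⊤ := by
    have := hD.iSup_eq_top
    rw [← this]
    apply le_antisymm
    · exact sup_le (le_iSup D 0) (le_iSup D 1)
    · refine iSup_le fun i => ?_
      fin_cases i
      · exact le_sup_left
      · exact le_sup_right
  have hφ : Function.Injective φ := by
    rw [injective_iff_map_eq_zero]
    intro y hy
    have h1 : ∀ i, hermForm 4 F q (y : Fin 4 → F) (u i : Fin 4 → F) = 0 := fun i => congrFun hy i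
    have h2 : ∀ x ∈ D 0, hermForm 4 F q (y : Fin 4 → F) x = 0 := by
      intro x hx
      have h3 := u.sum_repr ⟨x, hx⟩
      have h4 : x = ∑ i, u.repr ⟨x, hx⟩ i • (u i : Fin 4 → F) := by
        have h5 : ((∑ i, u.repr ⟨x, hx⟩ i • u i : D 0) : Fin 4 → F) = x := congrArg Subtype.val h3
        rw [Submodule.coe_sum] at h5
        exact h5.symm
      rw [h4, Fin.sum_univ_two, hermForm_add_right hF, hermForm_smul_right, hermForm_smul_right, h1, h1, mul_zero, mul_zero, add_zero]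
    apply Subtype.ext
    show (y : Fin 4 → F) = 0
    by_contra hy0
    obtain ⟨z, -, hz⟩ := herm_nd 4 hF (y : Fin 4 → F) trivial hy0
    have hz2 : z ∈ D 0 ⊔ D 1 := by rw [htop]; trivial
    obtain ⟨a, ha, b, hb, rfl⟩ := Submodule.mem_sup.1 hz2
    apply hz
    rw [hermForm_add_right hF, h2 a ha, zero_add]
    exact hs 1 _ y.2 _ hb
  let φe := LinearEquiv.ofInjectiveOfFinrankEq φ hφ (by rw [hD.finrank_eq 1, Module.finrank_fintype_fun_eq_card, Fintype.card_fin])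
  let v : Fin 2 → D 1 := fun j => φe.symm (Pi.single j 1)
  have hv : ∀ i j, hermForm 4 F q (v j : Fin 4 → F) (u i : Fin 4 → F) = if i = j then 1 else 0 := by
    intro i j
    have h1 : φ (v j) = Pi.single j 1 := by
      have := φe.apply_symm_apply (Pi.single j 1)
      exact this
    have h2 := congrFun h1 i
    rw [Pi.single_apply] at h2
    exact h2
  have hv' : ∀ i j, hermForm 4 F q (u i : Fin 4 → F) (v j : Fin 4 → F) = if i = j then 1 else 0 := by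
    intro i j
    rw [← hermForm_swap hF, hv]
    split_ifs
    · rw [one_pow]
    · rw [zero_pow]
      have := HermMat.two_le_q hF
      omega
  let b : Fin 4 → (Fin 4 → F) := ![u 0, u 1, v 0, v 1]
  have hb : ∀ i j, hermForm 4 F q (b i) (b j) = J4 F i j := by
    intro i j
    fin_cases i <;> fin_cases j
    · exact hs 0 _ (u 0).2 _ (u 0).2
    · exact hs 0 _ (u 0).2 _ (u 1).2
    · exact hv' 0 0
    · exact hv' 0 1
    · exact hs 0 _ (u 1).2 _ (u 0).2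
    · exact hs 0 _ (u 1).2 _ (u 1).2
    · exact hv' 1 0
    · exact hv' 1 1
    · exact hv 0 0
    · exact hv 1 0
    · exact hs 1 _ (v 0).2 _ (v 0).2
    · exact hs 1 _ (v 0).2 _ (v 1).2
    · exact hv 0 1
    · exact hv 1 1
    · exact hs 1 _ (v 1).2 _ (v 0).2
    · exact hs 1 _ (v 1).2 _ (v 1).2
  set M : Matrix (Fin 4) (Fin 4) F := Matrix.of fun i j => b j i with hM
  have h1 : Mᵀ * M.map (sg hF) = J4 F := by
    ext i j
    rw [← hb, Matrix.mul_apply, hermForm]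
    refine Finset.sum_congr rfl fun k _ => ?_
    rw [Matrix.map_apply, Matrix.transpose_apply, hM, Matrix.of_apply, Matrix.of_apply, sg_apply]
  have hmm : ∀ x : Matrix (Fin 4) (Fin 4) F, (x.map (sg hF)).map (sg hF) = x := by
    intro x; ext i j; simp [sg_inv]
  have h2 : Mᵀ.map (sg hF) * M = J4 F := by
    have := congrArg (fun x : Matrix (Fin 4) (Fin 4) F => x.map (sg hF)) h1
    simp only [map_mul', hmm, J4_map] at this
    exact this
  have h3 : (J4 F * Mᵀ.map (sg hF)) * M = 1 := by rw [mul_assoc, h2, J4_sq]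
  have hinv : ∀ w : Fin 4 → F, ∀ i, (Mᵀ.map (sg hF) *ᵥ w) i = hermForm 4 F q w (b i) := by
    intro w i
    rw [Matrix.mulVec, dotProduct, hermForm]
    refine Finset.sum_congr rfl fun k _ => ?_
    rw [Matrix.map_apply, Matrix.transpose_apply, hM, Matrix.of_apply, sg_apply, mul_comm]
  refine ⟨⟨M, J4 F * Mᵀ.map (sg hF), mul_eq_one_comm.1 h3, h3⟩, h1, ⟨?_, ?_⟩, ⟨?_, ?_⟩, ?_, ?_⟩
  · show M *ᵥ Pi.single 0 1 ∈ D 0
    rw [Matrix.mulVec_single_one]
    exact (u 0).2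
  · show M *ᵥ Pi.single 1 1 ∈ D 0
    rw [Matrix.mulVec_single_one]
    exact (u 1).2
  · show M *ᵥ Pi.single 2 1 ∈ D 1
    rw [Matrix.mulVec_single_one]
    exact (v 0).2
  · show M *ᵥ Pi.single 3 1 ∈ D 1
    rw [Matrix.mulVec_single_one]
    exact (v 1).2
  · intro w hw
    show ((J4 F * Mᵀ.map (sg hF)) *ᵥ w) 2 = 0 ∧ ((J4 F * Mᵀ.map (sg hF)) *ᵥ w) 3 = 0
    rw [← Matrix.mulVec_mulVec]
    have e0 : (Mᵀ.map (sg hF) *ᵥ w) 0 = 0 := by rw [hinv]; exact hs 0 _ hw _ (u 0).2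
    have e1 : (Mᵀ.map (sg hF) *ᵥ w) 1 = 0 := by rw [hinv]; exact hs 0 _ hw _ (u 1).2
    constructor
    · rw [Matrix.mulVec, dotProduct, Fin.sum_univ_four, e0, e1]; simp [J4]
    · rw [Matrix.mulVec, dotProduct, Fin.sum_univ_four, e0, e1]; simp [J4]
  · intro w hw
    show ((J4 F * Mᵀ.map (sg hF)) *ᵥ w) 0 = 0 ∧ ((J4 F * Mᵀ.map (sg hF)) *ᵥ w) 1 = 0
    rw [← Matrix.mulVec_mulVec]
    have e0 : (Mᵀ.map (sg hF) *ᵥ w) 2 = 0 := by rw [hinv]; exact hs 1 _ hw _ (v 0).2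
    have e1 : (Mᵀ.map (sg hF) *ᵥ w) 3 = 0 := by rw [hinv]; exact hs 1 _ hw _ (v 1).2
    constructor
    · rw [Matrix.mulVec, dotProduct, Fin.sum_univ_four, e0, e1]; simp [J4]
    · rw [Matrix.mulVec, dotProduct, Fin.sum_univ_four, e0, e1]; simp [J4]

lemma fixed_sq (hF : Fintype.card F = q ^ 2) (hq : q ≤ 3) (x : F) (h1 : sg hF x = x) (h0 : x ≠ 0) : x * x = 1 := by
  rw [sg_apply] at h1
  have hq2 := HermMat.two_le_q hF
  interval_cases q
  · have : x = 1 := by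
      apply mul_left_cancel₀ h0
      rw [← sq, h1, mul_one]
    rw [this, mul_one]
  · apply mul_left_cancel₀ h0
    rw [mul_one]
    calc x * (x * x) = x ^ 3 := by ring
      _ = x := h1

lemma perm_two : ∀ π : Equiv.Perm (Fin 2), (π 0 = 0 ∧ π 1 = 1) ∨ (π 0 = 1 ∧ π 1 = 0) := by decide

/-- The stabiliser of a pair of complementary totally isotropic planes is rational over a subfield of index two, if `q ≤ 3`. -/
theorem ti_pair_rat2 (hF : Fintype.card F = q ^ 2) (hq : q ≤ 3) {D : Fin 2 → Submodule F (Fin 4 → F)} (hD : IsMDecomposition 2 D)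
    (hs : ∀ i, IsTotallySingularFor (hermForm 4 F q) (D i)) {H : Subgroup (GL (Fin 4) F)}
    (hI : H ≤ GU 4 F q ⊓ specialLinear (Fin 4) F) (hle : H ≤ decompositionStabilizer D) : Rat2 (sg hF) 1 H := by
  obtain ⟨T, hT, ⟨t0, t1⟩, ⟨t2, t3⟩, hw0, hw1⟩ := exists_hyp hF hD hs
  set M : Matrix (Fin 4) (Fin 4) F := (T : Matrix (Fin 4) (Fin 4) F) with hM
  set N : Matrix (Fin 4) (Fin 4) F := ((T⁻¹ : GL (Fin 4) F) : Matrix (Fin 4) (Fin 4) F) with hN
  have hMN : M * N = 1 := by rw [hM, hN, gl_mul_inv]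
  have hNM : N * M = 1 := by rw [hM, hN, gl_inv_mul]
  have hmm : ∀ x : Matrix (Fin 4) (Fin 4) F, (x.map (sg hF)).map (sg hF) = x := by
    intro x; ext i j; simp [sg_inv]
  -- N = J Mᵀσ
  have hT2 : Mᵀ.map (sg hF) * M = J4 F := by
    have := congrArg (fun x : Matrix (Fin 4) (Fin 4) F => x.map (sg hF)) hT
    simp only [map_mul', hmm, J4_map] at this
    exact this
  have hNe : N = J4 F * Mᵀ.map (sg hF) := by
    calc N = (J4 F * J4 F) * N := by rw [J4_sq, one_mul]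
      _ = J4 F * (Mᵀ.map (sg hF) * M) * N := by rw [hT2]
      _ = J4 F * Mᵀ.map (sg hF) * (M * N) := by simp only [mul_assoc]
      _ = _ := by rw [hMN, mul_one]
  have hNσ : N.map (sg hF) = J4 F * Mᵀ := by
    rw [hNe, map_mul', hmm, J4_map]
  have hNσT : Nᵀ.map (sg hF) = M * J4 F := by
    rw [Matrix.transpose_map, hNσ, Matrix.transpose_mul, Matrix.transpose_transpose, J4_t]
  have hMTNT : Mᵀ * Nᵀ = 1 := by rw [← Matrix.transpose_mul, hNM, Matrix.transpose_one]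
  have hNTMT : Nᵀ * Mᵀ = 1 := by rw [← Matrix.transpose_mul, hMN, Matrix.transpose_one]
  have hBB : (Nᵀ * B4 F * N).map (sg hF) * (Nᵀ * B4 F * N) = (1 : F) • 1 := by
    rw [map_mul', map_mul', hNσT, hNσ, B4_map]
    calc M * J4 F * B4 F * (J4 F * Mᵀ) * (Nᵀ * B4 F * N) = M * (J4 F * B4 F) * J4 F * (Mᵀ * Nᵀ) * B4 F * N := by simp only [mul_assoc]
      _ = M * (J4 F * B4 F * (J4 F * B4 F)) * N := by rw [hMTNT]; simp only [mul_assoc, one_mul, mul_one]
      _ = _ := by rw [JB_sq, mul_one, hMN, one_smul]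
  haveI : Nonempty (Fin 4) := ⟨0⟩
  have hB : IsUnit (Nᵀ * B4 F * N) := IsUnit.of_mul_eq_one_right _ (by rw [hBB, one_smul])
  refine rat2_of_descent (rf_one hF) (sg_ne hF) (B := Nᵀ * B4 F * N) hB (fun g hg => (mem_GU hF).1 (hI hg).1) ?_ (l := 1) ?_ (Or.inr ⟨?_, ?_⟩)
  · intro g hg
    have hgU := (mem_GU_iff hF).1 (hI hg).1
    have hgS := (hI hg).2
    have hgdet : (g : Matrix (Fin 4) (Fin 4) F).det = 1 := by
      first
      | exact hgS
      | exact congrArg Units.val hgS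
    obtain ⟨π, hπ⟩ := hle hg
    set g' : Matrix (Fin 4) (Fin 4) F := N * (g : Matrix (Fin 4) (Fin 4) F) * M with hg'
    have hcomm : M * g' = (g : Matrix (Fin 4) (Fin 4) F) * M := by
      rw [hg']
      calc M * (N * (g : Matrix (Fin 4) (Fin 4) F) * M) = (M * N) * ((g : Matrix (Fin 4) (Fin 4) F) * M) := by simp only [mul_assoc]
        _ = _ := by rw [hMN, one_mul]
    have hdet : g'.det = 1 := by
      rw [hg', Matrix.det_mul, Matrix.det_mul, hgdet, mul_one, ← Matrix.det_mul, hNM, Matrix.det_one]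
    have hU : g'ᵀ * J4 F * g'.map (sg hF) = J4 F := by
      have h2 : (g : Matrix (Fin 4) (Fin 4) F)ᵀ * (g : Matrix (Fin 4) (Fin 4) F).map (sg hF) = 1 := by
        have := congrArg (fun x : Matrix (Fin 4) (Fin 4) F => x.map (sg hF)) hgU
        simp only [map_mul', hmm, map_one'] at this
        exact this
      calc g'ᵀ * J4 F * g'.map (sg hF) = (M * g')ᵀ * (M * g').map (sg hF) := by
            rw [Matrix.transpose_mul M g', map_mul' _ M g', mul_assoc g'ᵀ, mul_assoc g'ᵀ, ← mul_assoc Mᵀ, hT]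
        _ = Mᵀ * ((g : Matrix (Fin 4) (Fin 4) F)ᵀ * (g : Matrix (Fin 4) (Fin 4) F).map (sg hF)) * M.map (sg hF) := by
            rw [hcomm, Matrix.transpose_mul, map_mul']; simp only [mul_assoc]
        _ = J4 F := by rw [h2, mul_one, hT]
    have hcol : ∀ i j, g' i j = (N *ᵥ ((g : Matrix (Fin 4) (Fin 4) F) *ᵥ (M *ᵥ Pi.single j 1))) i := by
      intro i j
      rw [Matrix.mulVec_mulVec, Matrix.mulVec_mulVec, Matrix.mulVec_single_one, hg', mul_assoc]
      rfl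
    have hmem : ∀ i, ∀ x ∈ D i, (g : Matrix (Fin 4) (Fin 4) F) *ᵥ x ∈ D (π i) := by
      intro i x hx
      rw [← hπ]
      exact Submodule.mem_map.2 ⟨x, hx, rfl⟩
    have hbl : (g' 2 0 = 0 ∧ g' 3 0 = 0 ∧ g' 2 1 = 0 ∧ g' 3 1 = 0 ∧ g' 0 2 = 0 ∧ g' 1 2 = 0 ∧ g' 0 3 = 0 ∧ g' 1 3 = 0) ∨
      (g' 0 0 = 0 ∧ g' 1 0 = 0 ∧ g' 0 1 = 0 ∧ g' 1 1 = 0 ∧ g' 2 2 = 0 ∧ g' 3 2 = 0 ∧ g' 2 3 = 0 ∧ g' 3 3 = 0) := by
      have h01 : (π 0 = 0 ∧ π 1 = 1) ∨ (π 0 = 1 ∧ π 1 = 0) := perm_two π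
      rcases h01 with ⟨p0, p1⟩ | ⟨p0, p1⟩
      · left
        have m0 := hmem 0 _ t0
        have m1 := hmem 0 _ t1
        have m2 := hmem 1 _ t2
        have m3 := hmem 1 _ t3
        rw [p0] at m0 m1
        rw [p1] at m2 m3
        simp only [hcol]
        exact ⟨(hw0 _ m0).1, (hw0 _ m0).2, (hw0 _ m1).1, (hw0 _ m1).2, (hw1 _ m2).1, (hw1 _ m2).2, (hw1 _ m3).1, (hw1 _ m3).2⟩
      · right
        have m0 := hmem 0 _ t0
        have m1 := hmem 0 _ t1
        have m2 := hmem 1 _ t2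
        have m3 := hmem 1 _ t3
        rw [p0] at m0 m1
        rw [p1] at m2 m3
        simp only [hcol]
        exact ⟨(hw1 _ m0).1, (hw1 _ m0).2, (hw1 _ m1).1, (hw1 _ m1).2, (hw0 _ m2).1, (hw0 _ m2).2, (hw0 _ m3).1, (hw0 _ m3).2⟩
    obtain ⟨b, hb⟩ := block_case (fixed_sq hF hq) hdet hU hbl
    refine ⟨b, ?_⟩
    have e1 : N * (g : Matrix (Fin 4) (Fin 4) F) = g' * N := by
      rw [hg', mul_assoc _ M N, hMN, mul_one]
    calc (g : Matrix (Fin 4) (Fin 4) F)ᵀ * (Nᵀ * B4 F * N) * (g : Matrix (Fin 4) (Fin 4) F)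
        = (N * (g : Matrix (Fin 4) (Fin 4) F))ᵀ * B4 F * (N * (g : Matrix (Fin 4) (Fin 4) F)) := by
          rw [Matrix.transpose_mul]; simp only [mul_assoc]
      _ = Nᵀ * (g'ᵀ * B4 F * g') * N := by rw [e1, Matrix.transpose_mul]; simp only [mul_assoc]
      _ = b • (Nᵀ * B4 F * N) := by rw [hb, Matrix.mul_smul, Matrix.smul_mul]
  · rw [inv_one, one_mul]
    exact hBB
  · rw [Matrix.transpose_mul, Matrix.transpose_mul, Matrix.transpose_transpose, B4_t]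
    simp only [mul_neg, neg_mul, mul_assoc]
  · intro v
    rw [← Matrix.mulVec_mulVec, ← Matrix.mulVec_mulVec, Matrix.dotProduct_mulVec v, Matrix.vecMul_transpose]
    exact B4_alt _

end

end Cfsg.Agent.Lib.UnEx
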