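import Cfsg.Agent.Lib.UnExC
import Cfsg.Agent.Lib.UnExE
set_option autoImplicit false
set_option linter.style.haveILetI false
set_option linter.unusedVariables false
set_option linter.unusedSectionVars false

/-!
Maximal subgroups of the special unitary groups that are rational over a subfield of index two.
-/

namespace Cfsg.Agent.Lib.UnEx

open Cfsg Cfsg.Geo Cfsg.Agent.Lib.AschMU Cfsg.Agent.Lib.AschCore Cfsg.Agent.Lib.AschField Cfsg.Agent.Lib.AschAlg
  Cfsg.Agent.Lib.AschGroup Cfsg.Agent.Lib.AschGood Cfsg.Agent.Lib.AschAdj Cfsg.Agent.Lib.AschNonab Cfsg.Agent.Lib.AschTensor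
  Cfsg.Agent.Lib.AschComp Cfsg.Agent.Lib.AschSp Cfsg.Agent.Lib.AschESys Cfsg.Agent.Lib.UnBridge Cfsg.Agent.Lib.HermMat
open scoped Matrix MatrixGroups Kronecker

variable {F : Type*} [Field F] [Fintype F] {n q : ℕ}

/-- Index two subfields. -/
theorem rat2_max (hF : Fintype.card F = q ^ 2) (hn : 3 ≤ n) {H : Subgroup (GL (Fin n) F)}
    (hH : IsMaximalIn (GU n F q ⊓ specialLinear (Fin n) F) H) (h : Rat2 (sg hF) 1 H) :
    (Odd q ∧ ∃ (F₀ : Subfield F) (P : GL (Fin n) F), Fintype.card F = Nat.card F₀ ^ 2 ∧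
      IsFormRationalStructure (hermForm n F q) F₀ 1 P ∧ H = subfieldSubgroup F₀ P ⊓ (GU n F q ⊓ specialLinear (Fin n) F)) ∨
    (∃ (F₀ : Subfield F) (P : GL (Fin n) F) (ζ : F), Fintype.card F = Nat.card F₀ ^ 2 ∧ ζ ≠ 0 ∧ ζ + ζ ^ q = 0 ∧
      IsFormRationalStructure (hermForm n F q) F₀ ζ P ∧
      (∀ u : Fin n → F, (∀ i, u i ∈ F₀) → (hermForm n F q) ((P : Matrix (Fin n) (Fin n) F) *ᵥ u) ((P : Matrix (Fin n) (Fin n) F) *ᵥ u) = 0) ∧
      H = subfieldSubgroup F₀ P ⊓ (GU n F q ⊓ specialLinear (Fin n) F)) := by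
  classical
  obtain ⟨P, hP, hcase⟩ := h
  have hcard : Fintype.card F = Nat.card (fx (sg hF)) ^ 2 := by
    rw [← Nat.card_eq_fintype_card]; exact card_fx (sg_inv hF) (sg_ne hF)
  have hmax : H = subfieldSubgroup (fx (sg hF)) P ⊓ (GU n F q ⊓ specialLinear (Fin n) F) :=
    SLNot.eq_inf_of_maximal hH hP (UnNot.su_not_subfield_two hF hn hcard P)
  have hgr : ∀ u v : Fin n → F, hermForm n F q ((P : Matrix (Fin n) (Fin n) F) *ᵥ u) ((P : Matrix (Fin n) (Fin n) F) *ᵥ v) =
      bf (sg hF) (gr (sg hF) 1 P) u v := by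
    intro u v; rw [herm_eq hF, bf_gr]
  have hσfix : ∀ v : Fin n → F, (∀ i, v i ∈ fx (sg hF)) → (fun i => sg hF (v i)) = v := by
    intro v hv; funext i; exact hv i
  rcases hcase with ⟨h2, hfix⟩ | ⟨hfix, hT, hd⟩
  · left
    refine ⟨odd_q hF h2, fx (sg hF), P, hcard, ?_, hmax⟩
    intro u v hu hv
    rw [one_mul, hgr]
    unfold bf
    rw [hσfix v hv]
    exact dot_mem _ _ _ _ hu hfix hv
  · right
    obtain ⟨θ, hθ⟩ := exists_ne (sg_ne hF)
    set ζ := θ - sg hF θ with hζ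
    have hζ0 : ζ ≠ 0 := sub_ne_zero.2 (Ne.symm hθ)
    have hζσ : sg hF ζ = -ζ := by rw [hζ, map_sub, sg_inv]; ring
    refine ⟨fx (sg hF), P, ζ, hcard, hζ0, ?_, ?_, ?_, hmax⟩
    · rw [← sg_apply hF, hζσ, add_neg_cancel]
    · intro u v hu hv
      rw [hgr]
      unfold bf
      rw [hσfix v hv]
      have h3 : ζ * (u ⬝ᵥ (gr (sg hF) 1 P *ᵥ v)) = ∑ i, u i * ∑ j, (ζ * gr (sg hF) 1 P i j) * v j := by
        simp only [dotProduct, Matrix.mulVec, Finset.mul_sum]
        refine Finset.sum_congr rfl fun i _ => Finset.sum_congr rfl fun j _ => ?_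
        ring
      rw [h3]
      refine sum_mem fun i _ => mul_mem (hu i) (sum_mem fun j _ => mul_mem ?_ (hv j))
      rw [mem_fx, map_mul, hfix, hζσ, neg_mul_neg]
    · intro u hu
      rw [hgr]
      unfold bf
      rw [hσfix u hu]
      -- alternating
      set A := gr (sg hF) 1 P
      have h3 : ∑ i, ∑ j, u i * A i j * u j = 0 := by
        rw [← Finset.sum_product']
        refine Finset.sum_involution (fun p _ => (p.2, p.1)) ?_ ?_ ?_ ?_
        · rintro ⟨i, j⟩ _
          have : A j i = - A i j := congrFun (congrFun hT i) j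
          simp only [this]; ring
        · rintro ⟨i, j⟩ _ hne heq
          apply hne
          have hij : j = i := congrArg Prod.fst heq
          subst hij
          simp only
          rw [hd j]; ring
        · rintro p _; exact Finset.mem_univ _
        · rintro ⟨i, j⟩ _; rfl
      rw [← h3]
      simp only [dotProduct, Matrix.mulVec, Finset.mul_sum, mul_assoc]

end Cfsg.Agent.Lib.UnEx
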