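import Cfsg.Agent.Lib.UnTwo
set_option autoImplicit false
set_option linter.style.haveILetI false
set_option linter.unusedVariables false
set_option linter.unusedSectionVars false

/-!
Tables for the field with four elements.
-/

namespace Cfsg.Agent.Lib.UnF4

open Cfsg

/-- Addition table of the field with four elements `0, 1, ω, ω + 1`. -/
def ta : Fin 4 → Fin 4 → Fin 4 := ![![0, 1, 2, 3], ![1, 0, 3, 2], ![2, 3, 0, 1], ![3, 2, 1, 0]]

/-- Multiplication table of the field with four elements. -/
def tm : Fin 4 → Fin 4 → Fin 4 := ![![0, 0, 0, 0], ![0, 1, 2, 3], ![0, 2, 3, 1], ![0, 3, 1, 2]]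

/-- Coordinates on a field with four elements. -/
structure Tab {F : Type*} [Field F] (ψ : Fin 4 → F) : Prop where
  bij : Function.Bijective ψ
  zero : ψ 0 = 0
  one : ψ 1 = 1
  add : ∀ a b, ψ (ta a b) = ψ a + ψ b
  mul : ∀ a b, ψ (tm a b) = ψ a * ψ b

theorem exists_tab {F : Type*} [Field F] [Fintype F] (hF : Fintype.card F = 2 ^ 2) : ∃ ψ : Fin 4 → F, Tab ψ := by
  classical
  have h2 := UnNot.two_eq_zero hF
  obtain ⟨w, hw⟩ : ∃ w : F, w ∉ ({0, 1} : Finset F) := by
    by_contra hcon
    push Not at hcon
    have h1 : (Finset.univ : Finset F) ⊆ {0, 1} := fun x _ => hcon x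
    have h3 := Finset.card_le_card h1
    rw [Finset.card_univ, hF] at h3
    have := Finset.card_le_two (a := (0 : F)) (b := 1)
    omega
  have hw0 : w ≠ 0 := fun h => hw (by simp [h])
  have hw1 : w ≠ 1 := fun h => hw (by simp [h])
  have h3 := UnNot.cube_eq_one hF hw0
  have hww : w * w = w + 1 := by
    have h4 : (w - 1) * (w * w + w + 1) = 0 := by linear_combination h3
    rcases mul_eq_zero.1 h4 with h5 | h5
    · exact absurd (sub_eq_zero.1 h5) hw1
    · linear_combination h5 - (w + 1) * h2
  have hw2 : w + 1 ≠ 0 := by
    intro h
    apply hw1
    linear_combination h - h2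
  have hinj : Function.Injective (![0, 1, w, w + 1] : Fin 4 → F) := by
    intro a b hab
    fin_cases a <;> fin_cases b <;> simp at hab ⊢ <;>
      first
      | exact absurd hab hw0
      | exact absurd hab.symm hw0
      | exact absurd hab hw1
      | exact absurd hab.symm hw1
      | exact absurd hab hw2
      | exact absurd hab.symm hw2
      | (apply hw0; linear_combination hab)
      | (apply hw0; linear_combination -hab)
  refine ⟨![0, 1, w, w + 1], ⟨?_, rfl, rfl, ?_, ?_⟩⟩
  · rw [Fintype.bijective_iff_injective_and_card]
    exact ⟨hinj, by rw [hF]; simp⟩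
  · intro a b
    fin_cases a <;> fin_cases b <;> simp [ta] <;>
      first
      | ring1
      | linear_combination h2
      | linear_combination -h2
      | linear_combination w * h2
      | linear_combination -w * h2
      | linear_combination (w + 1) * h2
      | linear_combination -(w + 1) * h2
  · intro a b
    fin_cases a <;> fin_cases b <;> simp [tm] <;>
      first
      | ring1
      | linear_combination hww
      | linear_combination -hww
      | linear_combination h2
      | linear_combination -h2
      | linear_combination -hww - w * h2
      | linear_combination -hww - h2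
      | linear_combination -hww - (w + 1) * h2
      | linear_combination -hww + (w + 1) * h2
      | linear_combination -hww + w * h2

end Cfsg.Agent.Lib.UnF4
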