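import Cfsg.Agent.Lib.UnExB
import Cfsg.Agent.Lib.UnF4Tab
set_option autoImplicit false
set_option linter.style.haveILetI false
set_option linter.unusedVariables false
set_option linter.unusedSectionVars false

/-!
The stabiliser of an orthonormal frame of the unitary space of dimension six over the field with four elements is not maximal.
-/

namespace Cfsg.Agent.Lib.UnEx

open Cfsg Cfsg.Geo Cfsg.Agent.Lib.AschMU Cfsg.Agent.Lib.AschCore Cfsg.Agent.Lib.AschField Cfsg.Agent.Lib.AschAlg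
  Cfsg.Agent.Lib.AschGroup Cfsg.Agent.Lib.AschGood Cfsg.Agent.Lib.AschAdj Cfsg.Agent.Lib.AschNonab Cfsg.Agent.Lib.AschTensor
  Cfsg.Agent.Lib.AschComp Cfsg.Agent.Lib.AschSp Cfsg.Agent.Lib.AschESys Cfsg.Agent.Lib.UnBridge Cfsg.Agent.Lib.HermMat
  Cfsg.Agent.Lib.UnF4
open scoped Matrix MatrixGroups Kronecker

section table

/-- The indicator of nonzero elements. -/
def nz (a : Fin 4) : ℕ := if a = 0 then 0 else 1

/-- Weight two, or product of the entries one. -/
def Pt (a b c d e f : Fin 4) : Bool :=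
  (nz a + nz b + nz c + nz d + nz e + nz f == 2) || (tm (tm (tm (tm (tm a b) c) d) e) f == 1)

/-- The check. -/
def chk (a b c d e f : Fin 4) : Bool :=
  !(Pt a b c d e f) || (let s := ta (ta (ta (ta (ta a b) c) d) e) f; Pt (ta a s) (ta b s) (ta c s) (ta d s) (ta e s) (ta f s))

theorem brute : ∀ a b c d e f : Fin 4, chk a b c d e f = true := by decide +kernel

end table

section
variable {F : Type*} [Field F]

open Classical in
/-- The vectors of weight two, and the vectors with product of the entries one. -/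
def PP (x : Fin 6 → F) : Prop := (∏ i, x i = 1) ∨ (Finset.univ.filter (fun i => x i ≠ 0)).card = 2

lemma PP_iff {ψ : Fin 4 → F} (hψ : Tab ψ) (y : Fin 6 → Fin 4) :
    PP (fun i => ψ (y i)) ↔ Pt (y 0) (y 1) (y 2) (y 3) (y 4) (y 5) = true := by
  classical
  have hnz : ∀ a, (if ψ a ≠ 0 then 1 else 0) = nz a := by
    intro a
    unfold nz
    by_cases h : a = 0
    · rw [if_pos h, h, hψ.zero, if_neg (by simp)]
    · rw [if_neg h, if_pos]
      rw [← hψ.zero]
      exact fun h' => h (hψ.bij.1 h')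
  have h1 : (∏ i, ψ (y i) = 1) ↔ tm (tm (tm (tm (tm (y 0) (y 1)) (y 2)) (y 3)) (y 4)) (y 5) = 1 := by
    rw [Fin.prod_univ_six, ← hψ.mul, ← hψ.mul, ← hψ.mul, ← hψ.mul, ← hψ.mul, ← hψ.one]
    exact hψ.bij.1.eq_iff
  have h2 : (Finset.univ.filter (fun i => ψ (y i) ≠ 0)).card = nz (y 0) + nz (y 1) + nz (y 2) + nz (y 3) + nz (y 4) + nz (y 5) := by
    rw [Finset.card_filter, Fin.sum_univ_six, hnz, hnz, hnz, hnz, hnz, hnz]
  unfold PP Pt
  rw [h1]
  simp only [Bool.or_eq_true, beq_iff_eq]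
  rw [or_comm]
  apply or_congr_left
  rw [← h2]

lemma PP_add [Fintype F] (hF : Fintype.card F = 2 ^ 2) {x : Fin 6 → F} (hx : PP x) : PP (fun i => x i + ∑ j, x j) := by
  obtain ⟨ψ, hψ⟩ := exists_tab hF
  choose y hy using fun i => hψ.bij.2 (x i)
  obtain rfl : (fun i => ψ (y i)) = x := funext hy
  have hs : ∑ j, ψ (y j) = ψ (ta (ta (ta (ta (ta (y 0) (y 1)) (y 2)) (y 3)) (y 4)) (y 5)) := by
    rw [Fin.sum_univ_six, hψ.add, hψ.add, hψ.add, hψ.add, hψ.add]
  rw [PP_iff hψ] at hx
  have h1 : (fun i => ψ (y i) + ∑ j, ψ (y j)) = fun i => ψ (ta (y i) (ta (ta (ta (ta (ta (y 0) (y 1)) (y 2)) (y 3)) (y 4)) (y 5))) := by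
    funext i
    rw [hs]
    exact (hψ.add _ _).symm
  show PP (fun i => ψ (y i) + ∑ j, ψ (y j))
  rw [h1, PP_iff hψ]
  have h2 := brute (y 0) (y 1) (y 2) (y 3) (y 4) (y 5)
  unfold chk at h2
  rw [hx] at h2
  simpa using h2

lemma det_of_mem {n : ℕ} {g : GL (Fin n) F} (hg : g ∈ specialLinear (Fin n) F) : (g : Matrix (Fin n) (Fin n) F).det = 1 := by
  have h3 : Matrix.GeneralLinearGroup.det g = 1 := hg
  have h4 := congrArg Units.val h3
  rw [Matrix.GeneralLinearGroup.val_det_apply, Units.val_one] at h4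
  exact h4

/-- Monomial matrices with product of the entries one preserve the set. -/
lemma PP_mono {π : Equiv.Perm (Fin 6)} {d : Fin 6 → F} (hd : ∀ i, d i ≠ 0) (hp : ∏ i, d i = 1) {x y : Fin 6 → F}
    (hxy : ∀ i, y (π i) = d i * x i) : PP y ↔ PP x := by
  classical
  have h1 : ∏ i, y i = ∏ i, x i := by
    rw [← Equiv.prod_comp π]
    simp only [hxy]
    rw [Finset.prod_mul_distrib, hp, one_mul]
  have h2 : (Finset.univ.filter (fun i => y i ≠ 0)).card = (Finset.univ.filter (fun i => x i ≠ 0)).card := by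
    symm
    apply Finset.card_bij (fun i _ => π i)
    · intro i hi
      rw [Finset.mem_filter] at hi ⊢
      exact ⟨Finset.mem_univ _, by rw [hxy]; exact mul_ne_zero (hd i) hi.2⟩
    · intro i _ j _ hij
      exact π.injective hij
    · intro i hi
      refine ⟨π.symm i, ?_, π.apply_symm_apply i⟩
      rw [Finset.mem_filter] at hi ⊢
      refine ⟨Finset.mem_univ _, fun h0 => hi.2 ?_⟩
      rw [← π.apply_symm_apply i, hxy, h0, mul_zero]
  unfold PP
  rw [h1]
  apply or_congr_right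
  constructor <;> intro h <;> [rw [← h]; rw [← h]] <;> [convert h2.symm; convert h2]

end

section six
variable {F : Type*} [Field F] [Fintype F]

theorem frame_six_not_maximal (hF : Fintype.card F = 2 ^ 2) {D : Fin 6 → Submodule F (Fin 6 → F)}
    (hD : IsNondegenerateMDecomposition (hermForm 6 F 2) 1 D) {H : Subgroup (GL (Fin 6) F)}
    (hH : IsMaximalIn (GU 6 F 2 ⊓ specialLinear (Fin 6) F) H)
    (h : H = decompositionStabilizer D ⊓ (GU 6 F 2 ⊓ specialLinear (Fin 6) F)) : False := by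
  classical
  have h2 := UnNot.two_eq_zero hF
  obtain ⟨b, hb, hbD⟩ := exists_orthonormal hF hD
  obtain ⟨T, hT, hTb⟩ := exists_gl_of_orthonormal hF b hb
  have hTD : ∀ i, D i = F ∙ ((T : Matrix (Fin 6) (Fin 6) F) *ᵥ Pi.single i 1) := by
    intro i; rw [hTb, hbD]
  -- transvections
  have ha : (1 : F) + 1 ^ 2 = 0 := by rw [one_pow, one_add_one_eq_two, h2]
  have htv : ∀ (v : Fin 6 → F) (hv : hermForm 6 F 2 v v = 0), ∃ t ∈ GU 6 F 2 ⊓ specialLinear (Fin 6) F,
      ∀ x, ((T⁻¹ * t * T : GL (Fin 6) F) : Matrix (Fin 6) (Fin 6) F) *ᵥ x = x + hermForm 6 F 2 x v • v := by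
    intro v hv
    have hTv : hermForm 6 F 2 ((T : Matrix (Fin 6) (Fin 6) F) *ᵥ v) ((T : Matrix (Fin 6) (Fin 6) F) *ᵥ v) = 0 := by
      rw [← hv]; exact hT v v
    refine ⟨UnNot.utv _ hTv 1, UnNot.utv_mem hF _ hTv ha, fun x => ?_⟩
    have hTx : hermForm 6 F 2 ((T : Matrix (Fin 6) (Fin 6) F) *ᵥ x) ((T : Matrix (Fin 6) (Fin 6) F) *ᵥ v) = hermForm 6 F 2 x v := hT x v
    rw [Units.val_mul, Units.val_mul, ← Matrix.mulVec_mulVec, ← Matrix.mulVec_mulVec, UnNot.utv_mulVec, hTx, Matrix.mulVec_add,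
      gl_inv_mulVec, one_mul, Matrix.mulVec_smul, gl_inv_mulVec]
  -- the stabiliser of the set
  let Q : (Fin 6 → F) → Prop := fun x => PP (((T⁻¹ : GL (Fin 6) F) : Matrix (Fin 6) (Fin 6) F) *ᵥ x)
  let M : Subgroup (GL (Fin 6) F) :=
    { carrier := {g | ∀ x, Q ((g : Matrix (Fin 6) (Fin 6) F) *ᵥ x) ↔ Q x}
      mul_mem' := by
        intro a b ha hb x
        rw [Units.val_mul, ← Matrix.mulVec_mulVec]
        exact (ha _).trans (hb _)
      one_mem' := by intro x; rw [Units.val_one, Matrix.one_mulVec]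
      inv_mem' := by
        intro a ha x
        have := ha (((a⁻¹ : GL (Fin 6) F) : Matrix (Fin 6) (Fin 6) F) *ᵥ x)
        rw [gl_mulVec_inv] at this
        exact this.symm }
  have hM : ∀ g : GL (Fin 6) F, (∀ x, PP (((T⁻¹ * g * T : GL (Fin 6) F) : Matrix (Fin 6) (Fin 6) F) *ᵥ x) ↔ PP x) → g ∈ M := by
    intro g hg x
    have h1 := hg (((T⁻¹ : GL (Fin 6) F) : Matrix (Fin 6) (Fin 6) F) *ᵥ x)
    rw [Units.val_mul, Units.val_mul, ← Matrix.mulVec_mulVec, ← Matrix.mulVec_mulVec, gl_mulVec_inv] at h1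
    exact h1
  have hM' : ∀ g ∈ M, ∀ x, PP (((T⁻¹ * g * T : GL (Fin 6) F) : Matrix (Fin 6) (Fin 6) F) *ᵥ x) ↔ PP x := by
    intro g hg x
    have h1 := hg ((T : Matrix (Fin 6) (Fin 6) F) *ᵥ x)
    have h3 : Q ((T : Matrix (Fin 6) (Fin 6) F) *ᵥ x) ↔ PP x := by
      show PP _ ↔ PP x
      rw [gl_inv_mulVec]
    have h4 : Q ((g : Matrix (Fin 6) (Fin 6) F) *ᵥ ((T : Matrix (Fin 6) (Fin 6) F) *ᵥ x)) ↔ PP (((T⁻¹ * g * T : GL (Fin 6) F) : Matrix (Fin 6) (Fin 6) F) *ᵥ x) := by
      show PP _ ↔ PP _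
      rw [Units.val_mul, Units.val_mul, ← Matrix.mulVec_mulVec, ← Matrix.mulVec_mulVec]
    exact h4.symm.trans (h1.trans h3)
  have hHM : H ≤ M ⊓ (GU 6 F 2 ⊓ specialLinear (Fin 6) F) := by
    refine le_inf ?_ hH.1.le
    intro g hg
    rw [h] at hg
    obtain ⟨hgD, hgU, hgS⟩ := hg
    obtain ⟨π, d, hd, hm⟩ := stab_mono hF hT hTD hgU hgD
    apply hM
    intro x
    have hd0 : ∀ i, d i ≠ 0 := by
      intro i h0
      have := hd i
      rw [h0, zero_pow (by norm_num)] at this
      exact zero_ne_one this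
    set g' : GL (Fin 6) F := T⁻¹ * g * T with hg'
    have hdet : (g' : Matrix (Fin 6) (Fin 6) F).det = 1 := by
      rw [hg', Units.val_mul, Units.val_mul, Matrix.det_mul, Matrix.det_mul]
      have h1 : (g : Matrix (Fin 6) (Fin 6) F).det = 1 := by
        exact det_of_mem hgS
      rw [h1, mul_one, ← Matrix.det_mul, gl_inv_mul, Matrix.det_one]
    have hp : ∏ i, d i = 1 := by
      have h1 : (g' : Matrix (Fin 6) (Fin 6) F)ᵀ * (g' : Matrix (Fin 6) (Fin 6) F) = Matrix.diagonal fun j => d j ^ 2 := by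
        ext i j
        rw [Matrix.mul_apply, Finset.sum_eq_single (π j), Matrix.transpose_apply, hm, hm, if_pos rfl, Matrix.diagonal_apply]
        · by_cases hij : i = j
          · subst hij; rw [if_pos rfl, if_pos rfl, sq]
          · rw [if_neg (fun h => hij (π.injective h).symm), if_neg hij, zero_mul]
        · intro k _ hk
          rw [hm k j, if_neg hk, mul_zero]
        · intro h; exact absurd (Finset.mem_univ _) h
      have h3 := congrArg Matrix.det h1
      rw [Matrix.det_mul, Matrix.det_transpose, hdet, Matrix.det_diagonal, Finset.prod_pow, mul_one] at h3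
      have h4 : (∏ i, d i - 1) ^ 2 = 0 := by linear_combination -h3 + (1 - ∏ i, d i) * h2
      exact sub_eq_zero.1 (pow_eq_zero_iff two_ne_zero |>.1 h4)
    apply PP_mono (π := π) hd0 hp
    intro i
    rw [Matrix.mulVec, dotProduct, Finset.sum_eq_single i, hm, if_pos rfl]
    · intro k _ hk
      rw [hm, if_neg (fun h => hk (π.injective h).symm), zero_mul]
    · intro h; exact absurd (Finset.mem_univ _) h
  have hherm1 : ∀ x : Fin 6 → F, hermForm 6 F 2 x (fun _ => 1) = ∑ i, x i := by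
    intro x
    unfold hermForm
    simp
  rcases hH.2 _ hHM inf_le_right with h1 | h1
  · -- the transvection with centre `(1, …, 1)`
    have hv : hermForm 6 F 2 (fun _ => 1) (fun _ => 1) = 0 := by
      rw [hherm1, Fin.sum_univ_six]
      linear_combination 3 * h2
    obtain ⟨t, ht, htx⟩ := htv _ hv
    have hadd : ∀ x, PP x → PP (((T⁻¹ * t * T : GL (Fin 6) F) : Matrix (Fin 6) (Fin 6) F) *ᵥ x) := by
      intro x hx
      rw [htx, hherm1]
      have e : x + (∑ i, x i) • (fun _ => (1 : F)) = fun i => x i + ∑ j, x j := by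
        funext i; simp
      rw [e]
      exact PP_add hF hx
    have hinvol : ∀ x, ((T⁻¹ * t * T : GL (Fin 6) F) : Matrix (Fin 6) (Fin 6) F) *ᵥ (((T⁻¹ * t * T : GL (Fin 6) F) : Matrix (Fin 6) (Fin 6) F) *ᵥ x) = x := by
      intro x
      rw [htx, htx, hermForm_add_left, hermForm_smul_left, hv, mul_zero, add_zero, add_assoc, ← two_smul F (_ • _), h2, zero_smul, add_zero]
    have htM : t ∈ M := by
      apply hM
      intro x
      constructor
      · intro hx
        have := hadd _ hx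
        rwa [hinvol] at this
      · exact hadd x
    have htH : t ∈ H := by rw [← h1]; exact ⟨htM, ht⟩
    rw [h] at htH
    obtain ⟨π, d, hd, hm⟩ := stab_mono hF hT hTD ht.1 htH.1
    have hent : ∀ i j, ((T⁻¹ * t * T : GL (Fin 6) F) : Matrix (Fin 6) (Fin 6) F) i j = (Pi.single j 1 : Fin 6 → F) i + 1 := by
      intro i j
      have h3 := congrFun (htx (Pi.single j 1)) i
      rw [Matrix.mulVec_single_one] at h3
      rw [show ((T⁻¹ * t * T : GL (Fin 6) F) : Matrix (Fin 6) (Fin 6) F) i j = (((T⁻¹ * t * T : GL (Fin 6) F) : Matrix (Fin 6) (Fin 6) F).col j) i from rfl, h3,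
        hherm1, Finset.sum_pi_single']
      simp
    have e1 := hent 1 0
    have e2 := hent 2 0
    rw [hm] at e1 e2
    simp only [Pi.single_apply] at e1 e2
    have f1 : π 0 = 1 := by
      by_contra hne
      rw [if_neg (fun h => hne h.symm), if_neg (by decide), zero_add] at e1
      exact zero_ne_one e1
    have f2 : π 0 = 2 := by
      by_contra hne
      rw [if_neg (fun h => hne h.symm), if_neg (by decide), zero_add] at e2
      exact zero_ne_one e2
    rw [f1] at f2
    exact absurd f2 (by decide)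
  · -- the transvection with centre `(1, 1, 1, 1, 0, 0)`
    have hv : hermForm 6 F 2 ![1, 1, 1, 1, 0, 0] ![1, 1, 1, 1, 0, 0] = 0 := by
      unfold hermForm
      rw [Fin.sum_univ_six]
      simp
      linear_combination 2 * h2
    obtain ⟨t, ht, htx⟩ := htv _ hv
    have htM : t ∈ M := by rw [← h1] at ht; exact ht.1
    have h3 := (hM' t htM ![1, 0, 0, 0, 1, 0]).2 (by
      right
      rw [Finset.card_filter, Fin.sum_univ_six]
      simp)
    have h4 : hermForm 6 F 2 ![1, 0, 0, 0, 1, 0] ![1, 1, 1, 1, 0, 0] = 1 := by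
      unfold hermForm
      rw [Fin.sum_univ_six]
      simp
    rw [htx, h4, one_smul] at h3
    have h5 : (![1, 0, 0, 0, 1, 0] : Fin 6 → F) + ![1, 1, 1, 1, 0, 0] = ![0, 1, 1, 1, 1, 0] := by
      funext i
      fin_cases i <;> simp
      · rw [one_add_one_eq_two, h2]
    rw [h5] at h3
    rcases h3 with h3 | h3
    · rw [Fin.prod_univ_six] at h3
      simp at h3
    · rw [Finset.card_filter, Fin.sum_univ_six] at h3
      simp at h3

end six

end Cfsg.Agent.Lib.UnEx
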