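import Cfsg.Agent.Lib.UnExG
set_option autoImplicit false
set_option linter.style.haveILetI false
set_option linter.unusedVariables false
set_option linter.unusedSectionVars false

/-!
Matrices that normalise the field with sixty-four elements in dimension six.
-/

namespace Cfsg.Agent.Lib.UnEx

open Cfsg Cfsg.Geo Cfsg.Agent.Lib.AschMU Cfsg.Agent.Lib.AschCore Cfsg.Agent.Lib.AschField Cfsg.Agent.Lib.AschAlg
  Cfsg.Agent.Lib.AschGroup Cfsg.Agent.Lib.AschGood Cfsg.Agent.Lib.AschAdj Cfsg.Agent.Lib.AschNonab Cfsg.Agent.Lib.AschTensor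
  Cfsg.Agent.Lib.AschComp Cfsg.Agent.Lib.AschSp Cfsg.Agent.Lib.AschESys Cfsg.Agent.Lib.UnBridge Cfsg.Agent.Lib.HermMat
  Cfsg.Agent.Lib.UnF4
open scoped Matrix MatrixGroups Kronecker

section table

/-- sum of three -/
def t3 (a b c : Fin 4) : Fin 4 := ta (ta a b) c

/-- The check for scalars. -/
def chkS (x y z : Fin 4) : Bool :=
  let x' := tm x x
  let y' := tm y y
  let z' := tm z z
  let e0 := t3 (tm x x') (tm y y') (tm z z')
  let e1 := t3 (tm x y') (tm y (ta x' z')) (tm z (ta y' z'))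
  let e2 := t3 (tm x z') (tm y (ta y' z')) (tm z (t3 x' y' z'))
  let d := t3 (tm x (ta (tm (ta x z) (t3 x y z)) (tm (ta y z) (ta y z)))) (tm y (ta (tm y (t3 x y z)) (tm z (ta y z))))
    (tm z (ta (tm y (ta y z)) (tm z (ta x z))))
  !(e0 == 1 && e1 == 0 && e2 == 0 && d == 1) || (y == 0 && z == 0)

theorem bruteS : ∀ x y z : Fin 4, chkS x y z = true := by decide +kernel

end table

section blocks
variable {F : Type*} [Field F]

/-- The matrix of a root of `x³ + x² + 1` in a self-dual normal basis. -/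
def A3 (F : Type*) [Field F] : Matrix (Fin 3) (Fin 3) F := !![0, 1, 0; 1, 0, 1; 0, 1, 1]

/-- The permutation matrix of the Frobenius map. -/
def P3 (F : Type*) [Field F] : Matrix (Fin 3) (Fin 3) F := !![0, 0, 1; 1, 0, 0; 0, 1, 0]

/-- The matrices that commute with `A3`. -/
def MM (x y z : F) : Matrix (Fin 3) (Fin 3) F := !![x, y, z; y, x + z, y + z; z, y + z, x + y + z]

lemma comm_A3 {M : Matrix (Fin 3) (Fin 3) F} (h : M * A3 F = A3 F * M) : M = MM (M 0 0) (M 1 0) (M 2 0) := by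
  have e : ∀ i j, (M * A3 F) i j = (A3 F * M) i j := fun i j => by rw [h]
  have e00 := e 0 0
  have e10 := e 1 0
  have e20 := e 2 0
  have e01 := e 0 1
  have e11 := e 1 1
  have e21 := e 2 1
  simp [A3, Matrix.mul_apply, Fin.sum_univ_three] at e00 e10 e20 e01 e11 e21
  ext i j
  fin_cases i <;> fin_cases j <;> simp [MM]
  · exact e00
  · linear_combination e01 + e10
  · exact e10
  · linear_combination e11 + e20 + e00
  · exact e20
  · linear_combination e21 + e10 + e20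

lemma MM_eq (x y z : F) : MM x y z = (x - z) • 1 + y • A3 F + z • (A3 F * A3 F) := by
  ext i j
  fin_cases i <;> fin_cases j <;> simp [MM, A3] <;> ring

lemma MM_t (x y z : F) : (MM x y z)ᵀ = MM x y z := by
  ext i j
  fin_cases i <;> fin_cases j <;> simp [MM]

open Polynomial in
lemma exists_poly {M : Matrix (Fin 3) (Fin 3) F} (h : M * A3 F = A3 F * M) : ∃ p : F[X], M = aeval (A3 F) p := by
  refine ⟨C (M 0 0 - M 2 0) + C (M 1 0) * X + C (M 2 0) * (X * X), ?_⟩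
  rw [map_add, map_add, map_mul, map_mul, map_mul, aeval_X, aeval_C, aeval_C, aeval_C]
  conv_lhs => rw [comm_A3 h, MM_eq]
  simp only [Algebra.algebraMap_eq_smul_one, Matrix.smul_mul, one_mul]

lemma comm_t {M : Matrix (Fin 3) (Fin 3) F} (h : M * A3 F = A3 F * M) : Mᵀ = M := by
  rw [comm_A3 h, MM_t]

lemma A3_map (σ : F ≃+* F) : (A3 F).map σ = A3 F := by
  ext i j
  fin_cases i <;> fin_cases j <;> simp [A3]

lemma comm_map {σ : F ≃+* F} {M : Matrix (Fin 3) (Fin 3) F} (h : M * A3 F = A3 F * M) : M.map σ * A3 F = A3 F * M.map σ := by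
  have := congrArg (fun x : Matrix (Fin 3) (Fin 3) F => x.map σ) h
  simp only [map_mul', A3_map] at this
  exact this

/-- `δ` is scalar. -/
lemma scalar_of_norm [Fintype F] (hF : Fintype.card F = 2 ^ 2) {δ : Matrix (Fin 3) (Fin 3) F} (h : δ * A3 F = A3 F * δ)
    (h1 : δ * δ.map (sg hF) = 1) (hdet : δ.det = 1) : ∃ b : F, δ = b • 1 := by
  obtain ⟨ψ, hψ⟩ := exists_tab hF
  have h2 := UnNot.two_eq_zero hF
  obtain ⟨x, hx⟩ := hψ.bij.2 (δ 0 0)
  obtain ⟨y, hy⟩ := hψ.bij.2 (δ 1 0)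
  obtain ⟨z, hz⟩ := hψ.bij.2 (δ 2 0)
  have hδ := comm_A3 h
  rw [← hx, ← hy, ← hz] at hδ
  rw [hδ] at h1 hdet
  have hs : ∀ a, sg hF (ψ a) = ψ (tm a a) := by
    intro a; rw [sg_apply, sq, hψ.mul]
  have hsub : ∀ a b : F, a - b = a + b := by
    intro a b; linear_combination (-b) * h2
  have e0 := congrFun (congrFun h1 0) 0
  have e1 := congrFun (congrFun h1 0) 1
  have e2 := congrFun (congrFun h1 0) 2
  simp only [Matrix.mul_apply, Fin.sum_univ_three, Matrix.map_apply, MM, Matrix.of_apply, Matrix.cons_val', Matrix.cons_val_zero,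
    Matrix.cons_val_one, Matrix.cons_val_fin_one, Matrix.cons_val, map_add, hs, Matrix.one_apply_eq] at e0 e1 e2
  rw [Matrix.one_apply_ne (by decide)] at e1 e2
  simp only [MM, Matrix.det_fin_three, Matrix.of_apply, Matrix.cons_val', Matrix.cons_val_zero,
    Matrix.cons_val_one, Matrix.cons_val_fin_one, Matrix.cons_val] at hdet
  have hd : ψ x * ((ψ x + ψ z) * (ψ x + ψ y + ψ z) + (ψ y + ψ z) * (ψ y + ψ z)) + ψ y * (ψ y * (ψ x + ψ y + ψ z) + ψ z * (ψ y + ψ z)) +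
      ψ z * (ψ y * (ψ y + ψ z) + ψ z * (ψ x + ψ z)) = 1 := by
    rw [← hdet]
    linear_combination (ψ x * (ψ y + ψ z) * (ψ y + ψ z) + ψ y * ψ y * (ψ x + ψ y + ψ z) + ψ z * ψ z * (ψ x + ψ z)) * h2
  simp only [← hψ.add, ← hψ.mul] at e0 e1 e2 hd
  rw [← hψ.one] at e0 hd
  rw [← hψ.zero] at e1 e2
  have f0 := hψ.bij.1 e0
  have f1 := hψ.bij.1 e1
  have f2 := hψ.bij.1 e2
  have fd := hψ.bij.1 hd
  have key := bruteS x y z
  simp only [chkS, t3] at key
  rw [f0, f1, f2, fd] at key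
  simp at key
  obtain ⟨rfl, rfl⟩ := key
  refine ⟨ψ x, ?_⟩
  rw [hδ, MM_eq, hψ.zero, sub_zero, zero_smul, zero_smul, add_zero, add_zero]

/-- The alternating form. -/
def J33 (F : Type*) [Field F] : Matrix (Fin 3 ⊕ Fin 3) (Fin 3 ⊕ Fin 3) F := Matrix.fromBlocks 0 1 (-1) 0

/-- The field generator. -/
def A33 (F : Type*) [Field F] : Matrix (Fin 3 ⊕ Fin 3) (Fin 3 ⊕ Fin 3) F := Matrix.fromBlocks (A3 F) 0 0 (A3 F)

/-- The Frobenius map. -/
def P33 (F : Type*) [Field F] : Matrix (Fin 3 ⊕ Fin 3) (Fin 3 ⊕ Fin 3) F := Matrix.fromBlocks (P3 F) 0 0 (P3 F)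

lemma J33_sq : J33 F * J33 F = -1 := by
  unfold J33
  rw [Matrix.fromBlocks_multiply]
  simp only [Matrix.zero_mul, Matrix.mul_zero, Matrix.one_mul, Matrix.mul_one, zero_add, add_zero]
  rw [← Matrix.fromBlocks_one, Matrix.fromBlocks_neg]
  simp

open Polynomial in
theorem core_case [Fintype F] (hF : Fintype.card F = 2 ^ 2) {X : Matrix (Fin 3 ⊕ Fin 3) (Fin 3 ⊕ Fin 3) F} (hX : X * A33 F = A33 F * X)
    (hU : Xᵀ.map (sg hF) * X = 1) (hdet : X.det = 1) : ∃ b : F, Xᵀ * J33 F * X = b • J33 F := by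
  have h2 := UnNot.two_eq_zero hF
  set a := X.toBlocks₁₁ with ha
  set b := X.toBlocks₁₂ with hb
  set c := X.toBlocks₂₁ with hc
  set d := X.toBlocks₂₂ with hd
  have hXe : X = Matrix.fromBlocks a b c d := (Matrix.fromBlocks_toBlocks X).symm
  rw [hXe, A33, Matrix.fromBlocks_multiply, Matrix.fromBlocks_multiply, Matrix.fromBlocks_inj] at hX
  simp only [Matrix.zero_mul, Matrix.mul_zero, add_zero, zero_add] at hX
  obtain ⟨ca, cb, cc, cd⟩ := hX
  have ta' := comm_t ca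
  have tb' := comm_t cb
  have tc' := comm_t cc
  have td' := comm_t cd
  obtain ⟨pa, hpa⟩ := exists_poly ca
  obtain ⟨pb, hpb⟩ := exists_poly cb
  obtain ⟨pc, hpc⟩ := exists_poly cc
  obtain ⟨pd, hpd⟩ := exists_poly cd
  obtain ⟨pa', hpa'⟩ := exists_poly (comm_map (σ := sg hF) ca)
  obtain ⟨pb', hpb'⟩ := exists_poly (comm_map (σ := sg hF) cb)
  obtain ⟨pc', hpc'⟩ := exists_poly (comm_map (σ := sg hF) cc)
  obtain ⟨pd', hpd'⟩ := exists_poly (comm_map (σ := sg hF) cd)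
  have hXJ : Xᵀ * J33 F * X = Matrix.fromBlocks 0 (a * d - c * b) (-(a * d - c * b)) 0 := by
    rw [hXe, J33, Matrix.fromBlocks_transpose, Matrix.fromBlocks_multiply, Matrix.fromBlocks_multiply, ta', tb', tc', td']
    simp only [Matrix.zero_mul, Matrix.mul_zero, add_zero, zero_add, Matrix.mul_one, Matrix.mul_neg, Matrix.neg_mul]
    rw [Matrix.fromBlocks_inj]
    refine ⟨?_, ?_, ?_, ?_⟩
    · rw [hpa, hpc, ← map_mul, ← map_mul, ← map_neg, ← map_add]
      rw [show -(pc * pa) + pa * pc = 0 by ring, map_zero]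
    · rw [hpa, hpb, hpc, hpd, ← map_mul, ← map_mul, ← map_neg, ← map_add, ← map_sub]
      congr 1; ring
    · rw [hpa, hpb, hpc, hpd, ← map_mul, ← map_mul, ← map_mul, ← map_mul, ← map_neg, ← map_add, ← map_sub, ← map_neg]
      congr 1; ring
    · rw [hpb, hpd, ← map_mul, ← map_mul, ← map_neg, ← map_add]
      rw [show -(pd * pb) + pb * pd = 0 by ring, map_zero]
  have hU' : Matrix.fromBlocks (a.map (sg hF)) (c.map (sg hF)) (b.map (sg hF)) (d.map (sg hF)) * Matrix.fromBlocks a b c d = 1 := by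
    rw [← hU, hXe, Matrix.fromBlocks_transpose, Matrix.fromBlocks_map, ta', tb', tc', td']
  rw [Matrix.fromBlocks_multiply, ← Matrix.fromBlocks_one, Matrix.fromBlocks_inj, hpa', hpb', hpc', hpd', hpa, hpb, hpc, hpd] at hU'
  simp only [← map_mul, ← map_add] at hU'
  obtain ⟨u1, u2, u3, u4⟩ := hU'
  set δ := a * d - c * b with hδ
  have hcδ : δ * A3 F = A3 F * δ := by
    rw [hδ, sub_mul, mul_sub, mul_assoc a d, cd, ← mul_assoc a, ca, mul_assoc c b, cb, ← mul_assoc c, cc, mul_assoc, mul_assoc]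
  have hnorm : δ * δ.map (sg hF) = 1 := by
    have e1 : δ.map (sg hF) = aeval (A3 F) (pa' * pd' - pc' * pb') := by
      rw [map_sub, map_mul, map_mul, ← hpa', ← hpb', ← hpc', ← hpd', ← map_mul', ← map_mul', hδ]
      ext i j
      exact map_sub (sg hF) _ _
    have e2 : δ = aeval (A3 F) (pa * pd - pc * pb) := by
      rw [map_sub, map_mul, map_mul, ← hpa, ← hpb, ← hpc, ← hpd]
    rw [e1, e2, ← map_mul]
    have e3 : (pa * pd - pc * pb) * (pa' * pd' - pc' * pb') = (pa' * pa + pc' * pc) * (pb' * pb + pd' * pd) - (pa' * pb + pc' * pd) * (pb' * pa + pd' * pc) := by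
      ring
    rw [e3, map_sub, map_mul, map_mul, u1, u2, u3, u4]
    simp
  have hJdet : (J33 F).det * (J33 F).det = (-1 : Matrix (Fin 3 ⊕ Fin 3) (Fin 3 ⊕ Fin 3) F).det := by
    rw [← Matrix.det_mul, J33_sq]
  have hJ0 : (J33 F).det ≠ 0 := by
    intro h0
    rw [h0, mul_zero] at hJdet
    have h3 : IsUnit (-1 : Matrix (Fin 3 ⊕ Fin 3) (Fin 3 ⊕ Fin 3) F) := isUnit_one.neg
    rw [Matrix.isUnit_iff_isUnit_det, ← hJdet] at h3
    exact not_isUnit_zero h3
  have hdδ : δ.det = 1 := by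
    have h3 : Matrix.fromBlocks 0 δ (-δ) 0 = Matrix.fromBlocks δ 0 0 δ * J33 F := by
      rw [J33, Matrix.fromBlocks_multiply]
      simp
    rw [h3] at hXJ
    have h4 := congrArg Matrix.det hXJ
    rw [Matrix.det_mul, Matrix.det_mul, Matrix.det_mul, Matrix.det_transpose, hdet, one_mul, mul_one, Matrix.det_fromBlocks_zero₂₁] at h4
    have h5 : δ.det * δ.det = 1 := by
      apply mul_right_cancel₀ hJ0
      rw [one_mul, ← h4]
    have h6 : (δ.det - 1) * (δ.det - 1) = 0 := by linear_combination h5 + (1 - δ.det) * h2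
    exact sub_eq_zero.1 (mul_self_eq_zero.1 h6)
  obtain ⟨s, hs⟩ := scalar_of_norm hF hcδ hnorm hdδ
  refine ⟨s, ?_⟩
  rw [hXJ, hs, J33, Matrix.fromBlocks_smul]
  simp

lemma P3_A3 (h2 : (2 : F) = 0) : P3 F * A3 F = A3 F * A3 F * P3 F := by
  ext i j
  fin_cases i <;> fin_cases j <;> simp [P3, A3, Matrix.mul_apply, Fin.sum_univ_three] <;>
    first
    | rfl
    | (rw [one_add_one_eq_two, h2])

lemma P3_t : (P3 F)ᵀ * P3 F = 1 := by
  ext i j
  fin_cases i <;> fin_cases j <;> simp [P3, Matrix.mul_apply, Fin.sum_univ_three]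

lemma P3_t' : P3 F * (P3 F)ᵀ = 1 := mul_eq_one_comm.1 P3_t

lemma P3_map (σ : F ≃+* F) : (P3 F).map σ = P3 F := by
  ext i j
  fin_cases i <;> fin_cases j <;> simp [P3]

lemma P3_det : (P3 F).det = 1 := by
  simp [P3, Matrix.det_fin_three]

lemma P33_t : (P33 F)ᵀ * P33 F = 1 := by
  rw [P33, Matrix.fromBlocks_transpose, Matrix.fromBlocks_multiply, P3_t]
  simp [Matrix.fromBlocks_one]

lemma P33_t' : P33 F * (P33 F)ᵀ = 1 := mul_eq_one_comm.1 P33_t

lemma P33_map (σ : F ≃+* F) : (P33 F).map σ = P33 F := by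
  rw [P33, Matrix.fromBlocks_map, P3_map]
  congr 1 <;> (ext i j; simp)

lemma P33_det : (P33 F).det = 1 := by
  rw [P33, Matrix.det_fromBlocks_zero₂₁, P3_det, one_mul]

lemma P33_J33 : P33 F * J33 F * (P33 F)ᵀ = J33 F := by
  rw [P33, J33, Matrix.fromBlocks_transpose, Matrix.fromBlocks_multiply, Matrix.fromBlocks_multiply]
  simp [P3_t']

lemma P33_A33 (h2 : (2 : F) = 0) : P33 F * A33 F = A33 F * A33 F * P33 F := by
  rw [P33, A33, Matrix.fromBlocks_multiply, Matrix.fromBlocks_multiply, Matrix.fromBlocks_multiply]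
  simp [P3_A3 h2]

lemma A33_Pt (h2 : (2 : F) = 0) : A33 F * (P33 F)ᵀ = (P33 F)ᵀ * (A33 F * A33 F) := by
  calc A33 F * (P33 F)ᵀ = (P33 F)ᵀ * (P33 F * A33 F) * (P33 F)ᵀ := by
        rw [← mul_assoc, P33_t, one_mul]
    _ = _ := by rw [P33_A33 h2, mul_assoc, mul_assoc (A33 F * A33 F), P33_t', mul_one]

theorem frob_case [Fintype F] (hF : Fintype.card F = 2 ^ 2) {X : Matrix (Fin 3 ⊕ Fin 3) (Fin 3 ⊕ Fin 3) F}
    (hX : X * A33 F = A33 F * X ∨ X * A33 F = A33 F * A33 F * X ∨ X * A33 F = A33 F * A33 F * (A33 F * A33 F) * X)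
    (hU : Xᵀ.map (sg hF) * X = 1) (hdet : X.det = 1) : ∃ b : F, Xᵀ * J33 F * X = b • J33 F := by
  have h2 := UnNot.two_eq_zero hF
  have key : ∀ X : Matrix (Fin 3 ⊕ Fin 3) (Fin 3 ⊕ Fin 3) F, Xᵀ.map (sg hF) * X = 1 → X.det = 1 →
      (((P33 F)ᵀ * X)ᵀ.map (sg hF) * ((P33 F)ᵀ * X) = 1 ∧ ((P33 F)ᵀ * X).det = 1 ∧
        ((P33 F)ᵀ * X)ᵀ * J33 F * ((P33 F)ᵀ * X) = Xᵀ * J33 F * X) := by
    intro X hU hdet
    refine ⟨?_, ?_, ?_⟩
    · rw [Matrix.transpose_mul, Matrix.transpose_transpose, map_mul', P33_map]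
      calc Xᵀ.map (sg hF) * P33 F * ((P33 F)ᵀ * X) = Xᵀ.map (sg hF) * (P33 F * (P33 F)ᵀ) * X := by simp only [mul_assoc]
        _ = 1 := by rw [P33_t', mul_one, hU]
    · rw [Matrix.det_mul, Matrix.det_transpose, P33_det, hdet, one_mul]
    · rw [Matrix.transpose_mul, Matrix.transpose_transpose]
      calc Xᵀ * P33 F * J33 F * ((P33 F)ᵀ * X) = Xᵀ * (P33 F * J33 F * (P33 F)ᵀ) * X := by simp only [mul_assoc]
        _ = _ := by rw [P33_J33]
  have case2 : ∀ X : Matrix (Fin 3 ⊕ Fin 3) (Fin 3 ⊕ Fin 3) F, X * A33 F = A33 F * A33 F * X → Xᵀ.map (sg hF) * X = 1 → X.det = 1 →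
      ∃ b : F, Xᵀ * J33 F * X = b • J33 F := by
    intro X hX hU hdet
    obtain ⟨k1, k2, k3⟩ := key X hU hdet
    obtain ⟨b, hb⟩ := core_case hF (X := (P33 F)ᵀ * X) (by rw [mul_assoc, hX, ← mul_assoc, ← A33_Pt h2, mul_assoc]) k1 k2
    exact ⟨b, by rw [← k3, hb]⟩
  rcases hX with hX | hX | hX
  · exact core_case hF hX hU hdet
  · exact case2 X hX hU hdet
  · obtain ⟨k1, k2, k3⟩ := key X hU hdet
    obtain ⟨b, hb⟩ := case2 ((P33 F)ᵀ * X) (by
      rw [mul_assoc, hX]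
      calc (P33 F)ᵀ * (A33 F * A33 F * (A33 F * A33 F) * X) = ((P33 F)ᵀ * (A33 F * A33 F)) * ((A33 F * A33 F) * X) := by simp only [mul_assoc]
        _ = (A33 F * (P33 F)ᵀ) * ((A33 F * A33 F) * X) := by rw [A33_Pt h2]
        _ = A33 F * (((P33 F)ᵀ * (A33 F * A33 F)) * X) := by simp only [mul_assoc]
        _ = A33 F * ((A33 F * (P33 F)ᵀ) * X) := by rw [A33_Pt h2]
        _ = _ := by simp only [mul_assoc]) k1 k2
    exact ⟨b, by rw [← k3, hb]⟩

end blocks

end Cfsg.Agent.Lib.UnEx
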