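import Cfsg.Agent.Lib.UnExH
set_option autoImplicit false
set_option linter.style.haveILetI false
set_option linter.unusedVariables false
set_option linter.unusedSectionVars false

/-!
Fields of degree three over the field with four elements.
-/

namespace Cfsg.Agent.Lib.UnEx

open Cfsg Cfsg.Geo Cfsg.Agent.Lib.AschMU Cfsg.Agent.Lib.AschCore Cfsg.Agent.Lib.AschField Cfsg.Agent.Lib.AschAlg
  Cfsg.Agent.Lib.AschGroup Cfsg.Agent.Lib.AschGood Cfsg.Agent.Lib.AschAdj Cfsg.Agent.Lib.AschNonab Cfsg.Agent.Lib.AschTensor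
  Cfsg.Agent.Lib.AschComp Cfsg.Agent.Lib.AschSp Cfsg.Agent.Lib.AschESys Cfsg.Agent.Lib.UnBridge Cfsg.Agent.Lib.HermMat
  Cfsg.Agent.Lib.UnF4
open scoped Matrix MatrixGroups Kronecker

section field
variable {n : ℕ} {F : Type*} [Field F] [Fintype F]

lemma isField_of {r : ℕ} [Nonempty (Fin n)] {K : Subalgebra F (Matrix (Fin n) (Fin n) F)} (hK : IsFieldSubalgebra r K) : IsField K :=
  { exists_pair_ne := ⟨0, 1, fun h => zero_ne_one (congrArg Subtype.val h)⟩
    mul_comm := fun a b => Subtype.ext (hK.comm a a.2 b b.2)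
    mul_inv_cancel := fun {a} ha => by
      obtain ⟨y, hy, hxy⟩ := hK.inv a a.2 (fun h => ha (Subtype.ext h))
      exact ⟨⟨y, hy⟩, Subtype.ext hxy⟩ }

lemma exists_alpha [Nonempty (Fin n)] (hF : Fintype.card F = 2 ^ 2) {K : Subalgebra F (Matrix (Fin n) (Fin n) F)} (hK : IsFieldSubalgebra 3 K) :
    ∃ α ∈ K, α * α * α = α * α + 1 := by
  classical
  have h2 := UnNot.two_eq_zero hF
  have hfinM : Finite (Matrix (Fin n) (Fin n) F) := inferInstanceAs (Finite (Fin n → Fin n → F))
  haveI : Finite K := Finite.of_injective (fun a : K => (a : Matrix (Fin n) (Fin n) F)) Subtype.coe_injective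
  letI : Field K := (isField_of hK).toField
  letI : Fintype K := Fintype.ofFinite K
  have hcard : Fintype.card K = 64 := by
    have h1 : Nat.card K = Nat.card F ^ Module.finrank F K := Module.natCard_eq_pow_finrank (K := F) (V := K)
    rw [hK.finrank_eq, Nat.card_eq_fintype_card, Nat.card_eq_fintype_card, hF] at h1
    rw [h1]; norm_num
  have hK2 : (2 : K) = 0 := by
    have h3 : (2 : K) = algebraMap F K 2 := by rw [map_ofNat]
    rw [h3, h2, map_zero]
  obtain ⟨g, hg⟩ := IsCyclic.exists_generator (α := Kˣ)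
  have hog : orderOf g = 63 := by
    rw [orderOf_eq_card_of_forall_mem_zpowers hg, Nat.card_eq_fintype_card, Fintype.card_units, hcard]
  set x : K := ((g ^ 9 : Kˣ) : K) with hx
  have hx7 : x ^ 7 = 1 := by
    rw [hx, ← Units.val_pow_eq_pow_val, ← pow_mul]
    have : g ^ (9 * 7) = 1 := by
      have := pow_orderOf_eq_one g
      rwa [hog] at this
    rw [this, Units.val_one]
  have hx1 : x ≠ 1 := by
    intro h
    have h1 : g ^ 9 = 1 := Units.ext (by rw [← hx, h, Units.val_one])
    have h3 := orderOf_dvd_of_pow_eq_one h1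
    rw [hog] at h3
    norm_num at h3
  have h7 : (x - 1) * ((x ^ 3 + x + 1) * (x ^ 3 + x ^ 2 + 1)) = 0 := by
    linear_combination hx7 + (x ^ 4 - x ^ 3) * hK2
  have hmain : ∃ α : K, α * α * α = α * α + 1 := by
    rcases mul_eq_zero.1 h7 with h | h
    · exact absurd (sub_eq_zero.1 h) hx1
    · rcases mul_eq_zero.1 h with h | h
      · exact ⟨x + 1, by linear_combination h + (x ^ 2 - 1) * hK2⟩
      · exact ⟨x, by linear_combination h - (x ^ 2 + 1) * hK2⟩
  obtain ⟨α, hα⟩ := hmain
  exact ⟨α, α.2, congrArg Subtype.val hα⟩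

lemma root_cases [Nonempty (Fin n)] (hF : Fintype.card F = 2 ^ 2) {K : Subalgebra F (Matrix (Fin n) (Fin n) F)} (hK : IsFieldSubalgebra 3 K)
    {x y : Matrix (Fin n) (Fin n) F} (hx : x ∈ K) (hy : y ∈ K) (hx3 : x * x * x = x * x + 1) (hy3 : y * y * y = y * y + 1) :
    y = x ∨ y = x * x ∨ y = x * x * (x * x) := by
  letI : Field K := (isField_of hK).toField
  have h2 := UnNot.two_eq_zero hF
  have hK2 : (2 : K) = 0 := by
    have h3 : (2 : K) = algebraMap F K 2 := by rw [map_ofNat]
    rw [h3, h2, map_zero]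
  let a : K := ⟨x, hx⟩
  let b : K := ⟨y, hy⟩
  have ha : a * a * a = a * a + 1 := Subtype.ext hx3
  have hb : b * b * b = b * b + 1 := Subtype.ext hy3
  have h : (b - a) * ((b - a * a) * (b - a * a * (a * a))) = 0 := by
    linear_combination hb + (-b ^ 2 * (a + 1) + b * (1 + (a ^ 2 + a + 1) + (a ^ 3 + a ^ 2 + a + 2)) - (a ^ 4 + a ^ 3 + a ^ 2 + 2 * a + 3)) * ha +
      (b ^ 2 * (-a ^ 2 - a) + (3 * a ^ 2 + a + 2) * b - 2 * a ^ 2 - a - 1) * hK2
  rcases mul_eq_zero.1 h with h | h
  · exact Or.inl (congrArg Subtype.val (sub_eq_zero.1 h))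
  · rcases mul_eq_zero.1 h with h | h
    · exact Or.inr (Or.inl (congrArg Subtype.val (sub_eq_zero.1 h)))
    · exact Or.inr (Or.inr (congrArg Subtype.val (sub_eq_zero.1 h)))

variable {q : ℕ}

lemma adj_mem_of (hF : Fintype.card F = q ^ 2) {K : Subalgebra F (Matrix (Fin n) (Fin n) F)} (hac : IsAdjointClosedFor (hermForm n F q) K)
    {k : Matrix (Fin n) (Fin n) F} (hk : k ∈ K) : adj (sg hF) 1 k ∈ K := by
  obtain ⟨k', hk', h⟩ := hac k hk
  have : adj (sg hF) 1 k = k' := by
    rw [← sub_eq_zero]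
    apply mulVec_eq_zero_of_rng_bot
    intro v
    by_contra hne
    obtain ⟨u, hu⟩ := HermMat.exists_ne_zero hF hne
    apply hu
    rw [Matrix.sub_mulVec, hermForm_sub_right hF, ← h u v, herm_eq hF, ← bf_adj (rf_one hF), sub_self]
  rw [this]; exact hk'

lemma adj_alpha [Nonempty (Fin n)] (hF : Fintype.card F = 2 ^ 2) {K : Subalgebra F (Matrix (Fin n) (Fin n) F)} (hK : IsFieldSubalgebra 3 K)
    (hac : IsAdjointClosedFor (hermForm n F 2) K) {α : Matrix (Fin n) (Fin n) F} (hα : α ∈ K) (h3 : α * α * α = α * α + 1) :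
    adj (sg hF) 1 α = α := by
  have h2 := UnNot.two_eq_zero hF
  have hr := rf_one (ι := Fin n) hF
  have h2M : (2 : Matrix (Fin n) (Fin n) F) = 0 := by
    have : (2 : Matrix (Fin n) (Fin n) F) = (2 : F) • 1 := by
      rw [two_smul, one_add_one_eq_two]
    rw [this, h2, zero_smul]
  have hneg : ∀ x : Matrix (Fin n) (Fin n) F, x + x = 0 := by
    intro x
    rw [← two_mul, h2M, zero_mul]
  have h3' : adj (sg hF) 1 α * adj (sg hF) 1 α * adj (sg hF) 1 α = adj (sg hF) 1 α * adj (sg hF) 1 α + 1 := by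
    have := congrArg (adj (sg hF) 1) h3
    rw [adj_mul hr, adj_mul hr, adj_add, adj_mul hr, adj_one hr, ← mul_assoc] at this
    exact this
  have hne : ¬ ((1 : Matrix (Fin n) (Fin n) F) = 0) := one_ne_zero
  rcases root_cases hF hK hα (adj_mem_of hF hac hα) h3 h3' with h | h | h
  · exact h
  · exfalso
    have h4 := adj_adj hr α
    rw [h, adj_mul hr, h] at h4
    -- α⁴ = α
    have h5 : α * α * (α * α) = α * α + 1 + α := by
      rw [← mul_assoc, h3, add_mul, one_mul, h3]
    rw [h5] at h4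
    have h6 : α * α = 1 := by
      have : α * α + 1 = 0 := by
        have := sub_eq_zero.2 h4
        rwa [add_sub_cancel_right] at this
      calc α * α = α * α + 1 + 1 := by rw [add_assoc, hneg, add_zero]
        _ = 1 := by rw [this, zero_add]
    rw [h6, one_mul, hneg] at h3
    rw [h3, zero_mul] at h6
    exact hne h6.symm
  · exfalso
    have h4 := adj_adj hr α
    rw [h, adj_mul hr, adj_mul hr, h] at h4
    have h5 : α * α * (α * α) = α * α + 1 + α := by
      rw [← mul_assoc, h3, add_mul, one_mul, h3]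
    -- α⁸ = α
    have e4 : α * α * (α * α) * (α * α * (α * α)) = α := by
      rw [h5]
      have : (α * α + 1 + α) * (α * α + 1 + α) = α * α * (α * α) + (α * α * α + α * α * α) + (α * α + α * α) + α * α + (α + α) + 1 := by
        noncomm_ring
      rw [this, hneg, hneg, hneg, h5]
      calc α * α + 1 + α + 0 + 0 + α * α + 0 + 1 = (α * α + α * α) + (1 + 1) + α := by abel
        _ = α := by rw [hneg, hneg, zero_add, zero_add]
    rw [e4] at h4
    simp only [h4] at h3
    have h6 : (1 : Matrix (Fin n) (Fin n) F) = 0 := by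
      exact left_eq_add.1 h3
    exact hne h6

end field

end Cfsg.Agent.Lib.UnEx
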