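import Cfsg.Agent.Lib.UnExI
set_option autoImplicit false
set_option linter.style.haveILetI false
set_option linter.unusedVariables false
set_option linter.unusedSectionVars false

/-!
Orthonormal bases adapted to a field of degree three.
-/

namespace Cfsg.Agent.Lib.UnEx

open Cfsg Cfsg.Geo Cfsg.Agent.Lib.AschMU Cfsg.Agent.Lib.AschCore Cfsg.Agent.Lib.AschField Cfsg.Agent.Lib.AschAlg
  Cfsg.Agent.Lib.AschGroup Cfsg.Agent.Lib.AschGood Cfsg.Agent.Lib.AschAdj Cfsg.Agent.Lib.AschNonab Cfsg.Agent.Lib.AschTensor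
  Cfsg.Agent.Lib.AschComp Cfsg.Agent.Lib.AschSp Cfsg.Agent.Lib.AschESys Cfsg.Agent.Lib.UnBridge Cfsg.Agent.Lib.HermMat
  Cfsg.Agent.Lib.UnF4
open scoped Matrix MatrixGroups Kronecker

section vectors
variable {n : ℕ} {F : Type*} [Field F] [Fintype F]

/-- The sequence of values. -/
def sv (α : Matrix (Fin n) (Fin n) F) (w : Fin n → F) (k : ℕ) : F := hermForm n F 2 ((α ^ k) *ᵥ w) w

variable {α : Matrix (Fin n) (Fin n) F}

lemma self_adj (hF : Fintype.card F = 2 ^ 2) (ha : adj (sg hF) 1 α = α) (u v : Fin n → F) :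
    hermForm n F 2 (α *ᵥ u) v = hermForm n F 2 u (α *ᵥ v) := by
  rw [herm_eq hF, bf_adj (rf_one hF), ha]

lemma self_adj_pow (hF : Fintype.card F = 2 ^ 2) (ha : adj (sg hF) 1 α = α) (k : ℕ) (u v : Fin n → F) :
    hermForm n F 2 ((α ^ k) *ᵥ u) v = hermForm n F 2 u ((α ^ k) *ᵥ v) := by
  induction k generalizing u v with
  | zero => rw [pow_zero, Matrix.one_mulVec, Matrix.one_mulVec]
  | succ k ih => rw [pow_succ, ← Matrix.mulVec_mulVec, ih, self_adj hF ha, Matrix.mulVec_mulVec, ← pow_succ', ← pow_succ]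

lemma herm_pow (hF : Fintype.card F = 2 ^ 2) (ha : adj (sg hF) 1 α = α) (i j : ℕ) (w : Fin n → F) :
    hermForm n F 2 ((α ^ i) *ᵥ w) ((α ^ j) *ᵥ w) = sv α w (i + j) := by
  rw [← self_adj_pow hF ha, Matrix.mulVec_mulVec, ← pow_add, add_comm j]
  rfl

lemma pow3 (h3 : α * α * α = α * α + 1) (k : ℕ) : α ^ (k + 3) = α ^ (k + 2) + α ^ k := by
  have : α ^ 3 = α ^ 2 + 1 := by rw [pow_succ, sq, h3]
  rw [pow_add, this, mul_add, mul_one, ← pow_add]

lemma sv_rec (h3 : α * α * α = α * α + 1) (w : Fin n → F) (k : ℕ) : sv α w (k + 3) = sv α w (k + 2) + sv α w k := by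
  unfold sv
  rw [pow3 h3, Matrix.add_mulVec, hermForm_add_left]

lemma sv_fix (hF : Fintype.card F = 2 ^ 2) (ha : adj (sg hF) 1 α = α) (w : Fin n → F) (k : ℕ) : sv α w k = 0 ∨ sv α w k = 1 := by
  have h1 : sv α w k ^ 2 = sv α w k := by
    unfold sv
    rw [hermForm_swap hF, self_adj_pow hF ha]
  have h2 : sv α w k * (sv α w k - 1) = 0 := by linear_combination h1
  rcases mul_eq_zero.1 h2 with h | h
  · exact Or.inl h
  · exact Or.inr (sub_eq_zero.1 h)

lemma sv_shift (hF : Fintype.card F = 2 ^ 2) (ha : adj (sg hF) 1 α = α) (w : Fin n → F) (i k : ℕ) :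
    sv α ((α ^ i) *ᵥ w) k = sv α w (k + 2 * i) := by
  unfold sv
  rw [Matrix.mulVec_mulVec, ← pow_add, ← self_adj_pow hF ha, Matrix.mulVec_mulVec, ← pow_add]
  congr 3
  ring

/-- Normalisation. -/
lemma exists_normal (hF : Fintype.card F = 2 ^ 2) (ha : adj (sg hF) 1 α = α) (h3 : α * α * α = α * α + 1) {w : Fin n → F}
    (hw : hermForm n F 2 w w ≠ 0) : ∃ i, ∀ k, k < 3 → sv α ((α ^ i) *ᵥ w) k = 1 := by
  have h2 := UnNot.two_eq_zero hF
  have h11 : (1 : F) + 1 = 0 := by rw [one_add_one_eq_two, h2]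
  have e0 : sv α w 0 = 1 := by
    rcases sv_fix hF ha w 0 with h | h
    · exfalso
      apply hw
      unfold sv at h
      rwa [pow_zero, Matrix.one_mulVec] at h
    · exact h
  have r := fun k => sv_rec h3 w k
  have r0 := r 0
  have r1 := r 1
  have r2 := r 2
  have r3 := r 3
  have r4 := r 4
  have r5 := r 5
  have r6 := r 6
  have r7 := r 7
  have r8 := r 8
  have r9 := r 9
  have r10 := r 10
  have r11 := r 11
  norm_num at r0 r1 r2 r3 r4 r5 r6 r7 r8 r9 r10 r11
  rcases sv_fix hF ha w 1 with e1 | e1 <;> rcases sv_fix hF ha w 2 with e2 | e2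
  · refine ⟨5, fun k hk => ?_⟩
    rw [sv_shift hF ha]
    interval_cases k <;> simp [r0, r1, r2, r3, r4, r5, r6, r7, r8, r9, r10, r11, e0, e1, e2, h11]
  · refine ⟨6, fun k hk => ?_⟩
    rw [sv_shift hF ha]
    interval_cases k <;> simp [r0, r1, r2, r3, r4, r5, r6, r7, r8, r9, r10, r11, e0, e1, e2, h11]
  · refine ⟨3, fun k hk => ?_⟩
    rw [sv_shift hF ha]
    interval_cases k <;> simp [r0, r1, r2, r3, r4, r5, r6, r7, r8, r9, r10, r11, e0, e1, e2, h11]
  · refine ⟨0, fun k hk => ?_⟩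
    rw [sv_shift hF ha]
    interval_cases k <;> simp [e0, e1, e2]

/-- The values for normalised vectors. -/
lemma normal_vals (hF : Fintype.card F = 2 ^ 2) (h3 : α * α * α = α * α + 1) {w : Fin n → F} (hw : ∀ k, k < 3 → sv α w k = 1) :
    sv α w 2 = 1 ∧ sv α w 3 = 0 ∧ sv α w 4 = 1 ∧ sv α w 5 = 0 ∧ sv α w 6 = 0 ∧ sv α w 8 = 1 := by
  have h2 := UnNot.two_eq_zero hF
  have h11 : (1 : F) + 1 = 0 := by rw [one_add_one_eq_two, h2]
  have e0 := hw 0 (by norm_num)
  have e1 := hw 1 (by norm_num)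
  have e2 := hw 2 (by norm_num)
  have r := fun k => sv_rec h3 w k
  have r0 := r 0
  have r1 := r 1
  have r2 := r 2
  have r3 := r 3
  have r4 := r 4
  have r5 := r 5
  norm_num at r0 r1 r2 r3 r4 r5
  refine ⟨e2, ?_, ?_, ?_, ?_, ?_⟩ <;> simp [r0, r1, r2, r3, r4, r5, e0, e1, e2, h11]

/-- The normal basis vectors. -/
def nb (α : Matrix (Fin n) (Fin n) F) (w : Fin n → F) (k : Fin 3) : Fin n → F := (α ^ (2 ^ (k : ℕ))) *ᵥ w

lemma nb_orth (hF : Fintype.card F = 2 ^ 2) (ha : adj (sg hF) 1 α = α) (h3 : α * α * α = α * α + 1) {w : Fin n → F}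
    (hw : ∀ k, k < 3 → sv α w k = 1) (i j : Fin 3) : hermForm n F 2 (nb α w i) (nb α w j) = if i = j then 1 else 0 := by
  obtain ⟨s2, s3, s4, s5, s6, s8⟩ := normal_vals hF h3 hw
  unfold nb
  rw [herm_pow hF ha]
  fin_cases i <;> fin_cases j <;> simp [s2, s3, s4, s5, s6, s8]

lemma nb_mul (hF : Fintype.card F = 2 ^ 2) (h3 : α * α * α = α * α + 1) (w : Fin n → F) (j : Fin 3) :
    α *ᵥ nb α w j = ∑ i, A3 F i j • nb α w i := by
  have h2 := UnNot.two_eq_zero hF
  have hneg : ∀ x : Fin n → F, x + x = 0 := by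
    intro x; rw [← two_smul F x, h2, zero_smul]
  have p3 := pow3 h3 0
  have p4 := pow3 h3 1
  have p5 := pow3 h3 2
  norm_num at p3 p4 p5
  rw [p3] at p4
  rw [p4] at p5
  unfold nb
  rw [Matrix.mulVec_mulVec, ← pow_succ', Fin.sum_univ_three]
  fin_cases j
  · simp [A3]
  · simp only [A3]
    simp [p3, p4, Matrix.add_mulVec]
    have := hneg (α *ᵥ w)
    calc (α ^ 2) *ᵥ w + w = (α *ᵥ w + α *ᵥ w) + ((α ^ 2) *ᵥ w + w) := by rw [this, zero_add]
      _ = _ := by abel
  · simp only [A3]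
    simp [p4, p5, Matrix.add_mulVec]
    abel

lemma herm_sum_right (hF : Fintype.card F = 2 ^ 2) (x : Fin n → F) (c : Fin 3 → F) (v : Fin 3 → (Fin n → F)) :
    hermForm n F 2 x (∑ i, c i • v i) = ∑ i, c i ^ 2 * hermForm n F 2 x (v i) := by
  rw [Fin.sum_univ_three, Fin.sum_univ_three, hermForm_add_right hF, hermForm_add_right hF, hermForm_smul_right, hermForm_smul_right,
    hermForm_smul_right]

/-- The second vector. -/
lemma exists_second (hF : Fintype.card F = 2 ^ 2) (hn : 3 < n) (ha : adj (sg hF) 1 α = α) (h3 : α * α * α = α * α + 1) {w : Fin n → F}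
    (hw : ∀ k, k < 3 → sv α w k = 1) :
    ∃ w' : Fin n → F, (∀ k, k < 3 → sv α w' k = 1) ∧ ∀ k i, hermForm n F 2 (nb α w' k) (nb α w i) = 0 := by
  have H := herm_HS n hF
  let L : (Fin n → F) →ₗ[F] (Fin 3 → F) :=
    { toFun := fun x m => hermForm n F 2 x (nb α w m)
      map_add' := by intro a b; funext m; exact hermForm_add_left _ _ _
      map_smul' := by intro c a; funext m; exact hermForm_smul_left _ _ _ }
  have hL : ∀ x, x ∈ LinearMap.ker L ↔ ∀ m, hermForm n F 2 x (nb α w m) = 0 := by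
    intro x
    rw [LinearMap.mem_ker]
    constructor
    · intro h m; exact congrFun h m
    · intro h; funext m; exact h m
  have hne : LinearMap.ker L ≠ ⊥ := by
    apply LinearMap.ker_ne_bot_of_finrank_lt
    rw [Module.finrank_fintype_fun_eq_card, Module.finrank_fintype_fun_eq_card, Fintype.card_fin, Fintype.card_fin]
    exact hn
  obtain ⟨x, hx, hx0⟩ := Submodule.exists_mem_ne_zero_of_ne_bot hne
  have hex : ∃ y ∈ LinearMap.ker L, hermForm n F 2 y y ≠ 0 := by
    by_contra hcon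
    push Not at hcon
    obtain ⟨z, -, hz⟩ := herm_nd n hF x trivial hx0
    apply hz
    set z' := z - ∑ i, hermForm n F 2 z (nb α w i) • nb α w i with hz'
    have hz'W : z' ∈ LinearMap.ker L := by
      rw [hL]
      intro m
      rw [hz', Fin.sum_univ_three, hermForm_sub_left, hermForm_add_left, hermForm_add_left, hermForm_smul_left, hermForm_smul_left,
        hermForm_smul_left, nb_orth hF ha h3 hw, nb_orth hF ha h3 hw, nb_orth hF ha h3 hw]
      fin_cases m <;> simp
    have hzz : z = z' + ∑ i, hermForm n F 2 z (nb α w i) • nb α w i := by rw [hz', sub_add_cancel]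
    rw [hzz, hermForm_add_right hF, herm_sum_right hF, H.eq_zero_of_iso hcon hx hz'W, zero_add]
    apply Finset.sum_eq_zero
    intro i _
    rw [(hL x).1 hx, mul_zero]
  obtain ⟨y, hy, hyy⟩ := hex
  obtain ⟨i, hi⟩ := exists_normal hF ha h3 hyy
  have hstab : ∀ x ∈ LinearMap.ker L, α *ᵥ x ∈ LinearMap.ker L := by
    intro x hx
    rw [hL] at hx ⊢
    intro m
    rw [self_adj hF ha, nb_mul hF h3, herm_sum_right hF]
    apply Finset.sum_eq_zero
    intro i _
    rw [hx, mul_zero]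
  have hpow : ∀ k, ∀ x ∈ LinearMap.ker L, (α ^ k) *ᵥ x ∈ LinearMap.ker L := by
    intro k
    induction k with
    | zero => intro x hx; rwa [pow_zero, Matrix.one_mulVec]
    | succ k ih =>
      intro x hx
      rw [pow_succ', ← Matrix.mulVec_mulVec]
      exact hstab _ (ih x hx)
  exact ⟨_, hi, fun k j => (hL _).1 (hpow _ _ (hpow _ _ hy)) j⟩

end vectors

section six
variable {F : Type*} [Field F] [Fintype F]

theorem field_six_rat2 (hF : Fintype.card F = 2 ^ 2) {K : Subalgebra F (Matrix (Fin 6) (Fin 6) F)} (hK : IsFieldSubalgebra 3 K)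
    (hac : IsAdjointClosedFor (hermForm 6 F 2) K) {H : Subgroup (GL (Fin 6) F)}
    (hI : H ≤ GU 6 F 2 ⊓ specialLinear (Fin 6) F) (hle : H ≤ subalgebraNormalizer K) : Rat2 (sg hF) 1 H := by
  classical
  haveI : Nonempty (Fin 6) := ⟨0⟩
  have h2 := UnNot.two_eq_zero hF
  obtain ⟨α, hα, h3⟩ := exists_alpha hF hK
  have ha := adj_alpha hF hK hac hα h3
  obtain ⟨i, hi⟩ := exists_normal hF ha h3 (w := Pi.single 0 1) (by
    rw [hermForm_single _ (by norm_num)]
    simp)
  set w := (α ^ i) *ᵥ (Pi.single 0 1 : Fin 6 → F) with hw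
  obtain ⟨w', hw', horth⟩ := exists_second hF (by norm_num) ha h3 hi
  set M : Matrix (Fin 6) (Fin 3 ⊕ Fin 3) F := Matrix.of fun i j => (Sum.elim (nb α w) (nb α w') j) i with hM
  set N : Matrix (Fin 3 ⊕ Fin 3) (Fin 6) F := Mᵀ.map (sg hF) with hN
  have hNM : N * M = 1 := by
    ext j j'
    have e : (N * M) j j' = hermForm 6 F 2 (Sum.elim (nb α w) (nb α w') j') (Sum.elim (nb α w) (nb α w') j) := by
      rw [Matrix.mul_apply, hermForm]
      refine Finset.sum_congr rfl fun k _ => ?_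
      rw [hN, Matrix.map_apply, Matrix.transpose_apply, hM, Matrix.of_apply, Matrix.of_apply, sg_apply, mul_comm]
    rw [e]
    rcases j with j | j <;> rcases j' with j' | j'
    · simp only [Sum.elim_inl]
      rw [nb_orth hF ha h3 hi, Matrix.one_apply]
      simp [eq_comm]
    · simp only [Sum.elim_inl, Sum.elim_inr]
      rw [horth, Matrix.one_apply_ne (by simp)]
    · simp only [Sum.elim_inl, Sum.elim_inr]
      rw [← hermForm_swap hF, horth, Matrix.one_apply_ne (by simp)]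
      simp
    · simp only [Sum.elim_inr]
      rw [nb_orth hF ha h3 hw', Matrix.one_apply]
      simp [eq_comm]
  have hMN : M * N = 1 := by
    have := Matrix.mul_eq_one_comm_of_equiv (A := N) (B := M) (finSumFinEquiv (m := 3) (n := 3))
    exact this.1 hNM
  have hmap : ∀ {l m n : Type} [Fintype l] [Fintype m] [Fintype n] (x : Matrix l m F) (y : Matrix m n F),
      (x * y).map (sg hF) = x.map (sg hF) * y.map (sg hF) := by
    intro l m n _ _ _ x y
    exact Matrix.map_mul (L := x) (M := y) (f := (sg hF : F →+* F))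
  have hNσ : N.map (sg hF) = Mᵀ := by
    rw [hN]
    ext i j
    rw [Matrix.map_apply, Matrix.map_apply, sg_inv]
  have hNTσ : Nᵀ.map (sg hF) = M := by
    rw [Matrix.transpose_map, hNσ, Matrix.transpose_transpose]
  have hαM : α * M = M * A33 F := by
    ext i j
    have e : (α * M) i j = (α *ᵥ (Sum.elim (nb α w) (nb α w') j)) i := rfl
    rw [e, Matrix.mul_apply, Fintype.sum_sum_type]
    rcases j with j | j
    · rw [Sum.elim_inl, nb_mul hF h3]
      simp only [A33, Matrix.fromBlocks_apply₁₁, Matrix.fromBlocks_apply₂₁, Matrix.zero_apply, mul_zero, Finset.sum_const_zero, add_zero]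
      rw [Finset.sum_apply]
      refine Finset.sum_congr rfl fun k _ => ?_
      rw [Pi.smul_apply, smul_eq_mul, mul_comm, hM, Matrix.of_apply, Sum.elim_inl]
    · rw [Sum.elim_inr, nb_mul hF h3]
      simp only [A33, Matrix.fromBlocks_apply₁₂, Matrix.fromBlocks_apply₂₂, Matrix.zero_apply, mul_zero, Finset.sum_const_zero, zero_add]
      rw [Finset.sum_apply]
      refine Finset.sum_congr rfl fun k _ => ?_
      rw [Pi.smul_apply, smul_eq_mul, mul_comm, hM, Matrix.of_apply, Sum.elim_inr]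
  have hNα : N * α * M = A33 F := by rw [Matrix.mul_assoc, hαM, ← Matrix.mul_assoc, hNM, Matrix.one_mul]
  have hNαα : ∀ x y : Matrix (Fin 6) (Fin 6) F, N * (x * y) * M = N * x * M * (N * y * M) := by
    intro x y
    calc N * (x * y) * M = N * x * (1 : Matrix (Fin 6) (Fin 6) F) * y * M := by rw [Matrix.mul_one]; simp only [Matrix.mul_assoc]
      _ = N * x * (M * N) * y * M := by rw [hMN]
      _ = _ := by simp only [Matrix.mul_assoc]
  have hJT : (J33 F)ᵀ = -J33 F := by
    rw [J33, Matrix.fromBlocks_transpose, Matrix.fromBlocks_neg]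
    simp
  have hBB : (Nᵀ * J33 F * N).map (sg hF) * (Nᵀ * J33 F * N) = (-1 : F) • 1 := by
    have hJσ : (J33 F).map (sg hF) = J33 F := by
      rw [J33, Matrix.fromBlocks_map]
      congr 1
      · ext i j; simp
      · ext i j
        rw [Matrix.map_apply, Matrix.one_apply]
        split_ifs <;> simp
      · ext i j
        rw [Matrix.map_apply, Matrix.neg_apply, Matrix.one_apply]
        split_ifs <;> simp
      · ext i j; simp
    rw [hmap, hmap, hNTσ, hJσ, hNσ]
    calc M * J33 F * Mᵀ * (Nᵀ * J33 F * N) = M * J33 F * (Mᵀ * Nᵀ) * J33 F * N := by simp only [Matrix.mul_assoc]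
      _ = M * (J33 F * J33 F) * N := by
          rw [← Matrix.transpose_mul, hNM, Matrix.transpose_one, Matrix.mul_one]; simp only [Matrix.mul_assoc]
      _ = _ := by
          rw [J33_sq, Matrix.mul_neg, Matrix.mul_one, Matrix.neg_mul, hMN, neg_smul, one_smul]
  have hB : IsUnit (Nᵀ * J33 F * N) := by
    have h4 : (-((Nᵀ * J33 F * N).map (sg hF))) * (Nᵀ * J33 F * N) = 1 := by
      rw [Matrix.neg_mul, hBB, neg_smul, one_smul, neg_neg]
    exact IsUnit.of_mul_eq_one_right _ h4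
  refine rat2_of_descent (rf_one hF) (sg_ne hF) (B := Nᵀ * J33 F * N) hB (fun g hg => (mem_GU hF).1 (hI hg).1) ?_ (l := -1) ?_ (Or.inr ⟨?_, ?_⟩)
  · intro g hg
    have hgU := (mem_GU_iff hF).1 (hI hg).1
    have hgdet := det_of_mem (hI hg).2
    have hgK := hle hg
    have hcjK : cj g α ∈ K := (hgK α).1 hα
    have hcj3 : cj g α * cj g α * cj g α = cj g α * cj g α + 1 := by
      rw [← map_mul, ← map_mul, h3, map_add, map_one]
    have hrel : ∀ β : Matrix (Fin 6) (Fin 6) F, cj g α = β → (g : Matrix (Fin 6) (Fin 6) F) * α = β * (g : Matrix (Fin 6) (Fin 6) F) := by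
      intro β h
      rw [← h, cj_apply, mul_assoc, gl_inv_mul, mul_one]
    set X := N * (g : Matrix (Fin 6) (Fin 6) F) * M with hX
    have hXα : ∀ β : Matrix (Fin 6) (Fin 6) F, cj g α = β → X * A33 F = N * β * M * X := by
      intro β h
      rw [hX, ← hNα, ← hNαα, ← hNαα, hrel β h]
    have hXA : X * A33 F = A33 F * X ∨ X * A33 F = A33 F * A33 F * X ∨ X * A33 F = A33 F * A33 F * (A33 F * A33 F) * X := by
      rcases root_cases hF hK hα hcjK h3 hcj3 with h | h | h
      · left; rw [hXα _ h, hNα]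
      · right; left; rw [hXα _ h, hNαα, hNα]
      · right; right; rw [hXα _ h, hNαα, hNαα, hNα]
    have hXU : Xᵀ.map (sg hF) * X = 1 := by
      rw [hX, Matrix.transpose_mul, Matrix.transpose_mul, hmap, hmap, hNTσ, ← hN]
      calc N * ((g : Matrix (Fin 6) (Fin 6) F)ᵀ.map (sg hF) * M) * (N * (g : Matrix (Fin 6) (Fin 6) F) * M)
          = N * (g : Matrix (Fin 6) (Fin 6) F)ᵀ.map (sg hF) * (M * N) * (g : Matrix (Fin 6) (Fin 6) F) * M := by simp only [Matrix.mul_assoc]
        _ = N * ((g : Matrix (Fin 6) (Fin 6) F)ᵀ.map (sg hF) * (g : Matrix (Fin 6) (Fin 6) F)) * M := by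
            rw [hMN, Matrix.mul_one]; simp only [Matrix.mul_assoc]
        _ = 1 := by rw [hgU, Matrix.mul_one, hNM]
    have hXd : X.det = 1 := by
      rw [hX, Matrix.det_conj_of_mul_eq_one hNM hMN, hgdet]
    obtain ⟨b, hb⟩ := frob_case hF hXA hXU hXd
    refine ⟨b, ?_⟩
    have e1 : N * (g : Matrix (Fin 6) (Fin 6) F) = X * N := by
      rw [hX, Matrix.mul_assoc _ M N, hMN, Matrix.mul_one]
    calc (g : Matrix (Fin 6) (Fin 6) F)ᵀ * (Nᵀ * J33 F * N) * (g : Matrix (Fin 6) (Fin 6) F)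
        = (N * (g : Matrix (Fin 6) (Fin 6) F))ᵀ * J33 F * (N * (g : Matrix (Fin 6) (Fin 6) F)) := by
          rw [Matrix.transpose_mul]; simp only [Matrix.mul_assoc]
      _ = Nᵀ * (Xᵀ * J33 F * X) * N := by rw [e1, Matrix.transpose_mul]; simp only [Matrix.mul_assoc]
      _ = b • (Nᵀ * J33 F * N) := by rw [hb, Matrix.mul_smul, Matrix.smul_mul]
  · rw [inv_one, one_mul]
    exact hBB
  · rw [Matrix.transpose_mul, Matrix.transpose_mul, Matrix.transpose_transpose, hJT]
    simp only [Matrix.mul_neg, Matrix.neg_mul, Matrix.mul_assoc]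
  · intro v
    rw [← Matrix.mulVec_mulVec, ← Matrix.mulVec_mulVec, Matrix.dotProduct_mulVec v, Matrix.vecMul_transpose]
    set u := N *ᵥ v
    rw [J33, dotProduct, Fintype.sum_sum_type]
    simp only [Matrix.mulVec, dotProduct, Fintype.sum_sum_type, Matrix.fromBlocks_apply₁₁, Matrix.fromBlocks_apply₁₂, Matrix.fromBlocks_apply₂₁,
      Matrix.fromBlocks_apply₂₂, Matrix.zero_apply, zero_mul, Finset.sum_const_zero, zero_add, add_zero, Matrix.neg_apply, Matrix.one_apply]
    simp [Fin.sum_univ_three]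
    ring

end six

end Cfsg.Agent.Lib.UnEx
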