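import Cfsg.Agent.Lib.UnExI
set_option autoImplicit false
set_option linter.style.haveILetI false
set_option linter.unusedVariables false
set_option linter.unusedSectionVars false

/-!
Fields of degree five over the field with four elements.
-/

namespace Cfsg.Agent.Lib.UnEx

open Cfsg Cfsg.Geo Cfsg.Agent.Lib.AschMU Cfsg.Agent.Lib.AschCore Cfsg.Agent.Lib.AschField Cfsg.Agent.Lib.AschAlg
  Cfsg.Agent.Lib.AschGroup Cfsg.Agent.Lib.AschGood Cfsg.Agent.Lib.AschAdj Cfsg.Agent.Lib.AschNonab Cfsg.Agent.Lib.AschTensor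
  Cfsg.Agent.Lib.AschComp Cfsg.Agent.Lib.AschSp Cfsg.Agent.Lib.AschESys Cfsg.Agent.Lib.UnBridge Cfsg.Agent.Lib.HermMat
  Cfsg.Agent.Lib.UnF4
open scoped Matrix MatrixGroups Kronecker

/-- The quintic. -/
def Q5 {R : Type*} [CommRing R] (x : R) : Prop := x ^ 5 = x ^ 4 + x ^ 2 + x + 1

/-- The quintic. -/
def Q5M {n : ℕ} {F : Type*} [Field F] (x : Matrix (Fin n) (Fin n) F) : Prop := x ^ 5 = x ^ 4 + x ^ 2 + x + 1

section comm
variable {R : Type*} [CommRing R] (h2 : (2 : R) = 0)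
include h2


lemma q5_8 {x : R} (hx : Q5 x) : x ^ 8 = x ^ 3 + x := by
  unfold Q5 at hx
  linear_combination (x ^ 3 + x ^ 2 + x) * hx + (x ^ 5 + x ^ 4 + x ^ 3 + x ^ 2) * h2

lemma q5_16 {x : R} (hx : Q5 x) : x ^ 16 = x ^ 4 + x ^ 3 + x ^ 2 + 1 := by
  unfold Q5 at hx
  linear_combination (x ^ 11 + x ^ 10 + x ^ 9 + x ^ 6 + x ^ 5 + x ^ 3 + x ^ 2 + x + 1) * hx + (x ^ 13 + x ^ 12 + x ^ 11 + x ^ 10 + x ^ 9 + x ^ 7 + x ^ 6 + x ^ 5 + x ^ 4 + x ^ 3 + x ^ 2 + x) * h2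

lemma q5_32 {x : R} (hx : Q5 x) : x ^ 32 = x := by
  have h16 := q5_16 h2 hx
  have : x ^ 32 = x ^ 16 * x ^ 16 := by ring
  rw [this, h16]
  unfold Q5 at hx
  linear_combination (x ^ 3 + x ^ 2 + 1) * hx + (x ^ 7 + 2 * x ^ 6 + x ^ 5 + 3 * x ^ 4 + 2 * x ^ 3 + 2 * x ^ 2 + 1) * h2

lemma q5_root {x y : R} (hx : Q5 x) (hy : Q5 y) :
    (y - x) * ((y - x ^ 2) * ((y - x ^ 4) * ((y - x ^ 8) * (y - x ^ 16)))) = 0 := by
  rw [q5_8 h2 hx, q5_16 h2 hx]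
  unfold Q5 at hx hy
  linear_combination hy + (x ^ 9 + x ^ 8 * y + x ^ 7 * y + x ^ 6 * y ^ 2 + x ^ 6 * y + x ^ 5 * y ^ 2 + x ^ 5 + x ^ 4 * y ^ 2 + x ^ 4 * y + x ^ 3 * y ^ 3 + x ^ 3 * y + x ^ 3 + x ^ 2 * y ^ 2 + x * y ^ 2 + x * y + x + y ^ 2 + y + 1) * hx + (-x ^ 14 + x ^ 12 * y - x ^ 12 - x ^ 11 * y ^ 2 + 2 * x ^ 11 * y - x ^ 10 * y ^ 2 + 4 * x ^ 10 * y - x ^ 10 - 3 * x ^ 9 * y ^ 2 + 3 * x ^ 9 * y + x ^ 9 - 2 * x ^ 8 * y ^ 2 + 4 * x ^ 8 * y - x ^ 8 + 2 * x ^ 7 * y ^ 3 - 4 * x ^ 7 * y ^ 2 + 3 * x ^ 7 * y + x ^ 7 + 2 * x ^ 6 * y ^ 3 - 2 * x ^ 6 * y ^ 2 + 2 * x ^ 6 * y + 4 * x ^ 5 * y ^ 3 - 2 * x ^ 5 * y ^ 2 + x ^ 5 * y + x ^ 5 - x ^ 4 * y ^ 4 + 3 * x ^ 4 * y ^ 3 + 2 * x ^ 4 * y + x ^ 4 - x ^ 3 * y ^ 4 + 3 * x ^ 3 * y ^ 3 + x ^ 3 * y + x ^ 3 - x ^ 2 * y ^ 4 + x ^ 2 * y ^ 3 + x ^ 2 * y ^ 2 + x ^ 2 * y + x ^ 2 - x * y ^ 4 + x * y ^ 3 + x * y ^ 2 + x * y + x + y ^ 2 + y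 + 1) * h2

lemma q5_sum {x : R} (hx : Q5 x) : x + x ^ 2 + x ^ 4 + x ^ 8 + x ^ 16 = 1 := by
  rw [q5_8 h2 hx, q5_16 h2 hx]
  unfold Q5 at hx
  linear_combination (0) * hx + (x ^ 4 + x ^ 3 + x ^ 2 + x) * h2

lemma q5_mul {x : R} (hx : Q5 x) : x * x ^ 2 = x + x ^ 8 ∧ x * x ^ 4 = x ^ 8 + x ^ 16 ∧ x * x ^ 8 = x ^ 2 + x ^ 4 ∧
    x * x ^ 16 = x ^ 4 + x ^ 16 := by
  rw [q5_8 h2 hx, q5_16 h2 hx]
  unfold Q5 at hx
  refine ⟨?_, ?_, ?_, ?_⟩
  · linear_combination (0) * hx + (-x) * h2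
  · linear_combination (1) * hx + (-x ^ 3) * h2
  · linear_combination (0) * hx + (0) * h2
  · linear_combination (1) * hx + (x) * h2

end comm

lemma q5_exists {K : Type*} [Field K] (h2 : (2 : K) = 0) {x : K} (hx : x ^ 31 = 1) (hx1 : x ≠ 1) : ∃ y : K, Q5 y := by
  have h : (x - 1) * ((x ^ 5 + x ^ 2 + 1) * ((x ^ 5 + x ^ 3 + 1) * ((x ^ 5 + x ^ 3 + x ^ 2 + x + 1) * ((x ^ 5 + x ^ 4 + x ^ 2 + x + 1) * ((x ^ 5 + x ^ 4 + x ^ 3 + x + 1) * (x ^ 5 + x ^ 4 + x ^ 3 + x ^ 2 + 1)))))) = 0 := by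
    linear_combination hx + (x ^ 30 + 2 * x ^ 29 + 4 * x ^ 28 + 6 * x ^ 27 + 11 * x ^ 26 + 14 * x ^ 25 + 19 * x ^ 24 + 24 * x ^ 23 + 26 * x ^ 22 + 33 * x ^ 21 + 27 * x ^ 20 + 28 * x ^ 19 + 22 * x ^ 18 + 12 * x ^ 17 + 10 * x ^ 16 - 10 * x ^ 15 - 12 * x ^ 14 - 22 * x ^ 13 - 28 * x ^ 12 - 27 * x ^ 11 - 33 * x ^ 10 - 26 * x ^ 9 - 24 * x ^ 8 - 19 * x ^ 7 - 14 * x ^ 6 - 11 * x ^ 5 - 6 * x ^ 4 - 4 * x ^ 3 - 2 * x ^ 2 - x) * h2
  rcases mul_eq_zero.1 h with h | h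
  · exact absurd (sub_eq_zero.1 h) hx1
  · rcases mul_eq_zero.1 h with h | h
    · refine ⟨x + 1, ?_⟩
      unfold Q5
      linear_combination (1) * h + (2 * x ^ 4 + 3 * x ^ 3 + x ^ 2 - x - 2) * h2
    · rcases mul_eq_zero.1 h with h | h
      · refine ⟨x ^ 2 + x + 1, ?_⟩
        unfold Q5
        linear_combination (x ^ 5 + x ^ 4 + x ^ 3 + x ^ 2 + 1) * h + (2 * x ^ 9 + 6 * x ^ 8 + 12 * x ^ 7 + 17 * x ^ 6 + 16 * x ^ 5 + 12 * x ^ 4 + 5 * x ^ 3 - x - 2) * h2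
      · rcases mul_eq_zero.1 h with h | h
        · refine ⟨x ^ 3 + x ^ 2, ?_⟩
          unfold Q5
          linear_combination (x ^ 10 + x ^ 9 + x ^ 8 + x ^ 7 + x ^ 5 + x ^ 4 + x ^ 2 + x + 1) * h + (2 * x ^ 14 + 4 * x ^ 13 + 3 * x ^ 12 - x ^ 11 - 5 * x ^ 10 - 4 * x ^ 9 - 2 * x ^ 8 - 2 * x ^ 7 - 2 * x ^ 6 - 3 * x ^ 5 - 2 * x ^ 4 - 2 * x ^ 3 - 2 * x ^ 2 - x - 1) * h2
        · rcases mul_eq_zero.1 h with h | h
          · refine ⟨x, ?_⟩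
            unfold Q5
            linear_combination (1) * h + (-x ^ 4 - x ^ 2 - x - 1) * h2
          · rcases mul_eq_zero.1 h with h | h
            · refine ⟨x ^ 3 + x ^ 2, ?_⟩
              unfold Q5
              linear_combination (x ^ 10 + x ^ 8 + x ^ 6 + x ^ 5 + x ^ 4 + x + 1) * h + (2 * x ^ 14 + 4 * x ^ 13 + 4 * x ^ 12 - x ^ 11 - 4 * x ^ 10 - 4 * x ^ 9 - 2 * x ^ 8 - x ^ 7 - 2 * x ^ 6 - 3 * x ^ 5 - 2 * x ^ 4 - x ^ 3 - x ^ 2 - x - 1) * h2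
            · refine ⟨x ^ 2 + x + 1, ?_⟩
              unfold Q5
              linear_combination (x ^ 5 + x ^ 3 + 1) * h + (2 * x ^ 9 + 6 * x ^ 8 + 12 * x ^ 7 + 17 * x ^ 6 + 16 * x ^ 5 + 12 * x ^ 4 + 5 * x ^ 3 - x - 2) * h2

section field
variable {n : ℕ} {F : Type*} [Field F] [Fintype F]

lemma exists_alpha5 [Nonempty (Fin n)] (hF : Fintype.card F = 2 ^ 2) {K : Subalgebra F (Matrix (Fin n) (Fin n) F)} (hK : IsFieldSubalgebra 5 K) :
    ∃ α ∈ K, Q5M α := by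
  classical
  have h2 := UnNot.two_eq_zero hF
  have hfinM : Finite (Matrix (Fin n) (Fin n) F) := inferInstanceAs (Finite (Fin n → Fin n → F))
  haveI : Finite K := Finite.of_injective (fun a : K => (a : Matrix (Fin n) (Fin n) F)) Subtype.coe_injective
  letI : Field K := (isField_of hK).toField
  letI : Fintype K := Fintype.ofFinite K
  have hcard : Fintype.card K = 1024 := by
    have h1 : Nat.card K = Nat.card F ^ Module.finrank F K := Module.natCard_eq_pow_finrank (K := F) (V := K)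
    rw [hK.finrank_eq, Nat.card_eq_fintype_card, Nat.card_eq_fintype_card, hF] at h1
    rw [h1]; norm_num
  have hK2 : (2 : K) = 0 := by
    have h3 : (2 : K) = algebraMap F K 2 := by rw [map_ofNat]
    rw [h3, h2, map_zero]
  obtain ⟨g, hg⟩ := IsCyclic.exists_generator (α := Kˣ)
  have hog : orderOf g = 1023 := by
    rw [orderOf_eq_card_of_forall_mem_zpowers hg, Nat.card_eq_fintype_card, Fintype.card_units, hcard]
  set x : K := ((g ^ 33 : Kˣ) : K) with hx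
  have hx7 : x ^ 31 = 1 := by
    rw [hx, ← Units.val_pow_eq_pow_val, ← pow_mul]
    have : g ^ (33 * 31) = 1 := by
      have := pow_orderOf_eq_one g
      rwa [hog] at this
    rw [this, Units.val_one]
  have hx1 : x ≠ 1 := by
    intro h
    have h1 : g ^ 33 = 1 := Units.ext (by rw [← hx, h, Units.val_one])
    have h3 := orderOf_dvd_of_pow_eq_one h1
    rw [hog] at h3
    norm_num at h3
  obtain ⟨α, hα⟩ := q5_exists hK2 hx7 hx1
  exact ⟨α, α.2, congrArg Subtype.val hα⟩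

lemma root_cases5 [Nonempty (Fin n)] (hF : Fintype.card F = 2 ^ 2) {K : Subalgebra F (Matrix (Fin n) (Fin n) F)} (hK : IsFieldSubalgebra 5 K)
    {x y : Matrix (Fin n) (Fin n) F} (hx : x ∈ K) (hy : y ∈ K) (hx3 : Q5M x) (hy3 : Q5M y) :
    ∃ i : Fin 5, y = x ^ (2 ^ (i : ℕ)) := by
  letI : Field K := (isField_of hK).toField
  have h2 := UnNot.two_eq_zero hF
  have hK2 : (2 : K) = 0 := by
    have h3 : (2 : K) = algebraMap F K 2 := by rw [map_ofNat]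
    rw [h3, h2, map_zero]
  let a : K := ⟨x, hx⟩
  let b : K := ⟨y, hy⟩
  have ha : Q5 a := Subtype.ext hx3
  have hb : Q5 b := Subtype.ext hy3
  have h := q5_root hK2 ha hb
  rcases mul_eq_zero.1 h with h | h
  · exact ⟨0, by rw [show ((0 : Fin 5) : ℕ) = 0 from rfl, pow_zero, pow_one]; exact congrArg Subtype.val (sub_eq_zero.1 h)⟩
  rcases mul_eq_zero.1 h with h | h
  · exact ⟨1, congrArg Subtype.val (sub_eq_zero.1 h)⟩
  rcases mul_eq_zero.1 h with h | h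
  · exact ⟨2, congrArg Subtype.val (sub_eq_zero.1 h)⟩
  rcases mul_eq_zero.1 h with h | h
  · exact ⟨3, congrArg Subtype.val (sub_eq_zero.1 h)⟩
  · exact ⟨4, congrArg Subtype.val (sub_eq_zero.1 h)⟩

/-- The relations between the powers of `α`. -/
lemma rels5 [Nonempty (Fin n)] (hF : Fintype.card F = 2 ^ 2) {K : Subalgebra F (Matrix (Fin n) (Fin n) F)} (hK : IsFieldSubalgebra 5 K)
    {x : Matrix (Fin n) (Fin n) F} (hx : x ∈ K) (hx3 : Q5M x) :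
    (x + x ^ 2 + x ^ 4 + x ^ 8 + x ^ 16 = 1) ∧ (x * x ^ 2 = x + x ^ 8 ∧ x * x ^ 4 = x ^ 8 + x ^ 16 ∧ x * x ^ 8 = x ^ 2 + x ^ 4 ∧
    x * x ^ 16 = x ^ 4 + x ^ 16) := by
  letI : Field K := (isField_of hK).toField
  have h2 := UnNot.two_eq_zero hF
  have hK2 : (2 : K) = 0 := by
    have h3 : (2 : K) = algebraMap F K 2 := by rw [map_ofNat]
    rw [h3, h2, map_zero]
  let a : K := ⟨x, hx⟩
  have ha : Q5 a := Subtype.ext hx3
  obtain ⟨h1, h3, h4, h5⟩ := q5_mul hK2 ha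
  exact ⟨congrArg Subtype.val (q5_sum hK2 ha), congrArg Subtype.val h1, congrArg Subtype.val h3, congrArg Subtype.val h4,
    congrArg Subtype.val h5⟩

lemma adj_pow' (hF : Fintype.card F = 2 ^ 2) (x : Matrix (Fin n) (Fin n) F) (k : ℕ) : adj (sg hF) 1 (x ^ k) = adj (sg hF) 1 x ^ k := by
  have hr := rf_one (ι := Fin n) hF
  induction k with
  | zero => rw [pow_zero, pow_zero, adj_one hr]
  | succ k ih => rw [pow_succ, adj_mul hr, ih, ← pow_succ']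

/-- `x ^ 2 ^ i = x` only for `i = 0`. -/
lemma pow_ne5 [Nonempty (Fin n)] (hF : Fintype.card F = 2 ^ 2) {K : Subalgebra F (Matrix (Fin n) (Fin n) F)} (hK : IsFieldSubalgebra 5 K)
    {x : Matrix (Fin n) (Fin n) F} (hx : x ∈ K) (hx3 : Q5M x) {i : ℕ} (hi : 0 < i) (hi5 : i < 5) : x ^ (2 ^ i) ≠ x := by
  letI : Field K := (isField_of hK).toField
  have h2 := UnNot.two_eq_zero hF
  have hK2 : (2 : K) = 0 := by
    have h3 : (2 : K) = algebraMap F K 2 := by rw [map_ofNat]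
    rw [h3, h2, map_zero]
  let a : K := ⟨x, hx⟩
  have ha : Q5 a := Subtype.ext hx3
  intro h
  have h' : a ^ (2 ^ i) = a := Subtype.ext h
  have h32 := q5_32 hK2 ha
  have key : a ^ 2 = a → False := by
    intro h2'
    have e4 : a ^ 4 = a := by
      calc a ^ 4 = (a ^ 2) ^ 2 := by ring
        _ = a := by rw [h2', h2']
    have e5 : a ^ 5 = a := by
      calc a ^ 5 = a ^ 4 * a := by ring
        _ = a ^ 2 := by rw [e4]; ring
        _ = a := h2'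
    unfold Q5 at ha
    rw [e5, e4, h2'] at ha
    have : (1 : K) = 0 := by linear_combination -ha - a * hK2
    exact one_ne_zero this
  apply key
  interval_cases i
  · exact h'
  · have e : a ^ 32 = a ^ 2 := by
      calc a ^ 32 = ((a ^ 2 ^ 2) ^ 2 ^ 2) ^ 2 := by ring
        _ = a ^ 2 := by rw [h', h']
    rw [← e, h32]
  · have e : (a ^ 32) ^ 2 = a := by
      calc (a ^ 32) ^ 2 = (a ^ 2 ^ 3) ^ 2 ^ 3 := by ring
        _ = a := by rw [h', h']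
    rw [h32] at e
    exact e
  · have e : a ^ 32 = a ^ 2 := by
      calc a ^ 32 = (a ^ 2 ^ 4) ^ 2 := by ring
        _ = a ^ 2 := by rw [h']
    rw [← e, h32]

lemma adj_alpha5 [Nonempty (Fin n)] (hF : Fintype.card F = 2 ^ 2) {K : Subalgebra F (Matrix (Fin n) (Fin n) F)} (hK : IsFieldSubalgebra 5 K)
    (hac : IsAdjointClosedFor (hermForm n F 2) K) {α : Matrix (Fin n) (Fin n) F} (hα : α ∈ K) (h3 : Q5M α) :
    adj (sg hF) 1 α = α := by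
  have hr := rf_one (ι := Fin n) hF
  have h3' : Q5M (adj (sg hF) 1 α) := by
    have := congrArg (adj (sg hF) 1) h3
    rw [adj_add, adj_add, adj_add, adj_one hr, adj_pow', adj_pow', adj_pow'] at this
    exact this
  obtain ⟨i, hi⟩ := root_cases5 hF hK hα (adj_mem_of hF hac hα) h3 h3'
  have h4 := adj_adj hr α
  rw [hi, adj_pow', hi, ← pow_mul, ← pow_add] at h4
  -- `α ^ (2 ^ (2 i)) = α`
  have h32 : α ^ 32 = α := by
    letI : Field K := (isField_of hK).toField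
    have h2 := UnNot.two_eq_zero hF
    have hK2 : (2 : K) = 0 := by
      have h3 : (2 : K) = algebraMap F K 2 := by rw [map_ofNat]
      rw [h3, h2, map_zero]
    have ha : Q5 (⟨α, hα⟩ : K) := Subtype.ext h3
    exact congrArg Subtype.val (q5_32 hK2 ha)
  have hcase : ∀ k, i = k → (k : ℕ) = i := fun k h => by rw [h]
  have hi5 := i.2
  rcases Nat.eq_zero_or_pos (i : ℕ) with h0 | h0
  · rw [hi, h0, pow_zero, pow_one]
  exfalso
  generalize (i : ℕ) = m at h4 hi5 h0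
  interval_cases m
  · exact pow_ne5 hF hK hα h3 (i := 2) (by norm_num) (by norm_num) h4
  · exact pow_ne5 hF hK hα h3 (i := 4) (by norm_num) (by norm_num) h4
  · apply pow_ne5 hF hK hα h3 (i := 1) (by norm_num) (by norm_num)
    norm_num at h4 ⊢
    have e : α ^ 64 = (α ^ 32) ^ 2 := by rw [← pow_mul]
    rw [h32, h4] at e
    exact e.symm
  · apply pow_ne5 hF hK hα h3 (i := 3) (by norm_num) (by norm_num)
    norm_num at h4 ⊢
    have e : α ^ 256 = (α ^ 32) ^ 8 := by rw [← pow_mul]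
    rw [h32, h4] at e
    exact e.symm

end field

end Cfsg.Agent.Lib.UnEx
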