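import Cfsg.Agent.Lib.UnExJ
import Cfsg.Agent.Lib.UnExK
set_option autoImplicit false
set_option linter.style.haveILetI false
set_option linter.unusedVariables false
set_option linter.unusedSectionVars false
set_option linter.unusedSimpArgs false

/-!
Orthonormal bases adapted to a field of degree five.
-/

namespace Cfsg.Agent.Lib.UnEx

open Cfsg Cfsg.Geo Cfsg.Agent.Lib.AschMU Cfsg.Agent.Lib.AschCore Cfsg.Agent.Lib.AschField Cfsg.Agent.Lib.AschAlg
  Cfsg.Agent.Lib.AschGroup Cfsg.Agent.Lib.AschGood Cfsg.Agent.Lib.AschAdj Cfsg.Agent.Lib.AschNonab Cfsg.Agent.Lib.AschTensor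
  Cfsg.Agent.Lib.AschComp Cfsg.Agent.Lib.AschSp Cfsg.Agent.Lib.AschESys Cfsg.Agent.Lib.UnBridge Cfsg.Agent.Lib.HermMat
  Cfsg.Agent.Lib.UnF4
open scoped Matrix MatrixGroups Kronecker

/-- Value of a bit. -/
def bv (F : Type*) [Field F] (b : Bool) : F := if b then 1 else 0

/-- States. -/
abbrev St5 := Bool × Bool × Bool × Bool × Bool

/-- One step. -/
def stp : St5 → St5 := fun t =>
  (t.2.2.1, t.2.2.2.1, t.2.2.2.2, xor (xor (xor t.2.2.2.2 t.2.2.1) t.2.1) t.1,
    xor (xor (xor (xor (xor (xor t.2.2.2.2 t.2.2.1) t.2.1) t.1) t.2.2.2.1) t.2.2.1) t.2.1)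

/-- Iterated steps. -/
def stps : ℕ → St5 → St5
  | 0, t => t
  | n + 1, t => stps n (stp t)

lemma reach : ∀ a b c d e : Bool, (a, b, c, d, e) ≠ (false, false, false, false, false) →
    ∃ i : Fin 31, stps i (a, b, c, d, e) = (true, true, true, false, true) := by decide +kernel

section vectors
variable {n : ℕ} {F : Type*} [Field F] [Fintype F]

lemma bv_xor (h2 : (2 : F) = 0) (a b : Bool) : bv F (xor a b) = bv F a + bv F b := by
  cases a <;> cases b <;> simp [bv]
  rw [one_add_one_eq_two, h2]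

variable {α : Matrix (Fin n) (Fin n) F}

lemma sv_rec5 (h3 : Q5M α) (w : Fin n → F) (k : ℕ) : sv α w (k + 5) = sv α w (k + 4) + sv α w (k + 2) + sv α w (k + 1) + sv α w k := by
  unfold sv
  have h : α ^ (k + 5) = α ^ (k + 4) + α ^ (k + 2) + α ^ (k + 1) + α ^ k := by
    rw [pow_add, show α ^ 5 = _ from h3, mul_add, mul_add, mul_add, mul_one, ← pow_add, ← pow_add, ← pow_succ]
  rw [h, Matrix.add_mulVec, Matrix.add_mulVec, Matrix.add_mulVec, hermForm_add_left, hermForm_add_left, hermForm_add_left]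

/-- The state of a vector. -/
def Sta (α : Matrix (Fin n) (Fin n) F) (w : Fin n → F) (t : St5) : Prop :=
  sv α w 0 = bv F t.1 ∧ sv α w 1 = bv F t.2.1 ∧ sv α w 2 = bv F t.2.2.1 ∧ sv α w 3 = bv F t.2.2.2.1 ∧ sv α w 4 = bv F t.2.2.2.2

lemma Sta_step (hF : Fintype.card F = 2 ^ 2) (ha : adj (sg hF) 1 α = α) (h3 : Q5M α) {w : Fin n → F} {t : St5} (h : Sta α w t) :
    Sta α ((α ^ 1) *ᵥ w) (stp t) := by
  have h2 := UnNot.two_eq_zero hF
  obtain ⟨e0, e1, e2, e3, e4⟩ := h
  have r0 := sv_rec5 h3 w 0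
  have r1 := sv_rec5 h3 w 1
  norm_num at r0 r1
  have e5 : sv α w 5 = bv F (xor (xor (xor t.2.2.2.2 t.2.2.1) t.2.1) t.1) := by
    rw [r0, bv_xor h2, bv_xor h2, bv_xor h2, e4, e2, e1, e0]
  unfold Sta
  simp only [sv_shift hF ha]
  refine ⟨e2, e3, e4, e5, ?_⟩
  show sv α w 6 = _
  rw [r1, e5, e3, e2, e1]
  simp only [stp]
  rw [bv_xor h2 _ t.2.1, bv_xor h2 _ t.2.2.1, bv_xor h2 _ t.2.2.2.1]

lemma exists_normal5 (hF : Fintype.card F = 2 ^ 2) (ha : adj (sg hF) 1 α = α) (h3 : Q5M α) {w : Fin n → F}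
    (hw : hermForm n F 2 w w ≠ 0) : ∃ i, Sta α ((α ^ i) *ᵥ w) (true, true, true, false, true) := by
  have h2 := UnNot.two_eq_zero hF
  have hex : ∀ k, ∃ b, sv α w k = bv F b := by
    intro k
    rcases sv_fix hF ha w k with h | h
    · exact ⟨false, by rw [h]; rfl⟩
    · exact ⟨true, by rw [h]; rfl⟩
  obtain ⟨b0, e0⟩ := hex 0
  obtain ⟨b1, e1⟩ := hex 1
  obtain ⟨b2, e2⟩ := hex 2
  obtain ⟨b3, e3⟩ := hex 3
  obtain ⟨b4, e4⟩ := hex 4
  have hb0 : b0 ≠ false := by
    rintro rfl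
    apply hw
    have : sv α w 0 = hermForm n F 2 w w := by unfold sv; rw [pow_zero, Matrix.one_mulVec]
    rw [← this, e0]; rfl
  obtain ⟨i, hi⟩ := reach b0 b1 b2 b3 b4 (by
    intro h
    exact hb0 (congrArg Prod.fst h))
  have key : ∀ (m : ℕ) (w : Fin n → F) (t : St5), Sta α w t → Sta α ((α ^ m) *ᵥ w) (stps m t) := by
    intro m
    induction m with
    | zero => intro w t h; rw [pow_zero, Matrix.one_mulVec]; exact h
    | succ m ih =>
      intro w t h
      have := ih _ _ (Sta_step hF ha h3 h)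
      rw [Matrix.mulVec_mulVec, ← pow_add] at this
      exact this
  refine ⟨i, ?_⟩
  rw [← hi]
  exact key _ _ _ ⟨e0, e1, e2, e3, e4⟩

/-- The values for normalised vectors. -/
lemma normal_vals5 (hF : Fintype.card F = 2 ^ 2) (h3 : Q5M α) {w : Fin n → F} (hw : Sta α w (true, true, true, false, true)) :
    sv α w 2 = 1 ∧ sv α w 3 = 0 ∧ sv α w 5 = 0 ∧ sv α w 9 = 0 ∧ sv α w 17 = 0 ∧ sv α w 4 = 1 ∧ sv α w 6 = 0 ∧ sv α w 10 = 0 ∧
      sv α w 18 = 0 ∧ sv α w 8 = 1 ∧ sv α w 12 = 0 ∧ sv α w 20 = 0 ∧ sv α w 16 = 1 ∧ sv α w 24 = 0 ∧ sv α w 32 = 1 := by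
  have h2 := UnNot.two_eq_zero hF
  have h11 : (1 : F) + 1 = 0 := by rw [one_add_one_eq_two, h2]
  obtain ⟨e0, e1, e2, e3, e4⟩ := hw
  simp only [bv, if_true, Bool.false_eq_true, if_false] at e0 e1 e2 e3 e4
  have r := fun k => sv_rec5 h3 w k
  have e5 := r 0
  have e6 := r 1
  have e7 := r 2
  have e8 := r 3
  have e9 := r 4
  have e10 := r 5
  have e11 := r 6
  have e12 := r 7
  have e13 := r 8
  have e14 := r 9
  have e15 := r 10
  have e16 := r 11
  have e17 := r 12
  have e18 := r 13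
  have e19 := r 14
  have e20 := r 15
  have e21 := r 16
  have e22 := r 17
  have e23 := r 18
  have e24 := r 19
  have e25 := r 20
  have e26 := r 21
  have e27 := r 22
  have e28 := r 23
  have e29 := r 24
  have e30 := r 25
  have e31 := r 26
  have e32 := r 27
  norm_num only at e5 e6 e7 e8 e9 e10 e11 e12 e13 e14 e15 e16 e17 e18 e19 e20 e21 e22 e23 e24 e25 e26 e27 e28 e29 e30 e31 e32
  simp only [e0, e1, e2, e3, e4, h11, add_zero, zero_add] at e5
  simp only [e1, e2, e3, e4, e5, h11, add_zero, zero_add] at e6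
  simp only [e2, e3, e4, e5, e6, h11, add_zero, zero_add] at e7
  simp only [e3, e4, e5, e6, e7, h11, add_zero, zero_add] at e8
  simp only [e4, e5, e6, e7, e8, h11, add_zero, zero_add] at e9
  simp only [e5, e6, e7, e8, e9, h11, add_zero, zero_add] at e10
  simp only [e6, e7, e8, e9, e10, h11, add_zero, zero_add] at e11
  simp only [e7, e8, e9, e10, e11, h11, add_zero, zero_add] at e12
  simp only [e8, e9, e10, e11, e12, h11, add_zero, zero_add] at e13
  simp only [e9, e10, e11, e12, e13, h11, add_zero, zero_add] at e14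
  simp only [e10, e11, e12, e13, e14, h11, add_zero, zero_add] at e15
  simp only [e11, e12, e13, e14, e15, h11, add_zero, zero_add] at e16
  simp only [e12, e13, e14, e15, e16, h11, add_zero, zero_add] at e17
  simp only [e13, e14, e15, e16, e17, h11, add_zero, zero_add] at e18
  simp only [e14, e15, e16, e17, e18, h11, add_zero, zero_add] at e19
  simp only [e15, e16, e17, e18, e19, h11, add_zero, zero_add] at e20
  simp only [e16, e17, e18, e19, e20, h11, add_zero, zero_add] at e21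
  simp only [e17, e18, e19, e20, e21, h11, add_zero, zero_add] at e22
  simp only [e18, e19, e20, e21, e22, h11, add_zero, zero_add] at e23
  simp only [e19, e20, e21, e22, e23, h11, add_zero, zero_add] at e24
  simp only [e20, e21, e22, e23, e24, h11, add_zero, zero_add] at e25
  simp only [e21, e22, e23, e24, e25, h11, add_zero, zero_add] at e26
  simp only [e22, e23, e24, e25, e26, h11, add_zero, zero_add] at e27
  simp only [e23, e24, e25, e26, e27, h11, add_zero, zero_add] at e28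
  simp only [e24, e25, e26, e27, e28, h11, add_zero, zero_add] at e29
  simp only [e25, e26, e27, e28, e29, h11, add_zero, zero_add] at e30
  simp only [e26, e27, e28, e29, e30, h11, add_zero, zero_add] at e31
  simp only [e27, e28, e29, e30, e31, h11, add_zero, zero_add] at e32
  exact ⟨e2, e3, e5, e9, e17, e4, e6, e10, e18, e8, e12, e20, e16, e24, e32⟩

/-- The normal basis vectors. -/
def nb5 (α : Matrix (Fin n) (Fin n) F) (w : Fin n → F) (k : Fin 5) : Fin n → F := (α ^ (2 ^ (k : ℕ))) *ᵥ w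

lemma nb5_orth (hF : Fintype.card F = 2 ^ 2) (ha : adj (sg hF) 1 α = α) (h3 : Q5M α) {w : Fin n → F}
    (hw : Sta α w (true, true, true, false, true)) (i j : Fin 5) : hermForm n F 2 (nb5 α w i) (nb5 α w j) = if i = j then 1 else 0 := by
  obtain ⟨s2, s3, s5, s9, s17, s4, s6, s10, s18, s8, s12, s20, s16, s24, s32⟩ := normal_vals5 hF h3 hw
  unfold nb5
  rw [herm_pow hF ha]
  fin_cases i <;> fin_cases j <;> simp [s2, s3, s5, s9, s17, s4, s6, s10, s18, s8, s12, s20, s16, s24, s32]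

/-- The matrix of `α` in the normal basis. -/
def A5 (F : Type*) [Field F] : Matrix (Fin 5) (Fin 5) F :=
  !![0, 1, 0, 0, 0; 1, 0, 0, 1, 0; 0, 0, 0, 1, 1; 0, 1, 1, 0, 0; 0, 0, 1, 0, 1]

lemma nb5_mul (hF : Fintype.card F = 2 ^ 2) (hrel : α * α ^ 2 = α + α ^ 8 ∧ α * α ^ 4 = α ^ 8 + α ^ 16 ∧ α * α ^ 8 = α ^ 2 + α ^ 4 ∧
    α * α ^ 16 = α ^ 4 + α ^ 16) (w : Fin n → F) (j : Fin 5) :
    α *ᵥ nb5 α w j = ∑ i, A5 F i j • nb5 α w i := by
  obtain ⟨h1, h2, h4, h8⟩ := hrel
  unfold nb5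
  rw [Matrix.mulVec_mulVec, Fin.sum_univ_five]
  fin_cases j
  · simp [A5, sq]
  · simp [A5, h1, Matrix.add_mulVec]
  · simp [A5, h2, Matrix.add_mulVec]
  · simp [A5, h4, Matrix.add_mulVec]
  · simp [A5, h8, Matrix.add_mulVec]

end vectors

end Cfsg.Agent.Lib.UnEx
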