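import Cfsg.Agent.Lib.UniTool
import Cfsg.Agent.Lib.RootSU

/-! # Unitary transvections in `GL` -/

set_option autoImplicit false

namespace Cfsg.Agent.Lib.UniTool

open Cfsg.Agent.Lib.ClUnitary (frob) 
open Cfsg.Agent.Lib.NormTool Cfsg.Agent.Lib.HermMat Matrix Module
open scoped MatrixGroups

variable {F : Type*} [Field F] [Fintype F] {q n : ℕ}

/-- transvections of the special unitary group -/
theorem exists_transv_SU (hF : Fintype.card F = q ^ 2) {p : ℕ} [hp : Fact p.Prime] [CharP F p] (hn : 2 ≤ n) :
    ∃ x ∈ Cfsg.GU n F q ⊓ Cfsg.Geo.specialLinear (Fin n) F, x ^ p = 1 ∧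
      finrank F (Module.End.eigenspace (Matrix.toLin' x.1) 1) + 1 = n ∧ ∀ z : F, x.1 ≠ z • (1 : Matrix (Fin n) (Fin n) F) := by
  classical
  have hq := two_le_q hF
  obtain ⟨t, ht⟩ := ClUnitary.exists_norm hF (c := -1) (by rw [neg_pow_q hF, one_pow])
  obtain ⟨x₀, hx₀⟩ : ∃ x : F, x ^ q ≠ x := by
    by_contra h
    push Not at h
    exact ClUnitary.frob_ne_id hF (RingHom.ext h)
  set c := x₀ ^ q - x₀ with hc
  have hc0 : c ≠ 0 := sub_ne_zero.2 hx₀
  have hcc : c + c ^ q = 0 := by rw [hc, sub_pow_q hF, pow_q_pow_q hF]; ring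
  let i0 : Fin n := ⟨0, by omega⟩
  let i1 : Fin n := ⟨1, by omega⟩
  have hi : i0 ≠ i1 := by intro h; have := congrArg Fin.val h; simp [i0, i1] at this
  let v : Fin n → F := Pi.single i0 1 + t • Pi.single i1 1
  have hs : ∀ i j : Fin n, hermForm n F q (Pi.single i 1) (Pi.single j 1) = if i = j then 1 else 0 := by
    intro i j
    rw [hermForm_single_left]
    by_cases h : i = j
    · subst h; simp
    · rw [Pi.single_eq_of_ne h, if_neg h, zero_pow (by omega)]
  have hvv : hermForm n F q v v = 0 := by
    simp only [v]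
    rw [hermForm_add_left, hermForm_add_right hF, hermForm_add_right hF, hermForm_smul_left, hermForm_smul_left, hermForm_smul_right,
      hermForm_smul_right, hs, hs, hs, hs, if_pos rfl, if_pos rfl, if_neg hi, if_neg (Ne.symm hi)]
    have : t * t ^ q = -1 := by rw [← pow_succ', ht]
    linear_combination this
  have hv0 : v ≠ 0 := by
    intro h
    have := congrFun h i0
    simp [v, hi] at this
  let T := RootSU.uT hF hvv hcc
  have hT : ∀ x, T.1.1 *ᵥ x = x + (c * hermForm n F q x v) • v := fun x => RootSU.uT_mulVec hF hvv hcc x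
  let x : GL (Fin n) F := Matrix.GeneralLinearGroup.mkOfDetNeZero T.1.1 (by rw [T.1.2]; exact one_ne_zero)
  have hx1 : x.1 = T.1.1 := rfl
  let ℓ : (Fin n → F) →ₗ[F] F :=
    { toFun := fun u => c * hermForm n F q u v
      map_add' := by intro a b; rw [hermForm_add_left, mul_add]
      map_smul' := by intro a b; rw [hermForm_smul_left, RingHom.id_apply, smul_eq_mul]; ring }
  have hℓ : ∀ u, ℓ u = c * hermForm n F q u v := fun u => rfl
  have hℓ0 : ℓ ≠ 0 := by
    intro h
    have h1 : hermForm n F q (Pi.single i0 1) v = 1 := by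
      rw [hermForm_single_left]
      simp [v, hi]
    have h2 : ℓ (Pi.single i0 1) = 0 := by rw [h]; rfl
    rw [hℓ, h1, mul_one] at h2
    exact hc0 h2
  have hker : Module.End.eigenspace (Matrix.toLin' x.1) 1 = LinearMap.ker ℓ := by
    ext u
    rw [Module.End.mem_eigenspace_iff, LinearMap.mem_ker, Matrix.toLin'_apply, hx1, hT, one_smul, hℓ]
    constructor
    · intro h
      have h1 : (c * hermForm n F q u v) • v = 0 := by simpa using h
      exact (smul_eq_zero.1 h1).resolve_right hv0
    · intro h
      rw [h, zero_smul, add_zero]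
  have hfin : finrank F (Module.End.eigenspace (Matrix.toLin' x.1) 1) + 1 = n := by
    have h1 := LinearMap.finrank_range_add_finrank_ker ℓ
    have h2 : LinearMap.range ℓ = ⊤ := LinearMap.range_eq_top.2 (LinearMap.surjective hℓ0)
    rw [h2, finrank_top, finrank_self, finrank_fin_fun] at h1
    rw [hker]; omega
  refine ⟨x, ⟨fun u w => T.2 u w, mem_SL_iff.2 T.1.2⟩, ?_, hfin, ?_⟩
  · have hk : ∀ (k : ℕ) (u : Fin n → F), (x.1 ^ k) *ᵥ u = u + ((k : F) * (c * hermForm n F q u v)) • v := by
      intro k
      induction k with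
      | zero => intro u; rw [pow_zero, one_mulVec, Nat.cast_zero, zero_mul, zero_smul, add_zero]
      | succ k ih =>
        intro u
        rw [pow_succ', ← mulVec_mulVec, ih, hx1, hT, hermForm_add_left, hermForm_smul_left, hvv, mul_zero, add_zero, add_assoc, ← add_smul]
        congr 2
        push_cast
        ring
    apply Units.ext
    rw [Units.val_pow_eq_pow_val, Units.val_one]
    apply Matrix.ext_of_mulVec_single
    intro i
    rw [hk, CharP.cast_eq_zero, zero_mul, zero_smul, add_zero, one_mulVec]
  · intro z hz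
    rw [hz] at hfin
    by_cases hz1 : z = 1
    · rw [hz1, one_smul, Matrix.toLin'_one] at hfin
      have : Module.End.eigenspace (LinearMap.id : Module.End F (Fin n → F)) 1 = ⊤ := by
        rw [eq_top_iff]; intro v _; rw [Module.End.mem_eigenspace_iff, one_smul]; rfl
      rw [this, finrank_top, Module.finrank_fin_fun] at hfin
      omega
    · have : Module.End.eigenspace (Matrix.toLin' (z • (1 : Matrix (Fin n) (Fin n) F))) 1 = ⊥ := by
        rw [eq_bot_iff]
        intro v hv
        rw [Module.End.mem_eigenspace_iff, map_smul, Matrix.toLin'_one, LinearMap.smul_apply, LinearMap.id_apply] at hv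
        have h1 : (z - 1) • v = 0 := by rw [sub_smul, hv, sub_self]
        exact (smul_eq_zero.1 h1).resolve_left (sub_ne_zero.2 hz1)
      rw [this, finrank_bot] at hfin
      omega

end Cfsg.Agent.Lib.UniTool
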