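import Cfsg.Agent.Lib.XR7

/-! # Symplectic type 2-groups in dimension four: fixed spaces of elements of order three and five -/

set_option autoImplicit false
set_option linter.dupNamespace false
set_option linter.style.haveILetI false

namespace Cfsg.Agent.Lib.XR

open Matrix Module Cfsg.Agent.Lib.NormTool Cfsg.Agent.Lib.CycConj Cfsg.Agent.Lib.PrimeOrd Cfsg.Agent.Lib.InvSub Polynomial
open scoped MatrixGroups

section lin

variable {F V : Type*} [Field F] [AddCommGroup V] [Module F V] [FiniteDimensional F V]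

theorem eq_smul_of_finrank {T : Module.End F V} {c : F} (hc : c ≠ 0) (h : finrank F (E (c⁻¹ • T) 1) = finrank F V) : T = c • (1 : Module.End F V) := by
  have h1 := Submodule.eq_top_of_finrank_eq h
  ext v
  have h2 : v ∈ E (c⁻¹ • T) 1 := by rw [h1]; trivial
  have h3 := Module.End.mem_eigenspace_iff.1 h2
  rw [LinearMap.smul_apply, one_smul] at h3
  rw [LinearMap.smul_apply, Module.End.one_apply]
  nth_rewrite 2 [← h3]
  rw [smul_smul, mul_inv_cancel₀ hc, one_smul]

theorem quad_of_finrank {T : Module.End F V} (hT : T ^ 3 = 1) (h : finrank F (E T 1) = 0) : T * T + T + 1 = 0 := by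
  have h1 := Submodule.finrank_eq_zero.1 h
  ext v
  have h2 : (T * T + T + 1) v ∈ E T 1 := by
    rw [Module.End.mem_eigenspace_iff, one_smul]
    have e1 : T * (T * T + T + 1) = T * T + T + 1 := by
      have : T * (T * T) = 1 := by rw [← hT]; simp only [pow_succ, pow_zero, one_mul, mul_assoc]
      rw [mul_add, mul_add, this, mul_one]
      abel
    exact congrArg (fun f : Module.End F V => f v) e1
  rw [h1] at h2
  exact h2

theorem finrank_zero_of_quad {T : Module.End F V} (h3 : (3 : F) ≠ 0) (h : T * T + T + 1 = 0) : finrank F (E T 1) = 0 := by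
  rw [Submodule.finrank_eq_zero, eq_bot_iff]
  intro v hv
  have h1 := Module.End.mem_eigenspace_iff.1 hv
  rw [one_smul] at h1
  have h2 : (T * T + T + 1) v = 0 := by rw [h]; rfl
  have h4 : (T * T + T + 1) v = T (T v) + T v + v := rfl
  rw [h4, h1, h1] at h2
  have h5 : (3 : F) • v = 0 := by
    rw [← h2]
    have : (3 : F) = 1 + 1 + 1 := by norm_num
    rw [this, add_smul, add_smul, one_smul]
  exact (smul_eq_zero.1 h5).resolve_left h3

end lin

theorem ord23 : orderOf ((2 : ℕ) : ZMod 3) = 3 - 1 := by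
  haveI : Fact (Nat.Prime 2) := ⟨Nat.prime_two⟩
  exact orderOf_eq_prime (p := 2) (by decide) (by decide)

section

variable {F : Type*} [Field F] [Fintype F] {p : ℕ} [hp : Fact p.Prime] [CharP F p]

omit [CharP F p] hp in
theorem no_root3 (hF : Fintype.card F = p) (hp3 : p % 3 = 2) (h3 : (3 : F) ≠ 0) (s : F) : s ^ 2 + s + 1 ≠ 0 := by
  intro h
  have hs0 : s ≠ 0 := by rintro rfl; norm_num at h
  have hs1 : s ≠ 1 := by rintro rfl; apply h3; linear_combination h
  have hs3 : s ^ 3 = 1 := by linear_combination (s - 1) * h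
  have h1 : orderOf (Units.mk0 s hs0) = 3 := by
    haveI : Fact (Nat.Prime 3) := ⟨Nat.prime_three⟩
    exact orderOf_eq_prime (Units.ext hs3) (fun h => hs1 (congrArg Units.val h))
  have h2 := orderOf_dvd_natCard (Units.mk0 s hs0)
  rw [h1, Nat.card_units, Nat.card_eq_fintype_card, hF] at h2
  omega

theorem irr3 (hF : Fintype.card F = p) (hp3 : p % 3 = 2) (hp3' : p ≠ 3) : Irreducible (cyclotomic 3 F) := by
  haveI : Fact (Nat.Prime 3) := ⟨Nat.prime_three⟩
  apply Cfsg.Agent.Lib.ExtField.irr_cyclotomic (p := p) (fun h => hp3' h.symm)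
  rw [hF]
  have h1 : ((p : ℕ) : ZMod 3) = ((2 : ℕ) : ZMod 3) := by
    rw [ZMod.natCast_eq_natCast_iff']; omega
  rw [h1]
  exact ord23

/-- elements of order five with no fixed vectors -/
theorem finrank_five {V : Type*} [AddCommGroup V] [Module F V] [FiniteDimensional F V] (hV : finrank F V = 4) (h5 : (5 : F) ≠ 0)
    (hirr : Irreducible (cyclotomic 5 F)) {T : Module.End F V} {c : F} (hc : c ≠ 0)
    (hT : (c⁻¹ • T) ^ 5 = 1) (hn : T ≠ c • (1 : Module.End F V)) : finrank F (E (c⁻¹ • T) 1) = 0 := by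
  haveI : Fact (Nat.Prime 5) := ⟨by norm_num⟩
  obtain ⟨k, hk⟩ := finrank_E_cyc (r := 5) (by exact_mod_cast h5) hirr hT
  rw [hV] at hk
  have hk1 : k = 0 ∨ k = 1 := by omega
  rcases hk1 with rfl | rfl
  · exfalso
    exact hn (eq_smul_of_finrank hc (by rw [hV]; omega))
  · omega

end

end Cfsg.Agent.Lib.XR
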