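import Cfsg.Agent.Lib.UniPair2
import Cfsg.Agent.S5999

/-! # The index of the stabilizer of a polar pair in the unitary group -/

set_option autoImplicit false

namespace Cfsg.Agent.Lib.UniPair

open Cfsg.Agent.Lib.InvSub Cfsg.Agent.Lib.PrimeOrd Cfsg.Agent.Lib.Sesq Module Matrix
open Cfsg.Agent.Lib.ClUnitary (frob)
open Cfsg.Agent.Lib.UnitStar (st)
open scoped MatrixGroups

section concrete

variable {F : Type*} [Field F] [Fintype F] {q n m : ℕ}

theorem card_GUSL_mul (hF : Fintype.card F = q ^ 2) (hn : 1 ≤ n) :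
    (q + 1) * Nat.card ↥(Cfsg.GU n F q ⊓ Cfsg.Geo.specialLinear (Fin n) F) = Nat.card (Cfsg.GU n F q) := by
  rw [S5999.card_GUSL]
  exact ClUnitary.card_SU_mul hF hn

/-- the map whose kernel gives determinant one -/
noncomputable def dl (F : Type*) [Field F] (q m : ℕ) : GL (Fin m) F →* Fˣ where
  toFun A := Matrix.GeneralLinearGroup.det A / (Matrix.GeneralLinearGroup.det A) ^ q
  map_one' := by simp
  map_mul' A B := by rw [map_mul, mul_pow, mul_div_mul_comm]

theorem card_range_dl (hF : Fintype.card F = q ^ 2) : Nat.card (dl F q m).range ∣ q + 1 := by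
  have h1 : (dl F q m).range ≤ (powMonoidHom (q + 1) : Fˣ →* Fˣ).ker := by
    rintro _ ⟨A, rfl⟩
    rw [MonoidHom.mem_ker, powMonoidHom_apply]
    show (Matrix.GeneralLinearGroup.det A / (Matrix.GeneralLinearGroup.det A) ^ q) ^ (q + 1) = 1
    set a := Matrix.GeneralLinearGroup.det A
    have ha : a ^ (q * q) = a := by
      have := FiniteField.pow_card a.1
      rw [hF, pow_two] at this
      exact Units.ext (by rw [Units.val_pow_eq_pow_val]; exact this)
    rw [div_pow, ← pow_mul, mul_add, pow_add, pow_add, ha, mul_one, pow_one, mul_comm (a ^ q), div_self']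
  have h2 : Nat.card (powMonoidHom (q + 1) : Fˣ →* Fˣ).ker = q + 1 := ClUnitary.card_norm_one_units hF
  have h3 := Subgroup.card_dvd_of_le h1
  rwa [h2] at h3

theorem index_dvd (hF : Fintype.card F = q ^ 2) (hn : 1 ≤ n) {E : Matrix (Fin n) (Fin m ⊕ Fin m) F} {E' : Matrix (Fin m ⊕ Fin m) (Fin n) F}
    (h1 : E * E' = 1) (h2 : E' * E = 1) (hg : cs hF E * E = J F m) {D : Fin 2 → Submodule F (Fin n → F)}
    (d0 : ∀ v, v ∈ D 0 ↔ ∃ u, v = E.mulVec (Sum.elim u 0)) (d1 : ∀ v, v ∈ D 1 ↔ ∃ u, v = E.mulVec (Sum.elim 0 u)) {r : ℕ}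
    (hr : r ∣ (Cfsg.Geo.decompositionStabilizer D).relIndex (Cfsg.GU n F q ⊓ Cfsg.Geo.specialLinear (Fin n) F)) :
    r * Nat.card (GL (Fin m) F) ∣ Nat.card (Cfsg.GU n F q) := by
  set H := Cfsg.Geo.decompositionStabilizer D
  set S := Cfsg.GU n F q ⊓ Cfsg.Geo.specialLinear (Fin n) F with hS
  let K := (dl F q m).ker.map (yG hF h1 h2)
  have hKH : K ≤ H := by
    rintro _ ⟨A, -, rfl⟩
    exact yG_stab hF h1 h2 d0 d1 A
  have hKS : K ≤ S := by
    rintro _ ⟨A, hA, rfl⟩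
    refine ⟨yG_mem hF h1 h2 hg A, (Cfsg.Agent.Lib.NormTool.mem_SL_iff).2 ?_⟩
    rw [yG_det]
    have hA' : Matrix.GeneralLinearGroup.det A / (Matrix.GeneralLinearGroup.det A) ^ q = 1 := hA
    rw [div_eq_one] at hA'
    have h3 : A.1.det = A.1.det ^ q := congrArg Units.val hA'
    have h4 : A.1.det * (A⁻¹).1.det = 1 := by
      rw [← Matrix.det_mul, ← Units.val_mul, mul_inv_cancel]
      exact Matrix.det_one
    calc A.1.det * (A⁻¹).1.det ^ q = A.1.det ^ q * (A⁻¹).1.det ^ q := by rw [← h3]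
      _ = 1 := by rw [← mul_pow, h4, one_pow]
  have e1 : H.relIndex S ∣ K.relIndex S := by
    rw [← Subgroup.inf_relIndex_right H S, ← Subgroup.relIndex_mul_relIndex K (H ⊓ S) S (le_inf hKH hKS) inf_le_right]
    exact Dvd.intro_left _ rfl
  have e2 : Nat.card K * K.relIndex S = Nat.card S := by
    rw [← Subgroup.relIndex_bot_left K, ← Subgroup.relIndex_bot_left S]
    exact Subgroup.relIndex_mul_relIndex ⊥ K S bot_le hKS
  have e3 : Nat.card K = Nat.card (dl F q m).ker := Nat.card_congr ((dl F q m).ker.equivMapOfInjective _ (yG_inj hF h1 h2)).symm.toEquiv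
  have e4 : Nat.card (dl F q m).ker * Nat.card (dl F q m).range = Nat.card (GL (Fin m) F) := by
    rw [← Subgroup.index_ker]; exact Subgroup.card_mul_index _
  have e5 := card_GUSL_mul (n := n) hF hn
  rw [← hS] at e5
  obtain ⟨k, hk⟩ := card_range_dl (m := m) hF
  obtain ⟨l, hl⟩ := hr.trans e1
  rw [← e5, ← e2, e3, hk, ← e4, hl]
  exact ⟨k * l, by ring⟩

theorem exists_factor (hF : Fintype.card F = q ^ 2) {p : ℕ} [hp : Fact p.Prime] [CharP F p] {r : ℕ} [hr : Fact r.Prime] (hrp : r ≠ p)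
    (h : r * Nat.card (GL (Fin m) F) ∣ Nat.card (Cfsg.GU (m + m) F q)) : ∃ k < m, r ∣ q ^ (2 * k + 1) + 1 := by
  have hq : 1 < q := InvolUnitMat.one_lt_q hF
  rw [ClUnitary.card_GU hF, Matrix.card_GL_field, hF] at h
  have h1 : ∏ i : Fin m, ((q ^ 2) ^ m - (q ^ 2) ^ i.val) = (∏ i ∈ Finset.range m, (q ^ 2) ^ i) * ∏ i ∈ Finset.range m, ((q ^ 2) ^ (i + 1) - 1) := by
    rw [Fin.prod_univ_eq_prod_range (fun i => (q ^ 2) ^ m - (q ^ 2) ^ i) m]
    rw [← Finset.prod_range_reflect (fun i => (q ^ 2) ^ (i + 1) - 1), ← Finset.prod_mul_distrib]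
    apply Finset.prod_congr rfl
    intro i hi
    rw [Finset.mem_range] at hi
    rw [Nat.mul_sub, mul_one, ← pow_add]
    congr 2
    omega
  have h2 : ∏ i ∈ Finset.range (m + m), (if Even i then q ^ (i + 1) + 1 else q ^ (i + 1) - 1) =
      (∏ i ∈ Finset.range m, (q ^ (2 * i + 1) + 1)) * ∏ i ∈ Finset.range m, ((q ^ 2) ^ (i + 1) - 1) := by
    clear h h1
    induction m with
    | zero => simp
    | succ m ih =>
      have e1 : m + 1 + (m + 1) = m + m + 1 + 1 := by omega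
      rw [e1, Finset.prod_range_succ, Finset.prod_range_succ, ih, Finset.prod_range_succ, Finset.prod_range_succ, if_pos ⟨m, rfl⟩, if_neg (by
        rw [Nat.even_add_one]; exact fun h => h ⟨m, rfl⟩)]
      have e2 : q ^ (m + m + 1 + 1) = (q ^ 2) ^ (m + 1) := by rw [← pow_mul]; congr 1; ring
      have e3 : q ^ (m + m + 1) = q ^ (2 * m + 1) := by congr 1; ring
      rw [e2, e3]; ring
  rw [h1, h2] at h
  set P := ∏ i ∈ Finset.range m, ((q ^ 2) ^ (i + 1) - 1) with hP
  set R := ∏ i ∈ Finset.range m, (q ^ (2 * i + 1) + 1) with hR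
  have hPpos : 0 < P := by
    apply Finset.prod_pos
    intro i _
    have : 1 < (q ^ 2) ^ (i + 1) := Nat.one_lt_pow (by omega) (Nat.one_lt_pow (by norm_num) hq)
    omega
  have h3 : r * P ∣ (q ^ ((m + m) * (m + m - 1) / 2) * R) * P := by
    refine Dvd.dvd.trans ?_ (h.trans (dvd_of_eq (by ring)))
    exact ⟨∏ i ∈ Finset.range m, (q ^ 2) ^ i, by ring⟩
  have h4 := Nat.dvd_of_mul_dvd_mul_right hPpos h3
  have hrq : ¬ r ∣ q := by
    intro hd
    obtain ⟨k, hk, hc⟩ := FiniteField.card F p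
    rw [hF] at hc
    have : r ∣ p ^ (k : ℕ) := by rw [← hc]; exact hd.trans (dvd_pow_self q (by norm_num))
    exact hrp ((Nat.prime_dvd_prime_iff_eq hr.out hp.out).mp (hr.out.dvd_of_dvd_pow this))
  rcases (Nat.Prime.dvd_mul hr.out).mp h4 with h5 | h5
  · exact absurd (hr.out.dvd_of_dvd_pow h5) hrq
  · obtain ⟨j, hj, h6⟩ := (Prime.dvd_finsetProd_iff hr.out.prime _).mp h5
    exact ⟨j, Finset.mem_range.mp hj, h6⟩

end concrete

end Cfsg.Agent.Lib.UniPair
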