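import Cfsg.Agent.Lib.XSym3
import Cfsg.Agent.Lib.UniPair3
import Cfsg.Agent.Lib.UnSpec
import Cfsg.Agent.Lib.XR7

/-! # Similarities of unitary forms -/

set_option autoImplicit false

namespace Cfsg.Agent.Lib.UnForm

open Cfsg.Agent.Lib.InvSub Cfsg.Agent.Lib.PrimeOrd Cfsg.Agent.Lib.Sesq Module Matrix Cfsg.Agent.Lib.UniPair
open Cfsg.Agent.Lib.ClUnitary (frob)
open Cfsg.Agent.Lib.UnitStar (st)
open Cfsg.Agent.Lib.NormTool (mem_SL_iff)
open scoped MatrixGroups

section abstract_part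

variable {F V : Type*} [Field F] [AddCommGroup V] [Module F V] [FiniteDimensional F V] {σ : F →+* F} {B : V →ₗ[F] V →ₛₗ[σ] F}

/-- similarities pair the eigenspaces -/
theorem sim_le [Finite F] (hnd : ND B ⊤) {T : Module.End F V} {c : F} (hT : ∀ u v, B (T u) (T v) = c * B u v) {a b : F} (hab : a * σ b = c)
    (hb : σ b ≠ 0) : finrank F (E T b) ≤ finrank F (E T a) := by
  set S : Module.End F V := T - a • 1 with hS
  have hSa : ∀ v, S v = T v - a • v := fun v => rfl
  have hker : LinearMap.ker S = E T a := by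
    ext v
    rw [LinearMap.mem_ker, hSa, sub_eq_zero, Module.End.mem_eigenspace_iff]
  have hle : E T b ≤ perp B (LinearMap.range S) := by
    intro v hv
    rintro _ ⟨u, rfl⟩
    have h1 := Module.End.mem_eigenspace_iff.1 hv
    have h2 := hT u v
    rw [h1, LinearMap.map_smulₛₗ, smul_eq_mul, ← hab] at h2
    have h3 : B (T u) v = a * B u v := by
      apply mul_left_cancel₀ hb
      rw [h2]; ring
    rw [hSa, map_sub, LinearMap.sub_apply, map_smul, LinearMap.smul_apply, smul_eq_mul, h3, sub_self]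
  have h1 := Submodule.finrank_mono hle
  have h2 := finrank_add_perp hnd (LinearMap.range S)
  have h3 := LinearMap.finrank_range_add_finrank_ker S
  rw [hker] at h3
  omega

end abstract_part

section concrete

variable {F : Type*} [Field F] [Fintype F] {q n : ℕ}

/-- unitary forms are equivalent to the standard one -/
theorem exists_P (hF : Fintype.card F = q ^ 2) {f : (Fin n → F) → (Fin n → F) → F} (hf : Cfsg.Geo.IsUnitaryFormPow q f) :
    ∃ P : GL (Fin n) F, ∀ u v, Cfsg.hermForm n F q (P.1 *ᵥ u) (P.1 *ᵥ v) = f u v := by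
  have hh : Cfsg.Agent.Lib.HermAlg.IsHerm (frob hF) 1 f :=
    { add_left := hf.add_left
      smul_left := hf.smul_left
      symm := fun x y => by rw [one_mul]; exact hf.herm y x
      nondeg := fun x hx => by
        by_contra hne
        obtain ⟨y, hy⟩ := (hf.nondegenerate x hne).2
        exact hy (hx y) }
  obtain ⟨e, he⟩ := UnSpec.exists_standard hF n hh (Module.finrank_fin_fun F)
  refine ⟨⟨LinearMap.toMatrix' e.toLinearMap, LinearMap.toMatrix' e.symm.toLinearMap,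
    by rw [← LinearMap.toMatrix'_comp, LinearEquiv.comp_coe, LinearEquiv.symm_trans_self]; exact LinearMap.toMatrix'_id,
    by rw [← LinearMap.toMatrix'_comp, LinearEquiv.comp_coe, LinearEquiv.self_trans_symm]; exact LinearMap.toMatrix'_id⟩, ?_⟩
  intro u v
  have h1 : ∀ w, LinearMap.toMatrix' e.toLinearMap *ᵥ w = e w := by
    intro w
    rw [← Matrix.toLin'_apply, Matrix.toLin'_toMatrix']; rfl
  show Cfsg.hermForm n F q (LinearMap.toMatrix' e.toLinearMap *ᵥ u) (LinearMap.toMatrix' e.toLinearMap *ᵥ v) = f u v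
  rw [h1, h1, he]

omit [Fintype F] in
theorem sim_conj {f h : (Fin n → F) → (Fin n → F) → F} {P : GL (Fin n) F} (hP : ∀ u v, h (P.1 *ᵥ u) (P.1 *ᵥ v) = f u v) {g : GL (Fin n) F} :
    g ∈ Cfsg.Geo.similarityGroup f ↔ P * g * P⁻¹ ∈ Cfsg.Geo.similarityGroup h := by
  have hinv : ∀ w, P.1 *ᵥ ((P⁻¹).1 *ᵥ w) = w := by
    intro w
    rw [Matrix.mulVec_mulVec, ← Units.val_mul, mul_inv_cancel, Units.val_one, Matrix.one_mulVec]
  have hinv' : ∀ w, (P⁻¹).1 *ᵥ (P.1 *ᵥ w) = w := by
    intro w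
    rw [Matrix.mulVec_mulVec, ← Units.val_mul, inv_mul_cancel, Units.val_one, Matrix.one_mulVec]
  constructor
  · rintro ⟨c, hc⟩
    refine ⟨c, fun u v => ?_⟩
    rw [Units.val_mul, Units.val_mul, ← Matrix.mulVec_mulVec, ← Matrix.mulVec_mulVec, ← Matrix.mulVec_mulVec, ← Matrix.mulVec_mulVec, hP, hc, ← hP, hinv, hinv]
  · rintro ⟨c, hc⟩
    refine ⟨c, fun u v => ?_⟩
    have h1 := hc (P.1 *ᵥ u) (P.1 *ᵥ v)
    rw [Units.val_mul, Units.val_mul, ← Matrix.mulVec_mulVec, ← Matrix.mulVec_mulVec, ← Matrix.mulVec_mulVec, ← Matrix.mulVec_mulVec, hinv', hinv', hP, hP] at h1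
    exact h1

/-- the multiplier of a similarity of the standard form -/
theorem mult_fixed (hF : Fintype.card F = q ^ 2) (hn : 0 < n) {y : GL (Fin n) F} {c : Fˣ}
    (hc : ∀ u v, Cfsg.hermForm n F q (y.1 *ᵥ u) (y.1 *ᵥ v) = (c : F) * Cfsg.hermForm n F q u v) : (c : F) ^ q = c := by
  have hq := InvolUnitMat.one_lt_q hF
  let u : Fin n → F := Pi.single ⟨0, hn⟩ 1
  have h1 : Cfsg.hermForm n F q u u = 1 := by
    rw [HermMat.hermForm_single_left]
    simp [u]
  have h2 := hc u u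
  rw [h1, mul_one] at h2
  have h3 := hf_herm hF (y.1 *ᵥ u) (y.1 *ᵥ u)
  have h4 : HF hF n (y.1 *ᵥ u) (y.1 *ᵥ u) = c := h2
  rw [h4] at h3
  exact h3.symm

theorem sim_dim (hF : Fintype.card F = q ^ 2) {y : GL (Fin n) F} {c : Fˣ} (hcq : (c : F) ^ q = c)
    (hc : ∀ u v, Cfsg.hermForm n F q (y.1 *ᵥ u) (y.1 *ᵥ v) = (c : F) * Cfsg.hermForm n F q u v) {a b : F} (hab : a * b ^ q = c) :
    finrank F (E (Matrix.toLin' y.1) a) = finrank F (E (Matrix.toLin' y.1) b) := by
  have hq := InvolUnitMat.one_lt_q hF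
  have hT : ∀ u v, HF hF n (Matrix.toLin' y.1 u) (Matrix.toLin' y.1 v) = (c : F) * HF hF n u v := hc
  have ha0 : a ≠ 0 := by rintro rfl; rw [zero_mul] at hab; exact c.ne_zero hab.symm
  have hb0 : b ^ q ≠ 0 := by intro h; rw [h, mul_zero] at hab; exact c.ne_zero hab.symm
  apply le_antisymm
  · refine sim_le (hf_nd hF) hT (a := b) (b := a) ?_ ?_
    · have h1 := congrArg (frob hF) hab
      rw [map_mul] at h1
      have h2 : frob hF (b ^ q) = b := ClUnitary.frob_frob hF b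
      have h3 : frob hF (c : F) = c := hcq
      rw [h2, h3] at h1
      rw [mul_comm]; exact h1
    · exact pow_ne_zero q ha0
  · exact sim_le (hf_nd hF) hT (a := a) (b := b) hab hb0

/-- the index -/
theorem index_factor (hF : Fintype.card F = q ^ 2) (hn : 1 ≤ n) {f : (Fin n → F) → (Fin n → F) → F} (hf : Cfsg.Geo.IsUnitaryFormPow q f)
    {p : ℕ} [hp : Fact p.Prime] [CharP F p] {r : ℕ} [hr : Fact r.Prime] (hrp : r ≠ p)
    (hd : r ∣ (Cfsg.Geo.similarityGroup f).relIndex (Cfsg.Geo.specialLinear (Fin n) F)) :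
    ∃ i, 1 ≤ i ∧ i < n ∧ r ∣ (if Even i then q ^ (i + 1) - 1 else q ^ (i + 1) + 1) := by
  classical
  have hq : 1 < q := InvolUnitMat.one_lt_q hF
  obtain ⟨P, hP⟩ := exists_P hF hf
  set H := Cfsg.Geo.similarityGroup f
  set S := Cfsg.Geo.specialLinear (Fin n) F with hS
  let K := (Cfsg.GU n F q ⊓ S).map (MulAut.conj P⁻¹).toMonoidHom
  have hKH : K ≤ H := by
    rintro _ ⟨y, hy, rfl⟩
    rw [sim_conj hP]
    refine ⟨1, fun u v => ?_⟩
    have : P * (MulAut.conj P⁻¹).toMonoidHom y * P⁻¹ = y := by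
      show P * (P⁻¹ * y * P⁻¹⁻¹) * P⁻¹ = y
      group
    rw [this, Units.val_one, one_mul]
    exact hy.1 u v
  have hKS : K ≤ S := by
    rintro _ ⟨y, hy, rfl⟩
    have hy2 := mem_SL_iff.1 hy.2
    refine mem_SL_iff.2 ?_
    show (P⁻¹ * y * P⁻¹⁻¹).1.det = 1
    rw [inv_inv, Units.val_mul, Units.val_mul, Matrix.det_mul, Matrix.det_mul, hy2, mul_one, ← Matrix.det_mul, ← Units.val_mul, inv_mul_cancel]
    exact Matrix.det_one
  have e1 : H.relIndex S ∣ K.relIndex S := by
    rw [← Subgroup.inf_relIndex_right H S, ← Subgroup.relIndex_mul_relIndex K (H ⊓ S) S (le_inf hKH hKS) inf_le_right]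
    exact Dvd.intro_left _ rfl
  have e2 : Nat.card K * K.relIndex S = Nat.card S := by
    rw [← Subgroup.relIndex_bot_left K, ← Subgroup.relIndex_bot_left S]
    exact Subgroup.relIndex_mul_relIndex ⊥ K S bot_le hKS
  have e3 : Nat.card K = Nat.card ↥(Cfsg.GU n F q ⊓ S) :=
    Nat.card_congr ((Cfsg.GU n F q ⊓ S).equivMapOfInjective _ (MulAut.conj P⁻¹).injective).symm.toEquiv
  have e4 := card_GUSL_mul (n := n) hF hn
  rw [← hS, ← e3] at e4
  have e5 : Nat.card S * (Fintype.card F - 1) = Nat.card (GL (Fin n) F) := by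
    have h1 : S = (Matrix.GeneralLinearGroup.det (n := Fin n) (R := F)).ker := rfl
    have h2 := Subgroup.card_mul_index (Matrix.GeneralLinearGroup.det (n := Fin n) (R := F)).ker
    rw [Subgroup.index_ker] at h2
    have h3 : (Matrix.GeneralLinearGroup.det (n := Fin n) (R := F)).range = ⊤ := by
      rw [MonoidHom.range_eq_top]
      intro a
      have hdet : (Matrix.diagonal (Function.update (fun _ : Fin n => (1 : F)) ⟨0, by omega⟩ (a : F))).det = a := by
        rw [Matrix.det_diagonal, Finset.prod_update_of_mem (Finset.mem_univ _)]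
        simp
      refine ⟨Matrix.GeneralLinearGroup.mkOfDetNeZero (Matrix.diagonal (Function.update (fun _ : Fin n => (1 : F)) ⟨0, by omega⟩ (a : F))) (by
        rw [hdet]; exact a.ne_zero), ?_⟩
      ext
      exact hdet
    have h4 : Nat.card (⊤ : Subgroup Fˣ) = Fintype.card F - 1 := by
      rw [Subgroup.card_top, Nat.card_units, Nat.card_eq_fintype_card]
    rw [h3, h4, ← h1] at h2
    exact h2
  obtain ⟨l, hl⟩ := hd.trans e1
  have hmain : r * (q - 1) * Nat.card (Cfsg.GU n F q) ∣ Nat.card (GL (Fin n) F) := by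
    rw [← e5, ← e2, hl, ← e4, hF, ClUnitary.sq_sub_one]
    exact ⟨l, by ring⟩
  rw [ClUnitary.card_GU hF, Matrix.card_GL_field, hF] at hmain
  have h1 : ∏ i : Fin n, ((q ^ 2) ^ n - (q ^ 2) ^ i.val) = (∏ i ∈ Finset.range n, (q ^ 2) ^ i) * ∏ i ∈ Finset.range n, ((q ^ 2) ^ (i + 1) - 1) := by
    rw [Fin.prod_univ_eq_prod_range (fun i => (q ^ 2) ^ n - (q ^ 2) ^ i) n]
    rw [← Finset.prod_range_reflect (fun i => (q ^ 2) ^ (i + 1) - 1), ← Finset.prod_mul_distrib]
    apply Finset.prod_congr rfl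
    intro i hi
    rw [Finset.mem_range] at hi
    rw [Nat.mul_sub, mul_one, ← pow_add]
    congr 2
    omega
  have h2 : ∏ i ∈ Finset.range n, ((q ^ 2) ^ (i + 1) - 1) = (∏ i ∈ Finset.range n, (if Even i then q ^ (i + 1) + 1 else q ^ (i + 1) - 1)) *
      ∏ i ∈ Finset.range n, (if Even i then q ^ (i + 1) - 1 else q ^ (i + 1) + 1) := by
    rw [← Finset.prod_mul_distrib]
    apply Finset.prod_congr rfl
    intro i _
    have : (q ^ 2) ^ (i + 1) - 1 = (q ^ (i + 1) + 1) * (q ^ (i + 1) - 1) := by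
      rw [← pow_mul, mul_comm 2, pow_mul, ← Nat.sq_sub_sq, one_pow]
    rw [this]
    split_ifs
    · rfl
    · rw [mul_comm]
  rw [h1, h2] at hmain
  set A := ∏ i ∈ Finset.range n, (if Even i then q ^ (i + 1) + 1 else q ^ (i + 1) - 1) with hA
  have hApos : 0 < A := by
    apply Finset.prod_pos
    intro i _
    have : 1 < q ^ (i + 1) := Nat.one_lt_pow (by omega) hq
    split_ifs <;> omega
  obtain ⟨m, rfl⟩ : ∃ m, n = m + 1 := ⟨n - 1, by omega⟩
  rw [Finset.prod_range_succ' (fun i => if Even i then q ^ (i + 1) - 1 else q ^ (i + 1) + 1)] at hmain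
  rw [if_pos (by decide : Even 0), zero_add, pow_one] at hmain
  set R := ∏ i ∈ Finset.range m, (if Even (i + 1) then q ^ (i + 1 + 1) - 1 else q ^ (i + 1 + 1) + 1) with hR
  set Q := ∏ i ∈ Finset.range (m + 1), (q ^ 2) ^ i with hQ
  have h3 : r * ((q - 1) * A) ∣ (Q * R) * ((q - 1) * A) := by
    refine Dvd.dvd.trans ?_ (hmain.trans (dvd_of_eq (by ring)))
    exact ⟨q ^ ((m + 1) * (m + 1 - 1) / 2), by ring⟩
  have h4 := Nat.dvd_of_mul_dvd_mul_right (Nat.mul_pos (by omega) hApos) h3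
  have hrq : ¬ r ∣ q := by
    intro hd
    obtain ⟨k, hk, hc⟩ := FiniteField.card F p
    rw [hF] at hc
    have : r ∣ p ^ (k : ℕ) := by rw [← hc]; exact hd.trans (dvd_pow_self q (by norm_num))
    exact hrp ((Nat.prime_dvd_prime_iff_eq hr.out hp.out).mp (hr.out.dvd_of_dvd_pow this))
  rcases (Nat.Prime.dvd_mul hr.out).mp h4 with h5 | h5
  · exfalso
    obtain ⟨j, hj, h6⟩ := (Prime.dvd_finsetProd_iff hr.out.prime _).mp h5
    exact hrq (hr.out.dvd_of_dvd_pow (hr.out.dvd_of_dvd_pow h6))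
  · obtain ⟨j, hj, h6⟩ := (Prime.dvd_finsetProd_iff hr.out.prime _).mp h5
    exact ⟨j + 1, by omega, by have := Finset.mem_range.1 hj; omega, h6⟩

end concrete

end Cfsg.Agent.Lib.UnForm
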