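import Mathlib
import Cfsg.Agent.Lib.ClUnitary
import Cfsg.Agent.Lib.LineCount

/-!
# Totally isotropic lines of unitary spaces (helper14)
-/

set_option autoImplicit false

namespace Cfsg.Agent.Lib.UnLines

open Cfsg Cfsg.Agent.Lib.HermMat Cfsg.Agent.Lib.ClUnitary Cfsg.Agent.Lib.LineCount Module

variable {F : Type*} [Field F] [Fintype F] {q n : ℕ}

theorem card_fixed (hF : Fintype.card F = q ^ 2) : Nat.card {c : F // c ^ q = c} = q := by
  classical
  have h2 := two_le_q hF
  have h1 := card_fixed_ne_zero hF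
  have h3 : Nat.card {c : F // c ^ q = c} = (Finset.univ.filter (fun c : F => c ^ q = c)).card := by
    rw [Nat.card_eq_fintype_card, Fintype.card_subtype]
  have h4 : (Finset.univ.filter (fun c : F => c ^ q = c)) = insert 0 (Finset.univ.filter (fun c : F => c ≠ 0 ∧ c ^ q = c)) := by
    ext c
    simp only [Finset.mem_filter, Finset.mem_univ, true_and, Finset.mem_insert]
    constructor
    · intro h
      by_cases hc : c = 0
      · left; exact hc
      · right; exact ⟨hc, h⟩
    · rintro (rfl | h)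
      · exact zero_pow (by omega)
      · exact h.2
  rw [h3, h4, Finset.card_insert_of_notMem (by simp), h1]
  omega

/-- the trace to the fixed field -/
noncomputable def trH (hF : Fintype.card F = q ^ 2) : F →+ F where
  toFun a := a + a ^ q
  map_zero' := by
    have h2 := two_le_q hF
    rw [zero_pow (by omega), add_zero]
  map_add' a b := by rw [add_pow_q hF]; ring

theorem card_trace_fiber (hF : Fintype.card F = q ^ 2) {t : F} (ht : t ^ q = t) :
    Nat.card {a : F // a + a ^ q = t} = q := by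
  have h2 := two_le_q hF
  have hr : Nat.card (trH hF).range = q := by
    refine Eq.trans ?_ (card_fixed hF)
    refine Nat.card_congr (Equiv.subtypeEquivRight fun c => ?_)
    constructor
    · rintro ⟨a, rfl⟩
      change (a + a ^ q) ^ q = a + a ^ q
      rw [add_pow_q hF, pow_q_pow_q hF, add_comm]
    · intro h
      obtain ⟨a, ha⟩ := exists_trace hF h
      exact ⟨a, ha⟩
  have hk : Nat.card (trH hF).ker = q := by
    have h3 := AddSubgroup.card_mul_index (trH hF).ker
    rw [AddSubgroup.index_ker, hr, Nat.card_eq_fintype_card (α := F), hF, sq] at h3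
    exact Nat.eq_of_mul_eq_mul_right (by omega) h3
  obtain ⟨a, ha⟩ := exists_trace hF ht
  conv_rhs => rw [← hk]
  refine Nat.card_congr ⟨fun b => ⟨b.1 - a, ?_⟩, fun b => ⟨b.1 + a, ?_⟩, ?_, ?_⟩
  · rw [AddMonoidHom.mem_ker, map_sub]
    change b.1 + b.1 ^ q - (a + a ^ q) = 0
    rw [b.2, ha, sub_self]
  · have h3 : b.1 + b.1 ^ q = 0 := (AddMonoidHom.mem_ker).mp b.2
    rw [add_pow_q hF]
    linear_combination h3 + ha
  · rintro ⟨b, hb⟩; apply Subtype.ext; simp
  · rintro ⟨b, hb⟩; apply Subtype.ext; simp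

theorem herm_zero_swap (hF : Fintype.card F = q ^ 2) {u v : Fin n → F} (h : hermForm n F q u v = 0) :
    hermForm n F q v u = 0 := by
  have h2 := two_le_q hF
  rw [← hermForm_swap hF, h, zero_pow (by omega)]

/-- hyperplanes -/
theorem card_hyp (hF : Fintype.card F = q ^ 2) {u : Fin (n + 1) → F} (hu : u ≠ 0) (c : F) :
    Nat.card {v : Fin (n + 1) → F // hermForm (n + 1) F q v u = c} = q ^ (2 * n) := by
  let f : (Fin (n + 1) → F) →ₗ[F] F := HB hF (n + 1) u
  have hf : ∀ v, f v = hermForm (n + 1) F q v u := fun v => rfl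
  have hsurj : Function.Surjective f := by
    apply LinearMap.surjective
    intro h
    obtain ⟨x, hx⟩ := exists_ne_zero hF hu
    apply hx
    have h3 : f x = 0 := by rw [h]; rfl
    exact h3
  have hker : Nat.card (LinearMap.ker f) = q ^ (2 * n) := by
    have h3 := LinearMap.finrank_range_add_finrank_ker f
    rw [LinearMap.range_eq_top.mpr hsurj, finrank_top, finrank_self, finrank_pi, Fintype.card_fin] at h3
    have h4 : finrank F (LinearMap.ker f) = n := by omega
    rw [card_submodule, h4, hF, ← pow_mul]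
  obtain ⟨v0, hv0⟩ := hsurj c
  rw [← hker]
  refine Nat.card_congr ⟨fun v => ⟨v.1 - v0, ?_⟩, fun v => ⟨v.1 + v0, ?_⟩, ?_, ?_⟩
  · rw [LinearMap.mem_ker, map_sub, hv0, hf, v.2, sub_self]
  · rw [← hf, map_add, hv0, LinearMap.mem_ker.mp v.2, zero_add]
  · rintro ⟨b, hb⟩; apply Subtype.ext; simp
  · rintro ⟨b, hb⟩; apply Subtype.ext; simp

/-- isotropic vectors not orthogonal to a given isotropic vector -/
theorem card_nonperp (hF : Fintype.card F = q ^ 2) {u : Fin (n + 1) → F} (hu : u ≠ 0)
    (huu : hermForm (n + 1) F q u u = 0) {c : F} (hc : c ≠ 0) :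
    q ^ 2 * Nat.card {v : Fin (n + 1) → F // hermForm (n + 1) F q v u = c ∧ hermForm (n + 1) F q v v = 0} =
      q * q ^ (2 * n) := by
  have hq := two_le_q hF
  let A := {p : (Fin (n + 1) → F) × F // hermForm (n + 1) F q p.1 u = c ∧
    hermForm (n + 1) F q (p.1 + p.2 • u) (p.1 + p.2 • u) = 0}
  have h1 : Nat.card A = q * q ^ (2 * n) := by
    rw [← card_hyp hF hu c]
    apply card_fib (fun a : A => (⟨a.1.1, a.2.1⟩ : {v : Fin (n + 1) → F // hermForm (n + 1) F q v u = c}))
    rintro ⟨v, hv⟩
    have hvv : (-hermForm (n + 1) F q v v) ^ q = -hermForm (n + 1) F q v v := by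
      rw [neg_pow_q hF, hermForm_swap hF]
    refine Eq.trans ?_ (card_trace_fiber hF hvv)
    have key : ∀ a : F, hermForm (n + 1) F q (v + a • u) (v + a • u) = 0 ↔
        (a * c ^ q) + (a * c ^ q) ^ q = -hermForm (n + 1) F q v v := by
      intro a
      have huv : hermForm (n + 1) F q u v = c ^ q := by rw [← hermForm_swap hF, hv]
      rw [hermForm_add_left, hermForm_add_right hF, hermForm_add_right hF, hermForm_smul_left, hermForm_smul_left,
        hermForm_smul_right, hermForm_smul_right, huu, hv, huv, mul_pow, pow_q_pow_q hF]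
      constructor
      · intro h; linear_combination h
      · intro h; linear_combination h
    have hcq : c ^ q ≠ 0 := pow_ne_zero _ hc
    refine Nat.card_congr ⟨fun a => ⟨a.1.1.2 * c ^ q, ?_⟩, fun b => ⟨⟨(v, b.1 / c ^ q), hv, ?_⟩, rfl⟩, ?_, ?_⟩
    · have h3 : a.1.1.1 = v := congrArg Subtype.val a.2
      have h4 := (key a.1.1.2).mp (by
        have h5 := a.1.2.2
        exact (congrArg (fun z => hermForm (n + 1) F q (z + a.1.1.2 • u) (z + a.1.1.2 • u) = 0) h3).mp h5)
      exact h4
    · rw [key, div_mul_cancel₀ _ hcq]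
      exact b.2
    · rintro ⟨⟨⟨x, a⟩, h⟩, hx⟩
      have h3 : x = v := congrArg Subtype.val hx
      subst h3
      apply Subtype.ext
      apply Subtype.ext
      simp [hc]
    · rintro ⟨b, hb⟩
      apply Subtype.ext
      exact div_mul_cancel₀ _ hcq
  have h2 : Nat.card A = q ^ 2 * Nat.card {v : Fin (n + 1) → F // hermForm (n + 1) F q v u = c ∧ hermForm (n + 1) F q v v = 0} := by
    have e : A ≃ {v : Fin (n + 1) → F // hermForm (n + 1) F q v u = c ∧ hermForm (n + 1) F q v v = 0} × F :=
      { toFun := fun a => (⟨a.1.1 + a.1.2 • u, by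
          rw [hermForm_add_left, hermForm_smul_left, huu, mul_zero, add_zero]; exact a.2.1, a.2.2⟩, a.1.2)
        invFun := fun p => ⟨(p.1.1 - p.2 • u, p.2), by
          rw [hermForm_sub_left, hermForm_smul_left, huu, mul_zero, sub_zero]; exact p.1.2.1, by
          rw [sub_add_cancel]; exact p.1.2.2⟩
        left_inv := by rintro ⟨⟨x, a⟩, h⟩; apply Subtype.ext; simp
        right_inv := by rintro ⟨⟨x, a⟩, h⟩; simp }
    rw [Nat.card_congr e, Nat.card_prod, Nat.card_eq_fintype_card (α := F), hF, mul_comm]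
  rw [← h2, h1]

/-- isotropic vectors orthogonal to a given isotropic vector -/
theorem card_perp (hF : Fintype.card F = q ^ 2) {u : Fin (n + 1) → F} (hu : u ≠ 0)
    (huu : hermForm (n + 1) F q u u = 0) :
    q ^ 2 * Nat.card {v : Fin (n + 1) → F // hermForm (n + 1) F q v u = 0 ∧ hermForm (n + 1) F q v v = 0} +
      (q ^ 2 - 1) * (q * q ^ (2 * n)) = q ^ 2 * N F q (n + 1) 0 := by
  classical
  let g : {v : Fin (n + 1) → F // hermForm (n + 1) F q v v = 0} → F := fun v => hermForm (n + 1) F q v.1 u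
  have h1 : N F q (n + 1) 0 = ∑ c : F, Nat.card {v // g v = c} := by
    rw [N, Nat.card_congr (Equiv.sigmaFiberEquiv g).symm, Nat.card_sigma]
  have h2 : ∀ c : F, Nat.card {v // g v = c} = Nat.card {v : Fin (n + 1) → F // hermForm (n + 1) F q v u = c ∧ hermForm (n + 1) F q v v = 0} := by
    intro c
    exact Nat.card_congr ⟨fun v => ⟨v.1.1, v.2, v.1.2⟩, fun v => ⟨⟨v.1, v.2.2⟩, v.2.1⟩, fun _ => rfl, fun _ => rfl⟩
  rw [h1, Finset.sum_congr rfl (fun c _ => h2 c), Finset.mul_sum, ← Finset.add_sum_erase _ _ (Finset.mem_univ (0 : F))]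
  congr 1
  rw [Finset.sum_congr rfl (fun c hc => card_nonperp hF hu huu (Finset.ne_of_mem_erase hc)), Finset.sum_const,
    Finset.card_erase_of_mem (Finset.mem_univ _), Finset.card_univ, hF, smul_eq_mul]

theorem iso_pair (hF : Fintype.card F = q ^ 2) {u v : Fin n → F} (huu : hermForm n F q u u = 0) :
    (∀ x ∈ Submodule.span F {u, v}, ∀ y ∈ Submodule.span F {u, v}, hermForm n F q x y = 0) ↔
      hermForm n F q v u = 0 ∧ hermForm n F q v v = 0 := by
  have hq := two_le_q hF
  constructor
  · intro h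
    have hu : u ∈ Submodule.span F {u, v} := Submodule.subset_span (Or.inl rfl)
    have hv : v ∈ Submodule.span F {u, v} := Submodule.subset_span (Or.inr rfl)
    exact ⟨h v hv u hu, h v hv v hv⟩
  · rintro ⟨h1, h2⟩ x hx y hy
    obtain ⟨a, b, rfl⟩ := Submodule.mem_span_pair.mp hx
    obtain ⟨c, d, rfl⟩ := Submodule.mem_span_pair.mp hy
    rw [hermForm_add_left, hermForm_add_right hF, hermForm_add_right hF]
    simp only [hermForm_smul_left, hermForm_smul_right]
    rw [h1, h2, huu, herm_zero_swap hF h1]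
    ring

/-- lines through an isotropic vector -/
theorem lines_through (hF : Fintype.card F = q ^ 2) {u : Fin (n + 1) → F} (hu : u ≠ 0)
    (huu : hermForm (n + 1) F q u u = 0) :
    (q ^ 2) * ((q ^ 4 - q ^ 2) * Nat.card {W : Submodule F (Fin (n + 1) → F) // finrank F W = 2 ∧ u ∈ W ∧
      ∀ x ∈ W, ∀ y ∈ W, hermForm (n + 1) F q x y = 0}) + (q ^ 2) * q ^ 2 + (q ^ 2 - 1) * (q * q ^ (2 * n)) =
      q ^ 2 * N F q (n + 1) 0 := by
  have h1 := card_pairs (F := F) (fun W => ∀ x ∈ W, ∀ y ∈ W, hermForm (n + 1) F q x y = 0) u hu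
  rw [hF, ← pow_mul] at h1
  norm_num at h1
  rw [← card_perp hF hu huu, ← h1]
  have hle : ((Submodule.span F {u} : Submodule F (Fin (n + 1) → F)) : Set (Fin (n + 1) → F)) ⊆
      {v | hermForm (n + 1) F q v u = 0 ∧ hermForm (n + 1) F q v v = 0} := by
    intro v hv
    obtain ⟨a, rfl⟩ := Submodule.mem_span_singleton.mp hv
    constructor
    · rw [hermForm_smul_left, huu, mul_zero]
    · rw [hermForm_smul_left, hermForm_smul_right, huu, mul_zero, mul_zero]
  have h3 : Set.ncard ((Submodule.span F {u} : Submodule F (Fin (n + 1) → F)) : Set (Fin (n + 1) → F)) = q ^ 2 := by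
    have := card_submodule (Submodule.span F {u})
    rw [finrank_span_singleton hu, pow_one, hF] at this
    exact this
  have h4 := Set.ncard_sdiff hle
  have h5 := Set.ncard_le_ncard hle (Set.toFinite _)
  have h6 : Nat.card {w : Fin (n + 1) → F // w ∉ Submodule.span F {u} ∧
      ∀ x ∈ Submodule.span F {u, w}, ∀ y ∈ Submodule.span F {u, w}, hermForm (n + 1) F q x y = 0} =
      Set.ncard ({v | hermForm (n + 1) F q v u = 0 ∧ hermForm (n + 1) F q v v = 0} \
        ((Submodule.span F {u} : Submodule F (Fin (n + 1) → F)) : Set (Fin (n + 1) → F))) := by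
    refine Nat.card_congr (Equiv.subtypeEquivRight fun w => ?_)
    rw [iso_pair hF huu]
    exact and_comm
  have h7 : Nat.card {v : Fin (n + 1) → F // hermForm (n + 1) F q v u = 0 ∧ hermForm (n + 1) F q v v = 0} =
    Set.ncard {v : Fin (n + 1) → F | hermForm (n + 1) F q v u = 0 ∧ hermForm (n + 1) F q v v = 0} := rfl
  rw [h3] at h4 h5
  rw [h6, h4, h7, ← mul_add, Nat.sub_add_cancel h5]

/-- all lines -/
theorem lines_all (hF : Fintype.card F = q ^ 2) (t : ℕ)
    (ht : ∀ u : Fin n → F, u ≠ 0 → hermForm n F q u u = 0 → Nat.card {W : Submodule F (Fin n → F) // finrank F W = 2 ∧ u ∈ W ∧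
      ∀ x ∈ W, ∀ y ∈ W, hermForm n F q x y = 0} = t) :
    (q ^ 4 - 1) * Nat.card {W : Submodule F (Fin n → F) // finrank F W = 2 ∧
      ∀ x ∈ W, ∀ y ∈ W, hermForm n F q x y = 0} = t * (N F q n 0 - 1) := by
  have h1 := card_flags (F := F) (V := Fin n → F) (fun W => ∀ u ∈ W, ∀ v ∈ W, hermForm n F q u v = 0)
    (fun v => hermForm n F q v v = 0) t ht (fun W hW v hv => hW v hv v hv)
  rw [hF, ← pow_mul] at h1
  norm_num at h1
  rw [h1, N]
  congr 1
  have h2 : Nat.card {v : Fin n → F // v ≠ 0 ∧ hermForm n F q v v = 0} =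
      Set.ncard ({v : Fin n → F | hermForm n F q v v = 0} \ {0}) := by
    refine Nat.card_congr (Equiv.subtypeEquivRight fun w => ?_)
    exact and_comm
  rw [h2, Set.ncard_sdiff_singleton_of_mem (by simp [hermForm_zero_left])]
  rfl

end Cfsg.Agent.Lib.UnLines
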