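import Cfsg.Agent.Lib.UnNot5
import Cfsg.Agent.Lib.AschAdj14
import Cfsg.Agent.Lib.AschLinMax
set_option autoImplicit false
set_option linter.style.haveILetI false
set_option linter.unusedVariables false
set_option linter.unusedSectionVars false

/-!
Maximal subgroups of the special unitary groups of dimension at least three: the list of types.
-/

namespace Cfsg.Agent.Lib.UnNot

open Cfsg Cfsg.Geo Cfsg.Agent.Lib.AschMU Cfsg.Agent.Lib.AschCore Cfsg.Agent.Lib.AschField Cfsg.Agent.Lib.AschAlg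
  Cfsg.Agent.Lib.AschGroup Cfsg.Agent.Lib.AschGood Cfsg.Agent.Lib.AschNonab Cfsg.Agent.Lib.AschTensor Cfsg.Agent.Lib.AschComp
  Cfsg.Agent.Lib.AschAdj Cfsg.Agent.Lib.SLGeom Cfsg.Agent.Lib.HermMat Cfsg.Agent.Lib.UnBridge Cfsg.Agent.Lib.UnNot
open scoped Matrix MatrixGroups Kronecker commutatorElement
open Matrix (vecMulVec)

/-- The types of maximal subgroups of `SU_n(q)`. -/
inductive UMaxi (n : ℕ) {F : Type*} [Field F] [Fintype F] (q : ℕ) (H : Subgroup (GL (Fin n) F)) : Prop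
  | c1a (W : Submodule F (Fin n → F)) (h0 : W ≠ ⊥) (hs : IsTotallySingularFor (hermForm n F q) W)
      (h : H = subspaceStabilizer W ⊓ (GU n F q ⊓ specialLinear (Fin n) F))
  | c1b (W : Submodule F (Fin n → F)) (h0 : W ≠ ⊥) (hs : IsNondegenerateOn (hermForm n F q) W) (hd : 2 * Module.finrank F W < n)
      (h : H = subspaceStabilizer W ⊓ (GU n F q ⊓ specialLinear (Fin n) F))
  | c2a (t k : ℕ) (D : Fin t → Submodule F (Fin n → F)) (htk : t * k = n) (hD : IsNondegenerateMDecomposition (hermForm n F q) k D)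
      (h : H = decompositionStabilizer D ⊓ (GU n F q ⊓ specialLinear (Fin n) F))
  | c2b (k : ℕ) (D : Fin 2 → Submodule F (Fin n → F)) (hk : 2 * k = n) (hD : IsMDecomposition k D)
      (hs : ∀ i, IsTotallySingularFor (hermForm n F q) (D i))
      (h : H = decompositionStabilizer D ⊓ (GU n F q ⊓ specialLinear (Fin n) F))
  | c3 (r : ℕ) (K : Subalgebra F (Matrix (Fin n) (Fin n) F)) (hr : r.Prime) (hodd : Odd r) (hrn : r ∣ n) (hK : IsFieldSubalgebra r K)
      (hadj : IsAdjointClosedFor (hermForm n F q) K) (h : H = subalgebraNormalizer K ⊓ (GU n F q ⊓ specialLinear (Fin n) F))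
  | c4 (n₁ n₂ : ℕ) (e : Fin n ≃ Fin n₁ × Fin n₂) (P : GL (Fin n) F)
      (f₁ : (Fin n₁ → F) → (Fin n₁ → F) → F) (f₂ : (Fin n₂ → F) → (Fin n₂ → F) → F)
      (h2 : 2 ≤ n₁) (hlt : n₁ < n₂) (hn : n₁ * n₂ = n) (h₁ : IsUnitaryFormPow q f₁) (h₂ : IsUnitaryFormPow q f₂)
      (hst : IsTensorFormStructure (fun x : F => x ^ q) (hermForm n F q) f₁ f₂ e P)
      (h : H = tensorProductSubgroup n₁ n₂ e P ⊓ (GU n F q ⊓ specialLinear (Fin n) F))
  | c5a (F₀ : Subfield F) (r : ℕ) (P : GL (Fin n) F) (hr : r.Prime) (hodd : Odd r) (hc : Fintype.card F = Nat.card F₀ ^ r)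
      (hst : IsFormRationalStructure (hermForm n F q) F₀ 1 P) (h : H = subfieldSubgroup F₀ P ⊓ (GU n F q ⊓ specialLinear (Fin n) F))
  | c5b (F₀ : Subfield F) (P : GL (Fin n) F) (hq : Odd q) (hc : Fintype.card F = Nat.card F₀ ^ 2)
      (hst : IsFormRationalStructure (hermForm n F q) F₀ 1 P) (h : H = subfieldSubgroup F₀ P ⊓ (GU n F q ⊓ specialLinear (Fin n) F))
  | c5c (F₀ : Subfield F) (P : GL (Fin n) F) (ζ : F) (hn : Even n) (hc : Fintype.card F = Nat.card F₀ ^ 2) (hζ : ζ ≠ 0)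
      (hζq : ζ + ζ ^ q = 0) (hst : IsFormRationalStructure (hermForm n F q) F₀ ζ P)
      (halt : ∀ u : Fin n → F, (∀ i, u i ∈ F₀) → (hermForm n F q) ((P : Matrix (Fin n) (Fin n) F) *ᵥ u) ((P : Matrix (Fin n) (Fin n) F) *ᵥ u) = 0)
      (h : H = subfieldSubgroup F₀ P ⊓ (GU n F q ⊓ specialLinear (Fin n) F))
  | c6 (r : ℕ) (R : Subgroup (GL (Fin n) F)) (p e k : ℕ) (hsy : IsSymplecticTypeGroup r R)
      (hirr : ActsAbsolutelyIrreducibly (matrixSet R)) (hRG : R ≤ GU n F q) (hrp : r ≠ p) (hnk : n = r ^ k) (hk : 1 ≤ k)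
      (hmin : IsMinimalFieldFor (Nat.card (Subgroup.center R)) p e F)
      (hcases : (Odd r ∧ Nat.card (Subgroup.center R) = r ∧ Nat.card R = r ^ (1 + 2 * k)) ∨
       (r = 2 ∧ e = 2 ∧ Nat.card (Subgroup.center R) = 4 ∧ Nat.card R = 2 ^ (2 + 2 * k)))
      (h : H = subgroupNormalizer R ⊓ (GU n F q ⊓ specialLinear (Fin n) F))
  | c7 (k t : ℕ) (e : Fin n ≃ (Fin t → Fin k)) (P : GL (Fin n) F) (f₁ : (Fin k → F) → (Fin k → F) → F)
      (hk : 3 ≤ k) (ht : 2 ≤ t) (hkt : k ^ t = n) (hex : ¬ (q = 2 ∧ k = 3)) (h₁ : IsUnitaryFormPow q f₁)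
      (hst : IsTensorPowerFormStructure (fun x : F => x ^ q) (hermForm n F q) f₁ e P)
      (h : H = tensorWreathSubgroup k t e P ⊓ (GU n F q ⊓ specialLinear (Fin n) F))
  | res (h : InUnitaryResidualClass H)

/-- **Maximal subgroups of `SU_n(q)`.** -/
theorem umax {F : Type*} [Field F] [Fintype F] {n q : ℕ} (hF : Fintype.card F = q ^ 2) (hn : 3 ≤ n) (hex : ¬ (n = 3 ∧ q = 2))
    {H : Subgroup (GL (Fin n) F)} (hH : IsMaximalIn (GU n F q ⊓ specialLinear (Fin n) F) H) : UMaxi n q H := by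
  have hI : H ≤ GU n F q := hH.1.le.trans inf_le_left
  have hq2 := two_le_q hF
  obtain ⟨a, ha0, ha⟩ := exists_tr hF
  obtain ⟨v, hv0, hv⟩ := ClUnSimple.exists_iso hF (show 2 ≤ n by omega)
  have htop : Module.finrank F (⊤ : Submodule F (Fin n → F)) = n := by
    rw [finrank_top, Module.finrank_fintype_fun_eq_card, Fintype.card_fin]
  rcases ucase hF (by omega) hI with ⟨W, h0, hs, hle⟩ | ⟨W, h0, hs, hd, hle⟩ | ⟨t, k, D, htk, hD, hle⟩ | ⟨k, D, hk, hD, hs, hle⟩ |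
    ⟨r, K, hr, hodd, hrn, hK, hadj, hle⟩ | ⟨n₁, n₂, e, P, f₁, f₂, h2, hlt, hnn, h₁, h₂, hst, hle⟩ | ⟨F₀, r, P, hr, hodd, hc, hst, hle⟩ |
    ⟨F₀, P, hq, hc, hst, hle⟩ | ⟨F₀, P, ζ, hev, hc, hζ, hζq, hst, halt, hle⟩ |
    ⟨r, R, p, e, k, hsy, hirr, hRG, hrp, hnk, hk, hmin, hcases, hle⟩ | ⟨k, t, e, P, f₁, hk, ht, hkt, hexc, h₁, hst, hle⟩ |
    ⟨hq, ρ, P, hst, hle⟩ | hres
  · refine .c1a W h0 hs (SLNot.eq_inf_of_maximal hH hle (su_not_subspace hF (by omega) h0 ?_))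
    rintro rfl
    obtain ⟨y, -, hy⟩ := herm_nd n hF v trivial hv0
    exact hy (hs v trivial y trivial)
  · refine .c1b W h0 hs hd (SLNot.eq_inf_of_maximal hH hle (su_not_subspace hF (by omega) h0 ?_))
    rintro rfl
    omega
  · refine .c2a t k D htk hD (SLNot.eq_inf_of_maximal hH hle ?_)
    by_cases hk : 2 ≤ k
    · exact su_not_decomposition hF (by omega) hk hD.decomp
    · have hk1 : k = 1 := by
        have := hD.decomp.pos
        omega
      subst hk1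
      exact su_not_one_decomposition hF (by
        rw [mul_one] at htk
        subst htk
        by_cases h3 : t = 3
        · right; exact ⟨h3, by
            by_contra h
            exact hex ⟨h3, by omega⟩⟩
        · left; omega) hD
  · exact .c2b k D hk hD hs (SLNot.eq_inf_of_maximal hH hle (su_not_decomposition hF (by omega) (by omega) hD))
  · refine .c3 r K hr hodd hrn hK hadj (SLNot.eq_inf_of_maximal hH hle ?_)
    intro hle'
    exact tv_not_field (by rw [Fintype.card_fin]; exact hn) hr.two_le hK hv0 (utv_w_ne hv0 ha0) (utv_dot hv a) (hle' (utv_mem hF v hv ha))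
  · refine .c4 n₁ n₂ e P f₁ f₂ h2 hlt hnn h₁ h₂ hst (SLNot.eq_inf_of_maximal hH hle ?_)
    intro hle'
    exact tv_not_tensor h2 (by omega) e P hv0 (utv_w_ne hv0 ha0) (utv_dot hv a) (hle' (utv_mem hF v hv ha))
  · refine .c5a F₀ r P hr hodd hc hst (SLNot.eq_inf_of_maximal hH hle (su_not_subfield_odd hF hn ?_ hc P))
    have := hr.two_le
    rcases hodd with ⟨m, hm⟩
    omega
  · exact .c5b F₀ P hq hc hst (SLNot.eq_inf_of_maximal hH hle (su_not_subfield_two hF hn hc P))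
  · exact .c5c F₀ P ζ hev hc hζ hζq hst halt (SLNot.eq_inf_of_maximal hH hle (su_not_subfield_two hF hn hc P))
  · refine .c6 r R p e k hsy hirr hRG hrp hnk hk hmin hcases (SLNot.eq_inf_of_maximal hH hle ?_)
    haveI := hmin.2.1
    exact su_not_normalizer hF hn hex hRG hirr.1 hsy.prime hmin.1 hrp hsy.pGroup
  · refine .c7 k t e P f₁ hk ht hkt hexc h₁ hst (SLNot.eq_inf_of_maximal hH hle ?_)
    intro hle'
    exact tv_not_wreath hk ht e P hv0 (utv_w_ne hv0 ha0) (utv_dot hv a) (hle' (utv_mem hF v hv ha))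
  · subst hq
    obtain ⟨R, k, hsy, hirr, hRG, hnk, hk, hmin, hc, hR, hle'⟩ := exc_c6 hF ρ P hst hI hle
    refine .c6 3 R 2 2 k hsy hirr hRG (by norm_num) hnk hk hmin (Or.inl ⟨by decide, hc, hR⟩) (SLNot.eq_inf_of_maximal hH hle' ?_)
    haveI := hmin.2.1
    exact su_not_normalizer hF hn hex hRG hirr.1 hsy.prime hmin.1 (by norm_num) hsy.pGroup
  · exact .res hres

end Cfsg.Agent.Lib.UnNot
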