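import Mathlib
import Cfsg.Agent.Lib.Sesq11
import Cfsg.Agent.Lib.UnForm2

set_option autoImplicit false
set_option linter.unusedSectionVars false

/-! Isometries of prime order of hermitian spaces: atoms. (helper99) -/

namespace Cfsg.Agent.Lib.UnND

open Polynomial Module Cfsg.Agent.Lib.InvSub Cfsg.Agent.Lib.PrimeOrd Cfsg.Agent.Lib.Sesq
open Cfsg.Agent.Lib.ClUnitary (frob frob_frob)

section gen

variable {F V : Type*} [Field F] [AddCommGroup V] [Module F V] {σ : F →+* F} {B : V →ₗ[F] V →ₛₗ[σ] F}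

/-- hermitian -/
def Hm (B : V →ₗ[F] V →ₛₗ[σ] F) : Prop := ∀ u v, B u v = σ (B v u)

theorem Hm.refl (h : Hm B) : Refl B := fun u v huv => by rw [h v u, huv, map_zero]

/-- a sesquilinear form vanishing on all `(x, x)` is zero -/
theorem exists_self {ω : F} (hω : σ ω ≠ ω) (S : Module.End F V) {W : Submodule F V} (h : ∃ x ∈ W, ∃ y ∈ W, B (S x) y ≠ 0) :
    ∃ x ∈ W, B (S x) x ≠ 0 := by
  by_contra hcon
  push Not at hcon
  obtain ⟨x, hx, y, hy, hxy⟩ := h
  have key : ∀ z ∈ W, B (S x) z = - B (S z) x := by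
    intro z hz
    have h1 := hcon (x + z) (W.add_mem hx hz)
    simp only [map_add, LinearMap.add_apply] at h1
    rw [hcon x hx, hcon z hz] at h1
    linear_combination h1
  have h1 := key (ω • y) (W.smul_mem _ hy)
  rw [LinearMap.map_smulₛₗ, map_smul, map_smul, LinearMap.smul_apply, smul_eq_mul, smul_eq_mul] at h1
  have h2 := key y hy
  have h3 : (σ ω - ω) * B (S x) y = 0 := by linear_combination h1 - ω * h2
  rcases mul_eq_zero.mp h3 with h4 | h4
  · exact hω (sub_eq_zero.mp h4)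
  · exact hxy h4

theorem nd_line {v : V} (h : B v v ≠ 0) : ND B (Submodule.span F {v}) := by
  intro u hu hu'
  obtain ⟨a, rfl⟩ := Submodule.mem_span_singleton.mp hu
  have h1 := hu' v (Submodule.mem_span_singleton_self v)
  rw [map_smul, LinearMap.smul_apply, smul_eq_mul] at h1
  rw [(mul_eq_zero.mp h1).resolve_right h, zero_smul]

variable [FiniteDimensional F V]

/-- nondegenerate invariant subspaces of multiple dimension from atoms -/
theorem exists_mult [Finite F] (hr : Refl B) (hnd : ND B ⊤) {T : Module.End F V}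
    (hT : Iso B T) {c : ℕ} (hc : 0 < c) {C : Submodule F V}
    (hat : ∀ W ≤ C, Inv T W → ND B W → W ≠ ⊥ → ∃ U ≤ W, Inv T U ∧ ND B U ∧ finrank F U = c) :
    ∀ (k : ℕ) (W : Submodule F V), W ≤ C → Inv T W → ND B W → k * c ≤ finrank F W →
      ∃ U ≤ W, Inv T U ∧ ND B U ∧ finrank F U = k * c := by
  intro k
  induction k with
  | zero =>
    intro W _ _ _ _
    exact ⟨⊥, bot_le, fun x hx => by rw [(Submodule.mem_bot F).mp hx, map_zero]; exact Submodule.zero_mem _,
      fun u hu _ => (Submodule.mem_bot F).mp hu, by rw [finrank_bot, Nat.zero_mul]⟩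
  | succ k ih =>
    intro W hWC hW hWnd hk
    have hne : W ≠ ⊥ := by
      rintro rfl
      rw [finrank_bot] at hk
      have : 0 < (k + 1) * c := Nat.mul_pos (Nat.succ_pos k) hc
      omega
    obtain ⟨U, hUW, hU, hUnd, hUf⟩ := hat W hWC hW hWnd hne
    obtain ⟨h1, h2, h3, h4⟩ := split_nd hr hWnd hUnd hUW
    obtain ⟨U', hU'W, hU', hU'nd, hU'f⟩ := ih (W ⊓ perp B U) (inf_le_left.trans hWC) (inv_inf hW (hT.inv_perp hnd hU)) h4
      (by rw [Nat.succ_mul] at hk; omega)
    refine ⟨U ⊔ U', sup_le hUW (hU'W.trans inf_le_left), inv_sup hU hU', ?_, ?_⟩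
    · exact nd_sup hr hUnd hU'nd (fun u hu v hv => (hU'W hv).2 u hu)
    · have h5 := Submodule.finrank_sup_add_finrank_inf_eq U U'
      rw [disjoint_iff.mp (h2.mono_right hU'W), finrank_bot] at h5
      rw [Nat.succ_mul]; omega

theorem exists_line {ω : F} (hω : σ ω ≠ ω) {W : Submodule F V} (hW : ND B W) (hne : W ≠ ⊥) : ∃ v ∈ W, B v v ≠ 0 := by
  obtain ⟨u, hu, hu0⟩ := Submodule.exists_mem_ne_zero_of_ne_bot hne
  have : ∃ v ∈ W, B u v ≠ 0 := by
    by_contra hcon
    push Not at hcon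
    exact hu0 (hW u hu hcon)
  obtain ⟨v, hv, huv⟩ := this
  exact exists_self hω (1 : Module.End F V) ⟨u, hu, v, hv, huv⟩

/-- nondegenerate subspaces of a space all of whose subspaces are invariant -/
theorem exists_sub_of_inv [Finite F] {ω : F} (hω : σ ω ≠ ω) (hr : Refl B) (hnd : ND B ⊤) {T : Module.End F V}
    (hT : Iso B T) {C : Submodule F V} (hC : ∀ U ≤ C, Inv T U) (hCnd : ND B C) {e : ℕ}
    (heW : e ≤ finrank F C) : ∃ U ≤ C, Inv T U ∧ ND B U ∧ finrank F U = e := by
  obtain ⟨U, hUW, h1, h2, h3⟩ := exists_mult hr hnd hT (c := 1) (by norm_num) (C := C) (by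
    intro W hW _ hWnd hne
    obtain ⟨v, hv, hvv⟩ := exists_line hω hWnd hne
    have hle : Submodule.span F {v} ≤ W := by rw [Submodule.span_singleton_le_iff_mem]; exact hv
    have hv0 : v ≠ 0 := by rintro rfl; rw [map_zero] at hvv; exact hvv rfl
    exact ⟨_, hle, hC _ (hle.trans hW), nd_line hvv, finrank_span_singleton hv0⟩) e C le_rfl (hC C le_rfl) hCnd (by omega)
  exact ⟨U, hUW, h1, h2, by omega⟩

end gen

section fin

variable {F V : Type*} [Field F] [Fintype F] [AddCommGroup V] [Module F V] {q : ℕ} {hF : Fintype.card F = q ^ 2} {B : V →ₗ[F] V →ₛₗ[frob hF] F}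

/-- adjoint of a polynomial in `T` -/
lemma adj_poly {T T' : Module.End F V} (h : ∀ u v, B (T u) v = B u (T' v)) (f : F[X]) :
    ∀ u v, B (aeval T f u) v = B u (aeval T' (f.map (frob hF)) v) := by
  have hpow : ∀ k : ℕ, ∀ u v, B ((T ^ k) u) v = B u ((T' ^ k) v) := by
    intro k
    induction k with
    | zero => intro u v; rfl
    | succ k ih => intro u v; rw [pow_succ, Module.End.mul_apply, ih, h, ← Module.End.mul_apply, ← pow_succ']
  induction f using Polynomial.induction_on' with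
  | add p q hp hq => intro u v; rw [Polynomial.map_add, map_add, map_add, LinearMap.add_apply, LinearMap.add_apply, map_add, map_add,
      LinearMap.add_apply, hp, hq]
  | monomial k a =>
    intro u v
    rw [Polynomial.map_monomial, ← C_mul_X_pow_eq_monomial, ← C_mul_X_pow_eq_monomial, map_mul, map_mul, aeval_C, aeval_C, map_pow, map_pow, aeval_X, aeval_X]
    change B (a • ((T ^ k) u)) v = B u (frob hF a • ((T' ^ k) v))
    rw [map_smul, LinearMap.map_smulₛₗ, LinearMap.smul_apply, hpow, frob_frob hF]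

theorem exists_frob_pow (hF : Fintype.card F = q ^ 2) : ∃ (p e : ℕ) (_ : Fact p.Prime) (_ : CharP F p), q = p ^ e ∧ frob hF = iterateFrobenius F p e := by
  obtain ⟨p, hp⟩ := CharP.exists F
  have hpp : Fact p.Prime := ⟨CharP.char_is_prime F p⟩
  obtain ⟨n, -, hc⟩ := FiniteField.card F p
  have h1 : q ∣ p ^ (n : ℕ) := by rw [← hc, hF]; exact dvd_pow_self q two_ne_zero
  obtain ⟨e, -, he⟩ := (Nat.dvd_prime_pow hpp.out).1 h1
  refine ⟨p, e, hpp, hp, he, ?_⟩
  apply RingHom.ext
  intro x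
  rw [iterateFrobenius_def, ← he]
  rfl

/-- Frobenius and polynomials -/
lemma aeval_map_pow (T : Module.End F V) (f : F[X]) : aeval (T ^ q) (f.map (frob hF)) = (aeval T f) ^ q := by
  obtain ⟨p, e, hp, hc, hq, hfr⟩ := exists_frob_pow hF
  have h1 := Polynomial.map_iterateFrobenius_expand p f e
  rw [← hfr, ← hq, Polynomial.map_expand] at h1
  have h2 := congrArg (aeval T) h1
  rw [expand_aeval, map_pow] at h2
  exact h2

/-- for `i ≡ 2 (mod 4)`, `f(T) v = 0` implies `f^σ(T⁻¹) v = 0` -/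
lemma aeval_inv {T : Module.End F V} {r : ℕ} (hr : r.Prime) (hT : T ^ r = 1) {i : ℕ}
    (hi : i = orderOf ((q : ℕ) : ZMod r)) (h4 : i % 4 = 2) {f : F[X]} {v : V} (h : aeval T f v = 0) :
    aeval (T ^ (r - 1)) (f.map (frob hF)) v = 0 := by
  obtain ⟨k, hk⟩ : ∃ k, i / 2 = 2 * k + 1 := ⟨i / 4, by omega⟩
  have hq0 : 0 < q := by
    rcases Nat.eq_zero_or_pos q with h0 | h0
    · rw [h0] at hF
      have := Fintype.card_pos (α := F)
      simp at hF
    · exact h0
  have h1 : T ^ (r - 1) = (T ^ (Fintype.card F ^ k)) ^ q := by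
    rw [← pow_mul]
    apply pow_eq_of_mod hT
    have h2 : Fintype.card F ^ k * q = q ^ (i / 2) := by rw [hF, hk, ← pow_mul, pow_succ]
    rw [h2, ord_half hr hi ⟨i / 2, by omega⟩ (by omega), Nat.cast_sub hr.one_le]
    simp
  rw [h1, aeval_map_pow, aeval_pow_card, ← pow_mul]
  obtain ⟨m, hm⟩ : ∃ m, Fintype.card F ^ k * q = m + 1 :=
    ⟨Fintype.card F ^ k * q - 1, by have : 0 < Fintype.card F ^ k * q := Nat.mul_pos (Nat.pow_pos Fintype.card_pos) hq0; omega⟩
  rw [hm, pow_succ, Module.End.mul_apply, h, map_zero]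

end fin

end Cfsg.Agent.Lib.UnND
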