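import Mathlib
import Cfsg.Agent.Lib.UnND

set_option autoImplicit false
set_option linter.unusedSectionVars false

/-! Isometries of odd prime order of hermitian spaces: atoms and types. (helper99) -/

namespace Cfsg.Agent.Lib.UnND

open Polynomial Module Cfsg.Agent.Lib.InvSub Cfsg.Agent.Lib.PrimeOrd Cfsg.Agent.Lib.Sesq
open Cfsg.Agent.Lib.ClUnitary (frob frob_frob)

/-- size of the atoms -/
def cU (i : ℕ) : ℕ := if i % 4 = 0 then i else if i % 4 = 2 then i / 2 else 2 * i
/-- size of the irreducible pieces -/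
def bU (i : ℕ) : ℕ := if Even i then i / 2 else i

section arith

theorem neg_one_ne {r : ℕ} (hr : r.Prime) (hr2 : Odd r) : (-1 : ZMod r) ≠ 1 := by
  haveI : Fact r.Prime := ⟨hr⟩
  have h3 : 2 < r := by
    have := hr.two_le
    obtain ⟨k, hk⟩ := hr2
    omega
  haveI : Fact (2 < r) := ⟨h3⟩
  exact ZMod.neg_one_ne_one

theorem cU_iff {r q i j : ℕ} (hr : r.Prime) (hr2 : Odd r) (hi : i = orderOf (q : ZMod r)) (hi0 : 0 < i) :
    (if Even j then (q : ZMod r) ^ j = 1 else (q : ZMod r) ^ j = -1) ↔ cU i ∣ j := by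
  haveI : Fact r.Prime := ⟨hr⟩
  have hne := neg_one_ne hr hr2
  have hdvd : ∀ j, (q : ZMod r) ^ j = 1 ↔ i ∣ j := fun j => by rw [hi]; exact orderOf_dvd_iff_pow_eq_one.symm
  have hhalf : Even i → (q : ZMod r) ^ (i / 2) = -1 := by
    intro he
    have := ord_half hr hi he hi0
    push_cast at this
    exact this
  unfold cU
  split_ifs with he h0 h2 h0 h2
  · rw [hdvd]
  · rw [hdvd]
    constructor
    · intro h
      exact (Nat.div_dvd_of_dvd (by omega)).trans h
    · rintro ⟨t, ht⟩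
      have hte : Even t := by
        rw [ht, Nat.even_mul] at he
        rcases he with h | h
        · exfalso
          obtain ⟨u, hu⟩ := h
          omega
        · exact h
      obtain ⟨u, hu⟩ := hte
      exact ⟨u, by rw [ht, hu]; have : i = 2 * (i / 2) := by omega
                   conv_rhs => rw [this]
                   ring⟩
  · rw [hdvd]
    have hio : Odd i := by rw [Nat.odd_iff]; omega
    constructor
    · intro h
      have : Nat.Coprime 2 i := Nat.coprime_two_left.2 hio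
      exact this.mul_dvd_of_dvd_of_dvd he.two_dvd h
    · intro h
      exact (Dvd.intro_left 2 rfl).trans h
  · -- j odd
    constructor
    · intro h
      exfalso
      have h1 : i ∣ 2 * j := by
        rw [← hdvd, mul_comm, pow_mul, h]; ring
      obtain ⟨t, ht⟩ := h1
      apply he
      refine ⟨i / 4 * t, ?_⟩
      have h3 : i = 4 * (i / 4) := by omega
      have h4 : 2 * j = 2 * (2 * (i / 4 * t)) := by
        rw [ht]
        conv_lhs => rw [h3]
        ring
      omega
    · intro h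
      exfalso
      apply he
      exact Nat.even_iff.2 (by
        obtain ⟨t, ht⟩ := h
        have : 2 ∣ j := ⟨i / 2 * t, by rw [ht]; have : i = 2 * (i / 2) := by omega
                                       conv_lhs => rw [this]
                                       ring⟩
        omega)
  · constructor
    · intro h
      have h1 : i ∣ 2 * j := by
        rw [← hdvd, mul_comm, pow_mul, h]; ring
      obtain ⟨t, ht⟩ := h1
      refine ⟨t, ?_⟩
      have h3 : i = 2 * (i / 2) := by omega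
      rw [h3] at ht
      have : 2 * j = 2 * (i / 2 * t) := by rw [ht]; ring
      omega
    · rintro ⟨t, ht⟩
      have hto : Odd t := by
        by_contra h
        rw [Nat.not_odd_iff_even] at h
        exact he (by rw [ht]; exact h.mul_left _)
      rw [ht, pow_mul, hhalf ⟨i / 2, by omega⟩, hto.neg_one_pow]
  · constructor
    · intro h
      exfalso
      have h1 : i ∣ 2 * j := by
        rw [← hdvd, mul_comm, pow_mul, h]; ring
      have hio : Odd i := by rw [Nat.odd_iff]; omega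
      have h3 : i ∣ j := (Nat.coprime_two_right.2 hio).dvd_of_dvd_mul_left h1
      exact hne (by rw [← h, (hdvd j).2 h3])
    · intro h
      exfalso
      exact he (even_iff_two_dvd.2 ((Dvd.intro _ rfl).trans h))

/-- version with divisibility -/
theorem cU_iff' {r q i j : ℕ} (hr : r.Prime) (hr2 : Odd r) (hq : 0 < q) (hi : i = orderOf (q : ZMod r)) (hi0 : 0 < i) :
    (r ∣ (if Even j then q ^ j - 1 else q ^ j + 1)) ↔ cU i ∣ j := by
  haveI : Fact r.Prime := ⟨hr⟩
  rw [← cU_iff hr hr2 hi hi0]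
  split_ifs with he
  · rw [← ZMod.natCast_eq_zero_iff, Nat.cast_sub (Nat.one_le_pow _ _ hq)]
    push_cast
    exact sub_eq_zero
  · rw [← ZMod.natCast_eq_zero_iff]
    push_cast
    exact ⟨fun h => eq_neg_of_add_eq_zero_left h, fun h => by rw [h]; ring⟩

theorem bU_eq {r q i : ℕ} (hi : i = orderOf (q : ZMod r)) (hi0 : 0 < i) : orderOf ((q ^ 2 : ℕ) : ZMod r) = bU i := by
  push_cast
  rw [orderOf_pow' _ (by norm_num), ← hi]
  unfold bU
  split_ifs with h
  · rw [Nat.gcd_eq_right h.two_dvd]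
  · rw [Nat.not_even_iff_odd] at h
    rw [Nat.Coprime.gcd_eq_one (Nat.coprime_two_right.2 h), Nat.div_one]

theorem cU_eq (i : ℕ) : cU i = if i % 4 = 2 then bU i else 2 * bU i := by
  unfold cU bU
  by_cases h0 : i % 4 = 0
  · rw [if_pos h0, if_neg (by omega), if_pos (Nat.even_iff.2 (by omega))]; omega
  · by_cases h2 : i % 4 = 2
    · rw [if_neg h0, if_pos h2, if_pos h2, if_pos (Nat.even_iff.2 (by omega))]
    · rw [if_neg h0, if_neg h2, if_neg h2, if_neg (by rw [Nat.even_iff]; omega)]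

end arith

section fin

variable {F V : Type*} [Field F] [Fintype F] [AddCommGroup V] [Module F V] {q : ℕ} {hF : Fintype.card F = q ^ 2} {B : V →ₗ[F] V →ₛₗ[frob hF] F}

/-- isometries of odd prime order prime to the characteristic -/
structure PU (r : ℕ) (B : V →ₗ[F] V →ₛₗ[frob hF] F) (T : Module.End F V) : Prop where
  hr : r.Prime
  odd : Odd r
  ne : (r : F) ≠ 0
  herm : Hm B
  nd : ND B ⊤
  iso : Iso B T
  pow : T ^ r = 1

variable [FiniteDimensional F V] {T : Module.End F V} {r : ℕ}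

theorem card_pos (hF : Fintype.card F = q ^ 2) : 0 < q := by
  rcases Nat.eq_zero_or_pos q with h0 | h0
  · rw [h0] at hF
    have := Fintype.card_pos (α := F)
    simp at hF
  · exact h0

theorem ord_q_pos (hF : Fintype.card F = q ^ 2) (hr : r.Prime) (hne : (r : F) ≠ 0) : 0 < orderOf ((q : ℕ) : ZMod r) ∧ ¬ r ∣ q := by
  haveI : Fact r.Prime := ⟨hr⟩
  have hrq : ¬ r ∣ q := by
    intro hd
    obtain ⟨p, e, hp, hc, hq, -⟩ := exists_frob_pow hF
    rw [hq] at hd
    have h1 := (Nat.prime_dvd_prime_iff_eq hr hp.out).mp (hr.dvd_of_dvd_pow hd)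
    rw [h1] at hne
    exact hne (CharP.cast_eq_zero F p)
  refine ⟨?_, hrq⟩
  rw [orderOf_pos_iff, isOfFinOrder_iff_isUnit]
  rw [isUnit_iff_ne_zero]
  intro h
  exact hrq ((ZMod.natCast_eq_zero_iff _ _).1 h)

/-- invariant nondegenerate subspaces without fixed points -/
theorem PU.dvd (h : PU r B T) {W : Submodule F V} (hW : Inv T W) (hWnd : ND B W) (hE : W ⊓ E T 1 = ⊥) :
    cU (orderOf ((q : ℕ) : ZMod r)) ∣ finrank F W := by
  haveI : Fact r.Prime := ⟨h.hr⟩
  haveI : Finite V := Module.finite_of_finite F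
  obtain ⟨hi0, hrq⟩ := ord_q_pos hF h.hr h.ne
  have hh : Cfsg.Agent.Lib.HermAlg.IsHerm (frob hF) 1 (fun x y : W => B x.1 y.1) :=
    { add_left := fun x y z => by
        show B (x.1 + y.1) z.1 = _
        rw [map_add]; rfl
      smul_left := fun c x y => by
        show B (c • x.1) y.1 = _
        rw [LinearMap.map_smul]; rfl
      symm := fun x y => by rw [one_mul]; exact h.herm _ _
      nondeg := fun x hx => Subtype.ext (hWnd x.1 x.2 (fun w hw => hx ⟨w, hw⟩)) }
  obtain ⟨e, he⟩ := UnSpec.exists_standard hF (finrank F W) hh rfl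
  have hcard : Nat.card {v : W // B v.1 v.1 = 1} = ClUnitary.N F q (finrank F W) 1 := by
    apply Nat.card_congr
    refine e.toEquiv.subtypeEquiv (fun v => ?_)
    show B v.1 v.1 = 1 ↔ Cfsg.hermForm (finrank F W) F q (e v) (e v) = 1
    rw [he]
  have hdv : r ∣ Nat.card {v : W // B v.1 v.1 = 1} := by
    refine UnForm.dvd_card_of_free (fun v => ⟨⟨T v.1.1, hW _ v.1.2⟩, by show B (T v.1.1) (T v.1.1) = 1; rw [h.iso]; exact v.2⟩) ?_ ?_
    · intro v
      apply Subtype.ext
      apply Subtype.ext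
      have h1 : ∀ k : ℕ, (((fun v : {v : W // B v.1 v.1 = 1} => (⟨⟨T v.1.1, hW _ v.1.2⟩, by show B (T v.1.1) (T v.1.1) = 1; rw [h.iso]; exact v.2⟩ :
          {v : W // B v.1 v.1 = 1}))^[k]) v).1.1 = (T ^ k) v.1.1 := by
        intro k
        induction k with
        | zero => rfl
        | succ k ih =>
          rw [Function.iterate_succ_apply', pow_succ', Module.End.mul_apply, ← ih]
      rw [h1, h.pow]; rfl
    · intro v hv
      have h1 : T v.1.1 = v.1.1 := congrArg (fun w : {v : W // B v.1 v.1 = 1} => w.1.1) hv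
      have h2 : v.1.1 ∈ W ⊓ E T 1 := ⟨v.1.2, Module.End.mem_eigenspace_iff.2 (by rw [h1, one_smul])⟩
      rw [hE, Submodule.mem_bot] at h2
      have h3 := v.2
      rw [h2, map_zero] at h3
      exact zero_ne_one h3
  rw [hcard, ClUnitary.N_one hF] at hdv
  rw [← cU_iff' h.hr h.odd (card_pos hF) rfl hi0]
  split_ifs at hdv ⊢ with he
  · exact ((Nat.Prime.dvd_mul h.hr).mp hdv).resolve_left (fun h' => hrq (h.hr.dvd_of_dvd_pow h'))
  · exact ((Nat.Prime.dvd_mul h.hr).mp hdv).resolve_left (fun h' => hrq (h.hr.dvd_of_dvd_pow h'))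

theorem PU.ss (h : PU r B T) : SS T 1 (bU (orderOf ((q : ℕ) : ZMod r))) := by
  obtain ⟨p, hp⟩ := CharP.exists F
  haveI : Fact p.Prime := ⟨CharP.char_is_prime F p⟩
  haveI : Fact r.Prime := ⟨h.hr⟩
  have hrp : r ≠ p := by
    rintro rfl
    exact h.ne (CharP.cast_eq_zero F r)
  have h1 := ssB (p := p) hrp (y := (1 : F)) one_ne_zero (show T ^ r = (1 : F) ^ r • (1 : Module.End F V) by rw [one_pow, one_smul]; exact h.pow)
  obtain ⟨hi0, hrq⟩ := ord_q_pos hF h.hr h.ne
  rw [hF, bU_eq rfl hi0] at h1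
  exact h1

/-- a polynomial kernel is nondegenerate when `i ≡ 2 (mod 4)` -/
theorem PU.nd_ker (h : PU r B T) (h4 : orderOf ((q : ℕ) : ZMod r) % 4 = 2) {W : Submodule F V} (hW : Inv T W)
    (hWnd : ND B W) {f : F[X]} (hfd : f ∣ X ^ r - 1) : ND B (W ⊓ LinearMap.ker (aeval T f)) := by
  have hTT : aeval T (X ^ r - 1 : F[X]) = 0 := by rw [map_sub, map_pow, aeval_X, map_one, h.pow, sub_self]
  obtain ⟨g, hg⟩ := hfd
  have hsep : (X ^ r - 1 : F[X]).Separable := by
    have := separable_X_pow_sub_C (1 : F) h.ne one_ne_zero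
    rwa [C_1] at this
  have hcop : IsCoprime f g := by
    rw [hg] at hsep
    exact hsep.isCoprime
  obtain ⟨a, b, hab⟩ := hcop
  have hadj := adj_poly (fun u v => iso_adj h.iso h.hr.pos h.pow u v) f
  have hWpoly : ∀ (P : F[X]) (x : V), x ∈ W → aeval T P x ∈ W := by
    intro P x hx
    induction P using Polynomial.induction_on' with
    | add p q hp hq => rw [map_add]; exact W.add_mem hp hq
    | monomial k c =>
      rw [← C_mul_X_pow_eq_monomial, map_mul, aeval_C, map_pow, aeval_X]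
      exact W.smul_mem c (inv_pow hW k x hx)
  intro m hm hm'
  apply hWnd m hm.1
  intro x hx
  have hx1 : x = aeval T (b * g) x + aeval T f (aeval T a x) := by
    have : aeval T (b * g) x + aeval T f (aeval T a x) = aeval T (a * f + b * g) x := by
      rw [mul_comm a f, map_add, map_mul (aeval T) f a, LinearMap.add_apply, Module.End.mul_apply, add_comm]
    rw [this, hab, map_one]; rfl
  have h1 : aeval T (b * g) x ∈ W ⊓ LinearMap.ker (aeval T f) := by
    refine Submodule.mem_inf.mpr ⟨hWpoly _ x hx, ?_⟩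
    rw [LinearMap.mem_ker, ← Module.End.mul_apply, ← map_mul, show f * (b * g) = b * (f * g) by ring, ← hg, map_mul, hTT,
      mul_zero]
    rfl
  rw [hx1, map_add, hm' _ h1, zero_add]
  apply h.herm.refl
  rw [hadj, aeval_inv h.hr h.pow rfl h4 (by exact hm.2), map_zero]

theorem PU.exists_atom (h : PU r B T) {W : Submodule F V} (hW : Inv T W) (hWnd : ND B W) (hne : W ≠ ⊥) (hE : W ⊓ E T 1 = ⊥) :
    ∃ U ≤ W, Inv T U ∧ ND B U ∧ finrank F U = cU (orderOf ((q : ℕ) : ZMod r)) := by
  obtain ⟨ω, hω⟩ := UnSpec.exists_ne hF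
  have hss := h.ss
  have hdisj : Disjoint (E T 1) W := by rw [disjoint_iff, inf_comm]; exact hE
  obtain ⟨hi0, hrq⟩ := ord_q_pos hF h.hr h.ne
  set i := orderOf ((q : ℕ) : ZMod r) with hi
  -- a cyclic piece which is not totally isotropic is nondegenerate
  have hirr : ∀ U ≤ W, Inv T U → finrank F U = bU i → ¬ TI B U → ND B U := by
    intro U hUW hU hUf hnti
    rw [nd_iff h.herm.refl]
    by_contra hRne
    have hR : Inv T (U ⊓ perp B U) := inv_inf hU (h.iso.inv_perp h.nd hU)
    obtain ⟨U', hU'R, -, hU'f⟩ := hss.ex _ hR hRne (by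
      rw [disjoint_iff, eq_bot_iff, ← hE, inf_comm]
      exact inf_le_inf_right _ (inf_le_left.trans hUW))
    have : U' = U := Submodule.eq_of_le_of_finrank_eq (hU'R.trans inf_le_left) (by rw [hU'f, hUf])
    apply hnti
    rw [this] at hU'R
    exact ti_iff.2 (hU'R.trans inf_le_right)
  rw [cU_eq]
  split_ifs with h4
  · have hX0 : (X ^ r - 1 : F[X]) ≠ 0 := X_pow_sub_C_ne_zero h.hr.pos 1
    have hTT : aeval T (X ^ r - 1 : F[X]) = 0 := by rw [map_sub, map_pow, aeval_X, map_one, h.pow, sub_self]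
    obtain ⟨f, hf, hfd, w, hw, hw0, hfw⟩ := exists_irred_factor hX0 hTT hW hne
    have hnd := h.nd_ker h4 hW hWnd hfd
    have hMne : W ⊓ LinearMap.ker (aeval T f) ≠ ⊥ := by
      intro h'
      have : w ∈ W ⊓ LinearMap.ker (aeval T f) := Submodule.mem_inf.mpr ⟨hw, hfw⟩
      rw [h'] at this
      exact hw0 ((Submodule.mem_bot F).mp this)
    obtain ⟨v, hv, hvv⟩ := exists_line hω hnd hMne
    have hv0 : v ≠ 0 := by rintro rfl; rw [map_zero] at hvv; exact hvv rfl
    obtain ⟨U, hU, hUf, hvU, hUmin⟩ := cyclic_aux hf hv0 hv.2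
    have hUW : U ≤ W := hUmin W hW hv.1
    -- dimension
    obtain ⟨X₁, hX₁U, hX₁, hX₁f⟩ := hss.ex U hU (by rintro rfl; exact hv0 ((Submodule.mem_bot F).mp hvU)) (by
      rw [disjoint_iff, eq_bot_iff, ← hE, inf_comm]
      exact inf_le_inf_right _ hUW)
    have hb0 := hss.pos
    have hX₁U' : X₁ = U := by
      obtain ⟨x, hx, hx0⟩ := Submodule.exists_mem_ne_zero_of_ne_bot (show X₁ ≠ ⊥ by rintro rfl; rw [finrank_bot] at hX₁f; omega)
      have hfx : aeval T f x = 0 := by
        have h1 : U ≤ LinearMap.ker (aeval T f) := hUmin _ (by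
          intro y hy
          rw [LinearMap.mem_ker] at hy ⊢
          have : aeval T f (T y) = T (aeval T f y) := by
            have h1 : aeval T (f * X) = aeval T (X * f) := by rw [mul_comm]
            rw [map_mul, map_mul, aeval_X] at h1
            exact congrArg (fun g : Module.End F V => g y) h1
          rw [this, hy, map_zero]) hv.2
        exact h1 (hX₁U hx)
      obtain ⟨Y, hY, hYf, hxY, hYmin⟩ := cyclic_aux hf hx0 hfx
      have h1 : Y ≤ X₁ := hYmin _ hX₁ hx
      have h2 := Submodule.finrank_mono h1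
      exact Submodule.eq_of_le_of_finrank_le hX₁U (by rw [hUf, ← hYf]; exact h2)
    refine ⟨U, hUW, hU, hirr U hUW hU (by rw [← hX₁U', hX₁f]) (fun hti => hvv (hti v hvU v hvU)), by rw [← hX₁U', hX₁f]⟩
  · obtain ⟨U, hUW, hU, hUf⟩ := hss.ex W hW hne hdisj
    have hti : TI B U := by
      by_contra hnti
      have h1 := h.dvd hU (hirr U hUW hU hUf hnti) (by rw [eq_bot_iff, ← hE]; exact inf_le_inf_right _ hUW)
      rw [← hi, hUf, cU_eq, if_neg h4] at h1
      have := Nat.le_of_dvd hss.pos h1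
      have := hss.pos
      omega
    obtain ⟨H, hHW, hH, hHnd, hHf, -⟩ := exists_double_nd h.herm.refl h.nd h.iso hss.compl hW hWnd hU hUW hti
    exact ⟨H, hHW, hH, hHnd, by rw [hHf, hUf]⟩

/-- splitting off the fixed points -/
theorem PU.split_E (h : PU r B T) {W : Submodule F V} (hW : Inv T W) (hWnd : ND B W) :
    Inv T (W ⊓ E T 1) ∧ ND B (W ⊓ E T 1) ∧ Inv T (W ⊓ perp B (W ⊓ E T 1)) ∧
    ND B (W ⊓ perp B (W ⊓ E T 1)) ∧ (W ⊓ perp B (W ⊓ E T 1)) ⊓ E T 1 = ⊥ ∧
    finrank F ↥(W ⊓ E T 1) + finrank F ↥(W ⊓ perp B (W ⊓ E T 1)) = finrank F W := by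
  have h1 := nd_inf_E h.iso h.ne h.pow hW hWnd
  have h0 : Inv T (W ⊓ E T 1) := by
    intro x hx
    have := Module.End.mem_eigenspace_iff.mp hx.2
    rw [this, one_smul]; exact hx
  obtain ⟨h2, h3, h4, h5⟩ := split_nd h.herm.refl hWnd h1 inf_le_left
  refine ⟨h0, h1, inv_inf hW (h.iso.inv_perp h.nd h0), h5, ?_, h4⟩
  rw [eq_bot_iff, ← disjoint_iff.mp h3]
  exact le_inf (le_inf (inf_le_left.trans inf_le_left) inf_le_right) inf_le_left

theorem PU.exists_s (h : PU r B T) {W : Submodule F V} (hW : Inv T W) (hWnd : ND B W) :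
    ∃ s, finrank F W = finrank F ↥(W ⊓ E T 1) + s * cU (orderOf ((q : ℕ) : ZMod r)) := by
  obtain ⟨h0, h1, h2, h3, h4, h5⟩ := h.split_E hW hWnd
  obtain ⟨s, hs⟩ := h.dvd h2 h3 h4
  exact ⟨s, by rw [← h5, hs, Nat.mul_comm]⟩

theorem PU.cU_pos (h : PU r B T) : 0 < cU (orderOf ((q : ℕ) : ZMod r)) := by
  obtain ⟨hi0, -⟩ := ord_q_pos hF h.hr h.ne
  unfold cU
  split_ifs <;> omega

/-- subspaces of given type -/
theorem PU.exists_sub (h : PU r B T) {W : Submodule F V} (hW : Inv T W) (hWnd : ND B W) {e' s' : ℕ}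
    (he : e' ≤ finrank F ↥(W ⊓ E T 1)) (hs : finrank F ↥(W ⊓ E T 1) + s' * cU (orderOf ((q : ℕ) : ZMod r)) ≤ finrank F W) :
    ∃ W' ≤ W, Inv T W' ∧ ND B W' ∧ finrank F W' = e' + s' * cU (orderOf ((q : ℕ) : ZMod r)) := by
  obtain ⟨ω, hω⟩ := UnSpec.exists_ne hF
  obtain ⟨h0, h1, h2, h3, h4, h5⟩ := h.split_E hW hWnd
  have hpos := h.cU_pos
  have hinvE : ∀ U ≤ W ⊓ E T 1, Inv T U := by
    intro U hU x hx
    have := Module.End.mem_eigenspace_iff.mp (hU hx).2
    rw [this, one_smul]; exact hx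
  obtain ⟨U, hU, hUi, hUnd, hUf⟩ := exists_sub_of_inv hω h.herm.refl h.nd h.iso hinvE h1 he
  obtain ⟨X, hX, hXi, hXnd, hXf⟩ := exists_mult h.herm.refl h.nd h.iso hpos (C := W ⊓ perp B (W ⊓ E T 1)) (by
    intro Y hY hYi hYnd hYne
    exact h.exists_atom hYi hYnd hYne (by rw [eq_bot_iff, ← h4]; exact inf_le_inf_right _ hY)) s' _ le_rfl h2 h3 (by omega)
  have horth : ∀ u ∈ U, ∀ x ∈ X, B u x = 0 := fun u hu x hx => (hX hx).2 u (hU hu)
  have hdisj : U ⊓ X = ⊥ := by
    rw [eq_bot_iff, ← h4]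
    exact le_inf (inf_le_right.trans hX) (inf_le_left.trans (hU.trans inf_le_right))
  have hnd' := nd_sup h.herm.refl hUnd hXnd horth
  have hf1 := Submodule.finrank_sup_add_finrank_inf_eq U X
  rw [hdisj, finrank_bot, hUf, hXf, add_zero] at hf1
  exact ⟨U ⊔ X, sup_le (hU.trans inf_le_left) (hX.trans inf_le_left), inv_sup hUi hXi, hnd', hf1⟩

end fin

end Cfsg.Agent.Lib.UnND
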