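import Mathlib
import Cfsg.Agent.Lib.UnND2
import Cfsg.Agent.Lib.SpND3
import Cfsg.Agent.Lib.HermType2
import Cfsg.Agent.Lib.UniPair3

set_option autoImplicit false
set_option linter.unusedSectionVars false

/-! Existence of isometries of hermitian spaces. (helper99) -/

namespace Cfsg.Agent.Lib.UnND

open Polynomial Module Cfsg.Agent.Lib.InvSub Cfsg.Agent.Lib.PrimeOrd Cfsg.Agent.Lib.Sesq Cfsg.Agent.Lib.UniPair
open Cfsg.Agent.Lib.ClUnitary (frob frob_frob)
open Cfsg.Agent.Lib.HermAlg (IsHerm)
open Cfsg.Agent.Lib.JordanNil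

section fin

variable {F : Type*} [Field F] [Fintype F] {q : ℕ}

theorem hf_eq' (hF : Fintype.card F = q ^ 2) {n : ℕ} (u v : Fin n → F) : HF hF n u v = Cfsg.hermForm n F q u v := rfl

theorem isHerm_std (hF : Fintype.card F = q ^ 2) (n : ℕ) : IsHerm (frob hF) 1 (Cfsg.hermForm n F q) :=
  { add_left := fun x y z => by
      show HF hF n (x + y) z = HF hF n x z + HF hF n y z
      rw [map_add]; rfl
    smul_left := fun c x y => by
      show HF hF n (c • x) y = c * HF hF n x y
      rw [LinearMap.map_smul]; rfl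
    symm := fun x y => by rw [one_mul]; exact hf_herm hF _ _
    nondeg := fun x hx => hf_nd hF x trivial (fun w _ => hx w) }

/-- transport to the standard space -/
theorem transport (hF : Fintype.card F = q ^ 2) {n : ℕ} {V : Type*} [AddCommGroup V] [Module F V] [FiniteDimensional F V] {h : V → V → F}
    (hh : IsHerm (frob hF) 1 h) (hn : finrank F V = n) {T₁ : Module.End F V} (hT₁ : ∀ x y, h (T₁ x) (T₁ y) = h x y) :
    ∃ (e : V ≃ₗ[F] (Fin n → F)) (T : Module.End F (Fin n → F)), (∀ x y, HF hF n (e x) (e y) = h x y) ∧ (∀ x, T (e x) = e (T₁ x)) ∧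
      Iso (HF hF n) T ∧ ∀ k : ℕ, T₁ ^ k = 1 → T ^ k = 1 := by
  obtain ⟨e, he⟩ := UnSpec.exists_standard hF n hh hn
  have he' : ∀ x y, HF hF n (e x) (e y) = h x y := he
  let T : Module.End F (Fin n → F) := (e : V →ₗ[F] _) ∘ₗ T₁ ∘ₗ (e.symm : _ →ₗ[F] V)
  have hT : ∀ x, T (e x) = e (T₁ x) := fun x => by
    show e (T₁ (e.symm (e x))) = _
    rw [LinearEquiv.symm_apply_apply]
  refine ⟨e, T, he', hT, ?_, ?_⟩
  · intro x y
    obtain ⟨x, rfl⟩ := e.surjective x
    obtain ⟨y, rfl⟩ := e.surjective y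
    rw [hT, hT, he', he', hT₁]
  · intro k hk
    have h1 : ∀ (k : ℕ) x, (T ^ k) (e x) = e ((T₁ ^ k) x) := by
      intro k
      induction k with
      | zero => intro x; rfl
      | succ k ih => intro x; rw [pow_succ, pow_succ, Module.End.mul_apply, Module.End.mul_apply, hT, ih]
    apply LinearMap.ext
    intro x
    obtain ⟨x, rfl⟩ := e.surjective x
    rw [h1, hk]; rfl

theorem finrank_E_transport {V W : Type*} [AddCommGroup V] [Module F V] [AddCommGroup W] [Module F W] (e : V ≃ₗ[F] W) {T : Module.End F W} {T₁ : Module.End F V}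
    (hT : ∀ x, T (e x) = e (T₁ x)) (a : F) : finrank F (E T a) = finrank F (E T₁ a) := by
  have : E T a = (E T₁ a).map (e : V →ₗ[F] W) := by
    ext y
    obtain ⟨x, rfl⟩ := e.surjective y
    rw [Module.End.mem_eigenspace_iff, hT]
    constructor
    · intro h
      refine ⟨x, ?_, rfl⟩
      rw [SetLike.mem_coe, Module.End.mem_eigenspace_iff]
      apply e.injective
      rw [h, map_smul]
    · rintro ⟨x', hx', hxx⟩
      have : x' = x := e.injective hxx
      rw [this, SetLike.mem_coe, Module.End.mem_eigenspace_iff] at hx'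
      rw [hx', map_smul]
  rw [this]
  exact LinearEquiv.finrank_map_eq e _

theorem pu_std (hF : Fintype.card F = q ^ 2) {n r : ℕ} (hr : r.Prime) (ho : Odd r) (hne : (r : F) ≠ 0) {T : Module.End F (Fin n → F)}
    (hT : Iso (HF hF n) T) (hTr : T ^ r = 1) : PU r (HF hF n) T :=
  ⟨hr, ho, hne, fun u v => hf_herm hF u v, hf_nd hF, hT, hTr⟩

/-- an isometry of order `r` of the atom without fixed points -/
theorem exists_pu_c (hF : Fintype.card F = q ^ 2) {r : ℕ} (hr : r.Prime) (ho : Odd r) (hne : (r : F) ≠ 0) {c : ℕ} (hc : c = cU (orderOf ((q : ℕ) : ZMod r))) :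
    ∃ T : Module.End F (Fin c → F), PU r (HF hF c) T ∧ E T 1 = ⊥ := by
  classical
  haveI : Fact r.Prime := ⟨hr⟩
  obtain ⟨hi0, hrq⟩ := ord_q_pos hF hr hne
  have hc0 : 0 < c := by rw [hc]; unfold cU; split_ifs <;> omega
  have hcard : r ∣ Nat.card (Cfsg.GU c F q) := by
    rw [ClUnitary.card_GU hF]
    apply Dvd.dvd.mul_left
    refine Dvd.dvd.trans ?_ (Finset.dvd_prod_of_mem _ (Finset.mem_range.2 (show c - 1 < c by omega)))
    have h1 := (cU_iff' hr ho (card_pos hF) rfl hi0 (j := c)).2 (hc ▸ dvd_rfl)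
    rw [show c - 1 + 1 = c by omega]
    by_cases he : Even c
    · rw [if_pos he] at h1
      rw [if_neg (by rw [Nat.even_sub (by omega)]; simp [he])]
      exact h1
    · rw [if_neg he] at h1
      rw [if_pos (by rw [Nat.even_sub (by omega)]; simp [he])]
      exact h1
  obtain ⟨x, hx⟩ := exists_prime_orderOf_dvd_card' r hcard
  have hxr : x ^ r = 1 := by rw [← hx]; exact pow_orderOf_eq_one x
  have hx1 : x ≠ 1 := by
    rintro rfl
    rw [orderOf_one] at hx
    exact hr.one_lt.ne hx
  obtain ⟨T, hT⟩ : ∃ T, T = Matrix.toLin' x.1.1 := ⟨_, rfl⟩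
  have hTr : T ^ r = 1 := by
    rw [hT, ← Matrix.toLin'_pow]
    have h1 := congrArg (fun y : ↥(Cfsg.GU c F q) => (y : GL (Fin c) F).1) hxr
    simp only [SubmonoidClass.coe_pow, Units.val_pow_eq_pow_val, OneMemClass.coe_one, Units.val_one] at h1
    rw [h1, Matrix.toLin'_one]; rfl
  have hpu := pu_std hF hr ho hne (T := T) (by rw [hT]; exact hf_iso hF x.2) hTr
  refine ⟨T, hpu, ?_⟩
  obtain ⟨s, hs⟩ := hpu.exists_s (W := ⊤) (fun _ _ => trivial) (hf_nd hF)
  rw [finrank_top, Module.finrank_fin_fun, top_inf_eq, ← hc] at hs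
  have hs1 : s ≠ 0 := by
    rintro rfl
    rw [Nat.zero_mul, add_zero] at hs
    have h1 : E T 1 = ⊤ := Submodule.eq_top_of_finrank_eq (by rw [← hs, Module.finrank_fin_fun])
    apply hx1
    apply Subtype.ext
    apply Units.ext
    apply Matrix.toLin'.injective
    apply LinearMap.ext
    intro v
    have h2 : v ∈ E T 1 := by rw [h1]; trivial
    rw [Module.End.mem_eigenspace_iff, one_smul] at h2
    show Matrix.toLin' x.1.1 v = Matrix.toLin' (1 : Matrix (Fin c) (Fin c) F) v
    rw [← hT, h2, Matrix.toLin'_one]; rfl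
  have hs2 : c ≤ s * c := Nat.le_mul_of_pos_left c (Nat.pos_of_ne_zero hs1)
  exact Submodule.finrank_eq_zero.1 (by omega)

/-- isometries of order `r` with `s` atoms -/
theorem exists_pu (hF : Fintype.card F = q ^ 2) {r : ℕ} (hr : r.Prime) (ho : Odd r) (hne : (r : F) ≠ 0) {n s k : ℕ}
    (hn : n = s * cU (orderOf ((q : ℕ) : ZMod r)) + k) :
    ∃ T : Module.End F (Fin n → F), PU r (HF hF n) T ∧ finrank F (E T 1) = k := by
  classical
  obtain ⟨c, hc⟩ : ∃ c, c = cU (orderOf ((q : ℕ) : ZMod r)) := ⟨_, rfl⟩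
  rw [← hc] at hn
  obtain ⟨T₀, hT₀, hE₀⟩ := exists_pu_c hF hr ho hne hc
  let V := (Fin s → Fin c → F) × (Fin k → F)
  let h : V → V → F := fun x y => (∑ j, Cfsg.hermForm c F q (x.1 j) (y.1 j)) + Cfsg.hermForm k F q x.2 y.2
  have i1 := isHerm_std hF c
  have i2 := isHerm_std hF k
  have hh : IsHerm (frob hF) 1 h :=
    { add_left := fun x y z => by
        show (∑ j, Cfsg.hermForm c F q (x.1 j + y.1 j) (z.1 j)) + Cfsg.hermForm k F q (x.2 + y.2) z.2 = _
        simp only [i1.add_left, i2.add_left, Finset.sum_add_distrib]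
        ring
      smul_left := fun a x y => by
        show (∑ j, Cfsg.hermForm c F q (a • x.1 j) (y.1 j)) + Cfsg.hermForm k F q (a • x.2) y.2 = _
        simp only [i1.smul_left, i2.smul_left, ← Finset.mul_sum]
        ring
      symm := fun x y => by
        show (∑ j, Cfsg.hermForm c F q (y.1 j) (x.1 j)) + Cfsg.hermForm k F q y.2 x.2 = 1 * (frob hF) _
        rw [map_add, map_sum, one_mul]
        congr 1
        · exact Finset.sum_congr rfl fun j _ => by rw [i1.symm, one_mul]
        · rw [i2.symm, one_mul]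
      nondeg := fun x hx => by
        apply Prod.ext
        · funext j
          apply i1.nondeg
          intro y
          have h1 := hx (Pi.single j y, 0)
          have h2 : h x (Pi.single j y, 0) = (∑ j', Cfsg.hermForm c F q (x.1 j') ((Pi.single j y : Fin s → Fin c → F) j')) + Cfsg.hermForm k F q x.2 0 := rfl
          rw [h2, i2.zero_right, add_zero, Finset.sum_eq_single j] at h1
          · rwa [Pi.single_eq_same] at h1
          · intro j' _ hj
            rw [Pi.single_eq_of_ne hj, i1.zero_right]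
          · intro hj; exact absurd (Finset.mem_univ _) hj
        · apply i2.nondeg
          intro y
          have h1 := hx (0, y)
          have h2 : h x (0, y) = (∑ j', Cfsg.hermForm c F q (x.1 j') 0) + Cfsg.hermForm k F q x.2 y := rfl
          rw [h2, Finset.sum_eq_zero (fun j' _ => i1.zero_right _), zero_add] at h1
          exact h1 }
  let T₁ : Module.End F V :=
    { toFun := fun x => (fun j => T₀ (x.1 j), x.2)
      map_add' := fun x y => by
        refine Prod.ext (funext fun j => ?_) rfl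
        exact map_add _ _ _
      map_smul' := fun a x => by
        refine Prod.ext (funext fun j => ?_) rfl
        exact T₀.map_smul _ _ }
  have hT₁ : ∀ x y, h (T₁ x) (T₁ y) = h x y := by
    intro x y
    show (∑ j, Cfsg.hermForm c F q (T₀ (x.1 j)) (T₀ (y.1 j))) + Cfsg.hermForm k F q x.2 y.2 = _
    congr 1
    exact Finset.sum_congr rfl fun j _ => hT₀.iso _ _
  have hfr : finrank F V = n := by
    rw [finrank_prod, Module.finrank_pi_fintype]
    simp only [Module.finrank_fin_fun, Finset.sum_const, Finset.card_univ, Fintype.card_fin, smul_eq_mul]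
    exact hn.symm
  obtain ⟨e, T, he, hT, hTi, hpow⟩ := transport hF hh hfr hT₁
  have hT₁r : T₁ ^ r = 1 := by
    have h1 : ∀ (l : ℕ) (x : V), (T₁ ^ l) x = (fun j => (T₀ ^ l) (x.1 j), x.2) := by
      intro l
      induction l with
      | zero => intro x; rfl
      | succ l ih => intro x; rw [pow_succ, Module.End.mul_apply, ih]; rfl
    apply LinearMap.ext
    intro x
    rw [h1, hT₀.pow]; rfl
  refine ⟨T, pu_std hF hr ho hne hTi (hpow r hT₁r), ?_⟩
  rw [finrank_E_transport e hT]
  have h1 : E T₁ 1 = LinearMap.range (LinearMap.inr F (Fin s → Fin c → F) (Fin k → F)) := by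
    ext x
    rw [Module.End.mem_eigenspace_iff, one_smul]
    constructor
    · intro hx
      refine ⟨x.2, Prod.ext (funext fun j => ?_) rfl⟩
      have h2 : T₀ (x.1 j) = x.1 j := congrFun (congrArg Prod.fst hx) j
      have h3 : x.1 j ∈ E T₀ 1 := by rw [Module.End.mem_eigenspace_iff, one_smul]; exact h2
      rw [hE₀] at h3
      exact ((Submodule.mem_bot F).1 h3).symm
    · rintro ⟨y, rfl⟩
      refine Prod.ext (funext fun j => ?_) rfl
      show T₀ 0 = 0
      rw [map_zero]
  rw [h1, LinearMap.finrank_range_of_inj LinearMap.inr_injective, Module.finrank_fin_fun]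

end fin

end Cfsg.Agent.Lib.UnND
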