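import Mathlib
import Cfsg.Agent.Lib.UnND3

set_option autoImplicit false
set_option linter.unusedSectionVars false

/-! Numbers of subspaces of hermitian spaces modulo a prime. (helper99) -/

namespace Cfsg.Agent.Lib.UnND

open Polynomial Module Cfsg.Agent.Lib.InvSub Cfsg.Agent.Lib.PrimeOrd Cfsg.Agent.Lib.Sesq Cfsg.Agent.Lib.UniPair
open Cfsg.Agent.Lib.ClUnitary (frob frob_frob)
open Cfsg.Agent.Lib.HermAlg (IsHerm)
open Cfsg.Agent.Lib.ClIso (isoGrp)

section gen

variable {F V : Type*} [Field F] [AddCommGroup V] [Module F V]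

theorem finrank_map_inj {U : Type*} [AddCommGroup U] [Module F U] {j : U →ₗ[F] V} (hj : Function.Injective j) (W : Submodule F U) :
    finrank F (W.map j) = finrank F W := (Submodule.equivMapOfInjective j hj W).finrank_eq.symm

/-- the length of an orbit divides the order of the group -/
theorem orbit_dvd (G : Subgroup (V ≃ₗ[F] V)) (P : Submodule F V → Prop) {W₀ : Submodule F V} (h0 : P W₀)
    (hinv : ∀ g ∈ G, ∀ W, P W → P (W.map (g : V →ₗ[F] V))) (htr : ∀ W, P W → ∃ g ∈ G, W₀.map (g : V →ₗ[F] V) = W) :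
    Nat.card {W // P W} ∣ Nat.card G := by
  classical
  letI : MulAction G (Submodule F V) :=
    { smul := fun g W => W.map ((g : V ≃ₗ[F] V) : V →ₗ[F] V)
      one_smul := fun W => by
        show W.map (((1 : G) : V ≃ₗ[F] V) : V →ₗ[F] V) = W
        exact Submodule.map_id W
      mul_smul := fun g h W => by
        show W.map (((g * h : G) : V ≃ₗ[F] V) : V →ₗ[F] V) = (W.map ((h : V ≃ₗ[F] V) : V →ₗ[F] V)).map ((g : V ≃ₗ[F] V) : V →ₗ[F] V)
        rw [← Submodule.map_comp]; rfl }
  have h1 : MulAction.orbit G W₀ = {W | P W} := by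
    ext W
    constructor
    · rintro ⟨g, rfl⟩
      exact hinv g.1 g.2 _ h0
    · intro hW
      obtain ⟨g, hg, hgW⟩ := htr W hW
      exact ⟨⟨g, hg⟩, hgW⟩
  have h2 := MulAction.index_stabilizer G W₀
  rw [h1] at h2
  have h3 : ({W | P W} : Set (Submodule F V)).ncard = Nat.card {W // P W} := rfl
  rw [← h3, ← h2]
  exact Subgroup.index_dvd_card _

/-- fixed points of an operator of prime order on a class of subspaces -/
theorem dvd_fixed [Finite V] [FiniteDimensional F V] {r : ℕ} [Fact r.Prime] {T : Module.End F V} (hT : T ^ r = 1) (P : Submodule F V → Prop)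
    (hP : ∀ W, P W → P (W.map T)) (hd : r ∣ Nat.card {W // P W}) : r ∣ Nat.card {W // P W ∧ Inv T W} := by
  classical
  have hinj : Function.Injective T := by
    intro x y hxy
    have h1 : ∀ z, (T ^ (r - 1)) (T z) = z := by
      intro z
      rw [← Module.End.mul_apply, ← pow_succ, Nat.sub_add_cancel (Fact.out : r.Prime).one_le, hT]; rfl
    rw [← h1 x, ← h1 y, hxy]
  haveI : Finite (Submodule F V) := Finite.of_injective (fun W : Submodule F V => (W : Set V)) SetLike.coe_injective
  have e1 : Nat.card {W // P W} = Nat.card {W // P W ∧ Inv T W} + Nat.card {W // P W ∧ ¬ Inv T W} := by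
    rw [← Nat.card_sum]
    refine Nat.card_congr ?_
    refine (Equiv.sumCompl (fun W : {W // P W} => Inv T W.1)).symm.trans (Equiv.sumCongr ?_ ?_)
    · exact Equiv.subtypeSubtypeEquivSubtypeInter P (fun W => Inv T W)
    · exact Equiv.subtypeSubtypeEquivSubtypeInter P (fun W => ¬ Inv T W)
  have e2 : r ∣ Nat.card {W // P W ∧ ¬ Inv T W} := by
    have hmapinv : ∀ W : Submodule F V, Inv T (W.map T) → Inv T W := by
      intro W hW x hx
      have h1 := hW (T x) (Submodule.mem_map_of_mem hx)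
      obtain ⟨y, hy, hyx⟩ := h1
      rw [← hinj hyx]; exact hy
    refine UnForm.dvd_card_of_free (fun W => ⟨W.1.map T, hP _ W.2.1, fun h => W.2.2 (hmapinv _ h)⟩) ?_ ?_
    · intro W
      apply Subtype.ext
      have h1 : ∀ k : ℕ, ((fun W : {W // P W ∧ ¬ Inv T W} => (⟨W.1.map T, hP _ W.2.1, fun h => W.2.2 (hmapinv _ h)⟩ : {W // P W ∧ ¬ Inv T W}))^[k] W).1 =
          W.1.map (T ^ k) := by
        intro k
        induction k with
        | zero => exact (Submodule.map_id _).symm
        | succ k ih =>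
          rw [Function.iterate_succ_apply', pow_succ']
          show (((fun W : {W // P W ∧ ¬ Inv T W} => (⟨W.1.map T, hP _ W.2.1, fun h => W.2.2 (hmapinv _ h)⟩ : {W // P W ∧ ¬ Inv T W}))^[k] W).1).map T = _
          rw [ih]
          exact (Submodule.map_comp _ _ _).symm
      rw [h1, hT]; exact Submodule.map_id _
    · intro W hW
      apply W.2.2
      intro x hx
      have h1 : W.1.map T = W.1 := congrArg Subtype.val hW
      rw [← h1]; exact Submodule.mem_map_of_mem hx
  rw [e1] at hd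
  exact (Nat.dvd_add_iff_left e2).2 hd

/-- subspaces of a subspace -/
theorem card_sub {U : Type*} [AddCommGroup U] [Module F U] {j : U →ₗ[F] V} (hj : Function.Injective j) {P : Submodule F V → Prop}
    {P' : Submodule F U → Prop} (h : ∀ W, P' W ↔ P (W.map j)) :
    Nat.card {W // P W ∧ W ≤ LinearMap.range j} = Nat.card {W // P' W} := by
  refine Nat.card_congr ?_
  refine (Equiv.ofBijective (fun W : {W // P' W} => (⟨W.1.map j, (h _).1 W.2, LinearMap.map_le_range⟩ : {W // P W ∧ W ≤ LinearMap.range j})) ⟨?_, ?_⟩).symm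
  · intro W W' hWW
    apply Subtype.ext
    exact Submodule.map_injective_of_injective hj (congrArg Subtype.val hWW)
  · intro W
    have h1 : (W.1.comap j).map j = W.1 := Submodule.map_comap_eq_of_le W.2.2
    refine ⟨⟨W.1.comap j, ?_⟩, Subtype.ext h1⟩
    rw [h, h1]
    exact W.2.1

variable {σ : F →+* F} {B : V →ₗ[F] V →ₛₗ[σ] F}

theorem nd_map {U : Type*} [AddCommGroup U] [Module F U] {B' : U →ₗ[F] U →ₛₗ[σ] F} {j : U →ₗ[F] V} (hj : Function.Injective j)
    (h : ∀ x y, B (j x) (j y) = B' x y) (W : Submodule F U) : ND B' W ↔ ND B (W.map j) := by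
  constructor
  · rintro hW _ ⟨x, hx, rfl⟩ h'
    have : x = 0 := hW x hx (fun w hw => by rw [← h]; exact h' _ (Submodule.mem_map_of_mem hw))
    rw [this, map_zero]
  · intro hW x hx h'
    apply hj
    rw [map_zero]
    apply hW _ (Submodule.mem_map_of_mem hx)
    rintro _ ⟨y, hy, rfl⟩
    rw [h]; exact h' y hy

theorem ti_map {U : Type*} [AddCommGroup U] [Module F U] {B' : U →ₗ[F] U →ₛₗ[σ] F} {j : U →ₗ[F] V}
    (h : ∀ x y, B (j x) (j y) = B' x y) (W : Submodule F U) : TI B' W ↔ TI B (W.map j) := by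
  constructor
  · rintro hW _ ⟨x, hx, rfl⟩ _ ⟨y, hy, rfl⟩
    rw [h]; exact hW x hx y hy
  · intro hW x hx y hy
    rw [← h]; exact hW _ (Submodule.mem_map_of_mem hx) _ (Submodule.mem_map_of_mem hy)

end gen

section fin

variable {F : Type*} [Field F] [Fintype F] {q : ℕ}

/-- a nondegenerate subspace is isometric to a standard one -/
theorem exists_emb (hF : Fintype.card F = q ^ 2) {V : Type*} [AddCommGroup V] [Module F V] [FiniteDimensional F V]
    {B : V →ₗ[F] V →ₛₗ[frob hF] F} (hB : Hm B) {W : Submodule F V} (hW : ND B W) {k : ℕ} (hk : finrank F W = k) :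
    ∃ j : (Fin k → F) →ₗ[F] V, Function.Injective j ∧ LinearMap.range j = W ∧ ∀ x y, B (j x) (j y) = HF hF k x y := by
  have hh : Cfsg.Agent.Lib.HermAlg.IsHerm (frob hF) 1 (fun x y : W => B x.1 y.1) :=
    { add_left := fun x y z => by
        show B (x.1 + y.1) z.1 = _
        rw [map_add]; rfl
      smul_left := fun c x y => by
        show B (c • x.1) y.1 = _
        rw [LinearMap.map_smul]; rfl
      symm := fun x y => by rw [one_mul]; exact hB _ _
      nondeg := fun x hx => Subtype.ext (hW x.1 x.2 (fun w hw => hx ⟨w, hw⟩)) }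
  obtain ⟨e, he⟩ := UnSpec.exists_standard hF k hh hk
  refine ⟨W.subtype ∘ₗ (e.symm : (Fin k → F) →ₗ[F] W), ?_, ?_, ?_⟩
  · exact W.injective_subtype.comp e.symm.injective
  · rw [LinearMap.range_comp, LinearEquiv.range, Submodule.map_top, Submodule.range_subtype]
  · intro x y
    show B (e.symm x).1 (e.symm y).1 = _
    have := he (e.symm x) (e.symm y)
    rw [LinearEquiv.apply_symm_apply, LinearEquiv.apply_symm_apply] at this
    exact this.symm

/-- Witt: same Gram matrices -/
theorem exists_iso_of_emb (hF : Fintype.card F = q ^ 2) {k m : ℕ} {j j' : (Fin m → F) →ₗ[F] (Fin k → F)} (hj : Function.Injective j)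
    (hj' : Function.Injective j') (h : ∀ x y, HF hF k (j x) (j y) = HF hF k (j' x) (j' y)) :
    ∃ g ∈ isoGrp F (Cfsg.hermForm k F q), (LinearMap.range j).map (g : (Fin k → F) →ₗ[F] (Fin k → F)) = LinearMap.range j' := by
  have hli : ∀ {j : (Fin m → F) →ₗ[F] (Fin k → F)}, Function.Injective j → LinearIndependent F (fun a => j (Pi.basisFun F (Fin m) a)) :=
    fun {j} hj => (Pi.basisFun F (Fin m)).linearIndependent.map' j (LinearMap.ker_eq_bot.2 hj)
  obtain ⟨g, hg⟩ := ClUnitary.witt_family hF (fun a => j (Pi.basisFun F (Fin m) a)) (fun a => j' (Pi.basisFun F (Fin m) a)) (hli hj) (hli hj')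
    (fun a b => h _ _)
  refine ⟨g.1, g.2, ?_⟩
  have h1 : (g.1 : (Fin k → F) →ₗ[F] (Fin k → F)) ∘ₗ j = j' := (Pi.basisFun F (Fin m)).ext (fun a => hg a)
  rw [← LinearMap.range_comp, h1]

/-- `r` does not divide the order of small unitary groups -/
theorem not_dvd_iso (hF : Fintype.card F = q ^ 2) {r : ℕ} (hr : r.Prime) (ho : Odd r) (hne : (r : F) ≠ 0) {k : ℕ}
    (hk : k < cU (orderOf ((q : ℕ) : ZMod r))) : ¬ r ∣ Nat.card (isoGrp F (Cfsg.hermForm k F q)) := by
  haveI : Fact r.Prime := ⟨hr⟩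
  obtain ⟨hi0, hrq⟩ := ord_q_pos hF hr hne
  rw [ClUnitary.card_iso hF]
  intro h
  rcases (Nat.Prime.dvd_mul hr).1 h with h | h
  · exact hrq (hr.dvd_of_dvd_pow h)
  · rw [hr.prime.dvd_finset_prod_iff] at h
    obtain ⟨a, ha, had⟩ := h
    rw [Finset.mem_range] at ha
    have h1 := (cU_iff' hr ho (card_pos hF) rfl hi0 (j := a + 1)).1 (by
      by_cases he : Even a
      · rw [if_pos he] at had
        rw [if_neg (by rw [Nat.even_add_one]; exact fun h => h he)]
        exact had
      · rw [if_neg he] at had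
        rw [if_pos (by rw [Nat.even_add_one]; exact he)]
        exact had)
    have h2 := Nat.le_of_dvd (by omega) h1
    omega

/-- the number of subspaces of a given kind is not divisible by `r` -/
theorem not_dvd_omega (hF : Fintype.card F = q ^ 2) {r n : ℕ} {T : Module.End F (Fin n → F)} (h : PU r (HF hF n) T)
    (hk : finrank F (E T 1) < cU (orderOf ((q : ℕ) : ZMod r))) {m : ℕ}
    {Q : ∀ n : ℕ, Submodule F (Fin n → F) → Prop} (hQ : ∀ {k n : ℕ} {j : (Fin k → F) →ₗ[F] (Fin n → F)}, Function.Injective j →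
      (∀ x y, HF hF n (j x) (j y) = HF hF k x y) → ∀ W, Q k W ↔ Q n (W.map j))
    (hle : ∀ W : Submodule F (Fin n → F), finrank F W = m → Q n W → Inv T W → W ≤ E T 1) {W₀ : Submodule F (Fin (finrank F (E T 1)) → F)} (h0 : finrank F W₀ = m) (hQ0 : Q _ W₀)
    (htr : ∀ {k : ℕ} (W W' : Submodule F (Fin k → F)), finrank F W = m → finrank F W' = m → Q k W → Q k W' →
      ∃ g ∈ isoGrp F (Cfsg.hermForm k F q), W.map (g : (Fin k → F) →ₗ[F] (Fin k → F)) = W') :
    ¬ r ∣ Nat.card {W : Submodule F (Fin n → F) // finrank F W = m ∧ Q n W} := by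
  haveI : Fact r.Prime := ⟨h.hr⟩
  intro hd
  have hinj : Function.Injective T := h.iso.injective h.nd
  have h1 := dvd_fixed h.pow (fun W => finrank F W = m ∧ Q n W) (by
    rintro W ⟨h1, h2⟩
    exact ⟨by rw [finrank_map_inj hinj]; exact h1, (hQ hinj (fun x y => h.iso x y) W).1 h2⟩) hd
  have hnd : ND (HF hF n) (E T 1) := by
    have := nd_inf_E h.iso h.ne h.pow (W := ⊤) (fun _ _ => trivial) h.nd
    rwa [top_inf_eq] at this
  obtain ⟨j, hj, hjr, hjB⟩ := exists_emb hF h.herm hnd rfl
  have h2 : Nat.card {W : Submodule F (Fin n → F) // (finrank F W = m ∧ Q n W) ∧ Inv T W} =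
      Nat.card {W : Submodule F (Fin n → F) // (finrank F W = m ∧ Q n W) ∧ W ≤ LinearMap.range j} := by
    refine Nat.card_congr (Equiv.subtypeEquivRight ?_)
    intro W
    refine and_congr_right ?_
    rintro ⟨h2, h3⟩
    rw [hjr]
    refine ⟨hle W h2 h3, fun hW x hx => ?_⟩
    have := Module.End.mem_eigenspace_iff.mp (hW hx)
    rw [this, one_smul]; exact hx
  rw [h2, card_sub hj (P' := fun W => finrank F W = m ∧ Q _ W) (fun W => by
    rw [finrank_map_inj hj, hQ hj hjB])] at h1
  refine not_dvd_iso hF h.hr h.odd h.ne hk (h1.trans ?_)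
  refine orbit_dvd _ _ (W₀ := W₀) ⟨h0, hQ0⟩ ?_ ?_
  · rintro g hg W ⟨h3, h4⟩
    have hgi : Function.Injective (g : (Fin (finrank F (E T 1)) → F) →ₗ[F] (Fin (finrank F (E T 1)) → F)) := g.injective
    exact ⟨by rw [finrank_map_inj hgi]; exact h3, (hQ hgi (fun x y => hg x y) W).1 h4⟩
  · rintro W ⟨h3, h4⟩
    exact htr _ _ h0 h3 hQ0 h4

end fin

end Cfsg.Agent.Lib.UnND
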