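import Mathlib
import Cfsg.Agent.Lib.UnND4

set_option autoImplicit false
set_option linter.unusedSectionVars false

/-! Nondegenerate subspaces invariant under elements of odd prime order; reductions. (helper99) -/

namespace Cfsg.Agent.Lib.UnND

open Polynomial Module Cfsg.Agent.Lib.InvSub Cfsg.Agent.Lib.PrimeOrd Cfsg.Agent.Lib.Sesq Cfsg.Agent.Lib.UniPair
open Cfsg.Agent.Lib.ClUnitary (frob frob_frob)
open Cfsg.Agent.Lib.HermAlg (IsHerm)
open Cfsg.Agent.Lib.ClIso (isoGrp)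
open Cfsg.Agent.Lib.ElusiveLin (tl tl_pow tl_eq_smul_iff det_tl exists_SL)

variable {F : Type*} [Field F] [Fintype F] {q : ℕ}

theorem nd_trans (hF : Fintype.card F = q ^ 2) {k m : ℕ} (W W' : Submodule F (Fin k → F)) (h1 : finrank F W = m) (h2 : finrank F W' = m)
    (h3 : ND (HF hF k) W) (h4 : ND (HF hF k) W') :
    ∃ g ∈ isoGrp F (Cfsg.hermForm k F q), W.map (g : (Fin k → F) →ₗ[F] (Fin k → F)) = W' := by
  obtain ⟨j, hj, hjr, hjB⟩ := exists_emb hF (fun u v => hf_herm hF u v) h3 h1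
  obtain ⟨j', hj', hjr', hjB'⟩ := exists_emb hF (fun u v => hf_herm hF u v) h4 h2
  obtain ⟨g, hg, hgr⟩ := exists_iso_of_emb hF hj hj' (fun x y => by rw [hjB, hjB'])
  exact ⟨g, hg, by rw [← hjr, hgr, hjr']⟩

theorem exists_nd (hF : Fintype.card F = q ^ 2) {k m : ℕ} (hm : m ≤ k) : ∃ W : Submodule F (Fin k → F), finrank F W = m ∧ ND (HF hF k) W := by
  obtain ⟨ω, hω⟩ := UnSpec.exists_ne hF
  obtain ⟨U, -, -, h1, h2⟩ := exists_sub_of_inv (V := Fin k → F) hω (hf_refl hF) (hf_nd hF) (T := 1) (fun _ _ => rfl) (C := ⊤) (fun U _ x hx => hx)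
    (hf_nd hF) (e := m) (by rw [finrank_top, Module.finrank_fin_fun]; exact hm)
  exact ⟨U, h2, h1⟩

theorem not_dvd_nd (hF : Fintype.card F = q ^ 2) {r : ℕ} (hr : r.Prime) (ho : Odd r) (hne : (r : F) ≠ 0) {n m : ℕ}
    (hm : m < cU (orderOf ((q : ℕ) : ZMod r))) (hmn : m ≤ n % cU (orderOf ((q : ℕ) : ZMod r))) :
    ¬ r ∣ Nat.card {W : Submodule F (Fin n → F) // finrank F W = m ∧ ND (HF hF n) W} := by
  obtain ⟨T, hT, hE⟩ := exists_pu hF hr ho hne (n := n) (s := n / cU (orderOf ((q : ℕ) : ZMod r))) (k := n % cU (orderOf ((q : ℕ) : ZMod r)))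
    (by rw [mul_comm]; exact (Nat.div_add_mod _ _).symm)
  have hc := hT.cU_pos
  obtain ⟨W₀, h1, h2⟩ := exists_nd hF (k := finrank F (E T 1)) (m := m) (by rw [hE]; exact hmn)
  refine not_dvd_omega hF hT (by rw [hE]; exact Nat.mod_lt _ hc) (Q := fun n W => ND (HF hF n) W) (fun hj h W => nd_map hj h W) ?_ h1 h2
    (fun W W' a b c d => nd_trans hF W W' a b c d)
  intro W hWm hWnd hW
  obtain ⟨s, hs⟩ := hT.exists_s hW hWnd
  rw [hWm] at hs
  have hs0 : s = 0 := by
    by_contra h0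
    have := Nat.le_mul_of_pos_left (cU (orderOf ((q : ℕ) : ZMod r))) (Nat.pos_of_ne_zero h0)
    omega
  rw [hs0, Nat.zero_mul, add_zero] at hs
  exact inf_eq_left.1 (Submodule.eq_of_le_of_finrank_eq inf_le_left (by rw [hWm, ← hs]))

theorem PU.ne_one_of {n : ℕ} {T : Module.End F (Fin n → F)} (h : finrank F (E T 1) < n) : T ≠ 1 := by
  rintro rfl
  have h1 : E (1 : Module.End F (Fin n → F)) 1 = ⊤ := by
    rw [eq_top_iff]
    intro x _
    rw [Module.End.mem_eigenspace_iff, one_smul]; rfl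
  rw [h1, finrank_top, Module.finrank_fin_fun] at h
  exact lt_irrefl _ h

theorem odd_iff (hF : Fintype.card F = q ^ 2) {r : ℕ} (hr : r.Prime) (ho : Odd r) (hne : (r : F) ≠ 0) {n m : ℕ} (hmn : 2 * m < n)
    (hΩ : r ∣ Nat.card {W : Submodule F (Fin n → F) // finrank F W = m ∧ ND (HF hF n) W}) :
    (∀ T : Module.End F (Fin n → F), PU r (HF hF n) T → T ≠ 1 → ∃ W : Submodule F (Fin n → F), finrank F W = m ∧ ND (HF hF n) W ∧ Inv T W) ↔
    (cU (orderOf ((q : ℕ) : ZMod r)) ≤ m ∧ m % cU (orderOf ((q : ℕ) : ZMod r)) ≤ n % cU (orderOf ((q : ℕ) : ZMod r))) := by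
  have hnot := fun h1 h2 => not_dvd_nd hF hr ho hne (n := n) (m := m) h1 h2 hΩ
  obtain ⟨c, hc⟩ : ∃ c, c = cU (orderOf ((q : ℕ) : ZMod r)) := ⟨_, rfl⟩
  rw [← hc] at hnot ⊢
  have hc0 : 0 < c := by
    obtain ⟨hi0, -⟩ := ord_q_pos hF hr hne
    rw [hc]; unfold cU
    split_ifs <;> omega
  constructor
  · intro H
    have hcn : c ≤ n := by
      by_contra hcn
      have h1 : n % c = n := Nat.mod_eq_of_lt (by omega)
      exact hnot (by omega) (by omega)
    obtain ⟨T, hT, hE⟩ := exists_pu hF hr ho hne (n := n) (s := n / c) (k := n % c) (by rw [← hc, mul_comm]; exact (Nat.div_add_mod _ _).symm)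
    have hlt := Nat.mod_lt n hc0
    obtain ⟨W, hWm, hWnd, hW⟩ := H T hT (PU.ne_one_of (by rw [hE]; omega))
    obtain ⟨s, hs⟩ := hT.exists_s hW hWnd
    rw [hWm, ← hc] at hs
    have h1 : finrank F ↥(W ⊓ E T 1) ≤ n % c := by rw [← hE]; exact Submodule.finrank_mono inf_le_right
    have h2 : m % c = finrank F ↥(W ⊓ E T 1) := by
      rw [hs, Nat.add_mul_mod_self_right, Nat.mod_eq_of_lt (by omega)]
    refine ⟨?_, by rw [h2]; exact h1⟩
    by_contra hcm
    have h3 : m % c = m := Nat.mod_eq_of_lt (by omega)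
    exact hnot (by omega) (by omega)
  · rintro ⟨h1, h2⟩ T hT hT1
    obtain ⟨s, hs⟩ := hT.exists_s (W := ⊤) (fun _ _ => trivial) (hf_nd hF)
    rw [finrank_top, Module.finrank_fin_fun, top_inf_eq, ← hc] at hs
    have h3 : n % c ≤ finrank F (E T 1) := by
      have h4 : n % c = finrank F (E T 1) % c := by
        conv_lhs => rw [hs]
        exact Nat.add_mul_mod_self_right _ _ _
      rw [h4]; exact Nat.mod_le _ _
    have key : ∃ e' s', e' ≤ finrank F (E T 1) ∧ s' ≤ s ∧ e' + s' * c = m := by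
      by_cases hle : m / c ≤ s
      · exact ⟨m % c, m / c, by omega, hle, by rw [mul_comm]; exact Nat.mod_add_div _ _⟩
      · push Not at hle
        have h4 : s * c ≤ m := (Nat.mul_le_mul_right c hle.le).trans (Nat.div_mul_le_self m c)
        exact ⟨m - s * c, s, by omega, le_rfl, by omega⟩
    obtain ⟨e', s', he, hs', hes⟩ := key
    obtain ⟨W, -, hW, hWnd, hWf⟩ := hT.exists_sub (W := ⊤) (fun _ _ => trivial) (hf_nd hF) (e' := e') (s' := s') (by rw [top_inf_eq]; exact he)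
      (by
        rw [top_inf_eq, finrank_top, Module.finrank_fin_fun, ← hc]
        have := Nat.mul_le_mul_right c hs'
        omega)
    exact ⟨W, by rw [hWf, ← hc]; exact hes, hWnd, hW⟩

/-! ### reductions -/

theorem z_norm (hF : Fintype.card F = q ^ 2) {n r : ℕ} (hn : 0 < n) {T : Module.End F (Fin n → F)} (hT : Iso (HF hF n) T) {z : F}
    (hz : T ^ r = z • (1 : Module.End F (Fin n → F))) : z ^ (q + 1) = 1 := by
  obtain ⟨ω, hω⟩ := UnSpec.exists_ne hF
  haveI : Nonempty (Fin n) := ⟨⟨0, hn⟩⟩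
  obtain ⟨v, -, hv⟩ := exists_line hω (hf_nd hF (n := n)) (by exact top_ne_bot)
  have h1 := hT.pow r v v
  rw [hz] at h1
  change HF hF n (z • v) (z • v) = _ at h1
  rw [LinearMap.map_smul, LinearMap.map_smulₛₗ, LinearMap.smul_apply, smul_eq_mul, smul_eq_mul, ← mul_assoc] at h1
  have h2 : (frob hF z * z - 1) * HF hF n v v = 0 := by rw [sub_mul, one_mul, h1, sub_self]
  have h3 := sub_eq_zero.1 ((mul_eq_zero.1 h2).resolve_right hv)
  rw [pow_succ]; exact h3

theorem smul_iso (hF : Fintype.card F = q ^ 2) {n : ℕ} {T : Module.End F (Fin n → F)} (hT : Iso (HF hF n) T) {y : F} (hy : y ^ (q + 1) = 1) :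
    Iso (HF hF n) (y • T) := by
  intro u v
  change HF hF n (y • T u) (y • T v) = _
  rw [LinearMap.map_smul, LinearMap.map_smulₛₗ, LinearMap.smul_apply, smul_eq_mul, smul_eq_mul, ← mul_assoc, hT]
  have : frob hF y * y = 1 := by rw [← hy, pow_succ]; rfl
  rw [this, one_mul]

theorem exists_root (hF : Fintype.card F = q ^ 2) {r : ℕ} (hr : r.Prime) (h : ¬ r ∣ q + 1) {z : F} (hz : z ^ (q + 1) = 1) :
    ∃ y : F, y ^ (q + 1) = 1 ∧ y ^ r = z := by
  have hcop : Nat.Coprime r (q + 1) := (Nat.Prime.coprime_iff_not_dvd hr).2 h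
  obtain ⟨a, -, ha⟩ := Nat.exists_mul_mod_eq_one_of_coprime hcop (by have := card_pos hF; omega)
  refine ⟨z ^ a, by rw [← pow_mul, mul_comm, pow_mul, hz, one_pow], ?_⟩
  rw [← pow_mul, mul_comm, ← Nat.div_add_mod (r * a) (q + 1), ha, pow_add, pow_mul, hz, one_pow, one_mul, pow_one]

theorem det_iso (hF : Fintype.card F = q ^ 2) {n : ℕ} {T : Module.End F (Fin n → F)} (hT : Iso (HF hF n) T) : (LinearMap.det T) ^ (q + 1) = 1 := by
  have h1 : ClUnitary.IsUn q (LinearMap.toMatrix' T) := by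
    intro u v
    have h2 := hT u v
    change Cfsg.hermForm n F q (Matrix.toLin' (LinearMap.toMatrix' T) u) (Matrix.toLin' (LinearMap.toMatrix' T) v) = _
    rw [Matrix.toLin'_toMatrix']
    exact h2
  have := h1.det_pow hF
  rwa [LinearMap.det_toMatrix'] at this

theorem su_red (hF : Fintype.card F = q ^ 2) {n r : ℕ} (Φ : Module.End F (Fin n → F) → Prop) :
    (∀ x : Matrix.SpecialLinearGroup (Fin n) F, x ∈ Cfsg.SU n F q →
      (∃ z : F, ((x ^ r : Matrix.SpecialLinearGroup (Fin n) F) : Matrix (Fin n) (Fin n) F) = z • (1 : Matrix (Fin n) (Fin n) F)) →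
      (∀ z : F, (x : Matrix (Fin n) (Fin n) F) ≠ z • (1 : Matrix (Fin n) (Fin n) F)) → Φ (tl x)) ↔
    (∀ T : Module.End F (Fin n → F), Iso (HF hF n) T → LinearMap.det T = 1 → (∃ z : F, T ^ r = z • (1 : Module.End F (Fin n → F))) →
      (∀ z : F, T ≠ z • (1 : Module.End F (Fin n → F))) → Φ T) := by
  constructor
  · intro H T hT hd ⟨z, hz⟩ hns
    obtain ⟨x, rfl⟩ := exists_SL T hd
    refine H x ?_ ⟨z, ?_⟩ (fun z' hz' => hns z' ((tl_eq_smul_iff x z').2 hz'))
    · rw [ClUnitary.mem_SU]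
      intro u v
      exact hT u v
    · rw [← tl_eq_smul_iff, ← tl_pow, hz]
  · intro H x hx ⟨z, hz⟩ hns
    refine H (tl x) (fun u v => ?_) (det_tl x) ⟨z, ?_⟩ (fun z' hz' => hns z' ((tl_eq_smul_iff x z').1 hz'))
    · rw [ClUnitary.mem_SU] at hx
      exact hx u v
    · rw [tl_pow, tl_eq_smul_iff, hz]

theorem smul_pow_end {n : ℕ} (y : F) (T : Module.End F (Fin n → F)) (r : ℕ) : (y • T) ^ r = y ^ r • T ^ r := smul_pow y T r

theorem scalar_inj {n : ℕ} (hn : 0 < n) {a b : F} (h : a • (1 : Module.End F (Fin n → F)) = b • (1 : Module.End F (Fin n → F))) : a = b := by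
  haveI : Nonempty (Fin n) := ⟨⟨0, hn⟩⟩
  obtain ⟨v, hv⟩ := exists_ne (0 : Fin n → F)
  have h1 := congrArg (fun f : Module.End F (Fin n → F) => f v) h
  change a • v = b • v at h1
  exact smul_left_injective F hv h1

/-- reduction to isometries of order `r` when `r` is odd and does not divide `q+1` -/
theorem odd_red (hF : Fintype.card F = q ^ 2) {n r : ℕ} (hn : 0 < n) (hr : r.Prime) (ho : Odd r) (hne : (r : F) ≠ 0) (hq : ¬ r ∣ q + 1)
    (Q : Submodule F (Fin n → F) → Prop) :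
    (∀ T : Module.End F (Fin n → F), Iso (HF hF n) T → LinearMap.det T = 1 → (∃ z : F, T ^ r = z • (1 : Module.End F (Fin n → F))) →
      (∀ z : F, T ≠ z • (1 : Module.End F (Fin n → F))) → ∃ W, Q W ∧ Inv T W) ↔
    (∀ T : Module.End F (Fin n → F), PU r (HF hF n) T → T ≠ 1 → ∃ W, Q W ∧ Inv T W) := by
  have hcop : ∀ x : F, x ^ r = 1 → x ^ (q + 1) = 1 → x = 1 := by
    intro x h1 h2
    have h3 := pow_gcd_eq_one.2 ⟨h1, h2⟩
    rwa [(Nat.Prime.coprime_iff_not_dvd hr).2 hq, pow_one] at h3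
  constructor
  · intro H T hT hT1
    refine H T hT.iso (hcop _ (by rw [← map_pow, hT.pow, map_one]) (det_iso hF hT.iso)) ⟨1, by rw [hT.pow, one_smul]⟩ ?_
    rintro z rfl
    apply hT1
    have h1 : z ^ (q + 1) = 1 := z_norm hF hn (r := 1) hT.iso (by rw [pow_one])
    have h2 : z ^ r = 1 := by
      have := hT.pow
      rw [smul_pow_end, one_pow] at this
      exact scalar_inj hn (by rw [this, one_smul])
    rw [hcop z h2 h1, one_smul]
  · intro H T hT hd ⟨z, hz⟩ hns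
    obtain ⟨y, hy, hyz⟩ := exists_root hF hr hq (z_norm hF hn hT hz)
    have hy0 : y ≠ 0 := by
      rintro rfl
      rw [zero_pow (by omega)] at hy
      exact zero_ne_one hy
    have hyi : (y⁻¹) ^ (q + 1) = 1 := by rw [_root_.inv_pow, hy, inv_one]
    obtain ⟨W, hW1, hW2⟩ := H (y⁻¹ • T) (pu_std hF hr ho hne (smul_iso hF hT hyi) (by
      rw [smul_pow_end, hz, _root_.inv_pow, hyz, smul_smul, inv_mul_cancel₀ (by rw [← hyz]; exact pow_ne_zero _ hy0), one_smul])) (fun h => by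
      apply hns y
      rw [← h, smul_smul, mul_inv_cancel₀ hy0, one_smul])
    exact ⟨W, hW1, (inv_smul (inv_ne_zero hy0)).1 hW2⟩

end Cfsg.Agent.Lib.UnND
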