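import Mathlib
import Cfsg.Agent.Lib.UnND5

set_option autoImplicit false
set_option linter.unusedSectionVars false

/-! Elements whose `r`-th power is a scalar, `r` dividing `q + 1`. (helper99) -/

namespace Cfsg.Agent.Lib.UnND

open Polynomial Module Cfsg.Agent.Lib.InvSub Cfsg.Agent.Lib.PrimeOrd Cfsg.Agent.Lib.Sesq Cfsg.Agent.Lib.UniPair
open Cfsg.Agent.Lib.ClUnitary (frob frob_frob)
open Cfsg.Agent.Lib.HermAlg (IsHerm)
open Cfsg.Agent.Lib.ClIso (isoGrp)
open Cfsg.Agent.Lib.ElusiveLin (tl tl_pow tl_eq_smul_iff det_tl exists_SL)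

variable {F : Type*} [Field F] [Fintype F] {q : ℕ}

/-- monomial isometries -/
theorem mono_iso (hF : Fintype.card F = q ^ 2) {n : ℕ} (π : Equiv.Perm (Fin n)) {c : Fin n → F} (hc : ∀ i, c i ^ (q + 1) = 1) :
    ∃ T : Module.End F (Fin n → F), Iso (HF hF n) T ∧ ∀ (k : ℕ) (x : Fin n → F) (i : Fin n),
      (T ^ k) x i = (∏ j ∈ Finset.range k, c ((π ^ j) i)) * x ((π ^ k) i) := by
  let T : Module.End F (Fin n → F) :=
    { toFun := fun x i => c i * x (π i)
      map_add' := fun x y => by funext i; simp only [Pi.add_apply]; ring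
      map_smul' := fun a x => by funext i; simp only [Pi.smul_apply, smul_eq_mul, RingHom.id_apply]; ring }
  refine ⟨T, ?_, ?_⟩
  · intro x y
    rw [hf_eq, hf_eq]
    change ∑ i, (c i * x (π i)) * frob hF (c i * y (π i)) = _
    rw [← Equiv.sum_comp π (fun i => x i * frob hF (y i))]
    refine Finset.sum_congr rfl fun i _ => ?_
    rw [map_mul]
    have : c i * frob hF (c i) = 1 := by rw [← hc i, pow_succ, mul_comm]; rfl
    linear_combination (x (π i) * frob hF (y (π i))) * this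
  · intro k
    induction k with
    | zero => intro x i; simp
    | succ k ih =>
      intro x i
      rw [pow_succ, Module.End.mul_apply, ih, Finset.prod_range_succ]
      change _ * (c ((π ^ k) i) * x (π ((π ^ k) i))) = _
      rw [pow_succ', Equiv.Perm.mul_apply, mul_assoc]

theorem exists_typeC_un (hF : Fintype.card F = q ^ 2) {r k n : ℕ} (hr : 0 < r) (hn : n = r * k) {z : F} (hz : z ^ (q + 1) = 1) :
    ∃ T : Module.End F (Fin n → F), Iso (HF hF n) T ∧ T ^ r = z • (1 : Module.End F (Fin n → F)) := by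
  classical
  haveI : NeZero r := ⟨hr.ne'⟩
  have hcard : Fintype.card (Fin k × ZMod r) = Fintype.card (Fin n) := by
    rw [Fintype.card_prod, Fintype.card_fin, Fintype.card_fin, ZMod.card, hn, mul_comm]
  let e : Fin k × ZMod r ≃ Fin n := Fintype.equivOfCardEq hcard
  let p : Equiv.Perm (Fin k × ZMod r) := (Equiv.refl _).prodCongr (Equiv.addRight (1 : ZMod r))
  let π : Equiv.Perm (Fin n) := (e.symm.trans p).trans e
  have hπ : ∀ (j : ℕ) (i : Fin n), (π ^ j) i = e ((e.symm i).1, (e.symm i).2 + j) := by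
    intro j
    induction j with
    | zero => intro i; simp
    | succ j ih =>
      intro i
      rw [pow_succ', Equiv.Perm.mul_apply, ih]
      change e (p (e.symm (e _))) = _
      rw [Equiv.symm_apply_apply]
      change e (_, _ + 1) = _
      congr 2
      push_cast; ring
  obtain ⟨T, hT, hpow⟩ := mono_iso hF π (c := fun i => if (e.symm i).2 = 0 then z else 1) (by
    intro i
    split_ifs
    · exact hz
    · exact one_pow _)
  refine ⟨T, hT, ?_⟩
  apply LinearMap.ext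
  intro x
  funext i
  rw [hpow, hπ]
  change _ = z * x i
  rw [ZMod.natCast_self, add_zero, Prod.mk.eta, Equiv.apply_symm_apply]
  congr 1
  rw [Finset.prod_eq_single (-(e.symm i).2).val]
  · rw [hπ, Equiv.symm_apply_apply, if_pos]
    simp
  · intro j hj hne
    rw [hπ, Equiv.symm_apply_apply, if_neg]
    intro h0
    dsimp only at h0
    apply hne
    have h1 : ((j : ℕ) : ZMod r) = -(e.symm i).2 := eq_neg_of_add_eq_zero_right h0
    rw [← h1, ZMod.val_natCast, Nat.mod_eq_of_lt (Finset.mem_range.1 hj)]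
  · intro h
    exact absurd (Finset.mem_range.2 (ZMod.val_lt _)) h

theorem ord_eq_two_iff {r : ℕ} (hr : r.Prime) (ho : Odd r) : orderOf ((q : ℕ) : ZMod r) = 2 ↔ r ∣ q + 1 := by
  haveI : Fact r.Prime := ⟨hr⟩
  have hne := neg_one_ne hr ho
  have h1 : r ∣ q + 1 ↔ ((q : ℕ) : ZMod r) = -1 := by
    rw [← ZMod.natCast_eq_zero_iff]
    push_cast
    exact ⟨eq_neg_of_add_eq_zero_left, fun h => by rw [h]; ring⟩
  rw [h1]
  constructor
  · intro h
    have h2 : ((q : ℕ) : ZMod r) ^ 2 = 1 := by rw [← h]; exact pow_orderOf_eq_one _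
    have h2' : (((q : ℕ) : ZMod r) - 1) * (((q : ℕ) : ZMod r) + 1) = 0 := by linear_combination h2
    rcases (mul_eq_zero.1 h2').imp sub_eq_zero.1 eq_neg_of_add_eq_zero_left with h3 | h3
    · rw [h3, orderOf_one] at h; omega
    · exact h3
  · intro h
    rw [h]
    haveI : Fact (Nat.Prime 2) := ⟨Nat.prime_two⟩
    exact orderOf_eq_prime (by ring) hne

theorem not_dvd_sub {r : ℕ} (hr : r.Prime) (ho : Odd r) (h : r ∣ q + 1) (hq : 1 ≤ q) : ¬ r ∣ q - 1 := by
  intro h1
  have h2 : r ∣ 2 := by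
    have e : 2 = (q + 1) - (q - 1) := by omega
    rw [e]; exact Nat.dvd_sub h h1
  have := (Nat.prime_dvd_prime_iff_eq hr Nat.prime_two).1 h2
  rw [this] at ho
  exact absurd ho (by decide)

theorem val_card (hF : Fintype.card F = q ^ 2) {r : ℕ} (hr : r.Prime) (ho : Odd r) (h : r ∣ q + 1) :
    padicValNat r (Fintype.card F - 1) = padicValNat r (q + 1) := by
  haveI : Fact r.Prime := ⟨hr⟩
  have hq0 := card_pos hF
  have hq1 : q ≠ 1 := by
    rintro rfl
    have := Fintype.one_lt_card (α := F)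
    omega
  rw [hF, ClUnitary.sq_sub_one, padicValNat.mul (by omega) (by omega), padicValNat.eq_zero_of_not_dvd (not_dvd_sub hr ho h hq0), add_zero]

/-- roots of norm-one elements -/
theorem root_norm (hF : Fintype.card F = q ^ 2) {r : ℕ} (hr : r.Prime) (ho : Odd r) (h : r ∣ q + 1) {y : F} (hy : (y ^ r) ^ (q + 1) = 1) :
    y ^ (q + 1) = 1 := by
  have hy0 : y ≠ 0 := by
    rintro rfl
    rw [zero_pow hr.ne_zero, zero_pow (by omega)] at hy
    exact zero_ne_one hy
  have h1 : (y ^ (q + 1)) ^ r = 1 := by rw [← pow_mul, mul_comm, pow_mul]; exact hy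
  have h2 : (y ^ (q + 1)) ^ (q - 1) = 1 := by
    rw [← pow_mul, ← ClUnitary.sq_sub_one, ← hF]
    exact FiniteField.pow_card_sub_one_eq_one y hy0
  have h3 := pow_gcd_eq_one.2 ⟨h1, h2⟩
  rwa [(Nat.Prime.coprime_iff_not_dvd hr).2 (not_dvd_sub hr ho h (card_pos hF)), pow_one] at h3

theorem typeA_fix (hF : Fintype.card F = q ^ 2) {r n : ℕ} (hr2 : r ∣ q + 1) {T : Module.End F (Fin n → F)} (hT : PU r (HF hF n) T)
    {m : ℕ} (hm : m ≤ n) : ∃ W : Submodule F (Fin n → F), finrank F W = m ∧ ND (HF hF n) W ∧ Inv T W := by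
  have hc : cU (orderOf ((q : ℕ) : ZMod r)) = 1 := by rw [(ord_eq_two_iff hT.hr hT.odd).2 hr2]; rfl
  obtain ⟨s, hs⟩ := hT.exists_s (W := ⊤) (fun _ _ => trivial) (hf_nd hF)
  rw [finrank_top, Module.finrank_fin_fun, top_inf_eq, hc, mul_one] at hs
  obtain ⟨W, -, hW, hWnd, hWf⟩ := hT.exists_sub (W := ⊤) (fun _ _ => trivial) (hf_nd hF) (e' := min m (finrank F (E T 1)))
    (s' := m - min m (finrank F (E T 1))) (by rw [top_inf_eq]; exact min_le_right _ _)
    (by rw [top_inf_eq, finrank_top, Module.finrank_fin_fun, hc]; omega)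
  exact ⟨W, by rw [hWf, hc]; omega, hWnd, hW⟩

/-- irreducible operators: nondegenerate atoms -/
theorem typeC_fix (hF : Fintype.card F = q ^ 2) {r n : ℕ} (hr : r.Prime) {T : Module.End F (Fin n → F)} (hT : Iso (HF hF n) T)
    {z : F} (hz : ∀ b : F, b ^ r ≠ z) (hTz : T ^ r = z • (1 : Module.End F (Fin n → F))) {m : ℕ} (hm : m ≤ n) (hrm : r ∣ m) :
    ∃ W : Submodule F (Fin n → F), finrank F W = m ∧ ND (HF hF n) W ∧ Inv T W := by
  obtain ⟨ω, hω⟩ := UnSpec.exists_ne hF
  have hirr := X_pow_sub_C_irreducible_of_prime hr hz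
  have haev : ∀ x, aeval T (X ^ r - C z) x = 0 := fun x => by
    rw [map_sub, map_pow, aeval_X, aeval_C, hTz, Algebra.algebraMap_eq_smul_one, sub_self]; rfl
  obtain ⟨k, hk⟩ := hrm
  obtain ⟨W, -, h1, h2, h3⟩ := exists_mult (hf_refl hF) (hf_nd hF) hT hr.pos (C := ⊤) (by
    intro W _ hW hWnd hne
    obtain ⟨v, hv, hvv⟩ := exists_line hω hWnd hne
    have hv0 : v ≠ 0 := by rintro rfl; rw [map_zero] at hvv; exact hvv rfl
    obtain ⟨U, hU, hUf, hvU, hmin⟩ := cyclic_aux hirr hv0 (haev v)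
    rw [natDegree_X_pow_sub_C] at hUf
    refine ⟨U, hmin W hW hv, hU, ?_, hUf⟩
    rw [nd_iff (hf_refl hF)]
    by_contra hR
    obtain ⟨x, hx, hx0⟩ := Submodule.exists_mem_ne_zero_of_ne_bot hR
    obtain ⟨U', hU', hUf', hxU', hmin'⟩ := cyclic_aux hirr hx0 (haev x)
    rw [natDegree_X_pow_sub_C] at hUf'
    have h1 : U' ≤ U ⊓ perp (HF hF n) U := hmin' _ (inv_inf hU (hT.inv_perp (hf_nd hF) hU)) hx
    have h2 : U' = U := Submodule.eq_of_le_of_finrank_eq (h1.trans inf_le_left) (by rw [hUf, hUf'])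
    rw [h2] at h1
    exact hvv ((h1 hvU).2 v hvU)) k ⊤ le_rfl (fun _ _ => trivial) (hf_nd hF) (by
      rw [finrank_top, Module.finrank_fin_fun, mul_comm, ← hk]; exact hm)
  exact ⟨W, by rw [h3, hk, mul_comm], h2, h1⟩

/-- existence of elements of type C in the special unitary group -/
theorem exists_typeC_su (hF : Fintype.card F = q ^ 2) {r n : ℕ} (hr : r.Prime) (ho : Odd r) (hrq : r ∣ q + 1) (hn : 0 < n)
    (hv : padicValNat r (q + 1) < padicValNat r n) :
    ∃ (T : Module.End F (Fin n → F)) (z : F), Iso (HF hF n) T ∧ LinearMap.det T = 1 ∧ T ^ r = z • (1 : Module.End F (Fin n → F)) ∧ (∀ b : F, b ^ r ≠ z) := by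
  haveI : Fact r.Prime := ⟨hr⟩
  have hval := val_card hF hr ho hrq
  obtain ⟨c, hc, hck⟩ := ElusiveLin.exists_nonpow (F := F) hr (by
    rw [hF, ClUnitary.sq_sub_one]; exact hrq.mul_right _)
  rw [hval] at hck
  have hrn : r ∣ n := by
    by_contra h
    rw [padicValNat.eq_zero_of_not_dvd h] at hv
    omega
  obtain ⟨k, hk⟩ := hrn
  have hk0 : k ≠ 0 := by rintro rfl; omega
  obtain ⟨T, hT, hTc⟩ := exists_typeC_un hF hr.pos hk (hck _ pow_padicValNat_dvd)
  obtain ⟨k', hk', hdet⟩ := detC hr hc n T hTc (by simp)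
  have hkk : k = k' := Nat.eq_of_mul_eq_mul_left hr.pos (by rw [← hk, hk'])
  subst hkk
  refine ⟨T, c, hT, ?_, hTc, hc⟩
  rw [hdet, (ho.add_one).neg_one_pow, one_mul]
  apply hck
  rw [padicValNat_dvd_iff_le hk0]
  rw [hk, padicValNat.mul hr.ne_zero hk0, padicValNat_self] at hv
  omega

theorem typeC_dvd {r n : ℕ} (hr : r.Prime) {T : Module.End F (Fin n → F)} {z : F} (hz : ∀ b : F, b ^ r ≠ z)
    (hTz : T ^ r = z • (1 : Module.End F (Fin n → F))) {W : Submodule F (Fin n → F)} (hW : Inv T W) : r ∣ finrank F W := by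
  obtain ⟨h1, h2⟩ := ssC hr hz hTz
  exact h1.dvd hW (by rw [h2]; exact disjoint_bot_left)

theorem typeC_ns {r n : ℕ} (hn : 0 < n) {T : Module.End F (Fin n → F)} {z : F} (hz : ∀ b : F, b ^ r ≠ z)
    (hTz : T ^ r = z • (1 : Module.End F (Fin n → F))) (w : F) : T ≠ w • (1 : Module.End F (Fin n → F)) := by
  rintro rfl
  rw [smul_pow_end, one_pow] at hTz
  exact hz w (scalar_inj hn hTz)

/-- the case of odd `r` dividing `q + 1` -/
theorem two_iff (hF : Fintype.card F = q ^ 2) {r : ℕ} (hr : r.Prime) (ho : Odd r) (hne : (r : F) ≠ 0) (hrq : r ∣ q + 1) {n m : ℕ} (hn : 0 < n)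
    (hmn : m ≤ n) :
    (∀ T : Module.End F (Fin n → F), Iso (HF hF n) T → LinearMap.det T = 1 → (∃ z : F, T ^ r = z • (1 : Module.End F (Fin n → F))) →
      (∀ z : F, T ≠ z • (1 : Module.End F (Fin n → F))) → ∃ W : Submodule F (Fin n → F), finrank F W = m ∧ ND (HF hF n) W ∧ Inv T W) ↔
    (r ∣ m ∨ padicValNat r n ≤ padicValNat r (q + 1)) := by
  haveI : Fact r.Prime := ⟨hr⟩
  constructor
  · intro H
    by_contra hcon
    push Not at hcon
    obtain ⟨h1, h2⟩ := hcon
    obtain ⟨T, z, hT, hd, hTz, hz⟩ := exists_typeC_su hF hr ho hrq hn h2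
    obtain ⟨W, hWm, -, hW⟩ := H T hT hd ⟨z, hTz⟩ (typeC_ns hn hz hTz)
    exact h1 (hWm ▸ typeC_dvd hr hz hTz hW)
  · intro hcond T hT hd ⟨z, hz⟩ hns
    by_cases hy : ∃ y : F, y ^ r = z
    · obtain ⟨y, hyz⟩ := hy
      have hyq : y ^ (q + 1) = 1 := root_norm hF hr ho hrq (by rw [hyz]; exact z_norm hF hn hT hz)
      have hy0 : y ≠ 0 := by
        rintro rfl
        rw [zero_pow (by omega)] at hyq
        exact zero_ne_one hyq
      have hyi : (y⁻¹) ^ (q + 1) = 1 := by rw [_root_.inv_pow, hyq, inv_one]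
      obtain ⟨W, hW1, hW2, hW3⟩ := typeA_fix hF hrq (pu_std hF hr ho hne (smul_iso hF hT hyi) (by
        rw [smul_pow_end, hz, _root_.inv_pow, hyz, smul_smul, inv_mul_cancel₀ (by rw [← hyz]; exact pow_ne_zero _ hy0), one_smul])) hmn
      exact ⟨W, hW1, hW2, (inv_smul (inv_ne_zero hy0)).1 hW3⟩
    · push Not at hy
      rcases hcond with h1 | h1
      · exact typeC_fix hF hr hT hy hz hmn h1
      · exfalso
        obtain ⟨k, hk, hdet⟩ := detC hr hy n T hz (by simp)
        rw [hd] at hdet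
        have hk0 : 0 < k := by
          rcases Nat.eq_zero_or_pos k with h | h
          · rw [h, mul_zero] at hk; omega
          · exact h
        refine ElusiveLin.not_typeC hr hy hk hk0 hdet.symm ⟨?_, ?_⟩
        · rw [val_card hF hr ho hrq]; exact h1
        · rintro rfl; exact absurd ho (by decide)

end Cfsg.Agent.Lib.UnND
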