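import Mathlib
import Cfsg.Agent.Lib.UnND6

set_option autoImplicit false
set_option linter.unusedSectionVars false

/-! Elements whose square is a scalar, odd characteristic. (helper99) -/

namespace Cfsg.Agent.Lib.UnND

open Polynomial Module Cfsg.Agent.Lib.InvSub Cfsg.Agent.Lib.PrimeOrd Cfsg.Agent.Lib.Sesq Cfsg.Agent.Lib.UniPair
open Cfsg.Agent.Lib.ClUnitary (frob frob_frob)
open Cfsg.Agent.Lib.HermAlg (IsHerm)
open Cfsg.Agent.Lib.ClIso (isoGrp)
open Cfsg.Agent.Lib.ElusiveLin (tl tl_pow tl_eq_smul_iff det_tl exists_SL)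

section gen

variable {F V : Type*} [Field F] [AddCommGroup V] [Module F V] {σ : F →+* F} {B : V →ₗ[F] V →ₛₗ[σ] F}

theorem nd_hyp (hB : Hm B) {v w : V} (hv : B v v = 0) (hw : B w w = 0) (h : B v w ≠ 0) :
    ND B (Submodule.span F {v, w}) ∧ finrank F (Submodule.span F {v, w}) = 2 := by
  have h' : B w v ≠ 0 := fun h0 => h (hB.refl _ _ h0)
  constructor
  · intro x hx hx'
    obtain ⟨a, b, rfl⟩ := Submodule.mem_span_pair.1 hx
    have h1 := hx' w (Submodule.subset_span (by simp))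
    have h2 := hx' v (Submodule.subset_span (by simp))
    simp only [map_add, map_smul, LinearMap.add_apply, LinearMap.smul_apply, smul_eq_mul, hv, hw, mul_zero, add_zero, zero_add] at h1 h2
    rw [(mul_eq_zero.1 h1).resolve_right h, (mul_eq_zero.1 h2).resolve_right h', zero_smul, zero_smul, add_zero]
  · have hli : LinearIndependent F ![v, w] := by
      rw [LinearIndependent.pair_iff]
      intro a b hab
      have h1 : B (a • v + b • w) w = 0 := by rw [hab, map_zero]; rfl
      have h2 : B (a • v + b • w) v = 0 := by rw [hab, map_zero]; rfl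
      simp only [map_add, map_smul, LinearMap.add_apply, LinearMap.smul_apply, smul_eq_mul, hv, hw, mul_zero, add_zero, zero_add] at h1 h2
      exact ⟨(mul_eq_zero.1 h1).resolve_right h, (mul_eq_zero.1 h2).resolve_right h'⟩
    have := finrank_span_eq_card hli
    rw [Matrix.range_cons, Matrix.range_cons, Matrix.range_empty, Set.union_empty, Set.singleton_union] at this
    simpa using this

variable [FiniteDimensional F V] {T : Module.End F V}

/-- decomposition with respect to an involution -/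
theorem inv_split (h2 : (2 : F) ≠ 0) (hTT : ∀ x, T (T x) = x) {W : Submodule F V} (hW : Inv T W) :
    (W ⊓ E T 1) ⊔ (W ⊓ E T (-1)) = W ∧ Disjoint (W ⊓ E T 1) (W ⊓ E T (-1)) ∧
      finrank F ↥(W ⊓ E T 1) + finrank F ↥(W ⊓ E T (-1)) = finrank F W := by
  have h1 : (W ⊓ E T 1) ⊔ (W ⊓ E T (-1)) = W := by
    refine le_antisymm (sup_le inf_le_left inf_le_left) ?_
    intro x hx
    have e : x = (2 : F)⁻¹ • (x + T x) + (2 : F)⁻¹ • (x - T x) := by
      rw [← smul_add, add_add_sub_cancel, ← two_smul F x, smul_smul, inv_mul_cancel₀ h2, one_smul]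
    rw [e]
    refine Submodule.add_mem_sup ⟨W.smul_mem _ (W.add_mem hx (hW x hx)), ?_⟩ ⟨W.smul_mem _ (W.sub_mem hx (hW x hx)), ?_⟩
    · apply Submodule.smul_mem
      rw [Module.End.mem_eigenspace_iff, map_add, hTT, one_smul, add_comm]
    · apply Submodule.smul_mem
      rw [Module.End.mem_eigenspace_iff, map_sub, hTT, neg_one_smul, neg_sub]
  have h3 : Disjoint (W ⊓ E T 1) (W ⊓ E T (-1)) := by
    rw [Submodule.disjoint_def]
    rintro x ⟨-, hx0⟩ ⟨-, hx0'⟩
    have hx := Module.End.mem_eigenspace_iff.1 hx0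
    have hx' := Module.End.mem_eigenspace_iff.1 hx0'
    rw [hx, neg_one_smul, one_smul] at hx'
    have : (2 : F) • x = 0 := by rw [two_smul]; nth_rw 1 [hx']; exact neg_add_cancel x
    exact (smul_eq_zero.1 this).resolve_left h2
  refine ⟨h1, h3, ?_⟩
  have h4 := Submodule.finrank_sup_add_finrank_inf_eq (W ⊓ E T 1) (W ⊓ E T (-1))
  rw [h1, disjoint_iff.1 h3, finrank_bot, add_zero] at h4
  exact h4.symm

theorem ti_le (hr : Refl B) (hnd : ND B ⊤) [Finite F] {W U : Submodule F V} (hW : ND B W) (hUW : U ≤ W) (hU : TI B U) :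
    2 * finrank F U ≤ finrank F W := by
  have h1 := finrank_inf_perp hr hnd hW hUW
  have h2 : U ≤ W ⊓ perp B U := le_inf hUW (ti_iff.1 hU)
  have h3 := Submodule.finrank_mono h2
  omega

/-- an involution multiplying the form by `-1` -/
theorem half (hB : Hm B) (hnd : ND B ⊤) [Finite F] (h2 : (2 : F) ≠ 0) (hTT : ∀ x, T (T x) = x) (hT : ∀ x y, B (T x) (T y) = - B x y)
    {W : Submodule F V} (hW : Inv T W) (hWnd : ND B W) : finrank F W = 2 * finrank F ↥(W ⊓ E T 1) ∧ finrank F W = 2 * finrank F ↥(W ⊓ E T (-1)) := by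
  obtain ⟨-, -, h3⟩ := inv_split h2 hTT hW
  have hz : ∀ a : F, a = -a → a = 0 := by
    intro a ha
    have : 2 * a = 0 := by linear_combination ha
    exact (mul_eq_zero.1 this).resolve_left h2
  have t1 : TI B (W ⊓ E T 1) := by
    rintro u ⟨-, hu⟩ v ⟨-, hv⟩
    have := hT u v
    rw [Module.End.mem_eigenspace_iff.1 hu, Module.End.mem_eigenspace_iff.1 hv, one_smul, one_smul] at this
    exact hz _ this
  have t2 : TI B (W ⊓ E T (-1)) := by
    rintro u ⟨-, hu⟩ v ⟨-, hv⟩
    have := hT u v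
    rw [Module.End.mem_eigenspace_iff.1 hu, Module.End.mem_eigenspace_iff.1 hv, neg_one_smul, neg_one_smul, map_neg, map_neg, LinearMap.neg_apply,
      neg_neg] at this
    exact hz _ this
  have h4 := ti_le hB.refl hnd hWnd inf_le_left t1
  have h5 := ti_le hB.refl hnd hWnd inf_le_left t2
  omega

end gen

section fin

variable {F : Type*} [Field F] [Fintype F] {q : ℕ}

/-- isometric involutions -/
theorem plus_fix (hF : Fintype.card F = q ^ 2) (h2 : (2 : F) ≠ 0) {n m : ℕ} {T : Module.End F (Fin n → F)} (hT : Iso (HF hF n) T) (hTT : T ^ 2 = 1)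
    (hm : m ≤ n) : ∃ W : Submodule F (Fin n → F), finrank F W = m ∧ ND (HF hF n) W ∧ Inv T W := by
  obtain ⟨ω, hω⟩ := UnSpec.exists_ne hF
  have hTT' : ∀ x, T (T x) = x := fun x => by rw [← Module.End.mul_apply, ← pow_two, hTT]; rfl
  have h2' : ((2 : ℕ) : F) ≠ 0 := by push_cast; exact h2
  obtain ⟨h1, h3, h4⟩ := inv_split h2 hTT' (W := ⊤) (fun _ _ => trivial)
  rw [top_inf_eq, top_inf_eq, finrank_top, Module.finrank_fin_fun] at h4
  have n1 : ND (HF hF n) (E T 1) := by
    have := nd_inf_E hT h2' hTT (W := ⊤) (fun _ _ => trivial) (hf_nd hF)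
    rwa [top_inf_eq] at this
  have hneg : Iso (HF hF n) (-T) := fun x y => by
    rw [LinearMap.neg_apply, LinearMap.neg_apply, map_neg, map_neg, LinearMap.neg_apply, neg_neg]; exact hT x y
  have n2 : ND (HF hF n) (E T (-1)) := by
    have := nd_inf_E hneg h2' (show (-T) ^ 2 = 1 from LinearMap.ext fun x => by
      rw [pow_two]
      change -(T (-(T x))) = x
      rw [map_neg, neg_neg, hTT']) (W := ⊤) (fun _ _ => trivial) (hf_nd hF)
    rw [top_inf_eq] at this
    have e : E (-T) 1 = E T (-1) := by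
      ext x
      rw [Module.End.mem_eigenspace_iff, Module.End.mem_eigenspace_iff, one_smul, neg_one_smul, LinearMap.neg_apply, neg_eq_iff_eq_neg]
    rwa [e] at this
  have horth : ∀ u ∈ E T 1, ∀ v ∈ E T (-1), HF hF n u v = 0 := by
    intro u hu v hv
    have := hT u v
    rw [Module.End.mem_eigenspace_iff.1 hu, Module.End.mem_eigenspace_iff.1 hv, neg_one_smul, one_smul, map_neg] at this
    have h5 : 2 * HF hF n u v = 0 := by linear_combination -this
    exact (mul_eq_zero.1 h5).resolve_left h2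
  have i1 : ∀ U ≤ E T 1, Inv T U := fun U hU x hx => by
    rw [Module.End.mem_eigenspace_iff.1 (hU hx), one_smul]; exact hx
  have i2 : ∀ U ≤ E T (-1), Inv T U := fun U hU x hx => by
    rw [Module.End.mem_eigenspace_iff.1 (hU hx)]; exact U.smul_mem _ hx
  obtain ⟨U, hU, hUi, hUnd, hUf⟩ := exists_sub_of_inv hω (hf_refl hF) (hf_nd hF) hT i1 n1 (e := min m (finrank F (E T 1))) (min_le_right _ _)
  obtain ⟨X, hX, hXi, hXnd, hXf⟩ := exists_sub_of_inv hω (hf_refl hF) (hf_nd hF) hT i2 n2 (e := m - min m (finrank F (E T 1))) (by omega)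
  refine ⟨U ⊔ X, ?_, nd_sup (hf_refl hF) hUnd hXnd (fun u hu x hx => horth u (hU hu) x (hX hx)), inv_sup hUi hXi⟩
  have hf1 := Submodule.finrank_sup_add_finrank_inf_eq U X
  rw [top_inf_eq, top_inf_eq] at h3
  rw [disjoint_iff.1 (h3.mono hU hX), finrank_bot] at hf1
  omega

/-- the second type -/
structure Mi (hF : Fintype.card F = q ^ 2) (n : ℕ) (T : Module.End F (Fin n → F)) (y : F) : Prop where
  h2 : (2 : F) ≠ 0
  iso : Iso (HF hF n) T
  sq : T ^ 2 = y ^ 2 • (1 : Module.End F (Fin n → F))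
  hy : y ^ (q + 1) = -1

variable {hF : Fintype.card F = q ^ 2} {n : ℕ} {T : Module.End F (Fin n → F)} {y : F}

theorem Mi.ne (h : Mi hF n T y) : y ≠ 0 := by
  intro h0
  have h1 := h.hy
  rw [h0, zero_pow (by omega)] at h1
  have : (1 : F) = 0 := by linear_combination h1
  exact one_ne_zero this

theorem Mi.inv2 (h : Mi hF n T y) (x : Fin n → F) : (y⁻¹ • T) ((y⁻¹ • T) x) = x := by
  have h1 : T (T x) = y ^ 2 • x := by rw [← Module.End.mul_apply, ← pow_two, h.sq]; rfl
  rw [LinearMap.smul_apply, LinearMap.smul_apply, map_smul, smul_smul, h1, smul_smul]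
  have : y⁻¹ * y⁻¹ * y ^ 2 = 1 := by
    have := h.ne
    field_simp
  rw [this, one_smul]

theorem Mi.neg (h : Mi hF n T y) (u v : Fin n → F) : HF hF n ((y⁻¹ • T) u) ((y⁻¹ • T) v) = - HF hF n u v := by
  change HF hF n (y⁻¹ • T u) (y⁻¹ • T v) = _
  rw [LinearMap.map_smul, LinearMap.map_smulₛₗ, LinearMap.smul_apply, smul_eq_mul, smul_eq_mul, ← mul_assoc, h.iso]
  have : frob hF y⁻¹ * y⁻¹ = -1 := by
    change (y⁻¹) ^ q * y⁻¹ = -1
    rw [← pow_succ, _root_.inv_pow, h.hy]; norm_num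
  rw [this, neg_one_mul]

theorem Mi.half (h : Mi hF n T y) {W : Submodule F (Fin n → F)} (hW : Inv T W) (hWnd : ND (HF hF n) W) :
    finrank F W = 2 * finrank F ↥(W ⊓ E (y⁻¹ • T) 1) ∧ finrank F W = 2 * finrank F ↥(W ⊓ E (y⁻¹ • T) (-1)) :=
  UnND.half (fun u v => hf_herm hF u v) (hf_nd hF) h.h2 h.inv2 h.neg ((inv_smul (inv_ne_zero h.ne)).2 hW) hWnd

theorem Mi.half_top (h : Mi hF n T y) : n = 2 * finrank F (E (y⁻¹ • T) 1) ∧ n = 2 * finrank F (E (y⁻¹ • T) (-1)) := by
  have := h.half (W := ⊤) (fun _ _ => trivial) (hf_nd hF)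
  rwa [top_inf_eq, top_inf_eq, finrank_top, Module.finrank_fin_fun] at this

/-- the determinant -/
theorem Mi.det (h : Mi hF n T y) : LinearMap.det T = (-(y ^ 2)) ^ (n / 2) := by
  obtain ⟨s1, s2, s3⟩ := inv_split h.h2 h.inv2 (W := ⊤) (fun _ _ => trivial)
  rw [top_inf_eq, top_inf_eq] at s1 s2
  have hc : IsCompl (E (y⁻¹ • T) 1) (E (y⁻¹ • T) (-1)) := ⟨s2, codisjoint_iff.2 s1⟩
  obtain ⟨d1, d2⟩ := h.half_top
  let e := Submodule.prodEquivOfIsCompl _ _ hc
  have key : T = (e : _ →ₗ[F] _) ∘ₗ (LinearMap.prodMap (y • (1 : Module.End F (E (y⁻¹ • T) 1))) ((-y) • (1 : Module.End F (E (y⁻¹ • T) (-1))))) ∘ₗ (e.symm : _ →ₗ[F] _) := by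
    apply LinearMap.ext
    intro x
    obtain ⟨⟨a, b⟩, rfl⟩ := e.surjective x
    rw [LinearMap.comp_apply, LinearMap.comp_apply, LinearEquiv.coe_coe, LinearEquiv.coe_coe, LinearEquiv.symm_apply_apply]
    change T ((a : Fin n → F) + b) = (y • (a : Fin n → F)) + ((-y) • (b : Fin n → F))
    have ha := Module.End.mem_eigenspace_iff.1 a.2
    have hb := Module.End.mem_eigenspace_iff.1 b.2
    rw [LinearMap.smul_apply, one_smul] at ha
    rw [LinearMap.smul_apply, neg_one_smul] at hb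
    have ha' : T a = y • (a : Fin n → F) := by rw [← ha, smul_smul, mul_inv_cancel₀ h.ne, one_smul]; rw [ha]
    have hb' : T b = (-y) • (b : Fin n → F) := by
      have : (b : Fin n → F) = - (y⁻¹ • T b) := by rw [hb, neg_neg]
      conv_rhs => rw [this]
      rw [smul_neg, neg_smul, neg_neg, smul_smul, mul_inv_cancel₀ h.ne, one_smul]
    rw [map_add, ha', hb']
  rw [key, LinearMap.det_conj, LinearMap.det_prodMap, LinearMap.det_smul, LinearMap.det_smul, map_one, map_one, mul_one, mul_one,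
    show n / 2 = finrank F (E (y⁻¹ • T) 1) by omega, show finrank F (E (y⁻¹ • T) (-1)) = finrank F (E (y⁻¹ • T) 1) by omega, ← mul_pow]
  congr 1
  ring

theorem Mi.fix (h : Mi hF n T y) {m : ℕ} (hm : m ≤ n) (hme : Even m) :
    ∃ W : Submodule F (Fin n → F), finrank F W = m ∧ ND (HF hF n) W ∧ Inv T W := by
  obtain ⟨ω, hω⟩ := UnSpec.exists_ne hF
  obtain ⟨k, hk⟩ := hme
  have hTn : ∀ {x : Fin n → F} {a : F}, x ∈ E (y⁻¹ • T) a → T x = (y * a) • x := by
    intro x a hx
    have := Module.End.mem_eigenspace_iff.1 hx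
    rw [LinearMap.smul_apply] at this
    rw [mul_smul, ← this, smul_smul, mul_inv_cancel₀ h.ne, one_smul]
  have hz : ∀ a : F, a = -a → a = 0 := by
    intro a ha
    have : 2 * a = 0 := by linear_combination ha
    exact (mul_eq_zero.1 this).resolve_left h.h2
  obtain ⟨W, -, h1, h2, h3⟩ := exists_mult (hf_refl hF) (hf_nd hF) h.iso (c := 2) (by norm_num) (C := ⊤) (by
    intro W _ hW hWnd hne
    obtain ⟨v, hv, hvv⟩ := exists_line hω hWnd hne
    obtain ⟨s1, -, -⟩ := inv_split h.h2 h.inv2 ((inv_smul (inv_ne_zero h.ne)).2 hW)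
    rw [← s1] at hv
    obtain ⟨a, ha, b, hb, rfl⟩ := Submodule.mem_sup.1 hv
    have haa : HF hF n a a = 0 := by
      have := h.neg a a
      rw [Module.End.mem_eigenspace_iff.1 ha.2, one_smul] at this
      exact hz _ this
    have hbb : HF hF n b b = 0 := by
      have := h.neg b b
      rw [Module.End.mem_eigenspace_iff.1 hb.2, neg_one_smul, map_neg, map_neg, LinearMap.neg_apply, neg_neg] at this
      exact hz _ this
    have hab : HF hF n a b ≠ 0 := by
      intro h0
      have h0' := hf_refl hF _ _ h0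
      rw [map_add, map_add, LinearMap.add_apply, LinearMap.add_apply, haa, hbb, h0, h0'] at hvv
      simp at hvv
    obtain ⟨n1, n2⟩ := nd_hyp (fun u v => hf_herm hF u v) haa hbb hab
    refine ⟨_, ?_, ?_, n1, n2⟩
    · rw [Submodule.span_le]
      intro x hx
      rcases hx with rfl | rfl
      · exact ha.1
      · exact hb.1
    · apply inv_span
      intro x hx
      have hx' : x ∈ Submodule.span F {a, b} := Submodule.subset_span hx
      rcases hx with rfl | rfl
      · rw [hTn ha.2]; exact Submodule.smul_mem _ _ hx'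
      · rw [hTn hb.2]; exact Submodule.smul_mem _ _ hx') k ⊤ le_rfl (fun _ _ => trivial) (hf_nd hF) (by
      rw [finrank_top, Module.finrank_fin_fun]; omega)
  exact ⟨W, by rw [h3]; omega, h2, h1⟩

/-- dichotomy -/
theorem sq_cases (hF : Fintype.card F = q ^ 2) (h2 : (2 : F) ≠ 0) {n : ℕ} (hn : 0 < n) {T : Module.End F (Fin n → F)} (hT : Iso (HF hF n) T) {z : F}
    (hz : T ^ 2 = z • (1 : Module.End F (Fin n → F))) :
    (∃ y : F, y ≠ 0 ∧ Iso (HF hF n) (y⁻¹ • T) ∧ (y⁻¹ • T) ^ 2 = 1) ∨ (∃ y : F, Mi hF n T y) := by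
  have hzq := z_norm hF hn hT hz
  have hz0 : z ≠ 0 := by
    rintro rfl
    rw [zero_pow (by omega)] at hzq
    exact zero_ne_one hzq
  have hq0 := card_pos hF
  have hodd : Odd q := by
    by_contra ho
    rw [Nat.not_odd_iff_even] at ho
    have h3 : Even (Fintype.card F) := by rw [hF]; exact ho.pow_of_ne_zero two_ne_zero
    obtain ⟨p, hp⟩ := CharP.exists F
    haveI : Fact p.Prime := ⟨CharP.char_is_prime F p⟩
    have h4 : ringChar F = 2 := (FiniteField.even_card_iff_char_two (F := F)).2 (by obtain ⟨k, hk⟩ := h3; omega)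
    apply h2
    have h5 : ((2 : ℕ) : F) = 0 := by rw [← h4]; exact ringChar.Nat.cast_ringChar
    exact_mod_cast h5
  have hsq : IsSquare z := by
    rw [FiniteField.isSquare_iff (by
      intro h
      apply h2
      have h5 : ((2 : ℕ) : F) = 0 := by rw [← h]; exact ringChar.Nat.cast_ringChar
      exact_mod_cast h5) hz0]
    obtain ⟨k, hk⟩ := hodd
    have : Fintype.card F / 2 = (q + 1) * k := by
      rw [hF, hk, show (2 * k + 1) ^ 2 = 2 * ((2 * k + 1 + 1) * k) + 1 by ring]
      omega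
    rw [this, pow_mul, hzq, one_pow]
  obtain ⟨y, hy⟩ := hsq
  have hy0 : y ≠ 0 := by rintro rfl; rw [mul_zero] at hy; exact hz0 hy
  have h1 : (y ^ (q + 1) - 1) * (y ^ (q + 1) + 1) = 0 := by
    have : (y ^ (q + 1)) ^ 2 = 1 := by rw [← pow_mul, mul_comm, pow_mul, pow_two, ← hy, hzq]
    linear_combination this
  rcases mul_eq_zero.1 h1 with h | h
  · left
    have hy1 := sub_eq_zero.1 h
    refine ⟨y, hy0, smul_iso hF hT (by rw [_root_.inv_pow, hy1, inv_one]), ?_⟩
    rw [smul_pow_end, hz, hy, smul_smul]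
    have : y⁻¹ ^ 2 * (y * y) = 1 := by field_simp
    rw [this, one_smul]
  · right
    exact ⟨y, h2, hT, by rw [hz, hy, pow_two], eq_neg_of_add_eq_zero_left h⟩

theorem q_odd (hF : Fintype.card F = q ^ 2) (h2 : (2 : F) ≠ 0) : Odd q := by
  by_contra ho
  rw [Nat.not_odd_iff_even] at ho
  have h3 : Even (Fintype.card F) := by rw [hF]; exact ho.pow_of_ne_zero two_ne_zero
  have h4 : ringChar F = 2 := (FiniteField.even_card_iff_char_two (F := F)).2 (by obtain ⟨k, hk⟩ := h3; omega)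
  apply h2
  have h5 : ((2 : ℕ) : F) = 0 := by rw [← h4]; exact ringChar.Nat.cast_ringChar
  exact_mod_cast h5

/-- no elements of the second type -/
theorem no_mi (hF : Fintype.card F = q ^ 2) {n : ℕ} (hn : 0 < n) {T : Module.End F (Fin n → F)} {y : F} (h : Mi hF n T y) (hd : LinearMap.det T = 1)
    (hv : padicValNat 2 n ≤ padicValNat 2 (q + 1)) (hq : q % 4 = 3) : False := by
  haveI : Fact (Nat.Prime 2) := ⟨Nat.prime_two⟩
  have hdet := h.det
  rw [hd] at hdet
  obtain ⟨d1, -⟩ := h.half_top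
  obtain ⟨k, hk⟩ : ∃ k, n = 2 * k := ⟨_, d1⟩
  have hk2 : n / 2 = k := by omega
  rw [hk2] at hdet
  have hk0 : k ≠ 0 := by omega
  set w : F := -(y ^ 2) with hw
  obtain ⟨a, ha⟩ : ∃ a, q + 1 = 2 * a := ⟨(q + 1) / 2, by omega⟩
  have hae : Even a := by rw [Nat.even_iff]; omega
  have hwq : w ^ a = -1 := by
    rw [hw, hae.neg_pow, ← pow_mul, ← ha, h.hy]
  have hgcd : w ^ (Nat.gcd k (2 * a)) = 1 := by
    rw [pow_gcd_eq_one]
    refine ⟨hdet.symm, ?_⟩
    rw [mul_comm, pow_mul, hwq]; norm_num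
  have ha0 : a ≠ 0 := by omega
  have hdvd : Nat.gcd k (2 * a) ∣ a := by
    have h1 : Nat.gcd k (2 * a) ∣ 2 * a := Nat.gcd_dvd_right _ _
    obtain ⟨e, he⟩ := h1
    have he0 : e ≠ 0 := by rintro rfl; omega
    have hg0 : Nat.gcd k (2 * a) ≠ 0 := (Nat.gcd_pos_of_pos_left _ (Nat.pos_of_ne_zero hk0)).ne'
    have h2 : padicValNat 2 (Nat.gcd k (2 * a)) ≤ padicValNat 2 k :=
      (padicValNat_dvd_iff_le hk0).mp (dvd_trans pow_padicValNat_dvd (Nat.gcd_dvd_left k _))
    rw [hk, padicValNat.mul two_ne_zero hk0, padicValNat_self, ha] at hv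
    have h3 : padicValNat 2 (2 * a) = padicValNat 2 (Nat.gcd k (2 * a)) + padicValNat 2 e := by
      conv_lhs => rw [he]
      exact padicValNat.mul hg0 he0
    have h4 : 2 ∣ e := by
      by_contra hne
      rw [padicValNat.eq_zero_of_not_dvd hne] at h3
      omega
    obtain ⟨e', rfl⟩ := h4
    refine ⟨e', ?_⟩
    have : 2 * a = 2 * (Nat.gcd k (2 * a) * e') := by
      conv_lhs => rw [he]
      ring
    omega
  obtain ⟨t, ht⟩ := hdvd
  have h5 : w ^ a = 1 := by rw [ht, pow_mul, hgcd, one_pow]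
  rw [h5] at hwq
  apply h.h2
  linear_combination hwq

/-- existence of elements of the second type -/
theorem exists_mi (hF : Fintype.card F = q ^ 2) (h2 : (2 : F) ≠ 0) {n : ℕ} (hn : 0 < n) (hne : Even n)
    (hv : ¬ (padicValNat 2 n ≤ padicValNat 2 (q + 1) ∧ q % 4 = 3)) :
    ∃ (T : Module.End F (Fin n → F)) (y : F), Mi hF n T y ∧ LinearMap.det T = 1 := by
  classical
  haveI : Fact (Nat.Prime 2) := ⟨Nat.prime_two⟩
  have hodd := q_odd hF h2
  obtain ⟨k, hk⟩ := hne
  have hk' : n = 2 * k := by omega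
  have hk0 : k ≠ 0 := by omega
  suffices hy : ∃ y : F, y ^ (q + 1) = -1 ∧ (-(y ^ 2)) ^ k = 1 by
    obtain ⟨y, hy1, hy2⟩ := hy
    obtain ⟨T, hT, hTz⟩ := exists_typeC_un hF (r := 2) (by norm_num) hk' (z := y ^ 2) (by rw [← pow_mul, mul_comm, pow_mul, hy1]; norm_num)
    have hmi : Mi hF n T y := ⟨h2, hT, hTz, hy1⟩
    exact ⟨T, y, hmi, by rw [hmi.det, show n / 2 = k by omega, hy2]⟩
  have hq0 := card_pos hF
  by_cases h4 : q % 4 = 1
  · have hsq : IsSquare (-1 : F) := by
      rw [FiniteField.isSquare_neg_one_iff, hF, Nat.pow_mod, h4]; norm_num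
    obtain ⟨y, hy⟩ := hsq
    refine ⟨y, ?_, ?_⟩
    · obtain ⟨a, ha⟩ : ∃ a, q + 1 = 2 * a := ⟨(q + 1) / 2, by omega⟩
      have hao : Odd a := by rw [Nat.odd_iff]; omega
      rw [ha, pow_mul, pow_two, ← hy, hao.neg_one_pow]
    · rw [pow_two, ← hy, neg_neg, one_pow]
  · have h43 : q % 4 = 3 := by
      obtain ⟨t, ht⟩ := hodd
      omega
    have hvlt : padicValNat 2 (q + 1) < padicValNat 2 n := by
      by_contra hle
      exact hv ⟨not_lt.1 hle, h43⟩
    -- a generator
    obtain ⟨g, hg⟩ := IsCyclic.exists_generator (α := Fˣ)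
    have hord : orderOf g = Fintype.card F - 1 := by
      rw [orderOf_eq_card_of_forall_mem_zpowers hg, Nat.card_eq_fintype_card, Fintype.card_units]
    set a := padicValNat 2 (q + 1) with ha
    obtain ⟨u, hu⟩ : 2 ^ a ∣ q + 1 := pow_padicValNat_dvd
    have huo : ¬ 2 ∣ u := by
      rintro ⟨u', rfl⟩
      have h5 : 2 ^ (a + 1) ∣ q + 1 := ⟨u', by rw [hu]; ring⟩
      have := (padicValNat_dvd_iff_le (by omega)).mp h5
      omega
    obtain ⟨v, hvv⟩ : ∃ v, q - 1 = 2 * v := ⟨(q - 1) / 2, by omega⟩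
    have hvo : Odd v := by rw [Nat.odd_iff]; omega
    have huo' : Odd u := by rw [← Nat.not_even_iff_odd, even_iff_two_dvd]; exact huo
    have hcard : Fintype.card F - 1 = 2 ^ (a + 1) * (u * v) := by
      rw [hF, ClUnitary.sq_sub_one, hu, hvv]; ring
    have hcard' : Fintype.card F - 1 ≠ 0 := by
      have := Fintype.one_lt_card (α := F)
      omega
    have hgN : (g : F) ^ (Fintype.card F - 1) = 1 := by
      have := pow_orderOf_eq_one g
      rw [hord] at this
      have h6 := congrArg Units.val this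
      simpa using h6
    refine ⟨(g : F) ^ (u * v), ?_, ?_⟩
    · -- (g^(uv))^(q+1) = (g^(N/2))^u
      have h6 : ((g : F) ^ (2 ^ a * (u * v))) = -1 := by
        have h7 : ((g : F) ^ (2 ^ a * (u * v)) - 1) * ((g : F) ^ (2 ^ a * (u * v)) + 1) = 0 := by
          have : ((g : F) ^ (2 ^ a * (u * v))) ^ 2 = 1 := by
            rw [← pow_mul, show 2 ^ a * (u * v) * 2 = Fintype.card F - 1 by rw [hcard]; ring, hgN]
          linear_combination this
        rcases mul_eq_zero.1 h7 with h8 | h8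
        · exfalso
          have h9 : g ^ (2 ^ a * (u * v)) = 1 := by
            ext
            simpa using sub_eq_zero.1 h8
          have h10 := orderOf_dvd_of_pow_eq_one h9
          rw [hord, hcard] at h10
          have h11 : 0 < u * v := Nat.mul_pos huo'.pos hvo.pos
          have h12 := Nat.le_of_dvd (by positivity) h10
          rw [pow_succ] at h12
          have h13 : 0 < 2 ^ a * (u * v) := by positivity
          nlinarith
        · exact eq_neg_of_add_eq_zero_left h8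
      rw [← pow_mul, hu, show u * v * (2 ^ a * u) = (2 ^ a * (u * v)) * u by ring, pow_mul, h6, huo'.neg_one_pow]
    · have ha2 : 2 ≤ a := by
        have : 2 ^ 2 ∣ q + 1 := by omega
        exact (padicValNat_dvd_iff_le (by omega)).mp this
      have hvk : a ≤ padicValNat 2 k := by
        rw [hk', padicValNat.mul two_ne_zero hk0, padicValNat_self] at hvlt
        omega
      obtain ⟨t, ht⟩ : 2 ^ a ∣ k := (padicValNat_dvd_iff_le hk0).mpr hvk
      have hke : Even k := by
        rw [ht, Nat.even_mul]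
        left
        exact (even_two.pow_of_ne_zero (by omega))
      rw [hke.neg_pow, ← pow_mul, ← pow_mul, ht, show u * v * (2 * (2 ^ a * t)) = (2 ^ (a + 1) * (u * v)) * t by ring, ← hcard, pow_mul, hgN, one_pow]

/-- the case `r = 2` -/
theorem r2_iff (hF : Fintype.card F = q ^ 2) (h2 : (2 : F) ≠ 0) {n m : ℕ} (hn : 0 < n) (hm : m ≤ n) :
    (∀ T : Module.End F (Fin n → F), Iso (HF hF n) T → LinearMap.det T = 1 → (∃ z : F, T ^ 2 = z • (1 : Module.End F (Fin n → F))) →
      (∀ z : F, T ≠ z • (1 : Module.End F (Fin n → F))) → ∃ W : Submodule F (Fin n → F), finrank F W = m ∧ ND (HF hF n) W ∧ Inv T W) ↔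
    (Odd n ∨ Even m ∨ (padicValNat 2 n ≤ padicValNat 2 (q + 1) ∧ q % 4 = 3)) := by
  constructor
  · intro H
    by_contra hcon
    push Not at hcon
    obtain ⟨h1, h3, h4⟩ := hcon
    rw [Nat.not_odd_iff_even] at h1
    obtain ⟨T, y, hT, hd⟩ := exists_mi hF h2 hn h1 (fun h => h4 h.1 h.2)
    obtain ⟨W, hWm, hWnd, hW⟩ := H T hT.iso hd ⟨_, hT.sq⟩ (by
      rintro w rfl
      have h5 := hT.sq
      rw [smul_pow_end, one_pow] at h5
      have h6 : w ^ 2 = y ^ 2 := scalar_inj hn h5
      have h7 : w ^ (q + 1) = 1 := z_norm hF hn (r := 1) hT.iso (by rw [pow_one])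
      obtain ⟨a, ha⟩ : ∃ a, q + 1 = 2 * a := by
        obtain ⟨t, ht⟩ := q_odd hF h2
        exact ⟨t + 1, by omega⟩
      have h8 := hT.hy
      rw [ha, pow_mul, ← h6, ← pow_mul, ← ha, h7] at h8
      exact h2 (by linear_combination h8))
    have := (hT.half hW hWnd).1
    rw [hWm] at this
    exact h3 ⟨_, by rw [this]; ring⟩
  · intro hcond T hT hd ⟨z, hz⟩ hns
    rcases sq_cases hF h2 hn hT hz with ⟨y, hy0, h3, h4⟩ | ⟨y, hmi⟩
    · obtain ⟨W, hW1, hW2, hW3⟩ := plus_fix hF h2 h3 h4 hm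
      exact ⟨W, hW1, hW2, (inv_smul (inv_ne_zero hy0)).1 hW3⟩
    · rcases hcond with h5 | h5 | ⟨h5, h6⟩
      · exfalso
        have := hmi.half_top.1
        rw [← Nat.not_even_iff_odd] at h5
        exact h5 ⟨_, by rw [← two_mul]; exact this⟩
      · exact hmi.fix hm h5
      · exact (no_mi hF hn hmi hd h5 h6).elim

end fin

end Cfsg.Agent.Lib.UnND
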