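import Mathlib
import Cfsg.Agent.Lib.UnND7
import Cfsg.Agent.Lib.RegUni

set_option autoImplicit false
set_option linter.unusedSectionVars false

/-! Unipotent isometries of hermitian spaces and nondegenerate subspaces. (helper99) -/

namespace Cfsg.Agent.Lib.UnND

open Polynomial Module Cfsg.Agent.Lib.InvSub Cfsg.Agent.Lib.PrimeOrd Cfsg.Agent.Lib.Sesq Cfsg.Agent.Lib.UniPair
open Cfsg.Agent.Lib.ClUnitary (frob frob_frob)
open Cfsg.Agent.Lib.HermAlg (IsHerm)
open Cfsg.Agent.Lib.JordanNil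
open Cfsg.Agent.Lib.SpND (exists_index invN_iff typ_of_hasType typ_congr pow_sub_one)

universe u

section gen

variable {F V : Type*} [Field F] [AddCommGroup V] [Module F V] {σ : F →+* F} {B : V →ₗ[F] V →ₛₗ[σ] F} [FiniteDimensional F V] {T : Module.End F V}

/-- single Jordan blocks split off -/
theorem exists_block {ω : F} (hω : σ ω ≠ ω) (hr : Refl B) (hnd : ND B ⊤) (hT : Iso B T)
    (hnil : IsNilpotent (T - 1)) {W : Submodule F V} (hW : Inv T W) (hWnd : ND B W) (hne : W ≠ ⊥) :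
    ∃ k, 0 < k ∧ ∃ U ≤ W, Inv T U ∧ ND B U ∧ Typ (T - 1) U {k} := by
  obtain ⟨k, hk, hN, x₀, hx₀, hx₀'⟩ := exists_index hnil hne
  have hNW : Inv (T - 1) W := invN_iff.2 hW
  have hpos : ∀ x ∈ W, ((T - 1) ^ (k - 1)) x ∈ W := fun x hx => map_pow_le hNW _ ⟨x, hx, rfl⟩
  obtain ⟨y₀, hy₀, hxy⟩ : ∃ y ∈ W, B (((T - 1) ^ (k - 1)) x₀) y ≠ 0 := by
    by_contra hcon
    push Not at hcon
    exact hx₀' (hWnd _ (hpos _ hx₀) hcon)
  obtain ⟨x, hx, hxx⟩ := exists_self hω ((T - 1) ^ (k - 1)) ⟨x₀, hx₀, y₀, hy₀, hxy⟩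
  have hx0 : x ≠ 0 := by
    rintro rfl
    exact hxx (map_zero _)
  obtain ⟨ψ, hψ⟩ : ∃ ψ : Module.Dual F V, ψ x ≠ 0 := by
    by_contra hcon
    push Not at hcon
    exact hx0 ((Module.forall_dual_apply_eq_zero_iff F x).1 hcon)
  let B' : V →ₗ[F] V →ₗ[F] F := LinearMap.smulRight (B.flip x) ψ
  have hB' : ∀ u v, B' u v = B u x * ψ v := fun u v => rfl
  have hX : Submodule.span F {x} ≤ W := by rw [Submodule.span_singleton_le_iff_mem]; exact hx
  have hβ : ∀ z ∈ Submodule.span F {x}, (∀ y ∈ Submodule.span F {x}, B' (((T - 1) ^ (k - 1)) z) y = 0) → z = 0 := by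
    intro z hz h
    obtain ⟨c, rfl⟩ := Submodule.mem_span_singleton.mp hz
    have h3 := h x (Submodule.mem_span_singleton_self x)
    rw [hB', map_smul, map_smul, LinearMap.smul_apply, smul_eq_mul, mul_assoc] at h3
    rw [(mul_eq_zero.mp h3).resolve_right (mul_ne_zero hxx hψ), zero_smul]
  have hinvN := gen_inv (k := k) hX hN
  have hinv := invN_iff.1 hinvN
  have h5 := gen_typ (B := B') hX hN hk hβ
  rw [finrank_span_singleton hx0] at h5
  refine ⟨k, hk, _, gen_le hX hNW, hinv, ?_, by simpa using h5⟩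
  rw [nd_iff hr, eq_bot_iff]
  intro u hu
  have hR : Inv (T - 1) (gen (T - 1) (Submodule.span F {x}) k ⊓ perp B (gen (T - 1) (Submodule.span F {x}) k)) :=
    invN_iff.2 (inv_inf hinv (hT.inv_perp hnd hinv))
  have h1 := gen_map hX hN 0
  have hmid : ∀ S : Submodule F V, S.map (1 : Module.End F V) = S := fun S => Submodule.map_id S
  rw [pow_zero, hmid, Nat.sub_zero] at h1
  have h2 := hu.1
  rw [SetLike.mem_coe, h1] at h2
  obtain ⟨z, hz⟩ := h2
  have h3 : z = 0 := ph_zero (B := B') hX hN hβ hR (fun u hu y hy => by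
    rw [hB', hr _ _ (hu.2 x (le_gen hk (Submodule.mem_span_singleton_self x))), zero_mul]) (add_zero k) (by
    rw [hz]; exact hu)
  rw [Submodule.mem_bot, ← hz, h3, map_zero]

theorem inf_perp_inv (hnd : ND B ⊤) (hT : Iso B T) {W U : Submodule F V} (hW : Inv T W) (hU : Inv T U) : Inv T (W ⊓ perp B U) :=
  inv_inf hW (hT.inv_perp hnd hU)

/-- subspaces of given subtype -/
theorem type_split [Finite F] {ω : F} (hω : σ ω ≠ ω) (hr : Refl B) (hnd : ND B ⊤) (hT : Iso B T)
    (hnil : IsNilpotent (T - 1)) : ∀ (n : ℕ) (W : Submodule F V), finrank F W = n → Inv T W → ND B W →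
    ∀ μ, Typ (T - 1) W μ → ∀ ν ≤ μ, ∃ U ≤ W, Inv T U ∧ ND B U ∧ finrank F U = ν.sum := by
  classical
  intro n
  induction n using Nat.strong_induction_on with
  | _ n ih =>
    intro W hWn hW hWnd μ hμ
    by_cases hne : W = ⊥
    · subst hne
      have h1 := hμ.finrank_eq
      rw [finrank_bot] at h1
      have h3 : μ = 0 := by
        rw [Multiset.eq_zero_iff_forall_notMem]
        intro a ha
        have h4 := Multiset.sum_eq_zero_iff.mp h1.symm a ha
        rw [h4] at ha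
        exact hμ.1 ha
      subst h3
      refine fun ν hν => ⟨⊥, le_rfl, hW, hWnd, ?_⟩
      rw [Multiset.le_zero.mp hν]; simp
    obtain ⟨k, hk, U, hUW, hU, hUnd, hty⟩ := exists_block hω hr hnd hT hnil hW hWnd hne
    obtain ⟨g1, g2, g3, g4⟩ := split_nd hr hWnd hUnd hUW
    have hW₁ := inf_perp_inv hnd hT hW hU
    obtain ⟨μ₁, hμ₁⟩ := exists_typ hnil (invN_iff.mpr hW₁)
    have hsum := hty.sup (invN_iff.mpr hU) (invN_iff.mpr hW₁) g2 hμ₁
    rw [g1] at hsum
    have hμe := hμ.unique hsum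
    have ih2 := ih _ (by rw [← hWn, ← g3, hty.finrank_eq]; simp; omega) (W ⊓ perp B U) rfl hW₁ g4 μ₁ hμ₁
    intro ν hν
    by_cases hkν : k ∈ ν
    · obtain ⟨ν₁, rfl⟩ := Multiset.exists_cons_of_mem hkν
      have hν₁ : ν₁ ≤ μ₁ := by
        rw [hμe, Multiset.singleton_add] at hν
        exact (Multiset.cons_le_cons_iff k).1 hν
      obtain ⟨U', hU'W, hU', hU'nd, hU'f⟩ := ih2 ν₁ hν₁
      refine ⟨U ⊔ U', sup_le hUW (hU'W.trans inf_le_left), inv_sup hU hU', nd_sup hr hUnd hU'nd (fun u hu v hv => (hU'W hv).2 u hu), ?_⟩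
      have h5 := Submodule.finrank_sup_add_finrank_inf_eq U U'
      rw [disjoint_iff.mp (g2.mono_right hU'W), finrank_bot] at h5
      have h6 := hty.finrank_eq
      rw [Multiset.sum_singleton] at h6
      rw [Multiset.sum_cons, ← hU'f, ← h6]; omega
    · obtain ⟨U', hU'W, hU', hU'nd, hU'f⟩ := ih2 ν (by
        rw [Multiset.le_iff_count]
        intro a
        have h3 := Multiset.count_le_of_le a hν
        rw [hμe, Multiset.count_add, Multiset.count_singleton] at h3
        by_cases hak : a = k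
        · rw [hak, Multiset.count_eq_zero_of_notMem hkν]; exact Nat.zero_le _
        · rw [if_neg hak, zero_add] at h3; exact h3)
      exact ⟨U', hU'W.trans inf_le_left, hU', hU'nd, hU'f⟩

end gen

section fin

variable {F : Type u} [Field F]

theorem ps_X1' (σ : F →+* F) : PolyStar.ps σ (X - 1 : F[X]) = X - 1 := by
  have h0 : (X - 1 : F[X]).coeff 0 ≠ 0 := by simp
  have hX1 : (X - 1 : F[X]) = X - C 1 := by rw [C_1]
  have hmon : (X - 1 : F[X]).Monic := by rw [hX1]; exact monic_X_sub_C 1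
  have hdeg : (X - 1 : F[X]).natDegree = 1 := by rw [hX1]; exact natDegree_X_sub_C 1
  have hne : (X - 1 : F[X]) ≠ 0 := hmon.ne_zero
  apply eq_of_monic_of_associated (PolyStar.ps_monic hne) hmon
  refine (PolyStar.ps_assoc hne).trans ?_
  rw [PolyStar.rv_eq_reflect h0, hdeg, Polynomial.map_sub, Polynomial.map_X, Polynomial.map_one, reflect_sub, reflect_one_X]
  have : reflect 1 (1 : F[X]) = X := by rw [reflect_one, pow_one]
  rw [this]
  exact ⟨-1, by simp⟩

variable [Fintype F] {q : ℕ}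

theorem hreal_uni (hF : Fintype.card F = q ^ 2) (μ : Multiset ℕ) (hμ : ∀ a ∈ μ, 0 < a) : HermType2.HReal (frob hF) (FormJordan2.uni F μ) := by
  obtain ⟨ω, hω⟩ := UnSpec.exists_ne hF
  induction μ using Multiset.induction with
  | empty => exact HermType2.HReal_zero
  | cons a μ ih =>
    have h1 : FormJordan2.uni F (a ::ₘ μ) = {((X - 1 : F[X]), a)} + FormJordan2.uni F μ := by
      rw [FormJordan2.uni, FormJordan2.uni, Multiset.map_cons, Multiset.singleton_add]
    rw [h1]
    apply HermType2.HReal_add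
    · refine HermType2.HReal_single (frob_frob hF) hω ⟨?_, ?_, hμ a (Multiset.mem_cons_self a μ)⟩ (by simp) (Prod.ext (ps_X1' _).symm rfl)
      · have hX1 : (X - 1 : F[X]) = X - C 1 := by rw [C_1]
        rw [hX1]; exact monic_X_sub_C 1
      · have hX1 : (X - 1 : F[X]) = X - C 1 := by rw [C_1]
        rw [hX1]; exact irreducible_X_sub_C 1
    · exact ih (fun b hb => hμ b (Multiset.mem_cons_of_mem hb))

/-- unipotent isometries of given type -/
theorem exists_unip (hF : Fintype.card F = q ^ 2) {n : ℕ} {μ : Multiset ℕ} (hpos : ∀ a ∈ μ, 0 < a) (hsum : μ.sum = n) :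
    ∃ T : Module.End F (Fin n → F), Iso (HF hF n) T ∧ Typ (T - 1) ⊤ μ := by
  obtain ⟨V, i1, i2, h, f, hh, hf, hty⟩ := hreal_uni hF μ hpos
  have h0 : 0 ∉ μ := fun h => (hpos 0 h).ne rfl
  have hfd : FiniteDimensional F V := hty.finiteDimensional
  obtain ⟨h1, h2⟩ := typ_of_hasType hty h0
  obtain ⟨g, hg⟩ := UnSpec.exists_standard hF n hh (by rw [h2, hsum])
  have hg' : ∀ x y, HF hF n (g x) (g y) = h x y := hg
  refine ⟨(g : V →ₗ[F] _) ∘ₗ f ∘ₗ (g.symm : _ →ₗ[F] V), ?_, ?_⟩
  · intro x y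
    simp only [LinearMap.comp_apply, LinearEquiv.coe_coe]
    rw [hg', hf, ← hg', LinearEquiv.apply_symm_apply, LinearEquiv.apply_symm_apply]
  · apply typ_congr g _ h1
    intro x
    simp only [LinearMap.sub_apply, LinearMap.comp_apply, LinearEquiv.coe_coe, LinearEquiv.symm_apply_apply, map_sub,
      Module.End.one_apply]

variable {p : ℕ} [Fact p.Prime] [CharP F p]

theorem unip_iff (hF : Fintype.card F = q ^ 2) {n m : ℕ} (hmn : m ≤ n) :
    (∀ T : Module.End F (Fin n → F), Iso (HF hF n) T → T ^ p = 1 → T ≠ 1 →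
      ∃ W : Submodule F (Fin n → F), finrank F W = m ∧ ND (HF hF n) W ∧ Inv T W) ↔
    (∀ μ : Multiset ℕ, (∀ a ∈ μ, 0 < a ∧ a ≤ p) → μ.sum = n → ∃ ν : Multiset ℕ, ν ≤ μ ∧ ν.sum = m) := by
  classical
  obtain ⟨ω, hω⟩ := UnSpec.exists_ne hF
  constructor
  · intro H μ hμ hsum
    obtain ⟨T, hT, hty⟩ := exists_unip hF (fun a ha => (hμ a ha).1) hsum
    have hNp : (T - 1) ^ p = 0 := (hty.pow_eq_zero_iff p).mpr fun b hb => (hμ b hb).2
    have hTp : T ^ p = 1 := by
      rw [pow_sub_one, sub_eq_zero] at hNp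
      exact hNp
    have hnil : IsNilpotent (T - 1) := ⟨p, hNp⟩
    by_cases hT1 : T = 1
    · -- all parts are one
      have h3 : ∀ b ∈ μ, b = 1 := by
        intro b hb
        have h4 : (T - 1) ^ 1 = 0 := by rw [pow_one, hT1, sub_self]
        have h5 := (hty.pow_eq_zero_iff 1).mp h4 b hb
        have h6 := (hμ b hb).1
        omega
      have h4 : μ = Multiset.replicate n 1 := by
        rw [Multiset.eq_replicate]
        refine ⟨?_, h3⟩
        rw [← hsum]
        have h5 := Multiset.eq_replicate.mpr ⟨rfl, h3⟩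
        rw [h5]; simp
      refine ⟨Multiset.replicate m 1, ?_, by simp⟩
      rw [h4]; exact (Multiset.replicate_le_replicate 1).mpr hmn
    · obtain ⟨W, hWf, hWnd, hW⟩ := H T hT hTp hT1
      obtain ⟨g1, g2, g3, g4⟩ := split_nd (hf_refl hF) (hf_nd hF) hWnd le_top
      have hW₁ := inf_perp_inv (hf_nd hF) hT (W := ⊤) (fun _ _ => trivial) hW
      obtain ⟨ν, hν⟩ := exists_typ hnil (invN_iff.mpr hW)
      obtain ⟨ν₁, hν₁⟩ := exists_typ hnil (invN_iff.mpr hW₁)
      have h3 := hν.sup (invN_iff.mpr hW) (invN_iff.mpr hW₁) g2 hν₁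
      rw [g1] at h3
      have h4 := hty.unique h3
      refine ⟨ν, ?_, by rw [← hν.finrank_eq, hWf]⟩
      rw [h4]; exact Multiset.le_add_right _ _
  · intro H T hT hTp hT1
    have hNp : (T - 1) ^ p = 0 := by rw [pow_sub_one, hTp, sub_self]
    have hnil : IsNilpotent (T - 1) := ⟨p, hNp⟩
    obtain ⟨μ, hμ⟩ := exists_typ_top hnil
    have h3 := (hμ.pow_eq_zero_iff p).mp hNp
    obtain ⟨ν, hν, hνs⟩ := H μ (fun a ha => ⟨Nat.pos_of_ne_zero (fun h0 => hμ.1 (h0 ▸ ha)), h3 a ha⟩) (by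
      rw [← hμ.finrank_eq, finrank_top, Module.finrank_fin_fun])
    obtain ⟨U, -, hU, hUnd, hUf⟩ := type_split hω (hf_refl hF) (hf_nd hF) hT hnil _ ⊤ rfl (fun _ _ => trivial) (hf_nd hF) μ hμ ν hν
    exact ⟨U, by rw [hUf, hνs], hUnd, hU⟩

/-- reduction to unipotent elements -/
theorem unip_red (hF : Fintype.card F = q ^ 2) {n : ℕ} (hn : 0 < n) (Q : Submodule F (Fin n → F) → Prop) :
    (∀ T : Module.End F (Fin n → F), Iso (HF hF n) T → LinearMap.det T = 1 → (∃ z : F, T ^ p = z • (1 : Module.End F (Fin n → F))) →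
      (∀ z : F, T ≠ z • (1 : Module.End F (Fin n → F))) → ∃ W, Q W ∧ Inv T W) ↔
    (∀ T : Module.End F (Fin n → F), Iso (HF hF n) T → T ^ p = 1 → T ≠ 1 → ∃ W, Q W ∧ Inv T W) := by
  have hinj : ∀ a b : F, a ^ p = b ^ p → a = b := fun a b h => frobenius_inj F p h
  constructor
  · intro H T hT hTp hT1
    refine H T hT ?_ ⟨1, by rw [hTp, one_smul]⟩ ?_
    · apply hinj
      rw [← map_pow, hTp, map_one, one_pow]
    · rintro z rfl
      apply hT1
      rw [smul_pow_end, one_pow] at hTp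
      have h1 : z ^ p = 1 ^ p := scalar_inj hn (by rw [hTp, one_pow, one_smul])
      rw [hinj _ _ h1, one_smul]
  · intro H T hT hd ⟨z, hz⟩ hns
    have hzq := z_norm hF hn hT hz
    obtain ⟨y, rfl⟩ : ∃ y : F, y ^ p = z := by
      obtain ⟨y, hy⟩ := (Finite.injective_iff_surjective (f := fun a : F => a ^ p)).1 (fun a b h => hinj a b h) z
      exact ⟨y, hy⟩
    have hyq : y ^ (q + 1) = 1 := by
      apply hinj
      rw [one_pow, ← pow_mul, mul_comm, pow_mul, hzq]
    have hy0 : y ≠ 0 := by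
      rintro rfl
      rw [zero_pow (by omega)] at hyq
      exact zero_ne_one hyq
    have hyi : (y⁻¹) ^ (q + 1) = 1 := by rw [_root_.inv_pow, hyq, inv_one]
    obtain ⟨W, hW1, hW2⟩ := H (y⁻¹ • T) (smul_iso hF hT hyi) (by
      rw [smul_pow_end, hz, _root_.inv_pow, smul_smul, inv_mul_cancel₀ (pow_ne_zero _ hy0), one_smul]) (fun h => by
      apply hns y
      rw [← h, smul_smul, mul_inv_cancel₀ hy0, one_smul])
    exact ⟨W, hW1, (inv_smul (inv_ne_zero hy0)).1 hW2⟩

/-- partitions into parts one and two -/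
theorem parts_two {n m : ℕ} (hmn : m ≤ n) : (∀ μ : Multiset ℕ, (∀ a ∈ μ, 0 < a ∧ a ≤ 2) → μ.sum = n → ∃ ν : Multiset ℕ, ν ≤ μ ∧ ν.sum = m) ↔
    (Odd n ∨ Even m) := by
  constructor
  · intro H
    by_contra hcon
    push Not at hcon
    obtain ⟨h1, h2⟩ := hcon
    rw [Nat.not_odd_iff_even] at h1
    obtain ⟨k, hk⟩ := h1
    obtain ⟨ν, hν, hs⟩ := H (Multiset.replicate k 2) (fun a ha => by rw [Multiset.eq_of_mem_replicate ha]; omega) (by simp; omega)
    obtain ⟨j, -, rfl⟩ := Multiset.le_replicate_iff.1 hν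
    rw [Multiset.sum_replicate] at hs
    exact h2 ⟨j, by rw [← hs]; simp; ring⟩
  · intro h μ hμ hs
    have hμe : μ = Multiset.replicate (μ.count 2) 2 + Multiset.replicate (μ.count 1) 1 := by
      ext a
      rw [Multiset.count_add, Multiset.count_replicate, Multiset.count_replicate]
      by_cases ha : a ∈ μ
      · have := hμ a ha
        by_cases ha1 : a = 1
        · subst ha1; simp
        · have ha2 : a = 2 := by omega
          subst ha2; simp
      · rw [Multiset.count_eq_zero_of_notMem ha]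
        by_cases ha1 : a = 1
        · subst ha1; simp [Multiset.count_eq_zero_of_notMem ha]
        · by_cases ha2 : a = 2
          · subst ha2; simp [Multiset.count_eq_zero_of_notMem ha]
          · rw [if_neg (Ne.symm ha2), if_neg (Ne.symm ha1)]
    set x := μ.count 2 with hx
    set y := μ.count 1 with hy
    rw [hμe] at hs
    simp only [Multiset.sum_add, Multiset.sum_replicate, smul_eq_mul, mul_one] at hs
    obtain ⟨a, b, ha, hb, hab⟩ : ∃ a b, a ≤ x ∧ b ≤ y ∧ a * 2 + b = m := by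
      rcases Nat.even_or_odd m with ⟨k, hk⟩ | ⟨k, hk⟩
      · exact ⟨min k x, m - min k x * 2, min_le_right _ _, by omega, by omega⟩
      · have hno : Odd n := h.resolve_right (by rw [Nat.not_even_iff_odd]; exact ⟨k, hk⟩)
        obtain ⟨t, ht⟩ := hno
        exact ⟨min k x, m - min k x * 2, min_le_right _ _, by omega, by omega⟩
    refine ⟨Multiset.replicate a 2 + Multiset.replicate b 1, ?_, ?_⟩
    · rw [hμe]
      exact add_le_add ((Multiset.replicate_le_replicate 2).mpr ha) ((Multiset.replicate_le_replicate 1).mpr hb)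
    · simp only [Multiset.sum_add, Multiset.sum_replicate, smul_eq_mul, mul_one]
      exact hab

end fin

end Cfsg.Agent.Lib.UnND
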