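import Cfsg.Agent.Lib.AschAdj14
import Cfsg.Agent.Lib.SLNot
import Cfsg.Agent.Lib.ClUnSimple
import Cfsg.Agent.S0283
set_option autoImplicit false
set_option linter.style.haveILetI false
set_option linter.unusedVariables false
set_option linter.unusedSectionVars false

/-!
`SU_n(q)` is contained in none of the stabilisers of the geometric classes (arguments with transvections).
-/

namespace Cfsg.Agent.Lib.UnNot

open Cfsg Cfsg.Geo Cfsg.Agent.Lib.AschMU Cfsg.Agent.Lib.AschCore Cfsg.Agent.Lib.AschField Cfsg.Agent.Lib.AschAlg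
  Cfsg.Agent.Lib.AschGroup Cfsg.Agent.Lib.AschGood Cfsg.Agent.Lib.AschNonab Cfsg.Agent.Lib.AschTensor Cfsg.Agent.Lib.AschComp
  Cfsg.Agent.Lib.AschAdj Cfsg.Agent.Lib.SLGeom
open scoped Matrix MatrixGroups Kronecker commutatorElement
open Matrix (vecMulVec)

section single
variable {ι : Type} [Fintype ι] [DecidableEq ι] {F : Type*} [Field F]

/-- a non-zero vector killed by two functionals -/
lemma exists_ne_dot₂ (hι : 3 ≤ Fintype.card ι) (a b : ι → F) : ∃ x : ι → F, x ≠ 0 ∧ a ⬝ᵥ x = 0 ∧ b ⬝ᵥ x = 0 :=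
  SLNot.exists_ne_zero_dot₂ hι a b

/-- A transvection normalises no field. -/
theorem tv_not_field (hι : 3 ≤ Fintype.card ι) {r : ℕ} (hr : 2 ≤ r) {K : Subalgebra F (Matrix ι ι F)}
    (hK : IsFieldSubalgebra r K) {v w : ι → F} (hv : v ≠ 0) (hw : w ≠ 0) (h : w ⬝ᵥ v = 0) : tv v w h ∉ subalgebraNormalizer K := by
  intro ht
  haveI : Nonempty ι := Fintype.card_pos_iff.1 (by omega)
  have hunit : ∀ x ∈ K, (∃ v : ι → F, v ≠ 0 ∧ x *ᵥ v = 0) → x = 0 := by
    rintro x hx ⟨v, hv, hxv⟩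
    by_contra h0
    obtain ⟨y, hy, hxy⟩ := hK.inv x hx h0
    apply hv
    calc v = (y * x) *ᵥ v := by rw [hK.comm y hy x hx, hxy, Matrix.one_mulVec]
      _ = 0 := by rw [← Matrix.mulVec_mulVec, hxv, Matrix.mulVec_zero]
  set T : Matrix ι ι F := ((tv v w h : GL ι F) : Matrix ι ι F) with hT
  set T' : Matrix ι ι F := (((tv v w h)⁻¹ : GL ι F) : Matrix ι ι F) with hT'
  have hTT' : T * T' = 1 := gl_mul_inv _
  have hT'T : T' * T = 1 := gl_inv_mul _
  have hscal : ∀ k ∈ K, ∃ c : F, k = c • (1 : Matrix ι ι F) := by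
    intro k hk
    have hk' : T * k * T' ∈ K := (ht k).1 hk
    have hD : T * k * T' - k = 0 := by
      apply hunit _ (K.sub_mem hk' hk)
      obtain ⟨x, hx, h1, h2⟩ := exists_ne_dot₂ hι w (w ᵥ* k)
      refine ⟨x, hx, ?_⟩
      have h3 : T *ᵥ x = x := by rw [hT, tv_mulVec, h1, zero_smul, add_zero]
      have h4 : T' *ᵥ x = x := by
        have := congrArg (fun y => T' *ᵥ y) h3
        simp only [Matrix.mulVec_mulVec, hT'T, Matrix.one_mulVec] at this
        exact this.symm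
      have h5 : T *ᵥ (k *ᵥ x) = k *ᵥ x := by
        rw [hT, tv_mulVec, Matrix.dotProduct_mulVec, h2, zero_smul, add_zero]
      rw [Matrix.sub_mulVec, ← Matrix.mulVec_mulVec, h4, ← Matrix.mulVec_mulVec, h5, sub_self]
    have hcomm : T * k = k * T := by
      calc T * k = (T * k * T') * T := by rw [mul_assoc (T * k), hT'T, mul_one]
        _ = k * T := by rw [sub_eq_zero.1 hD]
    -- k v is a multiple of v
    obtain ⟨y, hy⟩ : ∃ y : ι → F, w ⬝ᵥ y ≠ 0 := by
      by_contra hcon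
      push Not at hcon
      apply hw
      ext i
      have := hcon (Pi.single i 1)
      simpa using this
    have h6 : (w ⬝ᵥ (k *ᵥ y)) • v = (w ⬝ᵥ y) • (k *ᵥ v) := by
      have h7 := congrArg (fun M : Matrix ι ι F => M *ᵥ y) hcomm
      simp only [← Matrix.mulVec_mulVec] at h7
      rw [hT, tv_mulVec, tv_mulVec, Matrix.mulVec_add, Matrix.mulVec_smul] at h7
      exact add_left_cancel h7
    refine ⟨(w ⬝ᵥ y)⁻¹ * (w ⬝ᵥ (k *ᵥ y)), ?_⟩
    rw [← sub_eq_zero]
    apply hunit _ (K.sub_mem hk (Subalgebra.smul_mem _ (one_mem _) _))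
    refine ⟨v, hv, ?_⟩
    rw [Matrix.sub_mulVec, Matrix.smul_mulVec, Matrix.one_mulVec, mul_smul, h6, smul_smul, inv_mul_cancel₀ hy, one_smul, sub_self]
  have h1 : K = ⊥ := by
    rw [eq_bot_iff]
    intro k hk
    obtain ⟨c, hc⟩ := hscal k hk
    rw [hc]
    exact Subalgebra.smul_mem _ (one_mem _) c
  have h2 := hK.finrank_eq
  rw [h1, Subalgebra.finrank_bot] at h2
  omega

/-- Pure tensors of two vectors. -/
def pt {d e : ℕ} (ρ : ι ≃ Fin d × Fin e) (x : Fin d → F) (y : Fin e → F) : ι → F := fun i => x (ρ i).1 * y (ρ i).2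

lemma kronL_pt {d e : ℕ} (ρ : ι ≃ Fin d × Fin e) (a : Matrix (Fin d) (Fin d) F) (b : Matrix (Fin e) (Fin e) F) (x : Fin d → F)
    (y : Fin e → F) : kronL ρ a b *ᵥ pt ρ x y = pt ρ (a *ᵥ x) (b *ᵥ y) := by
  funext i
  simp only [pt, Matrix.mulVec, dotProduct, kronL, Matrix.reindex_apply, Matrix.submatrix_apply, Equiv.symm_symm, Matrix.kroneckerMap_apply]
  rw [← Equiv.sum_comp ρ.symm]
  simp only [Equiv.apply_symm_apply]
  rw [Fintype.sum_prod_type, Finset.sum_mul_sum]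
  refine Finset.sum_congr rfl fun j _ => Finset.sum_congr rfl fun k _ => ?_
  ring

lemma pt_prop {d e : ℕ} (ρ : ι ≃ Fin d × Fin e) {x x' : Fin d → F} {y y' : Fin e → F} (hy : y ≠ 0) (h : pt ρ x y = pt ρ x' y') :
    ∃ c : F, x = c • x' := by
  obtain ⟨k, hk⟩ := Function.ne_iff.1 hy
  refine ⟨(y k)⁻¹ * y' k, ?_⟩
  funext j
  have := congrFun h (ρ.symm (j, k))
  simp only [pt, Equiv.apply_symm_apply] at this
  rw [Pi.zero_apply] at hk
  rw [Pi.smul_apply, smul_eq_mul]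
  field_simp
  rw [mul_comm, mul_comm (y' k)]
  linear_combination this

/-- A vector that is not an eigenvector of a non-scalar matrix. -/
lemma exists_not_eigen' {y : Matrix ι ι F} (hy : ∀ c : F, y ≠ c • (1 : Matrix ι ι F)) : ∃ v : ι → F, ∀ c : F, y *ᵥ v ≠ c • v := by
  obtain ⟨v, hv⟩ := SLNot.exists_not_eigen hy
  exact ⟨v, fun c hc => hv (Submodule.mem_span_singleton.2 ⟨c, hc.symm⟩)⟩

/-- non-zero vector killed by one functional -/
lemma exists_ne_dot {κ : Type} [Fintype κ] [DecidableEq κ] (hκ : 2 ≤ Fintype.card κ) (a : κ → F) : ∃ x : κ → F, x ≠ 0 ∧ a ⬝ᵥ x = 0 := by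
  obtain ⟨i, j, hij⟩ := Fintype.one_lt_card_iff.1 (show 1 < Fintype.card κ by omega)
  by_cases h : a i = 0
  · refine ⟨Pi.single i 1, ?_, ?_⟩
    · intro h0
      have := congrFun h0 i
      simp at this
    · simp [h]
  · refine ⟨a j • Pi.single i 1 - a i • Pi.single j 1, ?_, ?_⟩
    · intro h0
      have := congrFun h0 j
      simp [hij] at this
      exact h this
    · simp [dotProduct_sub, dotProduct_smul]
      ring

/-- A transvection does not preserve a tensor decomposition. -/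
theorem tv_not_tensor {d e : ℕ} (hd : 2 ≤ d) (he : 2 ≤ e) (ρ : ι ≃ Fin d × Fin e) (P : GL ι F) {v w : ι → F} (hv : v ≠ 0) (hw : w ≠ 0)
    (h : w ⬝ᵥ v = 0) : tv v w h ∉ tensorProductSubgroup d e ρ P := by
  intro ht
  obtain ⟨a, b, hab⟩ := mem_tensorProductSubgroup.1 ht
  -- action on P (x ⊗ y)
  have key : ∀ (x : Fin d → F) (y : Fin e → F), (P : Matrix ι ι F) *ᵥ pt ρ ((a : Matrix (Fin d) (Fin d) F) *ᵥ x) ((b : Matrix (Fin e) (Fin e) F) *ᵥ y) =
      (P : Matrix ι ι F) *ᵥ pt ρ x y + (w ⬝ᵥ ((P : Matrix ι ι F) *ᵥ pt ρ x y)) • v := by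
    intro x y
    rw [← tv_mulVec v w h, hab, Matrix.mulVec_mulVec, mul_assoc, gl_inv_mul, mul_one, ← Matrix.mulVec_mulVec, kronL_pt]
  have hPinj : ∀ x y : ι → F, (P : Matrix ι ι F) *ᵥ x = (P : Matrix ι ι F) *ᵥ y → x = y := by
    intro x y hxy
    have := congrArg (fun z => ((P⁻¹ : GL ι F) : Matrix ι ι F) *ᵥ z) hxy
    simpa only [Matrix.mulVec_mulVec, gl_inv_mul, Matrix.one_mulVec] using this
  have hlin1 : ∀ x : Fin d → F, ∃ f : Fin e → F, ∀ y, w ⬝ᵥ ((P : Matrix ι ι F) *ᵥ pt ρ x y) = f ⬝ᵥ y := by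
    intro x
    refine ⟨fun k => ∑ j, (w ᵥ* (P : Matrix ι ι F)) (ρ.symm (j, k)) * x j, fun y => ?_⟩
    rw [Matrix.dotProduct_mulVec]
    simp only [dotProduct, pt]
    rw [← Equiv.sum_comp ρ.symm, Fintype.sum_prod_type, Finset.sum_comm]
    refine Finset.sum_congr rfl fun k _ => ?_
    rw [Finset.sum_mul]
    refine Finset.sum_congr rfl fun j _ => ?_
    rw [Equiv.apply_symm_apply]; ring
  have hlin2 : ∀ y : Fin e → F, ∃ f : Fin d → F, ∀ x, w ⬝ᵥ ((P : Matrix ι ι F) *ᵥ pt ρ x y) = f ⬝ᵥ x := by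
    intro y
    refine ⟨fun j => ∑ k, (w ᵥ* (P : Matrix ι ι F)) (ρ.symm (j, k)) * y k, fun x => ?_⟩
    rw [Matrix.dotProduct_mulVec]
    simp only [dotProduct, pt]
    rw [← Equiv.sum_comp ρ.symm, Fintype.sum_prod_type]
    refine Finset.sum_congr rfl fun j _ => ?_
    rw [Finset.sum_mul]
    refine Finset.sum_congr rfl fun k _ => ?_
    rw [Equiv.apply_symm_apply]; ring
  have hswap : ∀ (x : Fin d → F) (y : Fin e → F), pt (ρ.trans (Equiv.prodComm _ _)) y x = pt ρ x y := by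
    intro x y
    funext i
    simp [pt, mul_comm]
  have binj : ∀ (b : GL (Fin e) F) (y : Fin e → F), y ≠ 0 → (b : Matrix (Fin e) (Fin e) F) *ᵥ y ≠ 0 := by
    intro b y hy h0
    apply hy
    have := congrArg (fun z => ((b⁻¹ : GL (Fin e) F) : Matrix (Fin e) (Fin e) F) *ᵥ z) h0
    simpa only [Matrix.mulVec_mulVec, gl_inv_mul, Matrix.one_mulVec, Matrix.mulVec_zero] using this
  have ainj : ∀ (b : GL (Fin d) F) (y : Fin d → F), y ≠ 0 → (b : Matrix (Fin d) (Fin d) F) *ᵥ y ≠ 0 := by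
    intro b y hy h0
    apply hy
    have := congrArg (fun z => ((b⁻¹ : GL (Fin d) F) : Matrix (Fin d) (Fin d) F) *ᵥ z) h0
    simpa only [Matrix.mulVec_mulVec, gl_inv_mul, Matrix.one_mulVec, Matrix.mulVec_zero] using this
  obtain ⟨α, hα⟩ : ∃ c : F, (a : Matrix (Fin d) (Fin d) F) = c • 1 := by
    by_contra hcon
    push Not at hcon
    obtain ⟨x, hx⟩ := exists_not_eigen' hcon
    obtain ⟨f, hf⟩ := hlin1 x
    obtain ⟨y, hy, hfy⟩ := exists_ne_dot (by rw [Fintype.card_fin]; exact he) f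
    have h1 := key x y
    rw [hf, hfy, zero_smul, add_zero] at h1
    obtain ⟨c, hc⟩ := pt_prop ρ (binj b y hy) (hPinj _ _ h1)
    exact hx c hc
  obtain ⟨β, hβ⟩ : ∃ c : F, (b : Matrix (Fin e) (Fin e) F) = c • 1 := by
    by_contra hcon
    push Not at hcon
    obtain ⟨y, hy⟩ := exists_not_eigen' hcon
    obtain ⟨f, hf⟩ := hlin2 y
    obtain ⟨x, hx, hfx⟩ := exists_ne_dot (by rw [Fintype.card_fin]; exact hd) f
    have h1 := key x y
    rw [hf, hfx, zero_smul, add_zero] at h1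
    have h2 := hPinj _ _ h1
    rw [← hswap, ← hswap x y] at h2
    obtain ⟨c, hc⟩ := pt_prop _ (ainj a x hx) h2
    exact hy c hc
  -- so the transvection is a scalar
  have h2 : ((tv v w h : GL ι F) : Matrix ι ι F) = (α * β) • 1 := by
    rw [hab, hα, hβ, smul_kronL, AschAdj.kronL_smul, kronL_one, smul_smul, Matrix.mul_smul, mul_one, Matrix.smul_mul, gl_mul_inv]
  rw [tv_val] at h2
  obtain ⟨i, hi⟩ := Function.ne_iff.1 hv
  obtain ⟨j, hj⟩ := Function.ne_iff.1 hw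
  rw [Pi.zero_apply] at hi hj
  haveI : Nonempty ι := ⟨i⟩
  obtain ⟨x, hx, hwx⟩ := exists_ne_dot (κ := ι) (by
    rw [Fintype.card_congr ρ, Fintype.card_prod, Fintype.card_fin, Fintype.card_fin]; nlinarith) w
  have h3 := congrArg (fun M : Matrix ι ι F => M *ᵥ x) h2
  simp only [Matrix.add_mulVec, Matrix.one_mulVec, Matrix.smul_mulVec, Matrix.vecMulVec_mulVec] at h3
  rw [hwx] at h3
  simp at h3
  obtain ⟨k, hk⟩ := Function.ne_iff.1 hx
  rw [Pi.zero_apply] at hk
  have h4 := congrFun h3 k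
  rw [Pi.smul_apply, smul_eq_mul] at h4
  have h5 : α * β = 1 := by
    have : (α * β - 1) * x k = 0 := by linear_combination -h4
    rcases mul_eq_zero.1 this with h | h
    · exact sub_eq_zero.1 h
    · exact absurd h hk
  rw [h5, one_smul] at h2
  have h6 : vecMulVec v w = 0 := by
    have := congrArg (fun M : Matrix ι ι F => M - 1) h2
    simpa using this
  have h7 := congrFun (congrFun h6 i) j
  rw [Matrix.vecMulVec_apply, Matrix.zero_apply] at h7
  rcases mul_eq_zero.1 h7 with h | h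
  · exact hi h
  · exact hj h

end single

end Cfsg.Agent.Lib.UnNot
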