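import Cfsg.Agent.Lib.UnNot2
import Cfsg.Agent.Lib.UnBridge
import Cfsg.Agent.Lib.HermMat
import Cfsg.Agent.Lib.ClUnSimple
import Cfsg.Agent.Lib.ClUnitary
set_option autoImplicit false
set_option linter.style.haveILetI false
set_option linter.unusedVariables false
set_option linter.unusedSectionVars false

/-!
The special unitary group is not contained in the stabiliser of a subspace or of a decomposition.
-/

namespace Cfsg.Agent.Lib.UnNot

open Cfsg Cfsg.Geo Cfsg.Agent.Lib.AschMU Cfsg.Agent.Lib.AschCore Cfsg.Agent.Lib.AschField Cfsg.Agent.Lib.AschAlg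
  Cfsg.Agent.Lib.AschGroup Cfsg.Agent.Lib.AschGood Cfsg.Agent.Lib.AschNonab Cfsg.Agent.Lib.AschTensor Cfsg.Agent.Lib.AschComp
  Cfsg.Agent.Lib.AschAdj Cfsg.Agent.Lib.SLGeom Cfsg.Agent.Lib.HermMat Cfsg.Agent.Lib.UnBridge
open scoped Matrix MatrixGroups Kronecker commutatorElement
open Matrix (vecMulVec)

section unitary
variable {F : Type*} [Field F] {n q : ℕ}

lemma utv_dot {v : Fin n → F} (hv : hermForm n F q v v = 0) (a : F) : (fun i => a * v i ^ q) ⬝ᵥ v = 0 := by
  have : (fun i => a * v i ^ q) ⬝ᵥ v = a * hermForm n F q v v := by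
    simp only [dotProduct, hermForm_def, Finset.mul_sum]
    exact Finset.sum_congr rfl fun i _ => by ring
  rw [this, hv, mul_zero]

/-- unitary transvections -/
def utv (v : Fin n → F) (hv : hermForm n F q v v = 0) (a : F) : GL (Fin n) F := tv v (fun i => a * v i ^ q) (utv_dot hv a)

lemma utv_mulVec (v : Fin n → F) (hv : hermForm n F q v v = 0) (a : F) (x : Fin n → F) :
    (utv v hv a : Matrix (Fin n) (Fin n) F) *ᵥ x = x + (a * hermForm n F q x v) • v := by
  rw [utv, tv_mulVec]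
  congr 2
  simp only [dotProduct, hermForm_def, Finset.mul_sum]
  exact Finset.sum_congr rfl fun i _ => by ring

lemma utv_w_ne {v : Fin n → F} (hv0 : v ≠ 0) {a : F} (ha : a ≠ 0) : (fun i => a * v i ^ q) ≠ 0 := by
  intro h
  apply hv0
  funext i
  have := congrFun h i
  simp only [Pi.zero_apply, mul_eq_zero] at this
  rcases this with h1 | h1
  · exact absurd h1 ha
  · by_contra hvi
    exact pow_ne_zero q hvi h1

variable [Fintype F]

lemma utv_mem (hF : Fintype.card F = q ^ 2) (v : Fin n → F) (hv : hermForm n F q v v = 0) {a : F} (ha : a + a ^ q = 0) :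
    utv v hv a ∈ GU n F q ⊓ specialLinear (Fin n) F := by
  refine ⟨?_, tv_mem _ _ _⟩
  intro x y
  have key : hermForm n F q ((utv v hv a : Matrix (Fin n) (Fin n) F) *ᵥ x) ((utv v hv a : Matrix (Fin n) (Fin n) F) *ᵥ y) =
      hermForm n F q x y := by
    rw [utv_mulVec, utv_mulVec, hermForm_add_left, hermForm_add_right hF, hermForm_add_right hF, hermForm_smul_left, hermForm_smul_left,
      hermForm_smul_right, hermForm_smul_right, hv, mul_pow, hermForm_swap hF]
    linear_combination (hermForm n F q x v * hermForm n F q v y) * ha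
  exact key

lemma exists_tr (hF : Fintype.card F = q ^ 2) : ∃ a : F, a ≠ 0 ∧ a + a ^ q = 0 := by
  obtain ⟨τ, h0, h1⟩ := (herm_HS 1 hF).exists_tr0
  exact ⟨τ, h0, by rwa [sig_apply] at h1⟩

/-- the isotropic vectors span -/
lemma iso_span (hF : Fintype.card F = q ^ 2) (hn : 2 ≤ n) {W : Submodule F (Fin n → F)}
    (h : ∀ v, hermForm n F q v v = 0 → v ∈ W) : W = ⊤ := by
  obtain ⟨z, hz0, hz⟩ := ClUnSimple.exists_iso hF hn
  obtain ⟨y, -, hy⟩ := herm_nd n hF z trivial hz0
  rw [eq_top_iff]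
  intro u _
  have := (herm_HS n hF).mem_span_iso (U := ⊤) trivial hz trivial hy (u := u) trivial
  refine Submodule.span_le.2 ?_ this
  rintro x ⟨-, hx⟩
  exact h x hx

lemma exists_iso_ne (hF : Fintype.card F = q ^ 2) (hn : 2 ≤ n) {x : Fin n → F} (hx : x ≠ 0) :
    ∃ v, hermForm n F q v v = 0 ∧ hermForm n F q x v ≠ 0 := by
  by_contra hcon
  push Not at hcon
  have H := herm_HS n hF
  have h1 := iso_span hF hn (W := LinearMap.ker ((H.fl x))) (fun v hv => by
    rw [LinearMap.mem_ker]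
    exact H.symm_zero (hcon v hv))
  obtain ⟨y, -, hy⟩ := herm_nd n hF x trivial hx
  have h2 : y ∈ LinearMap.ker (H.fl x) := by rw [h1]; trivial
  rw [LinearMap.mem_ker] at h2
  exact hy (H.symm_zero h2)

/-- a subspace invariant under all transvections is trivial -/
theorem inv_bot_or_top (hF : Fintype.card F = q ^ 2) (hn : 2 ≤ n) {a : F} (ha0 : a ≠ 0) (W : Submodule F (Fin n → F))
    (h : ∀ v, hermForm n F q v v = 0 → ∀ x ∈ W, x + (a * hermForm n F q x v) • v ∈ W) : W = ⊥ ∨ W = ⊤ := by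
  by_cases hW : W = ⊥
  · exact Or.inl hW
  right
  have key : ∀ v, hermForm n F q v v = 0 → ∀ x ∈ W, hermForm n F q x v ≠ 0 → v ∈ W := by
    intro v hv x hx hxv
    have h1 := h v hv x hx
    have h2 : (a * hermForm n F q x v) • v ∈ W := by
      have := W.sub_mem h1 hx
      simpa using this
    exact (W.smul_mem_iff (mul_ne_zero ha0 hxv)).1 h2
  obtain ⟨x, hx, hx0⟩ := (Submodule.ne_bot_iff W).1 hW
  obtain ⟨v, hv, hxv⟩ := exists_iso_ne hF hn hx0
  have hvW := key v hv x hx hxv
  apply iso_span hF hn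
  intro u hu
  by_cases hu1 : ∃ w ∈ W, hermForm n F q w u ≠ 0
  · obtain ⟨w, hw, hwu⟩ := hu1
    exact key u hu w hw hwu
  push Not at hu1
  have h1 : hermForm n F q (v + u) (v + u) = 0 := by
    rw [hermForm_add_left, hermForm_add_right hF, hermForm_add_right hF, hv, hu, hu1 v hvW, (herm_HS n hF).symm_zero (hu1 v hvW)]
    ring
  have h2 : v + u ∈ W := key (v + u) h1 x hx (by rw [hermForm_add_right hF, hu1 x hx, add_zero]; exact hxv)
  have := W.sub_mem h2 hvW
  simpa using this

theorem su_not_subspace (hF : Fintype.card F = q ^ 2) (hn : 2 ≤ n) {W : Submodule F (Fin n → F)} (h0 : W ≠ ⊥) (h1 : W ≠ ⊤) :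
    ¬ GU n F q ⊓ specialLinear (Fin n) F ≤ subspaceStabilizer W := by
  intro hle
  obtain ⟨a, ha0, ha⟩ := exists_tr hF
  rcases inv_bot_or_top hF hn ha0 W (fun v hv x hx => by
    have h1 := hle (utv_mem hF v hv ha)
    rw [mem_stab] at h1
    have := (h1 x).1 hx
    rwa [utv_mulVec] at this) with h | h
  · exact h0 h
  · exact h1 h

lemma exists_perp_mem {W : Submodule F (Fin n → F)} (hF : Fintype.card F = q ^ 2) (hW : 2 ≤ Module.finrank F W) (v : Fin n → F) :
    ∃ x ∈ W, x ≠ 0 ∧ hermForm n F q x v = 0 := by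
  have H := herm_HS n hF
  have h1 := UnTrans.HS.finrank_inf_ker W (H.fl v)
  have h2 : (W ⊓ LinearMap.ker (H.fl v) : Submodule F (Fin n → F)) ≠ ⊥ := by
    intro h
    rw [h, finrank_bot] at h1
    omega
  obtain ⟨x, hx, hx0⟩ := (Submodule.ne_bot_iff _).1 h2
  exact ⟨x, hx.1, hx0, hx.2⟩

theorem su_not_decomposition (hF : Fintype.card F = q ^ 2) (hn : 2 ≤ n) {t m : ℕ} (hm : 2 ≤ m)
    {D : Fin t → Submodule F (Fin n → F)} (hD : IsMDecomposition m D) :
    ¬ GU n F q ⊓ specialLinear (Fin n) F ≤ decompositionStabilizer D := by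
  intro hle
  have ht := hD.two_le
  obtain ⟨a, ha0, ha⟩ := exists_tr hF
  have hdisj : ∀ i j, i ≠ j → D i ⊓ D j = ⊥ := by
    intro i j hij
    exact (hD.indep.pairwiseDisjoint hij).eq_bot
  have key : ∀ i v, hermForm n F q v v = 0 → ∀ x ∈ D i, x + (a * hermForm n F q x v) • v ∈ D i := by
    intro i v hv x hx
    obtain ⟨σ, hσ⟩ := hle (utv_mem hF v hv ha)
    have hσi : σ i = i := by
      by_contra hne
      obtain ⟨y, hy, hy0, hyv⟩ := exists_perp_mem hF (by rw [hD.finrank_eq i]; exact hm) v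
      have h1 : (utv v hv a : Matrix (Fin n) (Fin n) F) *ᵥ y ∈ D (σ i) := by
        rw [← hσ i]
        exact Submodule.mem_map.2 ⟨y, hy, rfl⟩
      rw [utv_mulVec, hyv, mul_zero, zero_smul, add_zero] at h1
      have h2 : y ∈ D (σ i) ⊓ D i := ⟨h1, hy⟩
      rw [hdisj _ _ hne, Submodule.mem_bot] at h2
      exact hy0 h2
    have h1 : (utv v hv a : Matrix (Fin n) (Fin n) F) *ᵥ x ∈ D (σ i) := by
      rw [← hσ i]
      exact Submodule.mem_map.2 ⟨x, hx, rfl⟩
    rwa [utv_mulVec, hσi] at h1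
  let i0 : Fin t := ⟨0, by omega⟩
  let i1 : Fin t := ⟨1, by omega⟩
  have h01 : i0 ≠ i1 := by simp [i0, i1]
  rcases inv_bot_or_top hF hn ha0 (D i0) (key i0) with h | h
  · have := hD.finrank_eq i0
    rw [h, finrank_bot] at this
    omega
  · have h2 := hdisj i0 i1 h01
    rw [h, top_inf_eq] at h2
    have := hD.finrank_eq i1
    rw [h2, finrank_bot] at this
    omega

/-- three nonzero fixed elements with sum zero -/
lemma exists_mu (hF : Fintype.card F = q ^ 2) {t : ℕ} (ht : 4 ≤ t ∨ (t = 3 ∧ 3 ≤ q)) :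
    ∃ (μ : Fin t → F) (i j k : Fin t), (∀ l, μ l ^ q = μ l) ∧ ∑ l, μ l = 0 ∧ i ≠ j ∧ i ≠ k ∧ j ≠ k ∧ μ i ≠ 0 ∧ μ j ≠ 0 ∧ μ k ≠ 0 := by
  classical
  have hq := two_le_q hF
  have hm1 : ((-1 : F)) ^ q = -1 := by rw [neg_pow_q hF, one_pow]
  rcases ht with ht | ⟨rfl, hq3⟩
  · let i0 : Fin t := ⟨0, by omega⟩
    let i1 : Fin t := ⟨1, by omega⟩
    let i2 : Fin t := ⟨2, by omega⟩
    let i3 : Fin t := ⟨3, by omega⟩
    refine ⟨Pi.single i0 1 + Pi.single i1 (-1) + Pi.single i2 1 + Pi.single i3 (-1), i0, i1, i2, ?_, ?_, ?_⟩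
    · intro l
      rw [Pi.add_apply, Pi.add_apply, Pi.add_apply, add_pow_q hF, add_pow_q hF, add_pow_q hF]
      have hs : ∀ (i : Fin t) (c : F), c ^ q = c → (Pi.single i c : Fin t → F) l ^ q = (Pi.single i c : Fin t → F) l := by
        intro i c hc
        by_cases h : l = i
        · subst h; rw [Pi.single_eq_same, hc]
        · rw [Pi.single_eq_of_ne h, zero_pow (by omega)]
      rw [hs _ _ (one_pow q), hs _ _ hm1, hs _ _ (one_pow q), hs _ _ hm1]
    · simp [Finset.sum_add_distrib]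
    · simp [i0, i1, i2, i3, Pi.single_apply]
  · have h1 := ClUnitary.card_fixed_ne_zero hF
    have h2 : 1 < (Finset.univ.filter (fun c : F => c ≠ 0 ∧ c ^ q = c)).card := by rw [h1]; omega
    obtain ⟨b, hb, hb1⟩ := Finset.exists_mem_ne h2 1
    rw [Finset.mem_filter] at hb
    obtain ⟨-, hb0, hbq⟩ := hb
    refine ⟨![1, -b, b - 1], 0, 1, 2, ?_, ?_, by decide, by decide, by decide, ?_, ?_, ?_⟩
    · intro l
      fin_cases l
      · simp
      · show (-b) ^ q = -b
        rw [neg_pow_q hF, hbq]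
      · show (b - 1) ^ q = b - 1
        rw [sub_pow_q hF, hbq, one_pow]
    · rw [Fin.sum_univ_three]
      simp only [Matrix.cons_val_zero, Matrix.cons_val_one, Matrix.cons_val]
      ring
    · simp
    · simpa using hb0
    · simpa [sub_eq_zero] using hb1

theorem su_not_one_decomposition (hF : Fintype.card F = q ^ 2) {t : ℕ} (ht : 4 ≤ t ∨ (t = 3 ∧ 3 ≤ q))
    {D : Fin t → Submodule F (Fin n → F)} (hD : IsNondegenerateMDecomposition (hermForm n F q) 1 D) :
    ¬ GU n F q ⊓ specialLinear (Fin n) F ≤ decompositionStabilizer D := by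
  intro hle
  have hq := two_le_q hF
  have H := herm_HS n hF
  obtain ⟨a, ha0, ha⟩ := exists_tr hF
  have hex : ∀ i, ∃ e ∈ D i, e ≠ 0 := by
    intro i
    apply (Submodule.ne_bot_iff _).1
    intro h
    have := hD.decomp.finrank_eq i
    rw [h, finrank_bot] at this
    omega
  choose e he he0 using hex
  have hort : ∀ i j, i ≠ j → hermForm n F q (e i) (e j) = 0 := fun i j hij => hD.orthogonal i j hij _ (he i) _ (he j)
  have hlam : ∀ i, hermForm n F q (e i) (e i) ≠ 0 := by
    intro i h0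
    obtain ⟨⟨x, hx, hx0⟩, -⟩ := hD.nondegenerate i (e i) (he i) (he0 i)
    obtain ⟨c, hc⟩ := (finrank_eq_one_iff_of_nonzero' (⟨e i, he i⟩ : D i) (by
      intro h; exact he0 i (congrArg Subtype.val h))).1 (hD.decomp.finrank_eq i) ⟨x, hx⟩
    have hc' : c • e i = x := congrArg Subtype.val hc
    apply hx0
    rw [← hc', hermForm_smul_left, h0, mul_zero]
  obtain ⟨μ, i, j, k, hμ, hsum, hij, hik, hjk, hi, hj, hk⟩ := exists_mu hF ht
  have hc : ∀ l, ∃ c : F, c ^ (q + 1) = μ l / hermForm n F q (e l) (e l) := by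
    intro l
    apply ClUnitary.exists_norm hF
    rw [div_pow, hμ l, hermForm_swap hF]
  choose c hc using hc
  set v : Fin n → F := ∑ l, c l • e l with hv
  have hsl : ∀ (x : Fin t → F) (y : Fin n → F), hermForm n F q (∑ l, x l • e l) y = ∑ l, x l * hermForm n F q (e l) y := by
    intro x y
    have h1 := map_sum (H.fl y) (fun l => x l • e l) Finset.univ
    have h2 : ∀ z, H.fl y z = hermForm n F q z y := fun z => rfl
    simp only [h2, hermForm_smul_left] at h1
    exact h1
  have hev : ∀ l, hermForm n F q v (e l) = c l * hermForm n F q (e l) (e l) := by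
    intro l
    rw [hv, hsl, Finset.sum_eq_single l]
    · intro b _ hb
      rw [hort _ _ hb, mul_zero]
    · intro h; exact absurd (Finset.mem_univ _) h
  have hev' : ∀ l, hermForm n F q (e l) v = c l ^ q * hermForm n F q (e l) (e l) := by
    intro l
    rw [← hermForm_swap hF, hev, mul_pow, hermForm_swap hF]
  have hvv : hermForm n F q v v = 0 := by
    conv_lhs => rw [hv]
    rw [hsl]
    have : ∀ l, c l * hermForm n F q (e l) (∑ l, c l • e l) = μ l := by
      intro l
      rw [← hv, hev', ← mul_assoc, ← pow_succ', hc, div_mul_cancel₀ _ (hlam l)]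
    rw [Finset.sum_congr rfl fun l _ => this l, hsum]
  have hcne : ∀ l, μ l ≠ 0 → c l ≠ 0 := by
    intro l hl h0
    have := hc l
    rw [h0, zero_pow (by omega)] at this
    exact (div_ne_zero hl (hlam l)) this.symm
  obtain ⟨σ, hσ⟩ := hle (utv_mem hF v hvv ha)
  have h1 : (utv v hvv a : Matrix (Fin n) (Fin n) F) *ᵥ e i ∈ D (σ i) := by
    rw [← hσ i]
    exact Submodule.mem_map.2 ⟨e i, he i, rfl⟩
  rw [utv_mulVec] at h1
  have h2 : ∀ l, l ≠ i → μ l ≠ 0 → σ i = l := by
    intro l hl hml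
    by_contra hne
    have h3 := hD.orthogonal (σ i) l hne _ h1 _ (he l)
    rw [hermForm_add_left, hermForm_smul_left, hort _ _ (Ne.symm hl), hev, hev', zero_add] at h3
    have hci := hcne i hi
    have hcl := hcne l hml
    have hli := hlam i
    have hll := hlam l
    have : a * (c i ^ q * hermForm n F q (e i) (e i)) * (c l * hermForm n F q (e l) (e l)) ≠ 0 := by
      refine mul_ne_zero (mul_ne_zero ha0 (mul_ne_zero (pow_ne_zero _ hci) hli)) (mul_ne_zero hcl hll)
    exact this h3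
  exact hjk ((h2 j (Ne.symm hij) hj).symm.trans (h2 k (Ne.symm hik) hk))

end unitary

end Cfsg.Agent.Lib.UnNot
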