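import Cfsg.Agent.Lib.UnNot3
import Cfsg.Agent.S0283
set_option autoImplicit false
set_option linter.style.haveILetI false
set_option linter.unusedVariables false
set_option linter.unusedSectionVars false

/-!
The special unitary group is not contained in a subfield group and does not normalise a group of symplectic type.
-/

namespace Cfsg.Agent.Lib.UnNot

open Cfsg Cfsg.Geo Cfsg.Agent.Lib.AschMU Cfsg.Agent.Lib.AschCore Cfsg.Agent.Lib.AschField Cfsg.Agent.Lib.AschAlg
  Cfsg.Agent.Lib.AschGroup Cfsg.Agent.Lib.AschGood Cfsg.Agent.Lib.AschNonab Cfsg.Agent.Lib.AschTensor Cfsg.Agent.Lib.AschComp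
  Cfsg.Agent.Lib.AschAdj Cfsg.Agent.Lib.SLGeom Cfsg.Agent.Lib.HermMat Cfsg.Agent.Lib.UnBridge
open scoped Matrix MatrixGroups Kronecker commutatorElement
open Matrix (vecMulVec)

section sub
variable {F : Type*} [Field F] {ι : Type} [Fintype ι] [DecidableEq ι]

/-- If a transvection lies in a subfield group, then its rank one part is rational. -/
theorem tv_rat (hι : 3 ≤ Fintype.card ι) {F₀ : Subfield F} {P : GL ι F} {v w : ι → F} (hv : v ≠ 0) (hw : w ≠ 0) (h : w ⬝ᵥ v = 0)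
    (hmem : tv v w h ∈ subfieldSubgroup F₀ P) :
    ∀ i j, (((P⁻¹ : GL ι F) : Matrix ι ι F) *ᵥ v) i * (w ᵥ* (P : Matrix ι ι F)) j ∈ F₀ := by
  classical
  obtain ⟨c, a, hca⟩ := AschDescent.mem_subfieldSubgroup.1 hmem
  set v' := ((P⁻¹ : GL ι F) : Matrix ι ι F) *ᵥ v with hv'
  set w' := w ᵥ* (P : Matrix ι ι F) with hw'
  have hc0 : (c : F) ≠ 0 := c.ne_zero
  -- the rational matrix
  have h1 : (a : Matrix ι ι F₀).map F₀.subtype = (c : F)⁻¹ • (1 + vecMulVec v' w') := by
    have h2 := congrArg (fun M => ((P⁻¹ : GL ι F) : Matrix ι ι F) * M * (P : Matrix ι ι F)) hca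
    simp only [tv_val] at h2
    rw [Matrix.mul_smul, Matrix.smul_mul] at h2
    have h3 : ((P⁻¹ : GL ι F) : Matrix ι ι F) * ((P : Matrix ι ι F) * ((a : Matrix ι ι F₀).map F₀.subtype) * ((P⁻¹ : GL ι F) : Matrix ι ι F)) *
        (P : Matrix ι ι F) = (a : Matrix ι ι F₀).map F₀.subtype := by
      rw [← mul_assoc, ← mul_assoc, gl_inv_mul, one_mul, mul_assoc, gl_inv_mul, mul_one]
    have h4 : ((P⁻¹ : GL ι F) : Matrix ι ι F) * (1 + vecMulVec v w) * (P : Matrix ι ι F) = 1 + vecMulVec v' w' := by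
      rw [mul_add, add_mul, mul_one, gl_inv_mul, Matrix.mul_vecMulVec, Matrix.vecMulVec_mul]
    rw [h3, h4] at h2
    rw [h2, smul_smul, inv_mul_cancel₀ hc0, one_smul]
  have hg : ∀ i j, (c : F)⁻¹ * ((1 : Matrix ι ι F) i j + v' i * w' j) ∈ F₀ := by
    intro i j
    have h2 := congrFun (congrFun h1 i) j
    rw [Matrix.smul_apply, Matrix.add_apply, Matrix.vecMulVec_apply, smul_eq_mul] at h2
    rw [← h2]
    exact (a i j).2
  have hv0 : v' ≠ 0 := by
    intro h0
    apply hv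
    have := congrArg (fun x => (P : Matrix ι ι F) *ᵥ x) h0
    simpa [hv', Matrix.mulVec_mulVec, gl_mul_inv] using this
  have hw0 : w' ≠ 0 := by
    intro h0
    apply hw
    have := congrArg (fun x => x ᵥ* ((P⁻¹ : GL ι F) : Matrix ι ι F)) h0
    simpa [hw', Matrix.vecMul_vecMul, gl_mul_inv] using this
  have hdot : w' ⬝ᵥ v' = 0 := by
    rw [hw', hv', ← Matrix.dotProduct_mulVec, Matrix.mulVec_mulVec, gl_mul_inv, Matrix.one_mulVec, h]
  -- two indices
  obtain ⟨j, k, hjk, hne⟩ : ∃ j k, j ≠ k ∧ v' j * w' k ≠ 0 := by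
    by_contra hcon
    push Not at hcon
    obtain ⟨j, hj⟩ := Function.ne_iff.1 hv0
    rw [Pi.zero_apply] at hj
    have hk : ∀ k, k ≠ j → w' k = 0 := by
      intro k hk
      rcases mul_eq_zero.1 (hcon j k (Ne.symm hk)) with h | h
      · exact absurd h hj
      · exact h
    have h2 : w' ⬝ᵥ v' = w' j * v' j := by
      rw [dotProduct, Finset.sum_eq_single j]
      · intro b _ hb
        rw [hk b hb, zero_mul]
      · intro h; exact absurd (Finset.mem_univ _) h
    rw [hdot] at h2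
    rcases mul_eq_zero.1 h2.symm with h | h
    · apply hw0
      funext k
      by_cases hkj : k = j
      · subst hkj; exact h
      · exact hk k hkj
    · exact hj h
  obtain ⟨i, hij, hik⟩ : ∃ i, i ≠ j ∧ i ≠ k := by
    by_contra hcon
    push Not at hcon
    have h2 : (Finset.univ : Finset ι) ⊆ {j, k} := by
      intro x _
      rw [Finset.mem_insert, Finset.mem_singleton]
      by_cases hx : x = j
      · exact Or.inl hx
      · exact Or.inr (hcon x hx)
    have h3 := Finset.card_le_card h2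
    rw [Finset.card_univ] at h3
    have h4 := Finset.card_le_two (a := j) (b := k)
    omega
  have hjk' := hg j k
  have hii := hg i i
  have hji := hg j i
  have hik' := hg i k
  rw [Matrix.one_apply_ne hjk, zero_add] at hjk'
  rw [Matrix.one_apply_eq] at hii
  rw [Matrix.one_apply_ne (Ne.symm hij), zero_add] at hji
  rw [Matrix.one_apply_ne hik, zero_add] at hik'
  have hcinv : (c : F)⁻¹ ∈ F₀ := by
    have h2 : (c : F)⁻¹ * ((c : F)⁻¹ * (v' j * w' k)) ∈ F₀ := by
      have h3 := F₀.sub_mem (F₀.mul_mem hii hjk') (F₀.mul_mem hji hik')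
      have h4 : (c : F)⁻¹ * (1 + v' i * w' i) * ((c : F)⁻¹ * (v' j * w' k)) - (c : F)⁻¹ * (v' j * w' i) * ((c : F)⁻¹ * (v' i * w' k)) =
          (c : F)⁻¹ * ((c : F)⁻¹ * (v' j * w' k)) := by ring
      rwa [h4] at h3
    have h3 := F₀.mul_mem h2 (F₀.inv_mem hjk')
    have h4 : (c : F)⁻¹ * (v' j * w' k) ≠ 0 := mul_ne_zero (inv_ne_zero hc0) hne
    rwa [mul_assoc, mul_inv_cancel₀ h4, mul_one] at h3
  have hc : (c : F) ∈ F₀ := by
    have := F₀.inv_mem hcinv
    rwa [inv_inv] at this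
  intro x y
  have h2 := F₀.mul_mem hc (hg x y)
  rw [← mul_assoc, mul_inv_cancel₀ hc0, one_mul] at h2
  have h3 : (1 : Matrix ι ι F) x y ∈ F₀ := by
    by_cases hxy : x = y
    · subst hxy; rw [Matrix.one_apply_eq]; exact F₀.one_mem
    · rw [Matrix.one_apply_ne hxy]; exact F₀.zero_mem
  have := F₀.sub_mem h2 h3
  simpa using this

end sub

section unitary
variable {F : Type*} [Field F] [Fintype F] {n q : ℕ}

lemma utv_rat (hF : Fintype.card F = q ^ 2) (hn : 3 ≤ n) {F₀ : Subfield F} {P : GL (Fin n) F}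
    (hle : GU n F q ⊓ specialLinear (Fin n) F ≤ subfieldSubgroup F₀ P) {a : F} (ha0 : a ≠ 0) (ha : a + a ^ q = 0) {v : Fin n → F}
    (hv0 : v ≠ 0) (hv : hermForm n F q v v = 0) (i j : Fin n) :
    (((P⁻¹ : GL (Fin n) F) : Matrix (Fin n) (Fin n) F) *ᵥ v) i * ((fun i => a * v i ^ q) ᵥ* (P : Matrix (Fin n) (Fin n) F)) j ∈ F₀ :=
  tv_rat (by rw [Fintype.card_fin]; exact hn) hv0 (utv_w_ne hv0 ha0) _ (hle (utv_mem hF v hv ha)) i j

lemma ne_zero_Pinv {P : GL (Fin n) F} {v : Fin n → F} (hv : v ≠ 0) : ((P⁻¹ : GL (Fin n) F) : Matrix (Fin n) (Fin n) F) *ᵥ v ≠ 0 := by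
  intro h0
  apply hv
  have := congrArg (fun x => (P : Matrix (Fin n) (Fin n) F) *ᵥ x) h0
  simpa [Matrix.mulVec_mulVec, gl_mul_inv] using this

lemma ne_zero_vecMul {P : GL (Fin n) F} {w : Fin n → F} (hw : w ≠ 0) : w ᵥ* (P : Matrix (Fin n) (Fin n) F) ≠ 0 := by
  intro h0
  apply hw
  have := congrArg (fun x => x ᵥ* ((P⁻¹ : GL (Fin n) F) : Matrix (Fin n) (Fin n) F)) h0
  simpa [Matrix.vecMul_vecMul, gl_mul_inv] using this

theorem su_not_subfield_odd (hF : Fintype.card F = q ^ 2) (hn : 3 ≤ n) {F₀ : Subfield F} {r : ℕ} (hr : 3 ≤ r)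
    (hc : Fintype.card F = Nat.card F₀ ^ r) (P : GL (Fin n) F) :
    ¬ GU n F q ⊓ specialLinear (Fin n) F ≤ subfieldSubgroup F₀ P := by
  classical
  intro hle
  obtain ⟨a, ha0, ha⟩ := exists_tr hF
  obtain ⟨v, hv0, hv⟩ := ClUnSimple.exists_iso hF (show 2 ≤ n by omega)
  have h1 := ne_zero_Pinv (P := P) hv0
  have h2 := ne_zero_vecMul (P := P) (utv_w_ne (q := q) hv0 ha0)
  obtain ⟨i, hi⟩ := Function.ne_iff.1 h1
  obtain ⟨j, hj⟩ := Function.ne_iff.1 h2
  rw [Pi.zero_apply] at hi hj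
  have h3 : ∀ c : F, c ^ q = c → c ∈ F₀ := by
    intro c hcq
    by_cases hc0 : c = 0
    · rw [hc0]; exact F₀.zero_mem
    have h4 := utv_rat hF hn hle ha0 ha hv0 hv i j
    have h5 := utv_rat hF hn hle (a := c * a) (mul_ne_zero hc0 ha0) (by rw [mul_pow, hcq, ← mul_add, ha, mul_zero]) hv0 hv i j
    have h6 : (fun i => c * a * v i ^ q) ᵥ* (P : Matrix (Fin n) (Fin n) F) = c • ((fun i => a * v i ^ q) ᵥ* (P : Matrix (Fin n) (Fin n) F)) := by
      rw [← Matrix.smul_vecMul]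
      congr 1
      funext i
      simp [mul_assoc]
    rw [h6, Pi.smul_apply, smul_eq_mul] at h5
    have h7 : (((P⁻¹ : GL (Fin n) F) : Matrix (Fin n) (Fin n) F) *ᵥ v) i * ((fun i => a * v i ^ q) ᵥ* (P : Matrix (Fin n) (Fin n) F)) j ≠ 0 :=
      mul_ne_zero hi hj
    have h8 := F₀.mul_mem h5 (F₀.inv_mem h4)
    have h9 : (((P⁻¹ : GL (Fin n) F) : Matrix (Fin n) (Fin n) F) *ᵥ v) i * (c * ((fun i => a * v i ^ q) ᵥ* (P : Matrix (Fin n) (Fin n) F)) j) *
        ((((P⁻¹ : GL (Fin n) F) : Matrix (Fin n) (Fin n) F) *ᵥ v) i * ((fun i => a * v i ^ q) ᵥ* (P : Matrix (Fin n) (Fin n) F)) j)⁻¹ = c := by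
      rw [show ∀ x y z : F, x * (y * z) = y * (x * z) from fun x y z => by ring, mul_assoc, mul_inv_cancel₀ h7, mul_one]
    rwa [h9] at h8
  -- counting
  have h4 := ClUnitary.card_fixed_ne_zero hF
  have h5 : (Finset.univ.filter (fun c : F => c ≠ 0 ∧ c ^ q = c)) ⊆ (Finset.univ.filter (fun c : F => c ∈ F₀)).erase 0 := by
    intro c hc
    rw [Finset.mem_filter] at hc
    rw [Finset.mem_erase, Finset.mem_filter]
    exact ⟨hc.2.1, Finset.mem_univ _, h3 c hc.2.2⟩
  have h6 := Finset.card_le_card h5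
  have h7 : (Finset.univ.filter (fun c : F => c ∈ F₀)).card = Nat.card F₀ := by
    rw [Nat.card_eq_fintype_card]
    exact (Fintype.card_subtype _).symm
  rw [h4, Finset.card_erase_of_mem (by rw [Finset.mem_filter]; exact ⟨Finset.mem_univ _, F₀.zero_mem⟩), h7] at h6
  have hq := two_le_q hF
  have hF₀ : 2 ≤ Nat.card F₀ := by
    have := Finite.one_lt_card (α := F₀)
    omega
  have h8 : q ≤ Nat.card F₀ := by omega
  have h9 : q ^ 2 ≤ Nat.card F₀ ^ 2 := Nat.pow_le_pow_left h8 2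
  have h10 : Nat.card F₀ ^ 2 < Nat.card F₀ ^ r := Nat.pow_lt_pow_right (by omega) (by omega)
  omega

theorem su_not_subfield_two (hF : Fintype.card F = q ^ 2) (hn : 3 ≤ n) {F₀ : Subfield F}
    (hc : Fintype.card F = Nat.card F₀ ^ 2) (P : GL (Fin n) F) :
    ¬ GU n F q ⊓ specialLinear (Fin n) F ≤ subfieldSubgroup F₀ P := by
  classical
  intro hle
  have hq := two_le_q hF
  obtain ⟨a, ha0, ha⟩ := exists_tr hF
  have hcard : Nat.card F₀ = q := by
    rw [hF] at hc
    exact (Nat.pow_left_injective (n := 2) (by norm_num) hc).symm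
  -- every isotropic vector is a multiple of a rational vector
  have h1 : ∀ v : Fin n → F, v ≠ 0 → hermForm n F q v v = 0 → ∃ (c : {c : F // c ≠ 0}) (u : {u : Fin n → F₀ // u ≠ 0}),
      v = c.1 • ((P : Matrix (Fin n) (Fin n) F) *ᵥ (fun i => (u.1 i : F))) := by
    intro v hv0 hv
    have h2 := ne_zero_vecMul (P := P) (utv_w_ne (q := q) hv0 ha0)
    obtain ⟨j, hj⟩ := Function.ne_iff.1 h2
    rw [Pi.zero_apply] at hj
    set w' := ((fun i => a * v i ^ q) ᵥ* (P : Matrix (Fin n) (Fin n) F)) j with hw'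
    have hrat := fun i => utv_rat hF hn hle ha0 ha hv0 hv i j
    let u : Fin n → F₀ := fun i => ⟨_, hrat i⟩
    have hv' : v = w'⁻¹ • ((P : Matrix (Fin n) (Fin n) F) *ᵥ (fun i => (u i : F))) := by
      have h3 : (fun i => (u i : F)) = w' • (((P⁻¹ : GL (Fin n) F) : Matrix (Fin n) (Fin n) F) *ᵥ v) := by
        funext i
        rw [Pi.smul_apply, smul_eq_mul, mul_comm]
      rw [h3, Matrix.mulVec_smul, smul_smul, inv_mul_cancel₀ hj, one_smul, gl_mulVec_inv]
    refine ⟨⟨w'⁻¹, inv_ne_zero hj⟩, ⟨u, ?_⟩, hv'⟩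
    intro h0
    apply hv0
    rw [hv']
    have : (fun i => (u i : F)) = 0 := by
      rw [h0]; rfl
    rw [this, Matrix.mulVec_zero, smul_zero]
  have h2 : ∀ v : {v : Fin n → F // hermForm n F q v v = 0 ∧ v ≠ 0}, ∃ x : {c : F // c ≠ 0} × {u : Fin n → F₀ // u ≠ 0},
      v.1 = x.1.1 • ((P : Matrix (Fin n) (Fin n) F) *ᵥ (fun i => (x.2.1 i : F))) := by
    rintro ⟨v, hv, hv0⟩
    obtain ⟨c, u, h⟩ := h1 v hv0 hv
    exact ⟨(c, u), h⟩
  choose f hf using h2
  have hinj : Function.Injective f := by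
    intro v v' hvv'
    apply Subtype.ext
    rw [hf v, hf v', hvv']
  have h3 := Nat.card_le_card_of_injective f hinj
  have h4 : Nat.card ({c : F // c ≠ 0} × {u : Fin n → F₀ // u ≠ 0}) = (q ^ 2 - 1) * (q ^ n - 1) := by
    rw [Nat.card_prod]
    congr 1
    · rw [Nat.card_eq_fintype_card, Fintype.card_subtype_compl, hF, Fintype.card_subtype_eq]
    · rw [Nat.card_eq_fintype_card, Fintype.card_subtype_compl, Fintype.card_subtype_eq, ← Nat.card_eq_fintype_card, Nat.card_fun, hcard,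
        Nat.card_eq_fintype_card, Fintype.card_fin]
  have h5 : Nat.card {v : Fin n → F // hermForm n F q v v = 0 ∧ v ≠ 0} = ClUnitary.N F q n 0 - 1 := by
    have h6 : Nat.card {v : Fin n → F // hermForm n F q v v = 0} = Nat.card {v : Fin n → F // hermForm n F q v v = 0 ∧ v ≠ 0} + 1 := by
      have h7 : (Finset.univ.filter (fun v : Fin n → F => hermForm n F q v v = 0)).erase 0 =
          Finset.univ.filter (fun v : Fin n → F => hermForm n F q v v = 0 ∧ v ≠ 0) := by
        ext v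
        simp only [Finset.mem_erase, Finset.mem_filter, Finset.mem_univ, true_and]
        tauto
      rw [Nat.card_eq_fintype_card, Nat.card_eq_fintype_card, Fintype.card_subtype, Fintype.card_subtype, ← h7]
      rw [Finset.card_erase_add_one]
      rw [Finset.mem_filter]
      exact ⟨Finset.mem_univ _, hermForm_zero_left 0⟩
    rw [ClUnitary.N, h6, Nat.add_sub_cancel]
  rw [h4, h5, ClUnitary.N_zero hF, Nat.add_sub_cancel] at h3
  -- arithmetic
  obtain ⟨x, hx⟩ : ∃ x, q ^ (n - 1) = x := ⟨_, rfl⟩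
  have hqn : q ^ n = q * x := by
    rw [← hx, ← pow_succ']
    congr 1
    omega
  have hx2 : q ^ 2 ≤ x := by
    rw [← hx]
    exact Nat.pow_le_pow_right (by omega) (by omega)
  rw [hqn, hx] at h3
  have hq2 : 1 ≤ q ^ 2 := Nat.one_le_pow _ _ (by omega)
  have hqx : 1 ≤ q * x := by nlinarith
  split_ifs at h3 with heven
  · have h4 : 1 < q * x := by nlinarith
    have h6 : (q * x - 1) * (x + 1) ≤ (q * x - 1) * (q ^ 2 - 1) := by rw [mul_comm (q * x - 1) (q ^ 2 - 1)]; exact h3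
    have h7 := Nat.le_of_mul_le_mul_left h6 (by omega)
    omega
  · have h4 : (q ^ 2 - 1) * (q * x - 1) < (q ^ 2 - 1) * (q * x + 1) := by
      apply Nat.mul_lt_mul_of_pos_left
      · omega
      · have : 4 ≤ q ^ 2 := by nlinarith
        omega
    have h5 : (q ^ 2 - 1) * (q * x + 1) ≤ (q * x + 1) * (x - 1) := by
      rw [mul_comm]
      exact Nat.mul_le_mul_left _ (by omega)
    omega

end unitary

end Cfsg.Agent.Lib.UnNot
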