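import Cfsg.Agent.Lib.UnNot4
import Cfsg.Agent.S0283
set_option autoImplicit false
set_option linter.style.haveILetI false
set_option linter.unusedVariables false
set_option linter.unusedSectionVars false

/-!
The special unitary group does not normalise an irreducible group of prime power order, the prime not being the characteristic.
-/

namespace Cfsg.Agent.Lib.UnNot

open Cfsg Cfsg.Geo Cfsg.Agent.Lib.AschMU Cfsg.Agent.Lib.AschCore Cfsg.Agent.Lib.AschField Cfsg.Agent.Lib.AschAlg
  Cfsg.Agent.Lib.AschGroup Cfsg.Agent.Lib.AschGood Cfsg.Agent.Lib.AschNonab Cfsg.Agent.Lib.AschTensor Cfsg.Agent.Lib.AschComp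
  Cfsg.Agent.Lib.AschAdj Cfsg.Agent.Lib.SLGeom Cfsg.Agent.Lib.HermMat Cfsg.Agent.Lib.UnBridge
open scoped Matrix MatrixGroups Kronecker commutatorElement
open Matrix (vecMulVec)

section unitary
variable {F : Type*} [Field F] [Fintype F] {n q : ℕ}

/-- A matrix commuting with all unitary transvections is scalar. -/
lemma scalar_of_comm (hF : Fintype.card F = q ^ 2) (hn : 2 ≤ n) {a : F} (ha0 : a ≠ 0) {g : GL (Fin n) F}
    (h : ∀ v (hv : hermForm n F q v v = 0), g * utv v hv a = utv v hv a * g) : g ∈ scalars (Fin n) F := by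
  have key : ∀ v, hermForm n F q v v = 0 → v ≠ 0 → ∃ c : F, Matrix.toLin' (g : Matrix (Fin n) (Fin n) F) v = c • v := by
    intro v hv hv0
    obtain ⟨x, hx⟩ := exists_ne_zero hF hv0
    have h1 := congrArg (fun M : GL (Fin n) F => (M : Matrix (Fin n) (Fin n) F) *ᵥ x) (h v hv)
    simp only [Units.val_mul, ← Matrix.mulVec_mulVec, utv_mulVec, Matrix.mulVec_add, Matrix.mulVec_smul] at h1
    have h2 := add_left_cancel h1
    refine ⟨(a * hermForm n F q x v)⁻¹ * (a * hermForm n F q ((g : Matrix (Fin n) (Fin n) F) *ᵥ x) v), ?_⟩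
    rw [Matrix.toLin'_apply, mul_smul, ← h2, smul_smul, inv_mul_cancel₀ (mul_ne_zero ha0 hx), one_smul]
  obtain ⟨z, hz0, hz⟩ := ClUnSimple.exists_iso hF hn
  obtain ⟨c, hc⟩ := ClUnSimple.scalar_of_eigen (herm_HS n hF) (herm_nd n hF) hz0 hz (Matrix.toLin' (g : Matrix (Fin n) (Fin n) F)) key
  have h1 : (g : Matrix (Fin n) (Fin n) F) = c • 1 := by
    apply Matrix.ext_of_mulVec_single
    intro i
    have := hc (Pi.single i 1)
    rw [Matrix.toLin'_apply] at this
    rw [this, Matrix.smul_mulVec, Matrix.one_mulVec]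
  have hc0 : c ≠ 0 := by
    rintro rfl
    rw [zero_smul] at h1
    haveI : Nonempty (Fin n) := ⟨⟨0, by omega⟩⟩
    have := g.isUnit
    rw [h1] at this
    exact not_isUnit_zero this
  exact (mem_scalars_iff g).2 ⟨Units.mk0 c hc0, h1⟩

/-- matrices of the special unitary group -/
def toGLh (n : ℕ) (F : Type*) [Field F] (q : ℕ) : SU n F q →* GL (Fin n) F :=
  Matrix.SpecialLinearGroup.toGL.comp (SU n F q).subtype

lemma toGLh_inj : Function.Injective (toGLh n F q) := by
  intro A B h
  apply Subtype.ext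
  apply Subtype.ext
  exact congrArg (fun g : GL (Fin n) F => (g : Matrix (Fin n) (Fin n) F)) h

lemma toGLh_mem (A : SU n F q) : toGLh n F q A ∈ GU n F q ⊓ specialLinear (Fin n) F := by
  refine ⟨fun u v => A.2 u v, ?_⟩
  show Matrix.GeneralLinearGroup.det _ = 1
  ext
  exact A.1.2

lemma exists_toGLh {g : GL (Fin n) F} (hg : g ∈ GU n F q ⊓ specialLinear (Fin n) F) : ∃ A : SU n F q, toGLh n F q A = g := by
  have hdet : (g : Matrix (Fin n) (Fin n) F).det = 1 := by
    have := congrArg (fun z : Fˣ => (z : F)) (show Matrix.GeneralLinearGroup.det g = 1 from hg.2)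
    exact this
  exact ⟨⟨⟨(g : Matrix (Fin n) (Fin n) F), hdet⟩, fun u v => hg.1 u v⟩, Units.ext rfl⟩

lemma utv_mul (v : Fin n → F) (hv : hermForm n F q v v = 0) (a b : F) : utv v hv a * utv v hv b = utv v hv (a + b) := by
  apply gl_ext
  intro x
  rw [Units.val_mul, ← Matrix.mulVec_mulVec, utv_mulVec, utv_mulVec, utv_mulVec, hermForm_add_left, hermForm_smul_left, hv, mul_zero,
    add_zero, add_mul, add_smul, add_assoc, add_comm ((b * hermForm n F q x v) • v)]

lemma utv_pow (v : Fin n → F) (hv : hermForm n F q v v = 0) (a : F) (k : ℕ) : utv v hv a ^ k = utv v hv ((k : F) * a) := by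
  induction k with
  | zero =>
    apply gl_ext
    intro x
    rw [pow_zero, utv_mulVec, Nat.cast_zero, zero_mul, zero_mul, zero_smul, add_zero, Units.val_one, Matrix.one_mulVec]
  | succ k ih =>
    rw [pow_succ, ih, utv_mul]
    congr 1
    push_cast
    ring

theorem su_not_normalizer (hF : Fintype.card F = q ^ 2) (hn : 3 ≤ n) (hex : ¬ (n = 3 ∧ q = 2)) {R : Subgroup (GL (Fin n) F)}
    (hRG : R ≤ GU n F q) (hirr : ActsIrreducibly (matrixSet R)) {r p : ℕ} (hr : r.Prime) (hp : p.Prime) [CharP F p] (hrp : r ≠ p)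
    (hRp : IsPGroup r R) :
    ¬ GU n F q ⊓ specialLinear (Fin n) F ≤ subgroupNormalizer R := by
  intro hle
  obtain ⟨a, ha0, ha⟩ := exists_tr hF
  have hnorm : ∀ s ∈ GU n F q ⊓ specialLinear (Fin n) F, ∀ x ∈ R, s * x * s⁻¹ ∈ R := by
    intro s hs x hx
    exact (Subgroup.mem_normalizer_iff.1 (hle hs) x).1 hx
  -- the intersection
  let K : Subgroup (SU n F q) := R.comap (toGLh n F q)
  haveI hKn : K.Normal := by
    refine ⟨fun k hk s => ?_⟩
    show toGLh n F q (s * k * s⁻¹) ∈ R
    rw [map_mul, map_mul, map_inv]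
    exact hnorm _ (toGLh_mem s) _ hk
  haveI := Cfsg.Agent.S0283.result hF n hn hex
  have hKc : K ≤ Subgroup.center (SU n F q) := by
    have hmn : (K.map (QuotientGroup.mk' (Subgroup.center (SU n F q)))).Normal :=
      Subgroup.Normal.map hKn _ (QuotientGroup.mk'_surjective _)
    rcases hmn.eq_bot_or_eq_top with h | h
    · rw [Subgroup.map_eq_bot_iff, QuotientGroup.ker_mk'] at h
      exact h
    · exfalso
      -- a transvection is central
      obtain ⟨v, hv0, hv⟩ := ClUnSimple.exists_iso hF (show 2 ≤ n by omega)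
      obtain ⟨A, hA⟩ := exists_toGLh (utv_mem hF v hv ha)
      have h1 : (QuotientGroup.mk' (Subgroup.center (SU n F q)) A) ∈ K.map (QuotientGroup.mk' (Subgroup.center (SU n F q))) := by
        rw [h]; trivial
      obtain ⟨k, hk, hkA⟩ := h1
      obtain ⟨m, hm⟩ := hRp ⟨toGLh n F q k, hk⟩
      have hkm : k ^ r ^ m = 1 := by
        apply toGLh_inj
        rw [map_pow, map_one]
        exact congrArg Subtype.val hm
      have hAp : A ^ p = 1 := by
        apply toGLh_inj
        rw [map_pow, map_one, hA, utv_pow, CharP.cast_eq_zero, zero_mul]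
        apply gl_ext
        intro x
        rw [utv_mulVec, zero_mul, zero_smul, add_zero, Units.val_one, Matrix.one_mulVec]
      have h2 : (QuotientGroup.mk' (Subgroup.center (SU n F q)) A) ^ r ^ m = 1 := by
        rw [← hkA, ← map_pow, hkm, map_one]
      have h3 : (QuotientGroup.mk' (Subgroup.center (SU n F q)) A) ^ p = 1 := by
        rw [← map_pow, hAp, map_one]
      have h4 : QuotientGroup.mk' (Subgroup.center (SU n F q)) A = 1 := by
        have hcop : Nat.Coprime (r ^ m) p := Nat.Coprime.pow_left _ ((Nat.coprime_primes hr hp).2 hrp)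
        have h5 := orderOf_dvd_of_pow_eq_one h2
        have h6 := orderOf_dvd_of_pow_eq_one h3
        exact orderOf_eq_one_iff.1 (Nat.eq_one_of_dvd_coprimes hcop h5 h6)
      have h5 : A ∈ Subgroup.center (SU n F q) := by
        rwa [QuotientGroup.mk'_apply, QuotientGroup.eq_one_iff] at h4
      obtain ⟨u, hu, hvu⟩ := exists_iso_ne hF (show 2 ≤ n by omega) hv0
      obtain ⟨B, hB⟩ := exists_toGLh (utv_mem hF u hu ha)
      have h6 := congrArg (toGLh n F q) (Subgroup.mem_center_iff.1 h5 B)
      rw [map_mul, map_mul, hA, hB] at h6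
      obtain ⟨x, hx0, hxv⟩ := exists_perp_mem hF (W := ⊤) (by rw [finrank_top, Module.finrank_fintype_fun_eq_card, Fintype.card_fin]; omega) v
      have h7 := congrArg (fun M : GL (Fin n) F => (M : Matrix (Fin n) (Fin n) F) *ᵥ v) h6
      simp only [Units.val_mul, ← Matrix.mulVec_mulVec, utv_mulVec, hv, mul_zero, zero_smul, add_zero] at h7
      -- v + (a h(v,u)) u = ... + (a h(v + .. u, v)) v
      rw [hermForm_add_left, hv, zero_add, hermForm_smul_left, left_eq_add, smul_eq_zero] at h7
      rcases h7 with h7 | h7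
      · have h8 : hermForm n F q u v ≠ 0 := (herm_HS n hF).symm_ne hvu
        exact (mul_ne_zero ha0 (mul_ne_zero (mul_ne_zero ha0 hvu) h8)) h7
      · exact hv0 h7
  -- all elements of R commute with all transvections
  have hR : R ≤ scalars (Fin n) F := by
    intro g hg
    apply scalar_of_comm hF (by omega) ha0
    intro v hv
    by_cases hv0 : v = 0
    · subst hv0
      have : utv (0 : Fin n → F) hv a = 1 := by
        apply gl_ext
        intro x
        rw [utv_mulVec, smul_zero, add_zero, Units.val_one, Matrix.one_mulVec]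
      rw [this, mul_one, one_mul]
    set t := utv v hv a with ht
    have htS : t ∈ GU n F q ⊓ specialLinear (Fin n) F := utv_mem hF v hv ha
    have h1 : g * t * g⁻¹ * t⁻¹ ∈ R := by
      have h2 := R.mul_mem hg (hnorm t htS g⁻¹ (R.inv_mem hg))
      have h3 : g * (t * g⁻¹ * t⁻¹) = g * t * g⁻¹ * t⁻¹ := by group
      rwa [h3] at h2
    have h2 : g * t * g⁻¹ * t⁻¹ ∈ GU n F q ⊓ specialLinear (Fin n) F := by
      refine ⟨?_, ?_⟩
      · exact (GU n F q).mul_mem ((GU n F q).mul_mem ((GU n F q).mul_mem (hRG hg) htS.1) ((GU n F q).inv_mem (hRG hg))) ((GU n F q).inv_mem htS.1)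
      · show Matrix.GeneralLinearGroup.det _ = 1
        have h3 : Matrix.GeneralLinearGroup.det t = 1 := htS.2
        rw [map_mul, map_mul, map_mul, map_inv, map_inv, h3]
        group
    obtain ⟨k, hk⟩ := exists_toGLh h2
    have hkK : k ∈ K := by
      show toGLh n F q k ∈ R
      rw [hk]; exact h1
    have hkc := hKc hkK
    have h3 : g * t * g⁻¹ * t⁻¹ ∈ scalars (Fin n) F := by
      rw [← hk]
      apply scalar_of_comm hF (by omega) ha0
      intro u hu
      obtain ⟨B, hB⟩ := exists_toGLh (utv_mem hF u hu ha)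
      have := congrArg (toGLh n F q) (Subgroup.mem_center_iff.1 hkc B)
      rw [map_mul, map_mul, hB] at this
      exact this.symm
    obtain ⟨c, hc⟩ := (mem_scalars_iff _).1 h3
    -- a fixed vector
    obtain ⟨x, hx0, hx1, hx2⟩ : ∃ x : Fin n → F, x ≠ 0 ∧ hermForm n F q x v = 0 ∧
        hermForm n F q (((g⁻¹ : GL (Fin n) F) : Matrix (Fin n) (Fin n) F) *ᵥ x) v = 0 := by
      have hfl : ∀ x, hermForm n F q x v = (fun i => v i ^ q) ⬝ᵥ x := by
        intro x
        simp only [dotProduct, hermForm_def]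
        exact Finset.sum_congr rfl fun i _ => mul_comm _ _
      obtain ⟨x, hx0, hx1, hx2⟩ := exists_ne_dot₂ (by rw [Fintype.card_fin]; exact hn) (fun i => v i ^ q)
        ((fun i => v i ^ q) ᵥ* ((g⁻¹ : GL (Fin n) F) : Matrix (Fin n) (Fin n) F))
      exact ⟨x, hx0, by rw [hfl]; exact hx1, by rw [hfl, Matrix.dotProduct_mulVec]; exact hx2⟩
    have h4 : (t : Matrix (Fin n) (Fin n) F) *ᵥ x = x := by
      rw [ht, utv_mulVec, hx1, mul_zero, zero_smul, add_zero]
    have h4' : ((t⁻¹ : GL (Fin n) F) : Matrix (Fin n) (Fin n) F) *ᵥ x = x := by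
      conv_lhs => rw [← h4]
      rw [gl_inv_mulVec]
    have h5 : ((g * t * g⁻¹ * t⁻¹ : GL (Fin n) F) : Matrix (Fin n) (Fin n) F) *ᵥ x = x := by
      rw [Units.val_mul, Units.val_mul, Units.val_mul, ← Matrix.mulVec_mulVec, h4', ← Matrix.mulVec_mulVec, ← Matrix.mulVec_mulVec,
        ht, utv_mulVec, hx2, mul_zero, zero_smul, add_zero, gl_mulVec_inv]
    rw [hc, Matrix.smul_mulVec, Matrix.one_mulVec] at h5
    have hc1 : (c : F) = 1 := by
      have h6 : ((c : F) - 1) • x = 0 := by rw [sub_smul, one_smul, h5, sub_self]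
      rcases smul_eq_zero.1 h6 with h | h
      · exact sub_eq_zero.1 h
      · exact absurd h hx0
    have h6 : g * t * g⁻¹ * t⁻¹ = 1 := by
      apply Units.ext
      rw [hc, hc1, one_smul, Units.val_one]
    have h7 : g * t * (t * g)⁻¹ = 1 := by rw [mul_inv_rev, ← mul_assoc]; exact h6
    exact mul_inv_eq_one.1 h7
  -- contradiction with irreducibility
  let e0 : Fin n → F := Pi.single ⟨0, by omega⟩ 1
  have he0 : e0 ≠ 0 := by
    intro h0
    have := congrFun h0 ⟨0, by omega⟩
    simp [e0] at this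
  rcases hirr (F ∙ e0) (by
    rintro _ ⟨g, hg, rfl⟩
    obtain ⟨c, hc⟩ := (mem_scalars_iff g).1 (hR hg)
    rw [Submodule.map_le_iff_le_comap, Submodule.span_singleton_le_iff_mem, Submodule.mem_comap, Matrix.toLin'_apply]
    show (g : Matrix (Fin n) (Fin n) F) *ᵥ e0 ∈ F ∙ e0
    rw [hc, Matrix.smul_mulVec, Matrix.one_mulVec]
    exact Submodule.smul_mem _ _ (Submodule.mem_span_singleton_self _)) with h | h
  · rw [Submodule.span_singleton_eq_bot] at h
    exact he0 h
  · have h1 := finrank_span_singleton (K := F) he0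
    rw [h, finrank_top, Module.finrank_fintype_fun_eq_card, Fintype.card_fin] at h1
    omega

end unitary

end Cfsg.Agent.Lib.UnNot
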