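import Mathlib
import Cfsg.Prelude.Def_ClassicalGeometry
import Cfsg.Prelude.Def_LieClassical
import Cfsg.Agent.Lib.ClUnitary
import Cfsg.Agent.Lib.HermBasis

/-!
# Orthogonal decompositions of unitary spaces and stabilisers of non-degenerate subspaces (helper14)
-/

set_option autoImplicit false

namespace Cfsg.Agent.Lib.UnSplit

open Cfsg Cfsg.Agent.Lib.HermMat Cfsg.Agent.Lib.ClUnitary Cfsg.Agent.Lib.ClIso Module

section Stab

variable {F V H L : Type*} [Field F] [AddCommGroup V] [Module F V] [AddCommGroup H] [Module F H]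
  [AddCommGroup L] [Module F L]

/-- the product of two isometries -/
noncomputable def prodIso (e : V ≃ₗ[F] H × L) (f : V → V → F) (fH : H → H → F) (fL : L → L → F)
    (hf : ∀ x y, f x y = fH (e x).1 (e y).1 + fL (e x).2 (e y).2) : isoGrp F fH × isoGrp F fL →* isoGrp F f where
  toFun p := ⟨e.trans ((p.1.1.prodCongr p.2.1).trans e.symm), by
    intro x y
    change f (e.symm (p.1.1 (e x).1, p.2.1 (e x).2)) (e.symm (p.1.1 (e y).1, p.2.1 (e y).2)) = f x y
    rw [hf, hf, LinearEquiv.apply_symm_apply, LinearEquiv.apply_symm_apply, p.2.2, p.1.2]⟩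
  map_one' := by
    apply Subtype.ext
    ext x
    change e.symm ((e x).1, (e x).2) = x
    exact e.symm_apply_apply x
  map_mul' p p' := by
    apply Subtype.ext
    ext x
    change e.symm (p.1.1 (p'.1.1 (e x).1), p.2.1 (p'.2.1 (e x).2)) =
      e.symm (p.1.1 (e (e.symm (p'.1.1 (e x).1, p'.2.1 (e x).2))).1, p.2.1 (e (e.symm (p'.1.1 (e x).1, p'.2.1 (e x).2))).2)
    rw [LinearEquiv.apply_symm_apply]

theorem prodIso_apply (e : V ≃ₗ[F] H × L) (f : V → V → F) (fH : H → H → F) (fL : L → L → F)
    (hf : ∀ x y, f x y = fH (e x).1 (e y).1 + fL (e x).2 (e y).2) (p : isoGrp F fH × isoGrp F fL) (x : V) :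
    (prodIso e f fH fL hf p).1 x = e.symm (p.1.1 (e x).1, p.2.1 (e x).2) := rfl

theorem prodIso_injective (e : V ≃ₗ[F] H × L) (f : V → V → F) (fH : H → H → F) (fL : L → L → F)
    (hf : ∀ x y, f x y = fH (e x).1 (e y).1 + fL (e x).2 (e y).2) : Function.Injective (prodIso e f fH fL hf) := by
  intro p p' h
  have key : ∀ x : V, (p.1.1 (e x).1, p.2.1 (e x).2) = (p'.1.1 (e x).1, p'.2.1 (e x).2) := by
    intro x
    have h1 := congrArg (fun g : isoGrp F f => e (g.1 x)) h
    simpa only [prodIso_apply, LinearEquiv.apply_symm_apply] using h1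
  apply Prod.ext
  · apply Subtype.ext
    ext x
    have := congrArg Prod.fst (key (e.symm (x, 0)))
    simpa using this
  · apply Subtype.ext
    ext x
    have := congrArg Prod.snd (key (e.symm (0, x)))
    simpa using this

theorem mem_range_prodIso (e : V ≃ₗ[F] H × L) (f : V → V → F) (fH : H → H → F) (fL : L → L → F)
    (hf : ∀ x y, f x y = fH (e x).1 (e y).1 + fL (e x).2 (e y).2) (hH0 : ∀ x, fH 0 x = 0) (hL0 : ∀ x, fL x 0 = 0)
    (hnd : ∀ h, (∀ x, fH h x = 0) → h = 0) (g : isoGrp F f) :
    g ∈ (prodIso e f fH fL hf).range ↔ ∀ v, (e v).2 = 0 ↔ (e (g.1 v)).2 = 0 := by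
  constructor
  · rintro ⟨p, rfl⟩ v
    rw [prodIso_apply, LinearEquiv.apply_symm_apply]
    exact (LinearEquiv.map_eq_zero_iff _).symm
  · intro hg
    have hcan : ∀ x : V, (g⁻¹).1 (g.1 x) = x := by
      intro x
      change (g⁻¹ * g).1 x = x
      rw [inv_mul_cancel]; rfl
    have hcan' : ∀ x : V, g.1 ((g⁻¹).1 x) = x := by
      intro x
      change (g * g⁻¹).1 x = x
      rw [mul_inv_cancel]; rfl
    have hg' : ∀ v, (e v).2 = 0 ↔ (e ((g⁻¹).1 v)).2 = 0 := by
      intro v
      rw [hg ((g⁻¹).1 v), hcan']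
    have hA : ∀ k : isoGrp F f, (∀ v, (e v).2 = 0 ↔ (e (k.1 v)).2 = 0) → ∀ x, e (k.1 (e.symm (x, 0))) =
        ((e (k.1 (e.symm (x, 0)))).1, 0) := by
      intro k hk x
      exact Prod.ext rfl ((hk _).mp (by simp))
    have hB : ∀ k : isoGrp F f, (∀ v, (e v).2 = 0 ↔ (e (k.1 v)).2 = 0) → ∀ y, e (k.1 (e.symm (0, y))) =
        (0, (e (k.1 (e.symm (0, y)))).2) := by
      intro k hk y
      refine Prod.ext ?_ rfl
      apply hnd
      intro x
      have hkc : k.1 ((k⁻¹).1 (e.symm (x, 0))) = e.symm (x, 0) := by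
        change (k * k⁻¹).1 _ = _
        rw [mul_inv_cancel]; rfl
      have h1 := k.2 (e.symm (0, y)) ((k⁻¹).1 (e.symm (x, 0)))
      rw [hkc, hf, hf] at h1
      have h2 : (e ((k⁻¹).1 (e.symm (x, 0)))).2 = 0 := by
        rw [hk, hkc]; simp
      rw [h2] at h1
      simp only [LinearEquiv.apply_symm_apply, hL0, hH0, add_zero] at h1
      exact h1
    let a : (V ≃ₗ[F] V) → H →ₗ[F] H := fun g =>
      (LinearMap.fst F H L).comp (e.toLinearMap.comp (g.toLinearMap.comp (e.symm.toLinearMap.comp (LinearMap.inl F H L))))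
    have ha : ∀ g : V ≃ₗ[F] V, ∀ w, a g w = (e (g (e.symm (w, 0)))).1 := fun _ _ => rfl
    let b : (V ≃ₗ[F] V) → L →ₗ[F] L := fun g =>
      (LinearMap.snd F H L).comp (e.toLinearMap.comp (g.toLinearMap.comp (e.symm.toLinearMap.comp (LinearMap.inr F H L))))
    have hb : ∀ g : V ≃ₗ[F] V, ∀ w, b g w = (e (g (e.symm (0, w)))).2 := fun _ _ => rfl
    have haa : ∀ k k' : isoGrp F f, (∀ v, (e v).2 = 0 ↔ (e (k.1 v)).2 = 0) → (∀ v, (e v).2 = 0 ↔ (e (k'.1 v)).2 = 0) →
        (∀ x, k.1 (k'.1 x) = x) → (a k.1).comp (a k'.1) = LinearMap.id := by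
      intro k k' hk hk' hkk
      ext x
      change a k.1 (a k'.1 x) = x
      rw [ha, ha, ← hA k' hk', LinearEquiv.symm_apply_apply, hkk, LinearEquiv.apply_symm_apply]
    have hbb : ∀ k k' : isoGrp F f, (∀ v, (e v).2 = 0 ↔ (e (k.1 v)).2 = 0) → (∀ v, (e v).2 = 0 ↔ (e (k'.1 v)).2 = 0) →
        (∀ x, k.1 (k'.1 x) = x) → (b k.1).comp (b k'.1) = LinearMap.id := by
      intro k k' hk hk' hkk
      ext x
      change b k.1 (b k'.1 x) = x
      rw [hb, hb, ← hB k' hk', LinearEquiv.symm_apply_apply, hkk, LinearEquiv.apply_symm_apply]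
    refine ⟨(⟨LinearEquiv.ofLinear (a g.1) (a (g⁻¹).1) (haa _ _ hg hg' hcan') (haa _ _ hg' hg hcan), ?_⟩,
      ⟨LinearEquiv.ofLinear (b g.1) (b (g⁻¹).1) (hbb _ _ hg hg' hcan') (hbb _ _ hg' hg hcan), ?_⟩), ?_⟩
    · intro u v
      change fH (a g.1 u) (a g.1 v) = fH u v
      have h1 := g.2 (e.symm (u, 0)) (e.symm (v, 0))
      rw [hf, hf, hA g hg u, hA g hg v, LinearEquiv.apply_symm_apply, LinearEquiv.apply_symm_apply] at h1
      simp only [hL0, add_zero] at h1
      exact h1
    · intro u v
      change fL (b g.1 u) (b g.1 v) = fL u v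
      have h1 := g.2 (e.symm (0, u)) (e.symm (0, v))
      rw [hf, hf, hB g hg u, hB g hg v, LinearEquiv.apply_symm_apply, LinearEquiv.apply_symm_apply] at h1
      simp only [hH0, zero_add] at h1
      exact h1
    · apply Subtype.ext
      ext x
      rw [prodIso_apply]
      change e.symm ((e (g.1 (e.symm ((e x).1, 0)))).1, (e (g.1 (e.symm (0, (e x).2)))).2) = g.1 x
      rw [LinearEquiv.symm_apply_eq]
      have h1 : x = e.symm ((e x).1, 0) + e.symm (0, (e x).2) := by
        rw [← map_add, LinearEquiv.eq_symm_apply]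
        exact Prod.ext (by simp) (by simp)
      conv_rhs => rw [h1]
      rw [map_add, map_add, hA g hg, hB g hg]
      exact Prod.ext (by simp) (by simp)

end Stab

section Split

variable {F : Type*} [Field F] [Fintype F] {q n k : ℕ}

/-- splitting off a non-degenerate subspace -/
theorem exists_split (hF : Fintype.card F = q ^ 2) (hk : k ≤ n) (W : Submodule F (Fin n → F)) (hWk : finrank F W = k)
    (hW : ∀ u ∈ W, (∀ v ∈ W, hermForm n F q u v = 0) → u = 0) :
    ∃ e : (Fin n → F) ≃ₗ[F] (Fin k → F) × (Fin (n - k) → F),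
      (∀ u v, hermForm n F q u v = hermForm k F q (e u).1 (e v).1 + hermForm (n - k) F q (e u).2 (e v).2) ∧
      ∀ v, v ∈ W ↔ (e v).2 = 0 := by
  classical
  have hq := two_le_q hF
  have hzs : ∀ {u v : Fin n → F}, hermForm n F q u v = 0 → hermForm n F q v u = 0 := by
    intro u v h
    rw [← hermForm_swap hF, h, zero_pow (by omega)]
  obtain ⟨e₁, he₁, hee₁⟩ := HermBasis.exists_family (B := HB hF n) (frob_ne_id hF) (frob_frob hF) (HB_symm hF) k W hWk
    (fun x hx h => hW x hx (fun v hv => hzs (h v hv)))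
  have hee₁' : ∀ i j, hermForm n F q (e₁ i) (e₁ j) = if i = j then 1 else 0 := by
    intro i j
    have := hee₁ j i
    rw [HB_apply] at this
    rw [this]
    simp [eq_comm]
  -- the orthogonal complement
  let P : Submodule F (Fin n → F) :=
    { carrier := {v | ∀ w ∈ W, hermForm n F q v w = 0}
      zero_mem' := fun w _ => hermForm_zero_left w
      add_mem' := fun {a b} ha hb w hw => by rw [hermForm_add_left, ha w hw, hb w hw, add_zero]
      smul_mem' := fun c a ha w hw => by rw [hermForm_smul_left, ha w hw, mul_zero] }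
  have hli₁ : LinearIndependent F e₁ := by
    apply LinearMap.linearIndependent_of_isOrthoᵢ (B := HB hF n)
    · intro i j hij
      show HB hF n (e₁ i) (e₁ j) = 0
      rw [hee₁, if_neg hij]
    · intro i h
      rw [hee₁, if_pos rfl] at h
      exact one_ne_zero h
  have hspan : Submodule.span F (Set.range e₁) = W := by
    apply Submodule.eq_of_le_of_finrank_eq
    · rw [Submodule.span_le]; rintro _ ⟨i, rfl⟩; exact he₁ i
    · rw [finrank_span_eq_card hli₁, Fintype.card_fin, hWk]
  have hPmem : ∀ v, v ∈ P ↔ ∀ i, hermForm n F q v (e₁ i) = 0 := by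
    intro v
    constructor
    · intro h i; exact h _ (he₁ i)
    · intro h w hw
      rw [← hspan] at hw
      induction hw using Submodule.span_induction with
      | mem x hx => obtain ⟨i, rfl⟩ := hx; exact h i
      | zero => exact hzs (hermForm_zero_left v)
      | add a b _ _ ha hb => rw [hermForm_add_right hF, ha, hb, add_zero]
      | smul c a _ ha => rw [hermForm_smul_right, ha, mul_zero]
  have hproj : ∀ v, v - ∑ i, hermForm n F q v (e₁ i) • e₁ i ∈ P := by
    intro v
    rw [hPmem]
    intro j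
    have h1 : ∀ s : Finset (Fin k), hermForm n F q (∑ i ∈ s, hermForm n F q v (e₁ i) • e₁ i) (e₁ j) =
        ∑ i ∈ s, hermForm n F q v (e₁ i) * hermForm n F q (e₁ i) (e₁ j) := by
      intro s
      induction s using Finset.induction_on with
      | empty => simp [hermForm_zero_left]
      | insert a s ha ih => rw [Finset.sum_insert ha, Finset.sum_insert ha, hermForm_add_left, hermForm_smul_left, ih]
    rw [hermForm_sub_left, h1]
    simp [hee₁']
  have hinf : W ⊓ P = ⊥ := by
    rw [eq_bot_iff]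
    rintro v ⟨hv1, hv2⟩
    exact hW v hv1 hv2
  have hsup : W ⊔ P = ⊤ := by
    rw [eq_top_iff]
    intro v _
    rw [Submodule.mem_sup]
    exact ⟨∑ i, hermForm n F q v (e₁ i) • e₁ i, Submodule.sum_mem _ fun i _ => W.smul_mem _ (he₁ i), _, hproj v,
      by abel⟩
  have hPk : finrank F P = n - k := by
    have := Submodule.finrank_sup_add_finrank_inf_eq W P
    rw [hinf, hsup, finrank_top, finrank_bot, finrank_pi, Fintype.card_fin, hWk] at this
    omega
  have hPnd : ∀ x ∈ P, (∀ y ∈ P, HB hF n x y = 0) → x = 0 := by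
    intro x hx h
    by_contra hx0
    obtain ⟨y, hy⟩ := exists_ne_zero hF hx0
    apply hy
    have hyt : y ∈ W ⊔ P := by rw [hsup]; trivial
    obtain ⟨a, ha, b, hb, rfl⟩ := Submodule.mem_sup.mp hyt
    rw [hermForm_add_left, hzs (hx a ha)]
    have := h b hb
    rw [HB_apply] at this
    rw [this, add_zero]
  obtain ⟨e₂, he₂, hee₂⟩ := HermBasis.exists_family (B := HB hF n) (frob_ne_id hF) (frob_frob hF) (HB_symm hF) (n - k) P hPk hPnd
  have hee₂' : ∀ i j, hermForm n F q (e₂ i) (e₂ j) = if i = j then 1 else 0 := by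
    intro i j
    have := hee₂ j i
    rw [HB_apply] at this
    rw [this]
    simp [eq_comm]
  let ee : Fin k ⊕ Fin (n - k) → (Fin n → F) := Sum.elim e₁ e₂
  have hee : ∀ i j, hermForm n F q (ee i) (ee j) = if i = j then 1 else 0 := by
    rintro (i | i) (j | j)
    · simp only [ee, Sum.elim_inl, hee₁', Sum.inl.injEq]
    · simp only [ee, Sum.elim_inl, Sum.elim_inr, reduceCtorEq, if_false]
      exact hzs (he₂ j _ (he₁ i))
    · simp only [ee, Sum.elim_inl, Sum.elim_inr, reduceCtorEq, if_false]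
      exact he₂ i _ (he₁ j)
    · simp only [ee, Sum.elim_inr, hee₂', Sum.inr.injEq]
  have hli : LinearIndependent F ee := by
    apply LinearMap.linearIndependent_of_isOrthoᵢ (B := HB hF n)
    · intro i j hij
      show HB hF n (ee i) (ee j) = 0
      rw [HB_apply, hee, if_neg hij.symm]
    · intro i h
      have h : HB hF n (ee i) (ee i) = 0 := h
      rw [HB_apply, hee, if_pos rfl] at h
      exact one_ne_zero h
  let b : Basis (Fin k ⊕ Fin (n - k)) F (Fin n → F) := basisOfLinearIndependentOfCardEqFinrank' ee hli (by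
    rw [Fintype.card_sum, Fintype.card_fin, Fintype.card_fin, finrank_pi, Fintype.card_fin]; omega)
  have hb : ⇑b = ee := coe_basisOfLinearIndependentOfCardEqFinrank' _ _ _
  have hexp : ∀ v w, hermForm n F q v w = ∑ i, b.repr v i * (b.repr w i) ^ q := by
    intro v w
    have h1 : ∀ (s : Finset (Fin k ⊕ Fin (n - k))) (c : Fin k ⊕ Fin (n - k) → F) (x : Fin n → F), hermForm n F q (∑ i ∈ s, c i • b i) x =
        ∑ i ∈ s, c i * hermForm n F q (b i) x := by
      intro s c x
      induction s using Finset.induction_on with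
      | empty => simp [hermForm_zero_left]
      | insert a s ha ih => rw [Finset.sum_insert ha, Finset.sum_insert ha, hermForm_add_left, hermForm_smul_left, ih]
    have h2 : ∀ (s : Finset (Fin k ⊕ Fin (n - k))) (c : Fin k ⊕ Fin (n - k) → F) (x : Fin n → F), hermForm n F q x (∑ i ∈ s, c i • b i) =
        ∑ i ∈ s, (c i) ^ q * hermForm n F q x (b i) := by
      intro s c x
      induction s using Finset.induction_on with
      | empty => simp [hzs (hermForm_zero_left x)]
      | insert a s ha ih => rw [Finset.sum_insert ha, Finset.sum_insert ha, hermForm_add_right hF, hermForm_smul_right, ih]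
    conv_lhs => rw [← b.sum_repr v, ← b.sum_repr w]
    rw [h1]
    refine Finset.sum_congr rfl fun i _ => ?_
    rw [h2, hb]
    simp [hee]
  let e : (Fin n → F) ≃ₗ[F] (Fin k → F) × (Fin (n - k) → F) :=
    b.equivFun.trans (LinearEquiv.sumArrowLequivProdArrow (Fin k) (Fin (n - k)) F F)
  have he1 : ∀ v i, (e v).1 i = b.repr v (Sum.inl i) := fun v i => rfl
  have he2 : ∀ v i, (e v).2 i = b.repr v (Sum.inr i) := fun v i => rfl
  refine ⟨e, ?_, ?_⟩
  · intro u v
    rw [hexp, Fintype.sum_sum_type]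
    rfl
  · intro v
    constructor
    · intro hv
      funext i
      rw [he2]
      have h1 : hermForm n F q v (b (Sum.inr i)) = b.repr v (Sum.inr i) := by
        rw [hexp, Finset.sum_eq_single (Sum.inr i)]
        · simp
        · intro j _ hj
          rw [Basis.repr_self, Finsupp.single_eq_of_ne hj, zero_pow (by omega), mul_zero]
        · intro h; exact absurd (Finset.mem_univ _) h
      rw [← h1, hb]
      exact hzs (he₂ i v hv)
    · intro hv
      rw [← b.sum_repr v, Fintype.sum_sum_type, hb]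
      apply Submodule.add_mem
      · exact Submodule.sum_mem _ fun i _ => W.smul_mem _ (he₁ i)
      · rw [Finset.sum_eq_zero]
        · exact W.zero_mem
        · intro i _
          rw [← he2, hv, Pi.zero_apply, zero_smul]

end Split

end Cfsg.Agent.Lib.UnSplit
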