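import Mathlib
import Cfsg.Agent.Lib.UnMax

set_option autoImplicit false
set_option linter.unusedSectionVars false

/-!
The symplectic group inside the special unitary group: overgroups.
-/

namespace Cfsg.Agent.Lib.UnSub

open Cfsg.Agent.Lib.SpTrans (isom mem_isom)
open Cfsg.Agent.Lib.UnTrans Cfsg.Agent.Lib.UnMax

variable {F V : Type*} [Field F] [AddCommGroup V] [Module F V]
variable {σ : F →+* F} {f : V → V → F}

/-- A symplectic structure over the fixed field in a hermitian space. -/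
structure SpIn (f : V → V → F) (σ : F →+* F) (V0 : AddSubgroup V) (ζ : F) : Prop where
  smul : ∀ x ∈ V0, ∀ c : F, σ c = c → c • x ∈ V0
  span : Submodule.span F (V0 : Set V) = ⊤
  ne : ζ ≠ 0
  tr : ζ + σ ζ = 0
  form : ∀ x ∈ V0, ∀ y ∈ V0, σ (ζ * f x y) = ζ * f x y
  alt : ∀ x ∈ V0, f x x = 0

namespace SpIn

variable {V0 : AddSubgroup V} {ζ : F} (H : HS σ f) (S : SpIn f σ V0 ζ)
include H S

theorem anti {x y : V} (hx : x ∈ V0) (hy : y ∈ V0) : f x y + σ (f x y) = 0 := by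
  have h1 := S.form x hx y hy
  rw [map_mul] at h1
  have h2 : σ ζ = -ζ := by linear_combination S.tr
  rw [h2] at h1
  have h3 : ζ * (f x y + σ (f x y)) = 0 := by linear_combination -h1
  rcases mul_eq_zero.1 h3 with h | h
  · exact absurd h S.ne
  · exact h

theorem anti' {x y : V} (hx : x ∈ V0) (hy : y ∈ V0) : f y x = - f x y := by
  rw [H.herm]; linear_combination S.anti H hx hy

theorem inv_tr {a : F} (ha : a + σ a = 0) : a⁻¹ + σ a⁻¹ = 0 := by
  by_cases h : a = 0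
  · simp [h]
  · have h2 : σ a = -a := by linear_combination ha
    rw [map_inv₀, h2, inv_neg]; ring

theorem fix_of_anti {a b : F} (ha : a + σ a = 0) (hb : b + σ b = 0) : σ (a * b) = a * b := by
  rw [map_mul]
  have h1 : σ a = -a := by linear_combination ha
  have h2 : σ b = -b := by linear_combination hb
  rw [h1, h2]; ring

theorem nd (hnd : Nd f (⊤ : Submodule F V)) {x : V} (hx0 : x ≠ 0) : ∃ y ∈ V0, f x y ≠ 0 := by
  by_contra hcon
  push Not at hcon
  obtain ⟨y, -, hy⟩ := hnd x trivial hx0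
  apply H.symm_ne hy
  have h1 : Submodule.span F (V0 : Set V) ≤ LinearMap.ker (H.fl x) := by
    rw [Submodule.span_le]
    intro v hv
    exact H.symm_zero (hcon v hv)
  rw [S.span] at h1
  exact h1 trivial

theorem tv_mem_V0 {z : V} (hz : z ∈ V0) (hzz : f z z = 0) {a : F} (ha : a + σ a = 0) {x : V}
    (hx : x ∈ V0) : tv H z hzz a ha x ∈ V0 := by
  rw [tv_apply]
  exact V0.add_mem hx (S.smul z hz _ (S.fix_of_anti H ha (S.anti H hx hz)))

/-- the group generated by transvections with centres in `V0` -/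
def T (_ : SpIn f σ V0 ζ) : Subgroup (V ≃ₗ[F] V) :=
  Subgroup.closure {t | ∃ z ∈ V0, ∃ (hz : f z z = 0) (a : F) (ha : a + σ a = 0), t = tv H z hz a ha}

omit H in
theorem T_mem (H : HS σ f) {z : V} (hz : z ∈ V0) (hzz : f z z = 0) {a : F} (ha : a + σ a = 0) :
    tv H z hzz a ha ∈ T H S :=
  Subgroup.subset_closure ⟨z, hz, hzz, a, ha, rfl⟩

omit H in
theorem T_V0 (H : HS σ f) {t : V ≃ₗ[F] V} (ht : t ∈ T H S) :
    (∀ x ∈ V0, t x ∈ V0) ∧ (∀ x ∈ V0, t⁻¹ x ∈ V0) := by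
  refine Subgroup.closure_induction (p := fun t _ => (∀ x ∈ V0, t x ∈ V0) ∧ (∀ x ∈ V0, t⁻¹ x ∈ V0))
    ?_ ?_ ?_ ?_ ht
  · rintro t ⟨z, hz, hzz, a, ha, rfl⟩
    refine ⟨fun x hx => S.tv_mem_V0 H hz hzz ha hx, fun x hx => ?_⟩
    have h1 : -a + σ (-a) = 0 := by rw [map_neg]; linear_combination -ha
    have : (tv H z hzz a ha)⁻¹ = tv H z hzz (-a) h1 := by
      rw [inv_eq_iff_mul_eq_one]
      ext x
      rw [LinearEquiv.mul_apply, tv_apply, tv_apply, H.add_left, H.smul_left, hzz]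
      show _ = x
      module
    rw [this]
    exact S.tv_mem_V0 H hz hzz h1 hx
  · simp
  · rintro a b _ _ ⟨h1, h2⟩ ⟨h3, h4⟩
    refine ⟨fun x hx => h1 _ (h3 x hx), fun x hx => ?_⟩
    rw [mul_inv_rev]
    exact h4 _ (h2 x hx)
  · rintro a _ ⟨h1, h2⟩
    rw [inv_inv]
    exact ⟨h2, h1⟩

theorem move_ne {x y : V} (hx : x ∈ V0) (hy : y ∈ V0) (h : f x y ≠ 0) :
    ∃ t ∈ T H S, t x = y ∧ ∀ z, f z x = f z y → t z = z := by
  have h1 : f (y - x) (y - x) = 0 := S.alt _ (V0.sub_mem hy hx)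
  have h2 : (f x y)⁻¹ + σ (f x y)⁻¹ = 0 := S.inv_tr H (S.anti H hx hy)
  refine ⟨tv H (y - x) h1 _ h2, S.T_mem H (V0.sub_mem hy hx) h1 h2, ?_, ?_⟩
  · rw [tv_apply, H.sub_right, S.alt x hx, sub_zero, inv_mul_cancel₀ h, one_smul]; abel
  · intro z hz
    rw [tv_apply, H.sub_right, hz, sub_self, mul_zero, zero_smul, add_zero]

theorem move (hnd : Nd f (⊤ : Submodule F V)) {x y : V} (hx : x ∈ V0) (hy : y ∈ V0) (hx0 : x ≠ 0)
    (hy0 : y ≠ 0) : ∃ t ∈ T H S, t x = y := by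
  by_cases h : f x y = 0
  · obtain ⟨w, hw, h1, h2⟩ : ∃ w ∈ V0, f x w ≠ 0 ∧ f w y ≠ 0 := by
      obtain ⟨w1, hw1, h1⟩ := S.nd H hnd hx0
      obtain ⟨w2, hw2, h2⟩ := S.nd H hnd hy0
      by_cases h3 : f y w1 = 0
      · by_cases h4 : f x w2 = 0
        · refine ⟨w1 + w2, V0.add_mem hw1 hw2, ?_, ?_⟩
          · rw [H.add_right, h4, add_zero]; exact h1
          · rw [H.add_left, H.symm_zero h3, zero_add]; exact H.symm_ne h2
        · exact ⟨w2, hw2, h4, H.symm_ne h2⟩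
      · exact ⟨w1, hw1, h1, H.symm_ne h3⟩
    obtain ⟨t, ht, htx, -⟩ := S.move_ne H hx hw h1
    obtain ⟨s, hs, hsx, -⟩ := S.move_ne H hw hy h2
    exact ⟨s * t, mul_mem hs ht, by rw [LinearEquiv.mul_apply, htx, hsx]⟩
  · obtain ⟨t, ht, htx, -⟩ := S.move_ne H hx hy h
    exact ⟨t, ht, htx⟩

/-- double perp over the small field -/
theorem exists_sep (hnd : Nd f (⊤ : Submodule F V)) {x y : V} (hx : x ∈ V0) (hy : y ∈ V0)
    (hx0 : x ≠ 0) (hxy : ∀ c, σ c = c → y ≠ c • x) : ∃ w ∈ V0, f x w = 0 ∧ f y w ≠ 0 := by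
  by_contra hcon
  push Not at hcon
  obtain ⟨w1, hw1, h1⟩ := S.nd H hnd hx0
  have hfix : ∀ u ∈ V0, ∀ v ∈ V0, σ (f u v / f x w1) = f u v / f x w1 := by
    intro u hu v hv
    have := S.fix_of_anti H (S.anti H hu hv) (S.inv_tr H (S.anti H hx hw1))
    rwa [← div_eq_mul_inv] at this
  have h2 : ∀ w ∈ V0, f (y - (f y w1 / f x w1) • x) w = 0 := by
    intro w hw
    have h3 := hcon (w - (f x w / f x w1) • w1)
      (V0.sub_mem hw (S.smul w1 hw1 _ (hfix x hx w hw))) (by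
        rw [H.sub_right, H.smul_right, hfix x hx w hw, div_mul_cancel₀ _ h1, sub_self])
    rw [H.sub_right, H.smul_right, hfix x hx w hw] at h3
    rw [H.sub_left, H.smul_left]
    linear_combination h3
  by_cases h3 : y - (f y w1 / f x w1) • x = 0
  · exact hxy _ (hfix y hy w1 hw1) (sub_eq_zero.1 h3)
  · obtain ⟨w, hw, h4⟩ := S.nd H hnd h3
    exact h4 (h2 w hw)

/-- transitivity on totally isotropic pairs -/
theorem move_pair (hnd : Nd f (⊤ : Submodule F V)) {x y x' y' : V} (hx : x ∈ V0) (hy : y ∈ V0)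
    (hx' : x' ∈ V0) (hy' : y' ∈ V0) (hx0 : x ≠ 0) (hx'0 : x' ≠ 0)
    (hxy : ∀ c, σ c = c → y ≠ c • x) (hxy' : ∀ c, σ c = c → y' ≠ c • x')
    (h0 : f x y = 0) (h0' : f x' y' = 0) : ∃ t ∈ T H S, t x = x' ∧ t y = y' := by
  obtain ⟨t, ht, htx⟩ := S.move H hnd hx hx' hx0 hx'0
  have hty := (S.T_V0 H ht).1 y hy
  have htiso : t ∈ isom f := by
    have : T H S ≤ isom f := by
      rw [T, Subgroup.closure_le]
      rintro t ⟨z, hz, hzz, a, ha, rfl⟩
      exact tv_mem H _ _ _ _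
    exact this ht
  have hty0 : f x' (t y) = 0 := by rw [← htx, htiso, h0]
  have htyx : ∀ c, σ c = c → t y ≠ c • x' := by
    intro c hc h
    rw [← htx, ← LinearEquiv.map_smul] at h
    exact hxy c hc (t.injective h)
  -- now move t y to y' fixing x'
  have key : ∀ u ∈ V0, ∀ v ∈ V0, f x' u = 0 → f x' v = 0 → (∀ c, σ c = c → u ≠ c • x') →
      (∀ c, σ c = c → v ≠ c • x') → ∃ s ∈ T H S, s x' = x' ∧ s u = v := by
    have key1 : ∀ u ∈ V0, ∀ v ∈ V0, f x' u = 0 → f x' v = 0 → f u v ≠ 0 →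
      ∃ s ∈ T H S, s x' = x' ∧ s u = v := by
      intro u hu v hv h1 h2 h3
      obtain ⟨s, hs, hsu, hs'⟩ := S.move_ne H hu hv h3
      exact ⟨s, hs, hs' x' (by rw [h1, h2]), hsu⟩
    intro u hu v hv h1 h2 h3 h4
    by_cases h5 : f u v = 0
    · obtain ⟨w1, hw1, e1, e2⟩ := S.exists_sep H hnd hx' hu hx'0 h3
      obtain ⟨w2, hw2, e3, e4⟩ := S.exists_sep H hnd hx' hv hx'0 h4
      obtain ⟨w, hw, e5, e6, e7⟩ : ∃ w ∈ V0, f x' w = 0 ∧ f u w ≠ 0 ∧ f v w ≠ 0 := by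
        by_cases h6 : f v w1 = 0
        · by_cases h7 : f u w2 = 0
          · refine ⟨w1 + w2, V0.add_mem hw1 hw2, ?_, ?_, ?_⟩
            · rw [H.add_right, e1, e3, add_zero]
            · rw [H.add_right, h7, add_zero]; exact e2
            · rw [H.add_right, h6, zero_add]; exact e4
          · exact ⟨w2, hw2, e3, h7, e4⟩
        · exact ⟨w1, hw1, e1, e2, h6⟩
      obtain ⟨s, hs, hsx, hsu⟩ := key1 u hu w hw h1 e5 e6
      obtain ⟨s', hs', hsx', hsu'⟩ := key1 w hw v hv e5 h2 (H.symm_ne e7)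
      exact ⟨s' * s, mul_mem hs' hs, by rw [LinearEquiv.mul_apply, hsx, hsx'], by
        rw [LinearEquiv.mul_apply, hsu, hsu']⟩
    · exact key1 u hu v hv h1 h2 h5
  obtain ⟨s, hs, hsx, hsy⟩ := key (t y) hty y' hy' hty0 h0' htyx hxy'
  exact ⟨s * t, mul_mem hs ht, by rw [LinearEquiv.mul_apply, htx, hsx], by
    rw [LinearEquiv.mul_apply, hsy]⟩

/-- decomposition `V = V0 + τ V0` -/
theorem exists_split {τ : F} (hτ : σ τ ≠ τ) (u : V) : ∃ x ∈ V0, ∃ y ∈ V0, u = x + τ • y := by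
  have hu : u ∈ Submodule.span F (V0 : Set V) := by rw [S.span]; trivial
  have hd : τ - σ τ ≠ 0 := sub_ne_zero.2 (Ne.symm hτ)
  refine Submodule.closure_induction (p := fun u _ => ∃ x ∈ V0, ∃ y ∈ V0, u = x + τ • y) ?_ ?_ ?_ hu
  · exact ⟨0, V0.zero_mem, 0, V0.zero_mem, by simp⟩
  · rintro u v _ _ ⟨x, hx, y, hy, rfl⟩ ⟨x', hx', y', hy', rfl⟩
    exact ⟨x + x', V0.add_mem hx hx', y + y', V0.add_mem hy hy', by module⟩
  · intro c v hv
    set b := (c - σ c) / (τ - σ τ) with hb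
    have hσb : σ b = b := by
      rw [hb, map_div₀, map_sub, map_sub, H.inv, H.inv, ← neg_sub c (σ c), ← neg_sub τ (σ τ), neg_div_neg_eq]
    have hbm : b * (τ - σ τ) = c - σ c := div_mul_cancel₀ _ hd
    have hσa : σ (c - τ * b) = c - τ * b := by
      rw [map_sub, map_mul, hσb]; linear_combination hbm
    refine ⟨(c - τ * b) • v, S.smul v hv _ hσa, b • v, S.smul v hv _ hσb, by module⟩

/-- The main theorem: an overgroup of the symplectic transvections that does not preserve the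
`F₀`-structure up to scalars contains `SU`. -/
theorem sp_in_su [FiniteDimensional F V] (hnd : Nd f (⊤ : Submodule F V)) (hdim : 4 ≤ Module.finrank F V)
    {M : Subgroup (V ≃ₗ[F] V)} (hM : M ≤ isom f)
    (hH : T H S ≤ M) (hex : ∃ g ∈ M, ∃ v ∈ V0, ∀ c : F, ∀ v' ∈ V0, g v ≠ c • v') :
    ∀ g ∈ isom f, LinearMap.det ((g : V ≃ₗ[F] V) : V →ₗ[F] V) = 1 → g ∈ M := by
  have hc0 : ∀ z ∈ V0, z ∈ cen H M := fun z hz =>
    ⟨S.alt z hz, fun _ a ha => hH (S.T_mem H hz (S.alt z hz) ha)⟩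
  obtain ⟨τ, hτ⟩ := H.ne
  have hortho : ∀ x ∈ V0, ∀ y ∈ V0, f (x + τ • y) (x + τ • y) = 0 → f x y = 0 := by
    intro x hx y hy h
    rw [H.expand, S.alt x hx, S.alt y hy, S.anti' H hx hy, map_mul, map_neg] at h
    have h1 := S.anti H hx hy
    have h2 : σ (f x y) = - f x y := by linear_combination h1
    rw [h2] at h
    have h3 : (σ τ - τ) * f x y = 0 := by linear_combination h
    rcases mul_eq_zero.1 h3 with h4 | h4
    · exact absurd (sub_eq_zero.1 h4) hτ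
    · exact h4
  obtain ⟨g, hg, v, hv, hgv⟩ := hex
  have hgc := cen_map hM (hc0 v hv) hg
  obtain ⟨x, hx, y, hy, hxy⟩ := S.exists_split H hτ (g v)
  have hx0 : x ≠ 0 := by
    rintro rfl
    exact hgv τ y hy (by rw [hxy, zero_add])
  have hyx : ∀ c, σ c = c → y ≠ c • x := by
    intro c _ h
    exact hgv (1 + τ * c) x hx (by rw [hxy, h]; module)
  rw [hxy] at hgc
  have h0 := hortho x hx y hy (cen_iso hgc)
  have hall : tgrp H ⊤ ≤ M := by
    refine tgrp_le_of_cen fun z _ hz => ?_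
    obtain ⟨x', hx', y', hy', rfl⟩ := S.exists_split H hτ z
    have h0' := hortho x' hx' y' hy' hz
    by_cases hx'0 : x' = 0
    · rw [hx'0, zero_add]; exact cen_smul (hc0 y' hy') τ
    by_cases hyx' : ∃ c, σ c = c ∧ y' = c • x'
    · obtain ⟨c, hc, rfl⟩ := hyx'
      have : x' + τ • c • x' = (1 + τ * c) • x' := by module
      rw [this]; exact cen_smul (hc0 x' hx') _
    · push Not at hyx'
      obtain ⟨t, ht, htx, hty⟩ := S.move_pair H hnd hx hy hx' hy' hx0 hx'0 hyx hyx' h0 h0'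
      have := cen_map hM hgc (hH ht)
      rwa [map_add, LinearEquiv.map_smul, htx, hty] at this
  exact fun g hg hdet => hall (su_le H hnd hdim hg hdet)

end SpIn

end Cfsg.Agent.Lib.UnSub
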