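import Mathlib
import Cfsg.Agent.Lib.UnND7
import Cfsg.Agent.Lib.SpTI

set_option autoImplicit false
set_option linter.unusedSectionVars false

/-! Invariant totally isotropic subspaces of hermitian spaces: existence. (helper99) -/

namespace Cfsg.Agent.Lib.UnTI

open Polynomial Module Cfsg.Agent.Lib.InvSub Cfsg.Agent.Lib.PrimeOrd Cfsg.Agent.Lib.Sesq Cfsg.Agent.Lib.UniPair Cfsg.Agent.Lib.UnND
open Cfsg.Agent.Lib.ClUnitary (frob frob_frob)
open Cfsg.Agent.Lib.HermAlg (IsHerm)

section cw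

variable {F : Type*} [Field F] [Fintype F] {q : ℕ}

/-- the fixed field -/
def K0 (hF : Fintype.card F = q ^ 2) : Subfield F := RingHom.eqLocusField (frob hF) (RingHom.id F)

theorem mem_K0 {hF : Fintype.card F = q ^ 2} {x : F} : x ∈ K0 hF ↔ frob hF x = x := Iff.rfl

/-- trace -/
def tr0 (hF : Fintype.card F = q ^ 2) : F →ₗ[K0 hF] K0 hF where
  toFun x := ⟨x + frob hF x, by rw [mem_K0, map_add, frob_frob, add_comm]⟩
  map_add' x y := by
    apply Subtype.ext
    change (x + y) + frob hF (x + y) = (x + frob hF x) + (y + frob hF y)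
    rw [map_add]; ring
  map_smul' c x := by
    apply Subtype.ext
    change ((c : F) * x) + frob hF ((c : F) * x) = (c : F) * (x + frob hF x)
    rw [map_mul, mem_K0.1 c.2]; ring

theorem tr0_coe (hF : Fintype.card F = q ^ 2) (x : F) : ((tr0 hF x : K0 hF) : F) = x + frob hF x := rfl

theorem eq_zero_of_tr (hF : Fintype.card F = q ^ 2) {ω : F} (hω : frob hF ω ≠ ω) {x : F} (h1 : tr0 hF x = 0) (h2 : tr0 hF (ω * x) = 0) : x = 0 := by
  have e1 : x + frob hF x = 0 := congrArg Subtype.val h1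
  have e2 : ω * x + frob hF (ω * x) = 0 := congrArg Subtype.val h2
  rw [map_mul] at e2
  have e3 : (ω - frob hF ω) * x = 0 := by linear_combination e2 - frob hF ω * e1
  exact (mul_eq_zero.1 e3).resolve_left (sub_ne_zero.2 (Ne.symm hω))

theorem two_le_finrank (hF : Fintype.card F = q ^ 2) : 2 ≤ finrank (K0 hF) F := by
  obtain ⟨ω, hω⟩ := UnSpec.exists_ne hF
  have h0 : 0 < finrank (K0 hF) F := finrank_pos
  by_contra hcon
  have h1 : finrank (K0 hF) F = 1 := by omega
  obtain ⟨v, hv0, hv⟩ := finrank_eq_one_iff'.1 h1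
  obtain ⟨a, ha⟩ := hv 1
  obtain ⟨b, hb⟩ := hv ω
  have ha' : (a : F) * v = 1 := ha
  have hb' : (b : F) * v = ω := hb
  have ha0 : (a : F) ≠ 0 := by intro h; rw [h, zero_mul] at ha'; exact zero_ne_one ha'
  have hω' : ω = b * (a : F)⁻¹ := by
    rw [← hb', ← div_eq_mul_inv, eq_div_iff ha0, mul_assoc, mul_comm v, ha', mul_one]
  apply hω
  rw [hω', map_mul, map_inv₀, mem_K0.1 a.2, mem_K0.1 b.2]

variable {V : Type*} [AddCommGroup V] [Module F V] {hF : Fintype.card F = q ^ 2} {B : V →ₗ[F] V →ₛₗ[frob hF] F}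

/-- trace form -/
noncomputable def trB (B : V →ₗ[F] V →ₛₗ[frob hF] F) (S : Module.End F V) (l : F) : V →ₗ[K0 hF] V →ₗ[K0 hF] K0 hF :=
  LinearMap.mk₂ (K0 hF) (fun u v => tr0 hF (l * B (S u) v))
    (fun u u' v => by rw [map_add, map_add, LinearMap.add_apply, mul_add, map_add])
    (fun c u v => by
      have h1 : S (c • u) = (c : F) • S u := S.map_smul (c : F) u
      rw [h1, map_smul, LinearMap.smul_apply, smul_eq_mul, ← map_smul]
      congr 1
      change l * ((c : F) * B (S u) v) = (c : F) * (l * B (S u) v)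
      ring)
    (fun u v v' => by rw [map_add, mul_add, map_add])
    (fun c u v => by
      have h1 : B (S u) (c • v) = (c : F) * B (S u) v := by
        have := (B (S u)).map_smulₛₗ (c : F) v
        rw [mem_K0.1 c.2, smul_eq_mul] at this
        exact this
      rw [h1, ← map_smul]
      congr 1
      change l * ((c : F) * B (S u) v) = (c : F) * (l * B (S u) v)
      ring)

/-- common zeros of hermitian type equations -/
theorem exists_zero [FiniteDimensional F V] {k : ℕ} (S : Fin k → Module.End F V) (W : Submodule F V) (h : 2 * k < finrank F W) :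
    ∃ v ∈ W, v ≠ 0 ∧ ∀ j, B (S j v) v = 0 := by
  classical
  obtain ⟨ω, hω⟩ := UnSpec.exists_ne hF
  letI : Fintype (K0 hF) := Fintype.ofFinite _
  haveI : Module.Finite (K0 hF) F := inferInstance
  haveI : FiniteDimensional (K0 hF) V := Module.Finite.trans F V
  have h2 := two_le_finrank hF
  have h3 : finrank (K0 hF) F * finrank F W = finrank (K0 hF) W := Module.finrank_mul_finrank (K0 hF) F W
  have h4 : finrank (K0 hF) (W.restrictScalars (K0 hF)) = finrank (K0 hF) W := rfl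
  have h5 : 2 * (k + k) < finrank (K0 hF) (W.restrictScalars (K0 hF)) := by
    rw [h4, ← h3]
    have : 2 * finrank F W ≤ finrank (K0 hF) F * finrank F W := Nat.mul_le_mul_right _ h2
    omega
  obtain ⟨u, hu, hu0, hQ⟩ := SpTI.exists_common_zero (Fin.append (fun j => trB B (S j) 1) (fun j => trB B (S j) ω)) (W.restrictScalars (K0 hF)) h5
  refine ⟨u, hu, hu0, fun j => ?_⟩
  have e1 := hQ (Fin.castAdd k j)
  have e2 := hQ (Fin.natAdd k j)
  rw [Fin.append_left] at e1
  rw [Fin.append_right] at e2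
  refine eq_zero_of_tr hF hω ?_ e2
  have e3 : tr0 hF (1 * B (S j u) u) = 0 := e1
  rwa [one_mul] at e3

end cw

section build

variable {F V : Type*} [Field F] [AddCommGroup V] [Module F V] [FiniteDimensional F V] {σ : F →+* F} {B : V →ₗ[F] V →ₛₗ[σ] F}

theorem ti_sup (hr : Refl B) {X Y : Submodule F V} (hX : TI B X) (hY : TI B Y) (h : ∀ x ∈ X, ∀ y ∈ Y, B x y = 0) : TI B (X ⊔ Y) := by
  intro u hu v hv
  obtain ⟨x, hx, y, hy, rfl⟩ := Submodule.mem_sup.mp hu
  obtain ⟨x', hx', y', hy', rfl⟩ := Submodule.mem_sup.mp hv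
  rw [map_add, map_add, LinearMap.add_apply, LinearMap.add_apply, hX x hx x' hx', hr _ _ (h x' hx' y hy), h x hx y' hy',
    hY y hy y' hy']
  simp

/-- multiple totally isotropic invariant subspaces -/
theorem ti_mult [Finite F] (hr : Refl B) (hnd : ND B ⊤) {T : Module.End F V}
    (hT : Iso B T) (hcompl : ∀ W, Inv T W → ∃ W', Inv T W' ∧ IsCompl W W') {i b : ℕ} (Pr : Submodule F V → Prop)
    (hPr : ∀ W W' : Submodule F V, W' ≤ W → Pr W → Pr W')
    (hat : ∀ W, Inv T W → ND B W → Pr W → b < finrank F W → ∃ X ≤ W, Inv T X ∧ TI B X ∧ finrank F X = i) :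
    ∀ (s : ℕ) (W : Submodule F V), Inv T W → ND B W → Pr W → (s = 0 ∨ b + 2 * i * (s - 1) < finrank F W) →
      ∃ X ≤ W, Inv T X ∧ TI B X ∧ finrank F X = s * i := by
  intro s
  induction s with
  | zero =>
    intro W _ _ _ _
    exact ⟨⊥, bot_le, fun x hx => by rw [(Submodule.mem_bot F).mp hx, map_zero]; exact Submodule.zero_mem _,
      fun u hu v _ => by rw [(Submodule.mem_bot F).mp hu, map_zero, LinearMap.zero_apply], by rw [finrank_bot, Nat.zero_mul]⟩
  | succ s ih =>
    intro W hW hWnd hPW hs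
    have hs' : b + 2 * i * s < finrank F W := by
      rcases hs with h | h
      · omega
      · simpa using h
    obtain ⟨X, hXW, hX, hXti, hXf⟩ := hat W hW hWnd hPW (by omega)
    obtain ⟨H, hHW, hH, hHnd, hHf, hXH⟩ := exists_double_nd hr hnd hT hcompl hW hWnd hX hXW hXti
    obtain ⟨g1, g2, g3, g4⟩ := split_nd hr hWnd hHnd hHW
    obtain ⟨Y, hYW, hY, hYti, hYf⟩ := ih (W ⊓ perp B H) (inv_inf hW (hT.inv_perp hnd hH)) g4 (hPr _ _ inf_le_left hPW) (by
      rcases Nat.eq_zero_or_pos s with h | h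
      · exact Or.inl h
      · right
        have h2 : 2 * i * s = 2 * i * (s - 1) + 2 * i := by
          obtain ⟨k, rfl⟩ := Nat.exists_eq_add_of_lt h
          simp only [zero_add, Nat.add_sub_cancel]; ring
        omega)
    have horth : ∀ x ∈ X, ∀ y ∈ Y, B x y = 0 := fun x hx y hy => (hYW hy).2 x (hXH hx)
    refine ⟨X ⊔ Y, sup_le hXW (hYW.trans inf_le_left), inv_sup hX hY, ti_sup hr hXti hYti horth, ?_⟩
    have h5 := Submodule.finrank_sup_add_finrank_inf_eq X Y
    rw [disjoint_iff.mp (g2.mono hXH hYW), finrank_bot] at h5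
    rw [Nat.succ_mul]; omega

end build

section fin

variable {F V : Type*} [Field F] [Fintype F] [AddCommGroup V] [Module F V] [FiniteDimensional F V] {q : ℕ} {hF : Fintype.card F = q ^ 2}
  {B : V →ₗ[F] V →ₛₗ[frob hF] F} {T : Module.End F V} {r : ℕ}

/-- isotropic vectors -/
theorem exists_iso_vec (hB : Hm B) {W : Submodule F V} (hW : ND B W) (h : 1 < finrank F W) : ∃ v ∈ W, v ≠ 0 ∧ B v v = 0 := by
  obtain ⟨j, hj, hjr, hjB⟩ := exists_emb hF hB hW rfl
  obtain ⟨a, ha⟩ := ClUnitary.exists_norm hF (c := (-1 : F)) (by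
    have : frob hF (-1 : F) = -1 := by rw [map_neg, map_one]
    exact this)
  let i0 : Fin (finrank F W) := ⟨0, by omega⟩
  let i1 : Fin (finrank F W) := ⟨1, h⟩
  have h01 : i1 ≠ i0 := by intro h'; simpa [i0, i1] using congrArg Fin.val h'
  let x : Fin (finrank F W) → F := Pi.single i0 1 + Pi.single i1 a
  refine ⟨j x, hjr.le ⟨x, rfl⟩, ?_, ?_⟩
  · intro h0
    have h1 : x = 0 := hj (by rw [h0, map_zero])
    have h2 := congrFun h1 i0
    simp only [x, Pi.add_apply, Pi.single_eq_same, Pi.zero_apply] at h2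
    rw [Pi.single_eq_of_ne (Ne.symm h01), add_zero] at h2
    exact one_ne_zero h2
  · rw [hjB, hf_eq]
    rw [← Finset.add_sum_erase _ _ (Finset.mem_univ i0), ← Finset.add_sum_erase _ _ (Finset.mem_erase.2 ⟨h01, Finset.mem_univ i1⟩)]
    have hx0 : x i0 = 1 := by simp only [x, Pi.add_apply, Pi.single_eq_same]; rw [Pi.single_eq_of_ne (Ne.symm h01), add_zero]
    have hx1 : x i1 = a := by simp only [x, Pi.add_apply, Pi.single_eq_same]; rw [Pi.single_eq_of_ne h01, zero_add]
    rw [Finset.sum_eq_zero (fun i hi => ?_), hx0, hx1]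
    · have : a * frob hF a = -1 := by rw [← ha, pow_succ, mul_comm]; rfl
      rw [this, map_one]; ring
    · rw [Finset.mem_erase, Finset.mem_erase] at hi
      have : x i = 0 := by simp only [x, Pi.add_apply]; rw [Pi.single_eq_of_ne hi.2.1, Pi.single_eq_of_ne hi.1, add_zero]
      rw [this, zero_mul]

/-- totally isotropic subspaces of a space all of whose subspaces are invariant -/
theorem ti_fixed (hB : Hm B) (hnd : ND B ⊤) (hT : Iso B T) (hcompl : ∀ W, Inv T W → ∃ W', Inv T W' ∧ IsCompl W W') {C W : Submodule F V}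
    (hC : ∀ U ≤ C, Inv T U) (hWC : W ≤ C) (hWnd : ND B W) {e : ℕ} (he : 2 * e ≤ finrank F W) :
    ∃ X ≤ W, Inv T X ∧ TI B X ∧ finrank F X = e := by
  obtain ⟨X, h1, h2, h3, h4⟩ := ti_mult hB.refl hnd hT hcompl (i := 1) (b := 1) (fun W => W ≤ C) (fun W W' h h' => h.trans h') (by
    intro W hW hWnd hWE hpos
    obtain ⟨u, hu, hu0, huu⟩ := exists_iso_vec hB hWnd hpos
    have hle : Submodule.span F {u} ≤ W := by rw [Submodule.span_singleton_le_iff_mem]; exact hu
    refine ⟨Submodule.span F {u}, hle, hC _ (hle.trans hWE), ?_, finrank_span_singleton hu0⟩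
    intro x hx y hy
    obtain ⟨a, rfl⟩ := Submodule.mem_span_singleton.mp hx
    obtain ⟨c, rfl⟩ := Submodule.mem_span_singleton.mp hy
    rw [LinearMap.map_smul, LinearMap.map_smulₛₗ, LinearMap.smul_apply, huu, smul_zero, smul_zero]) e W (hC W hWC) hWnd hWC (by omega)
  exact ⟨X, h1, h2, h3, by rw [h4, mul_one]⟩

/-- cyclic totally isotropic subspaces -/
theorem cyc_ti (hB : Hm B) (hT : Iso B T) {u : V} (hall : ∀ j, B ((T ^ j) u) u = 0) {W : Submodule F V} (hW : Inv T W) (hu : u ∈ W) :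
    ∃ U ≤ W, Inv T U ∧ TI B U ∧ u ∈ U := by
  refine ⟨Submodule.span F (Set.range fun j : ℕ => (T ^ j) u), ?_, ?_, ?_, Submodule.subset_span ⟨0, rfl⟩⟩
  · apply Submodule.span_le.mpr
    rintro _ ⟨j, rfl⟩
    exact inv_pow hW j u hu
  · apply inv_span
    rintro _ ⟨j, rfl⟩
    rw [← Module.End.mul_apply, ← pow_succ']
    exact Submodule.subset_span ⟨j + 1, rfl⟩
  · apply ti_span
    rintro _ ⟨a, rfl⟩ _ ⟨b, rfl⟩
    rcases le_total a b with hab | hab
    · obtain ⟨c, rfl⟩ := Nat.exists_eq_add_of_le hab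
      have h1 := (hT.pow a) u ((T ^ c) u)
      change B ((T ^ a) u) ((T ^ (a + c)) u) = 0
      rw [pow_add, Module.End.mul_apply, h1]
      exact hB.refl _ _ (hall c)
    · obtain ⟨c, rfl⟩ := Nat.exists_eq_add_of_le hab
      have h1 := (hT.pow b) ((T ^ c) u) u
      change B ((T ^ (b + c)) u) ((T ^ b) u) = 0
      rw [pow_add, Module.End.mul_apply, h1]
      exact hall c

/-- from Chevalley–Warning -/
theorem exists_ti_cw (h : PU r B T) {W : Submodule F V} (hW : Inv T W) (hE : W ⊓ E T 1 = ⊥) (hdim : r - 1 < finrank F W) :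
    ∃ X ≤ W, Inv T X ∧ TI B X ∧ finrank F X = bU (orderOf ((q : ℕ) : ZMod r)) := by
  obtain ⟨k, hk⟩ := h.odd
  obtain ⟨u, hu, hu0, hQ⟩ := exists_zero (B := B) (k := k) (fun j => T ^ ((j : ℕ) + 1)) W (by omega)
  have hQ' : ∀ j, 1 ≤ j → j ≤ k → B ((T ^ j) u) u = 0 := by
    intro j h1 h2
    have := hQ ⟨j - 1, by omega⟩
    simp only at this
    rwa [show j - 1 + 1 = j by omega] at this
  have hne0 : ∀ j, j < r → j ≠ 0 → B ((T ^ j) u) u = 0 := by
    intro j hj hj0
    by_cases hjk : j ≤ k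
    · exact hQ' j (by omega) hjk
    · have h1 := (h.iso.pow (r - j)) ((T ^ j) u) u
      rw [← Module.End.mul_apply, ← pow_add, show r - j + j = r by omega, h.pow, Module.End.one_apply] at h1
      rw [← h1]
      exact h.herm.refl _ _ (hQ' (r - j) (by omega) (by omega))
  have hsum : ∑ j ∈ Finset.range r, (T ^ j) u = 0 := by
    have h1 : (∑ j ∈ Finset.range r, (T ^ j) u) ∈ W ⊓ E T 1 := by
      refine ⟨Submodule.sum_mem _ (fun j _ => inv_pow hW j u hu), ?_⟩
      apply Module.End.mem_eigenspace_iff.2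
      rw [one_smul, map_sum]
      have h2 : ∀ j, T ((T ^ j) u) = (T ^ (j + 1)) u := fun j => by rw [pow_succ', Module.End.mul_apply]
      rw [Finset.sum_congr rfl (fun j _ => h2 j)]
      have h3 := Finset.sum_range_succ (fun j => (T ^ j) u) r
      have h4 := Finset.sum_range_succ' (fun j => (T ^ j) u) r
      rw [h3] at h4
      rw [h.pow, pow_zero] at h4
      exact (add_right_cancel h4).symm
    rw [hE] at h1
    exact (Submodule.mem_bot F).1 h1
  have hzero : B u u = 0 := by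
    have h1 : B (∑ j ∈ Finset.range r, (T ^ j) u) u = 0 := by rw [hsum, map_zero, LinearMap.zero_apply]
    rw [map_sum, LinearMap.sum_apply, ← Finset.add_sum_erase _ _ (Finset.mem_range.2 h.hr.pos), Finset.sum_eq_zero (fun j hj => ?_), add_zero] at h1
    · exact h1
    · rw [Finset.mem_erase, Finset.mem_range] at hj
      exact hne0 j hj.2 hj.1
  have hall : ∀ j, B ((T ^ j) u) u = 0 := by
    intro j
    have hr0 := h.hr.pos
    have h1 : T ^ j = T ^ (j % r) := by
      conv_lhs => rw [← Nat.div_add_mod j r, pow_add, pow_mul, h.pow, one_pow, one_mul]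
    rw [h1]
    by_cases h0 : j % r = 0
    · rw [h0]; exact hzero
    · exact hne0 _ (Nat.mod_lt _ hr0) h0
  obtain ⟨U, hUW, hUT, hUti, huU⟩ := cyc_ti h.herm h.iso hall hW hu
  obtain ⟨X, hX, hXi, hXf⟩ := h.ss.ex U hUT (by
    intro hbot
    rw [hbot, Submodule.mem_bot] at huU
    exact hu0 huU) (by
    rw [disjoint_iff, eq_bot_iff, ← hE, inf_comm]
    exact inf_le_inf_right _ hUW)
  exact ⟨X, hX.trans hUW, hXi, fun x hx y hy => hUti x (hX hx) y (hX hy), hXf⟩

/-- irreducible subspaces are totally isotropic unless `i ≡ 2 (mod 4)` -/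
theorem exists_ti_odd (h : PU r B T) (h4 : orderOf ((q : ℕ) : ZMod r) % 4 ≠ 2) {W : Submodule F V} (hW : Inv T W)
    (hne : W ≠ ⊥) (hE : W ⊓ E T 1 = ⊥) :
    ∃ X ≤ W, Inv T X ∧ TI B X ∧ finrank F X = bU (orderOf ((q : ℕ) : ZMod r)) := by
  obtain ⟨U, hUW, hU, hUf⟩ := h.ss.ex W hW hne (by rw [disjoint_iff, inf_comm]; exact hE)
  refine ⟨U, hUW, hU, ?_, hUf⟩
  rw [ti_iff]
  by_contra hnle
  have hR : Inv T (U ⊓ perp B U) := inv_inf hU (h.iso.inv_perp h.nd hU)
  have hR0 : U ⊓ perp B U = ⊥ := by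
    by_contra hRne
    obtain ⟨U', hU'R, -, hU'f⟩ := h.ss.ex _ hR hRne (by
      rw [disjoint_iff, eq_bot_iff, ← hE, inf_comm]
      exact inf_le_inf_right _ (inf_le_left.trans hUW))
    have : U' = U := Submodule.eq_of_le_of_finrank_eq (hU'R.trans inf_le_left) (by rw [hU'f, hUf])
    apply hnle
    rw [this] at hU'R
    exact hU'R.trans inf_le_right
  have h1 := h.dvd hU ((nd_iff h.herm.refl).mpr hR0) (by rw [eq_bot_iff, ← hE]; exact inf_le_inf_right _ hUW)
  rw [hUf, cU_eq, if_neg h4] at h1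
  have h2 := Nat.le_of_dvd h.ss.pos h1
  have := h.ss.pos
  omega

/-- dimensions of invariant totally isotropic subspaces: sufficient condition -/
theorem exists_ti (h : PU r B T) {e' s' : ℕ} (he : 2 * e' ≤ finrank F (E T 1))
    (hs : s' = 0 ∨ (if orderOf ((q : ℕ) : ZMod r) % 4 = 2 then
        r - 1 + 2 * bU (orderOf ((q : ℕ) : ZMod r)) * (s' - 1) < finrank F V - finrank F (E T 1)
      else 2 * bU (orderOf ((q : ℕ) : ZMod r)) * s' ≤ finrank F V - finrank F (E T 1))) :
    ∃ X : Submodule F V, Inv T X ∧ TI B X ∧ finrank F X = e' + s' * bU (orderOf ((q : ℕ) : ZMod r)) := by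
  have hss := h.ss
  obtain ⟨i, hi⟩ : ∃ i, i = orderOf ((q : ℕ) : ZMod r) := ⟨_, rfl⟩
  obtain ⟨h0, h1, h2, h3, h4, h5⟩ := h.split_E (W := ⊤) (fun _ _ => trivial) h.nd
  rw [top_inf_eq] at h0 h1 h2 h3 h4 h5
  rw [top_inf_eq] at h2 h3 h4 h5
  rw [finrank_top] at h5
  obtain ⟨X, hX1, hX2, hX3, hX4⟩ := ti_fixed h.herm h.nd h.iso hss.compl (fun U hU => inv_of_le_E hU) le_rfl h1 he
  have hY : ∃ Y ≤ perp B (E T 1), Inv T Y ∧ TI B Y ∧ finrank F Y = s' * bU (orderOf ((q : ℕ) : ZMod r)) := by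
    by_cases hev : orderOf ((q : ℕ) : ZMod r) % 4 = 2
    · rw [if_pos hev] at hs
      exact ti_mult h.herm.refl h.nd h.iso hss.compl (b := r - 1) (fun W => W ⊓ E T 1 = ⊥)
        (fun W W' hle hW => by rw [eq_bot_iff, ← hW]; exact inf_le_inf_right _ hle)
        (fun W hW _ hPW hb => exists_ti_cw h hW hPW hb) s' _ h2 h3 h4 (by
          rcases hs with h | h
          · exact Or.inl h
          · right; omega)
    · rw [if_neg hev] at hs
      exact ti_mult h.herm.refl h.nd h.iso hss.compl (b := 0) (fun W => W ⊓ E T 1 = ⊥)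
        (fun W W' hle hW => by rw [eq_bot_iff, ← hW]; exact inf_le_inf_right _ hle)
        (fun W hW _ hPW hb => exists_ti_odd h hev hW (by rintro rfl; rw [finrank_bot] at hb; omega) hPW) s' _ h2 h3 h4 (by
          rcases Nat.eq_zero_or_pos s' with h | h
          · exact Or.inl h
          · right
            have h6 := hss.pos
            have h7 : 2 * bU (orderOf ((q : ℕ) : ZMod r)) * s' = 2 * bU (orderOf ((q : ℕ) : ZMod r)) * (s' - 1) + 2 * bU (orderOf ((q : ℕ) : ZMod r)) := by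
              obtain ⟨k, rfl⟩ := Nat.exists_eq_add_of_lt h
              simp only [zero_add, Nat.add_sub_cancel]; ring
            omega)
  obtain ⟨Y, hY1, hY2, hY3, hY4⟩ := hY
  have horth : ∀ x ∈ X, ∀ y ∈ Y, B x y = 0 := fun x hx y hy => (hY1 hy) x (hX1 hx)
  refine ⟨X ⊔ Y, inv_sup hX2 hY2, ti_sup h.herm.refl hX3 hY3 horth, ?_⟩
  have h6 := Submodule.finrank_sup_add_finrank_inf_eq X Y
  have h7 : X ⊓ Y = ⊥ := by
    rw [eq_bot_iff, ← h4, inf_comm]
    exact inf_le_inf hY1 hX1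
  rw [h7, finrank_bot] at h6
  omega

/-- invariant subspaces without fixed vectors are orthogonal to the fixed space -/
theorem le_perp_E (h : PU r B T) {W : Submodule F V} (hW : Inv T W) (hE : W ⊓ E T 1 = ⊥) : W ≤ perp B (E T 1) := by
  have hN : Inv (T - 1) W := fun x hx => W.sub_mem (hW x hx) hx
  have hinj : ∀ x ∈ W, (T - 1) x = 0 → x = 0 := by
    intro x hx h0
    have h1 : x ∈ W ⊓ E T 1 := ⟨hx, by
      rw [LinearMap.sub_apply, Module.End.one_apply, sub_eq_zero] at h0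
      exact Module.End.mem_eigenspace_iff.mpr (by rw [h0, one_smul])⟩
    rw [hE] at h1
    exact (Submodule.mem_bot F).mp h1
  have hmap : W.map (T - 1) = W := by
    apply Submodule.eq_of_le_of_finrank_eq (inv_iff_map_le.mp hN)
    have h1 := LinearMap.finrank_range_add_finrank_ker ((T - 1).domRestrict W)
    rw [LinearMap.range_domRestrict] at h1
    have h2 : LinearMap.ker ((T - 1).domRestrict W) = ⊥ := by
      rw [LinearMap.ker_eq_bot']
      intro x hx
      exact Subtype.ext (hinj x x.2 hx)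
    rw [h2, finrank_bot, add_zero] at h1
    exact h1
  intro w hw u hu
  rw [← hmap] at hw
  obtain ⟨x, _, rfl⟩ := hw
  have hTu : T u = u := by
    have := Module.End.mem_eigenspace_iff.mp hu
    rwa [one_smul] at this
  have h1 := h.iso u x
  rw [hTu] at h1
  rw [LinearMap.sub_apply, Module.End.one_apply, map_sub, h1, sub_self]

/-- decomposition of an invariant totally isotropic subspace -/
theorem ti_dim (h : PU r B T) {W : Submodule F V} (hW : Inv T W) (hti : TI B W) :
    ∃ W₂ ≤ W, Inv T W₂ ∧ W₂ ⊓ E T 1 = ⊥ ∧ ∃ e' s', 2 * e' ≤ finrank F (E T 1) ∧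
      finrank F W₂ = s' * bU (orderOf ((q : ℕ) : ZMod r)) ∧ finrank F W = e' + s' * bU (orderOf ((q : ℕ) : ZMod r)) ∧ (W₂ = ⊥ → W ≤ E T 1) := by
  have hss := h.ss
  have hE : Inv T (W ⊓ E T 1) := inv_of_le_E inf_le_right
  obtain ⟨W₂', hW₂', hc⟩ := hss.compl _ hE
  have h1 : (W ⊓ E T 1) ⊔ (W ⊓ W₂') = W := by
    rw [inf_comm W W₂', ← sup_inf_assoc_of_le _ (inf_le_left : W ⊓ E T 1 ≤ W), hc.sup_eq_top, top_inf_eq]
  have h2 : (W ⊓ E T 1) ⊓ (W ⊓ W₂') = ⊥ := by
    rw [eq_bot_iff, ← hc.inf_eq_bot]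
    exact inf_le_inf_left _ inf_le_right
  have h3 : Inv T (W ⊓ W₂') := inv_inf hW hW₂'
  have h4 : (W ⊓ W₂') ⊓ E T 1 = ⊥ := by
    rw [eq_bot_iff, ← h2]
    exact le_inf (le_inf (inf_le_left.trans inf_le_left) inf_le_right) inf_le_left
  obtain ⟨s', hs'⟩ := hss.dvd h3 (by rw [disjoint_iff, inf_comm]; exact h4)
  have h5 := Submodule.finrank_sup_add_finrank_inf_eq (W ⊓ E T 1) (W ⊓ W₂')
  rw [h1, h2, finrank_bot] at h5
  refine ⟨W ⊓ W₂', inf_le_left, h3, h4, finrank F ↥(W ⊓ E T 1), s', ?_, by rw [hs', mul_comm], by rw [mul_comm] at hs'; omega, ?_⟩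
  · have h6 := nd_inf_E h.iso h.ne h.pow (W := ⊤) (fun _ _ => trivial) h.nd
    rw [top_inf_eq] at h6
    exact ti_le h.herm.refl h.nd h6 inf_le_right (fun u hu v hv => hti u hu.1 v hv.1)
  · intro hb
    rw [hb, sup_bot_eq] at h1
    exact inf_eq_left.1 h1

end fin

end Cfsg.Agent.Lib.UnTI
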