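import Mathlib
import Cfsg.Agent.Lib.UnTI
import Cfsg.Agent.Lib.SpTI2

set_option autoImplicit false
set_option linter.unusedSectionVars false

/-! Numbers of totally isotropic subspaces of hermitian spaces. (helper99) -/

namespace Cfsg.Agent.Lib.UnTI

open Polynomial Module Cfsg.Agent.Lib.InvSub Cfsg.Agent.Lib.PrimeOrd Cfsg.Agent.Lib.Sesq Cfsg.Agent.Lib.UniPair Cfsg.Agent.Lib.UnND
open Cfsg.Agent.Lib.ClUnitary (frob frob_frob)
open Cfsg.Agent.Lib.HermAlg (IsHerm)
open Cfsg.Agent.Lib.ClIso (isoGrp)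

section count

variable {F V : Type*} [Field F] [Fintype F] [AddCommGroup V] [Module F V] [FiniteDimensional F V] {q : ℕ} {hF : Fintype.card F = q ^ 2}
  {B : V →ₗ[F] V →ₛₗ[frob hF] F}

/-- isotropic vectors orthogonal to a totally isotropic subspace -/
theorem card_perp_iso (hB : Hm B) (hnd : ND B ⊤) {U : Submodule F V} (hU : TI B U) {m : ℕ} (hm : finrank F U = m) :
    Nat.card {v : V // v ∈ perp B U ∧ B v v = 0} = (q ^ 2) ^ m * ClUnitary.N F q (finrank F V - 2 * m) 0 := by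
  classical
  have hle : U ≤ perp B U := ti_iff.1 hU
  obtain ⟨X', hX'⟩ := U.exists_isCompl
  have h1 : U ⊔ (perp B U ⊓ X') = perp B U := by
    rw [inf_comm (perp B U) X', ← sup_inf_assoc_of_le _ hle, hX'.sup_eq_top, top_inf_eq]
  have h2 : U ⊓ (perp B U ⊓ X') = ⊥ := by
    rw [eq_bot_iff, ← hX'.inf_eq_bot]
    exact inf_le_inf_left _ inf_le_right
  obtain ⟨X, hX⟩ : ∃ X, X = perp B U ⊓ X' := ⟨_, rfl⟩
  rw [← hX] at h1 h2
  have hXp : X ≤ perp B U := by rw [hX]; exact inf_le_left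
  have hXnd : ND B X := by
    intro x hx hx'
    have h3 : x ∈ perp B (perp B U) := by
      intro w hw
      rw [← h1] at hw
      obtain ⟨u, hu, y, hy, rfl⟩ := Submodule.mem_sup.1 hw
      rw [map_add, LinearMap.add_apply, hXp hx u hu, hB.refl _ _ (hx' y hy), add_zero]
    rw [perp_perp hB.refl hnd] at h3
    have h4 : x ∈ U ⊓ X := ⟨h3, hx⟩
    rw [h2] at h4
    exact (Submodule.mem_bot F).1 h4
  have hfX : finrank F X = finrank F V - 2 * m := by
    have h3 := Submodule.finrank_sup_add_finrank_inf_eq U X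
    rw [h1, h2, finrank_bot] at h3
    have h4 := finrank_add_perp hnd U
    omega
  obtain ⟨j, hj, hjr, hjB⟩ := exists_emb hF hB hXnd hfX
  have hcU : Nat.card U = (q ^ 2) ^ m := by rw [SpTI.card_sub, hF, hm]
  rw [← hcU, ClUnitary.N, ← Nat.card_prod]
  symm
  have hjX : ∀ y, j y ∈ X := fun y => hjr.le ⟨y, rfl⟩
  have hval : ∀ (u : U) y, B ((u : V) + j y) ((u : V) + j y) = Cfsg.hermForm (finrank F V - 2 * m) F q y y := by
    intro u y
    rw [map_add, map_add, LinearMap.add_apply, LinearMap.add_apply, hU u u.2 u u.2, hXp (hjX y) u u.2, hB.refl _ _ (hXp (hjX y) u u.2), hjB]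
    simp only [zero_add]
    rfl
  refine Nat.card_congr (Equiv.ofBijective (fun z => ⟨(z.1 : V) + j z.2.1, ?_, ?_⟩) ⟨?_, ?_⟩)
  · exact (perp B U).add_mem (hle z.1.2) (hXp (hjX z.2.1))
  · rw [hval]; exact z.2.2
  · rintro ⟨u, y⟩ ⟨u', y'⟩ h
    have h' : (u : V) + j y.1 = (u' : V) + j y'.1 := congrArg Subtype.val h
    have h3 : (u : V) - u' = j (y'.1 - y.1) := by
      have : (u : V) - u' = j y'.1 - j y.1 := by rw [sub_eq_sub_iff_add_eq_add, h', add_comm]
      rw [this, map_sub]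
    have h4 : (u : V) - u' ∈ U ⊓ X := ⟨U.sub_mem u.2 u'.2, by rw [h3]; exact hjX _⟩
    have h4' := h4
    rw [h2, Submodule.mem_bot] at h4'
    have h5 : u = u' := Subtype.ext (sub_eq_zero.1 h4')
    have h6 : y.1 = y'.1 := by
      rw [h4'] at h3
      have h7 : y'.1 - y.1 = 0 := hj (by rw [← h3, map_zero])
      exact (sub_eq_zero.1 h7).symm
    exact Prod.ext h5 (Subtype.ext h6)
  · rintro ⟨v, hv, hvv⟩
    have hv' := hv
    rw [← h1] at hv'
    obtain ⟨u, hu, x, hx, rfl⟩ := Submodule.mem_sup.1 hv'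
    have hxr : x ∈ LinearMap.range j := hjr.symm ▸ hx
    obtain ⟨y, rfl⟩ := hxr
    have h3 := hval ⟨u, hu⟩ y
    refine ⟨(⟨u, hu⟩, ⟨y, ?_⟩), rfl⟩
    rw [← h3]; exact hvv

theorem card_perp_iso' (hB : Hm B) (hnd : ND B ⊤) {U : Submodule F V} (hU : TI B U) {m : ℕ} (hm : finrank F U = m) :
    Nat.card {v : V // (v ∈ perp B U ∧ B v v = 0) ∧ v ∉ U} = (q ^ 2) ^ m * (ClUnitary.N F q (finrank F V - 2 * m) 0 - 1) := by
  classical
  haveI : Finite V := Module.finite_of_finite F
  letI : Fintype V := Fintype.ofFinite V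
  rw [Nat.mul_sub, ← card_perp_iso hB hnd hU hm, mul_one]
  have hcU : Nat.card U = (q ^ 2) ^ m := by rw [SpTI.card_sub, hF, hm]
  rw [← hcU, Nat.card_eq_fintype_card, Nat.card_eq_fintype_card, Nat.card_eq_fintype_card,
    Fintype.card_subtype, Fintype.card_subtype, Fintype.card_subtype, ← Finset.card_sdiff_of_subset]
  · congr 1
    ext v
    simp
  · intro v hv
    simp only [Finset.mem_filter, Finset.mem_univ, true_and] at hv ⊢
    exact ⟨ti_iff.1 hU hv, hU v hv v hv⟩

/-- totally isotropic independent families -/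
def TF (B : V →ₗ[F] V →ₛₗ[frob hF] F) (m : ℕ) : Type _ := {s : Fin m → V // LinearIndependent F s ∧ ∀ i j, B (s i) (s j) = 0}

theorem card_TF (hB : Hm B) (hnd : ND B ⊤) (m : ℕ) :
    Nat.card (TF B m) = ∏ j ∈ Finset.range m, ((q ^ 2) ^ j * (ClUnitary.N F q (finrank F V - 2 * j) 0 - 1)) := by
  classical
  have hfin : Finite V := Module.finite_of_finite F
  induction m with
  | zero =>
    rw [Finset.prod_range_zero, Nat.card_eq_one_iff_unique]
    refine ⟨⟨fun a b => Subtype.ext (Subsingleton.elim _ _)⟩, ⟨⟨fun i => i.elim0, ?_, fun i => i.elim0⟩⟩⟩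
    exact linearIndependent_empty_type
  | succ m ih =>
    rw [Finset.prod_range_succ, ← ih]
    have hfT : ∀ k, Finite (TF B k) := fun k => Subtype.finite
    have := hfT m
    have := hfT (m + 1)
    let f : TF B (m + 1) → TF B m := fun s => ⟨Fin.tail s.1, by
      have h := s.2.1
      rw [← Fin.cons_self_tail s.1, linearIndependent_finCons] at h
      exact ⟨h.1, fun i j => s.2.2 _ _⟩⟩
    apply card_of_fiber f
    intro s
    set U := Submodule.span F (Set.range s.1) with hU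
    have hUti : TI B U := ti_span (by rintro _ ⟨i, rfl⟩ _ ⟨j, rfl⟩; exact s.2.2 i j)
    have hUf : finrank F U = m := by rw [hU, finrank_span_eq_card s.2.1, Fintype.card_fin]
    rw [← card_perp_iso' hB hnd hUti hUf]
    apply Nat.card_congr
    refine
      { toFun := fun t => ⟨t.1.1 0, ⟨?_, ?_⟩, ?_⟩
        invFun := fun v => ⟨⟨Fin.cons v.1 s.1, ?_, ?_⟩, ?_⟩
        left_inv := ?_
        right_inv := ?_ }
    · have ht : Fin.tail t.1.1 = s.1 := congrArg Subtype.val t.2
      intro w hw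
      have h1 : ∀ w ∈ Submodule.span F (Set.range s.1), ∀ v ∈ Submodule.span F {t.1.1 0}, B w v = 0 := by
        apply orth_span
        rintro _ ⟨j, rfl⟩ _ rfl
        rw [← ht]
        exact t.1.2.2 _ _
      exact h1 w hw _ (Submodule.mem_span_singleton_self _)
    · exact t.1.2.2 _ _
    · have ht : Fin.tail t.1.1 = s.1 := congrArg Subtype.val t.2
      have h := t.1.2.1
      rw [← Fin.cons_self_tail t.1.1, linearIndependent_finCons, ht] at h
      exact h.2
    · rw [linearIndependent_finCons]; exact ⟨s.2.1, v.2.2⟩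
    · intro i j
      have hm : ∀ k, s.1 k ∈ U := fun k => Submodule.subset_span ⟨k, rfl⟩
      refine Fin.cases ?_ (fun i => ?_) i
      · refine Fin.cases ?_ (fun j => ?_) j
        · exact v.2.1.2
        · exact hB.refl _ _ (v.2.1.1 _ (hm j))
      · refine Fin.cases ?_ (fun j => ?_) j
        · exact v.2.1.1 _ (hm i)
        · exact s.2.2 i j
    · apply Subtype.ext
      funext i
      rfl
    · intro t
      have ht : Fin.tail t.1.1 = s.1 := congrArg Subtype.val t.2
      apply Subtype.ext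
      apply Subtype.ext
      change Fin.cons (t.1.1 0) s.1 = t.1.1
      rw [← ht]
      exact Fin.cons_self_tail _
    · intro v
      rfl

/-- the number of totally isotropic `m`-spaces -/
theorem card_ti (hB : Hm B) (hnd : ND B ⊤) (m : ℕ) :
    Nat.card {W : Submodule F V // finrank F W = m ∧ TI B W} *
      ∏ i : Fin m, (Fintype.card F ^ m - Fintype.card F ^ i.val) =
    ∏ j ∈ Finset.range m, ((q ^ 2) ^ j * (ClUnitary.N F q (finrank F V - 2 * j) 0 - 1)) := by
  classical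
  have hfin : Finite V := Module.finite_of_finite F
  have hfs : Finite (Submodule F V) := Finite.of_injective (fun W => (W : Set V)) SetLike.coe_injective
  rw [← card_TF hB hnd m]
  symm
  have hfT : Finite (TF B m) := Subtype.finite
  let f : TF B m → {W : Submodule F V // finrank F W = m ∧ TI B W} := fun s =>
    ⟨Submodule.span F (Set.range s.1), by rw [finrank_span_eq_card s.2.1, Fintype.card_fin],
      ti_span (by rintro _ ⟨i, rfl⟩ _ ⟨j, rfl⟩; exact s.2.2 i j)⟩
  apply card_of_fiber f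
  intro W
  have hF : Fintype W.1 := Fintype.ofFinite _
  have h1 := card_linearIndependent (K := F) (V := W.1) (k := m) (by rw [W.2.1])
  rw [W.2.1] at h1
  rw [← h1]
  apply Nat.card_congr
  refine
    { toFun := fun t => ⟨fun i => ⟨t.1.1 i, ?_⟩, ?_⟩
      invFun := fun s => ⟨⟨fun i => (s.1 i : V), ?_, ?_⟩, ?_⟩
      left_inv := fun t => rfl
      right_inv := fun s => rfl }
  · have : Submodule.span F (Set.range t.1.1) = W.1 := congrArg Subtype.val t.2
    rw [← this]; exact Submodule.subset_span ⟨i, rfl⟩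
  · exact LinearIndependent.of_comp W.1.subtype t.1.2.1
  · exact s.2.map' W.1.subtype (Submodule.ker_subtype W.1)
  · intro i j; exact W.2.2 _ (s.1 i).2 _ (s.1 j).2
  · apply Subtype.ext
    apply Submodule.eq_of_le_of_finrank_eq
    · apply Submodule.span_le.mpr
      rintro _ ⟨i, rfl⟩
      exact (s.1 i).2
    · have h2 : LinearIndependent F (fun i => (s.1 i : V)) := s.2.map' W.1.subtype (Submodule.ker_subtype W.1)
      exact (finrank_span_eq_card h2).trans (by rw [Fintype.card_fin, W.2.1])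

end count

section arith

variable {F : Type*} [Field F] [Fintype F] {q : ℕ} {p : ℕ} [Fact p.Prime] [CharP F p]

theorem p_dvd_q (hF : Fintype.card F = q ^ 2) : p ∣ q := by
  obtain ⟨k, hk, hc⟩ := FiniteField.card F p
  have : p ∣ q ^ 2 := by rw [← hF, hc]; exact dvd_pow_self p k.pos.ne'
  exact (Fact.out : p.Prime).dvd_of_dvd_pow this

/-- the number of totally isotropic subspaces is prime to `p` -/
theorem not_p_dvd_ti (hF : Fintype.card F = q ^ 2) {n m : ℕ} (hmn : 2 * m ≤ n) :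
    ¬ p ∣ Nat.card {W : Submodule F (Fin n → F) // finrank F W = m ∧ TI (HF hF n) W} := by
  have hp : p.Prime := Fact.out
  have hpq := p_dvd_q (p := p) hF
  intro hd
  have h := card_ti (fun u v => hf_herm hF u v) (hf_nd hF (n := n)) m
  rw [Module.finrank_fin_fun, hF] at h
  have hq0 := card_pos hF
  have h1 : ∏ i : Fin m, ((q ^ 2) ^ m - (q ^ 2) ^ i.val) = (∏ j ∈ Finset.range m, (q ^ 2) ^ j) * ∏ j ∈ Finset.range m, ((q ^ 2) ^ (m - j) - 1) := by
    rw [Fin.prod_univ_eq_prod_range (fun i => (q ^ 2) ^ m - (q ^ 2) ^ i) m, ← Finset.prod_mul_distrib]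
    apply Finset.prod_congr rfl
    intro i hi
    rw [Finset.mem_range] at hi
    rw [Nat.mul_sub, mul_one, ← pow_add]
    congr 2
    omega
  rw [h1, Finset.prod_mul_distrib] at h
  have hpos : 0 < ∏ j ∈ Finset.range m, (q ^ 2) ^ j := Finset.prod_pos fun _ _ => by positivity
  have h2 : Nat.card {W : Submodule F (Fin n → F) // finrank F W = m ∧ TI (HF hF n) W} * ∏ j ∈ Finset.range m, ((q ^ 2) ^ (m - j) - 1) =
      ∏ j ∈ Finset.range m, (ClUnitary.N F q (n - 2 * j) 0 - 1) := by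
    apply Nat.eq_of_mul_eq_mul_left hpos
    rw [← h]; ring
  have h3 : p ∣ ∏ j ∈ Finset.range m, (ClUnitary.N F q (n - 2 * j) 0 - 1) := by rw [← h2]; exact hd.mul_right _
  obtain ⟨j, hj, h4⟩ := (Prime.dvd_finsetProd_iff hp.prime _).mp h3
  rw [Finset.mem_range] at hj
  rw [ClUnitary.N_zero hF, Nat.add_sub_cancel] at h4
  have hminus : ∀ k : ℕ, 0 < k → ¬ p ∣ q ^ k - 1 := by
    intro k hk h5
    have h6 : p ∣ q ^ k := dvd_pow hpq hk.ne'
    have h7 : 1 ≤ q ^ k := Nat.one_le_pow _ _ hq0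
    have h8 : p ∣ q ^ k - (q ^ k - 1) := Nat.dvd_sub h6 h5
    have h9 : q ^ k - (q ^ k - 1) = 1 := by omega
    rw [h9] at h8
    exact hp.one_lt.ne' (Nat.dvd_one.mp h8)
  have hplus : ∀ k : ℕ, 0 < k → ¬ p ∣ q ^ k + 1 := by
    intro k hk h5
    have h6 : p ∣ q ^ k := dvd_pow hpq hk.ne'
    have h8 : p ∣ 1 := (Nat.dvd_add_right h6).1 h5
    exact hp.one_lt.ne' (Nat.dvd_one.mp h8)
  split_ifs at h4 with he
  · rcases (Nat.Prime.dvd_mul hp).1 h4 with h5 | h5
    · exact hminus _ (by omega) h5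
    · exact hplus _ (by omega) h5
  · rcases (Nat.Prime.dvd_mul hp).1 h4 with h5 | h5
    · exact hplus _ (by omega) h5
    · exact hminus _ (by omega) h5

end arith

section orbits

variable {F : Type*} [Field F] [Fintype F] {q : ℕ}

theorem ti_trans (hF : Fintype.card F = q ^ 2) {k m : ℕ} (W W' : Submodule F (Fin k → F)) (h1 : finrank F W = m) (h2 : finrank F W' = m)
    (h3 : TI (HF hF k) W) (h4 : TI (HF hF k) W') :
    ∃ g ∈ isoGrp F (Cfsg.hermForm k F q), W.map (g : (Fin k → F) →ₗ[F] (Fin k → F)) = W' := by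
  have key : ∀ U : Submodule F (Fin k → F), finrank F U = m → ∃ j : (Fin m → F) →ₗ[F] (Fin k → F), Function.Injective j ∧ LinearMap.range j = U := by
    intro U hU
    let e : U ≃ₗ[F] (Fin m → F) := LinearEquiv.ofFinrankEq _ _ (by rw [hU, Module.finrank_fin_fun])
    refine ⟨U.subtype ∘ₗ (e.symm : (Fin m → F) →ₗ[F] U), U.injective_subtype.comp e.symm.injective, ?_⟩
    rw [LinearMap.range_comp, LinearEquiv.range, Submodule.map_top, Submodule.range_subtype]
  obtain ⟨j, hj, hjr⟩ := key W h1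
  obtain ⟨j', hj', hjr'⟩ := key W' h2
  obtain ⟨g, hg, hgr⟩ := exists_iso_of_emb hF hj hj' (fun x y => by
    rw [h3 _ (hjr.le ⟨x, rfl⟩) _ (hjr.le ⟨y, rfl⟩), h4 _ (hjr'.le ⟨x, rfl⟩) _ (hjr'.le ⟨y, rfl⟩)])
  exact ⟨g, hg, by rw [← hjr, hgr, hjr']⟩

theorem exists_ti_std (hF : Fintype.card F = q ^ 2) {k m : ℕ} (hm : 2 * m ≤ k) : ∃ W : Submodule F (Fin k → F), finrank F W = m ∧ TI (HF hF k) W := by
  obtain ⟨U, -, -, h1, h2⟩ := ti_fixed (V := Fin k → F) (T := 1) (fun u v => hf_herm hF u v) (hf_nd hF) (fun _ _ => rfl)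
    (fun W _ => by
      obtain ⟨W', hW'⟩ := W.exists_isCompl
      exact ⟨W', fun x hx => hx, hW'⟩) (C := ⊤) (fun U _ x hx => hx) le_top (hf_nd hF) (e := m)
      (by rw [finrank_top, Module.finrank_fin_fun]; exact hm)
  exact ⟨U, h2, h1⟩

theorem bU_pos {i : ℕ} (hi : 0 < i) : 0 < bU i := by
  unfold bU
  split_ifs with h
  · obtain ⟨k, hk⟩ := h
    omega
  · exact hi

theorem bU_le_cU (i : ℕ) : bU i ≤ cU i := by rw [cU_eq]; split_ifs <;> omega

theorem not_dvd_ti (hF : Fintype.card F = q ^ 2) {r : ℕ} (hr : r.Prime) (ho : Odd r) (hne : (r : F) ≠ 0) {n m : ℕ}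
    (hm : m < bU (orderOf ((q : ℕ) : ZMod r))) (hmn : 2 * m ≤ n % cU (orderOf ((q : ℕ) : ZMod r))) :
    ¬ r ∣ Nat.card {W : Submodule F (Fin n → F) // finrank F W = m ∧ TI (HF hF n) W} := by
  obtain ⟨T, hT, hE⟩ := exists_pu hF hr ho hne (n := n) (s := n / cU (orderOf ((q : ℕ) : ZMod r))) (k := n % cU (orderOf ((q : ℕ) : ZMod r)))
    (by rw [mul_comm]; exact (Nat.div_add_mod _ _).symm)
  have hc := hT.cU_pos
  obtain ⟨W₀, h1, h2⟩ := exists_ti_std hF (k := finrank F (E T 1)) (m := m) (by rw [hE]; exact hmn)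
  refine not_dvd_omega hF hT (by rw [hE]; exact Nat.mod_lt _ hc) (Q := fun n W => TI (HF hF n) W) (fun _ h W => ti_map h W) ?_ h1 h2
    (fun W W' a b c d => ti_trans hF W W' a b c d)
  intro W hWm hWnd hW
  obtain ⟨W₂, -, -, -, e', s', he, hW₂, hWe, hbot⟩ := ti_dim hT hW hWnd
  rw [hWm] at hWe
  have hs0 : s' = 0 := by
    by_contra h0
    have := Nat.le_mul_of_pos_left (bU (orderOf ((q : ℕ) : ZMod r))) (Nat.pos_of_ne_zero h0)
    omega
  rw [hs0, Nat.zero_mul] at hW₂
  exact hbot (Submodule.finrank_eq_zero.1 hW₂)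

end orbits

end Cfsg.Agent.Lib.UnTI
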