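import Mathlib
import Cfsg.Agent.Lib.UnTI2
import Cfsg.Agent.Lib.SpTI3

set_option autoImplicit false
set_option linter.unusedSectionVars false

/-! Isometries with few invariant totally isotropic subspaces. (helper99) -/

namespace Cfsg.Agent.Lib.UnTI

open Polynomial Module Cfsg.Agent.Lib.InvSub Cfsg.Agent.Lib.PrimeOrd Cfsg.Agent.Lib.Sesq Cfsg.Agent.Lib.UniPair Cfsg.Agent.Lib.UnND
open Cfsg.Agent.Lib.ClUnitary (frob frob_frob)
open Cfsg.Agent.Lib.HermAlg (IsHerm)
open Cfsg.Agent.Lib.ClIso (isoGrp)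
open Cfsg.Agent.Lib.SpTI (sh sh_pow sh_pow_r finrank_ker_le const_of_fix)

universe u

variable {F : Type u} [Field F] [Fintype F] {q : ℕ}

theorem aeval_one_end {V : Type*} [AddCommGroup V] [Module F V] (f : F[X]) (y : V) : aeval (1 : Module.End F V) f y = f.eval 1 • y := by
  have h1 : (1 : Module.End F V) = algebraMap F (Module.End F V) 1 := (map_one _).symm
  rw [h1, Polynomial.aeval_algebraMap_apply]
  rw [Polynomial.coe_aeval_eq_eval]
  rfl

/-- the regular element -/
theorem exists_reg (hF : Fintype.card F = q ^ 2) {r : ℕ} [Fact r.Prime] (ho : Odd r) (hne : (r : F) ≠ 0) (e : ℕ) :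
    ∃ T : Module.End F (Fin (r + e) → F), PU r (HF hF (r + e)) T ∧ finrank F (E T 1) = e + 1 ∧
      ∀ f : F[X], f ∣ X ^ r - 1 → f.eval 1 ≠ 0 → finrank F (LinearMap.ker (aeval T f)) ≤ f.natDegree := by
  classical
  have hr : r.Prime := Fact.out
  let V := (ZMod r → F) × (Fin e → F)
  let h : V → V → F := fun x y => (∑ a, x.1 a * (y.1 a) ^ q) + Cfsg.hermForm e F q x.2 y.2
  have i2 := isHerm_std hF e
  have hfr : ∀ x : F, x ^ q = frob hF x := fun _ => rfl
  have hh : IsHerm (frob hF) 1 h :=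
    { add_left := fun x y z => by
        show (∑ a, (x.1 a + y.1 a) * (z.1 a) ^ q) + Cfsg.hermForm e F q (x.2 + y.2) z.2 = _
        simp only [i2.add_left, add_mul, Finset.sum_add_distrib]
        show _ = ((∑ a, x.1 a * (z.1 a) ^ q) + Cfsg.hermForm e F q x.2 z.2) + ((∑ a, y.1 a * (z.1 a) ^ q) + Cfsg.hermForm e F q y.2 z.2)
        ring
      smul_left := fun c x y => by
        show (∑ a, (c * x.1 a) * (y.1 a) ^ q) + Cfsg.hermForm e F q (c • x.2) y.2 = c * ((∑ a, x.1 a * (y.1 a) ^ q) + Cfsg.hermForm e F q x.2 y.2)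
        simp only [i2.smul_left, mul_assoc, ← Finset.mul_sum]
        ring
      symm := fun x y => by
        show (∑ a, y.1 a * (x.1 a) ^ q) + Cfsg.hermForm e F q y.2 x.2 = 1 * (frob hF) ((∑ a, x.1 a * (y.1 a) ^ q) + Cfsg.hermForm e F q x.2 y.2)
        rw [map_add, map_sum, one_mul]
        congr 1
        · refine Finset.sum_congr rfl fun a _ => ?_
          rw [map_mul, hfr, hfr, frob_frob, mul_comm]
        · rw [i2.symm, one_mul]
      nondeg := fun x hx => by
        apply Prod.ext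
        · funext a
          have h1 := hx (Pi.single a 1, 0)
          have h2 : h x (Pi.single a 1, 0) = (∑ b, x.1 b * ((Pi.single a 1 : ZMod r → F) b) ^ q) + Cfsg.hermForm e F q x.2 0 := rfl
          rw [h2, i2.zero_right, add_zero, Finset.sum_eq_single a] at h1
          · rwa [Pi.single_eq_same, one_pow, mul_one] at h1
          · intro b _ hb
            rw [Pi.single_eq_of_ne hb, zero_pow (card_pos hF).ne', mul_zero]
          · intro hj; exact absurd (Finset.mem_univ _) hj
        · apply i2.nondeg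
          intro y
          have h1 := hx (0, y)
          have h2 : h x (0, y) = (∑ b, x.1 b * ((0 : ZMod r → F) b) ^ q) + Cfsg.hermForm e F q x.2 y := rfl
          rw [h2, Finset.sum_eq_zero (fun b _ => by rw [Pi.zero_apply, zero_pow (card_pos hF).ne', mul_zero]), zero_add] at h1
          exact h1 }
  let T₁ : Module.End F V := LinearMap.prodMap (sh F r) 1
  have hT₁ : ∀ x y, h (T₁ x) (T₁ y) = h x y := by
    intro x y
    show (∑ a, sh F r x.1 a * (sh F r y.1 a) ^ q) + Cfsg.hermForm e F q x.2 y.2 = (∑ a, x.1 a * (y.1 a) ^ q) + Cfsg.hermForm e F q x.2 y.2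
    congr 1
    exact Equiv.sum_comp (Equiv.subRight (1 : ZMod r)) (fun a => x.1 a * (y.1 a) ^ q)
  have hfrV : finrank F V = r + e := by
    rw [finrank_prod, Module.finrank_fin_fun, Module.finrank_fintype_fun_eq_card, ZMod.card]
  obtain ⟨eq', T, he, hT, hTi, hpow⟩ := transport hF hh hfrV hT₁
  have hT₁r : T₁ ^ r = 1 := by
    have h1 : ∀ (l : ℕ) (x : V), (T₁ ^ l) x = (((sh F r) ^ l) x.1, x.2) := by
      intro l
      induction l with
      | zero => intro x; rfl
      | succ l ih => intro x; rw [pow_succ, Module.End.mul_apply, ih]; rfl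
    apply LinearMap.ext
    intro x
    rw [h1, sh_pow_r]; rfl
  refine ⟨T, pu_std hF hr ho hne hTi (hpow r hT₁r), ?_, ?_⟩
  · rw [finrank_E_transport eq' hT]
    let φ : (F × (Fin e → F)) →ₗ[F] V :=
      { toFun := fun z => (fun _ => z.1, z.2)
        map_add' := fun _ _ => rfl
        map_smul' := fun _ _ => rfl }
    have hφ : Function.Injective φ := by
      intro z z' hz
      have h1 : (fun _ => z.1 : ZMod r → F) = fun _ => z'.1 := congrArg (fun v : V => v.1) hz
      have h2 : z.2 = z'.2 := congrArg (fun v : V => v.2) hz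
      exact Prod.ext (congrFun h1 0) h2
    have h1 : E T₁ 1 = LinearMap.range φ := by
      ext x
      rw [Module.End.mem_eigenspace_iff, one_smul]
      constructor
      · intro hx
        have h2 : sh F r x.1 = x.1 := congrArg Prod.fst hx
        refine ⟨(x.1 0, x.2), Prod.ext (funext fun a => ?_) rfl⟩
        exact (const_of_fix h2 a).symm
      · rintro ⟨z, rfl⟩
        rfl
    rw [h1, LinearMap.finrank_range_of_inj hφ, finrank_prod, Module.finrank_fin_fun, finrank_self, add_comm]
  · intro f hfd hf1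
    have haev : ∀ x, aeval T f (eq' x) = eq' (aeval T₁ f x) := by
      intro x
      have hpw : ∀ (k : ℕ) x, (T ^ k) (eq' x) = eq' ((T₁ ^ k) x) := by
        intro k
        induction k with
        | zero => intro x; rfl
        | succ k ih => intro x; rw [pow_succ, pow_succ, Module.End.mul_apply, Module.End.mul_apply, hT, ih]
      induction f using Polynomial.induction_on' with
      | add p q hp hq =>
        have key : ∀ g : F[X], aeval T g (eq' x) = eq' (aeval T₁ g x) := by
          intro g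
          induction g using Polynomial.induction_on' with
          | add p q hp hq => rw [map_add, map_add, LinearMap.add_apply, LinearMap.add_apply, map_add, hp, hq]
          | monomial k c =>
            rw [← C_mul_X_pow_eq_monomial, map_mul, map_mul, aeval_C, aeval_C, map_pow, map_pow, aeval_X, aeval_X]
            change c • ((T ^ k) (eq' x)) = eq' (c • ((T₁ ^ k) x))
            rw [hpw, map_smul]
        exact key _
      | monomial k c =>
        rw [← C_mul_X_pow_eq_monomial, map_mul, map_mul, aeval_C, aeval_C, map_pow, map_pow, aeval_X, aeval_X]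
        change c • ((T ^ k) (eq' x)) = eq' (c • ((T₁ ^ k) x))
        rw [hpw, map_smul]
    have hle : LinearMap.ker (aeval T f) ≤ ((LinearMap.ker (aeval (sh F r) f)).map (LinearMap.inl F (ZMod r → F) (Fin e → F))).map (eq' : V →ₗ[F] _) := by
      intro z hz
      obtain ⟨x, rfl⟩ := eq'.surjective z
      rw [LinearMap.mem_ker, haev] at hz
      have hz' : aeval T₁ f x = 0 := eq'.injective (by rw [hz, map_zero])
      rw [aeval_prodMap, aeval_one_end] at hz'
      have h1 : aeval (sh F r) f x.1 = 0 := congrArg Prod.fst hz'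
      have h2 : f.eval 1 • x.2 = 0 := congrArg Prod.snd hz'
      have h3 : x.2 = 0 := (smul_eq_zero.1 h2).resolve_left hf1
      refine ⟨x, ⟨x.1, h1, ?_⟩, rfl⟩
      exact Prod.ext rfl h3.symm
    refine (Submodule.finrank_mono hle).trans ?_
    refine (Submodule.finrank_map_le _ _).trans ((Submodule.finrank_map_le _ _).trans ?_)
    exact finrank_ker_le hfd

/-- totally isotropic invariant subspaces of the regular element are fixed pointwise -/
theorem reg_ti (hF : Fintype.card F = q ^ 2) {r N : ℕ} {T : Module.End F (Fin N → F)} (h : PU r (HF hF N) T)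
    (h4 : orderOf ((q : ℕ) : ZMod r) % 4 = 2) (hk : ∀ f : F[X], f ∣ X ^ r - 1 → f.eval 1 ≠ 0 → finrank F (LinearMap.ker (aeval T f)) ≤ f.natDegree)
    {W : Submodule F (Fin N → F)} (hW : Inv T W) (hti : TI (HF hF N) W) : W ≤ E T 1 := by
  obtain ⟨W₂, hW₂W, hW₂, hW₂E, e', s', -, -, -, hbot⟩ := ti_dim h hW hti
  apply hbot
  by_contra hne
  have hX0 : (X ^ r - 1 : F[X]) ≠ 0 := X_pow_sub_C_ne_zero h.hr.pos 1
  have hTT : aeval T (X ^ r - 1 : F[X]) = 0 := by rw [map_sub, map_pow, aeval_X, map_one, h.pow, sub_self]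
  obtain ⟨f, hf, hfd, w, hw, hw0, hfw⟩ := exists_irred_factor hX0 hTT hW₂ hne
  have hf1 : f.eval 1 ≠ 0 := by
    intro h0
    have h1 : (X - C 1 : F[X]) ∣ f := dvd_iff_isRoot.2 h0
    have h2 : Associated (X - C 1 : F[X]) f := (irreducible_X_sub_C 1).associated_of_dvd hf h1
    obtain ⟨g, hg⟩ := h2.symm.dvd
    have h3 : aeval T (X - C 1 : F[X]) w = 0 := by
      rw [hg, mul_comm, map_mul, Module.End.mul_apply, hfw, map_zero]
    rw [map_sub, aeval_X, aeval_C, map_one, LinearMap.sub_apply, Module.End.one_apply, sub_eq_zero] at h3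
    have h5 : w ∈ W₂ ⊓ E T 1 := ⟨hw, Module.End.mem_eigenspace_iff.2 (by rw [h3, one_smul])⟩
    rw [hW₂E] at h5
    exact hw0 ((Submodule.mem_bot F).1 h5)
  have hnd := h.nd_ker h4 (W := ⊤) (fun _ _ => trivial) h.nd hfd
  rw [top_inf_eq] at hnd
  obtain ⟨U, hU, hUf, hwU, hmin⟩ := cyclic_aux hf hw0 hfw
  have hUK : U ≤ LinearMap.ker (aeval T f) := hmin _ (by
    intro y hy
    rw [LinearMap.mem_ker] at hy ⊢
    have : aeval T f (T y) = T (aeval T f y) := by
      have h1 : aeval T (f * X) = aeval T (X * f) := by rw [mul_comm]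
      rw [map_mul, map_mul, aeval_X] at h1
      exact congrArg (fun g : Module.End F (Fin N → F) => g y) h1
    rw [this, hy, map_zero]) hfw
  have hUW : U ≤ W₂ := hmin _ hW₂ hw
  have hUe : U = LinearMap.ker (aeval T f) := Submodule.eq_of_le_of_finrank_le hUK (by rw [hUf]; exact hk f hfd hf1)
  apply hw0
  apply hnd w hfw
  intro w' hw'
  rw [← hUe] at hw'
  exact hti w (hW₂W hw) w' (hW₂W (hUW hw'))

/-- restriction to a nondegenerate invariant subspace, as a standard space -/
theorem restrict_std (hF : Fintype.card F = q ^ 2) {r N n : ℕ} {T' : Module.End F (Fin N → F)} (h : PU r (HF hF N) T')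
    {Y : Submodule F (Fin N → F)} (hY : Inv T' Y) (hYnd : ND (HF hF N) Y) (hn : finrank F Y = n) :
    ∃ (T : Module.End F (Fin n → F)) (j : (Fin n → F) →ₗ[F] (Fin N → F)), Function.Injective j ∧ LinearMap.range j = Y ∧
      (∀ x y, HF hF N (j x) (j y) = HF hF n x y) ∧ (∀ x, j (T x) = T' (j x)) ∧ PU r (HF hF n) T := by
  obtain ⟨j, hj, hjr, hjB⟩ := exists_emb hF (fun u v => hf_herm hF u v) hYnd hn
  let e := LinearEquiv.ofInjective j hj
  have hmem : ∀ x, T' (j x) ∈ LinearMap.range j := fun x => by rw [hjr]; exact hY _ (hjr.le ⟨x, rfl⟩)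
  let T : Module.End F (Fin n → F) := (e.symm : LinearMap.range j →ₗ[F] _) ∘ₗ (LinearMap.codRestrict (LinearMap.range j) (T' ∘ₗ j) hmem)
  have hT : ∀ x, j (T x) = T' (j x) := by
    intro x
    have h1 : e (T x) = ⟨T' (j x), hmem x⟩ := by
      change e (e.symm _) = _
      rw [LinearEquiv.apply_symm_apply]; rfl
    exact congrArg Subtype.val h1
  refine ⟨T, j, hj, hjr, hjB, hT, pu_std hF h.hr h.odd h.ne (fun x y => ?_) ?_⟩
  · rw [← hjB, hT, hT, h.iso, hjB]
  · apply LinearMap.ext
    intro x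
    apply hj
    have h1 : ∀ (k : ℕ) x, j ((T ^ k) x) = (T' ^ k) (j x) := by
      intro k
      induction k with
      | zero => intro x; rfl
      | succ k ih => intro x; rw [pow_succ, pow_succ, Module.End.mul_apply, Module.End.mul_apply, ih, hT]
    rw [h1, h.pow]; rfl

/-- special elements, `i ≡ 2 (mod 4)` -/
theorem exists_special (hF : Fintype.card F = q ^ 2) {r : ℕ} (hr : r.Prime) (ho : Odd r) (hne : (r : F) ≠ 0)
    (h4 : orderOf ((q : ℕ) : ZMod r) % 4 = 2) {n t e : ℕ} (hn : n = t * bU (orderOf ((q : ℕ) : ZMod r)) + e)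
    (ht : t * bU (orderOf ((q : ℕ) : ZMod r)) ≤ r - 1) :
    ∃ T : Module.End F (Fin n → F), PU r (HF hF n) T ∧ finrank F (E T 1) = e ∧
      ∀ W : Submodule F (Fin n → F), Inv T W → TI (HF hF n) W → W ≤ E T 1 := by
  haveI : Fact r.Prime := ⟨hr⟩
  obtain ⟨ω, hω⟩ := UnSpec.exists_ne hF
  have hcb : cU (orderOf ((q : ℕ) : ZMod r)) = bU (orderOf ((q : ℕ) : ZMod r)) := by rw [cU_eq, if_pos h4]
  obtain ⟨T', hT', hE', hk⟩ := exists_reg hF ho hne e
  obtain ⟨g0, g1, g2, g3, g4, g5⟩ := hT'.split_E (W := ⊤) (fun _ _ => trivial) hT'.nd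
  rw [top_inf_eq] at g0 g1 g2 g3 g4 g5
  rw [top_inf_eq] at g2 g3 g4 g5
  rw [finrank_top, Module.finrank_fin_fun, hE'] at g5
  obtain ⟨A, hA, hAi, hAnd, hAf⟩ := hT'.exists_sub g2 g3 (e' := 0) (s' := t) (Nat.zero_le _) (by
    rw [g4, finrank_bot, hcb]; omega)
  rw [zero_add, hcb] at hAf
  obtain ⟨X, hX, hXi, hXnd, hXf⟩ := exists_sub_of_inv hω (hf_refl hF) (hf_nd hF) hT'.iso (C := E T' 1) (fun U hU => inv_of_le_E hU) g1 (e := e)
    (by rw [hE']; omega)
  have hAE : A ⊓ E T' 1 = ⊥ := by rw [eq_bot_iff, ← g4]; exact inf_le_inf_right _ hA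
  have hAX : A ⊓ X = ⊥ := by rw [eq_bot_iff, ← hAE]; exact inf_le_inf_left _ hX
  have hYf : finrank F ↥(A ⊔ X) = n := by
    have h1 := Submodule.finrank_sup_add_finrank_inf_eq A X
    rw [hAX, finrank_bot] at h1
    omega
  have hYnd : ND (HF hF (r + e)) (A ⊔ X) := nd_sup (hf_refl hF) hAnd hXnd (fun a ha x hx => hf_refl hF _ _ (hA ha x (hX hx)))
  obtain ⟨T, j, hj, hjr, hjB, hjT, hT⟩ := restrict_std hF hT' (inv_sup hAi hXi) hYnd hYf
  refine ⟨T, hT, ?_, ?_⟩
  · have h1 : (E T 1).map j = X := by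
      have h2 : (A ⊔ X) ⊓ E T' 1 = X := by
        rw [sup_comm, sup_inf_assoc_of_le _ hX, hAE, sup_bot_eq]
      rw [← h2, ← hjr]
      ext z
      constructor
      · rintro ⟨x, hx, rfl⟩
        refine ⟨⟨x, rfl⟩, Module.End.mem_eigenspace_iff.2 ?_⟩
        have := Module.End.mem_eigenspace_iff.1 hx
        rw [one_smul] at this ⊢
        rw [← hjT, this]
      · rintro ⟨⟨x, rfl⟩, hx⟩
        refine ⟨x, Module.End.mem_eigenspace_iff.2 ?_, rfl⟩
        have := Module.End.mem_eigenspace_iff.1 hx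
        rw [one_smul] at this ⊢
        exact hj (by rw [hjT, this])
    rw [← finrank_map_inj hj, h1, hXf]
  · intro W hW hti
    have h1 := reg_ti hF hT' h4 hk (W := W.map j) (by
      rintro _ ⟨x, hx, rfl⟩
      exact ⟨T x, hW x hx, hjT x⟩) ((ti_map hjB W).1 hti)
    intro x hx
    have h2 := Module.End.mem_eigenspace_iff.1 (h1 (Submodule.mem_map_of_mem hx))
    rw [one_smul] at h2
    exact Module.End.mem_eigenspace_iff.2 (by rw [one_smul]; exact hj (by rw [hjT, h2]))

end Cfsg.Agent.Lib.UnTI
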