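import Mathlib
import Cfsg.Agent.Lib.UnTI3

set_option autoImplicit false
set_option linter.unusedSectionVars false

/-! The criterion for totally isotropic subspaces, odd order not dividing `q + 1`. (helper99) -/

namespace Cfsg.Agent.Lib.UnTI

open Polynomial Module Cfsg.Agent.Lib.InvSub Cfsg.Agent.Lib.PrimeOrd Cfsg.Agent.Lib.Sesq Cfsg.Agent.Lib.UniPair Cfsg.Agent.Lib.UnND
open Cfsg.Agent.Lib.ClUnitary (frob frob_frob)
open Cfsg.Agent.Lib.HermAlg (IsHerm)
open Cfsg.Agent.Lib.ClIso (isoGrp)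

universe u

variable {F : Type u} [Field F] [Fintype F] {q : ℕ}

theorem bU_dvd (hF : Fintype.card F = q ^ 2) {r : ℕ} (hr : r.Prime) (hne : (r : F) ≠ 0) : bU (orderOf ((q : ℕ) : ZMod r)) ∣ r - 1 := by
  haveI : Fact r.Prime := ⟨hr⟩
  obtain ⟨hi0, hrq⟩ := ord_q_pos hF hr hne
  rw [← bU_eq rfl hi0]
  apply ZMod.orderOf_dvd_card_sub_one
  rw [Ne, ZMod.natCast_eq_zero_iff]
  intro h
  exact hrq (hr.dvd_of_dvd_pow h)

/-- sufficient condition, `i ≢ 2 (mod 4)` -/
theorem yes_a (hF : Fintype.card F = q ^ 2) {r n m b c : ℕ} {T : Module.End F (Fin n → F)} (h : PU r (HF hF n) T)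
    (h4 : orderOf ((q : ℕ) : ZMod r) % 4 ≠ 2) (hb : b = bU (orderOf ((q : ℕ) : ZMod r))) (hc : c = cU (orderOf ((q : ℕ) : ZMod r))) (hmn : 2 * m ≤ n)
    (h2 : 2 * (m % b) ≤ n % c) :
    ∃ W : Submodule F (Fin n → F), finrank F W = m ∧ TI (HF hF n) W ∧ Inv T W := by
  have hcb : c = 2 * b := by rw [hc, hb, cU_eq, if_neg h4]
  have hb0 : 0 < b := by rw [hb]; exact h.ss.pos
  obtain ⟨s, hs⟩ := h.exists_s (W := ⊤) (fun _ _ => trivial) (hf_nd hF)
  rw [finrank_top, Module.finrank_fin_fun, top_inf_eq, ← hc] at hs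
  have he : n % c ≤ finrank F (E T 1) := by
    have h5 : n % c = finrank F (E T 1) % c := by
      conv_lhs => rw [hs]
      exact Nat.add_mul_mod_self_right _ _ _
    rw [h5]; exact Nat.mod_le _ _
  have hsc : s * c = 2 * (s * b) := by rw [hcb]; ring
  obtain ⟨e', s', he', hs', hes⟩ : ∃ e' s', 2 * e' ≤ finrank F (E T 1) ∧ s' ≤ s ∧ e' + s' * b = m := by
    by_cases hle : m / b ≤ s
    · exact ⟨m % b, m / b, by omega, hle, by rw [mul_comm]; exact Nat.mod_add_div _ _⟩
    · push Not at hle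
      have h5 : s * b ≤ m := (Nat.mul_le_mul_right b hle.le).trans (Nat.div_mul_le_self m b)
      exact ⟨m - s * b, s, by omega, le_rfl, by omega⟩
  obtain ⟨W, hW, hti, hWf⟩ := exists_ti h (e' := e') (s' := s') he' (Or.inr (by
    rw [if_neg h4, ← hb, Module.finrank_fin_fun]
    have h6 : s' * b ≤ s * b := Nat.mul_le_mul_right b hs'
    have h7 : 2 * b * s' = 2 * (s' * b) := by ring
    omega))
  exact ⟨W, by rw [hWf, ← hb]; exact hes, hti, hW⟩

/-- sufficient condition, `i ≡ 2 (mod 4)` -/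
theorem yes_b (hF : Fintype.card F = q ^ 2) {r n m b : ℕ} {T : Module.End F (Fin n → F)} (h : PU r (HF hF n) T)
    (h4 : orderOf ((q : ℕ) : ZMod r) % 4 = 2) (hb : b = bU (orderOf ((q : ℕ) : ZMod r)))
    (h2 : 2 * (m % b) ≤ n % b) (h3 : (r - 1) / b + 2 * (m / b) ≤ n / b) :
    ∃ W : Submodule F (Fin n → F), finrank F W = m ∧ TI (HF hF n) W ∧ Inv T W := by
  have hcb : cU (orderOf ((q : ℕ) : ZMod r)) = b := by rw [hb, cU_eq, if_pos h4]
  have hb0 : 0 < b := by rw [hb]; exact h.ss.pos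
  obtain ⟨S, hS⟩ : b ∣ r - 1 := by rw [hb]; exact bU_dvd hF h.hr h.ne
  have hS' : (r - 1) / b = S := by rw [hS, Nat.mul_div_cancel_left _ hb0]
  rw [hS'] at h3
  obtain ⟨s, hs⟩ := h.exists_s (W := ⊤) (fun _ _ => trivial) (hf_nd hF)
  rw [finrank_top, Module.finrank_fin_fun, top_inf_eq, hcb] at hs
  set e := finrank F (E T 1) with he
  have hemod : n % b ≤ e := by
    have h5 : n % b = e % b := by
      conv_lhs => rw [hs]
      exact Nat.add_mul_mod_self_right _ _ _
    rw [h5]; exact Nat.mod_le _ _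
  have hmb := Nat.div_add_mod' m b
  have hnb := Nat.div_add_mod' n b
  have key : ∃ e' s', 2 * e' ≤ e ∧ (s' = 0 ∨ S + 2 * (s' - 1) < s) ∧ e' + s' * b = m := by
    by_cases hcase : m / b = 0 ∨ S + 2 * (m / b - 1) < s
    · exact ⟨m % b, m / b, by omega, hcase, by omega⟩
    · push Not at hcase
      obtain ⟨hc1, hc2⟩ := hcase
      -- the largest possible value
      have hmain : ∀ s' : ℕ, s' ≤ m / b → s ≤ S + 2 * s' → 2 * (m - s' * b) ≤ e := by
        intro s' h5 h6
        have h7 : (S + 2 * (m / b)) * b ≤ n / b * b := Nat.mul_le_mul_right b h3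
        have h8 : s * b ≤ (S + 2 * s') * b := Nat.mul_le_mul_right b h6
        have h9 : s' * b ≤ m / b * b := Nat.mul_le_mul_right b h5
        rw [add_mul] at h7 h8
        have h10 : 2 * (m / b) * b = 2 * (m / b * b) := by ring
        have h11 : 2 * s' * b = 2 * (s' * b) := by ring
        omega
      by_cases hsS : s ≤ S
      · exact ⟨m, 0, by have := hmain 0 (Nat.zero_le _) (by omega); omega, Or.inl rfl, by omega⟩
      · refine ⟨m - (s - S + 1) / 2 * b, (s - S + 1) / 2, hmain _ (by omega) (by omega), Or.inr (by omega), ?_⟩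
        have h9 : (s - S + 1) / 2 * b ≤ m / b * b := Nat.mul_le_mul_right b (by omega)
        omega
  obtain ⟨e', s', he', hs', hes⟩ := key
  obtain ⟨W, hW, hti, hWf⟩ := exists_ti h (e' := e') (s' := s') he' (by
    rcases hs' with h5 | h5
    · exact Or.inl h5
    · right
      rw [if_pos h4, ← hb, Module.finrank_fin_fun, hS, ← he]
      have h6 : (S + 2 * (s' - 1) + 1) * b ≤ s * b := Nat.mul_le_mul_right b h5
      have h7 : (S + 2 * (s' - 1) + 1) * b = b * S + 2 * b * (s' - 1) + b := by ring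
      omega)
  exact ⟨W, by rw [hWf, ← hb]; exact hes, hti, hW⟩

/-- the criterion, `i ≢ 2 (mod 4)` -/
theorem iff_a (hF : Fintype.card F = q ^ 2) {r : ℕ} (hr : r.Prime) (ho : Odd r) (hne : (r : F) ≠ 0) {n m b c : ℕ}
    (h4 : orderOf ((q : ℕ) : ZMod r) % 4 ≠ 2) (hb : b = bU (orderOf ((q : ℕ) : ZMod r))) (hc : c = cU (orderOf ((q : ℕ) : ZMod r))) (hmn : 2 * m ≤ n)
    (hΩ : r ∣ Nat.card {W : Submodule F (Fin n → F) // finrank F W = m ∧ TI (HF hF n) W}) :
    (∀ T : Module.End F (Fin n → F), PU r (HF hF n) T → T ≠ 1 → ∃ W : Submodule F (Fin n → F), finrank F W = m ∧ TI (HF hF n) W ∧ Inv T W) ↔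
    (b ≤ m ∧ 2 * (m % b) ≤ n % c) := by
  have hnot := fun h1 h2 => not_dvd_ti hF hr ho hne (n := n) (m := m) h1 h2 hΩ
  rw [← hb, ← hc] at hnot
  have hcb : c = 2 * b := by rw [hc, hb, cU_eq, if_neg h4]
  have hb0 : 0 < b := by rw [hb]; exact bU_pos (ord_q_pos hF hr hne).1
  constructor
  · intro H
    have hcn : c ≤ n := by
      by_contra hcn
      have h1 : n % c = n := Nat.mod_eq_of_lt (by omega)
      exact hnot (by omega) (by omega)
    obtain ⟨T, hT, hE⟩ := exists_pu hF hr ho hne (n := n) (s := n / c) (k := n % c) (by rw [← hc, mul_comm]; exact (Nat.div_add_mod _ _).symm)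
    have hlt := Nat.mod_lt n (show 0 < c by omega)
    obtain ⟨W, hWm, hti, hW⟩ := H T hT (PU.ne_one_of (by rw [hE]; omega))
    obtain ⟨W₂, -, -, -, e', s', he, -, hWe, -⟩ := ti_dim hT hW hti
    rw [hWm, ← hb] at hWe
    rw [hE] at he
    have h2 : m % b = e' := by
      rw [hWe, Nat.add_mul_mod_self_right, Nat.mod_eq_of_lt (by omega)]
    refine ⟨?_, by rw [h2]; exact he⟩
    by_contra hcm
    have h3 : m % b = m := Nat.mod_eq_of_lt (by omega)
    exact hnot (by omega) (by omega)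
  · rintro ⟨-, h2⟩ T hT _
    exact yes_a hF hT h4 hb hc hmn h2

/-- the criterion, `i ≡ 2 (mod 4)` -/
theorem iff_b (hF : Fintype.card F = q ^ 2) {r : ℕ} (hr : r.Prime) (ho : Odd r) (hne : (r : F) ≠ 0) {n m b : ℕ}
    (h4 : orderOf ((q : ℕ) : ZMod r) % 4 = 2) (hb : b = bU (orderOf ((q : ℕ) : ZMod r))) (hmn : 2 * m ≤ n)
    (hΩ : r ∣ Nat.card {W : Submodule F (Fin n → F) // finrank F W = m ∧ TI (HF hF n) W}) :
    (∀ T : Module.End F (Fin n → F), PU r (HF hF n) T → T ≠ 1 → ∃ W : Submodule F (Fin n → F), finrank F W = m ∧ TI (HF hF n) W ∧ Inv T W) ↔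
    (b ≤ m ∧ 2 * (m % b) ≤ n % b ∧ (r - 1) / b + 2 * (m / b) ≤ n / b) := by
  have hnot := fun h1 h2 => not_dvd_ti hF hr ho hne (n := n) (m := m) h1 h2 hΩ
  have hcb : cU (orderOf ((q : ℕ) : ZMod r)) = b := by rw [hb, cU_eq, if_pos h4]
  rw [hcb, ← hb] at hnot
  have hb0 : 0 < b := by rw [hb]; exact bU_pos (ord_q_pos hF hr hne).1
  obtain ⟨S, hS⟩ : b ∣ r - 1 := by rw [hb]; exact bU_dvd hF hr hne
  have hS' : (r - 1) / b = S := by rw [hS, Nat.mul_div_cancel_left _ hb0]
  rw [hS']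
  constructor
  · intro H
    have hcn : b ≤ n := by
      by_contra hcn
      have h1 : n % b = n := Nat.mod_eq_of_lt (by omega)
      exact hnot (by omega) (by omega)
    have hmb := Nat.div_add_mod' m b
    have hnb := Nat.div_add_mod' n b
    have hnlt := Nat.mod_lt n hb0
    have hn1 : 1 ≤ n / b := Nat.div_pos hcn hb0
    have hr2 := hr.two_le
    have hS1 : 1 ≤ S := by
      rcases Nat.eq_zero_or_pos S with h | h
      · rw [h, mul_zero] at hS; omega
      · exact h
    -- special elements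
    have key : ∀ t : ℕ, 1 ≤ t → t ≤ S → t ≤ n / b → 2 * m + t * b ≤ n := by
      intro t ht1 htS htn
      have h5 : t * b ≤ n / b * b := Nat.mul_le_mul_right b htn
      have h5' : 1 * b ≤ t * b := Nat.mul_le_mul_right b ht1
      obtain ⟨T, hT, hE, hle⟩ := exists_special hF hr ho hne h4 (n := n) (t := t) (e := n - t * b) (by rw [← hb]; omega)
        (by rw [← hb, hS, mul_comm]; exact Nat.mul_le_mul_left b htS)
      obtain ⟨W, hWm, hti, hW⟩ := H T hT (PU.ne_one_of (by rw [hE]; omega))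
      have hnd := nd_inf_E hT.iso hT.ne hT.pow (W := ⊤) (fun _ _ => trivial) hT.nd
      rw [top_inf_eq] at hnd
      have := ti_le (hf_refl hF) (hf_nd hF) hnd (hle W hW hti) hti
      rw [hWm, hE] at this
      omega
    have h3 : S + 2 * (m / b) ≤ n / b := by
      by_cases hSn : S ≤ n / b
      · have h5 := key S hS1 le_rfl hSn
        rw [Nat.le_div_iff_mul_le hb0, add_mul]
        have : 2 * (m / b) * b = 2 * (m / b * b) := by ring
        omega
      · exfalso
        have h5 := key (n / b) hn1 (by omega) le_rfl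
        exact hnot (by omega) (by omega)
    obtain ⟨T, hT, hE⟩ := exists_pu hF hr ho hne (n := n) (s := n / b) (k := n % b) (by rw [hcb, mul_comm]; exact (Nat.div_add_mod _ _).symm)
    obtain ⟨W, hWm, hti, hW⟩ := H T hT (PU.ne_one_of (by rw [hE]; omega))
    obtain ⟨W₂, -, -, -, e', s', he, -, hWe, -⟩ := ti_dim hT hW hti
    rw [hWm, ← hb] at hWe
    rw [hE] at he
    have h2 : m % b = e' := by
      rw [hWe, Nat.add_mul_mod_self_right, Nat.mod_eq_of_lt (by omega)]
    refine ⟨?_, by rw [h2]; exact he, h3⟩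
    by_contra hcm
    have h3 : m % b = m := Nat.mod_eq_of_lt (by omega)
    exact hnot (by omega) (by omega)
  · rintro ⟨-, h2, h3⟩ T hT _
    exact yes_b hF hT h4 hb h2 (by rw [hS']; exact h3)

end Cfsg.Agent.Lib.UnTI
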