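import Cfsg.Agent.Lib.UniPair2
import Cfsg.Agent.Lib.XR7

/-! # Test elements of the special unitary group -/

set_option autoImplicit false

namespace Cfsg.Agent.Lib.UniPair

open Cfsg.Agent.Lib.InvSub Cfsg.Agent.Lib.PrimeOrd Cfsg.Agent.Lib.Sesq Module Matrix
open Cfsg.Agent.Lib.ClUnitary (frob)
open Cfsg.Agent.Lib.UnitStar (st)
open Cfsg.Agent.Lib.NormTool (mem_SL_iff)
open scoped MatrixGroups

section concrete

variable {F : Type*} [Field F] [Fintype F] {q n m : ℕ}

/-- diagonal unitary elements -/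
theorem exists_diag_GU (hF : Fintype.card F = q ^ 2) (d : Fin n → F) (hd : ∀ i, d i ^ (q + 1) = 1) (hdet : ∏ i, d i = 1) :
    ∃ x ∈ Cfsg.GU n F q ⊓ Cfsg.Geo.specialLinear (Fin n) F, x.1 = Matrix.diagonal d := by
  have h1 : (Matrix.diagonal d).det ≠ 0 := by rw [Matrix.det_diagonal, hdet]; exact one_ne_zero
  let x : GL (Fin n) F := Matrix.GeneralLinearGroup.mkOfDetNeZero (Matrix.diagonal d) h1
  have hx : x.1 = Matrix.diagonal d := rfl
  refine ⟨x, ⟨(UniTool.mem_GU hF x).2 ?_, mem_SL_iff.2 (by rw [hx, Matrix.det_diagonal, hdet])⟩, hx⟩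
  have e1 : st (frob hF) x.1 = Matrix.diagonal (fun i => d i ^ q) := by
    rw [hx, st, Matrix.diagonal_map (map_zero _), Matrix.diagonal_transpose]; rfl
  rw [e1, hx, Matrix.diagonal_mul_diagonal, ← Matrix.diagonal_one]
  congr 1
  funext i
  rw [← pow_succ, hd]

theorem exists_diagU [DecidableEq F] (hF : Fintype.card F = q ^ 2) (hn : 2 ≤ n) (t u v : F) (h : u * v * t ^ (n - 2) = 1)
    (ht : t ^ (q + 1) = 1) (hu : u ^ (q + 1) = 1) (hv : v ^ (q + 1) = 1) :
    ∃ x ∈ Cfsg.GU n F q ⊓ Cfsg.Geo.specialLinear (Fin n) F,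
      (∀ (r : ℕ) (c : F), u ^ r = c → v ^ r = c → t ^ r = c → (x ^ r).1 = c • (1 : Matrix (Fin n) (Fin n) F)) ∧
      ∀ y, finrank F (E (Matrix.toLin' x.1) y) = (if u = y then 1 else 0) + (if v = y then 1 else 0) + (if t = y then n - 2 else 0) := by
  let i0 : Fin n := ⟨0, by omega⟩
  let i1 : Fin n := ⟨1, by omega⟩
  have h01 : i0 ≠ i1 := by simp [i0, i1]
  let d : Fin n → F := Function.update (Function.update (fun _ => t) i0 u) i1 v
  have hprod : ∏ i, d i = 1 := by
    have h1 : i1 ∈ (Finset.univ : Finset (Fin n)).erase i0 := by simp [h01.symm]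
    rw [← Finset.mul_prod_erase _ _ (Finset.mem_univ i0), ← Finset.mul_prod_erase _ _ h1]
    have h3 : ∏ i ∈ ((Finset.univ : Finset (Fin n)).erase i0).erase i1, d i = t ^ (n - 2) := by
      have : ∀ i ∈ ((Finset.univ : Finset (Fin n)).erase i0).erase i1, d i = t := by
        intro i hi
        simp only [Finset.mem_erase, Finset.mem_univ, and_true] at hi
        simp only [d]
        rw [Function.update_of_ne hi.1, Function.update_of_ne hi.2]
      rw [Finset.prod_congr rfl this, Finset.prod_const, Finset.card_erase_of_mem h1, Finset.card_erase_of_mem (Finset.mem_univ _),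
        Finset.card_univ, Fintype.card_fin]
      congr 1
    rw [h3]
    have e0 : d i0 = u := by simp only [d]; rw [Function.update_of_ne h01, Function.update_self]
    have e1 : d i1 = v := by simp only [d]; rw [Function.update_self]
    rw [e0, e1, ← mul_assoc, h]
  have hcases : ∀ P : F → Prop, P t → P u → P v → ∀ i, P (d i) := by
    intro P pt pu pv i
    simp only [d]
    by_cases hi1 : i = i1
    · rw [hi1, Function.update_self]; exact pv
    · rw [Function.update_of_ne hi1]
      by_cases hi0 : i = i0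
      · rw [hi0, Function.update_self]; exact pu
      · rw [Function.update_of_ne hi0]; exact pt
  obtain ⟨x, hx, hxd⟩ := exists_diag_GU hF d (hcases (fun a => a ^ (q + 1) = 1) ht hu hv) hprod
  refine ⟨x, hx, ?_, ?_⟩
  · intro r c h1 h2 h3
    rw [Units.val_pow_eq_pow_val, hxd, Matrix.diagonal_pow]
    have h6 : d ^ r = fun _ => c := funext (hcases (fun a => a ^ r = c) h3 h1 h2)
    rw [h6, Matrix.smul_one_eq_diagonal]
  · intro y
    rw [hxd, ElusiveTool.finrank_E_diag]
    exact ElusiveTool.upd2_card h01 t u v y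

/-- elements which fix no polar pair -/
theorem no_conj (hF : Fintype.card F = q ^ 2) (hnm : n = m + m) (hm : 0 < m) {D : Fin 2 → Submodule F (Fin n → F)} (hD : Cfsg.Geo.IsMDecomposition m D)
    (hDs : ∀ i, Cfsg.Geo.IsTotallySingularFor (Cfsg.hermForm n F q) (D i)) {x : GL (Fin n) F} (hx : x ∈ Cfsg.GU n F q ⊓ Cfsg.Geo.specialLinear (Fin n) F)
    {r : ℕ} {z : F} (hxr : (x ^ r).1 = z • (1 : Matrix (Fin n) (Fin n) F)) {l : F} (hl : l ^ (q + 1) = 1)
    (hev : ¬ Even (finrank F (Module.End.eigenspace (Matrix.toLin' x.1) l)))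
    (hc : Odd r ∨ m < finrank F (Module.End.eigenspace (Matrix.toLin' x.1) l)) :
    ¬ ∃ g ∈ Cfsg.GU n F q ⊓ Cfsg.Geo.specialLinear (Fin n) F, g⁻¹ * x * g ∈ Cfsg.Geo.decompositionStabilizer D := by
  rintro ⟨g, hg, π, hπ⟩
  have hy : g⁻¹ * x * g ∈ Cfsg.GU n F q := (mul_mem (mul_mem (inv_mem hg) hx) hg).1
  have hfin := XR.finrank_conj' x g l
  set y := g⁻¹ * x * g with hydef
  rw [← hfin] at hev hc
  have hyr : (y ^ r).1 = z • (1 : Matrix (Fin n) (Fin n) F) := by
    have e1 : y ^ r = g⁻¹ * x ^ r * g := by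
      have := conj_pow (i := r) (a := g⁻¹) (b := x)
      rw [inv_inv] at this
      exact this
    rw [e1, Units.val_mul, Units.val_mul, hxr, Matrix.mul_smul, Matrix.smul_mul, Matrix.mul_one, ← Units.val_mul, inv_mul_cancel]
    rfl
  have hT := hf_iso hF hy
  have hl0 : l ≠ 0 := by rintro rfl; rw [zero_pow (by omega)] at hl; exact zero_ne_one hl
  have hcc : IsCompl (D 0) (D 1) := by
    constructor
    · exact hD.indep.pairwiseDisjoint (show (0 : Fin 2) ≠ 1 by decide)
    · rw [codisjoint_iff, eq_top_iff, ← hD.iSup_eq_top]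
      refine iSup_le (fun i => ?_)
      fin_cases i
      · exact le_sup_left
      · exact le_sup_right
  have t : ∀ i, TI (HF hF n) (D i) := fun i u hu v hv => hDs i u hu v hv
  by_cases h0 : π 0 = 0
  · have h1 : π 1 = 1 := by
      have : π 1 ≠ π 0 := fun h => absurd (π.injective h) (by decide)
      rw [h0] at this
      revert this
      generalize π 1 = a
      fin_cases a <;> simp
    have i0 := hπ 0
    have i1 := hπ 1
    rw [h0] at i0
    rw [h1] at i1
    exact hev (even_eig (hf_refl hF) (hf_nd hF) hT (fun v hv => i0.le ⟨v, hv, rfl⟩) (fun v hv => i1.le ⟨v, hv, rfl⟩) hcc (t 0) (t 1)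
      (by rw [hD.finrank_eq, hD.finrank_eq]) (by rw [Cfsg.Agent.Lib.ClUnitary.frob_apply, ← pow_succ', hl]))
  · have h0' : π 0 = 1 := by
      revert h0
      generalize π 0 = a
      fin_cases a <;> simp
    have h1 : π 1 = 0 := by
      have : π 1 ≠ π 0 := fun h => absurd (π.injective h) (by decide)
      rw [h0'] at this
      revert this
      generalize π 1 = a
      fin_cases a <;> simp
    have i0 := hπ 0
    have i1 := hπ 1
    rw [h0'] at i0
    rw [h1] at i1
    rcases hc with hro | hlt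
    · set T := Matrix.toLin' y.1 with hTdef
      have h3 : ∀ k, (D 0).map (T ^ (2 * k)) = D 0 := by
        intro k
        induction k with
        | zero => exact Submodule.map_id (D 0)
        | succ k ih =>
          rw [Nat.mul_succ, pow_add, Module.End.mul_eq_comp, Submodule.map_comp, pow_two, Module.End.mul_eq_comp, Submodule.map_comp, i0, i1, ih]
      obtain ⟨k, hk⟩ := hro
      have h4 : (D 0).map (T ^ r) = D 1 := by
        rw [hk, pow_succ', Module.End.mul_eq_comp, Submodule.map_comp, h3, i0]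
      have h5 : T ^ r = z • (1 : Module.End F (Fin n → F)) := by
        have e1 := map_pow (Matrix.toLinAlgEquiv' (R := F) (n := Fin n)) y.1 r
        have e2 : T ^ r = Matrix.toLin' (y.1 ^ r) := e1.symm
        rw [e2, ← Units.val_pow_eq_pow_val, hyr, map_smul, Matrix.toLin'_one]
        rfl
      have h6 : D 1 ≤ D 0 := by
        rw [← h4, h5]
        rintro _ ⟨v, hv, rfl⟩
        exact (D 0).smul_mem z hv
      have h7 : D 1 = ⊥ := by
        rw [eq_bot_iff, ← hcc.inf_eq_bot]
        exact le_inf h6 le_rfl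
      have h8 := hD.finrank_eq 1
      rw [h7, finrank_bot] at h8
      omega
    · have h3 := swap_eig i0 hcc hl0
      rw [hD.finrank_eq, Module.finrank_fin_fun] at h3
      have h4 : finrank F (E (Matrix.toLin' y.1) l) = finrank F (Module.End.eigenspace (Matrix.toLin' y.1) l) := rfl
      omega

/-- block embeddings -/
noncomputable def embM (F : Type*) [Field F] {b c : ℕ} (h : b + c = n) : Matrix (Fin b) (Fin b) F →* Matrix (Fin n) (Fin n) F where
  toFun M := (fromBlocks M 0 0 (1 : Matrix (Fin c) (Fin c) F)).submatrix (finSumFinEquiv.trans (finCongr h)).symm (finSumFinEquiv.trans (finCongr h)).symm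
  map_one' := by rw [fromBlocks_one, submatrix_one_equiv]
  map_mul' A B := by
    rw [submatrix_mul_equiv, fromBlocks_multiply]
    simp

theorem embM_inj {b c : ℕ} (h : b + c = n) : Function.Injective (embM F h) := by
  intro A B hAB
  have h1 : (fromBlocks A 0 0 (1 : Matrix (Fin c) (Fin c) F)).submatrix (finSumFinEquiv.trans (finCongr h)).symm (finSumFinEquiv.trans (finCongr h)).symm =
    (fromBlocks B 0 0 (1 : Matrix (Fin c) (Fin c) F)).submatrix (finSumFinEquiv.trans (finCongr h)).symm (finSumFinEquiv.trans (finCongr h)).symm := hAB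
  have h2 : fromBlocks A 0 0 (1 : Matrix (Fin c) (Fin c) F) = fromBlocks B 0 0 (1 : Matrix (Fin c) (Fin c) F) := by
    ext i j
    have := congrFun (congrFun h1 ((finSumFinEquiv.trans (finCongr h)) i)) ((finSumFinEquiv.trans (finCongr h)) j)
    simpa using this
  exact (fromBlocks_inj.1 h2).1

theorem embM_det {b c : ℕ} (h : b + c = n) (A : Matrix (Fin b) (Fin b) F) : (embM F h A).det = A.det := by
  show ((fromBlocks A 0 0 (1 : Matrix (Fin c) (Fin c) F)).submatrix (finSumFinEquiv.trans (finCongr h)).symm (finSumFinEquiv.trans (finCongr h)).symm).det = _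
  rw [Matrix.det_submatrix_equiv_self, Matrix.det_fromBlocks_zero₂₁, Matrix.det_one, mul_one]

theorem embM_st (hF : Fintype.card F = q ^ 2) {b c : ℕ} (h : b + c = n) (A : Matrix (Fin b) (Fin b) F) :
    st (frob hF) (embM F h A) = embM F h (st (frob hF) A) := by
  show (((fromBlocks A 0 0 (1 : Matrix (Fin c) (Fin c) F)).submatrix (finSumFinEquiv.trans (finCongr h)).symm (finSumFinEquiv.trans (finCongr h)).symm).map (frob hF)).transpose =
    (fromBlocks (st (frob hF) A) 0 0 (1 : Matrix (Fin c) (Fin c) F)).submatrix (finSumFinEquiv.trans (finCongr h)).symm (finSumFinEquiv.trans (finCongr h)).symm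
  have e1 : (0 : Matrix (Fin b) (Fin c) F).map (frob hF) = 0 := by ext i j; exact map_zero (frob hF)
  have e2 : (0 : Matrix (Fin c) (Fin b) F).map (frob hF) = 0 := by ext i j; exact map_zero (frob hF)
  have e3 : (1 : Matrix (Fin c) (Fin c) F).map (frob hF) = 1 := Matrix.map_one _ (map_zero _) (map_one _)
  rw [← submatrix_map, transpose_submatrix, fromBlocks_map, fromBlocks_transpose, e1, e2, e3, Matrix.transpose_zero, Matrix.transpose_zero, Matrix.transpose_one]
  rfl

theorem embM_fix {b c : ℕ} (h : b + c = n) (A : Matrix (Fin b) (Fin b) F) : c ≤ finrank F (E (Matrix.toLin' (embM F h A)) 1) := by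
  set e := finSumFinEquiv.trans (finCongr h) with he
  let L : (Fin c → F) →ₗ[F] E (Matrix.toLin' (embM F h A)) 1 :=
    { toFun := fun w => ⟨(Sum.elim 0 w) ∘ e.symm, by
        rw [Module.End.mem_eigenspace_iff, one_smul, Matrix.toLin'_apply]
        show ((fromBlocks A 0 0 (1 : Matrix (Fin c) (Fin c) F)).submatrix e.symm e.symm) *ᵥ ((Sum.elim (0 : Fin b → F) w) ∘ e.symm) = _
        rw [submatrix_mulVec_equiv]
        have : (Sum.elim (0 : Fin b → F) w ∘ ⇑e.symm) ∘ ⇑e.symm.symm = Sum.elim (0 : Fin b → F) w := by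
          funext i; simp
        rw [this, fromBlocks_mulVec]
        simp⟩
      map_add' := by
        intro w w'
        apply Subtype.ext
        funext i
        show Sum.elim (0 : Fin b → F) (w + w') (e.symm i) = Sum.elim (0 : Fin b → F) w (e.symm i) + Sum.elim (0 : Fin b → F) w' (e.symm i)
        rcases e.symm i with j | j <;> simp
      map_smul' := by
        intro a w
        apply Subtype.ext
        funext i
        show Sum.elim (0 : Fin b → F) (a • w) (e.symm i) = a * Sum.elim (0 : Fin b → F) w (e.symm i)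
        rcases e.symm i with j | j <;> simp }
  have hL : Function.Injective L := by
    intro w w' hww
    have h1 : (Sum.elim (0 : Fin b → F) w) ∘ e.symm = (Sum.elim (0 : Fin b → F) w') ∘ e.symm := congrArg Subtype.val hww
    funext j
    have := congrFun h1 (e (Sum.inr j))
    simpa using this
  have h2 := LinearMap.finrank_le_finrank_of_injective hL
  rwa [Module.finrank_fin_fun] at h2

/-- elements of order `r` with eigenspace of odd dimension, `r` not dividing `q+1` -/
theorem exists_ord (hF : Fintype.card F = q ^ 2) {p : ℕ} [hp : Fact p.Prime] [CharP F p] {r : ℕ} [hr : Fact r.Prime] (hrp : r ≠ p) (hro : Odd r)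
    (hrq : ¬ r ∣ q + 1) {k : ℕ} (hk : k < m) (hd : r ∣ q ^ (2 * k + 1) + 1) (hnm : n = m + m) :
    ∃ x ∈ Cfsg.GU n F q ⊓ Cfsg.Geo.specialLinear (Fin n) F, x ^ r = 1 ∧ ¬ Even (finrank F (E (Matrix.toLin' x.1) 1)) := by
  have hq := InvolUnitMat.one_lt_q hF
  set a := orderOf ((Fintype.card F : ℕ) : ZMod r) with ha
  have hapos : 0 < a := order_pos (p := p) hrp
  have hsq : ∀ j, Fintype.card F ^ j - 1 = (q ^ j + 1) * (q ^ j - 1) := by
    intro j
    rw [hF, ← Nat.sq_sub_sq, one_pow, ← pow_mul, ← pow_mul, mul_comm]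
  have haj : a ∣ 2 * k + 1 := SubspaceCount.orderOf_dvd_of_dvd Fintype.card_pos (by rw [hsq]; exact Dvd.dvd.mul_right hd _)
  have haodd : Odd a := Odd.of_dvd_nat ⟨k, rfl⟩ haj
  have hale : a ≤ 2 * k + 1 := Nat.le_of_dvd (by omega) haj
  have hda : r ∣ q ^ a + 1 := by
    have h1 := SubspaceCount.dvd_of_orderOf_dvd (r := r) (k := a) (Fintype.card_pos (α := F)) (dvd_refl _)
    rw [hsq] at h1
    rcases (Nat.Prime.dvd_mul hr.out).mp h1 with h2 | h2
    · exact h2
    · exfalso
      obtain ⟨t, ht⟩ := haj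
      have h3 : r ∣ q ^ (2 * k + 1) - 1 := by
        rw [ht, pow_mul]
        have := Nat.sub_dvd_pow_sub_pow (q ^ a) 1 t
        rw [one_pow] at this
        exact h2.trans this
      have h4 : 1 ≤ q ^ (2 * k + 1) := Nat.one_le_pow _ _ (by omega)
      have h5 : r ∣ 2 := by
        have : 2 = (q ^ (2 * k + 1) + 1) - (q ^ (2 * k + 1) - 1) := by omega
        rw [this]
        exact Nat.dvd_sub hd h3
      have h6 := (Nat.prime_dvd_prime_iff_eq hr.out Nat.prime_two).mp h5
      rw [h6] at hro
      exact absurd hro (by decide)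
  have hcard : r ∣ Nat.card (Cfsg.GU a F q) := by
    rw [ClUnitary.card_GU hF]
    apply Dvd.dvd.mul_left
    have h1 : a - 1 ∈ Finset.range a := Finset.mem_range.2 (by omega)
    refine Dvd.dvd.trans ?_ (Finset.dvd_prod_of_mem _ h1)
    obtain ⟨t, ht⟩ := haodd
    rw [if_pos (⟨t, by omega⟩), Nat.sub_add_cancel hapos]
    exact hda
  obtain ⟨⟨y, hy⟩, hyo⟩ := exists_prime_orderOf_dvd_card' r hcard
  have hyr : y ^ r = 1 := by
    have := pow_orderOf_eq_one (⟨y, hy⟩ : Cfsg.GU a F q)
    rw [hyo] at this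
    exact congrArg Subtype.val this
  have hy1 : y ≠ 1 := by
    rintro rfl
    have : (⟨1, hy⟩ : Cfsg.GU a F q) = 1 := rfl
    rw [this, orderOf_one] at hyo
    exact hr.out.one_lt.ne hyo
  have hdet : y.1.det = 1 := by
    have h1 : y.1.det ^ r = 1 := by
      rw [← Matrix.det_pow, ← Units.val_pow_eq_pow_val, hyr, Units.val_one, Matrix.det_one]
    have h2 := UniTool.det_norm hF hy
    have h3 : Nat.gcd r (q + 1) = 1 := (Nat.Prime.coprime_iff_not_dvd hr.out).2 hrq
    have h4 := pow_gcd_eq_one.2 ⟨h1, h2⟩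
    rwa [h3, pow_one] at h4
  have han : a + (n - a) = n := by omega
  let x : GL (Fin n) F := Units.map (embM F han) y
  have hxv : x.1 = embM F han y.1 := rfl
  have hxr : x ^ r = 1 := by
    show (Units.map (embM F han) y) ^ r = 1
    rw [← map_pow, hyr, map_one]
  refine ⟨x, ⟨(UniTool.mem_GU hF x).2 ?_, mem_SL_iff.2 ?_⟩, hxr, ?_⟩
  · rw [hxv, embM_st hF, ← map_mul, (UniTool.mem_GU hF y).1 hy, map_one]
  · rw [hxv, embM_det, hdet]
  · have hTr : (Matrix.toLin' x.1) ^ r = ((1 : F) ^ r) • (1 : Module.End F (Fin n → F)) := by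
      have e1 := map_pow (Matrix.toLinAlgEquiv' (R := F) (n := Fin n)) x.1 r
      have e2 : (Matrix.toLin' x.1) ^ r = Matrix.toLin' (x.1 ^ r) := e1.symm
      rw [e2, ← Units.val_pow_eq_pow_val, hxr, Units.val_one, Matrix.toLin'_one, one_pow, one_smul]
      rfl
    have hss := ssB (p := p) hrp (one_ne_zero (α := F)) hTr
    obtain ⟨k', hk'⟩ := hss.exists_k (W := ⊤) (fun _ _ => trivial)
    rw [top_inf_eq, finrank_top, Module.finrank_fin_fun, ← ha] at hk'
    have hfix : n - a ≤ finrank F (E (Matrix.toLin' x.1) 1) := embM_fix han y.1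
    have hk0 : k' ≠ 0 := by
      rintro rfl
      rw [zero_mul, add_zero] at hk'
      have h1 : E (Matrix.toLin' x.1) 1 = ⊤ := Submodule.eq_top_of_finrank_eq (by rw [← hk', Module.finrank_fin_fun])
      apply hy1
      apply Units.ext
      apply embM_inj (F := F) han
      rw [← hxv, Units.val_one, map_one]
      apply Matrix.toLin'.injective
      rw [Matrix.toLin'_one]
      apply LinearMap.ext
      intro v
      have h2 : v ∈ E (Matrix.toLin' x.1) 1 := by rw [h1]; trivial
      have h3 := Module.End.mem_eigenspace_iff.1 h2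
      rw [h3, one_smul]; rfl
    have hk1 : k' = 1 := by
      have : k' * a ≤ a := by omega
      have h2 : k' * a ≤ 1 * a := by omega
      have := Nat.le_of_mul_le_mul_right h2 hapos
      omega
    rw [hk1, one_mul] at hk'
    rintro ⟨s, hs⟩
    obtain ⟨t, ht⟩ := haodd
    omega

/-- norm-one roots of minus one -/
theorem exists_root_neg (hF : Fintype.card F = q ^ 2) (hn : 0 < n) (h : padicValNat 2 n < padicValNat 2 (q + 1)) : ∃ y : F, y ^ (q + 1) = 1 ∧ y ^ n = -1 := by
  classical
  have : Fact (Nat.Prime 2) := ⟨Nat.prime_two⟩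
  set a := padicValNat 2 n with ha
  have hdvd : 2 ^ (a + 1) ∣ q + 1 := by
    rw [padicValNat_dvd_iff_le (by omega)]; omega
  obtain ⟨g, hg⟩ := IsCyclic.exists_generator (α := Fˣ)
  have hord : orderOf g = Fintype.card F - 1 := by
    rw [orderOf_eq_card_of_forall_mem_zpowers hg, Nat.card_eq_fintype_card, Fintype.card_units]
  have hpos : orderOf g ≠ 0 := by
    rw [hord]; have := Fintype.one_lt_card (α := F); omega
  have hdvd' : 2 ^ (a + 1) ∣ Fintype.card F - 1 := by
    rw [hF, ClUnitary.sq_sub_one]; exact Dvd.dvd.mul_right hdvd _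
  have hu : orderOf (g ^ (orderOf g / 2 ^ (a + 1))) = 2 ^ (a + 1) :=
    orderOf_pow_orderOf_div hpos (by rw [hord]; exact hdvd')
  set u := g ^ (orderOf g / 2 ^ (a + 1)) with hudef
  have h1 : (u ^ 2 ^ a) ^ 2 = 1 := by
    rw [← pow_mul, ← pow_succ, ← hu]; exact pow_orderOf_eq_one u
  have h3 : u ^ 2 ^ a ≠ 1 := by
    intro h3
    have h4 := orderOf_dvd_of_pow_eq_one h3
    rw [hu, pow_succ] at h4
    have h5 := Nat.le_of_dvd (by positivity) h4
    have h6 : 0 < 2 ^ a := by positivity
    omega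
  have h4 : ((u : F) ^ 2 ^ a) = -1 := by
    have h5 : ((u : F) ^ 2 ^ a) ^ 2 = 1 := by
      have := congrArg Units.val h1
      simpa using this
    rw [pow_two] at h5
    rcases mul_self_eq_one_iff.mp h5 with h6 | h6
    · exfalso; apply h3; ext; simpa using h6
    · exact h6
  obtain ⟨m, hm⟩ : 2 ^ a ∣ n := pow_padicValNat_dvd
  have hmodd : Odd m := by
    rw [← Nat.not_even_iff_odd]
    rintro ⟨k, hk⟩
    have h7 : 2 ^ (a + 1) ∣ n := ⟨k, by rw [hm, hk, pow_succ]; ring⟩
    rw [padicValNat_dvd_iff_le hn.ne'] at h7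
    omega
  refine ⟨u, ?_, ?_⟩
  · have h5 : u ^ (q + 1) = 1 := by
      obtain ⟨k, hk⟩ := hdvd
      rw [hk, pow_mul, ← hu, pow_orderOf_eq_one, one_pow]
    have := congrArg Units.val h5
    simpa using this
  · rw [hm, pow_mul, h4, hmodd.neg_one_pow]

theorem val_lt_of_root (h2 : (2 : F) ≠ 0) (hn : 0 < n) {y : F} (hy : y ^ (q + 1) = 1) (hyn : y ^ n = -1) : padicValNat 2 n < padicValNat 2 (q + 1) := by
  have : Fact (Nat.Prime 2) := ⟨Nat.prime_two⟩
  set a := padicValNat 2 n with ha
  obtain ⟨m, hm⟩ : 2 ^ a ∣ n := pow_padicValNat_dvd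
  have hw : (y ^ m) ^ 2 ^ a = -1 := by rw [← pow_mul, mul_comm, ← hm, hyn]
  have h1 : (-1 : F) ≠ 1 := by
    intro h
    apply h2
    linear_combination (-1 : F) * h
  have ho : orderOf (y ^ m) = 2 ^ (a + 1) := by
    apply orderOf_eq_prime_pow
    · rw [hw]; exact h1
    · rw [pow_succ, pow_mul, hw]; ring
  have h3 : 2 ^ (a + 1) ∣ q + 1 := by
    rw [← ho]
    apply orderOf_dvd_of_pow_eq_one
    rw [← pow_mul, mul_comm, pow_mul, hy, one_pow]
  rw [padicValNat_dvd_iff_le (by omega)] at h3
  omega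

end concrete

end Cfsg.Agent.Lib.UniPair
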