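import Mathlib
import Cfsg.Agent.Lib.UnTI4
import Cfsg.Agent.Lib.UniPair4
import Cfsg.Agent.Lib.UnForm4

set_option autoImplicit false
set_option linter.unusedSectionVars false

/-! Totally isotropic subspaces: odd primes dividing `q + 1`. (helper99) -/

namespace Cfsg.Agent.Lib.UnTI

open Polynomial Module Cfsg.Agent.Lib.InvSub Cfsg.Agent.Lib.PrimeOrd Cfsg.Agent.Lib.Sesq Cfsg.Agent.Lib.UniPair Cfsg.Agent.Lib.UnND
open Cfsg.Agent.Lib.ClUnitary (frob frob_frob)
open Cfsg.Agent.Lib.HermAlg (IsHerm)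

universe u

variable {F : Type u} [Field F] [Fintype F] {q : ℕ}

/-- diagonal operators -/
noncomputable def dg {n : ℕ} (d : Fin n → F) : Module.End F (Fin n → F) := Matrix.toLin' (Matrix.diagonal d)

theorem dg_apply {n : ℕ} (d x : Fin n → F) (i : Fin n) : dg d x i = d i * x i := by
  rw [dg, Matrix.toLin'_apply, Matrix.mulVec_diagonal]

theorem dg_det {n : ℕ} (d : Fin n → F) : LinearMap.det (dg d) = ∏ i, d i := by
  rw [dg, LinearMap.det_toLin', Matrix.det_diagonal]

theorem dg_iso (hF : Fintype.card F = q ^ 2) {n : ℕ} {d : Fin n → F} (hd : ∀ i, d i ^ (q + 1) = 1) : Iso (HF hF n) (dg d) := by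
  intro u v
  exact ClUnitary.isUn_diagonal hd u v

theorem dg_pow {n : ℕ} (d : Fin n → F) (k : ℕ) : (dg d) ^ k = dg (fun i => d i ^ k) := by
  apply LinearMap.ext
  intro x
  funext i
  rw [dg_apply]
  induction k generalizing x with
  | zero => simp
  | succ k ih => rw [pow_succ, Module.End.mul_apply, ih, dg_apply]; ring

theorem dg_one {n : ℕ} : dg (fun _ : Fin n => (1 : F)) = 1 := by
  apply LinearMap.ext
  intro x
  funext i
  rw [dg_apply, one_mul]; rfl

/-- type C: totally isotropic subspaces -/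
theorem typeC_ti (hF : Fintype.card F = q ^ 2) {r n : ℕ} (hr : r.Prime) (ho : Odd r) {T : Module.End F (Fin n → F)} (hT : Iso (HF hF n) T)
    {z : F} (hz : ∀ b : F, b ^ r ≠ z) (hTz : T ^ r = z • (1 : Module.End F (Fin n → F))) {m : ℕ} (hm : 2 * m ≤ n) (hrm : r ∣ m) :
    ∃ W : Submodule F (Fin n → F), finrank F W = m ∧ TI (HF hF n) W ∧ Inv T W := by
  obtain ⟨s, hs⟩ := hrm
  obtain ⟨hss, hE0⟩ := ssC hr hz hTz
  obtain ⟨k, hk⟩ := ho
  have hr2 := hr.two_le
  obtain ⟨X, -, hX, hXti, hXf⟩ := ti_mult (hf_refl hF) (hf_nd hF) hT hss.compl (i := r) (b := r + 1) (fun _ => True) (fun _ _ _ _ => trivial) (by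
    intro W hW hWnd _ hdim
    obtain ⟨u, hu, hu0, hQ⟩ := exists_zero (B := HF hF n) (k := k + 1) (fun j => T ^ (j : ℕ)) W (by omega)
    have hQ' : ∀ j, j ≤ k → HF hF n ((T ^ j) u) u = 0 := fun j hj => hQ ⟨j, by omega⟩
    have hlt : ∀ j, j < r → HF hF n ((T ^ j) u) u = 0 := by
      intro j hj
      by_cases hjk : j ≤ k
      · exact hQ' j hjk
      · have h1 := (hT.pow (r - j)) ((T ^ j) u) u
        rw [← Module.End.mul_apply, ← pow_add, show r - j + j = r by omega, hTz] at h1
        change HF hF n (z • u) _ = _ at h1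
        rw [LinearMap.map_smul, LinearMap.smul_apply, hf_refl hF _ _ (hQ' (r - j) (by omega)), smul_zero] at h1
        exact h1.symm
    have hall : ∀ j, HF hF n ((T ^ j) u) u = 0 := by
      intro j
      have h1 : (T ^ j) u = z ^ (j / r) • (T ^ (j % r)) u := by
        conv_lhs => rw [← Nat.div_add_mod j r, pow_add, pow_mul, hTz, smul_pow_end, one_pow]
        rfl
      rw [h1, LinearMap.map_smul, LinearMap.smul_apply, hlt _ (Nat.mod_lt _ hr.pos), smul_zero]
    obtain ⟨U, hUW, hUT, hUti, huU⟩ := cyc_ti (fun u v => hf_herm hF u v) hT hall hW hu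
    obtain ⟨X, hX, hXi, hXf⟩ := hss.ex U hUT (by
      intro hbot
      rw [hbot, Submodule.mem_bot] at huU
      exact hu0 huU) (by rw [hE0]; exact disjoint_bot_left)
    exact ⟨X, hX.trans hUW, hXi, fun x hx y hy => hUti x (hX hx) y (hX hy), hXf⟩) s ⊤ (fun _ _ => trivial) (hf_nd hF) trivial (by
      rcases Nat.eq_zero_or_pos s with h | h
      · exact Or.inl h
      · right
        rw [finrank_top, Module.finrank_fin_fun]
        have h2 : 2 * r * (s - 1) + 2 * r = 2 * m := by
          rw [hs]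
          obtain ⟨t, rfl⟩ := Nat.exists_eq_add_of_lt h
          simp only [zero_add, Nat.add_sub_cancel]; ring
        omega)
  exact ⟨X, by rw [hXf, hs, mul_comm], hXti, hX⟩

/-- exponents of the special diagonal element -/
def ex (r i : ℕ) : ℕ := if i % 2 = 0 then i / 2 + 1 else r - (i / 2 + 1)

theorem exists_dg (hF : Fintype.card F = q ^ 2) {r : ℕ} (hr : r.Prime) (ho : Odd r) (hne : (r : F) ≠ 0) (hrq : r ∣ q + 1) {n : ℕ} (hn : 2 ≤ n) :
    ∃ T : Module.End F (Fin n → F), PU r (HF hF n) T ∧ LinearMap.det T = 1 ∧ (∀ z : F, T ≠ z • (1 : Module.End F (Fin n → F))) ∧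
      finrank F (E T 1) ≤ n - 2 * (min n (r - 1) / 2) ∧ ∀ W : Submodule F (Fin n → F), Inv T W → TI (HF hF n) W → W ≤ E T 1 := by
  classical
  haveI : Fact r.Prime := ⟨hr⟩
  obtain ⟨ζ, hζ⟩ := UnForm.exists_prim (F := F) (r := r) (by rw [hF, ClUnitary.sq_sub_one]; exact hrq.mul_right _)
  obtain ⟨K, hK⟩ : ∃ K, K = min n (r - 1) / 2 := ⟨_, rfl⟩
  rw [← hK]
  obtain ⟨k0, hk0⟩ := ho
  have hr2 := hr.two_le
  have hKr : 2 * K ≤ r - 1 := by omega
  have hKn : 2 * K ≤ n := by omega
  have hK1 : 1 ≤ K := by omega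
  have hζr : ζ ^ r = 1 := hζ.pow_eq_one
  have hζq : ζ ^ (q + 1) = 1 := by obtain ⟨t, ht⟩ := hrq; rw [ht, pow_mul, hζr, one_pow]
  let g : ℕ → F := fun i => if i < 2 * K then ζ ^ ex r i else 1
  have hex : ∀ i, i < 2 * K → 1 ≤ ex r i ∧ ex r i < r := by
    intro i hi
    unfold ex
    split_ifs <;> omega
  have hexinj : ∀ i j, i < 2 * K → j < 2 * K → ex r i = ex r j → i = j := by
    intro i j hi hj h
    unfold ex at h
    split_ifs at h <;> omega
  have hprod : ∀ k, k ≤ K → ∏ i ∈ Finset.range (2 * k), g i = 1 := by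
    intro k
    induction k with
    | zero => intro _; simp
    | succ k ih =>
      intro hk
      rw [show 2 * (k + 1) = 2 * k + 1 + 1 by ring, Finset.prod_range_succ, Finset.prod_range_succ, ih (by omega), one_mul]
      have h1 : g (2 * k) = ζ ^ (k + 1) := by
        simp only [g, ex]
        rw [if_pos (by omega), if_pos (by omega)]
        congr 1
        omega
      have h2 : g (2 * k + 1) = ζ ^ (r - (k + 1)) := by
        simp only [g, ex]
        rw [if_pos (by omega), if_neg (by omega)]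
        congr 1
        omega
      rw [h1, h2, ← pow_add, show k + 1 + (r - (k + 1)) = r by omega, hζr]
  let d : Fin n → F := fun i => g i
  have hdr : ∀ i, d i ^ r = 1 := by
    intro i
    simp only [d, g]
    split_ifs
    · rw [← pow_mul, mul_comm, pow_mul, hζr, one_pow]
    · exact one_pow _
  have hdq : ∀ i, d i ^ (q + 1) = 1 := by
    intro i
    obtain ⟨t, ht⟩ := hrq
    rw [ht, pow_mul, hdr, one_pow]
  have hdprod : ∏ i, d i = 1 := by
    rw [Fin.prod_univ_eq_prod_range g n, ← Finset.prod_subset (Finset.range_subset_range.2 hKn), hprod K le_rfl]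
    intro i _ hi
    rw [Finset.mem_range] at hi
    simp only [g]
    rw [if_neg hi]
  have hpu : PU r (HF hF n) (dg d) := pu_std hF hr ⟨k0, hk0⟩ hne (dg_iso hF hdq) (by
    rw [dg_pow]
    have : (fun i => d i ^ r) = fun _ : Fin n => (1 : F) := funext hdr
    rw [this, dg_one])
  have hd1 : ∀ i : Fin n, (i : ℕ) < 2 * K → d i ≠ 1 := by
    intro i hi h
    simp only [d, g] at h
    rw [if_pos hi] at h
    have h1 := (hζ.pow_eq_one_iff_dvd _).1 h
    have h2 := hex i hi
    have := Nat.le_of_dvd (by omega) h1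
    omega
  have hdinj : ∀ i j : Fin n, (i : ℕ) < 2 * K → (j : ℕ) < 2 * K → d i = d j → i = j := by
    intro i j hi hj h
    simp only [d, g] at h
    rw [if_pos hi, if_pos hj] at h
    exact Fin.ext (hexinj i j hi hj (hζ.pow_inj (hex i hi).2 (hex j hj).2 h))
  refine ⟨dg d, hpu, by rw [dg_det, hdprod], ?_, ?_, ?_⟩
  · intro z hz
    have h1 : ∀ i : Fin n, d i = z := by
      intro i
      have := congrFun (congrArg (fun f : Module.End F (Fin n → F) => f (Pi.single i 1)) hz) i
      rw [dg_apply, Pi.single_eq_same, mul_one] at this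
      rw [this]
      change z • (Pi.single i (1 : F) : Fin n → F) i = z
      rw [Pi.single_eq_same, smul_eq_mul, mul_one]
    have h2 := hdinj ⟨0, by omega⟩ ⟨1, by omega⟩ (show 0 < 2 * K by omega) (show 1 < 2 * K by omega) (by rw [h1, h1])
    simpa using congrArg Fin.val h2
  · let ρ : (Fin n → F) →ₗ[F] (Fin (2 * K) → F) := LinearMap.funLeft F F (Fin.castLE hKn)
    have hρ : Function.Surjective ρ := LinearMap.funLeft_surjective_of_injective F F _ (Fin.castLE_injective hKn)
    have h1 : E (dg d) 1 ≤ LinearMap.ker ρ := by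
      intro x hx
      have h2 := Module.End.mem_eigenspace_iff.1 hx
      rw [one_smul] at h2
      rw [LinearMap.mem_ker]
      funext i
      change x (Fin.castLE hKn i) = 0
      have h3 := congrFun h2 (Fin.castLE hKn i)
      rw [dg_apply] at h3
      have h4 : (d (Fin.castLE hKn i) - 1) * x (Fin.castLE hKn i) = 0 := by rw [sub_mul, h3, one_mul, sub_self]
      exact (mul_eq_zero.1 h4).resolve_left (sub_ne_zero.2 (hd1 _ (by simp)))
    have h2 := LinearMap.finrank_range_add_finrank_ker ρ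
    rw [LinearMap.range_eq_top.2 hρ, finrank_top, Module.finrank_fin_fun, Module.finrank_fin_fun] at h2
    have h3 := Submodule.finrank_mono h1
    omega
  · intro W hW hti
    obtain ⟨W₂, hW₂W, hW₂, hW₂E, e', s', -, -, -, hbot⟩ := ti_dim hpu hW hti
    apply hbot
    by_contra hne'
    obtain ⟨U, hUW, hU, hUf⟩ := hpu.ss.ex W₂ hW₂ hne' (by rw [disjoint_iff, inf_comm]; exact hW₂E)
    have hord : orderOf ((q : ℕ) : ZMod r) = 2 := (ord_eq_two_iff hr ⟨k0, hk0⟩).2 hrq
    rw [hord] at hUf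
    have hUf' : finrank F U = 1 := hUf
    obtain ⟨w, hw0, hwspan⟩ := finrank_eq_one_iff'.1 hUf'
    obtain ⟨μ, hμ⟩ := hwspan ⟨dg d w, hU _ w.2⟩
    have hμ' : dg d (w : Fin n → F) = μ • (w : Fin n → F) := (congrArg Subtype.val hμ).symm
    have hw0' : (w : Fin n → F) ≠ 0 := fun h => hw0 (Subtype.ext h)
    obtain ⟨i0, hi0⟩ : ∃ i, (w : Fin n → F) i ≠ 0 := by
      by_contra hcon
      push Not at hcon
      exact hw0' (funext hcon)
    have hdi : ∀ i, (w : Fin n → F) i ≠ 0 → d i = μ := by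
      intro i hi
      have h1 := congrFun hμ' i
      rw [dg_apply, Pi.smul_apply, smul_eq_mul] at h1
      exact mul_right_cancel₀ hi h1
    have hμ1 : μ ≠ 1 := by
      intro h
      rw [h, one_smul] at hμ'
      have h1 : (w : Fin n → F) ∈ W₂ ⊓ E (dg d) 1 := ⟨hUW w.2, Module.End.mem_eigenspace_iff.2 (by rw [hμ', one_smul])⟩
      rw [hW₂E] at h1
      exact hw0' ((Submodule.mem_bot F).1 h1)
    have hlt : ∀ i : Fin n, (w : Fin n → F) i ≠ 0 → (i : ℕ) < 2 * K := by
      intro i hi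
      by_contra hcon
      apply hμ1
      rw [← hdi i hi]
      simp only [d, g]
      rw [if_neg hcon]
    have hww : HF hF n (w : Fin n → F) w = 0 := hti _ (hW₂W (hUW w.2)) _ (hW₂W (hUW w.2))
    rw [hf_eq, Finset.sum_eq_single i0] at hww
    · rcases mul_eq_zero.1 hww with h | h
      · exact hi0 h
      · exact hi0 ((map_eq_zero (frob hF)).1 h)
    · intro i _ hi
      by_cases h0 : (w : Fin n → F) i = 0
      · rw [h0, zero_mul]
      · exact absurd (hdinj i i0 (hlt i h0) (hlt i0 hi0) (by rw [hdi i h0, hdi i0 hi0])) hi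
    · intro h; exact absurd (Finset.mem_univ _) h

/-- the case of odd `r` dividing `q + 1` -/
theorem two_iff_ti (hF : Fintype.card F = q ^ 2) {r : ℕ} (hr : r.Prime) (ho : Odd r) (hne : (r : F) ≠ 0) (hrq : r ∣ q + 1) {n m : ℕ} (hn : 2 ≤ n)
    (hm : 1 ≤ m) (hmn : 2 * m ≤ n) :
    (∀ T : Module.End F (Fin n → F), Iso (HF hF n) T → LinearMap.det T = 1 → (∃ z : F, T ^ r = z • (1 : Module.End F (Fin n → F))) →
      (∀ z : F, T ≠ z • (1 : Module.End F (Fin n → F))) → ∃ W : Submodule F (Fin n → F), finrank F W = m ∧ TI (HF hF n) W ∧ Inv T W) ↔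
    ((r - 1) + 2 * m ≤ n ∧ (r ∣ m ∨ padicValNat r n ≤ padicValNat r (q + 1))) := by
  haveI : Fact r.Prime := ⟨hr⟩
  have hn0 : 0 < n := by omega
  constructor
  · intro H
    constructor
    · obtain ⟨T, hT, hd, hns, hE, hle⟩ := exists_dg hF hr ho hne hrq hn
      obtain ⟨W, hWm, hti, hW⟩ := H T hT.iso hd ⟨1, by rw [hT.pow, one_smul]⟩ hns
      have hnd := nd_inf_E hT.iso hT.ne hT.pow (W := ⊤) (fun _ _ => trivial) hT.nd
      rw [top_inf_eq] at hnd
      have := ti_le (hf_refl hF) (hf_nd hF) hnd (hle W hW hti) hti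
      obtain ⟨k, hk⟩ := ho
      omega
    · by_contra hcon
      push Not at hcon
      obtain ⟨h1, h2⟩ := hcon
      obtain ⟨T, z, hT, hd, hTz, hz⟩ := exists_typeC_su hF hr ho hrq hn0 h2
      obtain ⟨W, hWm, -, hW⟩ := H T hT hd ⟨z, hTz⟩ (typeC_ns hn0 hz hTz)
      exact h1 (hWm ▸ typeC_dvd hr hz hTz hW)
  · rintro ⟨hbd, hcond⟩ T hT hd ⟨z, hz⟩ hns
    by_cases hy : ∃ y : F, y ^ r = z
    · obtain ⟨y, hyz⟩ := hy
      have hyq : y ^ (q + 1) = 1 := root_norm hF hr ho hrq (by rw [hyz]; exact z_norm hF hn0 hT hz)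
      have hy0 : y ≠ 0 := by
        rintro rfl
        rw [zero_pow (by omega)] at hyq
        exact zero_ne_one hyq
      have hyi : (y⁻¹) ^ (q + 1) = 1 := by rw [_root_.inv_pow, hyq, inv_one]
      have hord : orderOf ((q : ℕ) : ZMod r) = 2 := (ord_eq_two_iff hr ho).2 hrq
      have hb : (1 : ℕ) = bU (orderOf ((q : ℕ) : ZMod r)) := by rw [hord]; rfl
      obtain ⟨W, hW1, hW2, hW3⟩ := yes_b hF (m := m) (b := 1) (pu_std hF hr ho hne (smul_iso hF hT hyi) (by
        rw [smul_pow_end, hz, _root_.inv_pow, hyz, smul_smul, inv_mul_cancel₀ (by rw [← hyz]; exact pow_ne_zero _ hy0), one_smul]))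
        (by rw [hord]) hb (by rw [Nat.mod_one, Nat.mod_one]) (by rw [Nat.div_one, Nat.div_one, Nat.div_one]; exact hbd)
      exact ⟨W, hW1, hW2, (inv_smul (inv_ne_zero hy0)).1 hW3⟩
    · push Not at hy
      rcases hcond with h1 | h1
      · exact typeC_ti hF hr ho hT hy hz hmn h1
      · exfalso
        obtain ⟨k, hk, hdet⟩ := detC hr hy n T hz (by simp)
        rw [hd] at hdet
        have hk0 : 0 < k := by
          rcases Nat.eq_zero_or_pos k with h | h
          · rw [h, mul_zero] at hk; omega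
          · exact h
        refine ElusiveLin.not_typeC hr hy hk hk0 hdet.symm ⟨?_, ?_⟩
        · rw [val_card hF hr ho hrq]; exact h1
        · rintro rfl; exact absurd ho (by decide)

end Cfsg.Agent.Lib.UnTI
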