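import Mathlib
import Cfsg.Agent.Lib.UnTI5

set_option autoImplicit false
set_option linter.unusedSectionVars false

/-! Totally isotropic subspaces: elements whose square is a scalar. (helper99) -/

namespace Cfsg.Agent.Lib.UnTI

open Polynomial Module Cfsg.Agent.Lib.InvSub Cfsg.Agent.Lib.PrimeOrd Cfsg.Agent.Lib.Sesq Cfsg.Agent.Lib.UniPair Cfsg.Agent.Lib.UnND
open Cfsg.Agent.Lib.ClUnitary (frob frob_frob)
open Cfsg.Agent.Lib.HermAlg (IsHerm)

universe u

variable {F : Type u} [Field F] [Fintype F] {q : ℕ}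

/-- eigenspaces of an isometric involution -/
theorem pm_nd (hF : Fintype.card F = q ^ 2) (h2 : (2 : F) ≠ 0) {n : ℕ} {T : Module.End F (Fin n → F)} (hT : Iso (HF hF n) T) (hTT : T ^ 2 = 1) :
    ND (HF hF n) (E T 1) ∧ ND (HF hF n) (E T (-1)) ∧ (∀ u ∈ E T 1, ∀ v ∈ E T (-1), HF hF n u v = 0) ∧
      finrank F (E T 1) + finrank F (E T (-1)) = n := by
  have hTT' : ∀ x, T (T x) = x := fun x => by rw [← Module.End.mul_apply, ← pow_two, hTT]; rfl
  have h2' : ((2 : ℕ) : F) ≠ 0 := by push_cast; exact h2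
  obtain ⟨h1, h3, h4⟩ := inv_split h2 hTT' (W := ⊤) (fun _ _ => trivial)
  rw [top_inf_eq, top_inf_eq, finrank_top, Module.finrank_fin_fun] at h4
  have n1 : ND (HF hF n) (E T 1) := by
    have := nd_inf_E hT h2' hTT (W := ⊤) (fun _ _ => trivial) (hf_nd hF)
    rwa [top_inf_eq] at this
  have hneg : Iso (HF hF n) (-T) := fun x y => by
    rw [LinearMap.neg_apply, LinearMap.neg_apply, map_neg, map_neg, LinearMap.neg_apply, neg_neg]; exact hT x y
  have n2 : ND (HF hF n) (E T (-1)) := by
    have := nd_inf_E hneg h2' (show (-T) ^ 2 = 1 from LinearMap.ext fun x => by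
      rw [pow_two]
      change -(T (-(T x))) = x
      rw [map_neg, neg_neg, hTT']) (W := ⊤) (fun _ _ => trivial) (hf_nd hF)
    rw [top_inf_eq] at this
    have e : E (-T) 1 = E T (-1) := by
      ext x
      rw [Module.End.mem_eigenspace_iff, Module.End.mem_eigenspace_iff, one_smul, neg_one_smul, LinearMap.neg_apply, neg_eq_iff_eq_neg]
    rwa [e] at this
  refine ⟨n1, n2, ?_, h4⟩
  intro u hu v hv
  have := hT u v
  rw [Module.End.mem_eigenspace_iff.1 hu, Module.End.mem_eigenspace_iff.1 hv, neg_one_smul, one_smul, map_neg] at this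
  have h5 : 2 * HF hF n u v = 0 := by linear_combination -this
  exact (mul_eq_zero.1 h5).resolve_left h2

theorem det_inv {V : Type*} [AddCommGroup V] [Module F V] [FiniteDimensional F V] (h2 : (2 : F) ≠ 0) {T : Module.End F V} (hTT : ∀ x, T (T x) = x) :
    LinearMap.det T = (-1) ^ finrank F (E T (-1)) := by
  obtain ⟨s1, s2, s3⟩ := inv_split h2 hTT (W := ⊤) (fun _ _ => trivial)
  rw [top_inf_eq, top_inf_eq] at s1 s2
  have hc : IsCompl (E T 1) (E T (-1)) := ⟨s2, codisjoint_iff.2 s1⟩
  let e := Submodule.prodEquivOfIsCompl _ _ hc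
  have key : T = (e : _ →ₗ[F] _) ∘ₗ (LinearMap.prodMap (1 : Module.End F (E T 1)) ((-1 : F) • (1 : Module.End F (E T (-1))))) ∘ₗ (e.symm : _ →ₗ[F] _) := by
    apply LinearMap.ext
    intro x
    obtain ⟨⟨a, b⟩, rfl⟩ := e.surjective x
    rw [LinearMap.comp_apply, LinearMap.comp_apply, LinearEquiv.coe_coe, LinearEquiv.coe_coe, LinearEquiv.symm_apply_apply]
    change T ((a : V) + b) = (a : V) + ((-1 : F) • (b : V))
    rw [map_add, Module.End.mem_eigenspace_iff.1 a.2, Module.End.mem_eigenspace_iff.1 b.2, one_smul]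
  rw [key, LinearMap.det_conj, LinearMap.det_prodMap, LinearMap.det_smul, map_one, map_one, mul_one, one_mul]
  rw [← key]

theorem norm_of_smul (hF : Fintype.card F = q ^ 2) {n : ℕ} (hn : 0 < n) {T : Module.End F (Fin n → F)} (hT : Iso (HF hF n) T) {c : F}
    (hc : Iso (HF hF n) (c • T)) : c ^ (q + 1) = 1 := by
  obtain ⟨ω, hω⟩ := UnSpec.exists_ne hF
  haveI : Nonempty (Fin n) := ⟨⟨0, hn⟩⟩
  obtain ⟨v, -, hv⟩ := exists_line hω (hf_nd hF (n := n)) (by exact top_ne_bot)
  have h1 := hc v v
  change HF hF n (c • T v) (c • T v) = _ at h1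
  rw [LinearMap.map_smul, LinearMap.map_smulₛₗ, LinearMap.smul_apply, smul_eq_mul, smul_eq_mul, ← mul_assoc, hT] at h1
  have h2 : (frob hF c * c - 1) * HF hF n v v = 0 := by rw [sub_mul, one_mul, h1, sub_self]
  have h3 := sub_eq_zero.1 ((mul_eq_zero.1 h2).resolve_right hv)
  rw [pow_succ]; exact h3

/-- isometric involutions -/
theorem plus_ti (hF : Fintype.card F = q ^ 2) (h2 : (2 : F) ≠ 0) {n m : ℕ} {T : Module.End F (Fin n → F)} (hT : Iso (HF hF n) T) (hTT : T ^ 2 = 1)
    (hm : m ≤ finrank F (E T 1) / 2 + finrank F (E T (-1)) / 2) :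
    ∃ W : Submodule F (Fin n → F), finrank F W = m ∧ TI (HF hF n) W ∧ Inv T W := by
  obtain ⟨n1, n2, horth, -⟩ := pm_nd hF h2 hT hTT
  have hTT' : ∀ x, T (T x) = x := fun x => by rw [← Module.End.mul_apply, ← pow_two, hTT]; rfl
  obtain ⟨-, h3, -⟩ := inv_split h2 hTT' (W := ⊤) (fun _ _ => trivial)
  rw [top_inf_eq, top_inf_eq] at h3
  have i1 : ∀ U ≤ E T 1, Inv T U := fun U hU x hx => by
    rw [Module.End.mem_eigenspace_iff.1 (hU hx), one_smul]; exact hx
  have i2 : ∀ U ≤ E T (-1), Inv T U := fun U hU x hx => by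
    rw [Module.End.mem_eigenspace_iff.1 (hU hx)]; exact U.smul_mem _ hx
  have id1 : ∀ U : Submodule F (Fin n → F), Inv (1 : Module.End F (Fin n → F)) U := fun U x hx => hx
  have hco : ∀ W : Submodule F (Fin n → F), Inv (1 : Module.End F (Fin n → F)) W → ∃ W', Inv (1 : Module.End F (Fin n → F)) W' ∧ IsCompl W W' := by
    intro W _
    obtain ⟨W', hW'⟩ := W.exists_isCompl
    exact ⟨W', id1 _, hW'⟩
  obtain ⟨U, hU, -, hUti, hUf⟩ := ti_fixed (fun u v => hf_herm hF u v) (hf_nd hF) (fun _ _ => rfl) hco (fun U _ => id1 U) (le_refl (E T 1)) n1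
    (e := min m (finrank F (E T 1) / 2)) (by omega)
  obtain ⟨X, hX, -, hXti, hXf⟩ := ti_fixed (fun u v => hf_herm hF u v) (hf_nd hF) (fun _ _ => rfl) hco (fun U _ => id1 U) (le_refl (E T (-1))) n2
    (e := m - min m (finrank F (E T 1) / 2)) (by omega)
  refine ⟨U ⊔ X, ?_, ti_sup (hf_refl hF) hUti hXti (fun u hu x hx => horth u (hU hu) x (hX hx)), inv_sup (i1 U hU) (i2 X hX)⟩
  have hf1 := Submodule.finrank_sup_add_finrank_inf_eq U X
  rw [disjoint_iff.1 (h3.mono hU hX), finrank_bot] at hf1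
  omega

/-- upper bound -/
theorem plus_bound (hF : Fintype.card F = q ^ 2) (h2 : (2 : F) ≠ 0) {n : ℕ} {T : Module.End F (Fin n → F)} (hT : Iso (HF hF n) T) (hTT : T ^ 2 = 1)
    {W : Submodule F (Fin n → F)} (hW : Inv T W) (hti : TI (HF hF n) W) : finrank F W ≤ finrank F (E T 1) / 2 + finrank F (E T (-1)) / 2 := by
  obtain ⟨n1, n2, -, -⟩ := pm_nd hF h2 hT hTT
  have hTT' : ∀ x, T (T x) = x := fun x => by rw [← Module.End.mul_apply, ← pow_two, hTT]; rfl
  obtain ⟨-, -, h3⟩ := inv_split h2 hTT' hW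
  have t1 := ti_le (hf_refl hF) (hf_nd hF) n1 (inf_le_right : W ⊓ E T 1 ≤ E T 1) (fun u hu v hv => hti u hu.1 v hv.1)
  have t2 := ti_le (hf_refl hF) (hf_nd hF) n2 (inf_le_right : W ⊓ E T (-1) ≤ E T (-1)) (fun u hu v hv => hti u hu.1 v hv.1)
  omega

theorem exists_sub_dim {V : Type*} [AddCommGroup V] [Module F V] [FiniteDimensional F V] (D : Submodule F V) {m : ℕ} (hm : m ≤ finrank F D) :
    ∃ W ≤ D, finrank F W = m := by
  let b := Module.finBasis F D
  have hli : LinearIndependent F (fun i : Fin m => (b (Fin.castLE hm i) : V)) :=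
    (b.linearIndependent.comp _ (Fin.castLE_injective hm)).map' D.subtype (Submodule.ker_subtype D)
  refine ⟨Submodule.span F (Set.range fun i : Fin m => (b (Fin.castLE hm i) : V)), ?_, ?_⟩
  · apply Submodule.span_le.2
    rintro _ ⟨i, rfl⟩
    exact (b _).2
  · rw [finrank_span_eq_card hli, Fintype.card_fin]

/-- the second type -/
theorem mi_ti {hF : Fintype.card F = q ^ 2} {n : ℕ} {T : Module.End F (Fin n → F)} {y : F} (h : Mi hF n T y) {m : ℕ} (hm : 2 * m ≤ n) :
    ∃ W : Submodule F (Fin n → F), finrank F W = m ∧ TI (HF hF n) W ∧ Inv T W := by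
  obtain ⟨h1, -⟩ := h.half_top
  obtain ⟨W, hW, hWf⟩ := exists_sub_dim (E (y⁻¹ • T) 1) (m := m) (by omega)
  have hz : ∀ a : F, a = -a → a = 0 := by
    intro a ha
    have : 2 * a = 0 := by linear_combination ha
    exact (mul_eq_zero.1 this).resolve_left h.h2
  refine ⟨W, hWf, ?_, ?_⟩
  · intro u hu v hv
    have := h.neg u v
    rw [Module.End.mem_eigenspace_iff.1 (hW hu), Module.End.mem_eigenspace_iff.1 (hW hv), one_smul, one_smul] at this
    exact hz _ this
  · rw [← inv_smul (inv_ne_zero h.ne)]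
    intro x hx
    rw [Module.End.mem_eigenspace_iff.1 (hW hx), one_smul]; exact hx

/-- the case `r = 2` -/
theorem r2_iff_ti (hF : Fintype.card F = q ^ 2) (h2 : (2 : F) ≠ 0) {n m : ℕ} (hn : 2 ≤ n) (hm : 2 * m ≤ n) :
    (∀ T : Module.End F (Fin n → F), Iso (HF hF n) T → LinearMap.det T = 1 → (∃ z : F, T ^ 2 = z • (1 : Module.End F (Fin n → F))) →
      (∀ z : F, T ≠ z • (1 : Module.End F (Fin n → F))) → ∃ W : Submodule F (Fin n → F), finrank F W = m ∧ TI (HF hF n) W ∧ Inv T W) ↔
    (2 * m < n ∨ padicValNat 2 (q + 1) ≤ padicValNat 2 n) := by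
  have hn0 : 0 < n := by omega
  constructor
  · intro H
    by_contra hcon
    push Not at hcon
    obtain ⟨h1, h3⟩ := hcon
    obtain ⟨y, hy1, hy2⟩ := exists_root_neg hF hn0 h3
    have hy0 : y ≠ 0 := by
      rintro rfl
      rw [zero_pow (by omega)] at hy1
      exact zero_ne_one hy1
    have hq2 : Even (q + 1) := by
      obtain ⟨t, ht⟩ := q_odd hF h2
      exact ⟨t + 1, by omega⟩
    let i0 : Fin n := ⟨0, hn0⟩
    let c : Fin n → F := fun i => if i = i0 then -1 else 1
    have hc2 : ∀ i, c i ^ 2 = 1 := by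
      intro i
      simp only [c]
      split_ifs <;> norm_num
    have hcq : ∀ i, c i ^ (q + 1) = 1 := by
      intro i
      obtain ⟨t, ht⟩ := hq2
      rw [ht, ← two_mul, pow_mul, hc2, one_pow]
    have hyc : dg (fun i => y * c i) = y • dg c := by
      apply LinearMap.ext
      intro x
      funext i
      rw [dg_apply, LinearMap.smul_apply, Pi.smul_apply, dg_apply, smul_eq_mul, mul_assoc]
    have hcc : (dg c) ^ 2 = 1 := by
      rw [dg_pow, ← dg_one]
      congr 1
      funext i
      exact hc2 i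
    have hprod : ∏ i, c i = -1 := by
      rw [Finset.prod_eq_single i0]
      · simp [c]
      · intro i _ hi
        simp only [c]
        rw [if_neg hi]
      · intro h; exact absurd (Finset.mem_univ _) h
    have hiso := dg_iso hF (d := fun i => y * c i) (fun i => by rw [mul_pow, hy1, hcq, one_mul])
    obtain ⟨W, hWm, hti, hW⟩ := H (dg fun i => y * c i) hiso (by
      rw [dg_det, Finset.prod_mul_distrib, hprod, Finset.prod_const, Finset.card_univ, Fintype.card_fin, hy2]; norm_num)
      ⟨y ^ 2, by rw [hyc, smul_pow_end, hcc]⟩ (by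
      intro z hz
      have e : ∀ i : Fin n, y * c i = z := by
        intro i
        have := congrFun (congrArg (fun f : Module.End F (Fin n → F) => f (Pi.single i 1)) hz) i
        rw [dg_apply, Pi.single_eq_same, mul_one] at this
        rw [this]
        change z • (Pi.single i (1 : F) : Fin n → F) i = z
        rw [Pi.single_eq_same, smul_eq_mul, mul_one]
      have e1 := e i0
      have e2 := e ⟨1, by omega⟩
      have c0 : c i0 = -1 := if_pos rfl
      have c1 : c ⟨1, by omega⟩ = 1 := if_neg (by intro h; simpa [i0] using congrArg Fin.val h)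
      rw [c0] at e1
      rw [c1] at e2
      have e3 : 2 * y = 0 := by linear_combination e2 - e1
      rcases mul_eq_zero.1 e3 with e4 | e4
      · exact h2 e4
      · exact hy0 e4)
    rw [hyc] at hW
    have hW' : Inv (dg c) W := (inv_smul hy0).1 hW
    have hb := plus_bound hF h2 (dg_iso hF hcq) hcc hW' hti
    obtain ⟨-, -, -, hsum⟩ := pm_nd hF h2 (dg_iso hF hcq) hcc
    have hE1 : E (dg c) (-1) = Submodule.span F {Pi.single i0 (1 : F)} := by
      ext x
      rw [Module.End.mem_eigenspace_iff, Submodule.mem_span_singleton]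
      constructor
      · intro hx
        refine ⟨x i0, ?_⟩
        funext i
        by_cases hi : i = i0
        · rw [hi, Pi.smul_apply, Pi.single_eq_same, smul_eq_mul, mul_one]
        · rw [Pi.smul_apply, Pi.single_eq_of_ne hi, smul_zero]
          have h5 := congrFun hx i
          rw [dg_apply, Pi.smul_apply, smul_eq_mul] at h5
          simp only [c] at h5
          rw [if_neg hi] at h5
          have h6 : 2 * x i = 0 := by linear_combination h5
          exact ((mul_eq_zero.1 h6).resolve_left h2).symm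
      · rintro ⟨a, rfl⟩
        funext i
        rw [dg_apply]
        simp only [Pi.smul_apply, smul_eq_mul]
        by_cases hi : i = i0
        · rw [hi]
          simp [c]
        · rw [Pi.single_eq_of_ne hi]; simp
    have hE1f : finrank F (E (dg c) (-1)) = 1 := by
      rw [hE1]
      apply finrank_span_singleton
      intro h
      have := congrFun h i0
      rw [Pi.single_eq_same] at this
      exact one_ne_zero this
    omega
  · intro hcond T hT hd ⟨z, hz⟩ hns
    rcases sq_cases hF h2 hn0 hT hz with ⟨y, hy0, h3, h4⟩ | ⟨y, hmi⟩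
    · obtain ⟨-, -, -, hsum⟩ := pm_nd hF h2 h3 h4
      have hTT' : ∀ x, (y⁻¹ • T) ((y⁻¹ • T) x) = x := fun x => by rw [← Module.End.mul_apply, ← pow_two, h4]; rfl
      have hle : m ≤ finrank F (E (y⁻¹ • T) 1) / 2 + finrank F (E (y⁻¹ • T) (-1)) / 2 := by
        by_contra hcon
        have hne : 2 * m = n := by omega
        have hodd : Odd (finrank F (E (y⁻¹ • T) (-1))) := by
          rw [Nat.odd_iff]; omega
        have hcond' := hcond.resolve_left (by omega)
        have hdet := det_inv h2 hTT'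
        rw [hodd.neg_one_pow, LinearMap.det_smul, hd, mul_one, Module.finrank_fin_fun, _root_.inv_pow] at hdet
        have hyn : y ^ n = -1 := by
          rw [← inv_inv (y ^ n), hdet]; norm_num
        have hyq : y ^ (q + 1) = 1 := by
          have := norm_of_smul hF hn0 hT h3
          rw [_root_.inv_pow, inv_eq_one] at this
          exact this
        have := val_lt_of_root h2 hn0 hyq hyn
        omega
      obtain ⟨W, hW1, hW2, hW3⟩ := plus_ti hF h2 h3 h4 hle
      exact ⟨W, hW1, hW2, (inv_smul (inv_ne_zero hy0)).1 hW3⟩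
    · exact mi_ti hmi hm

end Cfsg.Agent.Lib.UnTI
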