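import Cfsg.Agent.Lib.UnTwo
set_option autoImplicit false
set_option linter.style.haveILetI false
set_option linter.unusedVariables false
set_option linter.unusedSectionVars false

/-!
The special unitary groups over the field with four elements: tensor decompositions with a factor of dimension two.
-/

namespace Cfsg.Agent.Lib.UnNot

open Cfsg Cfsg.Geo Cfsg.Agent.Lib.AschMU Cfsg.Agent.Lib.AschCore Cfsg.Agent.Lib.AschField Cfsg.Agent.Lib.AschAlg
  Cfsg.Agent.Lib.AschGroup Cfsg.Agent.Lib.AschGood Cfsg.Agent.Lib.AschNonab Cfsg.Agent.Lib.AschTensor Cfsg.Agent.Lib.AschComp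
  Cfsg.Agent.Lib.AschAdj Cfsg.Agent.Lib.SLGeom Cfsg.Agent.Lib.HermMat Cfsg.Agent.Lib.UnBridge Cfsg.Agent.Lib.UnTrans
open scoped Matrix MatrixGroups Kronecker commutatorElement
open Matrix (vecMulVec)

section general
variable {F : Type*} [Field F] [Fintype F] {n q : ℕ}

/-- Pairwise orthogonal nondegenerate subspaces of the right dimension form a decomposition. -/
theorem nd_decomp (hF : Fintype.card F = q ^ 2) {t m : ℕ} (ht : 2 ≤ t) (hm : 0 < m) (htm : t * m = n)
    {D : Fin t → Submodule F (Fin n → F)} (hfr : ∀ i, Module.finrank F (D i) = m) (hnd : ∀ i, IsNondegenerateOn (hermForm n F q) (D i))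
    (hort : ∀ i j, i ≠ j → AreOrthogonalFor (hermForm n F q) (D i) (D j)) : IsNondegenerateMDecomposition (hermForm n F q) m D := by
  classical
  have H := herm_HS n hF
  have hind : iSupIndep D := by
    intro i
    rw [Submodule.disjoint_def]
    intro x hx hx'
    by_contra hx0
    obtain ⟨y, hy, hxy⟩ := (hnd i x hx hx0).2
    have h1 : (⨆ j, ⨆ (_ : j ≠ i), D j) ≤ LinearMap.ker (H.fl y) := by
      refine iSup_le fun j => iSup_le fun hj => ?_
      intro z hz
      exact hort j i hj z hz y hy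
    exact hxy (h1 hx')
  refine ⟨⟨ht, hm, hfr, hind, ?_⟩, hnd, hort⟩
  have h1 := hind.dfinsupp_lsum_injective
  have h2 : Module.finrank F (Π₀ i, D i) = n := by
    rw [LinearEquiv.finrank_eq (DFinsupp.linearEquivFunOnFintype (R := F) (M := fun i => D i)), Module.finrank_pi_fintype]
    simp only [hfr, Finset.sum_const, Finset.card_univ, Fintype.card_fin, smul_eq_mul]
    exact htm
  rw [Submodule.iSup_eq_range_dfinsupp_lsum]
  apply Submodule.eq_top_of_finrank_eq
  rw [LinearMap.finrank_range_of_inj h1, h2, Module.finrank_fintype_fun_eq_card, Fintype.card_fin]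

/-- hermitian forms in the sense of the transvection files -/
theorem uHS (hF : Fintype.card F = q ^ 2) {d : ℕ} {f : (Fin d → F) → (Fin d → F) → F} (h : IsUnitaryFormPow q f) : HS (sig hF) f := by
  have H := herm_HS 1 hF
  exact ⟨H.inv, H.ne, H.norm, h.add_left, h.smul_left, fun x y => by rw [sig_apply]; exact h.herm x y⟩

theorem form_gram (hF : Fintype.card F = q ^ 2) {d : ℕ} {f : (Fin d → F) → (Fin d → F) → F} (h : IsUnitaryFormPow q f) (u v : Fin d → F) :
    f u v = ∑ i, ∑ j, u i * gramMatrix f i j * v j ^ q := by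
  have H := uHS hF h
  have hsum : ∀ (x w : Fin d → F), f x w = ∑ i, x i * f (Pi.single i 1) w := by
    intro x w
    have h1 := map_sum (H.fl w) (fun i => x i • (Pi.single i 1 : Fin d → F)) Finset.univ
    have h2 : ∑ i, x i • (Pi.single i 1 : Fin d → F) = x := by
      rw [← pi_eq_sum_univ' x]
    have h3 : ∀ z, H.fl w z = f z w := fun z => rfl
    simp only [h3, h2, h.smul_left] at h1
    exact h1
  rw [hsum u v]
  refine Finset.sum_congr rfl fun i _ => ?_
  rw [h.herm (Pi.single i 1) v, hsum v, sum_pow_q hF, Finset.mul_sum]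
  refine Finset.sum_congr rfl fun j _ => ?_
  rw [mul_pow, ← h.herm]
  simp only [gramMatrix]
  ring

/-- the form on pure tensors -/
theorem tensor_pure (hF : Fintype.card F = q ^ 2) {d m : ℕ} {f₁ : (Fin d → F) → (Fin d → F) → F} {f₂ : (Fin m → F) → (Fin m → F) → F}
    (h₁ : IsUnitaryFormPow q f₁) (h₂ : IsUnitaryFormPow q f₂) {e : Fin n ≃ Fin d × Fin m} {P : GL (Fin n) F}
    (hst : IsTensorFormStructure (fun x : F => x ^ q) (hermForm n F q) f₁ f₂ e P) :
    ∃ c : F, c ≠ 0 ∧ ∀ (u u' : Fin d → F) (v v' : Fin m → F),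
      hermForm n F q ((P : Matrix (Fin n) (Fin n) F) *ᵥ pt e u v) ((P : Matrix (Fin n) (Fin n) F) *ᵥ pt e u' v') = c * (f₁ u u' * f₂ v v') := by
  obtain ⟨c, hc, hst⟩ := hst
  refine ⟨c, hc, fun u u' v v' => ?_⟩
  have h1 := hst (fun p => u p.1 * v p.2) (fun p => u' p.1 * v' p.2)
  have h2 : ∀ (u : Fin d → F) (v : Fin m → F), (fun p : Fin d × Fin m => u p.1 * v p.2) ∘ e = pt e u v := fun u v => rfl
  rw [h2, h2] at h1
  rw [h1, form_gram hF h₁, form_gram hF h₂]
  congr 1
  simp only [formOfGram, Fintype.sum_prod_type, Matrix.kroneckerMap_apply]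
  rw [Finset.sum_mul_sum]
  refine Finset.sum_congr rfl fun i _ => Finset.sum_congr rfl fun k _ => ?_
  rw [Finset.sum_mul_sum]
  refine Finset.sum_congr rfl fun j _ => Finset.sum_congr rfl fun l _ => ?_
  ring

/-- pure tensors as a linear map in the second factor -/
def ptL {d m : ℕ} (e : Fin n ≃ Fin d × Fin m) (P : GL (Fin n) F) (u : Fin d → F) : (Fin m → F) →ₗ[F] (Fin n → F) where
  toFun v := (P : Matrix (Fin n) (Fin n) F) *ᵥ pt e u v
  map_add' v v' := by
    rw [← Matrix.mulVec_add]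
    congr 1
    funext i
    simp [pt, mul_add]
  map_smul' c v := by
    rw [RingHom.id_apply, ← Matrix.mulVec_smul]
    congr 1
    funext i
    simp [pt]
    ring

theorem tensor_two_two (hF : Fintype.card F = 2 ^ 2) {m : ℕ} (hm : 2 ≤ m) (hnm : 2 * m = n) {H : Subgroup (GL (Fin n) F)}
    (hH : IsMaximalIn (GU n F 2 ⊓ specialLinear (Fin n) F) H)
    {f₁ : (Fin 2 → F) → (Fin 2 → F) → F} {f₂ : (Fin m → F) → (Fin m → F) → F}
    (h₁ : IsUnitaryFormPow 2 f₁) (h₂ : IsUnitaryFormPow 2 f₂) {e : Fin n ≃ Fin 2 × Fin m} {P : GL (Fin n) F}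
    (hst : IsTensorFormStructure (fun x : F => x ^ 2) (hermForm n F 2) f₁ f₂ e P)
    (h : H = tensorProductSubgroup 2 m e P ⊓ (GU n F 2 ⊓ specialLinear (Fin n) F)) :
    ∃ E : Fin 2 → Submodule F (Fin n → F), IsNondegenerateMDecomposition (hermForm n F 2) m E ∧
      H = decompositionStabilizer E ⊓ (GU n F 2 ⊓ specialLinear (Fin n) F) := by
  obtain ⟨c, hc, hpt⟩ := tensor_pure hF h₁ h₂ hst
  have H1 := uHS hF h₁
  have hfr : Module.finrank F (⊤ : Submodule F (Fin 2 → F)) = 2 := by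
    rw [finrank_top, Module.finrank_fintype_fun_eq_card, Fintype.card_fin]
  obtain ⟨e₁, -, e₂, -, h11, h22, h12, h21, hall, hns⟩ := onb2 hF H1 hfr (fun x _ hx0 => by
    obtain ⟨y, hy⟩ := (h₁.nondegenerate x hx0).2
    exact ⟨y, trivial, hy⟩)
  let b : Fin 2 → (Fin 2 → F) := ![e₁, e₂]
  have hb : ∀ i, f₁ (b i) (b i) = 1 := by
    intro i
    fin_cases i
    · exact h11
    · exact h22
  have hb' : ∀ i j, i ≠ j → f₁ (b i) (b j) = 0 := by
    intro i j hij
    fin_cases i <;> fin_cases j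
    · exact absurd rfl hij
    · exact h12
    · exact h21
    · exact absurd rfl hij
  let D : Fin 2 → Submodule F (Fin n → F) := fun j => LinearMap.range (ptL e P (b j))
  have hinj : ∀ j, Function.Injective (ptL e P (b j)) := by
    intro j
    rw [injective_iff_map_eq_zero]
    intro v hv
    by_contra hv0
    obtain ⟨v', hv'⟩ := (h₂.nondegenerate v hv0).2
    have h3 := hpt (b j) (b j) v v'
    have h4 : (P : Matrix (Fin n) (Fin n) F) *ᵥ pt e (b j) v = 0 := hv
    rw [h4, hermForm_zero_left, hb, one_mul] at h3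
    exact mul_ne_zero hc hv' h3.symm
  have hD : IsNondegenerateMDecomposition (hermForm n F 2) m D := by
    refine nd_decomp hF le_rfl (by omega) hnm ?_ ?_ ?_
    · intro i
      show Module.finrank F (LinearMap.range (ptL e P (b i))) = m
      rw [LinearMap.finrank_range_of_inj (hinj i), Module.finrank_fintype_fun_eq_card, Fintype.card_fin]
    · rintro i _ ⟨v, rfl⟩ hv0
      have hv : v ≠ 0 := by
        rintro rfl
        exact hv0 (map_zero _)
      obtain ⟨⟨x, hx⟩, ⟨y, hy⟩⟩ := h₂.nondegenerate v hv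
      refine ⟨⟨_, ⟨x, rfl⟩, ?_⟩, ⟨_, ⟨y, rfl⟩, ?_⟩⟩
      · have h3 := hpt (b i) (b i) x v
        rw [hb, one_mul] at h3
        exact fun h4 => mul_ne_zero hc hx (h3.symm.trans h4)
      · have h3 := hpt (b i) (b i) v y
        rw [hb, one_mul] at h3
        exact fun h4 => mul_ne_zero hc hy (h3.symm.trans h4)
    · rintro i j hij _ ⟨v, rfl⟩ _ ⟨v', rfl⟩
      have h3 := hpt (b i) (b j) v v'
      rw [hb' i j hij, zero_mul, mul_zero] at h3
      exact h3
  refine ⟨D, hD, SLNot.eq_inf_of_maximal hH ?_ (su_not_decomposition hF (by omega) hm hD.decomp)⟩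
  rw [h]
  rintro g ⟨hg, hgG, -⟩
  obtain ⟨a, b', hgab⟩ := mem_tps.1 hg
  have hact : ∀ (u : Fin 2 → F) (v : Fin m → F), (g : Matrix (Fin n) (Fin n) F) *ᵥ ((P : Matrix (Fin n) (Fin n) F) *ᵥ pt e u v) =
      (P : Matrix (Fin n) (Fin n) F) *ᵥ pt e ((a : Matrix (Fin 2) (Fin 2) F) *ᵥ u) ((b' : Matrix (Fin m) (Fin m) F) *ᵥ v) := by
    intro u v
    rw [hgab, Units.val_mul, Units.val_mul, ← Matrix.mulVec_mulVec, ← Matrix.mulVec_mulVec, gl_inv_mulVec, kronU_val, kronL_pt]
  -- a maps nonsingular vectors to nonsingular vectors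
  have hm0 : ∃ v : Fin m → F, v ≠ 0 := by
    refine ⟨Pi.single ⟨0, by omega⟩ 1, ?_⟩
    intro h0
    have := congrFun h0 ⟨0, by omega⟩
    simp at this
  obtain ⟨v₀, hv₀⟩ := hm0
  obtain ⟨v₁, hv₁⟩ := (h₂.nondegenerate v₀ hv₀).2
  have hans : ∀ i, ∃ j, ∃ d : F, (a : Matrix (Fin 2) (Fin 2) F) *ᵥ b i = d • b j := by
    intro i
    have h3 : hermForm n F 2 ((g : Matrix (Fin n) (Fin n) F) *ᵥ ((P : Matrix (Fin n) (Fin n) F) *ᵥ pt e (b i) v₀))
        ((g : Matrix (Fin n) (Fin n) F) *ᵥ ((P : Matrix (Fin n) (Fin n) F) *ᵥ pt e (b i) v₁)) =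
        hermForm n F 2 ((P : Matrix (Fin n) (Fin n) F) *ᵥ pt e (b i) v₀) ((P : Matrix (Fin n) (Fin n) F) *ᵥ pt e (b i) v₁) := hgG _ _
    rw [hact, hact, hpt, hpt, hb, one_mul] at h3
    have h4 : f₁ ((a : Matrix (Fin 2) (Fin 2) F) *ᵥ b i) ((a : Matrix (Fin 2) (Fin 2) F) *ᵥ b i) ≠ 0 := by
      intro h0
      rw [h0, zero_mul, mul_zero] at h3
      exact mul_ne_zero hc hv₁ h3.symm
    rcases hns _ trivial h4 with ⟨d, -, hd⟩ | ⟨d, -, hd⟩
    · exact ⟨0, d, hd⟩
    · exact ⟨1, d, hd⟩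
  apply mem_decomposition_of hD.decomp
  intro i
  obtain ⟨j, d, hd⟩ := hans i
  refine ⟨j, ?_⟩
  rw [Submodule.map_le_iff_le_comap]
  rintro _ ⟨v, rfl⟩
  rw [Submodule.mem_comap, Matrix.toLin'_apply]
  have h3 : ptL e P (b i) v = (P : Matrix (Fin n) (Fin n) F) *ᵥ pt e (b i) v := rfl
  rw [h3, hact, hd]
  refine ⟨d • ((b' : Matrix (Fin m) (Fin m) F) *ᵥ v), ?_⟩
  show (P : Matrix (Fin n) (Fin n) F) *ᵥ pt e (b j) (d • ((b' : Matrix (Fin m) (Fin m) F) *ᵥ v)) = _
  congr 1
  funext l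
  simp only [pt, Pi.smul_apply, smul_eq_mul]
  ring

end general

end Cfsg.Agent.Lib.UnNot
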