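import Cfsg.Agent.Lib.NormRing
import Cfsg.Agent.Lib.UniTrans
import Cfsg.Agent.Lib.ClUnitary2

/-!
# Elements of `GU_n(q)` conjugate in `GL_n(q²)` are conjugate in `GU_n(q)` (helper44)
-/

set_option autoImplicit false
open Cfsg

namespace Cfsg.Agent.Lib.UniConj

universe u

section abstr

variable {M : Type u} [Ring M] [Finite M] [StarRing M]

theorem isUnit_of_mul_isUnit {a b : M} (h : IsUnit (a * b)) : IsUnit b := by
  obtain ⟨v, hv⟩ := h.exists_left_inv
  have h1 : (v * a) * b = 1 := by rw [mul_assoc]; exact hv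
  have h2 : b * (v * a) = 1 := mul_eq_one_comm.1 h1
  exact ⟨⟨b, v * a, h2, h1⟩, rfl⟩

/-- conjugate isometries are conjugate by an isometry, if self-adjoint units of the centraliser are norms -/
theorem conj_of_norm {A B g : M} (hA : star A * A = 1) (hB : star B * B = 1) (hg : IsUnit g)
    (h : g * A = B * g)
    (hnorm : ∀ k : M, IsUnit k → star k = k → Commute k A → ∃ c : M, star c * c = k ∧ Commute c A) :
    ∃ g', star g' * g' = 1 ∧ g' * A = B * g' := by
  have hA' : A * star A = 1 := mul_eq_one_comm.1 hA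
  have hB' : B * star B = 1 := mul_eq_one_comm.1 hB
  have h1 : star A * star g = star g * star B := by rw [← star_mul, ← star_mul, h]
  have h2 : star g * B = A * star g := by
    calc star g * B = A * (star A * star g) * B := by rw [← mul_assoc, hA', one_mul]
      _ = A * star g * (star B * B) := by rw [h1]; noncomm_ring
      _ = A * star g := by rw [hB, mul_one]
  obtain ⟨c, hc, hcA⟩ := hnorm (star g * g) (hg.star.mul hg) (by rw [star_mul, star_star]) (by
    show star g * g * A = A * (star g * g)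
    rw [mul_assoc, h, ← mul_assoc, h2, mul_assoc])
  have hcu : IsUnit c := by
    apply isUnit_of_mul_isUnit (a := star c)
    rw [hc]
    exact hg.star.mul hg
  obtain ⟨c, rfl⟩ := hcu
  refine ⟨g * (c⁻¹ : Mˣ), ?_, ?_⟩
  · calc star (g * (c⁻¹ : Mˣ)) * (g * (c⁻¹ : Mˣ)) = star ((c⁻¹ : Mˣ) : M) * (star g * g) * (c⁻¹ : Mˣ) := by
          rw [star_mul]; noncomm_ring
      _ = star ((c⁻¹ : Mˣ) : M) * star (c : M) * (c * (c⁻¹ : Mˣ)) := by rw [← hc]; noncomm_ring
      _ = 1 := by rw [← star_mul, Units.mul_inv, star_one, mul_one]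
  · have h3 : Commute ((c⁻¹ : Mˣ) : M) A := hcA.units_inv_left
    rw [mul_assoc, h3.eq, ← mul_assoc, h, mul_assoc]

end abstr

section unitary

open Matrix Cfsg.Agent.Lib.ClIso Cfsg.Agent.Lib.HermMat Cfsg.Agent.Lib.ClUnitary

variable {F : Type u} [Field F] [Fintype F] {q n : ℕ}

/-- the star ring structure `x ↦ x^q` -/
@[reducible] def starField (hF : Fintype.card F = q ^ 2) : StarRing F where
  star x := x ^ q
  star_involutive x := frob_frob hF x
  star_mul a b := by rw [mul_pow, mul_comm]
  star_add a b := (frob hF).map_add a b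

theorem exists_skew (hF : Fintype.card F = q ^ 2) : ∃ δ : F, δ ≠ 0 ∧ δ ^ q = - δ := by
  by_contra hcon
  push Not at hcon
  apply frob_ne_id hF
  ext a
  by_contra hne
  apply hcon (a - a ^ q) (fun h => hne (sub_eq_zero.1 h).symm)
  have h1 : (a - a ^ q) ^ q = frob hF (a - frob hF a) := rfl
  rw [h1, map_sub, frob_frob, frob_apply]
  ring

theorem isUn_iff_star (hF : Fintype.card F = q ^ 2) {A : Matrix (Fin n) (Fin n) F} :
    letI := starField hF
    IsUn q A ↔ star A * A = 1 := by
  letI := starField hF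
  have e : star A = (A.map (frob hF))ᵀ := rfl
  rw [isUn_iff hF, e]
  constructor
  · intro h
    have := congrArg Matrix.transpose h
    rwa [transpose_mul, transpose_transpose, transpose_one] at this
  · intro h
    have := congrArg Matrix.transpose h
    rwa [transpose_mul, transpose_transpose, transpose_one] at this

theorem exists_norm_matrix (hF : Fintype.card F = q ^ 2) (A : Matrix (Fin n) (Fin n) F) :
    letI := starField hF
    ∀ k : Matrix (Fin n) (Fin n) F, IsUnit k → star k = k → Commute k A →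
      ∃ c : Matrix (Fin n) (Fin n) F, star c * c = k ∧ Commute c A := by
  letI := starField hF
  intro k hk hks hkA
  have hstar : ∀ a : F, star (algebraMap F (Matrix (Fin n) (Fin n) F) a) = algebraMap F _ (a ^ q) := by
    intro a
    rw [Matrix.algebraMap_eq_diagonal, Matrix.algebraMap_eq_diagonal]
    change (Matrix.diagonal _)ᴴ = _
    rw [Matrix.diagonal_conjTranspose]
    rfl
  by_cases h2 : (2 : F) = 0
  · obtain ⟨l, hl⟩ := exists_trace hF (c := (1 : F)) (one_pow q)
    obtain ⟨c, hc, hck⟩ := NormRing.exists_norm_two (M := Matrix (Fin n) (Fin n) F)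
      (l := algebraMap F _ l) (h := k) (by
        have := congrArg (algebraMap F (Matrix (Fin n) (Fin n) F)) h2
        rwa [map_ofNat, map_zero] at this) (by rw [hstar, ← map_add, hl, map_one]) hk hks
      (Algebra.commutes l k).symm
    exact ⟨c, hck, NormRing.commute_of_mem hc hkA (Algebra.commutes l A)⟩
  · obtain ⟨δ, hδ0, hδ⟩ := exists_skew hF
    obtain ⟨c, hc, hck⟩ := NormRing.exists_norm_odd (M := Matrix (Fin n) (Fin n) F)
      (δ := algebraMap F _ δ) (h := k) (by
        have := (IsUnit.mk0 (2 : F) h2).map (algebraMap F (Matrix (Fin n) (Fin n) F))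
        rwa [map_ofNat] at this) ((IsUnit.mk0 δ hδ0).map _) (by rw [hstar, hδ, map_neg]) hk hks
      (Algebra.commutes δ k).symm
    exact ⟨c, hck, NormRing.commute_of_mem hc hkA (Algebra.commutes δ A)⟩

/-- unitary matrices conjugate in `GL_n(q²)` are conjugate in `GU_n(q)` -/
theorem conj_matrix (hF : Fintype.card F = q ^ 2) {A B g : Matrix (Fin n) (Fin n) F} (hA : IsUn q A)
    (hB : IsUn q B) (hg : IsUnit g) (h : g * A = B * g) : ∃ g', IsUn q g' ∧ g' * A = B * g' := by
  letI := starField hF
  obtain ⟨g', h1, h2⟩ := conj_of_norm ((isUn_iff_star hF).1 hA) ((isUn_iff_star hF).1 hB) hg h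
    (exists_norm_matrix hF A)
  exact ⟨g', (isUn_iff_star hF).2 h1, h2⟩

theorem isConj_GU (hF : Fintype.card F = q ^ 2) (A B : GU n F q)
    (h : IsConj (A : GL (Fin n) F) (B : GL (Fin n) F)) : IsConj A B := by
  obtain ⟨g, hg⟩ := isConj_iff.1 h
  obtain ⟨g', h1, h2⟩ := conj_matrix hF (mem_GU.1 A.2) (mem_GU.1 B.2) (g := (g : Matrix (Fin n) (Fin n) F))
    g.isUnit (by
      rw [← hg]
      simp [mul_assoc])
  have hdet : IsUnit g'.det := by
    have := IsUn.det_pow hF h1
    exact IsUnit.of_mul_eq_one (g'.det ^ q) (by rw [← pow_succ']; exact this)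
  let G : GL (Fin n) F := Matrix.GeneralLinearGroup.mk'' g' hdet
  have hG : (G : Matrix (Fin n) (Fin n) F) = g' := rfl
  rw [isConj_iff]
  refine ⟨⟨G, mem_GU.2 (by rw [hG]; exact h1)⟩, ?_⟩
  rw [mul_inv_eq_iff_eq_mul]
  apply Subtype.ext
  apply Units.ext
  change g' * (A : GL (Fin n) F).1 = (B : GL (Fin n) F).1 * g'
  exact h2

end unitary

end Cfsg.Agent.Lib.UniConj
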