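import Cfsg.Agent.Lib.XR9

/-! # Symplectic type 2-groups in dimension four: generators of the group of minus type -/

set_option autoImplicit false
set_option linter.dupNamespace false
set_option linter.style.haveILetI false

namespace Cfsg.Agent.Lib.XR

open Matrix Module Cfsg.Agent.Lib.NormTool
open scoped MatrixGroups

variable {F : Type*} [Field F] {ι : Type} [Fintype ι] [DecidableEq ι] {R : Subgroup (GL ι F)}

theorem exp_four (hS : Cfsg.Geo.IsSymplecticTypeGroup 2 R) {x : GL ι F} (hx : x ∈ R) : x ^ 4 = 1 := by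
  have h1 := Monoid.pow_exponent_eq_one (⟨x, hx⟩ : R)
  rw [hS.exponent_eq] at h1
  have h2 : 2 * Nat.gcd 2 2 = 4 := by norm_num
  rw [h2] at h1
  exact congrArg Subtype.val h1

theorem XR.sq_pm (h : XR R) (hS : Cfsg.Geo.IsSymplecticTypeGroup 2 R) {a : GL ι F} (ha : a ∈ R) : a * a = 1 ∨ a * a = -1 := by
  obtain ⟨i₀⟩ := h.ne_iota
  obtain ⟨c, hc⟩ := h.sq' ha
  have h4 := exp_four hS ha
  have hc2 : c * c = 1 := by
    have h6 : a.1 ^ 4 = 1 := by rw [← Units.val_pow_eq_pow_val, h4]; rfl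
    have h7 : a.1 ^ 4 = (a * a).1 * (a * a).1 := by
      rw [Units.val_mul]; simp only [pow_succ, pow_zero, Matrix.one_mul, Matrix.mul_assoc]
    rw [h7, hc, Matrix.smul_mul, Matrix.mul_smul, Matrix.one_mul, smul_smul] at h6
    have h8 := congrFun (congrFun h6 i₀) i₀
    simp at h8
    exact h8
  rcases mul_self_eq_one_iff.1 hc2 with rfl | rfl
  · left; apply Units.ext; rw [hc, one_smul]; rfl
  · right; apply Units.ext; rw [hc, neg_one_smul]; rfl

theorem sq_ab {a b : GL ι F} (hab : a * b = -(b * a)) : (a * b) * (a * b) = -((a * a) * (b * b)) := by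
  calc (a * b) * (a * b) = a * (b * a) * b := by simp only [mul_assoc]
    _ = a * (-(a * b)) * b := by rw [anti_symm hab]
    _ = _ := by simp only [mul_neg, neg_mul, mul_assoc]

/-- normal form of an anticommuting pair -/
theorem XR.norm_pair (h : XR R) (hS : Cfsg.Geo.IsSymplecticTypeGroup 2 R) {a b : GL ι F} (ha : a ∈ R) (hb : b ∈ R) (hab : a * b = -(b * a)) :
    ∃ a' ∈ R, ∃ b' ∈ R, a' * b' = -(b' * a') ∧ ((a' * a' = 1 ∧ b' * b' = 1) ∨ (a' * a' = -1 ∧ b' * b' = -1)) ∧
      ∀ s : GL ι F, a * s = s * a → b * s = s * b → a' * s = s * a' ∧ b' * s = s * b' := by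
  have hprod : ∀ s : GL ι F, a * s = s * a → b * s = s * b → (a * b) * s = s * (a * b) := by
    intro s h1 h2
    rw [mul_assoc, h2, ← mul_assoc, h1, mul_assoc]
  rcases h.sq_pm hS ha with haa | haa <;> rcases h.sq_pm hS hb with hbb | hbb
  · exact ⟨a, ha, b, hb, hab, Or.inl ⟨haa, hbb⟩, fun s h1 h2 => ⟨h1, h2⟩⟩
  · refine ⟨a, ha, a * b, mul_mem ha hb, ?_, Or.inl ⟨haa, ?_⟩, fun s h1 h2 => ⟨h1, hprod s h1 h2⟩⟩
    · rw [mul_assoc, anti_symm hab, mul_neg, neg_neg]
    · rw [sq_ab hab, haa, hbb, one_mul, neg_neg]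
  · refine ⟨a * b, mul_mem ha hb, b, hb, ?_, Or.inl ⟨?_, hbb⟩, fun s h1 h2 => ⟨hprod s h1 h2, h2⟩⟩
    · rw [← mul_assoc b, anti_symm hab, neg_mul, neg_neg]
    · rw [sq_ab hab, haa, hbb, mul_one, neg_neg]
  · exact ⟨a, ha, b, hb, hab, Or.inr ⟨haa, hbb⟩, fun s h1 h2 => ⟨h1, h2⟩⟩

/-- generators of the group of minus type -/
theorem XR.exists_Quad (h : XR R) (hS : Cfsg.Geo.IsSymplecticTypeGroup 2 R) (hm : Cfsg.Geo.IsOfMinusType 2 R) :
    ∃ a b c d : GL ι F, Quad R a b c d := by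
  obtain ⟨a₀, ha₀, b₀, hb₀, c₀, hc₀, d₀, hd₀, hab₀, hcd₀, hac₀, had₀, hbc₀, hbd₀⟩ := h.exists_quad
  obtain ⟨a, ha, b, hb, hab, hs1, hcom1⟩ := h.norm_pair hS ha₀ hb₀ hab₀
  obtain ⟨c, hc, d, hd, hcd, hs2, hcom2⟩ := h.norm_pair hS hc₀ hd₀ hcd₀
  obtain ⟨k1, k2⟩ := hcom1 c₀ hac₀ hbc₀
  obtain ⟨k3, k4⟩ := hcom1 d₀ had₀ hbd₀
  obtain ⟨hca, hda⟩ := hcom2 a k1.symm k3.symm
  obtain ⟨hcb, hdb⟩ := hcom2 b k2.symm k4.symm
  rcases hs1 with ⟨haa, hbb⟩ | ⟨haa, hbb⟩ <;> rcases hs2 with ⟨hcc, hdd⟩ | ⟨hcc, hdd⟩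
  · exact (h.no_elem hm ha hc haa hcc hca.symm (anti_symm hcd) hda (anti_symm hab)).elim
  · exact ⟨c, d, a, b, hc, hd, ha, hb, hcd, hab, hca, hcb, hda, hdb, hcc, hdd, haa, hbb⟩
  · exact ⟨a, b, c, d, ha, hb, hc, hd, hab, hcd, hca.symm, hda.symm, hcb.symm, hdb.symm, haa, hbb, hcc, hdd⟩
  · exfalso
    refine h.no_elem hm (e := a * c) (f := b * d) (u := a) (v := b) (mul_mem ha hc) (mul_mem hb hd) ?_ ?_ ?_ ?_ ?_ ?_
    · calc (a * c) * (a * c) = a * (c * a) * c := by simp only [mul_assoc]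
        _ = a * (a * c) * c := by rw [hca]
        _ = (a * a) * (c * c) := by simp only [mul_assoc]
        _ = 1 := by rw [haa, hcc, neg_mul_neg, one_mul]
    · calc (b * d) * (b * d) = b * (d * b) * d := by simp only [mul_assoc]
        _ = b * (b * d) * d := by rw [hdb]
        _ = (b * b) * (d * d) := by simp only [mul_assoc]
        _ = 1 := by rw [hbb, hdd, neg_mul_neg, one_mul]
    · calc (a * c) * (b * d) = a * (c * b) * d := by simp only [mul_assoc]
        _ = a * (b * c) * d := by rw [hcb]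
        _ = (a * b) * (c * d) := by simp only [mul_assoc]
        _ = (b * a) * (d * c) := by rw [hab, hcd, neg_mul_neg]
        _ = b * (a * d) * c := by simp only [mul_assoc]
        _ = b * (d * a) * c := by rw [hda]
        _ = _ := by simp only [mul_assoc]
    · rw [← mul_assoc, hab, neg_mul, mul_assoc, ← hda, mul_assoc]
    · rw [mul_assoc, hca]
    · rw [← mul_assoc, anti_symm hab, neg_mul, mul_assoc, ← hcb, mul_assoc]

/-- elements of order three whose centralizer in `R` is scalar -/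
theorem XR.three_contra (h : XR R) (hZ : Nat.card (Zs R) = 2) (hm : Cfsg.Geo.IsOfMinusType 2 R) {e d : GL ι F} (he : e ∈ R) (hee : e * e = 1)
    (hed : e * d = -(d * e)) {y : GL ι F} (hy : y ∈ Subgroup.normalizer (R : Set (GL ι F))) (hy3 : y ^ 3 = 1)
    (hC : Nat.card (CR R y) = Nat.card (Zs R)) : False := by
  have := h.ne_iota
  have hfin := h.fin
  have hZC : Zs R = CR R y := Subgroup.eq_of_le_of_card_ge (h.Zs_le y) (by rw [hC])
  have hsc : ∀ w ∈ R, y * w = w * y → ∃ c : F, w.1 = c • (1 : Matrix ι ι F) := by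
    intro w hw hyw
    have h1 : (⟨w, hw⟩ : R) ∈ CR R y := mem_CR.2 hyw
    rw [← hZC] at h1
    exact h1
  have hsq : ∀ w ∈ R, (∃ c : F, w.1 = c • (1 : Matrix ι ι F)) → w * w = 1 := by
    intro w hw hwc
    have h1 : (⟨⟨w, hw⟩, hwc⟩ : Zs R) ^ 2 = 1 := by
      have := pow_card_eq_one' (x := (⟨⟨w, hw⟩, hwc⟩ : Zs R))
      rwa [hZ] at this
    have h2 : w ^ 2 = 1 := congrArg (fun w : Zs R => w.1.1) h1
    rwa [pow_two] at h2
  have hen := nonscalar_of_anti h.char hed
  have hmem : ∀ w ∈ R, y * w * y⁻¹ ∈ R := fun w hw => (Subgroup.mem_normalizer_iff.1 hy w).1 hw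
  set f := y * e * y⁻¹ with hf
  set g := y * f * y⁻¹ with hg
  have hfR : f ∈ R := hmem e he
  have hgR : g ∈ R := hmem f hfR
  have hyy : y * y * y = 1 := by rw [← hy3, pow_succ, pow_two]
  have hge : y * g * y⁻¹ = e := by
    have h1 : y * g * y⁻¹ = (y * y * y) * e * (y * y * y)⁻¹ := by rw [hg, hf]; group
    rw [h1, hyy, one_mul, inv_one, mul_one]
  have hye : y * e = f * y := by rw [hf]; group
  have hyf : y * f = g * y := by rw [hg]; group
  have hyg : y * g = e * y := by rw [← hge]; group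
  have hff : f * f = 1 := by
    have : f * f = y * (e * e) * y⁻¹ := by rw [hf]; group
    rw [this, hee]; group
  have hgg : g * g = 1 := by
    have : g * g = y * (f * f) * y⁻¹ := by rw [hg]; group
    rw [this, hff]; group
  have scal_conj : ∀ w : GL ι F, ∀ c : F, (y * w * y⁻¹).1 = c • (1 : Matrix ι ι F) → w.1 = c • (1 : Matrix ι ι F) := by
    intro w c hc
    have h1 : w = y⁻¹ * (y * w * y⁻¹) * y := by group
    rw [h1, Units.val_mul, Units.val_mul, hc, Matrix.mul_smul, Matrix.mul_one, Matrix.smul_mul, ← Units.val_mul, inv_mul_cancel]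
    rfl
  have hfn : ∀ c : F, f.1 ≠ c • (1 : Matrix ι ι F) := fun c hc => hen c (scal_conj e c hc)
  have hgn : ∀ c : F, g.1 ≠ c • (1 : Matrix ι ι F) := fun c hc => hfn c (scal_conj f c hc)
  have hyw : y * (e * f * g) = (f * g * e) * y := by
    calc y * (e * f * g) = (y * e) * f * g := by simp only [mul_assoc]
      _ = f * (y * f) * g := by rw [hye]; simp only [mul_assoc]
      _ = f * g * (y * g) := by rw [hyf]; simp only [mul_assoc]
      _ = _ := by rw [hyg]; simp only [mul_assoc]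
  rcases h.comm' he hfR with h1 | h1
  · -- commuting case
    have h2 : f * g = g * f := by
      have e1 : f * g = y * (e * f) * y⁻¹ := by rw [hg]; nth_rewrite 1 [hf]; group
      have e2 : g * f = y * (f * e) * y⁻¹ := by rw [hg]; nth_rewrite 2 [hf]; group
      rw [e1, e2, h1]
    have h3 : g * e = e * g := by
      have e1 : g * e = y * (f * g) * y⁻¹ := by rw [← hge]; nth_rewrite 1 [hg]; group
      have e2 : e * g = y * (g * f) * y⁻¹ := by rw [← hge]; nth_rewrite 2 [hg]; group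
      rw [e1, e2, h2]
    have h4 : f * g * e = e * f * g := by rw [mul_assoc, h3, ← mul_assoc, ← h1]
    obtain ⟨s, hs⟩ := hsc (e * f * g) (mul_mem (mul_mem he hfR) hgR) (by rw [hyw, h4])
    refine h.no_elem' hm he hfR hee hff h1 hen hfn ?_
    intro c hc
    have hc0 : c ≠ 0 := by
      rintro rfl
      rw [zero_smul] at hc
      exact (e * f).isUnit.ne_zero hc
    apply hgn (c⁻¹ * s)
    have h5 : (e * f).1 * g.1 = s • (1 : Matrix ι ι F) := hs
    rw [hc, Matrix.smul_mul, Matrix.one_mul] at h5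
    have h6 : g.1 = c⁻¹ • (c • g.1) := by rw [smul_smul, inv_mul_cancel₀ hc0, one_smul]
    rw [h6, h5, smul_smul]
  · have h2 : f * g = -(g * f) := by
      have e1 : f * g = y * (e * f) * y⁻¹ := by rw [hg]; nth_rewrite 1 [hf]; group
      have e2 : g * f = y * (f * e) * y⁻¹ := by rw [hg]; nth_rewrite 2 [hf]; group
      rw [e1, e2, h1, mul_neg, neg_mul]
    have h3 : g * e = -(e * g) := by
      have e1 : g * e = y * (f * g) * y⁻¹ := by rw [← hge]; nth_rewrite 1 [hg]; group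
      have e2 : e * g = y * (g * f) * y⁻¹ := by rw [← hge]; nth_rewrite 2 [hg]; group
      rw [e1, e2, h2, mul_neg, neg_mul]
    have h4 : f * g * e = e * f * g := by
      rw [mul_assoc, h3, mul_neg, ← mul_assoc, h1, neg_mul]
    have h5 := hsc (e * f * g) (mul_mem (mul_mem he hfR) hgR) (by rw [hyw, h4])
    have h6 := hsq _ (mul_mem (mul_mem he hfR) hgR) h5
    have h7 : (e * f * g) * (e * f * g) = -1 := by
      calc (e * f * g) * (e * f * g) = (e * f * g) * (f * g * e) := by rw [h4]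
        _ = e * f * (g * f) * (g * e) := by simp only [mul_assoc]
        _ = e * f * (-(f * g)) * (g * e) := by rw [anti_symm h2]
        _ = -(e * (f * f) * (g * g) * e) := by simp only [mul_assoc, mul_neg, neg_mul]
        _ = _ := by rw [hff, hgg, mul_one, mul_one, hee]
    rw [h6] at h7
    exact h.ne_neg' 1 h7

end Cfsg.Agent.Lib.XR
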