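import Cfsg.Agent.Lib.UniTool
import Cfsg.Agent.Lib.XR10

/-! # Elements of order five in the unitary group of dimension four -/

set_option autoImplicit false
set_option linter.style.haveILetI false

namespace Cfsg.Agent.Lib.UniTool

open Cfsg.Agent.Lib.ClUnitary (frob) 
open Cfsg.Agent.Lib.UnitStar (st)
open Cfsg.Agent.Lib.NormTool Matrix Polynomial
open scoped MatrixGroups

theorem not_sq5 : ∀ t : ZMod 5, t ^ 2 ≠ 1 → t ≠ 0 → ¬ IsSquare t := by
  intro t ht ht0 hsq
  obtain ⟨s, hs⟩ := hsq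
  revert ht ht0
  subst hs
  revert s
  decide

variable {F : Type*} [Field F] [Fintype F] {p : ℕ} [hp : Fact p.Prime] [CharP F p]

theorem ord_four {p : ℕ} (h : orderOf (p : ZMod 5) = 4) : (p : ZMod 5) ≠ 0 ∧ (p : ZMod 5) ^ 2 ≠ 1 := by
  haveI : Fact (Nat.Prime 5) := ⟨by norm_num⟩
  constructor
  · intro h0
    rw [h0, orderOf_zero] at h
    omega
  · intro h1
    have := orderOf_dvd_of_pow_eq_one h1
    rw [h] at this
    omega

/-- square roots of five -/
theorem exists_sqrt5 (hF : Fintype.card F = p ^ 2) (hp2 : p ≠ 2) (h : orderOf (p : ZMod 5) = 4) :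
    ∃ s : F, s ^ 2 = 5 ∧ s ^ p = -s := by
  haveI : Fact (Nat.Prime 5) := ⟨by norm_num⟩
  obtain ⟨hz, hsq⟩ := ord_four h
  have hp5 : p ≠ 5 := by
    rintro rfl
    exact hz (ZMod.natCast_self 5)
  have h5 : (5 : F) ≠ 0 := by
    intro h
    have := (CharP.cast_eq_zero_iff F p 5).1 (by exact_mod_cast h)
    exact hp5 ((Nat.prime_dvd_prime_iff_eq hp.out (by norm_num)).1 this)
  have hchar : ringChar F ≠ 2 := by
    rw [ringChar.eq F p]; exact hp2
  have hodd : Odd p := hp.out.odd_of_ne_two hp2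
  have h5p : (5 : F) ^ p = 5 := by
    have := map_natCast (frobenius F p) 5
    rw [frobenius_def] at this
    exact_mod_cast this
  have h5p1 : (5 : F) ^ (p - 1) = 1 := by
    have h1 : (5 : F) ^ (p - 1) * 5 = 1 * 5 := by
      rw [← pow_succ, one_mul, show p - 1 + 1 = p by have := hp.out.pos; omega, h5p]
    exact mul_right_cancel₀ h5 h1
  obtain ⟨s, hs⟩ : IsSquare (5 : F) := by
    rw [FiniteField.isSquare_iff hchar h5, hF]
    obtain ⟨k, hk⟩ := hodd
    have : p ^ 2 / 2 = (p - 1) * (k + 1) := by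
      rw [hk]
      have : (2 * k + 1) ^ 2 = 2 * ((2 * k + 1 - 1) * (k + 1)) + 1 := by
        rw [Nat.add_sub_cancel]; ring
      omega
    rw [this, pow_mul, h5p1, one_pow]
  have hs2 : s ^ 2 = 5 := by rw [hs, pow_two]
  refine ⟨s, hs2, ?_⟩
  have h1 : (s ^ p - s) * (s ^ p + s) = 0 := by
    have : (s ^ p) ^ 2 = s ^ 2 := by rw [← pow_mul, mul_comm, pow_mul, hs2, h5p]
    linear_combination this
  rcases mul_eq_zero.1 h1 with h2 | h2
  · exfalso
    have h3 : s ∈ (⊥ : Subfield F) := (Subfield.mem_bot_iff_pow_eq_self F p).2 (sub_eq_zero.1 h2)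
    rw [← ZMod.fieldRange_castHom_eq_bot p] at h3
    obtain ⟨t, ht⟩ := h3
    have h4 : ((5 : ℕ) : ZMod p) = t * t := by
      apply (ZMod.castHom (dvd_refl p) F).injective
      rw [map_mul, ht, ← hs, map_natCast]; norm_num
    have h5 : IsSquare ((p : ℕ) : ZMod 5) := (ZMod.exists_sq_eq_prime_iff_of_mod_four_eq_one (p := 5) (q := p) (by norm_num) hp2).2 ⟨t, h4⟩
    exact not_sq5 _ hsq hz h5
  · linear_combination h2

omit [CharP F p] in
theorem root5 (hF : Fintype.card F = p ^ 2) (h : orderOf (p : ZMod 5) = 4) {l : F} (hl : l ^ 5 = 1) : l = 1 := by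
  obtain ⟨hz, hsq⟩ := ord_four h
  have hl0 : l ≠ 0 := by rintro rfl; norm_num at hl
  by_contra hl1
  have h1 : orderOf (Units.mk0 l hl0) = 5 := by
    haveI : Fact (Nat.Prime 5) := ⟨by norm_num⟩
    exact orderOf_eq_prime (Units.ext hl) (fun h => hl1 (congrArg Units.val h))
  have h2 := orderOf_dvd_natCard (Units.mk0 l hl0)
  rw [h1, Nat.card_units, Nat.card_eq_fintype_card, hF] at h2
  apply hsq
  have h3 : ((p ^ 2 - 1 : ℕ) : ZMod 5) = 0 := (ZMod.natCast_eq_zero_iff _ _).2 h2
  rw [Nat.cast_sub (Nat.one_le_pow _ _ hp.out.pos), Nat.cast_pow, Nat.cast_one] at h3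
  exact sub_eq_zero.1 h3

/-- the characteristic polynomial of elements of order five -/
theorem charpoly_five (hF : Fintype.card F = p ^ 2) (hp2 : p ≠ 2) (h : orderOf (p : ZMod 5) = 4) {u : GL (Fin 4) F} (hu : u ∈ Cfsg.GU 4 F p)
    (hu5 : u ^ 5 = 1) (hne : u ≠ 1) {s : F} (hs : s ^ 2 = 5) (hsp : s ^ p = -s) :
    u.1.charpoly = (X ^ 2 - C ((-1 + s) / 2) * X + 1) * (X ^ 2 - C ((-1 - s) / 2) * X + 1) := by
  have h2 : (2 : F) ≠ 0 := by
    intro h
    have := (CharP.cast_eq_zero_iff F p 2).1 (by exact_mod_cast h)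
    exact hp2 ((Nat.prime_dvd_prime_iff_eq hp.out Nat.prime_two).1 this)
  obtain ⟨hz, hsq⟩ := ord_four h
  have h5 : (5 : F) ≠ 0 := by
    intro h
    have := (CharP.cast_eq_zero_iff F p 5).1 (by exact_mod_cast h)
    have h6 := (Nat.prime_dvd_prime_iff_eq hp.out (by norm_num)).1 this
    apply hz
    rw [h6]
    exact ZMod.natCast_self 5
  have hs0 : s ≠ 0 := by
    rintro rfl
    rw [zero_pow (by norm_num)] at hs
    exact h5 hs.symm
  set η := (-1 + s) / 2 with hη
  set η' := (-1 - s) / 2 with hη'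
  have e1 : η + η' = -1 := by rw [hη, hη']; field_simp; ring
  have e2 : η * η' = -1 := by rw [hη, hη']; field_simp; linear_combination -hs
  have e3 : η ^ p = η' := by
    have h3 : η ^ p = frobenius F p η := rfl
    rw [h3, hη, map_div₀, map_add, map_neg, map_one, map_ofNat]
    have h4 : frobenius F p s = -s := hsp
    rw [h4, hη']; ring
  have e4 : η - η' = s := by rw [hη, hη']; field_simp; ring
  have q1 : η ^ 2 = 1 - η := by
    have : η' = -1 - η := by linear_combination e1
    rw [this] at e2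
    linear_combination -e2
  have q2 : η' ^ 2 = 1 - η' := by
    have : η = -1 - η' := by linear_combination e1
    rw [this] at e2
    linear_combination -e2
  -- the two factors
  let f : F → F[X] := fun t => X ^ 2 - C t * X + 1
  have hfm : ∀ t, (f t).Monic := by
    intro t
    have : f t = X ^ 2 + (C (-t) * X + C 1) := by simp only [f, map_neg, C_1]; ring
    rw [this]
    apply monic_X_pow_add
    refine lt_of_le_of_lt (degree_linear_le) ?_
    norm_num
  have hfd : ∀ t, (f t).natDegree = 2 := by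
    intro t
    have : f t = X ^ 2 + (C (-t) * X + C 1) := by simp only [f, map_neg, C_1]; ring
    rw [this]
    compute_degree!
  have hprod : ∀ Y : F[X], (Y ^ 2 - C η * Y + 1) * (Y ^ 2 - C η' * Y + 1) * (Y - 1) = Y ^ 5 - 1 := by
    intro Y
    have c1 : C η + C η' = (-1 : F[X]) := by rw [← C_add, e1, C_neg, C_1]
    have c2 : C η * C η' = (-1 : F[X]) := by rw [← C_mul, e2, C_neg, C_1]
    linear_combination (-(Y ^ 3 + Y) * (Y - 1)) * c1 + (Y ^ 2 * (Y - 1)) * c2
  have hroot : ∀ t, (t = η ∨ t = η') → ∀ l : F, l ^ 2 - t * l + 1 ≠ 0 := by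
    intro t ht l hl
    have h3 : l ^ 5 = 1 := by
      have h4 := congrArg (eval l) (hprod X)
      simp only [eval_mul, eval_sub, eval_add, eval_pow, eval_X, eval_C, eval_one] at h4
      rcases ht with rfl | rfl
      · rw [hl, zero_mul, zero_mul] at h4; exact (sub_eq_zero.1 h4.symm)
      · rw [hl, mul_zero, zero_mul] at h4; exact (sub_eq_zero.1 h4.symm)
    have h4 := root5 hF h h3
    rw [h4] at hl
    have h6 : t = 2 := by linear_combination -hl
    apply h5
    rcases ht with rfl | rfl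
    · rw [h6] at q1; linear_combination q1
    · rw [h6] at q2; linear_combination q2
  have hirr : ∀ t, (t = η ∨ t = η') → Irreducible (f t) := by
    intro t ht
    apply irreducible_of_degree_le_three_of_not_isRoot
    · rw [hfd]; decide
    · intro l hl
      apply hroot t ht l
      simpa [f, IsRoot.def] using hl
  -- determinants
  have hui : (u⁻¹).1 * u.1 = 1 := by rw [← Units.val_mul, inv_mul_cancel]; rfl
  have hstu := st_eq_inv hF hu
  let A : F → Matrix (Fin 4) (Fin 4) F := fun t => u.1 * u.1 - t • u.1 + 1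
  have hAst : st (frob hF) (A η) = ((u⁻¹).1 * (u⁻¹).1) * A η' := by
    have h3 : st (frob hF) (A η) = (u⁻¹).1 * (u⁻¹).1 - η' • (u⁻¹).1 + 1 := by
      show st (frob hF) (u.1 * u.1 - η • u.1 + 1) = _
      rw [UnitStar.st_add, st_sub, UnitStar.st_mul, st_smul, hstu, UnitStar.st_one, e3]
    rw [h3]
    show _ = ((u⁻¹).1 * (u⁻¹).1) * (u.1 * u.1 - η' • u.1 + 1)
    have h4 : (u⁻¹).1 * (u⁻¹).1 * (u.1 * u.1) = 1 := by
      calc (u⁻¹).1 * (u⁻¹).1 * (u.1 * u.1) = (u⁻¹).1 * ((u⁻¹).1 * u.1) * u.1 := by simp only [Matrix.mul_assoc]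
        _ = 1 := by rw [hui, Matrix.mul_one, hui]
    have h6 : (u⁻¹).1 * (u⁻¹).1 * u.1 = (u⁻¹).1 := by rw [Matrix.mul_assoc, hui, Matrix.mul_one]
    rw [Matrix.mul_add, Matrix.mul_sub, Matrix.mul_smul, Matrix.mul_one, h4, h6]
    abel
  have hdet : (A η).det = 0 ↔ (A η').det = 0 := by
    have h3 : (st (frob hF) (A η)).det = (A η).det ^ p := by
      rw [st, Matrix.det_transpose]
      exact (RingHom.map_det (frob hF) (A η)).symm
    rw [hAst, Matrix.det_mul] at h3
    have h4 : ((u⁻¹).1 * (u⁻¹).1).det ≠ 0 := by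
      rw [← Units.val_mul]
      exact ((Matrix.isUnit_iff_isUnit_det _).1 (u⁻¹ * u⁻¹).isUnit).ne_zero
    constructor
    · intro h6
      rw [h6, zero_pow hp.out.ne_zero] at h3
      exact (mul_eq_zero.1 h3).resolve_left h4
    · intro h6
      rw [h6, mul_zero] at h3
      exact (pow_eq_zero_iff hp.out.ne_zero).1 h3.symm
  have haev : ∀ t, aeval u.1 (f t) = A t := by
    intro t
    simp only [f, A, map_add, map_sub, map_mul, map_pow, aeval_X, aeval_C, map_one, pow_two]
    rw [Algebra.algebraMap_eq_smul_one, Matrix.smul_mul, Matrix.one_mul]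
  have hAA : A η * A η' * (u.1 - 1) = 0 := by
    have h3 := congrArg (aeval u.1) (hprod X)
    rw [map_mul, map_mul, map_sub, map_sub, map_pow, aeval_X, map_one] at h3
    have h4 : u.1 ^ 5 = 1 := by rw [← Units.val_pow_eq_pow_val, hu5]; rfl
    rw [h4, sub_self] at h3
    rw [← haev, ← haev]
    exact h3
  have hsing : (A η).det = 0 ∧ (A η').det = 0 := by
    by_contra hcon
    have h3 : (A η).det ≠ 0 := by intro h; exact hcon ⟨h, hdet.1 h⟩
    have h4 : (A η').det ≠ 0 := by intro h; exact h3 (hdet.2 h)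
    have h6 : IsUnit (A η * A η') := by
      rw [Matrix.isUnit_iff_isUnit_det, Matrix.det_mul]
      exact (mul_ne_zero h3 h4).isUnit
    have h7 : u.1 - 1 = 0 := h6.mul_right_eq_zero.1 hAA
    exact hne (Units.ext (sub_eq_zero.1 h7))
  have hdvd : ∀ t, (t = η ∨ t = η') → f t ∣ u.1.charpoly := by
    intro t ht
    have h3 : (A t).det = 0 := by
      rcases ht with rfl | rfl
      · exact hsing.1
      · exact hsing.2
    by_contra hnd
    obtain ⟨a, b, hab⟩ := (Irreducible.coprime_iff_not_dvd (hirr t ht)).2 hnd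
    have h4 := congrArg (aeval u.1) hab
    rw [map_add, map_mul, map_mul, Matrix.aeval_self_charpoly, mul_zero, add_zero, map_one, haev] at h4
    have h6 := congrArg Matrix.det h4
    rw [Matrix.det_mul, h3, mul_zero, Matrix.det_one] at h6
    exact zero_ne_one h6
  have hcop : IsCoprime (f η) (f η') := by
    rw [Irreducible.coprime_iff_not_dvd (hirr η (Or.inl rfl))]
    intro hd
    have h3 := eq_of_monic_of_dvd_of_natDegree_le (hfm η) (hfm η') hd (by rw [hfd, hfd])
    have h4 := congrArg (fun g : F[X] => g.coeff 1) h3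
    simp only [f, coeff_add, coeff_sub, coeff_X_pow, coeff_C_mul, coeff_X_one, coeff_one] at h4
    apply hs0
    rw [← e4]
    norm_num at h4
    rw [h4, sub_self]
  have hdd := hcop.mul_dvd (hdvd η (Or.inl rfl)) (hdvd η' (Or.inr rfl))
  have hmm : (f η * f η').Monic := (hfm η).mul (hfm η')
  exact eq_of_monic_of_dvd_of_natDegree_le hmm (Matrix.charpoly_monic _) hdd (by
    rw [Matrix.charpoly_natDegree_eq_dim, (hfm η).natDegree_mul (hfm η'), hfd, hfd, Fintype.card_fin])

end Cfsg.Agent.Lib.UniTool
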