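import Cfsg.Agent.Lib.UniTool2
import Cfsg.Agent.Lib.InvolUnitMat
import Cfsg.Agent.Lib.Sesq
import Cfsg.Agent.Lib.PrimeOrd2
import Cfsg.Agent.Lib.ElusiveTool

/-! # Isometries fixing a pair of complementary totally singular subspaces -/

set_option autoImplicit false

namespace Cfsg.Agent.Lib.UniPair

open Cfsg.Agent.Lib.InvSub Cfsg.Agent.Lib.PrimeOrd Cfsg.Agent.Lib.Sesq Module

section abstract_part

variable {F V : Type*} [Field F] [AddCommGroup V] [Module F V] [FiniteDimensional F V] {σ : F →+* F} {B : V →ₗ[F] V →ₛₗ[σ] F}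

omit [FiniteDimensional F V] in
theorem finrank_map_add [FiniteDimensional F V] (S : Module.End F V) (D : Submodule F V) :
    finrank F (D.map S) + finrank F ↥(D ⊓ LinearMap.ker S) = finrank F D := by
  have h1 := LinearMap.finrank_range_add_finrank_ker (S.domRestrict D)
  rw [LinearMap.range_domRestrict] at h1
  have h2 : finrank F (LinearMap.ker (S.domRestrict D)) = finrank F ↥(D ⊓ LinearMap.ker S) := by
    rw [LinearMap.ker_domRestrict]
    have h3 : (Submodule.comap D.subtype (LinearMap.ker S)).map D.subtype = D ⊓ LinearMap.ker S := by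
      rw [Submodule.map_comap_subtype]
    rw [← h3]
    exact (LinearEquiv.finrank_eq (Submodule.equivMapOfInjective _ D.injective_subtype _))
  rw [← h2]; exact h1

omit [FiniteDimensional F V] in
theorem E_split {T : Module.End F V} {D0 D1 : Submodule F V} (h0 : Inv T D0) (h1 : Inv T D1) (hc : IsCompl D0 D1) (l : F) :
    E T l = (D0 ⊓ E T l) ⊔ (D1 ⊓ E T l) := by
  apply le_antisymm
  · intro v hv
    have hv' : v ∈ D0 ⊔ D1 := by rw [hc.sup_eq_top]; trivial
    obtain ⟨a, ha, b, hb, rfl⟩ := Submodule.mem_sup.1 hv'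
    have h2 := Module.End.mem_eigenspace_iff.1 hv
    rw [map_add, smul_add] at h2
    have h3 : T a - l • a = -(T b - l • b) := by
      rw [neg_sub, sub_eq_sub_iff_add_eq_add, h2, add_comm]
    have h4 : T a - l • a ∈ D0 := D0.sub_mem (h0 a ha) (D0.smul_mem l ha)
    have h5 : T a - l • a ∈ D1 := by rw [h3]; exact D1.neg_mem (D1.sub_mem (h1 b hb) (D1.smul_mem l hb))
    have h6 : T a - l • a = 0 := by
      have : T a - l • a ∈ D0 ⊓ D1 := ⟨h4, h5⟩
      rwa [hc.inf_eq_bot, Submodule.mem_bot] at this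
    rw [h6, zero_eq_neg] at h3
    exact Submodule.add_mem_sup ⟨ha, Module.End.mem_eigenspace_iff.2 (sub_eq_zero.1 h6)⟩ ⟨hb, Module.End.mem_eigenspace_iff.2 (sub_eq_zero.1 h3)⟩
  · exact sup_le inf_le_right inf_le_right

/-- eigenspaces of isometries fixing both members have even dimension -/
theorem even_eig [Finite F] (hr : Refl B) (hnd : ND B ⊤) {T : Module.End F V} (hT : Iso B T) {D0 D1 : Submodule F V} (h0 : Inv T D0) (h1 : Inv T D1)
    (hc : IsCompl D0 D1) (t0 : TI B D0) (t1 : TI B D1) (hdim : finrank F D0 = finrank F D1) {l : F} (hl : l * σ l = 1) : Even (finrank F (E T l)) := by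
  set S : Module.End F V := T - l • 1 with hS
  have hSa : ∀ v, S v = T v - l • v := fun v => rfl
  have hker : LinearMap.ker S = E T l := by
    ext v
    rw [LinearMap.mem_ker, hSa, sub_eq_zero, Module.End.mem_eigenspace_iff]
  set W := D0.map S with hW
  have hW0 : W ≤ D0 := by
    rintro _ ⟨u, hu, rfl⟩
    exact D0.sub_mem (h0 u hu) (D0.smul_mem l hu)
  have key : D1 ⊓ perp B W = D1 ⊓ E T l := by
    apply le_antisymm
    · rintro v ⟨hv1, hv⟩
      refine ⟨hv1, ?_⟩
      show v ∈ E T l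
      rw [Module.End.mem_eigenspace_iff, ← sub_eq_zero]
      apply hnd _ Submodule.mem_top
      intro w _
      have hw : w ∈ D0 ⊔ D1 := by rw [hc.sup_eq_top]; trivial
      obtain ⟨a, ha, b, hb, rfl⟩ := Submodule.mem_sup.1 hw
      have hd1 : T v - l • v ∈ D1 := D1.sub_mem (h1 v hv1) (D1.smul_mem l hv1)
      rw [map_add, t1 _ hd1 b hb, add_zero]
      apply hr
      have ha' : a ∈ D0.map T := by rw [hT.map_eq hnd h0]; exact ha
      obtain ⟨u, hu, rfl⟩ := ha'
      have e1 : B (S u) v = 0 := hv _ ⟨u, hu, rfl⟩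
      rw [hSa, map_sub, LinearMap.sub_apply, map_smul, LinearMap.smul_apply, smul_eq_mul, sub_eq_zero] at e1
      rw [map_sub, hT, map_smulₛₗ, smul_eq_mul, e1, ← mul_assoc, mul_comm (σ l) l, hl, one_mul, sub_self]
    · rintro v ⟨hv1, hv⟩
      refine ⟨hv1, ?_⟩
      rintro _ ⟨u, hu, rfl⟩
      have h2 := Module.End.mem_eigenspace_iff.1 hv
      have e1 : B u v = σ l * B (T u) v := by
        rw [← hT u v, h2, map_smulₛₗ, smul_eq_mul]
      rw [hSa, map_sub, LinearMap.sub_apply, map_smul, LinearMap.smul_apply, smul_eq_mul, e1, ← mul_assoc, hl, one_mul, sub_self]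
  have hp0 : D0 ≤ perp B W := fun v hv w hw => t0 w (hW0 hw) v hv
  have hpd : finrank F (perp B W) = finrank F D0 + finrank F ↥(D1 ⊓ perp B W) := by
    have e1 : D0 ⊔ (D1 ⊓ perp B W) = perp B W := by
      rw [← sup_inf_assoc_of_le D1 hp0, hc.sup_eq_top, top_inf_eq]
    have e2 : D0 ⊓ (D1 ⊓ perp B W) = ⊥ := by rw [← inf_assoc, hc.inf_eq_bot, bot_inf_eq]
    have e3 := Submodule.finrank_sup_add_finrank_inf_eq D0 (D1 ⊓ perp B W)
    rw [e1, e2, finrank_bot, add_zero] at e3
    exact e3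
  have hpp := finrank_add_perp hnd W
  have hmap := finrank_map_add S D0
  have hV := Submodule.finrank_add_eq_of_isCompl hc
  rw [hker] at hmap
  rw [key] at hpd
  have hE := E_split h0 h1 hc l
  have hE2 : finrank F (E T l) = finrank F ↥(D0 ⊓ E T l) + finrank F ↥(D1 ⊓ E T l) := by
    have e2 : (D0 ⊓ E T l) ⊓ (D1 ⊓ E T l) = ⊥ := by
      rw [eq_bot_iff, ← hc.inf_eq_bot]
      exact inf_le_inf inf_le_left inf_le_left
    have e3 := Submodule.finrank_sup_add_finrank_inf_eq (D0 ⊓ E T l) (D1 ⊓ E T l)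
    rw [e2, finrank_bot, add_zero, ← hE] at e3
    exact e3
  refine ⟨finrank F ↥(D0 ⊓ E T l), ?_⟩
  rw [← hW] at hmap
  omega

/-- eigenspaces of maps interchanging the two members -/
theorem swap_eig {T : Module.End F V} {D0 D1 : Submodule F V} (h01 : D0.map T = D1) (hc : IsCompl D0 D1) {l : F} (hl : l ≠ 0) :
    finrank F (E T l) + finrank F D0 ≤ finrank F V := by
  have h1 : E T l ⊓ D0 = ⊥ := by
    rw [eq_bot_iff]
    rintro v ⟨hv, hv0⟩
    have h2 : T v ∈ D1 := by rw [← h01]; exact ⟨v, hv0, rfl⟩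
    have h3 := Module.End.mem_eigenspace_iff.1 hv
    have h4 : T v ∈ D0 := by rw [h3]; exact D0.smul_mem l hv0
    have h5 : T v ∈ D0 ⊓ D1 := ⟨h4, h2⟩
    rw [hc.inf_eq_bot, Submodule.mem_bot, h3] at h5
    exact (smul_eq_zero.1 h5).resolve_left hl
  have h2 := Submodule.finrank_sup_add_finrank_inf_eq (E T l) D0
  rw [h1, finrank_bot, add_zero] at h2
  rw [← h2]
  exact Submodule.finrank_le _

end abstract_part

end Cfsg.Agent.Lib.UniPair
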