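import Cfsg.Agent.Lib.UniPair
import Cfsg.Prelude.Def_GeometricClasses

/-! # Hyperbolic coordinates for a pair of complementary totally singular subspaces -/

set_option autoImplicit false

namespace Cfsg.Agent.Lib.UniPair

open Cfsg.Agent.Lib.InvSub Cfsg.Agent.Lib.PrimeOrd Cfsg.Agent.Lib.Sesq Module Matrix
open Cfsg.Agent.Lib.ClUnitary (frob)
open Cfsg.Agent.Lib.UnitStar (st)
open scoped MatrixGroups

section concrete

variable {F : Type*} [Field F] [Fintype F] {q n m : ℕ}

/-- the form -/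
noncomputable abbrev HF (hF : Fintype.card F = q ^ 2) (n : ℕ) : (Fin n → F) →ₗ[F] (Fin n → F) →ₛₗ[frob hF] F :=
  InvolUnitMat.hermB n (frob hF) (fun _ => rfl)

theorem hf_herm (hF : Fintype.card F = q ^ 2) (u v : Fin n → F) : HF hF n u v = frob hF (HF hF n v u) :=
  InvolUnitMat.hermB_herm n (frob hF) (fun _ => rfl) (Cfsg.Agent.Lib.ClUnitary.frob_frob hF) u v

theorem hf_eq (hF : Fintype.card F = q ^ 2) (u v : Fin n → F) : HF hF n u v = ∑ i, u i * frob hF (v i) :=
  InvolUnitMat.hermB_eq n (frob hF) (fun _ => rfl) u v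

theorem hf_refl (hF : Fintype.card F = q ^ 2) : Refl (HF hF n) := by
  intro u v h
  rw [hf_herm hF, h, map_zero]

theorem hf_nd (hF : Fintype.card F = q ^ 2) : ND (HF hF n) ⊤ := by
  intro w _ h
  exact InvolUnitMat.hermB_nondeg n (frob hF) (fun _ => rfl) w (fun v => h v trivial)

theorem hf_iso (hF : Fintype.card F = q ^ 2) {x : GL (Fin n) F} (hx : x ∈ Cfsg.GU n F q) : Iso (HF hF n) (Matrix.toLin' x.1) := by
  intro u v
  exact hx u v

/-- the conjugate transpose -/
abbrev cs (hF : Fintype.card F = q ^ 2) {ι κ : Type} (E : Matrix ι κ F) : Matrix κ ι F := (E.map (frob hF)).transpose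

/-- the hyperbolic Gram matrix -/
abbrev J (F : Type*) [Field F] (m : ℕ) : Matrix (Fin m ⊕ Fin m) (Fin m ⊕ Fin m) F := fromBlocks 0 1 1 0

/-- hyperbolic coordinates -/
theorem exists_hyp (hF : Fintype.card F = q ^ 2) (hnm : n = m + m) {D : Fin 2 → Submodule F (Fin n → F)} (hD : Cfsg.Geo.IsMDecomposition m D)
    (hDs : ∀ i, Cfsg.Geo.IsTotallySingularFor (Cfsg.hermForm n F q) (D i)) :
    ∃ (E : Matrix (Fin n) (Fin m ⊕ Fin m) F) (E' : Matrix (Fin m ⊕ Fin m) (Fin n) F), E * E' = 1 ∧ E' * E = 1 ∧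
      cs hF E * E = J F m ∧ (∀ v, v ∈ D 0 ↔ ∃ u, v = E.mulVec (Sum.elim u 0)) ∧
      (∀ v, v ∈ D 1 ↔ ∃ u, v = E.mulVec (Sum.elim 0 u)) := by
  classical
  have t : ∀ i, TI (HF hF n) (D i) := fun i u hu v hv => hDs i u hu v hv
  have hc : IsCompl (D 0) (D 1) := by
    constructor
    · exact hD.indep.pairwiseDisjoint (show (0 : Fin 2) ≠ 1 by decide)
    · rw [codisjoint_iff, eq_top_iff, ← hD.iSup_eq_top]
      refine iSup_le (fun i => ?_)
      fin_cases i
      · exact le_sup_left
      · exact le_sup_right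
  let b := Module.finBasisOfFinrankEq F (D 0) (hD.finrank_eq 0)
  let L : D 1 →ₗ[F] (Fin m → F) := LinearMap.pi fun i => ((HF hF n).flip (b i).1).domRestrict (D 1)
  have hL : ∀ w i, L w i = HF hF n w.1 (b i).1 := fun w i => rfl
  have hLi : Function.Injective L := by
    rw [injective_iff_map_eq_zero]
    intro w hw
    have h1 : ∀ u ∈ D 0, HF hF n w.1 u = 0 := by
      intro u hu
      have h2 := b.sum_repr ⟨u, hu⟩
      have h3 : u = ∑ i, b.repr ⟨u, hu⟩ i • (b i).1 := by
        have := congrArg Subtype.val h2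
        rw [AddSubmonoidClass.coe_finsetSum] at this
        exact this.symm
      rw [h3, map_sum]
      refine Finset.sum_eq_zero (fun i _ => ?_)
      rw [LinearMap.map_smulₛₗ, ← hL, hw]
      exact smul_zero _
    have h4 : w.1 = 0 := by
      apply hf_nd hF _ trivial
      intro u _
      have hu : u ∈ D 0 ⊔ D 1 := by rw [hc.sup_eq_top]; trivial
      obtain ⟨a, ha, b, hb, rfl⟩ := Submodule.mem_sup.1 hu
      rw [map_add, h1 a ha, t 1 _ w.2 b hb, add_zero]
    exact Subtype.ext h4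
  have hLs : Function.Surjective L := by
    rw [← LinearMap.injective_iff_surjective_of_finrank_eq_finrank]
    · exact hLi
    · rw [hD.finrank_eq 1, Module.finrank_fin_fun]
  choose c hc' using fun j : Fin m => hLs (Pi.single j 1)
  let E : Matrix (Fin n) (Fin m ⊕ Fin m) F := fun i j => Sum.elim (fun k => (b k).1 i) (fun k => (c k).1 i) j
  have hgram : cs hF E * E = J F m := by
    have key : ∀ a b' : Fin m ⊕ Fin m, (cs hF E * E) a b' = HF hF n (fun i => E i b') (fun i => E i a) := by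
      intro a b'
      rw [Matrix.mul_apply]
      refine Eq.trans (Finset.sum_congr rfl (fun i _ => ?_)) (hf_eq hF _ _).symm
      exact mul_comm _ _
    ext a b'
    rw [key]
    rcases a with i | i <;> rcases b' with j | j
    · exact t 0 _ (b j).2 _ (b i).2
    · have : HF hF n (c j).1 (b i).1 = L (c j) i := rfl
      show HF hF n (c j).1 (b i).1 = (1 : Matrix (Fin m) (Fin m) F) i j
      rw [this, hc', Pi.single_apply, Matrix.one_apply]
    · have : HF hF n (c i).1 (b j).1 = L (c i) j := rfl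
      show HF hF n (b j).1 (c i).1 = (1 : Matrix (Fin m) (Fin m) F) i j
      rw [hf_herm, this, hc', Pi.single_apply, Matrix.one_apply]
      by_cases h : i = j
      · subst h; simp
      · rw [if_neg h, if_neg (fun h' => h h'.symm), map_zero]
    · exact t 1 _ (c j).2 _ (c i).2
  have hJJ : J F m * J F m = 1 := by
    rw [fromBlocks_multiply, ← fromBlocks_one]
    congr 1 <;> simp
  refine ⟨E, J F m * cs hF E, ?_, ?_, hgram, ?_, ?_⟩
  · refine (Matrix.mul_eq_one_comm_of_card_eq (Fin n) (Fin m ⊕ Fin m) F (by rw [Fintype.card_fin, Fintype.card_sum, Fintype.card_fin, hnm])).2 ?_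
    rw [Matrix.mul_assoc, hgram, hJJ]
  · rw [Matrix.mul_assoc, hgram, hJJ]
  · intro v
    constructor
    · intro hv
      refine ⟨b.repr ⟨v, hv⟩, ?_⟩
      have h3 := congrArg Subtype.val (b.sum_repr ⟨v, hv⟩)
      rw [AddSubmonoidClass.coe_finsetSum] at h3
      refine h3.symm.trans ?_
      funext i
      rw [Matrix.mulVec, dotProduct, Fintype.sum_sum_type]
      simp only [Finset.sum_apply, Sum.elim_inl, Sum.elim_inr, Pi.zero_apply, mul_zero, Finset.sum_const_zero, add_zero]
      refine Finset.sum_congr rfl (fun j _ => ?_)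
      exact mul_comm _ _
    · rintro ⟨u, rfl⟩
      have : E.mulVec (Sum.elim u 0) = ∑ j, u j • (b j).1 := by
        funext i
        rw [Matrix.mulVec, dotProduct, Fintype.sum_sum_type]
        simp only [Finset.sum_apply, Sum.elim_inl, Sum.elim_inr, Pi.zero_apply, mul_zero, Finset.sum_const_zero, add_zero]
        refine Finset.sum_congr rfl (fun j _ => ?_)
        exact mul_comm _ _
      rw [this]
      exact Submodule.sum_mem _ (fun j _ => Submodule.smul_mem _ _ (b j).2)
  · have hcb : ∀ v ∈ D 1, v = ∑ j, (HF hF n v (b j).1) • (c j).1 := by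
      intro v hv
      have h1 : (⟨v, hv⟩ : D 1) = ∑ j, (HF hF n v (b j).1) • c j := by
        apply hLi
        funext i
        rw [map_sum, Finset.sum_apply]
        simp only [map_smul, hc', Pi.smul_apply, Pi.single_apply, smul_eq_mul, mul_ite, mul_one, mul_zero, Finset.sum_ite_eq, Finset.mem_univ, if_true]
        rfl
      have := congrArg Subtype.val h1
      rw [AddSubmonoidClass.coe_finsetSum] at this
      exact this
    intro v
    constructor
    · intro hv
      refine ⟨fun j => HF hF n v (b j).1, ?_⟩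
      conv_lhs => rw [hcb v hv]
      funext i
      rw [Matrix.mulVec, dotProduct, Fintype.sum_sum_type]
      simp only [Finset.sum_apply, Sum.elim_inl, Sum.elim_inr, Pi.zero_apply, mul_zero, Finset.sum_const_zero, zero_add]
      refine Finset.sum_congr rfl (fun j _ => ?_)
      exact mul_comm _ _
    · rintro ⟨u, rfl⟩
      have : E.mulVec (Sum.elim 0 u) = ∑ j, u j • (c j).1 := by
        funext i
        rw [Matrix.mulVec, dotProduct, Fintype.sum_sum_type]
        simp only [Finset.sum_apply, Sum.elim_inl, Sum.elim_inr, Pi.zero_apply, mul_zero, Finset.sum_const_zero, zero_add]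
        refine Finset.sum_congr rfl (fun j _ => ?_)
        exact mul_comm _ _
      rw [this]
      exact Submodule.sum_mem _ (fun j _ => Submodule.smul_mem _ _ (c j).2)

/-- the conjugate transpose of the inverse -/
noncomputable abbrev dualM (hF : Fintype.card F = q ^ 2) (A : GL (Fin m) F) : Matrix (Fin m) (Fin m) F := st (frob hF) (A⁻¹).1

/-- `A` on the first member and its dual on the second -/
noncomputable def yM (hF : Fintype.card F = q ^ 2) {E : Matrix (Fin n) (Fin m ⊕ Fin m) F} {E' : Matrix (Fin m ⊕ Fin m) (Fin n) F} (h1 : E * E' = 1) (h2 : E' * E = 1) :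
    GL (Fin m) F →* Matrix (Fin n) (Fin n) F where
  toFun A := E * fromBlocks A.1 0 0 (dualM hF A) * E'
  map_one' := by
    show E * fromBlocks (1 : Matrix _ _ F) 0 0 (dualM hF 1) * E' = 1
    rw [dualM, inv_one]
    show E * fromBlocks (1 : Matrix _ _ F) 0 0 (st (frob hF) 1) * E' = 1
    rw [UnitStar.st_one, fromBlocks_one, Matrix.mul_one, h1]
  map_mul' A B := by
    have e1 : fromBlocks (A * B).1 0 0 (dualM hF (A * B)) = fromBlocks A.1 0 0 (dualM hF A) * fromBlocks B.1 0 0 (dualM hF B) := by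
      rw [fromBlocks_multiply]
      simp only [Matrix.mul_zero, Matrix.zero_mul, add_zero, zero_add]
      congr 1
      rw [dualM, _root_.mul_inv_rev, Units.val_mul, UnitStar.st_mul]
    rw [e1]
    have e2 : ∀ X Y : Matrix (Fin m ⊕ Fin m) (Fin m ⊕ Fin m) F, E * (X * Y) * E' = (E * X * E') * (E * Y * E') := by
      intro X Y
      have e3 : (E * X * E') * (E * Y * E') = E * X * (E' * E) * (Y * E') := by simp only [Matrix.mul_assoc]
      rw [e3, h2, Matrix.mul_one]; simp only [Matrix.mul_assoc]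
    exact e2 _ _

/-- the isometries fixing both members -/
noncomputable def yG (hF : Fintype.card F = q ^ 2) {E : Matrix (Fin n) (Fin m ⊕ Fin m) F} {E' : Matrix (Fin m ⊕ Fin m) (Fin n) F} (h1 : E * E' = 1) (h2 : E' * E = 1) :
    GL (Fin m) F →* GL (Fin n) F := (yM hF h1 h2).toHomUnits

theorem yG_val (hF : Fintype.card F = q ^ 2) {E : Matrix (Fin n) (Fin m ⊕ Fin m) F} {E' : Matrix (Fin m ⊕ Fin m) (Fin n) F} (h1 : E * E' = 1) (h2 : E' * E = 1)
    (A : GL (Fin m) F) : (yG hF h1 h2 A).1 = E * fromBlocks A.1 0 0 (dualM hF A) * E' := rfl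

theorem yG_inj (hF : Fintype.card F = q ^ 2) {E : Matrix (Fin n) (Fin m ⊕ Fin m) F} {E' : Matrix (Fin m ⊕ Fin m) (Fin n) F} (h1 : E * E' = 1) (h2 : E' * E = 1) :
    Function.Injective (yG hF h1 h2) := by
  intro A B h
  have h3 : E * fromBlocks A.1 0 0 (dualM hF A) * E' = E * fromBlocks B.1 0 0 (dualM hF B) * E' := congrArg Units.val h
  have h4 : ∀ X : Matrix (Fin m ⊕ Fin m) (Fin m ⊕ Fin m) F, E' * (E * X * E') * E = X := by
    intro X
    rw [Matrix.mul_assoc, Matrix.mul_assoc, Matrix.mul_assoc, h2, Matrix.mul_one, ← Matrix.mul_assoc, h2, Matrix.one_mul]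
  have h5 : fromBlocks A.1 0 0 (dualM hF A) = fromBlocks B.1 0 0 (dualM hF B) := by rw [← h4 (fromBlocks A.1 0 0 (dualM hF A)), h3, h4]
  rw [fromBlocks_inj] at h5
  exact Units.ext h5.1

theorem yG_mem (hF : Fintype.card F = q ^ 2) {E : Matrix (Fin n) (Fin m ⊕ Fin m) F} {E' : Matrix (Fin m ⊕ Fin m) (Fin n) F} (h1 : E * E' = 1) (h2 : E' * E = 1)
    (hg : cs hF E * E = J F m) (A : GL (Fin m) F) : yG hF h1 h2 A ∈ Cfsg.GU n F q := by
  rw [UniTool.mem_GU hF, yG_val]
  set X := fromBlocks A.1 0 0 (dualM hF A) with hX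
  have hXs : cs hF X = fromBlocks (st (frob hF) A.1) 0 0 (A⁻¹).1 := by
    have e2 : (0 : Matrix (Fin m) (Fin m) F).map (frob hF) = 0 := by
      ext i j; exact map_zero (frob hF)
    rw [hX]
    refine (congrArg Matrix.transpose (fromBlocks_map A.1 0 0 (dualM hF A) (frob hF))).trans ?_
    rw [fromBlocks_transpose, e2, Matrix.transpose_zero]
    congr 1
    exact UnitStar.st_st _ (Cfsg.Agent.Lib.ClUnitary.frob_frob hF) (A⁻¹).1
  have hs : st (frob hF) (E * X * E') = cs hF E' * cs hF X * cs hF E := by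
    rw [st, Matrix.map_mul, Matrix.map_mul, Matrix.transpose_mul, Matrix.transpose_mul, Matrix.mul_assoc]
  have hJ : cs hF X * J F m * X = J F m := by
    have e3 : st (frob hF) A.1 * dualM hF A = 1 := by
      rw [dualM, ← UnitStar.st_mul, ← Units.val_mul, inv_mul_cancel]
      exact UnitStar.st_one _
    have e4 : (A⁻¹).1 * A.1 = 1 := by rw [← Units.val_mul, inv_mul_cancel]; rfl
    rw [hXs, hX, fromBlocks_multiply, fromBlocks_multiply]
    simp only [Matrix.mul_zero, Matrix.zero_mul, Matrix.mul_one, add_zero, zero_add, e3, e4]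
  have hEs : cs hF E' * cs hF E = 1 := by
    rw [← Matrix.transpose_mul, ← Matrix.map_mul, h1]
    have : (1 : Matrix (Fin n) (Fin n) F).map (frob hF) = 1 := Matrix.map_one _ (map_zero _) (map_one _)
    rw [this, Matrix.transpose_one]
  calc st (frob hF) (E * X * E') * (E * X * E') = cs hF E' * (cs hF X * (cs hF E * E) * X) * E' := by
        rw [hs]; simp only [Matrix.mul_assoc]
    _ = cs hF E' * (cs hF E * E) * E' := by rw [hg, hJ]
    _ = cs hF E' * cs hF E * (E * E') := by simp only [Matrix.mul_assoc]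
    _ = 1 := by rw [h1, hEs, Matrix.mul_one]

theorem yG_det (hF : Fintype.card F = q ^ 2) {E : Matrix (Fin n) (Fin m ⊕ Fin m) F} {E' : Matrix (Fin m ⊕ Fin m) (Fin n) F} (h1 : E * E' = 1) (h2 : E' * E = 1)
    (A : GL (Fin m) F) : (yG hF h1 h2 A).1.det = A.1.det * ((A⁻¹).1.det) ^ q := by
  rw [yG_val, Matrix.det_conj_of_mul_eq_one h1 h2, Matrix.det_fromBlocks_zero₂₁]
  congr 1
  rw [dualM, st, Matrix.det_transpose]
  exact ((frob hF).map_det (A⁻¹).1).symm

theorem yG_stab (hF : Fintype.card F = q ^ 2) {E : Matrix (Fin n) (Fin m ⊕ Fin m) F} {E' : Matrix (Fin m ⊕ Fin m) (Fin n) F} (h1 : E * E' = 1) (h2 : E' * E = 1)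
    {D : Fin 2 → Submodule F (Fin n → F)} (d0 : ∀ v, v ∈ D 0 ↔ ∃ u, v = E.mulVec (Sum.elim u 0)) (d1 : ∀ v, v ∈ D 1 ↔ ∃ u, v = E.mulVec (Sum.elim 0 u))
    (A : GL (Fin m) F) : yG hF h1 h2 A ∈ Cfsg.Geo.decompositionStabilizer D := by
  have key : ∀ (A : GL (Fin m) F) i, (D i).map (Matrix.toLin' (yG hF h1 h2 A).1) ≤ D i := by
    intro A i
    rintro _ ⟨v, hv, rfl⟩
    rw [Matrix.toLin'_apply, yG_val]
    fin_cases i
    · obtain ⟨u, rfl⟩ := (d0 v).1 hv
      refine (d0 _).2 ⟨A.1.mulVec u, ?_⟩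
      rw [Matrix.mulVec_mulVec, Matrix.mul_assoc, h2, Matrix.mul_one, ← Matrix.mulVec_mulVec, fromBlocks_mulVec]
      simp
    · obtain ⟨u, rfl⟩ := (d1 v).1 hv
      refine (d1 _).2 ⟨(dualM hF A).mulVec u, ?_⟩
      rw [Matrix.mulVec_mulVec, Matrix.mul_assoc, h2, Matrix.mul_one, ← Matrix.mulVec_mulVec, fromBlocks_mulVec]
      simp
  refine ⟨1, fun i => le_antisymm (key A i) ?_⟩
  intro v hv
  refine ⟨Matrix.toLin' (yG hF h1 h2 A⁻¹).1 v, key A⁻¹ i ⟨v, hv, rfl⟩, ?_⟩
  rw [← Matrix.toLin'_mul_apply, ← Units.val_mul, ← map_mul, mul_inv_cancel, map_one, Units.val_one, Matrix.toLin'_one]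
  rfl

end concrete

end Cfsg.Agent.Lib.UniPair
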