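import Cfsg.Agent.Lib.UniPair3
import Cfsg.Agent.Lib.UniPair4

/-! # Involutions of the projective special unitary group and polar pairs -/

set_option autoImplicit false

namespace Cfsg.Agent.Lib.UniPair

open Cfsg.Agent.Lib.InvSub Cfsg.Agent.Lib.PrimeOrd Cfsg.Agent.Lib.Sesq Module Matrix Cfsg.Agent.Lib.AltSim
open Cfsg.Agent.Lib.ClUnitary (frob)
open Cfsg.Agent.Lib.UnitStar (st)
open Cfsg.Agent.Lib.NormTool (mem_SL_iff)
open scoped MatrixGroups

section concrete

variable {F : Type*} [Field F] [Fintype F] {q n m : ℕ}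

omit [Fintype F] in
/-- matrices from linear conjugation -/
theorem exists_GL_of_equiv {x y : GL (Fin n) F} (g : (Fin n → F) ≃ₗ[F] (Fin n → F)) (h : ∀ v, g (Matrix.toLin' x.1 v) = Matrix.toLin' y.1 (g v)) :
    ∃ k : GL (Fin n) F, k⁻¹ * x * k = y := by
  let G : GL (Fin n) F := ⟨LinearMap.toMatrix' g.toLinearMap, LinearMap.toMatrix' g.symm.toLinearMap,
    by rw [← LinearMap.toMatrix'_comp, LinearEquiv.comp_coe, LinearEquiv.symm_trans_self]; exact LinearMap.toMatrix'_id,
    by rw [← LinearMap.toMatrix'_comp, LinearEquiv.comp_coe, LinearEquiv.self_trans_symm]; exact LinearMap.toMatrix'_id⟩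
  refine ⟨G⁻¹, ?_⟩
  rw [inv_inv, mul_inv_eq_iff_eq_mul]
  apply Units.ext
  rw [Units.val_mul, Units.val_mul]
  apply Matrix.toLin'.injective
  rw [Matrix.toLin'_mul, Matrix.toLin'_mul]
  have : Matrix.toLin' G.1 = g.toLinearMap := Matrix.toLin'_toMatrix' _
  rw [this]
  apply LinearMap.ext
  intro v
  exact h v

omit [Fintype F] in
theorem toLin_pow (x : GL (Fin n) F) (k : ℕ) : (Matrix.toLin' x.1) ^ k = Matrix.toLin' (x ^ k).1 := by
  have e1 := map_pow (Matrix.toLinAlgEquiv' (R := F) (n := Fin n)) x.1 k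
  rw [Units.val_pow_eq_pow_val]
  exact e1.symm

/-- conjugation in the unitary group of elements with the same scalar square -/
theorem conj_sq (hF : Fintype.card F = q ^ 2) (p : ℕ) [hp : Fact p.Prime] [CharP F p] (h2 : (2 : F) ≠ 0) {x y : GL (Fin n) F}
    (hx : x ∈ Cfsg.GU n F q ⊓ Cfsg.Geo.specialLinear (Fin n) F) (hy : y ∈ Cfsg.GU n F q) {c : F} (hc : c ≠ 0)
    (hcn : (c ^ 2) ^ (q + 1) = 1)
    (hxc : (x ^ 2).1 = (c ^ 2) • (1 : Matrix (Fin n) (Fin n) F)) (hyc : (y ^ 2).1 = (c ^ 2) • (1 : Matrix (Fin n) (Fin n) F))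
    (he : finrank F (E (Matrix.toLin' x.1) (-c)) = finrank F (E (Matrix.toLin' y.1) (-c))) :
    ∃ g ∈ Cfsg.GU n F q ⊓ Cfsg.Geo.specialLinear (Fin n) F, g⁻¹ * x * g = y := by
  have hTx : (Matrix.toLin' x.1) ^ 2 = (c ^ 2) • (1 : Module.End F (Fin n → F)) := by
    rw [toLin_pow, hxc, map_smul, Matrix.toLin'_one]; rfl
  have hTy : (Matrix.toLin' y.1) ^ 2 = (c ^ 2) • (1 : Module.End F (Fin n → F)) := by
    rw [toLin_pow, hyc, map_smul, Matrix.toLin'_one]; rfl
  obtain ⟨g, hg⟩ := ElusiveTool.conj_of_sq h2 hc hTx hTy rfl he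
  obtain ⟨k, hk⟩ := exists_GL_of_equiv g hg
  refine UniTool.conj_SU_of_conj hF p hx hy hk (m := 2 * (q + 1)) ?_ ?_
  · apply Units.ext
    rw [pow_mul, Units.val_pow_eq_pow_val, hxc, _root_.smul_pow, one_pow, hcn, one_smul]
    rfl
  · have hpp := hp.out
    have hp2 : p ≠ 2 := by
      rintro rfl
      exact h2 (by exact_mod_cast CharP.cast_eq_zero F 2)
    have hpq : p ∣ q := by
      obtain ⟨k, hk, hc⟩ := FiniteField.card F p
      have : p ∣ q ^ 2 := by rw [← hF, hc]; exact dvd_pow_self p (by have := k.pos; omega)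
      exact hpp.dvd_of_dvd_pow this
    apply Nat.Coprime.mul_left
    · exact ((Nat.coprime_primes Nat.prime_two hpp).2 (Ne.symm hp2))
    · rw [Nat.coprime_comm, Nat.Prime.coprime_iff_not_dvd hpp]
      intro h
      have : p ∣ 1 := (Nat.dvd_add_right hpq).1 h
      exact hpp.one_lt.ne' (Nat.dvd_one.1 this)

theorem yes_core (hF : Fintype.card F = q ^ 2) (p : ℕ) [hp : Fact p.Prime] [CharP F p] (h2 : (2 : F) ≠ 0) (hnm : n = m + m)
    {D : Fin 2 → Submodule F (Fin n → F)} (hD : Cfsg.Geo.IsMDecomposition m D)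
    (hDs : ∀ i, Cfsg.Geo.IsTotallySingularFor (Cfsg.hermForm n F q) (D i)) {x : GL (Fin n) F} (hx : x ∈ Cfsg.GU n F q ⊓ Cfsg.Geo.specialLinear (Fin n) F)
    {c : F} (hc : c ≠ 0) (hcn : (c ^ 2) ^ (q + 1) = 1) (hxc : (x ^ 2).1 = (c ^ 2) • (1 : Matrix (Fin n) (Fin n) F))
    (a b : Fin m → F) (hab : ∀ i, b i = ((a i)⁻¹) ^ q) (ha2 : ∀ i, a i ^ 2 = c ^ 2) (hb2 : ∀ i, b i ^ 2 = c ^ 2)
    (he : finrank F (E (Matrix.toLin' x.1) (-c)) = Nat.card {i // a i = -c} + Nat.card {i // b i = -c}) :
    ∃ g ∈ Cfsg.GU n F q ⊓ Cfsg.Geo.specialLinear (Fin n) F, g⁻¹ * x * g ∈ Cfsg.Geo.decompositionStabilizer D := by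
  classical
  obtain ⟨M, M', h1, h2', hg, d0, d1⟩ := exists_hyp hF hnm hD hDs
  have ha0 : ∀ i, a i ≠ 0 := by
    intro i h
    have := ha2 i
    rw [h, zero_pow (by norm_num)] at this
    exact pow_ne_zero 2 hc this.symm
  let A : GL (Fin m) F := ⟨Matrix.diagonal a, Matrix.diagonal (fun i => (a i)⁻¹), by
      rw [Matrix.diagonal_mul_diagonal, ← Matrix.diagonal_one]
      congr 1; funext i; exact mul_inv_cancel₀ (ha0 i), by
      rw [Matrix.diagonal_mul_diagonal, ← Matrix.diagonal_one]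
      congr 1; funext i; exact inv_mul_cancel₀ (ha0 i)⟩
  have hAd : dualM hF A = Matrix.diagonal b := by
    show st (frob hF) (Matrix.diagonal (fun i => (a i)⁻¹)) = _
    rw [st, Matrix.diagonal_map (map_zero _), Matrix.diagonal_transpose]
    congr 1
    funext i
    exact (hab i).symm
  have hyv : (yG hF h1 h2' A).1 = M * Matrix.diagonal (Sum.elim a b) * M' := by
    rw [yG_val, hAd]
    show M * fromBlocks (Matrix.diagonal a) 0 0 (Matrix.diagonal b) * M' = _
    rw [Matrix.fromBlocks_diagonal]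
  have hy2 : ((yG hF h1 h2' A) ^ 2).1 = (c ^ 2) • (1 : Matrix (Fin n) (Fin n) F) := by
    have e1 : M * Matrix.diagonal (Sum.elim a b) * M' * (M * Matrix.diagonal (Sum.elim a b) * M') =
        M * (Matrix.diagonal (Sum.elim a b) * (M' * M) * Matrix.diagonal (Sum.elim a b)) * M' := by simp only [Matrix.mul_assoc]
    have e2 : Matrix.diagonal (Sum.elim a b) * Matrix.diagonal (Sum.elim a b) = (c ^ 2) • (1 : Matrix (Fin m ⊕ Fin m) (Fin m ⊕ Fin m) F) := by
      rw [Matrix.diagonal_mul_diagonal, Matrix.smul_one_eq_diagonal]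
      congr 1
      funext i
      rw [← pow_two]
      rcases i with i | i
      · exact ha2 i
      · exact hb2 i
    rw [pow_two, Units.val_mul, hyv, e1, h2', Matrix.mul_one, e2, Matrix.mul_smul, Matrix.mul_one, Matrix.smul_mul, h1]
  have hyf : finrank F (E (Matrix.toLin' (yG hF h1 h2' A).1) (-c)) = Nat.card {i // a i = -c} + Nat.card {i // b i = -c} := by
    let e : (Fin n → F) ≃ₗ[F] (Fin m ⊕ Fin m → F) := LinearEquiv.ofLinear (Matrix.toLin' M') (Matrix.toLin' M)
      (by rw [← Matrix.toLin'_mul, h2', Matrix.toLin'_one]) (by rw [← Matrix.toLin'_mul, h1, Matrix.toLin'_one])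
    have he1 : ∀ v, e v = M' *ᵥ v := fun v => rfl
    have h3 := Cfsg.Agent.Lib.SpConj.finrank_E_conj (T := Matrix.toLin' (yG hF h1 h2' A).1) (S := Matrix.toLin' (Matrix.diagonal (Sum.elim a b))) e (fun v => by
      rw [he1, he1, Matrix.toLin'_apply, Matrix.toLin'_apply, Matrix.mulVec_mulVec, Matrix.mulVec_mulVec, hyv]
      have : M' * (M * Matrix.diagonal (Sum.elim a b) * M') = (M' * M) * (Matrix.diagonal (Sum.elim a b) * M') := by simp only [Matrix.mul_assoc]
      rw [this, h2', Matrix.one_mul]) (-c)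
    rw [h3, ElusiveTool.finrank_E_diag, Nat.card_eq_fintype_card, Nat.card_eq_fintype_card, Fintype.card_subtype, Fintype.card_subtype,
      Finset.card_filter, Finset.card_filter, Finset.card_filter, Fintype.sum_sum_type]
    rfl
  obtain ⟨g, hgm, hgy⟩ := conj_sq hF p h2 hx (yG_mem hF h1 h2' hg A) hc hcn hxc hy2 (he.trans hyf.symm)
  exact ⟨g, hgm, by rw [hgy]; exact yG_stab hF h1 h2' d0 d1 A⟩

/-- the sufficiency -/
theorem yes_dir (hF : Fintype.card F = q ^ 2) (p : ℕ) [hp : Fact p.Prime] [CharP F p] (hodd : Odd q) (hv : padicValNat 2 (q + 1) ≤ padicValNat 2 n)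
    (hnm : n = m + m) (hm : 0 < m)
    {D : Fin 2 → Submodule F (Fin n → F)} (hD : Cfsg.Geo.IsMDecomposition m D)
    (hDs : ∀ i, Cfsg.Geo.IsTotallySingularFor (Cfsg.hermForm n F q) (D i)) {x : GL (Fin n) F} (hx : x ∈ Cfsg.GU n F q ⊓ Cfsg.Geo.specialLinear (Fin n) F)
    {z : F} (hz : (x ^ 2).1 = z • (1 : Matrix (Fin n) (Fin n) F)) :
    ∃ g ∈ Cfsg.GU n F q ⊓ Cfsg.Geo.specialLinear (Fin n) F, g⁻¹ * x * g ∈ Cfsg.Geo.decompositionStabilizer D := by
  classical
  have hodd2 : Odd (Fintype.card F) := by rw [hF]; exact hodd.pow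
  have h2 : (2 : F) ≠ 0 := Sesq.two_ne_zero_of_odd hodd2
  have hn : 0 < n := by omega
  have hzn : z ^ (q + 1) = 1 := UniTool.scalar_norm hF hn (pow_mem hx 2).1 hz
  have hz0 : z ≠ 0 := by rintro rfl; rw [zero_pow (by omega)] at hzn; exact zero_ne_one hzn
  obtain ⟨c, hcz⟩ : IsSquare z := by
    rw [FiniteField.isSquare_iff (by
      intro h
      have h3 := ringChar.Nat.cast_ringChar (R := F)
      rw [h] at h3
      exact h2 (by exact_mod_cast h3)) hz0, hF]
    obtain ⟨k, hk⟩ := hodd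
    have : q ^ 2 / 2 = (q + 1) * k := by
      have : q ^ 2 = 1 + 2 * ((q + 1) * k) := by rw [hk]; ring
      rw [this]; omega
    rw [this, pow_mul, hzn, one_pow]
  have hc2 : c ^ 2 = z := by rw [hcz, pow_two]
  have hc0 : c ≠ 0 := by rintro rfl; exact hz0 (by rw [hcz, mul_zero])
  have hcn : (c ^ 2) ^ (q + 1) = 1 := by rw [hc2, hzn]
  rw [← hc2] at hz
  have hTx : (Matrix.toLin' x.1) ^ 2 = (c ^ 2) • (1 : Module.End F (Fin n → F)) := by
    rw [toLin_pow, hz, map_smul, Matrix.toLin'_one]; rfl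
  have hsum := Submodule.finrank_add_eq_of_isCompl (isCompl_inv h2 hc0 hTx)
  rw [Module.finrank_fin_fun] at hsum
  have hT := hf_iso hF hx.1
  have hcne : c ≠ -c := by
    intro h
    have : 2 * c = 0 := by linear_combination h
    rcases mul_eq_zero.1 this with h | h
    · exact h2 h
    · exact hc0 h
  have hsq : (c ^ (q + 1)) * (c ^ (q + 1)) = 1 := by
    rw [← mul_pow, ← pow_two, hcn]
  rcases mul_self_eq_one_iff.1 hsq with h1 | h1
  · -- norm one
    have hdet := det_inv h2 hc0 hTx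
    rw [LinearMap.det_toLin', mem_SL_iff.1 hx.2] at hdet
    set k := finrank F (E (Matrix.toLin' x.1) (-c)) with hk
    have hdet' : (-1) ^ k * c ^ n = 1 := by
      have e3 : c ^ n = c ^ finrank F (E (Matrix.toLin' x.1) c) * c ^ k := by rw [← pow_add, hsum]
      rw [neg_pow c k] at hdet
      rw [e3]; linear_combination (-1 : F) * hdet
    have hke : Even k := by
      by_contra hko
      rw [Nat.not_even_iff_odd] at hko
      rw [hko.neg_one_pow] at hdet'
      have h3 : c ^ n = -1 := by linear_combination (-1 : F) * hdet'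
      have := val_lt_of_root h2 hn h1 h3
      omega
    obtain ⟨k', hk'⟩ := hke
    have hpow : ∀ a : F, a ^ 2 = c ^ 2 → (a⁻¹) ^ q = a := by
      intro a ha
      have h3 : a = c ∨ a = -c := sq_eq_sq_iff_eq_or_eq_neg.1 ha
      have h4 : c ≠ 0 := hc0
      have h5 : (c⁻¹) ^ q = c := by
        have h6 : c ^ q = c⁻¹ := eq_inv_of_mul_eq_one_left (by rw [← pow_succ, h1])
        rw [_root_.inv_pow, h6, inv_inv]
      rcases h3 with rfl | rfl
      · exact h5
      · rw [inv_neg, hodd.neg_pow, h5]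
    refine yes_core hF p h2 hnm hD hDs hx hc0 hcn hz (fun i => if i.val < k' then -c else c) (fun i => if i.val < k' then -c else c) ?_ ?_ ?_ ?_
    · intro i
      exact (hpow _ (by split_ifs; · rw [neg_pow_two]
                        · rfl)).symm
    · intro i
      split_ifs
      · rw [neg_pow_two]
      · rfl
    · intro i
      split_ifs
      · rw [neg_pow_two]
      · rfl
    · have h5 : Nat.card {i : Fin m // (if i.val < k' then -c else c) = -c} = k' := by
        have h6 : ∀ i : Fin m, ((if i.val < k' then -c else c) = -c) ↔ i.val < k' := by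
          intro i
          split_ifs with h
          · exact ⟨fun _ => h, fun _ => rfl⟩
          · exact ⟨fun h' => absurd h' hcne, fun h' => absurd h' h⟩
        rw [Nat.card_congr (Equiv.subtypeEquivRight h6), Nat.card_eq_fintype_card, Fintype.card_subtype]
        have h7 : k' ≤ m := by omega
        have h8 : (Finset.univ.filter fun i : Fin m => i.val < k').card = k' := by
          have := Fin.card_filter_val_lt (n := m) (m := k')
          rw [this, min_eq_right h7]
        exact h8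
      rw [h5, ← hk, hk']
  · -- anti-norm
    have htib : ∀ e : F, e ^ (q + 1) = -1 → 2 * finrank F (E (Matrix.toLin' x.1) e) ≤ n := by
      intro e he
      have hti : TI (HF hF n) (E (Matrix.toLin' x.1) e) := by
        intro u hu v hv
        have hu' := Module.End.mem_eigenspace_iff.1 hu
        have hv' := Module.End.mem_eigenspace_iff.1 hv
        have h3 := hT u v
        rw [hu', hv', LinearMap.map_smul, LinearMap.smul_apply, LinearMap.map_smulₛₗ, smul_eq_mul, smul_eq_mul, ← mul_assoc] at h3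
        have h4 : e * frob hF e = -1 := by rw [ClUnitary.frob_apply, ← pow_succ', he]
        rw [h4] at h3
        have h5 : 2 * HF hF n u v = 0 := by linear_combination (-1 : F) * h3
        exact (mul_eq_zero.1 h5).resolve_left h2
      have h3 := finrank_add_perp (hf_nd hF (n := n)) (E (Matrix.toLin' x.1) e)
      have h4 : finrank F (E (Matrix.toLin' x.1) e) ≤ finrank F (perp (HF hF n) (E (Matrix.toLin' x.1) e)) :=
        Submodule.finrank_mono (ti_iff.1 hti)
      rw [Module.finrank_fin_fun] at h3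
      omega
    have e1 := htib c h1
    have e2 := htib (-c) (by
      have : Even (q + 1) := hodd.add_one
      rw [this.neg_pow, h1])
    refine yes_core hF p h2 hnm hD hDs hx hc0 hcn hz (fun _ => c) (fun _ => -c) ?_ (fun _ => rfl) (fun _ => neg_pow_two c) ?_
    · intro i
      rw [_root_.inv_pow, eq_comm, inv_eq_iff_eq_inv, ← mul_left_inj' (neg_ne_zero.2 hc0), inv_mul_cancel₀ (neg_ne_zero.2 hc0), mul_neg, ← pow_succ, h1, neg_neg]
    · have e3 : Nat.card {i : Fin m // c = -c} = 0 := by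
        have : IsEmpty {i : Fin m // c = -c} := ⟨fun i => hcne i.2⟩
        exact Nat.card_of_isEmpty
      have e4 : Nat.card {i : Fin m // -c = -c} = m := by
        rw [Nat.card_congr (Equiv.subtypeUnivEquiv (fun _ => rfl)), Nat.card_fin]
      rw [e3, e4]
      omega

end concrete

end Cfsg.Agent.Lib.UniPair
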