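import Cfsg.Agent.S2587
import Cfsg.Agent.S2588

/-!
# Every unipotent element of `GL_n(q²)` is conjugate to an element of `GU_n(q)` (helper44)
-/

set_option autoImplicit false
open Cfsg

namespace Cfsg.Agent.Lib.UniReal

open Module Polynomial Cfsg.Agent.Lib.FXMod Cfsg.Agent.Lib.FXType Cfsg.Agent.Lib.GLClass Cfsg.Agent.Lib.PolyStar Cfsg.Agent.Lib.HermAlg
  Cfsg.Agent.Lib.HermType Cfsg.Agent.Lib.HermType2 Cfsg.Agent.Lib

theorem eq_X_sub_one {K : Type*} [Field K] {n N : ℕ} {A : Matrix (Fin n) (Fin n) K} (hA : (A - 1) ^ N = 0)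
    {s : Multiset (K[X] × ℕ)} (hs : MType A s) : ∀ d ∈ s, d.1 = X - 1 := by
  intro d hd
  have hg := hs.good d hd
  have h1 : aeval A ((X - 1 : K[X]) ^ N) = 0 := by
    rw [map_pow, map_sub, aeval_X, map_one]; exact hA
  have h2 := (hs.aeval_eq_zero_iff _).1 h1 d hd
  have h3 : d.1 ∣ X - 1 := hg.2.1.prime.dvd_of_dvd_pow ((dvd_pow_self _ hg.2.2.ne').trans h2)
  have hirr : Irreducible (X - 1 : K[X]) := by rw [← C_1]; exact irreducible_X_sub_C 1
  have hm : (X - 1 : K[X]).Monic := by rw [← C_1]; exact monic_X_sub_C 1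
  exact eq_of_monic_of_associated hg.1 hm (hg.2.1.associated_of_dvd hirr h3)

theorem ps_X_sub_one {K : Type*} [Field K] {σ : K →+* K} : ps σ (X - 1 : K[X]) = X - 1 := by
  have h0 : (X - 1 : K[X]).coeff 0 ≠ 0 := by simp
  have hne : (X - 1 : K[X]) ≠ 0 := by rw [← C_1]; exact X_sub_C_ne_zero 1
  have hm : (X - 1 : K[X]).Monic := by rw [← C_1]; exact monic_X_sub_C 1
  have hrv : rv σ (X - 1 : K[X]) = 1 - X := by
    rw [rv_eq_reflect h0]
    have hd : (X - 1 : K[X]).natDegree = 1 := by rw [← C_1]; exact natDegree_X_sub_C 1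
    rw [hd, Polynomial.map_sub, Polynomial.map_X, Polynomial.map_one]
    ext i
    rw [coeff_reflect]
    rcases i with _ | _ | i
    · rw [revAt_le (by omega)]; simp [coeff_X, coeff_one]
    · rw [revAt_le (by omega)]; simp [coeff_X, coeff_one]
    · rw [revAt_eq_self_of_lt (by omega)]
      simp [coeff_X, coeff_one]
  apply eq_of_monic_of_associated (ps_monic hne) hm
  refine (ps_assoc hne).trans ?_
  rw [hrv]
  refine ⟨-1, ?_⟩
  simp

theorem exists_GU_of_unipotent {K : Type*} [Field K] [Fintype K] {q n : ℕ} (hK : Fintype.card K = q ^ 2)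
    (A : GL (Fin n) K) {N : ℕ} (hA : ((A : Matrix (Fin n) (Fin n) K) - 1) ^ N = 0) :
    ∃ B : ↥(Cfsg.GU n K q), IsConj A (B : GL (Fin n) K) := by
  classical
  set σ := ClUnitary.frob hK with hσdef
  have hσσ : ∀ x, σ (σ x) = x := ClUnitary.frob_frob hK
  obtain ⟨s, hs⟩ := exists_mtype (A : Matrix (Fin n) (Fin n) K)
  obtain ⟨ω, hω⟩ := UnSpec.exists_ne hK
  have hX := eq_X_sub_one hA hs
  have hgood : ∀ d ∈ s, Good d ∧ d.1.coeff 0 ≠ 0 := by
    intro d hd
    refine ⟨hs.good d hd, ?_⟩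
    rw [hX d hd]
    simp
  obtain ⟨V, _, _, h, f, hh, hf, ht⟩ := HReal_of_symm hσσ hω s hgood (by
    intro p k hp hpi hp0
    by_cases hpX : p = X - 1
    · rw [hpX, ps_X_sub_one]
    · rw [Multiset.count_eq_zero.mpr, Multiset.count_eq_zero.mpr]
      · intro h
        apply hpX
        have h1 : ps σ p = X - 1 := hX _ h
        have h2 := ps_ps hσσ hp hp0
        rw [h1, ps_X_sub_one] at h2
        exact h2.symm
      · intro h
        exact hpX (hX _ h))
  have hfin := ht.finiteDimensional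
  have hdim : finrank K V = n := by
    rw [ht.finrank, hs.card, Fintype.card_fin]
  obtain ⟨e, he⟩ := UnSpec.exists_standard hK n hh hdim
  let B : Matrix (Fin n) (Fin n) K := LinearMap.toMatrix' (e.toLinearMap ∘ₗ f ∘ₗ e.symm.toLinearMap)
  have hB : ∀ x, B.mulVec x = e (f (e.symm x)) := by
    intro x
    rw [← Matrix.toLin'_apply, Matrix.toLin'_toMatrix']
    rfl
  have hBt : MType B s := by
    refine HasType.ofEquiv ht e.symm ?_
    intro x
    rw [Matrix.mulVecLin_apply, hB, LinearEquiv.symm_apply_apply]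
  have hBu : IsUnit B := hBt.isUnit_iff.mpr (hs.isUnit_iff.mp A.isUnit)
  obtain ⟨g, hg⟩ := hBu
  refine ⟨⟨g, ?_⟩, ?_⟩
  · intro u v
    show Cfsg.hermForm n K q ((g : Matrix (Fin n) (Fin n) K).mulVec u) ((g : Matrix (Fin n) (Fin n) K).mulVec v) = Cfsg.hermForm n K q u v
    rw [hg, hB, hB, he, hf, ← he, LinearEquiv.apply_symm_apply, LinearEquiv.apply_symm_apply]
  · show IsConj A g
    rw [isConj_iff_coe, hg]
    exact hs.isConj hBt

end Cfsg.Agent.Lib.UniReal
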