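import Cfsg.Agent.Lib.ClUnitary2
import Cfsg.Agent.Lib.UnitStar
import Cfsg.Agent.Lib.UnClass
import Cfsg.Agent.Lib.NormTool
import Cfsg.Agent.Lib.DiagTool

/-! # Tools for elements of the special unitary group, inside `GL` -/

set_option autoImplicit false

namespace Cfsg.Agent.Lib.UniTool

open Cfsg.Agent.Lib.ClUnitary (frob) 
open Cfsg.Agent.Lib.UnitStar (st)
open Cfsg.Agent.Lib.NormTool Matrix
open scoped MatrixGroups

variable {F : Type*} [Field F] [Fintype F] {q n : ℕ}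

theorem mem_GU (hF : Fintype.card F = q ^ 2) (x : GL (Fin n) F) : x ∈ Cfsg.GU n F q ↔ st (frob hF) x.1 * x.1 = 1 :=
  UnitStar.mem_GU_iff _ (fun _ => rfl) x

theorem st_eq_inv (hF : Fintype.card F = q ^ 2) {x : GL (Fin n) F} (hx : x ∈ Cfsg.GU n F q) : st (frob hF) x.1 = (x⁻¹).1 := by
  have h1 := (mem_GU hF x).1 hx
  have h2 : x.1 * (x⁻¹).1 = 1 := by rw [← Units.val_mul, mul_inv_cancel]; rfl
  calc st (frob hF) x.1 = st (frob hF) x.1 * (x.1 * (x⁻¹).1) := by rw [h2, Matrix.mul_one]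
    _ = _ := by rw [← Matrix.mul_assoc, h1, Matrix.one_mul]

theorem trace_st (hF : Fintype.card F = q ^ 2) (M : Matrix (Fin n) (Fin n) F) : (st (frob hF) M).trace = M.trace ^ q := by
  rw [st, Matrix.trace_transpose]
  have := (AddMonoidHom.map_trace (frob hF : F →+* F) M)
  exact this.symm

theorem trace_inv (hF : Fintype.card F = q ^ 2) {x : GL (Fin n) F} (hx : x ∈ Cfsg.GU n F q) : (x⁻¹).1.trace = x.1.trace ^ q := by
  rw [← st_eq_inv hF hx, trace_st]

theorem st_smul (hF : Fintype.card F = q ^ 2) (c : F) (M : Matrix (Fin n) (Fin n) F) : st (frob hF) (c • M) = c ^ q • st (frob hF) M := by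
  ext i j
  show frob hF (c * M j i) = c ^ q * frob hF (M j i)
  rw [map_mul]; rfl

theorem st_sub (hF : Fintype.card F = q ^ 2) (M N : Matrix (Fin n) (Fin n) F) : st (frob hF) (M - N) = st (frob hF) M - st (frob hF) N := by
  ext i j
  exact map_sub (frob hF) (M j i) (N j i)

theorem st_neg (hF : Fintype.card F = q ^ 2) (M : Matrix (Fin n) (Fin n) F) : st (frob hF) (-M) = -st (frob hF) M := by
  ext i j
  exact map_neg (frob hF) (M j i)

/-- scaling unitary elements -/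
theorem smul_mem (hF : Fintype.card F = q ^ 2) {x y : GL (Fin n) F} (hx : x ∈ Cfsg.GU n F q) {c : F} (hc : c ^ (q + 1) = 1) (hy : y.1 = c • x.1) :
    y ∈ Cfsg.GU n F q := by
  rw [mem_GU hF] at hx ⊢
  rw [hy, st_smul, Matrix.smul_mul, Matrix.mul_smul, hx, smul_smul, ← pow_succ, hc, one_smul]

theorem scalar_norm (hF : Fintype.card F = q ^ 2) (hn : 0 < n) {x : GL (Fin n) F} (hx : x ∈ Cfsg.GU n F q) {z : F}
    (hz : x.1 = z • (1 : Matrix (Fin n) (Fin n) F)) : z ^ (q + 1) = 1 := by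
  have h1 := (mem_GU hF x).1 hx
  rw [hz, st_smul, UnitStar.st_one, Matrix.smul_mul, Matrix.mul_smul, Matrix.one_mul, smul_smul, ← pow_succ] at h1
  have h2 := congrFun (congrFun h1 ⟨0, hn⟩) ⟨0, hn⟩
  simpa using h2

theorem det_norm (hF : Fintype.card F = q ^ 2) {x : GL (Fin n) F} (hx : x ∈ Cfsg.GU n F q) : x.1.det ^ (q + 1) = 1 :=
  ClUnitary.IsUn.det_pow hF ((ClUnitary.mem_GU).1 hx)

/-- elements of order prime to `p` in the special unitary group with the same characteristic polynomial -/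
theorem conj_SU (hF : Fintype.card F = q ^ 2) (p : ℕ) [Fact p.Prime] [CharP F p] {x y : GL (Fin n) F}
    (hx : x ∈ Cfsg.GU n F q ⊓ Cfsg.Geo.specialLinear (Fin n) F) (hy : y ∈ Cfsg.GU n F q) (hc : x.1.charpoly = y.1.charpoly) {m m' : ℕ}
    (hxm : x ^ m = 1) (hm : m.Coprime p) (hym : y ^ m' = 1) (hm' : m'.Coprime p) :
    ∃ g ∈ Cfsg.GU n F q ⊓ Cfsg.Geo.specialLinear (Fin n) F, g⁻¹ * x * g = y := by
  have hdx := mem_SL_iff.1 hx.2
  have hdy : y.1.det = 1 := by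
    rw [Matrix.det_eq_sign_charpoly_coeff, ← hc, ← Matrix.det_eq_sign_charpoly_coeff, hdx]
  let X : ↥(Cfsg.SU n F q) := ⟨⟨x.1, hdx⟩, fun u v => hx.1 u v⟩
  let Y : ↥(Cfsg.SU n F q) := ⟨⟨y.1, hdy⟩, fun u v => hy u v⟩
  have hpow : ∀ (Z : ↥(Cfsg.SU n F q)) (k : ℕ), Z.1.1 ^ k = 1 → Z ^ k = 1 := by
    intro Z k h
    apply Subtype.ext
    apply Subtype.ext
    rw [SubmonoidClass.coe_pow, Matrix.SpecialLinearGroup.coe_pow, h]
    rfl
  have hXm : X ^ m = 1 := hpow X m (by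
    have := congrArg Units.val hxm
    rwa [Units.val_pow_eq_pow_val] at this)
  have hYm : Y ^ m' = 1 := hpow Y m' (by
    have := congrArg Units.val hym
    rwa [Units.val_pow_eq_pow_val] at this)
  have h1 := Cfsg.Agent.Lib.UnClass.conj_SU hF p X Y (Nat.Coprime.coprime_dvd_left (orderOf_dvd_of_pow_eq_one hXm) hm)
    (Nat.Coprime.coprime_dvd_left (orderOf_dvd_of_pow_eq_one hYm) hm') hc
  rw [isConj_iff] at h1
  obtain ⟨c, hcc⟩ := h1
  have h2 : X * c⁻¹ = c⁻¹ * Y := by rw [← hcc]; group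
  let d : ↥(Cfsg.SU n F q) := c⁻¹
  let g : GL (Fin n) F := Matrix.GeneralLinearGroup.mkOfDetNeZero d.1.1 (by rw [d.1.2]; exact one_ne_zero)
  have hg1 : g.1 = d.1.1 := rfl
  refine ⟨g, ⟨fun u v => d.2 u v, mem_SL_iff.2 d.1.2⟩, ?_⟩
  have h3 : x * g = g * y := Units.ext (congrArg (fun s : ↥(Cfsg.SU n F q) => s.1.1) h2)
  rw [mul_assoc, h3, ← mul_assoc, inv_mul_cancel, one_mul]

/-- version for elements conjugate in `GL` -/
theorem conj_SU_of_conj (hF : Fintype.card F = q ^ 2) (p : ℕ) [Fact p.Prime] [CharP F p] {x y k : GL (Fin n) F}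
    (hx : x ∈ Cfsg.GU n F q ⊓ Cfsg.Geo.specialLinear (Fin n) F) (hy : y ∈ Cfsg.GU n F q) (hk : k⁻¹ * x * k = y) {m : ℕ}
    (hxm : x ^ m = 1) (hm : m.Coprime p) :
    ∃ g ∈ Cfsg.GU n F q ⊓ Cfsg.Geo.specialLinear (Fin n) F, g⁻¹ * x * g = y := by
  refine conj_SU hF p hx hy ?_ hxm hm (m' := m) (by rw [← hk, conj_pow_eq, hxm]; group) hm
  have h1 : k.1 * (k⁻¹).1 = 1 := by rw [← Units.val_mul, mul_inv_cancel]; rfl
  rw [← hk, Units.val_mul, Units.val_mul, Matrix.charpoly_mul_comm, ← Matrix.mul_assoc, h1, Matrix.one_mul]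

end Cfsg.Agent.Lib.UniTool
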