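import Mathlib
import Cfsg.Prelude.Def_PLocal
import Cfsg.Agent.Lib.PGroupOdd
import Cfsg.Agent.Lib.GroupUtil
import Cfsg.Agent.Lib.CoprimeAction2

/-!
# Uniserial actions of `p`-groups (helper2)
-/

set_option autoImplicit false

open Subgroup
open scoped commutatorElement

namespace Cfsg.Agent.Lib.Uniserial

variable {L : Type*} [Group L]

/-- Between a `G`-invariant `H < N` there is a `G`-invariant `H'` with `|H' : H| = p` and `[H', G] ≤ H`. -/
theorem exists_step [Finite L] {p : ℕ} [hp : Fact p.Prime] {N G H : Subgroup L} (hN : IsPGroup p N)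
    (hG : IsPGroup p G) (hGN : G ≤ normalizer (N : Set L)) (hHN : H < N) (hGH : G ≤ normalizer (H : Set L)) :
    ∃ H' : Subgroup L, H' ≤ N ∧ H ≤ H' ∧ Nat.card H' = p * Nat.card H ∧ G ≤ normalizer (H' : Set L) ∧
      ⁅H', G⁆ ≤ H := by
  have hlt := GroupUtil.lt_inf_normalizer_of_isPGroup hN hHN
  set P := N ⊓ normalizer (H : Set L) with hP
  have hPp : IsPGroup p P := hN.to_le inf_le_left
  have hGP : G ≤ normalizer (P : Set L) := by
    intro g hg
    apply GroupUtil.mem_normalizer_of_conj_le
    rintro x ⟨hx1, hx2⟩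
    refine ⟨((mem_normalizer_iff.mp (hGN hg)) x).mp hx1, ?_⟩
    exact (normalizer (H : Set L)).mul_mem ((normalizer (H : Set L)).mul_mem (hGH hg) hx2)
      ((normalizer (H : Set L)).inv_mem (hGH hg))
  set R := P ⊔ G with hR
  have hRp : IsPGroup p R := hPp.to_sup_of_normal_left' hG hGP
  have hPR : P ≤ R := le_sup_left
  have hGR : G ≤ R := le_sup_right
  have hHP : H ≤ P := hlt.le
  have hHR : H ≤ R := hHP.trans hPR
  have hRH : R ≤ normalizer (H : Set L) := sup_le inf_le_right hGH
  have hRP : R ≤ normalizer (P : Set L) := sup_le le_normalizer hGP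
  have hHn : (H.subgroupOf R).Normal := by
    refine ⟨fun n hn g => ?_⟩
    rw [mem_subgroupOf] at hn ⊢
    exact ((mem_normalizer_iff.mp (hRH g.2)) _).mp hn
  have hPn : (P.subgroupOf R).Normal := by
    refine ⟨fun n hn g => ?_⟩
    rw [mem_subgroupOf] at hn ⊢
    exact ((mem_normalizer_iff.mp (hRP g.2)) _).mp hn
  have hlt' : H.subgroupOf R < P.subgroupOf R := by
    refine lt_of_le_of_ne (fun x hx => hHP hx) ?_
    intro h
    apply hlt.ne
    have h1 := congrArg (Subgroup.map R.subtype) h
    rwa [subgroupOf_map_subtype, subgroupOf_map_subtype, inf_eq_left.mpr hHR, inf_eq_left.mpr hPR] at h1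
  obtain ⟨x, hxP, hxH, hxp, hxg⟩ := PGroupOdd.exists_mem_step hRp hHn hPn hlt'
  have hcard := PGroupOdd.card_sup_zpowers hHn hxH hxp
  have hnorm := PGroupOdd.normal_sup_zpowers hHn hxg
  set K := H.subgroupOf R ⊔ zpowers x with hK
  have hKP : K ≤ P.subgroupOf R := sup_le hlt'.le (by rwa [zpowers_le])
  refine ⟨K.map R.subtype, ?_, ?_, ?_, ?_, ?_⟩
  · rintro _ ⟨y, hy, rfl⟩
    have h2 : (y : L) ∈ P := mem_subgroupOf.mp (hKP hy)
    exact h2.1
  · intro y hy
    exact ⟨⟨y, hHR hy⟩, mem_sup_left (mem_subgroupOf.mpr hy), rfl⟩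
  · rw [Subgroup.card_map_of_injective R.subtype_injective, hcard]
    congr 1
    exact Nat.card_congr (subgroupOfEquivOfLe hHR).toEquiv
  · intro g hg
    apply GroupUtil.mem_normalizer_of_conj_le
    rintro _ ⟨y, hy, rfl⟩
    exact ⟨_, hnorm.conj_mem y hy ⟨g, hGR hg⟩, rfl⟩
  · rw [commutator_le]
    rintro _ ⟨y, hy, rfl⟩ g hg
    -- work modulo H in R
    have key : ∀ y ∈ K, ∀ g : R, ⁅y, g⁆ ∈ H.subgroupOf R := by
      intro y hy g
      have hle : K ≤ (center (R ⧸ H.subgroupOf R)).comap (QuotientGroup.mk' (H.subgroupOf R)) := by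
        rw [hK, sup_le_iff, zpowers_le]
        constructor
        · intro h hh
          rw [mem_comap]
          have : QuotientGroup.mk' (H.subgroupOf R) h = 1 := PGroupOdd.mk'_eq_one_iff.mpr hh
          rw [this]
          exact one_mem _
        · rw [mem_comap, mem_center_iff]
          intro u
          obtain ⟨u, rfl⟩ := QuotientGroup.mk'_surjective _ u
          have h1 : QuotientGroup.mk' (H.subgroupOf R) ⁅u, x⁆ = 1 := PGroupOdd.mk'_eq_one_iff.mpr (hxg u)
          rw [map_commutatorElement, commutatorElement_eq_one_iff_mul_comm] at h1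
          exact h1
      have h1 := mem_center_iff.mp (mem_comap.mp (hle hy)) (QuotientGroup.mk' _ g)
      rw [← PGroupOdd.mk'_eq_one_iff, map_commutatorElement, commutatorElement_eq_one_iff_mul_comm]
      exact h1.symm
    exact mem_subgroupOf.mp (key y hy ⟨g, hGR hg⟩)

theorem iter_le_normalizer [Finite L] {N G : Subgroup L} (hGN : G ≤ normalizer (N : Set L)) (i : ℕ) :
    G ≤ normalizer (Cfsg.iterCommutator N G i : Set L) := by
  induction i with
  | zero => exact hGN
  | succ i ih =>
    show G ≤ normalizer ((⁅Cfsg.iterCommutator N G i, G⁆ : Subgroup L) : Set L)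
    exact normalizer_commutator_ge_right _ _

theorem iter_succ_le [Finite L] {N G : Subgroup L} (hGN : G ≤ normalizer (N : Set L)) (i : ℕ) :
    Cfsg.iterCommutator N G (i + 1) ≤ Cfsg.iterCommutator N G i :=
  le_normalizer_iff_commutator_le_left.mp (iter_le_normalizer hGN i)

theorem iter_le [Finite L] {N G : Subgroup L} (hGN : G ≤ normalizer (N : Set L)) (i : ℕ) :
    Cfsg.iterCommutator N G i ≤ N := by
  induction i with
  | zero => exact le_rfl
  | succ i ih => exact (iter_succ_le hGN i).trans ih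

/-- Every `G`-invariant subgroup of index `p^j` contains the `j`-th term of the chain. -/
theorem iter_le_of_invariant [Finite L] {p : ℕ} [hp : Fact p.Prime] {N G : Subgroup L} (hN : IsPGroup p N)
    (hG : IsPGroup p G) (hGN : G ≤ normalizer (N : Set L)) {n : ℕ} (hn : Nat.card N = p ^ n) :
    ∀ (j : ℕ) (H : Subgroup L), j ≤ n → H ≤ N → G ≤ normalizer (H : Set L) → Nat.card H = p ^ (n - j) →
      Cfsg.iterCommutator N G j ≤ H := by
  intro j
  induction j with
  | zero =>
    intro H _ hHN _ hH
    have : H = N := Subgroup.eq_of_le_of_card_ge hHN (by rw [hn, hH]; rfl)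
    rw [this]
    exact le_rfl
  | succ j ih =>
    intro H hj hHN hGH hH
    have hlt : H < N := by
      refine lt_of_le_of_ne hHN ?_
      rintro rfl
      rw [hn] at hH
      have := Nat.pow_right_injective hp.out.two_le hH
      omega
    obtain ⟨H', h1, h2, h3, h4, h5⟩ := exists_step hN hG hGN hlt hGH
    have h6 := ih H' (by omega) h1 h4 (by
      rw [h3, hH, ← pow_succ']
      congr 1
      omega)
    exact (commutator_mono h6 le_rfl).trans h5

/-- chain lengths from the uniserial hypothesis -/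
theorem card_of_uniserial [Finite L] {p : ℕ} [hp : Fact p.Prime] {N G : Subgroup L}
    (hGN : G ≤ normalizer (N : Set L)) {n : ℕ} (hn : Nat.card N = p ^ n)
    (h : ∀ H : Subgroup L, H ≤ N → G ≤ normalizer (H : Set L) → H ≠ ⊥ → (⁅H, G⁆).relIndex H = p) :
    ∀ i ≤ n, Nat.card (Cfsg.iterCommutator N G i) = p ^ (n - i) := by
  intro i
  induction i with
  | zero => intro _; exact hn
  | succ i ih =>
    intro hi
    have h1 := ih (by omega)
    have hne : Cfsg.iterCommutator N G i ≠ ⊥ := by
      rw [← Subgroup.one_lt_card_iff_ne_bot, h1]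
      exact Nat.one_lt_pow (by omega) hp.out.one_lt
    have h2 := h _ (iter_le hGN i) (iter_le_normalizer hGN i) hne
    have h3 := GroupUtil.card_mul_relIndex (iter_succ_le hGN i)
    have h4 : (Cfsg.iterCommutator N G (i + 1)).relIndex (Cfsg.iterCommutator N G i) = p := h2
    rw [h4, h1] at h3
    have h5 : p ^ (n - i) = p ^ (n - (i + 1)) * p := by rw [← pow_succ]; congr 1; omega
    rw [h5] at h3
    exact Nat.eq_of_mul_eq_mul_right hp.out.pos h3

/-- chain lengths from `C_(n-1) ≠ 1` -/
theorem card_of_chain [Finite L] {p : ℕ} [hp : Fact p.Prime] {N G : Subgroup L} (hN : IsPGroup p N)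
    (hG : IsPGroup p G) (hGN : G ≤ normalizer (N : Set L)) {n : ℕ} (hn : Nat.card N = p ^ n)
    (h : Cfsg.iterCommutator N G (n - 1) ≠ ⊥ ∨ n = 0) :
    ∀ i ≤ n, Nat.card (Cfsg.iterCommutator N G i) = p ^ (n - i) := by
  rcases Nat.eq_zero_or_pos n with rfl | hpos
  · intro i hi
    have : i = 0 := by omega
    subst this
    exact hn
  have hne : ∀ i, i ≤ n - 1 → Cfsg.iterCommutator N G i ≠ ⊥ := by
    intro i hi hb
    have h1 : Cfsg.iterCommutator N G (n - 1) ≠ ⊥ := by
      rcases h with h | h
      · exact h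
      · omega
    apply h1
    rw [eq_bot_iff, ← hb]
    have : ∀ k, Cfsg.iterCommutator N G (i + k) ≤ Cfsg.iterCommutator N G i := by
      intro k
      induction k with
      | zero => exact le_rfl
      | succ k ih => exact (iter_succ_le hGN (i + k)).trans ih
    have h2 := this (n - 1 - i)
    rwa [Nat.add_sub_cancel' hi] at h2
  have hex : ∀ i, ∃ k, Nat.card (Cfsg.iterCommutator N G i) = p ^ k := fun i =>
    IsPGroup.iff_card.mp (hN.to_le (iter_le hGN i))
  have hlt : ∀ i, i ≤ n - 1 → ∀ a b, Nat.card (Cfsg.iterCommutator N G i) = p ^ a →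
      Nat.card (Cfsg.iterCommutator N G (i + 1)) = p ^ b → b < a := by
    intro i hi a b ha hb
    have h1 : Cfsg.iterCommutator N G (i + 1) < Cfsg.iterCommutator N G i :=
      CoprimeAction2.commutator_lt_of_pgroup hG (hN.to_le (iter_le hGN i)) (iter_le_normalizer hGN i) (hne i hi)
    have h2 := GroupUtil.card_lt_card h1
    rw [ha, hb] at h2
    exact (Nat.pow_lt_pow_iff_right hp.out.one_lt).mp h2
  have hup : ∀ i, i ≤ n → ∀ a, Nat.card (Cfsg.iterCommutator N G i) = p ^ a → a + i ≤ n := by
    intro i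
    induction i with
    | zero =>
      intro _ a ha
      have : p ^ a = p ^ n := by rw [← ha]; exact hn
      have := Nat.pow_right_injective hp.out.two_le this
      omega
    | succ i ih =>
      intro hi a ha
      obtain ⟨b, hb⟩ := hex i
      have h1 := ih (by omega) b hb
      have h2 := hlt i (by omega) b a hb ha
      omega
  have hlow : ∀ j, j ≤ n → ∀ a, Nat.card (Cfsg.iterCommutator N G (n - j)) = p ^ a → j ≤ a := by
    intro j
    induction j with
    | zero => intro _ a _; omega
    | succ j ih =>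
      intro hj a ha
      obtain ⟨b, hb⟩ := hex (n - j)
      have h1 := ih (by omega) b hb
      have h3 : n - (j + 1) + 1 = n - j := by omega
      have h2 := hlt (n - (j + 1)) (by omega) a b ha (by rw [h3]; exact hb)
      omega
  intro i hi
  obtain ⟨a, ha⟩ := hex i
  have h1 := hup i hi a ha
  have h2 := hlow (n - i) (by omega) a (by
    have : n - (n - i) = i := by omega
    rw [this]; exact ha)
  have : a = n - i := by omega
  rw [ha, this]

theorem eq_iter_of_invariant [Finite L] {p : ℕ} [hp : Fact p.Prime] {N G : Subgroup L} (hN : IsPGroup p N)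
    (hG : IsPGroup p G) (hGN : G ≤ normalizer (N : Set L)) {n : ℕ} (hn : Nat.card N = p ^ n)
    (hc : ∀ i ≤ n, Nat.card (Cfsg.iterCommutator N G i) = p ^ (n - i)) (H : Subgroup L) (hHN : H ≤ N)
    (hGH : G ≤ normalizer (H : Set L)) :
    ∃ i ≤ n, H = Cfsg.iterCommutator N G i ∧ Nat.card H = p ^ (n - i) := by
  obtain ⟨k, hk⟩ := IsPGroup.iff_card.mp (hN.to_le hHN)
  have hkn : k ≤ n := by
    have h1 := Subgroup.card_dvd_of_le hHN
    rw [hk, hn] at h1
    exact (Nat.pow_dvd_pow_iff_le_right hp.out.one_lt).mp h1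
  have hk' : Nat.card H = p ^ (n - (n - k)) := by rw [hk]; congr 1; omega
  refine ⟨n - k, by omega, ?_, hk'⟩
  have h1 := iter_le_of_invariant hN hG hGN hn (n - k) H (by omega) hHN hGH hk'
  exact (Subgroup.eq_of_le_of_card_ge h1 (by rw [hc (n - k) (by omega), hk'])).symm

theorem main [Finite L] {p : ℕ} [hp : Fact p.Prime] (N G : Subgroup L) (hN : IsPGroup p N)
    (hG : IsPGroup p G) (hGN : G ≤ normalizer (N : Set L)) (n : ℕ) (hn : Nat.card N = p ^ n) :
    ((∀ H : Subgroup L, H ≤ N → G ≤ normalizer (H : Set L) → H ≠ ⊥ → (⁅H, G⁆).relIndex H = p) ↔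
      Cfsg.iterCommutator N G (n - 1) ≠ ⊥ ∨ n = 0) ∧
    ((∀ H : Subgroup L, H ≤ N → G ≤ normalizer (H : Set L) → H ≠ ⊥ → (⁅H, G⁆).relIndex H = p) →
      ∀ H : Subgroup L, H ≤ N → G ≤ normalizer (H : Set L) →
        (∃ i ≤ n, H = Cfsg.iterCommutator N G i) ∧ N ≤ normalizer (H : Set L)) := by
  constructor
  · constructor
    · intro h
      rcases Nat.eq_zero_or_pos n with rfl | hpos
      · exact Or.inr rfl
      · left
        have h1 := card_of_uniserial hGN hn h (n - 1) (by omega)
        rw [← Subgroup.one_lt_card_iff_ne_bot, h1]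
        exact Nat.one_lt_pow (by omega) hp.out.one_lt
    · intro h H hHN hGH hH
      have hc := card_of_chain hN hG hGN hn h
      obtain ⟨i, hi, rfl, hcard⟩ := eq_iter_of_invariant hN hG hGN hn hc H hHN hGH
      have hin : i ≠ n := by
        rintro rfl
        rw [Nat.sub_self, pow_zero, Subgroup.card_eq_one] at hcard
        exact hH hcard
      have h3 := GroupUtil.card_mul_relIndex (iter_succ_le hGN i)
      rw [hc (i + 1) (by omega), hcard] at h3
      have h5 : p ^ (n - i) = p ^ (n - (i + 1)) * p := by rw [← pow_succ]; congr 1; omega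
      rw [h5] at h3
      exact Nat.eq_of_mul_eq_mul_left (pow_pos hp.out.pos _) h3
  · intro h H hHN hGH
    have hc := card_of_uniserial hGN hn h
    obtain ⟨i, hi, rfl, hcard⟩ := eq_iter_of_invariant hN hG hGN hn hc H hHN hGH
    refine ⟨⟨i, hi, rfl⟩, ?_⟩
    -- a normal subgroup of N ⊔ G of the same order
    set R := N ⊔ G with hR
    have hRp : IsPGroup p R := hN.to_sup_of_normal_left' hG hGN
    have hNR : N ≤ R := le_sup_left
    have hGR : G ≤ R := le_sup_right
    have hRN : R ≤ normalizer (N : Set L) := sup_le le_normalizer hGN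
    have hNn : (N.subgroupOf R).Normal := by
      refine ⟨fun n hn g => ?_⟩
      rw [mem_subgroupOf] at hn ⊢
      exact ((mem_normalizer_iff.mp (hRN g.2)) _).mp hn
    have hNc : Nat.card (N.subgroupOf R) = p ^ n := by
      rw [← hn]
      exact Nat.card_congr (subgroupOfEquivOfLe hNR).toEquiv
    obtain ⟨K, hKn, hKN, hKc⟩ := PGroupOdd.exists_normal_card' hRp hNn (k := n - i)
      (by rw [hNc]; exact Nat.pow_le_pow_right hp.out.pos (by omega))
    have hKR : ∀ g ∈ R, g ∈ normalizer ((K.map R.subtype : Subgroup L) : Set L) := by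
      intro g hg
      apply GroupUtil.mem_normalizer_of_conj_le
      rintro _ ⟨y, hy, rfl⟩
      exact ⟨_, hKn.conj_mem y hy ⟨g, hg⟩, rfl⟩
    have hKN' : K.map R.subtype ≤ N := by
      rintro _ ⟨y, hy, rfl⟩
      exact mem_subgroupOf.mp (hKN hy)
    have hKc' : Nat.card (K.map R.subtype) = p ^ (n - i) := by
      rw [Subgroup.card_map_of_injective R.subtype_injective, hKc]
    have h1 := iter_le_of_invariant hN hG hGN hn i (K.map R.subtype) hi hKN' (fun g hg => hKR g (hGR hg)) hKc'
    have h2 : Cfsg.iterCommutator N G i = K.map R.subtype :=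
      Subgroup.eq_of_le_of_card_ge h1 (by rw [hKc', hcard])
    rw [h2]
    intro x hx
    exact hKR x (hNR hx)

end Cfsg.Agent.Lib.Uniserial
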