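import Mathlib

/-!
# Vaughan-Lee's theorem: breadth and the order of the commutator subgroup of a finite `p`-group

If `M` is a maximal subgroup of the finite `p`-group `G` and `Z = {y ∈ M | [y, G] ≤ M'}`, then
`|G'| ≤ |M'| |M : Z|`, the index `|M : Z|` is at most the size of the class of any `x ∉ M`, and the centralizer of any
`y ∈ M \ Z` lies in `M`. An induction with one exceptional subgroup gives the theorem.
-/

set_option autoImplicit false

namespace Cfsg.Agent.Lib.VaughanLee69

open scoped commutatorElement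
open Subgroup

/-- triangular numbers -/
def tri : ℕ → ℕ
  | 0 => 0
  | k + 1 => tri k + (k + 1)

theorem tri_eq (k : ℕ) : tri k = k * (k + 1) / 2 := by
  have h : ∀ k, 2 * tri k = k * (k + 1) := by
    intro k
    induction k with
    | zero => rfl
    | succ k ih => rw [tri, mul_add, ih]; ring
  have := h k
  omega

/-- the cyclic group of order `p` -/
abbrev C (p : ℕ) : Type := Multiplicative (ZMod p)

section
variable {p : ℕ} [hp : Fact p.Prime] {G : Type*} [Group G]

theorem exists_hom [Finite G] (hG : IsPGroup p G) (H : Subgroup G) (hH : H ≠ ⊤) :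
    ∃ f : G →* C p, H ≤ f.ker ∧ ∃ x, f x ≠ 1 := by
  obtain ⟨N, hN⟩ := IsPGroup.iff_card.1 hG
  obtain ⟨n, hn⟩ := IsPGroup.iff_card.1 (hG.to_subgroup H)
  have hnN : n < N := by
    have h1 : Nat.card H < Nat.card G := by
      rcases lt_or_eq_of_le (Subgroup.card_le_card_group H) with h | h
      · exact h
      · exact absurd (Subgroup.eq_top_of_card_eq H h) hH
    rw [hn, hN] at h1
    exact (Nat.pow_lt_pow_iff_right hp.out.one_lt).1 h1
  obtain ⟨K, hK, hHK⟩ := Sylow.exists_subgroup_card_pow_prime_le (G := G) p (n := n) (m := N - 1)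
    (by rw [hN]; exact pow_dvd_pow p (by omega)) H hn (by omega)
  have hidx : K.index = p := by
    have h1 := K.index_mul_card
    rw [hK, hN] at h1
    have h2 : p ^ N = p * p ^ (N - 1) := by rw [← pow_succ', Nat.sub_add_cancel (by omega)]
    rw [h2] at h1
    exact Nat.eq_of_mul_eq_mul_right (pow_pos hp.out.pos _) h1
  have hmin : (Nat.card G).minFac = p := by
    rw [hN]; exact Nat.Prime.pow_minFac hp.out (by omega)
  have hKn : K.Normal := Subgroup.normal_of_index_eq_minFac_card (hidx.trans hmin.symm)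
  have hc : Nat.card (G ⧸ K) = p := by rw [← Subgroup.index_eq_card, hidx]
  have e : (G ⧸ K) ≃* C p := mulEquivOfPrimeCardEq (p := p) hc (by simp)
  refine ⟨(e : (G ⧸ K) →* C p).comp (QuotientGroup.mk' K), ?_, ?_⟩
  · intro x hx
    rw [MonoidHom.mem_ker, MonoidHom.comp_apply, QuotientGroup.mk'_apply,
      (QuotientGroup.eq_one_iff x).2 (hHK hx), map_one]
  · have : K ≠ ⊤ := by
      intro h; rw [h, Subgroup.index_top] at hidx; exact hp.out.one_lt.ne hidx
    obtain ⟨x, -, hx⟩ := SetLike.exists_of_lt (lt_top_iff_ne_top.2 this)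
    refine ⟨x, fun h => hx ?_⟩
    rw [MonoidHom.comp_apply, QuotientGroup.mk'_apply] at h
    have h2 : e (x : G ⧸ K) = 1 := h
    rw [map_eq_one_iff e e.injective] at h2
    exact (QuotientGroup.eq_one_iff x).1 h2

theorem eq_top (f : G →* C p) {x : G} (hx : f x ≠ 1) (K : Subgroup G) (hK : f.ker ≤ K) (hxK : x ∈ K) : K = ⊤ := by
  rw [eq_top_iff]
  intro g _
  have h1 : f g ∈ Subgroup.zpowers (f x) := by
    have hc : Nat.card (C p) = p := by simp
    have : Subgroup.zpowers (f x) = ⊤ := zpowers_eq_top_of_prime_card hc hx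
    rw [this]; trivial
  obtain ⟨i, hi⟩ := Subgroup.mem_zpowers_iff.1 h1
  have h2 : g * (x ^ i)⁻¹ ∈ K := hK (by rw [MonoidHom.mem_ker, map_mul, map_inv, map_zpow, hi, mul_inv_cancel])
  have := K.mul_mem h2 (K.zpow_mem hxK i)
  rwa [inv_mul_cancel_right] at this

theorem index_ker_eq (f : G →* C p) {x : G} (hx : f x ≠ 1) : f.ker.index = p := by
  rw [Subgroup.index_ker]
  have hc : Nat.card (C p) = p := by simp
  have : Subgroup.zpowers (f x) = ⊤ := zpowers_eq_top_of_prime_card hc hx
  have h2 : f.range = ⊤ := by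
    rw [eq_top_iff, ← this, Subgroup.zpowers_le]; exact ⟨x, rfl⟩
  rw [h2, Subgroup.card_top, hc]

/-- the subgroup of the `y ∈ M` with `[y, G] ≤ M'` -/
def Z (M : Subgroup G) [M.Normal] : Subgroup G :=
  (Subgroup.center (G ⧸ ⁅M, M⁆)).comap (QuotientGroup.mk' ⁅M, M⁆) ⊓ M

theorem commute_iff {N : Subgroup G} [N.Normal] {a b : G} :
    Commute (QuotientGroup.mk' N a) (QuotientGroup.mk' N b) ↔ ⁅a, b⁆ ∈ N := by
  rw [← commutatorElement_eq_one_iff_commute, ← map_commutatorElement, QuotientGroup.mk'_apply,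
    QuotientGroup.eq_one_iff]

theorem mem_Z {f : G →* C p} {x y : G} (hx : f x ≠ 1) (hy : y ∈ f.ker) (h : ⁅y, x⁆ ∈ ⁅f.ker, f.ker⁆) :
    y ∈ Z f.ker := by
  refine ⟨?_, hy⟩
  let K := (Subgroup.centralizer {QuotientGroup.mk' ⁅f.ker, f.ker⁆ y}).comap (QuotientGroup.mk' ⁅f.ker, f.ker⁆)
  have hmem : ∀ g, g ∈ K ↔ Commute (QuotientGroup.mk' ⁅f.ker, f.ker⁆ y) (QuotientGroup.mk' ⁅f.ker, f.ker⁆ g) := by
    intro g
    rw [Subgroup.mem_comap, Subgroup.mem_centralizer_singleton_iff]
    exact ⟨fun h => h.symm, fun h => h.symm⟩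
  have hK : K = ⊤ := by
    apply eq_top f hx
    · intro m hm
      rw [hmem, commute_iff]
      exact Subgroup.commutator_mem_commutator hy hm
    · rw [hmem, commute_iff]; exact h
  show QuotientGroup.mk' ⁅f.ker, f.ker⁆ y ∈ Subgroup.center _
  rw [Subgroup.mem_center_iff]
  intro q
  obtain ⟨g, rfl⟩ := QuotientGroup.mk'_surjective _ q
  have : g ∈ K := by rw [hK]; trivial
  exact ((hmem g).1 this).symm

theorem centralizer_le {f : G →* C p} {y : G} (hy : y ∈ f.ker) (h : y ∉ Z f.ker) :
    Subgroup.centralizer {y} ≤ f.ker := by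
  intro g hg
  by_contra hc
  apply h
  apply mem_Z (x := g) (fun h1 => hc h1) hy
  have : ⁅y, g⁆ = 1 := by
    rw [commutatorElement_eq_one_iff_mul_comm]
    exact (Subgroup.mem_centralizer_singleton_iff.1 hg).symm
  rw [this]; exact Subgroup.one_mem _

theorem rel_ne [Finite G] (A B : Subgroup G) : A.relIndex B ≠ 0 := by
  rw [Subgroup.relIndex]; exact Subgroup.index_ne_zero_of_finite

theorem relIndex_le [Finite G] {f : G →* C p} {x : G} (hx : f x ≠ 1) :
    (Z f.ker).relIndex f.ker ≤ (Subgroup.centralizer {x}).index := by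
  have h1 : Subgroup.centralizer {x} ⊓ f.ker ≤ Z f.ker := by
    rintro y ⟨hy1, hy2⟩
    apply mem_Z hx hy2
    have : ⁅y, x⁆ = 1 := by
      rw [commutatorElement_eq_one_iff_mul_comm]
      exact Subgroup.mem_centralizer_singleton_iff.1 hy1
    rw [this]; exact Subgroup.one_mem _
  calc (Z f.ker).relIndex f.ker ≤ (Subgroup.centralizer {x} ⊓ f.ker).relIndex f.ker :=
        Subgroup.relIndex_le_of_le_left h1 (rel_ne _ _)
    _ = (Subgroup.centralizer {x}).relIndex f.ker := Subgroup.inf_relIndex_right _ _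
    _ ≤ (Subgroup.centralizer {x}).relIndex ⊤ :=
        Subgroup.relIndex_le_of_le_right le_top (rel_ne _ _)
    _ = _ := Subgroup.relIndex_top_right _

/-- `|G'| ≤ |M'| |M : Z|` -/
theorem card_le [Finite G] {f : G →* C p} {x : G} (hx : f x ≠ 1) :
    Nat.card (commutator G) ≤ Nat.card (commutator f.ker) * (Z f.ker).relIndex f.ker := by
  set N : Subgroup G := ⁅f.ker, f.ker⁆ with hN
  have hcomm : ∀ a b : G, a ∈ f.ker → b ∈ f.ker → Commute (QuotientGroup.mk' N a) (QuotientGroup.mk' N b) :=
    fun a b ha hb => commute_iff.2 (Subgroup.commutator_mem_commutator ha hb)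
  -- the homomorphism `m ↦ [m, x]`
  let φ : f.ker →* (G ⧸ N) :=
    { toFun := fun m => QuotientGroup.mk' N ⁅(m : G), x⁆
      map_one' := by simp
      map_mul' := fun a b => by
        have h1 : ⁅((a * b : f.ker) : G), x⁆ = (a : G) * ⁅(b : G), x⁆ * (a : G)⁻¹ * ⁅(a : G), x⁆ := by
          simp only [commutatorElement_def, Subgroup.coe_mul]; group
        have hb : ⁅(b : G), x⁆ ∈ f.ker := by
          rw [commutatorElement_def, mul_assoc, mul_assoc]
          refine f.ker.mul_mem b.2 ?_
          have := (inferInstance : f.ker.Normal).conj_mem _ (f.ker.inv_mem b.2) x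
          simpa [mul_assoc] using this
        have ha : ⁅(a : G), x⁆ ∈ f.ker := by
          rw [commutatorElement_def, mul_assoc, mul_assoc]
          refine f.ker.mul_mem a.2 ?_
          have := (inferInstance : f.ker.Normal).conj_mem _ (f.ker.inv_mem a.2) x
          simpa [mul_assoc] using this
        rw [h1, map_mul, map_mul, map_mul, map_inv]
        have e1 := hcomm _ _ a.2 hb
        rw [e1.eq, mul_assoc (QuotientGroup.mk' N ⁅(b : G), x⁆), mul_inv_cancel, mul_one]
        exact hcomm _ _ hb ha }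
  have hφ : ∀ m : f.ker, φ m = QuotientGroup.mk' N ⁅(m : G), x⁆ := fun _ => rfl
  -- its kernel
  have hker : Nat.card φ.range = (Z f.ker).relIndex f.ker := by
    rw [← Subgroup.index_ker, Subgroup.relIndex]
    congr 1
    ext m
    rw [MonoidHom.mem_ker, hφ, QuotientGroup.mk'_apply, QuotientGroup.eq_one_iff, Subgroup.mem_subgroupOf]
    constructor
    · intro h; exact mem_Z hx m.2 h
    · intro h
      have h1 : QuotientGroup.mk' N (m : G) ∈ Subgroup.center (G ⧸ N) := h.1
      rw [Subgroup.mem_center_iff] at h1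
      exact commute_iff.1 (h1 (QuotientGroup.mk' N x)).symm
  -- its image is normal
  have hrange : ∀ q ∈ φ.range, ∃ m ∈ f.ker, q = QuotientGroup.mk' N ⁅m, x⁆ := by
    rintro q ⟨m, rfl⟩; exact ⟨m, m.2, rfl⟩
  have hin : ∀ m ∈ f.ker, ⁅m, x⁆ ∈ f.ker := by
    intro m hm
    rw [MonoidHom.mem_ker] at hm ⊢
    rw [map_commutatorElement, hm, commutatorElement_one_left]
  have hnormal : φ.range.Normal := by
    have : (Subgroup.normalizer (φ.range : Set (G ⧸ N))).comap (QuotientGroup.mk' N) = ⊤ := by
      apply eq_top f hx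
      · intro a ha
        rw [Subgroup.mem_comap]
        apply Subgroup.mem_normalizer_fintype
        intro q hq
        obtain ⟨m, hm, rfl⟩ := hrange q hq
        have := hcomm a _ ha (hin m hm)
        rw [this.eq, mul_inv_cancel_right]
        exact hq
      · rw [Subgroup.mem_comap]
        apply Subgroup.mem_normalizer_fintype
        intro q hq
        obtain ⟨m, hm, rfl⟩ := hrange q hq
        rw [← map_mul, ← map_inv, ← map_mul]
        refine ⟨⟨x * m * x⁻¹, (inferInstance : f.ker.Normal).conj_mem _ hm x⟩, ?_⟩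
        rw [hφ]
        congr 1
        simp only [commutatorElement_def]; group
    rw [← Subgroup.normalizer_eq_top_iff, eq_top_iff]
    intro q _
    obtain ⟨g, rfl⟩ := QuotientGroup.mk'_surjective _ q
    have : g ∈ (Subgroup.normalizer (φ.range : Set (G ⧸ N))).comap (QuotientGroup.mk' N) := by rw [this]; trivial
    exact this
  -- commutators lie in the preimage
  let L : Subgroup G := φ.range.comap (QuotientGroup.mk' N)
  have hLn : L.Normal := hnormal.comap _
  have hNL : N ≤ L := by
    intro n hn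
    show QuotientGroup.mk' N n ∈ φ.range
    rw [QuotientGroup.mk'_apply, (QuotientGroup.eq_one_iff n).2 hn]
    exact Subgroup.one_mem _
  have key : ∀ a ∈ f.ker, ∀ g : G, ⁅a, g⁆ ∈ L := by
    intro a ha
    let K := (Subgroup.centralizer {QuotientGroup.mk' L a}).comap (QuotientGroup.mk' L)
    have hmem : ∀ g, g ∈ K ↔ ⁅a, g⁆ ∈ L := by
      intro g
      rw [Subgroup.mem_comap, Subgroup.mem_centralizer_singleton_iff, ← commute_iff]
      exact ⟨fun h => h.symm, fun h => h.symm⟩
    have hK : K = ⊤ := by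
      apply eq_top f hx
      · intro m hm
        rw [hmem]
        exact hNL (Subgroup.commutator_mem_commutator ha hm)
      · rw [hmem]; exact ⟨⟨a, ha⟩, rfl⟩
    intro g
    rw [← hmem, hK]; trivial
  have key2 : ∀ a g : G, ⁅a, g⁆ ∈ L := by
    intro a g
    let K := (Subgroup.centralizer {QuotientGroup.mk' L g}).comap (QuotientGroup.mk' L)
    have hmem : ∀ c, c ∈ K ↔ ⁅c, g⁆ ∈ L := by
      intro c
      rw [Subgroup.mem_comap, Subgroup.mem_centralizer_singleton_iff, ← commute_iff]
      exact Iff.rfl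
    have hxx : ⁅x, g⁆ ∈ L := by
      let K' := (Subgroup.centralizer {QuotientGroup.mk' L x}).comap (QuotientGroup.mk' L)
      have hmem' : ∀ c, c ∈ K' ↔ ⁅c, x⁆ ∈ L := by
        intro c
        rw [Subgroup.mem_comap, Subgroup.mem_centralizer_singleton_iff, ← commute_iff]
        exact Iff.rfl
      have hK' : K' = ⊤ := by
        apply eq_top f hx
        · intro m hm
          rw [hmem']; exact key m hm x
        · rw [hmem', commutatorElement_self]; exact L.one_mem
      have h1 : ⁅g, x⁆ ∈ L := by rw [← hmem', hK']; trivial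
      rw [← commutatorElement_inv]; exact L.inv_mem h1
    have hK : K = ⊤ := by
      apply eq_top f hx
      · intro m hm
        rw [hmem]; exact key m hm g
      · rw [hmem]; exact hxx
    rw [← hmem, hK]; trivial
  have hle : commutator G ≤ L := by
    rw [_root_.commutator_def, Subgroup.commutator_le]
    intro a _ b _
    exact key2 a b
  have hcardL : Nat.card L = Nat.card N * Nat.card φ.range := by
    have h1 := Subgroup.card_mul_index (N.subgroupOf L)
    rw [← h1]
    congr 1
    · exact Nat.card_congr (Subgroup.subgroupOfEquivOfLe hNL).toEquiv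
    · have h2 : (QuotientGroup.mk' N).ker.relIndex L = Nat.card (L.map (QuotientGroup.mk' N)) :=
        Subgroup.relIndex_ker L (QuotientGroup.mk' N)
      rw [QuotientGroup.ker_mk'] at h2
      rw [Subgroup.map_comap_eq_self_of_surjective (QuotientGroup.mk'_surjective N)] at h2
      exact h2
  have hcardN : Nat.card N = Nat.card (commutator f.ker) := by
    rw [hN, ← Subgroup.map_subtype_commutator]
    exact (Nat.card_congr ((commutator f.ker).equivMapOfInjective _ (Subgroup.subtype_injective _)).toEquiv).symm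
  rw [← hcardN, ← hker, ← hcardL]
  exact Subgroup.card_le_of_le hle


/-- centralizers in `M` -/
theorem index_centralizer_le [Finite G] (M : Subgroup G) (y : M) :
    (Subgroup.centralizer {y}).index ≤ (Subgroup.centralizer {(y : G)}).index := by
  have h1 : Subgroup.centralizer {y} = (Subgroup.centralizer {(y : G)}).subgroupOf M := by
    ext g
    rw [Subgroup.mem_subgroupOf, Subgroup.mem_centralizer_singleton_iff, Subgroup.mem_centralizer_singleton_iff,
      ← Subgroup.coe_mul, ← Subgroup.coe_mul, Subtype.ext_iff]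
  rw [h1]
  calc (Subgroup.centralizer {(y : G)}).relIndex M ≤ (Subgroup.centralizer {(y : G)}).relIndex ⊤ :=
        Subgroup.relIndex_le_of_le_right le_top (rel_ne _ _)
    _ = _ := Subgroup.relIndex_top_right _

theorem index_centralizer_mul [Finite G] {f : G →* C p} {x : G} (hx : f x ≠ 1) (y : f.ker) (h : (y : G) ∉ Z f.ker) :
    (Subgroup.centralizer {y}).index * p = (Subgroup.centralizer {(y : G)}).index := by
  have h1 : Subgroup.centralizer {y} = (Subgroup.centralizer {(y : G)}).subgroupOf f.ker := by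
    ext g
    rw [Subgroup.mem_subgroupOf, Subgroup.mem_centralizer_singleton_iff, Subgroup.mem_centralizer_singleton_iff,
      ← Subgroup.coe_mul, ← Subgroup.coe_mul, Subtype.ext_iff]
  rw [h1, ← Subgroup.relIndex_mul_index (centralizer_le y.2 h), index_ker_eq f hx]
  rfl

theorem exists_not_mem_two {A B : Subgroup G} (hA : A ≠ ⊤) (hB : B ≠ ⊤) : ∃ x, x ∉ A ∧ x ∉ B := by
  obtain ⟨a, -, ha⟩ := SetLike.exists_of_lt (lt_top_iff_ne_top.2 hA)
  obtain ⟨b, -, hb⟩ := SetLike.exists_of_lt (lt_top_iff_ne_top.2 hB)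
  by_cases ha' : a ∈ B
  · by_cases hb' : b ∈ A
    · exact ⟨a * b, fun h => ha ((A.mul_mem_cancel_right hb').1 h), fun h => hb ((B.mul_mem_cancel_left ha').1 h)⟩
    · exact ⟨b, hb', hb⟩
  · exact ⟨a, ha, ha'⟩

/-- if `A < D` and `B < D` are such, some element of `D` is outside both -/
theorem exists_mem_not_mem_two {A B D : Subgroup G} (hA : ¬ D ≤ A) (hB : ¬ D ≤ B) : ∃ x ∈ D, x ∉ A ∧ x ∉ B := by
  obtain ⟨x, h1, h2⟩ := exists_not_mem_two (A := A.subgroupOf D) (B := B.subgroupOf D)
    (by rwa [Ne, Subgroup.subgroupOf_eq_top]) (by rwa [Ne, Subgroup.subgroupOf_eq_top])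
  exact ⟨x, x.2, h1, h2⟩

end

universe u

/-- the statement proved by induction -/
def Concl (p : ℕ) (G : Type u) [Group G] (k : ℕ) (H E : Subgroup G) : Prop :=
  Nat.card (commutator G) ≤ p ^ tri k ∨
    (p = 2 ∧ E.index = 2 ∧ ¬ E ≤ H ∧ 1 ≤ k ∧ Nat.card (commutator G) ≤ p ^ (tri k + 1))

def Hyp (p : ℕ) (G : Type u) [Group G] (k : ℕ) (H E : Subgroup G) : Prop :=
  H ≠ ⊤ ∧ E ≠ ⊤ ∧ (∀ y, y ∉ H → y ∉ E → (Subgroup.centralizer {y}).index ≤ p ^ k) ∧
    (∀ y, y ∉ H → (Subgroup.centralizer {y}).index ≤ p ^ (k + 1))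

variable {p : ℕ} [hp : Fact p.Prime]

/-- choice of the maximal subgroup -/
theorem choose_M {G : Type u} [Group G] [Finite G] (hG : IsPGroup p G) (h : G →* C p) (hh : ∃ x, h x ≠ 1)
    (hnc : ¬ ∀ a b : G, a * b = b * a) (E : Subgroup G) (hE : E ≠ ⊤) :
    ∃ f : G →* C p, (∃ x, f x ≠ 1) ∧ ¬ f.ker ≤ h.ker ∧ f.ker ⊓ E ≤ h.ker ∧
      ((∃ x, f x ≠ 1 ∧ x ∉ h.ker ∧ x ∉ E) ∨
        (p = 2 ∧ E.index = 2 ∧ ¬ E ≤ h.ker ∧ ∃ x, f x ≠ 1 ∧ x ∉ h.ker)) := by
  obtain ⟨x0, hx0⟩ := hh
  by_cases hEh : E ≤ h.ker
  · -- any maximal subgroup different from `ker h`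
    have hcyc : Subgroup.zpowers x0 ≠ ⊤ := by
      intro hz
      apply hnc
      intro a b
      have ha : a ∈ Subgroup.zpowers x0 := by rw [hz]; trivial
      have hb : b ∈ Subgroup.zpowers x0 := by rw [hz]; trivial
      obtain ⟨i, rfl⟩ := Subgroup.mem_zpowers_iff.1 ha
      obtain ⟨j, rfl⟩ := Subgroup.mem_zpowers_iff.1 hb
      rw [← zpow_add, ← zpow_add, add_comm]
    obtain ⟨f, hf, x, hx⟩ := exists_hom hG _ hcyc
    have hx0f : x0 ∈ f.ker := hf (Subgroup.mem_zpowers x0)
    refine ⟨f, ⟨x, hx⟩, fun hle => hx0 (hle hx0f), fun y hy => hEh hy.2, Or.inl ?_⟩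
    have hft : f.ker ≠ ⊤ := fun ht => hx (by have : x ∈ f.ker := by rw [ht]; trivial
                                             exact this)
    have hht : h.ker ≠ ⊤ := fun ht => hx0 (by have : x0 ∈ h.ker := by rw [ht]; trivial
                                              exact this)
    obtain ⟨y, hy1, hy2⟩ := exists_not_mem_two hft hht
    exact ⟨y, hy1, hy2, fun hy => hy2 (hEh hy)⟩
  · obtain ⟨e, hEe, x1, hx1⟩ := exists_hom hG E hE
    -- a ∈ E \ ker h, b ∈ ker h \ ker e
    obtain ⟨a, haE, hah⟩ := Set.not_subset.1 hEh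
    have hae : e a = 1 := hEe haE
    have hah' : h a ≠ 1 := hah
    have hhe : ¬ h.ker ≤ e.ker := by
      intro hle
      have : e.ker = ⊤ := eq_top h hah' e.ker hle hae
      exact hx1 (by have : x1 ∈ e.ker := by rw [this]; trivial
                    exact this)
    obtain ⟨b, hbh, hbe⟩ := Set.not_subset.1 hhe
    have hbh' : h b = 1 := hbh
    have hbe' : e b ≠ 1 := hbe
    let f : G →* C p := h * e
    have hf : ∀ g, f g = h g * e g := fun _ => rfl
    have hfa : f a ≠ 1 := by rw [hf, hae, mul_one]; exact hah'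
    have hfb : f b ≠ 1 := by rw [hf, hbh', one_mul]; exact hbe'
    refine ⟨f, ⟨a, hfa⟩, ?_, ?_, ?_⟩
    · intro hle
      have h1 : h.ker = f.ker := by
        apply le_antisymm _ hle
        have h2 : f.ker.index = p := index_ker_eq f hfa
        have h3 : h.ker.index = p := index_ker_eq h hah'
        have h4 := Subgroup.relIndex_mul_index hle
        rw [h2, h3] at h4
        have h5 : f.ker.relIndex h.ker = 1 := by
          have := hp.out.pos
          exact Nat.eq_of_mul_eq_mul_right this (by rw [h4, one_mul])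
        exact Subgroup.relIndex_eq_one.1 h5
      have : b ∈ f.ker := by rw [← h1]; exact hbh
      exact hfb this
    · rintro g ⟨h1, h2⟩
      have h1' : f g = 1 := h1
      have h2' : e g = 1 := hEe h2
      rw [hf, h2', mul_one] at h1'
      exact h1'
    · by_cases hp2 : p = 2
      · by_cases hEe' : e.ker ≤ E
        · have hEq : E = e.ker := le_antisymm hEe hEe'
          refine Or.inr ⟨hp2, ?_, hEh, a, hfa, hah⟩
          rw [hEq, index_ker_eq e hx1, hp2]
        · have h4 : ¬ e.ker ≤ h.ker := fun hle => hah (hle hae)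
          obtain ⟨x, hxe, hxE, hxh⟩ := exists_mem_not_mem_two hEe' h4
          have hxe' : e x = 1 := hxe
          exact Or.inl ⟨x, by rw [hf, hxe', mul_one]; exact hxh, hxh, hxE⟩
      · left
        by_cases hab : h a * e b = 1
        · refine ⟨a ^ 2 * b, ?_, ?_, ?_⟩
          · rw [hf, map_mul, map_mul, map_pow, map_pow, hae, one_pow, one_mul, hbh', mul_one, pow_two, mul_assoc, hab,
              mul_one]
            exact hah'
          · intro hc
            have hc' : h (a ^ 2 * b) = 1 := hc
            rw [map_mul, hbh', mul_one, map_pow] at hc'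
            have h5 : orderOf (h a) ∣ 2 := orderOf_dvd_of_pow_eq_one hc'
            have h6 : orderOf (h a) = p := by
              have h7 : orderOf (h a) ∣ p := by
                have := orderOf_dvd_natCard (h a)
                rwa [show Nat.card (C p) = p by simp] at this
              rcases (Nat.dvd_prime hp.out).1 h7 with h8 | h8
              · exact absurd (orderOf_eq_one_iff.1 h8) hah'
              · exact h8
            rw [h6] at h5
            exact hp2 ((Nat.prime_dvd_prime_iff_eq hp.out Nat.prime_two).1 h5)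
          · intro hc
            have hc' : e (a ^ 2 * b) = 1 := hEe hc
            rw [map_mul, map_pow, hae, one_pow, one_mul] at hc'
            exact hbe' hc'
        · refine ⟨a * b, ?_, ?_, ?_⟩
          · rw [hf, map_mul, map_mul, hae, one_mul, hbh', mul_one]; exact hab
          · intro hc
            have hc' : h (a * b) = 1 := hc
            rw [map_mul, hbh', mul_one] at hc'
            exact hah' hc'
          · intro hc
            have hc' : e (a * b) = 1 := hEe hc
            rw [map_mul, hae, one_mul] at hc'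
            exact hbe' hc'

theorem main : ∀ (n : ℕ) (G : Type u) [Group G] [Finite G], Nat.card G ≤ n → IsPGroup p G →
    ∀ (k : ℕ) (H E : Subgroup G), Hyp p G k H E → Concl p G k H E := by
  intro n
  induction n with
  | zero =>
    intro G _ _ hn
    have : 0 < Nat.card G := Nat.card_pos
    omega
  | succ n ih =>
    intro G _ _ hn hG k H E ⟨hH, hE, h1, h2⟩
    by_cases hnc : ∀ a b : G, a * b = b * a
    · left
      have : commutator G = ⊥ := by
        rw [eq_bot_iff, _root_.commutator_def, Subgroup.commutator_le]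
        intro a _ b _
        rw [Subgroup.mem_bot, commutatorElement_eq_one_iff_mul_comm]
        exact hnc a b
      rw [this, Subgroup.card_bot]
      exact Nat.one_le_pow _ _ hp.out.pos
    obtain ⟨h, hHh, hh⟩ := exists_hom hG H hH
    obtain ⟨f, ⟨x0, hx0⟩, hfh, hfE, hx⟩ := choose_M hG h hh hnc E hE
    have hcardM : Nat.card f.ker ≤ n := by
      have h3 := f.ker.card_mul_index
      rw [index_ker_eq f hx0] at h3
      have h4 := hp.out.two_le
      have h5 : 0 < Nat.card f.ker := Nat.card_pos
      nlinarith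
    have hMp : IsPGroup p f.ker := hG.to_subgroup _
    -- `H` in `M`
    have hHM : h.ker.subgroupOf f.ker ≠ ⊤ := by rwa [Ne, Subgroup.subgroupOf_eq_top]
    have hgen : ∀ y : f.ker, y ∉ h.ker.subgroupOf f.ker → (Subgroup.centralizer {(y : G)}).index ≤ p ^ k := by
      intro y hy
      apply h1
      · intro hc; exact hy (hHh hc)
      · intro hc; exact hy (hfE ⟨y.2, hc⟩)
    have hgen' : ∀ y : f.ker, y ∉ h.ker.subgroupOf f.ker → (Subgroup.centralizer {y}).index ≤ p ^ k := fun y hy =>
      (index_centralizer_le _ y).trans (hgen y hy)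
    obtain ⟨c, hc⟩ : ∃ c, (Z f.ker).relIndex f.ker = p ^ c := by
      obtain ⟨N, hN⟩ := IsPGroup.iff_card.1 hMp
      have h3 := Subgroup.relIndex_dvd_card (Z f.ker) f.ker
      rw [hN, Nat.dvd_prime_pow hp.out] at h3
      obtain ⟨c, -, hc⟩ := h3
      exact ⟨c, hc⟩
    have hcard : Nat.card (commutator G) ≤ Nat.card (commutator f.ker) * p ^ c := by
      rw [← hc]; exact card_le hx0
    -- the bound for `c`
    have hcb : c ≤ k ∨ (c = k + 1 ∧ p = 2 ∧ E.index = 2 ∧ ¬ E ≤ H) := by
      rcases hx with ⟨x, hx1, hx2, hx3⟩ | ⟨hp2, hE2, hEh, x, hx1, hx2⟩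
      · left
        have h3 := (relIndex_le hx1).trans (h1 x (fun hc => hx2 (hHh hc)) hx3)
        rw [hc] at h3
        exact (Nat.pow_le_pow_iff_right hp.out.one_lt).1 h3
      · have h3 := (relIndex_le hx1).trans (h2 x (fun hc => hx2 (hHh hc)))
        rw [hc] at h3
        have h4 := (Nat.pow_le_pow_iff_right hp.out.one_lt).1 h3
        rcases Nat.lt_or_ge k c with h5 | h5
        · exact Or.inr ⟨by omega, hp2, hE2, fun hle => hEh (hle.trans hHh)⟩
        · exact Or.inl h5
    rcases Nat.eq_zero_or_pos c with hc0 | hc0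
    · -- `c = 0`
      left
      subst hc0
      rw [pow_zero, mul_one] at hcard
      have h3 := ih f.ker hcardM hMp k (h.ker.subgroupOf f.ker) (h.ker.subgroupOf f.ker)
        ⟨hHM, hHM, fun y hy _ => hgen' y hy, fun y hy => (hgen' y hy).trans (Nat.pow_le_pow_right hp.out.pos (by omega))⟩
      rcases h3 with h3 | h3
      · exact hcard.trans h3
      · exact absurd le_rfl h3.2.2.1
    · -- `c ≥ 1`
      have hZne : (Z f.ker).subgroupOf f.ker ≠ ⊤ := by
        intro ht
        have h3 : (Z f.ker).relIndex f.ker = 1 := by rw [Subgroup.relIndex, ht, Subgroup.index_top]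
        rw [hc] at h3
        have := Nat.one_lt_pow hc0.ne' hp.out.one_lt
        omega
      have hgen2 : ∀ y : f.ker, y ∉ h.ker.subgroupOf f.ker → y ∉ (Z f.ker).subgroupOf f.ker →
          (Subgroup.centralizer {y}).index * p ≤ p ^ k := by
        intro y hy hyZ
        rw [index_centralizer_mul hx0 y hyZ]
        exact hgen y hy
      have hk : k ≠ 0 := by
        rintro rfl
        obtain ⟨y, hy1, hy2⟩ := exists_not_mem_two hHM hZne
        have h3 := hgen2 y hy1 hy2
        rw [pow_zero] at h3
        have h4 : 0 < (Subgroup.centralizer {y}).index := Nat.pos_of_ne_zero Subgroup.index_ne_zero_of_finite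
        have := hp.out.two_le
        nlinarith
      obtain ⟨k, rfl⟩ := Nat.exists_eq_succ_of_ne_zero hk
      have h3 := ih f.ker hcardM hMp k (h.ker.subgroupOf f.ker) ((Z f.ker).subgroupOf f.ker)
        ⟨hHM, hZne, fun y hy hyZ => by
          have := hgen2 y hy hyZ
          rw [pow_succ] at this
          exact Nat.le_of_mul_le_mul_right this hp.out.pos, hgen'⟩
      have hidx : ((Z f.ker).subgroupOf f.ker).index = p ^ c := hc
      -- final count
      have fin : ∀ m, Nat.card (commutator f.ker) ≤ p ^ m → Nat.card (commutator G) ≤ p ^ (m + c) := by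
        intro m hm
        rw [pow_add]
        exact hcard.trans (Nat.mul_le_mul_right _ hm)
      rcases h3 with h3 | ⟨hp2, hZ2, -, hk1, h3⟩
      · rcases hcb with hcb | ⟨hcb, hp2, hE2, hEH⟩
        · left
          exact (fin _ h3).trans (Nat.pow_le_pow_right hp.out.pos (by rw [Nat.succ_eq_add_one, tri]; omega))
        · right
          refine ⟨hp2, hE2, hEH, by omega, ?_⟩
          exact (fin _ h3).trans (Nat.pow_le_pow_right hp.out.pos (by rw [Nat.succ_eq_add_one, tri]; omega))
      · -- `c = 1`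
        have hc1 : c = 1 := by
          rw [hidx, hp2] at hZ2
          exact Nat.pow_right_injective le_rfl (by simpa using hZ2)
        left
        exact (fin _ h3).trans (Nat.pow_le_pow_right hp.out.pos (by rw [Nat.succ_eq_add_one, tri]; omega))

/-- **Vaughan-Lee's theorem** -/
theorem vaughan_lee {G : Type u} [Group G] [Finite G] (hG : IsPGroup p G) (b : ℕ)
    (hb : ∀ x : G, (Subgroup.centralizer ({x} : Set G)).index ≤ p ^ b) :
    Nat.card (commutator G) ≤ p ^ (b * (b + 1) / 2) := by
  rw [← tri_eq]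
  by_cases hG1 : (⊥ : Subgroup G) = ⊤
  · have : Nat.card (commutator G) ≤ Nat.card G := Subgroup.card_le_card_group _
    have h2 : Nat.card G = 1 := by rw [← Subgroup.card_top, ← hG1, Subgroup.card_bot]
    rw [h2] at this
    exact this.trans (Nat.one_le_pow _ _ hp.out.pos)
  · rcases main (Nat.card G) G le_rfl hG b ⊥ ⊥ ⟨hG1, hG1, fun y _ _ => hb y,
      fun y _ => (hb y).trans (Nat.pow_le_pow_right hp.out.pos (by omega))⟩ with h | h
    · exact h
    · exact absurd le_rfl h.2.2.1

end Cfsg.Agent.Lib.VaughanLee69
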