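import Cfsg.Agent.Lib.ProjCov

/-!
Evaluation of words in sparse-table matrices over fields of characteristic two, column by column (helper57).
-/

set_option autoImplicit false

namespace Cfsg.Agent.Lib.VecCov

open Subgroup Cfsg.Agent.Lib.H58SM Cfsg.Agent.Lib.Cov Cfsg.Agent.Lib.BenesWord Cfsg.Agent.Lib.ProjCov

variable {K : Type} [Field K] (C : FC K) (N : ℕ)

/-- table parameters: number of scalars, width and mask of a column -/
structure TP where
  nx : ℕ
  wN : ℕ
  mN : ℕ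

variable (P : TP)

/-- one letter applied to a vector -/
def apl (tb v : ℕ) (n : ℕ) : ℕ :=
  Nat.rec 0 (fun j r => Nat.xor r (gt tb P.wN P.mN (Nat.add (Nat.mul P.nx j) (gt v C.w C.msk j)))) n

/-- a word applied to a vector -/
def evv (TB : ℕ → ℕ) : List ℕ → ℕ → ℕ
  | [], v => v
  | c :: l, v => frc (evv TB l v) fun u => frc (TB c) fun tb => apl C P tb u N

/-- the columns of the tables are scalar multiples -/
def tabOk (tb : ℕ) : Bool := alln (fun j => frc (gt tb P.wN P.mN (Nat.add (Nat.mul P.nx j) 1)) fun u =>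
  alln (fun x => frc (gt tb P.wN P.mN (Nat.add (Nat.mul P.nx j) x)) fun v =>
    alln (fun i => Nat.beq (gt v C.w C.msk i) (C.mu (gt u C.w C.msk i) x)) N) (Nat.succ C.msk)) N

/-- coordinates -/
def dv (v : ℕ) : Fin N → K := fun i => C.δ (gt v C.w C.msk i)

/-- the matrix of a table -/
def Mt (tb : ℕ) : Matrix (Fin N) (Fin N) K := fun i j =>
  C.δ (gt (gt tb P.wN P.mN (Nat.add (Nat.mul P.nx j) 1)) C.w C.msk i)

theorem gt_xor (a b w m i : ℕ) : gt (Nat.xor a b) w m i = Nat.xor (gt a w m i) (gt b w m i) := by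
  show ((a ^^^ b) >>> (w * i)) &&& m = ((a >>> (w * i)) &&& m) ^^^ ((b >>> (w * i)) &&& m)
  rw [Nat.shiftRight_xor_distrib, Nat.and_xor_distrib_right]

theorem gt_zero (w m i : ℕ) : gt 0 w m i = 0 := by
  show (0 >>> (w * i)) &&& m = 0
  simp

theorem dv_xor (hx : ∀ x y, C.ad x y = Nat.xor x y) (a b : ℕ) : dv C N (Nat.xor a b) = dv C N a + dv C N b := by
  funext i
  show C.δ (gt (Nat.xor a b) C.w C.msk i) = _
  rw [gt_xor, ← hx, C.δ_ad (C.gt_le _ _) (C.gt_le _ _)]
  rfl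

theorem dv_zero : dv C N 0 = 0 := by
  funext i
  show C.δ (gt 0 C.w C.msk i) = 0
  rw [gt_zero, C.δ_zero]

variable {C N P}

theorem tab_spec {tb : ℕ} (h : tabOk C N P tb = true) {j : ℕ} (hj : j < N) {x : ℕ} (hx : x ≤ C.msk) (i : Fin N) :
    C.δ (gt (gt tb P.wN P.mN (Nat.add (Nat.mul P.nx j) x)) C.w C.msk i) =
      Mt C N P tb i ⟨j, hj⟩ * C.δ x := by
  have h1 := alln_iff.1 h j hj
  rw [frc_eq] at h1
  have h2 := alln_iff.1 h1 x (Nat.lt_succ_of_le hx)
  rw [frc_eq] at h2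
  have h3 := Nat.eq_of_beq_eq_true (alln_iff.1 h2 i i.2)
  rw [h3, C.δ_mu (C.gt_le _ _) hx]
  rfl

theorem dv_apl (hx : ∀ x y, C.ad x y = Nat.xor x y) {tb : ℕ} (h : tabOk C N P tb = true) (v : ℕ) :
    dv C N (apl C P tb v N) = (Mt C N P tb).mulVec (dv C N v) := by
  have key : ∀ n (hn : n ≤ N), dv C N (apl C P tb v n) = fun i => ∑ j : Fin n, Mt C N P tb i ⟨j, lt_of_lt_of_le j.2 hn⟩ *
      C.δ (gt v C.w C.msk j) := by
    intro n
    induction n with
    | zero =>
      intro _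
      show dv C N 0 = _
      rw [dv_zero]
      funext i
      simp
    | succ n ih =>
      intro hn
      have h1 : apl C P tb v (n + 1) = Nat.xor (apl C P tb v n)
        (gt tb P.wN P.mN (Nat.add (Nat.mul P.nx n) (gt v C.w C.msk n))) := rfl
      rw [h1, dv_xor C N hx, ih (by omega)]
      funext i
      rw [Fin.sum_univ_castSucc]
      show _ + dv C N _ i = _
      congr 1
      exact tab_spec h (by omega) (C.gt_le _ _) i
  rw [key N le_rfl]
  rfl

theorem dv_evv (hx : ∀ x y, C.ad x y = Nat.xor x y) {TB : ℕ → ℕ} {k : ℕ} (h : ∀ c < k, tabOk C N P (TB c) = true)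
    {l : List ℕ} (hl : ∀ c ∈ l, c < k) (v : ℕ) :
    dv C N (evv C N P TB l v) = ((l.map fun c => Mt C N P (TB c)).prod).mulVec (dv C N v) := by
  induction l with
  | nil => show dv C N v = _; rw [List.map_nil, List.prod_nil, Matrix.one_mulVec]
  | cons c l ih =>
    rw [List.map_cons, List.prod_cons, ← Matrix.mulVec_mulVec, ← ih fun c hc => hl c (List.mem_cons_of_mem _ hc)]
    show dv C N (frc _ _) = _
    rw [frc_eq, frc_eq, dv_apl hx (h c (hl c List.mem_cons_self))]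

/-- unit vectors -/
def uOk (C : FC K) (N z : ℕ) : Bool := alln (fun j => alln (fun i =>
  Nat.beq (gt (Nat.shiftLeft z (Nat.mul C.w j)) C.w C.msk i) (cond (Nat.beq i j) z 0)) N) N

theorem uOk_spec {z : ℕ} (h : uOk C N z = true) (j : Fin N) :
    dv C N (Nat.shiftLeft z (Nat.mul C.w j)) = Pi.single j (C.δ z) := by
  funext i
  have h1 := Nat.eq_of_beq_eq_true (alln_iff.1 (alln_iff.1 h j j.2) i i.2)
  show C.δ (gt (Nat.shiftLeft z (Nat.mul C.w j)) C.w C.msk i) = _
  rw [h1]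
  by_cases hij : i = j
  · subst hij
    rw [Pi.single_eq_same, show Nat.beq (i : ℕ) i = true from Nat.beq_refl _, cond_true]
  · rw [Pi.single_eq_of_ne hij]
    have h2 : Nat.beq (i : ℕ) j = false := by
      cases e : Nat.beq (i : ℕ) j with
      | false => rfl
      | true => exact absurd (Fin.ext (Nat.eq_of_beq_eq_true e)) hij
    rw [h2, cond_false, C.δ_zero]

/-- a word is the scalar `z` -/
def scOk (C : FC K) (N : ℕ) (P : TP) (TB : ℕ → ℕ) (z : ℕ) (l : List ℕ) : Bool := alln (fun j =>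
  Nat.beq (evv C N P TB l (Nat.shiftLeft 1 (Nat.mul C.w j))) (Nat.shiftLeft z (Nat.mul C.w j))) N

theorem scOk_spec (hx : ∀ x y, C.ad x y = Nat.xor x y) {TB : ℕ → ℕ} {k : ℕ} (h : ∀ c < k, tabOk C N P (TB c) = true)
    (hδ : C.δ 1 = 1) (h1 : uOk C N 1 = true) {z : ℕ} (hz : uOk C N z = true) {l : List ℕ} (hl : ∀ c ∈ l, c < k)
    (hs : scOk C N P TB z l = true) :
    (l.map fun c => Mt C N P (TB c)).prod = Matrix.scalar (Fin N) (C.δ z) := by
  ext i j
  have h2 := Nat.eq_of_beq_eq_true (alln_iff.1 hs j j.2)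
  have h3 := dv_evv hx h hl (Nat.shiftLeft 1 (Nat.mul C.w j))
  rw [h2, uOk_spec hz j, uOk_spec h1 j, hδ] at h3
  have h4 := congrFun h3 i
  rw [Matrix.mulVec_single_one] at h4
  rw [Matrix.scalar_apply, Matrix.diagonal_apply]
  have h5 : ((l.map fun c => Mt C N P (TB c)).prod) i j = (Pi.single j (C.δ z) : Fin N → K) i := h4.symm
  rw [h5, Pi.single_apply]

/-- units with given tables (involutions) -/
theorem exists_units {TB : ℕ → ℕ} {k : ℕ} (h : ∀ c < k, Mt C N P (TB c) * Mt C N P (TB c) = 1) :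
    ∃ x : ℕ → (Matrix (Fin N) (Fin N) K)ˣ, (∀ c < k, (x c : Matrix (Fin N) (Fin N) K) = Mt C N P (TB c)) ∧
      (∀ c, k ≤ c → x c = 1) ∧ ∀ c, x c * x c = 1 := by
  classical
  refine ⟨fun c => if hc : c < k then ⟨Mt C N P (TB c), Mt C N P (TB c), h c hc, h c hc⟩ else 1, ?_, ?_, ?_⟩
  · intro c hc
    show ((dite _ _ _ : (Matrix (Fin N) (Fin N) K)ˣ) : Matrix (Fin N) (Fin N) K) = _
    rw [dif_pos hc]
  · intro c hc
    exact dif_neg (by omega)
  · intro c
    by_cases hc : c < k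
    · apply Units.ext
      show ((dite _ _ _ : (Matrix (Fin N) (Fin N) K)ˣ) : Matrix (Fin N) (Fin N) K) *
        ((dite _ _ _ : (Matrix (Fin N) (Fin N) K)ˣ) : Matrix (Fin N) (Fin N) K) = 1
      rw [dif_pos hc]
      exact h c hc
    · show (dite _ _ _ : (Matrix (Fin N) (Fin N) K)ˣ) * (dite _ _ _ : (Matrix (Fin N) (Fin N) K)ˣ) = 1
      rw [dif_neg hc, mul_one]

theorem prod_val {TB : ℕ → ℕ} {k : ℕ} {x : ℕ → (Matrix (Fin N) (Fin N) K)ˣ}
    (hx : ∀ c < k, (x c : Matrix (Fin N) (Fin N) K) = Mt C N P (TB c)) {l : List ℕ} (hl : ∀ c ∈ l, c < k) :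
    (((l.map x).prod : (Matrix (Fin N) (Fin N) K)ˣ) : Matrix (Fin N) (Fin N) K) = (l.map fun c => Mt C N P (TB c)).prod := by
  induction l with
  | nil => rfl
  | cons c l ih =>
    rw [List.map_cons, List.prod_cons, List.map_cons, List.prod_cons, Units.val_mul, hx c (hl c List.mem_cons_self),
      ih fun c hc => hl c (List.mem_cons_of_mem _ hc)]

end Cfsg.Agent.Lib.VecCov
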