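import Mathlib

set_option autoImplicit false

/-!
# Wielandt degree 2p: the combinatorial part (helper12)
-/

namespace Cfsg.Agent.Lib.W2pComb

variable {p : ℕ} [hp : Fact p.Prime]

theorem sum_nonzero {M : Type*} [AddCommMonoid M] (H : ZMod p → M) (h0 : H 0 = 0) :
    ∑ i, H i = ∑ u : (ZMod p)ˣ, H (u : ZMod p) := by
  classical
  rw [← Finset.add_sum_erase _ _ (Finset.mem_univ (0 : ZMod p)), h0, zero_add]
  symm
  refine Finset.sum_nbij (fun u : (ZMod p)ˣ => (u : ZMod p)) ?_ ?_ ?_ ?_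
  · intro u _
    exact Finset.mem_erase.mpr ⟨u.ne_zero, Finset.mem_univ _⟩
  · intro a _ b _ h
    exact Units.ext h
  · intro x hx
    have hx0 : x ≠ 0 := Finset.ne_of_mem_erase (Finset.mem_coe.mp hx)
    exact ⟨Units.mk0 x hx0, Finset.mem_coe.mpr (Finset.mem_univ _), rfl⟩
  · intro u _; rfl

theorem dvd_sum (D : Subgroup (ZMod p)ˣ) (H : ZMod p → ℕ) (h0 : H 0 = 0)
    (hinv : ∀ d ∈ D, ∀ i, H ((d : ZMod p) * i) = H i) : Nat.card D ∣ ∑ i, H i := by
  classical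
  rw [sum_nonzero H h0]
  have e := Subgroup.groupEquivQuotientProdSubgroup (s := D)
  rw [Fintype.sum_equiv (Subgroup.groupEquivQuotientProdSubgroup (s := D)) (fun u => H (u : ZMod p))
    (fun q => H ((q.1.out : (ZMod p)ˣ) : ZMod p))]
  · rw [Fintype.sum_prod_type]
    apply Finset.dvd_sum
    intro q _
    show Nat.card D ∣ ∑ _x : D, H ((q.out : (ZMod p)ˣ) : ZMod p)
    rw [Finset.sum_const, Finset.card_univ, smul_eq_mul, ← Nat.card_eq_fintype_card]
    exact Dvd.intro _ rfl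
  · intro u
    have h1 : (QuotientGroup.mk (s := D) u).out⁻¹ * u ∈ D := by
      rw [← QuotientGroup.eq]; exact QuotientGroup.out_eq' _
    have h2 := hinv _ h1 (((QuotientGroup.mk (s := D) u).out : (ZMod p)ˣ) : ZMod p)
    rw [← Units.val_mul] at h2
    have h3 : (QuotientGroup.mk (s := D) u).out⁻¹ * u * (QuotientGroup.mk (s := D) u).out = u := by
      rw [mul_comm, mul_inv_cancel_left]
    rw [h3] at h2
    exact h2

theorem card_mul_le (D : Subgroup (ZMod p)ˣ) (H : ZMod p → ℕ)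
    (hinv : ∀ d ∈ D, ∀ i, H ((d : ZMod p) * i) = H i) (i : ZMod p) (hi : i ≠ 0) :
    Nat.card D * H i ≤ ∑ i, H i := by
  classical
  have h1 : ∑ d : D, H (((d : (ZMod p)ˣ) : ZMod p) * i) = Nat.card D * H i := by
    rw [Finset.sum_congr rfl (fun d _ => hinv d.1 d.2 i), Finset.sum_const, Finset.card_univ,
      smul_eq_mul, Nat.card_eq_fintype_card]
  rw [← h1]
  have hinj : Function.Injective (fun d : D => (((d : (ZMod p)ˣ) : ZMod p) * i)) := by
    intro a b hab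
    exact Subtype.ext (Units.ext (mul_right_cancel₀ hi hab))
  rw [← Finset.sum_image (f := H) (g := fun d : D => (((d : (ZMod p)ˣ) : ZMod p) * i))
    (s := Finset.univ) (fun a _ b _ h => hinj h)]
  exact Finset.sum_le_sum_of_subset (Finset.subset_univ _)

theorem supp_eq (D : Subgroup (ZMod p)ˣ) (H : ZMod p → ℕ)
    (hinv : ∀ d ∈ D, ∀ i, H ((d : ZMod p) * i) = H i) (i : ZMod p) (hi : i ≠ 0) (hHi : H i = 1)
    (hsum : ∑ i, H i = Nat.card D) (x : ZMod p) (hx : H x ≠ 0) :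
    ∃ d ∈ D, x = (d : ZMod p) * i := by
  classical
  by_contra hcon
  push Not at hcon
  have h1 : ∑ d : D, H (((d : (ZMod p)ˣ) : ZMod p) * i) = Nat.card D := by
    rw [Finset.sum_congr rfl (fun d _ => hinv d.1 d.2 i), Finset.sum_const, Finset.card_univ,
      smul_eq_mul, Nat.card_eq_fintype_card, hHi, mul_one]
  have hinj : Function.Injective (fun d : D => (((d : (ZMod p)ˣ) : ZMod p) * i)) := by
    intro a b hab
    exact Subtype.ext (Units.ext (mul_right_cancel₀ hi hab))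
  rw [← Finset.sum_image (f := H) (g := fun d : D => (((d : (ZMod p)ˣ) : ZMod p) * i))
    (s := Finset.univ) (fun a _ b _ h => hinj h)] at h1
  have hxn : x ∉ Finset.univ.image (fun d : D => (((d : (ZMod p)ˣ) : ZMod p) * i)) := by
    intro h
    obtain ⟨d, _, hd⟩ := Finset.mem_image.mp h
    exact hcon d.1 d.2 hd.symm
  have h2 := Finset.sum_le_sum_of_subset (f := H) (Finset.subset_univ
    (insert x (Finset.univ.image (fun d : D => (((d : (ZMod p)ˣ) : ZMod p) * i)))))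
  rw [Finset.sum_insert hxn, h1, hsum] at h2
  omega

theorem comb (D : Subgroup (ZMod p)ˣ) {f t : ℕ} (hD : Nat.card D = f) (ht : 1 ≤ t)
    (hft : t * f = p - 1) {I : Type*} [Fintype I] [DecidableEq I] (hI : Fintype.card I = t + 1)
    (F : I → ZMod p → ℕ) (s : I → ℤ) (k : I → ℕ)
    (ha : ∀ ω, F ω 0 = 0) (hb : ∀ ω, ∀ d ∈ D, ∀ i, F ω ((d : ZMod p) * i) = F ω i)
    (hc : ∀ i, i ≠ 0 → ∑ ω, F ω i = 2)
    (hd : ∀ ω, ((∑ i, F ω i : ℕ) : ℤ) = k ω + s ω)
    (he : ∀ ω ω', ω ≠ ω' → ((∑ i, F ω i * F ω' i : ℕ) : ℤ) = -2 * s ω * s ω')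
    (hf : ∀ ω, ((∑ i, F ω i * F ω i : ℕ) : ℤ) = 2 * k ω - 2 * s ω ^ 2)
    (hg : ∀ ω, ∑ i, F ω i ≠ 0) :
    ∃ ω, ∃ α : ℕ, 1 ≤ α ∧ f = 2 * (α * (α + 1)) ∧ s ω = α ∧ (∀ i, F ω i ≤ 1) ∧ ∑ i, F ω i = f := by
  classical
  have hf0 : 1 ≤ f := by
    rw [← hD]; exact Nat.card_pos
  have hle2 : ∀ ω i, F ω i ≤ 2 := by
    intro ω i
    by_cases hi : i = 0
    · rw [hi, ha]; omega
    · rw [← hc i hi]
      exact Finset.single_le_sum (f := fun ω => F ω i) (fun _ _ => Nat.zero_le _) (Finset.mem_univ ω)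
  -- y
  have hy : ∀ ω, ((∑ i, F ω i * (2 - F ω i) : ℕ) : ℤ) = 2 * s ω * (s ω + 1) := by
    intro ω
    have h1 : ∀ i, (F ω i * (2 - F ω i) : ℕ) + F ω i * F ω i = 2 * F ω i := by
      intro i
      have h2 := hle2 ω i
      obtain ⟨c, hc⟩ := Nat.exists_eq_add_of_le h2
      rw [hc, Nat.add_sub_cancel_left]; nlinarith
    have h2 : (∑ i, F ω i * (2 - F ω i)) + ∑ i, F ω i * F ω i = 2 * ∑ i, F ω i := by
      rw [← Finset.sum_add_distrib, Finset.mul_sum]
      exact Finset.sum_congr rfl fun i _ => h1 i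
    have h3 : ((∑ i, F ω i * (2 - F ω i) : ℕ) : ℤ) + ((∑ i, F ω i * F ω i : ℕ) : ℤ) =
        2 * ((∑ i, F ω i : ℕ) : ℤ) := by exact_mod_cast h2
    rw [hf, hd] at h3
    linear_combination h3
  have hdvd : ∀ ω, f ∣ ∑ i, F ω i := fun ω => by
    rw [← hD]; exact dvd_sum D (F ω) (ha ω) (hb ω)
  have htot : ∑ ω, ∑ i, F ω i = 2 * (t * f) := by
    rw [Finset.sum_comm, sum_nonzero (fun i => ∑ ω, F ω i)
      (Finset.sum_eq_zero fun ω _ => ha ω),
      Finset.sum_congr rfl (fun (u : (ZMod p)ˣ) _ => hc (u : ZMod p) (Units.ne_zero u)),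
      Finset.sum_const,
      Finset.card_univ, ZMod.card_units, smul_eq_mul, hft, mul_comm]
  have hgef : ∀ ω, f ≤ ∑ i, F ω i := fun ω => Nat.le_of_dvd (Nat.pos_of_ne_zero (hg ω)) (hdvd ω)
  have hlt : ∀ ω, ∑ i, F ω i < 2 * f → ∑ i, F ω i = f := by
    intro ω h
    obtain ⟨c, hc⟩ := hdvd ω
    rw [hc] at h ⊢
    have h0 : c ≠ 0 := by rintro rfl; exact hg ω (by rw [hc, mul_zero])
    have : c < 2 := by
      by_contra hcon
      have : f * 2 ≤ f * c := Nat.mul_le_mul_left _ (by omega)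
      omega
    have : c = 1 := by omega
    rw [this, mul_one]
  have hone : ∀ ω, ∑ i, F ω i = f → ∀ i, F ω i ≤ 1 := by
    intro ω h i
    by_cases hi : i = 0
    · rw [hi, ha]; omega
    · have h1 := card_mul_le D (F ω) (hb ω) i hi
      rw [h, hD] at h1
      by_contra hcon
      have : f * 2 ≤ f * F ω i := Nat.mul_le_mul_left _ (by omega)
      omega
  have hyf : ∀ ω, ∑ i, F ω i = f → (f : ℤ) = 2 * s ω * (s ω + 1) := by
    intro ω h
    rw [← hy ω, ← h]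
    congr 1
    refine Finset.sum_congr rfl fun i _ => ?_
    have := hone ω h i
    interval_cases F ω i <;> rfl
  obtain ⟨ω₁, hω₁⟩ : ∃ ω, ∑ i, F ω i = f := by
    by_contra hcon
    push Not at hcon
    have h1 : ∀ ω, 2 * f ≤ ∑ i, F ω i := by
      intro ω
      by_contra h
      exact hcon ω (hlt ω (by omega))
    have h2 := Finset.sum_le_sum (fun ω (_ : ω ∈ Finset.univ) => h1 ω)
    rw [htot, Finset.sum_const, Finset.card_univ, hI, smul_eq_mul] at h2
    nlinarith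
  have hf1 := hyf ω₁ hω₁
  by_cases hs : 0 ≤ s ω₁
  · refine ⟨ω₁, (s ω₁).toNat, ?_, ?_, ?_, hone ω₁ hω₁, hω₁⟩
    · rcases Nat.eq_zero_or_pos (s ω₁).toNat with h | h
      · have : s ω₁ = 0 := by omega
        rw [this] at hf1
        omega
      · exact h
    · zify
      rw [Int.toNat_of_nonneg hs, hf1]; ring
    · exact (Int.toNat_of_nonneg hs).symm
  push Not at hs
  obtain ⟨i₁, hi₁⟩ : ∃ i, F ω₁ i ≠ 0 := by
    by_contra hcon
    push Not at hcon
    exact hg ω₁ (Finset.sum_eq_zero fun i _ => hcon i)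
  have hi₁0 : i₁ ≠ 0 := by rintro rfl; exact hi₁ (ha ω₁)
  have hi₁1 : F ω₁ i₁ = 1 := by have := hone ω₁ hω₁ i₁; omega
  have hsup := supp_eq D (F ω₁) (hb ω₁) i₁ hi₁0 hi₁1 (by rw [hω₁, hD])
  have hsum1 := hc i₁ hi₁0
  rw [← Finset.add_sum_erase _ _ (Finset.mem_univ ω₁), hi₁1] at hsum1
  have hsum2 : ∑ ω ∈ Finset.univ.erase ω₁, F ω i₁ = 1 := by omega
  obtain ⟨ω₂, hω₂m, hω₂⟩ : ∃ ω ∈ Finset.univ.erase ω₁, F ω i₁ ≠ 0 := by
    by_contra hcon
    push Not at hcon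
    rw [Finset.sum_eq_zero hcon] at hsum2
    omega
  have hne : ω₂ ≠ ω₁ := Finset.ne_of_mem_erase hω₂m
  rw [← Finset.add_sum_erase _ _ hω₂m] at hsum2
  have hω₂1 : F ω₂ i₁ = 1 := by omega
  have hrest : ∀ ω, ω ≠ ω₁ → ω ≠ ω₂ → F ω i₁ = 0 := by
    intro ω h1 h2
    have h3 : ∑ ω ∈ (Finset.univ.erase ω₁).erase ω₂, F ω i₁ = 0 := by omega
    exact Finset.sum_eq_zero_iff.mp h3 ω
      (Finset.mem_erase.mpr ⟨h2, Finset.mem_erase.mpr ⟨h1, Finset.mem_univ _⟩⟩)
  -- products with F ω₁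
  have hprod : ∀ ω, ∑ i, F ω₁ i * F ω i = f * F ω i₁ := by
    intro ω
    have h1 : ∀ i, F ω₁ i * F ω i = F ω₁ i * F ω i₁ := by
      intro i
      by_cases h : F ω₁ i = 0
      · rw [h, zero_mul, zero_mul]
      · obtain ⟨d, hd, rfl⟩ := hsup i h
        rw [hb ω d hd]
    rw [Finset.sum_congr rfl (fun i _ => h1 i), ← Finset.sum_mul, hω₁]
  have hs2 : s ω₂ = -1 - s ω₁ := by
    have h1 := he ω₁ ω₂ hne.symm
    rw [hprod, hω₂1, mul_one, hf1] at h1
    have h2 : 2 * s ω₁ * (s ω₂ - (-1 - s ω₁)) = 0 := by linear_combination h1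
    rcases mul_eq_zero.mp h2 with h | h
    · omega
    · omega
  have hrest0 : ∀ ω, ω ≠ ω₁ → ω ≠ ω₂ → s ω = 0 := by
    intro ω h1 h2
    have h3 := he ω₁ ω h1.symm
    rw [hprod, hrest ω h1 h2, mul_zero] at h3
    have h4 : s ω₁ * s ω = 0 := by
      have : 2 * (s ω₁ * s ω) = 0 := by
        push_cast at h3; linear_combination h3
      omega
    rcases mul_eq_zero.mp h4 with h | h
    · omega
    · exact h
  have hrest2 : ∀ ω, ω ≠ ω₁ → ω ≠ ω₂ → 2 * f ≤ ∑ i, F ω i := by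
    intro ω h1 h2
    obtain ⟨i, hi⟩ : ∃ i, F ω i ≠ 0 := by
      by_contra hcon
      push Not at hcon
      exact hg ω (Finset.sum_eq_zero fun i _ => hcon i)
    have h3 := hy ω
    rw [hrest0 ω h1 h2] at h3
    have h4 : ∑ i, F ω i * (2 - F ω i) = 0 := by
      have : ((∑ i, F ω i * (2 - F ω i) : ℕ) : ℤ) = 0 := by rw [h3]; ring
      exact_mod_cast this
    have h5 := Finset.sum_eq_zero_iff.mp h4 i (Finset.mem_univ _)
    have h6 : F ω i = 2 := by
      rcases Nat.mul_eq_zero.mp h5 with h | h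
      · exact absurd h hi
      · have := hle2 ω i; omega
    have hi0 : i ≠ 0 := by rintro rfl; exact hi (ha ω)
    have h7 := card_mul_le D (F ω) (hb ω) i hi0
    rw [hD, h6] at h7
    omega
  have hU2 : ∑ i, F ω₂ i = f := by
    apply le_antisymm _ (hgef ω₂)
    rw [← Finset.add_sum_erase _ _ (Finset.mem_univ ω₁), ← Finset.add_sum_erase _ _ hω₂m,
      hω₁] at htot
    have h1 : ∀ ω ∈ (Finset.univ.erase ω₁).erase ω₂, 2 * f ≤ ∑ i, F ω i := fun ω hω =>
      hrest2 ω (Finset.ne_of_mem_erase (Finset.mem_of_mem_erase hω)) (Finset.ne_of_mem_erase hω)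
    have h2 := Finset.sum_le_sum h1
    rw [Finset.sum_const, Finset.card_erase_of_mem hω₂m,
      Finset.card_erase_of_mem (Finset.mem_univ _), Finset.card_univ, hI, smul_eq_mul] at h2
    have h3 : t + 1 - 1 - 1 = t - 1 := by omega
    rw [h3] at h2
    obtain ⟨t', rfl⟩ := Nat.exists_eq_add_of_le ht
    have h4 : 1 + t' - 1 = t' := by omega
    rw [h4] at h2
    nlinarith
  refine ⟨ω₂, (s ω₂).toNat, ?_, ?_, ?_, hone ω₂ hU2, hU2⟩
  · have hf2 := hyf ω₂ hU2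
    rcases Nat.eq_zero_or_pos (s ω₂).toNat with h | h
    · have : s ω₂ = 0 := by omega
      rw [this] at hf2
      omega
    · exact h
  · have hs2' : 0 ≤ s ω₂ := by omega
    zify
    rw [Int.toNat_of_nonneg hs2', hyf ω₂ hU2]; ring
  · exact (Int.toNat_of_nonneg (by omega)).symm

end Cfsg.Agent.Lib.W2pComb
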