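import Mathlib
import Cfsg.Agent.Lib.CharBasic2
import Cfsg.Agent.Lib.CharGalois

set_option autoImplicit false

/-!
# Fourier analysis on an element of order p (helper12)
-/

namespace Cfsg.Agent.Lib.W2pFour

open scoped ComplexConjugate
open Representation Module Cfsg.Agent.Lib.CharBasic

universe u v w

variable {p : ℕ} [hp : Fact p.Prime]

/-- the standard additive character -/
noncomputable def e (x : ZMod p) : ℂ := ZMod.stdAddChar x

theorem e_add (x y : ZMod p) : e (x + y) = e x * e y := AddChar.map_add_eq_mul _ _ _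

theorem e_zero : e (0 : ZMod p) = 1 := AddChar.map_zero_eq_one _

theorem e_neg (x : ZMod p) : e (-x) = conj (e x) := AddChar.map_neg_eq_conj _ _

theorem e_mul_conj (x : ZMod p) : e x * conj (e x) = 1 := by
  rw [← e_neg, ← e_add, add_neg_cancel, e_zero]

theorem norm_e (x : ZMod p) : ‖e x‖ = 1 := by
  have h := e_mul_conj x
  rw [Complex.mul_conj, Complex.normSq_eq_norm_sq] at h
  have h1 : ‖e x‖ ^ 2 = 1 := by exact_mod_cast h
  have h2 := norm_nonneg (e x)
  nlinarith

theorem e_eq_one_iff (x : ZMod p) : e x = 1 ↔ x = 0 := by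
  constructor
  · intro h
    apply ZMod.injective_stdAddChar (N := p)
    rw [AddChar.map_zero_eq_one]
    exact h
  · rintro rfl; exact e_zero

theorem sum_e (t : ZMod p) : ∑ i : ZMod p, e (i * t) = if t = 0 then (p : ℂ) else 0 := by
  have h := AddChar.sum_mulShift t (ZMod.isPrimitive_stdAddChar p)
  rw [ZMod.card] at h
  rw [show (∑ i : ZMod p, e (i * t)) = ∑ x : ZMod p, ZMod.stdAddChar (x * t) from rfl, h]
  split_ifs <;> simp

/-- Fourier transform -/
noncomputable def hat (F : ZMod p → ℂ) (j : ZMod p) : ℂ := ∑ i, F i * e (-(i * j))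

theorem hat_zero (F : ZMod p → ℂ) : hat F 0 = ∑ i, F i := by
  unfold hat
  refine Finset.sum_congr rfl fun i _ => ?_
  rw [mul_zero, neg_zero, e_zero, mul_one]

theorem hat_inv (F : ZMod p → ℂ) (i : ZMod p) : ∑ j, hat F j * e (i * j) = p * F i := by
  unfold hat
  have h1 : ∀ j : ZMod p, (∑ k, F k * e (-(k * j))) * e (i * j) =
      ∑ k, F k * e (j * (i - k)) := by
    intro j
    rw [Finset.sum_mul]
    refine Finset.sum_congr rfl fun k _ => ?_
    rw [mul_assoc, ← e_add]
    congr 2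
    ring
  rw [Finset.sum_congr rfl (fun j _ => h1 j), Finset.sum_comm]
  have h2 : ∀ k : ZMod p, ∑ j : ZMod p, F k * e (j * (i - k)) =
      if k = i then (p : ℂ) * F i else 0 := by
    intro k
    rw [← Finset.mul_sum, sum_e]
    by_cases h : k = i
    · rw [h, sub_self, if_pos rfl, if_pos rfl, mul_comm]
    · rw [if_neg h, if_neg (fun h' => h (sub_eq_zero.mp h').symm), mul_zero]
  rw [Finset.sum_congr rfl (fun k _ => h2 k), Finset.sum_ite_eq', if_pos (Finset.mem_univ _)]

theorem parseval (F F' : ZMod p → ℂ) :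
    ∑ j, hat F j * conj (hat F' j) = p * ∑ i, F i * conj (F' i) := by
  have h1 : ∀ j : ZMod p, hat F j * conj (hat F' j) =
      ∑ i, conj (F' i) * (hat F j * e (i * j)) := by
    intro j
    conv_lhs => rw [show hat F' j = ∑ i, F' i * e (-(i * j)) from rfl]
    rw [map_sum, Finset.mul_sum]
    refine Finset.sum_congr rfl fun i _ => ?_
    rw [map_mul, ← e_neg, neg_neg]; ring
  rw [Finset.sum_congr rfl (fun j _ => h1 j), Finset.sum_comm, Finset.mul_sum]
  refine Finset.sum_congr rfl fun i _ => ?_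
  rw [← Finset.mul_sum, hat_inv]; ring

/-! ### an element of order `p` -/

section pw

variable {G : Type u} [Group G]

/-- powers indexed by `ZMod p`. -/
def pw (g : G) (i : ZMod p) : G := g ^ i.val

theorem pw_natCast {g : G} (hg : g ^ p = 1) (n : ℕ) : pw g (n : ZMod p) = g ^ n := by
  unfold pw
  rw [ZMod.val_natCast, ← pow_eq_pow_mod n hg]

theorem pw_zero {g : G} : pw g (0 : ZMod p) = 1 := by
  unfold pw; rw [ZMod.val_zero, pow_zero]

theorem pw_one {g : G} (hg : g ^ p = 1) : pw g (1 : ZMod p) = g := by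
  have := pw_natCast hg 1
  rwa [Nat.cast_one, pow_one] at this

theorem pw_add {g : G} (hg : g ^ p = 1) (i j : ZMod p) : pw g (i + j) = pw g i * pw g j := by
  unfold pw
  rw [ZMod.val_add, ← pow_eq_pow_mod _ hg, pow_add]

theorem pw_pow {g : G} (hg : g ^ p = 1) (i : ZMod p) (k : ℕ) : (pw g i) ^ k = pw g ((k : ZMod p) * i) := by
  unfold pw
  rw [← pow_mul, ZMod.val_mul, ZMod.val_natCast, ← pow_eq_pow_mod _ hg,
    pow_eq_pow_mod (i.val * k) hg, pow_eq_pow_mod (k % p * i.val) hg, Nat.mul_mod (k % p),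
    Nat.mod_mod, ← Nat.mul_mod, mul_comm]

theorem pw_neg {g : G} (hg : g ^ p = 1) (i : ZMod p) : pw g (-i) = (pw g i)⁻¹ := by
  rw [eq_inv_iff_mul_eq_one, ← pw_add hg, neg_add_cancel, pw_zero]

/-- the homomorphism -/
def pwHom {g : G} (hg : g ^ p = 1) : Multiplicative (ZMod p) →* G where
  toFun i := pw g (Multiplicative.toAdd i)
  map_one' := pw_zero
  map_mul' _ _ := pw_add hg _ _

/-- the multiplicity of the `j`-th character in the restriction to `⟨g⟩` -/
noncomputable def bb (g : G) (χ : G → ℂ) (j : ZMod p) : ℂ :=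
  (p : ℂ)⁻¹ * hat (fun i => χ (pw g i)) j

theorem bb_nat {g : G} (hg : g ^ p = 1) {χ : G → ℂ} (hχ : IsCharacter G χ) (j : ZMod p) :
    ∃ n : ℕ, bb g χ j = n := by
  let H := Multiplicative (ZMod p)
  let f : H →* ℂ :=
    { toFun := fun i => e (Multiplicative.toAdd i * j)
      map_one' := by
        show e ((0 : ZMod p) * j) = 1
        rw [zero_mul, e_zero]
      map_mul' := by
        intro x y
        show e ((Multiplicative.toAdd x + Multiplicative.toAdd y) * j) = _
        rw [add_mul, e_add] }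
  have h1 : IsCharacter H (fun x => χ (pwHom hg x)) := hχ.comp (pwHom hg)
  have h2 : IsCharacter H (fun x => f x) := isCharacter_of_hom f
  obtain ⟨n, hn⟩ := h1.classInner_nat h2
  refine ⟨n, ?_⟩
  rw [← hn, classInner_def]
  have hc : (Nat.card H : ℂ) = p := by
    rw [show Nat.card H = Nat.card (ZMod p) from rfl, Nat.card_zmod]
  rw [hc]
  unfold bb hat
  congr 1
  refine Fintype.sum_equiv Multiplicative.ofAdd _ _ fun i => ?_
  rw [e_neg]
  rfl

theorem sum_bb (g : G) (χ : G → ℂ) (i : ZMod p) :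
    χ (pw g i) = ∑ j, bb g χ j * e (i * j) := by
  have hp0 : (p : ℂ) ≠ 0 := by exact_mod_cast hp.out.ne_zero
  unfold bb
  have := hat_inv (fun i => χ (pw g i)) i
  have h2 : ∑ j, (p : ℂ)⁻¹ * hat (fun i => χ (pw g i)) j * e (i * j) =
      (p : ℂ)⁻¹ * ∑ j, hat (fun i => χ (pw g i)) j * e (i * j) := by
    rw [Finset.mul_sum]
    exact Finset.sum_congr rfl fun j _ => by ring
  rw [h2, this, ← mul_assoc, inv_mul_cancel₀ hp0, one_mul]

theorem sum_bb_one (g : G) (χ : G → ℂ) : χ 1 = ∑ j : ZMod p, bb g χ j := by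
  have := sum_bb g χ (0 : ZMod p)
  rw [pw_zero] at this
  rw [this]
  refine Finset.sum_congr rfl fun j _ => ?_
  rw [zero_mul, e_zero, mul_one]

theorem bb_smul (g : G) (c : ℂ) (χ : G → ℂ) (j : ZMod p) : bb g (c • χ) j = c * bb g χ j := by
  unfold bb hat
  rw [Finset.mul_sum, Finset.mul_sum, Finset.mul_sum]
  refine Finset.sum_congr rfl fun i _ => ?_
  show (p : ℂ)⁻¹ * (c * χ (pw g i) * _) = _
  ring

theorem bb_sum {ι : Type*} (g : G) (s : Finset ι) (f : ι → G → ℂ) (j : ZMod p) :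
    bb g (∑ x ∈ s, f x) j = ∑ x ∈ s, bb g (f x) j := by
  unfold bb hat
  rw [← Finset.mul_sum, Finset.sum_comm]
  congr 1
  refine Finset.sum_congr rfl fun i _ => ?_
  show (∑ x ∈ s, f x) (pw g i) * _ = _
  rw [Finset.sum_apply, Finset.sum_mul]

/-- Galois twist on `⟨g⟩` -/
theorem bb_pow {g : G} (hg : g ^ p = 1) (χ : G → ℂ) (k : ℕ) (hk : (k : ZMod p) ≠ 0) (j : ZMod p) :
    bb g (fun x => χ (x ^ k)) ((k : ZMod p) * j) = bb g χ j := by
  unfold bb hat
  congr 1
  refine Fintype.sum_equiv (Equiv.mulLeft₀ (k : ZMod p) hk) _ _ fun i => ?_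
  rw [Equiv.mulLeft₀_apply]
  show χ (pw g i ^ k) * _ = _
  rw [pw_pow hg]
  congr 2
  ring

theorem bb_one (g : G) (j : ZMod p) : bb g (1 : G → ℂ) j = if j = 0 then 1 else 0 := by
  have hp0 : (p : ℂ) ≠ 0 := by exact_mod_cast hp.out.ne_zero
  unfold bb hat
  have h1 : ∑ i : ZMod p, (1 : G → ℂ) (pw g i) * e (-(i * j)) = ∑ i : ZMod p, e (i * (-j)) :=
    Finset.sum_congr rfl fun i _ => by rw [Pi.one_apply, one_mul]; congr 1; ring
  rw [h1, sum_e]
  by_cases h : j = 0
  · rw [if_pos h, if_pos (by rw [h, neg_zero]), inv_mul_cancel₀ hp0]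
  · rw [if_neg h, if_neg (fun h' => h (neg_eq_zero.mp h')), mul_zero]

end pw

/-- lifting units: there is a `k` prime to `N` in a given class mod `p`. -/
theorem exists_lift {N : ℕ} (hN : 0 < N) (u : ZMod p) (hu : u ≠ 0) :
    ∃ k : ℕ, k.Coprime N ∧ (k : ZMod p) = u := by
  have : NeZero (N * p) := ⟨Nat.mul_ne_zero hN.ne' hp.out.ne_zero⟩
  obtain ⟨v, hv⟩ := ZMod.unitsMap_surjective (Dvd.intro_left N rfl : p ∣ N * p) (Units.mk0 u hu)
  refine ⟨(v : ZMod (N * p)).val, ?_, ?_⟩
  · exact Nat.Coprime.coprime_dvd_right (Dvd.intro _ rfl) (ZMod.val_coe_unit_coprime v)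
  · have h := congrArg Units.val hv
    rw [ZMod.unitsMap_val, Units.val_mk0] at h
    rw [← h]
    exact ZMod.natCast_val _

end Cfsg.Agent.Lib.W2pFour
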