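import Mathlib
import Cfsg.Agent.Lib.MFreePerm
import Cfsg.Agent.Lib.W2pFour
import Cfsg.Agent.Lib.PermRepPPower

set_option autoImplicit false

/-!
# Wielandt degree 2p: constituents of the permutation character (helper12)
-/

namespace Cfsg.Agent.Lib.W2pCons

open scoped ComplexConjugate
open Representation Module Cfsg.Agent.Lib.CharBasic Cfsg.Agent.Lib.PermChar
  Cfsg.Agent.Lib.PermChar2 Cfsg.Agent.Lib.PermChar3 Cfsg.Agent.Lib.PermChar4 Cfsg.Agent.Lib.MFree
  Cfsg.Agent.Lib.MFreePerm Cfsg.Agent.Lib.W2pFour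

universe u v w

variable {p : ℕ} [hp : Fact p.Prime]
variable {G : Type u} [Group G] [Fintype G]

/-- multiplicity of the `j`-th character of `⟨g⟩` in `χ`. -/
noncomputable def B {g : G} (hg : g ^ p = 1) (χ : IrrCharacter G) (j : ZMod p) : ℕ :=
  (bb_nat hg χ.2.isCharacter j).choose

omit [Fintype G] in
theorem B_spec {g : G} (hg : g ^ p = 1) (χ : IrrCharacter G) (j : ZMod p) :
    bb g (χ : G → ℂ) j = B hg χ j := (bb_nat hg χ.2.isCharacter j).choose_spec

omit [Fintype G] in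
theorem B_one' {g : G} (hg : g ^ p = 1) (j : ZMod p) :
    B hg (one' G) j = if j = 0 then 1 else 0 := by
  have h1 := B_spec hg (one' G) j
  have h2 : bb g ((one' G : IrrCharacter G) : G → ℂ) j = if j = 0 then 1 else 0 := bb_one g j
  rw [h2] at h1
  split_ifs at h1 ⊢ <;> exact_mod_cast h1.symm

omit [Fintype G] in
theorem degree_eq {g : G} (hg : g ^ p = 1) (χ : IrrCharacter G) :
    (χ : G → ℂ) 1 = ((∑ j, B hg χ j : ℕ) : ℂ) := by
  rw [sum_bb_one (p := p) g (χ : G → ℂ)]
  push_cast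
  exact Finset.sum_congr rfl fun j _ => B_spec hg χ j

omit [Fintype G] in
theorem val_eq {g : G} (hg : g ^ p = 1) (χ : IrrCharacter G) (i : ZMod p) :
    (χ : G → ℂ) (pw g i) = ∑ j, (B hg χ j : ℂ) * e (i * j) := by
  rw [sum_bb (p := p) g (χ : G → ℂ) i]
  exact Finset.sum_congr rfl fun j _ => by rw [B_spec hg χ j]

/-- twisting by powers -/
noncomputable def tw (k : ℕ) (hk : k.Coprime (Nat.card G)) (χ : IrrCharacter G) :
    IrrCharacter G := ⟨fun x => (χ : G → ℂ) (x ^ k), CharGalois.isIrrCharacter_pow χ.2 hk⟩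

theorem tw_injective (k : ℕ) (hk : k.Coprime (Nat.card G)) :
    Function.Injective (tw (G := G) k hk) := by
  intro χ χ' h
  apply Subtype.ext
  ext x
  obtain ⟨y, rfl⟩ := (powCoprime hk.symm).surjective x
  exact congrFun (congrArg Subtype.val h) y

theorem B_tw {g : G} (hg : g ^ p = 1) (k : ℕ) (hk : k.Coprime (Nat.card G))
    (hk0 : (k : ZMod p) ≠ 0) (χ : IrrCharacter G) (j : ZMod p) :
    B hg (tw k hk χ) ((k : ZMod p) * j) = B hg χ j := by
  have h1 := B_spec hg (tw k hk χ) ((k : ZMod p) * j)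
  have h2 := bb_pow hg (χ : G → ℂ) k hk0 j
  have h3 : bb g ((tw k hk χ : IrrCharacter G) : G → ℂ) ((k : ZMod p) * j) =
    bb g (fun x => (χ : G → ℂ) (x ^ k)) ((k : ZMod p) * j) := rfl
  rw [h3, h2, B_spec hg χ j] at h1
  exact_mod_cast h1.symm

section perm

variable {Ω : Type v} [Fintype Ω] [MulAction G Ω]

theorem classInner_tw (k : ℕ) (hk : k.Coprime (Nat.card G)) (χ : IrrCharacter G) :
    classInner (Cfsg.permRep ℂ G Ω).character ((tw k hk χ : IrrCharacter G) : G → ℂ) =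
      classInner (Cfsg.permRep ℂ G Ω).character (χ : G → ℂ) := by
  rw [classInner_def, classInner_def]
  congr 1
  refine Fintype.sum_equiv (powCoprime hk.symm) _ _ fun x => ?_
  have h1 : (Cfsg.permRep ℂ G Ω).character (powCoprime hk.symm x) =
      (Cfsg.permRep ℂ G Ω).character x := by
    rw [permRep_character, permRep_character]
    congr 2
    apply congrArg
    ext y
    rw [MulAction.mem_fixedBy, MulAction.mem_fixedBy]
    constructor
    · intro h
      have h2 : x ^ k ∈ MulAction.stabilizer G y := h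
      have h3 := (MulAction.stabilizer G y).pow_mem h2 ((Nat.card G).gcdB k).natAbs
      have hz : (x ^ k) ^ ((Nat.card G).gcdB k) ∈ MulAction.stabilizer G y :=
        (MulAction.stabilizer G y).zpow_mem h2 _
      have h4 : (x ^ k) ^ ((Nat.card G).gcdB k) = x := (powCoprime hk.symm).left_inv x
      rw [h4] at hz
      exact hz
    · intro h
      exact (MulAction.stabilizer G y).pow_mem h k
  rw [h1]
  rfl

theorem tw_mem_cons {k : ℕ} {hk : k.Coprime (Nat.card G)} {χ : IrrCharacter G}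
    (h : χ ∈ cons (Cfsg.permRep ℂ G Ω)) : tw k hk χ ∈ cons (Cfsg.permRep ℂ G Ω) := by
  rw [mem_cons] at h ⊢
  rwa [classInner_tw]

omit [Fintype Ω] in
/-- a linear constituent of the permutation character of a primitive group is trivial on no
element which acts nontrivially. -/
theorem linear_ne [Finite Ω] [Fintype Ω] [MulAction.IsPreprimitive G Ω] (ψ : IrrCharacter G)
    (hψ : ψ ∈ cons (Cfsg.permRep ℂ G Ω)) (h1 : (ψ : G → ℂ) 1 = 1) (hne : ψ ≠ one' G) (g : G)
    (hg : (ψ : G → ℂ) g = 1) (x : Ω) : g • x = x := by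
  classical
  by_contra hx
  obtain ⟨f, hf⟩ := ψ.2.isCharacter.exists_hom h1
  have hmul : ∀ a b : G, (ψ : G → ℂ) (a * b) = (ψ : G → ℂ) a * (ψ : G → ℂ) b := by
    intro a b
    rw [ψ.2.isCharacter.map_mul_of_linear h1]
  -- the vector
  set ρ := Cfsg.permRep ℂ G Ω with hρ
  obtain ⟨hv0, hv⟩ := tv_spec hψ
  set v := tv ρ ψ with hvdef
  have hGc : (Nat.card G : ℂ) ≠ 0 := by exact_mod_cast Nat.card_pos.ne'
  have h2 : wsum (fun h => conj ((ψ : G → ℂ) h)) ρ v = (Nat.card G : ℂ) • v := by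
    rw [hv _ (isClassFunction_conj ψ.2.isClassFunction), sum_conj_mul, ψ.2.classInner_self, h1,
      mul_one, div_one]
  have h3 : ∀ y : G, ρ y v = (ψ : G → ℂ) y • v := by
    intro y
    have h4 : ρ y (wsum (fun h => conj ((ψ : G → ℂ) h)) ρ v) =
        (ψ : G → ℂ) y • wsum (fun h => conj ((ψ : G → ℂ) h)) ρ v := by
      rw [wsum_apply, map_sum, Finset.smul_sum]
      refine Fintype.sum_equiv (Equiv.mulLeft y) _ _ fun h => ?_
      rw [map_smul, Equiv.coe_mulLeft, map_mul, smul_smul]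
      have h5 : (ψ : G → ℂ) y * conj ((ψ : G → ℂ) (y * h)) = conj ((ψ : G → ℂ) h) := by
        rw [hmul, map_mul, ← mul_assoc, ψ.2.isCharacter.mul_conj_of_linear h1, one_mul]
      rw [h5]; rfl
    rw [h2, map_smul, smul_comm] at h4
    exact smul_right_injective _ hGc h4
  -- kernel
  let K : Subgroup G :=
    { carrier := {y | (ψ : G → ℂ) y = 1}
      one_mem' := h1
      mul_mem' := by
        intro a b ha hb
        show (ψ : G → ℂ) (a * b) = 1
        rw [hmul, show (ψ : G → ℂ) a = 1 from ha, show (ψ : G → ℂ) b = 1 from hb, one_mul]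
      inv_mem' := by
        intro a ha
        show (ψ : G → ℂ) a⁻¹ = 1
        rw [ψ.2.inv, show (ψ : G → ℂ) a = 1 from ha, map_one] }
  have hKn : K.Normal := by
    constructor
    intro n hn y
    show (ψ : G → ℂ) (y * n * y⁻¹) = 1
    rw [hmul, hmul, show (ψ : G → ℂ) n = 1 from hn, mul_one, ← hmul, mul_inv_cancel, h1]
  have hKt : MulAction.IsPretransitive K Ω := by
    apply MulAction.IsQuasiPreprimitive.isPretransitive_of_normal (G := G)
    intro h
    have h6 : x ∈ MulAction.fixedPoints K Ω := by rw [h]; trivial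
    exact hx (h6 ⟨g, hg⟩)
  have hconst : ∀ y z : Ω, v y = v z := by
    intro y z
    obtain ⟨m, hm⟩ := MulAction.exists_smul_eq K y z
    have h7 := congrFun (h3 m.1) z
    rw [hρ, PermRepBasic.permRep_apply, Pi.smul_apply, show (ψ : G → ℂ) m.1 = 1 from m.2,
      one_smul] at h7
    rw [← h7, ← hm]
    congr 1
    show y = (m.1)⁻¹ • (m.1 • y)
    rw [inv_smul_smul]
  apply hne
  apply Subtype.ext
  ext y
  have h8 : ρ y v = v := by
    ext z
    rw [hρ, PermRepBasic.permRep_apply]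
    exact hconst _ _
  rw [h3] at h8
  have h9 : ((ψ : G → ℂ) y - 1) • v = 0 := by rw [sub_smul, h8, one_smul, sub_self]
  rcases smul_eq_zero.mp h9 with h | h
  · exact sub_eq_zero.mp h
  · exact absurd h hv0

theorem structure_thm [MulAction.IsPreprimitive G Ω]
    (h2t : ¬ MulAction.IsMultiplyPretransitive G Ω 2) {g : G} (hg : g ^ p = 1)
    (hfix : ∀ i : ZMod p, i ≠ 0 → ∀ x : Ω, pw g i • x ≠ x) (hΩ : Fintype.card Ω = 2 * p) (a : Ω) :
    ∃ ψ : IrrCharacter G, ψ ≠ one' G ∧ MF (Cfsg.permRep ℂ G Ω) ∧ ψ ∈ cons (Cfsg.permRep ℂ G Ω) ∧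
      (∀ j, B hg ψ j = 1) ∧
      (∀ χ ∈ cons (Cfsg.permRep ℂ G Ω), χ ≠ one' G → χ ≠ ψ → B hg χ 0 = 0) ∧
      (∀ j, j ≠ 0 → ∃ χ ∈ cons (Cfsg.permRep ℂ G Ω), χ ≠ one' G ∧ χ ≠ ψ ∧ B hg χ j = 1 ∧
        ∀ χ' ∈ cons (Cfsg.permRep ℂ G Ω), χ' ≠ one' G → χ' ≠ ψ → χ' ≠ χ → B hg χ' j = 0) := by
  classical
  have hne : Nonempty Ω := ⟨a⟩
  obtain ⟨c, hc, hc1, hcr, hcn⟩ := exists_coeffs (G := G) a
  set ρ := Cfsg.permRep ℂ G Ω with hρ
  have hp0 : (p : ℂ) ≠ 0 := by exact_mod_cast hp.out.ne_zero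
  have hcmem : ∀ χ : IrrCharacter G, χ ∈ cons ρ ↔ c χ ≠ 0 := by
    intro χ
    rw [mem_cons, hc]
    exact Nat.cast_ne_zero
  -- multiplicities in the permutation character
  have hpi : ∀ i : ZMod p, ρ.character (pw g i) = if i = 0 then (2 * p : ℂ) else 0 := by
    intro i
    rw [hρ, permRep_character]
    split_ifs with hi
    · rw [hi, pw_zero]
      have : MulAction.fixedBy Ω (1 : G) = Set.univ := by
        ext x; simp
      rw [this, Nat.card_congr (Equiv.Set.univ Ω), Nat.card_eq_fintype_card, hΩ]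
      push_cast; rfl
    · have : MulAction.fixedBy Ω (pw g i) = ∅ := by
        ext x
        rw [MulAction.mem_fixedBy]
        exact ⟨fun h => absurd h (hfix i hi x), fun h => absurd h (Set.notMem_empty x)⟩
      rw [this]; simp
  have hbpi : ∀ j : ZMod p, bb g ρ.character j = 2 := by
    intro j
    unfold bb hat
    simp only [hpi]
    rw [Finset.sum_eq_single (0 : ZMod p)]
    · rw [if_pos rfl, zero_mul, neg_zero, e_zero, mul_one]
      field_simp
    · intro i _ hi
      rw [if_neg hi, zero_mul]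
    · intro h; exact absurd (Finset.mem_univ _) h
  have hchar : ρ.character = ∑ χ : IrrCharacter G, (c χ : ℂ) • (χ : G → ℂ) := by
    conv_lhs => rw [(isCharacter_of_rep ρ).isClassFunction.expansion]
    exact Finset.sum_congr rfl fun χ _ => by rw [hc]
  have hsum : ∀ j : ZMod p, ∑ χ : IrrCharacter G, c χ * B hg χ j = 2 := by
    intro j
    have h1 := hbpi j
    rw [hchar, bb_sum] at h1
    have h2 : ∑ χ : IrrCharacter G, bb g ((c χ : ℂ) • (χ : G → ℂ)) j =
        ((∑ χ : IrrCharacter G, c χ * B hg χ j : ℕ) : ℂ) := by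
      push_cast
      refine Finset.sum_congr rfl fun χ _ => ?_
      rw [bb_smul, B_spec hg]
    rw [h2] at h1
    exact_mod_cast h1
  have hc1' : c (one' G) = 1 := hc1
  have hsum0 : ∑ χ ∈ Finset.univ.erase (one' G), c χ * B hg χ 0 = 1 := by
    have h1 := hsum 0
    rw [← Finset.add_sum_erase _ _ (Finset.mem_univ (one' G)), hc1', B_one', if_pos rfl] at h1
    omega
  have hsumj : ∀ j, j ≠ 0 → ∑ χ ∈ Finset.univ.erase (one' G), c χ * B hg χ j = 2 := by
    intro j hj
    have h1 := hsum j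
    rw [← Finset.add_sum_erase _ _ (Finset.mem_univ (one' G)), hc1', B_one', if_neg hj] at h1
    omega
  obtain ⟨ψ, hψm, hψ⟩ : ∃ ψ ∈ Finset.univ.erase (one' G), c ψ * B hg ψ 0 ≠ 0 := by
    by_contra hcon
    push Not at hcon
    rw [Finset.sum_eq_zero hcon] at hsum0
    omega
  have hψne : ψ ≠ one' G := Finset.ne_of_mem_erase hψm
  rw [← Finset.add_sum_erase _ _ hψm] at hsum0
  have hψ1 : c ψ * B hg ψ 0 = 1 := by omega
  have hcψ : c ψ = 1 := Nat.eq_one_of_mul_eq_one_right hψ1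
  have hBψ : B hg ψ 0 = 1 := Nat.eq_one_of_mul_eq_one_left hψ1
  have hrest : ∀ χ : IrrCharacter G, χ ≠ one' G → χ ≠ ψ → c χ * B hg χ 0 = 0 := by
    intro χ h1 h2
    have h3 : ∑ χ ∈ (Finset.univ.erase (one' G)).erase ψ, c χ * B hg χ 0 = 0 := by omega
    exact Finset.sum_eq_zero_iff.mp h3 χ
      (Finset.mem_erase.mpr ⟨h2, Finset.mem_erase.mpr ⟨h1, Finset.mem_univ _⟩⟩)
  have hψc : ψ ∈ cons ρ := (hcmem ψ).mpr (by rw [hcψ]; exact one_ne_zero)
  -- psi is invariant under twisting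
  have htwc : ∀ (k : ℕ) (hk : k.Coprime (Nat.card G)) (χ : IrrCharacter G),
      c (tw k hk χ) = c χ := by
    intro k hk χ
    have h1 := hc (tw k hk χ)
    rw [hρ, classInner_tw, ← hρ, hc] at h1
    exact_mod_cast h1.symm
  have htwone : ∀ (k : ℕ) (hk : k.Coprime (Nat.card G)), tw k hk (one' G) = one' G :=
    fun k hk => Subtype.ext rfl
  have hlift : ∀ u : ZMod p, u ≠ 0 → ∃ k : ℕ, ∃ _ : k.Coprime (Nat.card G), (k : ZMod p) = u := by
    intro u hu
    obtain ⟨k, hk1, hk2⟩ := exists_lift (Nat.card_pos (α := G)) u hu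
    exact ⟨k, hk1, hk2⟩
  have htwψ : ∀ (k : ℕ) (hk : k.Coprime (Nat.card G)), (k : ZMod p) ≠ 0 → tw k hk ψ = ψ := by
    intro k hk hk0
    by_contra hcon
    have h1 := hrest (tw k hk ψ) (fun h => hψne (by
      rw [← htwone k hk] at h
      exact tw_injective k hk h)) hcon
    have h2 := B_tw hg k hk hk0 ψ 0
    rw [mul_zero] at h2
    rw [htwc, hcψ, h2, hBψ] at h1
    omega
  have hBconst : ∀ j, j ≠ 0 → B hg ψ j = B hg ψ 1 := by
    intro j hj
    obtain ⟨k, hk, hkj⟩ := hlift j hj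
    have h1 := B_tw hg k hk (by rw [hkj]; exact hj) ψ 1
    rw [htwψ k hk (by rw [hkj]; exact hj), mul_one, hkj] at h1
    exact h1
  have hsumj' : ∀ j, j ≠ 0 → B hg ψ 1 +
      ∑ χ ∈ (Finset.univ.erase (one' G)).erase ψ, c χ * B hg χ j = 2 := by
    intro j hj
    have h1 := hsumj j hj
    rw [← Finset.add_sum_erase _ _ hψm, hcψ, one_mul, hBconst j hj] at h1
    exact h1
  have hdegne : ∀ χ : IrrCharacter G, ∃ j, B hg χ j ≠ 0 := by
    intro χ
    by_contra hcon
    push Not at hcon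
    have h1 := degree_eq hg χ
    rw [Finset.sum_eq_zero (fun j _ => hcon j), Nat.cast_zero] at h1
    exact χ.2.one_ne_zero h1
  -- b = 1
  have hb1 : B hg ψ 1 = 1 := by
    have hle : B hg ψ 1 ≤ 2 := by have := hsumj' 1 one_ne_zero; omega
    have hb0 : B hg ψ 1 ≠ 0 := by
      intro h0
      have h1 : ∀ j, B hg ψ j = if j = 0 then 1 else 0 := by
        intro j
        by_cases hj : j = 0
        · rw [if_pos hj, hj, hBψ]
        · rw [if_neg hj, hBconst j hj, h0]
      have hd1 : (ψ : G → ℂ) 1 = 1 := by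
        rw [degree_eq hg ψ]
        simp only [h1]
        simp
      have hd2 : (ψ : G → ℂ) (pw g (1 : ZMod p)) = 1 := by
        rw [val_eq hg ψ, Finset.sum_eq_single (0 : ZMod p)]
        · rw [h1, if_pos rfl, mul_zero, e_zero]; simp
        · intro j _ hj
          rw [h1, if_neg hj]; simp
        · intro h; exact absurd (Finset.mem_univ _) h
      exact hfix 1 one_ne_zero a (linear_ne ψ hψc hd1 hψne _ hd2 a)
    have hb2 : B hg ψ 1 ≠ 2 := by
      intro h0
      have h1 : ∀ χ : IrrCharacter G, χ ≠ one' G → χ ≠ ψ → c χ = 0 := by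
        intro χ hχ1 hχ2
        by_contra hcχ
        obtain ⟨j, hj⟩ := hdegne χ
        by_cases hj0 : j = 0
        · rw [hj0] at hj
          rcases Nat.mul_eq_zero.mp (hrest χ hχ1 hχ2) with h | h
          · exact hcχ h
          · exact hj h
        · have h3 := hsumj' j hj0
          rw [h0] at h3
          have h4 : ∑ χ ∈ (Finset.univ.erase (one' G)).erase ψ, c χ * B hg χ j = 0 := by omega
          have h5 := Finset.sum_eq_zero_iff.mp h4 χ
            (Finset.mem_erase.mpr ⟨hχ2, Finset.mem_erase.mpr ⟨hχ1, Finset.mem_univ _⟩⟩)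
          rcases Nat.mul_eq_zero.mp h5 with h | h
          · exact hcχ h
          · exact hj h
      have h2 : ∑ χ : IrrCharacter G, (c χ) ^ 2 = 2 := by
        have hz : ∑ χ ∈ (Finset.univ.erase (one' G)).erase ψ, (c χ) ^ 2 = 0 := by
          apply Finset.sum_eq_zero
          intro χ hχ
          rw [h1 χ (Finset.ne_of_mem_erase (Finset.mem_of_mem_erase hχ))
            (Finset.ne_of_mem_erase hχ)]
          rfl
        rw [← Finset.add_sum_erase _ _ (Finset.mem_univ (one' G)),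
          ← Finset.add_sum_erase _ _ hψm, hc1', hcψ, hz]
        norm_num
      rw [h2, card_orbitals] at hcr
      exact h2t (PermRepPPower.two_transitive_of_card_orbits hcr.symm.le)
    omega
  have hsum1 : ∀ j, j ≠ 0 → ∑ χ ∈ (Finset.univ.erase (one' G)).erase ψ, c χ * B hg χ j = 1 := by
    intro j hj
    have := hsumj' j hj
    omega
  have hcle : ∀ χ : IrrCharacter G, χ ≠ one' G → χ ≠ ψ → c χ ≠ 0 → c χ = 1 := by
    intro χ hχ1 hχ2 hcχ
    obtain ⟨j, hj⟩ := hdegne χ
    have hj0 : j ≠ 0 := by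
      rintro rfl
      rcases Nat.mul_eq_zero.mp (hrest χ hχ1 hχ2) with h | h
      · exact hcχ h
      · exact hj h
    have h3 := hsum1 j hj0
    have hm : χ ∈ (Finset.univ.erase (one' G)).erase ψ :=
      Finset.mem_erase.mpr ⟨hχ2, Finset.mem_erase.mpr ⟨hχ1, Finset.mem_univ _⟩⟩
    rw [← Finset.add_sum_erase _ _ hm] at h3
    have h4 : c χ * B hg χ j ≠ 0 := Nat.mul_ne_zero hcχ hj
    exact Nat.eq_one_of_mul_eq_one_right (show c χ * B hg χ j = 1 by omega)
  have hmf : MF ρ := by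
    intro φ hφ
    by_cases h0 : c ⟨φ, hφ⟩ = 0
    · left
      have := hc ⟨φ, hφ⟩
      rw [h0, Nat.cast_zero] at this
      exact this
    · right
      have h1 : c ⟨φ, hφ⟩ = 1 := by
        by_cases h1 : (⟨φ, hφ⟩ : IrrCharacter G) = one' G
        · rw [h1]; exact hc1'
        · by_cases h2 : (⟨φ, hφ⟩ : IrrCharacter G) = ψ
          · rw [h2]; exact hcψ
          · exact hcle _ h1 h2 h0
      have := hc ⟨φ, hφ⟩
      rw [h1, Nat.cast_one] at this
      exact this
  refine ⟨ψ, hψne, hmf, hψc, ?_, ?_, ?_⟩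
  · intro j
    by_cases hj : j = 0
    · rw [hj, hBψ]
    · rw [hBconst j hj, hb1]
  · intro χ hχ h1 h2
    rcases Nat.mul_eq_zero.mp (hrest χ h1 h2) with h | h
    · exact absurd h ((hcmem χ).mp hχ)
    · exact h
  · intro j hj
    have h3 := hsum1 j hj
    obtain ⟨χ, hχm, hχ⟩ : ∃ χ ∈ (Finset.univ.erase (one' G)).erase ψ, c χ * B hg χ j ≠ 0 := by
      by_contra hcon
      push Not at hcon
      rw [Finset.sum_eq_zero hcon] at h3
      omega
    have hχ1 : χ ≠ one' G := Finset.ne_of_mem_erase (Finset.mem_of_mem_erase hχm)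
    have hχ2 : χ ≠ ψ := Finset.ne_of_mem_erase hχm
    rw [← Finset.add_sum_erase _ _ hχm] at h3
    have h4 : c χ * B hg χ j = 1 := by omega
    refine ⟨χ, (hcmem χ).mpr (fun h => hχ (by rw [h, zero_mul])), hχ1, hχ2,
      Nat.eq_one_of_mul_eq_one_left h4, ?_⟩
    intro χ' hχ' h1 h2 h5
    have h6 : ∑ x ∈ ((Finset.univ.erase (one' G)).erase ψ).erase χ, c x * B hg x j = 0 := by omega
    have h7 := Finset.sum_eq_zero_iff.mp h6 χ' (Finset.mem_erase.mpr
      ⟨h5, Finset.mem_erase.mpr ⟨h2, Finset.mem_erase.mpr ⟨h1, Finset.mem_univ _⟩⟩⟩)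
    rcases Nat.mul_eq_zero.mp h7 with h | h
    · exact absurd h ((hcmem χ').mp hχ')
    · exact h

end perm

end Cfsg.Agent.Lib.W2pCons
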