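import Mathlib
import Cfsg.Agent.Lib.W2pCons
import Cfsg.Agent.Lib.W2pComb

set_option autoImplicit false

/-!
# Wielandt degree 2p: the Galois structure of the constituents (helper12)
-/

namespace Cfsg.Agent.Lib.W2pSys

open scoped ComplexConjugate
open Representation Module Cfsg.Agent.Lib.CharBasic Cfsg.Agent.Lib.PermChar
  Cfsg.Agent.Lib.PermChar2 Cfsg.Agent.Lib.PermChar3 Cfsg.Agent.Lib.PermChar4 Cfsg.Agent.Lib.MFree
  Cfsg.Agent.Lib.MFreePerm Cfsg.Agent.Lib.W2pFour Cfsg.Agent.Lib.W2pCons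

universe u v w

variable {p : ℕ} [hp : Fact p.Prime]
variable {G : Type u} [Group G] [Fintype G]

/-- The structure of the constituents. -/
structure WS {g : G} (hg : g ^ p = 1) (Ω : Type v) [Fintype Ω] [MulAction G Ω]
    (ψ : IrrCharacter G) : Prop where
  ne : ψ ≠ one' G
  mf : MF (Cfsg.permRep ℂ G Ω)
  memψ : ψ ∈ cons (Cfsg.permRep ℂ G Ω)
  mem1 : one' G ∈ cons (Cfsg.permRep ℂ G Ω)
  Bψ : ∀ j, B hg ψ j = 1
  B0 : ∀ χ ∈ cons (Cfsg.permRep ℂ G Ω), χ ≠ one' G → χ ≠ ψ → B hg χ 0 = 0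
  B1 : ∀ j, j ≠ 0 → ∃ χ ∈ cons (Cfsg.permRep ℂ G Ω), χ ≠ one' G ∧ χ ≠ ψ ∧ B hg χ j = 1 ∧
        ∀ χ' ∈ cons (Cfsg.permRep ℂ G Ω), χ' ≠ one' G → χ' ≠ ψ → χ' ≠ χ → B hg χ' j = 0

open scoped Classical in
/-- the remaining constituents -/
noncomputable def R (Ω : Type v) [Fintype Ω] [MulAction G Ω] (ψ : IrrCharacter G) :
    Finset (IrrCharacter G) := ((cons (Cfsg.permRep ℂ G Ω)).erase (one' G)).erase ψ

section

variable {Ω : Type v} [Fintype Ω] [MulAction G Ω] {ψ : IrrCharacter G}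

theorem mem_R {χ : IrrCharacter G} : χ ∈ R Ω ψ ↔
    χ ∈ cons (Cfsg.permRep ℂ G Ω) ∧ χ ≠ one' G ∧ χ ≠ ψ := by
  classical
  unfold R
  rw [Finset.mem_erase, Finset.mem_erase]
  tauto

variable {g : G} {hg : g ^ p = 1}

theorem WS.sum_cons (h : WS hg Ω ψ) (F : IrrCharacter G → ℂ) :
    ∑ χ ∈ cons (Cfsg.permRep ℂ G Ω), F χ = F (one' G) + F ψ + ∑ χ ∈ R Ω ψ, F χ := by
  classical
  rw [← Finset.add_sum_erase _ _ h.mem1, ← Finset.add_sum_erase _ _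
    (Finset.mem_erase.mpr ⟨h.ne, h.memψ⟩), ← add_assoc]
  rfl

theorem WS.card_cons (h : WS hg Ω ψ) :
    (cons (Cfsg.permRep ℂ G Ω)).card = (R Ω ψ).card + 2 := by
  classical
  have h1 := Finset.card_erase_add_one h.mem1
  have h2 := Finset.card_erase_add_one (Finset.mem_erase.mpr ⟨h.ne, h.memψ⟩)
  unfold R
  omega

theorem WS.unique (h : WS hg Ω ψ) {j : ZMod p} (hj : j ≠ 0) {χ χ' : IrrCharacter G}
    (hχ : χ ∈ R Ω ψ) (hχ' : χ' ∈ R Ω ψ) (h1 : B hg χ j ≠ 0) (h2 : B hg χ' j ≠ 0) : χ = χ' := by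
  obtain ⟨χ₀, h3, h4, h5, h6, h7⟩ := h.B1 j hj
  rw [mem_R] at hχ hχ'
  have e1 : χ = χ₀ := by
    by_contra hne
    exact h1 (h7 χ hχ.1 hχ.2.1 hχ.2.2 hne)
  have e2 : χ' = χ₀ := by
    by_contra hne
    exact h2 (h7 χ' hχ'.1 hχ'.2.1 hχ'.2.2 hne)
  rw [e1, e2]

theorem WS.exists_mem (h : WS hg Ω ψ) {j : ZMod p} (hj : j ≠ 0) :
    ∃ χ ∈ R Ω ψ, B hg χ j = 1 := by
  obtain ⟨χ₀, h3, h4, h5, h6, h7⟩ := h.B1 j hj
  exact ⟨χ₀, mem_R.mpr ⟨h3, h4, h5⟩, h6⟩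

theorem WS.R0 (h : WS hg Ω ψ) {χ : IrrCharacter G} (hχ : χ ∈ R Ω ψ) : B hg χ 0 = 0 := by
  rw [mem_R] at hχ
  exact h.B0 χ hχ.1 hχ.2.1 hχ.2.2

theorem WS.le_one (h : WS hg Ω ψ) {χ : IrrCharacter G} (hχ : χ ∈ R Ω ψ) (j : ZMod p) :
    B hg χ j ≤ 1 := by
  by_cases hj : j = 0
  · rw [hj, h.R0 hχ]; omega
  · by_cases h0 : B hg χ j = 0
    · omega
    · obtain ⟨χ', h1, h2⟩ := h.exists_mem hj
      rw [h.unique hj hχ h1 h0 (by rw [h2]; exact one_ne_zero), h2]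

omit [Fintype Ω] [MulAction G Ω] in
theorem exists_j (hg : g ^ p = 1) (χ : IrrCharacter G) : ∃ j, B hg χ j ≠ 0 := by
  by_contra hcon
  push Not at hcon
  have h1 := degree_eq hg χ
  rw [Finset.sum_eq_zero (fun j _ => hcon j), Nat.cast_zero] at h1
  exact χ.2.one_ne_zero h1

theorem WS.sum_R (h : WS hg Ω ψ) {j : ZMod p} (hj : j ≠ 0) {χ : IrrCharacter G}
    (hχ : χ ∈ R Ω ψ) (h1 : B hg χ j ≠ 0) (F : IrrCharacter G → ℂ) :
    ∑ χ' ∈ R Ω ψ, (B hg χ' j : ℂ) * F χ' = F χ := by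
  classical
  rw [Finset.sum_eq_single χ]
  · have := h.le_one hχ j
    rw [show B hg χ j = 1 by omega, Nat.cast_one, one_mul]
  · intro χ' hχ' hne
    have : B hg χ' j = 0 := by
      by_contra h2
      exact hne (h.unique hj hχ' hχ h2 h1)
    rw [this, Nat.cast_zero, zero_mul]
  · intro hn; exact absurd hχ hn

theorem WS.sum_R_nat (h : WS hg Ω ψ) {j : ZMod p} (hj : j ≠ 0) :
    ∑ χ' ∈ R Ω ψ, B hg χ' j = 1 := by
  obtain ⟨χ, hχ, h1⟩ := h.exists_mem hj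
  have h2 := h.sum_R hj hχ (by rw [h1]; exact one_ne_zero) (fun _ => 1)
  simp only [mul_one] at h2
  exact_mod_cast h2

theorem WS.sum_R_zero (h : WS hg Ω ψ) : ∑ χ' ∈ R Ω ψ, B hg χ' 0 = 0 :=
  Finset.sum_eq_zero fun _ hχ => h.R0 hχ

theorem WS.tw_mem (h : WS hg Ω ψ) {k : ℕ} (hk : k.Coprime (Nat.card G)) (hk0 : (k : ZMod p) ≠ 0)
    {χ : IrrCharacter G} (hχ : χ ∈ R Ω ψ) : tw k hk χ ∈ R Ω ψ := by
  have h0 := hχ
  rw [mem_R] at hχ ⊢
  refine ⟨tw_mem_cons hχ.1, ?_, ?_⟩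
  · intro h1
    apply hχ.2.1
    have : tw k hk (one' G) = one' G := Subtype.ext rfl
    rw [← this] at h1
    exact tw_injective k hk h1
  · intro h1
    have h2 := B_tw hg k hk hk0 χ 0
    rw [h1, h.Bψ, h.R0 h0] at h2
    exact one_ne_zero h2

/-- the group of multipliers -/
def WS.D (_ : WS hg Ω ψ) : Subgroup (ZMod p)ˣ where
  carrier := {u | ∀ χ ∈ R Ω ψ, ∀ j, B hg χ ((u : ZMod p) * j) = B hg χ j}
  one_mem' := by
    intro χ _ j
    rw [Units.val_one, one_mul]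
  mul_mem' := by
    intro a b ha hb χ hχ j
    rw [Units.val_mul, mul_assoc, ha χ hχ, hb χ hχ]
  inv_mem' := by
    intro a ha χ hχ j
    rw [← ha χ hχ ((a⁻¹ : (ZMod p)ˣ) * j), ← mul_assoc, ← Units.val_mul, mul_inv_cancel,
      Units.val_one, one_mul]

theorem WS.mem_D (h : WS hg Ω ψ) {χ : IrrCharacter G} (hχ : χ ∈ R Ω ψ) {j j' : ZMod p}
    (h1 : B hg χ j ≠ 0) (h2 : B hg χ j' ≠ 0) : ∃ d ∈ h.D, j' = (d : ZMod p) * j := by
  have hj : j ≠ 0 := by rintro rfl; exact h1 (h.R0 hχ)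
  have hj' : j' ≠ 0 := by rintro rfl; exact h2 (h.R0 hχ)
  refine ⟨Units.mk0 (j' / j) (div_ne_zero hj' hj), ?_, by
    rw [Units.val_mk0, div_mul_cancel₀ _ hj]⟩
  obtain ⟨k, hk, hku⟩ := exists_lift (Nat.card_pos (α := G)) (j' / j) (div_ne_zero hj' hj)
  have hk0 : (k : ZMod p) ≠ 0 := by rw [hku]; exact div_ne_zero hj' hj
  have e1 : tw k hk χ = χ := by
    apply h.unique hj' (h.tw_mem hk hk0 hχ) hχ _ h2
    have := B_tw hg k hk hk0 χ j
    rw [hku, div_mul_cancel₀ _ hj] at this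
    rw [this]; exact h1
  intro χ' hχ' i
  rw [Units.val_mk0]
  obtain ⟨l, hl⟩ := exists_j hg χ'
  have hl0 : l ≠ 0 := by rintro rfl; exact hl (h.R0 hχ')
  obtain ⟨m, hm, hmu⟩ := exists_lift (Nat.card_pos (α := G)) (l / j) (div_ne_zero hl0 hj)
  have hm0 : (m : ZMod p) ≠ 0 := by rw [hmu]; exact div_ne_zero hl0 hj
  have e2 : tw m hm χ = χ' := by
    apply h.unique hl0 (h.tw_mem hm hm0 hχ) hχ' _ hl
    have := B_tw hg m hm hm0 χ j
    rw [hmu, div_mul_cancel₀ _ hj] at this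
    rw [this]; exact h1
  have e3 : ∀ x, B hg χ' x = B hg χ ((m : ZMod p)⁻¹ * x) := by
    intro x
    rw [← e2, ← B_tw hg m hm hm0 χ, ← mul_assoc, mul_inv_cancel₀ hm0, one_mul]
  have e4 : ∀ x, B hg χ ((j' / j) * x) = B hg χ x := by
    intro x
    conv_lhs => rw [← e1]
    rw [← hku, B_tw hg k hk hk0]
  rw [e3, e3, ← e4 ((m : ZMod p)⁻¹ * i)]
  congr 1
  ring

theorem WS.sum_B (h : WS hg Ω ψ) {χ : IrrCharacter G} (hχ : χ ∈ R Ω ψ) :
    ∑ j, B hg χ j = Nat.card h.D := by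
  classical
  obtain ⟨j₀, hj₀⟩ := exists_j hg χ
  have hj0 : j₀ ≠ 0 := by rintro rfl; exact hj₀ (h.R0 hχ)
  have h1 : ∀ j, B hg χ j = if j ∈ Finset.univ.image
      (fun d : h.D => (((d : (ZMod p)ˣ) : ZMod p) * j₀)) then 1 else 0 := by
    intro j
    split_ifs with hj
    · obtain ⟨d, _, rfl⟩ := Finset.mem_image.mp hj
      rw [d.2 χ hχ]
      have := h.le_one hχ j₀
      omega
    · by_contra hne
      obtain ⟨d, hd, hdj⟩ := h.mem_D hχ hj₀ hne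
      exact hj (Finset.mem_image.mpr ⟨⟨d, hd⟩, Finset.mem_univ _, hdj.symm⟩)
  simp only [h1]
  rw [Finset.sum_boole, Finset.filter_mem_eq_inter, Finset.univ_inter, Nat.cast_id,
    Finset.card_image_of_injective, Finset.card_univ, Nat.card_eq_fintype_card]
  intro a b hab
  exact Subtype.ext (Units.ext (mul_right_cancel₀ hj0 hab))

theorem WS.card_R (h : WS hg Ω ψ) : (R Ω ψ).card * Nat.card h.D = p - 1 := by
  classical
  have h1 : ∑ χ ∈ R Ω ψ, ∑ j, B hg χ j = (R Ω ψ).card * Nat.card h.D := by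
    rw [Finset.sum_congr rfl (fun χ hχ => h.sum_B hχ), Finset.sum_const, smul_eq_mul]
  rw [← h1, Finset.sum_comm, W2pComb.sum_nonzero (fun j => ∑ χ ∈ R Ω ψ, B hg χ j) h.sum_R_zero,
    Finset.sum_congr rfl (fun (u : (ZMod p)ˣ) _ => h.sum_R_nat (Units.ne_zero u)),
    Finset.sum_const, Finset.card_univ, ZMod.card_units, smul_eq_mul, mul_one]

/-- norm sum over the remaining constituents -/
theorem WS.norm_sum (h : WS hg Ω ψ) {i : ZMod p} (hi : i ≠ 0) :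
    ∑ χ ∈ R Ω ψ, (χ : G → ℂ) (pw g i) * conj ((χ : G → ℂ) (pw g i)) = (p : ℂ) - Nat.card h.D := by
  classical
  set f := Nat.card h.D with hf
  have hp1 : 1 < p := hp.out.one_lt
  -- total
  have h1 : ∀ χ ∈ R Ω ψ, ∑ i : ZMod p, (χ : G → ℂ) (pw g i) * conj ((χ : G → ℂ) (pw g i)) =
      (p : ℂ) * f := by
    intro χ hχ
    have hp0 : (p : ℂ) ≠ 0 := by exact_mod_cast hp.out.ne_zero
    have h2 := parseval (fun i : ZMod p => (χ : G → ℂ) (pw g i)) (fun i => (χ : G → ℂ) (pw g i))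
    have h3 : ∀ j, hat (fun i : ZMod p => (χ : G → ℂ) (pw g i)) j = p * B hg χ j := by
      intro j
      rw [← B_spec hg χ j]
      unfold bb
      rw [← mul_assoc, mul_inv_cancel₀ hp0, one_mul]
    simp only [h3, map_mul, Complex.conj_natCast] at h2
    have h4 : ∑ j : ZMod p, (p : ℂ) * B hg χ j * (p * B hg χ j) = p * (p * f) := by
      have h5 : ∀ j, (p : ℂ) * B hg χ j * (p * B hg χ j) = (p * p) * B hg χ j := by
        intro j
        have h6 := h.le_one hχ j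
        interval_cases B hg χ j
        · simp
        · simp
      rw [Finset.sum_congr rfl (fun j _ => h5 j), ← Finset.mul_sum, ← Nat.cast_sum, h.sum_B hχ]
      ring
    rw [h4] at h2
    exact (mul_left_cancel₀ hp0 h2).symm
  have htot : ∑ i : ZMod p, ∑ χ ∈ R Ω ψ, (χ : G → ℂ) (pw g i) * conj ((χ : G → ℂ) (pw g i)) =
      p * ((p : ℂ) - 1) := by
    rw [Finset.sum_comm, Finset.sum_congr rfl h1, Finset.sum_const, nsmul_eq_mul]
    have h2 : (((R Ω ψ).card * f : ℕ) : ℂ) = ((p - 1 : ℕ) : ℂ) := by rw [h.card_R]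
    rw [Nat.cast_sub hp1.le] at h2
    push_cast at h2
    linear_combination (p : ℂ) * h2
  -- independence of i
  have hind : ∀ i' : ZMod p, i' ≠ 0 →
      ∑ χ ∈ R Ω ψ, (χ : G → ℂ) (pw g i') * conj ((χ : G → ℂ) (pw g i')) =
      ∑ χ ∈ R Ω ψ, (χ : G → ℂ) (pw g i) * conj ((χ : G → ℂ) (pw g i)) := by
    intro i' hi'
    obtain ⟨k, hk, hku⟩ := exists_lift (Nat.card_pos (α := G)) (i' / i) (div_ne_zero hi' hi)
    have hk0 : (k : ZMod p) ≠ 0 := by rw [hku]; exact div_ne_zero hi' hi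
    have himg : (R Ω ψ).image (tw k hk) = R Ω ψ := by
      apply Finset.eq_of_subset_of_card_le
      · intro χ hχ
        obtain ⟨χ', h2, rfl⟩ := Finset.mem_image.mp hχ
        exact h.tw_mem hk hk0 h2
      · rw [Finset.card_image_of_injective _ (tw_injective k hk)]
    conv_rhs => rw [← himg]
    rw [Finset.sum_image (fun a _ b _ hab => tw_injective k hk hab)]
    refine Finset.sum_congr rfl fun χ _ => ?_
    show _ = (χ : G → ℂ) (pw g i ^ k) * conj ((χ : G → ℂ) (pw g i ^ k))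
    rw [pw_pow hg, hku, div_mul_cancel₀ _ hi]
  rw [← Finset.add_sum_erase _ _ (Finset.mem_univ (0 : ZMod p)),
    Finset.sum_congr rfl (fun i' hi' => hind i' (Finset.ne_of_mem_erase hi')), Finset.sum_const,
    Finset.card_erase_of_mem (Finset.mem_univ _), Finset.card_univ, ZMod.card, nsmul_eq_mul] at htot
  have h0 : ∑ χ ∈ R Ω ψ, (χ : G → ℂ) (pw g (0 : ZMod p)) * conj ((χ : G → ℂ) (pw g (0 : ZMod p))) =
      ((p : ℂ) - 1) * f := by
    have h2 : ∀ χ ∈ R Ω ψ, (χ : G → ℂ) (pw g (0 : ZMod p)) * conj ((χ : G → ℂ) (pw g (0 : ZMod p))) =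
        (f : ℂ) * f := by
      intro χ hχ
      rw [pw_zero, degree_eq hg χ, h.sum_B hχ, Complex.conj_natCast]
    rw [Finset.sum_congr rfl h2, Finset.sum_const, nsmul_eq_mul]
    have h3 : (((R Ω ψ).card * f : ℕ) : ℂ) = ((p - 1 : ℕ) : ℂ) := by rw [h.card_R]
    rw [Nat.cast_sub hp1.le] at h3
    push_cast at h3
    linear_combination (f : ℂ) * h3
  rw [h0, Nat.cast_sub hp1.le, Nat.cast_one] at htot
  have hpc : (p : ℂ) - 1 ≠ 0 := by
    have : (p : ℂ) ≠ 1 := by exact_mod_cast hp1.ne'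
    exact sub_ne_zero.mpr this
  apply mul_left_cancel₀ hpc
  linear_combination htot

end

end Cfsg.Agent.Lib.W2pSys
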