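import Mathlib
import Cfsg.Agent.Lib.W2pSys

set_option autoImplicit false

/-!
# Wielandt degree 2p: multipliers come from the normaliser (helper12)
-/

namespace Cfsg.Agent.Lib.W2pConj

open scoped ComplexConjugate
open Representation Module Cfsg.Agent.Lib.CharBasic Cfsg.Agent.Lib.PermChar
  Cfsg.Agent.Lib.PermChar2 Cfsg.Agent.Lib.PermChar3 Cfsg.Agent.Lib.PermChar4 Cfsg.Agent.Lib.MFree
  Cfsg.Agent.Lib.MFreePerm Cfsg.Agent.Lib.W2pFour Cfsg.Agent.Lib.W2pCons Cfsg.Agent.Lib.W2pSys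

universe u v w

variable {p : ℕ} [hp : Fact p.Prime]
variable {G : Type u} [Group G] [Fintype G]
variable {Ω : Type v} [Fintype Ω] [MulAction G Ω] {ψ : IrrCharacter G}
variable {g : G} {hg : g ^ p = 1}

/-- values are invariant under multipliers -/
theorem val_mul (h : WS hg Ω ψ) {χ : IrrCharacter G} (hχ : χ ∈ R Ω ψ) {d : (ZMod p)ˣ}
    (hd : d ∈ h.D) (i : ZMod p) :
    (χ : G → ℂ) (pw g ((d : ZMod p) * i)) = (χ : G → ℂ) (pw g i) := by
  rw [val_eq hg, val_eq hg]
  refine Fintype.sum_equiv (Units.mulLeft d).symm.symm _ _ fun j => ?_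
  show _ = (B hg χ ((d : ZMod p) * j) : ℂ) * _
  rw [hd χ hχ]
  congr 2
  show _ = i * ((d : ZMod p) * j)
  ring

theorem val_ψ (h : WS hg Ω ψ) {i : ZMod p} (hi : i ≠ 0) : (ψ : G → ℂ) (pw g i) = 0 := by
  rw [val_eq hg]
  have h1 : ∀ j : ZMod p, (B hg ψ j : ℂ) * e (i * j) = e (j * i) := by
    intro j
    rw [h.Bψ, Nat.cast_one, one_mul, mul_comm]
  rw [Finset.sum_congr rfl (fun j _ => h1 j), sum_e, if_neg hi]

theorem ψ_degree (h : WS hg Ω ψ) : (ψ : G → ℂ) 1 = p := by
  rw [degree_eq hg]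
  simp only [h.Bψ]
  rw [Finset.sum_const, Finset.card_univ, ZMod.card, smul_eq_mul, mul_one]

theorem isConj_of_mem_D (h : WS hg Ω ψ) (hcent : ∀ i : ZMod p, i ≠ 0 →
    Nat.card (Subgroup.centralizer ({pw g i} : Set G)) = p) (hR : 2 ≤ (R Ω ψ).card)
    {d : (ZMod p)ˣ} (hd : d ∈ h.D) : IsConj g (pw g (d : ZMod p)) := by
  classical
  by_contra hcon
  set f := Nat.card h.D with hf
  set x := pw g (1 : ZMod p) with hx
  set y := pw g (d : ZMod p) with hy
  have hcon' : ¬ IsConj x y := by rw [hx, pw_one hg]; exact hcon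
  have hcon'' : ¬ IsConj y x := fun hc => hcon' hc.symm
  have h1 := column_orthogonality x x
  have h2 := column_orthogonality y y
  have h3 := column_orthogonality x y
  have h4 := column_orthogonality y x
  rw [if_pos (IsConj.refl _), hcent 1 one_ne_zero] at h1
  rw [if_pos (IsConj.refl _), hcent _ (Units.ne_zero d)] at h2
  rw [if_neg hcon'] at h3
  rw [if_neg hcon''] at h4
  -- the sum of squares of differences
  have h5 : ∑ χ : IrrCharacter G, Complex.normSq ((χ : G → ℂ) x - (χ : G → ℂ) y) = 2 * p := by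
    have h6 : (((∑ χ : IrrCharacter G, Complex.normSq ((χ : G → ℂ) x - (χ : G → ℂ) y) : ℝ)) : ℂ) =
        2 * p := by
      push_cast
      have h7 : ∀ χ : IrrCharacter G, (Complex.normSq ((χ : G → ℂ) x - (χ : G → ℂ) y) : ℂ) =
          (χ : G → ℂ) x * conj ((χ : G → ℂ) x) + (χ : G → ℂ) y * conj ((χ : G → ℂ) y) -
          (χ : G → ℂ) x * conj ((χ : G → ℂ) y) - (χ : G → ℂ) y * conj ((χ : G → ℂ) x) := by
        intro χ
        rw [← Complex.mul_conj, map_sub]; ring
      rw [Finset.sum_congr rfl (fun χ _ => h7 χ), Finset.sum_sub_distrib, Finset.sum_sub_distrib,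
        Finset.sum_add_distrib, h1, h2, h3, h4]
      ring
    exact_mod_cast h6
  have hsx : ∑ χ : IrrCharacter G, Complex.normSq ((χ : G → ℂ) x) = p := by
    have : ((∑ χ : IrrCharacter G, Complex.normSq ((χ : G → ℂ) x) : ℝ) : ℂ) = p := by
      push_cast
      rw [← h1]
      exact Finset.sum_congr rfl fun χ _ => (Complex.mul_conj _).symm
    exact_mod_cast this
  have hsy : ∑ χ : IrrCharacter G, Complex.normSq ((χ : G → ℂ) y) = p := by
    have : ((∑ χ : IrrCharacter G, Complex.normSq ((χ : G → ℂ) y) : ℝ) : ℂ) = p := by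
      push_cast
      rw [← h2]
      exact Finset.sum_congr rfl fun χ _ => (Complex.mul_conj _).symm
    exact_mod_cast this
  have hRx : ∑ χ ∈ R Ω ψ, Complex.normSq ((χ : G → ℂ) x) = p - f := by
    have h6 := h.norm_sum (i := (1 : ZMod p)) one_ne_zero
    have : ((∑ χ ∈ R Ω ψ, Complex.normSq ((χ : G → ℂ) x) : ℝ) : ℂ) = p - f := by
      push_cast
      rw [← h6]
      exact Finset.sum_congr rfl fun χ _ => (Complex.mul_conj _).symm
    exact_mod_cast this
  have hRy : ∑ χ ∈ R Ω ψ, Complex.normSq ((χ : G → ℂ) y) = p - f := by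
    have h6 := h.norm_sum (i := (d : ZMod p)) (Units.ne_zero d)
    have : ((∑ χ ∈ R Ω ψ, Complex.normSq ((χ : G → ℂ) y) : ℝ) : ℂ) = p - f := by
      push_cast
      rw [← h6]
      exact Finset.sum_congr rfl fun χ _ => (Complex.mul_conj _).symm
    exact_mod_cast this
  have hRd : ∑ χ ∈ R Ω ψ, Complex.normSq ((χ : G → ℂ) x - (χ : G → ℂ) y) = 0 := by
    apply Finset.sum_eq_zero
    intro χ hχ
    have h6 := val_mul h hχ hd 1
    rw [mul_one] at h6
    rw [hx, hy, h6, sub_self, map_zero]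
  have hsplit : ∀ F : IrrCharacter G → ℝ, ∑ χ : IrrCharacter G, F χ =
      ∑ χ ∈ R Ω ψ, F χ + ∑ χ ∈ Finset.univ \ R Ω ψ, F χ := by
    intro F
    rw [add_comm, Finset.sum_sdiff (Finset.subset_univ _)]
  rw [hsplit, hRd, zero_add] at h5
  rw [hsplit, hRx] at hsx
  rw [hsplit, hRy] at hsy
  have hle : ∀ χ ∈ Finset.univ \ R Ω ψ, Complex.normSq ((χ : G → ℂ) x - (χ : G → ℂ) y) ≤
      2 * Complex.normSq ((χ : G → ℂ) x) + 2 * Complex.normSq ((χ : G → ℂ) y) := by
    intro χ _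
    have h7 : 0 ≤ Complex.normSq ((χ : G → ℂ) x + (χ : G → ℂ) y) := Complex.normSq_nonneg _
    have h8 : Complex.normSq ((χ : G → ℂ) x - (χ : G → ℂ) y) +
      Complex.normSq ((χ : G → ℂ) x + (χ : G → ℂ) y) =
      2 * Complex.normSq ((χ : G → ℂ) x) + 2 * Complex.normSq ((χ : G → ℂ) y) := by
      rw [Complex.normSq_sub, Complex.normSq_add]; ring
    linarith
  have h9 := Finset.sum_le_sum hle
  rw [h5, Finset.sum_add_distrib, ← Finset.mul_sum, ← Finset.mul_sum] at h9
  have h10 : (p : ℝ) ≤ 2 * f := by linarith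
  have h11 : p ≤ 2 * f := by exact_mod_cast h10
  have h12 := h.card_R
  rw [← hf] at h12
  have h13 : 2 * f ≤ (R Ω ψ).card * f := Nat.mul_le_mul_right _ hR
  have hp1 := hp.out.one_lt
  omega

end Cfsg.Agent.Lib.W2pConj
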