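import Mathlib
import Cfsg.Agent.Lib.W2pConj

set_option autoImplicit false

/-!
# Wielandt degree 2p: commuting operators and their Fourier transforms (helper12)
-/

namespace Cfsg.Agent.Lib.W2pOrb

open scoped ComplexConjugate
open Representation Module Cfsg.Agent.Lib.CharBasic Cfsg.Agent.Lib.PermChar
  Cfsg.Agent.Lib.PermChar2 Cfsg.Agent.Lib.PermChar3 Cfsg.Agent.Lib.PermChar4 Cfsg.Agent.Lib.MFree
  Cfsg.Agent.Lib.MFreePerm Cfsg.Agent.Lib.W2pFour Cfsg.Agent.Lib.W2pCons Cfsg.Agent.Lib.W2pSys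
  Cfsg.Agent.Lib.W2pConj

universe u v w

variable {p : ℕ} [hp : Fact p.Prime]
variable {G : Type u} [Group G]
variable {Ω : Type v} [Fintype Ω] [MulAction G Ω]

open scoped Classical in
/-- matrix entries -/
noncomputable def ent (T : (Ω → ℂ) →ₗ[ℂ] (Ω → ℂ)) (x y : Ω) : ℂ := T (Pi.single x 1) y

theorem ent_orbOp (a b x y : Ω) [Decidable ((x, y) ∈ MulAction.orbit G (a, b))] :
    ent (orbOp G a b) x y = if (x, y) ∈ MulAction.orbit G (a, b) then 1 else 0 := by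
  classical
  exact orbOp_single a b x y

theorem ent_smul {T : (Ω → ℂ) →ₗ[ℂ] (Ω → ℂ)} (hT : Com (Cfsg.permRep ℂ G Ω) T) (g : G) (x y : Ω) :
    ent T (g • x) (g • y) = ent T x y := by
  classical
  exact PermRepBasic.entry_smul (G := G) ((PermRepBasic.mem_inv_iff T).mpr hT) g x y

theorem apply_eq (T : (Ω → ℂ) →ₗ[ℂ] (Ω → ℂ)) (v : Ω → ℂ) (y : Ω) :
    T v y = ∑ x, ent T x y * v x := by
  classical
  exact PermRepBasic.apply_eq_sum T v y

theorem ent_comp (T S : (Ω → ℂ) →ₗ[ℂ] (Ω → ℂ)) (x y : Ω) :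
    ent (T ∘ₗ S) x y = ∑ z, ent T z y * ent S x z := by
  classical
  show T (S (Pi.single x 1)) y = _
  rw [apply_eq T (S (Pi.single x 1)) y]
  rfl

theorem trace_eq_ent (T : (Ω → ℂ) →ₗ[ℂ] (Ω → ℂ)) :
    LinearMap.trace ℂ (Ω → ℂ) T = ∑ x, ent T x x := by
  classical
  exact trace_eq_sum_entries T

omit [Fintype Ω] in
theorem ent_comp_rep (T : (Ω → ℂ) →ₗ[ℂ] (Ω → ℂ)) (g : G) (x y : Ω) :
    ent (T ∘ₗ Cfsg.permRep ℂ G Ω g) x y = ent T (g • x) y := by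
  classical
  show T (Cfsg.permRep ℂ G Ω g (Pi.single x 1)) y = T (Pi.single (g • x) 1) y
  rw [PermRepBasic.permRep_single]

/-- The transpose acts by the complex conjugate scalar. -/
theorem sc_adj [Fintype G] {T S : (Ω → ℂ) →ₗ[ℂ] (Ω → ℂ)} (hmf : MF (Cfsg.permRep ℂ G Ω))
    (hT : Com (Cfsg.permRep ℂ G Ω) T) (hS : Com (Cfsg.permRep ℂ G Ω) S)
    (hTS : ∀ x y, ent S x y = ent T y x) (hreal : ∀ x y, conj (ent T x y) = ent T x y)
    {χ : IrrCharacter G} (hχ : χ ∈ cons (Cfsg.permRep ℂ G Ω)) :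
    sc (Cfsg.permRep ℂ G Ω) S χ = conj (sc (Cfsg.permRep ℂ G Ω) T χ) := by
  set v := tv (Cfsg.permRep ℂ G Ω) χ with hv
  have hv0 : v ≠ 0 := (tv_spec hχ).1
  have h1 : T v = sc (Cfsg.permRep ℂ G Ω) T χ • v := sc_spec hmf hT hχ
  have h2 : S v = sc (Cfsg.permRep ℂ G Ω) S χ • v := sc_spec hmf hS hχ
  have h3 : ∑ y, S v y * conj (v y) = ∑ x, v x * conj (T v x) := by
    have e1 : ∀ y, S v y * conj (v y) = ∑ x, ent T y x * v x * conj (v y) := by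
      intro y
      rw [apply_eq S v y, Finset.sum_mul]
      exact Finset.sum_congr rfl fun x _ => by rw [hTS]
    have e2 : ∀ x, v x * conj (T v x) = ∑ y, ent T y x * v x * conj (v y) := by
      intro x
      rw [apply_eq T v x, map_sum, Finset.mul_sum]
      exact Finset.sum_congr rfl fun y _ => by rw [map_mul, hreal]; ring
    rw [Finset.sum_congr rfl (fun y _ => e1 y), Finset.sum_congr rfl (fun x _ => e2 x),
      Finset.sum_comm]
  rw [h1, h2] at h3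
  have h4 : ∀ x, (sc (Cfsg.permRep ℂ G Ω) S χ • v) x * conj (v x) =
      sc (Cfsg.permRep ℂ G Ω) S χ * (v x * conj (v x)) := by
    intro x; rw [Pi.smul_apply, smul_eq_mul]; ring
  have h5 : ∀ x, v x * conj ((sc (Cfsg.permRep ℂ G Ω) T χ • v) x) =
      conj (sc (Cfsg.permRep ℂ G Ω) T χ) * (v x * conj (v x)) := by
    intro x; rw [Pi.smul_apply, smul_eq_mul, map_mul]; ring
  rw [Finset.sum_congr rfl (fun x _ => h4 x), Finset.sum_congr rfl (fun x _ => h5 x),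
    ← Finset.mul_sum, ← Finset.mul_sum] at h3
  apply mul_right_cancel₀ _ h3
  intro h6
  apply hv0
  have h7 : ∑ x, Complex.normSq (v x) = 0 := by
    have : ((∑ x, Complex.normSq (v x) : ℝ) : ℂ) = 0 := by
      push_cast
      rw [← h6]
      exact Finset.sum_congr rfl fun x _ => (Complex.mul_conj _).symm
    exact_mod_cast this
  ext x
  exact Complex.normSq_eq_zero.mp
    ((Finset.sum_eq_zero_iff_of_nonneg (fun x _ => Complex.normSq_nonneg _)).mp h7 x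
      (Finset.mem_univ x))

/-! ### two orbits of `⟨g⟩` -/

/-- `b₁`, `b₂` represent the two regular orbits of `⟨g⟩`. -/
structure TwoOrb {g : G} (hg : g ^ p = 1) (b₁ b₂ : Ω) : Prop where
  cover : ∀ x : Ω, (∃ i : ZMod p, x = pw g i • b₁) ∨ (∃ i : ZMod p, x = pw g i • b₂)
  disj : ∀ i j : ZMod p, pw g i • b₁ ≠ pw g j • b₂
  free : ∀ (i : ZMod p), i ≠ 0 → ∀ x : Ω, pw g i • x ≠ x

variable {g : G} {hg : g ^ p = 1} {b₁ b₂ : Ω}

omit [Fintype Ω] in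
theorem TwoOrb.inj (_h : TwoOrb hg b₁ b₂) (x : Ω) {i j : ZMod p} (hij : pw g i • x = pw g j • x) :
    i = j := by
  by_contra hne
  have h1 : pw g (i - j) • x = x := by
    rw [sub_eq_add_neg, add_comm, pw_add hg, mul_smul, hij, pw_neg hg, inv_smul_smul]
  exact _h.free _ (sub_ne_zero.mpr hne) x h1

theorem TwoOrb.sum_split (h : TwoOrb hg b₁ b₂) {M : Type*} [AddCommMonoid M] (F : Ω → M) :
    ∑ x, F x = ∑ i : ZMod p, F (pw g i • b₁) + ∑ i : ZMod p, F (pw g i • b₂) := by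
  have hbij : Function.Bijective (Sum.elim (fun i : ZMod p => pw g i • b₁)
      (fun i : ZMod p => pw g i • b₂)) := by
    constructor
    · rintro (i | i) (j | j) hij
      · exact congrArg Sum.inl (h.inj _ hij)
      · exact absurd hij (h.disj _ _)
      · exact absurd hij.symm (h.disj _ _)
      · exact congrArg Sum.inr (h.inj _ hij)
    · intro x
      rcases h.cover x with ⟨i, rfl⟩ | ⟨i, rfl⟩
      · exact ⟨Sum.inl i, rfl⟩
      · exact ⟨Sum.inr i, rfl⟩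
  have key : ∑ s : ZMod p ⊕ ZMod p, F (Sum.elim (fun i : ZMod p => pw g i • b₁)
      (fun i : ZMod p => pw g i • b₂) s) = ∑ x, F x :=
    Fintype.sum_bijective _ hbij _ _ (fun s => rfl)
  rw [← key, Fintype.sum_sum_type]
  rfl

theorem TwoOrb.card (h : TwoOrb hg b₁ b₂) : Fintype.card Ω = 2 * p := by
  have h1 := h.sum_split (fun _ => (1 : ℕ))
  simp only [Finset.sum_const, Finset.card_univ, ZMod.card, smul_eq_mul, mul_one] at h1
  omega

/-- the diagonal part of an operator -/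
noncomputable def FT (g : G) (b₁ b₂ : Ω) (T : (Ω → ℂ) →ₗ[ℂ] (Ω → ℂ)) (i : ZMod p) : ℂ :=
  ent T (pw g i • b₁) b₁ + ent T (pw g i • b₂) b₂

theorem TwoOrb.trace (h : TwoOrb hg b₁ b₂) {T : (Ω → ℂ) →ₗ[ℂ] (Ω → ℂ)}
    (hT : Com (Cfsg.permRep ℂ G Ω) T) (i : ZMod p) :
    LinearMap.trace ℂ (Ω → ℂ) (T ∘ₗ Cfsg.permRep ℂ G Ω (pw g i)) = p * FT g b₁ b₂ T i := by
  rw [trace_eq_ent, h.sum_split]
  have h1 : ∀ (b : Ω) (j : ZMod p), ent (T ∘ₗ Cfsg.permRep ℂ G Ω (pw g i)) (pw g j • b) (pw g j • b) =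
      ent T (pw g i • b) b := by
    intro b j
    rw [ent_comp_rep, ← mul_smul, ← pw_add hg, add_comm, pw_add hg, mul_smul, ent_smul hT]
  rw [Finset.sum_congr rfl (fun j _ => h1 b₁ j), Finset.sum_congr rfl (fun j _ => h1 b₂ j),
    Finset.sum_const, Finset.sum_const, Finset.card_univ, ZMod.card, nsmul_eq_mul, nsmul_eq_mul]
  unfold FT
  ring

variable [Fintype G] {ψ : IrrCharacter G}

theorem hat_FT (h : TwoOrb hg b₁ b₂) (hmf : MF (Cfsg.permRep ℂ G Ω)) {T : (Ω → ℂ) →ₗ[ℂ] (Ω → ℂ)}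
    (hT : Com (Cfsg.permRep ℂ G Ω) T) (j : ZMod p) :
    hat (FT g b₁ b₂ T) j = ∑ χ ∈ cons (Cfsg.permRep ℂ G Ω),
      (B hg χ j : ℂ) * sc (Cfsg.permRep ℂ G Ω) T χ := by
  have hp0 : (p : ℂ) ≠ 0 := by exact_mod_cast hp.out.ne_zero
  have h1 : ∀ i : ZMod p, FT g b₁ b₂ T i = (p : ℂ)⁻¹ * ∑ χ ∈ cons (Cfsg.permRep ℂ G Ω),
      sc (Cfsg.permRep ℂ G Ω) T χ * (χ : G → ℂ) (pw g i) := by
    intro i
    rw [← trace_comp_rep hmf hT, h.trace hT, ← mul_assoc, inv_mul_cancel₀ hp0, one_mul]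
  unfold hat
  simp only [h1]
  have h2 : ∀ i : ZMod p, (p : ℂ)⁻¹ * (∑ χ ∈ cons (Cfsg.permRep ℂ G Ω),
      sc (Cfsg.permRep ℂ G Ω) T χ * (χ : G → ℂ) (pw g i)) * e (-(i * j)) =
      ∑ χ ∈ cons (Cfsg.permRep ℂ G Ω), sc (Cfsg.permRep ℂ G Ω) T χ *
        ((p : ℂ)⁻¹ * ((χ : G → ℂ) (pw g i) * e (-(i * j)))) := by
    intro i
    rw [Finset.mul_sum, Finset.sum_mul]
    exact Finset.sum_congr rfl fun χ _ => by ring
  rw [Finset.sum_congr rfl (fun i _ => h2 i), Finset.sum_comm]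
  refine Finset.sum_congr rfl fun χ _ => ?_
  rw [← Finset.mul_sum, ← Finset.mul_sum, ← B_spec hg χ j, mul_comm]
  rfl

theorem hat_FT_zero (h : TwoOrb hg b₁ b₂) (hw : WS hg Ω ψ) {T : (Ω → ℂ) →ₗ[ℂ] (Ω → ℂ)}
    (hT : Com (Cfsg.permRep ℂ G Ω) T) :
    hat (FT g b₁ b₂ T) (0 : ZMod p) = sc (Cfsg.permRep ℂ G Ω) T (one' G) +
      sc (Cfsg.permRep ℂ G Ω) T ψ := by
  rw [hat_FT h hw.mf hT, hw.sum_cons, B_one', if_pos rfl, hw.Bψ, Nat.cast_one, one_mul, one_mul]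
  rw [Finset.sum_eq_zero, add_zero]
  intro χ hχ
  rw [hw.R0 hχ, Nat.cast_zero, zero_mul]

theorem hat_FT_ne (h : TwoOrb hg b₁ b₂) (hw : WS hg Ω ψ) {T : (Ω → ℂ) →ₗ[ℂ] (Ω → ℂ)}
    (hT : Com (Cfsg.permRep ℂ G Ω) T) {j : ZMod p} (hj : j ≠ 0) {χ : IrrCharacter G}
    (hχ : χ ∈ R Ω ψ) (hB : B hg χ j ≠ 0) :
    hat (FT g b₁ b₂ T) j = sc (Cfsg.permRep ℂ G Ω) T ψ + sc (Cfsg.permRep ℂ G Ω) T χ := by
  rw [hat_FT h hw.mf hT, hw.sum_cons, B_one', if_neg hj, hw.Bψ, Nat.cast_one, one_mul,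
    Nat.cast_zero, zero_mul, zero_add, hw.sum_R hj hχ hB]

/-- sum over the remaining constituents, with degrees, as a sum over `j ≠ 0`. -/
theorem sum_R_degree (hw : WS hg Ω ψ) (F : IrrCharacter G → ℂ) (H : ZMod p → ℂ)
    (hH : ∀ j, j ≠ 0 → ∀ χ ∈ R Ω ψ, B hg χ j ≠ 0 → F χ = H j) :
    ∑ χ ∈ R Ω ψ, (χ : G → ℂ) 1 * F χ = ∑ j ∈ Finset.univ.erase (0 : ZMod p), H j := by
  have h1 : ∀ χ ∈ R Ω ψ, (χ : G → ℂ) 1 * F χ = ∑ j ∈ Finset.univ.erase (0 : ZMod p),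
      (B hg χ j : ℂ) * F χ := by
    intro χ hχ
    rw [degree_eq hg χ]
    push_cast
    rw [Finset.sum_mul, ← Finset.add_sum_erase _ _ (Finset.mem_univ (0 : ZMod p)), hw.R0 hχ,
      Nat.cast_zero, zero_mul, zero_add]
  rw [Finset.sum_congr rfl h1, Finset.sum_comm]
  refine Finset.sum_congr rfl fun j hj => ?_
  have hj0 : j ≠ 0 := Finset.ne_of_mem_erase hj
  obtain ⟨χ, hχ, hB⟩ := hw.exists_mem hj0
  rw [hw.sum_R hj0 hχ (by rw [hB]; exact one_ne_zero)]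
  exact hH j hj0 χ hχ (by rw [hB]; exact one_ne_zero)

/-- The bilinear trace formula. -/
theorem trace_mul_formula (h : TwoOrb hg b₁ b₂) (hw : WS hg Ω ψ)
    {T T' S : (Ω → ℂ) →ₗ[ℂ] (Ω → ℂ)}
    (hT : Com (Cfsg.permRep ℂ G Ω) T) (hT' : Com (Cfsg.permRep ℂ G Ω) T')
    (hS : Com (Cfsg.permRep ℂ G Ω) S)
    (hTS : ∀ x y, ent S x y = ent T' y x) (hreal : ∀ x y, conj (ent T' x y) = ent T' x y)
    (h0 : FT g b₁ b₂ T (0 : ZMod p) = 0) (h0' : FT g b₁ b₂ T' (0 : ZMod p) = 0)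
    (hk : conj (sc (Cfsg.permRep ℂ G Ω) T' (one' G)) = sc (Cfsg.permRep ℂ G Ω) T' (one' G))
    (hs : conj (sc (Cfsg.permRep ℂ G Ω) T' ψ) = sc (Cfsg.permRep ℂ G Ω) T' ψ) :
    LinearMap.trace ℂ (Ω → ℂ) (T ∘ₗ S) =
      p * (2 * sc (Cfsg.permRep ℂ G Ω) T ψ * sc (Cfsg.permRep ℂ G Ω) T' ψ +
        ∑ i : ZMod p, FT g b₁ b₂ T i * FT g b₁ b₂ T' i) := by
  set ρ := Cfsg.permRep ℂ G Ω with hρ
  set k := sc ρ T (one' G) with hkdef
  set k' := sc ρ T' (one' G) with hkdef'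
  set s := sc ρ T ψ with hsdef
  set s' := sc ρ T' ψ with hsdef'
  rw [trace_eq_sum hw.mf (hT.comp hS)]
  have h1 : ∀ χ ∈ cons ρ, sc ρ (T ∘ₗ S) χ * (χ : G → ℂ) 1 =
      (χ : G → ℂ) 1 * (sc ρ T χ * conj (sc ρ T' χ)) := by
    intro χ hχ
    rw [sc_comp hw.mf hT hS hχ, sc_adj hw.mf hT' hS hTS hreal hχ]
    ring
  rw [Finset.sum_congr rfl h1, hw.sum_cons]
  rw [sum_R_degree hw (fun χ => sc ρ T χ * conj (sc ρ T' χ))
    (fun j : ZMod p => (hat (FT g b₁ b₂ T) j - s) * (conj (hat (FT g b₁ b₂ T') j) - s'))]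
  · have h2 : (one' G : G → ℂ) 1 = 1 := rfl
    rw [h2, ψ_degree hw, ← hkdef, ← hkdef', ← hsdef, ← hsdef', hk, hs, one_mul]
    have h3 := Finset.add_sum_erase Finset.univ
      (fun j : ZMod p => (hat (FT g b₁ b₂ T) j - s) * (conj (hat (FT g b₁ b₂ T') j) - s'))
      (Finset.mem_univ (0 : ZMod p))
    rw [hat_FT_zero h hw hT, hat_FT_zero h hw hT', ← hρ, ← hkdef, ← hkdef', ← hsdef, ← hsdef',
      map_add, hk, hs] at h3
    have h4 : ∑ j : ZMod p, (hat (FT g b₁ b₂ T) j - s) * (conj (hat (FT g b₁ b₂ T') j) - s') =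
        ∑ j : ZMod p, hat (FT g b₁ b₂ T) j * conj (hat (FT g b₁ b₂ T') j) -
        s * conj (∑ j : ZMod p, hat (FT g b₁ b₂ T') j) - s' * ∑ j : ZMod p, hat (FT g b₁ b₂ T) j +
        p * (s * s') := by
      have h5 : ∀ j : ZMod p, (hat (FT g b₁ b₂ T) j - s) * (conj (hat (FT g b₁ b₂ T') j) - s') =
          hat (FT g b₁ b₂ T) j * conj (hat (FT g b₁ b₂ T') j) -
          s * conj (hat (FT g b₁ b₂ T') j) - s' * hat (FT g b₁ b₂ T) j + s * s' := by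
        intro j; ring
      rw [Finset.sum_congr rfl (fun j _ => h5 j), Finset.sum_add_distrib, Finset.sum_sub_distrib,
        Finset.sum_sub_distrib, ← Finset.mul_sum, ← Finset.mul_sum, Finset.sum_const,
        Finset.card_univ, ZMod.card, nsmul_eq_mul, map_sum]
    have h6 : ∀ F : ZMod p → ℂ, F 0 = 0 → ∑ j, hat F j = 0 := by
      intro F hF
      have h7 := hat_inv F 0
      rw [hF, mul_zero] at h7
      rw [← h7]
      exact Finset.sum_congr rfl fun j _ => by rw [zero_mul, e_zero, mul_one]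
    rw [h4, h6 _ h0, h6 _ h0', parseval, map_zero, mul_zero, mul_zero, sub_zero, sub_zero] at h3
    have h8 : ∀ i : ZMod p, conj (FT g b₁ b₂ T' i) = FT g b₁ b₂ T' i := by
      intro i
      unfold FT
      rw [map_add, hreal, hreal]
    simp only [h8] at h3
    linear_combination h3
  · intro j hj χ hχ hB
    have h9 := hat_FT_ne h hw hT hj hχ hB
    have h10 := hat_FT_ne h hw hT' hj hχ hB
    rw [h9, h10, map_add, hs]
    ring

/-- The convolution formula for squares. -/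
theorem sq_formula (h : TwoOrb hg b₁ b₂) (hw : WS hg Ω ψ) {T : (Ω → ℂ) →ₗ[ℂ] (Ω → ℂ)}
    (hT : Com (Cfsg.permRep ℂ G Ω) T) {i : ZMod p} (hi : i ≠ 0) :
    FT g b₁ b₂ (T ∘ₗ T) i = -2 * sc (Cfsg.permRep ℂ G Ω) T ψ * FT g b₁ b₂ T i +
      ∑ u, FT g b₁ b₂ T u * FT g b₁ b₂ T (i - u) := by
  have hp0 : (p : ℂ) ≠ 0 := by exact_mod_cast hp.out.ne_zero
  set ρ := Cfsg.permRep ℂ G Ω with hρ
  set s := sc ρ T ψ with hsdef
  have h1 : ∀ j : ZMod p, hat (FT g b₁ b₂ (T ∘ₗ T)) j = 2 * s ^ 2 - 2 * s * hat (FT g b₁ b₂ T) j +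
      hat (FT g b₁ b₂ T) j ^ 2 := by
    intro j
    by_cases hj : j = 0
    · rw [hj, hat_FT_zero h hw (hT.comp hT), hat_FT_zero h hw hT, sc_comp hw.mf hT hT hw.mem1,
        sc_comp hw.mf hT hT hw.memψ, ← hρ, ← hsdef]
      ring
    · obtain ⟨χ, hχ, hB⟩ := hw.exists_mem hj
      have hB' : B hg χ j ≠ 0 := by rw [hB]; exact one_ne_zero
      have hχc : χ ∈ cons (Cfsg.permRep ℂ G Ω) := (mem_R.mp hχ).1
      rw [hat_FT_ne h hw (hT.comp hT) hj hχ hB', hat_FT_ne h hw hT hj hχ hB',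
        sc_comp hw.mf hT hT hχc, sc_comp hw.mf hT hT hw.memψ, ← hρ, ← hsdef]
      ring
  have h2 := hat_inv (FT g b₁ b₂ (T ∘ₗ T)) i
  have h3 : ∑ j, hat (FT g b₁ b₂ (T ∘ₗ T)) j * e (i * j) =
      2 * s ^ 2 * ∑ j, e (i * j) - 2 * s * ∑ j, hat (FT g b₁ b₂ T) j * e (i * j) +
      ∑ j, hat (FT g b₁ b₂ T) j ^ 2 * e (i * j) := by
    rw [Finset.mul_sum, Finset.mul_sum, ← Finset.sum_sub_distrib, ← Finset.sum_add_distrib]
    refine Finset.sum_congr rfl fun j _ => ?_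
    rw [h1]; ring
  have h4 : ∑ j : ZMod p, e (i * j) = 0 := by
    have := sum_e (p := p) i
    rw [if_neg hi] at this
    rw [← this]
    exact Finset.sum_congr rfl fun j _ => by rw [mul_comm]
  have h5 : ∑ j, hat (FT g b₁ b₂ T) j ^ 2 * e (i * j) =
      p * ∑ u, FT g b₁ b₂ T u * FT g b₁ b₂ T (i - u) := by
    have h6 : ∀ j, hat (FT g b₁ b₂ T) j ^ 2 * e (i * j) =
        ∑ u, FT g b₁ b₂ T u * (hat (FT g b₁ b₂ T) j * e ((i - u) * j)) := by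
      intro j
      rw [sq]
      conv_lhs => rw [show hat (FT g b₁ b₂ T) j * hat (FT g b₁ b₂ T) j * e (i * j) =
        (∑ u, FT g b₁ b₂ T u * e (-(u * j))) * (hat (FT g b₁ b₂ T) j * e (i * j)) by
          unfold hat; ring]
      rw [Finset.sum_mul]
      refine Finset.sum_congr rfl fun u _ => ?_
      have : e ((i - u) * j) = e (-(u * j)) * e (i * j) := by
        rw [← e_add]; congr 1; ring
      rw [this]; ring
    rw [Finset.sum_congr rfl (fun j _ => h6 j), Finset.sum_comm, Finset.mul_sum]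
    refine Finset.sum_congr rfl fun u _ => ?_
    rw [← Finset.mul_sum, hat_inv]; ring
  rw [h3, h4, hat_inv, h5] at h2
  apply mul_left_cancel₀ hp0
  linear_combination -h2

end Cfsg.Agent.Lib.W2pOrb
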