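import Mathlib
import Cfsg.Agent.Lib.W2pOrb

set_option autoImplicit false

/-!
# Wielandt degree 2p: the orbitals (helper12)
-/

namespace Cfsg.Agent.Lib.W2pOrb2

open scoped ComplexConjugate
open Representation Module Cfsg.Agent.Lib.CharBasic Cfsg.Agent.Lib.PermChar
  Cfsg.Agent.Lib.PermChar2 Cfsg.Agent.Lib.PermChar3 Cfsg.Agent.Lib.PermChar4 Cfsg.Agent.Lib.MFree
  Cfsg.Agent.Lib.MFreePerm Cfsg.Agent.Lib.W2pFour Cfsg.Agent.Lib.W2pCons Cfsg.Agent.Lib.W2pSys
  Cfsg.Agent.Lib.W2pConj Cfsg.Agent.Lib.W2pOrb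

universe u v w

variable {p : ℕ} [hp : Fact p.Prime]
variable {G : Type u} [Group G]
variable {Ω : Type v} [Fintype Ω] [MulAction G Ω]

theorem rank_eq [Fintype G] [MulAction.IsPretransitive G Ω] (a : Ω)
    (hmf : MF (Cfsg.permRep ℂ G Ω)) :
    Nat.card (MulAction.orbitRel.Quotient (MulAction.stabilizer G a) Ω) =
      (cons (Cfsg.permRep ℂ G Ω)).card := by
  classical
  have h1 := (isCharacter_of_rep (Cfsg.permRep ℂ G Ω)).isClassFunction.classInner_eq_sum
      (Cfsg.permRep ℂ G Ω).character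
  rw [classInner_self_eq_rank a] at h1
  have h2 : ∀ χ : IrrCharacter G, classInner (Cfsg.permRep ℂ G Ω).character (χ : G → ℂ) *
        conj (classInner (Cfsg.permRep ℂ G Ω).character (χ : G → ℂ)) =
        if χ ∈ cons (Cfsg.permRep ℂ G Ω) then 1 else 0 := by
    intro χ
    split_ifs with h
    · rw [hmf.eq_one h, map_one, mul_one]
    · have : classInner (Cfsg.permRep ℂ G Ω).character (χ : G → ℂ) = 0 := by
        by_contra h0; exact h (mem_cons.mpr h0)
      rw [this, zero_mul]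
  rw [Finset.sum_congr rfl (fun χ _ => h2 χ), Finset.sum_boole, Finset.filter_mem_eq_inter,
    Finset.univ_inter] at h1
  exact_mod_cast h1

/-- suborbits different from `{a}` -/
abbrev I (G : Type u) [Group G] {Ω : Type v} [MulAction G Ω] (a : Ω) : Type v :=
  {ω : MulAction.orbitRel.Quotient (MulAction.stabilizer G a) Ω // ω ≠ Quotient.mk'' a}

/-- representative -/
noncomputable def rep {a : Ω} (ω : I G a) : Ω := Quotient.out ω.1

omit [Fintype Ω] in
theorem mk_rep {a : Ω} (ω : I G a) : (Quotient.mk'' (rep ω) :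
    MulAction.orbitRel.Quotient (MulAction.stabilizer G a) Ω) = ω.1 := Quotient.out_eq' _

omit [Fintype Ω] in
theorem rep_ne {a : Ω} (ω : I G a) : rep ω ≠ a := by
  intro h
  apply ω.2
  rw [← mk_rep ω, h]

omit [Fintype Ω] in
theorem mk_eq_iff {a x y : Ω} : (Quotient.mk'' x :
    MulAction.orbitRel.Quotient (MulAction.stabilizer G a) Ω) = Quotient.mk'' y ↔
    (x, a) ∈ MulAction.orbit G (y, a) := by
  constructor
  · intro h
    obtain ⟨g, hg⟩ := Quotient.eq''.mp h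
    have hg' : g.1 • y = x := hg
    exact ⟨g.1, Prod.ext hg' g.2⟩
  · rintro ⟨g, hg⟩
    have hg' : (g • y, g • a) = (x, a) := hg
    have hrel : MulAction.orbitRel (MulAction.stabilizer G a) Ω x y :=
      ⟨⟨g, congrArg Prod.snd hg'⟩, congrArg Prod.fst hg'⟩
    exact Quotient.eq''.mpr hrel

omit [Fintype Ω] in
theorem exists_unique_orb [MulAction.IsPretransitive G Ω] (a : Ω) {x y : Ω} (hxy : x ≠ y) :
    ∃ ω : I G a, (x, y) ∈ MulAction.orbit G (rep ω, a) ∧
      ∀ ω' : I G a, (x, y) ∈ MulAction.orbit G (rep ω', a) → ω' = ω := by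
  obtain ⟨h, hh⟩ := MulAction.exists_smul_eq G y a
  have hne : (Quotient.mk'' (h • x) : MulAction.orbitRel.Quotient (MulAction.stabilizer G a) Ω) ≠
      Quotient.mk'' a := by
    intro he
    obtain ⟨g, hg⟩ := Quotient.eq''.mp he
    have hg' : g.1 • a = h • x := hg
    have h1 : g.1 • a = a := g.2
    rw [h1, ← hh] at hg'
    exact hxy (smul_left_cancel h hg').symm
  have key : ∀ ω : I G a, (x, y) ∈ MulAction.orbit G (rep ω, a) ↔
      (Quotient.mk'' (h • x) : MulAction.orbitRel.Quotient (MulAction.stabilizer G a) Ω) = ω.1 := by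
    intro ω
    rw [← mk_rep ω, mk_eq_iff]
    constructor
    · intro h1
      have h2 := MulAction.mem_orbit_of_mem_orbit h h1
      have h3 : h • (x, y) = (h • x, a) := Prod.ext rfl hh
      rwa [h3] at h2
    · intro h1
      have h2 := MulAction.mem_orbit_of_mem_orbit h⁻¹ h1
      have h3 : h⁻¹ • (h • x, a) = (x, y) := by
        rw [← hh]
        exact Prod.ext (inv_smul_smul h x) (inv_smul_smul h y)
      rwa [h3] at h2
  refine ⟨⟨_, hne⟩, (key _).mpr rfl, ?_⟩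
  intro ω' h'
  exact Subtype.ext ((key ω').mp h').symm

/-- the orbital operator of `ω` -/
noncomputable def TT {a : Ω} (ω : I G a) : (Ω → ℂ) →ₗ[ℂ] (Ω → ℂ) := orbOp G (rep ω) a

theorem com_TT {a : Ω} (ω : I G a) : Com (Cfsg.permRep ℂ G Ω) (TT ω) := com_orbOp _ _

open scoped Classical in
/-- the diagonal part of the orbital -/
noncomputable def Fn (g : G) (b₁ b₂ : Ω) (ω : I G b₁) (i : ZMod p) : ℕ :=
  (if (pw g i • b₁, b₁) ∈ MulAction.orbit G (rep ω, b₁) then 1 else 0) +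
  (if (pw g i • b₂, b₂) ∈ MulAction.orbit G (rep ω, b₁) then 1 else 0)

/-- subdegree -/
noncomputable def kk {a : Ω} (ω : I G a) : ℕ :=
  Nat.card (MulAction.orbit (MulAction.stabilizer G a) (rep ω))

theorem FT_eq (g : G) (b₁ b₂ : Ω) (ω : I G b₁) (i : ZMod p) :
    FT g b₁ b₂ (TT ω) i = Fn g b₁ b₂ ω i := by
  classical
  unfold FT TT Fn
  rw [ent_orbOp, ent_orbOp]
  push_cast
  rfl

theorem ent_TT_real {a : Ω} (ω : I G a) (x y : Ω) : conj (ent (TT ω) x y) = ent (TT ω) x y := by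
  classical
  unfold TT
  rw [ent_orbOp]
  split_ifs <;> simp

omit [Fintype Ω] in
theorem not_mem_diag {a : Ω} (ω : I G a) (x : Ω) : (x, x) ∉ MulAction.orbit G (rep ω, a) := by
  rintro ⟨h, hh⟩
  have hh' : (h • rep ω, h • a) = (x, x) := hh
  exact rep_ne ω (smul_left_cancel h ((congrArg Prod.fst hh').trans (congrArg Prod.snd hh').symm))

omit [Fintype Ω] in
theorem Fn_zero (g : G) (b₁ b₂ : Ω) (ω : I G b₁) : Fn g b₁ b₂ ω (0 : ZMod p) = 0 := by
  classical
  unfold Fn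
  rw [pw_zero, one_smul, one_smul, if_neg (not_mem_diag ω _), if_neg (not_mem_diag ω _)]

variable {g : G} {hg : g ^ p = 1} {b₁ b₂ : Ω}
variable [Fintype G] {ψ : IrrCharacter G}

/-- the integer eigenvalue on `ψ` -/
noncomputable def ss (g : G) (b₁ b₂ : Ω) (p : ℕ) [NeZero p] (ω : I G b₁) : ℤ :=
  ((∑ i : ZMod p, Fn g b₁ b₂ ω i : ℕ) : ℤ) - kk ω

theorem sc_ψ (h : TwoOrb hg b₁ b₂) (hw : WS hg Ω ψ) [MulAction.IsPretransitive G Ω]
    (ω : I G b₁) : sc (Cfsg.permRep ℂ G Ω) (TT ω) ψ = ss g b₁ b₂ p ω := by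
  have h1 := hat_FT_zero h hw (com_TT ω)
  have h2 : sc (Cfsg.permRep ℂ G Ω) (TT ω) (one' G) = kk ω := sc_one_orbOp b₁ (rep ω)
  rw [hat_zero, h2, Finset.sum_congr rfl (fun i _ => FT_eq g b₁ b₂ ω i)] at h1
  unfold ss
  push_cast
  linear_combination -h1

theorem mul_formula (h : TwoOrb hg b₁ b₂) (hw : WS hg Ω ψ) [MulAction.IsPretransitive G Ω]
    (ω ω' : I G b₁) [Decidable (ω = ω')] :
    (if ω = ω' then 2 * (kk ω : ℤ) else 0) = 2 * ss g b₁ b₂ p ω * ss g b₁ b₂ p ω' +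
      ((∑ i : ZMod p, Fn g b₁ b₂ ω i * Fn g b₁ b₂ ω' i : ℕ) : ℤ) := by
  classical
  have hp0 : (p : ℂ) ≠ 0 := by exact_mod_cast hp.out.ne_zero
  have hFT : ∀ (ω : I G b₁) (i : ZMod p), FT g b₁ b₂ (TT ω) i = Fn g b₁ b₂ ω i :=
    fun ω i => FT_eq g b₁ b₂ ω i
  have h1 := trace_mul_formula h hw (com_TT ω) (com_TT ω') (com_orbOp (G := G) b₁ (rep ω'))
    (fun x y => by
      unfold TT
      rw [ent_orbOp, ent_orbOp]
      by_cases hm : (x, y) ∈ MulAction.orbit G (b₁, rep ω')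
      · rw [if_pos hm, if_pos (mem_orbit_swap.mp hm)]
      · rw [if_neg hm, if_neg (fun h' => hm (mem_orbit_swap.mpr h'))])
    (ent_TT_real ω')
    (by rw [hFT, Fn_zero, Nat.cast_zero]) (by rw [hFT, Fn_zero, Nat.cast_zero])
    (by
      have h2 : sc (Cfsg.permRep ℂ G Ω) (TT ω') (one' G) = kk ω' := sc_one_orbOp b₁ (rep ω')
      rw [h2, Complex.conj_natCast])
    (by rw [sc_ψ h hw]; exact Complex.conj_eq_iff_real.mpr ⟨(ss g b₁ b₂ p ω' : ℝ), by push_cast; rfl⟩)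
  rw [sc_ψ h hw, sc_ψ h hw, Finset.sum_congr rfl (fun i _ => by rw [hFT, hFT])] at h1
  have h3 : LinearMap.trace ℂ (Ω → ℂ) (TT ω ∘ₗ orbOp G b₁ (rep ω')) =
      if ω = ω' then (2 * p : ℂ) * kk ω else 0 := by
    unfold TT
    rw [trace_orbOp_comp b₁ (rep ω) (rep ω') b₁]
    have h4 : (rep ω', b₁) ∈ MulAction.orbit G (rep ω, b₁) ↔ ω = ω' := by
      rw [← mk_eq_iff, mk_rep, mk_rep]
      exact ⟨fun h => (Subtype.ext h).symm, fun h => by rw [h]⟩
    by_cases h5 : ω = ω'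
    · rw [if_pos h5, if_pos (h4.mpr h5), h.card]
      push_cast
      rfl
    · rw [if_neg h5, if_neg (fun h6 => h5 (h4.mp h6))]
  rw [h3] at h1
  have h6 : (((if ω = ω' then 2 * (kk ω : ℤ) else 0 : ℤ)) : ℂ) =
      ((2 * ss g b₁ b₂ p ω * ss g b₁ b₂ p ω' +
      ((∑ i : ZMod p, Fn g b₁ b₂ ω i * Fn g b₁ b₂ ω' i : ℕ) : ℤ) : ℤ) : ℂ) := by
    apply mul_left_cancel₀ hp0
    push_cast
    rw [← h1]
    split_ifs <;> ring
  exact_mod_cast h6

theorem Fn_inv (h : TwoOrb hg b₁ b₂) (hw : WS hg Ω ψ) (ω : I G b₁) {d : (ZMod p)ˣ}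
    (hd : d ∈ hw.D) (i : ZMod p) : Fn g b₁ b₂ ω ((d : ZMod p) * i) = Fn g b₁ b₂ ω i := by
  by_cases hi : i = 0
  · rw [hi, mul_zero]
  have hp0 : (p : ℂ) ≠ 0 := by exact_mod_cast hp.out.ne_zero
  have hdi : (d : ZMod p) * i ≠ 0 := mul_ne_zero (Units.ne_zero d) hi
  have h1 : ∀ j : ZMod p, (p : ℂ) * Fn g b₁ b₂ ω j = ∑ χ ∈ cons (Cfsg.permRep ℂ G Ω),
      sc (Cfsg.permRep ℂ G Ω) (TT ω) χ * (χ : G → ℂ) (pw g j) := by
    intro j
    rw [← trace_comp_rep hw.mf (com_TT ω), h.trace (com_TT ω), FT_eq]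
  have h2 : (p : ℂ) * Fn g b₁ b₂ ω ((d : ZMod p) * i) = (p : ℂ) * Fn g b₁ b₂ ω i := by
    rw [h1, h1, hw.sum_cons, hw.sum_cons, val_ψ hw hdi, val_ψ hw hi]
    congr 1
    refine Finset.sum_congr rfl fun χ hχ => ?_
    rw [val_mul hw hχ hd]
  have h3 := mul_left_cancel₀ hp0 h2
  exact_mod_cast h3

omit [Fintype Ω] [Fintype G] in
theorem sum_Fn [MulAction.IsPretransitive G Ω] [Fintype (I G b₁)] (h : TwoOrb hg b₁ b₂)
    {i : ZMod p} (hi : i ≠ 0) : ∑ ω : I G b₁, Fn g b₁ b₂ ω i = 2 := by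
  classical
  have key : ∀ x y : Ω, x ≠ y → ∑ ω : I G b₁,
      (if (x, y) ∈ MulAction.orbit G (rep ω, b₁) then 1 else 0) = 1 := by
    intro x y hxy
    obtain ⟨ω, h1, h2⟩ := exists_unique_orb (G := G) b₁ hxy
    rw [Finset.sum_eq_single ω]
    · rw [if_pos h1]
    · intro ω' _ hne
      rw [if_neg (fun h3 => hne (h2 ω' h3))]
    · intro hn; exact absurd (Finset.mem_univ _) hn
  unfold Fn
  rw [Finset.sum_add_distrib, key _ _ (h.free i hi b₁), key _ _ (h.free i hi b₂)]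

theorem card_I [MulAction.IsPretransitive G Ω] [Fintype (I G b₁)] (hw : WS hg Ω ψ) :
    Fintype.card (I G b₁) = (R Ω ψ).card + 1 := by
  classical
  have hfin : Finite (MulAction.orbitRel.Quotient (MulAction.stabilizer G b₁) Ω) :=
    Quotient.finite _
  let _ : Fintype (MulAction.orbitRel.Quotient (MulAction.stabilizer G b₁) Ω) := Fintype.ofFinite _
  have h1 := rank_eq (G := G) b₁ hw.mf
  rw [hw.card_cons, Nat.card_eq_fintype_card] at h1
  have h2 : Fintype.card (I G b₁) =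
      Fintype.card (MulAction.orbitRel.Quotient (MulAction.stabilizer G b₁) Ω) - 1 := by
    have := Set.card_ne_eq (Quotient.mk'' b₁ :
      MulAction.orbitRel.Quotient (MulAction.stabilizer G b₁) Ω)
    rw [← this]
    exact Fintype.card_congr (Equiv.refl _)
  rw [h2, h1]
  omega

theorem sum_Fn_ne [MulAction.IsPreprimitive G Ω] (h : TwoOrb hg b₁ b₂) (hw : WS hg Ω ψ)
    (ω : I G b₁) : ∑ i : ZMod p, Fn g b₁ b₂ ω i ≠ 0 := by
  classical
  intro h0
  have h1 : ss g b₁ b₂ p ω = -kk ω := by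
    unfold ss; rw [h0]; simp
  have h2 := mul_formula h hw ω ω
  rw [if_pos rfl, h1] at h2
  have h3 : ∑ i : ZMod p, Fn g b₁ b₂ ω i * Fn g b₁ b₂ ω i = 0 := by
    apply Finset.sum_eq_zero
    intro i _
    rw [Finset.sum_eq_zero_iff.mp h0 i (Finset.mem_univ _), mul_zero]
  rw [h3, Nat.cast_zero, add_zero] at h2
  have hk0 : 0 < kk ω := by
    unfold kk
    have : Nonempty (MulAction.orbit (MulAction.stabilizer G b₁) (rep ω)) :=
      ⟨⟨_, MulAction.mem_orbit_self _⟩⟩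
    exact Nat.card_pos
  have h4' : 2 * ((kk ω : ℤ) * (kk ω - 1)) = 0 := by linear_combination -h2
  have h4 : (kk ω : ℤ) * (kk ω - 1) = 0 := (mul_eq_zero.mp h4').resolve_left (by norm_num)
  have h5 : kk ω = 1 := by
    rcases mul_eq_zero.mp h4 with h | h
    · omega
    · omega
  have h6 := subdegree_ne_one b₁ (rep ω) (rep_ne ω) h5
  have hfin : Finite (MulAction.orbitRel.Quotient (MulAction.stabilizer G b₁) Ω) :=
    Quotient.finite _
  let _ : Fintype (MulAction.orbitRel.Quotient (MulAction.stabilizer G b₁) Ω) := Fintype.ofFinite _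
  have hsum : ∑ ω : MulAction.orbitRel.Quotient (MulAction.stabilizer G b₁) Ω,
      Nat.card (MulAction.orbitRel.Quotient.orbit ω) = Fintype.card Ω := by
    have h := Nat.card_congr (MulAction.selfEquivSigmaOrbits' (MulAction.stabilizer G b₁) Ω)
    rw [Nat.card_sigma, Nat.card_eq_fintype_card] at h
    exact h.symm
  have h7 : ∀ ω : MulAction.orbitRel.Quotient (MulAction.stabilizer G b₁) Ω,
      Nat.card (MulAction.orbitRel.Quotient.orbit ω) = 1 := fun ω =>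
    Quotient.inductionOn' ω (fun x => by
      rw [MulAction.orbitRel.Quotient.orbit_mk]; exact h6 x)
  rw [Finset.sum_congr rfl (fun ω _ => h7 ω), Finset.sum_const, Finset.card_univ, smul_eq_mul,
    mul_one, ← Nat.card_eq_fintype_card, rank_eq b₁ hw.mf, hw.card_cons, h.card] at hsum
  have h8 := hw.card_R
  have h9 : (R Ω ψ).card ≤ (R Ω ψ).card * Nat.card hw.D :=
    Nat.le_mul_of_pos_right _ Nat.card_pos
  have := hp.out.two_le
  omega

/-- The arithmetic consequence. -/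
theorem exists_special [MulAction.IsPreprimitive G Ω] (h : TwoOrb hg b₁ b₂) (hw : WS hg Ω ψ)
    (hR : 1 ≤ (R Ω ψ).card) :
    ∃ ω : I G b₁, ∃ α : ℕ, 1 ≤ α ∧ Nat.card hw.D = 2 * (α * (α + 1)) ∧
      ss g b₁ b₂ p ω = α ∧ (∀ i : ZMod p, Fn g b₁ b₂ ω i ≤ 1) ∧
      ∑ i : ZMod p, Fn g b₁ b₂ ω i = Nat.card hw.D := by
  classical
  have hfin : Finite (MulAction.orbitRel.Quotient (MulAction.stabilizer G b₁) Ω) :=
    Quotient.finite _
  let _ : Fintype (I G b₁) := Fintype.ofFinite _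
  refine W2pComb.comb hw.D (f := Nat.card hw.D) (t := (R Ω ψ).card) rfl hR hw.card_R
    (I := I G b₁) (card_I hw) (fun ω => Fn g b₁ b₂ ω) (fun ω => ss g b₁ b₂ p ω) (fun ω => kk ω)
    (fun ω => Fn_zero g b₁ b₂ ω) (fun ω d hd i => Fn_inv h hw ω hd i) (fun i hi => sum_Fn h hi)
    ?_ ?_ ?_ (fun ω => sum_Fn_ne h hw ω)
  · intro ω; unfold ss; ring
  · intro ω ω' hne
    have h1 := mul_formula h hw ω ω'
    rw [if_neg hne] at h1
    linear_combination -h1
  · intro ω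
    have h1 := mul_formula h hw ω ω
    rw [if_pos rfl] at h1
    linear_combination -h1

end Cfsg.Agent.Lib.W2pOrb2
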