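import Mathlib
import Cfsg.Agent.Lib.W2pOrb2

set_option autoImplicit false

/-!
# Wielandt degree 2p: geometry and the final contradiction (helper12)
-/

namespace Cfsg.Agent.Lib.W2pGeom

open scoped ComplexConjugate
open Representation Module Cfsg.Agent.Lib.CharBasic Cfsg.Agent.Lib.PermChar
  Cfsg.Agent.Lib.PermChar2 Cfsg.Agent.Lib.PermChar3 Cfsg.Agent.Lib.PermChar4 Cfsg.Agent.Lib.MFree
  Cfsg.Agent.Lib.MFreePerm Cfsg.Agent.Lib.W2pFour Cfsg.Agent.Lib.W2pCons Cfsg.Agent.Lib.W2pSys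
  Cfsg.Agent.Lib.W2pConj Cfsg.Agent.Lib.W2pOrb Cfsg.Agent.Lib.W2pOrb2

universe u v w

variable {p : ℕ} [hp : Fact p.Prime]
variable {G : Type u} [Group G]
variable {Ω : Type v} [MulAction G Ω]
variable {g : G}

theorem conj_pw (hg : g ^ p = 1) {x : G} {d : ZMod p} (hx : x * g * x⁻¹ = pw g d) (i : ZMod p) :
    x * pw g i * x⁻¹ = pw g (d * i) := by
  have h1 : x * pw g i * x⁻¹ = (x * g * x⁻¹) ^ i.val := by
    rw [conj_pow]; rfl
  rw [h1, hx, pw_pow hg, mul_comm]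
  congr 2
  exact ZMod.natCast_zmod_val i

theorem conj_pw_smul (hg : g ^ p = 1) {x : G} {d : ZMod p} (hx : x * g * x⁻¹ = pw g d)
    (i : ZMod p) (y : Ω) : x • pw g i • y = pw g (d * i) • x • y := by
  rw [← conj_pw hg hx i, ← mul_smul, ← mul_smul, inv_mul_cancel_right]

theorem inv_conj (hg : g ^ p = 1) {x : G} {d : (ZMod p)ˣ} (hx : x * g * x⁻¹ = pw g (d : ZMod p)) :
    x⁻¹ * g * x⁻¹⁻¹ = pw g ((d⁻¹ : (ZMod p)ˣ) : ZMod p) := by
  have h1 := conj_pw hg hx ((d⁻¹ : (ZMod p)ˣ) : ZMod p)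
  rw [← Units.val_mul, mul_inv_cancel, Units.val_one, pw_one hg] at h1
  have h2 : pw g ((d⁻¹ : (ZMod p)ˣ) : ZMod p) =
      x⁻¹ * (x * pw g ((d⁻¹ : (ZMod p)ˣ) : ZMod p) * x⁻¹) * x := by group
  rw [h2, h1, inv_inv]

/-- multipliers realised by elements fixing `s` pointwise -/
def AA (hg : g ^ p = 1) (s : Set Ω) : Subgroup (ZMod p)ˣ where
  carrier := {d | ∃ x : G, x * g * x⁻¹ = pw g (d : ZMod p) ∧ ∀ y ∈ s, x • y = y}
  one_mem' := ⟨1, by rw [one_mul, inv_one, mul_one, Units.val_one, pw_one hg],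
    fun y _ => one_smul _ _⟩
  mul_mem' := by
    rintro a b ⟨x, hx, hxs⟩ ⟨y, hy, hys⟩
    refine ⟨x * y, ?_, ?_⟩
    · rw [Units.val_mul, ← conj_pw hg hx, ← hy]; group
    · intro z hz; rw [mul_smul, hys z hz, hxs z hz]
  inv_mem' := by
    rintro a ⟨x, hx, hxs⟩
    exact ⟨x⁻¹, inv_conj hg hx, fun z hz => by rw [inv_smul_eq_iff, hxs z hz]⟩

variable {hg : g ^ p = 1} {b₁ b₂ : Ω}

theorem swap_fix (h : TwoOrb hg b₁ b₂) {x : G} {d : (ZMod p)ˣ}
    (hx : x * g * x⁻¹ = pw g (d : ZMod p)) (h1 : ¬ ∃ i : ZMod p, x • b₁ = pw g i • b₁) :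
    (∃ i : ZMod p, x • b₁ = pw g i • b₂) ∧ (∃ i : ZMod p, x • b₂ = pw g i • b₁) := by
  have h2 : ∃ i : ZMod p, x • b₁ = pw g i • b₂ := by
    rcases h.cover (x • b₁) with h3 | h3
    · exact absurd h3 h1
    · exact h3
  refine ⟨h2, ?_⟩
  rcases h.cover (x • b₂) with h3 | ⟨l, hl⟩
  · exact h3
  · exfalso
    obtain ⟨i, hi⟩ := h2
    have h4 : x • b₂ = pw g (l - i) • x • b₁ := by
      rw [hi, ← mul_smul, ← pw_add hg, sub_add_cancel, hl]
    have h5 := conj_pw_smul hg hx (((d⁻¹ : (ZMod p)ˣ) : ZMod p) * (l - i)) b₁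
    rw [← mul_assoc, ← Units.val_mul, mul_inv_cancel, Units.val_one, one_mul, ← h4] at h5
    have h6 := smul_left_cancel x h5
    have h7 := h.disj (((d⁻¹ : (ZMod p)ˣ) : ZMod p) * (l - i)) 0
    rw [pw_zero, one_smul] at h7
    exact h7 h6

theorem fix_fix (h : TwoOrb hg b₁ b₂) {x : G} {d : (ZMod p)ˣ}
    (hx : x * g * x⁻¹ = pw g (d : ZMod p)) {i : ZMod p} (h1 : x • b₁ = pw g i • b₁) :
    ∃ j : ZMod p, x • b₂ = pw g j • b₂ := by
  rcases h.cover (x • b₂) with ⟨l, hl⟩ | h3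
  · exfalso
    have h4 : x • b₂ = pw g (l - i) • x • b₁ := by
      rw [h1, ← mul_smul, ← pw_add hg, sub_add_cancel, hl]
    have h5 := conj_pw_smul hg hx (((d⁻¹ : (ZMod p)ˣ) : ZMod p) * (l - i)) b₁
    rw [← mul_assoc, ← Units.val_mul, mul_inv_cancel, Units.val_one, one_mul, ← h4] at h5
    have h6 := smul_left_cancel x h5
    have h7 := h.disj (((d⁻¹ : (ZMod p)ˣ) : ZMod p) * (l - i)) 0
    rw [pw_zero, one_smul] at h7
    exact h7 h6
  · exact h3

theorem mem_AA_of_fix (hg : g ^ p = 1) {x : G} {d : (ZMod p)ˣ}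
    (hx : x * g * x⁻¹ = pw g (d : ZMod p)) {i : ZMod p} (h1 : x • b₁ = pw g i • b₁) :
    d ∈ AA hg ({b₁} : Set Ω) := by
  refine ⟨pw g (-i) * x, ?_, ?_⟩
  · have h2 : pw g (-i) * x * g * (pw g (-i) * x)⁻¹ = pw g (-i) * (x * g * x⁻¹) * (pw g (-i))⁻¹ := by
      group
    rw [h2, hx, ← pw_neg hg, ← pw_add hg, ← pw_add hg]
    congr 1
    ring
  · intro y hy
    rw [Set.mem_singleton_iff.mp hy, mul_smul, h1, ← mul_smul, ← pw_add hg, neg_add_cancel,
      pw_zero, one_smul]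

/-- half of the multipliers fix the orbits -/
theorem card_le (h : TwoOrb hg b₁ b₂) (D : Subgroup (ZMod p)ˣ)
    (hD : ∀ d ∈ D, IsConj g (pw g (d : ZMod p))) :
    Nat.card D ≤ 2 * Nat.card (AA hg ({b₁} : Set Ω)) := by
  classical
  have hconj : ∀ d ∈ D, ∃ x : G, x * g * x⁻¹ = pw g (d : ZMod p) := fun d hd =>
    isConj_iff.mp (hD d hd)
  by_cases hle : D ≤ AA hg ({b₁} : Set Ω)
  · have := Subgroup.card_le_of_le hle
    omega
  · obtain ⟨d₀, hd₀, hd₀'⟩ := SetLike.not_le_iff_exists.mp hle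
    obtain ⟨x₀, hx₀⟩ := hconj d₀ hd₀
    have hn0 : ¬ ∃ i : ZMod p, x₀ • b₁ = pw g i • b₁ := fun ⟨i, hi⟩ =>
      hd₀' (mem_AA_of_fix hg hx₀ hi)
    obtain ⟨⟨i₀, hi₀⟩, ⟨j₀, hj₀⟩⟩ := swap_fix h hx₀ hn0
    have hsub : (D : Set (ZMod p)ˣ) ⊆ (AA hg ({b₁} : Set Ω) : Set (ZMod p)ˣ) ∪
        (fun a => a * d₀) '' (AA hg ({b₁} : Set Ω) : Set (ZMod p)ˣ) := by
      intro d hd
      by_cases hdA : d ∈ AA hg ({b₁} : Set Ω)
      · exact Or.inl hdA
      · right
        obtain ⟨x, hx⟩ := hconj d hd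
        have hn : ¬ ∃ i : ZMod p, x • b₁ = pw g i • b₁ := fun ⟨i, hi⟩ =>
          hdA (mem_AA_of_fix hg hx hi)
        obtain ⟨⟨i, hi⟩, ⟨j, hj⟩⟩ := swap_fix h hx hn
        refine ⟨d * d₀⁻¹, ?_, inv_mul_cancel_right d d₀⟩
        have hx' : (x * x₀⁻¹) * g * (x * x₀⁻¹)⁻¹ =
            pw g ((d * d₀⁻¹ : (ZMod p)ˣ) : ZMod p) := by
          rw [Units.val_mul, ← conj_pw hg hx, ← inv_conj hg hx₀]; group
        have hinv : x₀⁻¹ • b₁ = pw g (-(((d₀⁻¹ : (ZMod p)ˣ) : ZMod p) * j₀)) • b₂ := by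
          rw [inv_smul_eq_iff, conj_pw_smul hg hx₀, mul_neg, ← mul_assoc, ← Units.val_mul,
            mul_inv_cancel, Units.val_one, one_mul, hj₀, ← mul_smul, ← pw_add hg,
            neg_add_cancel, pw_zero, one_smul]
        apply mem_AA_of_fix hg hx' (i := (d : ZMod p) * (-(((d₀⁻¹ : (ZMod p)ˣ) : ZMod p) * j₀)) + j)
        rw [mul_smul, hinv, conj_pw_smul hg hx, hj, ← mul_smul, ← pw_add hg]
    have h1 := Set.ncard_le_ncard hsub (Set.toFinite _)
    have h2 := Set.ncard_union_le (AA hg ({b₁} : Set Ω) : Set (ZMod p)ˣ)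
        ((fun a => a * d₀) '' (AA hg ({b₁} : Set Ω) : Set (ZMod p)ˣ))
    have h3 := Set.ncard_image_le (f := fun a => a * d₀)
      (Set.toFinite (AA hg ({b₁} : Set Ω) : Set (ZMod p)ˣ))
    have h4 : (D : Set (ZMod p)ˣ).ncard = Nat.card D := rfl
    have h5 : (AA hg ({b₁} : Set Ω) : Set (ZMod p)ˣ).ncard = Nat.card (AA hg ({b₁} : Set Ω)) := rfl
    omega

/-- a good choice of the second base point -/
theorem exists_good (h : TwoOrb hg b₁ b₂) :
    ∃ b₂' : Ω, TwoOrb hg b₁ b₂' ∧ AA hg ({b₁} : Set Ω) ≤ AA hg ({b₁, b₂'} : Set Ω) := by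
  classical
  obtain ⟨d₀, hd₀⟩ := (inferInstance : IsCyclic (AA hg ({b₁} : Set Ω))).exists_generator
  by_cases h1 : (d₀ : (ZMod p)ˣ) = 1
  · refine ⟨b₂, h, ?_⟩
    intro d hd
    obtain ⟨n, hn⟩ := Subgroup.mem_zpowers_iff.mp (hd₀ ⟨d, hd⟩)
    have h2 : d = 1 := by
      have := congrArg Subtype.val hn
      rw [Subgroup.coe_zpow, h1, one_zpow] at this
      exact this.symm
    rw [h2]
    exact one_mem _
  · obtain ⟨x₀, hx₀, hx₀b⟩ := d₀.2
    have hx1 : x₀ • b₁ = b₁ := hx₀b b₁ rfl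
    obtain ⟨c, hc⟩ := fix_fix h hx₀ (i := 0) (by rw [pw_zero, one_smul, hx1])
    have hd1 : ((d₀ : (ZMod p)ˣ) : ZMod p) - 1 ≠ 0 := by
      intro h2
      exact h1 (Units.ext (sub_eq_zero.mp h2))
    let y : ZMod p := -c / (((d₀ : (ZMod p)ˣ) : ZMod p) - 1)
    have hy : ((d₀ : (ZMod p)ˣ) : ZMod p) * y + c = y := by
      have : (((d₀ : (ZMod p)ˣ) : ZMod p) - 1) * y = -c := mul_div_cancel₀ _ hd1
      linear_combination this
    refine ⟨pw g y • b₂, ⟨?_, ?_, h.free⟩, ?_⟩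
    · intro x
      rcases h.cover x with h3 | ⟨i, hi⟩
      · exact Or.inl h3
      · exact Or.inr ⟨i - y, by rw [← mul_smul, ← pw_add hg, sub_add_cancel, hi]⟩
    · intro i j
      rw [← mul_smul, ← pw_add hg]
      exact h.disj _ _
    · have hmem : (d₀ : (ZMod p)ˣ) ∈ AA hg ({b₁, pw g y • b₂} : Set Ω) := by
        refine ⟨x₀, hx₀, ?_⟩
        intro z hz
        rcases hz with rfl | hz
        · exact hx1
        · rw [Set.mem_singleton_iff.mp hz, conj_pw_smul hg hx₀, hc, ← mul_smul, ← pw_add hg, hy]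
      intro d hd
      obtain ⟨n, hn⟩ := Subgroup.mem_zpowers_iff.mp (hd₀ ⟨d, hd⟩)
      have h2 := congrArg Subtype.val hn
      rw [Subgroup.coe_zpow] at h2
      rw [← show (d₀ : (ZMod p)ˣ) ^ n = d from h2]
      exact Subgroup.zpow_mem _ hmem n

variable [Fintype Ω]

open scoped Classical in
/-- indicator of an orbital -/
noncomputable def ind (G : Type u) [Group G] {Ω : Type v} [MulAction G Ω] (c b x y : Ω) : ℕ :=
  if (x, y) ∈ MulAction.orbit G (c, b) then 1 else 0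

omit [Fintype Ω] in
theorem ind_smul (c b x y : Ω) (h : G) : ind G c b (h • x) (h • y) = ind G c b x y := by
  classical
  unfold ind
  have : (h • x, h • y) ∈ MulAction.orbit G (c, b) ↔ (x, y) ∈ MulAction.orbit G (c, b) := by
    constructor
    · intro h1
      have h2 := MulAction.mem_orbit_of_mem_orbit h⁻¹ h1
      have h3 : h⁻¹ • (h • x, h • y) = (x, y) :=
        Prod.ext (inv_smul_smul h x) (inv_smul_smul h y)
      rwa [h3] at h2
    · intro h1
      exact MulAction.mem_orbit_of_mem_orbit h h1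
  by_cases h1 : (x, y) ∈ MulAction.orbit G (c, b)
  · rw [if_pos h1, if_pos (this.mpr h1)]
  · rw [if_neg h1, if_neg (fun h2 => h1 (this.mp h2))]

/-- row sums -/
theorem sum_ind [MulAction.IsPretransitive G Ω] (c b y : Ω) :
    ∑ x, ind G c b x y = Nat.card (MulAction.orbit (MulAction.stabilizer G b) c) := by
  classical
  have h1 := orbOp_const (G := G) b c (fun _ => (1 : ℂ)) (fun _ => rfl) y
  rw [orbOp_apply] at h1
  have h2 : ((∑ x, ind G c b x y : ℕ) : ℂ) =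
      (Nat.card (MulAction.orbit (MulAction.stabilizer G b) c) : ℂ) := by
    rw [← h1]
    push_cast
    refine Finset.sum_congr rfl fun x _ => ?_
    unfold ind
    split_ifs <;> simp
  exact_mod_cast h2

/-- column sums -/
theorem sum_ind' [MulAction.IsPretransitive G Ω] (c b x : Ω) :
    ∑ y, ind G c b x y = Nat.card (MulAction.orbit (MulAction.stabilizer G b) c) := by
  classical
  have hne : Nonempty Ω := ⟨x⟩
  -- transposed indicator
  have ht : ∀ x y, ind G c b x y = ind G b c y x := by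
    intro x y
    unfold ind
    by_cases h1 : (x, y) ∈ MulAction.orbit G (c, b)
    · rw [if_pos h1, if_pos (mem_orbit_swap.mp h1)]
    · rw [if_neg h1, if_neg (fun h2 => h1 (mem_orbit_swap.mpr h2))]
  have h1 : ∀ x, ∑ y, ind G c b x y = Nat.card (MulAction.orbit (MulAction.stabilizer G c) b) := by
    intro x
    rw [← sum_ind b c x]
    exact Finset.sum_congr rfl fun y _ => ht x y
  have h2 : ∑ x, ∑ y, ind G c b x y = ∑ y, ∑ x, ind G c b x y := Finset.sum_comm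
  rw [Finset.sum_congr rfl (fun x _ => h1 x), Finset.sum_congr rfl (fun y _ => sum_ind c b y),
    Finset.sum_const, Finset.sum_const, smul_eq_mul, smul_eq_mul] at h2
  rw [h1]
  exact Nat.eq_of_mul_eq_mul_left (Finset.card_pos.mpr Finset.univ_nonempty) h2

theorem sum_neg {M : Type*} [AddCommMonoid M] (F : ZMod p → M) : ∑ i, F (-i) = ∑ i, F i :=
  Fintype.sum_equiv (Equiv.neg (ZMod p)) _ _ fun _ => rfl

/-- the counting of the three blocks -/
theorem block_counts [MulAction.IsPretransitive G Ω] (h : TwoOrb hg b₁ b₂) (c : Ω) :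
    (∑ i : ZMod p, ind G c b₁ (pw g i • b₁) b₁) + (∑ i : ZMod p, ind G c b₁ (pw g i • b₂) b₁) =
      Nat.card (MulAction.orbit (MulAction.stabilizer G b₁) c) ∧
    (∑ i : ZMod p, ind G c b₁ (pw g i • b₂) b₂) + (∑ i : ZMod p, ind G c b₁ (pw g i • b₂) b₁) =
      Nat.card (MulAction.orbit (MulAction.stabilizer G b₁) c) := by
  constructor
  · rw [← sum_ind c b₁ b₁, h.sum_split]
  · rw [← sum_ind' c b₁ b₂, h.sum_split, add_comm]
    congr 1
    · rw [← sum_neg]
      refine Finset.sum_congr rfl fun i _ => ?_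
      rw [pw_neg hg, ← ind_smul c b₁ _ _ (pw g i), smul_inv_smul]
    · rw [← sum_neg]
      refine Finset.sum_congr rfl fun i _ => ?_
      rw [pw_neg hg, ← ind_smul c b₁ _ _ (pw g i), smul_inv_smul]

variable [Fintype G] {ψ : IrrCharacter G}

omit hp [Fintype Ω] [Fintype G] in
theorem Fn_eq (ω : I G b₁) (i : ZMod p) : Fn g b₁ b₂ ω i =
    ind G (rep ω) b₁ (pw g i • b₁) b₁ + ind G (rep ω) b₁ (pw g i • b₂) b₂ := rfl

theorem final_contradiction [MulAction.IsPreprimitive G Ω] (h0 : TwoOrb hg b₁ b₂)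
    (hw : WS hg Ω ψ) (hR : 2 ≤ (R Ω ψ).card)
    (hcent : ∀ i : ZMod p, i ≠ 0 → Nat.card (Subgroup.centralizer ({pw g i} : Set G)) = p) :
    False := by
  classical
  obtain ⟨b₃, h, hAA⟩ := exists_good h0
  obtain ⟨ω, α, hα, hf, hs, hF1, hFs⟩ := exists_special h hw (by omega)
  set A := AA hg ({b₁} : Set Ω) with hA
  have hcard : Nat.card hw.D ≤ 2 * Nat.card A :=
    card_le h hw.D (fun d hd => isConj_of_mem_D hw hcent hR hd)
  obtain ⟨hc1, hc2⟩ := block_counts h (rep ω)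
  set k := Nat.card (MulAction.orbit (MulAction.stabilizer G b₁) (rep ω)) with hk
  set S11 := ∑ i : ZMod p, ind G (rep ω) b₁ (pw g i • b₁) b₁ with hS11
  set S21 := ∑ i : ZMod p, ind G (rep ω) b₁ (pw g i • b₃) b₁ with hS21
  set S22 := ∑ i : ZMod p, ind G (rep ω) b₁ (pw g i • b₃) b₃ with hS22
  have hsum : S11 + S22 = 2 * (α * (α + 1)) := by
    rw [← hf, ← hFs]
    simp only [Fn_eq]
    rw [Finset.sum_add_distrib]
  have hkα : k + α = 2 * (α * (α + 1)) := by
    have h1 : ss g b₁ b₃ p ω = α := hs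
    unfold ss kk at h1
    rw [hFs, hf] at h1
    have h2 : ((2 * (α * (α + 1)) : ℕ) : ℤ) = (k : ℤ) + α := by
      rw [← hk] at h1
      linarith
    exact_mod_cast h2.symm
  have hS11' : S11 = α * (α + 1) := by omega
  have hS21' : S21 = α * α := by
    have : S21 + α + α * (α + 1) = 2 * (α * (α + 1)) := by omega
    nlinarith
  -- divisibility
  have hAinv : ∀ d ∈ A, ∃ x : G, x * g * x⁻¹ = pw g (d : ZMod p) ∧ x • b₁ = b₁ ∧ x • b₃ = b₃ := by
    intro d hd
    obtain ⟨x, hx, hxs⟩ := hAA hd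
    exact ⟨x, hx, hxs b₁ (Or.inl rfl), hxs b₃ (Or.inr rfl)⟩
  have hd1 : Nat.card A ∣ S11 := by
    apply W2pComb.dvd_sum A (fun i => ind G (rep ω) b₁ (pw g i • b₁) b₁)
    · show ind G (rep ω) b₁ (pw g (0 : ZMod p) • b₁) b₁ = 0
      rw [pw_zero, one_smul]
      unfold ind
      rw [if_neg (not_mem_diag ω _)]
    · intro d hd i
      obtain ⟨x, hx, hx1, _⟩ := hAinv d hd
      have h1 := ind_smul (rep ω) b₁ (pw g i • b₁) b₁ x
      rw [conj_pw_smul hg hx, hx1] at h1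
      exact h1
  have hAle : Nat.card A ≤ α * (α + 1) := by
    rw [hS11'] at hd1
    exact Nat.le_of_dvd (by positivity) hd1
  have hAc : Nat.card A = α * (α + 1) := by
    rw [hf] at hcard
    omega
  have hind1 : ∀ x y : Ω, ind G (rep ω) b₁ x y ≤ 1 := by
    intro x y; unfold ind; split_ifs <;> omega
  have hd2 : Nat.card A ∣ ∑ i : ZMod p, (if i = 0 then 0 else ind G (rep ω) b₁ (pw g i • b₃) b₁) := by
    apply W2pComb.dvd_sum A
    · rw [if_pos rfl]
    · intro d hd i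
      obtain ⟨x, hx, hx1, hx3⟩ := hAinv d hd
      by_cases hi : i = 0
      · rw [hi, mul_zero]
      · rw [if_neg hi, if_neg (mul_ne_zero (Units.ne_zero d) hi)]
        have h1 := ind_smul (rep ω) b₁ (pw g i • b₃) b₁ x
        rw [conj_pw_smul hg hx, hx1, hx3] at h1
        exact h1
  have hS21'' : S21 = ind G (rep ω) b₁ b₃ b₁ +
      ∑ i : ZMod p, (if i = 0 then 0 else ind G (rep ω) b₁ (pw g i • b₃) b₁) := by
    rw [hS21, ← Finset.add_sum_erase _ _ (Finset.mem_univ (0 : ZMod p)),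
      ← Finset.add_sum_erase Finset.univ (fun i : ZMod p => if i = 0 then 0 else
        ind G (rep ω) b₁ (pw g i • b₃) b₁) (Finset.mem_univ (0 : ZMod p)), if_pos rfl, zero_add,
      pw_zero, one_smul]
    congr 1
    refine Finset.sum_congr rfl fun i hi => ?_
    rw [if_neg (Finset.ne_of_mem_erase hi)]
  have hα1 : α = 1 := by
    rw [hAc] at hd2
    have h1 := hind1 b₃ b₁
    rw [hS21'] at hS21''
    set X := ∑ i : ZMod p, (if i = 0 then 0 else ind G (rep ω) b₁ (pw g i • b₃) b₁) with hX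
    have h2 : X = 0 := by
      by_contra h3
      have h4 := Nat.le_of_dvd (Nat.pos_of_ne_zero h3) hd2
      nlinarith
    rw [h2, add_zero] at hS21''
    have h5 : α * α ≤ 1 := by rw [hS21'']; exact h1
    nlinarith
  -- α = 1
  subst hα1
  have hf4 : Nat.card hw.D = 4 := by rw [hf]
  have hs1 : ss g b₁ b₃ p ω = 1 := by rw [hs]; rfl
  rw [hf4] at hFs
  have hcR := hw.card_R
  rw [hf4] at hcR
  have hp9 : 9 ≤ p := by omega
  obtain ⟨i, hi⟩ : ∃ i : ZMod p, Fn g b₁ b₃ ω i ≠ 0 := by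
    by_contra hcon
    push Not at hcon
    rw [Finset.sum_eq_zero (fun i _ => hcon i)] at hFs
    omega
  have hi0 : i ≠ 0 := by rintro rfl; exact hi (Fn_zero g b₁ b₃ ω)
  have hi1 : Fn g b₁ b₃ ω i = 1 := by have := hF1 i; omega
  have hsup := W2pComb.supp_eq hw.D (fun i => Fn g b₁ b₃ ω i) (fun d hd j => Fn_inv h hw ω hd j)
    i hi0 hi1 (by rw [hf4]; exact hFs)
  have hpow : ∀ d ∈ hw.D, (d : ZMod p) ^ 4 = 1 := by
    intro d hd
    have h1 : (⟨d, hd⟩ : hw.D) ^ Nat.card hw.D = 1 := pow_card_eq_one'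
    rw [hf4] at h1
    have h2 := congrArg (fun x : hw.D => ((x : (ZMod p)ˣ) : ZMod p)) h1
    exact h2
  have hconv : ∀ u : ZMod p, Fn g b₁ b₃ ω u * Fn g b₁ b₃ ω (i - u) = 0 := by
    intro u
    by_contra hne
    have hu1 : Fn g b₁ b₃ ω u ≠ 0 := fun h => hne (by rw [h, zero_mul])
    have hu2 : Fn g b₁ b₃ ω (i - u) ≠ 0 := fun h => hne (by rw [h, mul_zero])
    obtain ⟨d, hd, hdu⟩ := hsup u hu1
    obtain ⟨d', hd', hdu'⟩ := hsup (i - u) hu2
    have h1 : (d' : ZMod p) = 1 - d := by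
      have h2 : ((d' : ZMod p) - (1 - d)) * i = 0 := by linear_combination -hdu' - hdu
      rcases mul_eq_zero.mp h2 with h3 | h3
      · exact sub_eq_zero.mp h3
      · exact absurd h3 hi0
    have h4 := hpow d hd
    have h5 := hpow d' hd'
    rw [h1] at h5
    have h6 : (1 - 2 * (d : ZMod p)) * (1 - 2 * d + 2 * d ^ 2) = 0 := by
      linear_combination h5 - h4
    rcases mul_eq_zero.mp h6 with h7 | h7
    · have h8 : (15 : ZMod p) = 0 := by
        have h9 : 2 * (d : ZMod p) = 1 := by linear_combination -h7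
        have h10 : (2 * (d : ZMod p)) ^ 4 = 16 := by rw [mul_pow, h4]; norm_num
        rw [h9, one_pow] at h10
        linear_combination -h10
      have h9 : p ∣ 15 := by
        rw [← ZMod.natCast_eq_zero_iff]
        exact_mod_cast h8
      rcases (Nat.Prime.dvd_mul hp.out).mp (show p ∣ 3 * 5 from h9) with h10 | h10
      · have := Nat.le_of_dvd (by norm_num) h10
        omega
      · have := Nat.le_of_dvd (by norm_num) h10
        omega
    · have h8 : (5 : ZMod p) = 0 := by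
        have h9 : 2 * (d : ZMod p) ^ 2 = 2 * d - 1 := by linear_combination h7
        have h10 : (2 * (d : ZMod p) ^ 2) ^ 2 = 4 := by
          rw [mul_pow, ← pow_mul, h4]; norm_num
        rw [h9] at h10
        linear_combination -h10 + 2 * h7
      have h9 : p ∣ 5 := by
        rw [← ZMod.natCast_eq_zero_iff]
        exact_mod_cast h8
      have h10 : p ≤ 5 := Nat.le_of_dvd (by norm_num) h9
      omega
  -- positivity
  have hsq := sq_formula h hw (com_TT ω) hi0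
  rw [sc_ψ h hw, hs1] at hsq
  simp only [FT_eq] at hsq
  have hz : ∑ u : ZMod p, (Fn g b₁ b₃ ω u : ℂ) * (Fn g b₁ b₃ ω (i - u) : ℂ) = 0 := by
    apply Finset.sum_eq_zero
    intro u _
    rw [← Nat.cast_mul, hconv u, Nat.cast_zero]
  rw [hz, hi1, add_zero] at hsq
  have hnat : ∀ x y : Ω, ∃ n : ℕ, ent (TT ω ∘ₗ TT ω) x y = n := by
    intro x y
    refine ⟨∑ z, ind G (rep ω) b₁ z y * ind G (rep ω) b₁ x z, ?_⟩
    rw [ent_comp]
    push_cast
    refine Finset.sum_congr rfl fun z _ => ?_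
    have : ∀ x y, ent (TT ω) x y = ind G (rep ω) b₁ x y := by
      intro x y
      unfold TT ind
      rw [ent_orbOp]
      split_ifs <;> simp
    rw [this, this]
  obtain ⟨n1, hn1⟩ := hnat (pw g i • b₁) b₁
  obtain ⟨n2, hn2⟩ := hnat (pw g i • b₃) b₃
  unfold FT at hsq
  rw [hn1, hn2] at hsq
  have h20 : ((n1 + n2 + 2 : ℕ) : ℂ) = 0 := by
    push_cast
    push_cast at hsq
    linear_combination hsq
  have h21 : n1 + n2 + 2 = 0 := by exact_mod_cast h20
  omega

end Cfsg.Agent.Lib.W2pGeom
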