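import Mathlib.GroupTheory.GroupAction.MultipleTransitivity
import Mathlib.GroupTheory.Sylow
import Mathlib.Tactic
import Cfsg.Agent.Lib.GenerousP

/-!
Wagner's theorem on normal subgroups of triply transitive groups of odd degree (helper12).
-/

set_option autoImplicit false

namespace Cfsg.Agent.Lib.Wagner

open MulAction Cfsg.Agent.Lib.Generous Cfsg.Agent.Lib.GenerousP

variable {α : Type*} [Fintype α] [DecidableEq α]

/-- orbits of the pointwise stabiliser in a normal subgroup have length dividing `n - k`. -/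
theorem card_orbit_dvd (G : Subgroup (Equiv.Perm α)) (N : Subgroup G) [N.Normal] (Γ : Finset α)
    {m : ℕ} (hG : IsMultiplyPretransitive G α m) (hm : m = Γ.card + 1) {c : α} (hc : c ∉ Γ) :
    Nat.card (orbit (PS (N.map G.subtype) Γ) c) ∣ Fintype.card α - Γ.card := by
  have hncard : (Γ : Set α).ncard = Γ.card := Set.ncard_coe_finset Γ
  have hX : IsMultiplyPretransitive (fixingSubgroup G (Γ : Set α))
      (SubMulAction.ofFixingSubgroup G (Γ : Set α)) 1 :=
    SubMulAction.ofFixingSubgroup.isMultiplyPretransitive G (Hn := hG) (Γ : Set α)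
      (by rw [hncard]; exact hm.symm)
  have hX1 : IsPretransitive (fixingSubgroup G (Γ : Set α))
      (SubMulAction.ofFixingSubgroup G (Γ : Set α)) := is_one_pretransitive_iff.mp hX
  let x : SubMulAction.ofFixingSubgroup G (Γ : Set α) := ⟨c, fun h => hc (by simpa using h)⟩
  have hB : IsBlock (fixingSubgroup G (Γ : Set α))
      (orbit (N.subgroupOf (fixingSubgroup G (Γ : Set α))) x) := IsBlock.orbit_of_normal x
  have h1 := hB.ncard_dvd_card ⟨x, mem_orbit_self x⟩
  have h2 : Nat.card (SubMulAction.ofFixingSubgroup G (Γ : Set α)) = Fintype.card α - Γ.card := by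
    rw [show Nat.card (SubMulAction.ofFixingSubgroup G (Γ : Set α)) = ((Γ : Set α)ᶜ).ncard from
      Nat.card_coe_set_eq _, Set.ncard_compl, hncard, Nat.card_eq_fintype_card]
  rw [h2] at h1
  have h3 : Nat.card (orbit (PS (N.map G.subtype) Γ) c) =
      (orbit (N.subgroupOf (fixingSubgroup G (Γ : Set α))) x).ncard := by
    rw [Nat.card_coe_set_eq, ← Set.ncard_image_of_injective _ (Subtype.val_injective)]
    congr 1
    ext b
    constructor
    · rintro ⟨w, hw⟩
      obtain ⟨w0, hw0, hw0'⟩ := w.2.1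
      have hfix : w0 ∈ fixingSubgroup G (Γ : Set α) := by
        rw [mem_fixingSubgroup_iff]
        intro y hy
        show (w0 : Equiv.Perm α) y = y
        have : (w0 : Equiv.Perm α) = (w : Equiv.Perm α) := hw0'
        rw [this]; exact w.2.2 y hy
      refine ⟨(⟨⟨w0, hfix⟩, hw0⟩ : N.subgroupOf (fixingSubgroup G (Γ : Set α))) • x,
        mem_orbit _ _, ?_⟩
      show (w0 : Equiv.Perm α) c = b
      have : (w0 : Equiv.Perm α) = (w : Equiv.Perm α) := hw0'
      rw [this]; exact hw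
    · rintro ⟨y, ⟨w, rfl⟩, hw⟩
      refine ⟨⟨(((w : fixingSubgroup G (Γ : Set α)) : G) : Equiv.Perm α),
        ⟨((w : fixingSubgroup G (Γ : Set α)) : G), w.2, rfl⟩, fun y hy => ?_⟩, hw⟩
      exact (mem_fixingSubgroup_iff G).mp (w : fixingSubgroup G (Γ : Set α)).2 y hy
  rw [h3]; exact h1

/-- In a group of permutations of a set of odd order, if some element swaps `a` and `b`, then some
element swapping `a` and `b` has a fixed point. -/
theorem exists_swap_fix (N : Subgroup (Equiv.Perm α)) (hodd : Odd (Fintype.card α))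
    {g : Equiv.Perm α} (hg : g ∈ N) {a b : α} (hab : g a = b) (hba : g b = a) :
    ∃ t ∈ N, t a = b ∧ t b = a ∧ ∃ c, t c = c := by
  obtain ⟨e, m, hm, hord⟩ := Nat.exists_eq_two_pow_mul_odd (n := orderOf g) (orderOf_pos g).ne'
  obtain ⟨j, rfl⟩ := hm
  have ha : ∀ i : ℕ, (g ^ (2 * i)) a = a := by
    intro i
    induction i with
    | zero => rfl
    | succ i ih => rw [Nat.mul_succ, pow_add, Equiv.Perm.mul_apply, sq, Equiv.Perm.mul_apply, hab,
        hba, ih]
  have hb : ∀ i : ℕ, (g ^ (2 * i)) b = b := by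
    intro i
    induction i with
    | zero => rfl
    | succ i ih => rw [Nat.mul_succ, pow_add, Equiv.Perm.mul_apply, sq, Equiv.Perm.mul_apply, hba,
        hab, ih]
  refine ⟨g ^ (2 * j + 1), N.pow_mem hg _, ?_, ?_, ?_⟩
  · rw [pow_succ, Equiv.Perm.mul_apply, hab, hb]
  · rw [pow_succ, Equiv.Perm.mul_apply, hba, ha]
  · have hord2 : orderOf (g ^ (2 * j + 1)) = 2 ^ e := by
      rw [orderOf_pow_of_dvd (by omega) (Dvd.intro_left _ hord.symm), hord,
        Nat.mul_div_cancel _ (by omega)]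
    have hp : IsPGroup 2 (Subgroup.zpowers (g ^ (2 * j + 1))) := by
      apply IsPGroup.of_card (n := e)
      rw [Nat.card_zpowers, hord2]
    have h1 : ¬ 2 ∣ Nat.card α := by
      rw [Nat.card_eq_fintype_card]
      intro h
      exact (Nat.not_even_iff_odd.mpr hodd) (even_iff_two_dvd.mpr h)
    obtain ⟨c, hc⟩ := hp.nonempty_fixed_point_of_prime_not_dvd_card α h1
    exact ⟨c, hc ⟨_, Subgroup.mem_zpowers _⟩⟩

theorem main (G : Subgroup (Equiv.Perm α)) (hodd : Odd (Fintype.card α))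
    (h5 : 5 ≤ Fintype.card α) (hG : IsMultiplyPretransitive G α 3) (N : Subgroup G) [N.Normal]
    (hN2 : IsMultiplyPretransitive N α 2) : IsMultiplyPretransitive N α 3 := by
  classical
  -- N' inside Perm α
  set M : Subgroup (Equiv.Perm α) := N.map G.subtype with hM
  have hmemM : ∀ {u : Equiv.Perm α} (hu : u ∈ G), (⟨u, hu⟩ : G) ∈ N → u ∈ M :=
    fun hu h => ⟨⟨_, hu⟩, h, rfl⟩
  have hMG : M ≤ G := by rintro _ ⟨u, _, rfl⟩; exact u.2
  have hMconj : ∀ g ∈ G, ∀ u ∈ M, g * u * g⁻¹ ∈ M := by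
    rintro g hg _ ⟨u, hu, rfl⟩
    exact ⟨⟨g, hg⟩ * u * ⟨g, hg⟩⁻¹, Subgroup.Normal.conj_mem inferInstance u hu _, rfl⟩
  have h3 : ∀ {a b c x y z : α}, a ≠ b → a ≠ c → b ≠ c → x ≠ y → x ≠ z → y ≠ z →
      ∃ g ∈ G, g a = x ∧ g b = y ∧ g c = z := by
    intro a b c x y z hab hac hbc hxy hxz hyz
    have inj : ∀ {a b c : α}, a ≠ b → a ≠ c → b ≠ c → Function.Injective ![a, b, c] := by
      intro a b c hab hac hbc i j hij
      fin_cases i <;> fin_cases j <;> simp_all
    obtain ⟨g, hg⟩ := hG.exists_smul_eq ⟨![a, b, c], inj hab hac hbc⟩ ⟨![x, y, z], inj hxy hxz hyz⟩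
    refine ⟨g, g.2, ?_, ?_, ?_⟩
    · exact congrFun (congrArg DFunLike.coe hg) 0
    · exact congrFun (congrArg DFunLike.coe hg) 1
    · exact congrFun (congrArg DFunLike.coe hg) 2
  have h2 : ∀ {a b x y : α}, a ≠ b → x ≠ y → ∃ g ∈ M, g a = x ∧ g b = y := by
    intro a b x y hab hxy
    obtain ⟨g, hg1, hg2⟩ := is_two_pretransitive_iff.mp hN2 hab hxy
    exact ⟨((g : G) : Equiv.Perm α), ⟨g, g.2, rfl⟩, hg1, hg2⟩
  -- every transposition of a 3-set is induced
  have htr : ∀ {x y z : α}, x ≠ y → x ≠ z → y ≠ z → ∃ g ∈ M, g x = y ∧ g y = x ∧ g z = z := by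
    intro x y z hxy hxz hyz
    obtain ⟨g, hg, hgx, hgy⟩ := h2 hxy hxy.symm
    obtain ⟨t, ht, htx, hty, c, hc⟩ := exists_swap_fix M hodd hg hgx hgy
    have hcx : x ≠ c := by rintro rfl; exact hxy (hc.symm.trans htx)
    have hcy : y ≠ c := by rintro rfl; exact hxy (hty.symm.trans hc)
    obtain ⟨k, hk, hkx, hky, hkc⟩ := h3 hxy hcx hcy hxy hxz hyz
    refine ⟨k * t * k⁻¹, hMconj k hk t ht, ?_, ?_, ?_⟩
    · have : k⁻¹ x = x := by rw [Equiv.Perm.inv_eq_iff_eq, hkx]
      rw [Equiv.Perm.mul_apply, Equiv.Perm.mul_apply, this, htx, hky]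
    · have : k⁻¹ y = y := by rw [Equiv.Perm.inv_eq_iff_eq, hky]
      rw [Equiv.Perm.mul_apply, Equiv.Perm.mul_apply, this, hty, hkx]
    · have : k⁻¹ z = c := by rw [Equiv.Perm.inv_eq_iff_eq, hkc]
      rw [Equiv.Perm.mul_apply, Equiv.Perm.mul_apply, this, hc, hkc]
  have hgen : Gen M 2 := by
    intro s hs σ
    have hswap : ∀ u v : s, ∃ g ∈ M, ∀ x : s, g (x : α) = Equiv.swap u v x := by
      intro u v
      by_cases huv : u = v
      · exact ⟨1, M.one_mem, fun x => by rw [huv, Equiv.swap_self]; rfl⟩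
      have huv' : (u : α) ≠ v := fun h => huv (Subtype.ext h)
      obtain ⟨z, hz⟩ : ∃ z, s.erase u = {↑v, z} ∧ (v : α) ≠ z := by
        have h1 : (s.erase u).card = 2 := by rw [Finset.card_erase_of_mem u.2, hs]
        obtain ⟨x, y, hxy, hxy'⟩ := Finset.card_eq_two.mp h1
        have hv : (v : α) ∈ s.erase u := Finset.mem_erase.mpr ⟨huv'.symm, v.2⟩
        rw [hxy', Finset.mem_insert, Finset.mem_singleton] at hv
        rcases hv with hv | hv
        · exact ⟨y, by rw [hxy', hv], by rw [hv]; exact hxy⟩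
        · exact ⟨x, by rw [hxy', hv, Finset.pair_comm], by rw [hv]; exact hxy.symm⟩
      have hzs : z ∈ s.erase u := by rw [hz.1]; simp
      have huz : (u : α) ≠ z := fun h => (Finset.mem_erase.mp hzs).1 h.symm
      obtain ⟨g, hg, hgu, hgv, hgz⟩ := htr huv' huz hz.2
      refine ⟨g, hg, ?_⟩
      intro x
      by_cases hxu : x = u
      · rw [hxu, Equiv.swap_apply_left, hgu]
      by_cases hxv : x = v
      · rw [hxv, Equiv.swap_apply_right, hgv]
      have hx : (x : α) ∈ s.erase u := Finset.mem_erase.mpr ⟨fun h => hxu (Subtype.ext h), x.2⟩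
      rw [hz.1, Finset.mem_insert, Finset.mem_singleton] at hx
      rcases hx with hx | hx
      · exact absurd (Subtype.ext hx) hxv
      · rw [Equiv.swap_apply_of_ne_of_ne hxu hxv, hx, hgz]
    induction σ using Equiv.Perm.swap_induction_on with
    | one => exact ⟨1, M.one_mem, fun x => rfl⟩
    | swap_mul f u v _ ih =>
      obtain ⟨g, hg, hgx⟩ := ih
      obtain ⟨k, hk, hkx⟩ := hswap u v
      refine ⟨k * g, M.mul_mem hk hg, fun x => ?_⟩
      rw [Equiv.Perm.mul_apply, hgx, hkx, Equiv.Perm.mul_apply]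
  -- stabiliser of two points is transitive on the rest
  have hst : ∀ {a b c c' : α}, a ≠ b → a ≠ c → b ≠ c → a ≠ c' → b ≠ c' →
      ∃ g ∈ M, g a = a ∧ g b = b ∧ g c = c' := by
    intro a b c c' hab hac hbc hac' hbc'
    have hcard : ({a, b} : Finset α).card = 2 := Finset.card_pair hab
    have hno : ∀ {z : α}, a ≠ z → b ≠ z → z ∉ ({a, b} : Finset α) := by
      intro z h1 h2 h
      rw [Finset.mem_insert, Finset.mem_singleton] at h
      rcases h with h | h
      · exact h1 h.symm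
      · exact h2 h.symm
    by_contra hcon
    have hnotmem : ∀ {z z' : α}, (¬ ∃ g ∈ M, g a = a ∧ g b = b ∧ g z = z') →
        z' ∉ orbit (PS M {a, b}) z := by
      rintro z z' h ⟨w, hw⟩
      apply h
      exact ⟨w, w.2.1, w.2.2 a (by simp), w.2.2 b (by simp), hw⟩
    have hcon' : ¬ ∃ g ∈ M, g a = a ∧ g b = b ∧ g c' = c := by
      rintro ⟨g, hg, hga, hgb, hgc⟩
      apply hcon
      refine ⟨g⁻¹, M.inv_mem hg, ?_, ?_, ?_⟩
      · rw [Equiv.Perm.inv_eq_iff_eq, hga]
      · rw [Equiv.Perm.inv_eq_iff_eq, hgb]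
      · rw [Equiv.Perm.inv_eq_iff_eq, hgc]
    obtain ⟨i, hi⟩ := GenerousP.main (G := M) (k := 2) (by omega) hgen Nat.prime_two le_rfl
      (Γ := {a, b}) hcard ![c, c'] (by
        intro i
        fin_cases i
        · exact hno hac hbc
        · exact hno hac' hbc') (by
        intro i j hij
        fin_cases i <;> fin_cases j
        · exact absurd rfl hij
        · exact hnotmem hcon
        · exact hnotmem hcon'
        · exact absurd rfl hij)
    have hdvd : ∀ {z : α}, a ≠ z → b ≠ z →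
        Nat.card (orbit (PS M {a, b}) z) ∣ Fintype.card α - 2 := by
      intro z h1 h2
      have := card_orbit_dvd G N {a, b} hG (by rw [hcard]) (hno h1 h2)
      rwa [hcard] at this
    have h2dvd : 2 ∣ Fintype.card α - 2 := by
      refine hi.trans ?_
      fin_cases i
      · exact hdvd hac hbc
      · exact hdvd hac' hbc'
    obtain ⟨j, hj⟩ := hodd
    omega
  constructor
  intro x y
  have hx : ∀ {i j : Fin 3}, i ≠ j → x i ≠ x j := fun h h' => h (x.injective h')
  have hy : ∀ {i j : Fin 3}, i ≠ j → y i ≠ y j := fun h h' => h (y.injective h')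
  obtain ⟨g, hg, hg0, hg1⟩ := h2 (hx (show (0 : Fin 3) ≠ 1 by decide))
    (hy (show (0 : Fin 3) ≠ 1 by decide))
  have e0 : y 0 ≠ g (x 2) := by
    rw [← hg0]; intro h; exact hx (show (0 : Fin 3) ≠ 2 by decide) (g.injective h)
  have e1 : y 1 ≠ g (x 2) := by
    rw [← hg1]; intro h; exact hx (show (1 : Fin 3) ≠ 2 by decide) (g.injective h)
  obtain ⟨k, hk, hk0, hk1, hk2⟩ := hst (hy (show (0 : Fin 3) ≠ 1 by decide)) e0 e1
    (hy (show (0 : Fin 3) ≠ 2 by decide)) (hy (show (1 : Fin 3) ≠ 2 by decide))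
  obtain ⟨w, hw, hw'⟩ := M.mul_mem hk hg
  refine ⟨⟨w, hw⟩, ?_⟩
  ext i
  show (w : Equiv.Perm α) (x i) = y i
  have hw'' : (w : Equiv.Perm α) = k * g := hw'
  rw [hw'', Equiv.Perm.mul_apply]
  fin_cases i
  · show k (g (x 0)) = y 0
    rw [hg0, hk0]
  · show k (g (x 1)) = y 1
    rw [hg1, hk1]
  · exact hk2

end Cfsg.Agent.Lib.Wagner
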