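import Mathlib
import Cfsg.Agent.Lib.WidthOne
import Cfsg.Agent.Lib.CoprimeAction2
import Cfsg.Agent.Lib.ZStar
import Cfsg.Agent.Lib.PCoreTools

/-!
helper27: classes of involutions all of whose products have `p`-power order (S1618), from the
Brauer-Suzuki theorem (explicit hypothesis).
-/
set_option autoImplicit false

namespace Cfsg.Agent.Lib.WidthP

open Cfsg Subgroup

universe u

variable {G : Type u} [Group G] {D : Set G}

theorem commutator_le_p_group [Finite G] (p : ℕ) [hp0 : Fact p.Prime] (h2 : ∀ d ∈ D, orderOf d = 2)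
    (hprod : ∀ x ∈ D, ∀ y ∈ D, x ≠ y → ∃ k : ℕ, orderOf (x * y) = p ^ k)
    (htr : ∀ a ∈ D, ∀ b ∈ D, ∃ g : G, g * a * g⁻¹ = b) (hgen : Subgroup.closure D = ⊤)
    (hc : ∀ g : G, ∀ d ∈ D, g * d * g⁻¹ ∈ D) {a : G} (ha : a ∈ D)
    (K : Subgroup G) [hKn : K.Normal] (hK : Odd (Nat.card K)) (hz : ∀ g : G, g * a * g⁻¹ * a⁻¹ ∈ K) :
    ∃ P : Subgroup G, P.Normal ∧ IsPGroup p P ∧ (∀ g : G, g ∈ P ∨ g * a ∈ P) ∧ commutator G ≤ P := by
  have haa : a * a = 1 := by
    have := pow_orderOf_eq_one a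
    rw [h2 a ha, pow_two] at this
    exact this
  have hai : a⁻¹ = a := inv_eq_of_mul_eq_one_left haa
  have ho : orderOf a = 2 := h2 a ha
  have hAK : zpowers a ≤ normalizer (K : Set G) := by
    rw [Subgroup.normalizer_eq_top]; exact le_top
  have hcop : (Nat.card (zpowers a)).Coprime (Nat.card K) := by
    rw [Nat.card_zpowers, ho]
    exact (Nat.coprime_two_left).mpr hK
  have hsolv : Group.IsSolvable (zpowers a) ∨ Group.IsSolvable K := by
    left
    infer_instance
  set C : Subgroup G := K ⊓ centralizer {a} with hC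
  have hprime : ∀ q : ℕ, q.Prime → q ∣ C.relIndex K → q = p := by
    intro q hq hdvd
    by_contra hp3
    have : Fact q.Prime := ⟨hq⟩
    obtain ⟨P, hPK, hPp, hPi, hPA⟩ := CoprimeAction.exists_invariant_sylow hAK hcop hsolv q
    have hPC : P ≤ C := by
      intro x hx
      refine ⟨hPK hx, mem_centralizer_singleton_iff.mpr ?_⟩
      have haN : a ∈ normalizer (P : Set G) := hPA (mem_zpowers a)
      have hy : x * (a * x⁻¹ * a⁻¹) ∈ P :=
        mul_mem hx ((mem_normalizer_iff.mp haN _).mp (inv_mem hx))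
      set y := x * (a * x⁻¹ * a⁻¹) with hydef
      have hy' : y = (x * a * x⁻¹) * a := by rw [hydef, hai]; simp only [mul_assoc]
      have hxa : x * a * x⁻¹ ∈ D := hc x a ha
      have hy1 : y = 1 := by
        by_cases heq : x * a * x⁻¹ = a
        · rw [hy', heq, haa]
        · obtain ⟨m, hm⟩ := hprod _ hxa a ha heq
          rw [← hy'] at hm
          obtain ⟨k, hk⟩ := hPp ⟨y, hy⟩
          have hk' : y ^ (q ^ k) = 1 := congrArg Subtype.val hk
          have hcop' : Nat.Coprime (p ^ m) (q ^ k) :=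
            Nat.Coprime.pow m k ((Nat.coprime_primes hp0.out hq).mpr (Ne.symm hp3))
          have h' := orderOf_dvd_of_pow_eq_one hk'
          have h'' := Nat.eq_one_of_dvd_coprimes hcop' (hm ▸ dvd_rfl) h'
          exact orderOf_eq_one_iff.mp h''
      rw [hy'] at hy1
      have h5 := eq_inv_of_mul_eq_one_left hy1
      rw [hai] at h5
      have : x * a = a * x := by
        calc x * a = (x * a * x⁻¹) * x := by group
          _ = a * x := by rw [h5]
      exact this
    have h6 : P.relIndex K = P.relIndex C * C.relIndex K :=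
      (Subgroup.relIndex_mul_relIndex P C K hPC inf_le_left).symm
    apply hPi
    rw [h6]
    exact Dvd.dvd.mul_left hdvd _
  obtain ⟨P, hPK, hPp, hPi, hPA⟩ := CoprimeAction.exists_invariant_sylow hAK hcop hsolv p
  have hcopi : (P.relIndex K).Coprime (C.relIndex K) := by
    by_contra h
    obtain ⟨q, hq, hq1, hq2⟩ := Nat.Prime.not_coprime_iff_dvd.mp h
    have := hprime q hq hq2
    subst this
    exact hPi hq1
  -- every member of `D` is conjugate to `a` under `P`
  have hDP : ∀ d ∈ D, ∃ x ∈ P, x * a * x⁻¹ = d := by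
    intro d hd
    obtain ⟨g, hg⟩ := htr a ha d hd
    have hmem := WidthOne.mem_or (N := K) hgen haa (by
      intro d' hd'
      obtain ⟨g', hg'⟩ := htr a ha d' hd'
      have := hz g'
      rwa [hg', hai] at this) g
    have hk : ∃ k ∈ K, k * a * k⁻¹ = d := by
      rcases hmem with h | h
      · exact ⟨g, h, hg⟩
      · refine ⟨g * a, h, ?_⟩
        rw [← hg]; group
    obtain ⟨k, hk, hkd⟩ := hk
    obtain ⟨x, hx, c, hcC, hxc⟩ := Cfsg.Agent.Lib.CoprimeAction2.exists_mul_of_coprime_relIndex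
      (H := C) (P := P) (K := K) inf_le_left hPK hcopi hk
    refine ⟨x, hx, ?_⟩
    rw [← hkd, ← hxc]
    have hca : c * a = a * c := mem_centralizer_singleton_iff.mp hcC.2
    calc x * a * x⁻¹ = x * (a * c) * c⁻¹ * x⁻¹ := by group
      _ = x * (c * a) * c⁻¹ * x⁻¹ := by rw [hca]
      _ = (x * c) * a * (x * c)⁻¹ := by group
  have haN : a ∈ normalizer (P : Set G) := hPA (mem_zpowers a)
  have hDN : ∀ d ∈ D, d ∈ normalizer (P : Set G) := by
    intro d hd
    obtain ⟨x, hx, rfl⟩ := hDP d hd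
    exact mul_mem (mul_mem (le_normalizer hx) haN) (inv_mem (le_normalizer hx))
  have htop : normalizer (P : Set G) = ⊤ := by
    rw [eq_top_iff, ← hgen, closure_le]
    exact hDN
  have hPn : P.Normal := normalizer_eq_top_iff.mp htop
  have hPmem := WidthOne.mem_or (N := P) hgen haa (by
    intro d hd
    obtain ⟨x, hx, rfl⟩ := hDP d hd
    have h7 : a * x⁻¹ * a⁻¹ ∈ P := (mem_normalizer_iff.mp haN _).mp (inv_mem hx)
    have : x * a * x⁻¹ * a = x * (a * x⁻¹ * a⁻¹) := by rw [hai]; simp only [mul_assoc]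
    rw [this]
    exact mul_mem hx h7)
  exact ⟨P, hPn, hPp, hPmem, WidthOne.commutator_le_of_mem_or P hPmem haa⟩

/-- S1618 from the Brauer-Suzuki theorem. -/
theorem nilpotent_commutator (BS : ZStar.BrauerSuzukiStatement.{u}) [Finite G] (p : ℕ) (hp : p.Prime)
    (hodd : p ≠ 2) (hinv : ∀ d ∈ D, orderOf d = 2) (hconj : ∃ d ∈ D, D = conjugatesOf d)
    (hgen : Subgroup.closure D = ⊤)
    (hprod : ∀ x ∈ D, ∀ y ∈ D, x ≠ y → ∃ k : ℕ, orderOf (x * y) = p ^ k) :
    Group.IsNilpotent ↥(commutator G) := by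
  have : Fact p.Prime := ⟨hp⟩
  obtain ⟨a, ha, hDa⟩ := hconj
  have hc : ∀ g : G, ∀ d ∈ D, g * d * g⁻¹ ∈ D := by
    intro g d hd
    rw [hDa] at hd ⊢
    have hd' : IsConj a d := hd
    exact hd'.trans (isConj_iff.2 ⟨g, rfl⟩)
  have htr : ∀ a ∈ D, ∀ b ∈ D, ∃ g : G, g * a * g⁻¹ = b := by
    intro x hx y hy
    rw [hDa] at hx hy
    have hx' : IsConj a x := hx
    have hy' : IsConj a y := hy
    exact isConj_iff.1 (hx'.symm.trans hy')
  have haa : a * a = 1 := by
    have := pow_orderOf_eq_one a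
    rw [hinv a ha, pow_two] at this
    exact this
  have hpo : Odd p := hp.odd_of_ne_two hodd
  have hiso : ZStar.OddIso a := by
    intro g
    by_cases h : a = g * a * g⁻¹
    · rw [← h, haa, orderOf_one]; exact odd_one
    · obtain ⟨k, hk⟩ := hprod a ha _ (hc g a ha) h
      rw [hk]
      exact hpo.pow
  have hZ := ZStar.inZStar_of_oddIso BS (hinv a ha) hiso
  have hKn : (pPrimeCore 2 G).Normal := PCoreTools.pPrimeCore_normal' 2 G
  obtain ⟨P, hPn, hPp, _, hle⟩ := commutator_le_p_group p hinv hprod htr hgen hc ha (pPrimeCore 2 G)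
    (Nat.coprime_two_right.1 (PCoreTools.coprime_card_pPrimeCore 2)) hZ
  exact (hPp.to_le hle).isNilpotent

end Cfsg.Agent.Lib.WidthP
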