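import Mathlib
import Cfsg.Agent.Lib.MFreePerm

set_option autoImplicit false

/-!
# Wielandt: rank three groups with degrees `1, m-1, m` (helper12)
-/

namespace Cfsg.Agent.Lib.Wielandt3

open scoped ComplexConjugate
open Representation Module Cfsg.Agent.Lib.CharBasic Cfsg.Agent.Lib.PermChar
  Cfsg.Agent.Lib.PermChar2 Cfsg.Agent.Lib.PermChar3 Cfsg.Agent.Lib.PermChar4 Cfsg.Agent.Lib.MFree
  Cfsg.Agent.Lib.MFreePerm

universe u v w

/-- the arithmetic -/
theorem arith {k l s e m : ℤ} (hm : 2 ≤ m) (hk : k = s + m * e) (hkl : k + l = 2 * m - 1)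
    (hk1 : 2 ≤ k) (hl1 : 2 ≤ l)
    (h2 : 2 * m * k = k ^ 2 + (m - 1) * s ^ 2 + m * (-e - s) ^ 2) :
    ∃ a : ℕ, 0 < a ∧ m = 2 * (a : ℤ) ^ 2 + 2 * a + 1 ∧
      ((k = a * (2 * a + 1) ∧ l = (a + 1) * (2 * a + 1)) ∨
       (l = a * (2 * a + 1) ∧ k = (a + 1) * (2 * a + 1))) := by
  have h3 : m * (m * e * (e - 2) + 2 * s ^ 2 + (4 * e - 2) * s + e ^ 2) = 0 := by
    rw [hk] at h2
    linear_combination -h2
  have h4 : m * e * (e - 2) + 2 * s ^ 2 + (4 * e - 2) * s + e ^ 2 = 0 := by
    rcases mul_eq_zero.mp h3 with h | h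
    · omega
    · exact h
  -- discriminant
  have h5 : (2 * s + 2 * e - 1) ^ 2 = 1 + 2 * (e * (e - 2)) * (1 - m) := by
    linear_combination 2 * h4
  have h6 : e * (e - 2) ≤ 0 := by
    by_contra hcon
    push Not at hcon
    have : (0 : ℤ) ≤ (2 * s + 2 * e - 1) ^ 2 := sq_nonneg _
    nlinarith
  have he : e = 0 ∨ e = 1 ∨ e = 2 := by
    have h7 : 0 ≤ e := by
      by_contra hc
      push Not at hc
      nlinarith
    have h8 : e ≤ 2 := by
      by_contra hc
      push Not at hc
      nlinarith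
    omega
  rcases he with rfl | rfl | rfl
  · exfalso
    have h7' : 2 * (s * (s - 1)) = 0 := by linear_combination h4
    have h7 : s * (s - 1) = 0 := (mul_eq_zero.mp h7').resolve_left (by norm_num)
    rcases mul_eq_zero.mp h7 with h | h
    · rw [hk, h] at hk1; omega
    · have : s = 1 := by omega
      rw [hk, this] at hk1; omega
  · have h7 : m = 2 * s ^ 2 + 2 * s + 1 := by linear_combination -h4
    rcases le_or_gt 0 s with hs | hs
    · refine ⟨s.toNat, ?_, ?_, Or.inr ⟨?_, ?_⟩⟩
      · rcases Nat.eq_zero_or_pos s.toNat with h | h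
        · have : s = 0 := by omega
          rw [this] at hk h7
          exfalso; omega
        · exact h
      · rw [Int.toNat_of_nonneg hs]; exact h7
      · rw [Int.toNat_of_nonneg hs]
        have : l = 2 * m - 1 - k := by omega
        rw [this, hk, h7]; ring
      · rw [Int.toNat_of_nonneg hs, hk, h7]; ring
    · have hs' : 0 ≤ -1 - s := by omega
      refine ⟨(-1 - s).toNat, ?_, ?_, Or.inl ⟨?_, ?_⟩⟩
      · rcases Nat.eq_zero_or_pos (-1 - s).toNat with h | h
        · have : s = -1 := by omega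
          rw [this] at hk h7
          exfalso; omega
        · exact h
      · rw [Int.toNat_of_nonneg hs', h7]; ring
      · rw [Int.toNat_of_nonneg hs', hk, h7]; ring
      · rw [Int.toNat_of_nonneg hs']
        have : l = 2 * m - 1 - k := by omega
        rw [this, hk, h7]; ring
  · exfalso
    have h7' : 2 * ((s + 1) * (s + 2)) = 0 := by linear_combination h4
    have h7 : (s + 1) * (s + 2) = 0 := (mul_eq_zero.mp h7').resolve_left (by norm_num)
    rcases mul_eq_zero.mp h7 with h | h
    · have : s = -1 := by omega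
      rw [this] at hk; omega
    · have : s = -2 := by omega
      rw [this] at hk; omega

variable {G : Type u} [Group G] [Fintype G] {Ω : Type v} [Fintype Ω] [MulAction G Ω]

theorem main [MulAction.IsPreprimitive G Ω] {m : ℕ}
    (hm : Fintype.card Ω = 2 * m) (a₀ : Ω)
    (hrank : Nat.card (MulAction.orbitRel.Quotient (MulAction.stabilizer G a₀) Ω) = 3)
    (χ₁ χ₂ : G → ℂ) (h₁ : Cfsg.IsIrrCharacter G χ₁) (h₂ : Cfsg.IsIrrCharacter G χ₂)
    (hπ : (Cfsg.permRep ℂ G Ω).character = fun g => 1 + χ₁ g + χ₂ g)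
    (hd₁ : χ₁ 1 = (m : ℂ) - 1) (hd₂ : χ₂ 1 = m) :
    ∃ a : ℕ, 0 < a ∧ m = 2 * a ^ 2 + 2 * a + 1 ∧ ∀ b : Ω, b ≠ a₀ →
      Nat.card (MulAction.orbit (MulAction.stabilizer G a₀) b) = a * (2 * a + 1) ∨
      Nat.card (MulAction.orbit (MulAction.stabilizer G a₀) b) = (a + 1) * (2 * a + 1) := by
  classical
  have hne : Nonempty Ω := ⟨a₀⟩
  set ρ := Cfsg.permRep ℂ G Ω with hρ
  have hπ' : ρ.character = 1 + χ₁ + χ₂ := by rw [hπ]; rfl
  have h12 : χ₁ ≠ χ₂ := by
    intro h
    rw [h, hd₂] at hd₁
    have : (m : ℂ) - (m - 1) = 0 := by rw [← hd₁]; ring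
    norm_num at this
  have hone : classInner ρ.character 1 = 1 := classInner_one
  have hcl : ∀ φ : G → ℂ, IsIrrCharacter G φ → classInner ρ.character φ =
      (if φ = 1 then 1 else 0) + (if φ = χ₁ then 1 else 0) + (if φ = χ₂ then 1 else 0) := by
    intro φ hφ
    rw [hπ', classInner_add_left, classInner_add_left]
    have h1 : ∀ ψ : G → ℂ, IsIrrCharacter G ψ → classInner ψ φ = if φ = ψ then 1 else 0 := by
      intro ψ hψ
      split_ifs with h
      · rw [h, hψ.classInner_self]
      · exact hψ.classInner_eq_zero hφ (fun h' => h h'.symm)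
    rw [h1 _ isIrrCharacter_one, h1 _ h₁, h1 _ h₂]
  have hχ1 : (1 : G → ℂ) ≠ χ₁ ∧ (1 : G → ℂ) ≠ χ₂ := by
    have h3 := hcl 1 isIrrCharacter_one
    rw [hone, if_pos rfl] at h3
    constructor
    · intro h
      rw [if_pos h, if_neg (by rw [h]; exact h12)] at h3
      norm_num at h3
    · intro h
      rw [if_pos h, if_neg (by rw [h]; exact h12.symm)] at h3
      norm_num at h3
  have hcl1 : classInner ρ.character χ₁ = 1 := by
    rw [hcl _ h₁, if_neg hχ1.1.symm, if_pos rfl, if_neg h12]; norm_num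
  have hcl2 : classInner ρ.character χ₂ = 1 := by
    rw [hcl _ h₂, if_neg hχ1.2.symm, if_neg h12.symm, if_pos rfl]; norm_num
  have hmem : ∀ φ : G → ℂ, IsIrrCharacter G φ → classInner ρ.character φ ≠ 0 →
      φ = 1 ∨ φ = χ₁ ∨ φ = χ₂ := by
    intro φ hφ h0
    by_contra hcon
    push Not at hcon
    apply h0
    rw [hcl _ hφ, if_neg hcon.1, if_neg hcon.2.1, if_neg hcon.2.2]; norm_num
  have hmf : MF ρ := by
    intro φ hφ
    by_cases h0 : classInner ρ.character φ = 0
    · exact Or.inl h0
    · right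
      rcases hmem φ hφ h0 with h | h | h
      · rw [h, hone]
      · rw [h, hcl1]
      · rw [h, hcl2]
  -- reality
  have hconj : ∀ φ : G → ℂ, IsIrrCharacter G φ → classInner ρ.character φ ≠ 0 →
      ∀ g, conj (φ g) = φ g := by
    intro φ hφ h0
    have h1 : classInner ρ.character (fun g => conj (φ g)) ≠ 0 := by
      have h2 : ρ.character = fun g => conj (ρ.character g) := by
        ext g
        rw [permRep_character, Complex.conj_natCast]
      rw [h2, classInner_conj_conj, ← conj_classInner, Ne, map_eq_zero]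
      exact h0
    have h2 := hmem _ hφ.conj h1
    have hdeg : ∀ ψ : G → ℂ, (ψ = fun g => conj (φ g)) → ψ 1 = φ 1 := by
      intro ψ hψ
      obtain ⟨d, _, hd⟩ := hφ.exists_degree
      rw [hψ]
      show conj (φ 1) = φ 1
      rw [hd, Complex.conj_natCast]
    rcases hmem φ hφ h0 with h | h | h
    · intro g; rw [h]; simp
    · rcases h2 with h3 | h3 | h3
      · exfalso
        have h4 : φ = 1 := by
          ext g
          have := congrFun h3 g
          have h5 : conj (conj (φ g)) = conj ((1 : G → ℂ) g) := congrArg conj this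
          rw [Complex.conj_conj] at h5
          rw [h5]; simp
        exact hχ1.1 (by rw [← h, h4])
      · intro g; have := congrFun h3 g; rw [h]; rw [h] at this; exact this
      · exfalso
        have := hdeg χ₂ h3.symm
        rw [h, hd₂, hd₁] at this
        have : (m : ℂ) - (m - 1) = 0 := by rw [← this]; ring
        norm_num at this
    · rcases h2 with h3 | h3 | h3
      · exfalso
        have h4 : φ = 1 := by
          ext g
          have := congrFun h3 g
          have h5 : conj (conj (φ g)) = conj ((1 : G → ℂ) g) := congrArg conj this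
          rw [Complex.conj_conj] at h5
          rw [h5]; simp
        exact hχ1.2 (by rw [← h, h4])
      · exfalso
        have := hdeg χ₁ h3.symm
        rw [h, hd₂, hd₁] at this
        have : (m : ℂ) - (m - 1) = 0 := by rw [this]; ring
        norm_num at this
      · intro g; have := congrFun h3 g; rw [h]; rw [h] at this; exact this
  have hsp : ∀ a b : Ω, ∃ g : G, g • a = b ∧ g • b = a :=
    self_paired_iff.mpr (fun χ hχ h0 => ⟨(hmf χ hχ).resolve_left h0, hconj χ hχ h0⟩)
  -- sizes
  have hfin : Finite (MulAction.orbitRel.Quotient (MulAction.stabilizer G a₀) Ω) :=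
    Quotient.finite _
  let _ : Fintype (MulAction.orbitRel.Quotient (MulAction.stabilizer G a₀) Ω) := Fintype.ofFinite _
  let cl : Ω → MulAction.orbitRel.Quotient (MulAction.stabilizer G a₀) Ω := Quotient.mk''
  let sz : MulAction.orbitRel.Quotient (MulAction.stabilizer G a₀) Ω → ℕ := fun ω =>
    Nat.card (MulAction.orbitRel.Quotient.orbit ω)
  have hs : ∀ b : Ω, sz (cl b) = Nat.card (MulAction.orbit (MulAction.stabilizer G a₀) b) := by
    intro b
    show Nat.card (MulAction.orbitRel.Quotient.orbit _) = _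
    rw [MulAction.orbitRel.Quotient.orbit_mk]
  have hsum : ∑ ω, sz ω = Fintype.card Ω := by
    have h := Nat.card_congr (MulAction.selfEquivSigmaOrbits' (MulAction.stabilizer G a₀) Ω)
    rw [Nat.card_sigma, Nat.card_eq_fintype_card] at h
    exact h.symm
  have hs0 : sz (cl a₀) = 1 := by
    rw [hs]
    have : MulAction.orbit (MulAction.stabilizer G a₀) a₀ = {a₀} := by
      ext x
      constructor
      · rintro ⟨g, rfl⟩; exact g.2
      · intro h; rw [Set.mem_singleton_iff.mp h]; exact MulAction.mem_orbit_self _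
    rw [this]; simp
  have hcl0 : ∀ b, b ≠ a₀ → cl b ≠ cl a₀ := by
    intro b hb h
    obtain ⟨g, hg⟩ := Quotient.eq''.mp h
    have hg' : g • a₀ = b := hg
    exact hb (hg'.symm.trans g.2)
  have hnotone : ∀ b, b ≠ a₀ → 2 ≤ Nat.card (MulAction.orbit (MulAction.stabilizer G a₀) b) := by
    intro b hb
    have hpos : 0 < Nat.card (MulAction.orbit (MulAction.stabilizer G a₀) b) := by
      have : Nonempty (MulAction.orbit (MulAction.stabilizer G a₀) b) :=
        ⟨⟨b, MulAction.mem_orbit_self _⟩⟩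
      exact Nat.card_pos
    by_contra hcon
    have h1 : Nat.card (MulAction.orbit (MulAction.stabilizer G a₀) b) = 1 := by omega
    have h2 := subdegree_ne_one a₀ b hb h1
    have h3 : ∀ ω, sz ω = 1 := fun ω => Quotient.inductionOn' ω (fun x => by
      show sz (cl x) = 1
      rw [hs, h2])
    rw [Finset.sum_congr rfl (fun ω _ => h3 ω), Finset.sum_const, Finset.card_univ,
      ← Nat.card_eq_fintype_card, hrank, hm] at hsum
    simp at hsum
    omega
  -- main part
  have key : ∀ b c : Ω, b ≠ a₀ → c ≠ a₀ → cl b ≠ cl c → ∃ a : ℕ, 0 < a ∧ (m : ℤ) = 2 * (a : ℤ) ^ 2 + 2 * a + 1 ∧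
      (((Nat.card (MulAction.orbit (MulAction.stabilizer G a₀) b) : ℤ) = a * (2 * a + 1) ∧
        (Nat.card (MulAction.orbit (MulAction.stabilizer G a₀) c) : ℤ) = (a + 1) * (2 * a + 1)) ∨
       ((Nat.card (MulAction.orbit (MulAction.stabilizer G a₀) c) : ℤ) = a * (2 * a + 1) ∧
        (Nat.card (MulAction.orbit (MulAction.stabilizer G a₀) b) : ℤ) = (a + 1) * (2 * a + 1))) := by
    intro b c hb hc hbc
    set k := Nat.card (MulAction.orbit (MulAction.stabilizer G a₀) b) with hk
    set l := Nat.card (MulAction.orbit (MulAction.stabilizer G a₀) c) with hl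
    have hkl : 1 + k + l = 2 * m := by
      have h1 : (Finset.univ : Finset (MulAction.orbitRel.Quotient (MulAction.stabilizer G a₀) Ω)) =
          {cl a₀, cl b, cl c} := by
        symm
        apply Finset.eq_univ_of_card
        rw [← Nat.card_eq_fintype_card, hrank, Finset.card_eq_three]
        exact ⟨_, _, _, (hcl0 b hb).symm, (hcl0 c hc).symm, hbc, rfl⟩
      rw [h1, Finset.sum_insert (by
        rw [Finset.mem_insert, Finset.mem_singleton, not_or]
        exact ⟨(hcl0 b hb).symm, (hcl0 c hc).symm⟩), Finset.sum_pair hbc, hs0, hs, hs, hm] at hsum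
      omega
    let T := orbOp G b a₀
    have hT : Com ρ T := com_orbOp b a₀
    let i₁ : IrrCharacter G := ⟨χ₁, h₁⟩
    let i₂ : IrrCharacter G := ⟨χ₂, h₂⟩
    have hi1 : i₁ ∈ cons ρ := mem_cons.mpr (by show classInner ρ.character χ₁ ≠ 0; rw [hcl1]; exact one_ne_zero)
    have hi2 : i₂ ∈ cons ρ := mem_cons.mpr (by show classInner ρ.character χ₂ ≠ 0; rw [hcl2]; exact one_ne_zero)
    have hi0 : one' G ∈ cons ρ := one_mem_cons
    have hcons : cons ρ = {one' G, i₁, i₂} := by
      ext φ
      rw [Finset.mem_insert, Finset.mem_insert, Finset.mem_singleton]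
      constructor
      · intro h
        rcases hmem φ φ.2 (mem_cons.mp h) with h | h | h
        · exact Or.inl (Subtype.ext h)
        · exact Or.inr (Or.inl (Subtype.ext h))
        · exact Or.inr (Or.inr (Subtype.ext h))
      · rintro (h | h | h)
        · rw [h]; exact hi0
        · rw [h]; exact hi1
        · rw [h]; exact hi2
    have hne01 : one' G ≠ i₁ := fun h => hχ1.1 (congrArg Subtype.val h)
    have hne02 : one' G ≠ i₂ := fun h => hχ1.2 (congrArg Subtype.val h)
    have hne12 : i₁ ≠ i₂ := fun h => h12 (congrArg Subtype.val h)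
    have hsumc : ∀ F : IrrCharacter G → ℂ, ∑ ψ ∈ cons ρ, F ψ = F (one' G) + F i₁ + F i₂ := by
      intro F
      rw [hcons, Finset.sum_insert (by
        rw [Finset.mem_insert, Finset.mem_singleton, not_or]; exact ⟨hne01, hne02⟩),
        Finset.sum_pair hne12, add_assoc]
    set s := sc ρ T i₁ with hsdef
    set t := sc ρ T i₂ with htdef
    have hk0 : sc ρ T (one' G) = k := sc_one_orbOp a₀ b
    -- trace zero
    have e1 : (k : ℂ) + s * (m - 1) + t * m = 0 := by
      have h1 := trace_eq_sum hmf hT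
      rw [trace_orbOp a₀ b hb, hsumc, hk0] at h1
      have h2 : (one' G : G → ℂ) 1 = 1 := rfl
      have h3 : (i₁ : G → ℂ) 1 = (m : ℂ) - 1 := hd₁
      have h4 : (i₂ : G → ℂ) 1 = (m : ℂ) := hd₂
      rw [h2, h3, h4] at h1
      rw [h1]; ring
    -- trace of the square
    have horb : (a₀, b) ∈ MulAction.orbit G (b, a₀) := by
      obtain ⟨g, h1, h2⟩ := hsp b a₀
      exact ⟨g, Prod.ext h1 h2⟩
    have e2 : (2 * m : ℂ) * k = k ^ 2 + (m - 1) * s ^ 2 + m * t ^ 2 := by
      have h1 := trace_eq_sum hmf (hT.comp hT)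
      rw [hsumc, sc_comp hmf hT hT hi0, sc_comp hmf hT hT hi1, sc_comp hmf hT hT hi2, hk0] at h1
      have h5 : LinearMap.trace ℂ (Ω → ℂ) (T ∘ₗ T) = (2 * m : ℂ) * k := by
        show LinearMap.trace ℂ (Ω → ℂ) (orbOp G b a₀ ∘ₗ orbOp G b a₀) = _
        rw [trace_orbOp_comp a₀ b a₀ b, if_pos horb, hm]
        push_cast; rfl
      have h2 : (one' G : G → ℂ) 1 = 1 := rfl
      have h3 : (i₁ : G → ℂ) 1 = (m : ℂ) - 1 := hd₁
      have h4 : (i₂ : G → ℂ) 1 = (m : ℂ) := hd₂
      rw [h2, h3, h4, h5] at h1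
      rw [h1]; ring
    -- integrality of s + t
    have hTent : T (Pi.single a₀ 1) b = 1 := by
      show orbOp G b a₀ _ _ = _
      rw [orbOp_single, if_pos horb]
    have hTent' : T (Pi.single a₀ 1) c = 0 := by
      show orbOp G b a₀ _ _ = _
      rw [orbOp_single, if_neg]
      intro h
      have h1 := MulAction.orbit_eq_iff.mpr horb
      rw [← h1] at h
      obtain ⟨g, hg⟩ := h
      have hg' : (g • a₀, g • b) = (a₀, c) := hg
      apply hbc
      have hrel : MulAction.orbitRel (MulAction.stabilizer G a₀) Ω c b :=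
        ⟨⟨g, congrArg Prod.fst hg'⟩, congrArg Prod.snd hg'⟩
      exact (Quotient.eq''.mpr hrel).symm
    have e3 : ∃ z : ℤ, s + t = z := by
      let B : (Ω → ℂ) →ₗ[ℂ] (Ω → ℂ) := (T - s • LinearMap.id) ∘ₗ (T - t • LinearMap.id)
      have hB1 : Com ρ (T - s • LinearMap.id) := hT.sub (Com.id.smul s)
      have hB2 : Com ρ (T - t • LinearMap.id) := hT.sub (Com.id.smul t)
      have hB : Com ρ B := hB1.comp hB2
      have hsc0 : ∀ ψ ∈ cons ρ, ψ ≠ one' G → sc ρ B ψ = 0 := by
        intro ψ hψ hne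
        rw [sc_comp hmf hB1 hB2 hψ, sc_sub hmf hT (Com.id.smul s) hψ,
          sc_sub hmf hT (Com.id.smul t) hψ, sc_smul hmf Com.id s hψ, sc_smul hmf Com.id t hψ,
          sc_id hψ]
        rw [hcons, Finset.mem_insert, Finset.mem_insert, Finset.mem_singleton] at hψ
        rcases hψ with h | h | h
        · exact absurd h hne
        · rw [h, ← hsdef]; ring
        · rw [h, ← htdef]; ring
      have h1 := const_of_sc_eq_zero hmf hB hsc0 (Pi.single a₀ 1) b c
      have h2 : ∀ y, B (Pi.single a₀ 1) y = (T ∘ₗ T) (Pi.single a₀ 1) y -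
          (s + t) * T (Pi.single a₀ 1) y + s * t * (Pi.single a₀ 1 : Ω → ℂ) y := by
        intro y
        show ((T - s • LinearMap.id : (Ω → ℂ) →ₗ[ℂ] (Ω → ℂ)) ∘ₗ (T - t • LinearMap.id :
          (Ω → ℂ) →ₗ[ℂ] (Ω → ℂ))) (Pi.single a₀ 1) y = _
        rw [LinearMap.comp_apply, LinearMap.sub_apply, LinearMap.sub_apply, map_sub,
          LinearMap.smul_apply, LinearMap.smul_apply, map_smul, LinearMap.id_apply,
          LinearMap.id_apply, LinearMap.comp_apply]
        simp only [Pi.sub_apply, Pi.smul_apply, smul_eq_mul]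
        ring
      rw [h2, h2, hTent, hTent', Pi.single_eq_of_ne hb, Pi.single_eq_of_ne hc] at h1
      obtain ⟨n1, hn1⟩ := exists_nat_entry (G := G) a₀ b a₀ b
      obtain ⟨n2, hn2⟩ := exists_nat_entry (G := G) a₀ b a₀ c
      have hn1' : (T ∘ₗ T) (Pi.single a₀ 1) b = n1 := hn1
      have hn2' : (T ∘ₗ T) (Pi.single a₀ 1) c = n2 := hn2
      rw [hn1', hn2'] at h1
      refine ⟨(n1 : ℤ) - n2, ?_⟩
      push_cast
      linear_combination -h1
    obtain ⟨z, hz⟩ := e3
    -- s is an integer
    have e4 : s = ((k : ℤ) + m * z : ℤ) := by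
      push_cast
      rw [← hz]
      linear_combination -e1
    have e5 : t = ((z - (k + m * z) : ℤ) : ℂ) := by
      have : t = z - s := by rw [← hz]; ring
      rw [this, e4]; push_cast; ring
    rw [e4, e5] at e2
    have e6 : (2 * (m : ℤ)) * k = (k : ℤ) ^ 2 + (m - 1) * ((k : ℤ) + m * z) ^ 2 +
        m * (z - (k + m * z)) ^ 2 := by exact_mod_cast e2
    apply arith (k := (k : ℤ)) (l := (l : ℤ)) (s := (k : ℤ) + m * z) (e := -z) (m := (m : ℤ))
    · have hk2 := hnotone b hb
      have hl2 := hnotone c hc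
      omega
    · ring
    · have : ((1 + k + l : ℕ) : ℤ) = ((2 * m : ℕ) : ℤ) := by rw [hkl]
      push_cast at this
      omega
    · exact_mod_cast hnotone b hb
    · exact_mod_cast hnotone c hc
    · rw [e6]; ring
  -- conclusion
  have hex : ∃ b c : Ω, b ≠ a₀ ∧ c ≠ a₀ ∧ cl b ≠ cl c := by
    have h1 : 2 < (Finset.univ : Finset (MulAction.orbitRel.Quotient
        (MulAction.stabilizer G a₀) Ω)).card := by
      rw [Finset.card_univ, ← Nat.card_eq_fintype_card, hrank]; norm_num
    have h2 : 1 < ((Finset.univ : Finset (MulAction.orbitRel.Quotient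
        (MulAction.stabilizer G a₀) Ω)).erase (cl a₀)).card := by
      rw [Finset.card_erase_of_mem (Finset.mem_univ _)]; omega
    obtain ⟨x, hx, y, hy, hxy⟩ := Finset.one_lt_card.mp h2
    revert hx hy hxy
    refine Quotient.inductionOn₂' x y ?_
    intro b c hb hc hbc
    refine ⟨b, c, ?_, ?_, hbc⟩
    · rintro rfl; exact Finset.ne_of_mem_erase hb rfl
    · rintro rfl; exact Finset.ne_of_mem_erase hc rfl
  obtain ⟨b, c, hb, hc, hbc⟩ := hex
  obtain ⟨a, ha, hma, hval⟩ := key b c hb hc hbc
  refine ⟨a, ha, by exact_mod_cast hma, ?_⟩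
  intro x hx
  have h1 : cl x = cl b ∨ cl x = cl c := by
    by_contra hcon
    push Not at hcon
    have h2 : ({cl a₀, cl b, cl c, cl x} : Finset _).card ≤ 3 := by
      rw [← hrank, Nat.card_eq_fintype_card]; exact Finset.card_le_univ _
    rw [Finset.card_insert_of_notMem, Finset.card_insert_of_notMem,
      Finset.card_pair hcon.2.symm] at h2
    · omega
    · rw [Finset.mem_insert, Finset.mem_singleton, not_or]; exact ⟨hbc, hcon.1.symm⟩
    · rw [Finset.mem_insert, Finset.mem_insert, Finset.mem_singleton, not_or, not_or]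
      exact ⟨(hcl0 b hb).symm, (hcl0 c hc).symm, (hcl0 x hx).symm⟩
  rcases h1 with h1 | h1
  · rw [← hs x, h1, hs]
    rcases hval with h | h
    · left; exact_mod_cast h.1
    · right; exact_mod_cast h.2
  · rw [← hs x, h1, hs]
    rcases hval with h | h
    · right; exact_mod_cast h.2
    · left; exact_mod_cast h.1

end Cfsg.Agent.Lib.Wielandt3
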