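import Mathlib.GroupTheory.GroupAction.MultipleTransitivity
import Mathlib.GroupTheory.GroupAction.FixingSubgroup
import Mathlib.Tactic

/-!
Witt's lemma on transitive extensions (helper12).
-/

set_option autoImplicit false

namespace Cfsg.Agent.Lib.WittExt

open MulAction

/-- Two double cosets form a group. -/
theorem double_coset {P : Type*} [Group P] (M : Subgroup P) (s : P) (hs2 : s * s ∈ M)
    (h : ∀ m ∈ M, s * m * s ∈ M ∨ ∃ a ∈ M, ∃ b ∈ M, s * m * s = a * s * b)
    (S : Set P) (hS : ∀ x ∈ S, x ∈ M ∨ x = s) :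
    ∀ g ∈ Subgroup.closure S, g ∈ M ∨ ∃ a ∈ M, ∃ b ∈ M, g = a * s * b := by
  let D : Subgroup P :=
    { carrier := {g | g ∈ M ∨ ∃ a ∈ M, ∃ b ∈ M, g = a * s * b}
      one_mem' := Or.inl M.one_mem
      mul_mem' := by
        rintro x y (hx | ⟨a, ha, b, hb, rfl⟩) (hy | ⟨c, hc, d, hd, rfl⟩)
        · exact Or.inl (M.mul_mem hx hy)
        · exact Or.inr ⟨x * c, M.mul_mem hx hc, d, hd, by simp only [mul_assoc]⟩
        · exact Or.inr ⟨a, ha, b * y, M.mul_mem hb hy, by simp only [mul_assoc]⟩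
        · have e : a * s * b * (c * s * d) = a * (s * (b * c) * s) * d := by
            simp only [mul_assoc]
          rcases h (b * c) (M.mul_mem hb hc) with h1 | ⟨u, hu, v, hv, h1⟩
          · left; rw [e]; exact M.mul_mem (M.mul_mem ha h1) hd
          · right
            refine ⟨a * u, M.mul_mem ha hu, v * d, M.mul_mem hv hd, ?_⟩
            rw [e, h1]; simp only [mul_assoc]
      inv_mem' := by
        rintro x (hx | ⟨a, ha, b, hb, rfl⟩)
        · exact Or.inl (M.inv_mem hx)
        · right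
          refine ⟨b⁻¹ * (s * s)⁻¹, M.mul_mem (M.inv_mem hb) (M.inv_mem hs2), a⁻¹, M.inv_mem ha, ?_⟩
          group }
  have hle : Subgroup.closure S ≤ D := by
    rw [Subgroup.closure_le]
    intro x hx
    rcases hS x hx with h1 | rfl
    · exact Or.inl h1
    · exact Or.inr ⟨1, M.one_mem, 1, M.one_mem, by group⟩
  exact fun g hg => hle hg

variable {α : Type*}

theorem witt (t : ℕ) (ht : 2 ≤ t) (q : ℕ → α)
    (hq : ∀ i j : ℕ, 1 ≤ i → i ≤ t → 1 ≤ j → j ≤ t → q i = q j → i = j)
    (G : Subgroup (Equiv.Perm α))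
    (hfix : ∀ g ∈ G, ∀ i : ℕ, 3 ≤ i → i ≤ t → g (q i) = q i)
    (h2 : ∀ a b c d : α, (∀ i, 3 ≤ i → i ≤ t → a ≠ q i ∧ b ≠ q i ∧ c ≠ q i ∧ d ≠ q i) →
      a ≠ b → c ≠ d → ∃ g ∈ G, g a = c ∧ g b = d)
    (s : ℕ → Equiv.Perm α) (hs1 : s 1 ∈ G) (hs1q : s 1 (q 1) = q 2 ∧ s 1 (q 2) = q 1)
    (hsq : ∀ i : ℕ, 2 ≤ i → i + 1 ≤ t → s i (q i) = q (i + 1) ∧ s i (q (i + 1)) = q i ∧
      ∀ j : ℕ, 1 ≤ j → j ≤ t → j ≠ i → j ≠ i + 1 → s i (q j) = q j)
    (H : Subgroup (Equiv.Perm α))
    (hH : H = G ⊓ stabilizer (Equiv.Perm α) (q 1) ⊓ stabilizer (Equiv.Perm α) (q 2))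
    (hsq2 : ∀ i : ℕ, 1 ≤ i → i + 1 ≤ t → s i ^ 2 ∈ H)
    (hbraid : ∀ i : ℕ, 1 ≤ i → i + 2 ≤ t → (s i * s (i + 1)) ^ 3 ∈ H)
    (hcomm : ∀ i j : ℕ, 1 ≤ i → i + 2 ≤ j → j + 1 ≤ t → (s i * s j) ^ 2 ∈ H ∧ (s j * s i) ^ 2 ∈ H)
    (hnorm : ∀ i : ℕ, 2 ≤ i → i + 1 ≤ t → ∀ g ∈ G ⊓ stabilizer (Equiv.Perm α) (q 2),
      s i * g * (s i)⁻¹ ∈ G ⊓ stabilizer (Equiv.Perm α) (q 2)) :
    IsMultiplyPretransitive ↥(Subgroup.closure ((G : Set (Equiv.Perm α)) ∪
        {x | ∃ i : ℕ, 2 ≤ i ∧ i + 1 ≤ t ∧ x = s i})) α t ∧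
      Subgroup.closure ((G : Set (Equiv.Perm α)) ∪ {x | ∃ i : ℕ, 2 ≤ i ∧ i + 1 ≤ t ∧ x = s i}) ⊓
        fixingSubgroup (Equiv.Perm α) {x | ∃ i : ℕ, 1 ≤ i ∧ i ≤ t ∧ x = q i} = H := by
  classical
  set K : Subgroup (Equiv.Perm α) := G ⊓ stabilizer (Equiv.Perm α) (q 2) with hK
  have hKG : K ≤ G := inf_le_left
  have hKq2 : ∀ g ∈ K, g (q 2) = q 2 := fun g hg => hg.2
  have hHK : H ≤ K := by
    rw [hH, hK]
    exact le_inf (inf_le_left.trans inf_le_left) inf_le_right
  let Gs : ℕ → Subgroup (Equiv.Perm α) := fun j =>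
    Subgroup.closure ((K : Set (Equiv.Perm α)) ∪ {x | ∃ i : ℕ, 1 ≤ i ∧ i + 1 ≤ j ∧ x = s i})
  have hKGs : ∀ j, K ≤ Gs j := fun j g hg => Subgroup.subset_closure (Or.inl hg)
  have hsGs : ∀ i j, 1 ≤ i → i + 1 ≤ j → s i ∈ Gs j := fun i j h1 h2 =>
    Subgroup.subset_closure (Or.inr ⟨i, h1, h2, rfl⟩)
  have hmono : ∀ i j, i ≤ j → Gs i ≤ Gs j := by
    intro i j hij
    apply Subgroup.closure_mono
    rintro x (hx | ⟨k, hk1, hk2, rfl⟩)
    · exact Or.inl hx
    · exact Or.inr ⟨k, hk1, by omega, rfl⟩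
  have hG1 : Gs 1 = K := by
    apply le_antisymm _ (hKGs 1)
    rw [Subgroup.closure_le]
    rintro x (hx | ⟨k, hk1, hk2, rfl⟩)
    · exact hx
    · omega
  have hG2 : Gs 2 = G := by
    apply le_antisymm
    · rw [Subgroup.closure_le]
      rintro x (hx | ⟨k, hk1, hk2, rfl⟩)
      · exact hKG hx
      · have : k = 1 := by omega
        rw [this]; exact hs1
    · intro g hg
      by_cases hgq : g (q 2) = q 2
      · exact hKGs 2 ⟨hg, hgq⟩
      · -- h ∈ K with h (g q2) = q1
        have hne : ∀ i, 3 ≤ i → i ≤ t → q 2 ≠ q i ∧ q 1 ≠ q i ∧ g (q 2) ≠ q i := by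
          intro i hi hit
          refine ⟨fun h => ?_, fun h => ?_, fun h => ?_⟩
          · have := hq 2 i (by omega) ht (by omega) hit h; omega
          · have := hq 1 i (by omega) (by omega) (by omega) hit h; omega
          · have h1 := hfix g hg i hi hit
            have h3 := g.injective (h.trans h1.symm)
            have := hq 2 i (by omega) ht (by omega) hit h3; omega
        have h12 : q 1 ≠ q 2 := fun h => by
          have := hq 1 2 (by omega) (by omega) (by omega) ht h; omega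
        obtain ⟨k, hk, hk1, hk2⟩ := h2 (g (q 2)) (q 2) (q 1) (q 2)
          (fun i hi hit => ⟨(hne i hi hit).2.2, (hne i hi hit).1, (hne i hi hit).2.1,
            (hne i hi hit).1⟩) hgq h12
        have hkK : k ∈ K := ⟨hk, hk2⟩
        have h3 : s 1 * (k * g) ∈ K := by
          refine ⟨G.mul_mem hs1 (G.mul_mem hk hg), ?_⟩
          show s 1 (k (g (q 2))) = q 2
          rw [hk1]; exact hs1q.1
        have h4 : g = k⁻¹ * ((s 1)⁻¹ * (s 1 * (k * g))) := by group
        rw [h4]
        exact mul_mem (inv_mem (hKGs 2 hkK)) (mul_mem (inv_mem (hsGs 1 2 le_rfl le_rfl))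
          (hKGs 2 h3))
  -- invariants
  let I : ℕ → Prop := fun j =>
    (∀ g ∈ Gs j, ∀ i, j < i → i ≤ t → g (q i) = q i) ∧
    (∀ a c : α, (∀ i, j < i → i ≤ t → a ≠ q i ∧ c ≠ q i) → ∃ g ∈ Gs j, g a = c) ∧
    (2 ≤ j → ∀ g ∈ Gs j, g (q j) = q j → g ∈ Gs (j - 1))
  have hI1 : I 1 := by
    refine ⟨?_, ?_, fun h => by omega⟩
    · intro g hg i hi hit
      rw [hG1] at hg
      by_cases h : i = 2
      · rw [h]; exact hKq2 g hg
      · exact hfix g (hKG hg) i (by omega) hit
    · intro a c h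
      have hne := h 2 (by omega) ht
      obtain ⟨g, hg, hg1, hg2⟩ := h2 a (q 2) c (q 2) (fun i hi hit =>
        ⟨(h i (by omega) hit).1, fun he => by
          have := hq 2 i (by omega) ht (by omega) hit he; omega,
        (h i (by omega) hit).2, fun he => by
          have := hq 2 i (by omega) ht (by omega) hit he; omega⟩) hne.1 hne.2
      exact ⟨g, hKGs 1 ⟨hg, hg2⟩, hg1⟩
  have hI2 : I 2 := by
    refine ⟨?_, ?_, fun _ => ?_⟩
    · intro g hg i hi hit
      rw [hG2] at hg
      exact hfix g hg i (by omega) hit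
    · intro a c h
      rw [hG2]
      by_cases hac : a = c
      · exact ⟨1, one_mem _, hac⟩
      · obtain ⟨g, hg, hg1, _⟩ := h2 a c c a (fun i hi hit =>
          ⟨(h i (by omega) hit).1, (h i (by omega) hit).2, (h i (by omega) hit).2,
            (h i (by omega) hit).1⟩) hac (Ne.symm hac)
        exact ⟨g, hg, hg1⟩
    · intro g hg hgq
      show g ∈ Gs 1
      rw [hG1]
      rw [hG2] at hg
      exact ⟨hg, hgq⟩
  -- s_j normalises G_{j-1}
  have hnormal : ∀ j, 2 ≤ j → j + 1 ≤ t → ∀ g ∈ Gs (j - 1), s j * g * (s j)⁻¹ ∈ Gs (j - 1) := by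
    intro j hj hjt g hg
    induction hg using Subgroup.closure_induction with
    | mem x hx =>
      rcases hx with hx | ⟨i, hi1, hi2, rfl⟩
      · exact hKGs _ (hnorm j hj hjt x hx)
      · have h3 := (hcomm i j hi1 (by omega) hjt).2
        have h4 : s j * s i * (s j)⁻¹ = (s j * s i) ^ 2 * (s i)⁻¹ * (s j ^ 2)⁻¹ := by
          rw [sq, sq]; group
        rw [h4]
        exact mul_mem (mul_mem (hKGs _ (hHK h3)) (inv_mem (hsGs i _ hi1 hi2)))
          (inv_mem (hKGs _ (hHK (hsq2 j (by omega) hjt))))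
    | one => rw [mul_one, mul_inv_cancel]; exact one_mem _
    | mul x y _ _ hx hy =>
      have : s j * (x * y) * (s j)⁻¹ = (s j * x * (s j)⁻¹) * (s j * y * (s j)⁻¹) := by group
      rw [this]; exact mul_mem hx hy
    | inv x _ hx =>
      have : s j * x⁻¹ * (s j)⁻¹ = (s j * x * (s j)⁻¹)⁻¹ := by group
      rw [this]; exact inv_mem hx
  have hstep : ∀ j, 2 ≤ j → j + 1 ≤ t → I (j - 1) → I j → I (j + 1) := by
    intro j hj hjt hIj' hIj
    obtain ⟨ha', hb', hc'⟩ := hIj'
    obtain ⟨ha, hb, hc⟩ := hIj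
    have hs2 : s j ^ 2 ∈ Gs j := hKGs _ (hHK (hsq2 j (by omega) hjt))
    -- decomposition of Gs j
    have hdec : ∀ g ∈ Gs j, g ∈ Gs (j - 1) ∨ ∃ a ∈ Gs (j - 1), ∃ b ∈ Gs (j - 1),
        g = a * s (j - 1) * b := by
      intro g hg
      by_cases hgq : g (q j) = q j
      · exact Or.inl (hc hj g hg hgq)
      · right
        have hsj : s (j - 1) (q (j - 1)) = q j ∧ s (j - 1) (q j) = q (j - 1) := by
          by_cases hj2 : j = 2
          · subst hj2; exact hs1q
          · have := hsq (j - 1) (by omega) (by omega)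
            rw [show j - 1 + 1 = j by omega] at this
            exact ⟨this.1, this.2.1⟩
        obtain ⟨k, hk, hkg⟩ := hb' (g (q j)) (q (j - 1)) (by
          intro i hi hit
          constructor
          · intro he
            by_cases hij : i = j
            · rw [hij] at he; exact hgq he
            · have h1 := ha g hg i (by omega) hit
              have h3 := g.injective (he.trans h1.symm)
              have := hq j i (by omega) (by omega) (by omega) hit h3; omega
          · intro he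
            have := hq (j - 1) i (by omega) (by omega) (by omega) hit he; omega)
        have hkj : k ∈ Gs j := hmono _ _ (by omega) hk
        have hsj' : s (j - 1) ∈ Gs j := hsGs _ _ (by omega) (by omega)
        have h3 : s (j - 1) * (k * g) ∈ Gs (j - 1) := by
          apply hc hj _ (mul_mem hsj' (mul_mem hkj hg))
          show s (j - 1) (k (g (q j))) = q j
          rw [hkg]; exact hsj.1
        have hs2' : s (j - 1) ^ 2 ∈ Gs (j - 1) :=
          hKGs _ (hHK (hsq2 (j - 1) (by omega) (by omega)))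
        refine ⟨k⁻¹ * (s (j - 1) ^ 2)⁻¹, mul_mem (inv_mem hk) (inv_mem hs2'), _, h3, ?_⟩
        rw [sq]; group
    have hdbl := double_coset (Gs j) (s j) (by rw [← sq]; exact hs2) (by
      intro m hm
      have hcj : ∀ g ∈ Gs (j - 1), s j * g * (s j)⁻¹ ∈ Gs (j - 1) := hnormal j hj hjt
      rcases hdec m hm with h1 | ⟨a, ha1, b, hb1, rfl⟩
      · left
        have : s j * m * s j = (s j * m * (s j)⁻¹) * s j ^ 2 := by rw [sq]; group
        rw [this]
        exact mul_mem (hmono _ _ (by omega) (hcj m h1)) hs2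
      · right
        -- s a s' b s = (s a s⁻¹) (s s' s) (s⁻¹ b s)
        have hbr := hbraid (j - 1) (by omega) (by omega)
        rw [show j - 1 + 1 = j by omega] at hbr
        have hbr' : (s (j - 1) * s j) ^ 3 ∈ Gs j := hKGs _ (hHK hbr)
        have hsj' : s (j - 1) ∈ Gs j := hsGs _ _ (by omega) (by omega)
        have hb2 : (s j)⁻¹ * b * s j ∈ Gs (j - 1) := by
          have hs2'' : s j ^ 2 ∈ Gs (j - 1) := hKGs _ (hHK (hsq2 j (by omega) hjt))
          have : (s j)⁻¹ * b * s j = (s j ^ 2)⁻¹ * (s j * b * (s j)⁻¹) * s j ^ 2 := by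
            rw [sq]; group
          rw [this]
          exact mul_mem (mul_mem (inv_mem hs2'') (hcj b hb1)) hs2''
        refine ⟨(s j * a * (s j)⁻¹) * (s (j - 1))⁻¹ * (s (j - 1) * s j) ^ 3 * (s j ^ 2)⁻¹,
          mul_mem (mul_mem (mul_mem (hmono _ _ (by omega) (hcj a ha1)) (inv_mem hsj')) hbr')
            (inv_mem hs2), (s (j - 1))⁻¹ * ((s j)⁻¹ * b * s j),
          mul_mem (inv_mem hsj') (hmono _ _ (by omega) hb2), ?_⟩
        rw [sq, pow_succ, sq]; group) ((K : Set (Equiv.Perm α)) ∪ {x | ∃ i : ℕ, 1 ≤ i ∧ i + 1 ≤ j + 1 ∧ x = s i}) (by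
      rintro x (hx | ⟨i, hi1, hi2, rfl⟩)
      · exact Or.inl (hKGs _ hx)
      · by_cases hij : i = j
        · right; rw [hij]
        · left; exact hsGs _ _ hi1 (by omega))
    have hsjq := hsq j hj hjt
    refine ⟨?_, ?_, fun _ => ?_⟩
    · intro g hg i hi hit
      have hsi : s j (q i) = q i := hsjq.2.2 i (by omega) hit (by omega) (by omega)
      rcases hdbl g hg with h1 | ⟨a, ha1, b, hb1, rfl⟩
      · exact ha g h1 i (by omega) hit
      · show a (s j (b (q i))) = q i
        rw [ha b hb1 i (by omega) hit, hsi, ha a ha1 i (by omega) hit]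
    · have key : ∀ a : α, (∀ i, j + 1 < i → i ≤ t → a ≠ q i) → ∃ g ∈ Gs (j + 1), g a = q j := by
        intro a h
        by_cases haj : a = q (j + 1)
        · exact ⟨s j, hsGs _ _ (by omega) le_rfl, by rw [haj]; exact hsjq.2.1⟩
        · obtain ⟨g, hg, hga⟩ := hb a (q j) (by
            intro i hi hit
            constructor
            · by_cases hij : i = j + 1
              · rw [hij]; exact haj
              · exact h i (by omega) hit
            · intro he
              have := hq j i (by omega) (by omega) (by omega) hit he; omega)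
          exact ⟨g, hmono _ _ (by omega) hg, hga⟩
      intro a c h
      obtain ⟨g, hg, hga⟩ := key a (fun i hi hit => (h i hi hit).1)
      obtain ⟨k, hk, hkc⟩ := key c (fun i hi hit => (h i hi hit).2)
      refine ⟨k⁻¹ * g, mul_mem (inv_mem hk) hg, ?_⟩
      rw [Equiv.Perm.mul_apply, hga, Equiv.Perm.inv_eq_iff_eq, hkc]
    · intro g hg hgq
      show g ∈ Gs j
      rcases hdbl g hg with h1 | ⟨a, ha1, b, hb1, rfl⟩
      · exact h1
      · exfalso
        have h3 : a (s j (b (q (j + 1)))) = q (j + 1) := hgq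
        rw [ha b hb1 (j + 1) (by omega) hjt, hsjq.2.1] at h3
        have h4 : a (q (j + 1)) = q (j + 1) := ha a ha1 (j + 1) (by omega) hjt
        have h5 := a.injective (h3.trans h4.symm)
        have := hq j (j + 1) (by omega) (by omega) (by omega) hjt h5; omega
  have hIall : ∀ j, 1 ≤ j → j ≤ t → I j := by
    intro j
    induction j using Nat.strong_induction_on with
    | _ j ih =>
      intro hj1 hjt
      rcases Nat.lt_or_ge j 3 with h3 | h3
      · have : j = 1 ∨ j = 2 := by omega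
        rcases this with rfl | rfl
        · exact hI1
        · exact hI2
      · have e1 := ih (j - 2) (by omega) (by omega) (by omega)
        have e2 := ih (j - 1) (by omega) (by omega) (by omega)
        have := hstep (j - 1) (by omega) (by omega) (by
          rw [show j - 1 - 1 = j - 2 by omega]; exact e1) e2
        rwa [show j - 1 + 1 = j by omega] at this
  -- identify the group
  have hclos : Subgroup.closure ((G : Set (Equiv.Perm α)) ∪
      {x | ∃ i : ℕ, 2 ≤ i ∧ i + 1 ≤ t ∧ x = s i}) = Gs t := by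
    apply le_antisymm
    · rw [Subgroup.closure_le]
      rintro x (hx | ⟨i, hi1, hi2, rfl⟩)
      · have : x ∈ Gs 2 := by rw [hG2]; exact hx
        exact hmono _ _ ht this
      · exact hsGs _ _ (by omega) hi2
    · rw [Subgroup.closure_le]
      rintro x (hx | ⟨i, hi1, hi2, rfl⟩)
      · exact Subgroup.subset_closure (Or.inl (hKG hx))
      · by_cases h1 : i = 1
        · rw [h1]; exact Subgroup.subset_closure (Or.inl hs1)
        · exact Subgroup.subset_closure (Or.inr ⟨i, by omega, hi2, rfl⟩)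
  rw [hclos]
  constructor
  · -- multiple transitivity
    have hP : ∀ j, 1 ≤ j → j ≤ t → ∀ x : ℕ → α,
        (∀ i i', 1 ≤ i → i ≤ j → 1 ≤ i' → i' ≤ j → x i = x i' → i = i') →
        (∀ i k, 1 ≤ i → i ≤ j → j < k → k ≤ t → x i ≠ q k) →
        ∃ g ∈ Gs j, ∀ i, 1 ≤ i → i ≤ j → g (x i) = q i := by
      intro j
      induction j with
      | zero => intro h; omega
      | succ j ih =>
        intro _ hjt x hinj hne
        obtain ⟨ha, hb, hc⟩ := hIall (j + 1) (by omega) hjt
        obtain ⟨g, hg, hgx⟩ := hb (x (j + 1)) (q (j + 1)) (by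
          intro i hi hit
          refine ⟨hne (j + 1) i (by omega) le_rfl hi hit, fun he => ?_⟩
          have := hq (j + 1) i (by omega) hjt (by omega) hit he; omega)
        rcases Nat.eq_zero_or_pos j with rfl | hj
        · refine ⟨g, hg, ?_⟩
          intro i hi1 hi2
          have : i = 1 := by omega
          rw [this]; exact hgx
        · obtain ⟨k, hk, hkx⟩ := ih hj (by omega) (fun i => g (x i)) (by
            intro i i' h1 h3 h4 h5 he
            exact hinj i i' h1 (by omega) h4 (by omega) (g.injective he)) (by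
            intro i k h1 h3 h4 h5 he
            by_cases hkj : k = j + 1
            · rw [hkj, ← hgx] at he
              have := hinj i (j + 1) h1 (by omega) (by omega) le_rfl (g.injective he)
              omega
            · have h6 := ha g hg k (by omega) h5
              exact hne i k h1 (by omega) (by omega) h5 (g.injective (he.trans h6.symm)))
          refine ⟨k * g, mul_mem (hmono _ _ (by omega) hk) hg, ?_⟩
          intro i h1 h3
          rw [Equiv.Perm.mul_apply]
          by_cases hij : i = j + 1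
          · rw [hij, hgx]
            exact (hIall j hj (by omega)).1 k hk (j + 1) (by omega) hjt
          · exact hkx i h1 (by omega)
    have hP' : ∀ x : Fin t ↪ α, ∃ g ∈ Gs t, ∀ i : Fin t, g (x i) = q ((i : ℕ) + 1) := by
      intro x
      let x' : ℕ → α := fun i => if h : i - 1 < t then x ⟨i - 1, h⟩ else q 1
      have hx' : ∀ i (h1 : 1 ≤ i) (h : i ≤ t), x' i = x ⟨i - 1, by omega⟩ := by
        intro i h1 h
        exact dif_pos (by omega)
      obtain ⟨g, hg, hgx⟩ := hP t (by omega) le_rfl x' (by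
        intro i i' h1 h3 h4 h5 he
        rw [hx' i h1 h3, hx' i' h4 h5] at he
        have := x.injective he
        rw [Fin.mk.injEq] at this
        omega) (by intro i k h1 h3 h4 h5; omega)
      refine ⟨g, hg, fun i => ?_⟩
      have := hgx ((i : ℕ) + 1) (by omega) (by have := i.2; omega)
      rw [hx' _ (by omega) (by have := i.2; omega)] at this
      exact this
    constructor
    intro x y
    obtain ⟨g, hg, hgx⟩ := hP' x
    obtain ⟨k, hk, hky⟩ := hP' y
    refine ⟨⟨k⁻¹ * g, mul_mem (inv_mem hk) hg⟩, ?_⟩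
    ext i
    show (k⁻¹ * g) (x i) = y i
    rw [Equiv.Perm.mul_apply, hgx, Equiv.Perm.inv_eq_iff_eq, hky]
  · -- pointwise stabiliser
    apply le_antisymm
    · rintro g ⟨hg, hgf⟩
      have hgq : ∀ i, 1 ≤ i → i ≤ t → g (q i) = q i := fun i h1 h3 =>
        (mem_fixingSubgroup_iff (Equiv.Perm α)).mp hgf (q i) ⟨i, h1, h3, rfl⟩
      have hdown : ∀ k, k + 1 ≤ t → g ∈ Gs (t - k) := by
        intro k
        induction k with
        | zero => intro _; exact hg
        | succ k ih =>
          intro hk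
          have h1 := ih (by omega)
          have h3 := (hIall (t - k) (by omega) (by omega)).2.2 (by omega) g h1
            (hgq _ (by omega) (by omega))
          rwa [show t - k - 1 = t - (k + 1) by omega] at h3
      have h1 := hdown (t - 1) (by omega)
      rw [show t - (t - 1) = 1 by omega, hG1] at h1
      rw [hH]
      exact ⟨⟨h1.1, hgq 1 le_rfl (by omega)⟩, h1.2⟩
    · intro g hg
      have hgK := hHK hg
      refine ⟨hKGs t hgK, (mem_fixingSubgroup_iff (Equiv.Perm α)).mpr ?_⟩
      rintro y ⟨i, h1, h3, rfl⟩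
      rw [hH] at hg
      by_cases hi1 : i = 1
      · rw [hi1]; exact hg.1.2
      by_cases hi2 : i = 2
      · rw [hi2]; exact hg.2
      exact hfix g hg.1.1 i (by omega) h3

end Cfsg.Agent.Lib.WittExt
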