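import Cfsg.Agent.Lib.NormTool
import Cfsg.Agent.Lib.SpConj4

/-! # Symplectic type 2-groups in dimension four: elements of odd prime order of the normalizer -/

set_option autoImplicit false
set_option linter.dupNamespace false
set_option linter.style.haveILetI false

namespace Cfsg.Agent.Lib.XR

open Matrix Module Cfsg.Agent.Lib.NormTool
open scoped MatrixGroups

variable {F : Type*} [Field F] {ι : Type} [Fintype ι] [DecidableEq ι]

/-- the scalars in `R` -/
def Zs (R : Subgroup (GL ι F)) : Subgroup R where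
  carrier := {w | ∃ c : F, w.1.1 = c • (1 : Matrix ι ι F)}
  mul_mem' {a b} ha hb := by
    obtain ⟨c, hc⟩ := ha
    obtain ⟨d, hd⟩ := hb
    refine ⟨c * d, ?_⟩
    show a.1.1 * b.1.1 = _
    rw [hc, hd, Matrix.smul_mul, Matrix.one_mul, smul_smul]
  one_mem' := ⟨1, by rw [one_smul]; rfl⟩
  inv_mem' {a} ha := by
    obtain ⟨c, hc⟩ := ha
    refine ⟨c⁻¹, ?_⟩
    show (a.1⁻¹).1 = _
    have h1 : a.1.1 * (a.1⁻¹).1 = 1 := by rw [← Units.val_mul, mul_inv_cancel]; rfl
    rw [hc, Matrix.smul_mul, Matrix.one_mul] at h1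
    by_cases hι : Nonempty ι
    · have hc0 : c ≠ 0 := by
        rintro rfl
        rw [zero_smul] at h1
        exact zero_ne_one h1
      have h2 := congrArg (fun M => c⁻¹ • M) h1
      simp only [smul_smul, inv_mul_cancel₀ hc0, one_smul] at h2
      exact h2
    · haveI : IsEmpty ι := not_nonempty_iff.1 hι
      exact Subsingleton.elim _ _

theorem mem_Zs {R : Subgroup (GL ι F)} {w : R} : w ∈ Zs R ↔ ∃ c : F, w.1.1 = c • (1 : Matrix ι ι F) := Iff.rfl

/-- groups of symplectic type in dimension four -/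
structure XR (R : Subgroup (GL ι F)) : Prop where
  char : (2 : F) ≠ 0
  fin : Finite R
  dim : Fintype.card ι = 4
  comm : ∀ x ∈ R, ∀ y ∈ R, x.1 * y.1 = y.1 * x.1 ∨ x.1 * y.1 = -(y.1 * x.1)
  irr : ∀ M : Matrix ι ι F, (∀ x ∈ R, M * x.1 = x.1 * M) → ∃ c : F, M = c • (1 : Matrix ι ι F)
  two : ∃ k, Nat.card R = 2 ^ k
  sc : Nat.card R = 16 * Nat.card (Zs R)

namespace XR

variable {R : Subgroup (GL ι F)} (h : XR R)
include h

theorem ne_iota : Nonempty ι := by
  rw [← Fintype.card_pos_iff, h.dim]; norm_num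

theorem ne_neg {x : GL ι F} : x.1 ≠ -x.1 := by
  intro hx
  have := h.ne_iota
  have h1 : (2 : F) • x.1 = 0 := by rw [two_smul]; nth_rewrite 1 [hx]; exact neg_add_cancel _
  exact x.isUnit.ne_zero ((smul_eq_zero.1 h1).resolve_left h.char)

/-- an anticommuting partner -/
theorem partner {x : GL ι F} (hx : x ∈ R) (hn : ∀ c : F, x.1 ≠ c • (1 : Matrix ι ι F)) : ∃ y ∈ R, x.1 * y.1 = -(y.1 * x.1) := by
  by_contra hcon
  push Not at hcon
  obtain ⟨c, hc⟩ := h.irr x.1 (fun y hy => (h.comm x hx y hy).resolve_right (hcon y hy))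
  exact hn c hc

theorem inv_r (x : GL ι F) : x.1 * (x⁻¹).1 = 1 := by rw [← Units.val_mul, mul_inv_cancel]; rfl

theorem inv_l (x : GL ι F) : (x⁻¹).1 * x.1 = 1 := by rw [← Units.val_mul, inv_mul_cancel]; rfl

theorem trace_zero {x : GL ι F} (hx : x ∈ R) (hn : ∀ c : F, x.1 ≠ c • (1 : Matrix ι ι F)) : x.1.trace = 0 := by
  obtain ⟨y, hy, hxy⟩ := h.partner hx hn
  have h1 : x.1 = -(y.1 * x.1 * (y⁻¹).1) := by
    rw [← neg_mul, ← hxy, Matrix.mul_assoc, h.inv_r, Matrix.mul_one]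
  have h2 : x.1.trace = -x.1.trace := by
    nth_rewrite 1 [h1]
    rw [Matrix.trace_neg, Matrix.trace_mul_comm, ← Matrix.mul_assoc, h.inv_l, Matrix.one_mul]
  have h3 : (2 : F) * x.1.trace = 0 := by linear_combination h2
  exact (mul_eq_zero.1 h3).resolve_left h.char

/-- `y w y⁻¹ = c w` implies `c = 1` -/
theorem eq_one_of_scalar {y : GL ι F} {r : ℕ} (hodd : Odd r) (hyr : ∀ w ∈ R, y ^ r * w = w * y ^ r)
    (hy : y ∈ Subgroup.normalizer (R : Set (GL ι F))) {w : GL ι F} (hw : w ∈ R) {c : F}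
    (hc : (y * w * y⁻¹ * w⁻¹).1 = c • (1 : Matrix ι ι F)) : c = 1 := by
  have := h.ne_iota
  have := h.fin
  set z : GL ι F := y * w * y⁻¹ * w⁻¹ with hz
  have hzR : z ∈ R := mul_mem ((Subgroup.mem_normalizer_iff.1 hy w).1 hw) (inv_mem hw)
  have hzc : ∀ g : GL ι F, z * g = g * z := by
    intro g
    apply Units.ext
    show z.1 * g.1 = g.1 * z.1
    rw [hc]; simp
  have h1 : ∀ k : ℕ, y ^ k * w * (y ^ k)⁻¹ = z ^ k * w := by
    intro k
    induction k with
    | zero => simp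
    | succ k ih =>
      have e1 : y ^ (k + 1) * w * (y ^ (k + 1))⁻¹ = y * (y ^ k * w * (y ^ k)⁻¹) * y⁻¹ := by rw [pow_succ']; group
      have e2 : y * z ^ k = z ^ k * y := (Commute.pow_left (hzc y) k).eq.symm
      rw [e1, ih, ← mul_assoc, e2]
      have e3 : z ^ k * y * w * y⁻¹ = z ^ k * (y * w * y⁻¹ * w⁻¹) * w := by group
      rw [e3, ← hz, ← pow_succ]
  have h2 : z ^ r = 1 := by
    have h3 := h1 r
    rw [hyr w hw, mul_inv_cancel_right] at h3
    exact right_eq_mul.1 h3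
  obtain ⟨k, hk⟩ := h.two
  have h4 : z ^ 2 ^ k = 1 := by
    have : (⟨z, hzR⟩ : R) ^ Nat.card R = 1 := pow_card_eq_one'
    rw [hk] at this
    exact congrArg Subtype.val this
  have h5 : orderOf z ∣ Nat.gcd r (2 ^ k) := Nat.dvd_gcd (orderOf_dvd_of_pow_eq_one h2) (orderOf_dvd_of_pow_eq_one h4)
  have h6 : Nat.gcd r (2 ^ k) = 1 := Nat.Coprime.pow_right k (Nat.coprime_two_right.2 hodd)
  rw [h6] at h5
  have h7 : z = 1 := orderOf_eq_one_iff.1 (Nat.dvd_one.1 h5)
  rw [h7] at hc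
  obtain ⟨i⟩ := h.ne_iota
  have h8 := congrFun (congrFun hc i) i
  simp at h8
  exact h8.symm

/-- the Casimir sum -/
theorem casimir [Fintype R] (M : Matrix ι ι F) : ∑ w : R, w.1.1 * M * (w.1⁻¹).1 = ((Nat.card R : F) * M.trace / 4) • (1 : Matrix ι ι F) := by
  obtain ⟨c, hc⟩ := h.irr (∑ w : R, w.1.1 * M * (w.1⁻¹).1) (by
    intro x hx
    rw [Finset.sum_mul, Finset.mul_sum]
    -- reindex by `w ↦ x * w`
    have h1 : ∑ w : R, x.1 * (w.1.1 * M * (w.1⁻¹).1) = ∑ w : R, (((⟨x, hx⟩ * w : R).1.1) * M * ((⟨x, hx⟩ * w : R).1⁻¹).1) * x.1 := by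
      apply Finset.sum_congr rfl
      intro w _
      have e1 : ((⟨x, hx⟩ * w : R).1⁻¹).1 * x.1 = (w.1⁻¹).1 := by
        rw [← Units.val_mul]
        congr 1
        show (x * w.1)⁻¹ * x = w.1⁻¹
        group
      have e2 : ((⟨x, hx⟩ * w : R).1.1) = x.1 * w.1.1 := rfl
      rw [Matrix.mul_assoc (_ * M), e1, e2]
      simp only [Matrix.mul_assoc]
    rw [h1]
    exact (Equiv.sum_comp (Equiv.mulLeft (⟨x, hx⟩ : R)) (fun w : R => w.1.1 * M * (w.1⁻¹).1 * x.1)).symm)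
  have h4 : (4 : F) ≠ 0 := by
    have : (4 : F) = 2 * 2 := by norm_num
    rw [this]; exact mul_ne_zero h.char h.char
  have h2 := congrArg Matrix.trace hc
  rw [Matrix.trace_sum, Matrix.trace_smul, Matrix.trace_one, h.dim] at h2
  have h3 : ∀ w : R, (w.1.1 * M * (w.1⁻¹).1).trace = M.trace := by
    intro w
    rw [Matrix.trace_mul_comm, ← Matrix.mul_assoc, h.inv_l, Matrix.one_mul]
  rw [Finset.sum_congr rfl (fun w _ => h3 w), Finset.sum_const, Finset.card_univ, nsmul_eq_mul, smul_eq_mul,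
    ← Nat.card_eq_fintype_card] at h2
  rw [hc]
  congr 1
  rw [h2]
  push_cast
  field_simp

/-- the trace identity -/
theorem trace_id {y : GL ι F} {r : ℕ} (hodd : Odd r) (hyr : ∀ w ∈ R, y ^ r * w = w * y ^ r)
    (hy : y ∈ Subgroup.normalizer (R : Set (GL ι F))) :
    (Nat.card R : F) * (y.1.trace * (y⁻¹).1.trace) = 16 * Nat.card (CR R y) := by
  classical
  have := h.fin
  haveI : Fintype R := Fintype.ofFinite R
  obtain ⟨i₀⟩ := h.ne_iota
  have h4 : (4 : F) ≠ 0 := by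
    have : (4 : F) = 2 * 2 := by norm_num
    rw [this]; exact mul_ne_zero h.char h.char
  have h1 := h.casimir (y⁻¹).1
  have h2 : ∑ w : R, (y.1 * (w.1.1 * (y⁻¹).1 * (w.1⁻¹).1)).trace = (Nat.card R : F) * (y.1.trace * (y⁻¹).1.trace) / 4 := by
    rw [← Matrix.trace_sum, ← Finset.mul_sum, h1, Matrix.mul_smul, Matrix.mul_one, Matrix.trace_smul, smul_eq_mul]
    ring
  have h3 : ∀ w : R, (y.1 * (w.1.1 * (y⁻¹).1 * (w.1⁻¹).1)).trace = if w ∈ CR R y then 4 else 0 := by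
    intro w
    have e1 : y.1 * (w.1.1 * (y⁻¹).1 * (w.1⁻¹).1) = (y * w.1 * y⁻¹ * w.1⁻¹).1 := by
      simp only [Units.val_mul, Matrix.mul_assoc]
    rw [e1]
    split_ifs with hw
    · have : y * w.1 * y⁻¹ * w.1⁻¹ = 1 := by rw [mem_CR.1 hw]; group
      rw [this, Units.val_one, Matrix.trace_one, h.dim]; norm_num
    · apply h.trace_zero (mul_mem ((Subgroup.mem_normalizer_iff.1 hy w.1).1 w.2) (inv_mem w.2))
      intro c hc
      have hc1 := h.eq_one_of_scalar hodd hyr hy w.2 hc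
      rw [hc1, one_smul] at hc
      apply hw
      rw [mem_CR]
      have h5 : y * w.1 * y⁻¹ * w.1⁻¹ = 1 := Units.ext hc
      have h6 := mul_inv_eq_one.1 h5
      rwa [mul_inv_eq_iff_eq_mul] at h6
  rw [Finset.sum_congr rfl (fun w _ => h3 w), Finset.sum_ite, Finset.sum_const_zero, add_zero, Finset.sum_const, nsmul_eq_mul] at h2
  have h5 : (Finset.univ.filter fun w : R => w ∈ CR R y).card = Nat.card (CR R y) := by
    rw [Nat.card_eq_fintype_card, Fintype.card_subtype]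
  rw [h5] at h2
  field_simp at h2
  linear_combination -h2

/-- a partner commuting with `y` -/
theorem fixed_partner {y : GL ι F} {r : ℕ} [hr : Fact r.Prime] (hodd : Odd r) (hyr : ∀ w ∈ R, y ^ r * w = w * y ^ r)
    (hy : y ∈ Subgroup.normalizer (R : Set (GL ι F))) {c : GL ι F} (hc : c ∈ R) (hcn : ∀ a : F, c.1 ≠ a • (1 : Matrix ι ι F))
    (hyc : y * c = c * y) : ∃ w ∈ R, y * w = w * y ∧ c.1 * w.1 = -(w.1 * c.1) := by
  classical
  have := h.fin
  haveI : Fintype R := Fintype.ofFinite R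
  have hycm : y.1 * c.1 = c.1 * y.1 := congrArg Units.val hyc
  let P : R → Prop := fun w => c.1 * w.1.1 = -(w.1.1 * c.1)
  have hmem : ∀ w : R, y * w * y⁻¹ ∈ R := fun w => (Subgroup.mem_normalizer_iff.1 hy w.1).1 w.2
  have hP : ∀ w : R, P w → P ⟨y * w * y⁻¹, hmem w⟩ := by
    intro w hw
    have hw' : c.1 * w.1.1 = -(w.1.1 * c.1) := hw
    show c.1 * (y.1 * w.1.1 * (y⁻¹).1) = -((y.1 * w.1.1 * (y⁻¹).1) * c.1)
    have e1 : (y⁻¹).1 * c.1 = c.1 * (y⁻¹).1 := by
      have : y⁻¹ * c = c * y⁻¹ := by rw [inv_mul_eq_iff_eq_mul, ← mul_assoc, hyc, mul_inv_cancel_right]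
      exact congrArg Units.val this
    calc c.1 * (y.1 * w.1.1 * (y⁻¹).1) = (c.1 * y.1) * w.1.1 * (y⁻¹).1 := by simp only [Matrix.mul_assoc]
      _ = y.1 * (c.1 * w.1.1) * (y⁻¹).1 := by rw [← hycm]; simp only [Matrix.mul_assoc]
      _ = -(y.1 * w.1.1 * (c.1 * (y⁻¹).1)) := by rw [hw']; simp only [Matrix.mul_neg, Matrix.neg_mul, Matrix.mul_assoc]
      _ = _ := by rw [← e1]; simp only [Matrix.mul_assoc]
  let f : Function.End {w : R // P w} := fun w => ⟨⟨y * w.1.1 * y⁻¹, hmem w.1⟩, hP w.1 w.2⟩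
  have hf : ∀ k : ℕ, ∀ w : {w : R // P w}, ((f ^ k) w).1.1 = y ^ k * w.1.1 * (y ^ k)⁻¹ := by
    intro k
    induction k with
    | zero =>
      intro w
      show w.1.1 = y ^ 0 * w.1.1 * (y ^ 0)⁻¹
      simp
    | succ k ih =>
      intro w
      have : (f ^ (k + 1)) w = f ((f ^ k) w) := by rw [pow_succ']; rfl
      rw [this]
      show y * ((f ^ k) w).1.1 * y⁻¹ = _
      rw [ih, pow_succ']
      group
  have h1 : f ^ r ^ 1 = 1 := by
    funext w
    apply Subtype.ext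
    apply Subtype.ext
    rw [pow_one, hf, hyr w.1.1 w.1.2, mul_inv_cancel_right]
    rfl
  have h2 := Equiv.Perm.card_fixedPoints_modEq h1
  obtain ⟨u, hu, hcu⟩ := h.partner hc hcn
  -- the set has half the size
  have hhalf : Fintype.card R = 2 * Fintype.card {w : R // P w} := by
    have hfwd : ∀ w : R, P w → ¬ P (⟨u, hu⟩ * w) := by
      intro w hw hneg
      have hw' : c.1 * w.1.1 = -(w.1.1 * c.1) := hw
      have hneg' : c.1 * (u.1 * w.1.1) = -((u.1 * w.1.1) * c.1) := hneg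
      have e2 : c.1 * (u.1 * w.1.1) = (u.1 * w.1.1) * c.1 := by
        rw [← Matrix.mul_assoc, hcu, Matrix.neg_mul, Matrix.mul_assoc, hw', Matrix.mul_neg, neg_neg, Matrix.mul_assoc]
      rw [e2] at hneg'
      exact h.ne_neg (x := u * w.1 * c) hneg'
    have hbwd : ∀ w : R, ¬ P w → P (⟨u, hu⟩⁻¹ * w) := by
      intro w hw
      have hw' : c.1 * w.1.1 = w.1.1 * c.1 := (h.comm c hc w.1 w.2).resolve_right hw
      have hcu' : c.1 * (u⁻¹).1 = -((u⁻¹).1 * c.1) := by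
        have e3 : (u⁻¹).1 * (c.1 * u.1) * (u⁻¹).1 = (u⁻¹).1 * (-(u.1 * c.1)) * (u⁻¹).1 := by rw [hcu]
        have e4 : (u⁻¹).1 * (c.1 * u.1) * (u⁻¹).1 = (u⁻¹).1 * c.1 := by
          rw [Matrix.mul_assoc, Matrix.mul_assoc, h.inv_r, Matrix.mul_one]
        have e5 : (u⁻¹).1 * (-(u.1 * c.1)) * (u⁻¹).1 = -(c.1 * (u⁻¹).1) := by
          rw [Matrix.mul_neg, ← Matrix.mul_assoc, h.inv_l, Matrix.one_mul, Matrix.neg_mul]
        rw [e4, e5] at e3
        rw [e3, neg_neg]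
      show c.1 * ((u⁻¹).1 * w.1.1) = -(((u⁻¹).1 * w.1.1) * c.1)
      rw [← Matrix.mul_assoc, hcu', Matrix.neg_mul, Matrix.mul_assoc, hw', Matrix.mul_assoc]
    have e : {w : R // P w} ≃ {w : R // ¬ P w} :=
      (Equiv.mulLeft (⟨u, hu⟩ : R)).subtypeEquiv (fun w => by
        constructor
        · exact hfwd w
        · intro hw
          have := hbwd _ hw
          have e6 : (⟨u, hu⟩ : R)⁻¹ * ((Equiv.mulLeft (⟨u, hu⟩ : R)) w) = w := by
            rw [Equiv.coe_mulLeft, inv_mul_cancel_left]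
          rwa [e6] at this)
    have h3 := Fintype.card_congr e
    have h4 := Fintype.card_subtype_compl P
    have h5 := Fintype.card_subtype_le P
    omega
  by_contra hcon
  push Not at hcon
  have h0 : Fintype.card (Function.fixedPoints f) = 0 := by
    rw [Fintype.card_eq_zero_iff]
    refine ⟨fun w => ?_⟩
    have hw : f w.1 = w.1 := w.2
    have hw1 : y * w.1.1.1 * y⁻¹ = w.1.1.1 := congrArg (fun v => v.1.1) hw
    rw [mul_inv_eq_iff_eq_mul] at hw1
    exact hcon w.1.1.1 w.1.1.2 hw1 w.1.2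
  rw [h0] at h2
  have h3 : r ∣ Fintype.card {w : R // P w} := (Nat.modEq_zero_iff_dvd).1 h2
  obtain ⟨k, hk⟩ := h.two
  rw [Nat.card_eq_fintype_card, hhalf] at hk
  have h4 : r ∣ 2 ^ k := by rw [← hk]; exact Dvd.dvd.mul_left h3 2
  have h5 := hr.out.dvd_of_dvd_pow h4
  have h6 := (Nat.prime_dvd_prime_iff_eq hr.out Nat.prime_two).1 h5
  rw [h6] at hodd
  exact absurd hodd (by decide)

theorem Zs_le (y : GL ι F) : Zs R ≤ CR R y := by
  rintro w ⟨c, hc⟩
  rw [mem_CR]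
  apply Units.ext
  show y.1 * w.1.1 = w.1.1 * y.1
  rw [hc]; simp

theorem scalar_of_CR_top {y : GL ι F} (hC : CR R y = ⊤) : ∃ c : F, y.1 = c • (1 : Matrix ι ι F) := by
  apply h.irr
  intro x hx
  have : (⟨x, hx⟩ : R) ∈ CR R y := by rw [hC]; trivial
  exact congrArg Units.val (mem_CR.1 this)

/-- possible sizes of the centralizer -/
theorem card_cases {y : GL ι F} {r : ℕ} [hr : Fact r.Prime] (hodd : Odd r) (hyr : ∀ w ∈ R, y ^ r * w = w * y ^ r)
    (hy : y ∈ Subgroup.normalizer (R : Set (GL ι F))) (hyn : ∀ c : F, y.1 ≠ c • (1 : Matrix ι ι F)) :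
    (Nat.card (CR R y) = Nat.card (Zs R) ∧ (r = 3 ∨ r = 5)) ∨ (Nat.card (CR R y) = 4 * Nat.card (Zs R) ∧ r = 3) := by
  have := h.fin
  have hmod := card_fix_modEq (r := r) hy hyr
  rw [← card_CR] at hmod
  obtain ⟨k, hk⟩ := h.two
  have hZpos : 0 < Nat.card (Zs R) := Nat.card_pos
  have hsc := h.sc
  have hCk : Nat.card (CR R y) ∣ Nat.card R := Subgroup.card_subgroup_dvd_card _
  have hZC : Nat.card (Zs R) ∣ Nat.card (CR R y) := Subgroup.card_dvd_of_le (h.Zs_le y)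
  obtain ⟨m, hm⟩ := hZC
  have hm16 : m ∣ 16 := by
    rw [hm, hsc, mul_comm 16] at hCk
    exact Nat.dvd_of_mul_dvd_mul_left hZpos hCk
  have hm2 : m ∣ 2 ^ 4 := hm16
  obtain ⟨j, hj, hj'⟩ := (Nat.dvd_prime_pow Nat.prime_two).1 hm2
  -- `r` does not divide `card Z`
  have hrZ : ¬ r ∣ Nat.card (Zs R) := by
    intro hd
    have h1 : r ∣ 2 ^ k := by rw [← hk, hsc]; exact Dvd.dvd.mul_left hd 16
    have h2 := (Nat.prime_dvd_prime_iff_eq hr.out Nat.prime_two).1 (hr.out.dvd_of_dvd_pow h1)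
    rw [h2] at hodd
    exact absurd hodd (by decide)
  have hle : m ≤ 16 := Nat.le_of_dvd (by norm_num) hm16
  have hd : r ∣ 16 - m := by
    rw [hsc, hm] at hmod
    have h1 := (Nat.modEq_iff_dvd' (by rw [mul_comm]; exact Nat.mul_le_mul_right _ hle)).1 hmod.symm
    have h2 : 16 * Nat.card (Zs R) - Nat.card (Zs R) * m = (16 - m) * Nat.card (Zs R) := by
      rw [Nat.sub_mul, mul_comm m]
    rw [h2] at h1
    exact (hr.out.dvd_mul.1 h1).resolve_right hrZ
  have hodd2 : r ≠ 2 := by rintro rfl; exact absurd hodd (by decide)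
  have hm16' : m ≠ 16 := by
    intro h16
    obtain ⟨c, hc⟩ := h.scalar_of_CR_top (y := y) (Subgroup.eq_top_of_card_eq _ (by rw [hm, h16, hsc, mul_comm]))
    exact hyn c hc
  have hm2' : m ≠ 2 := by
    intro h2
    -- an element outside
    have hlt : Zs R < CR R y := by
      refine lt_of_le_of_ne (h.Zs_le y) ?_
      intro heq
      rw [← heq, h2] at hm
      omega
    obtain ⟨c, hcC, hcZ⟩ := SetLike.exists_of_lt hlt
    obtain ⟨w, hw, hyw, hcw⟩ := h.fixed_partner hodd hyr hy c.2 (fun a ha => hcZ ⟨a, ha⟩) (mem_CR.1 hcC)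
    -- the quotient has order two, so `w ∈ Z ∪ cZ`
    have hidx : (Zs R).relIndex (CR R y) = 2 := by
      have h3 := Subgroup.relIndex_mul_relIndex (⊥ : Subgroup R) (Zs R) (CR R y) bot_le (h.Zs_le y)
      rw [Subgroup.relIndex_bot_left, Subgroup.relIndex_bot_left, hm, h2] at h3
      exact Nat.eq_of_mul_eq_mul_left hZpos h3
    have hwC : (⟨w, hw⟩ : R) ∈ CR R y := mem_CR.2 hyw
    have hwZ : (⟨w, hw⟩ : R) ∉ Zs R := by
      rintro ⟨a, ha⟩
      have ha' : w.1 = a • (1 : Matrix ι ι F) := ha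
      have h5 : c.1.1 * w.1 = w.1 * c.1.1 := by rw [ha']; simp
      rw [h5] at hcw
      exact h.ne_neg (x := w * c.1) hcw
    have h6 := (Subgroup.relIndex_eq_two_iff).1 hidx
    have h7 : (c⁻¹ * (⟨w, hw⟩ : R)) ∈ Zs R := by
      by_contra hne
      have h8 : ((Zs R).subgroupOf (CR R y)).index = 2 := hidx
      have h9 := (Subgroup.mul_mem_iff_of_index_two h8 (a := (⟨c⁻¹, inv_mem hcC⟩ : CR R y)) (b := ⟨⟨w, hw⟩, hwC⟩))
      rw [Subgroup.mem_subgroupOf, Subgroup.mem_subgroupOf, Subgroup.mem_subgroupOf] at h9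
      apply hne
      apply h9.2
      constructor
      · intro h10
        exact absurd ((Subgroup.inv_mem_iff _).1 h10) hcZ
      · intro h10
        exact absurd h10 hwZ
    obtain ⟨a, ha⟩ := h7
    have ha' : (c.1⁻¹).1 * w.1 = a • (1 : Matrix ι ι F) := ha
    have h11 : w.1 = a • c.1.1 := by
      have h12 := congrArg (fun M => c.1.1 * M) ha'
      simp only [← Matrix.mul_assoc, h.inv_r, Matrix.one_mul, Matrix.mul_smul, Matrix.mul_one] at h12
      exact h12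
    have h13 : c.1.1 * w.1 = w.1 * c.1.1 := by rw [h11]; simp
    rw [h13] at hcw
    exact h.ne_neg (x := w * c.1) hcw
  have hj5 : j = 0 ∨ j = 1 ∨ j = 2 ∨ j = 3 ∨ j = 4 := by omega
  rcases hj5 with rfl | rfl | rfl | rfl | rfl
  · left
    have h1 : r ∣ 3 * 5 := by
      have := hd; rw [hj'] at this; exact this
    refine ⟨by rw [hm, hj']; ring, ?_⟩
    rcases hr.out.dvd_mul.1 h1 with h2 | h2
    · exact Or.inl ((Nat.prime_dvd_prime_iff_eq hr.out Nat.prime_three).1 h2)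
    · exact Or.inr ((Nat.prime_dvd_prime_iff_eq hr.out Nat.prime_five).1 h2)
  · exact absurd hj' hm2'
  · right
    refine ⟨by rw [hm, hj']; ring, ?_⟩
    have h1 : r ∣ 2 ^ 2 * 3 := by
      have := hd; rw [hj'] at this; exact this
    rcases hr.out.dvd_mul.1 h1 with h2 | h2
    · exact absurd ((Nat.prime_dvd_prime_iff_eq hr.out Nat.prime_two).1 (hr.out.dvd_of_dvd_pow h2)) hodd2
    · exact (Nat.prime_dvd_prime_iff_eq hr.out Nat.prime_three).1 h2
  · exfalso
    have h1 : r ∣ 2 ^ 3 := by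
      have := hd; rw [hj'] at this; exact this
    exact hodd2 ((Nat.prime_dvd_prime_iff_eq hr.out Nat.prime_two).1 (hr.out.dvd_of_dvd_pow h1))
  · exact absurd hj' hm16'

end XR

end Cfsg.Agent.Lib.XR
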