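import Cfsg.Agent.Lib.XR1
import Cfsg.Agent.S3762

/-! # Symplectic type 2-groups in dimension four: homologies and transvections; construction of the structure -/

set_option autoImplicit false
set_option linter.dupNamespace false
set_option linter.style.haveILetI false

namespace Cfsg.Agent.Lib.XR

open Matrix Module Cfsg.Agent.Lib.NormTool
open scoped MatrixGroups commutatorElement

variable {F : Type*} [Field F] {ι : Type} [Fintype ι] [DecidableEq ι]

namespace XR

variable {R : Subgroup (GL ι F)} (h : XR R)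
include h

/-- squares are scalar -/
theorem sq_scalar {x : GL ι F} (hx : x ∈ R) : ∃ c : F, x.1 * x.1 = c • (1 : Matrix ι ι F) := by
  apply h.irr
  intro y hy
  rcases h.comm x hx y hy with e | e
  · rw [Matrix.mul_assoc, e, ← Matrix.mul_assoc, e, Matrix.mul_assoc]
  · rw [Matrix.mul_assoc, e, Matrix.mul_neg, ← Matrix.mul_assoc, e, Matrix.neg_mul, neg_neg, Matrix.mul_assoc]

/-- elements of `R` fixing a subspace of dimension two -/
theorem fix_two {t : GL ι F} (ht : t ∈ R) (ht1 : t ≠ 1) {U : Submodule F (ι → F)} (hU : 2 ≤ finrank F U)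
    (htU : ∀ u ∈ U, t.1 *ᵥ u = u) : (∀ x, t.1 *ᵥ (t.1 *ᵥ x) = x) ∧ ∀ x, x + t.1 *ᵥ x ∈ U := by
  have hne : ∃ u ∈ U, u ≠ 0 := by
    by_contra hcon
    push Not at hcon
    have : U = ⊥ := by rw [eq_bot_iff]; intro u hu; rw [Submodule.mem_bot]; exact hcon u hu
    rw [this, finrank_bot] at hU
    omega
  obtain ⟨u₀, hu₀, hu₀0⟩ := hne
  obtain ⟨c, hc⟩ := h.sq_scalar ht
  have hc1 : c = 1 := by
    have h1 : (t.1 * t.1) *ᵥ u₀ = u₀ := by rw [← Matrix.mulVec_mulVec, htU _ hu₀, htU _ hu₀]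
    rw [hc, Matrix.smul_mulVec, Matrix.one_mulVec] at h1
    have h2 : (c - 1) • u₀ = 0 := by rw [sub_smul, h1, one_smul, sub_self]
    exact sub_eq_zero.1 ((smul_eq_zero.1 h2).resolve_right hu₀0)
  have hsq : ∀ x, t.1 *ᵥ (t.1 *ᵥ x) = x := by
    intro x
    rw [Matrix.mulVec_mulVec, hc, hc1, one_smul, Matrix.one_mulVec]
  have hns : ∀ c : F, t.1 ≠ c • (1 : Matrix ι ι F) := by
    intro a ha
    apply ht1
    have h1 := htU _ hu₀
    rw [ha, Matrix.smul_mulVec, Matrix.one_mulVec] at h1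
    have h2 : (a - 1) • u₀ = 0 := by rw [sub_smul, h1, one_smul, sub_self]
    have h3 : a = 1 := sub_eq_zero.1 ((smul_eq_zero.1 h2).resolve_right hu₀0)
    apply Units.ext
    rw [ha, h3, one_smul]; rfl
  obtain ⟨v, hv, htv⟩ := h.partner ht hns
  let T : Module.End F (ι → F) := Matrix.toLin' t.1
  let A : Submodule F (ι → F) := Module.End.eigenspace T 1
  let B : Submodule F (ι → F) := Module.End.eigenspace T (-1)
  have hA : ∀ x, x ∈ A ↔ t.1 *ᵥ x = x := by
    intro x; rw [Module.End.mem_eigenspace_iff, one_smul]; rfl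
  have hB : ∀ x, x ∈ B ↔ t.1 *ᵥ x = -x := by
    intro x; rw [Module.End.mem_eigenspace_iff, neg_smul, one_smul]; rfl
  have hvinj : Function.Injective (Matrix.toLin' v.1) := by
    intro x y hxy
    have e : ∀ x, (v⁻¹).1 *ᵥ (v.1 *ᵥ x) = x := fun x => by rw [Matrix.mulVec_mulVec, h.inv_l, Matrix.one_mulVec]
    rw [← e x, ← e y]
    exact congrArg _ hxy
  have hAB : A.map (Matrix.toLin' v.1) ≤ B := by
    rintro _ ⟨x, hx, rfl⟩
    rw [hB]
    have hx' := (hA x).1 hx
    rw [Matrix.toLin'_apply, Matrix.mulVec_mulVec, htv, Matrix.neg_mulVec, ← Matrix.mulVec_mulVec, hx']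
  have h1 : finrank F A ≤ finrank F B := by
    have e0 := Submodule.finrank_mono hAB
    rwa [← LinearEquiv.finrank_eq (Submodule.equivMapOfInjective (Matrix.toLin' v.1) hvinj A)] at e0
  have hdis : A ⊓ B = ⊥ := by
    rw [eq_bot_iff]
    rintro x ⟨hx1, hx2⟩
    have e1 := (hA x).1 hx1
    have e2 := (hB x).1 hx2
    rw [e1] at e2
    have : (2 : F) • x = 0 := by rw [two_smul]; nth_rewrite 1 [e2]; exact neg_add_cancel _
    exact (smul_eq_zero.1 this).resolve_left h.char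
  have h2 := Submodule.finrank_sup_add_finrank_inf_eq A B
  rw [hdis, finrank_bot] at h2
  have h3 := Submodule.finrank_le (A ⊔ B)
  rw [Module.finrank_fintype_fun_eq_card, h.dim] at h3
  have hUA : U ≤ A := fun u hu => (hA u).2 (htU u hu)
  have hUA' : U = A := Submodule.eq_of_le_of_finrank_le hUA (by omega)
  refine ⟨hsq, fun x => ?_⟩
  rw [hUA', hA, Matrix.mulVec_add, hsq, add_comm]

/-- elements of the normalizer with an eigenspace of codimension one are scalar -/
theorem homology {y : GL ι F} {r : ℕ} (hodd : Odd r) (hyr : ∀ w ∈ R, y ^ r * w = w * y ^ r)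
    (hy : y ∈ Subgroup.normalizer (R : Set (GL ι F))) {μ : F}
    (hE : finrank F (Module.End.eigenspace (Matrix.toLin' y.1) μ) = 3) : ∃ c : F, y.1 = c • (1 : Matrix ι ι F) := by
  apply h.irr
  intro w hw
  by_contra hcon
  have hne : y * w ≠ w * y := fun e => hcon (congrArg Units.val e)
  set w₁ := y * w * y⁻¹ with hw₁
  set w₂ := y * w₁ * y⁻¹ with hw₂
  have hw₁R : w₁ ∈ R := (Subgroup.mem_normalizer_iff.1 hy w).1 hw
  have hw₂R : w₂ ∈ R := (Subgroup.mem_normalizer_iff.1 hy w₁).1 hw₁R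
  have hne1 : w₁ ≠ w := by
    intro e
    apply hne
    rw [hw₁, mul_inv_eq_iff_eq_mul] at e
    exact e
  have hne2 : w₂ ≠ w := by
    intro e
    apply hne
    have e1 : Commute (y ^ 2) w := by
      show y ^ 2 * w = w * y ^ 2
      rw [hw₂, hw₁] at e
      have : y * (y * w * y⁻¹) * y⁻¹ = y ^ 2 * w * (y ^ 2)⁻¹ := by rw [pow_two]; group
      rw [this, mul_inv_eq_iff_eq_mul] at e
      exact e
    have e2 : Commute (y ^ r) w := hyr w hw
    obtain ⟨k, hk⟩ := hodd
    have e3 : Commute ((y ^ 2) ^ k) w := e1.pow_left k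
    have e4 : y = ((y ^ 2) ^ k)⁻¹ * y ^ r := by
      rw [hk, ← pow_mul, pow_succ, inv_mul_cancel_left]
    have e5 : Commute y w := by
      rw [e4]
      exact (e3.inv_left).mul_left e2
    exact e5.eq
  let H := Module.End.eigenspace (Matrix.toLin' y.1) μ
  have hH : ∀ x, x ∈ H ↔ y.1 *ᵥ x = μ • x := by
    intro x; rw [Module.End.mem_eigenspace_iff]; rfl
  have hμ : μ ≠ 0 := by
    rintro rfl
    have : H = ⊥ := by
      rw [eq_bot_iff]
      intro x hx
      have e := (hH x).1 hx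
      rw [zero_smul] at e
      have e2 : (y⁻¹).1 *ᵥ (y.1 *ᵥ x) = x := by rw [Matrix.mulVec_mulVec, h.inv_l, Matrix.one_mulVec]
      rw [e, Matrix.mulVec_zero] at e2
      exact e2.symm
    have hE' : finrank F H = 3 := hE
    rw [this, finrank_bot] at hE'
    omega
  let W : (ι → F) ≃ₗ[F] (ι → F) := Matrix.toLin'OfInv (M := w.1) (M' := (w⁻¹).1) (h.inv_r w) (h.inv_l w)
  have hW : ∀ x, W.symm x = w.1 *ᵥ x := fun x => rfl
  let U := H ⊓ H.comap (W.symm : (ι → F) →ₗ[F] (ι → F))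
  have hU : 2 ≤ finrank F U := by
    have e1 : finrank F (H.comap (W.symm : (ι → F) →ₗ[F] (ι → F))) = 3 := by
      have e0 : H.comap (W.symm : (ι → F) →ₗ[F] (ι → F)) = H.map (W : (ι → F) →ₗ[F] (ι → F)) := by
        rw [Submodule.map_equiv_eq_comap_symm]
      rw [e0, LinearEquiv.finrank_map_eq]
      exact hE
    have e2 := Submodule.finrank_sup_add_finrank_inf_eq H (H.comap (W.symm : (ι → F) →ₗ[F] (ι → F)))
    have e3 := Submodule.finrank_le (H ⊔ H.comap (W.symm : (ι → F) →ₗ[F] (ι → F)))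
    rw [Module.finrank_fintype_fun_eq_card, h.dim] at e3
    have hE' : finrank F H = 3 := hE
    show 2 ≤ finrank F ↥(H ⊓ H.comap (W.symm : (ι → F) →ₗ[F] (ι → F)))
    omega
  have hyU : ∀ u ∈ U, y.1 *ᵥ u = μ • u ∧ y.1 *ᵥ (w.1 *ᵥ u) = μ • (w.1 *ᵥ u) := by
    rintro u ⟨hu1, hu2⟩
    exact ⟨(hH u).1 hu1, (hH _).1 hu2⟩
  have hw₁y : w₁.1 * y.1 = y.1 * w.1 := by
    have : w₁ * y = y * w := by rw [hw₁]; group
    exact congrArg Units.val this
  have hw₂y : w₂.1 * y.1 = y.1 * w₁.1 := by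
    have : w₂ * y = y * w₁ := by rw [hw₂]; group
    exact congrArg Units.val this
  have hw₁U : ∀ u ∈ U, w₁.1 *ᵥ u = w.1 *ᵥ u := by
    intro u hu
    obtain ⟨e1, e2⟩ := hyU u hu
    have e3 : w₁.1 *ᵥ (y.1 *ᵥ u) = μ • (w.1 *ᵥ u) := by rw [Matrix.mulVec_mulVec, hw₁y, ← Matrix.mulVec_mulVec, e2]
    rw [e1, Matrix.mulVec_smul] at e3
    exact smul_right_injective _ hμ e3
  have hw₂U : ∀ u ∈ U, w₂.1 *ᵥ u = w.1 *ᵥ u := by
    intro u hu
    obtain ⟨e1, e2⟩ := hyU u hu
    have e3 : w₂.1 *ᵥ (y.1 *ᵥ u) = μ • (w.1 *ᵥ u) := by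
      rw [Matrix.mulVec_mulVec, hw₂y, ← Matrix.mulVec_mulVec, hw₁U u hu, e2]
    rw [e1, Matrix.mulVec_smul] at e3
    exact smul_right_injective _ hμ e3
  have hfix : ∀ w' : GL ι F, (∀ u ∈ U, w'.1 *ᵥ u = w.1 *ᵥ u) → ∀ u ∈ U, (w⁻¹ * w').1 *ᵥ u = u := by
    intro w' hw' u hu
    rw [Units.val_mul, ← Matrix.mulVec_mulVec, hw' u hu, Matrix.mulVec_mulVec, h.inv_l, Matrix.one_mulVec]
  obtain ⟨hs1, hs2⟩ := h.fix_two (mul_mem (inv_mem hw) hw₁R) (fun e => hne1 (inv_mul_eq_one.1 e).symm) hU (hfix w₁ hw₁U)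
  obtain ⟨ht1, ht2⟩ := h.fix_two (mul_mem (inv_mem hw) hw₂R) (fun e => hne2 (inv_mul_eq_one.1 e).symm) hU (hfix w₂ hw₂U)
  set s := w⁻¹ * w₁ with hs
  set t := w⁻¹ * w₂ with ht
  have hsR : s ∈ R := mul_mem (inv_mem hw) hw₁R
  have htR : t ∈ R := mul_mem (inv_mem hw) hw₂R
  have hsU := hfix w₁ hw₁U
  have htU := hfix w₂ hw₂U
  have hcomm : s.1 * t.1 = t.1 * s.1 := by
    rcases h.comm s hsR t htR with e | e
    · exact e
    · exfalso
      obtain ⟨u, hu, hu0⟩ : ∃ u ∈ U, u ≠ 0 := by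
        by_contra hcon
        push Not at hcon
        have : U = ⊥ := by rw [eq_bot_iff]; intro u hu; rw [Submodule.mem_bot]; exact hcon u hu
        rw [this, finrank_bot] at hU
        omega
      have e1 := congrArg (fun M => M *ᵥ u) e
      simp only [Matrix.neg_mulVec, ← Matrix.mulVec_mulVec] at e1
      rw [htU u hu, hsU u hu, htU u hu] at e1
      have : (2 : F) • u = 0 := by rw [two_smul]; nth_rewrite 1 [e1]; exact neg_add_cancel _
      exact hu0 ((smul_eq_zero.1 this).resolve_left h.char)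
  have hst : s = t := by
    apply Units.ext
    have key : ∀ x, s.1 *ᵥ (t.1 *ᵥ x) = x := by
      intro x
      have e1 : s.1 *ᵥ x - t.1 *ᵥ x ∈ U := by
        have := U.sub_mem (hs2 x) (ht2 x)
        rwa [add_sub_add_left_eq_sub] at this
      have e2 := hsU _ e1
      have e3 := htU _ e1
      rw [Matrix.mulVec_sub, hs1] at e2
      rw [Matrix.mulVec_sub, ht1] at e3
      have e4 : t.1 *ᵥ (s.1 *ᵥ x) = s.1 *ᵥ (t.1 *ᵥ x) := by rw [Matrix.mulVec_mulVec, Matrix.mulVec_mulVec, hcomm]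
      rw [e4] at e3
      have e5 : (2 : F) • (s.1 *ᵥ (t.1 *ᵥ x)) = (2 : F) • x := by
        rw [two_smul, two_smul]
        have e6 : x - s.1 *ᵥ (t.1 *ᵥ x) = s.1 *ᵥ (t.1 *ᵥ x) - x := e2.trans e3.symm
        have := sub_eq_sub_iff_add_eq_add.1 e6
        exact this.symm
      exact smul_right_injective _ h.char e5
    apply Matrix.toLin'.injective
    apply LinearMap.ext
    intro x
    rw [Matrix.toLin'_apply, Matrix.toLin'_apply]
    have := key (t.1 *ᵥ x)
    rw [ht1] at this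
    exact this
  have h12 : w₁ = w₂ := mul_left_cancel hst
  apply hne1
  rw [hw₂] at h12
  have : y * w * y⁻¹ = y * w₁ * y⁻¹ := h12
  exact (mul_left_cancel (mul_right_cancel this)).symm

end XR

section build

open Cfsg.Geo

variable {R : Subgroup (GL ι F)}

theorem comm_or [Finite R] [Nonempty ι] (hS : IsSymplecticTypeGroup 2 R) (hI : ActsAbsolutelyIrreducibly (matrixSet R)) :
    ∀ x ∈ R, ∀ y ∈ R, x.1 * y.1 = y.1 * x.1 ∨ x.1 * y.1 = -(y.1 * x.1) := by
  haveI : Fact (Nat.Prime 2) := ⟨Nat.prime_two⟩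
  have hexp : ∀ g : R, orderOf g ∣ 4 := by
    intro g
    have := Monoid.order_dvd_exponent g
    rwa [hS.exponent_eq] at this
  obtain ⟨E, C, hEC, hsup, hE, hC⟩ := S3762.result hS.pGroup hS.cyclic_of_characteristic
  have hcyc : IsCyclic C := by
    rcases hC with hC | ⟨-, h16, hC⟩
    · exact hC
    · exfalso
      have hord : ∀ g : C, orderOf g ∣ 4 := fun g => by
        have := hexp g.1
        rwa [Subgroup.orderOf_coe] at this
      rcases hC with ⟨m, ⟨e⟩⟩ | ⟨m, ⟨e⟩⟩ | ⟨n, hn, -, x, -, hx, -⟩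
      · have h1 : Nat.card C = 2 * m := by rw [Nat.card_congr e.toEquiv, DihedralGroup.nat_card]
        have h2 := hord (e.symm (DihedralGroup.r 1))
        rw [MulEquiv.orderOf_eq, DihedralGroup.orderOf_r_one] at h2
        have := Nat.le_of_dvd (by norm_num) h2
        omega
      · have hm0 : NeZero m := ⟨by
          rintro rfl
          have hfin : Finite (QuaternionGroup 0) := Finite.of_equiv C e.toEquiv
          have h2 := hord (e.symm (QuaternionGroup.a 1))
          rw [MulEquiv.orderOf_eq, QuaternionGroup.orderOf_a_one] at h2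
          simp at h2⟩
        have h1 : Nat.card C = 4 * m := by rw [Nat.card_congr e.toEquiv, Nat.card_eq_fintype_card, QuaternionGroup.card]
        have h2 := hord (e.symm (QuaternionGroup.a 1))
        rw [MulEquiv.orderOf_eq, QuaternionGroup.orderOf_a_one] at h2
        have := Nat.le_of_dvd (by norm_num) h2
        omega
      · have h2 := hord x
        rw [hx] at h2
        have h3 := Nat.le_of_dvd (by norm_num) h2
        have h4 : 2 ^ 3 ≤ 2 ^ n := Nat.pow_le_pow_right (by norm_num) hn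
        omega
  have hCab : ∀ a ∈ C, ∀ b ∈ C, a * b = b * a := by
    intro a ha b hb
    letI := hcyc.commGroup
    exact congrArg Subtype.val (mul_comm (⟨a, ha⟩ : C) ⟨b, hb⟩)
  let S : Subgroup R :=
    { carrier := {x | ∃ e ∈ E, ∃ c ∈ C, x = e * c}
      mul_mem' := by
        rintro _ _ ⟨e, he, c, hc, rfl⟩ ⟨e', he', c', hc', rfl⟩
        refine ⟨e * e', mul_mem he he', c * c', mul_mem hc hc', ?_⟩
        rw [mul_assoc, mul_assoc, ← mul_assoc c, ← hEC e' he' c hc, mul_assoc]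
      one_mem' := ⟨1, one_mem _, 1, one_mem _, (one_mul 1).symm⟩
      inv_mem' := by
        rintro _ ⟨e, he, c, hc, rfl⟩
        refine ⟨e⁻¹, inv_mem he, c⁻¹, inv_mem hc, ?_⟩
        rw [_root_.mul_inv_rev]
        exact (hEC _ (inv_mem he) _ (inv_mem hc)).symm }
  have hStop : S = ⊤ := by
    rw [eq_top_iff, ← hsup]
    apply sup_le
    · intro e he; exact ⟨e, he, 1, one_mem _, (mul_one e).symm⟩
    · intro c hc; exact ⟨1, one_mem _, c, hc, (one_mul c).symm⟩
  have hdec : ∀ x : R, ∃ e ∈ E, ∃ c ∈ C, x = e * c := fun x => by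
    have : x ∈ S := by rw [hStop]; trivial
    exact this
  -- commutators in `E`
  have hEz : ∀ e ∈ E, ∀ e' ∈ E, ∃ z : R, e * e' = z * (e' * e) ∧ z ^ 2 = 1 ∧ ∀ g : R, z * g = g * z := by
    intro e he e' he'
    rcases hE with hE | hE
    · rw [hE, Subgroup.mem_bot] at he he'
      exact ⟨1, by rw [he, he']; simp, one_pow 2, fun g => by rw [one_mul, mul_one]⟩
    · obtain ⟨⟨-, -, hcomm⟩, hcard⟩ := hE
      let z : E := ⁅(⟨e, he⟩ : E), ⟨e', he'⟩⁆
      have hz : z ∈ Subgroup.center E := by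
        rw [← hcomm, commutator_def]
        exact Subgroup.commutator_mem_commutator (Subgroup.mem_top _) (Subgroup.mem_top _)
      have hz2 : z ^ 2 = 1 := by
        have : (⟨z, hz⟩ : Subgroup.center E) ^ Nat.card (Subgroup.center E) = 1 := pow_card_eq_one'
        rw [hcard] at this
        exact congrArg Subtype.val this
      refine ⟨z.1, ?_, congrArg Subtype.val hz2, ?_⟩
      · have h1 : z.1 = e * e' * e⁻¹ * e'⁻¹ := rfl
        rw [h1]
        group
      · intro g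
        obtain ⟨f, hf, c, hc, rfl⟩ := hdec g
        have e1 : z.1 * f = f * z.1 := congrArg Subtype.val ((Subgroup.mem_center_iff.1 hz ⟨f, hf⟩).symm)
        rw [← mul_assoc, e1, mul_assoc, hEC z.1 z.2 c hc, mul_assoc]
  intro x hx y hy
  obtain ⟨e, he, c, hc, hxe⟩ := hdec ⟨x, hx⟩
  obtain ⟨e', he', c', hc', hye⟩ := hdec ⟨y, hy⟩
  obtain ⟨z, hz1, hz2, hz3⟩ := hEz e he e' he'
  have hxy : (⟨x, hx⟩ : R) * ⟨y, hy⟩ = z * (⟨y, hy⟩ * ⟨x, hx⟩) := by
    rw [hxe, hye]
    have h1 : e * c * (e' * c') = (e * e') * (c * c') := by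
      rw [mul_assoc, ← mul_assoc c, ← hEC e' he' c hc, mul_assoc, mul_assoc]
    have h2 : e' * c' * (e * c) = (e' * e) * (c' * c) := by
      rw [mul_assoc, ← mul_assoc c', ← hEC e he c' hc', mul_assoc, mul_assoc]
    rw [h1, h2, hz1, hCab c hc c' hc', mul_assoc]
  obtain ⟨a, ha⟩ := hI.2 z.1.1 (by
    rintro _ ⟨g, hg, rfl⟩
    exact congrArg (fun w : R => w.1.1) (hz3 ⟨g, hg⟩))
  have haa : a * a = 1 := by
    have h1 : z.1.1 * z.1.1 = 1 := by
      have := congrArg (fun w : R => w.1.1) hz2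
      simp only [pow_two] at this
      exact this
    rw [ha, Matrix.smul_mul, Matrix.one_mul, smul_smul] at h1
    obtain ⟨i⟩ := (inferInstance : Nonempty ι)
    have h2 := congrFun (congrFun h1 i) i
    simpa using h2
  have h3 : x.1 * y.1 = z.1.1 * (y.1 * x.1) := congrArg (fun w : R => w.1.1) hxy
  rw [ha, Matrix.smul_mul, Matrix.one_mul] at h3
  rcases mul_self_eq_one_iff.1 haa with rfl | rfl
  · left; rw [h3, one_smul]
  · right; rw [h3, neg_one_smul]

/-- the structure from the data -/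
theorem XR.mk' [Finite R] (h2 : (2 : F) ≠ 0) (hdim : Fintype.card ι = 4) (hS : IsSymplecticTypeGroup 2 R)
    (hI : ActsAbsolutelyIrreducibly (matrixSet R)) (hcard : Nat.card R = 16 * Nat.card (Subgroup.center R)) : XR R := by
  haveI : Nonempty ι := by rw [← Fintype.card_pos_iff, hdim]; norm_num
  have hZ : Zs R = Subgroup.center R := by
    ext w
    rw [mem_Zs, Subgroup.mem_center_iff]
    constructor
    · rintro ⟨c, hc⟩ g
      apply Subtype.ext
      apply Units.ext
      show g.1.1 * w.1.1 = w.1.1 * g.1.1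
      rw [hc]; simp
    · intro hw
      apply hI.2
      rintro _ ⟨g, hg, rfl⟩
      exact (congrArg (fun w : R => w.1.1) (hw ⟨g, hg⟩)).symm
  haveI : Fact (Nat.Prime 2) := ⟨Nat.prime_two⟩
  refine ⟨h2, inferInstance, hdim, comm_or hS hI, ?_, ?_, by rw [hZ, hcard]⟩
  · intro M hM
    apply hI.2
    rintro _ ⟨g, hg, rfl⟩
    exact hM g hg
  · exact (IsPGroup.iff_card).1 hS.pGroup

end build

end Cfsg.Agent.Lib.XR
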