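import Cfsg.Agent.Lib.XR2
import Cfsg.Agent.Lib.AschSp12

/-! # Symplectic type 2-groups in dimension four: generators -/

set_option autoImplicit false
set_option linter.dupNamespace false
set_option linter.style.haveILetI false

namespace Cfsg.Agent.Lib.XR

open Matrix Module Cfsg.Agent.Lib.NormTool
open scoped MatrixGroups

variable {F : Type*} [Field F] {ι : Type} [Fintype ι] [DecidableEq ι]

section adj

/-- correcting the commutation with a pair -/
theorem adj {a b w : GL ι F} (hab : a * b = -(b * a)) (ha : a * w = w * a ∨ a * w = -(w * a)) (hb : b * w = w * b ∨ b * w = -(w * b)) :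
    ∃ u : GL ι F, (u = 1 ∨ u = a ∨ u = b ∨ u = a * b) ∧ a * (u * w) = (u * w) * a ∧ b * (u * w) = (u * w) * b := by
  have hba : b * a = -(a * b) := by rw [hab, neg_neg]
  rcases ha with ha | ha <;> rcases hb with hb | hb
  · exact ⟨1, Or.inl rfl, by rw [one_mul, ha], by rw [one_mul, hb]⟩
  · refine ⟨a, Or.inr (Or.inl rfl), ?_, ?_⟩
    · rw [mul_assoc a w a, ha]
    · rw [← mul_assoc, hba, neg_mul, mul_assoc, hb, mul_neg, neg_neg, mul_assoc]
  · refine ⟨b, Or.inr (Or.inr (Or.inl rfl)), ?_, ?_⟩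
    · rw [← mul_assoc, hab, neg_mul, mul_assoc, ha, mul_neg, neg_neg, mul_assoc]
    · rw [mul_assoc b w b, hb]
  · refine ⟨a * b, Or.inr (Or.inr (Or.inr rfl)), ?_, ?_⟩
    · have e1 : (a * b * w) * a = a * (b * (w * a)) := by simp only [mul_assoc]
      have e2 : w * a = -(a * w) := by rw [ha, neg_neg]
      rw [e1, e2, mul_neg, ← mul_assoc b, hba, neg_mul, neg_neg, mul_assoc]
    · have e2 : w * b = -(b * w) := by rw [hb, neg_neg]
      rw [mul_assoc (a * b) w b, e2, mul_neg, ← mul_assoc b, ← mul_assoc b, hba]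
      simp only [neg_mul, mul_assoc]

theorem comm_u {a b z u : GL ι F} (hu : u = 1 ∨ u = a ∨ u = b ∨ u = a * b) (ha : a * z = z * a) (hb : b * z = z * b) : u * z = z * u := by
  rcases hu with rfl | rfl | rfl | rfl
  · rw [one_mul, mul_one]
  · exact ha
  · exact hb
  · rw [mul_assoc, hb, ← mul_assoc, ha, mul_assoc]

end adj

namespace XR

variable {R : Subgroup (GL ι F)} (h : XR R)
include h

theorem comm' {x y : GL ι F} (hx : x ∈ R) (hy : y ∈ R) : x * y = y * x ∨ x * y = -(y * x) := by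
  rcases h.comm x hx y hy with e | e
  · exact Or.inl (Units.ext e)
  · exact Or.inr (Units.ext e)

theorem partner' {x : GL ι F} (hx : x ∈ R) (hn : ∀ c : F, x.1 ≠ c • (1 : Matrix ι ι F)) : ∃ y ∈ R, x * y = -(y * x) := by
  obtain ⟨y, hy, e⟩ := h.partner hx hn
  exact ⟨y, hy, Units.ext e⟩

theorem ne_neg' (x : GL ι F) : x ≠ -x := fun e => h.ne_neg (x := x) (congrArg Units.val e)

/-- a commuting pair of anticommuting pairs -/
theorem exists_quad : ∃ a ∈ R, ∃ b ∈ R, ∃ c ∈ R, ∃ d ∈ R, a * b = -(b * a) ∧ c * d = -(d * c) ∧ a * c = c * a ∧ a * d = d * a ∧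
    b * c = c * b ∧ b * d = d * b := by
  have := h.fin
  have hsc := h.sc
  have hZpos : 0 < Nat.card (Zs R) := Nat.card_pos
  obtain ⟨a, ha, han⟩ : ∃ a ∈ R, ∀ c : F, a.1 ≠ c • (1 : Matrix ι ι F) := by
    by_contra hcon
    push Not at hcon
    have : Zs R = ⊤ := by
      rw [eq_top_iff]
      intro w _
      exact hcon w.1 w.2
    rw [this, Subgroup.card_top] at hsc
    have : 0 < Nat.card R := Nat.card_pos
    omega
  obtain ⟨b, hb, hab⟩ := h.partner' ha han
  obtain ⟨c, hc, hcn, hac, hbc⟩ : ∃ c ∈ R, (∀ s : F, c.1 ≠ s • (1 : Matrix ι ι F)) ∧ a * c = c * a ∧ b * c = c * b := by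
    by_contra hcon
    push Not at hcon
    have key : ∀ w : R, ∃ i : Fin 4, (![1, a, b, a * b] i) * w.1 ∈ R ∧ ∃ s : F, ((![1, a, b, a * b] i) * w.1).1 = s • (1 : Matrix ι ι F) := by
      intro w
      obtain ⟨u, hu, h1, h2⟩ := adj hab (h.comm' ha w.2) (h.comm' hb w.2)
      have huR : u ∈ R := by
        rcases hu with rfl | rfl | rfl | rfl
        · exact one_mem _
        · exact ha
        · exact hb
        · exact mul_mem ha hb
      have huw : u * w.1 ∈ R := mul_mem huR w.2
      have h3 : ∃ s : F, (u * w.1).1 = s • (1 : Matrix ι ι F) := by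
        by_contra hns
        push Not at hns
        exact hcon (u * w.1) huw hns h1 h2
      rcases hu with rfl | rfl | rfl | rfl
      · exact ⟨0, huw, h3⟩
      · exact ⟨1, huw, h3⟩
      · exact ⟨2, huw, h3⟩
      · exact ⟨3, huw, h3⟩
    choose i hi1 hi2 using key
    let f : R → Fin 4 × Zs R := fun w => (i w, ⟨⟨(![1, a, b, a * b] (i w)) * w.1, hi1 w⟩, hi2 w⟩)
    have hf : Function.Injective f := by
      intro w w' e
      have e1 : i w = i w' := congrArg Prod.fst e
      have e2 : (![1, a, b, a * b] (i w)) * w.1 = (![1, a, b, a * b] (i w')) * w'.1 := congrArg (fun p => p.2.1.1) e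
      rw [e1] at e2
      exact Subtype.ext (mul_left_cancel e2)
    have h1 := Nat.card_le_card_of_injective f hf
    rw [Nat.card_prod, Nat.card_eq_fintype_card (α := Fin 4), Fintype.card_fin] at h1
    omega
  obtain ⟨d₀, hd₀, hcd₀⟩ := h.partner' hc hcn
  obtain ⟨u, hu, h1, h2⟩ := adj hab (h.comm' ha hd₀) (h.comm' hb hd₀)
  have huR : u ∈ R := by
    rcases hu with rfl | rfl | rfl | rfl
    · exact one_mem _
    · exact ha
    · exact hb
    · exact mul_mem ha hb
  have huc := comm_u hu hac hbc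
  refine ⟨a, ha, b, hb, c, hc, u * d₀, mul_mem huR hd₀, hab, ?_, hac, h1, hbc, h2⟩
  rw [← mul_assoc, ← huc, mul_assoc, hcd₀, mul_neg, mul_assoc]

theorem sq' {w : GL ι F} (hw : w ∈ R) : ∃ c : F, (w * w).1 = c • (1 : Matrix ι ι F) := h.sq_scalar hw

end XR

section sys

variable {a b c d : GL ι F}

open Cfsg.Agent.Lib.AschESys (q4 PreSys preSys_q4 q4_commute)

/-- matrices commuting with the four generators are scalar -/
theorem scalar_of_comm4 [Nonempty ι] (h2 : (2 : F) ≠ 0) (hdim : Fintype.card ι = 4) (hab : a * b = -(b * a)) (hcd : c * d = -(d * c)) (hac : a * c = c * a)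
    (had : a * d = d * a) (hbc : b * c = c * b) (hbd : b * d = d * b) (haa : a * a = -1) (hbb : b * b = -1)
    (hcc : c * c = 1 ∨ c * c = -1) (hdd : d * d = 1 ∨ d * d = -1) {M : Matrix ι ι F} (ha : M * a.1 = a.1 * M) (hb : M * b.1 = b.1 * M)
    (hc : M * c.1 = c.1 * M) (hd : M * d.1 = d.1 * M) : ∃ s : F, M = s • (1 : Matrix ι ι F) := by
  have hval : ∀ {x y : GL ι F}, x = y → x.1 = y.1 := fun e => congrArg Units.val e
  have hba : b.1 * a.1 = -(a.1 * b.1) := by
    have : b * a = -(a * b) := by rw [hab, neg_neg]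
    exact hval this
  have hdc : d.1 * c.1 = -(c.1 * d.1) := by
    have : d * c = -(c * d) := by rw [hcd, neg_neg]
    exact hval this
  have hcc' : c.1 * c.1 = 1 ∨ c.1 * c.1 = -1 := by
    rcases hcc with e | e
    · exact Or.inl (hval e)
    · exact Or.inr (hval e)
  have hdd' : d.1 * d.1 = 1 ∨ d.1 * d.1 = -1 := by
    rcases hdd with e | e
    · exact Or.inl (hval e)
    · exact Or.inr (hval e)
  have hB := PreSys.prod h2 (preSys_q4 hdc hcc' hdd') hba (hval haa) (hval hbb)
    (q4_commute (hval hac) (hval had) (hval hbc) (hval hbd))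
  have h4 : ((Fintype.card ι : ℕ) : F) ≠ 0 := by
    rw [hdim]
    have : ((4 : ℕ) : F) = 2 * 2 := by norm_num
    rw [this]; exact mul_ne_zero h2 h2
  have hspan := hB.span_eq_top h2 h4 (by rw [hdim]; rfl)
  have hq : ∀ {x y : Matrix ι ι F}, M * x = x * M → M * y = y * M → ∀ i, M * q4 x y i = q4 x y i * M := by
    intro x y hx hy i
    fin_cases i
    · show M * 1 = 1 * M; rw [mul_one, one_mul]
    · exact hx
    · exact hy
    · show M * (x * y) = x * y * M
      rw [← mul_assoc, hx, mul_assoc, hy, mul_assoc]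
  have hcomm : ∀ N : Matrix ι ι F, M * N = N * M := by
    intro N
    have hN : N ∈ Submodule.span F (Set.range fun p : Fin 4 × Fin 4 => q4 a.1 b.1 p.1 * q4 c.1 d.1 p.2) := by
      rw [hspan]; trivial
    induction hN using Submodule.span_induction with
    | mem x hx =>
      obtain ⟨p, rfl⟩ := hx
      show M * (q4 a.1 b.1 p.1 * q4 c.1 d.1 p.2) = (q4 a.1 b.1 p.1 * q4 c.1 d.1 p.2) * M
      rw [← mul_assoc, hq ha hb, mul_assoc, hq hc hd, mul_assoc]
    | zero => rw [mul_zero, zero_mul]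
    | add x y _ _ hx hy => rw [mul_add, add_mul, hx, hy]
    | smul s x _ hx => rw [Matrix.mul_smul, Matrix.smul_mul, hx]
  obtain ⟨s, hs⟩ := Matrix.mem_range_scalar_of_commute_single (M := M) (fun i j _ => (hcomm _).symm)
  refine ⟨s, ?_⟩
  rw [← hs]
  ext i j
  simp [Matrix.scalar_apply, Matrix.diagonal_apply, Matrix.one_apply]

end sys

end Cfsg.Agent.Lib.XR
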