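import Cfsg.Agent.Lib.XR3

/-! # Symplectic type 2-groups in dimension four: elements of the normalizer -/

set_option autoImplicit false
set_option linter.dupNamespace false
set_option linter.style.haveILetI false

namespace Cfsg.Agent.Lib.XR

open Matrix Module Cfsg.Agent.Lib.NormTool
open scoped MatrixGroups

variable {F : Type*} [Field F] {ι : Type} [Fintype ι] [DecidableEq ι]

/-- membership in the normalizer -/
theorem mem_norm' {R : Subgroup (GL ι F)} [Finite R] {y : GL ι F} (hy : ∀ s ∈ R, y * s * y⁻¹ ∈ R) :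
    y ∈ Subgroup.normalizer (R : Set (GL ι F)) :=
  mem_norm_closure (Subgroup.closure_eq R) hy

namespace XR

variable {R : Subgroup (GL ι F)} (h : XR R)
include h

theorem neg_one_mem : (-1 : GL ι F) ∈ R := by
  obtain ⟨a, ha, b, hb, -, -, -, -, hab, -⟩ := h.exists_quad
  have : (-1 : GL ι F) = a * b * a⁻¹ * b⁻¹ := by
    rw [hab, neg_mul, neg_mul, mul_inv_cancel_right, mul_inv_cancel]
  rw [this]
  exact mul_mem (mul_mem (mul_mem ha hb) (inv_mem ha)) (inv_mem hb)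

theorem neg_mem {x : GL ι F} (hx : x ∈ R) : -x ∈ R := by
  have : -x = -1 * x := by rw [neg_one_mul]
  rw [this]; exact mul_mem h.neg_one_mem hx

/-- the controlled sign change -/
theorem exists_cz {x y : GL ι F} (hx : x ∈ R) (hy : y ∈ R) (hxy : x * y = y * x) (hxx : x * x = 1) (hyy : y * y = 1) :
    ∃ P : GL ι F, P ∈ Subgroup.normalizer (R : Set (GL ι F)) ∧ P * P = 1 ∧ P.1 = (2 : F)⁻¹ • (1 + x.1 + y.1 - x.1 * y.1) := by
  have := h.fin
  have h2 := h.char
  have mxy : x.1 * y.1 = y.1 * x.1 := congrArg Units.val hxy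
  have mxx : x.1 * x.1 = 1 := congrArg Units.val hxx
  have myy : y.1 * y.1 = 1 := congrArg Units.val hyy
  let N : Matrix ι ι F := 1 + x.1 + y.1 - x.1 * y.1
  have hNN : N * N = (4 : F) • (1 : Matrix ι ι F) := by
    have e1 : x.1 * (x.1 * y.1) = y.1 := by rw [← mul_assoc, mxx, one_mul]
    have e2 : y.1 * (x.1 * y.1) = x.1 := by rw [mxy, ← mul_assoc, myy, one_mul]
    have e3 : (x.1 * y.1) * x.1 = y.1 := by rw [mxy, mul_assoc, mxx, mul_one]
    have e4 : (x.1 * y.1) * y.1 = x.1 := by rw [mul_assoc, myy, mul_one]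
    have e5 : (x.1 * y.1) * (x.1 * y.1) = 1 := by rw [mul_assoc, e2, mxx]
    show (1 + x.1 + y.1 - x.1 * y.1) * (1 + x.1 + y.1 - x.1 * y.1) = _
    have : (1 + x.1 + y.1 - x.1 * y.1) * (1 + x.1 + y.1 - x.1 * y.1) =
        1 + x.1 + y.1 - x.1 * y.1 + (x.1 + x.1 * x.1 + x.1 * y.1 - x.1 * (x.1 * y.1)) +
        (y.1 + y.1 * x.1 + y.1 * y.1 - y.1 * (x.1 * y.1)) - (x.1 * y.1 + (x.1 * y.1) * x.1 + (x.1 * y.1) * y.1 - (x.1 * y.1) * (x.1 * y.1)) := by
      noncomm_ring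
    rw [this, e1, e2, e3, e4, e5, mxx, myy, ← mxy]
    module
  have hPP : ((2 : F)⁻¹ • N) * ((2 : F)⁻¹ • N) = 1 := by
    rw [Matrix.smul_mul, Matrix.mul_smul, hNN, smul_smul, smul_smul]
    have : (2 : F)⁻¹ * 2⁻¹ * 4 = 1 := by
      field_simp
      norm_num
    rw [this, one_smul]
  let P : GL ι F := ⟨(2 : F)⁻¹ • N, (2 : F)⁻¹ • N, hPP, hPP⟩
  have hP : P.1 = (2 : F)⁻¹ • N := rfl
  refine ⟨P, ?_, Units.ext hPP, rfl⟩
  -- conjugation
  have key : ∀ s s' : GL ι F, N * s.1 = s'.1 * N → s' ∈ R → P * s * P⁻¹ ∈ R := by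
    intro s s' e hs'
    have : P * s = s' * P := by
      apply Units.ext
      show ((2 : F)⁻¹ • N) * s.1 = s'.1 * ((2 : F)⁻¹ • N)
      rw [Matrix.smul_mul, e, Matrix.mul_smul]
    rw [this, mul_inv_cancel_right]
    exact hs'
  apply mem_norm'
  intro s hs
  rcases h.comm x hx s hs with e1 | e1 <;> rcases h.comm y hy s hs with e2 | e2
  · apply key s s _ hs
    show (1 + x.1 + y.1 - x.1 * y.1) * s.1 = s.1 * (1 + x.1 + y.1 - x.1 * y.1)
    have e3 : x.1 * y.1 * s.1 = s.1 * (x.1 * y.1) := by rw [mul_assoc, e2, ← mul_assoc, e1, mul_assoc]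
    rw [sub_mul, add_mul, add_mul, one_mul, e1, e2, e3]
    noncomm_ring
  · -- `s` commutes with `x`, anticommutes with `y`
    apply key s (s * x) _ (mul_mem hs hx)
    show (1 + x.1 + y.1 - x.1 * y.1) * s.1 = s.1 * x.1 * (1 + x.1 + y.1 - x.1 * y.1)
    have e3 : x.1 * y.1 * s.1 = -(s.1 * (x.1 * y.1)) := by rw [mul_assoc, e2, mul_neg, ← mul_assoc, e1, mul_assoc]
    have e4 : s.1 * x.1 * x.1 = s.1 := by rw [mul_assoc, mxx, mul_one]
    have e5 : s.1 * x.1 * (x.1 * y.1) = s.1 * y.1 := by rw [← mul_assoc, e4]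
    rw [sub_mul, add_mul, add_mul, one_mul, e1, e2, e3, mul_sub, mul_add, mul_add, mul_one, e4, e5]
    noncomm_ring
  · apply key s (s * y) _ (mul_mem hs hy)
    show (1 + x.1 + y.1 - x.1 * y.1) * s.1 = s.1 * y.1 * (1 + x.1 + y.1 - x.1 * y.1)
    have e3 : x.1 * y.1 * s.1 = -(s.1 * (x.1 * y.1)) := by rw [mul_assoc, e2, ← mul_assoc, e1, neg_mul, mul_assoc]
    have e4 : s.1 * y.1 * y.1 = s.1 := by rw [mul_assoc, myy, mul_one]
    have e5 : s.1 * y.1 * (x.1 * y.1) = s.1 * x.1 := by rw [mxy, ← mul_assoc, e4]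
    have e6 : s.1 * y.1 * x.1 = s.1 * (x.1 * y.1) := by rw [mul_assoc, mxy]
    rw [sub_mul, add_mul, add_mul, one_mul, e1, e2, e3, mul_sub, mul_add, mul_add, mul_one, e4, e5, e6]
    noncomm_ring
  · apply key s (-(s * (x * y))) _ (h.neg_mem (mul_mem hs (mul_mem hx hy)))
    show (1 + x.1 + y.1 - x.1 * y.1) * s.1 = -(s.1 * (x.1 * y.1)) * (1 + x.1 + y.1 - x.1 * y.1)
    have e3 : x.1 * y.1 * s.1 = s.1 * (x.1 * y.1) := by rw [mul_assoc, e2, mul_neg, ← mul_assoc, e1, neg_mul, neg_neg, mul_assoc]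
    have e4 : s.1 * (x.1 * y.1) * x.1 = s.1 * y.1 := by
      rw [mul_assoc, mxy, mul_assoc, mxx, mul_one]
    have e5 : s.1 * (x.1 * y.1) * y.1 = s.1 * x.1 := by
      rw [mul_assoc, mul_assoc, myy, mul_one]
    have e6 : s.1 * (x.1 * y.1) * (x.1 * y.1) = s.1 := by
      rw [← mul_assoc (s.1 * (x.1 * y.1)), e4, mul_assoc, myy, mul_one]
    rw [sub_mul, add_mul, add_mul, one_mul, e1, e2, e3, neg_mul, mul_sub, mul_add, mul_add, mul_one, e4, e5, e6]
    noncomm_ring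

/-- the reflections -/
theorem exists_refl {x y : GL ι F} (hx : x ∈ R) (hy : y ∈ R) (hxy : x * y = -(y * x)) (hxx : x * x = 1) (hyy : y * y = 1) :
    ∃ P : GL ι F, P ∈ Subgroup.normalizer (R : Set (GL ι F)) ∧ P.1 = x.1 - y.1 ∧ P * x = -(y * P) ∧ P * y = -(x * P) ∧
      (∀ s : GL ι F, x * s = -(s * x) → y * s = -(s * y) → P * s = -(s * P)) := by
  have := h.fin
  have h2 := h.char
  have mxy : x.1 * y.1 = -(y.1 * x.1) := congrArg Units.val hxy
  have mxx : x.1 * x.1 = 1 := congrArg Units.val hxx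
  have myy : y.1 * y.1 = 1 := congrArg Units.val hyy
  have hNN : (x.1 - y.1) * (x.1 - y.1) = (2 : F) • (1 : Matrix ι ι F) := by
    have : (x.1 - y.1) * (x.1 - y.1) = x.1 * x.1 - x.1 * y.1 - y.1 * x.1 + y.1 * y.1 := by noncomm_ring
    rw [this, mxx, mxy, myy]
    module
  have e22 : (2 : F)⁻¹ * 2 = 1 := inv_mul_cancel₀ h2
  let P : GL ι F := ⟨x.1 - y.1, (2 : F)⁻¹ • (x.1 - y.1), by rw [Matrix.mul_smul, hNN, smul_smul, e22, one_smul],
    by rw [Matrix.smul_mul, hNN, smul_smul, e22, one_smul]⟩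
  have hP : P.1 = x.1 - y.1 := rfl
  have hPx : P * x = -(y * P) := by
    apply Units.ext
    show (x.1 - y.1) * x.1 = -(y.1 * (x.1 - y.1))
    rw [sub_mul, mul_sub, mxx, myy]
    noncomm_ring
  have hPy : P * y = -(x * P) := by
    apply Units.ext
    show (x.1 - y.1) * y.1 = -(x.1 * (x.1 - y.1))
    rw [sub_mul, mul_sub, mxx, myy]
    noncomm_ring
  have hPs : ∀ s : GL ι F, x * s = -(s * x) → y * s = -(s * y) → P * s = -(s * P) := by
    intro s e1 e2
    have e1' : x.1 * s.1 = -(s.1 * x.1) := congrArg Units.val e1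
    have e2' : y.1 * s.1 = -(s.1 * y.1) := congrArg Units.val e2
    apply Units.ext
    show (x.1 - y.1) * s.1 = -(s.1 * (x.1 - y.1))
    rw [sub_mul, mul_sub, e1', e2']
    noncomm_ring
  have hPc : ∀ s : GL ι F, x * s = s * x → y * s = s * y → P * s = s * P := by
    intro s e1 e2
    have e1' : x.1 * s.1 = s.1 * x.1 := congrArg Units.val e1
    have e2' : y.1 * s.1 = s.1 * y.1 := congrArg Units.val e2
    apply Units.ext
    show (x.1 - y.1) * s.1 = s.1 * (x.1 - y.1)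
    rw [sub_mul, mul_sub, e1', e2']
  refine ⟨P, ?_, rfl, hPx, hPy, hPs⟩
  apply mem_norm'
  intro s hs
  have key : ∀ s s' : GL ι F, P * s = s' * P → s' ∈ R → P * s * P⁻¹ ∈ R := by
    intro s s' e hs'
    rw [e, mul_inv_cancel_right]; exact hs'
  have hyx : y * x = -(x * y) := by rw [hxy, neg_neg]
  rcases h.comm' hx hs with e1 | e1 <;> rcases h.comm' hy hs with e2 | e2
  · exact key s s (hPc s e1 e2) hs
  · -- `s = x (x s)`
    have e3 : x * (x * s) = (x * s) * x := by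
      have : (x * s) * x = x * (s * x) := mul_assoc x s x
      rw [this, e1]
    have e4 : y * (x * s) = (x * s) * y := by rw [← mul_assoc, hyx, neg_mul, mul_assoc, e2, mul_neg, neg_neg, mul_assoc]
    have e5 := hPc _ e3 e4
    apply key s (-(y * (x * s))) _ (h.neg_mem (mul_mem hy (mul_mem hx hs)))
    have e6 : s = x * (x * s) := by rw [← mul_assoc, hxx, one_mul]
    calc P * s = P * (x * (x * s)) := by rw [← e6]
      _ = (P * x) * (x * s) := by rw [mul_assoc]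
      _ = -(y * (P * (x * s))) := by rw [hPx, neg_mul, mul_assoc]
      _ = -(y * (x * s)) * P := by rw [e5]; simp only [neg_mul, mul_assoc]
  · have e3 : x * (y * s) = (y * s) * x := by rw [← mul_assoc, hxy, neg_mul, mul_assoc, e1, mul_neg, neg_neg, mul_assoc]
    have e4 : y * (y * s) = (y * s) * y := by
      have : (y * s) * y = y * (s * y) := mul_assoc y s y
      rw [this, e2]
    have e5 := hPc _ e3 e4
    apply key s (-(x * (y * s))) _ (h.neg_mem (mul_mem hx (mul_mem hy hs)))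
    have e6 : s = y * (y * s) := by rw [← mul_assoc, hyy, one_mul]
    calc P * s = P * (y * (y * s)) := by rw [← e6]
      _ = (P * y) * (y * s) := by rw [mul_assoc]
      _ = -(x * (P * (y * s))) := by rw [hPy, neg_mul, mul_assoc]
      _ = -(x * (y * s)) * P := by rw [e5]; simp only [neg_mul, mul_assoc]
  · exact key s (-s) (by rw [hPs s e1 e2, neg_mul]) (h.neg_mem hs)

/-- elements of order three -/
theorem exists_three {a b : GL ι F} (ha : a ∈ R) (hb : b ∈ R) (hab : a * b = -(b * a)) (haa : a * a = -1) (hbb : b * b = -1) :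
    ∃ P : GL ι F, P ∈ Subgroup.normalizer (R : Set (GL ι F)) ∧ P.1 = (-(2 : F)⁻¹) • (1 + a.1 + b.1 + a.1 * b.1) ∧
      P.1 * P.1 + P.1 + 1 = 0 ∧ (∀ s : GL ι F, a * s = s * a → b * s = s * b → P * s = s * P) := by
  have := h.fin
  have h2 := h.char
  have e22 : (2 : F)⁻¹ * 2 = 1 := inv_mul_cancel₀ h2
  have mab : b.1 * a.1 = -(a.1 * b.1) := by
    have : b * a = -(a * b) := by rw [hab, neg_neg]
    exact congrArg Units.val this
  have maa : a.1 * a.1 = -1 := congrArg Units.val haa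
  have mbb : b.1 * b.1 = -1 := congrArg Units.val hbb
  have e1 : a.1 * (a.1 * b.1) = -b.1 := by rw [← mul_assoc, maa, neg_one_mul]
  have e2 : b.1 * (a.1 * b.1) = a.1 := by rw [← mul_assoc, mab, neg_mul, mul_assoc, mbb]; simp
  have e3 : (a.1 * b.1) * a.1 = b.1 := by rw [mul_assoc, mab, mul_neg, e1, neg_neg]
  have e4 : (a.1 * b.1) * b.1 = -a.1 := by rw [mul_assoc, mbb]; simp
  have e5 : (a.1 * b.1) * (a.1 * b.1) = -1 := by rw [mul_assoc, e2, maa]
  let N : Matrix ι ι F := 1 + a.1 + b.1 + a.1 * b.1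
  have hNN : N * N = (2 : F) • N - (4 : F) • (1 : Matrix ι ι F) := by
    show (1 + a.1 + b.1 + a.1 * b.1) * (1 + a.1 + b.1 + a.1 * b.1) = (2 : F) • (1 + a.1 + b.1 + a.1 * b.1) - _
    have : (1 + a.1 + b.1 + a.1 * b.1) * (1 + a.1 + b.1 + a.1 * b.1) =
        1 + a.1 + b.1 + a.1 * b.1 + (a.1 + a.1 * a.1 + a.1 * b.1 + a.1 * (a.1 * b.1)) +
        (b.1 + b.1 * a.1 + b.1 * b.1 + b.1 * (a.1 * b.1)) + (a.1 * b.1 + (a.1 * b.1) * a.1 + (a.1 * b.1) * b.1 + (a.1 * b.1) * (a.1 * b.1)) := by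
      noncomm_ring
    rw [this, e1, e2, e3, e4, e5, maa, mbb, mab]
    module
  let Q : Matrix ι ι F := (-(2 : F)⁻¹) • N
  have hQQ : Q * Q = -Q - 1 := by
    show ((-(2 : F)⁻¹) • N) * ((-(2 : F)⁻¹) • N) = -((-(2 : F)⁻¹) • N) - 1
    rw [Matrix.smul_mul, Matrix.mul_smul, hNN, smul_smul, smul_sub, smul_smul, smul_smul]
    have h4 : (-(2 : F)⁻¹ * -(2 : F)⁻¹) * 4 = 1 := by field_simp; norm_num
    have h5 : (-(2 : F)⁻¹ * -(2 : F)⁻¹) * 2 = (2 : F)⁻¹ := by field_simp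
    rw [h4, h5, one_smul, neg_smul, neg_neg]
  have hQi : Q * (-Q - 1) = 1 := by
    rw [mul_sub, mul_neg, hQQ, mul_one]; abel
  have hiQ : (-Q - 1) * Q = 1 := by
    rw [sub_mul, neg_mul, hQQ, one_mul]; abel
  let P : GL ι F := ⟨Q, -Q - 1, hQi, hiQ⟩
  have hPc : ∀ s : GL ι F, a * s = s * a → b * s = s * b → P * s = s * P := by
    intro s f1 f2
    have f1' : a.1 * s.1 = s.1 * a.1 := congrArg Units.val f1
    have f2' : b.1 * s.1 = s.1 * b.1 := congrArg Units.val f2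
    have f3' : (a.1 * b.1) * s.1 = s.1 * (a.1 * b.1) := by rw [mul_assoc, f2', ← mul_assoc, f1', mul_assoc]
    apply Units.ext
    show ((-(2 : F)⁻¹) • (1 + a.1 + b.1 + a.1 * b.1)) * s.1 = s.1 * ((-(2 : F)⁻¹) • (1 + a.1 + b.1 + a.1 * b.1))
    rw [Matrix.smul_mul, Matrix.mul_smul, add_mul, add_mul, add_mul, one_mul, f1', f2', f3', mul_add, mul_add, mul_add, mul_one]
  have hPa : P * a = b * P := by
    apply Units.ext
    show ((-(2 : F)⁻¹) • (1 + a.1 + b.1 + a.1 * b.1)) * a.1 = b.1 * ((-(2 : F)⁻¹) • (1 + a.1 + b.1 + a.1 * b.1))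
    rw [Matrix.smul_mul, Matrix.mul_smul, add_mul, add_mul, add_mul, one_mul, mul_add, mul_add, mul_add, mul_one, maa, mab, e3, mbb, e2]
    congr 1
    abel
  have hPb : P * b = (a * b) * P := by
    apply Units.ext
    show ((-(2 : F)⁻¹) • (1 + a.1 + b.1 + a.1 * b.1)) * b.1 = (a.1 * b.1) * ((-(2 : F)⁻¹) • (1 + a.1 + b.1 + a.1 * b.1))
    rw [Matrix.smul_mul, Matrix.mul_smul, add_mul, add_mul, add_mul, one_mul, mul_add, mul_add, mul_add, mul_one, mbb, e3, e4, e5]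
    congr 1
    abel
  refine ⟨P, ?_, rfl, ?_, hPc⟩
  · apply mem_norm'
    intro s hs
    obtain ⟨u, hu, f1, f2⟩ := adj hab (h.comm' ha hs) (h.comm' hb hs)
    have huR : u ∈ R := by
      rcases hu with rfl | rfl | rfl | rfl
      · exact one_mem _
      · exact ha
      · exact hb
      · exact mul_mem ha hb
    have hPu : ∃ u' ∈ R, P * u = u' * P := by
      rcases hu with e0 | e0 | e0 | e0
      · exact ⟨1, one_mem _, by rw [e0, mul_one, one_mul]⟩
      · exact ⟨b, hb, by rw [e0, hPa]⟩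
      · exact ⟨a * b, mul_mem ha hb, by rw [e0, hPb]⟩
      · exact ⟨b * (a * b), mul_mem hb (mul_mem ha hb), by rw [e0, ← mul_assoc, hPa, mul_assoc, hPb]; simp only [mul_assoc]⟩
    obtain ⟨u', hu', e⟩ := hPu
    have f3 := hPc _ f1 f2
    -- `s = u⁻¹ (u s)`
    have f4 : P * s = u'⁻¹ * (u * s) * P := by
      have g1 : P * (u * s) = u' * (P * s) := by rw [← mul_assoc, e, mul_assoc]
      rw [f3] at g1
      rw [mul_assoc, g1, inv_mul_cancel_left]
    rw [f4, mul_inv_cancel_right]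
    exact mul_mem (inv_mem hu') (mul_mem huR hs)
  · show Q * Q + Q + 1 = 0
    rw [hQQ]; abel

end XR

end Cfsg.Agent.Lib.XR
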