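import Cfsg.Agent.Lib.XR4

/-! # Symplectic type 2-groups in dimension four: elements of order five -/

set_option autoImplicit false
set_option linter.dupNamespace false
set_option linter.style.haveILetI false

namespace Cfsg.Agent.Lib.XR

open Matrix Module Cfsg.Agent.Lib.NormTool
open scoped MatrixGroups

variable {F : Type*} [Field F] {ι : Type} [Fintype ι] [DecidableEq ι]

/-- generators with prescribed squares -/
structure Quad (R : Subgroup (GL ι F)) (a b c d : GL ι F) : Prop where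
  ha : a ∈ R
  hb : b ∈ R
  hc : c ∈ R
  hd : d ∈ R
  ab : a * b = -(b * a)
  cd : c * d = -(d * c)
  ac : a * c = c * a
  ad : a * d = d * a
  bc : b * c = c * b
  bd : b * d = d * b
  aa : a * a = -1
  bb : b * b = -1
  cc : c * c = 1
  dd : d * d = 1

/-- five anticommuting involutions -/
structure Cliff (R : Subgroup (GL ι F)) (e : Fin 5 → GL ι F) : Prop where
  mem : ∀ i, e i ∈ R
  sq : ∀ i, e i * e i = 1
  anti : ∀ i j, i ≠ j → e i * e j = -(e j * e i)

theorem anti_symm {x y : GL ι F} (h : x * y = -(y * x)) : y * x = -(x * y) := by rw [h, neg_neg]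

section

variable {x y k : GL ι F}

theorem t1 (hk : x * k = -(k * x)) (hy : x * y = y * x) : x * (k * y) = -((k * y) * x) := by
  rw [← mul_assoc, hk, neg_mul, mul_assoc, hy, mul_assoc]

theorem t2 (hkx : k * x = x * k) (hxy : x * y = -(y * x)) (hky : k * y = y * k) (hkk : k * k = -1) : (k * x) * (k * y) = -((k * y) * (k * x)) := by
  have e1 : (k * x) * (k * y) = (k * k) * (x * y) := by
    rw [mul_assoc, ← mul_assoc x, ← hkx, mul_assoc, mul_assoc]
  have e2 : (k * y) * (k * x) = (k * k) * (y * x) := by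
    rw [mul_assoc, ← mul_assoc y, ← hky, mul_assoc, mul_assoc]
  rw [e1, e2, hxy, mul_neg]

theorem t3 (hkx : k * x = x * k) (hkk : k * k = -1) (hxx : x * x = -1) : (k * x) * (k * x) = 1 := by
  have e1 : (k * x) * (k * x) = (k * k) * (x * x) := by
    rw [mul_assoc, ← mul_assoc x, ← hkx, mul_assoc, mul_assoc]
  rw [e1, hkk, hxx, neg_one_mul, neg_neg]

end

variable {R : Subgroup (GL ι F)} {a b c d : GL ι F}

theorem Quad.cliff (h : Quad R a b c d) : Cliff R ![c, d, (c * d) * a, (c * d) * b, (c * d) * (a * b)] := by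
  set k := c * d with hk
  have hdc := anti_symm h.cd
  have hba := anti_symm h.ab
  have hkk : k * k = -1 := by
    have : k * k = c * (d * c) * d := by rw [hk]; simp only [mul_assoc]
    rw [this, hdc, mul_neg, neg_mul, ← mul_assoc, h.cc, one_mul, h.dd]
  have hck : c * k = -(k * c) := by
    rw [hk, mul_assoc, hdc, mul_neg, neg_neg]
  have hdk : d * k = -(k * d) := by
    rw [hk, ← mul_assoc, hdc, neg_mul]
  have hka : k * a = a * k := by rw [hk, mul_assoc, ← h.ad, ← mul_assoc, ← h.ac, mul_assoc]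
  have hkb : k * b = b * k := by rw [hk, mul_assoc, ← h.bd, ← mul_assoc, ← h.bc, mul_assoc]
  have hkab : k * (a * b) = (a * b) * k := by rw [← mul_assoc, hka, mul_assoc, hkb, mul_assoc]
  have hcab : c * (a * b) = (a * b) * c := by rw [← mul_assoc, ← h.ac, mul_assoc, ← h.bc, mul_assoc]
  have hdab : d * (a * b) = (a * b) * d := by rw [← mul_assoc, ← h.ad, mul_assoc, ← h.bd, mul_assoc]
  have haab : a * (a * b) = -((a * b) * a) := by rw [mul_assoc a b a, hba, mul_neg, neg_neg]
  have hbab : b * (a * b) = -((a * b) * b) := by rw [← mul_assoc, hba, neg_mul]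
  have habab : (a * b) * (a * b) = -1 := by
    have : (a * b) * (a * b) = a * (b * a) * b := by simp only [mul_assoc]
    rw [this, hba, mul_neg, neg_mul, ← mul_assoc, h.aa, mul_assoc, h.bb]
    simp
  have hkR : k ∈ R := mul_mem h.hc h.hd
  refine ⟨?_, ?_, ?_⟩
  · intro i
    fin_cases i
    · exact h.hc
    · exact h.hd
    · exact mul_mem hkR h.ha
    · exact mul_mem hkR h.hb
    · exact mul_mem hkR (mul_mem h.ha h.hb)
  · intro i
    fin_cases i
    · exact h.cc
    · exact h.dd
    · exact t3 hka hkk h.aa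
    · exact t3 hkb hkk h.bb
    · exact t3 hkab hkk habab
  · have e01 : c * d = -(d * c) := h.cd
    have e02 : c * (k * a) = -((k * a) * c) := t1 hck h.ac.symm
    have e03 : c * (k * b) = -((k * b) * c) := t1 hck h.bc.symm
    have e04 : c * (k * (a * b)) = -((k * (a * b)) * c) := t1 hck hcab
    have e12 : d * (k * a) = -((k * a) * d) := t1 hdk h.ad.symm
    have e13 : d * (k * b) = -((k * b) * d) := t1 hdk h.bd.symm
    have e14 : d * (k * (a * b)) = -((k * (a * b)) * d) := t1 hdk hdab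
    have e23 : (k * a) * (k * b) = -((k * b) * (k * a)) := t2 hka h.ab hkb hkk
    have e24 : (k * a) * (k * (a * b)) = -((k * (a * b)) * (k * a)) := t2 hka haab hkab hkk
    have e34 : (k * b) * (k * (a * b)) = -((k * (a * b)) * (k * b)) := t2 hkb hbab hkab hkk
    intro i j hij
    fin_cases i <;> fin_cases j <;> first | exact absurd rfl hij | skip
    · exact e01
    · exact e02
    · exact e03
    · exact e04
    · exact anti_symm e01
    · exact e12
    · exact e13
    · exact e14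
    · exact anti_symm e02
    · exact anti_symm e12
    · exact e23
    · exact e24
    · exact anti_symm e03
    · exact anti_symm e13
    · exact anti_symm e23
    · exact e34
    · exact anti_symm e04
    · exact anti_symm e14
    · exact anti_symm e24
    · exact anti_symm e34

theorem chain {P Q S T s₀ s₁ s₂ s₃ s₄ : GL ι F} (h1 : T * s₀ = -(s₁ * T)) (h2 : S * s₁ = -(s₂ * S)) (h3 : Q * s₂ = -(s₃ * Q))
    (h4 : P * s₃ = -(s₄ * P)) : (P * Q * S * T) * s₀ = s₄ * (P * Q * S * T) := by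
  calc (P * Q * S * T) * s₀ = P * Q * S * (T * s₀) := by rw [mul_assoc]
    _ = -(P * Q * (S * s₁) * T) := by rw [h1]; simp only [mul_neg, mul_assoc]
    _ = P * (Q * s₂) * S * T := by rw [h2]; simp only [mul_neg, neg_mul, neg_neg, mul_assoc]
    _ = -((P * s₃) * Q * S * T) := by rw [h3]; simp only [mul_neg, neg_mul, mul_assoc]
    _ = _ := by rw [h4]; simp only [neg_mul, neg_neg, mul_assoc]

/-- an element of order five modulo scalars -/
theorem XR.exists_five (h : XR R) (hq : Quad R a b c d) {e : Fin 5 → GL ι F} (he : e = ![c, d, (c * d) * a, (c * d) * b, (c * d) * (a * b)]) :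
    ∃ P Q S T : GL ι F, P.1 = (e 0).1 - (e 1).1 ∧ Q.1 = (e 1).1 - (e 2).1 ∧ S.1 = (e 2).1 - (e 3).1 ∧ T.1 = (e 3).1 - (e 4).1 ∧
      P * Q * S * T ∈ Subgroup.normalizer (R : Set (GL ι F)) ∧ (∃ s : F, ((P * Q * S * T) ^ 5).1 = s • (1 : Matrix ι ι F)) ∧
      ∀ s : F, (P * Q * S * T).1 ≠ s • (1 : Matrix ι ι F) := by
  have := h.ne_iota
  have hC : Cliff R e := by rw [he]; exact hq.cliff
  obtain ⟨P, hP, hP1, hPx, hPy, hPs⟩ := h.exists_refl (hC.mem 0) (hC.mem 1) (hC.anti 0 1 (by decide)) (hC.sq 0) (hC.sq 1)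
  obtain ⟨Q, hQ, hQ1, hQx, hQy, hQs⟩ := h.exists_refl (hC.mem 1) (hC.mem 2) (hC.anti 1 2 (by decide)) (hC.sq 1) (hC.sq 2)
  obtain ⟨S, hS, hS1, hSx, hSy, hSs⟩ := h.exists_refl (hC.mem 2) (hC.mem 3) (hC.anti 2 3 (by decide)) (hC.sq 2) (hC.sq 3)
  obtain ⟨T, hT, hT1, hTx, hTy, hTs⟩ := h.exists_refl (hC.mem 3) (hC.mem 4) (hC.anti 3 4 (by decide)) (hC.sq 3) (hC.sq 4)
  set y := P * Q * S * T with hy
  have hy0 : y * e 0 = e 1 * y := chain (hTs _ (hC.anti 3 0 (by decide)) (hC.anti 4 0 (by decide)))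
    (hSs _ (hC.anti 2 0 (by decide)) (hC.anti 3 0 (by decide))) (hQs _ (hC.anti 1 0 (by decide)) (hC.anti 2 0 (by decide))) hPx
  have hy1 : y * e 1 = e 2 * y := chain (hTs _ (hC.anti 3 1 (by decide)) (hC.anti 4 1 (by decide)))
    (hSs _ (hC.anti 2 1 (by decide)) (hC.anti 3 1 (by decide))) hQx (hPs _ (hC.anti 0 2 (by decide)) (hC.anti 1 2 (by decide)))
  have hy2 : y * e 2 = e 3 * y := chain (hTs _ (hC.anti 3 2 (by decide)) (hC.anti 4 2 (by decide)))
    hSx (hQs _ (hC.anti 1 3 (by decide)) (hC.anti 2 3 (by decide))) (hPs _ (hC.anti 0 3 (by decide)) (hC.anti 1 3 (by decide)))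
  have hy3 : y * e 3 = e 4 * y := chain hTx
    (hSs _ (hC.anti 2 4 (by decide)) (hC.anti 3 4 (by decide))) (hQs _ (hC.anti 1 4 (by decide)) (hC.anti 2 4 (by decide)))
    (hPs _ (hC.anti 0 4 (by decide)) (hC.anti 1 4 (by decide)))
  have hy4 : y * e 4 = e 0 * y := chain hTy hSy hQy hPy
  have hstep : ∀ i : Fin 5, y * e i = e (i + 1) * y := by
    intro i
    fin_cases i
    · exact hy0
    · exact hy1
    · exact hy2
    · exact hy3
    · exact hy4
  have h5 : ∀ i : Fin 5, y ^ 5 * e i = e i * y ^ 5 := by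
    intro i
    have e1 : y ^ 5 * e i = e (i + 1 + 1 + 1 + 1 + 1) * y ^ 5 := by
      calc y ^ 5 * e i = y * (y * (y * (y * (y * e i)))) := by simp only [pow_succ, pow_zero, one_mul, mul_assoc]
        _ = y * (y * (y * (y * (e (i + 1) * y)))) := by rw [hstep]
        _ = y * (y * (y * (y * e (i + 1)))) * y := by simp only [mul_assoc]
        _ = y * (y * (y * (e (i + 1 + 1) * y))) * y := by rw [hstep]
        _ = y * (y * (y * e (i + 1 + 1))) * y * y := by simp only [mul_assoc]
        _ = y * (y * (e (i + 1 + 1 + 1) * y)) * y * y := by rw [hstep]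
        _ = y * (y * e (i + 1 + 1 + 1)) * y * y * y := by simp only [mul_assoc]
        _ = y * (e (i + 1 + 1 + 1 + 1) * y) * y * y * y := by rw [hstep]
        _ = (y * e (i + 1 + 1 + 1 + 1)) * y * y * y * y := by simp only [mul_assoc]
        _ = (e (i + 1 + 1 + 1 + 1 + 1) * y) * y * y * y * y := by rw [hstep]
        _ = _ := by simp only [pow_succ, pow_zero, one_mul, mul_assoc]
    rw [(by decide : ∀ j : Fin 5, j + 1 + 1 + 1 + 1 + 1 = j) i] at e1
    exact e1
  have g0 : e 0 = c := by rw [he]; rfl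
  have g1 : e 1 = d := by rw [he]; rfl
  have g2 : e 2 = (c * d) * a := by rw [he]; rfl
  have g3 : e 3 = (c * d) * b := by rw [he]; rfl
  refine ⟨P, Q, S, T, hP1, hQ1, hS1, hT1, mul_mem (mul_mem (mul_mem hP hQ) hS) hT, ?_, ?_⟩
  · have hcc : y ^ 5 * c = c * y ^ 5 := by rw [← g0]; exact h5 0
    have hdd : y ^ 5 * d = d * y ^ 5 := by rw [← g1]; exact h5 1
    have hcd : y ^ 5 * (c * d) = (c * d) * y ^ 5 := by rw [← mul_assoc, hcc, mul_assoc, hdd, mul_assoc]
    have haa : y ^ 5 * a = a * y ^ 5 := by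
      have e1 := h5 2
      rw [g2, ← mul_assoc, hcd, mul_assoc, mul_assoc (c * d)] at e1
      exact mul_left_cancel e1
    have hbb : y ^ 5 * b = b * y ^ 5 := by
      have e1 := h5 3
      rw [g3, ← mul_assoc, hcd, mul_assoc, mul_assoc (c * d)] at e1
      exact mul_left_cancel e1
    exact scalar_of_comm4 h.char h.dim hq.ab hq.cd hq.ac hq.ad hq.bc hq.bd hq.aa hq.bb (Or.inl hq.cc) (Or.inl hq.dd)
      (congrArg Units.val haa) (congrArg Units.val hbb) (congrArg Units.val hcc) (congrArg Units.val hdd)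
  · intro s hs
    have e1 : e 0 * y = y * e 0 := by
      apply Units.ext
      show (e 0).1 * y.1 = y.1 * (e 0).1
      rw [hs]; simp
    rw [hy0] at e1
    have e2 : e 0 = e 1 := mul_right_cancel e1
    have e3 := hC.anti 0 1 (by decide)
    rw [e2] at e3
    exact h.ne_neg' _ e3

end Cfsg.Agent.Lib.XR
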