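import Cfsg.Agent.Lib.XR5
import Cfsg.Agent.Lib.CycConj
import Cfsg.Agent.Lib.ElusiveTool

/-! # Symplectic type 2-groups in dimension four: conjugacy in the normalizer -/

set_option autoImplicit false
set_option linter.dupNamespace false
set_option linter.style.haveILetI false

namespace Cfsg.Agent.Lib.XR

open Matrix Module Cfsg.Agent.Lib.NormTool Cfsg.Agent.Lib.CycConj Cfsg.Agent.Lib.PrimeOrd Cfsg.Agent.Lib.InvSub Polynomial
open scoped MatrixGroups

section gen

variable {F : Type*} [Field F] {ι : Type} [Fintype ι] [DecidableEq ι]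

/-- scalar multiples of elements of the normalizer -/
theorem norm_smul {R : Subgroup (GL ι F)} {y y' : GL ι F} {c : F} (hc : c ≠ 0) (h : y'.1 = c • y.1)
    (hy : y ∈ Subgroup.normalizer (R : Set (GL ι F))) : y' ∈ Subgroup.normalizer (R : Set (GL ι F)) := by
  have key : ∀ w : GL ι F, y' * w * y'⁻¹ = y * w * y⁻¹ := by
    intro w
    have h1 : y' * w = (y * w * y⁻¹) * y' := by
      apply Units.ext
      show y'.1 * w.1 = (y * w * y⁻¹).1 * y'.1
      rw [h, Matrix.smul_mul, Matrix.mul_smul]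
      congr 1
      have : y * w = (y * w * y⁻¹) * y := by group
      exact congrArg Units.val this
    rw [h1, mul_inv_cancel_right]
  rw [Subgroup.mem_normalizer_iff] at hy ⊢
  intro w
  rw [key w]
  exact hy w

theorem exists_smul (y : GL ι F) {c : F} (hc : c ≠ 0) : ∃ y' : GL ι F, y'.1 = c • y.1 := by
  refine ⟨⟨c • y.1, c⁻¹ • (y⁻¹).1, ?_, ?_⟩, rfl⟩
  · rw [Matrix.smul_mul, Matrix.mul_smul, smul_smul, mul_inv_cancel₀ hc, one_smul, ← Units.val_mul, mul_inv_cancel]; rfl
  · rw [Matrix.smul_mul, Matrix.mul_smul, smul_smul, inv_mul_cancel₀ hc, one_smul, ← Units.val_mul, inv_mul_cancel]; rfl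

theorem trace_of_anti (h2 : (2 : F) ≠ 0) {x y : GL ι F} (h : x * y = -(y * x)) : x.1.trace = 0 := by
  have hm : x.1 * y.1 = -(y.1 * x.1) := congrArg Units.val h
  have e1 : x.1 * y.1 * (y⁻¹).1 = x.1 := by
    rw [Matrix.mul_assoc, ← Units.val_mul, mul_inv_cancel]; exact Matrix.mul_one _
  have e2 : (y⁻¹).1 * y.1 = 1 := by rw [← Units.val_mul, inv_mul_cancel]; rfl
  have e3 : x.1.trace = -x.1.trace := by
    nth_rewrite 1 [← e1]
    rw [hm, Matrix.neg_mul, Matrix.trace_neg, Matrix.trace_mul_comm, ← Matrix.mul_assoc, e2, Matrix.one_mul]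
  have e4 : 2 * x.1.trace = 0 := by linear_combination e3
  exact (mul_eq_zero.1 e4).resolve_left h2

theorem nonscalar_of_anti [Nonempty ι] (h2 : (2 : F) ≠ 0) {x y : GL ι F} (h : x * y = -(y * x)) (c : F) : x.1 ≠ c • (1 : Matrix ι ι F) := by
  intro hc
  have hm : x.1 * y.1 = -(y.1 * x.1) := congrArg Units.val h
  rw [hc, Matrix.smul_mul, Matrix.mul_smul, Matrix.one_mul, Matrix.mul_one] at hm
  have h1 : (2 * c) • y.1 = 0 := by
    rw [two_mul, add_smul]
    nth_rewrite 1 [hm]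
    exact neg_add_cancel _
  rcases smul_eq_zero.1 h1 with h3 | h3
  · have : c = 0 := (mul_eq_zero.1 h3).resolve_left h2
    rw [this, zero_smul] at hc
    exact x.isUnit.ne_zero hc
  · exact y.isUnit.ne_zero h3

theorem tl_pow (M : Matrix ι ι F) (r : ℕ) : Matrix.toLin' M ^ r = Matrix.toLin' (M ^ r) := by
  have h1 := map_pow (Matrix.toLinAlgEquiv' (R := F) (n := ι)) M r
  exact h1.symm

theorem toLin_smul_one (c : F) : Matrix.toLin' (c • (1 : Matrix ι ι F)) = c • (1 : Module.End F (ι → F)) := by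
  rw [map_smul, Matrix.toLin'_one]; rfl

end gen

section cyc

variable {F : Type*} [Field F] [Fintype F]

/-- conjugacy of elements of prime order with irreducible cyclotomic polynomial -/
theorem conj_cyc {n : ℕ} (hn : 0 < n) {p : ℕ} [Fact p.Prime] [CharP F p] {r : ℕ} [hr : Fact r.Prime] (hrp : r ≠ p)
    (hirr : Irreducible (cyclotomic r F)) {x y : GL (Fin n) F} {c : F} (hc : c ≠ 0)
    (hx : x.1 ^ r = c ^ r • (1 : Matrix (Fin n) (Fin n) F)) (hy : y.1 ^ r = 1)
    (he : finrank F (E (c⁻¹ • Matrix.toLin' x.1) 1) = finrank F (E (Matrix.toLin' y.1) 1)) :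
    ∃ h ∈ Cfsg.Geo.specialLinear (Fin n) F, (h⁻¹ * x * h).1 = c • y.1 := by
  have hp : p.Prime := Fact.out
  have hrF : (r : F) ≠ 0 := by
    intro h
    have := (CharP.cast_eq_zero_iff F p r).1 h
    exact hrp ((Nat.prime_dvd_prime_iff_eq hp hr.out).1 this).symm
  have hT : Matrix.toLin' x.1 ^ r = c ^ r • (1 : Module.End F (Fin n → F)) := by
    rw [tl_pow, hx, toLin_smul_one]
  have hT1 : (c⁻¹ • Matrix.toLin' x.1) ^ r = 1 := by
    rw [_root_.smul_pow, hT, smul_smul, ← mul_pow, inv_mul_cancel₀ hc, one_pow, one_smul]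
  have hS1 : (Matrix.toLin' y.1) ^ r = 1 := by
    rw [tl_pow, hy, Matrix.toLin'_one]; rfl
  obtain ⟨g, hg⟩ := conj_of_cyc hrF hirr hT1 hS1 he
  obtain ⟨h, hh, hhe⟩ := conj_SL_of_end hn (x := x) (S := c • Matrix.toLin' y.1) (ssB (p := p) (r := r) hrp hc hT).compl g (by
    intro v
    have h1 := hg v
    rw [LinearMap.smul_apply, map_smul] at h1
    rw [LinearMap.smul_apply, ← h1, smul_smul, mul_inv_cancel₀ hc, one_smul])
  refine ⟨h, hh, ?_⟩
  apply Matrix.toLin'.injective
  rw [hhe, map_smul]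

end cyc

section no

variable {F : Type*} [Field F] {ι : Type} [Fintype ι] [DecidableEq ι] {R : Subgroup (GL ι F)} (h : XR R)
include h

theorem XR.zs_ne : ((Nat.card (Zs R) : ℕ) : F) ≠ 0 := by
  have := h.fin
  obtain ⟨k, hk⟩ := h.two
  have h1 : Nat.card (Zs R) ∣ 2 ^ k := by rw [← hk, h.sc]; exact Dvd.intro_left _ rfl
  obtain ⟨m, -, hm⟩ := (Nat.dvd_prime_pow Nat.prime_two).1 h1
  rw [hm]
  push_cast
  exact pow_ne_zero _ h.char

/-- the trace obstruction for elements whose centralizer in `R` is scalar -/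
theorem XR.trace_one {y : GL ι F} {r : ℕ} (hodd : Odd r) (hyr : ∀ w ∈ R, y ^ r * w = w * y ^ r)
    (hy : y ∈ Subgroup.normalizer (R : Set (GL ι F))) (hC : Nat.card (CR R y) = Nat.card (Zs R)) :
    y.1.trace * (y⁻¹).1.trace = 1 := by
  have h1 := h.trace_id hodd hyr hy
  rw [hC, h.sc] at h1
  have h16 : (16 : F) ≠ 0 := by
    have : (16 : F) = 2 ^ 4 := by norm_num
    rw [this]; exact pow_ne_zero _ h.char
  have h2 : (16 * (Nat.card (Zs R) : F)) * (y.1.trace * (y⁻¹).1.trace) = (16 * (Nat.card (Zs R) : F)) * 1 := by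
    rw [Nat.cast_mul] at h1
    linear_combination h1
  exact mul_left_cancel₀ (mul_ne_zero h16 h.zs_ne) h2

end no

end Cfsg.Agent.Lib.XR
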