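import Cfsg.Agent.Lib.XR8

/-! # Symplectic type 2-groups in dimension four: the group of minus type -/

set_option autoImplicit false
set_option linter.dupNamespace false
set_option linter.style.haveILetI false

namespace Cfsg.Agent.Lib.XR

open Matrix Module Cfsg.Agent.Lib.NormTool
open scoped MatrixGroups

theorem two_mul_card_le {G : Type*} [Group G] [Finite G] {B A : Subgroup G} (h : B ≤ A) (hne : ∃ x ∈ A, x ∉ B) : 2 * Nat.card B ≤ Nat.card A := by
  obtain ⟨m, hm⟩ := Subgroup.card_dvd_of_le h
  have hpos : 0 < Nat.card A := Nat.card_pos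
  have h0 : m ≠ 0 := by rintro rfl; rw [mul_zero] at hm; omega
  have h1 : m ≠ 1 := by
    rintro rfl
    rw [mul_one] at hm
    obtain ⟨x, hx, hx'⟩ := hne
    have := Subgroup.eq_of_le_of_card_ge h (by rw [hm])
    rw [this] at hx'
    exact hx' hx
  have h2 : 2 ≤ m := by omega
  calc 2 * Nat.card B ≤ m * Nat.card B := Nat.mul_le_mul_right _ h2
    _ = Nat.card A := by rw [hm, mul_comm]

variable {F : Type*} [Field F] {ι : Type} [Fintype ι] [DecidableEq ι] {R : Subgroup (GL ι F)}

/-- no elementary abelian subgroups of order eight -/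
theorem XR.no_elem (h : XR R) (hm : Cfsg.Geo.IsOfMinusType 2 R) {e f u v : GL ι F} (he : e ∈ R) (hf : f ∈ R)
    (hee : e * e = 1) (hff : f * f = 1) (hef : e * f = f * e) (huf : u * f = -(f * u)) (hue : u * e = e * u) (hve : v * e = -(e * v)) : False := by
  have hfin := h.fin
  let m1 : R := ⟨-1, h.neg_one_mem⟩
  let e' : R := ⟨e, he⟩
  let f' : R := ⟨f, hf⟩
  let A : Subgroup R := Subgroup.closure {m1, e', f'}
  let B : Subgroup R := Subgroup.closure {m1, e'}
  let Z : Subgroup R := Subgroup.closure {m1}
  have hcomm : IsMulCommutative A := by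
    apply Subgroup.isMulCommutative_closure
    rintro x (rfl | rfl | rfl) y (rfl | rfl | rfl)
    · rfl
    · apply Subtype.ext; show (-1) * e = e * (-1); rw [neg_one_mul, mul_neg_one]
    · apply Subtype.ext; show (-1) * f = f * (-1); rw [neg_one_mul, mul_neg_one]
    · apply Subtype.ext; show e * (-1) = (-1) * e; rw [neg_one_mul, mul_neg_one]
    · rfl
    · exact Subtype.ext hef
    · apply Subtype.ext; show f * (-1) = (-1) * f; rw [neg_one_mul, mul_neg_one]
    · exact Subtype.ext hef.symm
    · rfl
  have hsq : ∀ x ∈ A, x * x = 1 := by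
    intro x hx
    induction hx using Subgroup.closure_induction with
    | mem x hx =>
      rcases hx with rfl | rfl | rfl
      · apply Subtype.ext; show (-1 : GL ι F) * (-1) = 1; rw [neg_mul_neg, one_mul]
      · exact Subtype.ext hee
      · exact Subtype.ext hff
    | one => exact one_mul 1
    | mul x y hx hy ihx ihy =>
      have hxy : x * y = y * x := congrArg Subtype.val (hcomm.is_comm.comm (⟨x, hx⟩ : A) ⟨y, hy⟩)
      calc x * y * (x * y) = x * (y * x) * y := by simp only [mul_assoc]
        _ = x * (x * y) * y := by rw [hxy]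
        _ = (x * x) * (y * y) := by simp only [mul_assoc]
        _ = 1 := by rw [ihx, ihy, one_mul]
    | inv x hx ih => rw [← _root_.mul_inv_rev, ih, inv_one]
  have hlt := hm A hcomm hsq
  have hBA : B ≤ A := by
    apply Subgroup.closure_mono
    intro x hx
    rcases hx with rfl | rfl
    · exact Or.inl rfl
    · exact Or.inr (Or.inl rfl)
  have hZB : Z ≤ B := by
    apply Subgroup.closure_mono
    intro x hx
    rw [Set.mem_singleton_iff] at hx
    exact Or.inl hx
  -- f is not in B
  have cent : ∀ (w : GL ι F) (S : Set R), (∀ s ∈ S, w * s.1 = s.1 * w) → ∀ x ∈ Subgroup.closure S, w * x.1 = x.1 * w := by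
    intro w S hS x hx
    induction hx using Subgroup.closure_induction with
    | mem x hx => exact hS x hx
    | one => show w * 1 = 1 * w; rw [mul_one, one_mul]
    | mul x y hx hy ihx ihy => show w * (x.1 * y.1) = x.1 * y.1 * w; rw [← mul_assoc, ihx, mul_assoc, ihy, mul_assoc]
    | inv x hx ih =>
      show w * x.1⁻¹ = x.1⁻¹ * w
      rw [mul_inv_eq_iff_eq_mul, mul_assoc, ih, inv_mul_cancel_left]
  have hfB : f' ∉ B := by
    intro hfB
    have h1 := cent u _ (by
      rintro s (rfl | rfl)
      · show u * (-1) = (-1) * u; rw [neg_one_mul, mul_neg_one]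
      · exact hue) f' hfB
    have h2 : u * f = f * u := h1
    rw [huf] at h2
    exact h.ne_neg' (f * u) h2.symm
  have heZ : e' ∉ Z := by
    intro heZ
    have h1 := cent v _ (by
      intro s hs
      rw [Set.mem_singleton_iff] at hs
      subst hs
      show v * (-1) = (-1) * v; rw [neg_one_mul, mul_neg_one]) e' heZ
    have h2 : v * e = e * v := h1
    rw [hve] at h2
    exact h.ne_neg' (e * v) h2.symm
  have hm1 : m1 ∉ (⊥ : Subgroup R) := by
    intro h1
    rw [Subgroup.mem_bot] at h1
    have h2 : (-1 : GL ι F) = 1 := congrArg Subtype.val h1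
    exact h.ne_neg' 1 h2.symm
  have c1 := two_mul_card_le hBA ⟨f', Subgroup.subset_closure (Or.inr (Or.inr rfl)), hfB⟩
  have c2 := two_mul_card_le hZB ⟨e', Subgroup.subset_closure (Or.inr rfl), heZ⟩
  have c3 := two_mul_card_le (bot_le (a := Z)) ⟨m1, Subgroup.subset_closure rfl, hm1⟩
  rw [Subgroup.card_bot] at c3
  have : (2 : ℕ) ^ (2 + 1) = 8 := by norm_num
  omega

/-- commuting involutions in a group of minus type -/
theorem XR.no_elem' (h : XR R) (hm : Cfsg.Geo.IsOfMinusType 2 R) {e f : GL ι F} (he : e ∈ R) (hf : f ∈ R)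
    (hee : e * e = 1) (hff : f * f = 1) (hef : e * f = f * e) (hen : ∀ c : F, e.1 ≠ c • (1 : Matrix ι ι F))
    (hfn : ∀ c : F, f.1 ≠ c • (1 : Matrix ι ι F)) (hefn : ∀ c : F, (e * f).1 ≠ c • (1 : Matrix ι ι F)) : False := by
  obtain ⟨v, hv, hev⟩ := h.partner' he hen
  obtain ⟨u1, hu1, hfu1⟩ := h.partner' hf hfn
  obtain ⟨u2, hu2, hefu2⟩ := h.partner' (mul_mem he hf) hefn
  have key : ∀ u : GL ι F, f * u = -(u * f) → u * e = e * u → False := fun u h1 h2 =>
    h.no_elem hm he hf hee hff hef (anti_symm h1) h2 (anti_symm hev)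
  rcases h.comm' hu1 he with h1 | h1
  · exact key u1 hfu1 h1
  · rcases h.comm' hu2 he with h2 | h2
    · -- u2 commutes with e, so anticommutes with f
      have h3 : f * u2 = -(u2 * f) := by
        have h4 : e * (f * u2) = e * (-(u2 * f)) := by
          rw [← mul_assoc, hefu2, mul_neg, ← mul_assoc, ← mul_assoc, h2]
        exact mul_left_cancel h4
      exact key u2 h3 h2
    · -- u2 anticommutes with e, so commutes with f
      have h3 : f * u2 = u2 * f := by
        have h4 : e * (f * u2) = e * (u2 * f) := by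
          rw [← mul_assoc, hefu2, ← mul_assoc, ← mul_assoc, h2, neg_mul, neg_neg]
        exact mul_left_cancel h4
      apply key (u1 * u2)
      · rw [← mul_assoc, hfu1, neg_mul, mul_assoc, h3, mul_assoc]
      · rw [mul_assoc, h2, mul_neg, ← mul_assoc, h1, neg_mul, neg_neg, mul_assoc]

end Cfsg.Agent.Lib.XR
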