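import Cfsg.Agent.Lib.DiagTool
import Cfsg.Agent.Lib.NormTool
import Cfsg.Agent.Lib.ElusiveTool

/-! # Diagonal elements of prime order and reflections of their eigenvalue multisets -/

set_option autoImplicit false

namespace Cfsg.Agent.Lib.XSym

open Cfsg.Agent.Lib.InvSub Cfsg.Agent.Lib.PrimeOrd Module Matrix
open Cfsg.Agent.Lib.NormTool (mem_SL_iff)
open scoped MatrixGroups

theorem z3a : (1 : ZMod 3) + 1 + 1 = 0 := by decide
theorem z3b : ¬ (1 : ZMod 3) = 0 := by decide
theorem z3c : ¬ (0 : ZMod 3) = 1 := by decide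
theorem z3d : ¬ (1 : ZMod 3) = 2 := by decide
theorem z3e : ¬ (0 : ZMod 3) = 2 := by decide
theorem z3f : ∀ s : ZMod 3, s = 0 ∨ s = 1 ∨ s = 2 := by decide
theorem z3g : (0 : ZMod 3) - 1 = 2 := by decide
theorem z3h : (1 : ZMod 3) - 1 = 0 := by decide
theorem z3i : (2 : ZMod 3) - 0 = 2 := by decide

section comb

variable {r : ℕ} [hr : Fact r.Prime]

/-- the number of indices with a given value -/
noncomputable abbrev cnt {n : ℕ} (e : Fin n → ZMod r) (j : ZMod r) : ℕ := Nat.card {i // e i = j}

theorem cnt_pos {n : ℕ} {e : Fin n → ZMod r} {j : ZMod r} : 0 < cnt e j ↔ ∃ i, e i = j := by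
  rw [Nat.card_pos_iff]
  constructor
  · rintro ⟨⟨i, hi⟩, -⟩; exact ⟨i, hi⟩
  · rintro ⟨i, hi⟩; exact ⟨⟨i, hi⟩, inferInstance⟩

theorem cast_ne_zero' {k : ℕ} (h0 : 0 < k) (h : k < r) : ((k : ℕ) : ZMod r) ≠ 0 := by
  rw [Ne, ZMod.natCast_eq_zero_iff]
  intro hd
  have := Nat.le_of_dvd h0 hd
  omega

/-- counting for functions given by three blocks -/
theorem cnt_three {n : ℕ} (hn : 3 ≤ n) (a b c t : ZMod r) (e : Fin n → ZMod r)
    (he : ∀ i : Fin n, e i = if i.1 = 0 then a else if i.1 = 1 then b else if i.1 = 2 then c else t) (j : ZMod r) :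
    cnt e j = (if a = j then 1 else 0) + (if b = j then 1 else 0) + (if c = j then 1 else 0) + (if t = j then n - 3 else 0) := by
  classical
  obtain ⟨m, rfl⟩ : ∃ m, n = m + 3 := ⟨n - 3, by omega⟩
  rw [cnt, Nat.card_eq_fintype_card, Fintype.card_subtype, Finset.card_filter, Fin.sum_univ_succ, Fin.sum_univ_succ, Fin.sum_univ_succ]
  have e0 : e 0 = a := by rw [he]; simp
  have e1 : e (Fin.succ 0) = b := by rw [he]; simp
  have e2 : e (Fin.succ (Fin.succ 0)) = c := by rw [he]; rfl
  have e3 : ∀ i : Fin m, e i.succ.succ.succ = t := by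
    intro i
    rw [he, if_neg (by simp), if_neg (by simp), if_neg (by simp)]
  rw [e0, e1, e2]
  simp only [e3]
  rw [Finset.sum_const, Finset.card_univ, Fintype.card_fin]
  have : m + 3 - 3 = m := by omega
  rw [this]
  split_ifs <;> simp <;> omega

/-- asymmetric exponents -/
theorem exists_exp {n : ℕ} (hn : 3 ≤ n) (h2 : r ≠ 2) (h6 : ¬ (n = 6 ∧ r = 3)) (hs : ¬ (n = 3 ∧ r = 3)) (h5 : ¬ (n = 5 ∧ r = 5)) :
    ∃ e : Fin n → ZMod r, ∑ i, e i = 0 ∧ (∃ i j, e i ≠ e j) ∧ ∀ s, ∃ j, cnt e j ≠ cnt e (s - j) := by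
  classical
  have hr5 : r = 3 ∨ 5 ≤ r := by
    have := hr.out.two_le
    rcases Nat.lt_or_ge r 5 with h | h
    · left
      interval_cases r
      · exact absurd rfl h2
      · rfl
      · exact absurd hr.out (by norm_num)
    · exact Or.inr h
  have hsum : ∀ a b c : ZMod r, ∀ e : Fin n → ZMod r, (∀ i : Fin n, e i = if i.1 = 0 then a else if i.1 = 1 then b else if i.1 = 2 then c else 0) →
      ∑ i, e i = a + b + c := by
    intro a b c e he
    obtain ⟨m, rfl⟩ : ∃ m, n = m + 3 := ⟨n - 3, by omega⟩
    rw [Fin.sum_univ_succ, Fin.sum_univ_succ, Fin.sum_univ_succ]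
    have e0 : e 0 = a := by rw [he]; simp
    have e1 : e (Fin.succ 0) = b := by rw [he]; simp
    have e2 : e (Fin.succ (Fin.succ 0)) = c := by rw [he]; rfl
    have e3 : ∀ i : Fin m, e i.succ.succ.succ = 0 := by
      intro i
      rw [he, if_neg (by simp), if_neg (by simp), if_neg (by simp)]
    rw [e0, e1, e2]
    simp only [e3]
    rw [Finset.sum_const_zero, add_zero]; ring
  rcases hr5 with rfl | hr5
  · -- r = 3
    have hn4 : 4 ≤ n := by omega
    refine ⟨fun i => if i.1 = 0 then 1 else if i.1 = 1 then 1 else if i.1 = 2 then 1 else 0, ?_, ?_, ?_⟩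
    · rw [hsum 1 1 1 _ (fun _ => rfl)]; exact z3a
    · refine ⟨⟨0, by omega⟩, ⟨3, by omega⟩, ?_⟩
      simp
    · intro s
      have hc := cnt_three hn (1 : ZMod 3) 1 1 0 (fun i => if i.1 = 0 then 1 else if i.1 = 1 then 1 else if i.1 = 2 then 1 else 0) (fun _ => rfl)
      have c0 := hc 0
      have c1 := hc 1
      have c2 := hc 2
      rw [if_neg z3b, if_pos rfl] at c0
      rw [if_pos rfl, if_neg z3c] at c1
      rw [if_neg z3d, if_neg z3e] at c2
      have hs3 : s = 0 ∨ s = 1 ∨ s = 2 := z3f s
      rcases hs3 with rfl | rfl | rfl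
      · refine ⟨1, ?_⟩
        have : (0 : ZMod 3) - 1 = 2 := z3g
        rw [this, c1, c2]; norm_num
      · refine ⟨1, ?_⟩
        have : (1 : ZMod 3) - 1 = 0 := z3h
        rw [this, c1, c0]; omega
      · refine ⟨0, ?_⟩
        have : (2 : ZMod 3) - 0 = 2 := z3i
        rw [this, c2, c0]; omega
  · -- r ≥ 5
    have k1 : (1 : ZMod r) ≠ 0 := one_ne_zero
    have k2 : (2 : ZMod r) ≠ 0 := by have := cast_ne_zero' (r := r) (k := 2) (by norm_num) (by omega); exact_mod_cast this
    have k3 : (3 : ZMod r) ≠ 0 := by have := cast_ne_zero' (r := r) (k := 3) (by norm_num) (by omega); exact_mod_cast this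
    have k4 : (4 : ZMod r) ≠ 0 := by have := cast_ne_zero' (r := r) (k := 4) (by norm_num) (by omega); exact_mod_cast this
    have k6 : (6 : ZMod r) ≠ 0 := by
      intro h
      have : (2 : ZMod r) * 3 = 0 := by rw [← h]; norm_num
      rcases mul_eq_zero.1 this with h | h
      · exact k2 h
      · exact k3 h
    refine ⟨fun i => if i.1 = 0 then 1 else if i.1 = 1 then 1 else if i.1 = 2 then -2 else 0, ?_, ?_, ?_⟩
    · rw [hsum 1 1 (-2) _ (fun _ => rfl)]; ring
    · refine ⟨⟨0, by omega⟩, ⟨2, by omega⟩, ?_⟩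
      simp only [if_true]
      rw [if_neg (by norm_num), if_neg (by norm_num)]
      intro h
      exact k3 (by linear_combination h)
    · intro s
      have hc := cnt_three hn (1 : ZMod r) 1 (-2) 0 (fun i => if i.1 = 0 then 1 else if i.1 = 1 then 1 else if i.1 = 2 then -2 else 0) (fun _ => rfl)
      by_contra hcon
      push Not at hcon
      have c1 := hc 1
      rw [if_pos rfl, if_neg (by intro h; exact k3 (by linear_combination (-1 : ZMod r) * h)), if_neg k1.symm] at c1
      have cm := hc (-2)
      rw [if_neg (by intro h; exact k3 (by linear_combination h)), if_pos rfl, if_neg (by intro h; exact k2 (by linear_combination h))] at cm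
      have h1 := hcon 1
      have h2' := hcon (-2)
      rw [c1, hc (s - 1)] at h1
      rw [cm, hc (s - -2)] at h2'
      -- `s - 1` has count two
      by_cases e1 : (1 : ZMod r) = s - 1
      · -- s = 2
        have hs2 : s = 2 := by linear_combination (-1 : ZMod r) * e1
        rw [hs2] at h2'
        rw [if_neg (by intro h; exact k3 (by linear_combination (-1 : ZMod r) * h)), if_neg (by intro h; exact k6 (by linear_combination (-1 : ZMod r) * h)),
          if_neg (by intro h; exact k4 (by linear_combination (-1 : ZMod r) * h))] at h2'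
        omega
      · rw [if_neg e1] at h1
        by_cases e2 : (0 : ZMod r) = s - 1
        · have hs1 : s = 1 := by linear_combination (-1 : ZMod r) * e2
          rw [if_pos e2] at h1
          by_cases e3 : (-2 : ZMod r) = s - 1
          · exact k2 (by linear_combination e2 - e3)
          rw [if_neg e3] at h1
          have hn5 : n = 5 := by omega
          rw [hs1] at h2'
          by_cases e4 : (-2 : ZMod r) = 1 - -2
          · -- r = 5
            have h50 : ((5 : ℕ) : ZMod r) = 0 := by push_cast; linear_combination (-1 : ZMod r) * e4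
            rw [ZMod.natCast_eq_zero_iff] at h50
            exact h5 ⟨hn5, (Nat.prime_dvd_prime_iff_eq hr.out (by norm_num)).1 h50⟩
          · rw [if_neg (by intro h; exact k2 (by linear_combination (-1 : ZMod r) * h)), if_neg e4,
              if_neg (by intro h; exact k3 (by linear_combination (-1 : ZMod r) * h))] at h2'
            omega
        · rw [if_neg e2] at h1
          split_ifs at h1 <;> omega

end comb

end Cfsg.Agent.Lib.XSym
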