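import Cfsg.Agent.Lib.XSym

/-! # The asymmetric elements of the special linear group -/

set_option autoImplicit false

namespace Cfsg.Agent.Lib.XSym

open Cfsg.Agent.Lib.InvSub Cfsg.Agent.Lib.PrimeOrd Module Matrix
open Cfsg.Agent.Lib.NormTool (mem_SL_iff)
open scoped MatrixGroups

section field

variable {F : Type*} [Field F] {r : ℕ} [hr : Fact r.Prime]

/-- powers with exponents modulo `r` -/
def pw (ζ : F) (j : ZMod r) : F := ζ ^ j.val

theorem pw_zero (ζ : F) : pw ζ (0 : ZMod r) = 1 := by rw [pw, ZMod.val_zero, pow_zero]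

theorem pw_add {ζ : F} (hζ : ζ ^ r = 1) (a b : ZMod r) : pw ζ (a + b) = pw ζ a * pw ζ b := by
  rw [pw, pw, pw, ZMod.val_add, ← pow_add, ← pow_mod_orderOf, Nat.mod_mod_of_dvd _ (orderOf_dvd_of_pow_eq_one hζ), pow_mod_orderOf]

theorem pw_ne {ζ : F} (hζ : ζ ^ r = 1) (a : ZMod r) : pw ζ a ≠ 0 := by
  have : ζ ≠ 0 := by rintro rfl; rw [zero_pow hr.out.pos.ne'] at hζ; exact zero_ne_one hζ
  exact pow_ne_zero _ this

theorem pw_neg {ζ : F} (hζ : ζ ^ r = 1) (a : ZMod r) : pw ζ (-a) = (pw ζ a)⁻¹ := by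
  exact eq_inv_of_mul_eq_one_left (by rw [← pw_add hζ, neg_add_cancel, pw_zero])

theorem pw_sub {ζ : F} (hζ : ζ ^ r = 1) (a b : ZMod r) : pw ζ (a - b) = pw ζ a / pw ζ b := by
  rw [sub_eq_add_neg, pw_add hζ, pw_neg hζ, div_eq_mul_inv]

theorem pw_pow {ζ : F} (hζ : ζ ^ r = 1) (a : ZMod r) : pw ζ a ^ r = 1 := by
  rw [pw, ← pow_mul, mul_comm, pow_mul, hζ, one_pow]

theorem pw_inj {ζ : F} (hζ : IsPrimitiveRoot ζ r) {a b : ZMod r} (h : pw ζ a = pw ζ b) : a = b :=
  ZMod.val_injective r (hζ.pow_inj (ZMod.val_lt a) (ZMod.val_lt b) h)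

theorem exists_pw {ζ : F} (hζ : IsPrimitiveRoot ζ r) {a : F} (ha : a ^ r = 1) : ∃ j : ZMod r, a = pw ζ j := by
  have : NeZero r := ⟨hr.out.pos.ne'⟩
  obtain ⟨i, hi, rfl⟩ := hζ.eq_pow_of_pow_eq_one ha
  exact ⟨(i : ZMod r), by rw [pw, ZMod.val_cast_of_lt hi]⟩

theorem pw_sum {ζ : F} (hζ : ζ ^ r = 1) {ι : Type*} (s : Finset ι) (e : ι → ZMod r) : ∏ i ∈ s, pw ζ (e i) = pw ζ (∑ i ∈ s, e i) := by
  classical
  induction s using Finset.induction_on with
  | empty => rw [Finset.prod_empty, Finset.sum_empty, pw_zero]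
  | insert a s ha ih => rw [Finset.prod_insert ha, Finset.sum_insert ha, ih, pw_add hζ]

variable {n : ℕ}

theorem finrank_diag {ζ : F} (hζ : IsPrimitiveRoot ζ r) {w : F} (hw : w ≠ 0) (e : Fin n → ZMod r) (j : ZMod r) :
    finrank F (E (Matrix.toLin' (Matrix.diagonal fun i => w * pw ζ (e i))) (w * pw ζ j)) = cnt e j := by
  classical
  rw [ElusiveTool.finrank_E_diag, cnt, Nat.card_eq_fintype_card, Fintype.card_subtype]
  congr 1
  ext i
  simp only [Finset.mem_filter, Finset.mem_univ, true_and]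
  constructor
  · intro h; exact pw_inj hζ (mul_left_cancel₀ hw h)
  · intro h; rw [h]

theorem finrank_diag_zero {ζ : F} {w : F} (e : Fin n → ZMod r) {b : F} (hb : ∀ i, w * pw ζ (e i) ≠ b) :
    finrank F (E (Matrix.toLin' (Matrix.diagonal fun i => w * pw ζ (e i))) b) = 0 := by
  classical
  rw [ElusiveTool.finrank_E_diag, Finset.card_eq_zero, Finset.filter_eq_empty_iff]
  intro i _
  exact hb i

/-- from asymmetric exponents to asymmetric eigenspaces -/
theorem asym_core {ζ : F} (hζ : IsPrimitiveRoot ζ r) {w : F} (hw : w ≠ 0) (hn : 0 < n) (e : Fin n → ZMod r)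
    (hs : ∀ s, ∃ j, cnt e j ≠ cnt e (s - j)) (c : F) :
    ∃ a : F, a ≠ 0 ∧ (a / w) ^ r = 1 ∧ finrank F (E (Matrix.toLin' (Matrix.diagonal fun i => w * pw ζ (e i))) a) ≠
      finrank F (E (Matrix.toLin' (Matrix.diagonal fun i => w * pw ζ (e i))) (c / a)) := by
  by_contra hcon
  push Not at hcon
  have hζ1 := hζ.pow_eq_one
  have hd : ∀ j : ZMod r, (w * pw ζ j / w) ^ r = 1 := by
    intro j
    rw [mul_div_cancel_left₀ _ hw, pw_pow hζ1]
  have hne : ∀ j : ZMod r, w * pw ζ j ≠ 0 := fun j => mul_ne_zero hw (pw_ne hζ1 j)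
  -- the constant
  have h1 := hcon _ (hne (e ⟨0, hn⟩)) (hd _)
  rw [finrank_diag hζ hw] at h1
  have h2 : 0 < cnt e (e ⟨0, hn⟩) := cnt_pos.2 ⟨_, rfl⟩
  obtain ⟨i, hi⟩ : ∃ i, w * pw ζ (e i) = c / (w * pw ζ (e ⟨0, hn⟩)) := by
    by_contra hi
    push Not at hi
    rw [finrank_diag_zero e hi] at h1
    omega
  set s := e i + e ⟨0, hn⟩ with hsdef
  have hc : c = w * w * pw ζ s := by
    rw [hsdef, pw_add hζ1]
    rw [eq_div_iff (hne _)] at hi
    rw [← hi]; ring
  obtain ⟨j, hj⟩ := hs s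
  apply hj
  have h3 := hcon _ (hne j) (hd _)
  rw [finrank_diag hζ hw] at h3
  rw [h3]
  have h4 : c / (w * pw ζ j) = w * pw ζ (s - j) := by
    rw [pw_sub hζ1, hc]
    have := pw_ne hζ1 j
    field_simp
  rw [h4, finrank_diag hζ hw]

/-- the witnesses -/
theorem exists_asym [Fintype F] {ζ : F} (hζ : IsPrimitiveRoot ζ r) (hn : 3 ≤ n) (h2 : r ≠ 2) (h6 : ¬ (n = 6 ∧ r = 3))
    (hcond : ¬ ((r = 3 ∨ r = 5) ∧ n = r ∧ padicValNat r (Fintype.card F - 1) = 1)) :
    ∃ (w : F) (x : GL (Fin n) F), w ≠ 0 ∧ x ∈ Cfsg.Geo.specialLinear (Fin n) F ∧ (∃ z : F, (x ^ r).1 = z • (1 : Matrix (Fin n) (Fin n) F)) ∧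
      (∀ z : F, x.1 ≠ z • (1 : Matrix (Fin n) (Fin n) F)) ∧
      ∀ c : F, ∃ a : F, a ≠ 0 ∧ (a / w) ^ r = 1 ∧ finrank F (E (Matrix.toLin' x.1) a) ≠ finrank F (E (Matrix.toLin' x.1) (c / a)) := by
  classical
  have hζ1 := hζ.pow_eq_one
  obtain ⟨w, e, hw, hprod, ⟨i, j, hij⟩, hs⟩ : ∃ (w : F) (e : Fin n → ZMod r), w ≠ 0 ∧ w ^ n * pw ζ (∑ i, e i) = 1 ∧ (∃ i j, e i ≠ e j) ∧
      ∀ s, ∃ j, cnt e j ≠ cnt e (s - j) := by
    by_cases hB : (r = 3 ∨ r = 5) ∧ n = r
    · have hv : padicValNat r (Fintype.card F - 1) ≠ 1 := fun h => hcond ⟨hB.1, hB.2, h⟩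
      have hcard1 : 1 < Fintype.card F := Fintype.one_lt_card
      have hrd : r ∣ Fintype.card F - 1 := by
        have h3 : orderOf ζ = r := hζ.eq_orderOf.symm
        have hζ0 : ζ ≠ 0 := by rintro rfl; rw [zero_pow hr.out.pos.ne'] at hζ1; exact zero_ne_one hζ1
        have := orderOf_dvd_of_pow_eq_one (FiniteField.pow_card_sub_one_eq_one ζ hζ0)
        rwa [h3] at this
      have hrd2 : r ^ 2 ∣ Fintype.card F - 1 := by
        rw [padicValNat_dvd_iff_le (by omega)]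
        have h4 : 1 ≤ padicValNat r (Fintype.card F - 1) := one_le_padicValNat_of_dvd (by omega) hrd
        omega
      obtain ⟨g, hg⟩ := IsCyclic.exists_generator (α := Fˣ)
      have hord : orderOf g = Fintype.card F - 1 := by
        rw [orderOf_eq_card_of_forall_mem_zpowers hg, Nat.card_eq_fintype_card, Fintype.card_units]
      have hu : orderOf (g ^ (orderOf g / r ^ 2)) = r ^ 2 :=
        orderOf_pow_orderOf_div (by rw [hord]; omega) (by rw [hord]; exact hrd2)
      set u := g ^ (orderOf g / r ^ 2) with hudef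
      have hur : (u ^ r) ^ r = 1 := by rw [← pow_mul, ← pow_two, ← hu]; exact pow_orderOf_eq_one u
      have hur1 : u ^ r ≠ 1 := by
        intro h
        have h5 := orderOf_dvd_of_pow_eq_one h
        rw [hu, pow_two] at h5
        have h6' := Nat.le_of_dvd hr.out.pos h5
        have := hr.out.two_le
        nlinarith
      obtain ⟨t, ht⟩ := exists_pw hζ (a := ((u : F) ^ r)) (by
        have := congrArg Units.val hur
        simpa using this)
      have ht0 : t ≠ 0 := by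
        rintro rfl
        rw [pw_zero] at ht
        exact hur1 (Units.ext (by simpa using ht))
      have ht2 : t ≠ -t := by
        intro h
        have h5 : (2 : ZMod r) * t = 0 := by linear_combination h
        rcases mul_eq_zero.1 h5 with h5 | h5
        · have : ((2 : ℕ) : ZMod r) = 0 := by exact_mod_cast h5
          rw [ZMod.natCast_eq_zero_iff] at this
          exact h2 ((Nat.prime_dvd_prime_iff_eq hr.out Nat.prime_two).1 this)
        · exact ht0 h5
      have hnt0 : -t ≠ 0 := neg_ne_zero.2 ht0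
      let e : Fin n → ZMod r := fun i => if i.1 = 0 then -t else if i.1 = 1 then 0 else if i.1 = 2 then 0 else 0
      have hsum : ∑ i, e i = -t := by
        obtain ⟨m, rfl⟩ : ∃ m, n = m + 3 := ⟨n - 3, by omega⟩
        rw [Fin.sum_univ_succ]
        have e0 : e 0 = -t := rfl
        have e1 : ∀ i : Fin (m + 2), e i.succ = 0 := by
          intro i
          simp only [e]
          rw [if_neg (by simp)]
          split_ifs <;> rfl
        simp only [e0, e1, Finset.sum_const_zero, add_zero]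
      have hc := cnt_three hn (-t) 0 0 0 e (fun _ => rfl)
      refine ⟨u, e, u.ne_zero, ?_, ?_, ?_⟩
      · rw [hsum, pw_neg hζ1, hB.2, ht]
        exact mul_inv_cancel₀ (pw_ne hζ1 t)
      · refine ⟨⟨0, by omega⟩, ⟨1, by omega⟩, ?_⟩
        simpa [e] using ht0
      · intro s
        by_cases hs0 : s = 0
        · refine ⟨-t, ?_⟩
          rw [hs0, zero_sub, neg_neg, hc, hc, if_pos rfl, if_neg hnt0.symm, if_neg ht2.symm, if_neg ht0.symm, if_neg ht0.symm, if_neg hnt0.symm]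
          norm_num
        · refine ⟨0, ?_⟩
          rw [sub_zero, hc, hc, if_neg hnt0, if_pos rfl, if_pos rfl, if_neg (Ne.symm hs0), if_neg (Ne.symm hs0)]
          split_ifs <;> omega
    · have hs3 : ¬ (n = 3 ∧ r = 3) := fun h => hB ⟨Or.inl h.2, h.1.trans h.2.symm⟩
      have h5 : ¬ (n = 5 ∧ r = 5) := fun h => hB ⟨Or.inr h.2, h.1.trans h.2.symm⟩
      obtain ⟨e, h1, h3, h4⟩ := exists_exp (r := r) hn h2 h6 hs3 h5
      exact ⟨1, e, one_ne_zero, by rw [h1, one_pow, one_mul, pw_zero], h3, h4⟩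
  have hdet : (Matrix.diagonal fun i => w * pw ζ (e i)).det = 1 := by
    rw [Matrix.det_diagonal, Finset.prod_mul_distrib, Finset.prod_const, Finset.card_univ, Fintype.card_fin, pw_sum hζ1, hprod]
  let x : GL (Fin n) F := Matrix.GeneralLinearGroup.mkOfDetNeZero (Matrix.diagonal fun i => w * pw ζ (e i)) (by rw [hdet]; exact one_ne_zero)
  have hx : x.1 = Matrix.diagonal fun i => w * pw ζ (e i) := rfl
  refine ⟨w, x, hw, mem_SL_iff.2 (by rw [hx, hdet]), ⟨w ^ r, ?_⟩, ?_, ?_⟩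
  · rw [Units.val_pow_eq_pow_val, hx, Matrix.diagonal_pow, Matrix.smul_one_eq_diagonal]
    congr 1
    funext i
    rw [Pi.pow_apply, mul_pow, pw_pow hζ1, mul_one]
  · intro z hz
    rw [hx, Matrix.smul_one_eq_diagonal] at hz
    have hz' : ∀ i, w * pw ζ (e i) = z := fun i => congrFun (Matrix.diagonal_injective hz) i
    exact hij (pw_inj hζ (mul_left_cancel₀ hw ((hz' i).trans (hz' j).symm)))
  · intro c
    rw [hx]
    exact asym_core hζ hw (by omega) e hs c

end field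

end Cfsg.Agent.Lib.XSym
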