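import Cfsg.Agent.Lib.XSym2

/-! # Elements of order three and five in dimension three and five -/

set_option autoImplicit false

namespace Cfsg.Agent.Lib.XSym

open Cfsg.Agent.Lib.InvSub Cfsg.Agent.Lib.PrimeOrd Module Matrix Polynomial
open Cfsg.Agent.Lib.NormTool (mem_SL_iff)
open scoped MatrixGroups

/-- fifteen pairings -/
def pt : Fin 15 → Fin 5 → Fin 5 := ![![1, 2, 3, 4, 0], ![1, 3, 2, 4, 0], ![1, 4, 2, 3, 0], ![0, 2, 3, 4, 1], ![0, 3, 2, 4, 1], ![0, 4, 2, 3, 1], ![0, 1, 3, 4, 2], ![0, 3, 1, 4, 2], ![0, 4, 1, 3, 2], ![0, 1, 2, 4, 3], ![0, 2, 1, 4, 3], ![0, 4, 1, 2, 3], ![0, 1, 2, 3, 4], ![0, 2, 1, 3, 4], ![0, 3, 1, 2, 4]]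

theorem pt_bij : ∀ t, Function.Injective (pt t) := by decide

theorem five_aux : ∀ a b c d g : Fin 5, (a.1 + b.1 + c.1 + d.1 + g.1) % 5 = 0 → ∃ t : Fin 15,
    ((![a, b, c, d, g] (pt t 0)).1 + (![a, b, c, d, g] (pt t 1)).1) % 5 = (2 * (![a, b, c, d, g] (pt t 4)).1) % 5 ∧
    ((![a, b, c, d, g] (pt t 2)).1 + (![a, b, c, d, g] (pt t 3)).1) % 5 = (2 * (![a, b, c, d, g] (pt t 4)).1) % 5 := by
  decide +kernel

theorem three_aux : ∀ a b g : Fin 3, (a.1 + b.1 + g.1) % 3 = 0 → (a.1 + b.1) % 3 = (2 * g.1) % 3 := by decide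

section field

variable {F : Type*} [Field F] {r n : ℕ} [hr : Fact r.Prime]

theorem scalar_one [Fintype F] (hn : n = r) (h2 : r ≠ 2) (hr2 : ¬ r ^ 2 ∣ Fintype.card F - 1) {x : GL (Fin n) F}
    (hx : x ∈ Cfsg.Geo.specialLinear (Fin n) F) {z : F} (hz : (x ^ r).1 = z • (1 : Matrix (Fin n) (Fin n) F)) : z = 1 := by
  by_contra hz1
  have hdet := mem_SL_iff.1 hx
  have hzr : z ^ r = 1 := by
    have h1 := congrArg Matrix.det hz
    rw [Units.val_pow_eq_pow_val, Matrix.det_pow, hdet, one_pow, Matrix.det_smul, Matrix.det_one, mul_one, Fintype.card_fin, hn] at h1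
    exact h1.symm
  have hz0 : z ≠ 0 := by rintro rfl; rw [zero_pow hr.out.pos.ne'] at hzr; exact zero_ne_one hzr
  have hnr : ∀ b : F, b ^ r ≠ z := by
    intro b hb
    apply hr2
    have h1 : orderOf b = r ^ 2 := by
      apply orderOf_eq_prime_pow (n := 1)
      · rw [pow_one, hb]; exact hz1
      · rw [show 1 + 1 = 2 from rfl, pow_two, pow_mul, hb, hzr]
    rw [← h1]
    apply orderOf_dvd_of_pow_eq_one
    apply FiniteField.pow_card_sub_one_eq_one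
    rintro rfl
    exact hz0 (by rw [← hb, zero_pow hr.out.pos.ne'])
  have hirr := X_pow_sub_C_irreducible_of_prime hr.out hnr
  have hne : Nonempty (Fin n) := ⟨⟨0, by rw [hn]; exact hr.out.pos⟩⟩
  have hmin : X ^ r - C z = minpoly F x.1 := by
    apply minpoly.eq_of_irreducible_of_monic hirr
    · rw [map_sub, map_pow, aeval_X, aeval_C, ← Units.val_pow_eq_pow_val, hz, Algebra.algebraMap_eq_smul_one, sub_self]
    · exact monic_X_pow_sub_C z hr.out.pos.ne'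
  have hch : x.1.charpoly = X ^ r - C z := by
    apply eq_of_monic_of_dvd_of_natDegree_le (monic_X_pow_sub_C z hr.out.pos.ne') (Matrix.charpoly_monic _)
    · rw [hmin]; exact Matrix.minpoly_dvd_charpoly _
    · rw [Matrix.charpoly_natDegree_eq_dim, Fintype.card_fin, natDegree_X_pow_sub_C, hn]
  have hd := Matrix.det_eq_sign_charpoly_coeff x.1
  rw [hch, hdet, Fintype.card_fin, hn, coeff_sub, coeff_X_pow, coeff_C_zero, if_neg hr.out.pos.ne, (hr.out.odd_of_ne_two h2).neg_one_pow] at hd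
  exact hz1 (by linear_combination (-1 : F) * hd)

omit hr in
theorem pow_mod_eq {ζ : F} (hζ : ζ ^ r = 1) {a b : ℕ} (h : a % r = b % r) : ζ ^ a = ζ ^ b := by
  rw [← Nat.div_add_mod a r, ← Nat.div_add_mod b r, pow_add, pow_add, pow_mul, pow_mul, hζ, one_pow, one_pow, h]

/-- three -/
theorem sym_three [Fintype F] {ζ : F} (hζ : IsPrimitiveRoot ζ 3) (hr2 : ¬ 3 ^ 2 ∣ Fintype.card F - 1) {x : GL (Fin 3) F}
    (hx : x ∈ Cfsg.Geo.specialLinear (Fin 3) F) {z : F} (hz : (x ^ 3).1 = z • (1 : Matrix (Fin 3) (Fin 3) F)) :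
    ∃ (P : GL (Fin 3) F) (u : Fin 3 → F) (π : Equiv.Perm (Fin 3)) (c ν : F), c ^ 3 = 1 ∧ ν ^ 3 = 1 ∧ x.1 * P.1 = P.1 * Matrix.diagonal u ∧
      ∀ i, u (π i) = ![c * ν, c * ν⁻¹, c] i := by
  have h3 : Fact (Nat.Prime 3) := ⟨Nat.prime_three⟩
  have hz1 := scalar_one rfl (by norm_num) hr2 hx hz
  have hF3 : ((3 : ℕ) : F) ≠ 0 := by
    have := hζ.neZero'.out
    exact this
  obtain ⟨P, e, hP⟩ := DiagTool.exists_diag_mat (m := 3) hF3 hζ (c := 1) one_ne_zero (M := x.1) (by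
    rw [← Units.val_pow_eq_pow_val, hz, hz1, one_pow])
  have hdet := DiagTool.det_of_diag hP
  rw [mem_SL_iff.1 hx] at hdet
  simp only [one_mul] at hdet hP
  rw [Fin.prod_univ_three, ← pow_add, ← pow_add] at hdet
  have hζ1 := hζ.pow_eq_one
  have hsum : ((e 0).1 + (e 1).1 + (e 2).1) % 3 = 0 := Nat.mod_eq_zero_of_dvd (hζ.dvd_of_pow_eq_one _ hdet.symm)
  have hk := three_aux (e 0) (e 1) (e 2) hsum
  have hk2 := pow_mod_eq hζ1 hk
  have hζ0 : ζ ≠ 0 := hζ.ne_zero (by norm_num)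
  refine ⟨P, fun j => ζ ^ (e j).1, 1, ζ ^ (e 2).1, ζ ^ (e 0).1 / ζ ^ (e 2).1, ?_, ?_, hP, ?_⟩
  · rw [← pow_mul, mul_comm, pow_mul, hζ1, one_pow]
  · rw [div_pow, ← pow_mul, ← pow_mul, mul_comm, pow_mul, hζ1, one_pow, mul_comm, pow_mul, hζ1, one_pow, div_one]
  · intro i
    have p2 : ζ ^ (e 2).1 ≠ 0 := pow_ne_zero _ hζ0
    have p0 : ζ ^ (e 0).1 ≠ 0 := pow_ne_zero _ hζ0
    rw [pow_add, mul_comm 2, pow_mul] at hk2
    fin_cases i
    · show ζ ^ (e 0).1 = ζ ^ (e 2).1 * (ζ ^ (e 0).1 / ζ ^ (e 2).1)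
      field_simp
    · show ζ ^ (e 1).1 = ζ ^ (e 2).1 * (ζ ^ (e 0).1 / ζ ^ (e 2).1)⁻¹
      rw [inv_div]
      field_simp
      linear_combination hk2
    · rfl

/-- five -/
theorem sym_five [Fintype F] {ζ : F} (hζ : IsPrimitiveRoot ζ 5) (hr2 : ¬ 5 ^ 2 ∣ Fintype.card F - 1) {x : GL (Fin 5) F}
    (hx : x ∈ Cfsg.Geo.specialLinear (Fin 5) F) {z : F} (hz : (x ^ 5).1 = z • (1 : Matrix (Fin 5) (Fin 5) F)) :
    ∃ (P : GL (Fin 5) F) (u : Fin 5 → F) (π : Equiv.Perm (Fin 5)) (c ν ν' : F), c ^ 5 = 1 ∧ ν ^ 5 = 1 ∧ ν' ^ 5 = 1 ∧ x.1 * P.1 = P.1 * Matrix.diagonal u ∧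
      ∀ i, u (π i) = ![c * ν, c * ν⁻¹, c * ν', c * ν'⁻¹, c] i := by
  have h3 : Fact (Nat.Prime 5) := ⟨by norm_num⟩
  have hz1 := scalar_one rfl (by norm_num) hr2 hx hz
  have hF3 : ((5 : ℕ) : F) ≠ 0 := by
    have := hζ.neZero'.out
    exact this
  obtain ⟨P, e, hP⟩ := DiagTool.exists_diag_mat (m := 5) hF3 hζ (c := 1) one_ne_zero (M := x.1) (by
    rw [← Units.val_pow_eq_pow_val, hz, hz1, one_pow])
  have hdet := DiagTool.det_of_diag hP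
  rw [mem_SL_iff.1 hx] at hdet
  simp only [one_mul] at hdet hP
  rw [Fin.prod_univ_five, ← pow_add, ← pow_add, ← pow_add, ← pow_add] at hdet
  have hζ1 := hζ.pow_eq_one
  have hsum : ((e 0).1 + (e 1).1 + (e 2).1 + (e 3).1 + (e 4).1) % 5 = 0 := Nat.mod_eq_zero_of_dvd (hζ.dvd_of_pow_eq_one _ hdet.symm)
  obtain ⟨t, k1, k2⟩ := five_aux (e 0) (e 1) (e 2) (e 3) (e 4) hsum
  have hev : ∀ i, ![e 0, e 1, e 2, e 3, e 4] i = e i := by intro i; fin_cases i <;> rfl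
  rw [hev, hev, hev] at k1 k2
  have k1' := pow_mod_eq hζ1 k1
  have k2' := pow_mod_eq hζ1 k2
  have hζ0 : ζ ≠ 0 := hζ.ne_zero (by norm_num)
  have hor : ∀ i, (ζ ^ (e i).1) ^ 5 = 1 := fun i => by rw [← pow_mul, mul_comm, pow_mul, hζ1, one_pow]
  have hne : ∀ i, ζ ^ (e i).1 ≠ 0 := fun i => pow_ne_zero _ hζ0
  refine ⟨P, fun j => ζ ^ (e j).1, Equiv.ofBijective (pt t) (Finite.injective_iff_bijective.1 (pt_bij t)), ζ ^ (e (pt t 4)).1,
    ζ ^ (e (pt t 0)).1 / ζ ^ (e (pt t 4)).1, ζ ^ (e (pt t 2)).1 / ζ ^ (e (pt t 4)).1, hor _, ?_, ?_, hP, ?_⟩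
  · rw [div_pow, hor, hor, div_one]
  · rw [div_pow, hor, hor, div_one]
  · intro i
    rw [Equiv.ofBijective_apply]
    rw [pow_add, mul_comm 2, pow_mul] at k1' k2'
    have n0 := hne (pt t 0)
    have n2 := hne (pt t 2)
    have n4 := hne (pt t 4)
    fin_cases i
    · show ζ ^ (e (pt t 0)).1 = ζ ^ (e (pt t 4)).1 * (ζ ^ (e (pt t 0)).1 / ζ ^ (e (pt t 4)).1)
      field_simp
    · show ζ ^ (e (pt t 1)).1 = ζ ^ (e (pt t 4)).1 * (ζ ^ (e (pt t 0)).1 / ζ ^ (e (pt t 4)).1)⁻¹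
      rw [inv_div]
      field_simp
      linear_combination k1'
    · show ζ ^ (e (pt t 2)).1 = ζ ^ (e (pt t 4)).1 * (ζ ^ (e (pt t 2)).1 / ζ ^ (e (pt t 4)).1)
      field_simp
    · show ζ ^ (e (pt t 3)).1 = ζ ^ (e (pt t 4)).1 * (ζ ^ (e (pt t 2)).1 / ζ ^ (e (pt t 4)).1)⁻¹
      rw [inv_div]
      field_simp
      linear_combination k2'
    · rfl

end field

end Cfsg.Agent.Lib.XSym
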