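import Mathlib
set_option autoImplicit false
set_option linter.style.haveILetI false
set_option linter.unusedVariables false
set_option linter.unusedSectionVars false

/-!
Simply laced Coxeter groups act faithfully on their root lattices.
-/

namespace Cfsg.Agent.Lib.Y555

/-- Root data of a simply laced Coxeter group. -/
structure RootDat (ι V : Type*) [AddCommGroup V] where
  adj : ι → ι → Prop
  al : ι → V
  ph : ι → V →+ ℤ
  self : ∀ i, ph i (al i) = 2
  ad : ∀ i j, adj i j → ph i (al j) = -1
  nad : ∀ i j, i ≠ j → ¬ adj i j → ph i (al j) = 0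
  sym : ∀ i j, adj i j → adj j i
  pos : V → Prop
  pos_al : ∀ i, pos (al i)
  pos_add : ∀ x y, pos x → pos y → pos (x + y)
  pos_neg : ∀ x, pos x → ¬ pos (-x)

section
variable {ι V G : Type*} [AddCommGroup V] [Group G] (D : RootDat ι V) (g : ι → G)

/-- Reflections. -/
def RootDat.s (i : ι) (v : V) : V := v - D.ph i v • D.al i

/-- The Coxeter relations. -/
structure CoxRel : Prop where
  sq : ∀ i, g i * g i = 1
  co : ∀ i j, i ≠ j → ¬ D.adj i j → g i * g j = g j * g i
  br : ∀ i j, D.adj i j → g i * g j * g i = g j * g i * g j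

/-- Value of a word. -/
def ev (w : List ι) : G := (w.map g).prod

/-- Action of a word. -/
def RootDat.act (w : List ι) (v : V) : V := w.foldr D.s v

lemma ev_nil : ev g ([] : List ι) = 1 := rfl
lemma ev_append (u w : List ι) : ev g (u ++ w) = ev g u * ev g w := by simp [ev]
lemma ev_single (i : ι) : ev g [i] = g i := by simp [ev]
lemma act_append (u w : List ι) (v : V) : D.act (u ++ w) v = D.act u (D.act w v) := by simp [RootDat.act]
lemma act_single (i : ι) (v : V) : D.act [i] v = D.s i v := rfl

lemma s_s (i : ι) (v : V) : D.s i (D.s i v) = v := by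
  unfold RootDat.s
  rw [map_sub, map_zsmul, D.self]
  module

lemma s_neg (i : ι) (v : V) : D.s i (-v) = -D.s i v := by
  unfold RootDat.s
  rw [map_neg]
  module

lemma s_al (i : ι) : D.s i (D.al i) = -D.al i := by
  unfold RootDat.s
  rw [D.self]
  module

lemma s_al_nad {i j : ι} (h : i ≠ j) (ha : ¬ D.adj i j) : D.s i (D.al j) = D.al j := by
  unfold RootDat.s
  rw [D.nad i j h ha]
  module

lemma s_al_ad {i j : ι} (ha : D.adj i j) : D.s i (D.al j) = D.al i + D.al j := by
  unfold RootDat.s
  rw [D.ad i j ha]
  module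

lemma s_comm {i j : ι} (h : i ≠ j) (ha : ¬ D.adj i j) (v : V) : D.s i (D.s j v) = D.s j (D.s i v) := by
  have ha' : ¬ D.adj j i := fun h => ha (D.sym _ _ h)
  unfold RootDat.s
  rw [map_sub, map_sub, map_zsmul, map_zsmul, D.nad i j h ha, D.nad j i h.symm ha']
  module

lemma s_braid {i j : ι} (ha : D.adj i j) (v : V) : D.s i (D.s j (D.s i v)) = D.s j (D.s i (D.s j v)) := by
  have ha' := D.sym _ _ ha
  unfold RootDat.s
  simp only [map_sub, map_zsmul, D.ad i j ha, D.ad j i ha', D.self]
  module

lemma act_neg (w : List ι) (v : V) : D.act w (-v) = -D.act w v := by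
  induction w with
  | nil => rfl
  | cons i w ih =>
    show D.s i (D.act w (-v)) = -D.s i (D.act w v)
    rw [ih, s_neg]

lemma act_add (w : List ι) (u v : V) : D.act w (u + v) = D.act w u + D.act w v := by
  induction w with
  | nil => rfl
  | cons i w ih =>
    show D.s i (D.act w (u + v)) = D.s i (D.act w u) + D.s i (D.act w v)
    rw [ih]
    unfold RootDat.s
    rw [map_add]
    module

/-- Words with the same value and the same action. -/
def Eqv (u w : List ι) : Prop := ev g u = ev g w ∧ ∀ v, D.act u v = D.act w v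

variable {D g}

lemma Eqv.refl (u : List ι) : Eqv D g u u := ⟨rfl, fun _ => rfl⟩
lemma Eqv.symm {u w : List ι} (h : Eqv D g u w) : Eqv D g w u := ⟨h.1.symm, fun v => (h.2 v).symm⟩
lemma Eqv.trans {u w x : List ι} (h : Eqv D g u w) (h' : Eqv D g w x) : Eqv D g u x := ⟨h.1.trans h'.1, fun v => (h.2 v).trans (h'.2 v)⟩
lemma Eqv.app {u w u' w' : List ι} (h : Eqv D g u w) (h' : Eqv D g u' w') : Eqv D g (u ++ u') (w ++ w') :=
  ⟨by rw [ev_append, ev_append, h.1, h'.1], fun v => by rw [act_append, act_append, h'.2, h.2]⟩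

lemma eqv_sq (hg : CoxRel D g) (i : ι) : Eqv D g [i, i] [] := ⟨by simp [ev, hg.sq], fun v => s_s D i v⟩
lemma eqv_co (hg : CoxRel D g) {i j : ι} (h : i ≠ j) (ha : ¬ D.adj i j) : Eqv D g [i, j] [j, i] :=
  ⟨by simp [ev, hg.co i j h ha], fun v => s_comm D h ha v⟩
lemma eqv_br (hg : CoxRel D g) {i j : ι} (ha : D.adj i j) : Eqv D g [i, j, i] [j, i, j] :=
  ⟨by simpa [ev, mul_assoc] using hg.br i j ha, fun v => s_braid D ha v⟩

variable (D g) in
/-- Length of the class of a word. -/
noncomputable def len (u : List ι) : ℕ := sInf {n | ∃ w, Eqv D g u w ∧ w.length = n}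

lemma len_le {u w : List ι} (h : Eqv D g u w) : len D g u ≤ w.length := Nat.sInf_le ⟨w, h, rfl⟩

lemma exists_red (u : List ι) : ∃ w, Eqv D g u w ∧ w.length = len D g u :=
  Nat.sInf_mem (s := {n | ∃ w, Eqv D g u w ∧ w.length = n}) ⟨u.length, u, Eqv.refl u, rfl⟩

lemma len_congr {u w : List ι} (h : Eqv D g u w) : len D g u = len D g w := by
  apply le_antisymm
  · obtain ⟨x, hx, hl⟩ := exists_red (D := D) (g := g) w
    rw [← hl]; exact len_le (h.trans hx)
  · obtain ⟨x, hx, hl⟩ := exists_red (D := D) (g := g) u
    rw [← hl]; exact len_le (h.symm.trans hx)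

lemma len_app (u w : List ι) : len D g (u ++ w) ≤ len D g u + w.length := by
  obtain ⟨x, hx, hl⟩ := exists_red (D := D) (g := g) u
  have := len_le (hx.app (Eqv.refl (D := D) (g := g) w))
  rw [List.length_append, hl] at this
  exact this

lemma snoc_snoc (hg : CoxRel D g) (u : List ι) (s : ι) : Eqv D g (u ++ [s] ++ [s]) u := by
  have := (Eqv.refl (D := D) (g := g) u).app (eqv_sq hg s)
  rw [List.append_nil] at this
  rw [List.append_assoc]
  exact this

lemma le_len_snoc (hg : CoxRel D g) (u : List ι) (s : ι) : len D g u ≤ len D g (u ++ [s]) + 1 := by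
  rw [← len_congr (snoc_snoc hg u s)]
  exact len_app _ _

/-- The positivity theorem. -/
theorem pos_of_len (hg : CoxRel D g) : ∀ n, ∀ u : List ι, len D g u = n → ∀ s, len D g u ≤ len D g (u ++ [s]) → D.pos (D.act u (D.al s)) := by
  classical
  intro n
  induction n using Nat.strong_induction_on with
  | _ n ih =>
    intro u hu s hs
    obtain ⟨w, hw, hl⟩ := exists_red (D := D) (g := g) u
    rcases List.eq_nil_or_concat w with rfl | ⟨w1, t, rfl⟩
    · rw [hw.2]
      exact D.pos_al s
    · rw [List.concat_eq_append] at hw hl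
      rw [List.length_append, List.length_singleton] at hl
      have h1 : len D g w1 ≤ w1.length := len_le (Eqv.refl w1)
      have h2 : len D g u = len D g (w1 ++ [t]) := len_congr hw
      have h3 : len D g (w1 ++ [t]) ≤ len D g w1 + 1 := len_app _ _
      have h4 : len D g w1 = w1.length := by omega
      have hst : s ≠ t := by
        rintro rfl
        have h5 : Eqv D g (u ++ [s]) w1 := (hw.app (Eqv.refl [s])).trans (snoc_snoc hg w1 s)
        rw [len_congr h5] at hs
        omega
      rw [hw.2, act_append, act_single]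
      by_cases ha : D.adj t s
      · rw [s_al_ad D ha, act_add]
        have ht : D.pos (D.act w1 (D.al t)) := ih _ (by omega) w1 rfl t (by omega)
        by_cases h6 : len D g w1 ≤ len D g (w1 ++ [s])
        · exact D.pos_add _ _ ht (ih _ (by omega) w1 rfl s h6)
        · rw [← act_add, ← s_al_ad D ha]
          have h7 := le_len_snoc hg w1 s
          have h8 : Eqv D g w1 (w1 ++ [s] ++ [s]) := (snoc_snoc hg w1 s).symm
          have h9 : D.s t (D.al s) = D.s s (D.al t) := by
            rw [s_al_ad D ha, s_al_ad D (D.sym _ _ ha), add_comm]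
          rw [h9, h8.2, act_append, act_single, s_s]
          refine ih _ (by omega) (w1 ++ [s]) rfl t ?_
          by_contra h10
          -- `u s = w2 t s t`
          have h11 : Eqv D g (u ++ [s]) (w1 ++ [s] ++ [t] ++ [s, t]) := by
            have e1 : Eqv D g (u ++ [s]) (w1 ++ [s] ++ [s] ++ [t] ++ [s]) := (hw.trans (h8.app (Eqv.refl [t]))).app (Eqv.refl [s])
            have e2 : Eqv D g (w1 ++ [s] ++ [s, t, s]) (w1 ++ [s] ++ [t, s, t]) := (Eqv.refl (w1 ++ [s])).app (eqv_br hg (D.sym _ _ ha))
            have e3 : w1 ++ [s] ++ [s] ++ [t] ++ [s] = w1 ++ [s] ++ [s, t, s] := by simp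
            have e4 : w1 ++ [s] ++ [t, s, t] = w1 ++ [s] ++ [t] ++ [s, t] := by simp
            rw [e3] at e1
            rw [e4] at e2
            exact e1.trans e2
          have h12 := len_app (D := D) (g := g) (w1 ++ [s] ++ [t]) [s, t]
          rw [← len_congr h11] at h12
          simp only [List.length_cons, List.length_nil] at h12
          omega
      · rw [s_al_nad D hst.symm ha]
        refine ih _ (by omega) w1 rfl s ?_
        by_contra h6
        have h7 : Eqv D g (u ++ [s]) (w1 ++ [s] ++ [t]) := by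
          have e1 : Eqv D g (u ++ [s]) (w1 ++ [t] ++ [s]) := hw.app (Eqv.refl [s])
          have e2 : Eqv D g (w1 ++ [t, s]) (w1 ++ [s, t]) := (Eqv.refl w1).app (eqv_co hg hst.symm ha)
          have e3 : w1 ++ [t] ++ [s] = w1 ++ [t, s] := by simp
          have e4 : w1 ++ [s] ++ [t] = w1 ++ [s, t] := by simp
          rw [e3] at e1
          rw [e4]
          exact e1.trans e2
        have h8 := len_app (D := D) (g := g) (w1 ++ [s]) [t]
        rw [← len_congr h7, List.length_singleton] at h8
        omega

/-- Words that act trivially on the simple roots have trivial value. -/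
theorem ev_eq_one (hg : CoxRel D g) {u : List ι} (hu : ∀ i, D.act u (D.al i) = D.al i) : ev g u = 1 := by
  obtain ⟨w, hw, hl⟩ := exists_red (D := D) (g := g) u
  rcases List.eq_nil_or_concat w with rfl | ⟨w1, t, rfl⟩
  · rw [hw.1]; rfl
  · exfalso
    rw [List.concat_eq_append] at hw hl
    rw [List.length_append, List.length_singleton] at hl
    have h1 : len D g w1 ≤ w1.length := len_le (Eqv.refl w1)
    have h2 : len D g u = len D g (w1 ++ [t]) := len_congr hw
    have h5 := pos_of_len hg _ w1 rfl t (by omega)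
    have h6 := hu t
    rw [hw.2, act_append, act_single, s_al, act_neg] at h6
    refine D.pos_neg _ h5 ?_
    rw [h6]
    exact D.pos_al t

end

end Cfsg.Agent.Lib.Y555
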