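import Cfsg.Agent.Lib.Y555B
set_option autoImplicit false
set_option linter.style.haveILetI false
set_option linter.unusedVariables false
set_option linter.unusedSectionVars false

/-!
The spider relation implies that the end node of the long arm is the ninth power of a Coxeter element of type `E_7`.
-/

namespace Cfsg.Agent.Lib.Y555

/-- Repetition. -/
def rp : ℕ → List ℕ → List ℕ
  | 0, _ => []
  | n + 1, w => w ++ rp n w

/-- The spider. -/
def wS : List ℕ := [0, 1, 2, 0, 6, 7, 0, 9, 10]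
/-- A Coxeter element of type `E_7`. -/
def w12 : List ℕ := [0, 1, 6, 9, 2, 7, 3]
/-- Another Coxeter element of type `E_7`. -/
def w13 : List ℕ := [0, 1, 9, 6, 2, 10, 3]
/-- Conjugating word. -/
def wU : List ℕ := [0, 9, 10, 6, 1, 0]
/-- The highest root of `E_7`. -/
def wR : List ℕ := [7, 6, 0, 1, 2, 3, 9, 0, 1, 2, 6, 0, 1, 7, 6, 0, 9, 0, 6, 7, 1, 0, 6, 2, 1, 0, 9, 3, 2, 1, 0, 6, 7]
/-- The highest root of the other `E_7`. -/
def wR2 : List ℕ := [10, 9, 0, 1, 2, 3, 6, 0, 1, 2, 9, 0, 1, 6, 0, 9, 10, 9, 0, 6, 1, 0, 9, 2, 1, 0, 6, 3, 2, 1, 0, 9, 10]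
/-- Four orthogonal roots. -/
def wX : List ℕ := [4, 3, 2, 1, 0, 6, 7, 6, 0, 1, 2, 3, 4, 2, 1, 3, 2, 4, 3, 9, 0, 1, 2, 6, 0, 1, 7, 6, 0, 9, 0, 6, 7, 1, 0, 6, 2, 1, 0, 9, 3, 4, 2, 3, 1, 2, 0, 1, 2, 3, 4, 6, 0, 1, 2, 3, 9, 0, 1, 2, 6, 0, 1, 7, 6, 0, 9, 0, 6, 7, 1, 0, 6, 2, 1, 0, 9, 3, 2, 1, 0, 6, 4, 3, 2, 1, 0, 4, 3, 9, 0, 1, 2, 6, 0, 1, 7, 6, 0, 9, 0, 6, 7, 1, 0, 6, 2, 1, 0, 9, 3, 4]
/-- A root. -/
def x0 : List ℕ := [4, 3, 2, 1, 0, 6, 7, 8, 7, 6, 0, 1, 2, 3, 4]
/-- A root. -/
def x1 : List ℕ := [2, 1, 3, 2, 4, 3, 8, 9, 0, 1, 2, 6, 0, 1, 7, 6, 0, 9, 0, 6, 7, 1, 0, 6, 2, 1, 0, 9, 8, 3, 4, 2, 3, 1, 2]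
/-- A root. -/
def x2 : List ℕ := [0, 1, 2, 3, 4, 6, 0, 1, 2, 3, 8, 9, 0, 1, 2, 6, 0, 1, 7, 6, 0, 9, 0, 6, 7, 1, 0, 6, 2, 1, 0, 9, 8, 3, 2, 1, 0, 6, 4, 3, 2, 1, 0]
/-- A root. -/
def x3 : List ℕ := [4, 3, 8, 9, 0, 1, 2, 6, 0, 1, 7, 6, 0, 9, 0, 6, 7, 1, 0, 6, 2, 1, 0, 9, 8, 3, 4]
/-- Conjugating word. -/
def wH : List ℕ := [4, 3, 2, 1, 0, 9, 6, 7, 1, 0, 6, 3, 2, 1, 0, 9, 1, 0, 6, 7, 6, 0, 1, 2, 3, 4, 3, 0, 1, 2, 1, 0]
/-- A root. -/
def k1 : List ℕ := [0, 6, 7, 6, 0]
/-- Conjugating word. -/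
def g1 : List ℕ := [9, 2, 1, 0, 6, 3, 2, 1, 0, 9, 4, 3, 2, 1, 0, 6, 7]
/-- A root. -/
def k2 : List ℕ := [7]
/-- Conjugating word. -/
def g2 : List ℕ := [0, 6, 1, 0, 9, 2, 1, 0, 6, 3, 2, 1, 0, 9, 4, 3, 2, 1, 0, 6, 7]
/-- A root. -/
def k3 : List ℕ := [2, 1, 0, 6, 7, 6, 0, 1, 2]
/-- Conjugating word. -/
def g3 : List ℕ := [9, 0, 6, 1, 0, 9, 4, 3, 2, 1, 0, 6, 7]
/-- Conjugating word. -/
def ua : List ℕ := [1, 0, 2, 1, 3, 2, 4, 3]
/-- Conjugating word. -/
def ub : List ℕ := [0, 9, 1, 0, 2, 1, 3, 2, 4, 3]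
/-- Conjugating word. -/
def v1 : List ℕ := [0, 1, 2, 3, 5, 4]
/-- Conjugating word. -/
def v2 : List ℕ := [4]
/-- Conjugating word. -/
def v3 : List ℕ := [3, 2, 4, 3, 4]
/-- Conjugating word. -/
def vm : List ℕ := [6, 1, 0, 9, 7, 6, 0, 1, 2, 3, 4, 3]

/-- The spider word. -/
def wSS : List ℕ := rp 10 wS
/-- A translation. -/
def wT : List ℕ := [10] ++ wSS ++ [10] ++ wU ++ wSS ++ wU.reverse
/-- The central element. -/
def z12 : List ℕ := rp 9 w12
/-- The central element, again. -/
def z13 : List ℕ := rp 9 w13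
/-- The central element of `E_8`. -/
def wW : List ℕ := rp 3 (z12 ++ [4])
/-- A translation of the affine group of type `E_8`. -/
def wt : List ℕ := [5] ++ z12 ++ [4, 5] ++ z12 ++ [4]

section
variable {G : Type*} [Group G] {g : Fin 11 → G} (hg : CoxRel RD g)
include hg

omit hg in
lemma evn_rp (n : ℕ) (w : List ℕ) : evn g (rp n w) = evn g w ^ n := by
  induction n with
  | zero => rw [rp, evn_nil, pow_zero]
  | succ n ih => rw [rp, evn_append, ih, pow_succ']

omit hg in
lemma evn_one' (n : ℕ) : evn g [n] = g (nd n) := by rw [evn_cons, evn_nil, mul_one]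

lemma gsq (n : Fin 11) : g n * g n = 1 := hg.sq n

lemma comm_of_chk {u w : List ℕ} (h : chk (u ++ w ++ (w ++ u).reverse) = true) : Commute (evn g u) (evn g w) := by
  have := evn_eq hg h
  rwa [evn_append, evn_append] at this

lemma comm_far (m : Fin 11) {u : List ℕ} (h : ∀ n ∈ u, adjM m (nd n) = false) : Commute (g m) (evn g u) := by
  induction u with
  | nil => exact Commute.one_right _
  | cons n u ih =>
    rw [evn_cons]
    refine Commute.mul_right ?_ (ih fun k hk => h k (List.mem_cons_of_mem _ hk))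
    by_cases hmn : m = nd n
    · rw [hmn]; exact Commute.refl _
    · refine hg.co _ _ hmn ?_
      show ¬ adjM m (nd n) = true
      rw [h n (by simp)]
      decide

/-- The first step. -/
lemma step1 (hS : evn g wS ^ 10 = 1) : evn g wR = evn g wR2 := by
  have hS' : evn g wSS = 1 := by rw [wSS, evn_rp, hS]
  have hT : evn g wT = 1 := by
    rw [wT]
    simp only [evn_append, hS', evn_rev hg, mul_one]
    rw [evn_one', gsq hg, one_mul, mul_inv_cancel]
  have h := evn_eq hg (u := wT ++ wR ++ wT.reverse) (w := wR2) (by decide +kernel)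
  rwa [evn_append, evn_append, evn_rev hg, hT, inv_one, mul_one, one_mul] at h

lemma step2 (hS : evn g wS ^ 10 = 1) : evn g z12 = evn g z13 := by
  have h := evn_eq hg (u := z12 ++ wR) (w := z13 ++ wR2) (by decide +kernel)
  rw [evn_append, evn_append, step1 hg hS] at h
  exact mul_right_cancel h

/-- Commutation with `z`. -/
lemma step3 (hS : evn g wS ^ 10 = 1) : ∀ n ∈ [0, 1, 2, 3, 5, 6, 7, 8, 9, 10], Commute (evn g z12) (g (nd n)) := by
  have h1 : ∀ n, chk (z12 ++ [n] ++ ([n] ++ z12).reverse) = true → Commute (evn g z12) (g (nd n)) := by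
    intro n h
    have := comm_of_chk hg h
    rwa [evn_one'] at this
  have h2 : ∀ n, chk (z13 ++ [n] ++ ([n] ++ z13).reverse) = true → Commute (evn g z12) (g (nd n)) := by
    intro n h
    have := comm_of_chk hg h
    rwa [evn_one', ← step2 hg hS] at this
  intro n hn
  simp only [List.mem_cons, List.not_mem_nil, or_false] at hn
  rcases hn with rfl | rfl | rfl | rfl | rfl | rfl | rfl | rfl | rfl | rfl
  · exact h1 0 (by decide +kernel)
  · exact h1 1 (by decide +kernel)
  · exact h1 2 (by decide +kernel)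
  · exact h1 3 (by decide +kernel)
  · exact h1 5 (by decide +kernel)
  · exact h1 6 (by decide +kernel)
  · exact h1 7 (by decide +kernel)
  · exact h2 8 (by decide +kernel)
  · exact h1 9 (by decide +kernel)
  · exact h2 10 (by decide +kernel)

/-- Squares. -/
lemma zsq : evn g z12 * evn g z12 = 1 := by
  rw [← evn_append]
  exact evn_one hg (by decide +kernel)

/-- The highest root of `E_7` commutes with the affine node. -/
lemma step4 (hS : evn g wS ^ 10 = 1) : Commute (evn g wR) (g 8) := by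
  have hz := step3 hg hS 8 (by simp)
  have h8 : g (nd 8) = g 8 := rfl
  rw [h8] at hz
  have h := evn_eq hg (u := z12 ++ wR ++ [8] ++ z12) (w := [8] ++ wR) (by decide +kernel)
  have hr : Commute (evn g z12) (evn g wR) := comm_of_chk hg (by decide +kernel)
  rw [evn_append, evn_append, evn_append, evn_append, evn_one', h8, hr.eq, mul_assoc, mul_assoc, ← mul_assoc (evn g z12) (g 8), hz.eq,
    mul_assoc (g 8), zsq hg, mul_one] at h
  exact h

/-- The identification of roots. -/
lemma ident (hS : evn g wS ^ 10 = 1) {k x c h y : List ℕ} (h1 : chk (c ++ wR ++ c.reverse ++ k.reverse) = true)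
    (h2 : chk (c ++ [8] ++ c.reverse ++ x.reverse) = true) (h3 : chk (k ++ k) = true)
    (h4 : chk (k ++ x ++ k ++ (h ++ y ++ h.reverse).reverse) = true) : evn g h * evn g y * (evn g h)⁻¹ = evn g x := by
  have e1 := evn_eq hg h1
  have e2 := evn_eq hg h2
  have e3 := evn_one hg h3
  have e4 := evn_eq hg h4
  rw [evn_append, evn_append, evn_rev hg] at e1 e2
  rw [evn_one'] at e2
  rw [evn_append] at e3
  rw [evn_append, evn_append, evn_append, evn_append, evn_rev hg] at e4
  have h8 : g (nd 8) = g 8 := rfl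
  have hc : Commute (evn g k) (evn g x) := by
    rw [← e1, ← e2, h8]
    have := (step4 hg hS).eq
    show evn g c * evn g wR * (evn g c)⁻¹ * (evn g c * g 8 * (evn g c)⁻¹) = evn g c * g 8 * (evn g c)⁻¹ * (evn g c * evn g wR * (evn g c)⁻¹)
    have l : evn g c * evn g wR * (evn g c)⁻¹ * (evn g c * g 8 * (evn g c)⁻¹) = evn g c * (evn g wR * g 8) * (evn g c)⁻¹ := by group
    have r : evn g c * g 8 * (evn g c)⁻¹ * (evn g c * evn g wR * (evn g c)⁻¹) = evn g c * (g 8 * evn g wR) * (evn g c)⁻¹ := by group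
    rw [l, r, this]
  rw [← e4, hc.eq, mul_assoc, e3, mul_one]

/-- The central element of `E_8` is trivial. -/
lemma step5 (hS : evn g wS ^ 10 = 1) : (evn g z12 * g 4) ^ 3 = 1 := by
  have h8 : g (nd 8) = g 8 := rfl
  have hw : (evn g z12 * g 4) ^ 3 = evn g (wR ++ [6, 3, 1]) * evn g wX := by
    have h := evn_eq hg (u := wW) (w := (wR ++ [6, 3, 1]) ++ wX) (by decide +kernel)
    rw [wW, evn_rp, evn_append, evn_one', evn_append] at h
    exact h
  set w := (evn g z12 * g 4) ^ 3 with hwdef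
  have c1 : Commute (g 8) w := by
    rw [hwdef]
    refine Commute.pow_right (Commute.mul_right ?_ ?_) 3
    · exact (step3 hg hS 8 (by simp)).symm
    · exact hg.co 8 4 (by decide) (show ¬ adjM 8 4 = true by decide)
  have c2 : Commute (g 8) (evn g (wR ++ [6, 3, 1])) := by
    rw [evn_append]
    exact Commute.mul_right (step4 hg hS).symm (comm_far hg 8 (by decide))
  have c3 : Commute (g 8) (evn g wX) := by
    have : evn g wX = (evn g (wR ++ [6, 3, 1]))⁻¹ * w := by rw [hw]; group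
    rw [this]
    exact Commute.mul_right c2.inv_right c1
  have e1 : evn g wX = evn g x0 * evn g x1 * evn g x2 * evn g x3 := by
    have h := evn_eq hg (u := [8] ++ wX ++ [8]) (w := x0 ++ x1 ++ x2 ++ x3) (by decide +kernel)
    rw [evn_append, evn_append, evn_one', h8, c3.eq, mul_assoc, gsq hg, mul_one, evn_append, evn_append, evn_append] at h
    exact h
  have e2 : evn g wH * evn g wX * (evn g wH)⁻¹ = evn g (wR ++ [6, 3, 1]) := by
    have h := evn_eq hg (u := wH ++ wX ++ wH.reverse) (w := wR ++ [6, 3, 1]) (by decide +kernel)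
    rw [evn_append, evn_append, evn_rev hg] at h
    exact h
  have f0 : evn g wH * evn g x0 * (evn g wH)⁻¹ = evn g x0 := by
    have h := evn_eq hg (u := wH ++ x0 ++ wH.reverse) (w := x0) (by decide +kernel)
    rw [evn_append, evn_append, evn_rev hg] at h
    exact h
  have f1 : evn g wH * evn g x1 * (evn g wH)⁻¹ = evn g x2 :=
    ident hg hS (k := k2) (c := g2) (by decide +kernel) (by decide +kernel) (by decide +kernel) (by decide +kernel)
  have f2 : evn g wH * evn g x2 * (evn g wH)⁻¹ = evn g x3 :=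
    ident hg hS (k := k3) (c := g3) (by decide +kernel) (by decide +kernel) (by decide +kernel) (by decide +kernel)
  have f3 : evn g wH * evn g x3 * (evn g wH)⁻¹ = evn g x1 :=
    ident hg hS (k := k1) (c := g1) (by decide +kernel) (by decide +kernel) (by decide +kernel) (by decide +kernel)
  have e3 : evn g wH * evn g wX * (evn g wH)⁻¹ = evn g x0 * evn g x2 * evn g x3 * evn g x1 := by
    have l : evn g wH * (evn g x0 * evn g x1 * evn g x2 * evn g x3) * (evn g wH)⁻¹ = (evn g wH * evn g x0 * (evn g wH)⁻¹) *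
        (evn g wH * evn g x1 * (evn g wH)⁻¹) * (evn g wH * evn g x2 * (evn g wH)⁻¹) * (evn g wH * evn g x3 * (evn g wH)⁻¹) := by group
    rw [e1, l, f0, f1, f2, f3]
  have e4 : evn g x0 * evn g x2 * evn g x3 * evn g x1 = evn g wX := by
    have h := evn_eq hg (u := x0 ++ x2 ++ x3 ++ x1) (w := x0 ++ x1 ++ x2 ++ x3) (by decide +kernel)
    rw [evn_append, evn_append, evn_append, evn_append, evn_append, evn_append] at h
    rw [h, e1]
  have e5 : evn g wX * evn g wX = 1 := by
    rw [← evn_append]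
    exact evn_one hg (by decide +kernel)
  rw [hw, ← e2, e3, e4, e5]

omit hg in
/-- The final cancellation. -/
lemma final {z e f : G} (hz : z * z = 1) (he : e * e = 1) (hf : f * f = 1) (hzf : z * f = f * z) (hef : e * f * e = f * e * f)
    (hze : (z * e) ^ 3 = 1) (ht : f * z * e * f * z * e = 1) : f = z := by
  have zi : z⁻¹ = z := inv_eq_of_mul_eq_one_left hz
  have ei : e⁻¹ = e := inv_eq_of_mul_eq_one_left he
  have fi : f⁻¹ = f := inv_eq_of_mul_eq_one_left hf
  have h1 : e * z * e = z * e * z := by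
    have h : (z * e * z) * (e * z * e) = 1 := by
      rw [← hze, pow_succ, pow_succ, pow_one]; simp only [mul_assoc]
    have h' : e * z * e = (z * e * z)⁻¹ := eq_inv_of_mul_eq_one_right h
    rw [h', mul_inv_rev, mul_inv_rev, zi, ei, mul_assoc]
  have h2 : e * f * z * e = f * z := by
    have h : (f * z) * (e * f * z * e) = 1 := by
      rw [← ht]; simp only [mul_assoc]
    have h' : e * f * z * e = (f * z)⁻¹ := eq_inv_of_mul_eq_one_right h
    rw [h', mul_inv_rev, zi, fi, hzf]
  have h3 : e * f * z * e = (e * f * e) * (e * z * e) := by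
    have : (e * f * e) * (e * z * e) = e * f * (e * e) * z * e := by simp only [mul_assoc]
    rw [this, he, mul_one]
  rw [hef, h1] at h3
  have h4 : f * (e * (f * z) * e) * z = f * z := by
    have : f * (e * (f * z) * e) * z = f * e * f * (z * e * z) := by simp only [mul_assoc]
    rw [this, ← h3, h2]
  have h5 : e * (f * z) * e = 1 := by
    have h6 := mul_right_cancel h4
    exact mul_left_cancel (h6.trans (mul_one f).symm)
  have h6 : f * z = 1 := by
    have : f * z = e * (e * (f * z) * e) * e := by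
      have : e * (e * (f * z) * e) * e = (e * e) * (f * z) * (e * e) := by simp only [mul_assoc]
      rw [this, he, one_mul, mul_one]
    rw [this, h5, mul_one, he]
  rw [← zi]
  exact eq_inv_of_mul_eq_one_left h6

/-- The theorem. -/
theorem main (hS : evn g wS ^ 10 = 1) : g 5 = evn g w12 ^ 9 ∧ g 5 = evn g w13 ^ 9 := by
  have hz := step2 hg hS
  have hw := step5 hg hS
  have n4 : g (nd 4) = g 4 := rfl
  have n5 : g (nd 5) = g 5 := rfl
  have n9 : g (nd 9) = g 9 := rfl
  have n10 : g (nd 10) = g 10 := rfl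
  -- the translation
  have ht : evn g wt = g 5 * evn g z12 * g 4 * g 5 * evn g z12 * g 4 := by
    rw [wt]
    simp only [evn_append, evn_cons, evn_nil, mul_one, n4, n5, mul_assoc]
  have htt : evn g wt * evn g wt = 1 := by
    have h := evn_eq hg (u := wW ++ wt ++ wW.reverse) (w := wt.reverse) (by decide +kernel)
    have hW : evn g wW = 1 := by rw [wW, evn_rp, evn_append, evn_one', n4, hw]
    rw [evn_append, evn_append, evn_rev hg, evn_rev hg, hW, inv_one, mul_one, one_mul] at h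
    nth_rw 2 [h]
    exact mul_inv_cancel _
  have hct : Commute (g 10) (evn g wt) := by
    have a1 : Commute (g 10) (evn g z12) := (step3 hg hS 10 (by simp)).symm
    have a2 : Commute (g 10) (g 4) := hg.co 10 4 (by decide) (show ¬ adjM 10 4 = true by decide)
    have a3 : Commute (g 10) (g 5) := hg.co 10 5 (by decide) (show ¬ adjM 10 5 = true by decide)
    rw [ht]
    exact ((((a3.mul_right a1).mul_right a2).mul_right a3).mul_right a1).mul_right a2
  have hconj : ∀ u : List ℕ, (∀ n ∈ u, adjM 10 (nd n) = false) → Commute (g 10) (evn g u * evn g wt * (evn g u)⁻¹) := by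
    intro u hu
    have h1 := comm_far hg 10 hu
    exact (h1.mul_right hct).mul_right h1.inv_right
  have ha := hconj ua (by decide)
  have h1 := hconj v1 (by decide)
  have h2 := hconj v2 (by decide)
  have h3 := hconj v3 (by decide)
  have hsum : g 9 * (evn g ua * evn g wt * (evn g ua)⁻¹) * g 9 = (evn g v1 * evn g wt * (evn g v1)⁻¹) * (evn g v2 * evn g wt * (evn g v2)⁻¹) *
      (evn g v3 * evn g wt * (evn g v3)⁻¹) := by
    have h := evn_eq hg (u := [9] ++ (ua ++ wt ++ ua.reverse) ++ [9])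
      (w := (v1 ++ wt ++ v1.reverse) ++ (v2 ++ wt ++ v2.reverse) ++ (v3 ++ wt ++ v3.reverse) ++ ((vm ++ wt ++ vm.reverse) ++ (vm ++ wt ++ vm.reverse)))
      (by decide +kernel)
    simp only [evn_append, evn_rev hg, evn_one', n9] at h
    rw [h]
    have : evn g vm * evn g wt * (evn g vm)⁻¹ * (evn g vm * evn g wt * (evn g vm)⁻¹) = 1 := by
      have : evn g vm * evn g wt * (evn g vm)⁻¹ * (evn g vm * evn g wt * (evn g vm)⁻¹) = evn g vm * (evn g wt * evn g wt) * (evn g vm)⁻¹ := by group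
      rw [this, htt, mul_one, mul_inv_cancel]
    rw [this, mul_one]
  set ta := evn g ua * evn g wt * (evn g ua)⁻¹ with hta
  have hb : Commute (g 10) (g 9 * ta * g 9) := by
    rw [hsum]
    exact (h1.mul_right h2).mul_right h3
  have b2 := gsq hg 9
  have c2 := gsq hg 10
  have hbr : g 9 * g 10 * g 9 = g 10 * g 9 * g 10 := hg.br 9 10 (show adjM 9 10 = true by decide)
  -- `b` fixes the translation
  have hfix : g 9 * ta * g 9 = ta := by
    have l1 : (g 9 * g 10 * g 9) * ta * (g 9 * g 10 * g 9) = ta := by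
      have : (g 9 * g 10 * g 9) * ta * (g 9 * g 10 * g 9) = g 9 * (g 10 * (g 9 * ta * g 9)) * g 10 * g 9 := by simp only [mul_assoc]
      rw [this, hb.eq]
      have : g 9 * (g 9 * ta * g 9 * g 10) * g 10 * g 9 = (g 9 * g 9) * ta * (g 9 * (g 10 * g 10) * g 9) := by simp only [mul_assoc]
      rw [this, b2, c2, mul_one, b2, one_mul, mul_one]
    have l2 : (g 10 * g 9 * g 10) * ta * (g 10 * g 9 * g 10) = g 9 * ta * g 9 := by
      have : (g 10 * g 9 * g 10) * ta * (g 10 * g 9 * g 10) = g 10 * g 9 * (g 10 * ta) * g 10 * g 9 * g 10 := by simp only [mul_assoc]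
      rw [this, ha.eq]
      have : g 10 * g 9 * (ta * g 10) * g 10 * g 9 * g 10 = g 10 * (g 9 * ta * (g 10 * g 10) * g 9) * g 10 := by simp only [mul_assoc]
      rw [this, c2, mul_one, hb.eq, mul_assoc, c2, mul_one]
    rw [← l2, ← hbr, l1]
  have htb : evn g ub * evn g wt * (evn g ub)⁻¹ = 1 := by
    have h := evn_eq hg (u := [9] ++ (ua ++ wt ++ ua.reverse) ++ [9]) (w := (ua ++ wt ++ ua.reverse) ++ (ub ++ wt ++ ub.reverse))
      (by decide +kernel)
    simp only [evn_append, evn_rev hg, evn_one', n9] at h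
    rw [← hta, hfix] at h
    exact (mul_left_cancel ((mul_one ta).trans h)).symm
  have ht1 : evn g wt = 1 := by
    have : evn g wt = (evn g ub)⁻¹ * (evn g ub * evn g wt * (evn g ub)⁻¹) * evn g ub := by group
    rw [this, htb]; group
  have hfin : g 5 = evn g z12 := by
    refine final (e := g 4) (zsq hg) (gsq hg 4) (gsq hg 5) (step3 hg hS 5 (by simp)).eq (hg.br 4 5 (show adjM 4 5 = true by decide)) hw ?_
    rw [← ht, ht1]
  refine ⟨?_, ?_⟩
  · rw [hfin, z12, evn_rp]
  · rw [hfin, hz, z13, evn_rp]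

end

end Cfsg.Agent.Lib.Y555
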