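import Mathlib
import Cfsg.Prelude.Def_PLocal
import Cfsg.Prelude.Def_Transfer
import Cfsg.Agent.Lib.LocBase
import Cfsg.Agent.Lib.Tate
import Cfsg.Agent.Lib.TateApps
import Cfsg.Agent.Lib.TransferPow
import Cfsg.Agent.Lib.Yoshida
import Cfsg.Agent.Lib.H70Frattini

/-!
Yoshida's theorem, second part: the homomorphism (Tate), iterated commutators, wreath products (helper47).
-/

set_option autoImplicit false

namespace Cfsg.Agent.Lib.Yoshida

open Subgroup Cfsg Cfsg.Agent.Lib.LocBase
open scoped Pointwise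

variable {G : Type*} [Group G]

section hom

variable [Finite G] {p : ℕ} [hp : Fact p.Prime]

theorem zmod_pow_p (a : Multiplicative (ZMod p)) : a ^ p = 1 := by
  have h1 : Nat.card (Multiplicative (ZMod p)) = p := by simp
  have := pow_card_eq_one' (G := Multiplicative (ZMod p)) (x := a)
  rwa [h1] at this

theorem eq_one_of_pow_coprime (a : Multiplicative (ZMod p)) {m : ℕ} (hm : ¬ p ∣ m) (h : a ^ m = 1) : a = 1 := by
  have h1 : orderOf a ∣ p := orderOf_dvd_of_pow_eq_one (zmod_pow_p a)
  have h2 : orderOf a ∣ m := orderOf_dvd_of_pow_eq_one h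
  rcases (Nat.dvd_prime hp.out).mp h1 with h3 | h3
  · exact orderOf_eq_one_iff.mp h3
  · rw [h3] at h2
    exact absurd h2 hm

theorem exists_hom (S : Sylow p G) {N : Subgroup G} (hSN : (S : Subgroup G) ≤ N)
    (h : (S : Subgroup G) ⊓ commutator G ≠ (S : Subgroup G) ⊓ ⁅N, N⁆) :
    ∃ φ : ↥N →* Multiplicative (ZMod p), ∃ u ∈ N, u ∈ commutator G ∧ IsPGroup p (zpowers u) ∧ fx φ u ≠ 1 := by
  by_contra hcon
  push Not at hcon
  have hidx : ¬ p ∣ N.index := fun h1 => S.not_dvd_index (h1.trans (Subgroup.index_dvd_of_le hSN))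
  have hkill : ∀ (φ : ↥N →* Multiplicative (ZMod p)) (v : G) (hv : v ∈ N), v ∈ commutator G → φ ⟨v, hv⟩ = 1 := by
    intro φ v hv hvc
    obtain ⟨a, m, hm, hord⟩ := Nat.exists_eq_pow_mul_and_not_dvd (orderOf_pos v).ne' p hp.out.ne_one
    have h1 := hcon φ (v ^ m) (N.pow_mem hv m) ((commutator G).pow_mem hvc m) ?_
    · rw [fx_of_mem φ (N.pow_mem hv m)] at h1
      apply eq_one_of_pow_coprime _ hm
      rw [← map_pow]
      exact h1
    · rw [IsPGroup.iff_card, Nat.card_zpowers]
      refine ⟨a, ?_⟩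
      rw [orderOf_pow, hord]
      rw [Nat.gcd_eq_right (Dvd.intro_left _ rfl)]
      exact Nat.mul_div_cancel _ (Nat.pos_of_ne_zero (by rintro rfl; exact hm (dvd_zero p)))
  have hext : ∀ δ : ↥N →* Multiplicative (ZMod p), ∃ δ' : G →* Multiplicative (ZMod p), ∀ h : ↥N, δ' h = δ h := by
    intro δ
    have h1 : ∀ g : ↥N, MonoidHom.transfer δ (g : G) = δ g ^ N.index := by
      intro g
      apply TransferPow.transfer_eq_pow δ g.2
      intro m a h2
      have h3 : a⁻¹ * (g : G) ^ m * a * ((g : G) ^ m)⁻¹ ∈ commutator G := by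
        have := commutator_mem_commutator (mem_top a⁻¹) (mem_top ((g : G) ^ m))
        rw [commutatorElement_def, inv_inv] at this
        exact this
      have h4 := hkill δ _ (N.mul_mem h2 (N.inv_mem (N.pow_mem g.2 m))) h3
      have h5 : (⟨_, N.mul_mem h2 (N.inv_mem (N.pow_mem g.2 m))⟩ : ↥N) = ⟨_, h2⟩ * (g ^ m)⁻¹ := by
        apply Subtype.ext; simp
      rw [h5, map_mul, map_inv, mul_inv_eq_one, map_pow] at h4
      exact h4
    have hcop : Nat.Coprime N.index p := ((Nat.Prime.coprime_iff_not_dvd hp.out).mpr hidx).symm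
    obtain ⟨k, -, hk⟩ := Nat.exists_mul_mod_eq_one_of_coprime hcop hp.out.one_lt
    refine ⟨(powMonoidHom k).comp (MonoidHom.transfer δ), ?_⟩
    intro g
    rw [MonoidHom.comp_apply, h1, powMonoidHom_apply, ← pow_mul]
    conv_lhs => rw [← Nat.div_add_mod (N.index * k) p, hk]
    rw [pow_add, pow_mul, zmod_pow_p, one_pow, one_mul, pow_one]
  have htate := Tate.tate N hidx hext
  apply h
  apply le_antisymm
  · refine le_inf inf_le_left ?_
    rintro x ⟨hxS, hxc⟩
    set K := pResidual p G with hK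
    have hKn : K.Normal := pResidual_normal' p G
    have htop : N ⊔ K = ⊤ := by
      rw [← top_le_iff]
      have := (isSyl_top S).sup_pRes
      rw [← this, hK, pResidual_eq]
      exact sup_le_sup_right hSN _
    -- `G' ≤ N' K`
    have h1 : commutator G ≤ ⁅N, N⁆ ⊔ K := by
      have h2 : (commutator G).map (QuotientGroup.mk' K) ≤ (⁅N, N⁆).map (QuotientGroup.mk' K) := by
        rw [Subgroup.map_commutator, _root_.commutator_def, Subgroup.map_commutator]
        have h3 : (⊤ : Subgroup G).map (QuotientGroup.mk' K) = N.map (QuotientGroup.mk' K) := by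
          rw [← htop, Subgroup.map_sup]
          have : K.map (QuotientGroup.mk' K) = ⊥ := by
            rw [Subgroup.map_eq_bot_iff, QuotientGroup.ker_mk']
          rw [this, sup_bot_eq]
        rw [h3]
      rw [Subgroup.map_le_map_iff, QuotientGroup.ker_mk'] at h2
      exact h2
    have h2 := h1 hxc
    rw [sup_comm] at h2
    obtain ⟨k, hk, n, hn, hxkn⟩ := exists_mul_of_mem_sup_of_le (by rw [normalizer_eq_top]; exact le_top) h2
    have hnN : n ∈ N := commutator_le_self N hn
    have hkN : k ∈ N := by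
      have : k = x * n⁻¹ := by rw [hxkn]; group
      rw [this]
      exact N.mul_mem (hSN hxS) (N.inv_mem hnN)
    have hkP : k ∈ (pResidual p ↥N).map N.subtype := by
      rw [← htate]; exact ⟨hkN, hk⟩
    obtain ⟨k', hk', hk'e⟩ := hkP
    -- pass to the abelianization
    let π := Abelianization.of (G := ↥N)
    obtain ⟨a, m, hm, hcard⟩ := Nat.exists_eq_pow_mul_and_not_dvd (Nat.card_pos (α := Abelianization ↥N)).ne' p
      hp.out.ne_one
    have h3 : ∀ y ∈ pResidual p ↥N, (π y) ^ m = 1 := by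
      intro y hy
      have : pResidual p ↥N ≤ ((powMonoidHom m).comp π).ker := by
        unfold pResidual
        rw [closure_le]
        intro g hg
        change ((powMonoidHom m).comp π) g = 1
        rw [MonoidHom.comp_apply, powMonoidHom_apply]
        apply orderOf_dvd_iff_pow_eq_one.mp
        have h4 : orderOf (π g) ∣ p ^ a * m := by rw [← hcard]; exact _root_.orderOf_dvd_natCard _
        have h5 : (orderOf (π g)).Coprime (p ^ a) :=
          ((hg : (orderOf g).Coprime p).coprime_dvd_left (orderOf_map_dvd π g)).pow_right a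
        exact h5.dvd_of_dvd_mul_left h4
      exact this hy
    have hxk : π ⟨x, hSN hxS⟩ = π k' := by
      have h4 : (⟨x, hSN hxS⟩ : ↥N) = k' * ⟨n, hnN⟩ := by
        apply Subtype.ext
        show x = (k' : G) * n
        rw [hxkn, ← hk'e]
        rfl
      rw [h4, map_mul]
      have h5 : π ⟨n, hnN⟩ = 1 := by
        rw [← MonoidHom.mem_ker, Abelianization.ker_of]
        have : n ∈ (commutator ↥N).map N.subtype := by
          rw [Subgroup.map_subtype_commutator]; exact hn
        obtain ⟨n', hn', e⟩ := this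
        have : n' = ⟨n, hnN⟩ := Subtype.ext e
        rw [← this]; exact hn'
      rw [h5, mul_one]
    have h4 : (π ⟨x, hSN hxS⟩) ^ m = 1 := by rw [hxk]; exact h3 k' hk'
    have h5 : π ⟨x, hSN hxS⟩ = 1 := by
      obtain ⟨j, hj⟩ := S.2 ⟨x, hxS⟩
      have hj' : x ^ p ^ j = 1 := by
        have := congrArg Subtype.val hj
        simpa using this
      have h6 : (π ⟨x, hSN hxS⟩) ^ p ^ j = 1 := by
        rw [← map_pow]
        have : (⟨x, hSN hxS⟩ : ↥N) ^ p ^ j = 1 := Subtype.ext hj'
        rw [this, map_one]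
      have h7 : orderOf (π ⟨x, hSN hxS⟩) ∣ Nat.gcd (p ^ j) m :=
        Nat.dvd_gcd (orderOf_dvd_of_pow_eq_one h6) (orderOf_dvd_of_pow_eq_one h4)
      have h8 : Nat.gcd (p ^ j) m = 1 := Nat.Coprime.pow_left j ((Nat.Prime.coprime_iff_not_dvd hp.out).mpr hm)
      rw [h8, Nat.dvd_one] at h7
      exact orderOf_eq_one_iff.mp h7
    rw [← MonoidHom.mem_ker, Abelianization.ker_of] at h5
    rw [← Subgroup.map_subtype_commutator]
    exact ⟨_, h5, rfl⟩
  · refine inf_le_inf_left _ ?_
    rw [_root_.commutator_def]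
    exact commutator_mono le_top le_top

end hom


section poly

open Polynomial

variable {p : ℕ} [hp : Fact p.Prime]

theorem X_sub_one_pow : ((X : (ZMod p)[X]) - 1) ^ (p - 1) = ∑ i ∈ Finset.range p, X ^ i := by
  rw [← cyclotomic_prime]
  have h : ¬ p ∣ 1 := fun h => hp.out.one_lt.ne' (Nat.dvd_one.mp h)
  have := cyclotomic_mul_prime_eq_pow_of_not_dvd (ZMod p) h
  rw [one_mul, cyclotomic_one] at this
  exact this.symm

/-- conjugation by `z` on functions -/
def cz (p : ℕ) (z : G) : (G → ZMod p) →ₗ[ZMod p] (G → ZMod p) :=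
  LinearMap.funLeft (ZMod p) (ZMod p) (fun y => z⁻¹ * y * z)

omit hp in
theorem cz_apply (z : G) (f : G → ZMod p) (y : G) : cz p z f y = f (z⁻¹ * y * z) := rfl

omit hp in
theorem cz_pow_apply (z : G) (f : G → ZMod p) (i : ℕ) (y : G) :
    ((cz p z) ^ i) f y = f (z ^ (-(i : ℤ)) * y * z ^ (i : ℤ)) := by
  induction i generalizing f with
  | zero => simp
  | succ i ih =>
    rw [pow_succ, Module.End.mul_apply, ih, cz_apply]
    congr 1
    push_cast
    rw [neg_add, zpow_add, zpow_add, zpow_one]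
    have h1 : (z : G) ^ (-(i : ℤ)) * z ^ (-1 : ℤ) = z⁻¹ * z ^ (-(i : ℤ)) := by
      rw [zpow_neg_one, ← zpow_neg_one, ← zpow_add, ← zpow_add, add_comm]
    have h2 : (z : G) ^ (i : ℤ) * z = z ^ (i : ℤ) * z := rfl
    rw [h1]
    group

/-- additive on `Q` -/
def AddOn (p : ℕ) (Q : Subgroup G) (f : G → ZMod p) : Prop := ∀ y ∈ Q, ∀ w ∈ Q, f (y * w) = f y + f w

theorem AddOn.one {Q : Subgroup G} {f : G → ZMod p} (h : AddOn p Q f) : f 1 = 0 := by
  have := h 1 Q.one_mem 1 Q.one_mem
  rw [one_mul] at this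
  simpa using this

theorem AddOn.inv {Q : Subgroup G} {f : G → ZMod p} (h : AddOn p Q f) {y : G} (hy : y ∈ Q) : f y⁻¹ = - f y := by
  have := h y⁻¹ (Q.inv_mem hy) y hy
  rw [inv_mul_cancel, h.one] at this
  exact eq_neg_of_add_eq_zero_left this.symm

theorem cz_sub_one_apply {Q : Subgroup G} {f : G → ZMod p} (h : AddOn p Q f) {z : G}
    (hz : z ∈ normalizer (Q : Set G)) {y : G} (hy : y ∈ Q) : (cz p z - 1) f y = f (y⁻¹ * z⁻¹ * y * z) := by
  have h1 : z⁻¹ * y * z ∈ Q := conj_mem_of_le_normalizer' (K := zpowers z) (by rwa [zpowers_le]) (mem_zpowers z) hy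
  have h2 : y⁻¹ * z⁻¹ * y * z = y⁻¹ * (z⁻¹ * y * z) := by group
  rw [h2, h _ (Q.inv_mem hy) _ h1, h.inv hy]
  show cz p z f y - f y = _
  rw [cz_apply]
  ring

theorem comm_mem {Q : Subgroup G} {z : G} (hz : z ∈ normalizer (Q : Set G)) {y : G} (hy : y ∈ Q) :
    y⁻¹ * z⁻¹ * y * z ∈ Q := by
  have h1 : z⁻¹ * y * z ∈ Q := conj_mem_of_le_normalizer' (K := zpowers z) (by rwa [zpowers_le]) (mem_zpowers z) hy
  have h2 : y⁻¹ * z⁻¹ * y * z = y⁻¹ * (z⁻¹ * y * z) := by group
  rw [h2]; exact Q.mul_mem (Q.inv_mem hy) h1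

theorem iter_mem {Q : Subgroup G} {z : G} (hz : z ∈ normalizer (Q : Set G)) {y : G} (hy : y ∈ Q) (k : ℕ) :
    (fun y : G => y⁻¹ * z⁻¹ * y * z)^[k] y ∈ Q := by
  induction k with
  | zero => exact hy
  | succ k ih => rw [Function.iterate_succ_apply']; exact comm_mem hz ih

theorem AddOn.sub_one {Q : Subgroup G} {f : G → ZMod p} (h : AddOn p Q f) {z : G}
    (hz : z ∈ normalizer (Q : Set G)) : AddOn p Q ((cz p z - 1) f) := by
  intro y hy w hw
  have h1 : z⁻¹ * y * z ∈ Q := conj_mem_of_le_normalizer' (K := zpowers z) (by rwa [zpowers_le]) (mem_zpowers z) hy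
  have h2 : z⁻¹ * w * z ∈ Q := conj_mem_of_le_normalizer' (K := zpowers z) (by rwa [zpowers_le]) (mem_zpowers z) hw
  show cz p z f (y * w) - f (y * w) = (cz p z f y - f y) + (cz p z f w - f w)
  rw [cz_apply, cz_apply, cz_apply]
  have h3 : z⁻¹ * (y * w) * z = (z⁻¹ * y * z) * (z⁻¹ * w * z) := by group
  rw [h3, h _ h1 _ h2, h _ hy _ hw]
  ring

theorem iter_apply {Q : Subgroup G} {z : G} (hz : z ∈ normalizer (Q : Set G)) (k : ℕ) :
    ∀ {f : G → ZMod p}, AddOn p Q f → ∀ {y : G}, y ∈ Q →
      ((cz p z - 1) ^ k) f y = f ((fun y : G => y⁻¹ * z⁻¹ * y * z)^[k] y) := by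
  induction k with
  | zero => intro f _ y _; rfl
  | succ k ih =>
    intro f hf y hy
    rw [pow_succ, Module.End.mul_apply, ih (hf.sub_one hz) hy, cz_sub_one_apply hf hz (iter_mem hz hy k),
      Function.iterate_succ_apply']

theorem iter_eq_sum {Q : Subgroup G} {z : G} (hz : z ∈ normalizer (Q : Set G)) {f : G → ZMod p} (hf : AddOn p Q f)
    {y : G} (hy : y ∈ Q) : f ((fun y : G => y⁻¹ * z⁻¹ * y * z)^[p - 1] y)
      = ∑ i ∈ Finset.range p, f (z ^ (-(i : ℤ)) * y * z ^ (i : ℤ)) := by
  rw [← iter_apply hz (p - 1) hf hy]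
  have h1 := congrArg (aeval (cz p z)) (X_sub_one_pow (p := p))
  rw [map_pow, map_sub, aeval_X, map_one, map_sum] at h1
  rw [h1, LinearMap.sum_apply, Finset.sum_apply]
  refine Finset.sum_congr rfl ?_
  intro i _
  rw [map_pow, aeval_X, cz_pow_apply]

/-- the additive function attached to a homomorphism -/
noncomputable def toF {Q : Subgroup G} (ν : ↥Q →* Multiplicative (ZMod p)) (y : G) : ZMod p :=
  Multiplicative.toAdd (fx ν y)

theorem toF_addOn {Q : Subgroup G} (ν : ↥Q →* Multiplicative (ZMod p)) : AddOn p Q (toF ν) := by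
  intro y hy w hw
  unfold toF
  rw [fx_mul ν hy hw, toAdd_mul]

theorem toF_sum_ne_zero {Q : Subgroup G} {ν : ↥Q →* Multiplicative (ZMod p)} {u z : G}
    (h : ∏ i ∈ Finset.range p, fx ν (z ^ (-(i : ℤ)) * u * z ^ (i : ℤ)) ≠ 1) :
    ∑ i ∈ Finset.range p, toF ν (z ^ (-(i : ℤ)) * u * z ^ (i : ℤ)) ≠ 0 := by
  intro h1
  apply h
  apply Multiplicative.toAdd.injective
  rw [toAdd_prod, toAdd_one]
  exact h1

/-- group algebra argument: a shift-invariant subspace containing a vector of nonzero sum is everything -/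
theorem shift_top (B : Submodule (ZMod p) (ZMod p → ZMod p))
    (hB : ∀ f ∈ B, (fun i => f (i + 1)) ∈ B) {f : ZMod p → ZMod p} (hf : f ∈ B) (hsum : ∑ i, f i ≠ 0) : B = ⊤ := by
  classical
  let Z : Module.End (ZMod p) (ZMod p → ZMod p) := LinearMap.funLeft (ZMod p) (ZMod p) (fun i => i + 1)
  have hZ : ∀ g, Z g = fun i => g (i + 1) := fun g => rfl
  have hZn : ∀ (n : ℕ) (g : ZMod p → ZMod p) (i : ZMod p), (Z ^ n) g i = g (i + n) := by
    intro n
    induction n with
    | zero => intro g i; simp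
    | succ n ih =>
      intro g i
      rw [pow_succ, Module.End.mul_apply, ih, hZ]
      show g (i + n + 1) = _
      push_cast; ring_nf
  have hZB : ∀ (n : ℕ) (g : ZMod p → ZMod p), g ∈ B → (Z ^ n) g ∈ B := by
    intro n
    induction n with
    | zero => intro g hg; simpa using hg
    | succ n ih => intro g hg; rw [pow_succ, Module.End.mul_apply]; exact ih _ (hB g hg)
  have hZp : Z ^ p = 1 := by
    apply LinearMap.ext; intro g; funext i
    rw [hZn]; simp
  let P : (ZMod p)[X] := ∑ j : ZMod p, C (f (-j)) * X ^ j.val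
  have hPeval : P.eval 1 = ∑ i, f i := by
    simp only [P, eval_finsetSum, eval_mul, eval_C, eval_pow, eval_X, one_pow, mul_one]
    exact Fintype.sum_equiv (Equiv.neg _) _ _ (fun j => rfl)
  set T := aeval Z P with hT
  have hTB : ∀ g ∈ B, T g ∈ B := by
    intro g hg
    simp only [hT, P, map_sum, map_mul, aeval_C, map_pow, aeval_X, LinearMap.sum_apply]
    refine B.sum_mem ?_
    intro j _
    rw [Module.End.mul_apply, Module.algebraMap_end_apply]
    exact B.smul_mem _ (hZB _ _ hg)
  have hTp : T ^ p = algebraMap (ZMod p) _ (∑ i, f i) := by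
    rw [hT, ← map_pow, ← ZMod.expand_card, expand_aeval, hZp, ← hPeval]
    have : (1 : Module.End (ZMod p) (ZMod p → ZMod p)) = algebraMap (ZMod p) _ 1 := (map_one _).symm
    rw [this, aeval_algebraMap_apply]
    rfl
  have hTd : T (Pi.single 0 1) = f := by
    funext i
    simp only [hT, P, map_sum, map_mul, aeval_C, map_pow, aeval_X, LinearMap.sum_apply]
    rw [Finset.sum_apply, Finset.sum_eq_single (-i)]
    · rw [Module.End.mul_apply, Module.algebraMap_end_apply, Pi.smul_apply, hZn]
      simp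
    · intro j _ hj
      rw [Module.End.mul_apply, Module.algebraMap_end_apply, Pi.smul_apply, hZn]
      have : i + (j.val : ZMod p) ≠ 0 := by
        rw [ZMod.natCast_zmod_val]
        intro h0
        exact hj (eq_neg_of_add_eq_zero_right h0)
      rw [Pi.single_eq_of_ne this, smul_zero]
    · intro h; exact absurd (Finset.mem_univ _) h
  have hTn : ∀ n : ℕ, (T ^ n) f ∈ B := by
    intro n
    induction n with
    | zero => simpa using hf
    | succ n ih => rw [pow_succ', Module.End.mul_apply]; exact hTB _ ih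
  have hδ : (∑ i, f i) • (Pi.single 0 1 : ZMod p → ZMod p) ∈ B := by
    have h1 := hTn (p - 1)
    rw [← hTd, ← Module.End.mul_apply, ← pow_succ, Nat.sub_add_cancel hp.out.one_le, hTp,
      Module.algebraMap_end_apply] at h1
    exact h1
  have hδ' : (Pi.single 0 1 : ZMod p → ZMod p) ∈ B := by
    have := B.smul_mem (∑ i, f i)⁻¹ hδ
    rwa [smul_smul, inv_mul_cancel₀ hsum, one_smul] at this
  rw [eq_top_iff]
  intro g _
  have hg : g = ∑ j : ZMod p, g j • (Pi.single j 1 : ZMod p → ZMod p) := by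
    funext i
    rw [Finset.sum_apply, Finset.sum_eq_single i]
    · simp
    · intro j _ hj
      rw [Pi.smul_apply, Pi.single_eq_of_ne hj.symm, smul_zero]
    · intro h; exact absurd (Finset.mem_univ _) h
  rw [hg]
  refine B.sum_mem fun j _ => B.smul_mem _ ?_
  have : (Pi.single j 1 : ZMod p → ZMod p) = (Z ^ (-j).val) (Pi.single 0 1) := by
    funext i
    rw [hZn, ZMod.natCast_zmod_val]
    by_cases h : i = j
    · subst h; simp
    · rw [Pi.single_eq_of_ne h, Pi.single_eq_of_ne]
      intro h0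
      exact h (by rw [← sub_eq_add_neg, sub_eq_zero] at h0; exact h0)
  rw [this]
  exact hZB _ _ hδ'

end poly


section wreath

variable {p : ℕ} [hp : Fact p.Prime]

theorem factorization_factorial_sq : ((p ^ 2).factorial).factorization p = p + 1 := by
  have h := sub_one_mul_padicValNat_factorial (p := p) (p ^ 2)
  have h1 : (Nat.digits p (p ^ 2)).sum = 1 := by
    have := Nat.digits_base_pow_mul (b := p) (k := 2) (m := 1) hp.out.one_lt one_pos
    rw [mul_one] at this
    rw [this, Nat.digits_of_lt p 1 one_ne_zero hp.out.one_lt]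
    simp
  rw [h1] at h
  have h2 : (p - 1) * (p + 1) = p ^ 2 - 1 := by
    have := Nat.sq_sub_sq p 1
    rw [one_pow] at this
    rw [this, mul_comm]
  rw [← h2] at h
  have h3 := Nat.eq_of_mul_eq_mul_left (Nat.sub_pos_of_lt hp.out.one_lt) h
  rw [Nat.factorization_def _ hp.out]
  exact h3

/-- A `p`-group with a homomorphism of a maximal subgroup having nontrivial norm maps onto `Z_p ≀ Z_p`. -/
theorem wreath {P : Type*} [Group P] [Finite P] (hP : IsPGroup p P) (Q : Subgroup P) [Q.Normal] (hidx : Q.index = p)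
    (ν : ↥Q →* Multiplicative (ZMod p)) {u z : P} (hu : u ∈ Q) (hz : z ∉ Q)
    (h : ∏ i ∈ Finset.range p, fx ν (z ^ (-(i : ℤ)) * u * z ^ (i : ℤ)) ≠ 1) :
    ∃ (R : Sylow p (Equiv.Perm (Fin (p ^ 2)))) (f : P →* ↥(R : Subgroup (Equiv.Perm (Fin (p ^ 2))))),
      Function.Surjective f := by
  classical
  have hsum := toF_sum_ne_zero h
  have hzn : z ∈ normalizer (Q : Set P) := by rw [normalizer_eq_top]; exact mem_top z
  have hconj : ∀ (k : ℤ) {q : P}, q ∈ Q → z ^ (-k) * q * z ^ k ∈ Q := by
    intro k q hq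
    have := (inferInstance : Q.Normal).conj_mem q hq (z ^ (-k))
    simpa using this
  have hzp : z ^ (p : ℤ) ∈ Q := by
    have h1 : ((z : P ⧸ Q)) ^ p = 1 := by
      have h2 : Nat.card (P ⧸ Q) = p := hidx
      have := pow_card_eq_one' (G := P ⧸ Q) (x := (z : P ⧸ Q))
      rwa [h2] at this
    rw [← QuotientGroup.mk_pow, QuotientGroup.eq_one_iff] at h1
    simpa using h1
  -- periodicity
  have hper : ∀ (q : P) (k : ℤ), toF ν (z ^ (-(k + p)) * q * z ^ (k + (p : ℤ))) = toF ν (z ^ (-k) * q * z ^ k) := by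
    intro q k
    unfold toF
    have := fx_conj ν hzp (z ^ (-k) * q * z ^ k)
    rw [← this]
    congr 2
    rw [neg_add, zpow_add, zpow_add, zpow_neg z (p : ℤ)]
    have h1 : z ^ (-k) * (z ^ (p : ℤ))⁻¹ = (z ^ (p : ℤ))⁻¹ * z ^ (-k) := by
      rw [← zpow_neg, ← zpow_add, ← zpow_add, add_comm]
    rw [h1]
    group
  -- the vector of values
  let F : P → ZMod p → ZMod p := fun q i => toF ν (z ^ (-(i.val : ℤ)) * q * z ^ (i.val : ℤ))
  have hFadd : ∀ q ∈ Q, ∀ r ∈ Q, F (q * r) = F q + F r := by
    intro q hq r hr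
    funext i
    show toF ν _ = toF ν _ + toF ν _
    rw [← toF_addOn ν _ (hconj _ hq) _ (hconj _ hr)]
    congr 1
    group
  have hFshift : ∀ q : P, (fun i => F q (i + 1)) = F (z⁻¹ * q * z) := by
    intro q
    funext i
    show toF ν _ = toF ν _
    have h1 : toF ν (z ^ (-(i.val : ℤ)) * (z⁻¹ * q * z) * z ^ (i.val : ℤ))
        = toF ν (z ^ (-((i.val : ℤ) + 1)) * q * z ^ ((i.val : ℤ) + 1)) := by
      congr 1
      rw [neg_add, zpow_add, zpow_add, zpow_one]
      group
    rw [h1]
    by_cases hi : i.val + 1 < p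
    · have : (i + 1).val = i.val + 1 := by
        rw [ZMod.val_add, ZMod.val_one_eq_one_mod, Nat.add_mod_mod, Nat.mod_eq_of_lt hi]
      rw [this]; push_cast; rfl
    · have h2 : i.val + 1 = p := by have := ZMod.val_lt i; omega
      have h3 : (i + 1).val = 0 := by
        rw [ZMod.val_add, ZMod.val_one_eq_one_mod, Nat.add_mod_mod, h2, Nat.mod_self]
      have h4 : ((i.val : ℤ) + 1) = 0 + (p : ℤ) := by rw [zero_add]; exact_mod_cast h2
      rw [h3, h4, hper]
      rfl
  let Φ : ↥Q →* Multiplicative (ZMod p → ZMod p) :=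
    { toFun := fun q => Multiplicative.ofAdd (F q)
      map_one' := by
        apply Multiplicative.toAdd.injective
        have := hFadd 1 Q.one_mem 1 Q.one_mem
        rw [one_mul] at this
        have h0 : F 1 = 0 := by
          have h1 := congrArg (fun x => x - F 1) this
          simpa using h1.symm
        exact h0
      map_mul' := fun q r => by
        apply Multiplicative.toAdd.injective
        exact hFadd q q.2 r r.2 }
  have hΦ : Function.Surjective Φ := by
    let B : AddSubgroup (ZMod p → ZMod p) :=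
      { carrier := {f | ∃ q ∈ Q, F q = f}
        zero_mem' := ⟨1, Q.one_mem, by
          have := hFadd 1 Q.one_mem 1 Q.one_mem
          rw [one_mul] at this
          have h1 := congrArg (fun x => x - F 1) this
          simpa using h1.symm⟩
        add_mem' := by
          rintro _ _ ⟨q, hq, rfl⟩ ⟨r, hr, rfl⟩
          exact ⟨q * r, Q.mul_mem hq hr, hFadd q hq r hr⟩
        neg_mem' := by
          rintro _ ⟨q, hq, rfl⟩
          refine ⟨q⁻¹, Q.inv_mem hq, ?_⟩
          have := hFadd q⁻¹ (Q.inv_mem hq) q hq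
          rw [inv_mul_cancel] at this
          have h0 : F 1 = 0 := by
            have h2 := hFadd 1 Q.one_mem 1 Q.one_mem
            rw [one_mul] at h2
            have h1 := congrArg (fun x => x - F 1) h2
            simpa using h1.symm
          rw [h0] at this
          exact eq_neg_of_add_eq_zero_left this.symm }
    have hBtop := shift_top (AddSubgroup.toZModSubmodule p B) (by
      rintro f ⟨q, hq, rfl⟩
      refine ⟨z⁻¹ * q * z, ?_, (hFshift q).symm⟩
      simpa using hconj 1 hq) (f := F u) ⟨u, hu, rfl⟩ (by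
      have : ∑ i : ZMod p, F u i = ∑ i ∈ Finset.range p, toF ν (z ^ (-(i : ℤ)) * u * z ^ (i : ℤ)) := by
        refine Finset.sum_nbij (fun i => i.val) ?_ ?_ ?_ ?_
        · intro i _; exact Finset.mem_range.mpr (ZMod.val_lt i)
        · intro i _ j _ hij; exact ZMod.val_injective p hij
        · intro i hi
          refine ⟨(i : ZMod p), Finset.mem_coe.mpr (Finset.mem_univ _), ?_⟩
          exact ZMod.val_cast_of_lt (Finset.mem_range.mp hi)
        · intro i _; rfl
      rw [this]; exact hsum)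
    intro f
    have : Multiplicative.toAdd f ∈ AddSubgroup.toZModSubmodule p B := by rw [hBtop]; trivial
    obtain ⟨q, hq, hqf⟩ := this
    exact ⟨⟨q, hq⟩, by apply Multiplicative.toAdd.injective; exact hqf⟩
  -- the permutation representation
  let M : Subgroup P := (ν.ker).map Q.subtype
  have hMQ : M ≤ Q := map_subtype_le _
  have hMmem : ∀ q, q ∈ M → toF ν q = 0 := by
    rintro _ ⟨q, hq, rfl⟩
    unfold toF
    rw [fx_of_mem ν (show Q.subtype q ∈ Q from q.2)]
    have : ν q = 1 := hq
    exact congrArg Multiplicative.toAdd this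
  have hνs : Function.Surjective ν := by
    have h1 : ν.range = ⊤ := by
      have hne : ν.range ≠ ⊥ := by
        intro h0
        apply h
        apply Finset.prod_eq_one
        intro i _
        have hq := hconj i hu
        rw [fx_of_mem ν hq]
        have : ν ⟨_, hq⟩ ∈ ν.range := ⟨_, rfl⟩
        rw [h0] at this
        exact this
      have hcard : Nat.card (Multiplicative (ZMod p)) = p := by simp
      have hd := Subgroup.card_subgroup_dvd_card ν.range
      rw [hcard] at hd
      rcases (Nat.dvd_prime hp.out).mp hd with h2 | h2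
      · exact absurd (Subgroup.card_eq_one.mp h2) hne
      · exact Subgroup.eq_top_of_card_eq _ (h2.trans hcard.symm)
    exact MonoidHom.range_eq_top.mp h1
  have hMi : M.relIndex Q = p := by
    have : M.subgroupOf Q = ν.ker := Subgroup.comap_map_eq_self_of_injective Q.subtype_injective _
    unfold Subgroup.relIndex
    rw [this, Subgroup.index_ker, MonoidHom.range_eq_top.mpr hνs]
    simp
  have hMidx : M.index = p ^ 2 := by
    rw [← Subgroup.relIndex_mul_index hMQ, hMi, hidx, sq]
  have hcardPM : Nat.card (P ⧸ M) = p ^ 2 := hMidx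
  have eqv : (P ⧸ M) ≃ Fin (p ^ 2) := Finite.equivFinOfCardEq hcardPM
  let g : P →* Equiv.Perm (Fin (p ^ 2)) :=
    (Equiv.permCongrHom eqv).toMonoidHom.comp (MulAction.toPermHom P (P ⧸ M))
  have hgker : g.ker ≤ M.normalCore := by
    rw [Subgroup.normalCore_eq_ker]
    intro x hx
    rw [MonoidHom.mem_ker] at hx ⊢
    apply (Equiv.permCongrHom eqv).injective
    rw [map_one]; exact hx
  have hKcard : p ^ p ∣ (g.ker).relIndex Q := by
    have h1 : (g.ker).subgroupOf Q ≤ Φ.ker := by
      intro q hq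
      rw [mem_subgroupOf] at hq
      have h2 := hgker hq
      rw [MonoidHom.mem_ker]
      apply Multiplicative.toAdd.injective
      show F q = 0
      funext i
      show toF ν _ = 0
      apply hMmem
      have h3 := (inferInstance : (M.normalCore).Normal).conj_mem _ h2 (z ^ (-(i.val : ℤ)))
      have h4 := Subgroup.normalCore_le M h3
      simpa using h4
    have h2 : Φ.ker.index = p ^ p := by
      rw [Subgroup.index_ker, MonoidHom.range_eq_top.mpr hΦ]
      simp [Nat.card_eq_fintype_card]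
    rw [← h2]
    exact Subgroup.index_dvd_of_le h1
  have hgidx : p ^ (p + 1) ∣ (g.ker).index := by
    have hle : g.ker ≤ Q := (hgker.trans (Subgroup.normalCore_le M)).trans hMQ
    rw [← Subgroup.relIndex_mul_index hle, hidx, pow_succ]
    exact Nat.mul_dvd_mul_right hKcard p
  have hgp : IsPGroup p g.range := by
    have := (hP.to_subgroup ⊤).map g
    rwa [← MonoidHom.range_eq_map] at this
  obtain ⟨R, hR⟩ := hgp.exists_le_sylow
  have hRcard : Nat.card (R : Subgroup (Equiv.Perm (Fin (p ^ 2)))) = p ^ (p + 1) := by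
    rw [Sylow.card_eq_multiplicity, Nat.card_perm, Nat.card_fin, factorization_factorial_sq]
  have heq : g.range = R := by
    apply Subgroup.eq_of_le_of_card_ge hR
    rw [hRcard, ← Subgroup.index_ker]
    exact Nat.le_of_dvd (Nat.pos_of_ne_zero Subgroup.index_ne_zero_of_finite) hgidx
  refine ⟨R, g.codRestrict (R : Subgroup _) (fun x => by rw [← heq]; exact ⟨x, rfl⟩), ?_⟩
  rintro ⟨y, hy⟩
  rw [← heq] at hy
  obtain ⟨x, rfl⟩ := hy
  exact ⟨x, Subtype.ext rfl⟩

end wreath

end Cfsg.Agent.Lib.Yoshida
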