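import Cfsg.Agent.Lib.AmP
import Mathlib.GroupTheory.Transfer

/-!
A transfer lemma and a criterion for maximal 2-local subgroups isomorphic to `S₄` (helper47, S518).
-/

set_option autoImplicit false
set_option linter.unusedSectionVars false

namespace Cfsg.Agent.Lib.ZNQ

open Subgroup commutatorElement Cfsg.Agent.Lib.LocBase Cfsg.Agent.Lib.ZN
open scoped Pointwise

/-- transfer of an involution all of whose conjugates in `S₁` have the same image. -/
theorem transfer_eq {X : Type*} [Group X] [Finite X] (S₁ : Subgroup X) (hodd : ¬ 2 ∣ S₁.index)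
    {A : Type*} [CommGroup A] (ϕ : S₁ →* A) (a : A) (ha : a ^ 2 = 1) (c : X) (hc : c ^ 2 = 1)
    (h : ∀ (g : X) (hg : g⁻¹ * c * g ∈ S₁), ϕ ⟨g⁻¹ * c * g, hg⟩ = a) : MonoidHom.transfer ϕ c = a := by
  classical
  have : Fintype (Quotient (MulAction.orbitRel (zpowers (c : X)) (X ⧸ S₁))) := Fintype.ofFinite _
  rw [MonoidHom.transfer_eq_prod_quotient_orbitRel_zpowers_quot]
  have key : ∀ (k : ℕ) (g₀ : X) (hk : g₀⁻¹ * c ^ k * g₀ ∈ S₁), k ∣ 2 →
      ϕ ⟨g₀⁻¹ * c ^ k * g₀, hk⟩ = a ^ k := by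
    intro k g₀ hk hk2
    rcases (Nat.dvd_prime Nat.prime_two).mp hk2 with rfl | rfl
    · have hk' : g₀⁻¹ * c * g₀ ∈ S₁ := by rwa [pow_one] at hk
      rw [pow_one a, ← h g₀ hk']
      congr 1
      apply Subtype.ext
      show g₀⁻¹ * c ^ 1 * g₀ = g₀⁻¹ * c * g₀
      rw [pow_one]
    · rw [ha, ← map_one ϕ]
      congr 1
      apply Subtype.ext
      show g₀⁻¹ * c ^ 2 * g₀ = 1
      rw [hc]; group
  have hfac : ∀ q : Quotient (MulAction.orbitRel (zpowers (c : X)) (X ⧸ S₁)),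
      ϕ ⟨q.out.out⁻¹ * c ^ Function.minimalPeriod (c • ·) q.out * q.out.out,
        QuotientGroup.out_conj_pow_minimalPeriod_mem S₁ c q.out⟩
      = a ^ (Function.minimalPeriod (c • ·) q.out) := by
    intro q
    apply key
    apply Function.IsPeriodicPt.minimalPeriod_dvd
    show (fun x : X ⧸ S₁ => c • x)^[2] q.out = q.out
    rw [smul_iterate, hc]
    exact one_smul _ _
  rw [Finset.prod_congr rfl (fun q _ => hfac q), Finset.prod_pow_eq_pow_sum,
    ← Subgroup.index_eq_sum_minimalPeriod S₁ c]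
  have : Odd S₁.index := by
    rw [← Nat.not_even_iff_odd, even_iff_two_dvd]
    exact hodd
  obtain ⟨k, hk⟩ := this
  rw [hk, pow_add, pow_mul, ha, one_pow, one_mul, pow_one]

/-- the subgroup generated by the elements of odd order -/
abbrev OO (G : Type*) [Group G] : Subgroup G := closure {g : G | Odd (orderOf g)}

theorem not_mem_OO {G : Type*} [Group G] [Finite G] {S D : Subgroup G} (hodd : ¬ 2 ∣ S.index) (hDS : D ≤ S)
    (hn : S ≤ normalizer (D : Set G)) (hcard : Nat.card S = 2 * Nat.card D ∨ Nat.card S = 4 * Nat.card D)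
    {c : G} (hcS : c ∈ S) (hcD : c ∉ D) (hc2 : c ^ 2 = 1)
    (h : ∀ g : G, g⁻¹ * c * g ∈ S → c⁻¹ * (g⁻¹ * c * g) ∈ D) : c ∉ OO G := by
  have hN : (D.subgroupOf S).Normal := normal_subgroupOf_of_le_normalizer hn
  have hQ : Nat.card (S ⧸ D.subgroupOf S) = 2 ∨ Nat.card (S ⧸ D.subgroupOf S) = 4 := by
    have h1 := SubgroupTools.card_mul_relIndex_of_le hDS
    have h2 : 0 < Nat.card D := Nat.card_pos
    have e : Nat.card (S ⧸ D.subgroupOf S) = D.relIndex S := rfl
    rw [e]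
    rcases hcard with hc | hc
    · left
      apply Nat.eq_of_mul_eq_mul_left h2
      rw [h1, hc, mul_comm]
    · right
      apply Nat.eq_of_mul_eq_mul_left h2
      rw [h1, hc, mul_comm]
  have hcomm : ∀ x y : S ⧸ D.subgroupOf S, x * y = y * x := by
    rcases hQ with hq | hq
    · have : Fact (Nat.Prime 2) := ⟨Nat.prime_two⟩
      have : IsCyclic (S ⧸ D.subgroupOf S) := isCyclic_of_prime_card hq
      letI := IsCyclic.commGroup (α := S ⧸ D.subgroupOf S)
      exact fun x y => mul_comm x y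
    · have : Fact (Nat.Prime 2) := ⟨Nat.prime_two⟩
      letI := IsPGroup.commGroupOfCardEqPrimeSq (p := 2) (G := S ⧸ D.subgroupOf S) (by rw [hq]; norm_num)
      exact fun x y => mul_comm x y
  letI : CommGroup (S ⧸ D.subgroupOf S) := { (inferInstance : Group (S ⧸ D.subgroupOf S)) with mul_comm := hcomm }
  let ϕ : S →* (S ⧸ D.subgroupOf S) := QuotientGroup.mk' (D.subgroupOf S)
  have hV := transfer_eq S hodd ϕ (ϕ ⟨c, hcS⟩) (by
    rw [← map_pow]
    have : (⟨c, hcS⟩ : S) ^ 2 = 1 := Subtype.ext hc2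
    rw [this, map_one]) c hc2 (by
    intro g hg
    have h1 := h g hg
    show ((⟨g⁻¹ * c * g, hg⟩ : S) : S ⧸ D.subgroupOf S) = ((⟨c, hcS⟩ : S) : S ⧸ D.subgroupOf S)
    symm
    rw [QuotientGroup.eq, mem_subgroupOf]
    exact h1)
  have hne : ϕ ⟨c, hcS⟩ ≠ 1 := by
    intro he
    have : (⟨c, hcS⟩ : S) ∈ D.subgroupOf S := (QuotientGroup.eq_one_iff _).mp he
    rw [mem_subgroupOf] at this
    exact hcD this
  intro hcO
  have hle : OO G ≤ (MonoidHom.transfer ϕ).ker := by
    rw [closure_le]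
    intro g hg
    show MonoidHom.transfer ϕ g = 1
    have h1 : orderOf (MonoidHom.transfer ϕ g) ∣ orderOf g := orderOf_map_dvd _ _
    have h2 : orderOf (MonoidHom.transfer ϕ g) ∣ Nat.card (S ⧸ D.subgroupOf S) := orderOf_dvd_natCard _
    have h3 : orderOf (MonoidHom.transfer ϕ g) ∣ 2 ^ 2 := by
      rcases hQ with hq | hq
      · rw [hq] at h2; exact h2.trans (by norm_num)
      · rw [hq] at h2; exact h2
    have hodd' : Odd (orderOf g) := hg
    have h4 : Nat.Coprime (orderOf g) (2 ^ 2) := (Nat.coprime_two_right.mpr hodd').pow_right 2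
    have h5 := Nat.dvd_gcd h1 h3
    rw [h4.gcd_eq_one] at h5
    exact orderOf_eq_one_iff.mp (Nat.dvd_one.mp h5)
  apply hne
  rw [← hV]
  exact hle hcO

/-! ### `S₄` -/

/-- the Klein four-group condition in `S₄` -/
def KF (s : Equiv.Perm (Fin 4)) : Prop := s ^ 2 = 1 ∧ Equiv.Perm.sign s = 1

instance (s : Equiv.Perm (Fin 4)) : Decidable (KF s) := inferInstanceAs (Decidable (_ ∧ _))

set_option maxRecDepth 100000 in
theorem kf_of : ∀ x : Equiv.Perm (Fin 4), x ^ 8 = 1 → (∀ g : Equiv.Perm (Fin 4), (x * (g * x * g⁻¹)) ^ 8 = 1) → KF x := by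
  decide

set_option maxRecDepth 100000 in
theorem kf_self : ∀ x : Equiv.Perm (Fin 4), (∀ y : Equiv.Perm (Fin 4), KF y → x * y = y * x) → KF x := by
  decide

set_option maxRecDepth 100000 in
theorem kf_trans : ∀ x y : Equiv.Perm (Fin 4), KF x → KF y → x ≠ 1 → y ≠ 1 → ∃ g : Equiv.Perm (Fin 4), g * x * g⁻¹ = y := by
  decide

set_option maxRecDepth 100000 in
theorem kf_mul : ∀ x y : Equiv.Perm (Fin 4), KF x → KF y → KF (x * y) := by
  decide

theorem kf_card : Nat.card {x : Equiv.Perm (Fin 4) // KF x} = 4 := by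
  rw [Nat.card_eq_fintype_card]
  decide

end Cfsg.Agent.Lib.ZNQ
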