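import Cfsg.Agent.Lib.ZNQa
import Cfsg.Agent.Lib.PAct
import Cfsg.Agent.Lib.SylAmb

/-!
A criterion for maximal 2-local subgroups isomorphic to `S₄` (helper47, S518).
-/

set_option autoImplicit false
set_option linter.unusedSectionVars false

namespace Cfsg.Agent.Lib.ZNQ

open Subgroup commutatorElement Cfsg.Agent.Lib.LocBase Cfsg.Agent.Lib.ZN
open scoped Pointwise

theorem pow_eight {X : Type*} [Group X] [Finite X] (φ : X ≃* Equiv.Perm (Fin 4)) {N : Subgroup X}
    (hp : IsPGroup 2 N) {x : X} (hx : x ∈ N) : x ^ 8 = 1 := by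
  obtain ⟨k, hk⟩ := (IsPGroup.iff_orderOf.mp hp) ⟨x, hx⟩
  rw [Subgroup.orderOf_mk] at hk
  have h1 : orderOf x ∣ Nat.card X := orderOf_dvd_natCard x
  have h2 : Nat.card X = 8 * 3 := by
    rw [Nat.card_congr φ.toEquiv, Nat.card_eq_fintype_card]
    decide
  rw [h2, hk] at h1
  have h3 : 2 ^ k ∣ 8 := by
    apply Nat.Coprime.dvd_of_dvd_mul_right _ h1
    exact Nat.Coprime.pow_left k (by norm_num)
  rw [← hk] at h3
  exact orderOf_dvd_iff_pow_eq_one.mp h3

theorem kf_of_normal {X : Type*} [Group X] [Finite X] (φ : X ≃* Equiv.Perm (Fin 4)) {N : Subgroup X}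
    (hN : N.Normal) (hp : IsPGroup 2 N) {x : X} (hx : x ∈ N) : KF (φ x) := by
  apply kf_of
  · rw [← map_pow, pow_eight φ hp hx, map_one]
  · intro g
    obtain ⟨y, rfl⟩ := φ.surjective g
    have h1 : x * (y * x * y⁻¹) ∈ N := N.mul_mem hx (hN.conj_mem x hx y)
    rw [← map_inv, ← map_mul, ← map_mul, ← map_mul, ← map_pow, pow_eight φ hp h1, map_one]

theorem mem_of_kf {X : Type*} [Group X] [Finite X] (φ : X ≃* Equiv.Perm (Fin 4)) {V : Subgroup X}
    (hN : V.Normal) (hc : Nat.card V = 4) {x : X} (hx : KF (φ x)) : x ∈ V := by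
  have hp : IsPGroup 2 V := IsPGroup.of_card (n := 2) (by rw [hc]; norm_num)
  let f : V → {s : Equiv.Perm (Fin 4) // KF s} := fun v => ⟨φ v, kf_of_normal φ hN hp v.2⟩
  have hf : Function.Injective f := by
    intro a b hab
    apply Subtype.ext
    apply φ.injective
    exact congrArg Subtype.val hab
  have hb : Function.Bijective f := by
    rw [Nat.bijective_iff_injective_and_card]
    exact ⟨hf, by rw [hc, kf_card]⟩
  obtain ⟨v, hv⟩ := hb.2 ⟨φ x, hx⟩
  have : φ v = φ x := congrArg Subtype.val hv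
  rw [← φ.injective this]
  exact v.2

/-- a subgroup `X ≅ S₄` which is the normalizer of its normal four-group is a maximal 2-local subgroup -/
theorem maxLocal_of_S4 {H : Type*} [Group H] [Finite H] {X V : Subgroup H} (φ : X ≃* Equiv.Perm (Fin 4))
    (hVX : V ≤ X) (hc : Nat.card V = 4) (hN : normalizer (V : Set H) = X) : Cfsg.IsMaximalTwoLocal X := by
  have hf2 : Fact (Nat.Prime 2) := ⟨Nat.prime_two⟩
  have hVp : IsPGroup 2 V := IsPGroup.of_card (n := 2) (by rw [hc]; norm_num)
  have hV1 : V ≠ ⊥ := by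
    intro h; rw [h, card_bot] at hc; omega
  have hVn : (V.subgroupOf X).Normal := normal_subgroupOf_of_le_normalizer (by rw [hN])
  have hVc : Nat.card (V.subgroupOf X) = 4 := by
    rw [Nat.card_congr (Subgroup.subgroupOfEquivOfLe hVX).toEquiv, hc]
  refine ⟨⟨V, hVp, hV1, hN.symm⟩, ?_⟩
  rintro N ⟨R, hRp, hR1, rfl⟩ hXR
  -- the key memberships
  have hmemV : ∀ x (hx : x ∈ X), KF (φ ⟨x, hx⟩) → x ∈ V := by
    intro x hx hk
    exact mem_subgroupOf.mp (mem_of_kf φ hVn hVc hk)
  have hVk : ∀ x (hx : x ∈ X), x ∈ V → KF (φ ⟨x, hx⟩) := by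
    intro x hx hv
    apply kf_of_normal φ hVn
    · exact IsPGroup.of_card (n := 2) (by rw [hVc]; norm_num)
    · rw [mem_subgroupOf]; exact hv
  have hcent : centralizer (V : Set H) ≤ V := by
    intro x hx
    have hxX : x ∈ X := by rw [← hN]; exact centralizer_le_normalizer _ hx
    apply hmemV x hxX
    apply kf_self
    intro y hy
    obtain ⟨y', rfl⟩ := φ.surjective y
    have hyV : (y' : H) ∈ V := hmemV y' y'.2 (by simpa using hy)
    rw [← map_mul, ← map_mul]
    congr 1
    apply Subtype.ext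
    exact (hx _ hyV).symm
  -- `R ∩ V ≠ 1`
  obtain ⟨z, hzR, hzc, hzo⟩ := PAct.exists_fixed_orderOf_eq hVp hRp hR1 (hVX.trans hXR)
  have hz1 : z ≠ 1 := by
    intro h; rw [h, orderOf_one] at hzo; omega
  have hzV : z ∈ V := hcent (fun s hs => hzc s hs)
  -- `V ≤ R`
  have hVR : V ≤ R := by
    intro v hv
    by_cases hv1 : v = 1
    · rw [hv1]; exact one_mem _
    · obtain ⟨g, hg⟩ := kf_trans (φ ⟨z, hVX hzV⟩) (φ ⟨v, hVX hv⟩) (hVk _ _ hzV) (hVk _ _ hv)
        (by
          intro h
          apply hz1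
          have := φ.injective (h.trans (map_one φ).symm)
          exact congrArg Subtype.val this)
        (by
          intro h
          apply hv1
          have := φ.injective (h.trans (map_one φ).symm)
          exact congrArg Subtype.val this)
      obtain ⟨y, rfl⟩ := φ.surjective g
      rw [← map_inv, ← map_mul, ← map_mul] at hg
      have h1 := congrArg Subtype.val (φ.injective hg)
      have h2 : (y : H) * z * (y : H)⁻¹ = v := h1
      rw [← h2]
      exact conj_mem_of_le_normalizer hXR y.2 hzR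
  -- `R ∩ X ≤ V`
  have hRX : R ⊓ X ≤ V := by
    intro x hx
    apply hmemV x hx.2
    have hn : ((R ⊓ X).subgroupOf X).Normal :=
      normal_subgroupOf_of_le_normalizer (le_normalizer_inf hXR le_normalizer)
    apply kf_of_normal φ hn
    · have : IsPGroup 2 (R ⊓ X : Subgroup H) := hRp.to_le inf_le_left
      exact this.comap_subtype
    · rw [mem_subgroupOf]; exact hx
  have hRV : V = R := by
    by_contra hne
    have hlt : V < R := lt_of_le_of_ne hVR hne
    have h1 := SylAmb.lt_inf_normalizer hRp hlt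
    rw [hN] at h1
    exact absurd hRX (not_le_of_gt h1)
  rw [← hRV, hN]

end Cfsg.Agent.Lib.ZNQ
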