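import Cfsg.Agent.Lib.ZNQb

/-!
The situation at the end of the analysis of the ZN-groups of local characteristic 2 (helper47, S518).
-/

set_option autoImplicit false
set_option linter.unusedSectionVars false

namespace Cfsg.Agent.Lib.ZNQ

open Subgroup commutatorElement Cfsg.Agent.Lib.LocBase Cfsg.Agent.Lib.TvStruct Cfsg.Agent.Lib.ZN Cfsg.Agent.Lib.AmG
open scoped Pointwise

universe u

variable {G : Type u} [Group G] [Finite G]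

structure Sit (T K₁ L₁ K₂ L₂ : Subgroup G) : Prop where
  h₁ : Pk T K₁ L₁
  h₂ : Pk T K₂ L₂
  hne : L₁ ≠ L₂
  p₁ : PF T K₁
  p₂ : PF T K₂
  e₁ : L₁ = K₁ ⊔ T
  e₂ : L₂ = K₂ ⊔ T
  q₁ : QQ T K₁ = ZZ T K₁
  q₂ : QQ T K₂ = ZZ T K₂
  n₁ : ¬ Cfsg.wOf K₁ ≤ centralizer (Cfsg.wOf K₂ : Set G)
  n₂ : ¬ Cfsg.wOf K₂ ≤ centralizer (Cfsg.wOf K₁ : Set G)

theorem Sit.symm {T K₁ L₁ K₂ L₂ : Subgroup G} (h : Sit T K₁ L₁ K₂ L₂) : Sit T K₂ L₂ K₁ L₁ :=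
  ⟨h.h₂, h.h₁, h.hne.symm, h.p₂, h.p₁, h.e₂, h.e₁, h.q₂, h.q₁, h.n₂, h.n₁⟩

theorem Sit.of (hZN : ZNHyp G) (hO : Cfsg.pCore 2 G = ⊥) {S : Sylow 2 G} {T K₁ L₁ K₂ L₂ : Subgroup G}
    (h₁ : Pk T K₁ L₁) (h₂ : Pk T K₂ L₂) (hne : L₁ ≠ L₂) (hS : T ≤ (S : Subgroup G)) : Sit T K₁ L₁ K₂ L₂ := by
  have hp₁ := pf_of hZN hO h₁ hS
  have hp₂ := pf_of hZN hO h₂ hS
  have hf₁ := pk_faith h₁ h₂ hne
  have hf₂ := pk_faith h₂ h₁ (Ne.symm hne)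
  have hc₁ := pair_main hp₁ hp₂ hf₁
  have hc₂ := pair_main hp₂ hp₁ hf₂
  have hQ₁ := Q_eq_ZZ hp₁ hp₂ hc₁ hf₁
  have hQ₂ := Q_eq_ZZ hp₂ hp₁ hc₂ hf₂
  exact ⟨h₁, h₂, hne, hp₁, hp₂, h₁.L_eq hZN hp₁ hQ₁, h₂.L_eq hZN hp₂ hQ₂, hQ₁, hQ₂, hc₁, hc₂⟩

section sit

variable {T K₁ L₁ K₂ L₂ : Subgroup G} (h : Sit T K₁ L₁ K₂ L₂)
include h

theorem Sit.card_L : Nat.card L₁ = 3 * Nat.card T := by
  rw [h.e₁]; exact h.p₁.card_P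

theorem Sit.L_inf : L₁ ⊓ L₂ = T := by
  have h1 : T ≤ L₁ ⊓ L₂ := le_inf h.h₁.TL h.h₂.TL
  have h2 := Subgroup.card_dvd_of_le h1
  have h3 := Subgroup.card_dvd_of_le (inf_le_left : L₁ ⊓ L₂ ≤ L₁)
  have hT : 0 < Nat.card T := Nat.card_pos
  obtain ⟨a, ha⟩ := h2
  obtain ⟨b, hb⟩ := h3
  have hab : a * b = 3 := by
    rw [ha, h.card_L] at hb
    apply Nat.eq_of_mul_eq_mul_left hT
    rw [← mul_assoc, ← hb]; ring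
  rcases (Nat.dvd_prime Nat.prime_three).mp ⟨b, hab.symm⟩ with e | e
  · rw [e, mul_one] at ha
    exact (Subgroup.eq_of_le_of_card_ge h1 (by rw [ha])).symm
  · exfalso
    have hb1 : b = 1 := by rw [e] at hab; omega
    rw [hb1, mul_one] at hb
    have h4 : L₁ ⊓ L₂ = L₁ := Subgroup.eq_of_le_of_card_ge inf_le_left (by rw [hb])
    exact h.hne (h.h₁.uq.max.2 L₂ h.h₂.uq.max.1 (inf_eq_left.mp h4)).symm

theorem Sit.K_le : K₁ ≤ OO G := by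
  have h1 := ((isJComponent_iff h.h₁.Tp).mpr h.h₁.X).1
  rw [← h1]
  apply Subgroup.closure_mono
  rintro g ⟨_, hg⟩
  exact hg

theorem Sit.W_le : Cfsg.wOf K₁ ≤ OO G :=
  (wOf_le_core K₁).trans ((LocBase.pCoreOf_le K₁).trans h.K_le)

theorem Sit.W_le_L : Cfsg.wOf K₁ ≤ L₁ := h.p₁.W_le_T.trans h.h₁.TL

theorem Sit.N_W : normalizer (Cfsg.wOf K₁ : Set G) = L₁ := by
  apply h.h₁.uq.max.2
  · refine ⟨_, ?_, ?_, rfl⟩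
    · exact IsPGroup.of_card (n := 2) (by rw [h.p₁.X.Wcard]; norm_num)
    · exact h.p₁.X.W_ne
  · rw [h.e₁]; exact h.p₁.P_norm_W

/-- `D = W₁ W₂` -/
theorem Sit.exists_w : ∃ w ∈ RR₀ T K₁, w ∈ RR₀ T K₂ ∧ w ≠ 1 ∧ ⁅Cfsg.wOf K₁, Cfsg.wOf K₂⁆ = RR₀ T K₁ ∧
    RR₀ T K₁ = RR₀ T K₂ := by
  have h1 : ⁅Cfsg.wOf K₁, Cfsg.wOf K₂⁆ ≤ RR₀ T K₁ :=
    (commutator_mono le_rfl h.p₂.W_le_T).trans h.p₁.comm_W_T
  have h2 : ⁅Cfsg.wOf K₁, Cfsg.wOf K₂⁆ ≤ RR₀ T K₂ := by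
    rw [commutator_comm]
    exact (commutator_mono le_rfl h.p₁.W_le_T).trans h.p₂.comm_W_T
  have h3 : ⁅Cfsg.wOf K₁, Cfsg.wOf K₂⁆ ≠ ⊥ := by
    intro hb
    rw [commutator_eq_bot_iff_le_centralizer] at hb
    exact h.n₁ hb
  have hd := Subgroup.card_dvd_of_le h1
  rw [h.p₁.card_R] at hd
  have hc : Nat.card (⁅Cfsg.wOf K₁, Cfsg.wOf K₂⁆ : Subgroup G) = 2 := by
    rcases (Nat.dvd_prime Nat.prime_two).mp hd with e | e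
    · exact absurd (Subgroup.eq_bot_of_card_eq _ e) h3
    · exact e
  have e1 : ⁅Cfsg.wOf K₁, Cfsg.wOf K₂⁆ = RR₀ T K₁ := Subgroup.eq_of_le_of_card_ge h1 (by rw [hc, h.p₁.card_R])
  have e2 : ⁅Cfsg.wOf K₁, Cfsg.wOf K₂⁆ = RR₀ T K₂ := Subgroup.eq_of_le_of_card_ge h2 (by rw [hc, h.p₂.card_R])
  obtain ⟨w, hw, hw1⟩ := exists_gen_of_card_two h.p₁.card_R
  exact ⟨w, hw, by rw [← e2, e1]; exact hw, hw1, e1, by rw [← e1, e2]⟩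

theorem Sit.W_ne : Cfsg.wOf K₁ ⊓ Cfsg.wOf K₂ = RR₀ T K₁ := by
  obtain ⟨w, hw1, hw2, hw, _, e⟩ := h.exists_w
  have h1 : RR₀ T K₁ ≤ Cfsg.wOf K₁ ⊓ Cfsg.wOf K₂ := by
    refine le_inf inf_le_right ?_
    rw [e]; exact inf_le_right
  symm
  apply Subgroup.eq_of_le_of_card_ge h1
  rw [h.p₁.card_R]
  by_contra hlt
  have hd := Subgroup.card_dvd_of_le (inf_le_left : Cfsg.wOf K₁ ⊓ Cfsg.wOf K₂ ≤ Cfsg.wOf K₁)
  rw [h.p₁.X.Wcard] at hd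
  have h4 : Nat.card (Cfsg.wOf K₁ ⊓ Cfsg.wOf K₂ : Subgroup G) = 4 := by
    have h5 := Nat.le_of_dvd (by norm_num) hd
    have h6 : Nat.card (Cfsg.wOf K₁ ⊓ Cfsg.wOf K₂ : Subgroup G) ≠ 3 := by
      intro h3; rw [h3] at hd; omega
    omega
  have e1 : Cfsg.wOf K₁ ⊓ Cfsg.wOf K₂ = Cfsg.wOf K₁ :=
    Subgroup.eq_of_le_of_card_ge inf_le_left (by rw [h4, h.p₁.X.Wcard])
  have h5 : Cfsg.wOf K₁ ≤ Cfsg.wOf K₂ := inf_eq_left.mp e1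
  apply h.n₁
  have hc := (ThompsonJ.elemAb_iff.mp (EA_wOf (K := K₂))).1
  exact h5.trans hc

theorem Sit.card_D : Nat.card (Cfsg.wOf K₁ ⊔ Cfsg.wOf K₂ : Subgroup G) = 8 := by
  have h1 := SubgroupTools.card_sup_mul_card_inf (N := Cfsg.wOf K₁) (H := Cfsg.wOf K₂)
    (h.p₂.W_le_T.trans h.p₁.TN)
  rw [h.W_ne, h.p₁.card_R, h.p₁.X.Wcard, h.p₂.X.Wcard] at h1
  omega

theorem Sit.D_le_T : Cfsg.wOf K₁ ⊔ Cfsg.wOf K₂ ≤ T := sup_le h.p₁.W_le_T h.p₂.W_le_T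

theorem Sit.D_le : Cfsg.wOf K₁ ⊔ Cfsg.wOf K₂ ≤ OO G := sup_le h.W_le h.symm.W_le

/-- `D ∩ Q₁ = W₁` -/
theorem Sit.D_inf : (Cfsg.wOf K₁ ⊔ Cfsg.wOf K₂) ⊓ QQ T K₁ = Cfsg.wOf K₁ := by
  have h1 : Cfsg.wOf K₁ ≤ (Cfsg.wOf K₁ ⊔ Cfsg.wOf K₂) ⊓ QQ T K₁ := le_inf le_sup_left h.p₁.W_le_Q
  symm
  apply Subgroup.eq_of_le_of_card_ge h1
  rw [h.p₁.X.Wcard]
  have h2 : (Cfsg.wOf K₁ ⊔ Cfsg.wOf K₂) ⊓ QQ T K₁ < Cfsg.wOf K₁ ⊔ Cfsg.wOf K₂ := by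
    refine lt_of_le_of_ne inf_le_left ?_
    intro e
    apply h.n₂
    have : Cfsg.wOf K₂ ≤ QQ T K₁ := le_sup_right.trans (inf_eq_left.mp e)
    exact this.trans inf_le_right
  have h3 := two_mul_card_le h2
  rw [h.card_D] at h3
  omega

end sit

/-! ### descent -/

theorem normalizer_subgroupOf {H V L : Subgroup G} (hV : V ≤ H) (hN : normalizer (V : Set G) = L) :
    normalizer ((V.subgroupOf H : Subgroup H) : Set H) = L.subgroupOf H := by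
  rw [← hN]
  exact (Subgroup.subgroupOf_normalizer_eq hV).symm

theorem final {H T L₁ L₂ W₁ W₂ : Subgroup G} (hi : L₁ ⊓ L₂ = T) (hT : Nat.card (T ⊓ H : Subgroup G) = 8)
    (hW₁ : W₁ ≤ H) (hL₁ : W₁ ≤ L₁) (hc₁ : Nat.card W₁ = 4) (hN₁ : normalizer (W₁ : Set G) = L₁)
    (φ₁ : Nonempty (↥(L₁ ⊓ H) ≃* Equiv.Perm (Fin 4)))
    (hW₂ : W₂ ≤ H) (hL₂ : W₂ ≤ L₂) (hc₂ : Nat.card W₂ = 4) (hN₂ : normalizer (W₂ : Set G) = L₂)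
    (φ₂ : Nonempty (↥(L₂ ⊓ H) ≃* Equiv.Perm (Fin 4))) :
    ∃ M₁ M₂ : Subgroup H, M₁ ≠ M₂ ∧ Cfsg.IsMaximalTwoLocal M₁ ∧ Cfsg.IsMaximalTwoLocal M₂ ∧
        Nonempty (M₁ ≃* Equiv.Perm (Fin 4)) ∧ Nonempty (M₂ ≃* Equiv.Perm (Fin 4)) ∧ Nat.card ↥(M₁ ⊓ M₂) = 8 := by
  have key : ∀ {L W : Subgroup G}, W ≤ H → W ≤ L → Nat.card W = 4 → normalizer (W : Set G) = L →
      Nonempty (↥(L ⊓ H) ≃* Equiv.Perm (Fin 4)) → Cfsg.IsMaximalTwoLocal (L.subgroupOf H) ∧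
        Nonempty (L.subgroupOf H ≃* Equiv.Perm (Fin 4)) := by
    intro L W hWH hWL hc hN hφ
    obtain ⟨φ⟩ := hφ
    have e : (L ⊓ H).subgroupOf H = L.subgroupOf H := Subgroup.inf_subgroupOf_right L H
    have ψ : L.subgroupOf H ≃* Equiv.Perm (Fin 4) :=
      (MulEquiv.subgroupCongr e.symm).trans ((Subgroup.subgroupOfEquivOfLe inf_le_right).trans φ)
    refine ⟨?_, ⟨ψ⟩⟩
    refine maxLocal_of_S4 (V := W.subgroupOf H) ψ ?_ ?_ ?_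
    · exact Subgroup.comap_mono hWL
    · rw [Nat.card_congr (Subgroup.subgroupOfEquivOfLe hWH).toEquiv, hc]
    · exact normalizer_subgroupOf hWH hN
  obtain ⟨m₁, ⟨ψ₁⟩⟩ := key hW₁ hL₁ hc₁ hN₁ φ₁
  obtain ⟨m₂, ⟨ψ₂⟩⟩ := key hW₂ hL₂ hc₂ hN₂ φ₂
  have h8 : Nat.card ↥(L₁.subgroupOf H ⊓ L₂.subgroupOf H) = 8 := by
    have e : L₁.subgroupOf H ⊓ L₂.subgroupOf H = (T ⊓ H).subgroupOf H := by
      rw [Subgroup.inf_subgroupOf_right, ← hi]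
      rfl
    rw [e, Nat.card_congr (Subgroup.subgroupOfEquivOfLe inf_le_right).toEquiv, hT]
  refine ⟨L₁.subgroupOf H, L₂.subgroupOf H, ?_, m₁, m₂, ⟨ψ₁⟩, ⟨ψ₂⟩, h8⟩
  intro e
  rw [← e, inf_idem, Nat.card_congr ψ₁.toEquiv, Nat.card_eq_fintype_card] at h8
  revert h8
  decide

theorem S4_of_split {L X : Subgroup G} (ψ : L ≃* Equiv.Perm (Fin 4) × Multiplicative (ZMod 2)) (hX : X ≤ L)
    (h24 : 24 ∣ Nat.card X) {c : G} (hcL : c ∈ L) (hc1 : c ≠ 1) (hcc : ∀ x ∈ L, c * x = x * c) (hcX : c ∉ X) :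
    Nonempty (X ≃* Equiv.Perm (Fin 4)) := by
  have hcen : ∀ s : Equiv.Perm (Fin 4), (∀ t, s * t = t * s) → s = 1 := by decide
  have hc2 : (ψ ⟨c, hcL⟩).1 = 1 := by
    apply hcen
    intro t
    obtain ⟨y, hy⟩ := ψ.surjective (t, 1)
    have h1 : (⟨c, hcL⟩ : L) * y = y * ⟨c, hcL⟩ := Subtype.ext (hcc y y.2)
    have h2 := congrArg Prod.fst (congrArg ψ h1)
    rw [map_mul, map_mul, hy] at h2
    exact h2
  have hc3 : (ψ ⟨c, hcL⟩).2 ≠ 1 := by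
    intro h3
    apply hc1
    have : ψ ⟨c, hcL⟩ = 1 := Prod.ext hc2 h3
    have h4 := ψ.injective (this.trans (map_one ψ).symm)
    exact congrArg Subtype.val h4
  have hz : ∀ a b : Multiplicative (ZMod 2), a ≠ 1 → b ≠ 1 → a = b := by decide
  let f : X →* Equiv.Perm (Fin 4) :=
    (MonoidHom.fst _ _).comp (ψ.toMonoidHom.comp (Subgroup.inclusion hX))
  have hf : Function.Injective f := by
    rw [injective_iff_map_eq_one]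
    intro x hx
    have hx1 : (ψ ⟨x, hX x.2⟩).1 = 1 := hx
    by_contra hne
    have hx2 : (ψ ⟨x, hX x.2⟩).2 ≠ 1 := by
      intro h3
      apply hne
      have : ψ ⟨x, hX x.2⟩ = 1 := Prod.ext hx1 h3
      have h4 := ψ.injective (this.trans (map_one ψ).symm)
      have h5 : (x : G) = 1 := congrArg Subtype.val h4
      exact Subtype.ext h5
    have h5 : ψ ⟨x, hX x.2⟩ = ψ ⟨c, hcL⟩ := Prod.ext (hx1.trans hc2.symm) (hz _ _ hx2 hc3)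
    have h6 : (x : G) = c := congrArg Subtype.val (ψ.injective h5)
    exact hcX (by rw [← h6]; exact x.2)
  have h24' : Nat.card (Equiv.Perm (Fin 4)) = 24 := by
    rw [Nat.card_eq_fintype_card]; decide
  have hle : Nat.card X ≤ 24 := by
    rw [← h24']; exact Nat.card_le_card_of_injective f hf
  have hX24 : Nat.card X = 24 := le_antisymm hle (Nat.le_of_dvd Nat.card_pos h24)
  have hb : Function.Bijective f := by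
    rw [Nat.bijective_iff_injective_and_card]
    exact ⟨hf, by rw [hX24, h24']⟩
  exact ⟨MulEquiv.ofBijective f hb⟩

end Cfsg.Agent.Lib.ZNQ
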