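import Cfsg.Agent.Lib.ZNQc

/-!
Elements of `T` (helper47, S518).
-/

set_option autoImplicit false
set_option linter.unusedSectionVars false

namespace Cfsg.Agent.Lib.ZNQ

open Subgroup commutatorElement Cfsg.Agent.Lib.LocBase Cfsg.Agent.Lib.TvStruct Cfsg.Agent.Lib.ZN Cfsg.Agent.Lib.AmG
open scoped Pointwise

universe u

variable {G : Type u} [Group G] [Finite G]

/-- `w` and `c₁`, `c₂`. -/
structure Cs (T K₁ K₂ : Subgroup G) (w c₁ c₂ : G) : Prop where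
  w₁ : w ∈ RR₀ T K₁
  w₂ : w ∈ RR₀ T K₂
  w1 : w ≠ 1
  Rw : ∀ x ∈ RR₀ T K₁, x = 1 ∨ x = w
  comm : ⁅Cfsg.wOf K₁, Cfsg.wOf K₂⁆ = RR₀ T K₁
  RR : RR₀ T K₁ = RR₀ T K₂
  c₁m : c₁ ∈ BK (JJ T) K₁
  c₂m : c₂ ∈ BK (JJ T) K₂
  c₁n : c₁ ≠ 1
  c₂n : c₂ ≠ 1
  c₁Z : c₁ ∈ Cfsg.omegaCenterOf T
  c₂Z : c₂ ∈ Cfsg.omegaCenterOf T
  wZ : w ∈ Cfsg.omegaCenterOf T
  cc : c₁ ≠ c₂
  cw₁ : c₁ ≠ w
  cw₂ : c₂ ≠ w
  all : ∀ x ∈ Cfsg.omegaCenterOf T, x = 1 ∨ x = c₁ ∨ x = c₂ ∨ x = w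
  mul : c₁ * c₂ = w
  C₁ : centralizer ({c₁} : Set G) = K₁ ⊔ T
  C₂ : centralizer ({c₂} : Set G) = K₂ ⊔ T

theorem card_two_cases {A : Subgroup G} (hA : Nat.card A = 2) {w : G} (hw : w ∈ A) (hw1 : w ≠ 1) :
    ∀ x ∈ A, x = 1 ∨ x = w := by
  intro x hx
  by_cases hx1 : x = 1
  · exact Or.inl hx1
  · right
    have h6 := mul_mem_of_index_two (A := A) (A₀ := ⊥) bot_le (by rw [hA, card_bot]) hx hw
      (by rwa [mem_bot]) (by rwa [mem_bot])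
    rw [mem_bot] at h6
    exact inv_mul_eq_one.mp h6

section sit

variable {T K₁ L₁ K₂ L₂ : Subgroup G} (h : Sit T K₁ L₁ K₂ L₂)
include h

theorem Sit.c_facts {c : G} (hc : c ∈ BK (JJ T) K₁) (hc1 : c ≠ 1) :
    c ∈ Cfsg.omegaCenterOf T ∧ centralizer ({c} : Set G) = K₁ ⊔ T ∧ c ∉ Cfsg.wOf K₁ := by
  have hcZ : c ∈ Cfsg.omegaCenterOf T := by rw [h.p₁.ZT]; exact hc.1
  have hcT : c ∈ centralizer (T : Set G) := omegaCenterOf_le_centralizer T hcZ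
  have hcK : c ∈ centralizer (K₁ : Set G) := hc.2
  have hcP : K₁ ⊔ T ≤ centralizer ({c} : Set G) := by
    apply sup_le
    · intro k hk
      rw [mem_centralizer_singleton_iff]
      exact (hcK k hk)
    · intro t ht
      rw [mem_centralizer_singleton_iff]
      exact (hcT t ht)
  have e : centralizer ({c} : Set G) = K₁ ⊔ T := by
    apply le_antisymm
    · rw [← h.e₁]
      exact h.h₁.uq.cent_le hc.1 hc.2 hc1
    · exact hcP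
  refine ⟨hcZ, e, ?_⟩
  intro hcW
  apply hc1
  have h1 : c ∈ Cfsg.wOf K₁ ⊓ centralizer ((K₁ ⊔ T : Subgroup G) : Set G) := by
    refine mem_inf.mpr ⟨hcW, ?_⟩
    intro x hx
    have := hcP hx
    rw [mem_centralizer_singleton_iff] at this
    exact this
  rw [h.p₁.W_inf_cent, mem_bot] at h1
  exact h1

theorem Sit.exists_Cs (hZ : Nat.card (Cfsg.omegaCenterOf T) = 4) : ∃ w c₁ c₂, Cs T K₁ K₂ w c₁ c₂ := by
  obtain ⟨w, hw1, hw2, hw, hcm, hRR⟩ := h.exists_w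
  have hb₁ : Nat.card (BK (JJ T) K₁) = 2 := by
    have := XFacts_card_B h.p₁.X
    rw [← h.p₁.ZT, hZ] at this
    omega
  have hb₂ : Nat.card (BK (JJ T) K₂) = 2 := by
    have := XFacts_card_B h.p₂.X
    rw [← h.p₂.ZT, hZ] at this
    omega
  obtain ⟨c₁, hc₁, hc₁1⟩ := exists_gen_of_card_two hb₁
  obtain ⟨c₂, hc₂, hc₂1⟩ := exists_gen_of_card_two hb₂
  obtain ⟨hz₁, hC₁, hW₁⟩ := h.c_facts hc₁ hc₁1
  obtain ⟨hz₂, hC₂, hW₂⟩ := h.symm.c_facts hc₂ hc₂1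
  have hcc : c₁ ≠ c₂ := by
    intro e
    have h1 : c₁ ∈ BK (JJ T) K₁ ⊓ BK (JJ T) K₂ := mem_inf.mpr ⟨hc₁, by rw [e]; exact hc₂⟩
    rw [BK_inf h.h₁.uq h.h₂.uq h.hne.symm, mem_bot] at h1
    exact hc₁1 h1
  have hcw₁ : c₁ ≠ w := fun e => hW₁ (by rw [e]; exact hw1.2)
  have hcw₂ : c₂ ≠ w := fun e => hW₂ (by rw [e]; exact hw2.2)
  have hall := mem_four hZ hz₁ hz₂ hw1.1 hc₁1 hc₂1 hw hcc hcw₂ hcw₁
  have hsq : ∀ x ∈ Cfsg.omegaCenterOf T, x * x = 1 := by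
    intro x hx
    rw [← pow_two]; exact (mem_omegaCenterOf.mp hx).2.2
  refine ⟨w, c₁, c₂, hw1, hw2, hw, card_two_cases h.p₁.card_R hw1 hw, hcm, hRR, hc₁, hc₂, hc₁1, hc₂1, hz₁, hz₂,
    hw1.1, hcc, hcw₁, hcw₂, hall, ?_, hC₁, hC₂⟩
  rcases hall _ (mul_mem hz₁ hz₂) with e | e | e | e
  · exfalso
    apply hcc
    calc c₁ = c₁ * (c₂ * c₂) := by rw [hsq _ hz₂, mul_one]
      _ = (c₁ * c₂) * c₂ := by group
      _ = c₂ := by rw [e, one_mul]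
  · exact absurd (mul_eq_left.mp e) hc₂1
  · exact absurd (mul_eq_right.mp e) hc₁1
  · exact e

/-- squares of elements of `T` lie in `R` -/
theorem Sit.sq_mem {x : G} (hx : x ∈ T) : x ^ 2 ∈ RR₀ T K₁ := by
  have hEA := ThompsonJ.elemAb_iff.mp (h.p₁.EA_ZZ)
  by_cases hxQ : x ∈ QQ T K₁
  · rw [h.q₁] at hxQ
    rw [hEA.2 x hxQ]; exact one_mem _
  · obtain ⟨v, hv, hvQ⟩ := AmG.exists_w h.p₂ h.p₁ h.n₂
    have hvT : v ∈ T := h.p₂.W_le_T hv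
    have h1 := mul_mem_of_index_two inf_le_left h.p₁.card_T hvT hx hvQ hxQ
    have hv2 : v * v = 1 := by
      rw [← pow_two]; exact (ThompsonJ.elemAb_iff.mp (EA_wOf (K := K₂))).2 v hv
    have h2 : (v⁻¹ * x) * (v⁻¹ * x) = 1 := by
      rw [← pow_two]
      apply hEA.2
      have := h1
      rw [← h.q₁]; exact this
    -- x = v q, x ^ 2 = [v, q]
    set q := v⁻¹ * x with hq
    have hxe : x = v * q := by rw [hq]; group
    have hqT : q ∈ T := h1.1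
    have hvi : v⁻¹ = v := inv_eq_of_mul_eq_one_right hv2
    have hqi : q⁻¹ = q := inv_eq_of_mul_eq_one_right h2
    have h3 : x ^ 2 = ⁅v, q⁆ := by
      rw [commutatorElement_def, hvi, hqi, hxe, pow_two]; group
    rw [h3]
    obtain ⟨_, _, _, _, _, e⟩ := h.exists_w
    rw [e]
    exact h.p₂.comm_W_T (commutator_mem_commutator hv hqT)

/-- an element of `T` which commutes with an element of `W₂` outside of `Q₁` lies in `Q₂` -/
theorem Sit.mem_Q₂ {w : G} (hw : w ∈ RR₀ T K₂) (hw1 : w ≠ 1) {v q : G} (hv : v ∈ Cfsg.wOf K₂) (hvQ : v ∉ QQ T K₁)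
    (hq : q ∈ T) (hc : q * v = v * q) : q ∈ QQ T K₂ := by
  refine mem_inf.mpr ⟨hq, ?_⟩
  have hvT : v ∈ T := h.p₂.W_le_T hv
  have hwZ : w ∈ Cfsg.omegaCenterOf T := hw.1
  have hwv : w ≠ v := by
    intro e
    apply hvQ
    rw [← e]
    exact h.p₁.Z₀_le_Q hwZ
  have hv1 : v ≠ 1 := fun e => hvQ (by rw [e]; exact one_mem _)
  have hw2 : w * w = 1 := by rw [← pow_two]; exact (mem_omegaCenterOf.mp hwZ).2.2
  have hv2 : v * v = 1 := by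
    rw [← pow_two]; exact (ThompsonJ.elemAb_iff.mp (EA_wOf (K := K₂))).2 v hv
  have hwvm : w * v ∈ Cfsg.wOf K₂ := mul_mem hw.2 hv
  have hwv1 : w * v ≠ 1 := by
    intro e
    apply hwv
    calc w = w * (v * v) := by rw [hv2, mul_one]
      _ = (w * v) * v := by group
      _ = v := by rw [e, one_mul]
  have hall := mem_four h.p₂.X.Wcard hw.2 hv hwvm hw1 hv1 hwv1 hwv (fun e => hw1 (right_eq_mul.mp e))
    (fun e => hv1 (left_eq_mul.mp e))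
  have hwq : w * q = q * w := ((mem_omegaCenterOf.mp hwZ).2.1 q hq).symm
  intro y hy
  rcases hall y hy with rfl | rfl | rfl | rfl
  · rw [one_mul, mul_one]
  · exact hwq
  · exact hc.symm
  · calc w * v * q = w * (v * q) := by group
      _ = w * (q * v) := by rw [hc]
      _ = (w * q) * v := by group
      _ = (q * w) * v := by rw [hwq]
      _ = q * (w * v) := by group

/-- involutions of `T` lie in `Q₁` or `Q₂` -/
theorem Sit.invol {x : G} (hx : x ∈ T) (hx2 : x ^ 2 = 1) : x ∈ QQ T K₁ ∨ x ∈ QQ T K₂ := by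
  by_cases hxQ : x ∈ QQ T K₁
  · exact Or.inl hxQ
  · right
    obtain ⟨w, _, hw, hw1, _, _⟩ := h.exists_w
    obtain ⟨v, hv, hvQ⟩ := AmG.exists_w h.p₂ h.p₁ h.n₂
    have hvT : v ∈ T := h.p₂.W_le_T hv
    have h1 := mul_mem_of_index_two inf_le_left h.p₁.card_T hvT hx hvQ hxQ
    have hv2 : v * v = 1 := by
      rw [← pow_two]; exact (ThompsonJ.elemAb_iff.mp (EA_wOf (K := K₂))).2 v hv
    have h2 : (v⁻¹ * x) * (v⁻¹ * x) = 1 := by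
      rw [← pow_two]
      apply (ThompsonJ.elemAb_iff.mp (h.p₁.EA_ZZ)).2
      have := h1
      rw [← h.q₁]; exact this
    set q := v⁻¹ * x with hq
    have hxe : x = v * q := by rw [hq]; group
    have hqT : q ∈ T := h1.1
    have hvi : v⁻¹ = v := inv_eq_of_mul_eq_one_right hv2
    have hqi : q⁻¹ = q := inv_eq_of_mul_eq_one_right h2
    have hc : q * v = v * q := by
      have h3 : (v * q) * (v * q) = 1 := by rw [← hxe, ← pow_two]; exact hx2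
      have h4 := eq_inv_of_mul_eq_one_left h3
      rw [mul_inv_rev, hvi, hqi] at h4
      exact h4.symm
    have hqQ := h.mem_Q₂ hw hw1 hv hvQ hqT hc
    rw [hxe]
    exact mul_mem (h.p₂.W_le_Q hv) hqQ

/-- involutions of `D` are conjugate to `w` -/
theorem Sit.conj_w {w : G} (hw₁ : w ∈ RR₀ T K₁) (hw₂ : w ∈ RR₀ T K₂) (hw1 : w ≠ 1) {x : G}
    (hx : x ∈ Cfsg.wOf K₁ ⊔ Cfsg.wOf K₂) (hx2 : x ^ 2 = 1) (hx1 : x ≠ 1) : ∃ g : G, g * x * g⁻¹ = w := by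
  rcases h.invol (h.D_le_T hx) hx2 with hq | hq
  · have h1 : x ∈ Cfsg.wOf K₁ := by
      rw [← h.D_inf]; exact mem_inf.mpr ⟨hx, hq⟩
    obtain ⟨k, _, hk⟩ := trans_W h.p₁.X h1 hw₁.2 hx1 hw1
    exact ⟨k, hk⟩
  · have h1 : x ∈ Cfsg.wOf K₂ := by
      rw [← h.symm.D_inf]; exact mem_inf.mpr ⟨by rw [sup_comm]; exact hx, hq⟩
    obtain ⟨k, _, hk⟩ := trans_W h.p₂.X h1 hw₂.2 hx1 hw1
    exact ⟨k, hk⟩

theorem Sit.c_not_mem_D {c : G} (hc : c ∈ BK (JJ T) K₁) (hc1 : c ≠ 1) : c ∉ Cfsg.wOf K₁ ⊔ Cfsg.wOf K₂ := by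
  intro hD
  obtain ⟨hcZ, _, hcW⟩ := h.c_facts hc hc1
  apply hcW
  rw [← h.D_inf]
  exact mem_inf.mpr ⟨hD, h.p₁.Z₀_le_Q hcZ⟩

theorem Sit.card_T' (hZ : Nat.card (Cfsg.omegaCenterOf T) = 4) : Nat.card T = 16 := by
  rw [h.p₁.card_T]
  show 2 * Nat.card (QQ T K₁) = 16
  rw [h.q₁, h.p₁.card_ZZ, hZ]

end sit

end Cfsg.Agent.Lib.ZNQ
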