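import Cfsg.Agent.Lib.ZNQd

/-!
Fusion of `c₁` (helper47, S518).
-/

set_option autoImplicit false
set_option linter.unusedSectionVars false

namespace Cfsg.Agent.Lib.ZNQ

open Subgroup commutatorElement Cfsg.Agent.Lib.LocBase Cfsg.Agent.Lib.TvStruct Cfsg.Agent.Lib.ZN Cfsg.Agent.Lib.AmG
open scoped Pointwise

universe u

variable {G : Type u} [Group G] [Finite G]

theorem D_norm {T K₁ L₁ K₂ L₂ : Subgroup G} (h : Sit T K₁ L₁ K₂ L₂) :
    T ≤ normalizer ((Cfsg.wOf K₁ ⊔ Cfsg.wOf K₂ : Subgroup G) : Set G) := by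
  intro t ht
  apply mem_normalizer_of_map_conj_eq
  rw [Subgroup.map_sup, map_conj_eq_of_mem (h.p₁.TN ht), map_conj_eq_of_mem (h.p₂.TN ht)]

theorem odd_index (S : Sylow 2 G) : ¬ 2 ∣ (S : Subgroup G).index := Sylow.not_dvd_index S

/-- Case `T = S`. -/
theorem case_one {T K₁ L₁ K₂ L₂ : Subgroup G} (h : Sit T K₁ L₁ K₂ L₂) (hZ : Nat.card (Cfsg.omegaCenterOf T) = 4)
    {w c₁ c₂ : G} (hc : Cs T K₁ K₂ w c₁ c₂) (S : Sylow 2 G) (hTS : (S : Subgroup G) = T) : c₁ ∉ OO G := by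
  have hTD := D_norm h
  have hcT := h.card_T' hZ
  have hcD := h.card_D
  have hDT := h.D_le_T
  have hc₁D := h.c_not_mem_D hc.c₁m hc.c₁n
  have hc2 : c₁ ^ 2 = 1 := (mem_omegaCenterOf.mp hc.c₁Z).2.2
  have h16 : Nat.card T = 2 * Nat.card (Cfsg.wOf K₁ ⊔ Cfsg.wOf K₂ : Subgroup G) := by rw [hcT, hcD]
  apply not_mem_OO (S := T) (D := Cfsg.wOf K₁ ⊔ Cfsg.wOf K₂)
  · rw [← hTS]; exact odd_index S
  · exact hDT
  · exact hTD
  · exact Or.inl h16
  · exact omegaCenterOf_le T hc.c₁Z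
  · exact hc₁D
  · exact hc2
  · intro g hg
    by_contra hno
    -- then `g⁻¹ c₁ g ∈ D`
    have hD : g⁻¹ * c₁ * g ∈ Cfsg.wOf K₁ ⊔ Cfsg.wOf K₂ := by
      by_contra hD
      exact hno (mul_mem_of_index_two hDT h16 (omegaCenterOf_le T hc.c₁Z) hg hc₁D hD)
    have hg2 : (g⁻¹ * c₁ * g) ^ 2 = 1 := by
      have : (g⁻¹ * c₁ * g) ^ 2 = g⁻¹ * c₁ ^ 2 * g := by rw [pow_two, pow_two]; group
      rw [this, hc2]; group
    have hg1 : g⁻¹ * c₁ * g ≠ 1 := by
      intro e
      apply hc.c₁n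
      have : c₁ = g * (g⁻¹ * c₁ * g) * g⁻¹ := by group
      rw [this, e]; group
    obtain ⟨k, hk⟩ := h.conj_w hc.w₁ hc.w₂ hc.w1 hD hg2 hg1
    -- `x c₁ x⁻¹ = w`
    set x := k * g⁻¹ with hx
    have hxc : x * c₁ * x⁻¹ = w := by rw [← hk, hx]; group
    have hS : IsSyl 2 T ⊤ := by rw [← hTS]; exact isSyl_top S
    have hT1 : T ≤ centralizer ({w} : Set G) := by
      intro t ht
      rw [mem_centralizer_singleton_iff]
      exact (mem_omegaCenterOf.mp hc.wZ).2.1 t ht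
    have hT2 : cj x T ≤ centralizer ({w} : Set G) := by
      rintro _ ⟨t, ht, rfl⟩
      show x * t * x⁻¹ ∈ _
      rw [mem_centralizer_singleton_iff]
      have h1 : t * c₁ = c₁ * t := (mem_omegaCenterOf.mp hc.c₁Z).2.1 t ht
      rw [← hxc]
      calc x * t * x⁻¹ * (x * c₁ * x⁻¹) = x * (t * c₁) * x⁻¹ := by group
        _ = x * (c₁ * t) * x⁻¹ := by rw [h1]
        _ = x * c₁ * x⁻¹ * (x * t * x⁻¹) := by group
    have s1 : IsSyl 2 T (centralizer ({w} : Set G)) := hS.of_le hT1 le_top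
    have s2 : IsSyl 2 (cj x T) (centralizer ({w} : Set G)) := by
      apply s1.of_card_ge (isPGroup_map_conj h.h₁.Tp x) hT2
      rw [card_map_conj]
    obtain ⟨y, hy, e⟩ := s1.conj s2
    -- `n = y x` normalizes `T` and maps `c₁` to `w`
    set n := y * x with hn
    have hnT : n ∈ normalizer (T : Set G) := by
      apply mem_normalizer_of_map_conj_eq
      conv_rhs => rw [← e]
      rw [Subgroup.map_map]
      congr 1
      ext a
      show n * a * n⁻¹ = y * (x * a * x⁻¹) * y⁻¹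
      rw [hn]; group
    have hnc : n * c₁ * n⁻¹ = w := by
      have h1 : y * w = w * y := by
        have := hy
        rw [mem_centralizer_singleton_iff] at this
        exact this
      calc n * c₁ * n⁻¹ = y * (x * c₁ * x⁻¹) * y⁻¹ := by rw [hn]; group
        _ = y * w * y⁻¹ := by rw [hxc]
        _ = w * y * y⁻¹ := by rw [h1]
        _ = w := by group
    -- `⁅T, T⁆ ≤ D`
    have hTT : ⁅T, T⁆ ≤ Cfsg.wOf K₁ ⊔ Cfsg.wOf K₂ := by
      rw [commutator_le]
      intro a ha b hb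
      by_cases haD : a ∈ Cfsg.wOf K₁ ⊔ Cfsg.wOf K₂
      · have : ⁅a, b⁆ = a * (b * a⁻¹ * b⁻¹) := by rw [commutatorElement_def]; group
        rw [this]
        exact mul_mem haD (conj_mem_of_le_normalizer hTD hb (inv_mem haD))
      · by_cases hbD : b ∈ Cfsg.wOf K₁ ⊔ Cfsg.wOf K₂
        · rw [commutatorElement_def]
          exact mul_mem (conj_mem_of_le_normalizer hTD ha hbD) (inv_mem hbD)
        · have hd := mul_mem_of_index_two hDT h16 ha hb haD hbD
          set d := a⁻¹ * b with hd'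
          have hb' : b = a * d := by rw [hd']; group
          have : ⁅a, b⁆ = a * ((a * d * a⁻¹) * d⁻¹) * a⁻¹ := by
            rw [commutatorElement_def, hb']; group
          rw [this]
          exact conj_mem_of_le_normalizer hTD ha (mul_mem (conj_mem_of_le_normalizer hTD ha hd) (inv_mem hd))
    have hwTT : w ∈ ⁅T, T⁆ := by
      have h1 : w ∈ ⁅Cfsg.wOf K₁, Cfsg.wOf K₂⁆ := by rw [hc.comm]; exact hc.w₁
      exact commutator_mono h.p₁.W_le_T h.p₂.W_le_T h1
    have hnTT : n ∈ normalizer ((⁅T, T⁆ : Subgroup G) : Set G) := by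
      apply mem_normalizer_of_map_conj_eq
      rw [Subgroup.map_commutator, map_conj_eq_of_mem hnT]
    apply hc₁D
    apply hTT
    have h2 : n⁻¹ * w * n ∈ ⁅T, T⁆ := by
      have := (mem_normalizer_iff.mp (inv_mem hnTT) w).mp hwTT
      simpa using this
    have h3 : n⁻¹ * w * n = c₁ := by rw [← hnc]; group
    rwa [h3] at h2

end Cfsg.Agent.Lib.ZNQ
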