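import Cfsg.Agent.Lib.ZNQe

/-!
The case `T < S` (helper47, S518).
-/

set_option autoImplicit false
set_option linter.unusedSectionVars false

namespace Cfsg.Agent.Lib.ZNQ

open Subgroup commutatorElement Cfsg.Agent.Lib.LocBase Cfsg.Agent.Lib.TvStruct Cfsg.Agent.Lib.ZN Cfsg.Agent.Lib.AmG
open scoped Pointwise

universe u

variable {G : Type u} [Group G] [Finite G]

theorem cj_cj' (a b : G) (A : Subgroup G) : cj a (cj b A) = cj (a * b) A := by
  rw [cj, cj, cj, Subgroup.map_map]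
  congr 1
  ext x
  show a * (b * x * b⁻¹) * a⁻¹ = (a * b) * x * (a * b)⁻¹
  group

theorem mem_cj {a x : G} {A : Subgroup G} (hx : x ∈ A) : a * x * a⁻¹ ∈ cj a A := ⟨x, hx, rfl⟩

/-- the data in the case `T < S` -/
structure TwoD (T K₁ L₁ : Subgroup G) (t w c₁ c₂ : G) : Prop where
  sit : Sit T K₁ L₁ (cj t K₁) (cj t L₁)
  cs : Cs T K₁ (cj t K₁) w c₁ c₂
  tN : t ∈ normalizer (T : Set G)
  tL : t ∉ L₁
  hZ : Nat.card (Cfsg.omegaCenterOf T) = 4
  idx : (L₁ ⊓ centralizer (Cfsg.omegaCenterOf T : Set G)).relIndex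
      (normalizer (Cfsg.omegaCenterOf T : Set G)) = 2

section two

variable {T K₁ L₁ : Subgroup G} {t w c₁ c₂ : G} (h : TwoD T K₁ L₁ t w c₁ c₂)
include h

theorem TwoD.LC : L₁ ⊓ centralizer (Cfsg.omegaCenterOf T : Set G) = T := by
  apply le_antisymm
  · intro x hx
    rw [← h.sit.L_inf]
    refine mem_inf.mpr ⟨hx.1, ?_⟩
    rw [h.sit.e₂, ← h.cs.C₂, mem_centralizer_singleton_iff]
    exact ((mem_inf.mp hx).2 c₂ h.cs.c₂Z).symm
  · refine le_inf h.sit.h₁.TL ?_
    rw [le_centralizer_iff]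
    exact omegaCenterOf_le_centralizer T

theorem TwoD.T_le : T ≤ normalizer (Cfsg.omegaCenterOf T : Set G) :=
  le_normalizer.trans (normalizer_le_normalizer_omegaCenterOf T)

theorem TwoD.card_T : Nat.card T = 16 := h.sit.card_T' h.hZ

theorem TwoD.card_N : Nat.card (normalizer (Cfsg.omegaCenterOf T : Set G)) = 32 := by
  have h1 := SubgroupTools.card_mul_relIndex_of_le h.T_le
  have h2 := h.idx
  rw [h.LC] at h2
  rw [h2, h.card_T] at h1
  omega

theorem TwoD.card_N' : Nat.card (normalizer (Cfsg.omegaCenterOf T : Set G)) = 2 * Nat.card T := by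
  rw [h.card_N, h.card_T]

theorem TwoD.N_eq : normalizer (Cfsg.omegaCenterOf T : Set G) = normalizer (T : Set G) := by
  apply le_antisymm
  · have h2 := h.idx
    rw [h.LC] at h2
    have h3 : (T.subgroupOf (normalizer (Cfsg.omegaCenterOf T : Set G))).Normal :=
      Subgroup.normal_of_index_eq_two h2
    exact (Subgroup.normal_subgroupOf_iff_le_normalizer h.T_le).mp h3
  · exact normalizer_le_normalizer_omegaCenterOf T

theorem TwoD.Np : IsPGroup 2 (normalizer (T : Set G)) := by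
  rw [← h.N_eq]
  exact IsPGroup.of_card (n := 5) (by rw [h.card_N]; norm_num)

theorem TwoD.card_NT : Nat.card (normalizer (T : Set G)) = 2 * Nat.card T := by
  rw [← h.N_eq]; exact h.card_N'

theorem TwoD.L_inf : L₁ ⊓ normalizer (T : Set G) = T := by
  symm
  exact h.sit.h₁.lh.syl.eq_of_le (h.Np.to_le inf_le_right) inf_le_left (le_inf h.sit.h₁.TL le_normalizer)

theorem TwoD.tT : t ∉ T := fun ht => h.tL (h.sit.h₁.TL ht)

theorem TwoD.mul_mem {a b : G} (ha : a ∈ normalizer (T : Set G)) (hb : b ∈ normalizer (T : Set G))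
    (haT : a ∉ T) (hbT : b ∉ T) : a⁻¹ * b ∈ T :=
  mul_mem_of_index_two le_normalizer h.card_NT ha hb haT hbT

theorem TwoD.cj_K {u : G} (hu : u ∈ normalizer (T : Set G)) (huT : u ∉ T) : cj u K₁ = cj t K₁ := by
  have h1 := h.mul_mem h.tN hu h.tT huT
  have h2 : cj (t⁻¹ * u) K₁ = K₁ := map_conj_eq_of_mem (h.sit.p₁.TK h1)
  conv_rhs => rw [← h2]
  rw [cj_cj']
  congr 2
  group

theorem TwoD.swap {u : G} (hu : u ∈ normalizer (T : Set G)) (huT : u ∉ T) :
    u * c₁ * u⁻¹ = c₂ ∧ u * c₂ * u⁻¹ = c₁ ∧ u * w * u⁻¹ = w := by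
  have hc := h.cs
  have hb : Nat.card (BK (JJ T) (cj t K₁)) = 2 := by
    have := XFacts_card_B h.sit.p₂.X
    rw [← h.sit.p₂.ZT, h.hZ] at this
    omega
  have h1 : u * c₁ * u⁻¹ ∈ BK (JJ T) (cj t K₁) := by
    rw [← h.cj_K hu huT]
    refine mem_inf.mpr ⟨?_, ?_⟩
    · have : u ∈ normalizer (Cfsg.omegaCenterOf (JJ T) : Set G) :=
        normalizer_le_normalizer_omegaCenterOf _ (normalizer_le_normalizer_JJ T hu)
      exact (mem_normalizer_iff.mp this _).mp hc.c₁m.1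
    · rintro _ ⟨k, hk, rfl⟩
      show u * k * u⁻¹ * (u * c₁ * u⁻¹) = u * c₁ * u⁻¹ * (u * k * u⁻¹)
      have h2 : k * c₁ = c₁ * k := hc.c₁m.2 k hk
      calc u * k * u⁻¹ * (u * c₁ * u⁻¹) = u * (k * c₁) * u⁻¹ := by group
        _ = u * (c₁ * k) * u⁻¹ := by rw [h2]
        _ = u * c₁ * u⁻¹ * (u * k * u⁻¹) := by group
  have h2 : u * c₁ * u⁻¹ = c₂ := by
    rcases card_two_cases hb hc.c₂m hc.c₂n _ h1 with e | e
    · exfalso
      apply hc.c₁n
      have : c₁ = u⁻¹ * (u * c₁ * u⁻¹) * u := by group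
      rw [this, e]; group
    · exact e
  have h3 : u * c₂ * u⁻¹ = c₁ := by
    have h4 := h.mul_mem (inv_mem hu) hu (fun hm => huT (inv_mem_iff.mp hm)) huT
    rw [inv_inv] at h4
    have h5 : (u * u) * c₁ = c₁ * (u * u) := (mem_omegaCenterOf.mp hc.c₁Z).2.1 _ h4
    calc u * c₂ * u⁻¹ = (u * u) * c₁ * (u * u)⁻¹ := by rw [← h2]; group
      _ = c₁ := by rw [h5]; group
  refine ⟨h2, h3, ?_⟩
  have h6 : c₂ * c₁ = c₁ * c₂ := (mem_omegaCenterOf.mp hc.c₁Z).2.1 c₂ (omegaCenterOf_le T hc.c₂Z)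
  rw [← hc.mul]
  calc u * (c₁ * c₂) * u⁻¹ = (u * c₁ * u⁻¹) * (u * c₂ * u⁻¹) := by group
    _ = c₂ * c₁ := by rw [h2, h3]
    _ = c₁ * c₂ := h6

/-- elementary abelian subgroups of order 8 of `N_G(T)` are contained in `T` -/
theorem TwoD.EA_le (hZN : ZNHyp G) (hO : Cfsg.pCore 2 G = ⊥) {A : Subgroup G} (hA : EA A) (hc : Nat.card A = 8)
    (hAN : A ≤ normalizer (T : Set G)) : A ≤ T := by
  intro a ha
  by_contra haT
  have haN := hAN ha
  have hA' := ThompsonJ.elemAb_iff.mp hA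
  have hp₂ : PF T (cj a K₁) := by rw [h.cj_K haN haT]; exact h.sit.p₂
  have hV : EA (A ⊓ T : Subgroup G) := by
    apply ThompsonJ.elemAb_iff.mpr
    exact ⟨(inf_le_left.trans hA'.1).trans (centralizer_le (SetLike.coe_subset_coe.mpr inf_le_left)),
      fun x hx => hA'.2 x hx.1⟩
  have hcentr : ∀ x ∈ A ⊓ T, a * x = x * a := by
    intro x hx
    exact (hA'.1 ha x hx.1).symm
  have haV : a ∈ normalizer ((A ⊓ T : Subgroup G) : Set G) := by
    apply centralizer_le_normalizer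
    intro x hx
    exact (hcentr x hx).symm
  have hf := pk_faith h.sit.h₁ h.sit.h₂ h.sit.hne
  rw [← h.cj_K haN haT] at hf
  have h1 := small_B h.sit.p₁ hp₂ haN hf hV inf_le_right haV
  -- the order
  have h2 := SubgroupTools.card_sup_mul_card_inf (N := T) (H := A) hAN
  have h3 : Nat.card (T ⊔ A : Subgroup G) ≤ 32 := by
    have h4 := Nat.le_of_dvd Nat.card_pos (Subgroup.card_dvd_of_le (sup_le le_normalizer hAN : T ⊔ A ≤ normalizer (T : Set G)))
    rw [h.card_NT, h.card_T] at h4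
    omega
  rw [h.card_T, hc] at h2
  have h5 : 4 ≤ Nat.card (T ⊓ A : Subgroup G) := by
    by_contra hlt
    have : Nat.card (T ⊔ A : Subgroup G) * Nat.card (T ⊓ A : Subgroup G) ≤ 32 * 3 :=
      Nat.mul_le_mul h3 (by omega)
    omega
  have h6 : A ⊓ T = Cfsg.omegaCenterOf T := by
    apply Subgroup.eq_of_le_of_card_ge h1
    rw [h.hZ, inf_comm]; exact h5
  have h7 : a * c₁ = c₁ * a := hcentr c₁ (by rw [h6]; exact h.cs.c₁Z)
  have h8 := (h.swap haN haT).1
  apply h.cs.cc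
  rw [← h8, h7]; group

theorem TwoD.Q_sup : QQ T K₁ ⊔ QQ T (cj t K₁) = T := by
  apply le_antisymm (sup_le inf_le_left inf_le_left)
  have h1 : QQ T K₁ < QQ T K₁ ⊔ QQ T (cj t K₁) := by
    refine lt_of_le_of_ne le_sup_left ?_
    intro e
    apply h.sit.n₂
    have : QQ T (cj t K₁) ≤ QQ T K₁ := by
      conv_rhs => rw [e]
      exact le_sup_right
    exact (h.sit.p₂.W_le_Q.trans this).trans inf_le_right
  have h2 := two_mul_card_le h1
  have h3 : QQ T K₁ ⊔ QQ T (cj t K₁) = T := by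
    apply Subgroup.eq_of_le_of_card_ge (sup_le inf_le_left inf_le_left)
    rw [h.sit.p₁.card_T]
    exact h2
  exact h3.ge

theorem TwoD.NN (hZN : ZNHyp G) (hO : Cfsg.pCore 2 G = ⊥) :
    normalizer ((normalizer (T : Set G) : Subgroup G) : Set G) ≤ normalizer (T : Set G) := by
  intro x hx
  apply mem_normalizer_of_map_conj_le
  have key : ∀ {K : Subgroup G}, PF T K → QQ T K = ZZ T K → cj x (QQ T K) ≤ T := by
    intro K hp hq
    apply h.EA_le hZN hO
    · apply ThompsonJ.elemAb_iff.mpr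
      have h1 := ThompsonJ.elemAb_iff.mp hp.EA_ZZ
      rw [hq]
      constructor
      · rintro _ ⟨a, ha, rfl⟩ _ ⟨b, hb, rfl⟩
        show x * b * x⁻¹ * (x * a * x⁻¹) = x * a * x⁻¹ * (x * b * x⁻¹)
        have h2 : b * a = a * b := h1.1 ha b hb
        calc x * b * x⁻¹ * (x * a * x⁻¹) = x * (b * a) * x⁻¹ := by group
          _ = x * (a * b) * x⁻¹ := by rw [h2]
          _ = _ := by group
      · rintro _ ⟨a, ha, rfl⟩
        show (x * a * x⁻¹) ^ 2 = 1
        have h2 := h1.2 a ha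
        rw [conj_pow, h2]; group
    · rw [card_map_conj, hq, hp.card_ZZ, h.hZ]
    · have h1 : cj x (QQ T K) ≤ cj x (normalizer (T : Set G)) := map_conj_mono x (inf_le_left.trans le_normalizer)
      rwa [show cj x (normalizer (T : Set G)) = normalizer (T : Set G) from map_conj_eq_of_mem hx] at h1
  have h1 := key h.sit.p₁ h.sit.q₁
  have h2 := key h.sit.p₂ h.sit.q₂
  have h3 : cj x T = cj x (QQ T K₁) ⊔ cj x (QQ T (cj t K₁)) := by
    rw [← Subgroup.map_sup, h.Q_sup]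
  show cj x T ≤ T
  rw [h3]
  exact sup_le h1 h2

theorem TwoD.S_eq (hZN : ZNHyp G) (hO : Cfsg.pCore 2 G = ⊥) (S : Sylow 2 G) (hTS : T < (S : Subgroup G)) :
    (S : Subgroup G) = normalizer (T : Set G) := by
  have h1 := SylAmb.lt_inf_normalizer S.2 hTS
  have h2 := two_mul_card_le h1
  have h3 : (S : Subgroup G) ⊓ normalizer (T : Set G) = normalizer (T : Set G) := by
    apply Subgroup.eq_of_le_of_card_ge inf_le_right
    rw [h.card_NT]; exact h2
  have h4 : normalizer (T : Set G) ≤ (S : Subgroup G) := inf_eq_right.mp h3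
  by_contra hne
  have h5 : normalizer (T : Set G) < (S : Subgroup G) := lt_of_le_of_ne h4 (fun e => hne e.symm)
  have h6 := SylAmb.lt_inf_normalizer S.2 h5
  exact absurd (inf_le_right.trans (h.NN hZN hO)) (not_le_of_gt h6)

theorem TwoD.W_swap {u : G} (hu : u ∈ normalizer (T : Set G)) (huT : u ∉ T) :
    cj u (Cfsg.wOf K₁) = Cfsg.wOf (cj t K₁) ∧ cj u (Cfsg.wOf (cj t K₁)) = Cfsg.wOf K₁ := by
  have h1 : cj u (Cfsg.wOf K₁) = Cfsg.wOf (cj t K₁) := by
    rw [← h.cj_K hu huT]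
    exact (wOf_conj u K₁).symm
  refine ⟨h1, ?_⟩
  have h4 := h.mul_mem (inv_mem hu) hu (fun hm => huT (inv_mem_iff.mp hm)) huT
  rw [inv_inv] at h4
  rw [← h1, cj_cj']
  exact map_conj_eq_of_mem (h.sit.p₁.TN h4)

theorem TwoD.N_norm_D : normalizer (T : Set G) ≤
    normalizer ((Cfsg.wOf K₁ ⊔ Cfsg.wOf (cj t K₁) : Subgroup G) : Set G) := by
  intro u hu
  by_cases huT : u ∈ T
  · exact D_norm h.sit huT
  · apply mem_normalizer_of_map_conj_eq
    obtain ⟨h1, h2⟩ := h.W_swap hu huT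
    rw [Subgroup.map_sup]
    show cj u (Cfsg.wOf K₁) ⊔ cj u (Cfsg.wOf (cj t K₁)) = _
    rw [h1, h2, sup_comm]

end two

end Cfsg.Agent.Lib.ZNQ
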