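import Cfsg.Agent.Lib.ZNQf

/-!
The case `T < S`, II, and the conclusion (helper47, S518).
-/

set_option autoImplicit false
set_option linter.unusedSectionVars false

namespace Cfsg.Agent.Lib.ZNQ

open Subgroup commutatorElement Cfsg.Agent.Lib.LocBase Cfsg.Agent.Lib.TvStruct Cfsg.Agent.Lib.ZN Cfsg.Agent.Lib.AmG
open scoped Pointwise

universe u

variable {G : Type u} [Group G] [Finite G]

section two

variable {T K₁ L₁ : Subgroup G} {t w c₁ c₂ : G} (h : TwoD T K₁ L₁ t w c₁ c₂)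
include h

/-- `C_G(w) ≤ N_G(T)` -/
theorem TwoD.cent_w (hZN : ZNHyp G) (hO : Cfsg.pCore 2 G = ⊥) (S : Sylow 2 G) (hTS : T < (S : Subgroup G)) :
    centralizer ({w} : Set G) ≤ normalizer (T : Set G) := by
  have hS := h.S_eq hZN hO S hTS
  have h1 : Cfsg.omegaCenterOf (S : Subgroup G) ≤ Cfsg.omegaCenterOf T := h.sit.h₁.omega_le hTS.le
  have h2 : ∀ x ∈ Cfsg.omegaCenterOf (S : Subgroup G), x = 1 ∨ x = w := by
    intro x hx
    have hxt : t * x = x * t := by
      refine ((mem_omegaCenterOf.mp hx).2.1 t ?_)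
      rw [hS]; exact h.tN
    obtain ⟨s1, s2, _⟩ := h.swap h.tN h.tT
    rcases h.cs.all x (h1 hx) with e | e | e | e
    · exact Or.inl e
    · exfalso
      apply h.cs.cc
      rw [e] at hxt
      rw [← s1, hxt]; group
    · exfalso
      apply h.cs.cc
      rw [e] at hxt
      rw [← s2, hxt]; group
    · exact Or.inr e
  have h3 : centralizer ({w} : Set G) ≤ centralizer (Cfsg.omegaCenterOf (S : Subgroup G) : Set G) := by
    intro y hy x hx
    rw [mem_centralizer_singleton_iff] at hy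
    rcases h2 x hx with rfl | rfl
    · rw [one_mul, mul_one]
    · exact hy.symm
  have h4 := h3.trans (hZN.hZ S)
  rw [hS] at h4
  exact h4.trans (h.NN hZN hO)

/-- `c₁` is not conjugate to `w` -/
theorem TwoD.not_conj_w {g : G} (hg : g * c₁ * g⁻¹ = w) : False := by
  have h1 : cj g (centralizer ({c₁} : Set G)) = centralizer ({w} : Set G) := by
    have e : ({w} : Set G) = (MulAut.conj g) '' ({c₁} : Set G) := by
      rw [Set.image_singleton]
      congr 1
      exact hg.symm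
    rw [e]
    ext x
    constructor
    · rintro ⟨y, hy, rfl⟩
      rintro _ ⟨z, hz, rfl⟩
      have h2 := hy z hz
      show g * z * g⁻¹ * (g * y * g⁻¹) = g * y * g⁻¹ * (g * z * g⁻¹)
      calc g * z * g⁻¹ * (g * y * g⁻¹) = g * (z * y) * g⁻¹ := by group
        _ = g * (y * z) * g⁻¹ := by rw [h2]
        _ = _ := by group
    · intro hx
      refine ⟨g⁻¹ * x * g, ?_, by show g * (g⁻¹ * x * g) * g⁻¹ = x; group⟩
      intro z hz
      have h2 : g * z * g⁻¹ * x = x * (g * z * g⁻¹) := hx _ ⟨z, hz, rfl⟩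
      calc z * (g⁻¹ * x * g) = g⁻¹ * (g * z * g⁻¹ * x) * g := by group
        _ = g⁻¹ * (x * (g * z * g⁻¹)) * g := by rw [h2]
        _ = _ := by group
  have h2 : Nat.card (centralizer ({w} : Set G)) = 48 := by
    rw [← h1, card_map_conj, h.cs.C₁, ← h.sit.e₁, h.sit.card_L, h.card_T]
  have h3 : normalizer (T : Set G) ≤ centralizer ({w} : Set G) := by
    intro u hu
    rw [mem_centralizer_singleton_iff]
    by_cases huT : u ∈ T
    · exact (mem_omegaCenterOf.mp h.cs.wZ).2.1 u huT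
    · have := (h.swap hu huT).2.2
      calc u * w = (u * w * u⁻¹) * u := by group
        _ = w * u := by rw [this]
  have h4 := Subgroup.card_dvd_of_le h3
  rw [h2, h.card_NT, h.card_T] at h4
  omega

/-- `c₁` has no conjugate in `N_G(T) ∖ T` -/
theorem TwoD.no_out (hZN : ZNHyp G) (hO : Cfsg.pCore 2 G = ⊥) (S : Sylow 2 G) (hTS : T < (S : Subgroup G))
    {g : G} (hu : g⁻¹ * c₁ * g ∈ normalizer (T : Set G)) : g⁻¹ * c₁ * g ∈ T := by
  by_contra huT
  set u := g⁻¹ * c₁ * g with hud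
  have hc2 : c₁ * c₁ = 1 := by rw [← pow_two]; exact (mem_omegaCenterOf.mp h.cs.c₁Z).2.2
  have huu : u * u = 1 := by
    calc u * u = g⁻¹ * (c₁ * c₁) * g := by rw [hud]; group
      _ = 1 := by rw [hc2]; group
  obtain ⟨s1, s2, s3⟩ := h.swap hu huT
  obtain ⟨W1, W2⟩ := h.W_swap hu huT
  obtain ⟨v, hv, hvQ⟩ := AmG.exists_w h.sit.p₁ h.sit.p₂ h.sit.n₁
  have hvT : v ∈ T := h.sit.p₁.W_le_T hv
  set v' := u * v * u⁻¹ with hv'
  have hv'W : v' ∈ Cfsg.wOf (cj t K₁) := by rw [← W1]; exact mem_cj hv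
  have hv'T : v' ∈ T := h.sit.p₂.W_le_T hv'W
  have hvv : v * v = 1 := by
    rw [← pow_two]; exact (ThompsonJ.elemAb_iff.mp (EA_wOf (K := K₁))).2 v hv
  have hv'v' : v' * v' = 1 := by
    calc v' * v' = u * (v * v) * u⁻¹ := by rw [hv']; group
      _ = 1 := by rw [hvv]; group
  have hui : u⁻¹ = u := inv_eq_of_mul_eq_one_right huu
  have hvi : v⁻¹ = v := inv_eq_of_mul_eq_one_right hvv
  have hv'i : v'⁻¹ = v' := inv_eq_of_mul_eq_one_right hv'v'
  have huv' : u * v' * u⁻¹ = v := by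
    calc u * v' * u⁻¹ = (u * u) * v * (u⁻¹ * u⁻¹) := by rw [hv']; group
      _ = v := by rw [hui, huu]; group
  have hwc : ∀ x ∈ T, x * w = w * x := fun x hx => (mem_omegaCenterOf.mp h.cs.wZ).2.1 x hx
  have hcc : ∀ x ∈ T, x * c₁ = c₁ * x := fun x hx => (mem_omegaCenterOf.mp h.cs.c₁Z).2.1 x hx
  have hww : w * w = 1 := by rw [← pow_two]; exact (mem_omegaCenterOf.mp h.cs.wZ).2.2
  have hwT : w ∈ T := omegaCenterOf_le T h.cs.wZ
  -- `(v v')² = w`
  have hr : (v * v') * (v * v') = w := by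
    have e : (v * v') * (v * v') = ⁅v, v'⁆ := by
      rw [commutatorElement_def, hvi, hv'i]; group
    have hm : ⁅v, v'⁆ ∈ RR₀ T K₁ := by
      rw [← h.cs.comm]; exact commutator_mem_commutator hv hv'W
    rcases h.cs.Rw _ hm with e1 | e1
    · exfalso
      rw [commutatorElement_eq_one_iff_mul_comm] at e1
      -- `v` centralizes `W₂`
      apply hvQ
      have hv'Q : v' ∉ QQ T K₁ := by
        intro hq
        apply hvQ
        -- `v = u v' u⁻¹ ∈ cj u Q₁ = Q₂`
        refine mem_inf.mpr ⟨hvT, ?_⟩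
        intro y hy
        rw [← W1] at hy
        obtain ⟨y', hy', rfl⟩ := hy
        show u * y' * u⁻¹ * v = v * (u * y' * u⁻¹)
        have h5 : y' * v' = v' * y' := (mem_inf.mp hq).2 y' hy'
        rw [← huv']
        calc u * y' * u⁻¹ * (u * v' * u⁻¹) = u * (y' * v') * u⁻¹ := by group
          _ = u * (v' * y') * u⁻¹ := by rw [h5]
          _ = _ := by group
      exact h.sit.mem_Q₂ h.cs.w₂ h.cs.w1 hv'W hv'Q hvT e1
    · rw [e, e1]
  -- `r = v v' c₁`
  have hrT : v * v' ∈ T := T.mul_mem hvT hv'T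
  set r := v * v' * c₁ with hrd
  have hrr : r * r = w := by
    calc r * r = (v * v') * (c₁ * (v * v')) * c₁ := by rw [hrd]; group
      _ = (v * v') * ((v * v') * c₁) * c₁ := by rw [hcc _ hrT]
      _ = ((v * v') * (v * v')) * (c₁ * c₁) := by group
      _ = w := by rw [hr, hc2, mul_one]
  have hc₂ : c₂ = w * c₁ := by
    have h1 : c₁ * c₂ = w := h.cs.mul
    have h2 : c₁ * w = w * c₁ := (hcc w hwT).symm
    calc c₂ = (c₁ * c₁) * c₂ := by rw [hc2, one_mul]
      _ = c₁ * (c₁ * c₂) := by group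
      _ = c₁ * w := by rw [h1]
      _ = w * c₁ := h2
  have hv'v : v' * v = (v * v') * w := by
    have h1 : (v' * v) * (v * v') = 1 := by
      calc (v' * v) * (v * v') = v' * (v * v) * v' := by group
        _ = 1 := by rw [hvv, mul_one, hv'v']
    calc v' * v = (v' * v) * ((v * v') * (v * v') * w) := by rw [hr, hww, mul_one]
      _ = ((v' * v) * (v * v')) * ((v * v') * w) := by group
      _ = (v * v') * w := by rw [h1, one_mul]
  have hur : u * r * u⁻¹ = r := by
    calc u * r * u⁻¹ = (u * v * u⁻¹) * (u * v' * u⁻¹) * (u * c₁ * u⁻¹) := by rw [hrd]; group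
      _ = v' * v * (w * c₁) := by rw [huv', s1, hc₂]
      _ = (v * v') * (w * w) * c₁ := by rw [hv'v]; group
      _ = r := by rw [hww, mul_one]
  -- conjugate by `g`
  set r' := g * r * g⁻¹ with hr'
  have hgu : g * u * g⁻¹ = c₁ := by rw [hud]; group
  have hr'C : r' ∈ L₁ := by
    rw [h.sit.e₁, ← h.cs.C₁, mem_centralizer_singleton_iff]
    have h1 : u * r = r * u := by
      calc u * r = (u * r * u⁻¹) * u := by group
        _ = r * u := by rw [hur]
    calc r' * c₁ = g * (r * u) * g⁻¹ := by rw [hr', ← hgu]; group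
      _ = g * (u * r) * g⁻¹ := by rw [h1]
      _ = c₁ * r' := by rw [hr', ← hgu]; group
  have hr'2 : r' * r' = g * w * g⁻¹ := by
    calc r' * r' = g * (r * r) * g⁻¹ := by rw [hr']; group
      _ = g * w * g⁻¹ := by rw [hrr]
  have hr'4 : r' ^ 4 = 1 := by
    have h4 : r' ^ 4 = (r' ^ 2) ^ 2 := by rw [← pow_mul]
    rw [h4, pow_two, pow_two]
    calc (r' * r') * (r' * r') = (g * w * g⁻¹) * (g * w * g⁻¹) := by rw [hr'2]
      _ = g * (w * w) * g⁻¹ := by group
      _ = 1 := by rw [hww]; group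
  have hpz : IsPGroup 2 (zpowers r') := by
    have h1 : orderOf r' ∣ 2 ^ 2 := orderOf_dvd_of_pow_eq_one hr'4
    obtain ⟨k, _, hk⟩ := (Nat.dvd_prime_pow Nat.prime_two).mp h1
    apply IsPGroup.of_card (n := k)
    rw [Nat.card_zpowers, hk]
  obtain ⟨l, hl, hle⟩ := h.sit.h₁.lh.syl.exists_conj_le hpz (by rw [zpowers_le]; exact hr'C)
  have hlr : l * r' * l⁻¹ ∈ T := hle (mem_cj (mem_zpowers r'))
  have h6 := h.sit.sq_mem hlr
  have h7 : (l * r' * l⁻¹) ^ 2 = (l * g) * w * (l * g)⁻¹ := by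
    calc (l * r' * l⁻¹) ^ 2 = l * (r' * r') * l⁻¹ := by rw [pow_two]; group
      _ = l * (g * w * g⁻¹) * l⁻¹ := by rw [hr'2]
      _ = _ := by group
  rw [h7] at h6
  have h8 : (l * g) * w * (l * g)⁻¹ = w := by
    rcases h.cs.Rw _ h6 with e | e
    · exfalso
      apply h.cs.w1
      have : w = (l * g)⁻¹ * ((l * g) * w * (l * g)⁻¹) * (l * g) := by group
      rw [this, e]; group
    · exact e
  have h9 : l * g ∈ normalizer (T : Set G) := by
    apply h.cent_w hZN hO S hTS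
    rw [mem_centralizer_singleton_iff]
    calc (l * g) * w = ((l * g) * w * (l * g)⁻¹) * (l * g) := by group
      _ = w * (l * g) := by rw [h8]
  have h10 : (l * g) * u * (l * g)⁻¹ = c₁ := by
    have h11 : l * c₁ = c₁ * l := by
      have := hl
      rw [h.sit.e₁, ← h.cs.C₁, mem_centralizer_singleton_iff] at this
      exact this
    calc (l * g) * u * (l * g)⁻¹ = l * (g * u * g⁻¹) * l⁻¹ := by group
      _ = l * c₁ * l⁻¹ := by rw [hgu]
      _ = c₁ * l * l⁻¹ := by rw [h11]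
      _ = c₁ := by group
  apply huT
  have h12 := (mem_normalizer_iff.mp (inv_mem h9) c₁).mp (omegaCenterOf_le T h.cs.c₁Z)
  rw [inv_inv, ← h10] at h12
  have h13 : (l * g)⁻¹ * ((l * g) * u * (l * g)⁻¹) * (l * g) = u := by group
  rwa [h13] at h12

theorem case_two (hZN : ZNHyp G) (hO : Cfsg.pCore 2 G = ⊥) (S : Sylow 2 G) (hTS : T < (S : Subgroup G)) :
    c₁ ∉ OO G := by
  have hS := h.S_eq hZN hO S hTS
  have hc2 : c₁ ^ 2 = 1 := (mem_omegaCenterOf.mp h.cs.c₁Z).2.2
  have hDT := h.sit.D_le_T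
  have h16 : Nat.card T = 2 * Nat.card (Cfsg.wOf K₁ ⊔ Cfsg.wOf (cj t K₁) : Subgroup G) := by
    rw [h.card_T, h.sit.card_D]
  have hc₁D := h.sit.c_not_mem_D h.cs.c₁m h.cs.c₁n
  apply not_mem_OO (S := S) (D := Cfsg.wOf K₁ ⊔ Cfsg.wOf (cj t K₁))
  · exact odd_index S
  · rw [hS]; exact hDT.trans le_normalizer
  · rw [hS]; exact h.N_norm_D
  · right
    rw [hS, h.card_NT, h16]; ring
  · rw [hS]; exact le_normalizer (omegaCenterOf_le T h.cs.c₁Z)
  · exact hc₁D
  · exact hc2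
  · intro g hg
    rw [hS] at hg
    have hgT := h.no_out hZN hO S hTS hg
    by_contra hno
    have hD : g⁻¹ * c₁ * g ∈ Cfsg.wOf K₁ ⊔ Cfsg.wOf (cj t K₁) := by
      by_contra hD
      exact hno (mul_mem_of_index_two hDT h16 (omegaCenterOf_le T h.cs.c₁Z) hgT hc₁D hD)
    have hg2 : (g⁻¹ * c₁ * g) ^ 2 = 1 := by
      have : (g⁻¹ * c₁ * g) ^ 2 = g⁻¹ * c₁ ^ 2 * g := by rw [pow_two, pow_two]; group
      rw [this, hc2]; group
    have hg1 : g⁻¹ * c₁ * g ≠ 1 := by
      intro e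
      apply h.cs.c₁n
      have : c₁ = g * (g⁻¹ * c₁ * g) * g⁻¹ := by group
      rw [this, e]; group
    obtain ⟨k, hk⟩ := h.sit.conj_w h.cs.w₁ h.cs.w₂ h.cs.w1 hD hg2 hg1
    apply h.not_conj_w (g := k * g⁻¹)
    rw [← hk]; group

end two

end Cfsg.Agent.Lib.ZNQ
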