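import Cfsg.Agent.Lib.ZNQg

/-!
The conclusion (helper47, S518).
-/

set_option autoImplicit false
set_option linter.unusedSectionVars false

namespace Cfsg.Agent.Lib.ZNQ

open Subgroup commutatorElement Cfsg.Agent.Lib.LocBase Cfsg.Agent.Lib.TvStruct Cfsg.Agent.Lib.ZN Cfsg.Agent.Lib.AmG
open scoped Pointwise

universe u

variable {G : Type u} [Group G] [Finite G]

/-- the conclusion -/
def Concl (G : Type u) [Group G] : Prop :=
  ∃ M₁ M₂ : Subgroup (OO G), M₁ ≠ M₂ ∧ Cfsg.IsMaximalTwoLocal M₁ ∧ Cfsg.IsMaximalTwoLocal M₂ ∧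
        Nonempty (M₁ ≃* Equiv.Perm (Fin 4)) ∧ Nonempty (M₂ ≃* Equiv.Perm (Fin 4)) ∧ Nat.card ↥(M₁ ⊓ M₂) = 8

theorem Sit.iso_L {T K₁ L₁ K₂ L₂ : Subgroup G} (h : Sit T K₁ L₁ K₂ L₂) :
    (Nat.card (Cfsg.omegaCenterOf T) = 2 → Nonempty (↥L₁ ≃* Equiv.Perm (Fin 4))) ∧
    (Nat.card (Cfsg.omegaCenterOf T) = 4 → Nonempty (↥L₁ ≃* Equiv.Perm (Fin 4) × Multiplicative (ZMod 2))) := by
  obtain ⟨v, hv, hvQ⟩ := AmG.exists_w h.p₂ h.p₁ h.n₂
  have := iso_of h.p₁ h.q₁ (h.p₂.W_le_T hv) ((ThompsonJ.elemAb_iff.mp EA_wOf).2 v hv) hvQ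
  rwa [← h.e₁] at this

/-- Case `|Z| = 2` -/
theorem Sit.case_two {T K₁ L₁ K₂ L₂ : Subgroup G} (h : Sit T K₁ L₁ K₂ L₂)
    (hZ : Nat.card (Cfsg.omegaCenterOf T) = 2) : Concl G := by
  have hT : Nat.card T = 8 := by
    rw [h.p₁.card_T]
    show 2 * Nat.card (QQ T K₁) = 8
    rw [h.q₁, h.p₁.card_ZZ, hZ]
  have hTD : Cfsg.wOf K₁ ⊔ Cfsg.wOf K₂ = T := by
    apply Subgroup.eq_of_le_of_card_ge h.D_le_T
    rw [hT, h.card_D]
  have hTH : T ≤ OO G := by rw [← hTD]; exact h.D_le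
  have hL₁ : L₁ ≤ OO G := by rw [h.e₁]; exact sup_le h.K_le hTH
  have hL₂ : L₂ ≤ OO G := by rw [h.e₂]; exact sup_le h.symm.K_le hTH
  have hi : L₁ ⊓ OO G = L₁ := inf_eq_left.mpr hL₁
  have hi₂ : L₂ ⊓ OO G = L₂ := inf_eq_left.mpr hL₂
  apply final h.L_inf (by rw [inf_eq_left.mpr hTH, hT]) h.W_le h.W_le_L h.p₁.X.Wcard h.N_W
    (by rw [hi]; exact h.iso_L.1 hZ) h.symm.W_le h.symm.W_le_L h.p₂.X.Wcard h.symm.N_W
    (by rw [hi₂]; exact h.symm.iso_L.1 hZ)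

theorem Sit.iso_inf {T K₁ L₁ K₂ L₂ : Subgroup G} (h : Sit T K₁ L₁ K₂ L₂)
    (hZ : Nat.card (Cfsg.omegaCenterOf T) = 4) {c : G} (hc : c ∈ BK (JJ T) K₁) (hc1 : c ≠ 1) (hcO : c ∉ OO G) :
    Nonempty (↥(L₁ ⊓ OO G) ≃* Equiv.Perm (Fin 4)) := by
  obtain ⟨ψ⟩ := h.iso_L.2 hZ
  obtain ⟨hcZ, hC, _⟩ := h.c_facts hc hc1
  have hcL : c ∈ L₁ := h.h₁.TL (omegaCenterOf_le T hcZ)
  refine S4_of_split (L := L₁) ψ inf_le_left ?_ hcL hc1 ?_ (fun hm => hcO hm.2)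
  · have h1 : 8 ∣ Nat.card (L₁ ⊓ OO G : Subgroup G) := by
      rw [← h.card_D]
      exact Subgroup.card_dvd_of_le (le_inf (h.D_le_T.trans h.h₁.TL) h.D_le)
    have h2 : 3 ∣ Nat.card (L₁ ⊓ OO G : Subgroup G) := by
      have h3 : Nat.card K₁ ∣ Nat.card (L₁ ⊓ OO G : Subgroup G) :=
        Subgroup.card_dvd_of_le (le_inf h.h₁.KL h.K_le)
      rw [h.p₁.card_K] at h3
      exact (Dvd.intro _ rfl).trans h3
    exact Nat.Coprime.mul_dvd_of_dvd_of_dvd (by norm_num) h1 h2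
  · intro x hx
    rw [h.e₁, ← hC, mem_centralizer_singleton_iff] at hx
    exact hx.symm

/-- Case `|Z| = 4` -/
theorem Sit.case_four {T K₁ L₁ K₂ L₂ : Subgroup G} (h : Sit T K₁ L₁ K₂ L₂)
    (hZ : Nat.card (Cfsg.omegaCenterOf T) = 4) {w c₁ c₂ : G} (hc : Cs T K₁ K₂ w c₁ c₂) (hcO : c₁ ∉ OO G) :
    Concl G := by
  have hwO : w ∈ OO G := h.W_le hc.w₁.2
  have hc2 : c₁ * c₁ = 1 := by rw [← pow_two]; exact (mem_omegaCenterOf.mp hc.c₁Z).2.2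
  have hc₂O : c₂ ∉ OO G := by
    intro hm
    apply hcO
    have e : c₁ = w * c₂⁻¹ := by rw [← hc.mul]; group
    rw [e]
    exact mul_mem hwO (inv_mem hm)
  have hT := h.card_T' hZ
  have hTO : Nat.card (T ⊓ OO G : Subgroup G) = 8 := by
    have h1 : Cfsg.wOf K₁ ⊔ Cfsg.wOf K₂ ≤ T ⊓ OO G := le_inf h.D_le_T h.D_le
    have h2 := Subgroup.card_dvd_of_le h1
    rw [h.card_D] at h2
    have h3 : T ⊓ OO G < T := by
      refine lt_of_le_of_ne inf_le_left ?_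
      intro e
      apply hcO
      have : c₁ ∈ T ⊓ OO G := by rw [e]; exact omegaCenterOf_le T hc.c₁Z
      exact this.2
    have h4 := two_mul_card_le h3
    rw [hT] at h4
    have h5 : 0 < Nat.card (T ⊓ OO G : Subgroup G) := Nat.card_pos
    obtain ⟨k, hk⟩ := h2
    have : k = 1 := by
      rw [hk] at h4 h5
      omega
    rw [hk, this]
  exact final h.L_inf hTO h.W_le h.W_le_L h.p₁.X.Wcard h.N_W (h.iso_inf hZ hc.c₁m hc.c₁n hcO)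
    h.symm.W_le h.symm.W_le_L h.p₂.X.Wcard h.symm.N_W (h.symm.iso_inf hZ hc.c₂m hc.c₂n hc₂O)

theorem main (hZN : ZNHyp G) (hO : Cfsg.pCore 2 G = ⊥) :
    (∃ K : Subgroup G, Cfsg.IsStronglyEmbedded K) ∨ Concl G := by
  have hf2 : Fact (Nat.Prime 2) := ⟨Nat.prime_two⟩
  obtain ⟨S⟩ := (inferInstance : Nonempty (Sylow 2 G))
  have hS1 : (S : Subgroup G) ≠ ⊥ := by
    intro hb
    have h1 := hZN.char2.1
    have h2 := odd_index S
    rw [hb, Subgroup.index_bot] at h2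
    exact h2 h1.two_dvd
  have hJ1 : JJ (S : Subgroup G) ≠ ⊥ := JJ_ne_bot S.2 hS1
  set M := normalizer (JJ (S : Subgroup G) : Set G) with hM
  have hMl : Cfsg.IsTwoLocal M := ⟨_, S.2.to_le (JJ_le _), hJ1, rfl⟩
  by_cases hst : Cfsg.straddlingTwoSubgroups M = ∅
  · left
    exact ⟨M, (Cfsg.Agent.S2947.result hZN.char2 hZN.solv hZN.hZ hO S M hMl le_rfl).mpr hst⟩
  · right
    obtain ⟨T, hT⟩ := exists_maxStrad (Set.nonempty_iff_ne_empty.mpr hst)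
    have hMH : MHyp G M S := ⟨hMl, le_rfl⟩
    obtain ⟨L'', hL'', hTL'', hLn⟩ := hT.1.2.2.2
    obtain ⟨K₁, _, _, _, hK₁⟩ := exists_outside hZN hMH hT hL'' hTL'' hLn
    obtain ⟨L₁, h₁⟩ := exists_pk hZN hMH hT hK₁
    obtain ⟨S', hS'⟩ := hT.1.1.exists_le_sylow
    obtain ⟨K₂, L₂, h₂, hne⟩ := second' hZN hO h₁ hS'
    have hsit : Sit T K₁ L₁ K₂ L₂ := Sit.of hZN hO h₁ h₂ hne.symm hS'
    rcases card_Z₀_cases h₁.X (by rw [← hsit.p₁.ZT]; exact hsit.p₁.Zcard) with hc | hc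
    · rw [← hsit.p₁.ZT] at hc
      exact hsit.case_two hc
    · rw [← hsit.p₁.ZT] at hc
      rcases eq_or_lt_of_le hS' with hTS | hTS
      · obtain ⟨w, c₁, c₂, hcs⟩ := hsit.exists_Cs hc
        exact hsit.case_four hc hcs (case_one hsit hc hcs S' hTS.symm)
      · obtain ⟨t, htS, htN, htL⟩ := h₁.exists_g S'.2 hTS
        have h₂' : Pk T (cj t K₁) (cj t L₁) := h₁.conj_of_mem htN
        have hne' : cj t L₁ ≠ L₁ := h₁.uq.conj_ne htL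
        have hsit' : Sit T K₁ L₁ (cj t K₁) (cj t L₁) := Sit.of hZN hO h₁ h₂' hne'.symm hS'
        obtain ⟨w, c₁, c₂, hcs⟩ := hsit'.exists_Cs hc
        have htri := tri hZN hO h₁ hS'
        have hidx : (L₁ ⊓ centralizer (Cfsg.omegaCenterOf T : Set G)).relIndex
            (normalizer (Cfsg.omegaCenterOf T : Set G)) = 2 := by
          rcases htri with ⟨_, e⟩ | ⟨_, _, e⟩ | ⟨_, _, e⟩
          · rw [← hsit.p₁.ZT, hc] at e
            omega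
          · exact absurd e hTS.ne
          · rw [← hsit.p₁.ZT] at e
            exact e
        have hD : TwoD T K₁ L₁ t w c₁ c₂ := ⟨hsit', hcs, htN, htL, hc, hidx⟩
        exact hsit'.case_four hc hcs (Cfsg.Agent.Lib.ZNQ.case_two hD hZN hO S' hTS)

end Cfsg.Agent.Lib.ZNQ
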