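import Cfsg.Agent.Lib.ZassNormal
import Cfsg.Agent.Lib.RegField
import Cfsg.Agent.Lib.FrobAction3
import Cfsg.Agent.Lib.FrobAction2
import Cfsg.Agent.Lib.ZassKernel

/-!
# 2-transitive groups with a regular normal subgroup, only the identity fixing three points (helper6)
-/

set_option autoImplicit false
open scoped Pointwise

namespace Cfsg.Agent.Lib.ZassField

open MulAction Cfsg.Agent.Lib.ZassBasic Cfsg.Agent.Lib.ZassNormal Cfsg.Agent.Lib

/-- an automorphism of prime order of a finite field with exactly two fixed points -/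
theorem card_of_ringAut {F : Type*} [Field F] [Finite F] (σ : F ≃+* F) {q : ℕ} (hq : q.Prime)
    (hσ : σ ^ q = 1) (hσ1 : σ ≠ 1) (hfix : ∀ x : F, σ x = x → x = 0 ∨ x = 1) :
    Nat.card F = 2 ^ q := by
  classical
  have := Fintype.ofFinite F
  have hord : orderOf σ = q := by
    have := Fact.mk hq
    exact orderOf_eq_prime hσ hσ1
  let G : Subgroup (RingAut F) := Subgroup.zpowers σ
  have : Finite (RingAut F) := by
    apply Finite.of_injective (fun f : RingAut F => (f : F → F))
    exact DFunLike.coe_injective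
  have : Fintype G := Fintype.ofFinite G
  have hfa : FaithfulSMul G F := ⟨fun {x y} h => Subtype.ext (RingEquiv.ext h)⟩
  have h1 := FixedPoints.finrank_eq_card G F
  have h2 : Fintype.card G = q := by
    rw [← Nat.card_eq_fintype_card, Nat.card_zpowers, hord]
  have : Fintype (FixedPoints.subfield G F) := Fintype.ofFinite _
  have h3 := Module.card_eq_pow_finrank (K := FixedPoints.subfield G F) (V := F)
  have h4 : Fintype.card (FixedPoints.subfield G F) = 2 := by
    rw [← Nat.card_eq_fintype_card, Nat.card_eq_two_iff]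
    refine ⟨0, 1, zero_ne_one, ?_⟩
    ext x
    simp only [Set.mem_insert_iff, Set.mem_singleton_iff, Set.mem_univ, iff_true]
    have h5 : σ x = x := x.2 ⟨σ, Subgroup.mem_zpowers σ⟩
    rcases hfix x h5 with h | h
    · left; exact Subtype.ext h
    · right; exact Subtype.ext h
  rw [h4, h1, h2] at h3
  rw [Nat.card_eq_fintype_card, h3]

/-- every element is a commutator with a fixed-point-free automorphism -/
theorem exists_comm {K : Type*} [Group K] [Finite K] (φ : K →* K) (h : ∀ x, φ x = x → x = 1)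
    (k : K) : ∃ x, x⁻¹ * φ x = k := by
  have hi : Function.Injective (fun x : K => x⁻¹ * φ x) := by
    intro x y hxy
    have h1 : x⁻¹ * φ x = y⁻¹ * φ y := hxy
    have h2 : φ (y * x⁻¹) = y * x⁻¹ := by
      rw [map_mul, map_inv]
      have : φ x = x * (y⁻¹ * φ y) := by rw [← h1, mul_inv_cancel_left]
      rw [this]; group
    have := h _ h2
    exact (mul_inv_eq_one.mp this).symm
  exact Finite.surjective_of_injective hi k

/-- a finite group with cyclic Sylow subgroups and a fixed-point-free automorphism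
(realised by conjugation) is abelian -/
theorem comm_of_fpf {G : Type*} [Group G] [Finite G] (K : Subgroup G) [IsZGroup K] (h : G)
    (hn : ∀ x ∈ K, h * x * h⁻¹ ∈ K) (hf : ∀ x ∈ K, h * x = x * h → x = 1) :
    ∀ x y : K, x * y = y * x := by
  classical
  have hhK : h ∈ Subgroup.normalizer (K : Set G) := by
    rw [Subgroup.mem_normalizer_iff]
    have hset : K.map (MulAut.conj h).toMonoidHom ≤ K := by
      rintro _ ⟨x, hx, rfl⟩
      exact hn x hx
    have hcard : Nat.card (K.map (MulAut.conj h).toMonoidHom) = Nat.card K :=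
      (Nat.card_congr (K.equivMapOfInjective _ (MulAut.conj h).injective).toEquiv).symm
    have heq := Subgroup.eq_of_le_of_card_ge hset hcard.ge
    intro x
    constructor
    · exact fun hx => hn x hx
    · intro hx
      rw [← heq] at hx
      obtain ⟨y, hy, hyx⟩ := hx
      have hyx' : h * y * h⁻¹ = h * x * h⁻¹ := hyx
      have : y = x := by
        have h1 := mul_right_cancel hyx'
        exact mul_left_cancel h1
      exact this ▸ hy
  let φ : K →* K := (K.normalizerMonoidHom ⟨h, hhK⟩ : MulAut K).toMonoidHom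
  have hφ : ∀ x : K, ((φ x : K) : G) = h * x * h⁻¹ := fun x => rfl
  have hφf : ∀ x, φ x = x → x = 1 := by
    intro x hx
    apply Subtype.ext
    apply hf x x.2
    rw [← mul_inv_eq_iff_eq_mul, ← hφ, hx]
  let D : Subgroup K := commutator K
  have hDc : IsCyclic D := IsZGroup.isCyclic_commutator K
  -- conjugation action on D
  let conj : MulAut K →* MulAut D :=
    { toFun := fun f => (f.subgroupMap D).trans (MulEquiv.subgroupCongr (by
        change D.map f.toMonoidHom = D
        exact Subgroup.characteristic_iff_map_eq.mp inferInstance f))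
      map_one' := by ext x; rfl
      map_mul' := fun f g => by ext x; rfl }
  have hconj : ∀ (f : MulAut K) (x : D), ((conj f x : D) : K) = f x := fun f x => rfl
  have hcommD : ∀ u v : MulAut D, u * v = v * u := by
    intro u v
    apply (IsCyclic.mulAutMulEquiv D).injective
    rw [map_mul, map_mul, mul_comm]
  let η : MulAut K := K.normalizerMonoidHom ⟨h, hhK⟩
  have hη : ∀ x, η x = φ x := fun x => rfl
  have hcen : ∀ k : K, ∀ d ∈ D, k * d = d * k := by
    intro k d hd
    obtain ⟨x, rfl⟩ := exists_comm φ hφf k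
    -- conj by x⁻¹ φ x = conj(x)⁻¹ * (η conj x η⁻¹)
    have h1 : MulAut.conj (x⁻¹ * φ x) = (MulAut.conj x)⁻¹ * (η * MulAut.conj x * η⁻¹) := by
      ext y
      rw [MulAut.conj_apply]
      simp only [MulAut.mul_apply, MulAut.conj_inv_apply, MulAut.conj_apply, map_mul, map_inv,
        MulAut.apply_inv_self]
      rw [hη]
      simp only [Subgroup.coe_mul, Subgroup.coe_inv]
      group
    have h2 : conj (MulAut.conj (x⁻¹ * φ x)) = 1 := by
      rw [h1, map_mul, map_mul, map_mul, map_inv, map_inv, hcommD (conj η) (conj (MulAut.conj x)),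
        mul_inv_cancel_right, inv_mul_cancel]
    have h3 : ((conj (MulAut.conj (x⁻¹ * φ x)) ⟨d, hd⟩ : D) : K) = d := by
      rw [h2]; rfl
    rw [hconj] at h3
    rw [MulAut.conj_apply, mul_inv_eq_iff_eq_mul] at h3
    exact h3
  have hcyc : IsCyclic (Abelianization K) := IsZGroup.isCyclic_abelianization
  have h5 : IsMulCommutative K :=
    MonoidHom.isMulCommutative_of_isCyclic_of_ker_le_center (Abelianization.of (G := K)) (by
      rw [Abelianization.ker_of]
      intro d hd
      rw [Subgroup.mem_center_iff]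
      exact fun k => hcen k d hd)
  exact fun x y => h5.is_comm.comm x y

theorem main {G Ω : Type*} [Group G] [MulAction G Ω] [Finite Ω] [FaithfulSMul G Ω]
    (h2 : IsMultiplyPretransitive G Ω 2) (h3 : Fix3 G Ω) {g0 : G} (hg0 : g0 ≠ 1) {a b : Ω}
    (hab : a ≠ b) (hga : g0 • a = a) (hgb : g0 • b = b) (R : Subgroup G) [R.Normal]
    (hRt : ∀ x y : Ω, ∃ r ∈ R, r • x = y) (hRr : ∀ r ∈ R, ∀ x : Ω, r • x = x → r = 1) :
    ∃ p : ℕ, p.Prime ∧ Nat.card Ω = 2 ^ p := by
  classical
  have hfG : Finite G := by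
    apply Finite.of_injective (MulAction.toPermHom G Ω) MulAction.toPerm_injective
  have hnt : Nontrivial Ω := ⟨a, b, hab⟩
  obtain ⟨p, hp, hexp, hcomm, hcard⟩ := reg_elem h2 R hRt hRr
  -- an element of prime order fixing a and b
  obtain ⟨q, h, hq, hq1, hh1, hha, hhb⟩ : ∃ (q : ℕ) (h : G), q.Prime ∧ h ^ q = 1 ∧ h ≠ 1 ∧
      h • a = a ∧ h • b = b := by
    have h4 : orderOf g0 ≠ 1 := by rwa [Ne, orderOf_eq_one_iff]
    obtain ⟨q, hq, hqd⟩ := Nat.exists_prime_and_dvd h4
    obtain ⟨m, hm⟩ := hqd
    refine ⟨q, g0 ^ m, hq, ?_, ?_, ?_, ?_⟩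
    · rw [← pow_mul, mul_comm, ← hm, pow_orderOf_eq_one]
    · intro h5
      have h6 := orderOf_dvd_of_pow_eq_one h5
      have h7 : 0 < orderOf g0 := orderOf_pos g0
      have h8 : 0 < m := Nat.pos_of_ne_zero (by rintro rfl; rw [mul_zero] at hm; omega)
      have h9 := Nat.le_of_dvd h8 h6
      rw [hm] at h9
      have := hq.two_le
      nlinarith
    · exact MulAction.mem_stabilizer_iff.mp (pow_mem (show g0 ∈ stabilizer G a from hga) m)
    · exact MulAction.mem_stabilizer_iff.mp (pow_mem (show g0 ∈ stabilizer G b from hgb) m)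
  have hhfix : ∀ x : Ω, h • x = x → x = a ∨ x = b := by
    intro x hx
    by_contra hcon
    push Not at hcon
    exact hh1 (h3 h a b x hab (Ne.symm hcon.2) (Ne.symm hcon.1) hha hhb hx)
  have huniq : ∀ r ∈ R, ∀ s ∈ R, r • a = s • a → r = s := by
    intro r hr s hs hrs
    have h5 : s⁻¹ * r = 1 := by
      apply hRr _ (mul_mem (inv_mem hs) hr) a
      rw [mul_smul, hrs, inv_smul_smul]
    exact (inv_mul_eq_one.mp h5).symm
  obtain ⟨n, hn, hna⟩ := hRt a b
  have hn1 : n ≠ 1 := by
    rintro rfl; rw [one_smul] at hna; exact hab hna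
  have hcomm1 : ∀ r ∈ R, h * r = r * h → r = 1 ∨ r = n := by
    intro r hr hhr
    have h5 : h • r • a = r • a := by rw [← mul_smul, hhr, mul_smul, hha]
    rcases hhfix _ h5 with h6 | h6
    · left; exact hRr r hr a h6
    · right; exact huniq r hr n hn (h6.trans hna.symm)
  have hhn : h * n = n * h := by
    have h5 : h * n * h⁻¹ = n := by
      apply huniq _ (‹R.Normal›.conj_mem n hn h) n hn
      rw [mul_smul, mul_smul, inv_smul_of_smul hha, hna, hhb]
    rwa [mul_inv_eq_iff_eq_mul] at h5
  have hnn : n * n = 1 := by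
    rcases hcomm1 (n * n) (mul_mem hn hn) (by rw [← mul_assoc, hhn, mul_assoc, hhn, mul_assoc])
      with h5 | h5
    · exact h5
    · exact absurd (mul_left_cancel (h5.trans (mul_one n).symm)) hn1
  -- the kernel of the stabiliser
  set A := stabilizer G a with hA
  let H : Subgroup A := stabilizer A b
  have hmemH : ∀ g : A, g ∈ H ↔ (g : G) • b = b := fun g => Iff.rfl
  have hAtr : ∀ x : Ω, x ≠ a → ∃ g : A, (g : G) • b = x := by
    intro x hx
    obtain ⟨g, hg1, hg2⟩ := exists_move h2 hab hx.symm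
    exact ⟨⟨g, hg1⟩, hg2⟩
  have hAa : ∀ g : A, (g : G) • a = a := fun g => g.2
  have hsm : ∀ g k : A, k ∈ MulAut.conj g • H ↔ (k : G) • ((g : G) • b) = (g : G) • b := by
    intro g k
    rw [FrobGroup.mem_conj_smul, hmemH]
    constructor
    · intro h5
      have h' : ((g : G)⁻¹ * k * g) • b = b := h5
      rwa [mul_smul, mul_smul, inv_smul_eq_iff] at h'
    · intro h5
      show ((g : G)⁻¹ * k * g) • b = b
      rwa [mul_smul, mul_smul, inv_smul_eq_iff]
  have hF : Cfsg.IsFrobeniusComplement H := by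
    refine ⟨?_, ?_, ?_⟩
    · intro h5
      have : (⟨h, hha⟩ : A) ∈ H := hhb
      rw [h5, Subgroup.mem_bot] at this
      exact hh1 (congrArg Subtype.val this)
    · intro h5
      obtain ⟨x, hx⟩ := exists_moved (Ω := Ω) hh1
      obtain ⟨g, hg⟩ := hAtr x (by rintro rfl; exact hx hha)
      have : g ∈ H := h5 ▸ Subgroup.mem_top _
      rw [hmemH, hg] at this
      rw [this] at hx
      exact hx hhb
    · intro g hg
      rw [eq_bot_iff]
      rintro k ⟨h5, h6⟩
      have h5' : (k : G) • b = b := h5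
      have h6' : (k : G) • ((g : G) • b) = (g : G) • b := (hsm g k).mp h6
      rw [Subgroup.mem_bot]
      apply Subtype.ext
      refine h3 k a b ((g : G) • b) hab (fun h => hg h.symm) ?_ k.2 h5' h6'
      intro h7
      have h8 := hAa g
      exact hab (MulAction.injective (g : G) (h8.trans h7))
  obtain ⟨K, hK, hKn, hKc⟩ := FrobThm.exists_kernel hF
  have hmemK : ∀ k : A, k ∈ K ↔ k = 1 ∨ ∀ x : Ω, x ≠ a → (k : G) • x ≠ x := by
    intro k
    have : k ∈ K ↔ k ∈ Cfsg.frobeniusKernel H := by rw [← hK]; rfl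
    rw [this, Cfsg.frobeniusKernel, Set.mem_ofPred_eq]
    constructor
    · rintro (h5 | h5)
      · exact Or.inl h5
      · right
        intro x hx
        obtain ⟨g, hgx⟩ := hAtr x hx
        have := h5 g
        rw [hsm] at this
        rwa [← hgx]
    · rintro (h5 | h5)
      · exact Or.inl h5
      · right
        intro g
        rw [hsm]
        apply h5
        intro h6
        exact hab (MulAction.injective (g : G) ((hAa g).trans h6.symm))
  -- the kernel in G
  let K' : Subgroup G := K.map A.subtype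
  have hK' : ∀ k : G, k ∈ K' ↔ k • a = a ∧ (k = 1 ∨ ∀ x : Ω, x ≠ a → k • x ≠ x) := by
    intro k
    rw [Subgroup.mem_map]
    constructor
    · rintro ⟨m, hm, rfl⟩
      refine ⟨m.2, ?_⟩
      rcases (hmemK m).mp hm with h5 | h5
      · left; rw [h5]; rfl
      · right; exact h5
    · rintro ⟨hk, h5⟩
      refine ⟨⟨k, hk⟩, (hmemK _).mpr ?_, rfl⟩
      rcases h5 with h5 | h5
      · left; exact Subtype.ext h5
      · right; exact h5
  have hKa : ∀ k ∈ K', k • a = a := fun k hk => ((hK' k).mp hk).1
  have hKfree : ∀ k ∈ K', ∀ x : Ω, x ≠ a → k • x = x → k = 1 := by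
    intro k hk x hx hkx
    rcases ((hK' k).mp hk).2 with h5 | h5
    · exact h5
    · exact absurd hkx (h5 x hx)
  have hKconj : ∀ g : G, g • a = a → ∀ k ∈ K', g * k * g⁻¹ ∈ K' := by
    intro g hg k hk
    rw [hK'] at hk ⊢
    have hgi := inv_smul_of_smul hg
    refine ⟨by rw [mul_smul, mul_smul, hgi, hk.1, hg], ?_⟩
    rcases hk.2 with h5 | h5
    · left; rw [h5]; group
    · right
      intro x hx hx2
      apply h5 (g⁻¹ • x)
      · intro h6
        apply hx
        rw [inv_smul_eq_iff, hg] at h6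
        exact h6
      · rw [mul_smul, mul_smul] at hx2
        rw [eq_inv_smul_iff, hx2]
  -- regularity of the kernel
  have hKcard : Nat.card K' + 1 = Nat.card Ω := by
    have h5 : Nat.card K' = Nat.card K :=
      (Nat.card_congr (K.equivMapOfInjective A.subtype A.subtype_injective).toEquiv).symm
    have h6 : Nat.card K * Nat.card H = Nat.card A := hKc.card_mul_card
    have h7 : H.index = Nat.card {x : Ω // x ≠ a} := by
      rw [MulAction.index_stabilizer, ← Nat.card_coe_set_eq]
      have : orbit A b = {x | x ≠ a} := by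
        ext x
        constructor
        · rintro ⟨g, rfl⟩ hx
          have hx' : (g : G) • b = a := hx
          exact hab (MulAction.injective (g : G) ((hAa g).trans hx'.symm))
        · intro hx
          obtain ⟨g, hg⟩ := hAtr x hx
          exact ⟨g, hg⟩
      rw [this]; rfl
    have h8 := H.card_mul_index
    rw [← h6, mul_comm] at h8
    have h9 : H.index = Nat.card K := Nat.eq_of_mul_eq_mul_right Nat.card_pos h8
    rw [h5, ← h9, h7]
    exact ZassKernel.card_ne a
  have hKreg : ∀ x y : Ω, x ≠ a → y ≠ a → ∃! k : K', (k : G) • x = y := by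
    intro x y hx hy
    have hf : ∀ k : K', (k : G) • x ≠ a := fun k hk =>
      hx (MulAction.injective (k : G) (hk.trans (hKa k k.2).symm))
    let f : K' → {z : Ω // z ≠ a} := fun k => ⟨(k : G) • x, hf k⟩
    have hfi : Function.Injective f := by
      intro k l hkl
      have h5 : (k : G) • x = (l : G) • x := congrArg Subtype.val hkl
      have h6 : (l : G)⁻¹ * k = 1 := by
        apply hKfree _ (mul_mem (inv_mem l.2) k.2) x hx
        rw [mul_smul, h5, inv_smul_smul]
      exact Subtype.ext (inv_mul_eq_one.mp h6).symm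
    have hfb : Function.Bijective f := by
      rw [Nat.bijective_iff_injective_and_card]
      refine ⟨hfi, ?_⟩
      have h10 := ZassKernel.card_ne a
      omega
    obtain ⟨k, hk⟩ := hfb.2 ⟨y, hy⟩
    refine ⟨k, congrArg Subtype.val hk, ?_⟩
    intro l hl
    apply hfi
    exact Subtype.ext (hl.trans (congrArg Subtype.val hk).symm)
  -- K is abelian
  have hKR : ∀ k ∈ K', ∀ r ∈ R, k * r = r * k → k ≠ 1 → r = 1 := by
    intro k hk r hr hkr hk1
    by_contra hr1
    apply hk1
    apply hKfree k hk (r • a) (fun h5 => hr1 (hRr r hr a h5))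
    rw [← mul_smul, hkr, mul_smul, hKa k hk]
  have hKN : K' ≤ Subgroup.normalizer (R : Set G) := by
    intro k hk
    rw [Subgroup.mem_normalizer_iff]
    intro x
    constructor
    · intro hx; exact ‹R.Normal›.conj_mem x hx k
    · intro hx
      have := ‹R.Normal›.conj_mem _ hx k⁻¹
      have h5 : k⁻¹ * (k * x * k⁻¹) * k⁻¹⁻¹ = x := by group
      rwa [h5] at this
  have hfpf : FrobAction.IsFPF (FrobAction2.conjAct hKN) := by
    apply FrobAction2.isFPF_conjAct
    intro k hk hk1
    rw [eq_bot_iff]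
    rintro r ⟨hr, hr2⟩
    rw [Subgroup.mem_bot]
    have h5 := Subgroup.mem_centralizer_singleton_iff.mp hr2
    exact hKR k hk r hr (by rw [h5]) hk1
  have hRcard : Nat.card R = Nat.card Ω := hcard
  have h2R : 2 ∣ Nat.card Ω := by
    rw [← hRcard]
    have h5 : orderOf (⟨n, hn⟩ : R) = 2 := by
      apply orderOf_eq_prime
      · exact Subtype.ext (by rw [sq]; exact hnn)
      · intro h5; exact hn1 (congrArg Subtype.val h5)
    rw [← h5]
    exact orderOf_dvd_natCard _
  have hKodd : ¬ 2 ∣ Nat.card K' := by omega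
  have hRnt : Nontrivial R := ⟨⟨n, hn⟩, 1, fun h5 => hn1 (congrArg Subtype.val h5)⟩
  let commR : CommGroup R := { (inferInstance : Group R) with
    mul_comm := fun x y => Subtype.ext (hcomm x x.2 y y.2) }
  have hZK : IsZGroup K' :=
    @FrobAction3.isZGroup_of_odd K' R _ commR _ hRnt _ (FrobAction2.conjAct hKN) hfpf hKodd
  have hKcomm := comm_of_fpf K' h (hKconj h hha) (by
    intro x hx hhx
    have h5 : h • x • b = x • b := by rw [← mul_smul, hhx, mul_smul, hhb]
    rcases hhfix _ h5 with h6 | h6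
    · exact absurd (MulAction.injective x ((hKa x hx).trans h6.symm)) hab
    · exact hKfree x hx b hab.symm h6)
  -- the field
  let _ : CommGroup R := commR
  let _ : CommGroup K' := { (inferInstance : Group K') with mul_comm := hKcomm }
  let _ : MulDistribMulAction K' R :=
    { smul := fun k r => ⟨k * r * (k : G)⁻¹, ‹R.Normal›.conj_mem r r.2 k⟩
      one_smul := fun r => Subtype.ext (by
        show ((1 : K') : G) * r * ((1 : K') : G)⁻¹ = r
        simp)
      mul_smul := fun k l r => Subtype.ext (by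
        show ((k * l : K') : G) * r * ((k * l : K') : G)⁻¹ = k * (l * r * (l : G)⁻¹) * (k : G)⁻¹
        rw [Subgroup.coe_mul]; group)
      smul_mul := fun k r s => Subtype.ext (by
        show (k : G) * ((r * s : R) : G) * (k : G)⁻¹ = k * r * (k : G)⁻¹ * (k * s * (k : G)⁻¹)
        rw [Subgroup.coe_mul]; group)
      smul_one := fun k => Subtype.ext (by
        show (k : G) * ((1 : R) : G) * (k : G)⁻¹ = ((1 : R) : G)
        simp) }
  have hsmul : ∀ (k : K') (r : R), ((k • r : R) : G) = k * r * (k : G)⁻¹ := fun k r => rfl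
  have hreg : ∀ r s : R, r ≠ 1 → s ≠ 1 → ∃! k : K', k • r = s := by
    intro r s hr hs
    have hra : (r : G) • a ≠ a := fun h5 => hr (Subtype.ext (hRr r r.2 a h5))
    have hsa : (s : G) • a ≠ a := fun h5 => hs (Subtype.ext (hRr s s.2 a h5))
    have hiff : ∀ k : K', k • r = s ↔ (k : G) • ((r : G) • a) = (s : G) • a := by
      intro k
      have h6 : ((k • r : R) : G) • a = (k : G) • ((r : G) • a) := by
        rw [hsmul, mul_smul, mul_smul, inv_smul_of_smul (hKa k k.2)]
      rw [← h6]
      constructor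
      · intro h5; rw [h5]
      · intro h5
        exact Subtype.ext (huniq _ (k • r).2 _ s.2 h5)
    obtain ⟨k, hk, hku⟩ := hKreg _ _ hra hsa
    exact ⟨k, (hiff k).mpr hk, fun l hl => hku l ((hiff l).mp hl)⟩
  obtain ⟨fld, φ, χ, hφ0, hφadd, hφs, hχ0, hχs⟩ := RegField.exists_field hreg
  have hFfin : Finite (RegField.Wrap R) := Finite.of_equiv _ φ
  set u : RegField.Wrap R := φ ⟨n, hn⟩ with hu
  have hu0 : u ≠ 0 := by
    intro h5
    rw [← hφ0] at h5
    exact hn1 (congrArg Subtype.val (φ.injective h5))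
  -- conjugation by h
  let c : R →* R :=
    { toFun := fun r => ⟨h * r * h⁻¹, ‹R.Normal›.conj_mem r r.2 h⟩
      map_one' := Subtype.ext (by show h * ((1 : R) : G) * h⁻¹ = ((1 : R) : G); simp)
      map_mul' := fun r s => Subtype.ext (by
        show h * ((r * s : R) : G) * h⁻¹ = h * r * h⁻¹ * (h * s * h⁻¹)
        rw [Subgroup.coe_mul]; group) }
  have hc : ∀ r : R, ((c r : R) : G) = h * r * h⁻¹ := fun r => rfl
  let hk : K' → K' := fun k => ⟨h * k * h⁻¹, hKconj h hha k k.2⟩
  have hcs : ∀ (k : K') (r : R), c (k • r) = hk k • c r := by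
    intro k r
    apply Subtype.ext
    rw [hc, hsmul, hsmul, hc]
    show h * (k * r * (k : G)⁻¹) * h⁻¹ = h * k * h⁻¹ * (h * r * h⁻¹) * (h * k * h⁻¹)⁻¹
    group
  let σ : RegField.Wrap R → RegField.Wrap R := fun x => φ (c (φ.symm (u * x))) * u⁻¹
  have hcn : c ⟨n, hn⟩ = ⟨n, hn⟩ := by
    apply Subtype.ext
    rw [hc]
    show h * n * h⁻¹ = n
    rw [hhn, mul_inv_cancel_right]
  have hσ1 : σ 1 = 1 := by
    show φ (c (φ.symm (u * 1))) * u⁻¹ = 1
    rw [mul_one, hu, Equiv.symm_apply_apply, hcn, mul_inv_cancel₀ hu0]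
  have hφsym : ∀ x y, φ.symm (x + y) = φ.symm x * φ.symm y := by
    intro x y
    apply φ.injective
    rw [hφadd, Equiv.apply_symm_apply, Equiv.apply_symm_apply, Equiv.apply_symm_apply]
  have hσadd : ∀ x y, σ (x + y) = σ x + σ y := by
    intro x y
    show φ (c (φ.symm (u * (x + y)))) * u⁻¹ = φ (c (φ.symm (u * x))) * u⁻¹ + φ (c (φ.symm (u * y))) * u⁻¹
    rw [mul_add, hφsym, map_mul, hφadd, add_mul]
  have hσmul' : ∀ (k : K') (x : RegField.Wrap R), σ (χ k * x) = χ (hk k) * σ x := by
    intro k x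
    show φ (c (φ.symm (u * (χ k * x)))) * u⁻¹ = χ (hk k) * (φ (c (φ.symm (u * x))) * u⁻¹)
    have h5 : φ.symm (u * (χ k * x)) = k • φ.symm (u * x) := by
      apply φ.injective
      rw [hφs, Equiv.apply_symm_apply, Equiv.apply_symm_apply]; ring
    rw [h5, hcs, hφs, mul_assoc]
  have hσ0 : σ 0 = 0 := by
    have := hσadd 0 0
    rw [add_zero] at this
    simpa using this
  have hσmul : ∀ x y, σ (x * y) = σ x * σ y := by
    intro x y
    by_cases hx : x = 0
    · rw [hx, zero_mul, hσ0, zero_mul]
    · obtain ⟨k, rfl⟩ := hχs x hx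
      rw [hσmul']
      have := hσmul' k 1
      rw [mul_one, hσ1, mul_one] at this
      rw [this]
  let σr : RegField.Wrap R →+* RegField.Wrap R :=
    { toFun := σ, map_one' := hσ1, map_mul' := hσmul, map_zero' := hσ0, map_add' := hσadd }
  let σe : RegField.Wrap R ≃+* RegField.Wrap R :=
    RingEquiv.ofBijective σr (Finite.injective_iff_bijective.mp σr.injective)
  have hσe : ∀ x, σe x = σ x := fun x => rfl
  have hiter : ∀ (m : ℕ) (x : RegField.Wrap R),
      (σe ^ m) x = φ ((⇑c)^[m] (φ.symm (u * x))) * u⁻¹ := by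
    intro m
    induction m with
    | zero =>
      intro x
      show x = φ (φ.symm (u * x)) * u⁻¹
      rw [Equiv.apply_symm_apply, mul_comm u x, mul_inv_cancel_right₀ hu0]
    | succ m ih =>
      intro x
      rw [pow_succ', Function.iterate_succ_apply']
      show σe ((σe ^ m) x) = φ (c ((⇑c)^[m] (φ.symm (u * x)))) * u⁻¹
      rw [hσe, ih]
      show φ (c (φ.symm (u * (φ ((⇑c)^[m] (φ.symm (u * x))) * u⁻¹)))) * u⁻¹ = _
      have : u * (φ ((⇑c)^[m] (φ.symm (u * x))) * u⁻¹) = φ ((⇑c)^[m] (φ.symm (u * x))) := by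
        rw [mul_comm, mul_assoc, inv_mul_cancel₀ hu0, mul_one]
      rw [this, Equiv.symm_apply_apply]
  have hcpow : ∀ (m : ℕ) (r : R), (((⇑c)^[m] r : R) : G) = h ^ m * r * (h ^ m)⁻¹ := by
    intro m
    induction m with
    | zero => intro r; simp
    | succ m ih =>
      intro r
      rw [Function.iterate_succ_apply', hc, ih, pow_succ']; group
  refine ⟨q, hq, ?_⟩
  rw [← hRcard, Nat.card_congr φ]
  apply card_of_ringAut σe hq
  · apply RingEquiv.ext
    intro x
    rw [hiter]
    have : (⇑c)^[q] (φ.symm (u * x)) = φ.symm (u * x) := by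
      apply Subtype.ext
      rw [hcpow, hq1]; simp
    rw [this, Equiv.apply_symm_apply, mul_comm u x, mul_inv_cancel_right₀ hu0]
    rfl
  · intro h5
    -- σ = 1 means h centralises R
    have h6 : ∀ r : R, h * (r : G) = r * h := by
      intro r
      have h7 : σ (φ r * u⁻¹) = φ r * u⁻¹ := by
        rw [← hσe, h5]; rfl
      have h8 : φ (c (φ.symm (u * (φ r * u⁻¹)))) * u⁻¹ = φ r * u⁻¹ := h7
      have h9 : u * (φ r * u⁻¹) = φ r := by rw [mul_comm, mul_assoc, inv_mul_cancel₀ hu0, mul_one]
      rw [h9, Equiv.symm_apply_apply] at h8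
      have h10 := φ.injective (mul_right_cancel₀ (inv_ne_zero hu0) h8)
      have h11 : h * (r : G) * h⁻¹ = r := congrArg Subtype.val h10
      rwa [mul_inv_eq_iff_eq_mul] at h11
    apply hh1
    apply FaithfulSMul.eq_of_smul_eq_smul (α := Ω)
    intro x
    obtain ⟨r, hr, hrx⟩ := hRt a x
    rw [← hrx, ← mul_smul, h6 ⟨r, hr⟩, mul_smul, hha, one_smul]
  · intro x hx
    rw [hσe] at hx
    have h6 : φ (c (φ.symm (u * x))) * u⁻¹ = x := hx
    rw [mul_inv_eq_iff_eq_mul₀ hu0, mul_comm x u] at h6
    have h7 : c (φ.symm (u * x)) = φ.symm (u * x) := by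
      apply φ.injective
      rw [h6, Equiv.apply_symm_apply]
    have h8 : h * (φ.symm (u * x) : G) * h⁻¹ = (φ.symm (u * x) : G) := congrArg Subtype.val h7
    rw [mul_inv_eq_iff_eq_mul] at h8
    rcases hcomm1 _ (φ.symm (u * x)).2 h8 with h9 | h9
    · left
      have h10 : φ.symm (u * x) = 1 := Subtype.ext h9
      rw [Equiv.symm_apply_eq, hφ0] at h10
      exact (mul_eq_zero.mp h10).resolve_left hu0
    · right
      have h10 : φ.symm (u * x) = ⟨n, hn⟩ := Subtype.ext h9
      rw [Equiv.symm_apply_eq, ← hu] at h10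
      exact mul_left_cancel₀ hu0 (h10.trans (mul_one u).symm)

end Cfsg.Agent.Lib.ZassField
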